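import Mathlib
import Cfsg.Prelude.Def_Solvable
import Cfsg.Agent.Lib_helper1_Basic
import Cfsg.Agent.Lib_helper1_SZConj
import Cfsg.Agent.Lib_helper1_Primitive
import Cfsg.Agent.Lib_helper1_Hall
import Cfsg.Agent.Lib_helper2_Comp
import Cfsg.Agent.Lib_helper5_FrobKer
import Cfsg.Agent.Lib_helper5_FrobFix
import Cfsg.Agent.Lib_helper9_Frob

set_option autoImplicit false

namespace Cfsg.Agent.Lib_helper1_AbMax

open Cfsg Cfsg.Agent.Lib_helper1_Basic
open scoped Pointwise commutatorElement

universe u

theorem comm_eq_bot_of_comm {G : Type*} [Group G] (A : Subgroup G)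
    (hA : ∀ a ∈ A, ∀ b ∈ A, a * b = b * a) : ⁅A, A⁆ = ⊥ := by
  rw [eq_bot_iff, Subgroup.commutator_le]
  intro a ha b hb
  rw [Subgroup.mem_bot, commutatorElement_eq_one_iff_mul_comm]
  exact hA a ha b hb

/-- a normal abelian maximal subgroup: the second derived subgroup is trivial -/
theorem derived_two_of_normal {G : Type*} [Group G] (A : Subgroup G) (hA : IsCoatom A)
    (hc : ∀ a ∈ A, ∀ b ∈ A, a * b = b * a) [A.Normal] : derivedSeries G 2 = ⊥ := by
  have hq : ∀ x y : G ⧸ A, x * y = y * x := by
    intro x y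
    by_cases hx : x = 1
    · rw [hx, one_mul, mul_one]
    · have hz : Subgroup.zpowers x = ⊤ := by
        have h1 : A < (Subgroup.zpowers x).comap (QuotientGroup.mk' A) := by
          refine lt_of_le_of_ne (Cfsg.Agent.Lib_helper1_Hall.le_comap_mk'_of_le A _) ?_
          intro h
          obtain ⟨g, rfl⟩ := QuotientGroup.mk_surjective x
          have hg : g ∈ (Subgroup.zpowers (QuotientGroup.mk g : G ⧸ A)).comap
              (QuotientGroup.mk' A) := Subgroup.mem_zpowers _
          rw [← h] at hg
          exact hx ((QuotientGroup.eq_one_iff g).mpr hg)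
        have h2 := hA.2 _ h1
        rw [← Subgroup.map_comap_eq_self_of_surjective (QuotientGroup.mk'_surjective A)
          (Subgroup.zpowers x), h2, Subgroup.map_top_of_surjective _ (QuotientGroup.mk'_surjective A)]
      have hy : y ∈ Subgroup.zpowers x := by rw [hz]; trivial
      obtain ⟨k, rfl⟩ := Subgroup.mem_zpowers_iff.mp hy
      exact ((Commute.refl x).zpow_right k).eq
  have h1 : derivedSeries G 1 ≤ A := by
    rw [derivedSeries_succ, derivedSeries_zero, Subgroup.commutator_le]
    intro g _ h _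
    apply (QuotientGroup.eq_one_iff _).mp
    show (QuotientGroup.mk' A) ⁅g, h⁆ = 1
    rw [map_commutatorElement, commutatorElement_eq_one_iff_mul_comm]
    exact hq _ _
  rw [derivedSeries_succ, eq_bot_iff, ← comm_eq_bot_of_comm A hc]
  exact Subgroup.commutator_mono h1 h1

theorem kernel_le_of_normalized {X : Type*} [Group X] (H K M : Subgroup X) (hH : IsCoatom H)
    (hKH : K ⊓ H = ⊥) (hMK : M ≤ K) (hM : M ≠ ⊥)
    (hHM : H ≤ Subgroup.normalizer (M : Set X)) : K ≤ M := by
  have hMH : ¬ M ≤ H := by
    intro h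
    have : M ≤ K ⊓ H := le_inf hMK h
    rw [hKH, le_bot_iff] at this
    exact hM this
  have htop : H ⊔ M = ⊤ :=
    hH.2 _ (lt_of_le_of_ne le_sup_left (fun h => hMH (le_sup_right.trans h.symm.le)))
  intro k hk
  have hk' : k ∈ H ⊔ M := by rw [htop]; trivial
  obtain ⟨h, hh, m, hm, rfl⟩ := Cfsg.Agent.Lib_helper2_Comp.mem_sup_of_le_normalizer hHM hk'
  have h1 : h ∈ K ⊓ H := by
    refine ⟨?_, hh⟩
    have := K.mul_mem hk (K.inv_mem (hMK hm))
    simpa using this
  rw [hKH, Subgroup.mem_bot] at h1
  rw [h1, one_mul]; exact hm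

/-- In a Frobenius group whose complement is a maximal subgroup, the kernel is abelian. -/
theorem kernel_abelian {X : Type u} [Group X] [Finite X] (H : Subgroup X) (hHc : IsCoatom H)
    (hF : IsFrobeniusComplement H) (K : Subgroup X) (hK : (K : Set X) = frobeniusKernel H)
    (hKn : K.Normal) (hKH : Subgroup.IsComplement' K H) :
    ∀ a ∈ K, ∀ b ∈ K, a * b = b * a := by
  classical
  haveI := hKn
  have hdisj : K ⊓ H = ⊥ := disjoint_iff.mp hKH.disjoint
  have hKcard : Nat.card K = H.index := Cfsg.Agent.Lib_helper9_Frob.card_kernel_subgroup hF hK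
  have hcop : Nat.Coprime H.index (Nat.card H) := Cfsg.Agent.Lib_helper9_Frob.coprime_index_card hF
  have hK1 : K ≠ ⊥ := by
    intro h
    have := hKH.sup_eq_top
    rw [h, bot_sup_eq] at this
    exact hF.2.1 this
  have hK2 : Nat.card K ≠ 1 := fun h => hK1 (Subgroup.card_eq_one.mp h)
  obtain ⟨r, hr, hrd⟩ := Nat.exists_prime_and_dvd hK2
  haveI : Fact r.Prime := ⟨hr⟩
  obtain ⟨P₀⟩ : Nonempty (Sylow r ↥K) := inferInstance
  have hfrat : Subgroup.normalizer (((P₀ : Subgroup ↥K).map K.subtype : Subgroup X) : Set X) ⊔ K = ⊤ :=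
    Sylow.normalizer_sup_eq_top P₀
  have hR1 : (P₀ : Subgroup ↥K).map K.subtype ≠ ⊥ := by
    rw [Ne, Subgroup.map_eq_bot_iff_of_injective _ K.subtype_injective]
    exact P₀.ne_bot_of_dvd_card hrd
  have hRr : IsPGroup r ↥((P₀ : Subgroup ↥K).map K.subtype) := P₀.isPGroup'.map _
  have hRK : (P₀ : Subgroup ↥K).map K.subtype ≤ K := Subgroup.map_subtype_le _
  generalize (P₀ : Subgroup ↥K).map K.subtype = R at hfrat hR1 hRr hRK
  have hidx : (K.subgroupOf (Subgroup.normalizer (R : Set X))).index = Nat.card H := by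
    have h1 : K.relIndex (Subgroup.normalizer (R : Set X)) =
        K.relIndex (Subgroup.normalizer (R : Set X) ⊔ K) :=
      (Subgroup.relIndex_sup_right (Subgroup.normalizer (R : Set X)) K).symm
    rw [hfrat, Subgroup.relIndex_top_right] at h1
    have h2 : K.index = Nat.card H := hKH.symm.index_eq_card
    exact h1.trans h2
  have hcop' : Nat.Coprime (Nat.card (K.subgroupOf (Subgroup.normalizer (R : Set X))))
      (K.subgroupOf (Subgroup.normalizer (R : Set X))).index := by
    rw [hidx]
    refine Nat.Coprime.coprime_dvd_left ?_ hcop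
    rw [← hKcard]
    exact Cfsg.Agent.Lib_helper1_SZConj.card_subgroupOf_dvd K _
  obtain ⟨L', hL'⟩ := Subgroup.exists_right_complement'_of_coprime hcop'
  have hL'card : Nat.card L' = Nat.card H := by
    rw [← hidx]; exact hL'.symm.index_eq_card.symm
  have hLcard : Nat.card (L'.map (Subgroup.normalizer (R : Set X)).subtype) = Nat.card H := by
    rw [← Nat.card_congr (L'.equivMapOfInjective (Subgroup.normalizer (R : Set X)).subtype
      (Subgroup.subtype_injective _)).toEquiv]
    exact hL'card
  have hLN : L'.map (Subgroup.normalizer (R : Set X)).subtype ≤ Subgroup.normalizer (R : Set X) :=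
    Subgroup.map_subtype_le L'
  obtain ⟨x, hx⟩ := Cfsg.Agent.Lib_helper5_FrobFix.le_conj_of_card_dvd H hF _
    (by rw [hLcard])
  have hLeq : L'.map (Subgroup.normalizer (R : Set X)).subtype = MulAut.conj x • H := by
    apply Subgroup.eq_of_le_of_card_ge hx
    rw [hLcard, ← Nat.card_congr (Subgroup.equivSMul (MulAut.conj x) H).toEquiv]
  have hHN : H ≤ Subgroup.normalizer ((MulAut.conj x⁻¹ • R : Subgroup X) : Set X) := by
    rw [Cfsg.Agent.Lib_helper1_Primitive.normalizer_conj_smul]
    intro h hh
    rw [mem_conj_smul]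
    apply hLN
    rw [hLeq, mem_conj_smul]
    have : x⁻¹ * (x⁻¹⁻¹ * h * x⁻¹) * x = h := by group
    rw [this]; exact hh
  have hR'K : MulAut.conj x⁻¹ • R ≤ K := by
    intro y hy
    rw [mem_conj_smul] at hy
    have h1 : x⁻¹⁻¹ * y * x⁻¹ ∈ K := hRK hy
    have := hKn.conj_mem _ h1 x⁻¹
    have e : x⁻¹ * (x⁻¹⁻¹ * y * x⁻¹) * x⁻¹⁻¹ = y := by group
    rwa [e] at this
  have hR'1 : MulAut.conj x⁻¹ • R ≠ ⊥ := by
    intro h
    apply hR1
    rw [eq_bot_iff] at h ⊢
    intro y hy
    have h1 : x⁻¹ * y * x⁻¹⁻¹ ∈ MulAut.conj x⁻¹ • R := conj_mem_conj_smul R x⁻¹ y hy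
    have h2 := h h1
    rw [Subgroup.mem_bot] at h2 ⊢
    have e : y = x⁻¹⁻¹ * (x⁻¹ * y * x⁻¹⁻¹) * x⁻¹ := by group
    rw [e, h2]; group
  have hKR' : K ≤ MulAut.conj x⁻¹ • R :=
    kernel_le_of_normalized H K _ hHc hdisj hR'K hR'1 hHN
  have hKr : IsPGroup r ↥K := by
    have hR'r : IsPGroup r ↥(MulAut.conj x⁻¹ • R : Subgroup X) :=
      hRr.of_equiv (Subgroup.equivSMul (MulAut.conj x⁻¹) R)
    exact hR'r.to_le hKR'
  haveI : Nontrivial ↥K := (Subgroup.nontrivial_iff_ne_bot K).mpr hK1
  have hZ1 : (Subgroup.center ↥K).map K.subtype ≠ ⊥ := by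
    rw [Ne, Subgroup.map_eq_bot_iff_of_injective _ K.subtype_injective]
    exact (hKr.bot_lt_center).ne'
  haveI hZn : ((Subgroup.center ↥K).map K.subtype).Normal :=
    ConjAct.normal_of_characteristic_of_normal
  have hKZ : K ≤ (Subgroup.center ↥K).map K.subtype :=
    kernel_le_of_normalized H K _ hHc hdisj (Subgroup.map_subtype_le _) hZ1
      (by rw [Subgroup.normalizer_eq_top]; exact le_top)
  intro a ha b hb
  obtain ⟨z, hz, hza⟩ := hKZ ha
  have h1 := Subgroup.mem_center_iff.mp hz ⟨b, hb⟩
  have h2 := congrArg Subtype.val h1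
  rw [← hza]
  exact h2.symm

/-- **Herstein**: a finite group with an abelian maximal subgroup has derived length at most 3. -/
theorem derived_three {G : Type u} [Group G] [Finite G] (A : Subgroup G) (hA : IsCoatom A)
    (hc : ∀ a ∈ A, ∀ b ∈ A, a * b = b * a) : derivedSeries G 3 = ⊥ := by
  by_cases hn : A.Normal
  · haveI := hn
    rw [derivedSeries_succ, derived_two_of_normal A hA hc]
    exact comm_eq_bot_of_comm ⊥ (by
      intro a ha b hb
      rw [Subgroup.mem_bot] at ha hb
      rw [ha, hb])
  · have hNA : Subgroup.normalizer (A : Set G) = A := by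
      by_contra hne
      have hlt : A < Subgroup.normalizer (A : Set G) :=
        lt_of_le_of_ne Subgroup.le_normalizer (Ne.symm hne)
      exact hn (Subgroup.normalizer_eq_top_iff.mp (hA.2 _ hlt))
    have hZA : Subgroup.center G ≤ A := by
      by_contra hnle
      have htop : A ⊔ Subgroup.center G = ⊤ :=
        hA.2 _ (lt_of_le_of_ne le_sup_left (fun h => hnle (le_sup_right.trans h.symm.le)))
      apply hn
      have h1 : Subgroup.center G ≤ Subgroup.normalizer (A : Set G) := by
        intro z hz
        rw [Subgroup.mem_normalizer_iff]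
        intro y
        have : z * y * z⁻¹ = y := by
          rw [← Subgroup.mem_center_iff.mp hz y, mul_inv_cancel_right]
        rw [this]
      have : Subgroup.normalizer (A : Set G) = ⊤ :=
        top_le_iff.mp (htop ▸ sup_le Subgroup.le_normalizer h1)
      exact Subgroup.normalizer_eq_top_iff.mp this
    have hint : ∀ g : G, g ∉ A → A ⊓ (MulAut.conj g • A) ≤ Subgroup.center G := by
      intro g hg x hx
      have hne : ¬ MulAut.conj g • A ≤ A := by
        intro hle
        apply hg
        rw [← hNA]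
        apply mem_normalizer_of_conj_le
        intro m hm
        exact hle (conj_mem_conj_smul A g m hm)
      have htop : A ⊔ MulAut.conj g • A = ⊤ :=
        hA.2 _ (lt_of_le_of_ne le_sup_left (fun h => hne (le_sup_right.trans h.symm.le)))
      have hcent : A ⊔ MulAut.conj g • A ≤ Subgroup.centralizer ({x} : Set G) := by
        apply sup_le
        · intro a ha
          rw [Subgroup.mem_centralizer_singleton_iff]
          exact hc a ha x hx.1
        · intro b hb
          rw [Subgroup.mem_centralizer_singleton_iff]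
          rw [mem_conj_smul] at hb
          have hx2 := (mem_conj_smul A g x).mp hx.2
          have h1 := hc _ hb _ hx2
          calc b * x = g * ((g⁻¹ * b * g) * (g⁻¹ * x * g)) * g⁻¹ := by group
            _ = g * ((g⁻¹ * x * g) * (g⁻¹ * b * g)) * g⁻¹ := by rw [h1]
            _ = x * b := by group
      rw [htop] at hcent
      rw [Subgroup.mem_center_iff]
      intro y
      have h1 := hcent (Subgroup.mem_top y)
      rw [Subgroup.mem_centralizer_singleton_iff] at h1
      exact h1
    have hcomap : (A.map (QuotientGroup.mk' (Subgroup.center G))).comap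
        (QuotientGroup.mk' (Subgroup.center G)) = A := by
      rw [Subgroup.comap_map_eq, QuotientGroup.ker_mk', sup_eq_left.mpr hZA]
    have hAbc : IsCoatom (A.map (QuotientGroup.mk' (Subgroup.center G))) := by
      constructor
      · intro h
        have : A = ⊤ := by rw [← hcomap, h, Subgroup.comap_top]
        exact hA.1 this
      · intro L hL
        have h1 : A < L.comap (QuotientGroup.mk' (Subgroup.center G)) := by
          rw [← hcomap]
          refine lt_of_le_of_ne (Subgroup.comap_mono hL.le) ?_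
          intro h
          have h2 := congrArg (Subgroup.map (QuotientGroup.mk' (Subgroup.center G))) h
          rw [Subgroup.map_comap_eq_self_of_surjective (QuotientGroup.mk'_surjective _),
            Subgroup.map_comap_eq_self_of_surjective (QuotientGroup.mk'_surjective _)] at h2
          exact hL.ne h2
        have h2 := hA.2 _ h1
        rw [← Subgroup.map_comap_eq_self_of_surjective (QuotientGroup.mk'_surjective _) L, h2,
          Subgroup.map_top_of_surjective _ (QuotientGroup.mk'_surjective _)]
    have hF : IsFrobeniusComplement (A.map (QuotientGroup.mk' (Subgroup.center G))) := by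
      refine ⟨?_, hAbc.1, ?_⟩
      · intro h
        have hAZ : A ≤ Subgroup.center G := by
          rw [← hcomap, h, MonoidHom.comap_bot, QuotientGroup.ker_mk']
        have : A = Subgroup.center G := le_antisymm hAZ hZA
        apply hn; rw [this]; infer_instance
      · intro gbar hg
        obtain ⟨g, rfl⟩ := QuotientGroup.mk'_surjective (Subgroup.center G) gbar
        have hgA : g ∉ A := fun h => hg ⟨g, h, rfl⟩
        rw [eq_bot_iff]
        rintro xbar ⟨hx1, hx2⟩
        obtain ⟨a, ha, rfl⟩ := hx1
        have hx2' : (QuotientGroup.mk' (Subgroup.center G)) a ∈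
            MulAut.conj ((QuotientGroup.mk' (Subgroup.center G)) g) •
              A.map (QuotientGroup.mk' (Subgroup.center G)) := hx2
        rw [mem_conj_smul] at hx2'
        have h3 : g⁻¹ * a * g ∈ (A.map (QuotientGroup.mk' (Subgroup.center G))).comap
            (QuotientGroup.mk' (Subgroup.center G)) := by
          rw [Subgroup.mem_comap, map_mul, map_mul, map_inv]
          exact hx2'
        rw [hcomap] at h3
        have h4 : a ∈ A ⊓ MulAut.conj g • A := ⟨ha, (mem_conj_smul A g a).mpr h3⟩
        have h5 := hint g hgA h4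
        rw [Subgroup.mem_bot]
        exact (QuotientGroup.eq_one_iff a).mpr h5
    obtain ⟨K, hK, hKn, hKc⟩ := Cfsg.Agent.Lib_helper5_FrobKer.frobenius_kernel _ hF
    have hKab := kernel_abelian _ hAbc hF K hK hKn hKc
    haveI := hKn
    have hAbcomm : ∀ a ∈ A.map (QuotientGroup.mk' (Subgroup.center G)),
        ∀ b ∈ A.map (QuotientGroup.mk' (Subgroup.center G)), a * b = b * a := by
      rintro _ ⟨a, ha, rfl⟩ _ ⟨b, hb, rfl⟩
      rw [← map_mul, ← map_mul, hc a ha b hb]
    have hmk : ∀ k ∈ K, ∀ a, (QuotientGroup.mk' K) (k * a) = (QuotientGroup.mk' K) a := by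
      intro k hk a
      have h1 : (QuotientGroup.mk' K) k = 1 := (QuotientGroup.eq_one_iff k).mpr hk
      rw [map_mul, h1, one_mul]
    have hD1 : derivedSeries (G ⧸ Subgroup.center G) 1 ≤ K := by
      rw [derivedSeries_succ, derivedSeries_zero, Subgroup.commutator_le]
      intro u _ v _
      obtain ⟨k₁, hk₁, a₁, ha₁, rfl⟩ := exists_mul_of_sup_eq_top K _ hKc.sup_eq_top u
      obtain ⟨k₂, hk₂, a₂, ha₂, rfl⟩ := exists_mul_of_sup_eq_top K _ hKc.sup_eq_top v
      apply (QuotientGroup.eq_one_iff _).mp
      show (QuotientGroup.mk' K) ⁅k₁ * a₁, k₂ * a₂⁆ = 1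
      rw [map_commutatorElement, hmk k₁ hk₁, hmk k₂ hk₂, ← map_commutatorElement,
        commutatorElement_eq_one_iff_mul_comm.mpr (hAbcomm a₁ ha₁ a₂ ha₂), map_one]
    have hD2 : derivedSeries (G ⧸ Subgroup.center G) 2 = ⊥ := by
      rw [derivedSeries_succ, eq_bot_iff, ← comm_eq_bot_of_comm K hKab]
      exact Subgroup.commutator_mono hD1 hD1
    have hD2G : derivedSeries G 2 ≤ Subgroup.center G := by
      have h1 := map_derivedSeries_eq (f := QuotientGroup.mk' (Subgroup.center G))
        (QuotientGroup.mk'_surjective _) 2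
      rw [hD2, Subgroup.map_eq_bot_iff, QuotientGroup.ker_mk'] at h1
      exact h1
    rw [derivedSeries_succ, eq_bot_iff, ← comm_eq_bot_of_comm (Subgroup.center G) (by
      intro a ha b _
      exact (Subgroup.mem_center_iff.mp ha b).symm)]
    exact Subgroup.commutator_mono hD2G hD2G

end Cfsg.Agent.Lib_helper1_AbMax
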