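import Mathlib
import Cfsg.Prelude
import Cfsg.Agent.Lib_helper7_Sylow

set_option autoImplicit false

namespace Cfsg.Agent.Lib_helper1_AbSylowFocal

/-- with an abelian Sylow `p`-subgroup, `G' ≤ O^p(G)` -/
theorem commutator_le_pResidual {G : Type*} [Group G] [Finite G] {p : ℕ} [Fact p.Prime]
    (P : Sylow p G) (hP : IsMulCommutative P) : commutator G ≤ Cfsg.pResidual p G := by
  haveI := hP
  haveI := Cfsg.Agent.Lib_helper7_Sylow.pResidual_normal (K := G) p
  rw [← Subgroup.Normal.quotient_commutative_iff_commutator_le]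
  refine ⟨⟨fun a b => ?_⟩⟩
  obtain ⟨a, rfl⟩ := QuotientGroup.mk_surjective a
  obtain ⟨b, rfl⟩ := QuotientGroup.mk_surjective b
  obtain ⟨s, hs, x, hx, rfl⟩ := Cfsg.Agent.Lib_helper7_Sylow.exists_mul_pResidual p P a
  obtain ⟨t, ht, y, hy, rfl⟩ := Cfsg.Agent.Lib_helper7_Sylow.exists_mul_pResidual p P b
  have e1 : ((s * x : G) : G ⧸ Cfsg.pResidual p G) = (s : G ⧸ Cfsg.pResidual p G) := by
    rw [QuotientGroup.mk_mul, (QuotientGroup.eq_one_iff x).mpr hx, mul_one]
  have e2 : ((t * y : G) : G ⧸ Cfsg.pResidual p G) = (t : G ⧸ Cfsg.pResidual p G) := by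
    rw [QuotientGroup.mk_mul, (QuotientGroup.eq_one_iff y).mpr hy, mul_one]
  rw [e1, e2, ← QuotientGroup.mk_mul, ← QuotientGroup.mk_mul]
  have h3 : s * t = t * s :=
    congrArg Subtype.val (mul_comm' (⟨s, hs⟩ : P) ⟨t, ht⟩)
  rw [h3]

/-- `O^p(G)` lies in the kernel of the focal transfer -/
theorem pResidual_le_ker_transferFocal {G : Type*} [Group G] [Finite G] {p : ℕ} [Fact p.Prime]
    (T : Sylow p G) : Cfsg.pResidual p G ≤ (T : Subgroup G).transferFocal.ker := by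
  unfold Cfsg.pResidual
  rw [Subgroup.closure_le]
  intro g hg
  have hg' : Nat.Coprime (orderOf g) p := hg
  rw [SetLike.mem_coe, MonoidHom.mem_ker]
  have hQ : IsPGroup p ((T : Subgroup G) ⧸ (T : Subgroup G).focalSubgroupOf) :=
    T.2.to_quotient _
  obtain ⟨k, hk⟩ := hQ ((T : Subgroup G).transferFocal g)
  have h1 : orderOf ((T : Subgroup G).transferFocal g) ∣ p ^ k := orderOf_dvd_of_pow_eq_one hk
  have h2 : orderOf ((T : Subgroup G).transferFocal g) ∣ orderOf g := orderOf_map_dvd _ g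
  exact orderOf_eq_one_iff.mp (Nat.eq_one_of_dvd_coprimes (Nat.Coprime.pow_right k hg') h2 h1)

/-- focal subgroup of an abelian Sylow subgroup -/
theorem focal_le_commutator_normalizer {G : Type*} [Group G] [Finite G] {p : ℕ} [Fact p.Prime]
    (T : Sylow p G) (hT : IsMulCommutative T) :
    (T : Subgroup G).focalSubgroup ≤
      ⁅(T : Subgroup G), Subgroup.normalizer ((T : Subgroup G) : Set G)⁆ := by
  haveI := hT
  rw [Subgroup.focalSubgroup_def, Subgroup.closure_le]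
  rintro g ⟨hgT, y, hy, u, rfl⟩
  rw [commutatorElement_def] at hgT
  have h3 : u * y⁻¹ * u⁻¹ ∈ (T : Subgroup G) := by
    have e : u * y⁻¹ * u⁻¹ = y⁻¹ * (y * u * y⁻¹ * u⁻¹) := by group
    rw [e]
    exact Subgroup.mul_mem _ (Subgroup.inv_mem _ hy) hgT
  obtain ⟨n, hn, hn'⟩ := Sylow.conj_eq_normalizer_conj_of_mem T y⁻¹ u⁻¹
    (Subgroup.inv_mem _ hy)
    (show u⁻¹⁻¹ * y⁻¹ * u⁻¹ ∈ (T : Subgroup G) by simpa using h3)
  have e2 : y * u * y⁻¹ * u⁻¹ = y * n⁻¹ * y⁻¹ * n⁻¹⁻¹ := by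
    calc y * u * y⁻¹ * u⁻¹ = y * (u⁻¹⁻¹ * y⁻¹ * u⁻¹) := by group
      _ = y * (n⁻¹ * y⁻¹ * n) := by rw [hn']
      _ = y * n⁻¹ * y⁻¹ * n⁻¹⁻¹ := by group
  have h4 := Subgroup.commutator_mem_commutator (H₁ := (T : Subgroup G))
    (H₂ := Subgroup.normalizer ((T : Subgroup G) : Set G)) hy (Subgroup.inv_mem _ hn)
  rw [commutatorElement_def, ← e2] at h4
  rw [SetLike.mem_coe, commutatorElement_def]
  exact h4

theorem commutator_normalizer_le {G : Type*} [Group G] (T : Subgroup G) :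
    ⁅T, Subgroup.normalizer (T : Set G)⁆ ≤ T := by
  rw [Subgroup.commutator_le]
  intro t ht n hn
  rw [commutatorElement_def]
  have h1 : n * t⁻¹ * n⁻¹ ∈ T := (Subgroup.mem_normalizer_iff.mp hn _).mp (Subgroup.inv_mem _ ht)
  have e : t * n * t⁻¹ * n⁻¹ = t * (n * t⁻¹ * n⁻¹) := by group
  rw [e]
  exact Subgroup.mul_mem _ ht h1

/-- `T ∩ O^p(G) = [T, N_G(T)]` for an abelian Sylow `p`-subgroup -/
theorem inf_pResidual {G : Type*} [Group G] [Finite G] {p : ℕ} [Fact p.Prime]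
    (T : Sylow p G) (hT : IsMulCommutative T) :
    (T : Subgroup G) ⊓ Cfsg.pResidual p G =
      ⁅(T : Subgroup G), Subgroup.normalizer ((T : Subgroup G) : Set G)⁆ := by
  apply le_antisymm
  · rintro x ⟨hxT, hxR⟩
    have h1 : x ∈ (T : Subgroup G).transferFocal.ker ⊓ (T : Subgroup G) :=
      ⟨pResidual_le_ker_transferFocal T hxR, hxT⟩
    rw [Subgroup.ker_transferFocal_inf_eq_focalSubgroup] at h1
    exact focal_le_commutator_normalizer T hT h1
  · apply le_inf
    · exact commutator_normalizer_le _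
    · refine le_trans ?_ (commutator_le_pResidual T hT)
      rw [commutator_def]
      exact Subgroup.commutator_mono le_top le_top

end Cfsg.Agent.Lib_helper1_AbSylowFocal
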