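import Mathlib
import Cfsg.Prelude
import Cfsg.Agent.Lib_helper7_TransferInv

set_option autoImplicit false

namespace Cfsg.Agent.Lib_helper1_NormMap

open scoped IsMulCommutative

variable {H : Type*} [Group H] (A : Subgroup H) [hAn : A.Normal] [hAc : IsMulCommutative A]

/-- conjugates by elements in the same coset agree on an abelian normal subgroup -/
theorem conj_eq_of_coset {u v : H} (huv : u⁻¹ * v ∈ A) {a : H} (ha : a ∈ A) :
    u⁻¹ * a * u = v⁻¹ * a * v := by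
  have h1 : u⁻¹ * a * u ∈ A := by
    have := hAn.conj_mem a ha u⁻¹
    simpa using this
  have h2 : (u⁻¹ * v) * (u⁻¹ * a * u) = (u⁻¹ * a * u) * (u⁻¹ * v) :=
    congrArg Subtype.val (mul_comm' (⟨u⁻¹ * v, huv⟩ : A) ⟨u⁻¹ * a * u, h1⟩)
  calc u⁻¹ * a * u = (u⁻¹ * v)⁻¹ * ((u⁻¹ * v) * (u⁻¹ * a * u)) := by group
    _ = (u⁻¹ * v)⁻¹ * ((u⁻¹ * a * u) * (u⁻¹ * v)) := by rw [h2]
    _ = v⁻¹ * a * v := by group

theorem conj_mem' (a : A) (h : H) : h⁻¹ * (a : H) * h ∈ A := by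
  have := hAn.conj_mem a a.2 h⁻¹
  simpa using this

variable [Fintype (H ⧸ A)]

/-- the norm map of an abelian normal subgroup -/
noncomputable def nu : A →* A where
  toFun a := ∏ q : H ⧸ A, ⟨q.out⁻¹ * (a : H) * q.out, conj_mem' A a q.out⟩
  map_one' := by
    apply Finset.prod_eq_one
    intro q _
    apply Subtype.ext
    simp
  map_mul' a b := by
    rw [← Finset.prod_mul_distrib]
    apply Finset.prod_congr rfl
    intro q _
    apply Subtype.ext
    simp only [Subgroup.coe_mul]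
    group

theorem nu_apply (a : A) :
    nu A a = ∏ q : H ⧸ A, ⟨q.out⁻¹ * (a : H) * q.out, conj_mem' A a q.out⟩ := rfl

/-- `nu` is invariant under conjugation of the argument -/
theorem nu_conj (a : A) (h : H) : nu A ⟨h⁻¹ * (a : H) * h, conj_mem' A a h⟩ = nu A a := by
  rw [nu_apply, nu_apply]
  refine Fintype.prod_equiv (MulAction.toPerm h) _ _ ?_
  intro q
  apply Subtype.ext
  show q.out⁻¹ * (h⁻¹ * (a : H) * h) * q.out = ((h • q).out)⁻¹ * (a : H) * (h • q).out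
  have h1 : (h * q.out)⁻¹ * (h • q).out ∈ A := by
    rw [← QuotientGroup.eq, QuotientGroup.out_eq']
    have h2 : ((h * q.out : H) : H ⧸ A) = h • ((q.out : H) : H ⧸ A) := rfl
    rw [h2, QuotientGroup.out_eq']
  rw [← conj_eq_of_coset A h1 a.2]
  group

/-- the value of `nu` is central -/
theorem nu_central (a : A) (h : H) : h⁻¹ * (nu A a : H) * h = nu A a := by
  have h1 : (MulAut.conjNormal h⁻¹ : MulAut A) (nu A a) = nu A a := by
    rw [nu_apply, map_prod]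
    refine Fintype.prod_equiv (Equiv.mulRight (h : H ⧸ A)) _ _ ?_
    intro q
    apply Subtype.ext
    rw [MulAut.conjNormal_apply]
    show h⁻¹ * (q.out⁻¹ * (a : H) * q.out) * h⁻¹⁻¹ =
      ((q * (h : H ⧸ A)).out)⁻¹ * (a : H) * (q * (h : H ⧸ A)).out
    have h2 : (q.out * h)⁻¹ * (q * (h : H ⧸ A)).out ∈ A := by
      rw [← QuotientGroup.eq, QuotientGroup.out_eq', QuotientGroup.mk_mul, QuotientGroup.out_eq']
    rw [← conj_eq_of_coset A h2 a.2]
    group
  have h2 := congrArg Subtype.val h1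
  rw [MulAut.conjNormal_apply] at h2
  simpa using h2

theorem nu_of_central (a : A) (hc : ∀ h : H, h⁻¹ * (a : H) * h = a) :
    nu A a = a ^ A.index := by
  rw [nu_apply, Finset.prod_congr rfl (fun q _ =>
    (Subtype.ext (hc q.out) : (⟨q.out⁻¹ * (a : H) * q.out, conj_mem' A a q.out⟩ : A) = a)),
    Finset.prod_const, Finset.card_univ, ← Nat.card_eq_fintype_card, ← Subgroup.index_eq_card]

theorem pow_mul_nu_inv_mem (a : A) :
    ((a ^ A.index * (nu A a)⁻¹ : A) : H) ∈ ⁅A, (⊤ : Subgroup H)⁆ := by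
  have h1 : a ^ A.index * (nu A a)⁻¹ =
      ∏ q : H ⧸ A, a * (⟨q.out⁻¹ * (a : H) * q.out, conj_mem' A a q.out⟩ : A)⁻¹ := by
    rw [Finset.prod_mul_distrib, Finset.prod_const, Finset.card_univ, ← Nat.card_eq_fintype_card,
      ← Subgroup.index_eq_card, Finset.prod_inv_distrib]
    rfl
  rw [h1]
  have h2 : (∏ q : H ⧸ A, a * (⟨q.out⁻¹ * (a : H) * q.out, conj_mem' A a q.out⟩ : A)⁻¹) ∈
      (⁅A, (⊤ : Subgroup H)⁆).subgroupOf A := by
    apply Subgroup.prod_mem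
    intro q _
    rw [Subgroup.mem_subgroupOf]
    have h3 := Subgroup.commutator_mem_commutator (H₁ := A) (H₂ := ⊤) a.2
      (Subgroup.mem_top q.out⁻¹)
    rw [commutatorElement_def] at h3
    have e : ((a * (⟨q.out⁻¹ * (a : H) * q.out, conj_mem' A a q.out⟩ : A)⁻¹ : A) : H) =
        (a : H) * q.out⁻¹ * (a : H)⁻¹ * q.out⁻¹⁻¹ := by
      simp only [Subgroup.coe_mul, Subgroup.coe_inv]
      group
    rw [e]
    exact h3
  exact Subgroup.mem_subgroupOf.mp h2

/-- `nu` kills `[A, H]` -/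
theorem nu_commutator (x : A) (hx : (x : H) ∈ ⁅A, (⊤ : Subgroup H)⁆) : nu A x = 1 := by
  have h1 : ⁅A, (⊤ : Subgroup H)⁆ ≤ (nu A).ker.map A.subtype := by
    rw [Subgroup.commutator_le]
    intro a ha h _
    rw [commutatorElement_def]
    have h2 : h * a⁻¹ * h⁻¹ ∈ A := hAn.conj_mem _ (A.inv_mem ha) h
    refine ⟨⟨a, ha⟩ * ⟨h * a⁻¹ * h⁻¹, h2⟩, ?_, ?_⟩
    · rw [SetLike.mem_coe, MonoidHom.mem_ker, map_mul]
      have h3 := nu_conj A (⟨a, ha⟩⁻¹ : A) h⁻¹
      have h4 : (⟨h⁻¹⁻¹ * ((⟨a, ha⟩⁻¹ : A) : H) * h⁻¹, conj_mem' A (⟨a, ha⟩⁻¹ : A) h⁻¹⟩ : A) =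
          ⟨h * a⁻¹ * h⁻¹, h2⟩ := by
        apply Subtype.ext
        simp
      rw [h4] at h3
      rw [h3, map_inv, mul_inv_cancel]
    · simp only [Subgroup.coe_subtype, Subgroup.coe_mul]
      group
  obtain ⟨y, hy, hyx⟩ := h1 hx
  have h5 : y = x := Subtype.ext hyx
  rw [← h5]
  exact MonoidHom.mem_ker.mp hy

/-- the transfer into `A` restricted to `A` is `nu` -/
theorem transfer_eq_nu [A.FiniteIndex] (a : A) :
    MonoidHom.transfer (MonoidHom.id A) (a : H) = nu A a := by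
  rw [Cfsg.Agent.Lib_helper7_TransferInv.transfer_eq_prod_out, nu_apply]
  apply Finset.prod_congr rfl
  intro q _
  have h1 : ((a : H))⁻¹ • q = q := by
    obtain ⟨g, rfl⟩ := QuotientGroup.mk_surjective q
    have h2 : ((a : H))⁻¹ • ((g : H) : H ⧸ A) = ((((a : H))⁻¹ * g : H) : H ⧸ A) := rfl
    rw [h2, QuotientGroup.eq]
    have h3 := conj_mem' A a g
    have e : ((a : H)⁻¹ * g)⁻¹ * g = g⁻¹ * (a : H) * g := by group
    rw [e]
    exact h3
  rw [h1, Cfsg.Agent.Lib_helper7_TransferInv.ext_of_mem _ (conj_mem' A a q.out)]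
  rfl

omit [Fintype (H ⧸ A)] in
/-- Fitting decomposition of an abelian normal Hall subgroup, and `G' ∩ A = [A, G]` -/
theorem decomp [Finite H] (hcop : (Nat.card A).Coprime A.index) :
    (∀ a ∈ A, ∃ z ∈ Subgroup.center H ⊓ A, ∃ c ∈ ⁅A, (⊤ : Subgroup H)⁆, a = z * c) ∧
    ⁅A, (⊤ : Subgroup H)⁆ ⊓ (Subgroup.center H ⊓ A) = ⊥ ∧
    commutator H ⊓ A ≤ ⁅A, (⊤ : Subgroup H)⁆ := by
  classical
  letI : Fintype (H ⧸ A) := Fintype.ofFinite _
  have hcen : ∀ a : A, (nu A a : H) ∈ Subgroup.center H := by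
    intro a
    rw [Subgroup.mem_center_iff]
    intro h
    have h1 := nu_central A a h
    calc h * (nu A a : H) = h * (h⁻¹ * (nu A a : H) * h) := by rw [h1]
      _ = (nu A a : H) * h := by group
  have hpow : ∀ x : A, x ^ A.index = 1 → x = 1 := by
    intro x hx
    have h1 : orderOf x ∣ A.index := orderOf_dvd_of_pow_eq_one hx
    have h2 : orderOf x ∣ Nat.card A := orderOf_dvd_natCard x
    exact orderOf_eq_one_iff.mp (Nat.eq_one_of_dvd_coprimes hcop h2 h1)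
  refine ⟨?_, ?_, ?_⟩
  · intro a ha
    obtain ⟨b, hb⟩ := (powCoprime hcop).surjective ⟨a, ha⟩
    rw [powCoprime_apply] at hb
    refine ⟨(nu A b : H), ⟨hcen b, (nu A b).2⟩, ((b ^ A.index * (nu A b)⁻¹ : A) : H),
      pow_mul_nu_inv_mem A b, ?_⟩
    have h1 : (⟨a, ha⟩ : A) = nu A b * (b ^ A.index * (nu A b)⁻¹) := by
      rw [← hb, mul_comm, mul_assoc, inv_mul_cancel, mul_one]
    exact congrArg Subtype.val h1
  · rw [eq_bot_iff]
    rintro x ⟨hxc, hxz, hxA⟩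
    rw [Subgroup.mem_bot]
    have h1 := nu_commutator A ⟨x, hxA⟩ hxc
    have h2 : nu A ⟨x, hxA⟩ = ⟨x, hxA⟩ ^ A.index := by
      apply nu_of_central
      intro h
      have h3 := Subgroup.mem_center_iff.mp hxz h
      show h⁻¹ * x * h = x
      rw [mul_assoc, ← h3]
      group
    rw [h2] at h1
    have h4 := hpow _ h1
    exact congrArg Subtype.val h4
  · rintro x ⟨hxc, hxA⟩
    have h1 : MonoidHom.transfer (MonoidHom.id A) x = 1 :=
      MonoidHom.mem_ker.mp (Abelianization.commutator_subset_ker _ hxc)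
    have h2 := transfer_eq_nu A ⟨x, hxA⟩
    rw [h1] at h2
    have h3 := pow_mul_nu_inv_mem A ⟨x, hxA⟩
    rw [← h2, inv_one, mul_one] at h3
    have h4 : (⟨x, hxA⟩ : A) = ((⟨x, hxA⟩ : A) ^ A.index) ^ ((Nat.card A).gcdB A.index) :=
      ((powCoprime hcop).left_inv ⟨x, hxA⟩).symm
    have h5 := congrArg Subtype.val h4
    rw [Subgroup.coe_zpow] at h5
    have h6 : x = ((((⟨x, hxA⟩ : A) ^ A.index : A) : H)) ^ ((Nat.card A).gcdB A.index) := h5
    rw [h6]
    exact Subgroup.zpow_mem _ h3 _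

end Cfsg.Agent.Lib_helper1_NormMap
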