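import Mathlib
import Cfsg.Prelude
import Cfsg.Agent.Lib_helper1_Basic
import Cfsg.Agent.Lib_helper1_Hall
import Cfsg.Agent.Lib_helper1_NormMap
import Cfsg.Agent.Lib_helper1_AbSylowFocal
import Cfsg.Agent.Lib_helper1_Primitive
import Cfsg.Agent.Lib_helper7_Sylow

set_option autoImplicit false

namespace Cfsg.Agent.Lib_helper1_AbSylSplit

open scoped IsMulCommutative Pointwise

theorem exists_rel_complement {G : Type*} [Group G] [Finite G] (Q L : Subgroup G) (hQL : Q ≤ L)
    (hLN : L ≤ Subgroup.normalizer (Q : Set G)) (hcop : (Nat.card Q).Coprime (Q.relIndex L)) :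
    ∃ L₀ : Subgroup G, L₀ ≤ L ∧ Q ⊓ L₀ = ⊥ ∧ Q ⊔ L₀ = L ∧
      Nat.card Q * Nat.card L₀ = Nat.card L := by
  haveI : (Q.subgroupOf L).Normal := (Subgroup.normal_subgroupOf_iff_le_normalizer hQL).mpr hLN
  have hcop' : (Nat.card (Q.subgroupOf L)).Coprime (Q.subgroupOf L).index := by
    rw [Lib_helper1_Hall.card_subgroupOf_of_le hQL]; exact hcop
  obtain ⟨H, hH⟩ := Subgroup.exists_right_complement'_of_coprime hcop'
  refine ⟨H.map L.subtype, Subgroup.map_subtype_le H, ?_, ?_, ?_⟩
  · rw [eq_bot_iff]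
    rintro x ⟨hxQ, y, hy, rfl⟩
    have h1 : y ∈ Q.subgroupOf L ⊓ H := ⟨Subgroup.mem_subgroupOf.mpr hxQ, hy⟩
    rw [hH.disjoint.eq_bot, Subgroup.mem_bot] at h1
    rw [h1, map_one]; exact Subgroup.mem_bot.mpr rfl
  · apply le_antisymm (sup_le hQL (Subgroup.map_subtype_le H))
    intro x hx
    obtain ⟨a, ha, h, hh, e⟩ :=
      Lib_helper1_Basic.exists_mul_of_sup_eq_top (Q.subgroupOf L) H hH.sup_eq_top ⟨x, hx⟩
    have e' : x = (a : G) * (h : G) := congrArg Subtype.val e
    rw [e']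
    exact Subgroup.mul_mem_sup (Subgroup.mem_subgroupOf.mp ha)
      (Subgroup.mem_map_of_mem L.subtype hh)
  · have := hH.card_mul_card
    rw [Lib_helper1_Hall.card_subgroupOf_of_le hQL] at this
    rw [Subgroup.card_subtype]; exact this

theorem rel_decomp {G : Type*} [Group G] [Finite G] (Q L : Subgroup G) [IsMulCommutative Q]
    (hQL : Q ≤ L) (hLN : L ≤ Subgroup.normalizer (Q : Set G))
    (hcop : (Nat.card Q).Coprime (Q.relIndex L))
    (hcomm : Q ≤ ⁅Q, L⁆) : Q ⊓ Subgroup.centralizer (L : Set G) = ⊥ := by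
  haveI : (Q.subgroupOf L).Normal := (Subgroup.normal_subgroupOf_iff_le_normalizer hQL).mpr hLN
  haveI : IsMulCommutative (Q.subgroupOf L) := inferInstance
  have hcop' : (Nat.card (Q.subgroupOf L)).Coprime (Q.subgroupOf L).index := by
    rw [Lib_helper1_Hall.card_subgroupOf_of_le hQL]; exact hcop
  obtain ⟨-, h2, -⟩ := Lib_helper1_NormMap.decomp (Q.subgroupOf L) hcop'
  have hmap : (⁅Q.subgroupOf L, (⊤ : Subgroup L)⁆).map L.subtype = ⁅Q, L⁆ := by
    rw [Subgroup.map_commutator, Subgroup.map_subgroupOf_eq_of_le hQL, ← MonoidHom.range_eq_map,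
      Subgroup.range_subtype]
  rw [eq_bot_iff]
  rintro x ⟨hxQ, hxC⟩
  have hx1 : x ∈ (⁅Q.subgroupOf L, (⊤ : Subgroup L)⁆).map L.subtype := by
    rw [hmap]; exact hcomm hxQ
  obtain ⟨y, hy, rfl⟩ := hx1
  have hy2 : y ∈ ⁅Q.subgroupOf L, (⊤ : Subgroup L)⁆ ⊓ (Subgroup.center L ⊓ Q.subgroupOf L) := by
    have hyc : y ∈ Subgroup.center L := by
      rw [Subgroup.mem_center_iff]
      intro z
      apply Subtype.ext
      exact hxC z z.2
    exact ⟨hy, hyc, Subgroup.mem_subgroupOf.mpr hxQ⟩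
  rw [h2, Subgroup.mem_bot] at hy2
  rw [hy2, map_one]; exact Subgroup.mem_bot.mpr rfl

theorem split {G : Type*} [Group G] [Finite G] {p : ℕ} [Fact p.Prime]
    (h : ∀ Q : Sylow p (Cfsg.pResidual p G), IsMulCommutative Q) :
    ∃ K : Subgroup G, K.IsComplement' (Cfsg.pResidual p G) := by
  classical
  have hp : p.Prime := Fact.out
  haveI hRn : (Cfsg.pResidual p G).Normal :=
    Cfsg.Agent.Lib_helper7_Sylow.pResidual_normal (K := G) p
  obtain ⟨k, hk⟩ := IsPGroup.iff_card.mp
    (Lib_helper7_Sylow.isPGroup_quotient_pResidual (K := G) p)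
  have hidx : (Cfsg.pResidual p G).index = p ^ k := by rw [Subgroup.index_eq_card]; exact hk
  have hres : Cfsg.pResidual p ↥(Cfsg.pResidual p G) = ⊤ := by
    rw [eq_top_iff]
    have h1 : Cfsg.pResidual p G ≤
        (Cfsg.pResidual p ↥(Cfsg.pResidual p G)).map (Cfsg.pResidual p G).subtype := by
      show Subgroup.closure {g : G | Nat.Coprime (orderOf g) p} ≤ _
      rw [Subgroup.closure_le]
      intro g hg
      have hgR : g ∈ Cfsg.pResidual p G := Subgroup.subset_closure hg
      refine ⟨⟨g, hgR⟩, Subgroup.subset_closure ?_, rfl⟩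
      show Nat.Coprime (orderOf (⟨g, hgR⟩ : Cfsg.pResidual p G)) p
      rw [Subgroup.orderOf_mk]; exact hg
    intro x _
    obtain ⟨y, hy, hyx⟩ := h1 x.2
    have : y = x := Subtype.ext hyx
    rw [← this]; exact hy
  set R := Cfsg.pResidual p G with hR
  obtain ⟨T⟩ : Nonempty (Sylow p R) := inferInstance
  haveI hTc : IsMulCommutative T := h T
  have hT : (T : Subgroup R) =
      ⁅(T : Subgroup R), Subgroup.normalizer ((T : Subgroup R) : Set R)⁆ := by
    have := Lib_helper1_AbSylowFocal.inf_pResidual T hTc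
    rw [hres, inf_top_eq] at this
    exact this
  haveI hQc : IsMulCommutative ((T : Subgroup R).map R.subtype) := inferInstance
  have hQp : IsPGroup p ((T : Subgroup R).map R.subtype) := T.2.map R.subtype
  have hQR : (T : Subgroup R).map R.subtype ≤ R := Subgroup.map_subtype_le _
  have hfratT := Sylow.normalizer_sup_eq_top T
  set Q : Subgroup G := (T : Subgroup R).map R.subtype with hQ
  set L : Subgroup G := Subgroup.normalizer (Q : Set G) ⊓ R with hL
  have hQL : Q ≤ L := le_inf Subgroup.le_normalizer hQR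
  have hLN : L ≤ Subgroup.normalizer (Q : Set G) := inf_le_left
  have hcommQ : Q ≤ ⁅Q, L⁆ := by
    have h1 : (Subgroup.normalizer ((T : Subgroup R) : Set R)).map R.subtype ≤ L := by
      apply le_inf
      · exact Subgroup.le_normalizer_map R.subtype
      · exact Subgroup.map_subtype_le _
    have h2 : Q = ⁅Q, (Subgroup.normalizer ((T : Subgroup R) : Set R)).map R.subtype⁆ := by
      rw [hQ, ← Subgroup.map_commutator, ← hT]
    rw [h2]
    exact Subgroup.commutator_mono (h2 ▸ le_rfl) h1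
  have hLp : ¬ p ∣ Q.relIndex L := by
    have h1 : Q.relIndex L ∣ (T : Subgroup R).index := by
      have h2 := Subgroup.relIndex_mul_relIndex Q L R hQL inf_le_right
      have h3 : Q.relIndex R = (T : Subgroup R).index := by
        unfold Subgroup.relIndex
        congr 1
        exact Subgroup.comap_map_eq_self_of_injective R.subtype_injective _
      rw [h3] at h2
      exact Dvd.intro _ h2
    have h4 : ¬ p ∣ (T : Subgroup R).index := T.not_dvd_index
    exact fun hd => h4 (dvd_trans hd h1)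
  have hcop : (Nat.card Q).Coprime (Q.relIndex L) := by
    obtain ⟨n, hn⟩ := IsPGroup.iff_card.mp hQp
    rw [hn]
    exact Nat.Coprime.pow_left _ ((Nat.Prime.coprime_iff_not_dvd hp).mpr hLp)
  obtain ⟨L₀, hL₀L, hQL₀, hsup, hcardL⟩ := exists_rel_complement Q L hQL hLN hcop
  have hZ : Q ⊓ Subgroup.centralizer (L : Set G) = ⊥ := rel_decomp Q L hQL hLN hcop hcommQ
  have hL₀card : Nat.card L₀ = Q.relIndex L := by
    have h1 : Nat.card Q * Q.relIndex L = Nat.card L := by
      have := Subgroup.relIndex_mul_relIndex ⊥ Q L bot_le hQL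
      rwa [Subgroup.relIndex_bot_left, Subgroup.relIndex_bot_left] at this
    have := h1.trans hcardL.symm
    exact (Nat.eq_of_mul_eq_mul_left Nat.card_pos this).symm
  have hL₀p : ¬ p ∣ Nat.card L₀ := by rw [hL₀card]; exact hLp
  have hL₀cop : (Nat.card Q).Coprime (Nat.card L₀) := by rw [hL₀card]; exact hcop
  set M : Subgroup G := Subgroup.normalizer (Q : Set G) ⊓ Subgroup.normalizer (L₀ : Set G)
    with hM
  have hL₀M : L₀ ≤ M := le_inf (hL₀L.trans hLN) Subgroup.le_normalizer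
  have hfrat : ∀ n ∈ Subgroup.normalizer (Q : Set G), ∃ a ∈ Q, a⁻¹ * n ∈ M := by
    intro n hn
    have hY : MulAut.conj n • L₀ ≤ Q ⊔ L₀ := by
      rw [hsup]
      intro x hx
      rw [Lib_helper1_Basic.mem_conj_smul] at hx
      have hxL := hL₀L hx
      have e : x = n * (n⁻¹ * x * n) * n⁻¹ := by group
      rw [e]
      refine ⟨?_, ?_⟩
      · exact Subgroup.mul_mem _ (Subgroup.mul_mem _ hn hxL.1) (Subgroup.inv_mem _ hn)
      · exact hRn.conj_mem _ hxL.2 n
    obtain ⟨a, ha, hconj⟩ := Lib_helper1_Primitive.sz_conj_rel Q L₀ (MulAut.conj n • L₀)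
      (hL₀L.trans hLN) hY (Lib_helper1_Hall.card_conj_smul n L₀) hL₀cop
      (Or.inl (Group.isSolvable_of_comm (fun a b => mul_comm a b)))
    refine ⟨a, ha, ?_⟩
    refine ⟨Subgroup.mul_mem _ (Subgroup.inv_mem _ (Subgroup.le_normalizer ha)) hn, ?_⟩
    apply Lib_helper1_Basic.mem_normalizer_of_conj_le
    intro m hm
    have h1 : n * m * n⁻¹ ∈ MulAut.conj a • L₀ := by
      rw [hconj]; exact Lib_helper1_Basic.conj_mem_conj_smul L₀ n m hm
    rw [Lib_helper1_Basic.mem_conj_smul] at h1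
    have e : a⁻¹ * n * m * (a⁻¹ * n)⁻¹ = a⁻¹ * (n * m * n⁻¹) * a := by group
    rw [e]; exact h1
  have hMR : M ⊔ R = ⊤ := by
    rw [eq_top_iff]
    intro g _
    have hg : g ∈ Subgroup.normalizer (Q : Set G) ⊔ R := by
      rw [hfratT]; trivial
    rw [Subgroup.mem_sup_of_normal_right] at hg
    obtain ⟨n, hn, r, hr, rfl⟩ := hg
    obtain ⟨a, ha, ham⟩ := hfrat n hn
    have e : n * r = a * (a⁻¹ * n) * r := by group
    rw [e]
    exact Subgroup.mul_mem _ (Subgroup.mul_mem _ (Subgroup.mem_sup_right (hQR ha))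
      (Subgroup.mem_sup_left ham)) (Subgroup.mem_sup_right hr)
  have hMRL : M ⊓ R ≤ L₀ := by
    rintro x ⟨hxM, hxR⟩
    have hxL : x ∈ Q ⊔ L₀ := by rw [hsup]; exact ⟨hxM.1, hxR⟩
    have hxL' : x ∈ (Q : Set G) * (L₀ : Set G) := by
      rw [← Subgroup.coe_mul_of_right_le_normalizer_left Q L₀ (hL₀L.trans hLN)]; exact hxL
    obtain ⟨q, hq, l, hl, rfl⟩ := Set.mem_mul.mp hxL'
    have hqM : q ∈ M := by
      have := M.mul_mem hxM (M.inv_mem (hL₀M hl))
      rwa [mul_inv_cancel_right] at this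
    have hqC : q ∈ Subgroup.centralizer (L : Set G) := by
      have h1 : Q ⊔ L₀ ≤ Subgroup.centralizer ({q} : Set G) := by
        apply sup_le
        · intro y hy
          rw [Subgroup.mem_centralizer_singleton_iff]
          exact congrArg Subtype.val (mul_comm (⟨y, hy⟩ : Q) ⟨q, hq⟩)
        · intro y hy
          rw [Subgroup.mem_centralizer_singleton_iff]
          have h2 : q * y * q⁻¹ * y⁻¹ ∈ Q ⊓ L₀ := by
            refine ⟨?_, ?_⟩
            · have : y * q⁻¹ * y⁻¹ ∈ Q :=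
                (Subgroup.mem_normalizer_iff.mp (hLN (hL₀L hy)) _).mp (Q.inv_mem hq)
              have e : q * y * q⁻¹ * y⁻¹ = q * (y * q⁻¹ * y⁻¹) := by group
              rw [e]; exact Q.mul_mem hq this
            · have : q * y * q⁻¹ ∈ L₀ := (Subgroup.mem_normalizer_iff.mp hqM.2 _).mp hy
              exact L₀.mul_mem this (L₀.inv_mem hy)
          rw [hQL₀, Subgroup.mem_bot] at h2
          exact (mul_inv_eq_iff_eq_mul.mp (mul_inv_eq_one.mp h2)).symm
      rw [Subgroup.mem_centralizer_iff]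
      intro y hy
      have hy' : y ∈ Q ⊔ L₀ := by rw [hsup]; exact hy
      exact Subgroup.mem_centralizer_singleton_iff.mp (h1 hy')
    have hq1 : q = 1 := by
      have : q ∈ Q ⊓ Subgroup.centralizer (L : Set G) := ⟨hq, hqC⟩
      rwa [hZ, Subgroup.mem_bot] at this
    rw [hq1, one_mul]; exact hl
  obtain ⟨P⟩ : Nonempty (Sylow p M) := inferInstance
  refine ⟨(P : Subgroup M).map M.subtype, ?_⟩
  have hKp : IsPGroup p ((P : Subgroup M).map M.subtype) := P.2.map M.subtype
  have hKM : (P : Subgroup M).map M.subtype ≤ M := Subgroup.map_subtype_le _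
  have hdisj : Disjoint ((P : Subgroup M).map M.subtype) R := by
    rw [Subgroup.disjoint_def]
    intro x hxK hxR
    have hxL₀ : x ∈ L₀ := hMRL ⟨hKM hxK, hxR⟩
    have h1 : orderOf x ∣ Nat.card L₀ := by
      have := orderOf_dvd_natCard (⟨x, hxL₀⟩ : L₀)
      rwa [Subgroup.orderOf_mk] at this
    obtain ⟨j, hj⟩ := hKp ⟨x, hxK⟩
    have h2 : orderOf x ∣ p ^ j := by
      apply orderOf_dvd_of_pow_eq_one
      exact congrArg Subtype.val hj
    have h3 : (p ^ j).Coprime (Nat.card L₀) :=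
      Nat.Coprime.pow_left j ((Nat.Prime.coprime_iff_not_dvd hp).mpr hL₀p)
    have h4 : orderOf x = 1 := Nat.eq_one_of_dvd_coprimes h3 h2 h1
    exact orderOf_eq_one_iff.mp h4
  apply Subgroup.isComplement'_of_card_mul_and_disjoint _ hdisj
  rw [Subgroup.card_subtype]
  have hMcard : Nat.card (M ⊓ R : Subgroup G) * R.index = Nat.card M := by
    have h1 := Subgroup.relIndex_mul_relIndex ⊥ (M ⊓ R) M bot_le inf_le_left
    rw [Subgroup.relIndex_bot_left, Subgroup.relIndex_bot_left, Subgroup.inf_relIndex_left] at h1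
    have h2 : R.relIndex M = R.index := by
      rw [← Subgroup.relIndex_sup_right M R, hMR, Subgroup.relIndex_top_right]
    rw [h2] at h1; exact h1
  have hMRp : ¬ p ∣ Nat.card (M ⊓ R : Subgroup G) :=
    fun hd => hL₀p (dvd_trans hd (Subgroup.card_dvd_of_le hMRL))
  obtain ⟨j, hj⟩ := IsPGroup.iff_card.mp P.2
  have hPidx : ¬ p ∣ (P : Subgroup M).index := P.not_dvd_index
  have hPc := Subgroup.card_mul_index (P : Subgroup M)
  have hjk : p ^ j = p ^ k := by
    apply Nat.dvd_antisymm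
    · have h1 : p ^ j ∣ Nat.card (M ⊓ R : Subgroup G) * p ^ k := by
        rw [← hidx, hMcard, ← hPc, hj]; exact dvd_mul_right _ _
      exact (Nat.Coprime.pow_left j
        ((Nat.Prime.coprime_iff_not_dvd hp).mpr hMRp)).dvd_of_dvd_mul_left h1
    · have h1 : p ^ k ∣ p ^ j * (P : Subgroup M).index := by
        rw [← hj, hPc, ← hMcard, hidx]; exact dvd_mul_left _ _
      exact (Nat.Coprime.pow_left k
        ((Nat.Prime.coprime_iff_not_dvd hp).mpr hPidx)).dvd_of_dvd_mul_right h1
  rw [hj, hjk, ← hidx, mul_comm]; exact Subgroup.card_mul_index R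

end Cfsg.Agent.Lib_helper1_AbSylSplit
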