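import Mathlib
import Cfsg.Prelude
import Cfsg.Agent.Lib_helper1_NormMap

set_option autoImplicit false

namespace Cfsg.Agent.Lib_helper1_AbSylowQuot

open scoped IsMulCommutative
open Cfsg.Agent.Lib_helper1_NormMap

theorem quot_iso {G : Type*} [Group G] [Finite G] {p : ℕ} [Fact p.Prime] (P : Sylow p G)
    (hP : IsMulCommutative P) :
    ∃ (N : Subgroup G) (_ : N.Normal), Nonempty (G ⧸ N ≃* ((P : Subgroup G) ⊓
      Subgroup.centralizer (Subgroup.normalizer ((P : Subgroup G) : Set G) : Set G) :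
        Subgroup G)) := by
  classical
  haveI := hP
  set M : Subgroup G := Subgroup.normalizer ((P : Subgroup G) : Set G) with hM
  have hPM : (P : Subgroup G) ≤ M := Subgroup.le_normalizer
  set A : Subgroup M := (P : Subgroup G).subgroupOf M with hA
  haveI hAn : A.Normal := Subgroup.normal_in_normalizer
  let e : (P : Subgroup G) ≃* A := (Subgroup.subgroupOfEquivOfLe hPM).symm
  haveI hAc : IsMulCommutative A := ⟨⟨fun a b => by
    apply e.symm.injective
    rw [map_mul, map_mul]
    exact mul_comm' _ _⟩⟩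
  letI : Fintype (M ⧸ A) := Fintype.ofFinite _
  let V' : G →* (P : Subgroup G) := MonoidHom.transfer (MonoidHom.id (P : Subgroup G))
  let Ψ : G →* G := M.subtype.comp (A.subtype.comp ((nu A).comp (e.toMonoidHom.comp V')))
  set Z₀ : Subgroup G := (P : Subgroup G) ⊓ Subgroup.centralizer (M : Set G) with hZ₀
  have hΨ : ∀ g, Ψ g = ((nu A (e (V' g)) : M) : G) := fun g => rfl
  have hΨmem : ∀ g, Ψ g ∈ Z₀ := by
    intro g
    rw [hΨ]
    have hcz : ((nu A (e (V' g)) : M) : G) ∈ Subgroup.centralizer (M : Set G) := by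
      rw [Subgroup.mem_centralizer_iff]
      intro m hm
      have h2 := nu_central A (e (V' g)) ⟨m, hm⟩
      have h3 : m⁻¹ * ((nu A (e (V' g)) : M) : G) * m = ((nu A (e (V' g)) : M) : G) :=
        congrArg Subtype.val h2
      generalize ((nu A (e (V' g)) : M) : G) = x at h3 ⊢
      calc m * x = m * (m⁻¹ * x * m) := by rw [h3]
        _ = x * m := by group
    exact ⟨Subgroup.mem_subgroupOf.mp (nu A (e (V' g))).2, hcz⟩
  let ψ : G →* Z₀ := Ψ.codRestrict Z₀ hΨmem
  have hcomp : ∀ w : Z₀, ψ (w : G) = w ^ ((P : Subgroup G).index * A.index) := by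
    intro w
    apply Subtype.ext
    show Ψ (w : G) = _
    have hwP : (w : G) ∈ (P : Subgroup G) := w.2.1
    have hwC : (w : G) ∈ Subgroup.centralizer (M : Set G) := w.2.2
    have key : ∀ (k : ℕ) (g₀ : G), g₀⁻¹ * (w : G) ^ k * g₀ ∈ (P : Subgroup G) →
        g₀⁻¹ * (w : G) ^ k * g₀ = (w : G) ^ k := by
      intro k g₀ hk
      obtain ⟨n, hn, hn'⟩ := Sylow.conj_eq_normalizer_conj_of_mem P ((w : G) ^ k) g₀
        (Subgroup.pow_mem _ hwP k) hk
      rw [hn']
      have h1 := Subgroup.mem_centralizer_iff.mp (Subgroup.pow_mem _ hwC k) n hn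
      rw [mul_assoc, ← h1]
      group
    have h1 : V' (w : G) = ⟨(w : G) ^ (P : Subgroup G).index, Subgroup.pow_mem _ hwP _⟩ :=
      MonoidHom.transfer_eq_pow (MonoidHom.id (P : Subgroup G)) (w : G) key
    have h2 : nu A (e (V' (w : G))) = (e (V' (w : G))) ^ A.index := by
      apply nu_of_central
      intro h
      rw [h1]
      apply Subtype.ext
      show (h : G)⁻¹ * (w : G) ^ (P : Subgroup G).index * (h : G) =
        (w : G) ^ (P : Subgroup G).index
      have h3 := Subgroup.mem_centralizer_iff.mp (Subgroup.pow_mem _ hwC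
        (P : Subgroup G).index) (h : G) h.2
      rw [mul_assoc, ← h3]
      group
    rw [hΨ, h2, h1]
    show (((w : G) ^ (P : Subgroup G).index) ^ A.index) = _
    rw [← pow_mul]
    rfl
  have hcop : (Nat.card Z₀).Coprime ((P : Subgroup G).index * A.index) := by
    obtain ⟨k, hk⟩ := IsPGroup.iff_card.mp (P.isPGroup'.to_le (inf_le_left : Z₀ ≤ P))
    rw [hk]
    apply Nat.Coprime.pow_left
    apply Nat.Coprime.mul_right
    · exact (Nat.Prime.coprime_iff_not_dvd Fact.out).mpr P.not_dvd_index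
    · have h1 : A.index ∣ (P : Subgroup G).index := Subgroup.relIndex_dvd_index_of_le hPM
      exact (Nat.Prime.coprime_iff_not_dvd Fact.out).mpr
        (fun h => P.not_dvd_index (h.trans h1))
  have hsurj : Function.Surjective ψ := by
    intro z
    obtain ⟨w, hw⟩ := (powCoprime hcop).surjective z
    rw [powCoprime_apply] at hw
    exact ⟨(w : G), by rw [hcomp, hw]⟩
  exact ⟨ψ.ker, inferInstance, ⟨QuotientGroup.quotientKerEquivOfSurjective ψ hsurj⟩⟩

end Cfsg.Agent.Lib_helper1_AbSylowQuot
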