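import Mathlib
import Cfsg.Agent.Lib_helper1_Hall
import Cfsg.Agent.Lib_helper1_Socle

set_option autoImplicit false

universe u

namespace Cfsg.Agent.Lib_helper1_AutBound

theorem normal_of_le_center {G : Type*} [Group G] {H : Subgroup G}
    (h : H ≤ Subgroup.center G) : H.Normal := by
  refine ⟨fun x hx g => ?_⟩
  have := Subgroup.mem_center_iff.mp (h hx) g
  rw [this, mul_inv_cancel_right]
  exact hx

theorem card_map_mk' {G : Type*} [Group G] [Finite G] (M A : Subgroup G) [M.Normal]
    (hMA : M ≤ A) : Nat.card A = Nat.card M * Nat.card (A.map (QuotientGroup.mk' M)) := by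
  have h1 := Cfsg.Agent.Lib_helper1_Hall.card_comap_mk' M (A.map (QuotientGroup.mk' M))
  rw [Subgroup.comap_map_eq_self (by rw [QuotientGroup.ker_mk']; exact hMA)] at h1
  exact h1

/-- In a finite `p`-group, a normal subgroup of order `p^(a+1)` contains a normal subgroup
of the whole group of order `p^a`. -/
theorem exists_normal_index_p (a : ℕ) : ∀ (G : Type u) [Group G] [Finite G] (p : ℕ)
    [Fact p.Prime] (_ : IsPGroup p G) (A : Subgroup G) [A.Normal],
    Nat.card A = p ^ (a + 1) → ∃ B : Subgroup G, B ≤ A ∧ B.Normal ∧ Nat.card B = p ^ a := by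
  induction a with
  | zero =>
    intro G _ _ p _ hG A _ hA
    exact ⟨⊥, bot_le, inferInstance, by simp⟩
  | succ a ih =>
    intro G _ _ p _ hG A _ hA
    have hp : p.Prime := Fact.out
    haveI : Group.IsNilpotent G := hG.isNilpotent
    have hAne : A ≠ ⊥ := by
      intro h
      rw [h, Subgroup.card_bot] at hA
      have : 1 < p ^ (a + 1 + 1) := Nat.one_lt_pow (by omega) hp.one_lt
      omega
    have h1 := Cfsg.Agent.Lib_helper1_Socle.normal_inf_center_ne_bot A hAne
    have hp_dvd : p ∣ Nat.card (A ⊓ Subgroup.center G : Subgroup G) := by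
      have hpg : IsPGroup p (A ⊓ Subgroup.center G : Subgroup G) := hG.to_subgroup _
      obtain ⟨k, hk⟩ := IsPGroup.iff_card.mp hpg
      rw [hk]
      have hk0 : k ≠ 0 := by
        intro h0
        rw [h0, pow_zero] at hk
        exact h1 (Subgroup.card_eq_one.mp hk)
      exact dvd_pow_self p hk0
    obtain ⟨z, hz⟩ := exists_prime_orderOf_dvd_card' p hp_dvd
    obtain ⟨Z1, hZ1def⟩ : ∃ Z1 : Subgroup G, Z1 = Subgroup.zpowers (z : G) := ⟨_, rfl⟩
    have hZ1c : Z1 ≤ Subgroup.center G := by
      rw [hZ1def, Subgroup.zpowers_le]; exact z.2.2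
    have hZ1A : Z1 ≤ A := by
      rw [hZ1def, Subgroup.zpowers_le]; exact z.2.1
    haveI : Z1.Normal := normal_of_le_center hZ1c
    have hZ1card : Nat.card Z1 = p := by
      rw [hZ1def, Nat.card_zpowers, Subgroup.orderOf_coe, hz]
    have hAq : Nat.card (A.map (QuotientGroup.mk' Z1)) = p ^ (a + 1) := by
      have := card_map_mk' Z1 A hZ1A
      rw [hA, hZ1card, pow_succ p (a + 1), mul_comm] at this
      exact (Nat.eq_of_mul_eq_mul_left hp.pos this).symm
    haveI : (A.map (QuotientGroup.mk' Z1)).Normal :=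
      Subgroup.Normal.map inferInstance _ (QuotientGroup.mk'_surjective Z1)
    obtain ⟨B', hB'A, hB'n, hB'c⟩ := ih (G ⧸ Z1) p (hG.to_quotient Z1)
      (A.map (QuotientGroup.mk' Z1)) hAq
    refine ⟨B'.comap (QuotientGroup.mk' Z1), ?_, hB'n.comap _, ?_⟩
    · have := Subgroup.comap_mono (f := QuotientGroup.mk' Z1) hB'A
      rwa [Subgroup.comap_map_eq_self (by rw [QuotientGroup.ker_mk']; exact hZ1A)] at this
    · rw [Cfsg.Agent.Lib_helper1_Hall.card_comap_mk', hZ1card, hB'c]; ring

/-- A normal section of order `p` of a `p`-group is central. -/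
theorem comm_mem_of_index_p {G : Type*} [Group G] [Finite G] {p : ℕ} [Fact p.Prime]
    (hG : IsPGroup p G) (A B : Subgroup G) [A.Normal] [B.Normal] (hBA : B ≤ A)
    (hc : Nat.card A = p * Nat.card B) (g t : G) (ht : t ∈ A) : g * t * g⁻¹ * t⁻¹ ∈ B := by
  have hp : p.Prime := Fact.out
  haveI : Group.IsNilpotent (G ⧸ B) := (hG.to_quotient B).isNilpotent
  haveI : (A.map (QuotientGroup.mk' B)).Normal :=
    Subgroup.Normal.map inferInstance _ (QuotientGroup.mk'_surjective B)
  have hAq : Nat.card (A.map (QuotientGroup.mk' B)) = p := by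
    have := card_map_mk' B A hBA
    rw [hc, mul_comm] at this
    exact (Nat.eq_of_mul_eq_mul_left Nat.card_pos this).symm
  have hne : A.map (QuotientGroup.mk' B) ≠ ⊥ := by
    intro h
    rw [h, Subgroup.card_bot] at hAq
    exact hp.one_lt.ne hAq
  have h1 := Cfsg.Agent.Lib_helper1_Socle.normal_inf_center_ne_bot _ hne
  have h2 : A.map (QuotientGroup.mk' B) ⊓ Subgroup.center (G ⧸ B) = A.map (QuotientGroup.mk' B) := by
    apply Subgroup.eq_of_le_of_card_ge inf_le_left
    have hd : Nat.card (A.map (QuotientGroup.mk' B) ⊓ Subgroup.center (G ⧸ B) : Subgroup (G ⧸ B)) ∣ p := by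
      rw [← hAq]
      exact Subgroup.card_dvd_of_le inf_le_left
    rcases (Nat.dvd_prime hp).mp hd with h3 | h3
    · exact absurd (Subgroup.card_eq_one.mp h3) h1
    · rw [h3, hAq]
  have h3 : QuotientGroup.mk' B t ∈ Subgroup.center (G ⧸ B) := by
    have : QuotientGroup.mk' B t ∈ A.map (QuotientGroup.mk' B) := Subgroup.mem_map_of_mem _ ht
    rw [← h2] at this
    exact this.2
  rw [← QuotientGroup.eq_one_iff, ← QuotientGroup.mk'_apply]
  rw [map_mul, map_mul, map_mul, map_inv, map_inv]
  rw [Subgroup.mem_center_iff.mp h3 (QuotientGroup.mk' B g)]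
  group

theorem eq_of_between {G : Type*} [Group G] [Finite G] {p : ℕ} (hp : p.Prime)
    (A B D : Subgroup G) (hBD : B ≤ D) (hDA : D ≤ A) (hc : Nat.card A = p * Nat.card B)
    (hne : D ≠ B) : D = A := by
  apply Subgroup.eq_of_le_of_card_ge hDA
  obtain ⟨m, hm⟩ := Subgroup.card_dvd_of_le hBD
  have h1 := Subgroup.card_dvd_of_le hDA
  rw [hm, hc, mul_comm p] at h1
  have h2 : m ∣ p := Nat.dvd_of_mul_dvd_mul_left Nat.card_pos h1
  rcases (Nat.dvd_prime hp).mp h2 with h3 | h3
  · exfalso
    rw [h3, mul_one] at hm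
    exact hne (Subgroup.eq_of_le_of_card_ge hBD hm.le).symm
  · rw [hm, hc, h3, mul_comm]

theorem relIndex_centralizer_le {G : Type*} [Group G] [Finite G] {p : ℕ} [Fact p.Prime]
    (hG : IsPGroup p G) (A B : Subgroup G) [A.Normal] [B.Normal] (hBA : B ≤ A)
    (hc : Nat.card A = p * Nat.card B) :
    (Subgroup.centralizer (A : Set G)).relIndex (Subgroup.centralizer (B : Set G)) ≤ Nat.card B := by
  classical
  have hp : p.Prime := Fact.out
  have hne : B ≠ A := by
    intro h
    rw [h] at hc
    have h1 : 0 < Nat.card A := Nat.card_pos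
    have : 1 * Nat.card A < p * Nat.card A := Nat.mul_lt_mul_of_pos_right hp.one_lt h1
    omega
  obtain ⟨t, htA, htB⟩ := SetLike.exists_of_lt (lt_of_le_of_ne hBA hne)
  show Nat.card (Subgroup.centralizer (B : Set G) ⧸
    (Subgroup.centralizer (A : Set G)).subgroupOf (Subgroup.centralizer (B : Set G))) ≤ Nat.card B
  apply Nat.card_le_card_of_injective (fun q => (⟨((Quotient.out q : Subgroup.centralizer (B : Set G)) : G) * t *
      ((Quotient.out q : Subgroup.centralizer (B : Set G)) : G)⁻¹ * t⁻¹,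
      comm_mem_of_index_p hG A B hBA hc _ t htA⟩ : B))
  intro q q' hqq
  have h1 : ((Quotient.out q : Subgroup.centralizer (B : Set G)) : G) * t *
      ((Quotient.out q : Subgroup.centralizer (B : Set G)) : G)⁻¹ * t⁻¹ =
      ((Quotient.out q' : Subgroup.centralizer (B : Set G)) : G) * t *
      ((Quotient.out q' : Subgroup.centralizer (B : Set G)) : G)⁻¹ * t⁻¹ := congrArg Subtype.val hqq
  rw [← QuotientGroup.out_eq' q, ← QuotientGroup.out_eq' q']
  apply QuotientGroup.eq.mpr
  rw [Subgroup.mem_subgroupOf]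
  generalize (Quotient.out q : Subgroup.centralizer (B : Set G)) = x at h1 ⊢
  generalize (Quotient.out q' : Subgroup.centralizer (B : Set G)) = y at h1 ⊢
  have hcB : ((x⁻¹ * y : Subgroup.centralizer (B : Set G)) : G) ∈ Subgroup.centralizer (B : Set G) :=
    (x⁻¹ * y).2
  have hct : ((x⁻¹ * y : Subgroup.centralizer (B : Set G)) : G) * t =
      t * ((x⁻¹ * y : Subgroup.centralizer (B : Set G)) : G) := by
    have h2 : (x : G) * t * (x : G)⁻¹ = (y : G) * t * (y : G)⁻¹ := mul_right_cancel h1
    simp only [Subgroup.coe_mul, Subgroup.coe_inv]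
    calc (x : G)⁻¹ * (y : G) * t = (x : G)⁻¹ * ((y : G) * t * (y : G)⁻¹) * (y : G) := by group
      _ = (x : G)⁻¹ * ((x : G) * t * (x : G)⁻¹) * (y : G) := by rw [h2]
      _ = t * ((x : G)⁻¹ * (y : G)) := by group
  generalize ((x⁻¹ * y : Subgroup.centralizer (B : Set G)) : G) = c at hcB hct ⊢
  have hD : A ⊓ Subgroup.centralizer {c} = A := by
    apply eq_of_between hp A B _ _ inf_le_left hc
    · intro h
      apply htB
      rw [← h]
      refine Subgroup.mem_inf.mpr ⟨htA, ?_⟩
      rw [Subgroup.mem_centralizer_iff]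
      intro w hw
      rw [Set.mem_singleton_iff] at hw
      rw [hw]; exact hct
    · refine le_inf hBA ?_
      intro b hb
      rw [Subgroup.mem_centralizer_iff]
      intro w hw
      rw [Set.mem_singleton_iff] at hw
      rw [hw]
      rw [Subgroup.mem_centralizer_iff] at hcB
      exact (hcB b hb).symm
  rw [Subgroup.mem_centralizer_iff]
  intro a ha
  have : a ∈ A ⊓ Subgroup.centralizer {c} := by rw [hD]; exact ha
  have h3 : a ∈ Subgroup.centralizer {c} := (Subgroup.mem_inf.mp this).2
  rw [Subgroup.mem_centralizer_iff] at h3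
  exact (h3 c (Set.mem_singleton c)).symm

theorem arith (a : ℕ) : (a + 1) * (a + 1 - 1) / 2 = a * (a - 1) / 2 + a := by
  have h : (a + 1) * (a + 1 - 1) = a * (a - 1) + 2 * a := by
    cases a with
    | zero => simp
    | succ b => simp; ring
  rw [h, Nat.add_mul_div_left _ _ (by norm_num : 0 < 2)]

/-- In a finite `p`-group the centralizer of a normal subgroup of order `p^a` has index at most
`p^(a(a-1)/2)`. -/
theorem index_centralizer_le {G : Type*} [Group G] [Finite G] {p : ℕ} [Fact p.Prime]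
    (hG : IsPGroup p G) (a : ℕ) : ∀ (A : Subgroup G) [A.Normal], Nat.card A = p ^ a →
    (Subgroup.centralizer (A : Set G)).index ≤ p ^ (a * (a - 1) / 2) := by
  have hp : p.Prime := Fact.out
  induction a with
  | zero =>
    intro A _ hA
    rw [pow_zero] at hA
    have hAbot : A = ⊥ := Subgroup.card_eq_one.mp hA
    have : Subgroup.centralizer (A : Set G) = ⊤ := by
      rw [Subgroup.centralizer_eq_top_iff_subset, hAbot]
      intro x hx
      have hx1 : x = 1 := by simpa using hx
      rw [hx1]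
      exact Subgroup.one_mem _
    rw [this, Subgroup.index_top]
    simp
  | succ a ih =>
    intro A _ hA
    obtain ⟨B, hBA, hBn, hBc⟩ := exists_normal_index_p a G p hG A hA
    haveI := hBn
    have hc : Nat.card A = p * Nat.card B := by rw [hA, hBc, pow_succ, mul_comm]
    have h1 := relIndex_centralizer_le hG A B hBA hc
    have h2 := ih B hBc
    have h3 : Subgroup.centralizer (A : Set G) ≤ Subgroup.centralizer (B : Set G) :=
      Subgroup.centralizer_le hBA
    rw [← Subgroup.relIndex_mul_index h3, arith a, pow_add, mul_comm]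
    rw [hBc] at h1
    exact Nat.mul_le_mul h2 h1

/-- A maximal normal abelian subgroup of a finite `p`-group is self-centralizing. -/
theorem centralizer_eq_of_max_normal_abelian {G : Type*} [Group G] [Finite G] {p : ℕ}
    [Fact p.Prime] (hG : IsPGroup p G) (A : Subgroup G) [A.Normal] (hA : IsMulCommutative A)
    (hmax : ∀ B : Subgroup G, B.Normal → IsMulCommutative B → A ≤ B → B = A) :
    Subgroup.centralizer (A : Set G) = A := by
  have hAC : A ≤ Subgroup.centralizer (A : Set G) := by
    intro x hx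
    rw [Subgroup.mem_centralizer_iff]
    intro y hy
    exact congrArg Subtype.val (mul_comm' (⟨y, hy⟩ : A) ⟨x, hx⟩)
  by_contra hne
  haveI : Group.IsNilpotent (G ⧸ A) := (hG.to_quotient A).isNilpotent
  have hCq : (Subgroup.centralizer (A : Set G)).map (QuotientGroup.mk' A) ≠ ⊥ := by
    intro h
    apply hne
    apply le_antisymm _ hAC
    intro x hx
    have : QuotientGroup.mk' A x ∈ (Subgroup.centralizer (A : Set G)).map (QuotientGroup.mk' A) :=
      Subgroup.mem_map_of_mem _ hx
    rw [h, Subgroup.mem_bot] at this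
    exact (QuotientGroup.eq_one_iff x).mp this
  haveI : ((Subgroup.centralizer (A : Set G)).map (QuotientGroup.mk' A)).Normal :=
    Subgroup.Normal.map inferInstance _ (QuotientGroup.mk'_surjective A)
  have h1 := Cfsg.Agent.Lib_helper1_Socle.normal_inf_center_ne_bot _ hCq
  obtain ⟨⟨xb, hxb⟩, hne1⟩ := (Subgroup.ne_bot_iff_exists_ne_one).mp h1
  obtain ⟨hxb1, hxb2⟩ := Subgroup.mem_inf.mp hxb
  obtain ⟨x, hxC, hx⟩ := hxb1
  have hxb_ne : xb ≠ 1 := by
    intro h
    apply hne1
    apply Subtype.ext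
    exact h
  haveI hZn : (Subgroup.zpowers xb).Normal :=
    normal_of_le_center (by rw [Subgroup.zpowers_le]; exact hxb2)
  have hBn : ((Subgroup.zpowers xb).comap (QuotientGroup.mk' A)).Normal := hZn.comap _
  have hAB : A ≤ (Subgroup.zpowers xb).comap (QuotientGroup.mk' A) :=
    Cfsg.Agent.Lib_helper1_Hall.le_comap_mk'_of_le A _
  have hxB : x ∈ (Subgroup.zpowers xb).comap (QuotientGroup.mk' A) := by
    rw [Subgroup.mem_comap, hx]
    exact Subgroup.mem_zpowers xb
  have hxA : x ∉ A := by
    intro h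
    apply hxb_ne
    rw [← hx]
    exact (QuotientGroup.eq_one_iff x).mpr h
  have hcx : ∀ k : ℤ, ∀ a ∈ A, a * x ^ k = x ^ k * a := by
    intro k a ha
    have h2 : x ^ k ∈ Subgroup.centralizer (A : Set G) := zpow_mem hxC k
    rw [Subgroup.mem_centralizer_iff] at h2
    exact h2 a ha
  have hdecomp : ∀ b ∈ (Subgroup.zpowers xb).comap (QuotientGroup.mk' A),
      ∃ k : ℤ, ∃ a ∈ A, b = x ^ k * a := by
    intro b hb
    rw [Subgroup.mem_comap, Subgroup.mem_zpowers_iff] at hb
    obtain ⟨k, hk⟩ := hb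
    refine ⟨k, (x ^ k)⁻¹ * b, ?_, by group⟩
    apply QuotientGroup.eq.mp
    show QuotientGroup.mk' A (x ^ k) = QuotientGroup.mk' A b
    rw [map_zpow, hx, hk]
  have hBc : IsMulCommutative ((Subgroup.zpowers xb).comap (QuotientGroup.mk' A)) := by
    refine ⟨⟨fun b b' => ?_⟩⟩
    obtain ⟨k, a, ha, hb⟩ := hdecomp b b.2
    obtain ⟨l, a', ha', hb'⟩ := hdecomp b' b'.2
    apply Subtype.ext
    simp only [Subgroup.coe_mul]
    rw [hb, hb']
    have e1 : a * a' = a' * a := congrArg Subtype.val (mul_comm' (⟨a, ha⟩ : A) ⟨a', ha'⟩)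
    calc x ^ k * a * (x ^ l * a') = x ^ k * (a * x ^ l) * a' := by group
      _ = x ^ k * (x ^ l * a) * a' := by rw [hcx l a ha]
      _ = x ^ k * x ^ l * (a * a') := by group
      _ = x ^ l * x ^ k * (a' * a) := by rw [e1, ← zpow_add, ← zpow_add, add_comm]
      _ = x ^ l * (x ^ k * a') * a := by group
      _ = x ^ l * (a' * x ^ k) * a := by rw [hcx k a' ha']
      _ = x ^ l * a' * (x ^ k * a) := by group
  have := hmax _ hBn hBc hAB
  rw [this] at hxB
  exact hxA hxB

end Cfsg.Agent.Lib_helper1_AutBound
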