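import Mathlib
import Cfsg.Prelude.Def_Solvable

set_option autoImplicit false

/-! Power formulas in groups of class at most three. -/

namespace Cfsg.Agent.H1C3

open scoped commutatorElement

theorem L0 {R : Type*} [Group R] (u w v : R) (h : u * w = w * v) :
    ∀ n : ℕ, u ^ n * w = w * v ^ n := by
  intro n
  induction n with
  | zero => simp
  | succ n ih => rw [pow_succ, mul_assoc, h, ← mul_assoc, ih, mul_assoc, ← pow_succ]

theorem L1 {R : Type*} [Group R] (u w e : R) (h : u * w = w * u * e) (hue : Commute u e) :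
    ∀ n : ℕ, u ^ n * w = w * u ^ n * e ^ n := by
  intro n
  have h' : u * w = w * (u * e) := by rw [h, mul_assoc]
  rw [L0 u w (u * e) h' n, hue.mul_pow, mul_assoc]

theorem L2 {R : Type*} [Group R] (u w e : R) (h : w * u = u * w * e) (heu : Commute e u)
    (hew : Commute e w) : ∀ n : ℕ, (u * w) ^ n = u ^ n * w ^ n * e ^ (n.choose 2) := by
  intro n
  induction n with
  | zero => simp
  | succ n ih =>
    have hch : (n + 1).choose 2 = n + n.choose 2 := by
      rw [Nat.choose_succ_succ, Nat.choose_one_right]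
    have hwn := L1 w u e h hew.symm n
    have heCu : ∀ T, e ^ (n.choose 2) * (u * T) = u * (e ^ (n.choose 2) * T) := fun T => by
      rw [← mul_assoc, (heu.pow_left (n.choose 2)).eq, mul_assoc]
    have hwn' : ∀ T, w ^ n * (u * T) = u * (w ^ n * (e ^ n * T)) := fun T =>
      calc w ^ n * (u * T) = (w ^ n * u) * T := (mul_assoc _ _ _).symm
        _ = (u * w ^ n * e ^ n) * T := by rw [hwn]
        _ = u * (w ^ n * (e ^ n * T)) := by simp only [mul_assoc]
    have heCw : e ^ (n.choose 2) * w = w * e ^ (n.choose 2) := (hew.pow_left (n.choose 2)).eq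
    have henw' : ∀ T, e ^ n * (w * T) = w * (e ^ n * T) := fun T => by
      rw [← mul_assoc, (hew.pow_left n).eq, mul_assoc]
    rw [pow_succ (u * w) n, ih, pow_succ u n, pow_succ w n, hch, pow_add]
    simp only [mul_assoc]
    rw [heCu, hwn', heCw, henw']

theorem step {R : Type*} [Group R] (x y c Z D1 D2 D3 : R) (n e : ℕ)
    (hZ : ∀ g, Z * g = g * Z) (h1 : ∀ g, D1 * g = g * D1) (h2c : ∀ g, D2 * g = g * D2)
    (h2 : c ^ e * x = x * c ^ e * D1) (h3 : y ^ n * x = x * y ^ n * c ^ n * D2)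
    (h4 : c ^ (n + e) * y = y * c ^ (n + e) * D3)
    (ih : (x * y) ^ n = x ^ n * y ^ n * c ^ e * Z) :
    (x * y) ^ (n + 1) = x ^ (n + 1) * y ^ (n + 1) * c ^ (n + e) * (D3 * (D2 * (D1 * Z))) := by
  have hZxy : Z * (x * y) = x * (y * Z) := by rw [hZ, mul_assoc]
  have h2' : ∀ T, c ^ e * (x * T) = x * (c ^ e * (D1 * T)) := fun T =>
    calc c ^ e * (x * T) = (c ^ e * x) * T := (mul_assoc _ _ _).symm
      _ = (x * c ^ e * D1) * T := by rw [h2]
      _ = x * (c ^ e * (D1 * T)) := by simp only [mul_assoc]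
  have h3' : ∀ T, y ^ n * (x * T) = x * (y ^ n * (c ^ n * (D2 * T))) := fun T =>
    calc y ^ n * (x * T) = (y ^ n * x) * T := (mul_assoc _ _ _).symm
      _ = (x * y ^ n * c ^ n * D2) * T := by rw [h3]
      _ = x * (y ^ n * (c ^ n * (D2 * T))) := by simp only [mul_assoc]
  have hD2c : ∀ T, D2 * (c ^ e * T) = c ^ e * (D2 * T) := fun T => by
    rw [← mul_assoc, h2c, mul_assoc]
  have hD1y : ∀ T, D1 * (y * T) = y * (D1 * T) := fun T => by
    rw [← mul_assoc, h1, mul_assoc]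
  have hD2y : ∀ T, D2 * (y * T) = y * (D2 * T) := fun T => by
    rw [← mul_assoc, h2c, mul_assoc]
  have h4' : ∀ T, c ^ n * (c ^ e * (y * T)) = y * (c ^ n * (c ^ e * (D3 * T))) := fun T =>
    calc c ^ n * (c ^ e * (y * T)) = (c ^ (n + e) * y) * T := by
          rw [pow_add]; simp only [mul_assoc]
      _ = (y * c ^ (n + e) * D3) * T := by rw [h4]
      _ = y * (c ^ n * (c ^ e * (D3 * T))) := by rw [pow_add]; simp only [mul_assoc]
  rw [pow_succ (x * y) n, ih, pow_succ x n, pow_succ y n, pow_add c n e]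
  simp only [mul_assoc]
  rw [hZxy, h2', h3', hD2c, hD1y, hD2y, h4']

theorem merge {R : Type*} [Group R] (d₁ d₂ : R) (hd₂ : ∀ g, d₂ * g = g * d₂) (a b e f g : ℕ) :
    d₂ ^ a * (d₂ ^ b * (d₁ ^ e * (d₁ ^ f * d₂ ^ g))) = d₁ ^ (e + f) * d₂ ^ (g + b + a) := by
  have hc2 : ∀ (k : ℕ) (w : R), d₂ ^ k * w = w * d₂ ^ k := fun k w =>
    (Commute.pow_left (hd₂ w) k).eq
  rw [hc2 b, hc2 a]
  simp only [pow_add, mul_assoc]

/-- The class three collection formula. -/
theorem class3_pow {R : Type*} [Group R] (x y c d₁ d₂ : R)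
    (hyx : y * x = x * y * c) (hcx : c * x = x * c * d₁) (hcy : c * y = y * c * d₂)
    (hd₁ : ∀ g, d₁ * g = g * d₁) (hd₂ : ∀ g, d₂ * g = g * d₂) :
    ∀ n : ℕ, (x * y) ^ n = x ^ n * y ^ n * c ^ (n.choose 2) *
      (d₁ ^ (n.choose 3) * d₂ ^ (n.choose 2 + 2 * n.choose 3)) := by
  intro n
  induction n with
  | zero => simp
  | succ n ih =>
    have hch2 : (n + 1).choose 2 = n + n.choose 2 := by
      rw [Nat.choose_succ_succ, Nat.choose_one_right]
    have hch3 : (n + 1).choose 3 = n.choose 2 + n.choose 3 := by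
      rw [Nat.choose_succ_succ]
    have hcd₁ : Commute c d₁ := (hd₁ c).symm
    have hcd₂ : Commute c d₂ := (hd₂ c).symm
    have hyd₂ : Commute y d₂ := (hd₂ y).symm
    have hZ : ∀ g, (d₁ ^ (n.choose 3) * d₂ ^ (n.choose 2 + 2 * n.choose 3)) * g =
        g * (d₁ ^ (n.choose 3) * d₂ ^ (n.choose 2 + 2 * n.choose 3)) := fun g =>
      (Commute.mul_left (Commute.pow_left (hd₁ g) _) (Commute.pow_left (hd₂ g) _)).eq
    have h1 : ∀ g, d₁ ^ (n.choose 2) * g = g * d₁ ^ (n.choose 2) := fun g =>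
      (Commute.pow_left (hd₁ g) _).eq
    have h2c : ∀ g, d₂ ^ (n.choose 2) * g = g * d₂ ^ (n.choose 2) := fun g =>
      (Commute.pow_left (hd₂ g) _).eq
    have h2 := L1 c x d₁ hcx hcd₁ (n.choose 2)
    have h4 := L1 c y d₂ hcy hcd₂ (n + n.choose 2)
    have h3 : y ^ n * x = x * y ^ n * c ^ n * d₂ ^ (n.choose 2) := by
      have h5 : y * x = x * (y * c) := by rw [hyx, mul_assoc]
      rw [L0 y x (y * c) h5 n, L2 y c d₂ hcy (hd₂ y) (hd₂ c) n]
      simp only [mul_assoc]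
    have hstep := step x y c _ _ _ _ n (n.choose 2) hZ h1 h2c h2 h3 h4 ih
    have hQ : n.choose 2 + 2 * n.choose 3 + n.choose 2 + (n + n.choose 2) =
        n + n.choose 2 + 2 * (n.choose 2 + n.choose 3) := by omega
    rw [hstep, merge d₁ d₂ hd₂, hch2, hch3, hQ]

theorem pow_eq_one_of_dvd {R : Type*} [Group R] (z : R) (p m : ℕ) (h : z ^ p = 1) (hm : p ∣ m) :
    z ^ m = 1 := by
  obtain ⟨k, rfl⟩ := hm
  rw [pow_mul, h, one_pow]

/-- local class two lemma -/
theorem mul_pow_eq_one {R : Type*} [Group R] (p : ℕ) (hp : p.Prime) (hp2 : p ≠ 2) (u v e : R)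
    (h : v * u = u * v * e) (heu : Commute e u) (hev : Commute e v) (hu : u ^ p = 1)
    (hv : v ^ p = 1) : (u * v) ^ p = 1 := by
  have h1 := L1 v u e h hev.symm p
  rw [hv, one_mul, mul_one] at h1
  have he : e ^ p = 1 := by
    have : u * 1 = u * e ^ p := by rw [mul_one]; exact h1
    exact (mul_left_cancel this).symm
  have hdvd : p ∣ p.choose 2 := hp.dvd_choose_self (by norm_num) (by
    have := hp.two_le; omega)
  rw [L2 u v e h heu hev p, hu, hv, pow_eq_one_of_dvd e p _ he hdvd]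
  simp

section

variable {R : Type*} [Group R]

theorem central_of_bot (K : Subgroup R) (hK : ⁅K, (⊤ : Subgroup R)⁆ = ⊥) (z : R) (hz : z ∈ K)
    (g : R) : z * g = g * z := by
  have h1 : ⁅z, g⁆ ∈ ⁅K, (⊤ : Subgroup R)⁆ :=
    Subgroup.commutator_mem_commutator hz (Subgroup.mem_top g)
  rw [hK, Subgroup.mem_bot, commutatorElement_def] at h1
  have h2 : z * g = (z * g * z⁻¹ * g⁻¹) * (g * z) := by group
  rw [h2, h1, one_mul]

theorem comm_mem (x y : R) : y⁻¹ * x⁻¹ * y * x ∈ commutator R := by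
  have h1 : ⁅y⁻¹, x⁻¹⁆ ∈ ⁅(⊤ : Subgroup R), (⊤ : Subgroup R)⁆ :=
    Subgroup.commutator_mem_commutator (Subgroup.mem_top _) (Subgroup.mem_top _)
  rw [commutatorElement_def, inv_inv, inv_inv] at h1
  exact h1

theorem comm_mem' (K : Subgroup R) (c g : R) (hc : c ∈ K) :
    c⁻¹ * g⁻¹ * c * g ∈ ⁅K, (⊤ : Subgroup R)⁆ := by
  have h1 : ⁅c⁻¹, g⁻¹⁆ ∈ ⁅K, (⊤ : Subgroup R)⁆ :=
    Subgroup.commutator_mem_commutator (K.inv_mem hc) (Subgroup.mem_top _)
  rw [commutatorElement_def, inv_inv, inv_inv] at h1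
  exact h1

/-- class two: the elements of order dividing `p` generate a subgroup of exponent `p`. -/
theorem exp_closure2 (p : ℕ) (hp : p.Prime) (hp2 : p ≠ 2)
    (hcl : ⁅commutator R, (⊤ : Subgroup R)⁆ = ⊥) (g : R)
    (hg : g ∈ Subgroup.closure {x : R | x ^ p = 1}) : g ^ p = 1 := by
  refine Subgroup.closure_induction (p := fun g _ => g ^ p = 1) (fun x hx => hx) (one_pow p)
    (fun u v _ _ hu hv => ?_) (fun x _ hx => by rw [inv_pow, hx, inv_one]) hg
  have he : v⁻¹ * u⁻¹ * v * u ∈ commutator R := comm_mem u v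
  have hc := central_of_bot (commutator R) hcl _ he
  exact mul_pow_eq_one p hp hp2 u v (v⁻¹ * u⁻¹ * v * u) (by group) (hc u) (hc v) hu hv

/-- the class three formula for `p`-th powers -/
theorem class3_mul_pow (p : ℕ) (hp : p.Prime) (hp3 : 3 < p)
    (hcl : ⁅⁅commutator R, (⊤ : Subgroup R)⁆, (⊤ : Subgroup R)⁆ = ⊥) (x y : R)
    (hc : (y⁻¹ * x⁻¹ * y * x) ^ p = 1) : (x * y) ^ p = x ^ p * y ^ p := by
  obtain ⟨c, hcdef⟩ : ∃ c : R, c = y⁻¹ * x⁻¹ * y * x := ⟨_, rfl⟩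
  have hcm : c ∈ commutator R := hcdef ▸ comm_mem x y
  obtain ⟨d₁, hd₁def⟩ : ∃ d : R, d = c⁻¹ * x⁻¹ * c * x := ⟨_, rfl⟩
  obtain ⟨d₂, hd₂def⟩ : ∃ d : R, d = c⁻¹ * y⁻¹ * c * y := ⟨_, rfl⟩
  have hd₁ := central_of_bot _ hcl d₁ (hd₁def ▸ comm_mem' (commutator R) c x hcm)
  have hd₂ := central_of_bot _ hcl d₂ (hd₂def ▸ comm_mem' (commutator R) c y hcm)
  have hyx : y * x = x * y * c := by rw [hcdef]; group
  have hcx : c * x = x * c * d₁ := by rw [hd₁def]; group
  have hcy : c * y = y * c * d₂ := by rw [hd₂def]; group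
  rw [← hcdef] at hc
  have hd₁p : d₁ ^ p = 1 := by
    have h1 := L1 c x d₁ hcx (hd₁ c).symm p
    rw [hc, one_mul, mul_one] at h1
    have : x * 1 = x * d₁ ^ p := by rw [mul_one]; exact h1
    exact (mul_left_cancel this).symm
  have hd₂p : d₂ ^ p = 1 := by
    have h1 := L1 c y d₂ hcy (hd₂ c).symm p
    rw [hc, one_mul, mul_one] at h1
    have : y * 1 = y * d₂ ^ p := by rw [mul_one]; exact h1
    exact (mul_left_cancel this).symm
  have hdvd2 : p ∣ p.choose 2 := hp.dvd_choose_self (by norm_num) (by omega)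
  have hdvd3 : p ∣ p.choose 3 := hp.dvd_choose_self (by norm_num) hp3
  rw [class3_pow x y c d₁ d₂ hyx hcx hcy hd₁ hd₂ p, pow_eq_one_of_dvd c p _ hc hdvd2,
    pow_eq_one_of_dvd d₁ p _ hd₁p hdvd3,
    pow_eq_one_of_dvd d₂ p _ hd₂p (dvd_add hdvd2 (dvd_mul_of_dvd_right hdvd3 2))]
  simp

/-- class three, `p > 3`: the elements of order dividing `p` generate a subgroup of exponent
`p`. -/
theorem exp_closure3 (p : ℕ) (hp : p.Prime) (hp3 : 3 < p)
    (hcl : ⁅⁅commutator R, (⊤ : Subgroup R)⁆, (⊤ : Subgroup R)⁆ = ⊥) (g : R)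
    (hg : g ∈ Subgroup.closure {x : R | x ^ p = 1}) : g ^ p = 1 := by
  refine Subgroup.closure_induction (p := fun g _ => g ^ p = 1) (fun x hx => hx) (one_pow p)
    (fun x y _ _ hx hy => ?_) (fun x _ hx => by rw [inv_pow, hx, inv_one]) hg
  -- the commutator has order dividing p
  have hc : (y⁻¹ * x⁻¹ * y * x) ^ p = 1 := by
    have hcm : y⁻¹ * x⁻¹ * y * x ∈ commutator R := comm_mem x y
    have he : (x⁻¹ * y * x)⁻¹ * (y⁻¹)⁻¹ * (x⁻¹ * y * x) * y⁻¹ ∈
        ⁅commutator R, (⊤ : Subgroup R)⁆ := by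
      have h1 := comm_mem' (commutator R) (y⁻¹ * x⁻¹ * y * x) y⁻¹ hcm
      have h2 : (y⁻¹ * x⁻¹ * y * x)⁻¹ * y⁻¹⁻¹ * (y⁻¹ * x⁻¹ * y * x) * y⁻¹ =
          (x⁻¹ * y * x)⁻¹ * (y⁻¹)⁻¹ * (x⁻¹ * y * x) * y⁻¹ := by group
      rw [h2] at h1
      exact h1
    have hcen := central_of_bot _ hcl _ he
    have hv : (x⁻¹ * y * x) ^ p = 1 := by
      have h5 : x⁻¹ * y * x = x⁻¹ * y * (x⁻¹)⁻¹ := by rw [inv_inv]
      rw [h5, conj_pow, hy]; group
    have hu : (y⁻¹) ^ p = 1 := by rw [inv_pow, hy, inv_one]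
    have h3 := mul_pow_eq_one p hp (by omega) y⁻¹ (x⁻¹ * y * x) _ (by group) (hcen _) (hcen _)
      hu hv
    have h4 : y⁻¹ * (x⁻¹ * y * x) = y⁻¹ * x⁻¹ * y * x := by group
    rw [h4] at h3
    exact h3
  rw [class3_mul_pow p hp hp3 hcl x y hc, hx, hy, one_mul]

end

end Cfsg.Agent.H1C3
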