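import Cfsg.Statements.S0121
import Cfsg.Agent.Lib_helper1_Basic

set_option autoImplicit false
open Cfsg

namespace Cfsg.Agent.S0121

open scoped commutatorElement in
/-- A p'-automorphism of a p-group acting trivially on a critical subgroup is trivial. -/
theorem result {G : Type*} [Group G] [Finite G] {p : ℕ} [Fact p.Prime] (hG : IsPGroup p G) (H : Subgroup G) (hH : H.Characteristic) (h1 : (frattini H).map H.subtype ≤ Subgroup.centralizer (H : Set G)) (h2 : ⁅H, (⊤ : Subgroup G)⁆ ≤ H ⊓ Subgroup.centralizer (H : Set G)) (h3 : Subgroup.centralizer (H : Set G) ≤ H) (a : MulAut G) (ha : Nat.Coprime (orderOf a) p) (h : ∀ x ∈ H, a x = x) : a = 1 := by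
  have key : ∀ g : G, a g = g := by
    intro g
    set z : G := g⁻¹ * a g with hz
    have hzc : z ∈ Subgroup.centralizer (H : Set G) := by
      rw [Subgroup.mem_centralizer_iff]
      intro x hx
      have hxH : x ∈ H := hx
      have hc : ⁅x, g⁆ ∈ H := (h2 (Subgroup.commutator_mem_commutator hxH (Subgroup.mem_top g))).1
      have e1 := h _ hc
      rw [commutatorElement_def, map_mul, map_mul, map_mul, map_inv, map_inv, h x hxH] at e1
      -- e1 : x * a g * x⁻¹ * (a g)⁻¹ = x * g * x⁻¹ * g⁻¹
      have e2 : a g * x⁻¹ * (a g)⁻¹ = g * x⁻¹ * g⁻¹ := by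
        have := congrArg (fun t => x⁻¹ * t) e1
        simpa [mul_assoc] using this
      have e3 : x⁻¹ * z = z * x⁻¹ := by
        rw [hz]
        have := congrArg (fun t => g⁻¹ * t * a g) e2
        simp only [mul_assoc, inv_mul_cancel, mul_one, inv_mul_cancel_left] at this
        rw [mul_assoc, this]
      have e4 : x * z = z * x := by
        have := congrArg (fun t => x * t * x) e3
        simpa [mul_assoc] using this.symm
      exact e4
    have hzH : z ∈ H := h3 hzc
    have haz : a z = z := h z hzH
    have hag : a g = g * z := by rw [hz]; group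
    have hpow : ∀ k : ℕ, (a ^ k) g = g * z ^ k := by
      intro k
      induction k with
      | zero => simp
      | succ k ih =>
        rw [pow_succ', MulAut.mul_apply, ih, map_mul, map_pow, haz, hag, pow_succ']
        group
    have hk := hpow (orderOf a)
    rw [pow_orderOf_eq_one, MulAut.one_apply] at hk
    have hz1 : z ^ orderOf a = 1 := by
      have := congrArg (fun t => g⁻¹ * t) hk
      simpa using this.symm
    have hd : orderOf z ∣ orderOf a := orderOf_dvd_of_pow_eq_one hz1
    obtain ⟨m, hm⟩ := hG z
    have hd2 : orderOf z ∣ p ^ m := orderOf_dvd_of_pow_eq_one hm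
    have h1' : orderOf z = 1 := by
      have hcop : Nat.Coprime (orderOf a) (p ^ m) := Nat.Coprime.pow_right m ha
      exact Nat.eq_one_of_dvd_coprimes hcop hd hd2
    have hz1' : z = 1 := orderOf_eq_one_iff.mp h1'
    rw [hag, hz1', mul_one]
  ext g
  simpa using key g

end Cfsg.Agent.S0121
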