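import Mathlib
import Cfsg.Prelude.Def_Solvable
import Cfsg.Agent.Lib_helper1_Critical
import Cfsg.Agent.Lib_helper9_Omega
import Cfsg.Agent.Lib_helper1_Class3
import Cfsg.Agent.Lib_helper1_MaxClass
import Cfsg.Agent.S0121

set_option autoImplicit false

/-! Automorphisms of order prime to `p` of `p`-groups of rank at most two, `p` odd. -/

namespace Cfsg.Agent.H1AR

open scoped commutatorElement

theorem count_aux {R : Type*} [Group R] [Finite R] (α : MulAut R) (q : ℕ) [Fact q.Prime]
    (hα : α ^ q = 1) (S : Subgroup R) (f : S → S) (hf : ∀ x : S, (f x : R) = α x.1) :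
    Nat.card S ≡ Nat.card {x : R // x ∈ S ∧ α x = x} [MOD q] := by
  classical
  haveI := Fintype.ofFinite S
  obtain ⟨F, hF⟩ : ∃ F : Function.End S, ∀ x : S, ((F x : S) : R) = α x.1 := ⟨f, hf⟩
  have hiter : ∀ (k : ℕ) (x : S), (((F ^ k) x : S) : R) = (α ^ k) x.1 := by
    intro k
    induction k with
    | zero => intro x; rw [pow_zero, pow_zero]; rfl
    | succ k ih =>
      intro x
      rw [pow_succ, pow_succ]
      show (((F ^ k) (F x) : S) : R) = (α ^ k) (α x.1)
      rw [ih, hF]
  have hfq : F ^ q ^ 1 = 1 := by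
    rw [pow_one]
    funext x
    apply Subtype.ext
    rw [hiter, hα]; rfl
  have h := Equiv.Perm.card_fixedPoints_modEq (p := q) (n := 1) hfq
  rw [Fintype.card_eq_nat_card, Fintype.card_eq_nat_card] at h
  have e : Function.fixedPoints F ≃ {x : R // x ∈ S ∧ α x = x} :=
    { toFun := fun y => ⟨y.1.1, y.1.2, by
        have h1 : F y.1 = y.1 := y.2
        rw [← hF, h1]⟩
      invFun := fun x => ⟨⟨x.1, x.2.1⟩,
        (show F ⟨x.1, x.2.1⟩ = ⟨x.1, x.2.1⟩ from Subtype.ext ((hF _).trans x.2.2))⟩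
      left_inv := fun y => Subtype.ext (Subtype.ext rfl)
      right_inv := fun x => Subtype.ext rfl }
  have h2 : Nat.card (Function.fixedPoints F) =
      Nat.card {x : R // x ∈ S ∧ α x = x} := Nat.card_congr e
  exact h.trans (congrArg (· % q) h2)

theorem comm_closure {R : Type*} [Group R] (k : Set R) (h : ∀ x ∈ k, ∀ y ∈ k, x * y = y * x) :
    ∀ a ∈ Subgroup.closure k, ∀ b ∈ Subgroup.closure k, a * b = b * a := by
  have h1 : Subgroup.closure k ≤ Subgroup.centralizer k := by
    rw [Subgroup.closure_le]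
    intro x hx
    exact Subgroup.mem_centralizer_iff.mpr (fun y hy => h y hy x hx)
  have h2 : Subgroup.closure k ≤ Subgroup.centralizer (Subgroup.closure k : Set R) := by
    rw [Subgroup.closure_le]
    intro x hx
    exact Subgroup.mem_centralizer_iff.mpr
      (fun y hy => (Subgroup.mem_centralizer_iff.mp (h1 hy) x hx).symm)
  intro a ha b hb
  exact Subgroup.mem_centralizer_iff.mp (h2 hb) a ha

theorem aut_rank_two {R : Type*} [Group R] [Finite R] {p : ℕ} [Fact p.Prime] (hp2 : p ≠ 2)
    (hR : IsPGroup p R)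
    (hrk : ∀ A : Subgroup R, IsMulCommutative A → (∀ a ∈ A, a ^ p = 1) → Nat.card A ≤ p ^ 2)
    (q : ℕ) (hq : q.Prime) (hqp : q ≠ p) (hdvd : q ∣ Nat.card (MulAut R)) : q ∣ p ^ 2 - 1 := by
  classical
  have hp : p.Prime := Fact.out
  haveI : Fact q.Prime := ⟨hq⟩
  obtain ⟨α, hαo⟩ := exists_prime_orderOf_dvd_card' q hdvd
  have hαq : α ^ q = 1 := by rw [← hαo]; exact pow_orderOf_eq_one α
  have hα1 : α ≠ 1 := by
    intro h; rw [h, orderOf_one] at hαo; exact hq.one_lt.ne hαo
  have hcop : (orderOf α).Coprime p := by rw [hαo]; exact (Nat.coprime_primes hq hp).mpr hqp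
  have hH : ∀ a b : ℕ, b < a → a ≤ b + 2 → p ^ a ≡ p ^ b [MOD q] → q ∣ p ^ 2 - 1 := by
    intro a b hba hab hmod
    obtain ⟨d, rfl⟩ := Nat.exists_eq_add_of_lt hba
    have h1 : q ∣ p ^ (b + d + 1) - p ^ b :=
      (Nat.modEq_iff_dvd' (Nat.pow_le_pow_right hp.pos (by omega))).mp hmod.symm
    have h2 : p ^ (b + d + 1) - p ^ b = p ^ b * (p ^ (d + 1) - 1) := by
      rw [Nat.mul_sub, mul_one, ← pow_add, add_assoc]
    rw [h2] at h1
    have h3 : q ∣ p ^ (d + 1) - 1 := by
      rcases (Nat.Prime.dvd_mul hq).mp h1 with h | h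
      · exact absurd ((Nat.prime_dvd_prime_iff_eq hq hp).mp (hq.dvd_of_dvd_pow h)) hqp
      · exact h
    have hd : d = 0 ∨ d = 1 := by omega
    rcases hd with rfl | rfl
    · have h4 : ∀ m : ℕ, (m + 1) ^ 2 - 1 = m * (m + 1 + 1) := by
        intro m; symm; apply Nat.eq_sub_of_add_eq; ring
      have h5 := h4 (p - 1)
      rw [Nat.sub_add_cancel hp.one_le] at h5
      rw [h5]
      simp only [zero_add, pow_one] at h3
      exact dvd_mul_of_dvd_left h3 _
    · exact h3
  obtain ⟨C, hCchar, hC1, hC2, hC3, -⟩ := Cfsg.Agent.Lib_helper1_Critical.exists_critical hR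
  have hCα : ∀ x ∈ C, α x ∈ C := fun x hx =>
    (Subgroup.characteristic_iff_map_le.mp hCchar α) (Subgroup.mem_map_of_mem _ hx)
  have hcomm : ∀ u ∈ C, ∀ v ∈ C, ∀ w ∈ C, Commute (v⁻¹ * u⁻¹ * v * u) w := by
    intro u hu v hv w hw
    have h1 : v⁻¹ * u⁻¹ * v * u ∈ ⁅C, (⊤ : Subgroup R)⁆ := by
      have h := Subgroup.commutator_mem_commutator (C.inv_mem hv) (Subgroup.mem_top u⁻¹)
      rw [commutatorElement_def, inv_inv, inv_inv] at h
      exact h
    exact (Subgroup.mem_centralizer_iff.mp (hC2 h1).2 w hw).symm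
  let E : Subgroup R :=
    { carrier := {x | x ∈ C ∧ x ^ p = 1}
      one_mem' := ⟨C.one_mem, one_pow p⟩
      mul_mem' := fun {u v} hu hv => ⟨C.mul_mem hu.1 hv.1,
        Cfsg.Agent.H1C3.mul_pow_eq_one p hp hp2 u v (v⁻¹ * u⁻¹ * v * u) (by group)
          (hcomm u hu.1 v hv.1 u hu.1) (hcomm u hu.1 v hv.1 v hv.1) hu.2 hv.2⟩
      inv_mem' := fun {u} hu => ⟨C.inv_mem hu.1, by rw [inv_pow, hu.2, inv_one]⟩ }
  have hEmem : ∀ x, x ∈ E ↔ x ∈ C ∧ x ^ p = 1 := fun x => Iff.rfl
  have hEC : ∀ x ∈ E, x ∈ C := fun x hx => ((hEmem x).mp hx).1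
  have hEexp : ∀ x ∈ E, x ^ p = 1 := fun x hx => ((hEmem x).mp hx).2
  have hEα : ∀ x ∈ E, α x ∈ E := fun x hx => (hEmem _).mpr
    ⟨hCα x (hEC x hx), by rw [← map_pow, hEexp x hx, map_one]⟩
  have hmove : ∃ x ∈ E, α x ≠ x := by
    by_contra hcon
    push Not at hcon
    apply hα1
    apply Cfsg.Agent.S0121.result hR C hCchar hC1 hC2 hC3 α hcop
    exact Cfsg.Agent.Lib_helper9_Omega.omega_aut_sub p p dvd_rfl
      (Cfsg.Agent.Lib_helper9_Omega.sum_range_dvd_of_odd hp hp2) C (hR.to_subgroup C) α hcop hCα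
      (fun y hy hyp => hcon y ((hEmem y).mpr ⟨hy, hyp⟩))
  let Fs : Subgroup R :=
    { carrier := {x | x ∈ E ∧ α x = x}
      one_mem' := ⟨E.one_mem, map_one α⟩
      mul_mem' := fun {u v} hu hv => ⟨E.mul_mem hu.1 hv.1, by rw [map_mul, hu.2, hv.2]⟩
      inv_mem' := fun {u} hu => ⟨E.inv_mem hu.1, by rw [map_inv, hu.2]⟩ }
  have hFmem : ∀ x, x ∈ Fs ↔ x ∈ E ∧ α x = x := fun x => Iff.rfl
  have hFE : Fs ≤ E := fun x hx => ((hFmem x).mp hx).1
  have hFne : Fs ≠ E := by
    intro h
    obtain ⟨x, hx, hxα⟩ := hmove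
    rw [← h] at hx
    exact hxα ((hFmem x).mp hx).2
  have hcount : Nat.card E ≡ Nat.card Fs [MOD q] :=
    count_aux α q hαq E (fun x => ⟨α x.1, hEα x.1 x.2⟩) (fun x => rfl)
  obtain ⟨a, ha⟩ := (hR.to_subgroup E).exists_card_eq
  obtain ⟨b, hb⟩ := (hR.to_subgroup Fs).exists_card_eq
  have hba : b < a := by
    have hlt : Nat.card Fs < Nat.card E := by
      by_contra hcon
      push Not at hcon
      exact hFne (Subgroup.eq_of_le_of_card_ge hFE hcon)
    rw [ha, hb] at hlt
    exact (Nat.pow_lt_pow_iff_right hp.one_lt).mp hlt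
  rw [ha, hb] at hcount
  -- the centre of E
  obtain ⟨ZE, hZEdef⟩ : ∃ ZE : Subgroup R, ZE = E ⊓ Subgroup.centralizer (E : Set R) :=
    ⟨_, rfl⟩
  have hZmem : ∀ x, x ∈ ZE ↔ x ∈ E ∧ x ∈ Subgroup.centralizer (E : Set R) := by
    intro x; rw [hZEdef]; exact Subgroup.mem_inf
  have hZcen : ∀ z ∈ ZE, ∀ w ∈ E, w * z = z * w := fun z hz w hw =>
    Subgroup.mem_centralizer_iff.mp ((hZmem z).mp hz).2 w hw
  have hZE : ZE ≤ E := fun x hx => ((hZmem x).mp hx).1
  have hZab : IsMulCommutative ZE :=
    ⟨⟨fun x y => Subtype.ext (hZcen y.1 y.2 x.1 (hZE x.2))⟩⟩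
  have hZcard : Nat.card ZE ≤ p ^ 2 := hrk ZE hZab (fun x hx => hEexp x (hZE hx))
  have hEbot : E ≠ ⊥ := by
    intro h
    rw [h, Subgroup.card_bot] at ha
    have : a = 0 := by
      by_contra h0
      exact (Nat.one_lt_pow h0 hp.one_lt).ne ha
    omega
  have hZne : ZE ≠ ⊥ := by
    haveI : Nontrivial E := (Subgroup.nontrivial_iff_ne_bot E).mpr hEbot
    haveI := (hR.to_subgroup E).center_nontrivial
    obtain ⟨z, hz⟩ := exists_ne (1 : Subgroup.center E)
    intro h
    have hzZ : ((z : E) : R) ∈ ZE := by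
      rw [hZmem]
      refine ⟨(z : E).2, Subgroup.mem_centralizer_iff.mpr (fun w hw => ?_)⟩
      have := Subgroup.mem_center_iff.mp z.2 ⟨w, hw⟩
      exact congrArg Subtype.val this
    rw [h, Subgroup.mem_bot] at hzZ
    exact hz (Subtype.ext (Subtype.ext hzZ))
  obtain ⟨z, hz⟩ := (hR.to_subgroup ZE).exists_card_eq
  have hz1 : 1 ≤ z := by
    by_contra h0
    have : z = 0 := by omega
    rw [this, pow_zero] at hz
    exact hZne (Subgroup.eq_bot_of_card_eq ZE hz)
  have hz2 : z ≤ 2 := by
    rw [hz] at hZcard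
    exact (Nat.pow_le_pow_iff_right hp.one_lt).mp hZcard
  rcases Nat.eq_zero_or_pos b with hb0 | hbpos
  · -- fixed point free on E: count on the centre
    have hFbot : Fs = ⊥ := Subgroup.eq_bot_of_card_eq Fs (by rw [hb, hb0, pow_zero])
    have hZα : ∀ x ∈ ZE, α x ∈ ZE := by
      intro x hx
      rw [hZmem]
      refine ⟨hEα x (hZE hx), ?_⟩
      rw [Subgroup.mem_centralizer_iff]
      intro w hw
      have hiter : ∀ k : ℕ, ∀ y ∈ E, (α ^ k) y ∈ E := by
        intro k
        induction k with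
        | zero => intro y hy; simpa using hy
        | succ k ih => intro y hy; rw [pow_succ]; exact ih _ (hEα y hy)
      obtain ⟨m, hm⟩ : ∃ m, q = m + 1 := ⟨q - 1, by have := hq.pos; omega⟩
      have hw' : α ((α ^ m) w) = w := by
        have h1 : (α * α ^ m) w = w := by rw [← pow_succ', ← hm, hαq]; rfl
        exact h1
      have hc := hZcen x hx _ (hiter m w hw)
      rw [← hw', ← map_mul, ← map_mul, hc]
    have hcZ := count_aux α q hαq ZE (fun x => ⟨α x.1, hZα x.1 x.2⟩) (fun x => rfl)
    have hfix1 : Nat.card {x : R // x ∈ ZE ∧ α x = x} = 1 := by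
      rw [Nat.card_eq_one_iff_unique]
      refine ⟨⟨fun x y => Subtype.ext ?_⟩, ⟨⟨1, ZE.one_mem, map_one α⟩⟩⟩
      have hx : x.1 ∈ Fs := (hFmem _).mpr ⟨hZE x.2.1, x.2.2⟩
      have hy : y.1 ∈ Fs := (hFmem _).mpr ⟨hZE y.2.1, y.2.2⟩
      rw [hFbot, Subgroup.mem_bot] at hx hy
      rw [hx, hy]
    rw [hfix1, hz] at hcZ
    exact hH z 0 (by omega) (by omega) (by rw [pow_zero]; exact hcZ)
  · -- bound the order of E
    have ha3 : a ≤ 3 := by
      by_cases hEab : ∀ x ∈ E, x ∈ ZE
      · have h1 : Nat.card E ≤ Nat.card ZE := Subgroup.card_le_of_le (fun x hx => hEab x hx)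
        rw [ha, hz] at h1
        have := (Nat.pow_le_pow_iff_right hp.one_lt).mp h1
        omega
      · push Not at hEab
        obtain ⟨a₀, ha₀E, ha₀Z⟩ := hEab
        have ha₀1 : a₀ ≠ 1 := fun h => ha₀Z (h ▸ ZE.one_mem)
        have hk : ∀ x ∈ ({a₀} ∪ (ZE : Set R) : Set R), ∀ y ∈ ({a₀} ∪ (ZE : Set R) : Set R),
            x * y = y * x := by
          intro x hx y hy
          rcases hx with hx | hx <;> rcases hy with hy | hy
          · rw [Set.mem_singleton_iff] at hx hy; rw [hx, hy]
          · rw [Set.mem_singleton_iff] at hx; rw [hx]; exact hZcen y hy a₀ ha₀E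
          · rw [Set.mem_singleton_iff] at hy; rw [hy]; exact (hZcen x hx a₀ ha₀E).symm
          · exact hZcen y hy x (hZE hx)
        obtain ⟨A₀, hA₀def⟩ : ∃ A₀ : Subgroup R,
            A₀ = Subgroup.closure ({a₀} ∪ (ZE : Set R) : Set R) := ⟨_, rfl⟩
        have hA₀comm : ∀ x ∈ A₀, ∀ y ∈ A₀, x * y = y * x := by
          rw [hA₀def]; exact comm_closure _ hk
        have ha₀A : a₀ ∈ A₀ := by
          rw [hA₀def]; exact Subgroup.subset_closure (Or.inl rfl)
        have hZA : ZE ≤ A₀ := by
          intro x hx; rw [hA₀def]; exact Subgroup.subset_closure (Or.inr hx)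
        have hA₀E : A₀ ≤ E := by
          rw [hA₀def, Subgroup.closure_le]
          rintro x (hx | hx)
          · rw [Set.mem_singleton_iff] at hx; rw [hx]; exact ha₀E
          · exact hZE hx
        have hA₀ab : IsMulCommutative A₀ :=
          ⟨⟨fun x y => Subtype.ext (hA₀comm x.1 x.2 y.1 y.2)⟩⟩
        have hA₀card : Nat.card A₀ ≤ p ^ 2 := hrk A₀ hA₀ab (fun x hx => hEexp x (hA₀E hx))
        obtain ⟨y, hy⟩ := (hR.to_subgroup A₀).exists_card_eq
        have hy2 : y = 2 := by
          have h1 : y ≤ 2 := by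
            rw [hy] at hA₀card; exact (Nat.pow_le_pow_iff_right hp.one_lt).mp hA₀card
          have h2 : Nat.card ZE < Nat.card A₀ := by
            by_contra hcon
            push Not at hcon
            have := Subgroup.eq_of_le_of_card_ge hZA hcon
            exact ha₀Z (this ▸ ha₀A)
          rw [hz, hy] at h2
          have := (Nat.pow_lt_pow_iff_right hp.one_lt).mp h2
          omega
        have hrel := Cfsg.Agent.Lib_helper1_MaxClass.relIndex_lt A₀ E a₀ ha₀1
          (by
            intro x hx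
            have hzz : a₀⁻¹ * x * a₀ * x⁻¹ ∈ ZE := by
              rw [hZmem]
              refine ⟨E.mul_mem (E.mul_mem (E.mul_mem (E.inv_mem ha₀E) hx) ha₀E) (E.inv_mem hx),
                Subgroup.mem_centralizer_iff.mpr (fun w hw => ?_)⟩
              have h1 := hcomm x⁻¹ (C.inv_mem (hEC x hx)) a₀ (hEC a₀ ha₀E) w (hEC w hw)
              rw [inv_inv] at h1
              exact h1.symm.eq
            have h2 : x * a₀ * x⁻¹ = a₀ * (a₀⁻¹ * x * a₀ * x⁻¹) := by group
            rw [h2]
            exact A₀.mul_mem ha₀A (hZA hzz))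
          (fun x hx => hA₀comm x hx a₀ ha₀A)
          (by
            intro x hx hxa
            -- the abelian subgroup generated by x and A₀
            have hxA : ∀ w ∈ A₀, w * x = x * w := by
              have h1 : A₀ ≤ Subgroup.centralizer ({x} : Set R) := by
                rw [hA₀def, Subgroup.closure_le]
                rintro w (hw | hw)
                · rw [Set.mem_singleton_iff] at hw
                  rw [hw]
                  exact Subgroup.mem_centralizer_iff.mpr (fun h hh => by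
                    rw [Set.mem_singleton_iff] at hh; rw [hh]; exact hxa)
                · exact Subgroup.mem_centralizer_iff.mpr (fun h hh => by
                    rw [Set.mem_singleton_iff] at hh; rw [hh]; exact hZcen w hw x hx)
              intro w hw
              have := Subgroup.mem_centralizer_iff.mp (h1 hw) x rfl
              exact this.symm
            have hk2 : ∀ u ∈ (insert x (A₀ : Set R) : Set R), ∀ v ∈ (insert x (A₀ : Set R) : Set R),
                u * v = v * u := by
              intro u hu v hv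
              rcases hu with hu | hu <;> rcases hv with hv | hv
              · rw [hu, hv]
              · rw [hu]; exact (hxA v hv).symm
              · rw [hv]; exact hxA u hu
              · exact hA₀comm u hu v hv
            obtain ⟨T, hTdef⟩ : ∃ T : Subgroup R,
                T = Subgroup.closure (insert x (A₀ : Set R) : Set R) := ⟨_, rfl⟩
            have hTcomm : ∀ u ∈ T, ∀ v ∈ T, u * v = v * u := by
              rw [hTdef]; exact comm_closure _ hk2
            have hTE : T ≤ E := by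
              rw [hTdef, Subgroup.closure_le]
              rintro w (hw | hw)
              · rw [hw]; exact hx
              · exact hA₀E hw
            have hAT : A₀ ≤ T := by
              intro w hw; rw [hTdef]; exact Subgroup.subset_closure (Or.inr hw)
            have hTab : IsMulCommutative T :=
              ⟨⟨fun u v => Subtype.ext (hTcomm u.1 u.2 v.1 v.2)⟩⟩
            have hTcard : Nat.card T ≤ p ^ 2 := hrk T hTab (fun w hw => hEexp w (hTE hw))
            have hAT' : A₀ = T :=
              Subgroup.eq_of_le_of_card_ge hAT (by rw [hy, hy2]; exact hTcard)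
            rw [hAT', hTdef]
            exact Subgroup.subset_closure (Or.inl rfl))
        rw [hy, hy2] at hrel
        have h3 := Subgroup.relIndex_mul_relIndex (⊥ : Subgroup R) A₀ E bot_le hA₀E
        rw [Subgroup.relIndex_bot_left, Subgroup.relIndex_bot_left, hy, hy2, ha] at h3
        obtain ⟨j, -, hj⟩ := (Nat.dvd_prime_pow hp).mp (ha ▸ Subgroup.relIndex_dvd_card A₀ E)
        rw [hj] at hrel h3
        have hj1 : j < 2 := (Nat.pow_lt_pow_iff_right hp.one_lt).mp hrel
        rw [← pow_add] at h3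
        have := Nat.pow_right_injective hp.two_le h3
        omega
    exact hH a b hba (by omega) hcount

end Cfsg.Agent.H1AR
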