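import Cfsg.Agent.Lib_helper1_SylowSystem
import Cfsg.Agent.Lib_helper3_Burnside2

set_option autoImplicit false
set_option linter.style.haveILetI false

namespace Cfsg.Agent.Lib_helper1_HallConverse

open scoped Pointwise
open Cfsg.Agent.Lib_helper1_Basic Cfsg.Agent.Lib_helper1_SZ Cfsg.Agent.Lib_helper1_Hall
  Cfsg.Agent.Lib_helper1_SZConj Cfsg.Agent.Lib_helper1_SylowSystem

universe u

theorem index_eq_of_pow_of_coprime {N : Type*} [Group N] [Finite N] (X : Subgroup N) (p j : ℕ)
    (hp : p.Prime) (hidx : X.index = p ^ j) (hcop : (Nat.card X).Coprime p) :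
    X.index = p ^ (Nat.card N).factorization p := by
  have h := Subgroup.card_mul_index X
  rw [hidx] at h
  have hXpos : Nat.card X ≠ 0 := Nat.card_pos.ne'
  have hnd : ¬ p ∣ Nat.card X := fun hd =>
    hp.one_lt.ne' (Nat.eq_one_of_dvd_coprimes hcop hd (dvd_refl p))
  rw [hidx, ← h, Nat.factorization_mul hXpos (pow_ne_zero j hp.pos.ne'), Finsupp.add_apply,
    Nat.factorization_eq_zero_of_not_dvd hnd, zero_add, hp.factorization_pow,
    Finsupp.single_eq_same]

theorem card_coprime_of_index {G : Type*} [Group G] [Finite G] (X : Subgroup G) (p : ℕ)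
    (hp : p.Prime) (hidx : X.index = p ^ (Nat.card G).factorization p) :
    (Nat.card X).Coprime p := by
  have h := Subgroup.card_mul_index X
  rw [hidx] at h
  have : Nat.card X = Nat.card G / p ^ (Nat.card G).factorization p :=
    (Nat.div_eq_of_eq_mul_left (pow_pos hp.pos _) h.symm).symm
  rw [this]
  exact (Nat.coprime_ordCompl hp Nat.card_pos.ne').symm

theorem card_subgroupOf_eq_card_inf {G : Type*} [Group G] (N H : Subgroup G) :
    Nat.card (N.subgroupOf H) = Nat.card (N ⊓ H : Subgroup G) := by
  rw [← Subgroup.inf_subgroupOf_right, card_subgroupOf_of_le inf_le_right]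

theorem card_sup_eq' {G : Type*} [Group G] [Finite G] (A B : Subgroup G) [B.Normal] :
    Nat.card (A ⊔ B : Subgroup G) = Nat.card B * B.relIndex A := by
  have h := Subgroup.card_mul_index (B.subgroupOf (A ⊔ B))
  rw [card_subgroupOf_of_le le_sup_right] at h
  have h2 : (B.subgroupOf (A ⊔ B)).index = B.relIndex A := by
    show B.relIndex (A ⊔ B) = B.relIndex A
    rw [Subgroup.relIndex_sup_right]
  rw [h2] at h
  exact h.symm

theorem relIndex_dvd_index_of_normal_right {G : Type*} [Group G] [Finite G] (H N : Subgroup G)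
    [N.Normal] : H.relIndex N ∣ H.index := by
  have c1 : Nat.card (H ⊔ N : Subgroup G) = Nat.card N * N.relIndex H := card_sup_eq' H N
  have c2 : N.relIndex H * Nat.card (N ⊓ H : Subgroup G) = Nat.card H := by
    have := Subgroup.index_mul_card (N.subgroupOf H)
    rw [card_subgroupOf_eq_card_inf] at this
    exact this
  have c3 : H.relIndex N * Nat.card (N ⊓ H : Subgroup G) = Nat.card N := by
    have := Subgroup.index_mul_card (H.subgroupOf N)
    rw [card_subgroupOf_eq_card_inf, inf_comm] at this
    exact this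
  have hpos : 0 < Nat.card (N ⊓ H : Subgroup G) := Nat.card_pos
  have hHpos : 0 < Nat.card H := Nat.card_pos
  have c4 : Nat.card (H ⊔ N : Subgroup G) = H.relIndex N * Nat.card H := by
    have : Nat.card (H ⊔ N : Subgroup G) * Nat.card (N ⊓ H : Subgroup G)
        = H.relIndex N * Nat.card H * Nat.card (N ⊓ H : Subgroup G) := by
      calc Nat.card (H ⊔ N : Subgroup G) * Nat.card (N ⊓ H : Subgroup G)
          = Nat.card N * (N.relIndex H * Nat.card (N ⊓ H : Subgroup G)) := by rw [c1]; ring
        _ = Nat.card N * Nat.card H := by rw [c2]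
        _ = H.relIndex N * Nat.card (N ⊓ H : Subgroup G) * Nat.card H := by rw [c3]
        _ = H.relIndex N * Nat.card H * Nat.card (N ⊓ H : Subgroup G) := by ring
    exact Nat.eq_of_mul_eq_mul_right hpos this
  have c5 := Subgroup.card_mul_index (H ⊔ N)
  have c6 := Subgroup.card_mul_index H
  refine ⟨(H ⊔ N).index, ?_⟩
  have : Nat.card H * H.index = Nat.card H * (H.relIndex N * (H ⊔ N).index) := by
    rw [c6, ← c5, c4]; ring
  exact Nat.eq_of_mul_eq_mul_left hHpos this

theorem hall_hyp_subgroup {G : Type u} [Group G] [Finite G] (N : Subgroup G) [N.Normal]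
    (h : ∀ p : ℕ, p.Prime → ∃ H : Subgroup G, H.index = p ^ (Nat.card G).factorization p) :
    ∀ p : ℕ, p.Prime → ∃ H : Subgroup N, H.index = p ^ (Nat.card N).factorization p := by
  intro p hp
  obtain ⟨H, hH⟩ := h p hp
  refine ⟨H.subgroupOf N, ?_⟩
  have h1 : H.relIndex N ∣ p ^ (Nat.card G).factorization p :=
    hH ▸ relIndex_dvd_index_of_normal_right H N
  obtain ⟨j, -, hj⟩ := (Nat.dvd_prime_pow hp).mp h1
  apply index_eq_of_pow_of_coprime _ p j hp hj
  exact Nat.Coprime.coprime_dvd_left (card_subgroupOf_dvd H N) (card_coprime_of_index H p hp hH)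

theorem hall_hyp_quotient {G : Type u} [Group G] [Finite G] (N : Subgroup G) [N.Normal]
    (h : ∀ p : ℕ, p.Prime → ∃ H : Subgroup G, H.index = p ^ (Nat.card G).factorization p) :
    ∀ p : ℕ, p.Prime →
      ∃ H : Subgroup (G ⧸ N), H.index = p ^ (Nat.card (G ⧸ N)).factorization p := by
  intro p hp
  obtain ⟨H, hH⟩ := h p hp
  refine ⟨H.map (QuotientGroup.mk' N), ?_⟩
  have h0 : (H.map (QuotientGroup.mk' N)).index = (H ⊔ N).index := by
    rw [Subgroup.index_map, QuotientGroup.ker_mk',
      MonoidHom.range_eq_top.mpr (QuotientGroup.mk'_surjective N), Subgroup.index_top, mul_one]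
  have h1 : (H.map (QuotientGroup.mk' N)).index ∣ p ^ (Nat.card G).factorization p := by
    rw [h0, ← hH]; exact Subgroup.index_dvd_of_le le_sup_left
  obtain ⟨j, -, hj⟩ := (Nat.dvd_prime_pow hp).mp h1
  apply index_eq_of_pow_of_coprime _ p j hp hj
  exact Nat.Coprime.coprime_dvd_left (Subgroup.card_map_dvd H _)
    (card_coprime_of_index H p hp hH)

/-- Orders of the Sylow and two-prime Hall subgroups built from a family of Hall complements. -/
theorem hall_family {G : Type*} [Group G] [Finite G] (H : ℕ → Subgroup G)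
    (hH : ∀ r : ℕ, r.Prime → (H r).index = r ^ (Nat.card G).factorization r) :
    (∀ p : ℕ, p.Prime → Nat.card (((Nat.card G).primeFactors.erase p).inf H : Subgroup G)
      = p ^ (Nat.card G).factorization p) ∧
    (∀ p q : ℕ, p.Prime → q.Prime → p ≠ q →
      Nat.card ((((Nat.card G).primeFactors.erase p).erase q).inf H : Subgroup G)
        = p ^ (Nat.card G).factorization p * q ^ (Nat.card G).factorization q) := by
  classical
  have hnpos : Nat.card G ≠ 0 := Nat.card_pos.ne'
  have hprod : ∏ r ∈ (Nat.card G).primeFactors, r ^ (Nat.card G).factorization r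
      = Nat.card G := by
    have := Nat.prod_factorization_pow_eq_self hnpos
    rwa [Finsupp.prod, Nat.support_factorization] at this
  have hPprime : ∀ r ∈ (Nat.card G).primeFactors, r.Prime :=
    fun r hr => Nat.prime_of_mem_primeFactors hr
  have hcard : ∀ s ⊆ (Nat.card G).primeFactors,
      Nat.card (s.inf H : Subgroup G) * ∏ r ∈ s, r ^ (Nat.card G).factorization r
        = Nat.card G := by
    intro s hs
    rw [← index_finset_inf H (fun r => (Nat.card G).factorization r) s
      (fun r hr => hPprime r (hs hr)) (fun r hr => hH r (hPprime r (hs hr)))]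
    exact Subgroup.card_mul_index _
  have herase : ∀ (s : Finset ℕ) (q : ℕ), s ⊆ (Nat.card G).primeFactors → q.Prime →
      (q ∉ s → q ∉ (Nat.card G).primeFactors) →
      q ^ (Nat.card G).factorization q * ∏ r ∈ s.erase q, r ^ (Nat.card G).factorization r
        = ∏ r ∈ s, r ^ (Nat.card G).factorization r := by
    intro s q hs hq hqs
    by_cases hqmem : q ∈ s
    · exact Finset.mul_prod_erase s (fun r => r ^ (Nat.card G).factorization r) hqmem
    · have h0 : (Nat.card G).factorization q = 0 := by
        apply Nat.factorization_eq_zero_of_not_dvd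
        intro hd
        exact hqs hqmem (Nat.mem_primeFactors.mpr ⟨hq, hd, hnpos⟩)
      rw [Finset.erase_eq_of_notMem hqmem, h0, pow_zero, one_mul]
  have hposprod : ∀ s ⊆ (Nat.card G).primeFactors,
      0 < ∏ r ∈ s, r ^ (Nat.card G).factorization r :=
    fun s hs => Finset.prod_pos (fun r hr => pow_pos (hPprime r (hs hr)).pos _)
  constructor
  · intro p hp
    have h1 := hcard ((Nat.card G).primeFactors.erase p) (Finset.erase_subset p _)
    have h2 := herase (Nat.card G).primeFactors p (Finset.Subset.refl _) hp (fun h => h)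
    rw [hprod] at h2
    exact Nat.eq_of_mul_eq_mul_right (hposprod _ (Finset.erase_subset p _)) (h1.trans h2.symm)
  · intro p q hp hq hpq
    have hsub : ((Nat.card G).primeFactors.erase p).erase q ⊆ (Nat.card G).primeFactors :=
      (Finset.erase_subset _ _).trans (Finset.erase_subset _ _)
    have h1 := hcard _ hsub
    have h2 := herase ((Nat.card G).primeFactors.erase p) q (Finset.erase_subset _ _) hq
      (fun h hq' => h (Finset.mem_erase.mpr ⟨fun e => hpq e.symm, hq'⟩))
    have h3 := herase (Nat.card G).primeFactors p (Finset.Subset.refl _) hp (fun h => h)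
    rw [hprod, ← h2] at h3
    have h4 : p ^ (Nat.card G).factorization p * q ^ (Nat.card G).factorization q
        * ∏ r ∈ ((Nat.card G).primeFactors.erase p).erase q,
            r ^ (Nat.card G).factorization r = Nat.card G := by
      rw [mul_assoc]; exact h3
    exact Nat.eq_of_mul_eq_mul_right (hposprod _ hsub) (h1.trans h4.symm)

theorem exists_proper_normal {G : Type*} [Group G] [Finite G] (H : ℕ → Subgroup G)
    (hH : ∀ r : ℕ, r.Prime → (H r).index = r ^ (Nat.card G).factorization r)
    (r s : ℕ) (hr : r.Prime) (hs : s.Prime) (hrs : r ≠ s) (hrG : r ∣ Nat.card G)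
    (hsG : s ∣ Nat.card G) (M : Subgroup G)
    (hM : M ≤ (((Nat.card G).primeFactors.erase r).erase s).inf H)
    (hnorm : (((Nat.card G).primeFactors.erase r).erase s).inf H
      ≤ Subgroup.normalizer (M : Set G))
    (hMr : IsPGroup r M) (hMbot : M ≠ ⊥) :
    ∃ N : Subgroup G, N.Normal ∧ N ≠ ⊥ ∧ N ≠ ⊤ := by
  classical
  haveI : Fact r.Prime := ⟨hr⟩
  obtain ⟨h1, h2⟩ := hall_family H hH
  have hsP : s ∈ (Nat.card G).primeFactors :=
    Nat.mem_primeFactors.mpr ⟨hs, hsG, Nat.card_pos.ne'⟩
  have hrP : r ∈ (Nat.card G).primeFactors :=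
    Nat.mem_primeFactors.mpr ⟨hr, hrG, Nat.card_pos.ne'⟩
  have hRT : ((Nat.card G).primeFactors.erase r).inf H
      ≤ (((Nat.card G).primeFactors.erase r).erase s).inf H :=
    Finset.inf_mono (Finset.erase_subset _ _)
  have hST : ((Nat.card G).primeFactors.erase s).inf H
      ≤ (((Nat.card G).primeFactors.erase r).erase s).inf H := by
    apply Finset.inf_mono
    rw [Finset.erase_right_comm]
    exact Finset.erase_subset _ _
  have hRs : ((Nat.card G).primeFactors.erase r).inf H ≤ H s :=
    Finset.inf_le (Finset.mem_erase.mpr ⟨hrs.symm, hsP⟩)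
  have hRcard := h1 r hr
  have hScard := h1 s hs
  have hTcard := h2 r s hr hs hrs
  have hRp : IsPGroup r (((Nat.card G).primeFactors.erase r).inf H : Subgroup G) :=
    IsPGroup.of_card hRcard
  have hMR : M ≤ ((Nat.card G).primeFactors.erase r).inf H := by
    have hsup : IsPGroup r ((((Nat.card G).primeFactors.erase r).inf H ⊔ M : Subgroup G)) :=
      IsPGroup.to_sup_of_normal_right' hRp hMr (hRT.trans hnorm)
    obtain ⟨j, hj⟩ := IsPGroup.iff_card.mp hsup
    have hdvd : Nat.card ((((Nat.card G).primeFactors.erase r).inf H ⊔ M : Subgroup G))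
        ∣ Nat.card ((((Nat.card G).primeFactors.erase r).erase s).inf H : Subgroup G) :=
      Subgroup.card_dvd_of_le (sup_le hRT hM)
    rw [hj, hTcard] at hdvd
    have hcop : (r ^ j).Coprime (s ^ (Nat.card G).factorization s) :=
      Nat.Coprime.pow _ _ ((Nat.coprime_primes hr hs).mpr hrs)
    have hdvd' : r ^ j ∣ r ^ (Nat.card G).factorization r := hcop.dvd_of_dvd_mul_right hdvd
    have hle : Nat.card ((((Nat.card G).primeFactors.erase r).inf H ⊔ M : Subgroup G))
        ≤ Nat.card (((Nat.card G).primeFactors.erase r).inf H : Subgroup G) := by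
      rw [hj, hRcard]; exact Nat.le_of_dvd (pow_pos hr.pos _) hdvd'
    have := Subgroup.eq_of_le_of_card_ge
      (le_sup_left : ((Nat.card G).primeFactors.erase r).inf H ≤ _ ⊔ M) hle
    rw [this]; exact le_sup_right
  have hMs : M ≤ H s := hMR.trans hRs
  have hprod : (H s : Set G) * ((((Nat.card G).primeFactors.erase s).inf H : Subgroup G) : Set G)
      = ((⊤ : Subgroup G) : Set G) := by
    apply mul_eq_of_card _ _ _ le_top le_top
    · rw [hScard, Subgroup.card_top, ← hH s hs]; exact Subgroup.card_mul_index _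
    · rw [hScard]; exact Nat.Coprime.pow_right _ (card_coprime_of_index (H s) s hs (hH s hs))
  refine ⟨Subgroup.normalClosure (M : Set G), inferInstance, ?_, ?_⟩
  · intro hbot
    apply hMbot
    rw [eq_bot_iff, ← hbot]; exact Subgroup.le_normalClosure
  · intro htop
    have hle : Subgroup.normalClosure (M : Set G) ≤ H s := by
      rw [Subgroup.normalClosure, Subgroup.closure_le]
      intro x hx
      obtain ⟨m, hm, hconj⟩ := Group.mem_conjugatesOfSet_iff.mp hx
      obtain ⟨g, rfl⟩ := isConj_iff.mp hconj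
      have hg : g ∈ (H s : Set G)
          * ((((Nat.card G).primeFactors.erase s).inf H : Subgroup G) : Set G) := by
        rw [hprod]; trivial
      obtain ⟨a, ha, b, hb, rfl⟩ := hg
      have hbm : b * m * b⁻¹ ∈ M := ((Subgroup.mem_normalizer_iff).mp (hnorm (hST hb)) m).mp hm
      have : a * b * m * (a * b)⁻¹ = a * (b * m * b⁻¹) * a⁻¹ := by group
      rw [SetLike.mem_coe, this]
      exact (H s).mul_mem ((H s).mul_mem ha (hMs hbm)) ((H s).inv_mem ha)
    rw [htop] at hle
    have hHs : H s = ⊤ := top_le_iff.mp hle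
    have hidx := hH s hs
    rw [hHs, Subgroup.index_top] at hidx
    have hv : (Nat.card G).factorization s ≠ 0 :=
      (hs.factorization_pos_of_dvd Nat.card_pos.ne' hsG).ne'
    have : 1 < s ^ (Nat.card G).factorization s := Nat.one_lt_pow hv hs.one_lt
    omega

/-- Converse of Hall's theorem. -/
theorem hall_converse_aux (n : ℕ) : ∀ (G : Type u) [Group G] [Finite G], Nat.card G = n →
    (∀ p : ℕ, p.Prime → ∃ H : Subgroup G, H.index = p ^ (Nat.card G).factorization p) →
    Group.IsSolvable G := by
  induction n using Nat.strong_induction_on with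
  | _ n ih =>
  intro G _ _ hGn h
  classical
  by_cases hone : ∃ p : ℕ, p.Prime ∧ ∀ r : ℕ, r.Prime → r ∣ Nat.card G → r = p
  · obtain ⟨p, hp, hall⟩ := hone
    exact Cfsg.Agent.Lib_helper3_Burnside2.solvable_of_prime_factors p p hp hp (Nat.card G) G rfl
      (fun r hr hd => Or.inl (hall r hr hd))
  · have h2 : ∃ p q : ℕ, p.Prime ∧ q.Prime ∧ p ≠ q ∧ p ∣ Nat.card G ∧ q ∣ Nat.card G := by
      by_contra hcon
      apply hone
      by_cases hc1 : Nat.card G = 1
      · exact ⟨2, Nat.prime_two, fun r hr hd => by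
          rw [hc1] at hd; exact absurd (Nat.dvd_one.mp hd) hr.one_lt.ne'⟩
      · obtain ⟨p, hp, hpd⟩ := Nat.exists_prime_and_dvd hc1
        refine ⟨p, hp, fun r hr hd => ?_⟩
        by_contra hne
        exact hcon ⟨r, p, hr, hp, hne, hd, hpd⟩
    obtain ⟨p, q, hp, hq, hpq, hpG, hqG⟩ := h2
    obtain ⟨Hf, hHf⟩ : ∃ Hf : ℕ → Subgroup G,
        ∀ r : ℕ, r.Prime → (Hf r).index = r ^ (Nat.card G).factorization r := by
      choose! Hf hHf using h
      exact ⟨Hf, hHf⟩
    obtain ⟨-, hc2⟩ := hall_family Hf hHf
    have hTcard := hc2 p q hp hq hpq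
    haveI : Group.IsSolvable ((((Nat.card G).primeFactors.erase p).erase q).inf Hf : Subgroup G) :=
      Cfsg.Agent.Lib_helper3_Burnside2.burnside_paqb p q _ _ hp hq hTcard
    haveI : Nontrivial ((((Nat.card G).primeFactors.erase p).erase q).inf Hf : Subgroup G) := by
      apply (Subgroup.nontrivial_iff_ne_bot _).mpr
      intro hbot
      rw [hbot, Subgroup.card_bot] at hTcard
      have ha : (Nat.card G).factorization p ≠ 0 :=
        (hp.factorization_pos_of_dvd Nat.card_pos.ne' hpG).ne'
      have h1 : 1 < p ^ (Nat.card G).factorization p := Nat.one_lt_pow ha hp.one_lt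
      have h2 : 0 < q ^ (Nat.card G).factorization q := pow_pos hq.pos _
      nlinarith
    obtain ⟨M₁, hM₁n, hM₁1, -, -, r, k, hr, hk0, hk⟩ := exists_minimal_normal
      (G := ((((Nat.card G).primeFactors.erase p).erase q).inf Hf : Subgroup G))
    have hMT : M₁.map (Subgroup.subtype _) ≤ (((Nat.card G).primeFactors.erase p).erase q).inf Hf :=
      Subgroup.map_subtype_le M₁
    have hMcard : Nat.card (M₁.map (Subgroup.subtype _) : Subgroup G) = r ^ k := by
      rw [Subgroup.card_subtype]; exact hk
    have hMsub : (M₁.map (Subgroup.subtype _)).subgroupOf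
        ((((Nat.card G).primeFactors.erase p).erase q).inf Hf) = M₁ :=
      Subgroup.comap_map_eq_self_of_injective (Subgroup.subtype_injective _) M₁
    have hnorm : (((Nat.card G).primeFactors.erase p).erase q).inf Hf
        ≤ Subgroup.normalizer ((M₁.map (Subgroup.subtype _) : Subgroup G) : Set G) :=
      (Subgroup.normal_subgroupOf_iff_le_normalizer hMT).mp (by rw [hMsub]; exact hM₁n)
    have hMbot : M₁.map (Subgroup.subtype _) ≠ ⊥ := by
      intro h'
      apply hM₁1
      rw [← hMsub, h']
      exact Subgroup.bot_subgroupOf _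
    haveI : Fact r.Prime := ⟨hr⟩
    have hMr : IsPGroup r (M₁.map (Subgroup.subtype _) : Subgroup G) := IsPGroup.of_card hMcard
    have hrdvd : r ∣ p ^ (Nat.card G).factorization p * q ^ (Nat.card G).factorization q := by
      rw [← hTcard]
      exact (dvd_pow_self r hk0).trans (hMcard ▸ Subgroup.card_dvd_of_le hMT)
    have hrpq : r = p ∨ r = q := by
      rcases (Nat.Prime.dvd_mul hr).mp hrdvd with h' | h'
      · left; exact (Nat.prime_dvd_prime_iff_eq hr hp).mp (hr.dvd_of_dvd_pow h')
      · right; exact (Nat.prime_dvd_prime_iff_eq hr hq).mp (hr.dvd_of_dvd_pow h')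
    have hN : ∃ N : Subgroup G, N.Normal ∧ N ≠ ⊥ ∧ N ≠ ⊤ := by
      rcases hrpq with h' | h'
      · exact exists_proper_normal Hf hHf p q hp hq hpq hpG hqG _ hMT hnorm (h' ▸ hMr) hMbot
      · have e : (((Nat.card G).primeFactors.erase q).erase p).inf Hf
            = (((Nat.card G).primeFactors.erase p).erase q).inf Hf := by
          rw [Finset.erase_right_comm]
        exact exists_proper_normal Hf hHf q p hq hp hpq.symm hqG hpG _
          (le_of_le_of_eq hMT e.symm) ((le_of_eq e).trans hnorm) (h' ▸ hMr) hMbot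
    obtain ⟨N, hNn, hNbot, hNtop⟩ := hN
    haveI := hNn
    have hNlt : Nat.card N < n := by rw [← hGn]; exact card_lt_of_ne_top N hNtop
    have hQlt : Nat.card (G ⧸ N) < n := by
      have h1 := Subgroup.card_eq_card_quotient_mul_card_subgroup N
      have h2 := two_le_card_of_ne_bot N hNbot
      have h3 : 0 < Nat.card (G ⧸ N) := Nat.card_pos
      rw [← hGn, h1]; nlinarith
    haveI : Group.IsSolvable N := ih _ hNlt N rfl (hall_hyp_subgroup N h)
    haveI : Group.IsSolvable (G ⧸ N) := ih _ hQlt (G ⧸ N) rfl (hall_hyp_quotient N h)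
    exact Group.isSolvable_of_ker_le_range N.subtype (QuotientGroup.mk' N)
      (by rw [QuotientGroup.ker_mk', Subgroup.range_subtype])

theorem hall_converse {G : Type u} [Group G] [Finite G]
    (h : ∀ p : ℕ, p.Prime → ∃ H : Subgroup G, H.index = p ^ (Nat.card G).factorization p) :
    Group.IsSolvable G :=
  hall_converse_aux _ G rfl h

end Cfsg.Agent.Lib_helper1_HallConverse
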