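import Mathlib
import Cfsg.Agent.Lib_helper1_HallConverse
import Cfsg.Agent.Lib_helper1_PGroup

set_option autoImplicit false

namespace Cfsg.Agent.Lib_helper1_BurnsideBasis

open Classical in
theorem card_step {Q : Type*} [Group Q] [Finite Q] (p : ℕ) (hp : p.Prime) (K : Subgroup Q)
    [K.Normal] (b : Q) (hb : b ^ p = 1) :
    Nat.card (Subgroup.zpowers b ⊔ K : Subgroup Q) = Nat.card K * (if b ∈ K then 1 else p) := by
  classical
  rw [Cfsg.Agent.Lib_helper1_HallConverse.card_sup_eq' (Subgroup.zpowers b) K]
  congr 1
  have h1 : K.relIndex (Subgroup.zpowers b) ∣ p := by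
    refine (Subgroup.relIndex_dvd_card K (Subgroup.zpowers b)).trans ?_
    rw [Nat.card_zpowers]
    exact orderOf_dvd_of_pow_eq_one hb
  split_ifs with h
  · rw [Subgroup.relIndex_eq_one]
    rw [Subgroup.zpowers_le]; exact h
  · rcases (Nat.dvd_prime hp).mp h1 with h2 | h2
    · exfalso
      rw [Subgroup.relIndex_eq_one, Subgroup.zpowers_le] at h2
      exact h h2
    · exact h2

open Classical in
theorem card_closure_map {G Q : Type*} [Group G] [Group Q] [Finite Q] (p : ℕ) (hp : p.Prime)
    (π : G →* Q) (hcomm : ∀ a b : Q, a * b = b * a) (hexp : ∀ a : Q, a ^ p = 1)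
    (T : Finset G) :
    Nat.card ((Subgroup.closure (T : Set G)).map π) ∣ p ^ T.card ∧
    ((∀ a ∈ T, π a ∉ (Subgroup.closure ((T.erase a : Finset G) : Set G)).map π) →
      Nat.card ((Subgroup.closure (T : Set G)).map π) = p ^ T.card) := by
  classical
  have hnormal : ∀ K : Subgroup Q, K.Normal := fun K =>
    ⟨fun x hx g => by rw [hcomm g x, mul_inv_cancel_right]; exact hx⟩
  induction T using Finset.induction_on with
  | empty =>
    simp
  | insert a T ha ih =>
    have hE : (Subgroup.closure ((insert a T : Finset G) : Set G)).map π =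
        Subgroup.zpowers (π a) ⊔ (Subgroup.closure (T : Set G)).map π := by
      rw [Finset.coe_insert, Set.insert_eq, Subgroup.closure_union, Subgroup.map_sup,
        ← Subgroup.zpowers_eq_closure, MonoidHom.map_zpowers]
    haveI := hnormal ((Subgroup.closure (T : Set G)).map π)
    have hc := card_step p hp ((Subgroup.closure (T : Set G)).map π) (π a) (hexp _)
    rw [← hE] at hc
    rw [Finset.card_insert_of_notMem ha, pow_succ]
    constructor
    · rw [hc]
      apply Nat.mul_dvd_mul ih.1
      split_ifs
      · exact one_dvd _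
      · exact dvd_rfl
    · intro hind
      have h1 : π a ∉ (Subgroup.closure (T : Set G)).map π := by
        have := hind a (Finset.mem_insert_self a T)
        rwa [Finset.erase_insert ha] at this
      have h2 : ∀ b ∈ T, π b ∉ (Subgroup.closure ((T.erase b : Finset G) : Set G)).map π := by
        intro b hb hmem
        apply hind b (Finset.mem_insert_of_mem hb)
        refine Subgroup.map_mono (Subgroup.closure_mono ?_) hmem
        intro x hx
        rw [Finset.mem_coe, Finset.mem_erase] at hx ⊢
        exact ⟨hx.1, Finset.mem_insert_of_mem hx.2⟩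
      rw [hc, ih.2 h2, if_neg h1]

end Cfsg.Agent.Lib_helper1_BurnsideBasis
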