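import Mathlib
import Cfsg.Prelude
import Cfsg.Agent.Lib_helper1_Basic
import Cfsg.Agent.Lib_helper1_Hall
import Cfsg.Agent.Lib_helper1_SysNorm
import Cfsg.Agent.Lib_helper1_Coprime
import Cfsg.Agent.Lib_helper1_SZConj
import Cfsg.Agent.Lib_helper1_Primitive
import Cfsg.Agent.Lib_helper1_HallConverse

set_option autoImplicit false

namespace Cfsg.Agent.Lib_helper1_Carter

open Cfsg.Agent.Lib_helper1_Basic Cfsg.Agent.Lib_helper1_Hall Cfsg.Agent.Lib_helper1_SysNorm
open Cfsg.Agent.Lib_helper1_Coprime Cfsg.Agent.Lib_helper1_SZConj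

open scoped Pointwise

universe u v

theorem isNilpotent_of_injective {X Y : Type*} [Group X] [Group Y] [Group.IsNilpotent Y]
    (f : X →* Y) (hf : Function.Injective f) : Group.IsNilpotent X := by
  apply Subgroup.isNilpotent_of_ker_le_center f
  rw [(MonoidHom.ker_eq_bot_iff f).mpr hf]
  exact bot_le

theorem le_of_coprime_normal {X : Type*} [Group X] [Finite X] (Q : Subgroup X) [Q.Normal]
    (Y : Subgroup X) (h : (Nat.card Y).Coprime Q.index) : Y ≤ Q := by
  intro y hy
  rw [← QuotientGroup.eq_one_iff]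
  have h1 : orderOf (y : X ⧸ Q) ∣ Q.index := by
    rw [Subgroup.index_eq_card]
    exact orderOf_dvd_natCard _
  have h2 : orderOf (y : X ⧸ Q) ∣ Nat.card Y :=
    (orderOf_map_dvd (QuotientGroup.mk' Q) y).trans (Subgroup.orderOf_dvd_natCard Y hy)
  exact orderOf_eq_one_iff.mp (Nat.eq_one_of_dvd_coprimes h h2 h1)

theorem le_of_coprime_relIndex {X : Type*} [Group X] [Finite X] (Q L Y : Subgroup X)
    (hQL : Q ≤ L) (hL : L ≤ Subgroup.normalizer (Q : Set X)) (hYL : Y ≤ L)
    (h : (Nat.card Y).Coprime (Q.relIndex L)) : Y ≤ Q := by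
  haveI : (Q.subgroupOf L).Normal := (Subgroup.normal_subgroupOf_iff_le_normalizer hQL).mpr hL
  have h1 : Y.subgroupOf L ≤ Q.subgroupOf L :=
    le_of_coprime_normal _ _ (by rw [card_subgroupOf_of_le hYL]; exact h)
  intro y hy
  exact h1 (show (⟨y, hYL hy⟩ : L) ∈ Y.subgroupOf L from hy)

theorem conj_smul_le_of_mem_normalizer {X : Type*} [Group X] (Q L : Subgroup X) (hQL : Q ≤ L)
    (g : X) (hg : g ∈ Subgroup.normalizer (L : Set X)) : MulAut.conj g • Q ≤ L := by
  intro z hz
  rw [mem_conj_smul] at hz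
  have h1 := (Subgroup.mem_normalizer_iff.mp hg (g⁻¹ * z * g)).mp (hQL hz)
  have e : g * (g⁻¹ * z * g) * g⁻¹ = z := by group
  rw [e] at h1
  exact h1

/-- a Hall subgroup normalised by `L`: elements of `N(L)` normalise it -/
theorem normalizer_normalizer_hall {X : Type*} [Group X] [Finite X] (Q : Subgroup X)
    (h : (Nat.card Q).Coprime Q.index) (L : Subgroup X) (hQL : Q ≤ L)
    (hL : L ≤ Subgroup.normalizer (Q : Set X)) :
    Subgroup.normalizer (L : Set X) ≤ Subgroup.normalizer (Q : Set X) := by
  intro g hg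
  have h2 : MulAut.conj g • Q ≤ L := conj_smul_le_of_mem_normalizer Q L hQL g hg
  have h3 : MulAut.conj g • Q ≤ Q := le_of_coprime_relIndex Q L _ hQL hL h2 (by
    rw [card_conj_smul]
    exact Nat.Coprime.coprime_dvd_right (Subgroup.relIndex_dvd_index_of_le hQL) h)
  have h4 : MulAut.conj g • Q = Q := Subgroup.eq_of_le_of_card_ge h3 (by rw [card_conj_smul])
  exact mem_normalizer_of_conj_smul_eq Q g h4

theorem hall_normal_of_nilpotent {X : Type*} [Group X] [Finite X] [Group.IsNilpotent X]
    (Q : Subgroup X) (h : (Nat.card Q).Coprime Q.index) : Q.Normal := by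
  rw [← Subgroup.normalizer_eq_top_iff]
  have h1 := (normalizerCondition_iff_only_full_group_self_normalizing.mp
    (Group.normalizerCondition_of_isNilpotent (G := X))) (Subgroup.normalizer (Q : Set X))
  apply h1
  exact le_antisymm (normalizer_normalizer_hall Q h _ Subgroup.le_normalizer le_rfl)
    Subgroup.le_normalizer

theorem eq_top_of_self_normalizing {X : Type*} [Group X] [Group.IsNilpotent X] (D : Subgroup X)
    (h : Subgroup.normalizer (D : Set X) = D) : D = ⊤ :=
  (normalizerCondition_iff_only_full_group_self_normalizing.mp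
    (Group.normalizerCondition_of_isNilpotent (G := X))) D h

/-- key step for existence -/
theorem carter_exists_step {X : Type u} [Group X] [Finite X] [Group.IsSolvable X] {Y : Type v}
    [Group Y] [Group.IsNilpotent Y] (f : X →* Y) (p : ℕ) [Fact p.Prime] (hker : IsPGroup p f.ker) :
    ∃ C : Subgroup X, Group.IsNilpotent C ∧ Subgroup.normalizer (C : Set X) = C ∧
      C ⊔ f.ker = ⊤ := by
  haveI : Group.IsNilpotent (X ⧸ f.ker) :=
    isNilpotent_of_injective (QuotientGroup.kerLift f) (QuotientGroup.kerLift_injective f)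
  obtain ⟨a, m, hm, hcard⟩ := Nat.exists_eq_pow_mul_and_not_dvd (Nat.card_pos (α := X)).ne' p
    (Fact.out : p.Prime).ne_one
  have hcop : m.Coprime (p ^ a) :=
    (Nat.Coprime.pow_left a ((Nat.Prime.coprime_iff_not_dvd Fact.out).mpr hm)).symm
  obtain ⟨Q, hQ⟩ := hall_exists (G := X) m (p ^ a) (by rw [hcard, mul_comm]) hcop
  have hmpos : 0 < m := Nat.pos_of_ne_zero (fun h0 => hm (h0 ▸ dvd_zero p))
  have hQidx : Q.index = p ^ a := by
    have h1 := Subgroup.card_mul_index Q
    rw [hQ, hcard, mul_comm] at h1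
    exact Nat.eq_of_mul_eq_mul_right hmpos h1
  have hQcop : (Nat.card Q).Coprime Q.index := by
    rw [hQ, hQidx]
    exact hcop
  have hQN : (Q ⊔ f.ker).Normal := by
    have h1 : (Q.map (QuotientGroup.mk' f.ker)).Normal := by
      apply hall_normal_of_nilpotent
      have h2 : Nat.card (Q.map (QuotientGroup.mk' f.ker)) ∣ Nat.card Q := Subgroup.card_map_dvd _ _
      have h3 : (Q.map (QuotientGroup.mk' f.ker)).index ∣ Q.index :=
        Subgroup.index_map_dvd _ (QuotientGroup.mk'_surjective f.ker)
      exact Nat.Coprime.coprime_dvd_left h2 (Nat.Coprime.coprime_dvd_right h3 hQcop)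
    have h4 : Q ⊔ f.ker = (Q.map (QuotientGroup.mk' f.ker)).comap (QuotientGroup.mk' f.ker) := by
      rw [Subgroup.comap_map_eq, QuotientGroup.ker_mk']
    rw [h4]
    exact Subgroup.Normal.comap h1 _
  have hC1 : Subgroup.normalizer (Q : Set X) ⊔ f.ker = ⊤ := by
    have h1 := normalizer_sup_of_hall Q f.ker hQcop
    rw [Subgroup.normalizer_eq_top_iff.mpr hQN] at h1
    exact top_le_iff.mp h1
  have hQC : Q ≤ Subgroup.normalizer (Q : Set X) := Subgroup.le_normalizer
  refine ⟨Subgroup.normalizer (Q : Set X), ?_, ?_, hC1⟩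
  · haveI : (Q.subgroupOf (Subgroup.normalizer (Q : Set X))).Normal :=
      Subgroup.normal_in_normalizer
    haveI : Group.IsNilpotent (Subgroup.normalizer (Q : Set X) ⧸
        Q.subgroupOf (Subgroup.normalizer (Q : Set X))) := by
      have h1 : Q.relIndex (Subgroup.normalizer (Q : Set X)) ∣ p ^ a :=
        hQidx ▸ Subgroup.relIndex_dvd_index_of_le hQC
      obtain ⟨j, -, hj⟩ := (Nat.dvd_prime_pow Fact.out).mp h1
      have h2 : Nat.card (Subgroup.normalizer (Q : Set X) ⧸
          Q.subgroupOf (Subgroup.normalizer (Q : Set X))) = p ^ j := by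
        rw [← Subgroup.index_eq_card]
        exact hj
      exact (IsPGroup.of_card h2).isNilpotent
    let φ : Subgroup.normalizer (Q : Set X) →* (X ⧸ f.ker) ×
        (Subgroup.normalizer (Q : Set X) ⧸ Q.subgroupOf (Subgroup.normalizer (Q : Set X))) :=
      ((QuotientGroup.mk' f.ker).comp (Subgroup.normalizer (Q : Set X)).subtype).prod
        (QuotientGroup.mk' (Q.subgroupOf (Subgroup.normalizer (Q : Set X))))
    have hφ : Function.Injective φ := by
      rw [injective_iff_map_eq_one]
      intro c hc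
      have h1 : ((c : X) : X ⧸ f.ker) = 1 := congrArg Prod.fst hc
      have h2 : (c : Subgroup.normalizer (Q : Set X) ⧸
          Q.subgroupOf (Subgroup.normalizer (Q : Set X))) = 1 := congrArg Prod.snd hc
      have h3 : (c : X) ∈ f.ker := (QuotientGroup.eq_one_iff _).mp h1
      have h4 : (c : X) ∈ Q := Subgroup.mem_subgroupOf.mp ((QuotientGroup.eq_one_iff _).mp h2)
      obtain ⟨j, hj⟩ := hker ⟨(c : X), h3⟩
      have h5 : (c : X) ^ p ^ j = 1 := congrArg Subtype.val hj
      have h6 : orderOf (c : X) ∣ p ^ j := orderOf_dvd_of_pow_eq_one h5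
      have h7 : orderOf (c : X) ∣ m := hQ ▸ Subgroup.orderOf_dvd_natCard Q h4
      have h8 : (c : X) = 1 := orderOf_eq_one_iff.mp
        (Nat.eq_one_of_dvd_coprimes (Nat.Coprime.pow_right j
          ((Nat.Prime.coprime_iff_not_dvd Fact.out).mpr hm).symm) h7 h6)
      exact Subtype.ext h8
    exact isNilpotent_of_injective φ hφ
  · exact le_antisymm (normalizer_normalizer_hall Q hQcop _ hQC le_rfl) Subgroup.le_normalizer

theorem card_quot_lt {G : Type*} [Group G] [Finite G] (N : Subgroup G) [N.Normal] (hN : N ≠ ⊥) :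
    Nat.card (G ⧸ N) < Nat.card G := by
  have h1 := Subgroup.card_mul_index N
  rw [Subgroup.index_eq_card] at h1
  have h2 := two_le_card_of_ne_bot N hN
  have h3 : 0 < Nat.card (G ⧸ N) := Nat.card_pos
  nlinarith

theorem carter_exists_aux (n : ℕ) : ∀ (G : Type u) [Group G] [Finite G] [Group.IsSolvable G],
    Nat.card G = n →
    ∃ C : Subgroup G, Group.IsNilpotent C ∧ Subgroup.normalizer (C : Set G) = C := by
  induction n using Nat.strong_induction_on with
  | _ n ih =>
    intro G _ _ _ hn
    rcases subsingleton_or_nontrivial G with hs | hnt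
    · refine ⟨⊤, inferInstance, ?_⟩
      exact Subsingleton.elim _ _
    · obtain ⟨N, hNn, hN1, hNc, hNmin, p, k, hp, hk, hNcard⟩ := exists_minimal_normal (G := G)
      haveI := hNn
      haveI : Fact p.Prime := ⟨hp⟩
      have hlt : Nat.card (G ⧸ N) < n := hn ▸ card_quot_lt N hN1
      obtain ⟨Kb, hKbnil, hKbnorm⟩ := ih _ hlt (G ⧸ N) rfl
      haveI := hKbnil
      have hNK : N ≤ Kb.comap (QuotientGroup.mk' N) := le_comap_mk'_of_le N Kb
      have hker : IsPGroup p ((QuotientGroup.mk' N).subgroupComap Kb).ker := by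
        intro x
        have hx : ((x : Kb.comap (QuotientGroup.mk' N)) : G) ∈ N := by
          have h0 := x.2
          rw [MonoidHom.mem_ker] at h0
          have h1 := congrArg Subtype.val h0
          exact (QuotientGroup.eq_one_iff _).mp h1
        refine ⟨k, ?_⟩
        apply Subtype.ext
        apply Subtype.ext
        have h2 := pow_card_eq_one' (G := N) (x := ⟨_, hx⟩)
        rw [hNcard] at h2
        have h3 : ((x : Kb.comap (QuotientGroup.mk' N)) : G) ^ p ^ k = 1 :=
          congrArg Subtype.val h2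
        simp only [Subgroup.coe_pow, Subgroup.coe_one]
        exact h3
      have hkermap : ((QuotientGroup.mk' N).subgroupComap Kb).ker.map
          (Kb.comap (QuotientGroup.mk' N)).subtype = N := by
        ext z
        constructor
        · rintro ⟨x, hx, rfl⟩
          have h0 : x ∈ ((QuotientGroup.mk' N).subgroupComap Kb).ker := hx
          rw [MonoidHom.mem_ker] at h0
          have h1 := congrArg Subtype.val h0
          exact (QuotientGroup.eq_one_iff _).mp h1
        · intro hz
          refine ⟨⟨z, hNK hz⟩, ?_, rfl⟩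
          rw [SetLike.mem_coe, MonoidHom.mem_ker]
          apply Subtype.ext
          exact (QuotientGroup.eq_one_iff z).mpr hz
      obtain ⟨C', hC'nil, hC'norm, hC'sup⟩ :=
        carter_exists_step ((QuotientGroup.mk' N).subgroupComap Kb) p hker
      have hsup : C'.map (Kb.comap (QuotientGroup.mk' N)).subtype ⊔ N =
          Kb.comap (QuotientGroup.mk' N) := by
        have h1 := congrArg (Subgroup.map (Kb.comap (QuotientGroup.mk' N)).subtype) hC'sup
        rw [Subgroup.map_sup, hkermap, ← MonoidHom.range_eq_map, Subgroup.range_subtype] at h1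
        exact h1
      refine ⟨C'.map (Kb.comap (QuotientGroup.mk' N)).subtype, ?_, ?_⟩
      · haveI := hC'nil
        exact Group.nilpotent_of_mulEquiv
          (Subgroup.equivMapOfInjective C' _ (Subgroup.subtype_injective _))
      · apply le_antisymm _ Subgroup.le_normalizer
        intro g hg
        have hgK : g ∈ Subgroup.normalizer ((Kb.comap (QuotientGroup.mk' N) : Subgroup G) : Set G) := by
          apply mem_normalizer_of_conj_smul_eq
          rw [← hsup, Subgroup.smul_sup, conj_smul_eq_of_mem_normalizer _ g hg,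
            conj_smul_eq_of_mem_normalizer N g (by
              rw [Subgroup.normalizer_eq_top_iff.mpr hNn]
              exact Subgroup.mem_top g)]
        have hgb : QuotientGroup.mk' N g ∈ Subgroup.normalizer (Kb : Set (G ⧸ N)) := by
          rw [Subgroup.mem_normalizer_iff]
          intro zb
          obtain ⟨z, rfl⟩ := QuotientGroup.mk'_surjective N zb
          have h1 := Subgroup.mem_normalizer_iff.mp hgK z
          rw [Subgroup.mem_comap, Subgroup.mem_comap, map_mul, map_mul, map_inv] at h1
          exact h1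
        rw [hKbnorm] at hgb
        have hgK' : g ∈ Kb.comap (QuotientGroup.mk' N) := hgb
        have hg' : (⟨g, hgK'⟩ : Kb.comap (QuotientGroup.mk' N)) ∈
            Subgroup.normalizer (C' : Set (Kb.comap (QuotientGroup.mk' N))) := by
          rw [Subgroup.mem_normalizer_iff]
          intro x
          have h1 := Subgroup.mem_normalizer_iff.mp hg (x : G)
          have e1 : ((x : G) ∈ C'.map (Kb.comap (QuotientGroup.mk' N)).subtype) ↔ x ∈ C' :=
            Subgroup.mem_map_iff_mem (f := (Kb.comap (QuotientGroup.mk' N)).subtype)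
              (Subgroup.subtype_injective _) (x := x) (K := C')
          have e2 : (g * (x : G) * g⁻¹ ∈ C'.map (Kb.comap (QuotientGroup.mk' N)).subtype) ↔
              ⟨g, hgK'⟩ * x * ⟨g, hgK'⟩⁻¹ ∈ C' :=
            Subgroup.mem_map_iff_mem (f := (Kb.comap (QuotientGroup.mk' N)).subtype)
              (Subgroup.subtype_injective _) (x := ⟨g, hgK'⟩ * x * ⟨g, hgK'⟩⁻¹) (K := C')
          rw [← e1, ← e2]
          exact h1
        rw [hC'norm] at hg'
        exact ⟨⟨g, hgK'⟩, hg', rfl⟩

theorem carter_conj_smul {G : Type*} [Group G] (g : G) {C : Subgroup G}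
    (hC : Group.IsNilpotent C ∧ Subgroup.normalizer (C : Set G) = C) :
    Group.IsNilpotent (MulAut.conj g • C : Subgroup G) ∧
      Subgroup.normalizer ((MulAut.conj g • C : Subgroup G) : Set G) = MulAut.conj g • C := by
  haveI := hC.1
  refine ⟨Group.nilpotent_of_mulEquiv (Subgroup.equivSMul (MulAut.conj g) C), ?_⟩
  rw [Cfsg.Agent.Lib_helper1_Primitive.normalizer_conj_smul, hC.2]

theorem carter_subgroupOf {G : Type*} [Group G] [Finite G] {C L : Subgroup G} (hCL : C ≤ L)
    (hC : Group.IsNilpotent C ∧ Subgroup.normalizer (C : Set G) = C) :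
    Group.IsNilpotent (C.subgroupOf L) ∧
      Subgroup.normalizer ((C.subgroupOf L : Subgroup L) : Set L) = C.subgroupOf L := by
  haveI := hC.1
  refine ⟨Group.nilpotent_of_mulEquiv (Subgroup.subgroupOfEquivOfLe hCL).symm, ?_⟩
  apply le_antisymm _ Subgroup.le_normalizer
  intro x hx
  have h1 : (x : G) ∈ Subgroup.normalizer (C : Set G) := by
    apply mem_normalizer_of_conj_le
    intro m hm
    have h2 := (Subgroup.mem_normalizer_iff.mp hx ⟨m, hCL hm⟩).mp (Subgroup.mem_subgroupOf.mpr hm)
    exact Subgroup.mem_subgroupOf.mp h2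
  rw [hC.2] at h1
  exact Subgroup.mem_subgroupOf.mpr h1

theorem le_normalizer_of_hall_nilpotent {G : Type*} [Group G] [Finite G] (L Q : Subgroup G)
    [Group.IsNilpotent L] (hQL : Q ≤ L) (h : (Nat.card Q).Coprime (Q.relIndex L)) :
    L ≤ Subgroup.normalizer (Q : Set G) := by
  have h1 : (Q.subgroupOf L).Normal := by
    apply hall_normal_of_nilpotent
    rw [card_subgroupOf_of_le hQL]
    exact h
  exact (Subgroup.normal_subgroupOf_iff_le_normalizer hQL).mp h1

theorem map_mk'_eq_of_sup {G : Type*} [Group G] (N : Subgroup G) [N.Normal] (C : Subgroup G)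
    (x : G) (hx : x ∈ C ⊔ N) : QuotientGroup.mk' N x ∈ C.map (QuotientGroup.mk' N) := by
  rw [Subgroup.mem_sup_of_normal_right] at hx
  obtain ⟨c, hc, m, hm, rfl⟩ := hx
  refine ⟨c, hc, ?_⟩
  rw [map_mul]
  have h1 : QuotientGroup.mk' N m = 1 := (QuotientGroup.eq_one_iff m).mpr hm
  rw [h1, mul_one]

/-- the final case of the conjugacy proof -/
theorem carter_final {G : Type u} [Group G] [Finite G] [Group.IsSolvable G] (N : Subgroup G)
    [hNn : N.Normal] (hNc : IsMulCommutative N)
    (hNmin : ∀ K : Subgroup G, K.Normal → K ≤ N → K = ⊥ ∨ K = N)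
    (p k : ℕ) [Fact p.Prime] (hNcard : Nat.card N = p ^ k) (C D : Subgroup G)
    (hC : Group.IsNilpotent C ∧ Subgroup.normalizer (C : Set G) = C)
    (hD : Group.IsNilpotent D ∧ Subgroup.normalizer (D : Set G) = D)
    (hCN : C ⊔ N = ⊤) (hDN : D ⊔ N = ⊤) : ∃ h : G, MulAut.conj h • C = D := by
  have hnil : Group.IsNilpotent G → ∃ h : G, MulAut.conj h • C = D := by
    intro hG
    have h1 := eq_top_of_self_normalizing C hC.2
    have h2 := eq_top_of_self_normalizing D hD.2
    exact ⟨1, by rw [conj_one_smul, h1, h2]⟩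
  have htop : ∀ E : Subgroup G, Group.IsNilpotent E → E = ⊤ → Group.IsNilpotent G := by
    intro E hE hEtop
    subst hEtop
    exact Group.nilpotent_of_mulEquiv Subgroup.topEquiv
  by_cases hNC : N ≤ C
  · exact hnil (htop C hC.1 (by rw [← hCN]; exact (sup_eq_left.mpr hNC).symm))
  by_cases hND : N ≤ D
  · exact hnil (htop D hD.1 (by rw [← hDN]; exact (sup_eq_left.mpr hND).symm))
  -- intersections trivial
  have hinf : ∀ E : Subgroup G, E ⊔ N = ⊤ → ¬ N ≤ E → N ⊓ E = ⊥ := by
    intro E hEN hNE
    have hn : (N ⊓ E).Normal := by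
      rw [← Subgroup.normalizer_eq_top_iff, eq_top_iff, ← hEN]
      apply sup_le (le_normalizer_inf_of_normal N E)
      intro n hn
      apply mem_normalizer_of_conj_le
      intro z hz
      have h1 : n * z = z * n := congrArg Subtype.val (mul_comm' (⟨n, hn⟩ : N) ⟨z, hz.1⟩)
      have h2 : n * z * n⁻¹ = z := by rw [h1]; group
      rw [h2]
      exact hz
    rcases hNmin _ hn inf_le_left with h | h
    · exact h
    · exact absurd (h ▸ inf_le_right) hNE
  have hcardE : ∀ E : Subgroup G, E ⊔ N = ⊤ → N ⊓ E = ⊥ → Nat.card G = Nat.card N * Nat.card E := by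
    intro E hEN hNE
    have h1 := Cfsg.Agent.Lib_helper1_HallConverse.card_sup_eq' E N
    rw [hEN, Subgroup.card_top, ← Subgroup.inf_relIndex_right, hNE, Subgroup.relIndex_bot_left] at h1
    exact h1
  have hCinf := hinf C hCN hNC
  have hDinf := hinf D hDN hND
  have hcardC := hcardE C hCN hCinf
  have hcardD := hcardE D hDN hDinf
  have hCD : Nat.card D = Nat.card C := by
    rw [hcardC] at hcardD
    exact (Nat.eq_of_mul_eq_mul_left Nat.card_pos hcardD).symm
  obtain ⟨a, m, hm, hcard⟩ := Nat.exists_eq_pow_mul_and_not_dvd (Nat.card_pos (α := C)).ne' p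
    (Fact.out : p.Prime).ne_one
  have hpm : p.Coprime m := (Nat.Prime.coprime_iff_not_dvd Fact.out).mpr hm
  have hcop : m.Coprime (p ^ a) := (Nat.Coprime.pow_left a hpm).symm
  have hmpos : 0 < m := Nat.pos_of_ne_zero (fun h0 => hm (h0 ▸ dvd_zero p))
  -- Hall subgroups of C and D
  have hhall : ∀ E : Subgroup G, Group.IsNilpotent E → Nat.card E = p ^ a * m →
      ∃ H : Subgroup G, H ≤ E ∧ Nat.card H = m := by
    intro E hE hEcard
    haveI : Group.IsSolvable E := inferInstance
    obtain ⟨H', hH'⟩ := hall_exists (G := E) m (p ^ a) (by rw [hEcard, mul_comm]) hcop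
    exact ⟨H'.map E.subtype, Subgroup.map_subtype_le _, by
      rw [Subgroup.card_map_of_injective (Subgroup.subtype_injective _), hH']⟩
  obtain ⟨HC, hHCle, hHCcard⟩ := hhall C hC.1 hcard
  obtain ⟨HD, hHDle, hHDcard⟩ := hhall D hD.1 (hCD ▸ hcard)
  have hGcard : Nat.card G = m * p ^ (a + k) := by
    rw [hcardC, hNcard, hcard, pow_add]
    ring
  obtain ⟨g₁, hg₁⟩ := hall_conj (G := G) m (p ^ (a + k)) hGcard
    (Nat.Coprime.pow_left (a + k) hpm).symm HD HC hHDcard hHCcard
  have hD₁ := carter_conj_smul g₁ hD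
  have hHCD₁ : HC ≤ MulAut.conj g₁ • D := by
    rw [← hg₁]
    exact Subgroup.pointwise_smul_le_pointwise_smul_iff.mpr hHDle
  have hD₁card : Nat.card (MulAut.conj g₁ • D : Subgroup G) = p ^ a * m := by
    rw [card_conj_smul, hCD, hcard]
  have hrel : ∀ E : Subgroup G, HC ≤ E → Nat.card E = p ^ a * m →
      (Nat.card HC).Coprime (HC.relIndex E) := by
    intro E hHE hEcard
    have h1 := Subgroup.card_mul_index (HC.subgroupOf E)
    rw [card_subgroupOf_of_le hHE, hHCcard, hEcard, mul_comm] at h1
    have h2 : HC.relIndex E = p ^ a := Nat.eq_of_mul_eq_mul_right hmpos h1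
    rw [hHCcard, h2]
    exact hcop
  haveI := hC.1
  haveI := hD₁.1
  have hCnH : C ≤ Subgroup.normalizer (HC : Set G) :=
    le_normalizer_of_hall_nilpotent C HC hHCle (hrel C hHCle hcard)
  have hD₁nH : MulAut.conj g₁ • D ≤ Subgroup.normalizer (HC : Set G) :=
    le_normalizer_of_hall_nilpotent _ HC hHCD₁ (hrel _ hHCD₁ hD₁card)
  have hBn : (N ⊓ Subgroup.normalizer (HC : Set G)).Normal := by
    rw [← Subgroup.normalizer_eq_top_iff, eq_top_iff, ← hCN]
    apply sup_le
    · exact le_normalizer_inf_normalizer C N HC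
        (by rw [Subgroup.normalizer_eq_top_iff.mpr hNn]; exact le_top) hCnH
    · intro n hn
      apply mem_normalizer_of_conj_le
      intro z hz
      have h1 : n * z = z * n := congrArg Subtype.val (mul_comm' (⟨n, hn⟩ : N) ⟨z, hz.1⟩)
      have h2 : n * z * n⁻¹ = z := by rw [h1]; group
      rw [h2]
      exact hz
  rcases hNmin _ hBn inf_le_left with hB | hB
  · -- normalizer HC = C
    have h1 : Subgroup.normalizer (HC : Set G) ≤ C := by
      intro x hx
      have hx' : x ∈ C ⊔ N := hCN ▸ Subgroup.mem_top x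
      rw [Subgroup.mem_sup_of_normal_right] at hx'
      obtain ⟨c, hc, n, hn, rfl⟩ := hx'
      have h2 : n ∈ Subgroup.normalizer (HC : Set G) := by
        have e : n = c⁻¹ * (c * n) := by group
        rw [e]
        exact Subgroup.mul_mem _ (Subgroup.inv_mem _ (hCnH hc)) hx
      have h3 : n ∈ N ⊓ Subgroup.normalizer (HC : Set G) := ⟨hn, h2⟩
      rw [hB, Subgroup.mem_bot] at h3
      rw [h3, mul_one]
      exact hc
    have h4 : MulAut.conj g₁ • D = C :=
      Subgroup.eq_of_le_of_card_ge (hD₁nH.trans h1) (by rw [hD₁card, hcard])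
    refine ⟨g₁⁻¹, ?_⟩
    rw [← h4, conj_smul_conj_smul, inv_mul_cancel, conj_one_smul]
  · -- HC normal, G nilpotent
    have hNH : N ≤ Subgroup.normalizer (HC : Set G) := by
      rw [← hB]
      exact inf_le_right
    have hHn : HC.Normal := by
      rw [← Subgroup.normalizer_eq_top_iff, eq_top_iff, ← hCN]
      exact sup_le hCnH hNH
    apply hnil
    haveI : Group.IsNilpotent (G ⧸ N) := by
      apply Group.nilpotent_of_surjective ((QuotientGroup.mk' N).comp C.subtype)
      intro zb
      obtain ⟨z, rfl⟩ := QuotientGroup.mk'_surjective N zb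
      obtain ⟨c, hc, hcz⟩ := map_mk'_eq_of_sup N C z (hCN ▸ Subgroup.mem_top z)
      exact ⟨⟨c, hc⟩, hcz⟩
    haveI : Group.IsNilpotent (G ⧸ HC) := by
      have h1 := Subgroup.card_mul_index HC
      rw [hHCcard, hGcard, Subgroup.index_eq_card] at h1
      have h2 : Nat.card (G ⧸ HC) = p ^ (a + k) := Nat.eq_of_mul_eq_mul_left hmpos h1
      exact (IsPGroup.of_card h2).isNilpotent
    let φ : G →* (G ⧸ HC) × (G ⧸ N) := (QuotientGroup.mk' HC).prod (QuotientGroup.mk' N)
    have hφ : Function.Injective φ := by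
      rw [injective_iff_map_eq_one]
      intro c hc
      have h1 : (c : G ⧸ HC) = 1 := congrArg Prod.fst hc
      have h2 : (c : G ⧸ N) = 1 := congrArg Prod.snd hc
      have h3 : c ∈ HC := (QuotientGroup.eq_one_iff _).mp h1
      have h4 : c ∈ N := (QuotientGroup.eq_one_iff _).mp h2
      have h6 : orderOf c ∣ p ^ k := hNcard ▸ Subgroup.orderOf_dvd_natCard N h4
      have h7 : orderOf c ∣ m := hHCcard ▸ Subgroup.orderOf_dvd_natCard HC h3
      exact orderOf_eq_one_iff.mp
        (Nat.eq_one_of_dvd_coprimes (Nat.Coprime.pow_right k hpm.symm) h7 h6)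
    exact isNilpotent_of_injective φ hφ

theorem carter_conj_aux (n : ℕ) : ∀ (G : Type u) [Group G] [Finite G] [Group.IsSolvable G],
    Nat.card G = n →
    ∀ C D : Subgroup G, (Group.IsNilpotent C ∧ Subgroup.normalizer (C : Set G) = C) →
      (Group.IsNilpotent D ∧ Subgroup.normalizer (D : Set G) = D) →
      ∃ g : G, MulAut.conj g • C = D := by
  induction n using Nat.strong_induction_on with
  | _ n ih =>
    intro G _ _ _ hn C D hC hD
    rcases subsingleton_or_nontrivial G with hs | hnt
    · exact ⟨1, Subsingleton.elim _ _⟩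
    · obtain ⟨N, hNn, hN1, hNc, hNmin, p, k, hp, hk, hNcard⟩ := exists_minimal_normal (G := G)
      haveI := hNn
      haveI : Fact p.Prime := ⟨hp⟩
      have hlt : Nat.card (G ⧸ N) < n := hn ▸ card_quot_lt N hN1
      have hsub : ∀ (L : Subgroup G), L ≠ ⊤ → ∀ C D : Subgroup G, C ≤ L → D ≤ L →
          (Group.IsNilpotent C ∧ Subgroup.normalizer (C : Set G) = C) →
          (Group.IsNilpotent D ∧ Subgroup.normalizer (D : Set G) = D) →
          ∃ x ∈ L, MulAut.conj x • C = D := by
        intro L hL C D hCL hDL hC hD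
        have hcardL : Nat.card L < n := hn ▸ card_lt_of_ne_top L hL
        obtain ⟨x, hx⟩ := ih _ hcardL L rfl (C.subgroupOf L) (D.subgroupOf L)
          (carter_subgroupOf hCL hC) (carter_subgroupOf hDL hD)
        refine ⟨x, x.2, ?_⟩
        have h1 := congrArg (Subgroup.map L.subtype) hx
        rw [map_conj_smul, Subgroup.map_subgroupOf_eq_of_le hCL,
          Subgroup.map_subgroupOf_eq_of_le hDL] at h1
        exact h1
      have hQ : ∀ C : Subgroup G, (Group.IsNilpotent C ∧ Subgroup.normalizer (C : Set G) = C) →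
          (Group.IsNilpotent (C.map (QuotientGroup.mk' N)) ∧
            Subgroup.normalizer ((C.map (QuotientGroup.mk' N) : Subgroup (G ⧸ N)) : Set (G ⧸ N)) =
              C.map (QuotientGroup.mk' N)) := by
        intro C hC
        haveI := hC.1
        refine ⟨Group.nilpotent_of_surjective ((QuotientGroup.mk' N).subgroupMap C)
          ((QuotientGroup.mk' N).subgroupMap_surjective C), ?_⟩
        apply le_antisymm _ Subgroup.le_normalizer
        intro gb hgb
        obtain ⟨g, rfl⟩ := QuotientGroup.mk'_surjective N gb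
        by_cases hL : C ⊔ N = ⊤
        · exact map_mk'_eq_of_sup N C g (hL ▸ Subgroup.mem_top g)
        · have hgL : g ∈ Subgroup.normalizer ((C ⊔ N : Subgroup G) : Set G) := by
            have e : C ⊔ N = (C.map (QuotientGroup.mk' N)).comap (QuotientGroup.mk' N) := by
              rw [Subgroup.comap_map_eq, QuotientGroup.ker_mk']
            rw [e, Subgroup.mem_normalizer_iff]
            intro z
            rw [Subgroup.mem_comap, Subgroup.mem_comap, map_mul, map_mul, map_inv]
            exact Subgroup.mem_normalizer_iff.mp hgb _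
          have h2 : MulAut.conj g • C ≤ C ⊔ N :=
            conj_smul_le_of_mem_normalizer C (C ⊔ N) le_sup_left g hgL
          obtain ⟨x, hx, hxC⟩ := hsub (C ⊔ N) hL C (MulAut.conj g • C) le_sup_left h2 hC
            (carter_conj_smul g hC)
          have h3 : MulAut.conj (x⁻¹ * g) • C = C := by
            rw [← conj_smul_conj_smul, ← hxC, conj_smul_conj_smul, inv_mul_cancel, conj_one_smul]
          have h4 : x⁻¹ * g ∈ C := by
            have h5 := mem_normalizer_of_conj_smul_eq C _ h3
            rw [hC.2] at h5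
            exact h5
          have e : g = x * (x⁻¹ * g) := by group
          rw [e, map_mul]
          exact Subgroup.mul_mem _ (map_mk'_eq_of_sup N C x hx) (Subgroup.mem_map_of_mem _ h4)
      obtain ⟨gb, hgb⟩ := ih _ hlt (G ⧸ N) rfl _ _ (hQ C hC) (hQ D hD)
      obtain ⟨g, rfl⟩ := QuotientGroup.mk'_surjective N gb
      rw [← map_conj_smul] at hgb
      have hC₁ := carter_conj_smul g hC
      have hL : MulAut.conj g • C ⊔ N = D ⊔ N := by
        have h1 := congrArg (Subgroup.comap (QuotientGroup.mk' N)) hgb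
        rwa [Subgroup.comap_map_eq, Subgroup.comap_map_eq, QuotientGroup.ker_mk'] at h1
      suffices h : ∃ h : G, MulAut.conj h • (MulAut.conj g • C) = D by
        obtain ⟨h, hh⟩ := h
        exact ⟨h * g, by rw [← conj_smul_conj_smul]; exact hh⟩
      by_cases hLtop : D ⊔ N = ⊤
      · exact carter_final N hNc hNmin p k hNcard _ D hC₁ hD (hL.trans hLtop) hLtop
      · obtain ⟨x, -, hx⟩ := hsub (D ⊔ N) hLtop (MulAut.conj g • C) D (hL ▸ le_sup_left)
          le_sup_left hC₁ hD
        exact ⟨x, hx⟩

theorem carter {G : Type u} [Group G] [Finite G] [Group.IsSolvable G] :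
    (∃ C : Subgroup G, Group.IsNilpotent C ∧ Subgroup.normalizer (C : Set G) = C) ∧
    ∀ C D : Subgroup G, Group.IsNilpotent C → Subgroup.normalizer (C : Set G) = C →
      Group.IsNilpotent D → Subgroup.normalizer (D : Set G) = D → ∃ g : G, MulAut.conj g • C = D :=
  ⟨carter_exists_aux _ G rfl, fun C D h1 h2 h3 h4 => carter_conj_aux _ G rfl C D ⟨h1, h2⟩ ⟨h3, h4⟩⟩

end Cfsg.Agent.Lib_helper1_Carter
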