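import Mathlib

set_option autoImplicit false

namespace Cfsg.Agent.Lib_helper1_CommNorm

open scoped commutatorElement

/-- conjugation by elements of `K` or `H` preserves `⁅K, H⁆` -/
theorem conj_mem_commutator {G : Type*} [Group G] (K H : Subgroup G) (g : G)
    (hg : g ∈ K ∨ g ∈ H) : ∀ x ∈ ⁅K, H⁆, g * x * g⁻¹ ∈ ⁅K, H⁆ := by
  have h1 : ⁅K, H⁆ ≤ (⁅K, H⁆).comap (MulAut.conj g).toMonoidHom := by
    rw [Subgroup.commutator_le]
    intro k hk h hh
    rw [Subgroup.mem_comap]
    show g * ⁅k, h⁆ * g⁻¹ ∈ ⁅K, H⁆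
    rcases hg with hg | hg
    · have e : g * ⁅k, h⁆ * g⁻¹ = ⁅g * k, h⁆ * ⁅g, h⁆⁻¹ := by
        simp only [commutatorElement_def]; group
      rw [e]
      exact Subgroup.mul_mem _ (Subgroup.commutator_mem_commutator (K.mul_mem hg hk) hh)
        (Subgroup.inv_mem _ (Subgroup.commutator_mem_commutator hg hh))
    · have e : g * ⁅k, h⁆ * g⁻¹ = ⁅k, g⁆⁻¹ * ⁅k, g * h⁆ := by
        simp only [commutatorElement_def]; group
      rw [e]
      exact Subgroup.mul_mem _ (Subgroup.inv_mem _ (Subgroup.commutator_mem_commutator hk hg))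
        (Subgroup.commutator_mem_commutator hk (H.mul_mem hg hh))
  intro x hx
  exact h1 hx

theorem sup_le_normalizer_commutator {G : Type*} [Group G] (K H : Subgroup G) :
    K ⊔ H ≤ Subgroup.normalizer ((⁅K, H⁆ : Subgroup G) : Set G) := by
  have hmem : ∀ g : G, (g ∈ K ∨ g ∈ H) → g ∈ Subgroup.normalizer ((⁅K, H⁆ : Subgroup G) : Set G) := by
    intro g hg
    rw [Subgroup.mem_normalizer_iff]
    intro x
    constructor
    · exact conj_mem_commutator K H g hg x
    · intro hx
      have hg' : g⁻¹ ∈ K ∨ g⁻¹ ∈ H := hg.imp (K.inv_mem) (H.inv_mem)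
      have := conj_mem_commutator K H g⁻¹ hg' _ hx
      have e : g⁻¹ * (g * x * g⁻¹) * g⁻¹⁻¹ = x := by group
      rwa [e] at this
  exact sup_le (fun g hg => hmem g (Or.inl hg)) (fun g hg => hmem g (Or.inr hg))

theorem commutator_le_sup {G : Type*} [Group G] (K H : Subgroup G) : ⁅K, H⁆ ≤ K ⊔ H := by
  rw [Subgroup.commutator_le]
  intro k hk h hh
  rw [commutatorElement_def]
  exact Subgroup.mul_mem _ (Subgroup.mul_mem _ (Subgroup.mul_mem _
    (Subgroup.mem_sup_left hk) (Subgroup.mem_sup_right hh))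
    (Subgroup.inv_mem _ (Subgroup.mem_sup_left hk)))
    (Subgroup.inv_mem _ (Subgroup.mem_sup_right hh))

/-- the commutator of two subnormal subgroups is subnormal, given that joins are -/
theorem commutator_isSubnormal_of_sup {G : Type*} [Group G] (K H : Subgroup G)
    (h : (K ⊔ H).IsSubnormal) : (⁅K, H⁆).IsSubnormal :=
  Subgroup.IsSubnormal.step _ _ (commutator_le_sup K H) h
    ((Subgroup.normal_subgroupOf_iff_le_normalizer (commutator_le_sup K H)).mpr
      (sup_le_normalizer_commutator K H))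

end Cfsg.Agent.Lib_helper1_CommNorm
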