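import Mathlib
import Cfsg.Agent.Lib_helper1_Socle
import Cfsg.Agent.Lib_helper1_NormalRankTwo

set_option autoImplicit false
set_option maxHeartbeats 1600000

namespace Cfsg.Agent.H1CS

variable {P E : Type*} [Group P] [AddCommGroup E] [DistribMulAction P E]

theorem pow_smul_fix (g : P) (w : E) (h : g • w = w) (m : ℕ) : g ^ m • w = w := by
  induction m with
  | zero => simp
  | succ k ih => rw [pow_succ, mul_smul, h, ih]

theorem nm_fix (p : ℕ) (g : P) (hg : g ^ p = 1) (v : E) :
    g • (∑ m ∈ Finset.range p, g ^ m • v) = ∑ m ∈ Finset.range p, g ^ m • v := by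
  rw [Finset.smul_sum]
  have h1 : ∑ m ∈ Finset.range p, g • g ^ m • v = ∑ m ∈ Finset.range p, g ^ (m + 1) • v := by
    apply Finset.sum_congr rfl
    intro m _
    rw [pow_succ', mul_smul]
  rw [h1]
  have h2 := Finset.sum_range_succ (fun m => g ^ m • v) p
  have h3 := Finset.sum_range_succ' (fun m => g ^ m • v) p
  simp only [hg, pow_zero, one_smul] at h2 h3
  rw [h2] at h3
  exact (add_right_cancel h3).symm

theorem nm_shift (p : ℕ) (u t : P) (hc : Commute u t) (w : E) (hu : u • w = w) :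
    ∑ m ∈ Finset.range p, (u * t) ^ m • w = ∑ m ∈ Finset.range p, t ^ m • w := by
  apply Finset.sum_congr rfl
  intro m _
  rw [hc.mul_pow, (hc.pow_pow m m).eq, mul_smul, pow_smul_fix u w hu m]

theorem cancel {p q : ℕ} (hp : p.Prime) (hq : q.Prime) (hpq : p ≠ q) (w : E) (h1 : p • w = 0)
    (h2 : q • w = 0) : w = 0 := by
  have hcop : Nat.Coprime p q := (Nat.coprime_primes hp hq).mpr hpq
  have d1 : addOrderOf w ∣ p := addOrderOf_dvd_of_nsmul_eq_zero h1
  have d2 : addOrderOf w ∣ q := addOrderOf_dvd_of_nsmul_eq_zero h2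
  have d3 := Nat.dvd_gcd d1 d2
  rw [hcop.gcd_eq_one] at d3
  have d4 : addOrderOf w = 1 := Nat.dvd_one.mp d3
  have := addOrderOf_nsmul_eq_zero w
  rwa [d4, one_nsmul] at this

theorem central_free [Finite P] [FaithfulSMul P E]
    (hconst : ∀ a b : E, a ≠ 0 → b ≠ 0 →
      Nat.card (MulAction.stabilizer P a) = Nat.card (MulAction.stabilizer P b))
    (z : P) (hz : z ∈ Subgroup.center P) (a : E) (ha : a ≠ 0) (hza : z • a = a) : z = 1 := by
  have hcomm : ∀ g : P, g * z = z * g := Subgroup.mem_center_iff.mp hz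
  have EQ : ∀ u v : E, u ≠ 0 → v ≠ 0 → MulAction.stabilizer P u ≤ MulAction.stabilizer P v →
      MulAction.stabilizer P u = MulAction.stabilizer P v := by
    intro u v hu hv hle
    exact Subgroup.eq_of_le_of_card_ge hle (hconst v u hv hu).le
  apply FaithfulSMul.eq_of_smul_eq_smul (α := E)
  intro b
  rw [one_smul]
  by_contra hb
  have hb0 : b ≠ 0 := by
    rintro rfl
    exact hb (smul_zero z)
  have hb' : b - z • b ≠ 0 := by
    intro h
    exact hb (sub_eq_zero.mp h).symm
  have hab : a + b ≠ 0 := by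
    intro h
    apply hb
    have hb2 : b = -a := eq_neg_of_add_eq_zero_right h
    rw [hb2, smul_neg, hza]
  have h1 : MulAction.stabilizer P b ≤ MulAction.stabilizer P (b - z • b) := by
    intro g hg
    rw [MulAction.mem_stabilizer_iff] at hg ⊢
    rw [smul_sub, ← mul_smul, hcomm g, mul_smul, hg]
  have e1 := EQ b (b - z • b) hb0 hb' h1
  have h2 : MulAction.stabilizer P (a + b) ≤ MulAction.stabilizer P (b - z • b) := by
    intro g hg
    rw [MulAction.mem_stabilizer_iff] at hg ⊢
    have h3 : b - z • b = (a + b) - z • (a + b) := by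
      rw [smul_add, hza]; abel
    rw [h3, smul_sub, ← mul_smul, hcomm g, mul_smul, hg]
  have e2 := EQ (a + b) (b - z • b) hab hb' h2
  have h4 : MulAction.stabilizer P b ≤ MulAction.stabilizer P a := by
    intro g hg
    have hg2 : g ∈ MulAction.stabilizer P (a + b) := by rw [e2, ← e1]; exact hg
    rw [MulAction.mem_stabilizer_iff] at hg hg2 ⊢
    rw [smul_add, hg] at hg2
    exact add_right_cancel hg2
  have e3 := EQ b a hb0 ha h4
  have : z ∈ MulAction.stabilizer P b := by rw [e3]; exact MulAction.mem_stabilizer_iff.mpr hza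
  exact hb (MulAction.mem_stabilizer_iff.mp this)

theorem nm_id {p : ℕ} (hp : p.Prime) (x z : P) (hxz : Commute x z)
    (hfree : ∀ m : ℕ, 0 < m → m < p → ∀ v : E, ∑ i ∈ Finset.range p, (z ^ m) ^ i • v = 0)
    (v : E) :
    ∑ i ∈ Finset.range p, ∑ m ∈ Finset.range p, (x * z ^ i) ^ m • v = p • v := by
  rw [Finset.sum_comm]
  have h1 : ∀ m ∈ Finset.range p, ∑ i ∈ Finset.range p, (x * z ^ i) ^ m • v
      = x ^ m • ∑ i ∈ Finset.range p, (z ^ m) ^ i • v := by
    intro m _
    rw [Finset.smul_sum]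
    apply Finset.sum_congr rfl
    intro i _
    rw [(hxz.pow_right i).mul_pow, mul_smul, ← pow_mul, ← pow_mul, mul_comm i m]
  rw [Finset.sum_congr rfl h1]
  rw [Finset.sum_eq_single 0]
  · simp
  · intro m hm hm0
    rw [hfree m (Nat.pos_of_ne_zero hm0) (Finset.mem_range.mp hm), smul_zero]
  · intro h
    exact absurd (Finset.mem_range.mpr hp.pos) h

theorem main [Finite P] [Finite E] [FaithfulSMul P E] {p q : ℕ} [Fact p.Prime] (hp2 : p ≠ 2)
    (hP : IsPGroup p P) (hq : q.Prime) (hE : ∀ e : E, q • e = 0)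
    (hconst : ∀ a b : E, a ≠ 0 → b ≠ 0 →
      Nat.card (MulAction.stabilizer P a) = Nat.card (MulAction.stabilizer P b)) :
    IsCyclic P := by
  classical
  have hp : p.Prime := Fact.out
  by_contra hnc
  have htriv : ∀ g : P, (∀ e : E, g • e = e) → g = 1 := by
    intro g hg
    apply FaithfulSMul.eq_of_smul_eq_smul (α := E)
    intro e; rw [one_smul]; exact hg e
  have hne : ∃ e₀ : E, e₀ ≠ 0 := by
    by_contra h
    push_neg at h
    apply hnc
    have h1 : ∀ g : P, g = 1 := fun g => htriv g (fun e => by rw [h e, smul_zero])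
    haveI : Subsingleton P := ⟨fun a b => by rw [h1 a, h1 b]⟩
    infer_instance
  obtain ⟨e₀, he₀⟩ := hne
  have EQ : ∀ u v : E, u ≠ 0 → v ≠ 0 → MulAction.stabilizer P u ≤ MulAction.stabilizer P v →
      MulAction.stabilizer P u = MulAction.stabilizer P v := by
    intro u v hu hv hle
    exact Subgroup.eq_of_le_of_card_ge hle (hconst v u hv hu).le
  have hnofix : ∀ b : E, b ≠ 0 → ¬ (∀ g : P, g • b = b) := by
    intro b hb hfix
    apply hnc
    have h0 : MulAction.stabilizer P b = ⊤ := by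
      ext g'
      simp [MulAction.mem_stabilizer_iff, hfix g']
    have h1 : ∀ g : P, g = 1 := by
      intro g
      apply htriv
      intro e
      by_cases he : e = 0
      · rw [he, smul_zero]
      · have h2 : MulAction.stabilizer P e = MulAction.stabilizer P b :=
          EQ e b he hb (by rw [h0]; exact le_top)
        have h3 : g ∈ MulAction.stabilizer P e := by rw [h2, h0]; exact Subgroup.mem_top g
        exact MulAction.mem_stabilizer_iff.mp h3
    haveI : Subsingleton P := ⟨fun a b => by rw [h1 a, h1 b]⟩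
    infer_instance
  have hpq : p ≠ q := by
    intro hpq'
    have hE' : ∀ e : E, p • e = 0 := by
      intro e; rw [hpq']; exact hE e
    have hdvd : p ∣ Nat.card E := by
      have d1 : addOrderOf e₀ ∣ p := addOrderOf_dvd_of_nsmul_eq_zero (hE' e₀)
      have d2 : addOrderOf e₀ = p := by
        rcases (Nat.dvd_prime hp).mp d1 with h | h
        · exfalso; apply he₀
          have h5 := addOrderOf_nsmul_eq_zero e₀
          rwa [h, one_nsmul] at h5
        · exact h
      rw [← d2]; exact addOrderOf_dvd_natCard e₀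
    obtain ⟨b, hb, hb0⟩ := hP.exists_fixed_point_of_prime_dvd_card_of_fixed_point E hdvd
      (a := (0 : E)) (MulAction.mem_fixedPoints.mpr (fun g => smul_zero g))
    exact hnofix b (Ne.symm hb0) (fun g => MulAction.mem_fixedPoints.mp hb g)
  have hnc' : ¬ IsCyclic (⊤ : Subgroup P) := by
    intro h
    apply hnc
    haveI := h
    exact isCyclic_of_surjective (Subgroup.topEquiv : (⊤ : Subgroup P) ≃* P)
      (Subgroup.topEquiv : (⊤ : Subgroup P) ≃* P).surjective
  obtain ⟨A, -, hAn, hAc, hAe, hAcard⟩ :=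
    Cfsg.Agent.Lib_helper1_NormalRankTwo.normal_rank_two hp2 hP (⊤ : Subgroup P) hnc'
  haveI := hAn
  haveI : Group.IsNilpotent P := hP.isNilpotent
  have hAb : A ≠ ⊥ := by
    intro h
    rw [h, Subgroup.card_bot] at hAcard
    have h1 : 1 < p ^ 2 := Nat.one_lt_pow (by norm_num) hp.one_lt
    omega
  have hz0 := Cfsg.Agent.Lib_helper1_Socle.normal_inf_center_ne_bot A hAb
  obtain ⟨z, hzmem, hz1⟩ : ∃ z ∈ A ⊓ Subgroup.center P, z ≠ 1 := by
    by_contra h; push_neg at h; exact hz0 ((Subgroup.eq_bot_iff_forall _).mpr h)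
  have hzA : z ∈ A := hzmem.1
  have hzc : z ∈ Subgroup.center P := hzmem.2
  have hzp : z ^ p = 1 := hAe z hzA
  have hZ₀c : Subgroup.zpowers z ≤ Subgroup.center P := by
    rw [Subgroup.zpowers_le]; exact hzc
  haveI hZn : (Subgroup.zpowers z).Normal :=
    Cfsg.Agent.Lib_helper1_NormalRankTwo.zpowers_normal_of_central hzc
  have hfreeZ : ∀ ζ ∈ Subgroup.zpowers z, ζ ≠ 1 → ∀ v : E, ζ • v = v → v = 0 := by
    intro ζ hζ hζ1 v hv
    by_contra hv0
    exact hζ1 (central_free hconst ζ (hZ₀c hζ) v hv0 hv)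
  have hZp : ∀ ζ ∈ Subgroup.zpowers z, ζ ^ p = 1 := by
    intro ζ hζ
    obtain ⟨k, rfl⟩ := Subgroup.mem_zpowers_iff.mp hζ
    rw [← zpow_natCast, ← zpow_mul, mul_comm, zpow_mul, zpow_natCast, hzp, one_zpow]
  have hNZ : ∀ ζ ∈ Subgroup.zpowers z, ζ ≠ 1 → ∀ v : E,
      ∑ i ∈ Finset.range p, ζ ^ i • v = 0 := by
    intro ζ hζ hζ1 v
    exact hfreeZ ζ hζ hζ1 _ (nm_fix p ζ (hZp ζ hζ) v)
  have hord : orderOf z = p := orderOf_eq_prime hzp hz1
  have hZcard : Nat.card (Subgroup.zpowers z) = p := by rw [Nat.card_zpowers, hord]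
  have hZA : Subgroup.zpowers z ≤ A := by rw [Subgroup.zpowers_le]; exact hzA
  have hmapne : A.map (QuotientGroup.mk' (Subgroup.zpowers z)) ≠ ⊥ := by
    intro h
    have hle : A ≤ Subgroup.zpowers z := by
      intro y hy
      have h1 : (QuotientGroup.mk' (Subgroup.zpowers z)) y ∈
          A.map (QuotientGroup.mk' (Subgroup.zpowers z)) := Subgroup.mem_map_of_mem _ hy
      rw [h, Subgroup.mem_bot] at h1
      exact (QuotientGroup.eq_one_iff y).mp h1
    have h2 := Subgroup.card_le_of_le hle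
    rw [hAcard, hZcard] at h2
    have h3 : p < p ^ 2 := by rw [sq]; nlinarith [hp.one_lt]
    omega
  haveI : Group.IsNilpotent (P ⧸ Subgroup.zpowers z) :=
    (hP.to_quotient (Subgroup.zpowers z)).isNilpotent
  haveI : (A.map (QuotientGroup.mk' (Subgroup.zpowers z))).Normal :=
    Subgroup.Normal.map hAn _ (QuotientGroup.mk'_surjective _)
  have hq0 := Cfsg.Agent.Lib_helper1_Socle.normal_inf_center_ne_bot
    (A.map (QuotientGroup.mk' (Subgroup.zpowers z))) hmapne
  obtain ⟨xb, hxb, hxb1⟩ : ∃ xb ∈ A.map (QuotientGroup.mk' (Subgroup.zpowers z)) ⊓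
      Subgroup.center (P ⧸ Subgroup.zpowers z), xb ≠ 1 := by
    by_contra h; push_neg at h; exact hq0 ((Subgroup.eq_bot_iff_forall _).mpr h)
  obtain ⟨x₀, hx₀A, hx₀⟩ := Subgroup.mem_map.mp hxb.1
  have hx₀Z : x₀ ∉ Subgroup.zpowers z := by
    intro h
    apply hxb1
    rw [← hx₀]
    exact (QuotientGroup.eq_one_iff x₀).mpr h
  have hx₀c : ∀ h : P, ∃ ζ ∈ Subgroup.zpowers z, h * x₀ * h⁻¹ = ζ * x₀ := by
    intro h
    have h2 := Subgroup.mem_center_iff.mp hxb.2 (QuotientGroup.mk' (Subgroup.zpowers z) h)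
    rw [← hx₀] at h2
    refine ⟨h * x₀ * h⁻¹ * x₀⁻¹, ?_, by group⟩
    have h3 : (QuotientGroup.mk' (Subgroup.zpowers z)) (h * x₀ * h⁻¹ * x₀⁻¹) = 1 := by
      rw [map_mul, map_mul, map_mul, h2, map_inv, map_inv]; group
    exact (QuotientGroup.eq_one_iff _).mp h3
  have hcomm : ∀ g : P, g * z = z * g := Subgroup.mem_center_iff.mp hzc
  have hfreem : ∀ m : ℕ, 0 < m → m < p → ∀ v : E,
      ∑ i ∈ Finset.range p, (z ^ m) ^ i • v = 0 := by
    intro m hm0 hmp v
    apply hNZ (z ^ m) (Subgroup.pow_mem _ (Subgroup.mem_zpowers z) m)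
    exact pow_ne_one_of_lt_orderOf hm0.ne' (by rw [hord]; exact hmp)
  have hpe₀ : p • e₀ ≠ 0 := by
    intro h
    exact he₀ (cancel hp hq hpq e₀ h (hE e₀))
  obtain ⟨i, -, hi⟩ : ∃ i ∈ Finset.range p,
      ∑ m ∈ Finset.range p, (x₀ * z ^ i) ^ m • e₀ ≠ 0 := by
    by_contra h
    push_neg at h
    apply hpe₀
    rw [← nm_id hp x₀ z (hcomm x₀) hfreem e₀]
    exact Finset.sum_eq_zero h
  have hziZ : z ^ i ∈ Subgroup.zpowers z := Subgroup.pow_mem _ (Subgroup.mem_zpowers z) i
  obtain ⟨x, hx⟩ : ∃ x : P, x = x₀ * z ^ i := ⟨_, rfl⟩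
  rw [← hx] at hi
  have hxA : x ∈ A := by rw [hx]; exact A.mul_mem hx₀A (hZA hziZ)
  have hxp : x ^ p = 1 := hAe x hxA
  have hxZ : x ∉ Subgroup.zpowers z := by
    intro h
    apply hx₀Z
    have h1 : x₀ = x * (z ^ i)⁻¹ := by rw [hx]; group
    rw [h1]
    exact (Subgroup.zpowers z).mul_mem h ((Subgroup.zpowers z).inv_mem hziZ)
  have hcenZ : ∀ ζ ∈ Subgroup.zpowers z, ∀ g : P, g * ζ = ζ * g :=
    fun ζ hζ => Subgroup.mem_center_iff.mp (hZ₀c hζ)
  have hxc : ∀ h : P, ∃ ζ ∈ Subgroup.zpowers z, h * x * h⁻¹ = ζ * x := by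
    intro h
    obtain ⟨ζ, hζ, he⟩ := hx₀c h
    refine ⟨ζ, hζ, ?_⟩
    have hc1 : z ^ i * h⁻¹ = h⁻¹ * z ^ i := (hcenZ (z ^ i) hziZ h⁻¹).symm
    calc h * x * h⁻¹ = h * x₀ * (z ^ i * h⁻¹) := by rw [hx]; group
      _ = h * x₀ * (h⁻¹ * z ^ i) := by rw [hc1]
      _ = (h * x₀ * h⁻¹) * z ^ i := by group
      _ = ζ * x₀ * z ^ i := by rw [he]
      _ = ζ * x := by rw [hx]; group
  obtain ⟨a, ha⟩ : ∃ a : E, a = ∑ m ∈ Finset.range p, x ^ m • e₀ := ⟨_, rfl⟩
  have ha0 : a ≠ 0 := by rw [ha]; exact hi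
  have hxa : x • a = a := by rw [ha]; exact nm_fix p x hxp e₀
  have hodd : ∀ η ∈ Subgroup.zpowers z, η * η = 1 → η = 1 := by
    intro η hη h2
    have h1 := hZp η hη
    have hop : orderOf η ∣ p := orderOf_dvd_of_pow_eq_one h1
    have ho2 : orderOf η ∣ 2 := orderOf_dvd_of_pow_eq_one (by rw [sq]; exact h2)
    rcases (Nat.dvd_prime hp).mp hop with h | h
    · exact orderOf_eq_one_iff.mp h
    · rw [h] at ho2
      exact absurd ((Nat.prime_dvd_prime_iff_eq hp Nat.prime_two).mp ho2) hp2
  have hproj : ∀ (u : P) (t : P), t ∈ Subgroup.zpowers z → t ≠ 1 → ∀ w : E, u • w = w →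
      ∑ m ∈ Finset.range p, (u * t) ^ m • w = 0 := by
    intro u t ht ht1 w hu
    rw [nm_shift p u t (hcenZ t ht u) w hu]
    exact hNZ t ht ht1 w
  have hsame : ∀ (u : P) (w : E), u • w = w →
      ∑ m ∈ Finset.range p, u ^ m • w = p • w := by
    intro u w hu
    rw [Finset.sum_congr rfl (fun m _ => pow_smul_fix u w hu m)]
    simp
  have hkey : ∀ η ∈ Subgroup.zpowers z, η ≠ 1 → ∀ b : E, (x * η) • b = b → b = 0 := by
    intro η hη hη1 b hb
    by_contra hb0
    have hηc := hcenZ η hη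
    have hηfree : ∀ w : E, x • w = w → (x * η) • w = w → w = 0 := by
      intro w h1 h2
      apply hfreeZ η hη hη1 w
      rw [mul_smul] at h2
      have h3 : x • (η • w) = x • w := by rw [h2, h1]
      exact MulAction.injective x h3
    have hab : a + b ≠ 0 := by
      intro h
      have hb2 : b = -a := eq_neg_of_add_eq_zero_right h
      apply hb0
      apply hηfree b _ hb
      rw [hb2, smul_neg, hxa]
    have hle : MulAction.stabilizer P (a + b) ≤ MulAction.stabilizer P a := by
      intro h hh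
      rw [MulAction.mem_stabilizer_iff] at hh ⊢
      obtain ⟨ζ, hζ, hconj⟩ := hxc h
      have hζc := hcenZ ζ hζ
      have fa : (ζ * x) • (h • a) = h • a := by
        rw [← hconj, ← mul_smul, inv_mul_cancel_right, mul_smul, hxa]
      have fb : (ζ * x * η) • (h • b) = h • b := by
        have h1 : ζ * x * η = h * (x * η) * h⁻¹ := by
          rw [← hconj]
          have h2 := hηc h⁻¹
          calc h * x * h⁻¹ * η = h * x * (h⁻¹ * η) := by group
            _ = h * x * (η * h⁻¹) := by rw [h2]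
            _ = h * (x * η) * h⁻¹ := by group
        rw [h1, ← mul_smul, inv_mul_cancel_right, mul_smul, hb]
      have hsum : h • a + h • b = a + b := by rw [← smul_add, hh]
      by_cases hζ1 : ζ = 1
      · rw [hζ1, one_mul] at fa fb
        have hw : h • a - a = b - h • b := by
          rw [sub_eq_sub_iff_add_eq_add, hsum, add_comm]
        have hw1 : x • (h • a - a) = h • a - a := by rw [smul_sub, fa, hxa]
        have hw2 : (x * η) • (h • a - a) = h • a - a := by rw [hw, smul_sub, fb, hb]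
        exact sub_eq_zero.mp (hηfree _ hw1 hw2)
      · exfalso
        have A1 : ∑ m ∈ Finset.range p, x ^ m • (h • a + h • b)
            = ∑ m ∈ Finset.range p, x ^ m • (a + b) := by rw [hsum]
        simp only [smul_add, Finset.sum_add_distrib] at A1
        have B1 : ∑ m ∈ Finset.range p, x ^ m • b = 0 := by
          have h1 := hproj (x * η) η⁻¹ ((Subgroup.zpowers z).inv_mem hη) (inv_ne_one.mpr hη1) b hb
          rwa [mul_inv_cancel_right] at h1
        have B2 : ∑ m ∈ Finset.range p, x ^ m • h • a = 0 := by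
          have h1 := hproj (ζ * x) ζ⁻¹ ((Subgroup.zpowers z).inv_mem hζ) (inv_ne_one.mpr hζ1)
            (h • a) fa
          have e1 : ζ * x * ζ⁻¹ = x := by rw [← hζc x, mul_inv_cancel_right]
          rwa [e1] at h1
        rw [B1, B2, hsame x a hxa, add_zero, zero_add] at A1
        by_cases hζη : ζ * η = 1
        · have fb' : x • (h • b) = h • b := by
            have e : ζ * x * η = x := by rw [← hζc x, mul_assoc, hζη, mul_one]
            rw [e] at fb; exact fb
          have A2 : ∑ m ∈ Finset.range p, (x * η) ^ m • (h • a + h • b)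
              = ∑ m ∈ Finset.range p, (x * η) ^ m • (a + b) := by rw [hsum]
          simp only [smul_add, Finset.sum_add_distrib] at A2
          rw [hsame (x * η) b hb, hproj x η hη hη1 a hxa, hproj x η hη hη1 (h • b) fb',
            add_zero, zero_add] at A2
          by_cases hζη2 : ζ⁻¹ * η = 1
          · have e2 : ζ = η := inv_mul_eq_one.mp hζη2
            rw [e2] at hζη
            exact hη1 (hodd η hη hζη)
          · have h1 := hproj (ζ * x) (ζ⁻¹ * η)
              ((Subgroup.zpowers z).mul_mem ((Subgroup.zpowers z).inv_mem hζ) hη) hζη2 (h • a) fa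
            have e3 : ζ * x * (ζ⁻¹ * η) = x * η := by rw [← hζc x]; group
            rw [e3] at h1
            rw [h1] at A2
            exact hb0 (cancel hp hq hpq b A2.symm (hE b))
        · have h1 := hproj (ζ * x * η) (ζ * η)⁻¹
            ((Subgroup.zpowers z).inv_mem ((Subgroup.zpowers z).mul_mem hζ hη))
            (inv_ne_one.mpr hζη) (h • b) fb
          have e2 : ζ * x * η * (ζ * η)⁻¹ = x := by
            rw [← hζc x, mul_assoc x ζ η, mul_inv_cancel_right]
          rw [e2] at h1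
          rw [h1] at A1
          exact ha0 (cancel hp hq hpq a A1.symm (hE a))
    have e := EQ (a + b) a hab ha0 hle
    have hx1 : x ∈ MulAction.stabilizer P (a + b) := by
      rw [e]; exact MulAction.mem_stabilizer_iff.mpr hxa
    rw [MulAction.mem_stabilizer_iff, smul_add, hxa] at hx1
    exact hb0 (hηfree b (add_left_cancel hx1) hb)
  have hxtriv : ∀ v : E, x • v = v := by
    intro v
    have h1 := nm_id hp x z (hcomm x) hfreem v
    have h2 : ∑ i ∈ Finset.range p, ∑ m ∈ Finset.range p, (x * z ^ i) ^ m • v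
        = ∑ m ∈ Finset.range p, x ^ m • v := by
      rw [Finset.sum_eq_single 0]
      · simp
      · intro j hj hj0
        apply hkey (z ^ j) (Subgroup.pow_mem _ (Subgroup.mem_zpowers z) j)
          (pow_ne_one_of_lt_orderOf hj0 (by rw [hord]; exact Finset.mem_range.mp hj))
        exact nm_fix p (x * z ^ j)
          (hAe _ (A.mul_mem hxA (hZA (Subgroup.pow_mem _ (Subgroup.mem_zpowers z) j)))) v
      · intro h; exact absurd (Finset.mem_range.mpr hp.pos) h
    rw [h2] at h1
    have h3 : x • (p • v) = p • v := by rw [← h1]; exact nm_fix p x hxp v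
    have h4 : p • (x • v - v) = 0 := by
      rw [nsmul_sub, ← smul_comm x p v, h3, sub_self]
    exact sub_eq_zero.mp (cancel hp hq hpq _ h4 (hE _))
  exact hxZ (by rw [htriv x hxtriv]; exact (Subgroup.zpowers z).one_mem)

end Cfsg.Agent.H1CS
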