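import Mathlib
import Cfsg.Prelude
import Cfsg.Agent.Lib_helper1_Hall
import Cfsg.Agent.Lib_helper1_SysNorm
import Cfsg.Agent.Lib_helper1_Socle

set_option autoImplicit false

namespace Cfsg.Agent.Lib_helper1_CoverAvoid

open Cfsg.Agent.Lib_helper1_Hall Cfsg.Agent.Lib_helper1_SysNorm

universe u

theorem le_sup_inf_of_coprime {G : Type*} [Group G] [Finite G] (C R X : Subgroup G) [R.Normal]
    (hCR : C ≤ R) (hcop : (C.relIndex R).Coprime X.index) : R ≤ C ⊔ (X ⊓ R) := by
  rw [← Subgroup.relIndex_eq_one]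
  have h1 : (C ⊔ (X ⊓ R)).relIndex R ∣ C.relIndex R :=
    Subgroup.relIndex_dvd_of_le_left R le_sup_left
  have h2 : (C ⊔ (X ⊓ R)).relIndex R ∣ (X ⊓ R).relIndex R :=
    Subgroup.relIndex_dvd_of_le_left R le_sup_right
  rw [Subgroup.inf_relIndex_right] at h2
  have h3 : X.relIndex R ∣ X.index := relIndex_dvd_index_of_normal_right' X R
  exact Nat.eq_one_of_dvd_coprimes hcop h1 (h2.trans h3)

/-- a system normalizer avoids a non-central minimal normal subgroup -/
theorem avoid {G : Type u} [Group G] [Finite G] [Group.IsSolvable G]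
    (K : Nat.Primes → Subgroup G)
    (hK : Cfsg.IsComplementSystem K) (B : Subgroup G) [hBn : B.Normal] (hB : B ≠ ⊥)
    (hmin : ∀ M : Subgroup G, M.Normal → M ≤ B → M = ⊥ ∨ M = B)
    (hnc : ¬ B ≤ Subgroup.center G) : B ⊓ Cfsg.systemNormalizer K = ⊥ := by
  obtain ⟨hBc, p, hp, hBp⟩ := minimal_normal_elementary B hB hmin
  haveI : Fact p.Prime := ⟨hp⟩
  have hBpg : IsPGroup p B := by
    intro b
    refine ⟨1, ?_⟩
    apply Subtype.ext
    simpa using hBp b b.2
  set C := Subgroup.centralizer (B : Set G) with hC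
  have hCtop : C ≠ ⊤ := by
    intro h
    apply hnc
    intro b hb
    rw [Subgroup.mem_center_iff]
    intro g
    have h1 : g ∈ C := h ▸ Subgroup.mem_top g
    rw [hC, Subgroup.mem_centralizer_iff] at h1
    exact (h1 b hb).symm
  haveI : Nontrivial (G ⧸ C) := QuotientGroup.nontrivial_iff.mpr hCtop
  obtain ⟨Rb, hRbn, hRb1, -, -, r, k, hr, hk, hRbcard⟩ := exists_minimal_normal (G := G ⧸ C)
  set R := Rb.comap (QuotientGroup.mk' C) with hR
  haveI : R.Normal := by
    rw [hR]
    infer_instance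
  have hCR : C ≤ R := le_comap_mk'_of_le C Rb
  have hRC : ¬ R ≤ C := by
    intro h
    apply hRb1
    rw [eq_bot_iff]
    intro x hx
    obtain ⟨y, rfl⟩ := QuotientGroup.mk'_surjective C x
    have h1 : y ∈ R := hx
    rw [Subgroup.mem_bot]
    exact (QuotientGroup.eq_one_iff y).mpr (h h1)
  have hrel : C.relIndex R = r ^ k := by
    have h1 := card_comap_mk' C Rb
    rw [← hR] at h1
    have h2 := Subgroup.card_mul_index (C.subgroupOf R)
    rw [card_subgroupOf_of_le hCR, h1, hRbcard] at h2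
    exact Nat.eq_of_mul_eq_mul_left Nat.card_pos h2
  have hB0 : B ⊓ Subgroup.centralizer (R : Set G) = ⊥ := by
    rcases hmin (B ⊓ Subgroup.centralizer (R : Set G)) inferInstance inf_le_left with h | h
    · exact h
    · exfalso
      apply hRC
      intro x hx
      rw [hC, Subgroup.mem_centralizer_iff]
      intro b hb
      have hb' : b ∈ B ⊓ Subgroup.centralizer (R : Set G) := by
        rw [h]
        exact hb
      have h1 : b ∈ Subgroup.centralizer (R : Set G) := hb'.2
      rw [Subgroup.mem_centralizer_iff] at h1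
      exact (h1 x hx).symm
  have key : ∀ X : Subgroup G, (r ^ k).Coprime X.index → ∀ b ∈ B,
      (∀ y ∈ X, y * b = b * y) → b = 1 := by
    intro X hX b hb hbX
    have h1 := le_sup_inf_of_coprime C R X hCR (hrel ▸ hX)
    have h2 : C ⊔ (X ⊓ R) ≤ Subgroup.centralizer {b} := by
      apply sup_le
      · intro c hc
        rw [Subgroup.mem_centralizer_iff]
        intro z hz
        rw [Set.mem_singleton_iff] at hz
        rw [hz]
        rw [hC, Subgroup.mem_centralizer_iff] at hc
        exact hc b hb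
      · intro y hy
        rw [Subgroup.mem_centralizer_iff]
        intro z hz
        rw [Set.mem_singleton_iff] at hz
        rw [hz]
        exact (hbX y hy.1).symm
    have h3' : b ∈ Subgroup.centralizer (R : Set G) := by
      rw [Subgroup.mem_centralizer_iff]
      intro y hy
      have h4 := h2 (h1 hy)
      rw [Subgroup.mem_centralizer_iff] at h4
      exact (h4 b rfl).symm
    have h3 : b ∈ B ⊓ Subgroup.centralizer (R : Set G) := ⟨hb, h3'⟩
    rw [hB0] at h3
    exact Subgroup.mem_bot.mp h3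
  have hrp : r ≠ p := by
    intro hrp
    obtain ⟨S, hBS⟩ := hBpg.exists_le_sylow
    haveI : Group.IsNilpotent (S : Subgroup G) := S.isPGroup'.isNilpotent
    have hne : B.subgroupOf (S : Subgroup G) ≠ ⊥ := by
      intro h
      rw [Subgroup.subgroupOf_eq_bot] at h
      apply hB
      rw [eq_bot_iff]
      intro b hb
      exact h.le_bot ⟨hb, hBS hb⟩
    have h1 := Cfsg.Agent.Lib_helper1_Socle.normal_inf_center_ne_bot _ hne
    obtain ⟨z, hz1⟩ := (Subgroup.ne_bot_iff_exists_ne_one).mp h1
    have hzB : ((z : (S : Subgroup G)) : G) ∈ B := z.2.1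
    have hzc : (z : (S : Subgroup G)) ∈ Subgroup.center (S : Subgroup G) := z.2.2
    rw [Subgroup.mem_center_iff] at hzc
    have h2 := key (S : Subgroup G) (by
      rw [hrp]
      exact Nat.Coprime.pow_left k
        ((Nat.Prime.coprime_iff_not_dvd hp).mpr S.not_dvd_index)) ((z : (S : Subgroup G)) : G)
        hzB (by
      intro y hy
      exact congrArg Subtype.val (hzc ⟨y, hy⟩))
    apply hz1
    apply Subtype.ext
    apply Subtype.ext
    simpa using h2
  rw [eq_bot_iff]
  intro x hx
  rw [Subgroup.mem_bot]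
  obtain ⟨hxB, hxD⟩ := hx
  have hxN : x ∈ Subgroup.normalizer ((K ⟨p, hp⟩ : Subgroup G) : Set G) := by
    have h1 := hxD
    unfold Cfsg.systemNormalizer at h1
    exact (Subgroup.mem_iInf.mp h1) ⟨p, hp⟩
  apply key (K ⟨p, hp⟩) _ x hxB
  · intro y hy
    have h1 : x * y * x⁻¹ ∈ K ⟨p, hp⟩ := (Subgroup.mem_normalizer_iff.mp hxN y).mp hy
    have h2 : x * y * x⁻¹ * y⁻¹ ∈ K ⟨p, hp⟩ :=
      (K ⟨p, hp⟩).mul_mem h1 ((K ⟨p, hp⟩).inv_mem hy)
    have h3 : x * y * x⁻¹ * y⁻¹ ∈ B := by
      have h5 : y * x⁻¹ * y⁻¹ ∈ B := hBn.conj_mem _ (B.inv_mem hxB) y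
      have e : x * y * x⁻¹ * y⁻¹ = x * (y * x⁻¹ * y⁻¹) := by group
      rw [e]
      exact B.mul_mem hxB h5
    have h4 : x * y * x⁻¹ * y⁻¹ = 1 := by
      have ha : orderOf (x * y * x⁻¹ * y⁻¹) ∣ p := orderOf_dvd_of_pow_eq_one (hBp _ h3)
      have hb : orderOf (x * y * x⁻¹ * y⁻¹) ∣ Nat.card (K ⟨p, hp⟩) :=
        Subgroup.orderOf_dvd_natCard _ h2
      have hc := complement_card_coprime K hK ⟨p, hp⟩
      exact orderOf_eq_one_iff.mp (Nat.eq_one_of_dvd_coprimes hc hb ha)
    calc y * x = (x * y * x⁻¹ * y⁻¹)⁻¹ * x * y := by group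
      _ = x * y := by rw [h4]; group
  · rw [hK ⟨p, hp⟩]
    exact Nat.Coprime.pow _ _ ((Nat.coprime_primes hr hp).mpr hrp)

theorem cover_avoid {G : Type u} [Group G] [Finite G] [Group.IsSolvable G]
    (K : Nat.Primes → Subgroup G)
    (hK : Cfsg.IsComplementSystem K) (A B : Subgroup G) [hAn : A.Normal] [hBn : B.Normal]
    (hAB : A < B)
    (hchief : ∀ N : Subgroup G, N.Normal → A ≤ N → N ≤ B → N = A ∨ N = B) :
    (⁅B, (⊤ : Subgroup G)⁆ ≤ A → B ≤ A ⊔ Cfsg.systemNormalizer K) ∧
    (¬ ⁅B, (⊤ : Subgroup G)⁆ ≤ A → B ⊓ Cfsg.systemNormalizer K ≤ A) := by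
  have hπs : Function.Surjective (QuotientGroup.mk' A) := QuotientGroup.mk'_surjective A
  have hKb := complementSystem_map K hK A
  have hDb := systemNormalizer_map K hK A
  constructor
  · intro hcen b hb
    have h1 : QuotientGroup.mk' A b ∈ Subgroup.center (G ⧸ A) := by
      rw [Subgroup.mem_center_iff]
      intro y
      obtain ⟨g, rfl⟩ := hπs y
      have h2 : b * g * b⁻¹ * g⁻¹ ∈ A := by
        have h2' := hcen (Subgroup.commutator_mem_commutator hb (Subgroup.mem_top g))
        rw [commutatorElement_def] at h2'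
        exact h2'
      have h3 : QuotientGroup.mk' A (b * g * b⁻¹ * g⁻¹) = 1 := (QuotientGroup.eq_one_iff _).mpr h2
      rw [map_mul, map_mul, map_mul, map_inv, map_inv] at h3
      generalize QuotientGroup.mk' A b = u at h3 ⊢
      generalize QuotientGroup.mk' A g = v at h3 ⊢
      calc v * u = (u * v * u⁻¹ * v⁻¹)⁻¹ * (u * v) := by group
        _ = u * v := by rw [h3]; group
    have h4 : QuotientGroup.mk' A b ∈
        Cfsg.systemNormalizer (fun p => (K p).map (QuotientGroup.mk' A)) := by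
      unfold Cfsg.systemNormalizer
      rw [Subgroup.mem_iInf]
      intro p
      rw [Subgroup.mem_normalizer_iff]
      intro h
      rw [Subgroup.mem_center_iff] at h1
      rw [← h1 h, mul_inv_cancel_right]
    rw [hDb] at h4
    obtain ⟨d, hd, hdb⟩ := h4
    have h5 : d⁻¹ * b ∈ A := QuotientGroup.eq.mp hdb
    have e : b = d * (d⁻¹ * b) := by group
    rw [e]
    exact Subgroup.mul_mem _ (Subgroup.mem_sup_right hd) (Subgroup.mem_sup_left h5)
  · intro hnc x hx
    have hker : (QuotientGroup.mk' A).ker = A := QuotientGroup.ker_mk' A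
    have hBb_ne : B.map (QuotientGroup.mk' A) ≠ ⊥ := by
      intro h
      rw [Subgroup.map_eq_bot_iff, hker] at h
      exact (not_le_of_gt hAB) h
    haveI : (B.map (QuotientGroup.mk' A)).Normal := Subgroup.Normal.map hBn _ hπs
    have hmin : ∀ M : Subgroup (G ⧸ A), M.Normal → M ≤ B.map (QuotientGroup.mk' A) →
        M = ⊥ ∨ M = B.map (QuotientGroup.mk' A) := by
      intro M hM hMB
      haveI := hM
      have h1 : M.comap (QuotientGroup.mk' A) ≤ B := by
        have h2 := Subgroup.comap_mono (f := QuotientGroup.mk' A) hMB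
        rw [Subgroup.comap_map_eq, hker, sup_eq_left.mpr hAB.le] at h2
        exact h2
      have h3 : M = (M.comap (QuotientGroup.mk' A)).map (QuotientGroup.mk' A) :=
        (Subgroup.map_comap_eq_self_of_surjective hπs M).symm
      rcases hchief (M.comap (QuotientGroup.mk' A)) inferInstance (le_comap_mk'_of_le A M) h1
        with h | h
      · left
        rw [h3, h, Subgroup.map_eq_bot_iff, hker]
      · right
        rw [h3, h]
    have hncb : ¬ B.map (QuotientGroup.mk' A) ≤ Subgroup.center (G ⧸ A) := by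
      intro h
      apply hnc
      rw [Subgroup.commutator_le]
      intro b hb g _
      rw [commutatorElement_def, ← QuotientGroup.eq_one_iff]
      have h1 := h (Subgroup.mem_map_of_mem (QuotientGroup.mk' A) hb)
      rw [Subgroup.mem_center_iff] at h1
      have h2 := h1 (QuotientGroup.mk' A g)
      have h3 : ((b * g * b⁻¹ * g⁻¹ : G) : G ⧸ A) =
          QuotientGroup.mk' A b * QuotientGroup.mk' A g * (QuotientGroup.mk' A b)⁻¹ *
            (QuotientGroup.mk' A g)⁻¹ := rfl
      rw [h3, ← h2]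
      group
    have h1 := avoid (fun p => (K p).map (QuotientGroup.mk' A)) hKb
      (B.map (QuotientGroup.mk' A)) hBb_ne hmin hncb
    have h2 : QuotientGroup.mk' A x ∈ B.map (QuotientGroup.mk' A) ⊓
        Cfsg.systemNormalizer (fun p => (K p).map (QuotientGroup.mk' A)) := by
      rw [hDb]
      exact ⟨Subgroup.mem_map_of_mem _ hx.1, Subgroup.mem_map_of_mem _ hx.2⟩
    rw [h1] at h2
    exact (QuotientGroup.eq_one_iff x).mp (Subgroup.mem_bot.mp h2)

end Cfsg.Agent.Lib_helper1_CoverAvoid
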