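import Cfsg.Agent.Lib_helper1_SS
import Cfsg.Agent.Lib_helper1_Basic
import Cfsg.Agent.Lib_helper1_Hall
import Cfsg.Agent.Lib_helper1_Coprime
import Cfsg.Agent.Lib_helper1_ProdCard

set_option autoImplicit false

namespace Cfsg.Agent.Lib_helper1_CycProd

open Cfsg.Agent Cfsg.Agent.Lib_helper1_Basic
open scoped Pointwise

universe u

/-- In a finite cyclic subgroup, subgroups of equal order coincide. -/
theorem cyclic_unique {G : Type*} [Group G] [Finite G] (A : Subgroup G) [IsCyclic A]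
    (D₁ D₂ : Subgroup G) (h₁ : D₁ ≤ A) (h₂ : D₂ ≤ A) (hc : Nat.card D₁ = Nat.card D₂) :
    D₁ = D₂ := by
  classical
  haveI : Fintype A := Fintype.ofFinite A
  have hm : 0 < Nat.card D₁ := Nat.card_pos
  have hS := IsCyclic.card_pow_eq_one_le (α := A) hm
  have key : ∀ D : Subgroup G, D ≤ A → Nat.card D = Nat.card D₁ →
      ((D.subgroupOf A : Subgroup A) : Set A) =
        ((Finset.univ.filter (fun a : A => a ^ Nat.card D₁ = 1) : Finset A) : Set A) := by
    intro D hD hcard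
    apply Set.eq_of_subset_of_ncard_le
    · intro x hx
      rw [SetLike.mem_coe, Subgroup.mem_subgroupOf] at hx
      rw [Finset.mem_coe, Finset.mem_filter]
      refine ⟨Finset.mem_univ _, ?_⟩
      apply Subtype.ext
      rw [Subgroup.coe_pow, Subgroup.coe_one, ← hcard]
      have h5 : (⟨(x : G), hx⟩ : D) ^ Nat.card D = 1 := pow_card_eq_one'
      have h6 := congrArg Subtype.val h5
      rw [Subgroup.coe_pow, Subgroup.coe_one] at h6
      exact h6
    · rw [Set.ncard_coe_finset]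
      refine hS.trans ?_
      rw [← Nat.card_coe_set_eq]
      show Nat.card D₁ ≤ Nat.card (D.subgroupOf A)
      rw [Lib_helper1_Hall.card_subgroupOf_of_le hD, hcard]
    · exact Set.toFinite _
  have e : D₁.subgroupOf A = D₂.subgroupOf A :=
    SetLike.coe_injective ((key D₁ h₁ rfl).trans (key D₂ h₂ hc.symm).symm)
  rw [← Subgroup.map_subgroupOf_eq_of_le h₁, e, Subgroup.map_subgroupOf_eq_of_le h₂]

theorem core_lemma {G : Type*} [Group G] [Finite G] [Nontrivial G] (A B : Subgroup G)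
    [IsCyclic A] [IsCyclic B]
    (hAB : ∀ g : G, ∃ a ∈ A, ∃ b ∈ B, g = a * b) (hle : Nat.card B ≤ Nat.card A) :
    ∃ D : Subgroup G, D.Normal ∧ D ≠ ⊥ ∧ D ≤ A := by
  classical
  obtain ⟨b₀, hb₀⟩ := IsCyclic.exists_generator (α := B)
  have hBgen : ∀ x ∈ B, ∃ k : ℤ, (b₀ : G) ^ k = x := by
    intro x hx
    obtain ⟨k, hk⟩ := Subgroup.mem_zpowers_iff.mp (hb₀ ⟨x, hx⟩)
    exact ⟨k, by have := congrArg Subtype.val hk; simpa using this⟩
  refine ⟨A ⊓ MulAut.conj (b₀ : G) • A, ?_, ?_, inf_le_left⟩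
  · have h1 : MulAut.conj (b₀ : G)⁻¹ • (A ⊓ MulAut.conj (b₀ : G) • A) ≤ A := by
      intro u hu
      rw [mem_conj_smul] at hu
      have := (Subgroup.mem_inf.mp hu).2
      rw [mem_conj_smul] at this
      simpa [mul_assoc] using this
    have h2 : MulAut.conj (b₀ : G)⁻¹ • (A ⊓ MulAut.conj (b₀ : G) • A) =
        A ⊓ MulAut.conj (b₀ : G) • A :=
      cyclic_unique A _ _ h1 inf_le_left (Lib_helper1_Hall.card_conj_smul _ _)
    have hbN := Lib_helper1_Coprime.mem_normalizer_of_conj_smul_eq _ _ h2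
    have hbN' : (b₀ : G) ∈ Subgroup.normalizer
        ((A ⊓ MulAut.conj (b₀ : G) • A : Subgroup G) : Set G) := by
      have := Subgroup.inv_mem _ hbN
      simpa using this
    have hAN : A ≤ Subgroup.normalizer ((A ⊓ MulAut.conj (b₀ : G) • A : Subgroup G) : Set G) := by
      intro a ha
      apply mem_normalizer_of_conj_le
      intro d hd
      have e : a * d * a⁻¹ = d := by
        rw [setLike_mul_comm ha hd.1, mul_inv_cancel_right]
      rw [e]; exact hd
    apply Subgroup.normalizer_eq_top_iff.mp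
    rw [eq_top_iff]
    intro g _
    obtain ⟨a, ha, b, hb, rfl⟩ := hAB g
    obtain ⟨k, rfl⟩ := hBgen b hb
    exact Subgroup.mul_mem _ (hAN ha) (Subgroup.zpow_mem _ hbN' k)
  · intro hD
    have c1 := Lib_helper1_ProdCard.card_mul_set A (MulAut.conj (b₀ : G) • A)
    rw [hD, Subgroup.card_bot, mul_one, Lib_helper1_Hall.card_conj_smul] at c1
    have c2 := Lib_helper1_ProdCard.card_mul_set A B
    have hABuniv : ((A : Set G) * (B : Set G) : Set G) = Set.univ := by
      rw [Set.eq_univ_iff_forall]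
      intro g
      obtain ⟨a, ha, b, hb, rfl⟩ := hAB g
      exact Set.mul_mem_mul ha hb
    rw [hABuniv, Nat.card_univ] at c2
    have hpos : 0 < Nat.card (A ⊓ B : Subgroup G) := Nat.card_pos
    have hG : Nat.card G ≤ Nat.card A * Nat.card A := by
      calc Nat.card G ≤ Nat.card G * Nat.card (A ⊓ B : Subgroup G) := Nat.le_mul_of_pos_right _ hpos
        _ = Nat.card A * Nat.card B := c2
        _ ≤ Nat.card A * Nat.card A := Nat.mul_le_mul_left _ hle
    have huniv : ((A : Set G) * ((MulAut.conj (b₀ : G) • A : Subgroup G) : Set G) : Set G) =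
        Set.univ := by
      apply Set.eq_of_subset_of_ncard_le (Set.subset_univ _) _ (Set.toFinite _)
      rw [Set.ncard_univ, ← Nat.card_coe_set_eq, c1]
      exact hG
    have hb : (b₀ : G)⁻¹ ∈ ((A : Set G) * ((MulAut.conj (b₀ : G) • A : Subgroup G) : Set G) :
        Set G) := by rw [huniv]; exact Set.mem_univ _
    rw [Set.mem_mul] at hb
    obtain ⟨a₁, ha₁, c, hc, e⟩ := hb
    rw [SetLike.mem_coe, mem_conj_smul] at hc
    have hc' : c = a₁⁻¹ * (b₀ : G)⁻¹ := by rw [← e]; group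
    rw [hc'] at hc
    have hbA : (b₀ : G) ∈ A := by
      have h3 := A.mul_mem hc ha₁
      have e2 : (b₀ : G)⁻¹ * (a₁⁻¹ * (b₀ : G)⁻¹) * (b₀ : G) * a₁ = (b₀ : G)⁻¹ := by group
      rw [e2] at h3
      simpa using A.inv_mem h3
    have hAD : A ≤ A ⊓ MulAut.conj (b₀ : G) • A := by
      intro u hu
      refine Subgroup.mem_inf.mpr ⟨hu, ?_⟩
      rw [mem_conj_smul]
      exact A.mul_mem (A.mul_mem (A.inv_mem hbA) hu) hbA
    rw [hD, le_bot_iff] at hAD
    rw [hAD, Subgroup.card_bot] at hG hle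
    have := Finite.one_lt_card (α := G)
    omega

theorem aux (n : ℕ) : ∀ (G : Type u) [Group G] [Finite G] (A B : Subgroup G) [IsCyclic A]
    [IsCyclic B], Nat.card G = n → (∀ g : G, ∃ a ∈ A, ∃ b ∈ B, g = a * b) →
    Cfsg.IsSupersolvable G := by
  induction n using Nat.strong_induction_on with
  | _ n ih =>
  intro G _ _ A B _ _ hn hAB
  by_cases htriv : Subsingleton G
  · exact Lib_helper1_SS.ss_of_subsingleton
  haveI : Nontrivial G := not_subsingleton_iff_nontrivial.mp htriv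
  obtain ⟨D, hDn, hD1, hDcyc⟩ : ∃ D : Subgroup G, D.Normal ∧ D ≠ ⊥ ∧ IsCyclic D := by
    rcases le_total (Nat.card B) (Nat.card A) with hle | hle
    · obtain ⟨D, h1, h2, h3⟩ := core_lemma A B hAB hle
      exact ⟨D, h1, h2, Subgroup.isCyclic_of_le h3⟩
    · have hBA : ∀ g : G, ∃ b ∈ B, ∃ a ∈ A, g = b * a := by
        intro g
        obtain ⟨a, ha, b, hb, e⟩ := hAB g⁻¹
        exact ⟨b⁻¹, B.inv_mem hb, a⁻¹, A.inv_mem ha, by rw [← mul_inv_rev, ← e, inv_inv]⟩
      obtain ⟨D, h1, h2, h3⟩ := core_lemma B A hBA hle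
      exact ⟨D, h1, h2, Subgroup.isCyclic_of_le h3⟩
  haveI := hDn
  haveI := hDcyc
  apply Lib_helper1_SS.ss_of_cyclic_quotient D
  have hlt : Nat.card (G ⧸ D) < n := hn ▸ Lib_helper1_SS.card_quotient_lt D hD1
  haveI : IsCyclic (A.map (QuotientGroup.mk' D)) :=
    isCyclic_of_surjective ((QuotientGroup.mk' D).subgroupMap A)
      ((QuotientGroup.mk' D).subgroupMap_surjective A)
  haveI : IsCyclic (B.map (QuotientGroup.mk' D)) :=
    isCyclic_of_surjective ((QuotientGroup.mk' D).subgroupMap B)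
      ((QuotientGroup.mk' D).subgroupMap_surjective B)
  apply ih _ hlt (G ⧸ D) (A.map (QuotientGroup.mk' D)) (B.map (QuotientGroup.mk' D)) rfl
  intro x
  obtain ⟨g, rfl⟩ := QuotientGroup.mk'_surjective D x
  obtain ⟨a, ha, b, hb, rfl⟩ := hAB g
  exact ⟨_, Subgroup.mem_map_of_mem _ ha, _, Subgroup.mem_map_of_mem _ hb, map_mul _ _ _⟩

end Cfsg.Agent.Lib_helper1_CycProd
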