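import Mathlib

set_option autoImplicit false

namespace Cfsg.Agent.Lib_helper1_DerCyc

/-- If `B/C` is cyclic (with `B`, `C` normal in `G`), then `G'` acts trivially on `B/C`. -/
theorem comm_mem_of_cyclic {G : Type*} [Group G] (B C : Subgroup G) [B.Normal] [C.Normal]
    (h₂ : IsCyclic (B ⧸ C.subgroupOf B)) :
    ∀ x ∈ commutator G, ∀ w ∈ B, x * w * x⁻¹ * w⁻¹ ∈ C := by
  have hpre : ∀ g : G, C.subgroupOf B ≤ (C.subgroupOf B).comap (MulAut.conjNormal g : B ≃* B).toMonoidHom := by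
    intro g y hy
    rw [Subgroup.mem_comap, Subgroup.mem_subgroupOf]
    rw [Subgroup.mem_subgroupOf] at hy
    show ((MulAut.conjNormal g y : B) : G) ∈ C
    rw [MulAut.conjNormal_apply]
    exact ‹C.Normal›.conj_mem _ hy g
  have hpow : ∀ g : G, ∃ m : ℤ, ∀ w : B,
      (QuotientGroup.mk (MulAut.conjNormal g w) : B ⧸ C.subgroupOf B) = (QuotientGroup.mk w) ^ m := by
    intro g
    obtain ⟨m, hm⟩ := MonoidHom.map_cyclic
      (QuotientGroup.map (C.subgroupOf B) (C.subgroupOf B) (MulAut.conjNormal g : B ≃* B).toMonoidHom (hpre g))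
    refine ⟨m, fun w => ?_⟩
    have := hm (QuotientGroup.mk w)
    rw [QuotientGroup.map_mk] at this
    exact this
  have hcomm : ∀ g1 g2 : G, ∀ w : B,
      (QuotientGroup.mk (MulAut.conjNormal (g1 * g2) w) : B ⧸ C.subgroupOf B) =
        QuotientGroup.mk (MulAut.conjNormal (g2 * g1) w) := by
    intro g1 g2 w
    obtain ⟨m1, hm1⟩ := hpow g1
    obtain ⟨m2, hm2⟩ := hpow g2
    rw [map_mul, map_mul, MulAut.mul_apply, MulAut.mul_apply, hm1, hm2, hm2, hm1,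
      ← zpow_mul, ← zpow_mul, mul_comm]
  have hbase : ∀ g1 g2 : G, ∀ w ∈ B, (g1 * g2 * g1⁻¹ * g2⁻¹) * w * (g1 * g2 * g1⁻¹ * g2⁻¹)⁻¹ * w⁻¹ ∈ C := by
    intro g1 g2 w hw
    have hw' : (g2 * g1)⁻¹ * w⁻¹ * (g2 * g1) ∈ B := by
      have := ‹B.Normal›.conj_mem _ (B.inv_mem hw) (g2 * g1)⁻¹
      simpa using this
    have h1 := hcomm g1 g2 ⟨_, hw'⟩
    have h2 := QuotientGroup.eq.mp h1
    rw [Subgroup.mem_subgroupOf] at h2
    simp only [Subgroup.coe_mul, Subgroup.coe_inv, MulAut.conjNormal_apply] at h2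
    have e : (g1 * g2 * g1⁻¹ * g2⁻¹) * w * (g1 * g2 * g1⁻¹ * g2⁻¹)⁻¹ * w⁻¹ =
        (g1 * g2 * ((g2 * g1)⁻¹ * w⁻¹ * (g2 * g1)) * (g1 * g2)⁻¹)⁻¹ *
          (g2 * g1 * ((g2 * g1)⁻¹ * w⁻¹ * (g2 * g1)) * (g2 * g1)⁻¹) := by group
    rw [e]; exact h2
  intro x hx
  rw [commutator_def, Subgroup.commutator_def] at hx
  induction hx using Subgroup.closure_induction with
  | mem z hz =>
    obtain ⟨g1, -, g2, -, rfl⟩ := hz
    intro w hw
    rw [commutatorElement_def]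
    exact hbase g1 g2 w hw
  | one =>
    intro w hw
    simp
  | mul a b _ _ iha ihb =>
    intro w hw
    have e : a * b * w * (a * b)⁻¹ * w⁻¹ = a * (b * w * b⁻¹ * w⁻¹) * a⁻¹ * (a * w * a⁻¹ * w⁻¹) := by
      group
    rw [e]
    exact C.mul_mem (‹C.Normal›.conj_mem _ (ihb w hw) a) (iha w hw)
  | inv a _ iha =>
    intro w hw
    have e : a⁻¹ * w * a⁻¹⁻¹ * w⁻¹ = (a⁻¹ * (a * w * a⁻¹ * w⁻¹) * a⁻¹⁻¹)⁻¹ := by group
    rw [e]
    exact C.inv_mem (‹C.Normal›.conj_mem _ (iha w hw) a⁻¹)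

theorem derived_cyclic {G : Type*} [Group G] (A B C : Subgroup G) [B.Normal] [C.Normal]
    (hAG : A ≤ commutator G) (hB : ⁅A, A⁆ = B) (hC : ⁅B, B⁆ ≤ C)
    (h₁ : IsCyclic (A ⧸ B.subgroupOf A)) (h₂ : IsCyclic (B ⧸ C.subgroupOf B)) : B ≤ C := by
  have hcent := comm_mem_of_cyclic B C h₂
  obtain ⟨γ, hγ⟩ := IsCyclic.exists_generator (α := A ⧸ B.subgroupOf A)
  obtain ⟨a0, rfl⟩ := QuotientGroup.mk_surjective γ
  have hdec : ∀ x ∈ A, ∃ n : ℤ, ∃ b ∈ B, x = (a0 : G) ^ n * b := by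
    intro x hx
    obtain ⟨n, hn⟩ := Subgroup.mem_zpowers_iff.mp (hγ (QuotientGroup.mk ⟨x, hx⟩))
    refine ⟨n, ((a0 : G) ^ n)⁻¹ * x, ?_, by group⟩
    rw [← QuotientGroup.mk_zpow] at hn
    have := QuotientGroup.eq.mp hn
    rw [Subgroup.mem_subgroupOf] at this
    simpa using this
  -- commutation mod C
  have hc1 : ∀ x ∈ A, ∀ b ∈ B, (QuotientGroup.mk' C x) * (QuotientGroup.mk' C b) =
      (QuotientGroup.mk' C b) * (QuotientGroup.mk' C x) := by
    intro x hx b hb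
    have h := hcent x (hAG hx) b hb
    have h1 : QuotientGroup.mk' C (x * b * x⁻¹ * b⁻¹) = 1 := (QuotientGroup.eq_one_iff _).mpr h
    rw [map_mul, map_mul, map_mul, map_inv, map_inv] at h1
    have h2 := mul_inv_eq_one.mp h1
    exact mul_inv_eq_iff_eq_mul.mp h2
  have hc2 : ∀ b ∈ B, ∀ b' ∈ B, (QuotientGroup.mk' C b) * (QuotientGroup.mk' C b') =
      (QuotientGroup.mk' C b') * (QuotientGroup.mk' C b) := by
    intro b hb b' hb'
    have h : b * b' * b⁻¹ * b'⁻¹ ∈ C := by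
      apply hC
      have := Subgroup.commutator_mem_commutator hb hb'
      rwa [commutatorElement_def] at this
    have h1 : QuotientGroup.mk' C (b * b' * b⁻¹ * b'⁻¹) = 1 := (QuotientGroup.eq_one_iff _).mpr h
    rw [map_mul, map_mul, map_mul, map_inv, map_inv] at h1
    have h2 := mul_inv_eq_one.mp h1
    exact mul_inv_eq_iff_eq_mul.mp h2
  rw [← hB, Subgroup.commutator_le]
  intro x hx x' hx'
  obtain ⟨n, b, hb, rfl⟩ := hdec x hx
  obtain ⟨m, b', hb', rfl⟩ := hdec x' hx'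
  rw [commutatorElement_def]
  rw [← QuotientGroup.eq_one_iff, ← QuotientGroup.mk'_apply]
  have han : (a0 : G) ^ n ∈ A := zpow_mem a0.2 n
  have ham : (a0 : G) ^ m ∈ A := zpow_mem a0.2 m
  have e1 := hc1 _ han b' hb'
  have e2 := hc1 _ ham b hb
  have e3 := hc2 b hb b' hb'
  have e4 : (QuotientGroup.mk' C ((a0 : G) ^ n)) * (QuotientGroup.mk' C ((a0 : G) ^ m)) =
      (QuotientGroup.mk' C ((a0 : G) ^ m)) * (QuotientGroup.mk' C ((a0 : G) ^ n)) := by
    rw [← map_mul, ← map_mul, ← zpow_add, ← zpow_add, add_comm]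
  simp only [map_mul, map_inv]
  generalize (QuotientGroup.mk' C) ((a0 : G) ^ n) = u at e1 e4 ⊢
  generalize (QuotientGroup.mk' C) ((a0 : G) ^ m) = u' at e2 e4 ⊢
  generalize (QuotientGroup.mk' C) b = v at e1 e2 e3 ⊢
  generalize (QuotientGroup.mk' C) b' = v' at e1 e2 e3 ⊢
  rw [mul_inv_eq_one, mul_inv_eq_iff_eq_mul]
  calc u * v * (u' * v') = u * (u' * v) * v' := by rw [e2]; group
    _ = (u * u') * (v * v') := by group
    _ = (u' * u) * (v' * v) := by rw [e4, e3]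
    _ = u' * (u * v') * v := by group
    _ = u' * (v' * u) * v := by rw [e1]
    _ = u' * v' * (u * v) := by group

end Cfsg.Agent.Lib_helper1_DerCyc
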