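import Mathlib

set_option autoImplicit false

namespace Cfsg.Agent.Lib_helper1_Eigen

open Finset

/-- projection identities in an algebra over `ZMod q` -/
theorem proj_identities (q : ℕ) [Fact q.Prime] {R : Type*} [Ring R] [Algebra (ZMod q) R] (f : R)
    (hf : f ^ (q - 1) = 1) :
    (∀ l : (ZMod q)ˣ, (l : ZMod q) • (f * ∑ i ∈ range (q - 1), ((l : ZMod q) ^ i) • f ^ i) =
        ∑ i ∈ range (q - 1), ((l : ZMod q) ^ i) • f ^ i) ∧
      ∑ l : (ZMod q)ˣ, ∑ i ∈ range (q - 1), ((l : ZMod q) ^ i) • f ^ i = -1 := by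
  classical
  have hq : q.Prime := Fact.out
  have hq1 : 0 < q - 1 := Nat.sub_pos_of_lt hq.one_lt
  constructor
  · intro l
    have h1 : (l : ZMod q) • (f * ∑ i ∈ range (q - 1), ((l : ZMod q) ^ i) • f ^ i) =
        ∑ i ∈ range (q - 1), ((l : ZMod q) ^ (i + 1)) • f ^ (i + 1) := by
      rw [Finset.mul_sum, Finset.smul_sum]
      apply Finset.sum_congr rfl
      intro i _
      rw [mul_smul_comm, smul_smul, ← pow_succ', ← pow_succ']
    rw [h1]
    have h2 := Finset.sum_range_succ' (fun j => ((l : ZMod q) ^ j) • f ^ j) (q - 1)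
    have h3 := Finset.sum_range_succ (fun j => ((l : ZMod q) ^ j) • f ^ j) (q - 1)
    rw [h3] at h2
    have h4 : ((l : ZMod q) ^ (q - 1)) • f ^ (q - 1) = (1 : R) := by
      have : (l : ZMod q) ^ (q - 1) = 1 := by
        have := ZMod.units_pow_card_sub_one_eq_one q l
        rw [← Units.val_pow_eq_pow_val, this, Units.val_one]
      rw [this, hf, one_smul]
    have h5 : ((l : ZMod q) ^ 0) • f ^ 0 = (1 : R) := by simp
    rw [h4, h5] at h2
    exact (add_right_cancel h2).symm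
  · rw [Finset.sum_comm]
    have h1 : ∀ i ∈ range (q - 1), ∑ l : (ZMod q)ˣ, ((l : ZMod q) ^ i) • f ^ i =
        (if i = 0 then (-1 : ZMod q) else 0) • f ^ i := by
      intro i hi
      rw [← Finset.sum_smul, FiniteField.sum_pow_units (ZMod q) i, ZMod.card]
      congr 1
      have hi' : i < q - 1 := Finset.mem_range.mp hi
      by_cases h0 : i = 0
      · subst h0; simp
      · rw [if_neg h0, if_neg]
        intro hd
        exact absurd (Nat.le_of_dvd (Nat.pos_of_ne_zero h0) hd) (not_le.mpr hi')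
    rw [Finset.sum_congr rfl h1, Finset.sum_eq_single 0]
    · simp
    · intro i _ hi0
      rw [if_neg hi0, zero_smul]
    · intro h0
      exact absurd (Finset.mem_range.mpr hq1) h0

section
variable {q : ℕ} [Fact q.Prime] {V : Type*} [AddCommGroup V] [Module (ZMod q) V]

theorem core_add (φ : V →+ V) (hφ : ∀ v, φ^[q - 1] v = v) (v₀ : V) (hv₀ : v₀ ≠ 0) :
    ∃ w : V, w ≠ 0 ∧ ∃ μ : ℕ, φ w = μ • w := by
  classical
  have hf : (AddMonoidHom.toZModLinearMap q φ : Module.End (ZMod q) V) ^ (q - 1) = 1 := by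
    apply LinearMap.ext
    intro v
    rw [Module.End.pow_apply]
    exact hφ v
  obtain ⟨h1, h2⟩ := proj_identities q (AddMonoidHom.toZModLinearMap q φ : Module.End (ZMod q) V) hf
  have hex : ∃ l : (ZMod q)ˣ,
      (∑ i ∈ range (q - 1), ((l : ZMod q) ^ i) •
        (AddMonoidHom.toZModLinearMap q φ : Module.End (ZMod q) V) ^ i) v₀ ≠ 0 := by
    by_contra hcon
    push Not at hcon
    have h3 := congrArg (fun T : Module.End (ZMod q) V => T v₀) h2
    simp only [LinearMap.sum_apply] at h3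
    rw [Finset.sum_eq_zero (fun l _ => by simpa [LinearMap.sum_apply] using hcon l)] at h3
    have h4 : (-1 : Module.End (ZMod q) V) v₀ = - v₀ := by simp
    rw [h4] at h3
    exact hv₀ (neg_eq_zero.mp h3.symm)
  obtain ⟨l, hl⟩ := hex
  have h5 := congrArg (fun T : Module.End (ZMod q) V => T v₀) (h1 l)
  simp only [LinearMap.smul_apply, Module.End.mul_apply] at h5
  obtain ⟨w, hw⟩ : ∃ w : V,
      w = (∑ i ∈ range (q - 1), ((l : ZMod q) ^ i) •
        (AddMonoidHom.toZModLinearMap q φ : Module.End (ZMod q) V) ^ i) v₀ :=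
    ⟨_, rfl⟩
  rw [← hw] at h5 hl
  have h5' : (l : ZMod q) • φ w = w := h5
  have h6 : φ w = ((l⁻¹ : (ZMod q)ˣ) : ZMod q) • w := by
    have : φ w = (l⁻¹ : (ZMod q)ˣ) • w := eq_inv_smul_iff.mpr (by rw [Units.smul_def]; exact h5')
    rw [this, Units.smul_def]
  refine ⟨w, hl, (((l⁻¹ : (ZMod q)ˣ) : ZMod q).val), ?_⟩
  rw [h6, ← Nat.cast_smul_eq_nsmul (ZMod q), ZMod.natCast_zmod_val]

end

theorem exists_eigen_add {V : Type*} [AddCommGroup V] (q : ℕ) [Fact q.Prime]
    (hq : ∀ v : V, q • v = 0) (φ : V →+ V) (hφ : ∀ v, φ^[q - 1] v = v) (v₀ : V) (hv₀ : v₀ ≠ 0) :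
    ∃ w : V, w ≠ 0 ∧ ∃ μ : ℕ, φ w = μ • w :=
  @core_add q _ V _ (AddCommGroup.zmodModule hq) φ hφ v₀ hv₀

open scoped IsMulCommutative in
theorem exists_eigen {G : Type*} [Group G] (q : ℕ) [Fact q.Prime] (N : Subgroup G) [hNn : N.Normal]
    [IsMulCommutative N] (hN1 : N ≠ ⊥) (hNq : ∀ x ∈ N, x ^ q = 1) (g : G)
    (hg : ∀ y ∈ N, g ^ (q - 1) * y = y * g ^ (q - 1)) :
    ∃ w ∈ N, w ≠ 1 ∧ ∃ μ : ℕ, g * w * g⁻¹ = w ^ μ := by
  classical
  have hqV : ∀ v : Additive ↥N, q • v = 0 := by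
    intro v
    apply Additive.toMul.injective
    show (Additive.toMul v) ^ q = 1
    exact Subtype.ext (hNq _ (Additive.toMul v).2)
  have hfk : ∀ (k : ℕ) (v : Additive ↥N),
      (MonoidHom.toAdditive (MulAut.conjNormal g : ↥N ≃* ↥N).toMonoidHom)^[k] v =
      Additive.ofMul (MulAut.conjNormal (g ^ k) (Additive.toMul v)) := by
    intro k
    induction k with
    | zero =>
      intro v
      rw [pow_zero, map_one]; rfl
    | succ k ih =>
      intro v
      rw [Function.iterate_succ_apply', ih, pow_succ', map_mul]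
      rfl
  have hφ : ∀ v : Additive ↥N,
      (MonoidHom.toAdditive (MulAut.conjNormal g : ↥N ≃* ↥N).toMonoidHom)^[q - 1] v = v := by
    intro v
    rw [hfk]
    have : MulAut.conjNormal (g ^ (q - 1)) (Additive.toMul v) = Additive.toMul v := by
      apply Subtype.ext
      rw [MulAut.conjNormal_apply, hg _ (Additive.toMul v).2, mul_inv_cancel_right]
    rw [this]; rfl
  obtain ⟨x, hxN, hx1⟩ : ∃ x ∈ N, x ≠ 1 := by
    by_contra hcon
    push Not at hcon
    exact hN1 ((Subgroup.eq_bot_iff_forall N).mpr hcon)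
  have hv0 : Additive.ofMul (⟨x, hxN⟩ : ↥N) ≠ 0 := by
    intro h0
    apply hx1
    have : (⟨x, hxN⟩ : ↥N) = 1 := Additive.ofMul.injective h0
    exact congrArg Subtype.val this
  obtain ⟨w, hw0, μ, hμ⟩ := exists_eigen_add q hqV
    (MonoidHom.toAdditive (MulAut.conjNormal g : ↥N ≃* ↥N).toMonoidHom) hφ _ hv0
  refine ⟨(Additive.toMul w : ↥N), (Additive.toMul w).2, ?_, μ, ?_⟩
  · intro h0
    apply hw0
    have : Additive.toMul w = (1 : ↥N) := Subtype.ext h0
    exact Additive.toMul.injective this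
  · have h8 : MulAut.conjNormal g (Additive.toMul w) = (Additive.toMul w) ^ μ :=
      congrArg Additive.toMul hμ
    have h9 := congrArg Subtype.val h8
    rw [MulAut.conjNormal_apply] at h9
    exact h9

end Cfsg.Agent.Lib_helper1_Eigen
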