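import Mathlib
import Cfsg.Agent.Lib_helper1_Basic
import Cfsg.Agent.Lib_helper1_Hall
import Cfsg.Agent.Lib_helper1_Carter

set_option autoImplicit false

universe u

namespace Cfsg.Agent.Lib_helper1_FocalHall

open scoped commutatorElement Pointwise

/-- For a Hall subgroup `H`, the kernel of the transfer into `H/H*` meets `H` in the focal
subgroup, and has the expected order. -/
theorem hall_ker {G : Type*} [Group G] [Finite G] (H : Subgroup G)
    (hHall : (Nat.card H).Coprime H.index) :
    H.transferFocal.ker ⊓ H = H.focalSubgroup ∧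
      Nat.card H.transferFocal.ker * Nat.card H = Nat.card G * Nat.card H.focalSubgroup := by
  have hQdvd : Nat.card (H ⧸ H.focalSubgroupOf) ∣ Nat.card H := Subgroup.card_quotient_dvd_card _
  have hQcop : (Nat.card (H ⧸ H.focalSubgroupOf)).Coprime H.index :=
    Nat.Coprime.coprime_dvd_left hQdvd hHall
  have hV : ∀ x : H, H.transferFocal x = (powCoprime hQcop) (QuotientGroup.mk x) := by
    intro x
    rw [Subgroup.transferFocal_eq_pow]
    rfl
  constructor
  · ext g
    rw [Subgroup.mem_inf]
    constructor
    · rintro ⟨hg1, hg2⟩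
      rw [MonoidHom.mem_ker] at hg1
      have h1 := hV ⟨g, hg2⟩
      rw [hg1] at h1
      have h2 : (powCoprime hQcop) (1 : H ⧸ H.focalSubgroupOf) = 1 := by
        simp [powCoprime]
      rw [← h2] at h1
      have h3 := (powCoprime hQcop).injective h1
      have h4 : (⟨g, hg2⟩ : H) ∈ H.focalSubgroupOf := (QuotientGroup.eq_one_iff _).mp h3.symm
      rw [Subgroup.focalSubgroupOf_def, Subgroup.mem_subgroupOf] at h4
      exact h4
    · intro hg
      have hg2 : g ∈ H := Subgroup.focalSubgroup_le H hg
      refine ⟨?_, hg2⟩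
      rw [MonoidHom.mem_ker]
      have h1 := hV ⟨g, hg2⟩
      have h4 : (⟨g, hg2⟩ : H) ∈ H.focalSubgroupOf := by
        rw [Subgroup.focalSubgroupOf_def, Subgroup.mem_subgroupOf]
        exact hg
      have h3 : (QuotientGroup.mk (⟨g, hg2⟩ : H) : H ⧸ H.focalSubgroupOf) = 1 :=
        (QuotientGroup.eq_one_iff _).mpr h4
      rw [h3] at h1
      rw [h1]
      simp [powCoprime]
  · have hsurj : Function.Surjective H.transferFocal := by
      intro q
      obtain ⟨x, hx⟩ := QuotientGroup.mk_surjective ((powCoprime hQcop).symm q)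
      refine ⟨x, ?_⟩
      rw [hV x, hx, Equiv.apply_symm_apply]
    have h1 : Nat.card G = Nat.card H.transferFocal.ker * Nat.card (H ⧸ H.focalSubgroupOf) := by
      rw [← Subgroup.card_mul_index H.transferFocal.ker, Subgroup.index_ker,
        MonoidHom.range_eq_top.mpr hsurj, Subgroup.card_top]
    have h2 : Nat.card H = Nat.card (H ⧸ H.focalSubgroupOf) * Nat.card H.focalSubgroupOf :=
      Subgroup.card_eq_card_quotient_mul_card_subgroup _
    have h3 : Nat.card H.focalSubgroupOf = Nat.card H.focalSubgroup := by
      rw [Subgroup.focalSubgroupOf_def]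
      exact Cfsg.Agent.Lib_helper1_Hall.card_subgroupOf_of_le (Subgroup.focalSubgroup_le H)
    rw [h1, h2, h3]; ring

theorem focal_map_le {G : Type*} [Group G] (N : Subgroup G) (X : Subgroup N) (Y : Subgroup G)
    (h : X.map N.subtype ≤ Y) : X.focalSubgroup.map N.subtype ≤ Y.focalSubgroup := by
  rw [Subgroup.focalSubgroup_def, MonoidHom.map_closure, Subgroup.closure_le]
  rintro _ ⟨g, ⟨hg, x, hx, u, rfl⟩, rfl⟩
  apply Subgroup.subset_closure
  refine ⟨h ⟨_, hg, rfl⟩, (x : G), h ⟨x, hx, rfl⟩, (u : G), ?_⟩
  simp [commutatorElement_def]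

theorem focal_iter_le {G : Type*} [Group G] (N : Subgroup G) (X : Subgroup N) (Y : Subgroup G)
    (h : X.map N.subtype ≤ Y) (j : ℕ) :
    ((fun K : Subgroup N => K.focalSubgroup)^[j] X).map N.subtype ≤
      (fun K : Subgroup G => K.focalSubgroup)^[j] Y := by
  induction j with
  | zero => exact h
  | succ j ih =>
    rw [Function.iterate_succ_apply', Function.iterate_succ_apply']
    exact focal_map_le N _ _ ih

theorem focal_complement (n : ℕ) : ∀ (G : Type u) [Group G] [Finite G] (H : Subgroup G),
    (Nat.card H).Coprime H.index → (fun K : Subgroup G => K.focalSubgroup)^[n] H = ⊥ →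
    ∃ N : Subgroup G, N.Normal ∧ Subgroup.IsComplement' N H := by
  induction n with
  | zero =>
    intro G _ _ H hHall hfoc
    have hH : H = ⊥ := hfoc
    rw [hH]
    exact ⟨⊤, inferInstance, Subgroup.isComplement'_top_bot⟩
  | succ n ih =>
    intro G _ _ H hHall hfoc
    rw [Function.iterate_succ_apply] at hfoc
    obtain ⟨h1, h2⟩ := hall_ker H hHall
    obtain ⟨N1, hN1def⟩ : ∃ N1 : Subgroup G, N1 = H.transferFocal.ker := ⟨_, rfl⟩
    haveI hN1n : N1.Normal := by rw [hN1def]; infer_instance
    rw [← hN1def] at h1 h2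
    have hH1N : H.focalSubgroup ≤ N1 := by rw [← h1]; exact inf_le_left
    have hH1H : H.focalSubgroup ≤ H := Subgroup.focalSubgroup_le H
    have hKcard : Nat.card (H.focalSubgroup.subgroupOf N1) = Nat.card H.focalSubgroup :=
      Cfsg.Agent.Lib_helper1_Hall.card_subgroupOf_of_le hH1N
    have hKidx : (H.focalSubgroup.subgroupOf N1).index = H.index := by
      have e1 := Subgroup.card_mul_index (H.focalSubgroup.subgroupOf N1)
      rw [hKcard] at e1
      have e2 := Subgroup.card_mul_index H
      have e3 : Nat.card H.focalSubgroup * (Nat.card H *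
          (H.focalSubgroup.subgroupOf N1).index) =
          Nat.card H.focalSubgroup * (Nat.card H * H.index) := by
        rw [e2]
        calc Nat.card H.focalSubgroup * (Nat.card H * (H.focalSubgroup.subgroupOf N1).index)
            = (Nat.card H.focalSubgroup * (H.focalSubgroup.subgroupOf N1).index) * Nat.card H := by
              ring
          _ = Nat.card N1 * Nat.card H := by rw [e1]
          _ = Nat.card H.focalSubgroup * Nat.card G := by rw [h2]; ring
      exact Nat.eq_of_mul_eq_mul_left Nat.card_pos
        (Nat.eq_of_mul_eq_mul_left Nat.card_pos e3)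
    have hH1dvd : Nat.card H.focalSubgroup ∣ Nat.card H := Subgroup.card_dvd_of_le hH1H
    have hcop1 : (Nat.card H.focalSubgroup).Coprime H.index :=
      Nat.Coprime.coprime_dvd_left hH1dvd hHall
    have hKHall : (Nat.card (H.focalSubgroup.subgroupOf N1)).Coprime
        (H.focalSubgroup.subgroupOf N1).index := by
      rw [hKcard, hKidx]; exact hcop1
    have hKfoc : (fun K : Subgroup N1 => K.focalSubgroup)^[n] (H.focalSubgroup.subgroupOf N1) = ⊥ := by
      have h3 := focal_iter_le N1 (H.focalSubgroup.subgroupOf N1) H.focalSubgroup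
        (by rw [Subgroup.subgroupOf_map_subtype]; exact inf_le_left) n
      rw [hfoc] at h3
      exact (Subgroup.map_eq_bot_iff_of_injective _ (Subgroup.subtype_injective N1)).mp
        (le_bot_iff.mp h3)
    obtain ⟨M', hM'n, hM'c⟩ := ih N1 (H.focalSubgroup.subgroupOf N1) hKHall hKfoc
    have hM'card : Nat.card M' = H.index := by
      rw [← hKidx]; exact hM'c.index_eq_card.symm
    have hM'idx : M'.index = Nat.card H.focalSubgroup := by
      rw [← hKcard]; exact hM'c.symm.index_eq_card
    have hMcard : Nat.card (M'.map N1.subtype) = H.index := by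
      rw [Subgroup.card_subtype, hM'card]
    have hMN : M'.map N1.subtype ≤ N1 := Subgroup.map_subtype_le M'
    have hsub : (M'.map N1.subtype).subgroupOf N1 = M' :=
      Subgroup.comap_map_eq_self_of_injective (Subgroup.subtype_injective N1) M'
    have hMnorm : (M'.map N1.subtype).Normal := by
      refine ⟨fun x hx g => ?_⟩
      have hY : MulAut.conj g • (M'.map N1.subtype) ≤ M'.map N1.subtype := by
        apply Cfsg.Agent.Lib_helper1_Carter.le_of_coprime_relIndex _ N1 _ hMN
        · rw [← Subgroup.normal_subgroupOf_iff_le_normalizer hMN, hsub]; exact hM'n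
        · intro y hy
          rw [Cfsg.Agent.Lib_helper1_Basic.mem_conj_smul] at hy
          have := hN1n.conj_mem _ (hMN hy) g
          have e : g * (g⁻¹ * y * g) * g⁻¹ = y := by group
          rwa [e] at this
        · rw [Cfsg.Agent.Lib_helper1_Hall.card_conj_smul, hMcard]
          have : (M'.map N1.subtype).relIndex N1 = Nat.card H.focalSubgroup := by
            show ((M'.map N1.subtype).subgroupOf N1).index = _
            rw [hsub, hM'idx]
          rw [this]
          exact hcop1.symm
      exact hY (Cfsg.Agent.Lib_helper1_Basic.conj_mem_conj_smul _ g x hx)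
    refine ⟨M'.map N1.subtype, hMnorm, ?_⟩
    apply Subgroup.isComplement'_of_card_mul_and_disjoint
    · rw [hMcard, mul_comm]; exact Subgroup.card_mul_index H
    · rw [disjoint_iff, eq_bot_iff]
      rintro x ⟨hxM, hxH⟩
      rw [Subgroup.mem_bot]
      have hxN : x ∈ N1 := hMN hxM
      have hxH1 : x ∈ H.focalSubgroup := by
        rw [← h1]; exact ⟨hxN, hxH⟩
      obtain ⟨y, hy, hyx⟩ := hxM
      have hyK : y ∈ H.focalSubgroup.subgroupOf N1 := by
        rw [Subgroup.mem_subgroupOf]
        have : (y : G) = x := hyx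
        rw [this]; exact hxH1
      have : y ∈ M' ⊓ H.focalSubgroup.subgroupOf N1 := ⟨hy, hyK⟩
      rw [disjoint_iff.mp (Subgroup.IsComplement'.disjoint hM'c), Subgroup.mem_bot] at this
      rw [← hyx, this]
      rfl

end Cfsg.Agent.Lib_helper1_FocalHall
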