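import Mathlib
import Cfsg.Prelude.Def_FusionSystem
import Cfsg.Prelude.Def_PLocal
import Cfsg.Agent.Lib_helper9_FusionFocal
import Cfsg.Agent.Lib_helper9_GroupFusion
import Cfsg.Agent.Lib_helper7_Sylow

set_option autoImplicit false

namespace Cfsg.Agent.Lib_helper9_HypGroup

open Cfsg Cfsg.FusionSystem Cfsg.Agent.Lib_helper9_Fusion Cfsg.Agent.Lib_helper9_FusionNC
  Cfsg.Agent.Lib_helper9_FusionSat Cfsg.Agent.Lib_helper9_FusionGen
  Cfsg.Agent.Lib_helper9_FusionFocal Cfsg.Agent.Lib_helper9_GroupFusion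
  Cfsg.Agent.Lib_helper9_PGroup

open scoped commutatorElement

section General

variable {Ω : Type*} [Group Ω] {S : Subgroup Ω}

/-- every map of a saturated fusion system is, modulo the hyperfocal subgroup, conjugation by
an element of `S`. -/
theorem exists_conj_mod_hyp [Finite S] (p : ℕ) [Fact p.Prime] (hS : IsPGroup p S)
    (F : FusionSystem S) (hF : F.IsSaturated p) {P : Subgroup Ω} {φ : P →* Ω}
    (hφ : φ ∈ F.Hom P) :
    ∃ s ∈ S, ∀ x : P, (s * x * s⁻¹)⁻¹ * φ x ∈ F.hyperfocalSubgroup p := by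
  let E : FusionSystem S := subsystemOf F
    (fun P φ => ∃ s ∈ S, ∀ x : P, (s * x * s⁻¹)⁻¹ * φ x ∈ F.hyperfocalSubgroup p)
    (fun {P g} _ hg => ⟨g, hg, fun x => by
      rw [conjHom_apply, inv_mul_cancel]; exact Subgroup.one_mem _⟩)
    (fun {P Q φ ψ} _ _ h1 h2 h => by
      obtain ⟨s, hs, hsx⟩ := h1
      obtain ⟨t, ht, htx⟩ := h2
      refine ⟨t * s, S.mul_mem ht hs, fun x => ?_⟩
      have h3 := hyperfocal_conj_mem F p ht (hsx x)
      have h4 := htx ⟨φ x, h x⟩
      have h5 := Subgroup.mul_mem _ h3 h4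
      have h6 : t * ((s * (x : Ω) * s⁻¹)⁻¹ * φ x) * t⁻¹ *
          ((t * φ x * t⁻¹)⁻¹ * ψ ⟨φ x, h x⟩) =
          (t * s * (x : Ω) * (t * s)⁻¹)⁻¹ * ψ ⟨φ x, h x⟩ := by group
      rw [h6] at h5; exact h5)
    (fun {P φ ψ} _ h1 _ hψx => by
      obtain ⟨s, hs, hsx⟩ := h1
      refine ⟨s⁻¹, S.inv_mem hs, ?_⟩
      rintro ⟨_, x, rfl⟩
      rw [hψx x]
      have h3 := hyperfocal_conj_mem F p (S.inv_mem hs) (Subgroup.inv_mem _ (hsx x))
      have h4 : s⁻¹ * ((s * (x : Ω) * s⁻¹)⁻¹ * φ x)⁻¹ * s⁻¹⁻¹ =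
          (s⁻¹ * φ x * s⁻¹⁻¹)⁻¹ * x := by group
      rw [h4] at h3; exact h3)
  have hle : F ≤ E := by
    apply gen_fn p hS F hF E
    intro Q hQ α hα
    have hQS := hQ.1
    rw [mem_autGroup_iff E hQS]
    refine ⟨(mem_autGroup_iff F hQS α).mp hα, ?_⟩
    obtain ⟨g, hg, β, hβ, hαx⟩ :=
      exists_decomp F (fullyNormalized_imp p hS F hF hQ).2 α hα
    refine ⟨g, hg, fun x => ?_⟩
    show (g * (x : Ω) * g⁻¹)⁻¹ * ((α x : Q) : Ω) ∈ F.hyperfocalSubgroup p
    rw [hαx x]
    have h1 := hyperfocal_conj_mem F p hg (mem_hyperfocal_of F p hQS β hβ x)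
    have h2 : g * ((x : Ω)⁻¹ * (((β : MulAut Q) x : Q) : Ω)) * g⁻¹ =
        (g * (x : Ω) * g⁻¹)⁻¹ * (g * (((β : MulAut Q) x : Q) : Ω) * g⁻¹) := by group
    rw [h2] at h1; exact h1
  exact (hle P hφ).2

/-- commutators with `S` of elements of `H ⊔ L`. -/
theorem comm_mem_sup {H L : Subgroup Ω} (hH : S ≤ Subgroup.normalizer (H : Set Ω)) (hL : L ≤ S)
    {x s : Ω} (hx : x ∈ H ⊔ L) (hs : s ∈ S) : ⁅x, s⁆ ∈ H ⊔ ⁅L, S⁆ := by
  rw [sup_comm] at hx
  obtain ⟨l, hl, h, hh, rfl⟩ := mem_sup_of_le_normalizer (hL.trans hH) hx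
  have h1 : ⁅l * h, s⁆ = (l * (h * (s * h⁻¹ * s⁻¹)) * l⁻¹) * ⁅l, s⁆ := by
    rw [commutatorElement_def, commutatorElement_def]; group
  rw [h1]
  have h2 : s * h⁻¹ * s⁻¹ ∈ H :=
    (Subgroup.mem_normalizer_iff.mp (hH hs) h⁻¹).mp (H.inv_mem hh)
  have h3 : l * (h * (s * h⁻¹ * s⁻¹)) * l⁻¹ ∈ H :=
    (Subgroup.mem_normalizer_iff.mp (hH (hL hl)) _).mp (H.mul_mem hh h2)
  exact Subgroup.mul_mem _ ((le_sup_left : H ≤ H ⊔ ⁅L, S⁆) h3)
    ((le_sup_right : ⁅L, S⁆ ≤ H ⊔ ⁅L, S⁆) (Subgroup.commutator_mem_commutator hl hs))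

end General

section Grp

variable {G : Type*} [Group G] [Finite G] {p : ℕ} [Fact p.Prime]

/-- a `p'`-automorphism induced by conjugation is induced by a `p'`-element. -/
theorem mem_pResidual_of_aut (P : Subgroup G) (α : MulAut P) (hα : (orderOf α).Coprime p)
    (g : G) (hg : ∀ x : P, ((α x : P) : G) = g * x * g⁻¹) :
    ∃ g' ∈ pResidual p G, ∀ x : P, ((α x : P) : G) = g' * x * g'⁻¹ := by
  have hp : p.Prime := Fact.out
  have hpow : ∀ i : ℕ, ∀ x : P, (((α ^ i) x : P) : G) = g ^ i * x * (g ^ i)⁻¹ := by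
    intro i
    induction i with
    | zero => intro x; simp
    | succ i ih =>
      intro x
      rw [pow_succ', MulAut.mul_apply, hg, ih, pow_succ']
      group
  have hn : orderOf g ≠ 0 := (orderOf_pos g).ne'
  obtain ⟨e, m, hm, hnm⟩ := Nat.exists_eq_pow_mul_and_not_dvd hn p hp.ne_one
  have h1 : (g ^ p ^ e) ^ m = 1 := by
    rw [← pow_mul, ← hnm, pow_orderOf_eq_one]
  have h2 : orderOf (g ^ p ^ e) ∣ m := orderOf_dvd_of_pow_eq_one h1
  have h3 : Nat.Coprime m p := ((Nat.Prime.coprime_iff_not_dvd hp).2 hm).symm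
  have h4 : (orderOf (g ^ p ^ e)).Coprime p := Nat.Coprime.coprime_dvd_left h2 h3
  have h5 : g ^ p ^ e ∈ pResidual p G := Subgroup.subset_closure h4
  obtain ⟨j, hj⟩ := exists_pow_eq_self_of_coprime (Nat.Coprime.pow_left e hα.symm)
  refine ⟨(g ^ p ^ e) ^ j, Subgroup.pow_mem _ h5 j, fun x => ?_⟩
  have h6 := hpow (p ^ e * j) x
  rw [pow_mul, hj, pow_mul] at h6
  exact h6

/-- the easy inclusion. -/
theorem hyperfocal_le_pResidual (S : Sylow p G) :
    (groupFusionSystem (S : Subgroup G)).hyperfocalSubgroup p ≤ pResidual p G := by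
  haveI hKn : (pResidual p G).Normal := Cfsg.Agent.Lib_helper7_Sylow.pResidual_normal p
  unfold FusionSystem.hyperfocalSubgroup
  rw [Subgroup.closure_le]
  rintro y ⟨P, α, x, hP, hα, rfl⟩
  have key : ∀ α : (groupFusionSystem (S : Subgroup G)).autGroup P,
      α ∈ pResidual p ((groupFusionSystem (S : Subgroup G)).autGroup P) →
      ∀ x : P, (x : G)⁻¹ * (((α : MulAut P) x : P) : G) ∈ pResidual p G := by
    intro α hα
    unfold pResidual at hα
    induction hα using Subgroup.closure_induction with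
    | mem a ha =>
      intro x
      have ha' : (orderOf (a : MulAut P)).Coprime p := by
        rw [Subgroup.orderOf_coe]; exact ha
      have haF := (mem_autGroup_iff (groupFusionSystem (S : Subgroup G)) hP (a : MulAut P)).mp a.2
      obtain ⟨-, -, g, hg⟩ := haF
      obtain ⟨g', hg', hg'x⟩ := mem_pResidual_of_aut P (a : MulAut P) ha' g (fun x => hg x)
      rw [hg'x x]
      have h1 : (x : G)⁻¹ * g' * (x : G)⁻¹⁻¹ ∈ pResidual p G := hKn.conj_mem g' hg' _
      have h2 := Subgroup.mul_mem _ h1 (Subgroup.inv_mem _ hg')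
      have h3 : (x : G)⁻¹ * g' * (x : G)⁻¹⁻¹ * g'⁻¹ = (x : G)⁻¹ * (g' * x * g'⁻¹) := by group
      rw [h3] at h2; exact h2
    | one => intro x; simp
    | mul a b _ _ ha hb =>
      intro x
      have h1 := Subgroup.mul_mem _ (hb x) (ha ((b : MulAut P) x))
      have h2 : (x : G)⁻¹ * (((b : MulAut P) x : P) : G) *
          ((((b : MulAut P) x : P) : G)⁻¹ * (((a : MulAut P) ((b : MulAut P) x) : P) : G)) =
          (x : G)⁻¹ * (((a : MulAut P) ((b : MulAut P) x) : P) : G) := by group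
      rw [h2] at h1; exact h1
    | inv a _ ha =>
      intro x
      have h1 := Subgroup.inv_mem _ (ha ((a : MulAut P)⁻¹ x))
      rw [MulAut.apply_inv_self] at h1
      have h2 : ((((a : MulAut P)⁻¹ x : P) : G)⁻¹ * (x : G))⁻¹ =
          (x : G)⁻¹ * (((a : MulAut P)⁻¹ x : P) : G) := by group
      rw [h2] at h1; exact h1
  exact key α hα x

/-- the descending chain `N 0 = ⊤`, `N (k+1) = O^p(G) [N k, N k]`. -/
noncomputable def chainN (p : ℕ) (G : Type*) [Group G] : ℕ → Subgroup G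
  | 0 => ⊤
  | (k + 1) => pResidual p G ⊔ ⁅chainN p G k, chainN p G k⁆

theorem chainN_normal (k : ℕ) : (chainN p G k).Normal := by
  haveI hKn : (pResidual p G).Normal := Cfsg.Agent.Lib_helper7_Sylow.pResidual_normal p
  induction k with
  | zero => show (⊤ : Subgroup G).Normal; infer_instance
  | succ k ih =>
    haveI := ih
    show (pResidual p G ⊔ ⁅chainN p G k, chainN p G k⁆).Normal
    infer_instance

theorem pResidual_le_chainN (k : ℕ) : pResidual p G ≤ chainN p G k := by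
  cases k with
  | zero => exact le_top
  | succ k => exact le_sup_left

open scoped IsMulCommutative in
/-- the step: the Sylow subgroup of `K [N, N]` lies in the focal subgroup of `N`. -/
theorem inf_step (S : Sylow p G) (N : Subgroup G) [hN : N.Normal] (hKN : pResidual p G ≤ N)
    {y : G} (hyS : y ∈ (S : Subgroup G)) (hy : y ∈ pResidual p G ⊔ ⁅N, N⁆) :
    y ∈ Subgroup.closure {g : G | g ∈ (S : Subgroup G) ∧
      ∃ x ∈ (S : Subgroup G) ⊓ N, ∃ u ∈ N, g = ⁅x, u⁆} := by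
  have hT : (S : Subgroup G) ⊓ N ≤ N := inf_le_right
  have hTp : IsPGroup p ((S : Subgroup G) ⊓ N : Subgroup G) := S.isPGroup'.to_le inf_le_left
  obtain ⟨R, hR⟩ := (exists_sylow_subgroupOf_iff N ((S : Subgroup G) ⊓ N) hT hTp).mpr (by
    intro T' hT'N hT'p
    obtain ⟨k, hk⟩ := exists_conj_le_sylow S T' hT'p
    apply Nat.card_le_card_of_injective
      (fun x : T' => (⟨k * x * k⁻¹, ⟨hk x x.2, hN.conj_mem x (hT'N x.2) k⟩⟩ :
        ((S : Subgroup G) ⊓ N : Subgroup G)))
    intro a b hab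
    have h1 : k * (a : G) * k⁻¹ = k * (b : G) * k⁻¹ := congrArg Subtype.val hab
    exact Subtype.ext (mul_left_cancel (mul_right_cancel h1)))
  have hRmem : ∀ z : N, z ∈ (R : Subgroup N) ↔ (z : G) ∈ (S : Subgroup G) := by
    intro z
    rw [hR, Subgroup.mem_subgroupOf]
    exact ⟨fun h => h.1, fun h => ⟨h, z.2⟩⟩
  have hle : pResidual p G ⊔ ⁅N, N⁆ ≤ ((R : Subgroup N).transferFocal.ker).map N.subtype := by
    apply sup_le
    · unfold pResidual
      rw [Subgroup.closure_le]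
      intro g hg
      have hgN : g ∈ N := hKN (Subgroup.subset_closure hg)
      refine ⟨⟨g, hgN⟩, ?_, rfl⟩
      show (⟨g, hgN⟩ : N) ∈ (R : Subgroup N).transferFocal.ker
      rw [MonoidHom.mem_ker]
      have hQ : IsPGroup p ((R : Subgroup N) ⧸ (R : Subgroup N).focalSubgroupOf) :=
        R.2.to_quotient _
      obtain ⟨j, hj⟩ := hQ ((R : Subgroup N).transferFocal ⟨g, hgN⟩)
      have h1 : orderOf ((R : Subgroup N).transferFocal ⟨g, hgN⟩) ∣ orderOf (⟨g, hgN⟩ : N) :=
        orderOf_map_dvd _ _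
      have h2 : orderOf (⟨g, hgN⟩ : N) = orderOf g := Subgroup.orderOf_mk g hgN
      have h3 : (orderOf ((R : Subgroup N).transferFocal ⟨g, hgN⟩)).Coprime (p ^ j) := by
        apply Nat.Coprime.pow_right
        rw [h2] at h1
        exact Nat.Coprime.coprime_dvd_left h1 hg
      have h4 := pow_gcd_eq_one.mpr ⟨pow_orderOf_eq_one _, hj⟩
      rw [Nat.Coprime.gcd_eq_one h3, pow_one] at h4
      exact h4
    · rw [← Subgroup.map_subtype_commutator]
      apply Subgroup.map_mono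
      exact Abelianization.commutator_subset_ker _
  obtain ⟨y', hy', hyy⟩ := hle hy
  have hy'R : y' ∈ (R : Subgroup N) := (hRmem y').mpr (by rw [show (y' : G) = y from hyy]; exact hyS)
  have h5 : y' ∈ (R : Subgroup N).focalSubgroup := by
    rw [← Subgroup.ker_transferFocal_inf_eq_focalSubgroup R]
    exact ⟨hy', hy'R⟩
  have h6 : (R : Subgroup N).focalSubgroup ≤
      (Subgroup.closure {g : G | g ∈ (S : Subgroup G) ∧
        ∃ x ∈ (S : Subgroup G) ⊓ N, ∃ u ∈ N, g = ⁅x, u⁆}).comap N.subtype := by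
    rw [Subgroup.focalSubgroup_def, Subgroup.closure_le]
    rintro g ⟨hgR, x, hxR, u, rfl⟩
    apply Subgroup.subset_closure
    refine ⟨(hRmem _).mp hgR, (x : G), ⟨(hRmem x).mp hxR, x.2⟩, (u : G), u.2, rfl⟩
  have h7 := h6 h5
  rw [Subgroup.mem_comap] at h7
  rw [← hyy]; exact h7

/-- `S5093` -/
theorem hyperfocal_eq (S : Sylow p G) :
    (groupFusionSystem (S : Subgroup G)).hyperfocalSubgroup p =
      (S : Subgroup G) ⊓ pResidual p G := by
  obtain ⟨F, hFdef⟩ : ∃ F : FusionSystem (S : Subgroup G), F = groupFusionSystem (S : Subgroup G) :=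
    ⟨_, rfl⟩
  rw [← hFdef]
  have hS : IsPGroup p (S : Subgroup G) := S.isPGroup'
  have hF : F.IsSaturated p := hFdef ▸ groupFusionSystem_saturated S
  obtain ⟨H, hHdef⟩ : ∃ H : Subgroup G, H = F.hyperfocalSubgroup p := ⟨_, rfl⟩
  rw [← hHdef]
  have hHS : H ≤ S := hHdef ▸ hyperfocal_le F p
  have hHn : (S : Subgroup G) ≤ Subgroup.normalizer (H : Set G) := hHdef ▸ hyperfocal_normalized F p
  apply le_antisymm
  · exact le_inf hHS (by rw [hHdef, hFdef]; exact hyperfocal_le_pResidual S)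
  · obtain ⟨L, hLdef⟩ : ∃ L : ℕ → Subgroup G,
        L = fun k => (S : Subgroup G).lowerCentralSeries k := ⟨_, rfl⟩
    have hL0 : L 0 = S := by rw [hLdef]; rfl
    have hLsucc : ∀ k, ⁅L k, (S : Subgroup G)⁆ = L (k + 1) := by
      intro k; rw [hLdef]; rfl
    have hLS : ∀ k, L k ≤ S := by
      intro k
      have h1 := (S : Subgroup G).lowerCentralSeries_antitone (Nat.zero_le k)
      rw [hLdef]
      exact h1
    have main : ∀ k, (S : Subgroup G) ⊓ chainN p G k ≤ H ⊔ L k := by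
      intro k
      induction k with
      | zero =>
        intro y hy
        have h1 : y ∈ L 0 := by rw [hL0]; exact hy.1
        exact (le_sup_right : L 0 ≤ H ⊔ L 0) h1
      | succ k ih =>
        intro y hy
        haveI := chainN_normal (p := p) (G := G) k
        have h1 := inf_step S (chainN p G k) (pResidual_le_chainN k) hy.1 hy.2
        have h2 : Subgroup.closure {g : G | g ∈ (S : Subgroup G) ∧
            ∃ x ∈ (S : Subgroup G) ⊓ chainN p G k, ∃ u ∈ chainN p G k, g = ⁅x, u⁆} ≤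
            H ⊔ L (k + 1) := by
          rw [Subgroup.closure_le]
          rintro g ⟨hgS, x, hx, u, hu, rfl⟩
          have hxS : x ∈ (S : Subgroup G) := hx.1
          -- the conjugate `u x⁻¹ u⁻¹` lies in `S`
          have hc : u * x⁻¹ * u⁻¹ ∈ (S : Subgroup G) := by
            have h3 := Subgroup.mul_mem _ (Subgroup.inv_mem _ hxS) hgS
            have h4 : x⁻¹ * ⁅x, u⁆ = u * x⁻¹ * u⁻¹ := by
              rw [commutatorElement_def]; group
            rw [h4] at h3; exact h3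
          have hPS : Subgroup.zpowers x⁻¹ ≤ (S : Subgroup G) :=
            (Subgroup.zpowers_le).mpr (Subgroup.inv_mem _ hxS)
          have hφ : conjHom (Subgroup.zpowers x⁻¹) u ∈ F.Hom (Subgroup.zpowers x⁻¹) := by
            rw [hFdef]
            refine ⟨hPS, fun z => ?_, u, fun z => rfl⟩
            obtain ⟨j, hj⟩ := Subgroup.mem_zpowers_iff.mp z.2
            rw [conjHom_apply, ← hj]
            have h5 : u * x⁻¹ ^ j * u⁻¹ = (u * x⁻¹ * u⁻¹) ^ j := by
              rw [conj_zpow]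
            rw [h5]
            exact Subgroup.zpow_mem _ hc j
          obtain ⟨s, hs, hsx⟩ := exists_conj_mod_hyp p hS F hF hφ
          have h6 := hsx ⟨x⁻¹, Subgroup.mem_zpowers _⟩
          rw [conjHom_apply, ← hHdef] at h6
          have h7 : ⁅x, s⁆ ∈ H ⊔ L (k + 1) := by
            rw [← hLsucc]
            exact comm_mem_sup hHn (hLS k) (ih hx) hs
          have h8 := Subgroup.mul_mem _ h7 ((le_sup_left : H ≤ H ⊔ L (k + 1)) h6)
          have h9 : ⁅x, s⁆ * ((s * x⁻¹ * s⁻¹)⁻¹ * (u * x⁻¹ * u⁻¹)) = ⁅x, u⁆ := by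
            rw [commutatorElement_def, commutatorElement_def]; group
          rw [h9] at h8; exact h8
        exact h2 h1
    haveI : Group.IsNilpotent (S : Subgroup G) := hS.isNilpotent
    obtain ⟨c, hc⟩ := (Subgroup.isNilpotent_iff_lowerCentralSeries (S : Subgroup G)).mp
      (inferInstance : Group.IsNilpotent (S : Subgroup G))
    have hLc : L c = ⊥ := by
      rw [hLdef]; exact hc
    intro y hy
    have h1 := main c ⟨hy.1, pResidual_le_chainN c hy.2⟩
    rw [hLc, sup_bot_eq] at h1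
    exact h1

end Grp

end Cfsg.Agent.Lib_helper9_HypGroup
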