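import Mathlib
import Cfsg.Prelude.Def_Transfer
import Cfsg.Agent.Lib_helper9_HypGroup
import Cfsg.Agent.Lib_helper1_Basic
import Cfsg.Agent.Lib_helper1_Frobenius

/-!
# A Gruen-type theorem for `O^p` in `p`-normal groups

If `Z(P)` is the centre of every Sylow subgroup containing it, then `N_G(Z(P))` controls fusion
in `P`, and hence `P ∩ O^p(G) = P ∩ O^p(V)` for every `V ≥ N_G(Z(P))` (by the hyperfocal subgroup
theorem).
-/

namespace Cfsg.Agent.H1Grun

open Cfsg Cfsg.FusionSystem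

theorem control_of_pnormal {G : Type*} [Group G] [Finite G] {p : ℕ} [Fact p.Prime] (P : Sylow p G)
    (hn : ∀ Q : Sylow p G, (P : Subgroup G) ⊓ Subgroup.centralizer (P : Set G) ≤ (Q : Subgroup G) →
      (Q : Subgroup G) ⊓ Subgroup.centralizer (Q : Set G) =
        (P : Subgroup G) ⊓ Subgroup.centralizer (P : Set G))
    (Q : Subgroup G) (hQ : Q ≤ P) (g : G) (hg : ∀ x ∈ Q, g * x * g⁻¹ ∈ (P : Subgroup G)) :
    ∃ n ∈ Subgroup.normalizer (((P : Subgroup G) ⊓ Subgroup.centralizer (P : Set G) :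
        Subgroup G) : Set G), ∀ x ∈ Q, n * x * n⁻¹ = g * x * g⁻¹ := by
  obtain ⟨Z, hZ⟩ : ∃ Z, Z = (P : Subgroup G) ⊓ Subgroup.centralizer (P : Set G) := ⟨_, rfl⟩
  rw [← hZ] at hn ⊢
  have hZP : Z ≤ P := hZ ▸ inf_le_left
  have hZp : IsPGroup p Z := P.isPGroup'.to_le hZP
  have hZcomm : ∀ z ∈ Z, ∀ y ∈ (P : Subgroup G), y * z = z * y := by
    intro z hz y hy
    rw [hZ] at hz
    exact Subgroup.mem_centralizer_iff.mp (Subgroup.mem_inf.mp hz).2 y hy
  have hZC : Z ≤ Subgroup.centralizer (Q : Set G) := by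
    intro z hz
    rw [Subgroup.mem_centralizer_iff]
    intro x hx
    exact hZcomm z hz x (hQ hx)
  have hZgC : Z.map (MulAut.conj g⁻¹).toMonoidHom ≤ Subgroup.centralizer (Q : Set G) := by
    rintro _ ⟨z, hz, rfl⟩
    rw [Subgroup.mem_centralizer_iff]
    intro x hx
    have h1 := hZcomm z hz _ (hg x hx)
    show x * (g⁻¹ * z * g⁻¹⁻¹) = g⁻¹ * z * g⁻¹⁻¹ * x
    calc x * (g⁻¹ * z * g⁻¹⁻¹) = g⁻¹ * (g * x * g⁻¹ * z) * g := by group
      _ = g⁻¹ * (z * (g * x * g⁻¹)) * g := by rw [h1]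
      _ = g⁻¹ * z * g⁻¹⁻¹ * x := by group
  obtain ⟨S₀, hS₀p, hZS₀, c, hc, hcS₀⟩ := Cfsg.Agent.Lib_helper9_PGroup.exists_common_pgroup
    (Subgroup.centralizer (Q : Set G)) Z (Z.map (MulAut.conj g⁻¹).toMonoidHom) hZC hZgC hZp
    (hZp.map _)
  obtain ⟨P₁, hP₁⟩ := hS₀p.exists_le_sylow
  have hZ1 := hn P₁ (hZS₀.trans hP₁)
  have hw : ∀ z ∈ Z, (c * g⁻¹) * z * (c * g⁻¹)⁻¹ ∈ (P₁ : Subgroup G) := by
    intro z hz
    have h1 := hP₁ (hcS₀ _ (Subgroup.mem_map_of_mem _ hz))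
    have h2 : c * ((MulAut.conj g⁻¹).toMonoidHom z) * c⁻¹ = (c * g⁻¹) * z * (c * g⁻¹)⁻¹ := by
      show c * (g⁻¹ * z * g⁻¹⁻¹) * c⁻¹ = _
      group
    rw [h2] at h1; exact h1
  have hZ2 := hn ((c * g⁻¹)⁻¹ • P₁) (by
    intro z hz
    rw [Cfsg.Agent.Lib_helper1_Frobenius.mem_smul_sylow, inv_inv]
    exact hw z hz)
  refine ⟨g * c⁻¹, ?_, ?_⟩
  · apply Cfsg.Agent.Lib_helper1_Basic.mem_normalizer_of_conj_le
    intro z hz
    rw [← hZ2]
    have hz1 : z ∈ (P₁ : Subgroup G) ⊓ Subgroup.centralizer (P₁ : Set G) := by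
      rw [hZ1]; exact hz
    obtain ⟨hzP₁, hzC⟩ := Subgroup.mem_inf.mp hz1
    refine Subgroup.mem_inf.mpr ⟨?_, ?_⟩
    · rw [Cfsg.Agent.Lib_helper1_Frobenius.mem_smul_sylow, inv_inv]
      have : (c * g⁻¹) * (g * c⁻¹ * z * (g * c⁻¹)⁻¹) * (c * g⁻¹)⁻¹ = z := by group
      rw [this]; exact hzP₁
    · rw [Subgroup.mem_centralizer_iff]
      intro y hy
      have hy' : (c * g⁻¹) * y * (c * g⁻¹)⁻¹ ∈ (P₁ : Subgroup G) := by
        have := (Cfsg.Agent.Lib_helper1_Frobenius.mem_smul_sylow _ y P₁).mp hy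
        rw [inv_inv] at this; exact this
      have h1 := Subgroup.mem_centralizer_iff.mp hzC _ hy'
      calc y * (g * c⁻¹ * z * (g * c⁻¹)⁻¹)
          = (c * g⁻¹)⁻¹ * ((c * g⁻¹) * y * (c * g⁻¹)⁻¹ * z) * (c * g⁻¹) := by group
        _ = (c * g⁻¹)⁻¹ * (z * ((c * g⁻¹) * y * (c * g⁻¹)⁻¹)) * (c * g⁻¹) := by rw [h1]
        _ = g * c⁻¹ * z * (g * c⁻¹)⁻¹ * y := by group
  · intro x hx
    have h1 := Subgroup.mem_centralizer_iff.mp hc x hx
    have h2 : c⁻¹ * x * c = x := by rw [mul_assoc, h1]; group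
    calc g * c⁻¹ * x * (g * c⁻¹)⁻¹ = g * (c⁻¹ * x * c) * g⁻¹ := by group
      _ = g * x * g⁻¹ := by rw [h2]

theorem exists_pprime_pow {G : Type*} [Group G] [Finite G] {p : ℕ} [Fact p.Prime]
    (Q : Subgroup G) (α : MulAut Q) (hα : (orderOf α).Coprime p)
    (g : G) (hg : ∀ x : Q, ((α x : Q) : G) = g * x * g⁻¹) :
    ∃ k : ℕ, (orderOf (g ^ k)).Coprime p ∧
      ∀ x : Q, ((α x : Q) : G) = g ^ k * x * (g ^ k)⁻¹ := by
  have hp : p.Prime := Fact.out
  have hpow : ∀ i : ℕ, ∀ x : Q, (((α ^ i) x : Q) : G) = g ^ i * x * (g ^ i)⁻¹ := by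
    intro i
    induction i with
    | zero => intro x; simp
    | succ i ih =>
      intro x
      rw [pow_succ', MulAut.mul_apply, hg, ih, pow_succ']
      group
  have hn : orderOf g ≠ 0 := (orderOf_pos g).ne'
  obtain ⟨e, m, hm, hnm⟩ := Nat.exists_eq_pow_mul_and_not_dvd hn p hp.ne_one
  have h1 : (g ^ p ^ e) ^ m = 1 := by
    rw [← pow_mul, ← hnm, pow_orderOf_eq_one]
  have h2 : orderOf (g ^ p ^ e) ∣ m := orderOf_dvd_of_pow_eq_one h1
  have h3 : Nat.Coprime m p := ((Nat.Prime.coprime_iff_not_dvd hp).2 hm).symm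
  have h4 : (orderOf (g ^ p ^ e)).Coprime p := Nat.Coprime.coprime_dvd_left h2 h3
  obtain ⟨j, hj⟩ := exists_pow_eq_self_of_coprime (Nat.Coprime.pow_left e hα.symm)
  refine ⟨p ^ e * j, ?_, fun x => ?_⟩
  · rw [pow_mul]
    exact Nat.Coprime.coprime_dvd_left (orderOf_pow_dvd j) h4
  · have h6 := hpow (p ^ e * j) x
    rw [pow_mul, hj] at h6
    exact h6

theorem grun_residual {G : Type*} [Group G] [Finite G] {p : ℕ} [Fact p.Prime] (P : Sylow p G)
    (hn : ∀ Q : Sylow p G, (P : Subgroup G) ⊓ Subgroup.centralizer (P : Set G) ≤ (Q : Subgroup G) →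
      (Q : Subgroup G) ⊓ Subgroup.centralizer (Q : Set G) =
        (P : Subgroup G) ⊓ Subgroup.centralizer (P : Set G))
    (V : Subgroup G)
    (hV : Subgroup.normalizer (((P : Subgroup G) ⊓ Subgroup.centralizer (P : Set G) :
      Subgroup G) : Set G) ≤ V) :
    (P : Subgroup G) ⊓ Cfsg.pResidual p G =
      (P : Subgroup G) ⊓ (Cfsg.pResidual p V).map V.subtype := by
  apply le_antisymm
  · refine le_inf inf_le_left ?_
    rw [← Cfsg.Agent.Lib_helper9_HypGroup.hyperfocal_eq P]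
    obtain ⟨R, hR⟩ : ∃ R, R = (Cfsg.pResidual p V).map V.subtype := ⟨_, rfl⟩
    rw [← hR]
    have hPV : (P : Subgroup G) ≤ V := by
      refine le_trans ?_ hV
      intro y hy
      apply Cfsg.Agent.Lib_helper1_Basic.mem_normalizer_of_conj_le
      intro z hz
      have h1 := Subgroup.mem_centralizer_iff.mp (Subgroup.mem_inf.mp hz).2 y hy
      have h2 : y * z * y⁻¹ = z := by rw [h1]; group
      rw [h2]; exact hz
    have hRmem : ∀ v ∈ V, (orderOf v).Coprime p → v ∈ R := by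
      intro v hv ho
      rw [hR]
      refine ⟨⟨v, hv⟩, Subgroup.subset_closure ?_, rfl⟩
      show (orderOf (⟨v, hv⟩ : V)).Coprime p
      rw [← Subgroup.orderOf_coe]; exact ho
    unfold FusionSystem.hyperfocalSubgroup
    rw [Subgroup.closure_le]
    rintro y ⟨Q, α, x, hQ, hα, rfl⟩
    have key : ∀ α : (groupFusionSystem (P : Subgroup G)).autGroup Q,
        α ∈ pResidual p ((groupFusionSystem (P : Subgroup G)).autGroup Q) →
        ∀ x : Q, (x : G)⁻¹ * (((α : MulAut Q) x : Q) : G) ∈ R := by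
      intro α hα
      unfold pResidual at hα
      induction hα using Subgroup.closure_induction with
      | mem a ha =>
        intro x
        have ha' : (orderOf (a : MulAut Q)).Coprime p := by
          rw [Subgroup.orderOf_coe]; exact ha
        have haF := (Cfsg.Agent.Lib_helper9_FusionSat.mem_autGroup_iff
          (groupFusionSystem (P : Subgroup G)) hQ (a : MulAut Q)).mp a.2
        obtain ⟨-, haP, g, hg⟩ := haF
        obtain ⟨n, hnN, hnx⟩ := control_of_pnormal P hn Q hQ g (fun x hx => by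
          have h1 := haP ⟨x, hx⟩
          have h2 := hg ⟨x, hx⟩
          rw [h2] at h1; exact h1)
        obtain ⟨k, hk1, hk2⟩ := exists_pprime_pow Q (a : MulAut Q) ha' n (fun x => by
          rw [hnx x x.2]; exact hg x)
        rw [hk2 x]
        have hnkV : n ^ k ∈ V := V.pow_mem (hV hnN) k
        have hxV : (x : G) ∈ V := hPV (hQ x.2)
        have h1 : (x : G)⁻¹ * n ^ k * (x : G) ∈ R := by
          apply hRmem _ (V.mul_mem (V.mul_mem (V.inv_mem hxV) hnkV) hxV)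
          have h0 : (x : G)⁻¹ * n ^ k * (x : G) = (MulAut.conj (x : G)⁻¹) (n ^ k) := by
            simp [MulAut.conj_apply]
          rw [h0, MulEquiv.orderOf_eq]
          exact hk1
        have h2 := Subgroup.mul_mem _ h1 (Subgroup.inv_mem _ (hRmem _ hnkV hk1))
        have h3 : (x : G)⁻¹ * n ^ k * (x : G) * (n ^ k)⁻¹ =
            (x : G)⁻¹ * (n ^ k * x * (n ^ k)⁻¹) := by group
        rw [h3] at h2; exact h2
      | one => intro x; simp
      | mul a b _ _ ha hb =>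
        intro x
        have h1 := Subgroup.mul_mem _ (hb x) (ha ((b : MulAut Q) x))
        have h2 : (x : G)⁻¹ * (((b : MulAut Q) x : Q) : G) *
            ((((b : MulAut Q) x : Q) : G)⁻¹ * (((a : MulAut Q) ((b : MulAut Q) x) : Q) : G)) =
            (x : G)⁻¹ * (((a : MulAut Q) ((b : MulAut Q) x) : Q) : G) := by group
        rw [h2] at h1; exact h1
      | inv a _ ha =>
        intro x
        have h1 := Subgroup.inv_mem _ (ha ((a : MulAut Q)⁻¹ x))
        rw [MulAut.apply_inv_self] at h1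
        have h2 : ((((a : MulAut Q)⁻¹ x : Q) : G)⁻¹ * (x : G))⁻¹ =
            (x : G)⁻¹ * (((a : MulAut Q)⁻¹ x : Q) : G) := by group
        rw [h2] at h1; exact h1
    exact key α hα x
  · exact inf_le_inf_left _
      (Cfsg.Agent.Lib_helper9_FusionFocal.pResidual_map_le (p := p) V.subtype)

end Cfsg.Agent.H1Grun
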