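import Cfsg.Agent.Lib_helper1_SS
import Cfsg.Agent.Lib_helper1_Socle

set_option autoImplicit false

namespace Cfsg.Agent.Lib_helper1_SS2

open Cfsg Cfsg.Agent.Lib_helper1_Basic Cfsg.Agent.Lib_helper1_Hall Cfsg.Agent.Lib_helper1_SZConj
  Cfsg.Agent.Lib_helper1_Coprime Cfsg.Agent.Lib_helper1_SS

universe u

/-- The commutator subgroup centralizes every cyclic normal subgroup. -/
theorem commutator_le_centralizer_of_cyclic_normal {G : Type*} [Group G] (N : Subgroup G)
    [N.Normal] [IsCyclic N] : commutator G ≤ Subgroup.centralizer (N : Set G) := by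
  rw [commutator_def, Subgroup.commutator_le]
  intro a _ b _
  rw [Subgroup.mem_centralizer_iff]
  intro z hz
  obtain ⟨i, hi⟩ := MonoidHom.map_cyclic ((MulAut.conjNormal a⁻¹ : MulAut N).toMonoidHom)
  obtain ⟨j, hj⟩ := MonoidHom.map_cyclic ((MulAut.conjNormal b⁻¹ : MulAut N).toMonoidHom)
  -- conj by a⁻¹ and b⁻¹ commute on N
  have h1 : ∀ y : N, (MulAut.conjNormal a⁻¹ : MulAut N) ((MulAut.conjNormal b⁻¹ : MulAut N) y) =
      (MulAut.conjNormal b⁻¹ : MulAut N) ((MulAut.conjNormal a⁻¹ : MulAut N) y) := by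
    intro y
    have e1 := hi ((MulAut.conjNormal b⁻¹ : MulAut N) y)
    have e2 := hj y
    have e3 := hj ((MulAut.conjNormal a⁻¹ : MulAut N) y)
    have e4 := hi y
    simp only [MulEquiv.toMonoidHom_eq_coe, MonoidHom.coe_coe] at e1 e2 e3 e4
    rw [e1, e2, e3, e4, ← zpow_mul, ← zpow_mul, mul_comm]
  have h2 := congrArg Subtype.val (h1 ⟨z, hz⟩)
  simp only [MulAut.conjNormal_apply, inv_inv] at h2
  -- h2 : a⁻¹ * (b⁻¹ * z * b) * a = b⁻¹ * (a⁻¹ * z * a) * b
  rw [commutatorElement_def]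
  have h3 : z = b * a * (a⁻¹ * (b⁻¹ * z * b) * a) * a⁻¹ * b⁻¹ := by group
  have h4 : a * b * (b⁻¹ * (a⁻¹ * z * a) * b) * b⁻¹ * a⁻¹ = z := by group
  calc z * (a * b * a⁻¹ * b⁻¹)
      = a * b * (b⁻¹ * (a⁻¹ * z * a) * b) * b⁻¹ * a⁻¹ * (a * b * a⁻¹ * b⁻¹) := by rw [h4]
    _ = a * b * (a⁻¹ * (b⁻¹ * z * b) * a) * a⁻¹ * b⁻¹ := by rw [← h2]; group
    _ = a * b * a⁻¹ * b⁻¹ * (b * a * (a⁻¹ * (b⁻¹ * z * b) * a) * a⁻¹ * b⁻¹) := by group
    _ = a * b * a⁻¹ * b⁻¹ * z := by rw [← h3]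

theorem ss_of_nilpotent_aux (n : ℕ) : ∀ (G : Type u) [Group G] [Finite G],
    Nat.card G = n → Group.IsNilpotent G → Cfsg.IsSupersolvable G := by
  induction n using Nat.strong_induction_on with
  | _ n ih =>
  intro G _ _ hn hG
  by_cases h1 : Nat.card G = 1
  · haveI : Subsingleton G := (Nat.card_eq_one_iff_unique.mp h1).1
    exact ss_of_subsingleton
  have htop : (⊤ : Subgroup G) ≠ ⊥ := by
    intro h
    apply h1
    rw [← Subgroup.card_top (G := G), h, Subgroup.card_bot]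
  have hc := Cfsg.Agent.Lib_helper1_Socle.normal_inf_center_ne_bot (⊤ : Subgroup G) htop
  rw [top_inf_eq] at hc
  obtain ⟨z, hz1⟩ := (Subgroup.ne_bot_iff_exists_ne_one).mp hc
  have hz1' : (z : G) ≠ 1 := fun h => hz1 (Subtype.ext h)
  have hzc : (z : G) ∈ Subgroup.center G := z.2
  haveI hNn : (Subgroup.zpowers (z : G)).Normal := by
    constructor
    intro x hx y
    have hx' : x ∈ Subgroup.center G :=
      (Subgroup.zpowers_le.mpr hzc) hx
    have : y * x * y⁻¹ = x := by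
      rw [Subgroup.mem_center_iff] at hx'
      rw [hx' y]; group
    rw [this]; exact hx
  have hNb : Subgroup.zpowers (z : G) ≠ ⊥ := by
    rw [Ne, Subgroup.zpowers_eq_bot]; exact hz1'
  have hlt : Nat.card (G ⧸ Subgroup.zpowers (z : G)) < n := hn ▸ card_quotient_lt _ hNb
  exact ss_of_cyclic_quotient (Subgroup.zpowers (z : G))
    (ih _ hlt (G ⧸ Subgroup.zpowers (z : G)) rfl inferInstance)

theorem ss_of_nilpotent {G : Type u} [Group G] [Finite G] [hG : Group.IsNilpotent G] :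
    Cfsg.IsSupersolvable G :=
  ss_of_nilpotent_aux _ G rfl hG

/-- Supersolvable groups satisfy the converse of Lagrange's theorem. -/
theorem clt_of_ss_aux (n : ℕ) : ∀ (G : Type u) [Group G] [Finite G],
    Nat.card G = n → Cfsg.IsSupersolvable G → ∀ d : ℕ, d ∣ n →
    ∃ H : Subgroup G, Nat.card H = d := by
  induction n using Nat.strong_induction_on with
  | _ n ih =>
  intro G _ _ hn hG d hd
  by_cases h1 : Nat.card G = 1
  · refine ⟨⊥, ?_⟩
    rw [Subgroup.card_bot]
    rw [← hn, h1] at hd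
    exact (Nat.dvd_one.mp hd).symm
  obtain ⟨N, hNn, hNp⟩ := exists_normal_prime hG h1
  haveI := hNn
  set q := Nat.card N with hq
  have hlt : Nat.card (G ⧸ N) < n := hn ▸ card_quotient_lt N (ne_bot_of_card_prime N hNp)
  have hcard : Nat.card G = q * Nat.card (G ⧸ N) := by
    rw [← Subgroup.index_eq_card]; exact (N.card_mul_index).symm
  have hQ := ss_quotient hG N
  by_cases hqd : q ∣ d
  · obtain ⟨d', rfl⟩ := hqd
    have hd' : d' ∣ Nat.card (G ⧸ N) := by
      rw [← hn, hcard] at hd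
      exact Nat.dvd_of_mul_dvd_mul_left hNp.pos hd
    obtain ⟨H', hH'⟩ := ih _ hlt (G ⧸ N) rfl hQ d' hd'
    refine ⟨H'.comap (QuotientGroup.mk' N), ?_⟩
    rw [card_comap_mk', hH']
  · have hcop : d.Coprime q := ((Nat.Prime.coprime_iff_not_dvd hNp).mpr hqd).symm
    have hd' : d ∣ Nat.card (G ⧸ N) := by
      rw [← hn, hcard] at hd
      exact hcop.dvd_of_dvd_mul_left hd
    obtain ⟨H', hH'⟩ := ih _ hlt (G ⧸ N) rfl hQ d hd'
    set K := H'.comap (QuotientGroup.mk' N) with hK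
    have hKcard : Nat.card K = q * d := by rw [hK, card_comap_mk', hH']
    by_cases hKtop : K = ⊤
    · have hG' : Nat.card G = q * d := by
        rw [← hKcard, hKtop, Subgroup.card_top]
      have hidx : N.index = d := by
        have := N.card_mul_index
        rw [hG'] at this
        exact Nat.eq_of_mul_eq_mul_left hNp.pos this
      obtain ⟨H, hH⟩ := Subgroup.exists_right_complement'_of_coprime (N := N)
        (by rw [hidx]; exact hcop.symm)
      exact ⟨H, by rw [← hH.symm.index_eq_card, hidx]⟩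
    · have hlt' : Nat.card K < n := hn ▸ card_lt_of_ne_top K hKtop
      obtain ⟨H, hH⟩ := ih _ hlt' K rfl (ss_subgroup hG K) d (by rw [hKcard]; exact dvd_mul_left d q)
      refine ⟨H.map K.subtype, ?_⟩
      rw [Subgroup.card_map_of_injective (Subgroup.subtype_injective K)]
      exact hH

theorem clt_of_ss {G : Type u} [Group G] [Finite G] (hG : Cfsg.IsSupersolvable G) :
    Cfsg.HasSubgroupOfEveryOrder G :=
  fun d hd => clt_of_ss_aux _ G rfl hG d hd

theorem exists_largest_prime (m : ℕ) (hm : 1 < m) :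
    ∃ p : ℕ, p.Prime ∧ p ∣ m ∧ ∀ q : ℕ, q.Prime → q ∣ m → q ≤ p := by
  have hne : m.primeFactors.Nonempty := Nat.nonempty_primeFactors.mpr hm
  refine ⟨m.primeFactors.max' hne, ?_, ?_, ?_⟩
  · exact (Nat.mem_primeFactors.mp (Finset.max'_mem _ hne)).1
  · exact (Nat.mem_primeFactors.mp (Finset.max'_mem _ hne)).2.1
  · intro q hq hqd
    exact Finset.le_max' _ q (Nat.mem_primeFactors.mpr ⟨hq, hqd, by omega⟩)

end Cfsg.Agent.Lib_helper1_SS2
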