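import Cfsg.Agent.S0580
import Cfsg.Agent.Lib_helper1_Eigen
import Cfsg.Agent.Lib_helper1_SS
import Cfsg.Agent.Lib_helper1_SS2
import Cfsg.Agent.Lib_helper1_Socle
import Cfsg.Agent.Lib_helper1_Hall
import Cfsg.Agent.Lib_helper1_Coprime
import Cfsg.Agent.Lib_helper1_AutBound
import Cfsg.Agent.Lib_helper1_ProdCard
import Cfsg.Agent.Lib_helper1_Basic
import Cfsg.Agent.Lib_helper1_MaxSub
import Cfsg.Agent.Lib_helper7_Sylow

set_option autoImplicit false

namespace Cfsg.Agent.Lib_helper1_Huppert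

open Cfsg.Agent
open scoped Pointwise commutatorElement

universe u

/-- Part A: a maximal subgroup of prime index not containing the normal Sylow `q`-subgroup `Q`
meets `Q` in a normal subgroup of index `q`, on whose quotient commutators and `(q-1)`-th powers
act trivially. -/
theorem partA {G : Type*} [Group G] [Finite G] (q : ℕ) [Fact q.Prime] (Q : Subgroup G)
    [hQn : Q.Normal] (hQ : IsPGroup q Q) (M : Subgroup G) (hM : IsCoatom M) (hMp : M.index.Prime)
    (hQM : ¬ Q ≤ M) :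
    (Q ⊓ M).Normal ∧ (∀ g h : G, ∀ x ∈ Q, ⁅⁅g, h⁆, x⁆ ∈ Q ⊓ M) ∧
      (∀ g : G, ∀ x ∈ Q, ⁅g ^ (q - 1), x⁆ ∈ Q ⊓ M) ∧ (∀ y ∈ Q, ∀ x ∈ Q, ⁅y, x⁆ ∈ Q ⊓ M) := by
  classical
  have hq : q.Prime := Fact.out
  have hRlt : Q ⊓ M < Q := lt_of_le_of_ne inf_le_left (fun h => hQM (h ▸ inf_le_right))
  have hMN : M ≤ Subgroup.normalizer ((Q ⊓ M : Subgroup G) : Set G) := by
    intro m hm
    apply Lib_helper7_Sylow.mem_normalizer_of_conj_le
    rintro _ ⟨y, hy, rfl⟩
    exact ⟨hQn.conj_mem y hy.1 m, M.mul_mem (M.mul_mem hm hy.2) (M.inv_mem hm)⟩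
  obtain ⟨t, htQ, htN, htR⟩ := Lib_helper7_Sylow.exists_mem_normalizer_not_mem hQ hRlt
  have hNtop : Subgroup.normalizer ((Q ⊓ M : Subgroup G) : Set G) = ⊤ := by
    apply hM.2
    refine lt_of_le_of_ne hMN (fun h => htR ⟨htQ, ?_⟩)
    rw [h]; exact htN
  have hRn : (Q ⊓ M).Normal := Subgroup.normalizer_eq_top_iff.mp hNtop
  refine ⟨hRn, ?_⟩
  have hsup : Q ⊔ M = ⊤ := Lib_helper1_MaxSub.sup_eq_top_of_coatom hM hQM
  have c1 := Lib_helper1_AutBound.card_map_mk' (Q ⊓ M) Q inf_le_left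
  have c2 := Lib_helper1_ProdCard.card_mul_set Q M
  have c3 := M.card_mul_index
  have hQMuniv : ((Q : Set G) * (M : Set G) : Set G) = Set.univ := by
    rw [← Subgroup.normal_mul, hsup, Subgroup.coe_top]
  rw [hQMuniv, Nat.card_univ, ← c3, c1] at c2
  have hidx : Nat.card (Q.map (QuotientGroup.mk' (Q ⊓ M))) = M.index := by
    have h1 : 0 < Nat.card M := Nat.card_pos
    have h2 : 0 < Nat.card (Q ⊓ M : Subgroup G) := Nat.card_pos
    have h3 : (Nat.card M * Nat.card (Q ⊓ M : Subgroup G)) * M.index =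
        (Nat.card M * Nat.card (Q ⊓ M : Subgroup G)) *
          Nat.card (Q.map (QuotientGroup.mk' (Q ⊓ M))) := by
      rw [mul_right_comm, c2]; ring
    exact (Nat.eq_of_mul_eq_mul_left (Nat.mul_pos h1 h2) h3).symm
  have hcq : Nat.card (Q.map (QuotientGroup.mk' (Q ⊓ M))) = q := by
    obtain ⟨k, hk⟩ := IsPGroup.iff_card.mp hQ
    have hp' : (Nat.card (Q.map (QuotientGroup.mk' (Q ⊓ M)))).Prime := hidx ▸ hMp
    have hd : Nat.card (Q.map (QuotientGroup.mk' (Q ⊓ M))) ∣ q ^ k := by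
      rw [← hk, c1]; exact Dvd.intro_left _ rfl
    exact (Nat.prime_dvd_prime_iff_eq hp' hq).mp (hp'.dvd_of_dvd_pow hd)
  have hQbn : (Q.map (QuotientGroup.mk' (Q ⊓ M))).Normal :=
    Subgroup.Normal.map hQn _ (QuotientGroup.mk'_surjective _)
  have hcyc : IsCyclic (Q.map (QuotientGroup.mk' (Q ⊓ M))) := isCyclic_of_prime_card hcq
  -- key: elements whose image centralizes `Q̄`
  have key : ∀ y : G, (QuotientGroup.mk' (Q ⊓ M) y) ∈
      Subgroup.centralizer ((Q.map (QuotientGroup.mk' (Q ⊓ M)) : Subgroup (G ⧸ (Q ⊓ M))) : Set _) →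
      ∀ x ∈ Q, ⁅y, x⁆ ∈ Q ⊓ M := by
    intro y hy x hx
    have h1 := Subgroup.mem_centralizer_iff.mp hy (QuotientGroup.mk' (Q ⊓ M) x)
      (Subgroup.mem_map_of_mem _ hx)
    rw [← QuotientGroup.eq_one_iff, ← QuotientGroup.mk'_apply, map_commutatorElement,
      commutatorElement_eq_one_iff_mul_comm]
    exact h1.symm
  refine ⟨fun g h x hx => key _ ?_ x hx, fun g x hx => key _ ?_ x hx, fun y hy x hx => key _ ?_ x hx⟩
  · apply Lib_helper1_SS2.commutator_le_centralizer_of_cyclic_normal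
    rw [map_commutatorElement]
    exact Subgroup.commutator_mem_commutator (Subgroup.mem_top _) (Subgroup.mem_top _)
  · have h1 : (MulAut.conjNormal (QuotientGroup.mk' (Q ⊓ M) g) :
        MulAut (Q.map (QuotientGroup.mk' (Q ⊓ M)))) ^ (q - 1) = 1 := by
      have h2 := IsCyclic.card_mulAut (G := (Q.map (QuotientGroup.mk' (Q ⊓ M))))
      rw [hcq, Nat.totient_prime hq] at h2
      rw [← h2]
      exact pow_card_eq_one'
    rw [← map_pow, ← map_pow] at h1
    rw [Subgroup.mem_centralizer_iff]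
    intro z hz
    have h3 := congrArg (fun f => ((f ⟨z, hz⟩ : (Q.map (QuotientGroup.mk' (Q ⊓ M)))) : G ⧸ (Q ⊓ M))) h1
    simp only [MulAut.conjNormal_apply, MulAut.one_apply] at h3
    conv_lhs => rw [← h3]
    group
  · rw [Subgroup.mem_centralizer_iff]
    intro z hz
    have h1 := (IsCyclic.isMulCommutative (α := (Q.map (QuotientGroup.mk' (Q ⊓ M))))).is_comm.comm
      (⟨z, hz⟩ : (Q.map (QuotientGroup.mk' (Q ⊓ M))))
      ⟨_, Subgroup.mem_map_of_mem (QuotientGroup.mk' (Q ⊓ M)) hy⟩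
    exact congrArg Subtype.val h1


/-- Parts B–D: commutators and `(q-1)`-th powers centralize every subgroup `N` of the normal
Sylow `q`-subgroup `Q` that is centralized by `Q`. -/
theorem partBCD {G : Type u} [Group G] [Finite G]
    (h : ∀ M : Subgroup G, IsCoatom M → M.index.Prime)
    (q : ℕ) [Fact q.Prime] (Q : Sylow q G) [hQn : (Q : Subgroup G).Normal]
    (N : Subgroup G) (hNQ : N ≤ Q) (hNc : (Q : Subgroup G) ≤ Subgroup.centralizer (N : Set G)) :
    (∀ g k : G, ⁅g, k⁆ ∈ Subgroup.centralizer (N : Set G)) ∧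
      (∀ g : G, g ^ (q - 1) ∈ Subgroup.centralizer (N : Set G)) := by
  classical
  obtain ⟨D, hDdef⟩ : ∃ D : Subgroup G, D = (Q : Subgroup G) ⊓
      ⨅ M : {M : Subgroup G // IsCoatom M ∧ ¬ (Q : Subgroup G) ≤ M}, ((Q : Subgroup G) ⊓ M.1) :=
    ⟨_, rfl⟩
  have hA := fun (M : Subgroup G) (hM : IsCoatom M) (hQM : ¬ (Q : Subgroup G) ≤ M) =>
    partA q (Q : Subgroup G) Q.2 M hM (h M hM) hQM
  have hDn : D.Normal := by
    rw [hDdef]
    haveI : (⨅ M : {M : Subgroup G // IsCoatom M ∧ ¬ (Q : Subgroup G) ≤ M},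
        ((Q : Subgroup G) ⊓ M.1)).Normal :=
      Subgroup.normal_iInf_normal (fun M => (hA M.1 M.2.1 M.2.2).1)
    infer_instance
  have hDM : ∀ M : Subgroup G, IsCoatom M → ¬ (Q : Subgroup G) ≤ M → D ≤ M := by
    intro M hM hQM
    rw [hDdef]
    exact inf_le_right.trans ((iInf_le _ ⟨M, hM, hQM⟩).trans inf_le_right)
  have hDmem : ∀ z ∈ (Q : Subgroup G),
      (∀ M : Subgroup G, IsCoatom M → ¬ (Q : Subgroup G) ≤ M → z ∈ (Q : Subgroup G) ⊓ M) →
      z ∈ D := by
    intro z hz hzM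
    rw [hDdef]
    exact Subgroup.mem_inf.mpr ⟨hz, Subgroup.mem_iInf.mpr (fun M => hzM M.1 M.2.1 M.2.2)⟩
  have hQbn : ((Q : Subgroup G).map (QuotientGroup.mk' D)).Normal :=
    Subgroup.Normal.map hQn _ (QuotientGroup.mk'_surjective _)
  obtain ⟨K, hKdef⟩ : ∃ K : Subgroup G, K = (Subgroup.centralizer
      (((Q : Subgroup G).map (QuotientGroup.mk' D) : Subgroup (G ⧸ D)) : Set (G ⧸ D))).comap
      (QuotientGroup.mk' D) := ⟨_, rfl⟩
  have hKn : K.Normal := by
    rw [hKdef]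
    infer_instance
  have hKmem : ∀ y : G, (∀ x ∈ (Q : Subgroup G), ⁅y, x⁆ ∈ D) → y ∈ K := by
    intro y hy
    rw [hKdef, Subgroup.mem_comap, Subgroup.mem_centralizer_iff]
    rintro _ ⟨x, hx, rfl⟩
    have h1 := hy x hx
    rw [← QuotientGroup.eq_one_iff, ← QuotientGroup.mk'_apply, map_commutatorElement,
      commutatorElement_eq_one_iff_mul_comm] at h1
    exact h1.symm
  have hKcomm : ∀ y ∈ K, ∀ x ∈ (Q : Subgroup G), ⁅y, x⁆ ∈ D := by
    intro y hy x hx
    rw [hKdef, Subgroup.mem_comap] at hy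
    have h1 := Subgroup.mem_centralizer_iff.mp hy (QuotientGroup.mk' D x)
      (Subgroup.mem_map_of_mem _ hx)
    rw [← QuotientGroup.eq_one_iff, ← QuotientGroup.mk'_apply, map_commutatorElement,
      commutatorElement_eq_one_iff_mul_comm]
    exact h1.symm
  have hcq : ∀ y : G, ∀ x ∈ (Q : Subgroup G), ⁅y, x⁆ ∈ (Q : Subgroup G) := by
    intro y x hx
    rw [commutatorElement_def]
    exact Subgroup.mul_mem _ (hQn.conj_mem x hx y) (Subgroup.inv_mem _ hx)
  have hK1 : ∀ g k : G, ⁅g, k⁆ ∈ K := fun g k => hKmem _ (fun x hx =>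
    hDmem _ (hcq _ x hx) (fun M hM hQM => (hA M hM hQM).2.1 g k x hx))
  have hK2 : ∀ g : G, g ^ (q - 1) ∈ K := fun g => hKmem _ (fun x hx =>
    hDmem _ (hcq _ x hx) (fun M hM hQM => (hA M hM hQM).2.2.1 g x hx))
  have hK3 : (Q : Subgroup G) ≤ K := fun y hy => hKmem _ (fun x hx =>
    hDmem _ (hcq _ x hx) (fun M hM hQM => (hA M hM hQM).2.2.2 y hy x hx))
  -- Schur–Zassenhaus complement
  obtain ⟨H, hH⟩ := Subgroup.exists_right_complement'_of_coprime (Sylow.card_coprime_index Q)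
  have hQH : (Q : Subgroup G) ⊔ H = ⊤ := hH.sup_eq_top
  have hQHd : (Q : Subgroup G) ⊓ H = ⊥ := hH.disjoint.eq_bot
  have hAQ : K ⊓ H ≤ Subgroup.normalizer (((Q : Subgroup G) : Subgroup G) : Set G) := by
    rw [Subgroup.normalizer_eq_top]; exact le_top
  have hcop : (Nat.card (K ⊓ H : Subgroup G)).Coprime (Nat.card (Q : Subgroup G)) := by
    have h1 : Nat.card (K ⊓ H : Subgroup G) ∣ (Q : Subgroup G).index := by
      rw [hH.symm.index_eq_card]
      exact Subgroup.card_dvd_of_le inf_le_right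
    exact (Sylow.card_coprime_index Q).symm.coprime_dvd_left h1
  have hsolv : Group.IsSolvable (Q : Subgroup G) := by
    haveI : Group.IsNilpotent (Q : Subgroup G) := Q.2.isNilpotent
    infer_instance
  have hcomm : ⁅(Q : Subgroup G), K ⊓ H⁆ ≤ D := by
    rw [Subgroup.commutator_le]
    intro x hx a ha
    rw [← commutatorElement_inv]
    exact D.inv_mem (hKcomm a ha.1 x hx)
  have hHX : H ≤ Subgroup.normalizer
      (((Q : Subgroup G) ⊓ Subgroup.centralizer ((K ⊓ H : Subgroup G) : Set G) : Subgroup G) :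
        Set G) := by
    intro t ht
    apply Lib_helper7_Sylow.mem_normalizer_of_conj_le
    rintro _ ⟨y, hy, rfl⟩
    refine ⟨hQn.conj_mem y hy.1 t, ?_⟩
    show t * y * t⁻¹ ∈ Subgroup.centralizer ((K ⊓ H : Subgroup G) : Set G)
    rw [Subgroup.mem_centralizer_iff]
    intro a ha
    have ha' : t⁻¹ * a * t ∈ K ⊓ H := by
      refine ⟨?_, H.mul_mem (H.mul_mem (H.inv_mem ht) ha.2) ht⟩
      have := hKn.conj_mem a ha.1 t⁻¹
      simpa using this
    have e := Subgroup.mem_centralizer_iff.mp hy.2 _ ha'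
    show a * (t * y * t⁻¹) = t * y * t⁻¹ * a
    calc a * (t * y * t⁻¹) = t * (t⁻¹ * a * t * y) * t⁻¹ := by group
      _ = t * (y * (t⁻¹ * a * t)) * t⁻¹ := by rw [e]
      _ = t * y * t⁻¹ * a := by group
  have hXH : ((Q : Subgroup G) ⊓ Subgroup.centralizer ((K ⊓ H : Subgroup G) : Set G)) ⊔ H = ⊤ := by
    by_contra hne
    obtain ⟨M, hM, hle⟩ := (eq_top_or_exists_le_coatom _).resolve_left hne
    have hQM : ¬ (Q : Subgroup G) ≤ M := fun hq =>
      hM.1 (top_le_iff.mp (hQH ▸ sup_le hq (le_sup_right.trans hle)))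
    apply hQM
    intro x hx
    obtain ⟨n, hn, c, hc, rfl⟩ := Lib_helper1_Coprime.exists_commutator_mul_fixed (K ⊓ H)
      (Q : Subgroup G) hAQ hcop (Or.inr hsolv) x hx
    exact M.mul_mem (hDM M hM hQM (hcomm hn)) (hle (Subgroup.mem_sup_left hc))
  have hQX : (Q : Subgroup G) ≤ Subgroup.centralizer ((K ⊓ H : Subgroup G) : Set G) := by
    intro x hx
    have h1 : x ∈ ((Q : Subgroup G) ⊓ Subgroup.centralizer ((K ⊓ H : Subgroup G) : Set G)) ⊔ H := by
      rw [hXH]; exact Subgroup.mem_top x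
    rw [← SetLike.mem_coe, Subgroup.coe_mul_of_right_le_normalizer_left _ H hHX] at h1
    obtain ⟨y, hy, t, ht, rfl⟩ := h1
    have htQ : t ∈ (Q : Subgroup G) := by
      have := Subgroup.mul_mem _ (Subgroup.inv_mem _ hy.1) hx
      simpa using this
    have ht1 : t = 1 := by
      have : t ∈ (Q : Subgroup G) ⊓ H := ⟨htQ, ht⟩
      rw [hQHd] at this
      exact Subgroup.mem_bot.mp this
    subst ht1
    simpa using hy.2
  have hAc : ∀ a ∈ K ⊓ H, a ∈ Subgroup.centralizer (N : Set G) := by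
    intro a ha
    rw [Subgroup.mem_centralizer_iff]
    intro n hn
    exact (Subgroup.mem_centralizer_iff.mp (hQX (hNQ hn)) a ha).symm
  have hKc : K ≤ Subgroup.centralizer (N : Set G) := by
    intro k hk
    have h1 : k ∈ (Q : Subgroup G) ⊔ H := by rw [hQH]; exact Subgroup.mem_top k
    rw [← SetLike.mem_coe, Subgroup.normal_mul] at h1
    obtain ⟨x, hx, t, ht, rfl⟩ := h1
    have htK : t ∈ K := by
      have := K.mul_mem (K.inv_mem (hK3 hx)) hk
      simpa using this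
    exact Subgroup.mul_mem _ (hNc hx) (hAc t ⟨htK, ht⟩)
  exact ⟨fun g k => hKc (hK1 g k), fun g => hKc (hK2 g)⟩


/-- Part E: a minimal normal elementary abelian `q`-subgroup centralized by commutators and
`(q-1)`-th powers has order `q`. -/
theorem partE {G : Type*} [Group G] [Finite G] (q : ℕ) [Fact q.Prime] (N : Subgroup G)
    [hNn : N.Normal] [IsMulCommutative N] (hN1 : N ≠ ⊥) (hNq : ∀ x ∈ N, x ^ q = 1)
    (hmin : ∀ K : Subgroup G, K.Normal → K ≤ N → K = ⊥ ∨ K = N)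
    (hc : ∀ g k : G, ⁅g, k⁆ ∈ Subgroup.centralizer (N : Set G))
    (hp : ∀ g : G, g ^ (q - 1) ∈ Subgroup.centralizer (N : Set G)) : Nat.card N = q := by
  classical
  have hpow : ∀ g : G, ∃ μ : ℕ, ∀ y ∈ N, g * y * g⁻¹ = y ^ μ := by
    intro g
    obtain ⟨w, hwN, hw1, μ, hμ⟩ := Lib_helper1_Eigen.exists_eigen q N hN1 hNq g
      (fun y hy => ((Subgroup.mem_centralizer_iff.mp (hp g)) y hy).symm)
    refine ⟨μ, ?_⟩
    obtain ⟨E, hE⟩ : ∃ E : Subgroup G, ∀ y, y ∈ E ↔ (y ∈ N ∧ g * y * g⁻¹ = y ^ μ) := by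
      refine ⟨{ carrier := {y | y ∈ N ∧ g * y * g⁻¹ = y ^ μ}
                mul_mem' := ?_
                one_mem' := ?_
                inv_mem' := ?_ }, fun y => Iff.rfl⟩
      · rintro a b ⟨ha, ha'⟩ ⟨hb, hb'⟩
        refine ⟨N.mul_mem ha hb, ?_⟩
        have hcomm : Commute a b := setLike_mul_comm ha hb
        rw [hcomm.mul_pow, ← ha', ← hb']
        group
      · exact ⟨N.one_mem, by simp⟩
      · rintro a ⟨ha, ha'⟩
        refine ⟨N.inv_mem ha, ?_⟩
        rw [inv_pow, ← ha']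
        group
    have hEn : E.Normal := by
      refine ⟨fun y hy a => ?_⟩
      rw [hE] at hy ⊢
      refine ⟨hNn.conj_mem y hy.1 a, ?_⟩
      have hc' := Subgroup.mem_centralizer_iff.mp (hc a⁻¹ g) (y ^ μ) (N.pow_mem hy.1 μ)
      rw [commutatorElement_def] at hc'
      calc g * (a * y * a⁻¹) * g⁻¹
          = a * ((a⁻¹ * g * a⁻¹⁻¹ * g⁻¹) * (g * y * g⁻¹)) * (a⁻¹ * g * a⁻¹⁻¹ * g⁻¹)⁻¹ * a⁻¹ := by
            group
        _ = a * ((a⁻¹ * g * a⁻¹⁻¹ * g⁻¹) * y ^ μ) * (a⁻¹ * g * a⁻¹⁻¹ * g⁻¹)⁻¹ * a⁻¹ := by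
            rw [hy.2]
        _ = a * (y ^ μ * (a⁻¹ * g * a⁻¹⁻¹ * g⁻¹)) * (a⁻¹ * g * a⁻¹⁻¹ * g⁻¹)⁻¹ * a⁻¹ := by
            rw [hc']
        _ = a * y ^ μ * a⁻¹ := by group
        _ = (a * y * a⁻¹) ^ μ := conj_pow.symm
    have hEN : E ≤ N := fun y hy => ((hE y).mp hy).1
    have hwE : w ∈ E := (hE w).mpr ⟨hwN, hμ⟩
    rcases hmin E hEn hEN with h | h
    · rw [h] at hwE
      exact absurd (Subgroup.mem_bot.mp hwE) hw1
    · intro y hy
      rw [← h] at hy
      exact ((hE y).mp hy).2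
  obtain ⟨x₀, hx₀N, hx₀1⟩ : ∃ x ∈ N, x ≠ 1 := by
    by_contra hcon
    push Not at hcon
    exact hN1 ((Subgroup.eq_bot_iff_forall N).mpr hcon)
  have hzn : (Subgroup.zpowers x₀).Normal := by
    refine ⟨fun y hy a => ?_⟩
    obtain ⟨k, rfl⟩ := Subgroup.mem_zpowers_iff.mp hy
    obtain ⟨μ, hμ⟩ := hpow a
    rw [← conj_zpow, hμ x₀ hx₀N]
    exact Subgroup.zpow_mem _ (Subgroup.pow_mem _ (Subgroup.mem_zpowers x₀) μ) k
  have hzN : Subgroup.zpowers x₀ ≤ N := (Subgroup.zpowers_le).mpr hx₀N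
  have hz : Subgroup.zpowers x₀ = N := by
    rcases hmin _ hzn hzN with h | h
    · have := Subgroup.mem_zpowers x₀
      rw [h] at this
      exact absurd (Subgroup.mem_bot.mp this) hx₀1
    · exact h
  rw [← hz, Nat.card_zpowers]
  exact orderOf_eq_prime (hNq x₀ hx₀N) hx₀1

theorem aux (n : ℕ) : ∀ (G : Type u) [Group G] [Finite G], Nat.card G = n →
    (∀ M : Subgroup G, IsCoatom M → M.index.Prime) → Cfsg.IsSupersolvable G := by
  induction n using Nat.strong_induction_on with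
  | _ n ih =>
  intro G _ _ hn h
  by_cases htriv : Nat.card G = 1
  · have : Subsingleton G := (Nat.card_eq_one_iff_unique.mp htriv).1
    exact Lib_helper1_SS.ss_of_subsingleton
  have h2 : 1 < Nat.card G := by have := Nat.card_pos (α := G); omega
  obtain ⟨p, hp, hmax⟩ := Finset.exists_max_image (Nat.card G).primeFactors id
    (Nat.nonempty_primeFactors.mpr h2)
  have hpp : p.Prime := Nat.prime_of_mem_primeFactors hp
  have : Fact p.Prime := ⟨hpp⟩
  have hpd : p ∣ Nat.card G := Nat.dvd_of_mem_primeFactors hp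
  obtain ⟨P⟩ : Nonempty (Sylow p G) := inferInstance
  have hPn : (P : Subgroup G).Normal := by
    by_contra hnn
    have hN : Subgroup.normalizer ((P : Subgroup G) : Set G) ≠ ⊤ :=
      fun hT => hnn (Subgroup.normalizer_eq_top_iff.mp hT)
    obtain ⟨M, hM, hNM⟩ := (eq_top_or_exists_le_coatom _).resolve_left hN
    have hq := h M hM
    have hqd : M.index ∣ Nat.card G := Subgroup.index_dvd_card M
    have hqle : M.index ≤ p := hmax _ (Nat.mem_primeFactors.mpr ⟨hq, hqd, Nat.card_pos.ne'⟩)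
    have hPM : (P : Subgroup G) ≤ M := Subgroup.le_normalizer.trans hNM
    have c1 : Nat.card (Sylow p G) = (Subgroup.normalizer ((P : Subgroup G) : Set G)).index :=
      Sylow.card_eq_index_normalizer P
    have c2 : Nat.card (Sylow p M) =
        ((Subgroup.normalizer ((P : Subgroup G) : Set G)).relIndex M) := by
      rw [Sylow.card_eq_index_normalizer (P.subtype hPM)]
      show (Subgroup.normalizer ((((P : Subgroup G).subgroupOf M : Subgroup M)) : Set M)).index = _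
      rw [← Subgroup.subgroupOf_normalizer_eq hPM]
      rfl
    have c3 := Subgroup.relIndex_mul_index hNM
    have m1 := card_sylow_modEq_one p G
    have m2 := card_sylow_modEq_one p M
    rw [c1, ← c3] at m1
    rw [c2] at m2
    have m3 : M.index ≡ 1 [MOD p] := by
      have h3 := Nat.ModEq.mul_right M.index m2
      rw [one_mul] at h3
      exact h3.symm.trans m1
    unfold Nat.ModEq at m3
    rw [Nat.mod_eq_of_lt hpp.one_lt] at m3
    rcases Nat.lt_or_ge M.index p with hlt | hge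
    · rw [Nat.mod_eq_of_lt hlt] at m3
      rw [m3] at hq
      exact Nat.not_prime_one hq
    · have : M.index = p := le_antisymm hqle hge
      rw [this, Nat.mod_self] at m3
      exact absurd m3 (by norm_num)
  have hP1 : (P : Subgroup G) ≠ ⊥ := by
    intro hbot
    have hdvd : p ∣ Nat.card (P : Subgroup G) := by
      rw [Sylow.card_eq_multiplicity]
      exact dvd_pow_self p ((Nat.Prime.factorization_pos_of_dvd hpp Nat.card_pos.ne' hpd).ne')
    rw [hbot, Subgroup.card_bot] at hdvd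
    exact hpp.one_lt.ne' (Nat.dvd_one.mp hdvd)
  haveI : Group.IsSolvable G := Cfsg.Agent.S0580.result h
  obtain ⟨N, ⟨hNn, hN1, hNQ⟩, hNmin⟩ := Lib_helper1_Basic.exists_minimal_subgroup
    (fun N : Subgroup G => N.Normal ∧ N ≠ ⊥ ∧ N ≤ (P : Subgroup G)) ⟨P, hPn, hP1, le_rfl⟩
  have hmin : ∀ K : Subgroup G, K.Normal → K ≤ N → K = ⊥ ∨ K = N := by
    intro K hKn hKN
    by_cases hK1 : K = ⊥
    · exact Or.inl hK1
    · exact Or.inr (hNmin K ⟨hKn, hK1, hKN.trans hNQ⟩ hKN)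
  obtain ⟨hNab, r, hr, hNr⟩ := Lib_helper1_Hall.minimal_normal_elementary N hN1 hmin
  have hrp : r = p := by
    obtain ⟨x, hxN, hx1⟩ : ∃ x ∈ N, x ≠ 1 := by
      by_contra hcon
      push Not at hcon
      exact hN1 ((Subgroup.eq_bot_iff_forall N).mpr hcon)
    haveI : Fact r.Prime := ⟨hr⟩
    have ho : orderOf x = r := orderOf_eq_prime (hNr x hxN) hx1
    obtain ⟨k, hk⟩ := P.2 ⟨x, hNQ hxN⟩
    have hk' : x ^ p ^ k = 1 := by
      have := congrArg Subtype.val hk
      simpa using this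
    have hd : r ∣ p ^ k := ho ▸ orderOf_dvd_of_pow_eq_one hk'
    exact (Nat.prime_dvd_prime_iff_eq hr hpp).mp (hr.dvd_of_dvd_pow hd)
  subst hrp
  have hNc : (P : Subgroup G) ≤ Subgroup.centralizer (N : Set G) :=
    Lib_helper1_Socle.nilpotent_normal_le_centralizer_minimal (P : Subgroup G) P.2.isNilpotent N
      hN1 hmin
  obtain ⟨hc, hpw⟩ := partBCD h r P N hNQ hNc
  have hcard : Nat.card N = r := partE r N hN1 hNr hmin hc hpw
  haveI : IsCyclic N := isCyclic_of_prime_card hcard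
  apply Lib_helper1_SS.ss_of_cyclic_quotient N
  have hlt : Nat.card (G ⧸ N) < n := hn ▸ Lib_helper1_SS.card_quotient_lt N hN1
  apply ih _ hlt (G ⧸ N) rfl
  intro M hM
  have h1 := h _ (Subgroup.isCoatom_comap_of_surjective (QuotientGroup.mk'_surjective N) hM)
  rwa [Subgroup.index_comap_of_surjective _ (QuotientGroup.mk'_surjective N)] at h1

end Cfsg.Agent.Lib_helper1_Huppert
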