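import Cfsg.Agent.S0527
import Cfsg.Agent.S0579
import Cfsg.Agent.Lib_helper1_Huppert
import Cfsg.Agent.Lib_helper7_PIrr

set_option autoImplicit false

namespace Cfsg.Agent.Lib_helper1_HCLT

open Cfsg.Agent
open scoped Pointwise commutatorElement

universe u

theorem clt_of_equiv {A B : Type*} [Group A] [Group B] (e : A ≃* B)
    (h : Cfsg.HasSubgroupOfEveryOrder B) : Cfsg.HasSubgroupOfEveryOrder A := by
  intro d hd
  rw [Nat.card_congr e.toEquiv] at hd
  obtain ⟨X, hX⟩ := h d hd
  refine ⟨X.map e.symm.toMonoidHom, ?_⟩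
  rw [Subgroup.card_map_of_injective e.symm.injective]
  exact hX

theorem hered {G : Type*} [Group G] (h : ∀ H : Subgroup G, Cfsg.HasSubgroupOfEveryOrder H)
    (K : Subgroup G) : ∀ H' : Subgroup K, Cfsg.HasSubgroupOfEveryOrder H' := by
  intro H'
  exact clt_of_equiv (H'.equivMapOfInjective K.subtype K.subtype_injective) (h _)

theorem isCoatom_of_index_prime {G : Type*} [Group G] [Finite G] (L : Subgroup G)
    (h : L.index.Prime) : IsCoatom L := by
  constructor
  · intro hT
    rw [hT, Subgroup.index_top] at h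
    exact Nat.not_prime_one h
  · intro K hK
    have h1 := Subgroup.relIndex_mul_index hK.le
    rw [← Subgroup.index_eq_one]
    have h2 : L.relIndex K ∣ L.index := Dvd.intro _ h1
    rcases (Nat.dvd_prime h).mp h2 with h3 | h3
    · exfalso
      have := Subgroup.relIndex_eq_one.mp h3
      exact absurd this (not_le_of_gt hK)
    · rw [h3] at h1
      have hpos : 0 < L.index := h.pos
      have : L.index * K.index = L.index * 1 := by rw [h1, mul_one]
      exact Nat.eq_of_mul_eq_mul_left hpos this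

/-- second case of the maximal subgroup analysis. -/
theorem coatom_prime_aux {G : Type u} [Group G] [Finite G]
    (Q : Subgroup G) [hQn : Q.Normal] (L : Subgroup G)
    (hLss : Cfsg.IsSupersolvable L) (hQL : Q ⊔ L = ⊤) (hRn : (Q ⊓ L).Normal)
    (M : Subgroup G) (hM : IsCoatom M) (hQM : ¬ Q ≤ M) (hQQ : ⁅Q, Q⁆ ≤ M)
    (hRM : ¬ Q ⊓ L ≤ M) (A : Subgroup G) [hAn : A.Normal] (hA : A = Q ⊓ L ⊓ M) :
    M.index.Prime := by
  classical
  have c3 := M.card_mul_index
  have hMpos : 0 < Nat.card M := Nat.card_pos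
  have hAR : A ≤ Q ⊓ L := hA ▸ inf_le_left
  have hAM : A ≤ M := hA ▸ inf_le_right
  have hLbss : Cfsg.IsSupersolvable (L.map (QuotientGroup.mk' A)) :=
    Lib_helper1_SS.ss_of_surjective ((QuotientGroup.mk' A).subgroupMap L)
      ((QuotientGroup.mk' A).subgroupMap_surjective L) hLss
  haveI hRbn0 : ((Q ⊓ L).map (QuotientGroup.mk' A)).Normal :=
    Subgroup.Normal.map hRn _ (QuotientGroup.mk'_surjective _)
  have hRb1 : ((Q ⊓ L).map (QuotientGroup.mk' A)).subgroupOf (L.map (QuotientGroup.mk' A)) ≠ ⊥ := by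
    intro hb
    apply hRM
    have h1 : (Q ⊓ L).map (QuotientGroup.mk' A) ≤ L.map (QuotientGroup.mk' A) :=
      Subgroup.map_mono inf_le_right
    rw [Subgroup.subgroupOf_eq_bot, disjoint_iff, inf_of_le_left h1, Subgroup.map_eq_bot_iff,
      QuotientGroup.ker_mk'] at hb
    exact hb.trans hAM
  obtain ⟨N', hN'R, hN'n, hN'p⟩ := Lib_helper1_SS.exists_normal_prime_le hLbss _ hRb1
  obtain ⟨B, hBdef⟩ : ∃ B : Subgroup G,
      B = (N'.map (L.map (QuotientGroup.mk' A)).subtype).comap (QuotientGroup.mk' A) := ⟨_, rfl⟩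
  have hAB : A ≤ B := by rw [hBdef]; exact Lib_helper1_Hall.le_comap_mk'_of_le _ _
  have hBR : B ≤ Q ⊓ L := by
    intro b hb
    rw [hBdef, Subgroup.mem_comap] at hb
    obtain ⟨z, hz, hzb⟩ := hb
    have h1 := hN'R hz
    rw [Subgroup.mem_subgroupOf] at h1
    have h2 : QuotientGroup.mk' A b ∈ (Q ⊓ L).map (QuotientGroup.mk' A) := by
      rw [← hzb]; exact h1
    obtain ⟨r, hr, hrb⟩ := h2
    have h3 : r⁻¹ * b ∈ A := by
      rw [← QuotientGroup.eq_one_iff, ← QuotientGroup.mk'_apply, map_mul, map_inv, hrb]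
      group
    have := (Q ⊓ L).mul_mem hr (hAR h3)
    simpa using this
  have hBcard : Nat.card B = Nat.card A * Nat.card N' := by
    rw [hBdef, Lib_helper1_Hall.card_comap_mk',
      Subgroup.card_map_of_injective (Subgroup.subtype_injective _)]
  have hBn : B.Normal := by
    have hn1 : L ≤ Subgroup.normalizer (B : Set G) := by
      intro l hl
      apply Lib_helper7_Sylow.mem_normalizer_of_conj_le
      rintro _ ⟨b, hb, rfl⟩
      show l * b * l⁻¹ ∈ B
      have hb' : b ∈ B := hb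
      rw [hBdef, Subgroup.mem_comap] at hb' ⊢
      obtain ⟨z, hz, hzb⟩ := hb'
      refine ⟨⟨QuotientGroup.mk' A l, Subgroup.mem_map_of_mem _ hl⟩ * z *
        ⟨QuotientGroup.mk' A l, Subgroup.mem_map_of_mem _ hl⟩⁻¹, hN'n.conj_mem z hz _, ?_⟩
      rw [map_mul, map_mul, map_inv, map_mul, map_mul, map_inv, hzb]
      rfl
    have hn2 : Q ≤ Subgroup.normalizer (B : Set G) := by
      intro x hx
      apply Lib_helper7_Sylow.mem_normalizer_of_conj_le
      rintro _ ⟨b, hb, rfl⟩
      show x * b * x⁻¹ ∈ B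
      have hbR := hBR hb
      have h1 : ⁅x, b⁆ ∈ M := hQQ (Subgroup.commutator_mem_commutator hx hbR.1)
      have h2 : ⁅x, b⁆ ∈ Q ⊓ L := by
        rw [commutatorElement_def]
        exact (Q ⊓ L).mul_mem (hRn.conj_mem b hbR x) ((Q ⊓ L).inv_mem hbR)
      have h3 : x * b * x⁻¹ = ⁅x, b⁆ * b := by rw [commutatorElement_def]; group
      rw [h3]
      exact B.mul_mem (hAB (hA ▸ ⟨h2, h1⟩)) hb
    exact Subgroup.normalizer_eq_top_iff.mp (top_le_iff.mp (hQL ▸ sup_le hn2 hn1))
  have hApos : 0 < Nat.card A := Nat.card_pos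
  have hBM : ¬ B ≤ M := by
    intro hle
    have h1 : B ≤ A := hA ▸ le_inf hBR hle
    have h2 := Subgroup.card_le_of_le h1
    rw [hBcard] at h2
    have := hN'p.one_lt
    nlinarith
  have hBinf : B ⊓ M = A :=
    le_antisymm (hA ▸ le_inf (inf_le_left.trans hBR) inf_le_right) (le_inf hAB hAM)
  have hsupB : B ⊔ M = ⊤ := Lib_helper1_MaxSub.sup_eq_top_of_coatom hM hBM
  have c2 := Lib_helper1_ProdCard.card_mul_set B M
  have hBMuniv : ((B : Set G) * (M : Set G) : Set G) = Set.univ := by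
    haveI := hBn
    rw [← Subgroup.normal_mul, hsupB, Subgroup.coe_top]
  rw [hBMuniv, Nat.card_univ, hBinf, hBcard, ← c3] at c2
  have hidx : M.index = Nat.card N' := by
    have h3 : (Nat.card M * Nat.card A) * M.index = (Nat.card M * Nat.card A) * Nat.card N' := by
      rw [mul_right_comm, c2]; ring
    exact Nat.eq_of_mul_eq_mul_left (Nat.mul_pos hMpos hApos) h3
  rw [hidx]; exact hN'p


/-- maximal subgroups not containing the normal Sylow subgroup have prime index. -/
theorem coatom_prime_of_not_le {G : Type u} [Group G] [Finite G] (q : ℕ) [Fact q.Prime]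
    (Q : Subgroup G) [hQn : Q.Normal] (hQ : IsPGroup q Q) (L : Subgroup G)
    (hLss : Cfsg.IsSupersolvable L) (hQL : Q ⊔ L = ⊤) (hRn : (Q ⊓ L).Normal)
    (hcard : Nat.card Q = q * Nat.card (Q ⊓ L : Subgroup G))
    (M : Subgroup G) (hM : IsCoatom M) (hQM : ¬ Q ≤ M) : M.index.Prime := by
  classical
  have hq : q.Prime := Fact.out
  have hQQ : ⁅Q, Q⁆ ≤ M :=
    Lib_helper1_Socle.commutator_le_coatom_of_nilpotent_normal Q hQ.isNilpotent M hM
  have c3 := M.card_mul_index
  have hMpos : 0 < Nat.card M := Nat.card_pos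
  have hsup : Q ⊔ M = ⊤ := Lib_helper1_MaxSub.sup_eq_top_of_coatom hM hQM
  by_cases hRM : Q ⊓ L ≤ M
  · have c2 := Lib_helper1_ProdCard.card_mul_set Q M
    have hQMuniv : ((Q : Set G) * (M : Set G) : Set G) = Set.univ := by
      rw [← Subgroup.normal_mul, hsup, Subgroup.coe_top]
    rw [hQMuniv, Nat.card_univ] at c2
    have hRY : Q ⊓ L ≤ Q ⊓ M := le_inf inf_le_left hRM
    have hYQ : Q ⊓ M ≤ Q := inf_le_left
    have d1 : Nat.card (Q ⊓ L : Subgroup G) ∣ Nat.card (Q ⊓ M : Subgroup G) :=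
      Subgroup.card_dvd_of_le hRY
    have d2 : Nat.card (Q ⊓ M : Subgroup G) ∣ Nat.card Q := Subgroup.card_dvd_of_le hYQ
    have hne : Nat.card (Q ⊓ M : Subgroup G) ≠ Nat.card Q := by
      intro h
      exact hQM ((Subgroup.eq_of_le_of_card_ge hYQ h.ge) ▸ inf_le_right)
    obtain ⟨t, ht⟩ := d1
    have hRpos : 0 < Nat.card (Q ⊓ L : Subgroup G) := Nat.card_pos
    have ht1 : t = 1 := by
      rw [hcard, ht, mul_comm q] at d2
      have htq : t ∣ q := Nat.dvd_of_mul_dvd_mul_left hRpos d2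
      rcases (Nat.dvd_prime hq).mp htq with h | h
      · exact h
      · exfalso; apply hne; rw [ht, h, hcard, mul_comm]
    rw [ht1, mul_one] at ht
    have hidx : M.index = q := by
      rw [ht, hcard, ← c3] at c2
      have h3 : (Nat.card M * Nat.card (Q ⊓ L : Subgroup G)) * M.index =
          (Nat.card M * Nat.card (Q ⊓ L : Subgroup G)) * q := by
        rw [mul_right_comm, c2]; ring
      exact Nat.eq_of_mul_eq_mul_left (Nat.mul_pos hMpos hRpos) h3
    rw [hidx]; exact hq
  · have hAn : (Q ⊓ L ⊓ M).Normal := by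
      have hn1 : M ≤ Subgroup.normalizer ((Q ⊓ L ⊓ M : Subgroup G) : Set G) := by
        intro m hm
        apply Lib_helper7_Sylow.mem_normalizer_of_conj_le
        rintro _ ⟨y, hy, rfl⟩
        exact ⟨hRn.conj_mem y hy.1 m, M.mul_mem (M.mul_mem hm hy.2) (M.inv_mem hm)⟩
      have hn2 : Q ≤ Subgroup.normalizer ((Q ⊓ L ⊓ M : Subgroup G) : Set G) := by
        intro x hx
        apply Lib_helper7_Sylow.mem_normalizer_of_conj_le
        rintro _ ⟨y, hy, rfl⟩
        refine ⟨hRn.conj_mem y hy.1 x, ?_⟩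
        have h1 : ⁅x, y⁆ ∈ M := hQQ (Subgroup.commutator_mem_commutator hx hy.1.1)
        have h2 : x * y * x⁻¹ = ⁅x, y⁆ * y := by rw [commutatorElement_def]; group
        show x * y * x⁻¹ ∈ M
        rw [h2]; exact M.mul_mem h1 hy.2
      exact Subgroup.normalizer_eq_top_iff.mp (top_le_iff.mp (hsup ▸ sup_le hn2 hn1))
    exact coatom_prime_aux Q L hLss hQL hRn M hM hQM hQQ hRM (Q ⊓ L ⊓ M) rfl

/-- the Sylow subgroup for a suitable prime is normal. -/
theorem exists_normal_sylow {G : Type u} [Group G] [Finite G]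
    (hclt : ∀ d, d ∣ Nat.card G → ∃ H : Subgroup G, Nat.card H = d)
    (hprop : ∀ K : Subgroup G, K ≠ ⊤ → Cfsg.IsSupersolvable K)
    (hpg : ¬ ∃ p k : ℕ, p.Prime ∧ Nat.card G = p ^ k) :
    ∃ q : ℕ, ∃ _ : Fact q.Prime, ∃ Q : Sylow q G, (Q : Subgroup G).Normal ∧ q ∣ Nat.card G := by
  classical
  have h2 : Nat.card G ≠ 1 := fun h1 => hpg ⟨2, 0, Nat.prime_two, by rw [h1, pow_zero]⟩
  have hp₁ : (Nat.card G).minFac.Prime := Nat.minFac_prime h2
  obtain ⟨H, hH⟩ := hclt (Nat.card G / (Nat.card G).minFac)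
    (Nat.div_dvd_of_dvd (Nat.minFac_dvd _))
  have hdm := Nat.div_mul_cancel (Nat.minFac_dvd (Nat.card G))
  have hHpos : 0 < Nat.card H := Nat.card_pos
  have hHidx : H.index = (Nat.card G).minFac := by
    have h1 := H.card_mul_index
    rw [hH] at h1 hHpos
    have h3 : (Nat.card G / (Nat.card G).minFac) * H.index =
        (Nat.card G / (Nat.card G).minFac) * (Nat.card G).minFac := by rw [h1, hdm]
    exact Nat.eq_of_mul_eq_mul_left hHpos h3
  haveI hHn : H.Normal := Subgroup.normal_of_index_eq_minFac_card hHidx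
  have hHne : H ≠ ⊤ := by
    intro h
    rw [h, Subgroup.index_top] at hHidx
    exact hp₁.one_lt.ne hHidx
  have hHss := hprop H hHne
  have hcG : Nat.card G = Nat.card H * (Nat.card G).minFac := by rw [hH, hdm]
  have hH1 : 1 < Nat.card H := by
    by_contra hcon
    have : Nat.card H = 1 := by omega
    rw [this, one_mul] at hcG
    exact hpg ⟨_, 1, hp₁, by rw [pow_one]; exact hcG⟩
  obtain ⟨q, hq, hqd, hqmax⟩ := Lib_helper1_SS2.exists_largest_prime (Nat.card H) hH1
  haveI : Fact q.Prime := ⟨hq⟩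
  have hqG : q ∣ Nat.card G := hcG ▸ Dvd.dvd.mul_right hqd _
  have hqp : q ≠ (Nat.card G).minFac := by
    intro heq
    apply hpg
    have hH' : Nat.card H = (Nat.card G).minFac ^ (Nat.card H).primeFactorsList.length := by
      apply Nat.eq_prime_pow_of_unique_prime_dvd hHpos.ne'
      intro r hr hrd
      have h1 : r ≤ q := hqmax r hr hrd
      have h2 : (Nat.card G).minFac ≤ r :=
        Nat.minFac_le_of_dvd hr.two_le (hcG ▸ Dvd.dvd.mul_right hrd _)
      omega
    refine ⟨_, (Nat.card H).primeFactorsList.length + 1, hp₁, ?_⟩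
    rw [pow_succ, ← hH']
    exact hcG
  obtain ⟨P₀⟩ : Nonempty (Sylow q H) := inferInstance
  have hP₀n : (P₀ : Subgroup H).Normal := Lib_helper1_SS.sylow_largest_normal hHss q hqmax P₀
  have hcard : Nat.card ((P₀ : Subgroup H).map H.subtype) = q ^ (Nat.card G).factorization q := by
    rw [Subgroup.card_map_of_injective H.subtype_injective, Sylow.card_eq_multiplicity, hcG,
      Nat.factorization_mul hHpos.ne' hp₁.ne_zero]
    have : (Nat.card G).minFac.factorization q = 0 :=
      Nat.factorization_eq_zero_of_not_dvd ((Nat.prime_dvd_prime_iff_eq hq hp₁).not.mpr hqp)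
    simp [this]
  refine ⟨q, inferInstance, Sylow.ofCard _ hcard, ?_, hqG⟩
  rw [Sylow.coe_ofCard]
  have h1 := Sylow.normalizer_sup_eq_top P₀
  have h3 : H ≤ Subgroup.normalizer (((P₀ : Subgroup H).map H.subtype : Subgroup G) : Set G) := by
    intro x hx
    apply Lib_helper7_Sylow.mem_normalizer_of_conj_le
    rintro _ ⟨_, ⟨y, hy, rfl⟩, rfl⟩
    exact ⟨⟨x, hx⟩ * y * ⟨x, hx⟩⁻¹, hP₀n.conj_mem y hy _, rfl⟩
  rw [sup_eq_left.mpr h3] at h1
  exact Subgroup.normalizer_eq_top_iff.mp h1

theorem aux (n : ℕ) : ∀ (G : Type u) [Group G] [Finite G], Nat.card G = n →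
    (∀ H : Subgroup G, Cfsg.HasSubgroupOfEveryOrder H) → Cfsg.IsSupersolvable G := by
  induction n using Nat.strong_induction_on with
  | _ n ih =>
  intro G _ _ hn h
  have hprop : ∀ K : Subgroup G, K ≠ ⊤ → Cfsg.IsSupersolvable K := by
    intro K hK
    have hlt : Nat.card K < n := by
      rw [← hn]
      exact lt_of_le_of_ne (Subgroup.card_le_card_group K)
        (fun h => hK ((Subgroup.card_eq_iff_eq_top K).mp h))
    exact ih _ hlt K rfl (hered h K)
  have hclt : ∀ d, d ∣ Nat.card G → ∃ H : Subgroup G, Nat.card H = d := by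
    intro d hd
    obtain ⟨X, hX⟩ := h ⊤ d (by rwa [Subgroup.card_top])
    exact ⟨X.map (⊤ : Subgroup G).subtype,
      by rw [Subgroup.card_map_of_injective (Subgroup.subtype_injective _)]; exact hX⟩
  by_cases hpg : ∃ p k : ℕ, p.Prime ∧ Nat.card G = p ^ k
  · obtain ⟨p, k, hp, hk⟩ := hpg
    haveI : Fact p.Prime := ⟨hp⟩
    haveI : Group.IsNilpotent G := (IsPGroup.of_card hk).isNilpotent
    exact Lib_helper1_SS2.ss_of_nilpotent
  obtain ⟨q, hqf, Q, hQn, hqG⟩ := exists_normal_sylow hclt hprop hpg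
  have hq : q.Prime := hqf.out
  -- subgroup of index q
  obtain ⟨L, hL⟩ := hclt (Nat.card G / q) (Nat.div_dvd_of_dvd hqG)
  have hdm := Nat.div_mul_cancel hqG
  have hLpos : 0 < Nat.card L := Nat.card_pos
  have hLidx : L.index = q := by
    have h1 := L.card_mul_index
    rw [hL] at h1 hLpos
    have h3 : (Nat.card G / q) * L.index = (Nat.card G / q) * q := by rw [h1, hdm]
    exact Nat.eq_of_mul_eq_mul_left hLpos h3
  have hLco : IsCoatom L := isCoatom_of_index_prime L (hLidx ▸ hq)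
  have hLss := hprop L hLco.1
  have hQL' : ¬ (Q : Subgroup G) ≤ L := by
    intro hle
    have h1 : L.index ∣ (Q : Subgroup G).index := Subgroup.index_dvd_of_le hle
    rw [hLidx] at h1
    have h2 : q ∣ Nat.card (Q : Subgroup G) := by
      rw [Sylow.card_eq_multiplicity]
      exact dvd_pow_self q ((Nat.Prime.factorization_pos_of_dvd hq Nat.card_pos.ne' hqG).ne')
    have h3 : q ∣ Nat.gcd (Nat.card (Q : Subgroup G)) (Q : Subgroup G).index := Nat.dvd_gcd h2 h1
    rw [(Sylow.card_coprime_index Q).gcd_eq_one] at h3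
    exact hq.one_lt.ne' (Nat.dvd_one.mp h3)
  have hQL : (Q : Subgroup G) ⊔ L = ⊤ := Lib_helper1_MaxSub.sup_eq_top_of_coatom hLco hQL'
  have hA := Lib_helper1_Huppert.partA q (Q : Subgroup G) Q.2 L hLco (hLidx ▸ hq) hQL'
  have hRn := hA.1
  have hcard : Nat.card (Q : Subgroup G) = q * Nat.card ((Q : Subgroup G) ⊓ L : Subgroup G) := by
    have c2 := Lib_helper1_ProdCard.card_mul_set (Q : Subgroup G) L
    have hQLuniv : (((Q : Subgroup G) : Set G) * (L : Set G) : Set G) = Set.univ := by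
      rw [← Subgroup.normal_mul, hQL, Subgroup.coe_top]
    have c3 := L.card_mul_index
    rw [hQLuniv, Nat.card_univ, ← c3, hLidx] at c2
    have h5 : Nat.card L * (q * Nat.card ((Q : Subgroup G) ⊓ L : Subgroup G)) =
        Nat.card L * Nat.card (Q : Subgroup G) := by rw [← mul_assoc, c2, mul_comm]
    exact (Nat.eq_of_mul_eq_mul_left hLpos h5).symm
  have hsurj : Function.Surjective ((QuotientGroup.mk' (Q : Subgroup G)).comp L.subtype) := by
    intro x
    obtain ⟨g, rfl⟩ := QuotientGroup.mk'_surjective _ x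
    have hg : g ∈ (Q : Subgroup G) ⊔ L := by rw [hQL]; exact Subgroup.mem_top g
    rw [← SetLike.mem_coe, Subgroup.normal_mul] at hg
    obtain ⟨a, ha, l, hl, rfl⟩ := hg
    refine ⟨⟨l, hl⟩, ?_⟩
    show QuotientGroup.mk' _ l = QuotientGroup.mk' _ (a * l)
    rw [map_mul, QuotientGroup.mk'_apply, QuotientGroup.mk'_apply,
      (QuotientGroup.eq_one_iff a).mpr ha, one_mul]
  have hquot : Cfsg.IsSupersolvable (G ⧸ (Q : Subgroup G)) :=
    Lib_helper1_SS.ss_of_surjective _ hsurj hLss
  apply Cfsg.Agent.S0579.result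
  intro M hM
  by_cases hQM : (Q : Subgroup G) ≤ M
  · have hco := Lib_helper7_PIrr.isCoatom_map_mk (Q : Subgroup G) M hQM hM
    have e : (M.map (QuotientGroup.mk' (Q : Subgroup G))).comap
        (QuotientGroup.mk' (Q : Subgroup G)) = M := by
      rw [Subgroup.comap_map_eq, QuotientGroup.ker_mk', sup_eq_left.mpr hQM]
    rw [← e, Subgroup.index_comap_of_surjective _ (QuotientGroup.mk'_surjective _)]
    exact Cfsg.Agent.S0527.result hquot _ hco
  · exact coatom_prime_of_not_le q (Q : Subgroup G) Q.2 L hLss hQL hRn hcard M hM hQM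

end Cfsg.Agent.Lib_helper1_HCLT
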