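import Cfsg.Agent.Lib_helper1_Basic
import Cfsg.Agent.Lib_helper1_Hall

set_option autoImplicit false

namespace Cfsg.Agent.Lib_helper1_Kegel

open Cfsg.Agent Cfsg.Agent.Lib_helper1_Basic
open scoped Pointwise

/-- If `X C` and `Y C` are subgroups then so is `⟨X, Y⟩ C`. -/
theorem perm_sup {G : Type*} [Group G] (X Y C : Subgroup G)
    (hX : ∃ S : Subgroup G, (S : Set G) = (X : Set G) * (C : Set G))
    (hY : ∃ S : Subgroup G, (S : Set G) = (Y : Set G) * (C : Set G)) :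
    ∃ T : Subgroup G, (T : Set G) = ((X ⊔ Y : Subgroup G) : Set G) * (C : Set G) := by
  have swap : ∀ Z : Subgroup G, (∃ S : Subgroup G, (S : Set G) = (Z : Set G) * (C : Set G)) →
      ∀ z ∈ Z, ∀ c ∈ C, (∃ c' ∈ C, ∃ z' ∈ Z, z * c = c' * z') ∧
        (∃ z' ∈ Z, ∃ c' ∈ C, c * z = z' * c') := by
    rintro Z ⟨S, hS⟩ z hz c hc
    have mem : ∀ g, g ∈ S ↔ ∃ z' ∈ Z, ∃ c' ∈ C, z' * c' = g := by
      intro g; rw [← SetLike.mem_coe, hS, Set.mem_mul]; rfl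
    constructor
    · have h1 : (z * c)⁻¹ ∈ S := S.inv_mem ((mem _).mpr ⟨z, hz, c, hc, rfl⟩)
      obtain ⟨z₁, hz₁, c₁, hc₁, e⟩ := (mem _).mp h1
      refine ⟨c₁⁻¹, C.inv_mem hc₁, z₁⁻¹, Z.inv_mem hz₁, ?_⟩
      rw [← mul_inv_rev, e, inv_inv]
    · have h1 : z⁻¹ * c⁻¹ ∈ S := (mem _).mpr ⟨z⁻¹, Z.inv_mem hz, c⁻¹, C.inv_mem hc, rfl⟩
      have h2 := S.inv_mem h1
      rw [mul_inv_rev, inv_inv, inv_inv] at h2
      obtain ⟨z₁, hz₁, c₁, hc₁, e⟩ := (mem _).mp h2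
      exact ⟨z₁, hz₁, c₁, hc₁, e.symm⟩
  have key : ∀ w ∈ X ⊔ Y, ∀ c ∈ C, (∃ c' ∈ C, ∃ w' ∈ X ⊔ Y, w * c = c' * w') ∧
      (∃ w' ∈ X ⊔ Y, ∃ c' ∈ C, c * w = w' * c') := by
    intro w hw
    have hw' : w ∈ Subgroup.closure ((X : Set G) ∪ (Y : Set G)) := by
      rw [Subgroup.closure_union, Subgroup.closure_eq, Subgroup.closure_eq]; exact hw
    induction hw' using Subgroup.closure_induction with
    | mem u hu =>
      intro c hc
      rcases hu with hu | hu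
      · obtain ⟨⟨c', hc', z', hz', e⟩, ⟨z'', hz'', c'', hc'', e'⟩⟩ := swap X hX u hu c hc
        exact ⟨⟨c', hc', z', Subgroup.mem_sup_left hz', e⟩,
          ⟨z'', Subgroup.mem_sup_left hz'', c'', hc'', e'⟩⟩
      · obtain ⟨⟨c', hc', z', hz', e⟩, ⟨z'', hz'', c'', hc'', e'⟩⟩ := swap Y hY u hu c hc
        exact ⟨⟨c', hc', z', Subgroup.mem_sup_right hz', e⟩,
          ⟨z'', Subgroup.mem_sup_right hz'', c'', hc'', e'⟩⟩
    | one =>
      intro c hc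
      exact ⟨⟨c, hc, 1, Subgroup.one_mem _, by simp⟩, ⟨1, Subgroup.one_mem _, c, hc, by simp⟩⟩
    | mul u v hu hv ihu ihv =>
      have hu' : u ∈ X ⊔ Y := by
        rw [← Subgroup.closure_eq X, ← Subgroup.closure_eq Y, ← Subgroup.closure_union]; exact hu
      have hv' : v ∈ X ⊔ Y := by
        rw [← Subgroup.closure_eq X, ← Subgroup.closure_eq Y, ← Subgroup.closure_union]; exact hv
      intro c hc
      constructor
      · obtain ⟨c₁, hc₁, v₁, hv₁, e1⟩ := (ihv hv' c hc).1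
        obtain ⟨c₂, hc₂, u₁, hu₁, e2⟩ := (ihu hu' c₁ hc₁).1
        refine ⟨c₂, hc₂, u₁ * v₁, Subgroup.mul_mem _ hu₁ hv₁, ?_⟩
        rw [mul_assoc, e1, ← mul_assoc, e2, mul_assoc]
      · obtain ⟨u₁, hu₁, c₁, hc₁, e1⟩ := (ihu hu' c hc).2
        obtain ⟨v₁, hv₁, c₂, hc₂, e2⟩ := (ihv hv' c₁ hc₁).2
        refine ⟨u₁ * v₁, Subgroup.mul_mem _ hu₁ hv₁, c₂, hc₂, ?_⟩
        rw [← mul_assoc, e1, mul_assoc, e2, mul_assoc]
    | inv u hu ih =>
      have hu' : u ∈ X ⊔ Y := by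
        rw [← Subgroup.closure_eq X, ← Subgroup.closure_eq Y, ← Subgroup.closure_union]; exact hu
      intro c hc
      constructor
      · obtain ⟨u₁, hu₁, c₁, hc₁, e⟩ := (ih hu' c⁻¹ (C.inv_mem hc)).2
        refine ⟨c₁⁻¹, C.inv_mem hc₁, u₁⁻¹, Subgroup.inv_mem _ hu₁, ?_⟩
        rw [← mul_inv_rev, ← e, mul_inv_rev, inv_inv]
      · obtain ⟨c₁, hc₁, u₁, hu₁, e⟩ := (ih hu' c⁻¹ (C.inv_mem hc)).1
        refine ⟨u₁⁻¹, Subgroup.inv_mem _ hu₁, c₁⁻¹, C.inv_mem hc₁, ?_⟩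
        rw [← mul_inv_rev, ← e, mul_inv_rev, inv_inv]
  refine ⟨{ carrier := ((X ⊔ Y : Subgroup G) : Set G) * (C : Set G)
            mul_mem' := ?_
            one_mem' := ?_
            inv_mem' := ?_ }, rfl⟩
  · intro a b ha hb
    rw [Set.mem_mul] at ha hb ⊢
    obtain ⟨w₁, hw₁, c₁, hc₁, rfl⟩ := ha
    obtain ⟨w₂, hw₂, c₂, hc₂, rfl⟩ := hb
    obtain ⟨w', hw', c', hc', e⟩ := (key w₂ hw₂ c₁ hc₁).2
    refine ⟨w₁ * w', Subgroup.mul_mem _ hw₁ hw', c' * c₂, C.mul_mem hc' hc₂, ?_⟩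
    calc w₁ * w' * (c' * c₂) = w₁ * (w' * c') * c₂ := by group
      _ = w₁ * (c₁ * w₂) * c₂ := by rw [e]
      _ = w₁ * c₁ * (w₂ * c₂) := by group
  · rw [Set.mem_mul]
    exact ⟨1, Subgroup.one_mem _, 1, C.one_mem, by simp⟩
  · intro a ha
    rw [Set.mem_mul] at ha ⊢
    obtain ⟨w, hw, c, hc, rfl⟩ := ha
    obtain ⟨w', hw', c', hc', e⟩ := (key w⁻¹ (Subgroup.inv_mem _ hw) c⁻¹ (C.inv_mem hc)).2
    exact ⟨w', hw', c', hc', by rw [← e, mul_inv_rev]⟩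


/-- conjugating a product decomposition. -/
theorem conj_prod {G : Type*} [Group G] (b : G) (S X C : Subgroup G)
    (hS : (S : Set G) = (X : Set G) * (C : Set G)) :
    ((MulAut.conj b • S : Subgroup G) : Set G) =
      ((MulAut.conj b • X : Subgroup G) : Set G) * ((MulAut.conj b • C : Subgroup G) : Set G) := by
  ext g
  rw [SetLike.mem_coe, mem_conj_smul, ← SetLike.mem_coe, hS, Set.mem_mul, Set.mem_mul]
  constructor
  · rintro ⟨x, hx, c, hc, e⟩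
    refine ⟨b * x * b⁻¹, conj_mem_conj_smul X b x hx, b * c * b⁻¹, conj_mem_conj_smul C b c hc, ?_⟩
    calc b * x * b⁻¹ * (b * c * b⁻¹) = b * (x * c) * b⁻¹ := by group
      _ = b * (b⁻¹ * g * b) * b⁻¹ := by rw [e]
      _ = g := by group
  · rintro ⟨x, hx, c, hc, e⟩
    rw [SetLike.mem_coe, mem_conj_smul] at hx hc
    refine ⟨_, hx, _, hc, ?_⟩
    rw [← e]; group

/-- **Kegel's lemma.** -/
theorem kegel {G : Type*} [Group G] [Finite G] (A B : Subgroup G)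
    (h : ∀ x : G, ∃ S : Subgroup G, S ≠ ⊤ ∧
      (S : Set G) = (A : Set G) * ((MulAut.conj x • B : Subgroup G) : Set G)) :
    ∃ N : Subgroup G, N.Normal ∧ N ≠ ⊤ ∧ (A ≤ N ∨ B ≤ N) := by
  classical
  obtain ⟨X, ⟨hAX, hX⟩, hXmax⟩ := exists_maximal_subgroup
    (fun X : Subgroup G => A ≤ X ∧ ∀ x : G, ∃ S : Subgroup G, S ≠ ⊤ ∧
      (S : Set G) = (X : Set G) * ((MulAut.conj x • B : Subgroup G) : Set G)) ⟨A, le_rfl, h⟩
  by_cases hnX : Subgroup.normalClosure (X : Set G) = ⊤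
  swap
  · exact ⟨_, inferInstance, hnX, Or.inl (hAX.trans Subgroup.le_normalClosure)⟩
  by_cases hnB : Subgroup.normalClosure (B : Set G) = ⊤
  swap
  · exact ⟨_, inferInstance, hnB, Or.inr Subgroup.le_normalClosure⟩
  exfalso
  -- some element of a conjugate of `B` does not normalize `X`
  obtain ⟨x, b, hb, hbN⟩ : ∃ x b, b ∈ MulAut.conj x • B ∧
      b ∉ Subgroup.normalizer (X : Set G) := by
    by_contra hcon
    push Not at hcon
    have h1 : Subgroup.normalClosure (B : Set G) ≤ Subgroup.normalizer (X : Set G) := by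
      rw [Subgroup.normalClosure, Subgroup.closure_le]
      intro u hu
      obtain ⟨a, ha, hau⟩ := Group.mem_conjugatesOfSet_iff.mp hu
      obtain ⟨c, rfl⟩ := isConj_iff.mp hau
      exact hcon c _ (conj_mem_conj_smul B c a ha)
    rw [hnB, top_le_iff] at h1
    haveI : X.Normal := Subgroup.normalizer_eq_top_iff.mp h1
    rw [Subgroup.normalClosure_eq_self] at hnX
    obtain ⟨S, hS1, hS⟩ := hX 1
    apply hS1
    rw [eq_top_iff, ← hnX]
    intro u hu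
    rw [← SetLike.mem_coe, hS, Set.mem_mul]
    exact ⟨u, hu, 1, Subgroup.one_mem _, mul_one u⟩
  obtain ⟨H, hH1, hH⟩ := hX x
  have memH : ∀ g, g ∈ H ↔ ∃ u ∈ X, ∃ c ∈ MulAut.conj x • B, u * c = g := by
    intro g; rw [← SetLike.mem_coe, hH, Set.mem_mul]; rfl
  have hXH : X ≤ H := fun u hu => (memH u).mpr ⟨u, hu, 1, Subgroup.one_mem _, mul_one u⟩
  have hBH : MulAut.conj x • B ≤ H := fun c hc => (memH c).mpr ⟨1, X.one_mem, c, hc, one_mul c⟩
  have hbH : b ∈ H := hBH hb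
  have hbXH : MulAut.conj b • X ≤ H := by
    intro u hu
    rw [mem_conj_smul] at hu
    have := H.mul_mem (H.mul_mem hbH (hXH hu)) (H.inv_mem hbH)
    have e : b * (b⁻¹ * u * b) * b⁻¹ = u := by group
    rwa [e] at this
  have hXsH : X ⊔ MulAut.conj b • X ≤ H := sup_le hXH hbXH
  -- `X*` is strictly bigger
  have hXlt : X ⊔ MulAut.conj b • X ≠ X := by
    intro he
    apply hbN
    apply mem_normalizer_of_conj_le
    intro u hu
    have : b * u * b⁻¹ ∈ X ⊔ MulAut.conj b • X :=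
      Subgroup.mem_sup_right (conj_mem_conj_smul X b u hu)
    rw [he] at this
    exact this
  -- permutability of `X*`
  have hperm : ∀ y : G, ∃ T : Subgroup G, (T : Set G) =
      ((X ⊔ MulAut.conj b • X : Subgroup G) : Set G) * ((MulAut.conj y • B : Subgroup G) : Set G) := by
    intro y
    apply perm_sup
    · obtain ⟨S, -, hS⟩ := hX y
      exact ⟨S, hS⟩
    · obtain ⟨S, -, hS⟩ := hX (b⁻¹ * y)
      refine ⟨MulAut.conj b • S, ?_⟩
      rw [conj_prod b S X _ hS, Lib_helper1_Hall.conj_smul_conj_smul]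
      congr 3
      group
  -- by maximality some product is everything
  obtain ⟨y, T, hT, hTtop⟩ : ∃ y : G, ∃ T : Subgroup G, (T : Set G) =
      ((X ⊔ MulAut.conj b • X : Subgroup G) : Set G) * ((MulAut.conj y • B : Subgroup G) : Set G) ∧
      T = ⊤ := by
    by_contra hcon
    push Not at hcon
    apply hXlt
    apply hXmax _ ⟨hAX.trans le_sup_left, ?_⟩ le_sup_left
    intro y
    obtain ⟨T, hT⟩ := hperm y
    exact ⟨T, hcon y T hT, hT⟩
  -- hence `H * B^y = G`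
  have hall : ∀ g : G, ∃ t ∈ H, ∃ c ∈ MulAut.conj y • B, t * c = g := by
    intro g
    have hg : g ∈ (T : Set G) := by rw [hTtop]; exact Subgroup.mem_top g
    rw [hT, Set.mem_mul] at hg
    obtain ⟨u, hu, c, hc, e⟩ := hg
    exact ⟨u, hXsH hu, c, hc, e⟩
  obtain ⟨t, ht, c, hc, e⟩ := hall (y * x⁻¹)⁻¹
  -- every element of `B^y` lies in `H`
  have hByH : MulAut.conj y • B ≤ H := by
    intro u hu
    -- `v = c⁻¹ u c ∈ B^y`
    have hv : c⁻¹ * u * c ∈ MulAut.conj y • B :=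
      Subgroup.mul_mem _ (Subgroup.mul_mem _ (Subgroup.inv_mem _ hc) hu) hc
    rw [mem_conj_smul] at hv
    -- `w = x (y⁻¹ v y) x⁻¹ ∈ B^x ≤ H`
    have hw : x * (y⁻¹ * (c⁻¹ * u * c) * y) * x⁻¹ ∈ H := hBH (conj_mem_conj_smul B x _ hv)
    have hz : y * x⁻¹ = c⁻¹ * t⁻¹ := by
      rw [← mul_inv_rev, e, inv_inv]
    have hxy : x * y⁻¹ = t * c := by
      have := congrArg (fun g => g⁻¹) hz
      simpa [mul_inv_rev] using this
    have e2 : x * (y⁻¹ * (c⁻¹ * u * c) * y) * x⁻¹ = (x * y⁻¹) * (c⁻¹ * u * c) * (y * x⁻¹) := by group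
    rw [e2, hxy, hz] at hw
    have e3 : t * c * (c⁻¹ * u * c) * (c⁻¹ * t⁻¹) = t * u * t⁻¹ := by group
    rw [e3] at hw
    have := H.mul_mem (H.mul_mem (H.inv_mem ht) hw) ht
    have e4 : t⁻¹ * (t * u * t⁻¹) * t = u := by group
    rwa [e4] at this
  apply hH1
  rw [eq_top_iff]
  intro g _
  obtain ⟨t', ht', c', hc', rfl⟩ := hall g
  exact H.mul_mem ht' (hByH hc')

end Cfsg.Agent.Lib_helper1_Kegel
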