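import Cfsg.Agent.Lib_helper1_Hall
import Cfsg.Agent.Lib_helper1_Kegel
import Cfsg.Agent.Lib_helper1_ProdCard
import Cfsg.Agent.Lib_helper1_Coprime

set_option autoImplicit false

namespace Cfsg.Agent.Lib_helper1_HallPerm

open Cfsg.Agent Cfsg.Agent.Lib_helper1_Basic
open scoped Pointwise

universe u

/-- normal Hall subgroups of the factors of a solvable factorized group permute. -/
theorem base {G : Type u} [Group G] [Finite G] [Group.IsSolvable G] (H K A B : Subgroup G)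
    (hHK : ∀ g : G, ∃ h ∈ H, ∃ k ∈ K, g = h * k) (hA : A ≤ H) (hAn : (A.subgroupOf H).Normal)
    (hB : B ≤ K) (hBn : (B.subgroupOf K).Normal) (hAh : (Nat.card A).Coprime A.index)
    (hBh : (Nat.card B).Coprime B.index) :
    ∃ S : Subgroup G, (S : Set G) = (A : Set G) * (B : Set G) := by
  classical
  have hAconj : ∀ h ∈ H, ∀ a ∈ A, h * a * h⁻¹ ∈ A := by
    intro h hh a ha
    have := hAn.conj_mem ⟨a, hA ha⟩ (Subgroup.mem_subgroupOf.mpr ha) ⟨h, hh⟩
    exact Subgroup.mem_subgroupOf.mp this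
  have hBconj : ∀ k ∈ K, ∀ b ∈ B, k * b * k⁻¹ ∈ B := by
    intro k hk b hb
    have := hBn.conj_mem ⟨b, hB hb⟩ (Subgroup.mem_subgroupOf.mpr hb) ⟨k, hk⟩
    exact Subgroup.mem_subgroupOf.mp this
  have hldvd : Nat.lcm (Nat.card A) (Nat.card B) ∣ Nat.card G :=
    Nat.lcm_dvd (Subgroup.card_subgroup_dvd_card A) (Subgroup.card_subgroup_dvd_card B)
  have hG : Nat.card G = Nat.lcm (Nat.card A) (Nat.card B) *
      (Nat.card G / Nat.lcm (Nat.card A) (Nat.card B)) := (Nat.mul_div_cancel' hldvd).symm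
  have hlpos : 0 < Nat.lcm (Nat.card A) (Nat.card B) := Nat.lcm_pos Nat.card_pos Nat.card_pos
  have aux : ∀ X : Subgroup G, (Nat.card X).Coprime X.index →
      Nat.card X ∣ Nat.lcm (Nat.card A) (Nat.card B) →
      (Nat.card X).Coprime (Nat.card G / Nat.lcm (Nat.card A) (Nat.card B)) := by
    intro X hX hd
    obtain ⟨c, hc⟩ := hd
    have h1 := X.card_mul_index
    have h2 : X.index = c * (Nat.card G / Nat.lcm (Nat.card A) (Nat.card B)) := by
      have h3 : Nat.card X * X.index =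
          Nat.card X * (c * (Nat.card G / Nat.lcm (Nat.card A) (Nat.card B))) := by
        rw [h1, ← mul_assoc, ← hc]; exact hG
      exact Nat.eq_of_mul_eq_mul_left Nat.card_pos h3
    exact Nat.Coprime.coprime_dvd_right (Dvd.intro_left _ h2.symm) hX
  have hca := aux A hAh (Nat.dvd_lcm_left _ _)
  have hcb := aux B hBh (Nat.dvd_lcm_right _ _)
  have hcl : (Nat.lcm (Nat.card A) (Nat.card B)).Coprime
      (Nat.card G / Nat.lcm (Nat.card A) (Nat.card B)) :=
    Nat.Coprime.coprime_dvd_left (Nat.lcm_dvd (dvd_mul_right _ _) (dvd_mul_left _ _))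
      (Nat.Coprime.mul_left hca hcb)
  obtain ⟨S₁, hS₁, hAS₁⟩ := Lib_helper1_Hall.hall_dominance _ _ hG hcl A hca
  obtain ⟨S₂, hS₂, hBS₂⟩ := Lib_helper1_Hall.hall_dominance _ _ hG hcl B hcb
  obtain ⟨g, hg⟩ := Lib_helper1_Hall.hall_conj _ _ hG hcl S₁ S₂ hS₁ hS₂
  obtain ⟨h', hh', k', hk', e⟩ := hHK g⁻¹
  have hg' : g = k'⁻¹ * h'⁻¹ := by rw [← mul_inv_rev, ← e, inv_inv]
  -- S' := conj h'⁻¹ • S₁
  have hAS : A ≤ MulAut.conj h'⁻¹ • S₁ := by
    intro a ha
    rw [mem_conj_smul]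
    have := hAconj h' hh' a ha
    simpa using hAS₁ this
  have hBS : B ≤ MulAut.conj h'⁻¹ • S₁ := by
    intro b hb
    rw [mem_conj_smul]
    have h1 : k'⁻¹ * b * k'⁻¹⁻¹ ∈ B := hBconj k'⁻¹ (K.inv_mem hk') b hb
    have h2 := hBS₂ h1
    rw [← hg, mem_conj_smul, hg'] at h2
    have e2 : (k'⁻¹ * h'⁻¹)⁻¹ * (k'⁻¹ * b * k'⁻¹⁻¹) * (k'⁻¹ * h'⁻¹) = h'⁻¹⁻¹ * b * h'⁻¹ := by group
    rwa [e2] at h2
  refine ⟨MulAut.conj h'⁻¹ • S₁, ?_⟩
  symm
  apply Set.eq_of_subset_of_ncard_le _ _ (Set.toFinite _)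
  · rintro _ ⟨a, ha, b, hb, rfl⟩
    exact Subgroup.mul_mem _ (hAS ha) (hBS hb)
  · have c1 := Lib_helper1_ProdCard.card_mul_set A B
    have hd : Nat.card (A ⊓ B : Subgroup G) ∣ Nat.gcd (Nat.card A) (Nat.card B) :=
      Nat.dvd_gcd (Subgroup.card_dvd_of_le inf_le_left) (Subgroup.card_dvd_of_le inf_le_right)
    have hgpos : 0 < Nat.gcd (Nat.card A) (Nat.card B) := Nat.gcd_pos_of_pos_left _ Nat.card_pos
    have hle := Nat.le_of_dvd hgpos hd
    have hgl := Nat.gcd_mul_lcm (Nat.card A) (Nat.card B)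
    rw [← Nat.card_coe_set_eq, ← Nat.card_coe_set_eq]
    show Nat.card (MulAut.conj h'⁻¹ • S₁ : Subgroup G) ≤ _
    rw [Lib_helper1_Hall.card_conj_smul, hS₁]
    by_contra hlt
    push Not at hlt
    have h3 : Nat.card ((A : Set G) * (B : Set G) : Set G) * Nat.card (A ⊓ B : Subgroup G) <
        Nat.lcm (Nat.card A) (Nat.card B) * Nat.gcd (Nat.card A) (Nat.card B) :=
      Nat.mul_lt_mul_of_lt_of_le hlt hle hgpos
    rw [c1, mul_comm (Nat.lcm _ _), hgl] at h3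
    exact lt_irrefl _ h3

theorem main {G : Type u} [Group G] [Finite G] [Group.IsSolvable G] (H K A B : Subgroup G)
    (hHK : ∀ g : G, ∃ h ∈ H, ∃ k ∈ K, g = h * k) (hA : A ≤ H) (hAn : (A.subgroupOf H).Normal)
    (hB : B ≤ K) (hBn : (B.subgroupOf K).Normal) (hAh : (Nat.card A).Coprime A.index)
    (hBh : (Nat.card B).Coprime B.index) (x y : G) :
    ∃ S : Subgroup G, (S : Set G) =
      ((MulAut.conj x • A : Subgroup G) : Set G) * ((MulAut.conj y • B : Subgroup G) : Set G) := by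
  obtain ⟨S, hS⟩ := base H K A B hHK hA hAn hB hBn hAh hBh
  have hAconj : ∀ h ∈ H, MulAut.conj h • A = A := by
    intro h hh
    apply Lib_helper1_Coprime.conj_smul_eq_of_mem_normalizer
    apply mem_normalizer_of_conj_le
    intro a ha
    have := hAn.conj_mem ⟨a, hA ha⟩ (Subgroup.mem_subgroupOf.mpr ha) ⟨h, hh⟩
    exact Subgroup.mem_subgroupOf.mp this
  have hBconj : ∀ k ∈ K, MulAut.conj k • B = B := by
    intro k hk
    apply Lib_helper1_Coprime.conj_smul_eq_of_mem_normalizer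
    apply mem_normalizer_of_conj_le
    intro b hb
    have := hBn.conj_mem ⟨b, hB hb⟩ (Subgroup.mem_subgroupOf.mpr hb) ⟨k, hk⟩
    exact Subgroup.mem_subgroupOf.mp this
  obtain ⟨h, hh, k, hk, e⟩ := hHK (x⁻¹ * y)
  -- `x * h = y * k⁻¹ =: u`
  refine ⟨MulAut.conj (x * h) • S, ?_⟩
  rw [Lib_helper1_Kegel.conj_prod (x * h) S A B hS]
  have e1 : MulAut.conj (x * h) • A = MulAut.conj x • A := by
    rw [← Lib_helper1_Hall.conj_smul_conj_smul, hAconj h hh]
  have e2 : MulAut.conj (x * h) • B = MulAut.conj y • B := by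
    have : x * h = y * k⁻¹ := by
      have h1 : y = x * (x⁻¹ * y) := by group
      rw [h1, e]; group
    rw [this, ← Lib_helper1_Hall.conj_smul_conj_smul, hBconj k⁻¹ (K.inv_mem hk)]
  rw [e1, e2]

end Cfsg.Agent.Lib_helper1_HallPerm
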