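import Cfsg.Agent.Lib_helper1_Basic

set_option autoImplicit false

namespace Cfsg.Agent.Lib_helper1_Ito

open scoped commutatorElement

variable {G : Type*} [Group G]

theorem comm_mul_right_of_comm (a b' x : G) (hx : x * a = a * x) : ⁅a, b' * x⁆ = ⁅a, b'⁆ := by
  simp only [commutatorElement_def]
  have h1 : x * a⁻¹ = a⁻¹ * x := by
    have : a⁻¹ * (x * a) * a⁻¹ = a⁻¹ * (a * x) * a⁻¹ := by rw [hx]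
    calc x * a⁻¹ = a⁻¹ * (a * x) * a⁻¹ := by group
      _ = a⁻¹ * (x * a) * a⁻¹ := by rw [hx]
      _ = a⁻¹ * x := by group
  calc a * (b' * x) * a⁻¹ * (b' * x)⁻¹ = a * b' * (x * a⁻¹) * x⁻¹ * b'⁻¹ := by group
    _ = a * b' * (a⁻¹ * x) * x⁻¹ * b'⁻¹ := by rw [h1]
    _ = a * b' * a⁻¹ * b'⁻¹ := by group

theorem comm_mul_left_of_comm (a' y b' : G) (hy : y * b' = b' * y) : ⁅a' * y, b'⁆ = ⁅a', b'⁆ := by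
  simp only [commutatorElement_def]
  calc a' * y * b' * (a' * y)⁻¹ * b'⁻¹ = a' * (y * b') * y⁻¹ * a'⁻¹ * b'⁻¹ := by group
    _ = a' * (b' * y) * y⁻¹ * a'⁻¹ * b'⁻¹ := by rw [hy]
    _ = a' * b' * a'⁻¹ * b'⁻¹ := by group

theorem conj_comm (g x y : G) : g * ⁅x, y⁆ * g⁻¹ = ⁅g * x * g⁻¹, g * y * g⁻¹⁆ := by
  simp only [commutatorElement_def]; group

theorem conj_eq_of_comm (g x : G) (h : g * x = x * g) : g * x * g⁻¹ = x := by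
  rw [h]; group

/-- The key computation in Itô's theorem. -/
theorem ito_key (A B : Subgroup G) [IsMulCommutative A] [IsMulCommutative B]
    (hAB : ∀ g : G, ∃ a ∈ A, ∃ b ∈ B, g = a * b) (a a₁ b b₁ : G) (ha : a ∈ A) (ha₁ : a₁ ∈ A)
    (hb : b ∈ B) (hb₁ : b₁ ∈ B) :
    (b₁ * a₁) * ⁅a, b⁆ * (b₁ * a₁)⁻¹ = (a₁ * b₁) * ⁅a, b⁆ * (a₁ * b₁)⁻¹ := by
  -- `a₁ b a₁⁻¹ = b₂ a₂`
  obtain ⟨a₂', ha₂', b₂', hb₂', h2⟩ := hAB (a₁ * b * a₁⁻¹)⁻¹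
  have h2' : a₁ * b * a₁⁻¹ = b₂'⁻¹ * a₂'⁻¹ := by
    have : a₁ * b * a₁⁻¹ = ((a₁ * b * a₁⁻¹)⁻¹)⁻¹ := by group
    rw [this, h2]; group
  -- `b₁ a b₁⁻¹ = a₃ b₃`
  obtain ⟨a₃, ha₃, b₃, hb₃, h3⟩ := hAB (b₁ * a * b₁⁻¹)
  have e1 : a₁ * a * a₁⁻¹ = a := conj_eq_of_comm a₁ a (setLike_mul_comm ha₁ ha)
  have e2 : b₁ * b₂'⁻¹ * b₁⁻¹ = b₂'⁻¹ :=
    conj_eq_of_comm b₁ _ (setLike_mul_comm hb₁ (B.inv_mem hb₂'))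
  have e3 : b₁ * b * b₁⁻¹ = b := conj_eq_of_comm b₁ b (setLike_mul_comm hb₁ hb)
  have e4 : a₁ * a₃ * a₁⁻¹ = a₃ := conj_eq_of_comm a₁ a₃ (setLike_mul_comm ha₁ ha₃)
  have lhs : (b₁ * a₁) * ⁅a, b⁆ * (b₁ * a₁)⁻¹ = ⁅a₃, b₂'⁻¹⁆ := by
    calc (b₁ * a₁) * ⁅a, b⁆ * (b₁ * a₁)⁻¹ = b₁ * (a₁ * ⁅a, b⁆ * a₁⁻¹) * b₁⁻¹ := by group
      _ = b₁ * ⁅a, b₂'⁻¹ * a₂'⁻¹⁆ * b₁⁻¹ := by rw [conj_comm, e1, h2']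
      _ = b₁ * ⁅a, b₂'⁻¹⁆ * b₁⁻¹ := by
          rw [comm_mul_right_of_comm a b₂'⁻¹ a₂'⁻¹ (setLike_mul_comm (A.inv_mem ha₂') ha)]
      _ = ⁅a₃ * b₃, b₂'⁻¹⁆ := by rw [conj_comm, h3, e2]
      _ = ⁅a₃, b₂'⁻¹⁆ :=
          comm_mul_left_of_comm a₃ b₃ b₂'⁻¹ (setLike_mul_comm hb₃ (B.inv_mem hb₂'))
  have rhs : (a₁ * b₁) * ⁅a, b⁆ * (a₁ * b₁)⁻¹ = ⁅a₃, b₂'⁻¹⁆ := by
    calc (a₁ * b₁) * ⁅a, b⁆ * (a₁ * b₁)⁻¹ = a₁ * (b₁ * ⁅a, b⁆ * b₁⁻¹) * a₁⁻¹ := by group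
      _ = a₁ * ⁅a₃ * b₃, b⁆ * a₁⁻¹ := by rw [conj_comm, h3, e3]
      _ = a₁ * ⁅a₃, b⁆ * a₁⁻¹ := by
          rw [comm_mul_left_of_comm a₃ b₃ b (setLike_mul_comm hb₃ hb)]
      _ = ⁅a₃, b₂'⁻¹ * a₂'⁻¹⁆ := by rw [conj_comm, e4, h2']
      _ = ⁅a₃, b₂'⁻¹⁆ :=
          comm_mul_right_of_comm a₃ b₂'⁻¹ a₂'⁻¹ (setLike_mul_comm (A.inv_mem ha₂') ha₃)
  rw [lhs, rhs]

/-- Commutators `⁅a, b⁆` with `a ∈ A`, `b ∈ B` commute pairwise. -/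
theorem ito_commute (A B : Subgroup G) [IsMulCommutative A] [IsMulCommutative B]
    (hAB : ∀ g : G, ∃ a ∈ A, ∃ b ∈ B, g = a * b) (a a₁ b b₁ : G) (ha : a ∈ A) (ha₁ : a₁ ∈ A)
    (hb : b ∈ B) (hb₁ : b₁ ∈ B) : ⁅a₁, b₁⁆ * ⁅a, b⁆ = ⁅a, b⁆ * ⁅a₁, b₁⁆ := by
  have key := ito_key A B hAB a a₁⁻¹ b b₁⁻¹ ha (A.inv_mem ha₁) hb (B.inv_mem hb₁)
  -- `⁅b₁, a₁⁆` commutes with `⁅a, b⁆`
  have h1 : ⁅b₁, a₁⁆ * ⁅a, b⁆ = ⁅a, b⁆ * ⁅b₁, a₁⁆ := by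
    have e : ⁅b₁, a₁⁆ = (a₁⁻¹ * b₁⁻¹)⁻¹ * (b₁⁻¹ * a₁⁻¹) := by
      simp only [commutatorElement_def]; group
    rw [e]
    calc (a₁⁻¹ * b₁⁻¹)⁻¹ * (b₁⁻¹ * a₁⁻¹) * ⁅a, b⁆
        = (a₁⁻¹ * b₁⁻¹)⁻¹ * ((b₁⁻¹ * a₁⁻¹) * ⁅a, b⁆ * (b₁⁻¹ * a₁⁻¹)⁻¹) * (b₁⁻¹ * a₁⁻¹) := by group
      _ = (a₁⁻¹ * b₁⁻¹)⁻¹ * ((a₁⁻¹ * b₁⁻¹) * ⁅a, b⁆ * (a₁⁻¹ * b₁⁻¹)⁻¹) * (b₁⁻¹ * a₁⁻¹) := by
          rw [key]
      _ = ⁅a, b⁆ * ((a₁⁻¹ * b₁⁻¹)⁻¹ * (b₁⁻¹ * a₁⁻¹)) := by group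
  have h2 : ⁅a₁, b₁⁆ = ⁅b₁, a₁⁆⁻¹ := (commutatorElement_inv b₁ a₁).symm
  rw [h2]
  calc ⁅b₁, a₁⁆⁻¹ * ⁅a, b⁆ = ⁅b₁, a₁⁆⁻¹ * (⁅a, b⁆ * ⁅b₁, a₁⁆) * ⁅b₁, a₁⁆⁻¹ := by group
    _ = ⁅b₁, a₁⁆⁻¹ * (⁅b₁, a₁⁆ * ⁅a, b⁆) * ⁅b₁, a₁⁆⁻¹ := by rw [h1]
    _ = ⁅a, b⁆ * ⁅b₁, a₁⁆⁻¹ := by group

/-- `[A, B]` is abelian. -/
theorem ito_commutator_abelian (A B : Subgroup G) [IsMulCommutative A] [IsMulCommutative B]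
    (hAB : ∀ g : G, ∃ a ∈ A, ∃ b ∈ B, g = a * b) : ⁅⁅A, B⁆, ⁅A, B⁆⁆ = ⊥ := by
  rw [Subgroup.commutator_eq_bot_iff_le_centralizer, Subgroup.commutator_le]
  intro a ha b hb
  rw [Subgroup.mem_centralizer_iff]
  intro h hh
  have hle : ⁅A, B⁆ ≤ Subgroup.centralizer ({⁅a, b⁆} : Set G) := by
    rw [Subgroup.commutator_le]
    intro a₁ ha₁ b₁ hb₁
    rw [Subgroup.mem_centralizer_iff]
    intro x hx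
    rw [Set.mem_singleton_iff] at hx
    rw [hx]
    exact (ito_commute A B hAB a a₁ b b₁ ha ha₁ hb hb₁).symm
  have := Subgroup.mem_centralizer_iff.mp (hle hh) ⁅a, b⁆ (Set.mem_singleton _)
  exact this.symm

/-- Conjugation by `A` preserves `[A, B]`. -/
theorem conj_mem_commutator_left (A B : Subgroup G) (x : G) (hx : x ∈ A) (m : G)
    (hm : m ∈ ⁅A, B⁆) : x * m * x⁻¹ ∈ ⁅A, B⁆ := by
  have : ⁅A, B⁆ ≤ (⁅A, B⁆).comap (MulAut.conj x).toMonoidHom := by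
    rw [Subgroup.commutator_le]
    intro k hk a ha
    rw [Subgroup.mem_comap]
    show x * ⁅k, a⁆ * x⁻¹ ∈ ⁅A, B⁆
    have e : x * ⁅k, a⁆ * x⁻¹ = ⁅x * k, a⁆ * ⁅x, a⁆⁻¹ := by
      simp only [commutatorElement_def]; group
    rw [e]
    exact Subgroup.mul_mem _ (Subgroup.commutator_mem_commutator (A.mul_mem hx hk) ha)
      (Subgroup.inv_mem _ (Subgroup.commutator_mem_commutator hx ha))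
  exact this hm

/-- If `G = AB` with `A`, `B` abelian then `G' ≤ [A, B]`. -/
theorem commutator_le_of_prod (A B : Subgroup G) [IsMulCommutative A] [IsMulCommutative B]
    (hAB : ∀ g : G, ∃ a ∈ A, ∃ b ∈ B, g = a * b) : ⁅(⊤ : Subgroup G), ⊤⁆ ≤ ⁅A, B⁆ := by
  rw [Subgroup.commutator_le]
  intro g _ g' _
  obtain ⟨a, ha, b, hb, rfl⟩ := hAB g
  obtain ⟨a', ha', b', hb', rfl⟩ := hAB g'
  have hbb : b * b' = b' * b := setLike_mul_comm hb hb'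
  have haa : a * a' = a' * a := setLike_mul_comm ha ha'
  have e : ⁅a * b, a' * b'⁆ = (a * ⁅b, a'⁆ * a⁻¹) * (a' * ⁅a, b'⁆ * a'⁻¹) := by
    simp only [commutatorElement_def]
    calc a * b * (a' * b') * (a * b)⁻¹ * (a' * b')⁻¹
        = a * b * a' * (b' * b⁻¹) * a⁻¹ * b'⁻¹ * a'⁻¹ := by group
      _ = a * b * a' * (b⁻¹ * b') * a⁻¹ * b'⁻¹ * a'⁻¹ := by
          have : b' * b⁻¹ = b⁻¹ * b' := by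
            calc b' * b⁻¹ = b⁻¹ * (b * b') * b⁻¹ := by group
              _ = b⁻¹ * (b' * b) * b⁻¹ := by rw [hbb]
              _ = b⁻¹ * b' := by group
          rw [this]
      _ = a * (b * a' * b⁻¹ * a'⁻¹) * a⁻¹ * ((a * a') * b' * a⁻¹ * b'⁻¹ * a'⁻¹) := by group
      _ = a * (b * a' * b⁻¹ * a'⁻¹) * a⁻¹ * ((a' * a) * b' * a⁻¹ * b'⁻¹ * a'⁻¹) := by rw [haa]
      _ = a * (b * a' * b⁻¹ * a'⁻¹) * a⁻¹ * (a' * (a * b' * a⁻¹ * b'⁻¹) * a'⁻¹) := by group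
  rw [e]
  apply Subgroup.mul_mem
  · apply conj_mem_commutator_left A B a ha
    have : ⁅b, a'⁆ = ⁅a', b⁆⁻¹ := (commutatorElement_inv a' b).symm
    rw [this]
    exact Subgroup.inv_mem _ (Subgroup.commutator_mem_commutator ha' hb)
  · exact conj_mem_commutator_left A B a' ha' _ (Subgroup.commutator_mem_commutator ha hb')

/-- Itô's theorem. -/
theorem ito (A B : Subgroup G) [IsMulCommutative A] [IsMulCommutative B]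
    (hAB : ∀ g : G, ∃ a ∈ A, ∃ b ∈ B, g = a * b) : derivedSeries G 2 = ⊥ := by
  have h1 : derivedSeries G 1 ≤ ⁅A, B⁆ := commutator_le_of_prod A B hAB
  rw [eq_bot_iff, derivedSeries_succ, ← ito_commutator_abelian A B hAB]
  exact Subgroup.commutator_mono h1 h1

end Cfsg.Agent.Lib_helper1_Ito
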