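import Cfsg.Agent.Lib_helper1_Ito
import Cfsg.Agent.Lib_helper1_Basic

set_option autoImplicit false

namespace Cfsg.Agent.Lib_helper1_ItoCore

open Cfsg.Agent
open scoped commutatorElement

theorem card_range_eq_of_fibers {α β γ : Type*} (f : α → β) (g : α → γ)
    (h : ∀ x y, f x = f y ↔ g x = g y) : Nat.card (Set.range f) = Nat.card (Set.range g) := by
  have hk : Setoid.ker f = Setoid.ker g := Setoid.ext (fun x y => h x y)
  calc Nat.card (Set.range f) = Nat.card (Quotient (Setoid.ker f)) :=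
        Nat.card_congr (Setoid.quotientKerEquivRange f).symm
    _ = Nat.card (Quotient (Setoid.ker g)) := by rw [hk]
    _ = Nat.card (Set.range g) := Nat.card_congr (Setoid.quotientKerEquivRange g)

theorem conj_eq_iff {G : Type*} [Group G] (g g' s : G) :
    g * s * g⁻¹ = g' * s * g'⁻¹ ↔ (g'⁻¹ * g) * s = s * (g'⁻¹ * g) := by
  constructor
  · intro h
    calc g'⁻¹ * g * s = g'⁻¹ * (g * s * g⁻¹) * g := by group
      _ = g'⁻¹ * (g' * s * g'⁻¹) * g := by rw [h]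
      _ = s * (g'⁻¹ * g) := by group
  · intro hu
    calc g * s * g⁻¹ = g' * (g'⁻¹ * g * s) * g⁻¹ := by group
      _ = g' * (s * (g'⁻¹ * g)) * g⁻¹ := by rw [hu]
      _ = g' * s * g'⁻¹ := by group

/-- invariance of the commutator set. -/
theorem key_invariant {G : Type*} [Group G] (A B : Subgroup G) [IsMulCommutative A]
    [IsMulCommutative B] (hAB : ∀ g : G, ∃ a ∈ A, ∃ b ∈ B, g = a * b) (n₀ : G) :
    ∀ a ∈ A, ∀ b ∈ B, ∃ b' ∈ B, a * ⁅n₀, b⁆ * a⁻¹ = ⁅n₀, b'⁆ := by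
  intro a ha b hb
  obtain ⟨x', hx', b₁, hb₁, e⟩ := hAB n₀
  obtain ⟨a'', ha'', b'', hb'', e2⟩ := hAB (a * b)⁻¹
  refine ⟨b''⁻¹, B.inv_mem hb'', ?_⟩
  have hab : a * b = b''⁻¹ * a''⁻¹ := by rw [← mul_inv_rev, ← e2, inv_inv]
  have dag : ∀ β ∈ B, β * x'⁻¹ * β⁻¹ = x'⁻¹ * ⁅n₀, β⁆ := by
    intro β hβ
    have hc : β * b₁ = b₁ * β := setLike_mul_comm hβ hb₁
    rw [commutatorElement_def, e]
    have h3 : x'⁻¹ * (x' * b₁ * β * (x' * b₁)⁻¹ * β⁻¹) = (b₁ * β) * b₁⁻¹ * x'⁻¹ * β⁻¹ := by group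
    rw [h3, ← hc]; group
  have h1 := dag b hb
  have h2 := dag b''⁻¹ (B.inv_mem hb'')
  have hax : a * x'⁻¹ = x'⁻¹ * a := setLike_mul_comm ha (A.inv_mem hx')
  have ha''x : a''⁻¹ * x'⁻¹ = x'⁻¹ * a''⁻¹ := setLike_mul_comm (A.inv_mem ha'') (A.inv_mem hx')
  have e3 : a * (b * x'⁻¹ * b⁻¹) * a⁻¹ = x'⁻¹ * (a * ⁅n₀, b⁆ * a⁻¹) := by
    rw [h1]
    calc a * (x'⁻¹ * ⁅n₀, b⁆) * a⁻¹ = (a * x'⁻¹) * ⁅n₀, b⁆ * a⁻¹ := by group
      _ = x'⁻¹ * a * ⁅n₀, b⁆ * a⁻¹ := by rw [hax]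
      _ = x'⁻¹ * (a * ⁅n₀, b⁆ * a⁻¹) := by group
  have e4 : a * (b * x'⁻¹ * b⁻¹) * a⁻¹ = x'⁻¹ * ⁅n₀, b''⁻¹⁆ := by
    calc a * (b * x'⁻¹ * b⁻¹) * a⁻¹ = (a * b) * x'⁻¹ * (a * b)⁻¹ := by group
      _ = (b''⁻¹ * a''⁻¹) * x'⁻¹ * (b''⁻¹ * a''⁻¹)⁻¹ := by rw [hab]
      _ = b''⁻¹ * (a''⁻¹ * x'⁻¹) * a'' * b'' := by group
      _ = b''⁻¹ * (x'⁻¹ * a''⁻¹) * a'' * b'' := by rw [ha''x]
      _ = b''⁻¹ * x'⁻¹ * b''⁻¹⁻¹ := by group
      _ = x'⁻¹ * ⁅n₀, b''⁻¹⁆ := h2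
  exact mul_left_cancel (e3.symm.trans e4)

theorem half {G : Type*} [Group G] [Finite G] (A B : Subgroup G) [IsMulCommutative A]
    [IsMulCommutative B] (hAB : ∀ g : G, ∃ a ∈ A, ∃ b ∈ B, g = a * b) (N : Subgroup G)
    [hNn : N.Normal]
    (hd : ∀ g : G, (∀ n ∈ N, g * n = n * g) ∨ (∀ n ∈ N, g * n = n * g → n = 1))
    (n₀ : G) (hn₀ : n₀ ∈ N) (hn₀1 : n₀ ≠ 1) (b₀ : G) (hb₀ : b₀ ∈ B)
    (hb₀N : ¬ ∀ n ∈ N, b₀ * n = n * b₀) :
    Nat.card (Set.range (fun a : A => ⁅n₀, (a : G)⁆)) + 1 ≤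
      Nat.card (Set.range (fun b : B => ⁅n₀, (b : G)⁆)) := by
  classical
  have hcent : ∀ u : G, ∀ t ∈ N, t ≠ 1 → (u * t = t * u ↔ ∀ n ∈ N, u * n = n * u) := by
    intro u t ht ht1
    constructor
    · intro h
      rcases hd u with h' | h'
      · exact h'
      · exact absurd (h' t ht h) ht1
    · intro h; exact h t ht
  have hs1 : ⁅n₀, b₀⁆ ≠ 1 := by
    intro h
    rw [commutatorElement_eq_one_iff_mul_comm] at h
    exact hb₀N ((hcent b₀ n₀ hn₀ hn₀1).mp h.symm)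
  have hsN : ⁅n₀, b₀⁆ ∈ N := by
    rw [commutatorElement_def]
    have := N.mul_mem hn₀ (hNn.conj_mem _ (N.inv_mem hn₀) b₀)
    rwa [← mul_assoc, ← mul_assoc] at this
  have hn₀i : n₀⁻¹ ∈ N := N.inv_mem hn₀
  have hn₀i1 : n₀⁻¹ ≠ 1 := fun h => hn₀1 (inv_eq_one.mp h)
  have hfib : ∀ a a' : A, ⁅n₀, (a : G)⁆ = ⁅n₀, (a' : G)⁆ ↔
      (a : G) * ⁅n₀, b₀⁆ * (a : G)⁻¹ = (a' : G) * ⁅n₀, b₀⁆ * (a' : G)⁻¹ := by
    intro a a'
    have e1 : ∀ g : G, ⁅n₀, g⁆ = n₀ * (g * n₀⁻¹ * g⁻¹) := fun g => by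
      rw [commutatorElement_def]; group
    rw [e1, e1, mul_left_cancel_iff, conj_eq_iff, hcent _ _ hn₀i hn₀i1, ← hcent _ _ hsN hs1,
      ← conj_eq_iff]
  have h1 := card_range_eq_of_fibers (fun a : A => ⁅n₀, (a : G)⁆)
    (fun a : A => (a : G) * ⁅n₀, b₀⁆ * (a : G)⁻¹) hfib
  rw [h1]
  have hsub : Set.range (fun a : A => (a : G) * ⁅n₀, b₀⁆ * (a : G)⁻¹) ⊆
      Set.range (fun b : B => ⁅n₀, (b : G)⁆) \ {1} := by
    rintro _ ⟨a, rfl⟩
    obtain ⟨b', hb', e⟩ := key_invariant A B hAB n₀ a a.2 b₀ hb₀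
    refine ⟨⟨⟨b', hb'⟩, e.symm⟩, ?_⟩
    intro h
    rw [Set.mem_singleton_iff] at h
    have h : (a : G) * ⁅n₀, b₀⁆ * (a : G)⁻¹ = 1 := h
    apply hs1
    have : ⁅n₀, b₀⁆ = (a : G)⁻¹ * ((a : G) * ⁅n₀, b₀⁆ * (a : G)⁻¹) * (a : G) := by group
    rw [this, h]; group
  have hone : (1 : G) ∈ Set.range (fun b : B => ⁅n₀, (b : G)⁆) :=
    ⟨1, by simp⟩
  have h2 := Set.ncard_diff_singleton_add_one hone (Set.toFinite _)
  have h3 := Set.ncard_le_ncard hsub (Set.toFinite _)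
  rw [Nat.card_coe_set_eq, Nat.card_coe_set_eq]
  omega


theorem cent_le {G : Type*} [Group G] (A B : Subgroup G) [IsMulCommutative A]
    [IsMulCommutative B] (hAB : ∀ g : G, ∃ a ∈ A, ∃ b ∈ B, g = a * b)
    (hZB : ∀ z ∈ B, (∀ g : G, g * z = z * g) → z = 1) :
    ∀ g : G, (∀ a ∈ A, g * a = a * g) → g ∈ A := by
  intro g hg
  obtain ⟨a, ha, b, hb, rfl⟩ := hAB g
  have hb1 : b = 1 := by
    apply hZB b hb
    intro g'
    obtain ⟨a', ha', b', hb', rfl⟩ := hAB g'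
    have h1 : b * a' = a' * b := by
      have h3 := hg a' ha'
      have hc : a' * a = a * a' := setLike_mul_comm ha' ha
      have h4 : a * (b * a') = a * (a' * b) := by
        rw [← mul_assoc, h3, ← mul_assoc, hc, mul_assoc]
      exact mul_left_cancel h4
    have h2 : b' * b = b * b' := setLike_mul_comm hb' hb
    calc a' * b' * b = a' * (b' * b) := mul_assoc _ _ _
      _ = a' * (b * b') := by rw [h2]
      _ = (a' * b) * b' := (mul_assoc _ _ _).symm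
      _ = (b * a') * b' := by rw [h1]
      _ = b * (a' * b') := mul_assoc _ _ _
  rw [hb1, mul_one]; exact ha

theorem dichotomy {G : Type*} [Group G] (N : Subgroup G) [hNn : N.Normal]
    (hmin : ∀ K : Subgroup G, K.Normal → K ≤ N → K = ⊥ ∨ K = N)
    (hNcomm : ∀ c ∈ commutator G, ∀ n ∈ N, c * n = n * c) :
    ∀ g : G, (∀ n ∈ N, g * n = n * g) ∨ (∀ n ∈ N, g * n = n * g → n = 1) := by
  intro g
  obtain ⟨K, hK⟩ : ∃ K : Subgroup G, ∀ n, n ∈ K ↔ (n ∈ N ∧ g * n = n * g) := by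
    refine ⟨{ carrier := {n | n ∈ N ∧ g * n = n * g}
              mul_mem' := ?_
              one_mem' := ⟨N.one_mem, by simp⟩
              inv_mem' := ?_ }, fun n => Iff.rfl⟩
    · rintro x y ⟨hx, hx'⟩ ⟨hy, hy'⟩
      exact ⟨N.mul_mem hx hy, by rw [← mul_assoc, hx', mul_assoc, hy', mul_assoc]⟩
    · rintro x ⟨hx, hx'⟩
      refine ⟨N.inv_mem hx, ?_⟩
      calc g * x⁻¹ = x⁻¹ * (x * g) * x⁻¹ := by group
        _ = x⁻¹ * (g * x) * x⁻¹ := by rw [hx']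
        _ = x⁻¹ * g := by group
  have hKn : K.Normal := by
    refine ⟨fun n hn h => ?_⟩
    rw [hK] at hn ⊢
    refine ⟨hNn.conj_mem n hn.1 h, ?_⟩
    have hc := hNcomm ⁅h⁻¹, g⁆ (Subgroup.commutator_mem_commutator (Subgroup.mem_top _)
      (Subgroup.mem_top _)) n hn.1
    rw [commutatorElement_def] at hc
    have e1 : h⁻¹ * g * h * n = n * (h⁻¹ * g * h) := by
      have e0 : h⁻¹ * g * h = (h⁻¹ * g * h⁻¹⁻¹ * g⁻¹) * g := by group
      rw [e0, mul_assoc, hn.2, ← mul_assoc, hc, mul_assoc]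
    calc g * (h * n * h⁻¹) = h * (h⁻¹ * g * h * n) * h⁻¹ := by group
      _ = h * (n * (h⁻¹ * g * h)) * h⁻¹ := by rw [e1]
      _ = h * n * h⁻¹ * g := by group
  have hKN : K ≤ N := fun n hn => ((hK n).mp hn).1
  rcases hmin K hKn hKN with h | h
  · right
    intro n hn hgn
    have : n ∈ K := (hK n).mpr ⟨hn, hgn⟩
    rw [h] at this
    exact Subgroup.mem_bot.mp this
  · left
    intro n hn
    rw [← h] at hn
    exact ((hK n).mp hn).2

theorem ito_core {G : Type*} [Group G] [Finite G] [Nontrivial G] (A B : Subgroup G)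
    [IsMulCommutative A] [IsMulCommutative B] (hAB : ∀ g : G, ∃ a ∈ A, ∃ b ∈ B, g = a * b) :
    ∃ N : Subgroup G, N.Normal ∧ N ≠ ⊥ ∧ (N ≤ A ∨ N ≤ B) := by
  classical
  by_contra hcon
  have hno : ∀ N : Subgroup G, N.Normal → N ≠ ⊥ → ¬ N ≤ A ∧ ¬ N ≤ B := by
    intro N hN hN1
    exact ⟨fun h => hcon ⟨N, hN, hN1, Or.inl h⟩, fun h => hcon ⟨N, hN, hN1, Or.inr h⟩⟩
  have hBA : ∀ g : G, ∃ b ∈ B, ∃ a ∈ A, g = b * a := by
    intro g
    obtain ⟨a, ha, b, hb, e⟩ := hAB g⁻¹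
    exact ⟨b⁻¹, B.inv_mem hb, a⁻¹, A.inv_mem ha, by rw [← mul_inv_rev, ← e, inv_inv]⟩
  have hZ : ∀ z : G, (∀ g, g * z = z * g) → (z ∈ A ∨ z ∈ B) → z = 1 := by
    intro z hz hzAB
    by_contra hz1
    have hn : (Subgroup.zpowers z).Normal := by
      refine ⟨fun y hy g => ?_⟩
      obtain ⟨k, rfl⟩ := Subgroup.mem_zpowers_iff.mp hy
      have : g * z ^ k * g⁻¹ = z ^ k := by
        rw [← conj_zpow, hz g, mul_inv_cancel_right]
      rw [this]; exact Subgroup.zpow_mem _ (Subgroup.mem_zpowers z) k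
    have hne : Subgroup.zpowers z ≠ ⊥ := by
      intro h
      apply hz1
      have := Subgroup.mem_zpowers z
      rw [h] at this
      exact Subgroup.mem_bot.mp this
    rcases hzAB with h | h
    · exact (hno _ hn hne).1 ((Subgroup.zpowers_le).mpr h)
    · exact (hno _ hn hne).2 ((Subgroup.zpowers_le).mpr h)
  have hCA := cent_le A B hAB (fun z hz hc => hZ z hc (Or.inr hz))
  have hCB := cent_le B A hBA (fun z hz hc => hZ z hc (Or.inl hz))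
  -- the commutator subgroup is nontrivial
  have hG' : commutator G ≠ ⊥ := by
    intro h
    have hcomm : ∀ x y : G, x * y = y * x := by
      intro x y
      have : ⁅x, y⁆ ∈ commutator G :=
        Subgroup.commutator_mem_commutator (Subgroup.mem_top _) (Subgroup.mem_top _)
      rw [h, Subgroup.mem_bot, commutatorElement_eq_one_iff_mul_comm] at this
      exact this
    have hA1 : ∀ a ∈ A, a = 1 := fun a ha => hZ a (fun g => hcomm g a) (Or.inl ha)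
    have hB1 : ∀ b ∈ B, b = 1 := fun b hb => hZ b (fun g => hcomm g b) (Or.inr hb)
    obtain ⟨g, hg⟩ := exists_ne (1 : G)
    obtain ⟨a, ha, b, hb, rfl⟩ := hAB g
    rw [hA1 a ha, hB1 b hb, mul_one] at hg
    exact hg rfl
  obtain ⟨N, ⟨hNn, hN1, hNG'⟩, hNmin⟩ := Lib_helper1_Basic.exists_minimal_subgroup
    (fun N : Subgroup G => N.Normal ∧ N ≠ ⊥ ∧ N ≤ commutator G)
    ⟨commutator G, inferInstance, hG', le_rfl⟩
  have hmin : ∀ K : Subgroup G, K.Normal → K ≤ N → K = ⊥ ∨ K = N := by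
    intro K hKn hKN
    by_cases hK1 : K = ⊥
    · exact Or.inl hK1
    · exact Or.inr (hNmin K ⟨hKn, hK1, hKN.trans hNG'⟩ hKN)
  have hNcomm : ∀ c ∈ commutator G, ∀ n ∈ N, c * n = n * c := by
    intro c hc n hn
    have h2 := Lib_helper1_Ito.ito A B hAB
    rw [derivedSeries_succ, derivedSeries_one] at h2
    have : ⁅c, n⁆ ∈ ⁅commutator G, commutator G⁆ :=
      Subgroup.commutator_mem_commutator hc (hNG' hn)
    rw [h2, Subgroup.mem_bot, commutatorElement_eq_one_iff_mul_comm] at this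
    exact this
  have hd := dichotomy N hmin hNcomm
  -- elements not centralizing `N`
  obtain ⟨a₀, ha₀, ha₀N⟩ : ∃ a₀ ∈ A, ¬ ∀ n ∈ N, a₀ * n = n * a₀ := by
    by_contra hc
    push Not at hc
    exact (hno N hNn hN1).1 (fun n hn => hCA n (fun a ha => (hc a ha n hn).symm))
  obtain ⟨b₀, hb₀, hb₀N⟩ : ∃ b₀ ∈ B, ¬ ∀ n ∈ N, b₀ * n = n * b₀ := by
    by_contra hc
    push Not at hc
    exact (hno N hNn hN1).2 (fun n hn => hCB n (fun b hb => (hc b hb n hn).symm))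
  obtain ⟨n₀, hn₀, hn₀1⟩ : ∃ n ∈ N, n ≠ 1 := by
    by_contra hc
    push Not at hc
    exact hN1 ((Subgroup.eq_bot_iff_forall N).mpr hc)
  have h1 := half A B hAB N hd n₀ hn₀ hn₀1 b₀ hb₀ hb₀N
  have h2 := half B A hBA N hd n₀ hn₀ hn₀1 a₀ ha₀ ha₀N
  omega

end Cfsg.Agent.Lib_helper1_ItoCore
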