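import Mathlib
import Cfsg.Prelude.Def_PLocal
import Cfsg.Prelude.Def_Local
import Cfsg.Agent.Lib_helper1_ZJ2
import Cfsg.Agent.Lib_helper1_ZJE

set_option autoImplicit false

/-! Functoriality of the Thompson subgroup `J_e(T)` (elementary abelian version) and of `Z(T)`. -/

namespace Cfsg.Agent.H1JE

open Cfsg.Agent.H1ZJ Cfsg.Agent.H1ZJ2 Cfsg.Agent.H1ZJE
open scoped commutatorElement Pointwise

/-- `U` is an elementary abelian subgroup of `S` of largest order. -/
def MaxElIn {G : Type*} [Group G] (p : ℕ) (S U : Subgroup G) : Prop :=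
  U ≤ S ∧ (∀ x ∈ U, ∀ y ∈ U, x * y = y * x) ∧ (∀ x ∈ U, x ^ p = 1) ∧
    ∀ B : Subgroup G, B ≤ S → (∀ x ∈ B, ∀ y ∈ B, x * y = y * x) → (∀ x ∈ B, x ^ p = 1) →
      Nat.card B ≤ Nat.card U

theorem maxElIn_of_maxEl {G : Type*} [Group G] (p : ℕ) (S : Subgroup G) (U₀ : Subgroup ↥S)
    (hU₀ : U₀ ∈ Cfsg.maxElementaryAbelianSubgroups p ↥S) : MaxElIn p S (U₀.map S.subtype) := by
  refine ⟨Subgroup.map_subtype_le U₀, comm_elem _ (map_comm _ _ hU₀.1.1), ?_, ?_⟩
  · rintro _ ⟨u, hu, rfl⟩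
    rw [← map_pow, hU₀.1.2 u hu, map_one]
  · intro B hBS hBc hBp
    have h0 : ∀ a ∈ B.subgroupOf S, a ^ p = 1 := by
      intro a ha
      apply Subtype.ext
      have := hBp a.1 (Subgroup.mem_subgroupOf.mp ha)
      simpa using this
    have h1 := hU₀.2 (B.subgroupOf S)
      ⟨H1GlaubFam.subgroupOf_comm _ _ (comm_of_elem B hBc), h0⟩
    rw [Subgroup.card_subtype]
    rw [Lib_helper1_Hall.card_subgroupOf_of_le hBS] at h1
    exact h1

theorem maxEl_of_maxElIn {G : Type*} [Group G] (p : ℕ) (S U : Subgroup G)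
    (hU : MaxElIn p S U) : U.subgroupOf S ∈ Cfsg.maxElementaryAbelianSubgroups p ↥S := by
  refine ⟨⟨H1GlaubFam.subgroupOf_comm _ _ (comm_of_elem U hU.2.1), ?_⟩, ?_⟩
  · intro a ha
    apply Subtype.ext
    have := hU.2.2.1 a.1 (Subgroup.mem_subgroupOf.mp ha)
    simpa using this
  · intro B₀ hB₀
    have h1 := hU.2.2.2 (B₀.map S.subtype) (Subgroup.map_subtype_le B₀)
      (comm_elem _ (map_comm _ _ hB₀.1)) (by
        rintro _ ⟨b, hb, rfl⟩
        rw [← map_pow, hB₀.2 b hb, map_one])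
    rw [Subgroup.card_subtype] at h1
    rw [Lib_helper1_Hall.card_subgroupOf_of_le hU.1]
    exact h1

theorem tsOf_eq {G : Type*} [Group G] (p : ℕ) (S : Subgroup G) :
    Cfsg.thompsonSubgroupOf p S = sSup {U | MaxElIn p S U} := by
  unfold Cfsg.thompsonSubgroupOf Cfsg.thompsonSubgroup
  apply le_antisymm
  · rw [Subgroup.map_le_iff_le_comap]
    apply sSup_le
    intro U₀ hU₀
    rw [← Subgroup.map_le_iff_le_comap]
    exact le_sSup (α := Subgroup G) (maxElIn_of_maxEl p S U₀ hU₀)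
  · apply sSup_le
    intro U hU
    have h1 := maxEl_of_maxElIn p S U hU
    have h2 : (U.subgroupOf S).map S.subtype ≤
        (sSup (Cfsg.maxElementaryAbelianSubgroups p ↥S)).map S.subtype :=
      Subgroup.map_mono (le_sSup (α := Subgroup ↥S) h1)
    rwa [Subgroup.map_subgroupOf_eq_of_le hU.1] at h2

theorem exists_maxElIn {G : Type*} [Group G] [Finite G] (p : ℕ) (S : Subgroup G) :
    ∃ U, MaxElIn p S U := by
  obtain ⟨U₀, hU₀⟩ := exists_maxEl p ↥S
  exact ⟨_, maxElIn_of_maxEl p S U₀ hU₀⟩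

theorem tsOf_le {G : Type*} [Group G] (p : ℕ) (S : Subgroup G) :
    Cfsg.thompsonSubgroupOf p S ≤ S :=
  Subgroup.map_subtype_le _

theorem comap_inf_pow {G G' : Type*} [Group G] [Group G'] (p : ℕ) (f : G →* G')
    (T : Subgroup G) (B' : Subgroup G') (hinj : ∀ x ∈ T, f x = 1 → x = 1)
    (hB'p : ∀ x ∈ B', x ^ p = 1) : ∀ x ∈ B'.comap f ⊓ T, x ^ p = 1 := by
  intro x hx
  obtain ⟨hx1, hx2⟩ := Subgroup.mem_inf.mp hx
  apply hinj _ (T.pow_mem hx2 p)
  rw [map_pow]; exact hB'p _ hx1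

theorem maxElIn_map {G G' : Type*} [Group G] [Group G'] (p : ℕ) (f : G →* G')
    (T U : Subgroup G) (hinj : ∀ x ∈ T, f x = 1 → x = 1) (hU : MaxElIn p T U) :
    MaxElIn p (T.map f) (U.map f) := by
  refine ⟨Subgroup.map_mono hU.1, ?_, ?_, ?_⟩
  · rintro _ ⟨x, hx, rfl⟩ _ ⟨y, hy, rfl⟩
    rw [← map_mul, ← map_mul, hU.2.1 x hx y hy]
  · rintro _ ⟨x, hx, rfl⟩
    rw [← map_pow, hU.2.2.1 x hx, map_one]
  · intro B' hB' hB'c hB'p
    obtain ⟨h1, h2⟩ := comap_inf_props f T B' hinj hB' hB'c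
    have h4 := hU.2.2.2 _ inf_le_right h2 (comap_inf_pow p f T B' hinj hB'p)
    rw [card_map_of_injOn f T U hU.1 hinj, ← h1, card_map_of_injOn f T _ inf_le_right hinj]
    exact h4

theorem maxElIn_comap {G G' : Type*} [Group G] [Group G'] (p : ℕ) (f : G →* G')
    (T : Subgroup G) (U' : Subgroup G') (hinj : ∀ x ∈ T, f x = 1 → x = 1)
    (hU' : MaxElIn p (T.map f) U') : MaxElIn p T (U'.comap f ⊓ T) := by
  obtain ⟨h1, h2⟩ := comap_inf_props f T U' hinj hU'.1 hU'.2.1
  refine ⟨inf_le_right, h2, comap_inf_pow p f T U' hinj hU'.2.2.1, ?_⟩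
  intro B hBT hBc hBp
  have h3 := hU'.2.2.2 (B.map f) (Subgroup.map_mono hBT) (by
    rintro _ ⟨x, hx, rfl⟩ _ ⟨y, hy, rfl⟩
    rw [← map_mul, ← map_mul, hBc x hx y hy]) (by
    rintro _ ⟨x, hx, rfl⟩
    rw [← map_pow, hBp x hx, map_one])
  rw [card_map_of_injOn f T B hBT hinj] at h3
  have h5 := card_map_of_injOn f T (U'.comap f ⊓ T) inf_le_right hinj
  rw [h1] at h5
  rw [← h5]; exact h3

/-- `J_e(T)` is carried to `J_e(f T)` by any homomorphism injective on `T`. -/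
theorem tsOf_map {G G' : Type*} [Group G] [Group G'] (p : ℕ) (f : G →* G')
    (T : Subgroup G) (hinj : ∀ x ∈ T, f x = 1 → x = 1) :
    (Cfsg.thompsonSubgroupOf p T).map f = Cfsg.thompsonSubgroupOf p (T.map f) := by
  rw [tsOf_eq, tsOf_eq]
  apply le_antisymm
  · rw [Subgroup.map_le_iff_le_comap]
    apply sSup_le
    intro U hU
    rw [← Subgroup.map_le_iff_le_comap]
    exact le_sSup (α := Subgroup G') (maxElIn_map p f T U hinj hU)
  · apply sSup_le
    intro U' hU'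
    have h1 := maxElIn_comap p f T U' hinj hU'
    obtain ⟨h2, -⟩ := comap_inf_props f T U' hinj hU'.1 hU'.2.1
    rw [← h2]
    exact Subgroup.map_mono (le_sSup (α := Subgroup G) h1)

theorem tsOf_normalizer {G : Type*} [Group G] [Finite G] (p : ℕ) (T : Subgroup G) :
    Subgroup.normalizer (T : Set G) ≤
      Subgroup.normalizer (Cfsg.thompsonSubgroupOf p T : Set G) := by
  intro g hg
  apply Lib_helper1_Basic.mem_normalizer_of_conj_le
  intro z hz
  have h1 : T.map (MulAut.conj g).toMonoidHom = T := by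
    ext y
    rw [Lib_helper7_Sylow.mem_map_conj]
    exact ((Subgroup.mem_normalizer_iff''.mp hg y)).symm
  have h2 := tsOf_map p (MulAut.conj g).toMonoidHom T (fun x _ hx => by simpa using hx)
  rw [h1] at h2
  rw [← h2]
  exact ⟨z, hz, rfl⟩

theorem tsOf_ne_bot {G : Type*} [Group G] [Finite G] {p : ℕ} [Fact p.Prime] (T : Subgroup G)
    (hT : IsPGroup p T) (hne : T ≠ ⊥) : Cfsg.thompsonSubgroupOf p T ≠ ⊥ := by
  obtain ⟨U, hU⟩ := exists_maxElIn p T
  haveI : Nontrivial ↥T := (Subgroup.nontrivial_iff_ne_bot T).mpr hne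
  have hp : p.Prime := Fact.out
  have hdvd : p ∣ Nat.card ↥T := by
    obtain ⟨k, hk⟩ := hT.exists_card_eq
    rw [hk]
    have hk0 : k ≠ 0 := by
      rintro rfl
      rw [pow_zero] at hk
      have := Finite.one_lt_card (α := ↥T)
      omega
    exact dvd_pow_self p hk0
  obtain ⟨z, hz⟩ := exists_prime_orderOf_dvd_card' p hdvd
  have hzo : orderOf (z : G) = p := by rw [Subgroup.orderOf_coe]; exact hz
  have hB := hU.2.2.2 (Subgroup.zpowers (z : G)) (by rw [Subgroup.zpowers_le]; exact z.2)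
    (by
      intro x hx y hy
      obtain ⟨a, rfl⟩ := Subgroup.mem_zpowers_iff.mp hx
      obtain ⟨b, rfl⟩ := Subgroup.mem_zpowers_iff.mp hy
      exact (Commute.zpow_zpow_self (z : G) a b).eq)
    (by
      intro x hx
      obtain ⟨a, rfl⟩ := Subgroup.mem_zpowers_iff.mp hx
      rw [← zpow_natCast, ← zpow_mul, mul_comm, zpow_mul, zpow_natCast, ← hzo,
        pow_orderOf_eq_one, one_zpow])
  rw [Nat.card_zpowers, hzo] at hB
  intro hbot
  have hUle : U ≤ Cfsg.thompsonSubgroupOf p T := by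
    rw [tsOf_eq]; exact le_sSup (α := Subgroup G) hU
  rw [hbot, le_bot_iff] at hUle
  rw [hUle, Subgroup.card_bot] at hB
  have := hp.two_le
  omega

theorem tsOf_eq_of_le {G : Type*} [Group G] [Finite G] (p : ℕ) (P H : Subgroup G)
    (hHP : H ≤ P) (h : ∀ U, MaxElIn p P U → U ≤ H) :
    Cfsg.thompsonSubgroupOf p P = Cfsg.thompsonSubgroupOf p H := by
  rw [tsOf_eq, tsOf_eq]
  have hiff : ∀ U, MaxElIn p P U ↔ MaxElIn p H U := by
    intro U
    constructor
    · intro hU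
      exact ⟨h U hU, hU.2.1, hU.2.2.1,
        fun B hB hBc hBp => hU.2.2.2 B (hB.trans hHP) hBc hBp⟩
    · intro hU
      obtain ⟨U₁, hU₁⟩ := exists_maxElIn p P
      have h1 := hU.2.2.2 U₁ (h U₁ hU₁) hU₁.2.1 hU₁.2.2.1
      exact ⟨hU.1.trans hHP, hU.2.1, hU.2.2.1,
        fun B hB hBc hBp => (hU₁.2.2.2 B hB hBc hBp).trans h1⟩
  congr 1
  ext U
  exact hiff U

/-! ### The centre `Z(T) = T ⊓ C(T)` -/

theorem zOf_map {G G' : Type*} [Group G] [Group G'] (f : G →* G') (T : Subgroup G)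
    (hinj : ∀ x ∈ T, f x = 1 → x = 1) :
    (T ⊓ Subgroup.centralizer (T : Set G)).map f =
      T.map f ⊓ Subgroup.centralizer ((T.map f : Subgroup G') : Set G') := by
  ext y
  constructor
  · rintro ⟨x, hx, rfl⟩
    obtain ⟨hxT, hxC⟩ := Subgroup.mem_inf.mp hx
    refine Subgroup.mem_inf.mpr ⟨Subgroup.mem_map_of_mem f hxT, ?_⟩
    rw [Subgroup.mem_centralizer_iff]
    rintro _ ⟨t, ht, rfl⟩
    rw [← map_mul, ← map_mul, Subgroup.mem_centralizer_iff.mp hxC t ht]
  · intro hy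
    obtain ⟨hyT, hyC⟩ := Subgroup.mem_inf.mp hy
    obtain ⟨x, hxT, rfl⟩ := hyT
    refine ⟨x, Subgroup.mem_inf.mpr ⟨hxT, ?_⟩, rfl⟩
    rw [Subgroup.mem_centralizer_iff]
    intro t ht
    have h1 := Subgroup.mem_centralizer_iff.mp hyC (f t) (Subgroup.mem_map_of_mem f ht)
    have h2 : f (t * x * (x * t)⁻¹) = 1 := by
      rw [map_mul, map_inv, map_mul, map_mul, h1, mul_inv_cancel]
    have h3 := hinj _ (T.mul_mem (T.mul_mem ht hxT) (T.inv_mem (T.mul_mem hxT ht))) h2
    exact mul_inv_eq_one.mp h3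

theorem zOf_ne_bot {G : Type*} [Group G] [Finite G] {p : ℕ} [Fact p.Prime] (T : Subgroup G)
    (hT : IsPGroup p T) (hne : T ≠ ⊥) : T ⊓ Subgroup.centralizer (T : Set G) ≠ ⊥ := by
  haveI : Nontrivial ↥T := (Subgroup.nontrivial_iff_ne_bot T).mpr hne
  haveI := hT.center_nontrivial
  obtain ⟨z, hz⟩ := exists_ne (1 : ↥(Subgroup.center ↥T))
  intro hbot
  have hzmem : ((z : ↥T) : G) ∈ T ⊓ Subgroup.centralizer (T : Set G) := by
    refine Subgroup.mem_inf.mpr ⟨(z : ↥T).2, ?_⟩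
    rw [Subgroup.mem_centralizer_iff]
    intro t ht
    have h1 := Subgroup.mem_center_iff.mp z.2 ⟨t, ht⟩
    exact congrArg Subtype.val h1
  rw [hbot, Subgroup.mem_bot] at hzmem
  apply hz
  apply Subtype.ext; apply Subtype.ext
  exact hzmem

/-- A `p'`-element normalizing an abelian `p`-group `A` and centralizing its elements of order
dividing `p` centralizes `A`. -/
theorem centralizes_of_centralizes_omega {G : Type*} [Group G] {p : ℕ}
    (A : Subgroup G) (hAc : ∀ a ∈ A, ∀ b ∈ A, a * b = b * a) (hAp : IsPGroup p A) (x : G)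
    (hxN : ∀ a ∈ A, x * a * x⁻¹ ∈ A) (t : ℕ) (ht : t.Coprime p) (hxt : x ^ t = 1)
    (hx1 : ∀ a ∈ A, a ^ p = 1 → x * a = a * x) :
    ∀ a ∈ A, x * a = a * x := by
  have key : ∀ k : ℕ, ∀ a ∈ A, a ^ p ^ k = 1 → x * a = a * x := by
    intro k
    induction k with
    | zero =>
      intro a _ ha
      rw [pow_zero, pow_one] at ha; rw [ha]; simp
    | succ k ih =>
      intro a haA ha
      have hb : x * a ^ p = a ^ p * x :=
        ih (a ^ p) (A.pow_mem haA p) (by rw [← pow_mul, ← pow_succ']; exact ha)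
      obtain ⟨c, hce⟩ : ∃ c, c = x * a * x⁻¹ * a⁻¹ := ⟨_, rfl⟩
      have hcA : c ∈ A := hce ▸ A.mul_mem (hxN a haA) (A.inv_mem haA)
      have hcp : c ^ p = 1 := by
        have h1 : Commute (x * a * x⁻¹) a⁻¹ := hAc _ (hxN a haA) _ (A.inv_mem haA)
        rw [hce, h1.mul_pow, conj_pow, inv_pow, hb]
        simp
      have hcc : Commute x c := hx1 c hcA hcp
      have hpow : ∀ j : ℕ, x ^ j * a * (x ^ j)⁻¹ = c ^ j * a := by
        intro j
        induction j with
        | zero => simp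
        | succ j ihj =>
          have hccj : x * c ^ j = c ^ j * x := (hcc.pow_right j).eq
          calc x ^ (j + 1) * a * (x ^ (j + 1))⁻¹
              = x * (x ^ j * a * (x ^ j)⁻¹) * x⁻¹ := by group
            _ = x * (c ^ j * a) * x⁻¹ := by rw [ihj]
            _ = (x * c ^ j) * (a * x⁻¹) := by group
            _ = (c ^ j * x) * (a * x⁻¹) := by rw [hccj]
            _ = c ^ j * (x * a * x⁻¹ * a⁻¹) * a := by group
            _ = c ^ (j + 1) * a := by rw [← hce, ← pow_succ]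
      have h2 := hpow t
      rw [hxt] at h2
      have h3 : c ^ t = 1 := by
        have : c ^ t * a = 1 * a := by rw [← h2]; group
        exact mul_right_cancel this
      have h4 : c = 1 := by
        have hd1 : orderOf c ∣ t := orderOf_dvd_of_pow_eq_one h3
        have hd2 : orderOf c ∣ p := orderOf_dvd_of_pow_eq_one hcp
        have h5 := Nat.dvd_gcd hd1 hd2
        rw [Nat.Coprime] at ht
        rw [ht, Nat.dvd_one] at h5
        exact orderOf_eq_one_iff.mp h5
      rw [hce] at h4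
      calc x * a = (x * a * x⁻¹ * a⁻¹) * (a * x) := by group
        _ = a * x := by rw [h4, one_mul]
  intro a haA
  obtain ⟨k, hk⟩ := hAp ⟨a, haA⟩
  have hk' : a ^ p ^ k = 1 := by
    have := congrArg Subtype.val hk
    simpa using this
  exact key k a haA hk'

end Cfsg.Agent.H1JE
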