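import Mathlib

set_option autoImplicit false

namespace Cfsg.Agent.Lib_helper1_Maschke

/-- Maschke-type averaging: under a coprime action on a finite abelian group, an invariant
subgroup that has a complement has an invariant complement. -/
theorem maschke {V : Type*} [CommGroup V] [Finite V] {A : Type*} [Group A] [Fintype A]
    (ρ : A →* MulAut V) (hcop : (Fintype.card A).Coprime (Nat.card V)) (U W : Subgroup V)
    (hU : ∀ a : A, ∀ u ∈ U, ρ a u ∈ U) (hUW : U ⊓ W = ⊥) (hsup : U ⊔ W = ⊤) :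
    ∃ W' : Subgroup V, (∀ a : A, ∀ w ∈ W', ρ a w ∈ W') ∧ U ⊓ W' = ⊥ ∧ U ⊔ W' = ⊤ := by
  classical
  have hdec : ∀ v : V, ∃ u ∈ U, ∃ w ∈ W, v = u * w := by
    intro v
    have : v ∈ U ⊔ W := by rw [hsup]; trivial
    obtain ⟨u, hu, w, hw, rfl⟩ := Subgroup.mem_sup.mp this
    exact ⟨u, hu, w, hw, rfl⟩
  choose π hπU w hw hπ using hdec
  have huniq : ∀ (u u' : V), u ∈ U → u' ∈ U → ∀ (w w' : V), w ∈ W → w' ∈ W →
      u * w = u' * w' → u = u' := by
    intro u u' hu hu' w w' hw hw' h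
    have h1 : u'⁻¹ * u = w' * w⁻¹ := by
      rw [inv_mul_eq_iff_eq_mul, ← mul_assoc, ← h, mul_assoc, mul_inv_cancel, mul_one]
    have h2 : u'⁻¹ * u ∈ U ⊓ W :=
      ⟨U.mul_mem (U.inv_mem hu') hu, h1 ▸ W.mul_mem hw' (W.inv_mem hw)⟩
    rw [hUW, Subgroup.mem_bot] at h2
    exact (inv_mul_eq_one.mp h2).symm
  have hπmul : ∀ x y, π (x * y) = π x * π y := by
    intro x y
    apply huniq _ _ (hπU _) (U.mul_mem (hπU x) (hπU y)) (w (x * y)) (w x * w y) (hw _)
      (W.mul_mem (hw x) (hw y))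
    rw [← hπ (x * y)]
    calc x * y = (π x * w x) * (π y * w y) := by rw [← hπ x, ← hπ y]
      _ = π x * π y * (w x * w y) := by rw [mul_mul_mul_comm]
  have hπid : ∀ u ∈ U, π u = u := by
    intro u hu
    exact huniq _ _ (hπU u) hu (w u) 1 (hw u) W.one_mem (by rw [← hπ u, mul_one])
  obtain ⟨θ, hθ⟩ : ∃ θ : V →* V, ∀ v, θ v = ∏ a : A, ρ a⁻¹ (π (ρ a v)) := by
    refine ⟨∏ a : A, ((ρ a⁻¹).toMonoidHom.comp ((MonoidHom.mk' π hπmul).comp (ρ a).toMonoidHom)), ?_⟩
    intro v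
    rw [MonoidHom.finset_prod_apply]
    rfl
  have hθU : ∀ v, θ v ∈ U := by
    intro v
    rw [hθ]
    apply Subgroup.prod_mem
    intro a _
    exact hU _ _ (hπU _)
  have hθu : ∀ u ∈ U, θ u = u ^ Fintype.card A := by
    intro u hu
    rw [hθ]
    have : ∀ a : A, ρ a⁻¹ (π (ρ a u)) = u := by
      intro a
      rw [hπid _ (hU a u hu), ← MulAut.mul_apply, ← map_mul, inv_mul_cancel, map_one]
      rfl
    simp only [this, Finset.prod_const, Finset.card_univ]
  have hθeq : ∀ (b : A) (v : V), θ (ρ b v) = ρ b (θ v) := by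
    intro b v
    rw [hθ, hθ, map_prod]
    refine Fintype.prod_equiv (Equiv.mulRight b) _ _ ?_
    intro a
    show ρ a⁻¹ (π (ρ a (ρ b v))) = ρ b (ρ (a * b)⁻¹ (π (ρ (a * b) v)))
    have e1 : ρ (a * b) v = ρ a (ρ b v) := by rw [map_mul]; rfl
    have e2 : ∀ x, ρ b (ρ (a * b)⁻¹ x) = ρ a⁻¹ x := by
      intro x
      have : ρ a⁻¹ = ρ b * ρ (a * b)⁻¹ := by
        rw [← map_mul]; congr 1; group
      rw [this]; rfl
    rw [e1, e2]
  refine ⟨θ.ker, ?_, ?_, ?_⟩
  · intro a v hv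
    rw [MonoidHom.mem_ker] at hv ⊢
    rw [hθeq, hv, map_one]
  · rw [eq_bot_iff]
    rintro u ⟨hu, hu'⟩
    rw [Subgroup.mem_bot]
    have hu'' : θ u = 1 := hu'
    rw [hθu u hu] at hu''
    have h1 : orderOf u ∣ Fintype.card A := orderOf_dvd_of_pow_eq_one hu''
    have h2 : orderOf u ∣ Nat.card V := orderOf_dvd_natCard u
    exact orderOf_eq_one_iff.mp (Nat.eq_one_of_dvd_coprimes hcop h1 h2)
  · rw [eq_top_iff]
    intro v _
    have hcopU : (Nat.card U).Coprime (Fintype.card A) :=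
      (Nat.Coprime.coprime_dvd_right (Subgroup.card_subgroup_dvd_card U) hcop).symm
    obtain ⟨u, hu⟩ := (powCoprime hcopU).surjective ⟨θ v, hθU v⟩
    have hu2 : (u : V) ^ Fintype.card A = θ v := by
      have := congrArg Subtype.val hu
      simpa [powCoprime] using this
    have h3 : (u : V)⁻¹ * v ∈ θ.ker := by
      rw [MonoidHom.mem_ker, map_mul, map_inv, hθu _ u.2, hu2, inv_mul_cancel]
    have : v = (u : V) * ((u : V)⁻¹ * v) := by group
    rw [this]
    exact Subgroup.mul_mem _ (Subgroup.mem_sup_left u.2) (Subgroup.mem_sup_right h3)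

end Cfsg.Agent.Lib_helper1_Maschke
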