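import Mathlib
import Cfsg.Prelude.Def_Solvable
import Cfsg.Agent.Lib_helper1_MaxClass2
import Cfsg.Agent.Lib_helper1_CF2

set_option autoImplicit false
set_option linter.deprecated false

/-! Normal subgroups of `p`-groups of maximal class. -/

namespace Cfsg.Agent.H1MCN

universe u

open scoped commutatorElement

theorem lcs_eq_bot_of_succ_eq {G : Type*} [Group G] [hG : Group.IsNilpotent G] (k : ℕ)
    (h : (⊤ : Subgroup G).lowerCentralSeries (k + 1) = (⊤ : Subgroup G).lowerCentralSeries k) :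
    (⊤ : Subgroup G).lowerCentralSeries k = ⊥ := by
  have h1 : ∀ i, (⊤ : Subgroup G).lowerCentralSeries (k + i) =
      (⊤ : Subgroup G).lowerCentralSeries k := by
    intro i
    induction i with
    | zero => rfl
    | succ i ih =>
      rw [← add_assoc, Subgroup.lowerCentralSeries_succ, ih, ← Subgroup.lowerCentralSeries_succ, h]
  rw [← h1 (Group.nilpotencyClass G), ← le_bot_iff,
    ← Subgroup.lowerCentralSeries_nilpotencyClass (G := G)]
  exact Subgroup.lowerCentralSeries_antitone _ (Nat.le_add_left _ _)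

theorem commutator_le_of_cyclic_quot {G : Type*} [Group G] (L1 L2 : Subgroup G) [L1.Normal]
    [L2.Normal] (hle : L2 ≤ L1) (hc : ⁅L1, (⊤ : Subgroup G)⁆ ≤ L2) (hcyc : IsCyclic (G ⧸ L1)) :
    ⁅(⊤ : Subgroup G), ⊤⁆ ≤ L2 := by
  have := hcyc
  have hker : (QuotientGroup.map L2 L1 (MonoidHom.id G) (fun x hx => hle hx)).ker ≤
      Subgroup.center (G ⧸ L2) := by
    intro x hx
    obtain ⟨g, rfl⟩ := QuotientGroup.mk_surjective x
    have hg : g ∈ L1 := (QuotientGroup.eq_one_iff g).mp (MonoidHom.mem_ker.mp hx)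
    rw [Subgroup.mem_center_iff]
    intro y
    obtain ⟨h, rfl⟩ := QuotientGroup.mk_surjective y
    rw [← QuotientGroup.mk_mul, ← QuotientGroup.mk_mul, QuotientGroup.eq]
    have h2 : (h * g)⁻¹ * (g * h) = ⁅g⁻¹, h⁻¹⁆ := by rw [commutatorElement_def]; group
    rw [h2]
    exact hc (Subgroup.commutator_mem_commutator (L1.inv_mem hg) (Subgroup.mem_top _))
  have hcomm := commutative_of_cyclic_center_quotient _ hker
  rw [Subgroup.commutator_le]
  intro a _ b _
  have h3 := hcomm (a : G ⧸ L2) (b : G ⧸ L2)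
  apply (QuotientGroup.eq_one_iff _).mp
  rw [commutatorElement_def, QuotientGroup.mk_mul, QuotientGroup.mk_mul, QuotientGroup.mk_mul,
    QuotientGroup.mk_inv, QuotientGroup.mk_inv, h3]
  group

theorem card_ne_one (Q : Type*) [Group Q] [Finite Q] :
    Nat.card {x : Q // x ≠ 1} = Nat.card Q - 1 := by
  classical
  haveI := Fintype.ofFinite Q
  rw [Nat.card_eq_fintype_card, Fintype.card_subtype, Finset.filter_ne' Finset.univ (1 : Q),
    Finset.card_erase_of_mem (Finset.mem_univ _), Finset.card_univ, Nat.card_eq_fintype_card]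

theorem card_subgroups_prime_sq {Q : Type*} [Group Q] [Finite Q] (p : ℕ) [Fact p.Prime]
    (hQ : Nat.card Q = p ^ 2) (hnc : ¬ IsCyclic Q) :
    Nat.card {M : Subgroup Q // Nat.card M = p} = p + 1 := by
  classical
  have hp : p.Prime := Fact.out
  have hord : ∀ x : Q, x ≠ 1 → orderOf x = p := by
    intro x hx
    have h1 : orderOf x ∣ p ^ 2 := hQ ▸ orderOf_dvd_natCard x
    obtain ⟨i, hi, hi'⟩ := (Nat.dvd_prime_pow hp).mp h1
    interval_cases i
    · rw [pow_zero, orderOf_eq_one_iff] at hi'; exact absurd hi' hx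
    · rw [hi', pow_one]
    · exfalso; apply hnc; exact isCyclic_of_orderOf_eq_card x (by rw [hi', hQ])
  let e : {x : Q // x ≠ 1} ≃
      Σ M : {M : Subgroup Q // Nat.card M = p}, {x : Q // x ∈ M.1 ∧ x ≠ 1} :=
    { toFun := fun x => ⟨⟨Subgroup.zpowers x.1, by rw [Nat.card_zpowers, hord x.1 x.2]⟩,
        ⟨x.1, Subgroup.mem_zpowers x.1, x.2⟩⟩
      invFun := fun y => ⟨y.2.1, y.2.2.2⟩
      left_inv := fun x => rfl
      right_inv := by
        rintro ⟨⟨M, hM⟩, ⟨x, hxM, hx1⟩⟩
        have hMx : Subgroup.zpowers x = M :=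
          Subgroup.eq_of_le_of_card_ge (by rw [Subgroup.zpowers_le]; exact hxM)
            (by rw [hM, Nat.card_zpowers, hord x hx1])
        subst hMx
        rfl }
  have h2 : ∀ M : {M : Subgroup Q // Nat.card M = p},
      Nat.card {x : Q // x ∈ M.1 ∧ x ≠ 1} = p - 1 := by
    intro M
    have e2 : {y : ↥M.1 // y ≠ 1} ≃ {x : Q // x ∈ M.1 ∧ x ≠ 1} :=
      { toFun := fun y => ⟨y.1.1, y.1.2, fun h => y.2 (Subtype.ext h)⟩
        invFun := fun x => ⟨⟨x.1, x.2.1⟩, fun h => x.2.2 (congrArg Subtype.val h)⟩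
        left_inv := fun y => rfl
        right_inv := fun x => rfl }
    rw [← Nat.card_congr e2, card_ne_one, M.2]
  have h3 := Nat.card_congr e
  haveI := Fintype.ofFinite {M : Subgroup Q // Nat.card M = p}
  rw [Nat.card_sigma, card_ne_one, hQ] at h3
  simp only [h2, Finset.sum_const, Finset.card_univ, smul_eq_mul] at h3
  rw [Nat.card_eq_fintype_card]
  have hq : (p + 1) * (p - 1) = p ^ 2 - 1 := by
    have h4 : ∀ q : ℕ, (q + 2) * q = (q + 1) ^ 2 - 1 := by
      intro q; symm; apply Nat.sub_eq_of_eq_add; ring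
    have h5 := h4 (p - 1)
    have e1 : p - 1 + 1 = p := Nat.sub_add_cancel hp.one_le
    have e2 : p - 1 + 2 = p + 1 := by omega
    rw [e1, e2] at h5
    exact h5
  apply Nat.eq_of_mul_eq_mul_right (Nat.sub_pos_of_lt hp.one_lt)
  rw [← h3, hq]

section

variable {G : Type u} [Group G] [Finite G] {p : ℕ} [Fact p.Prime]

theorem pstep (n : ℕ) (hG : Nat.card G = p ^ n) (K' K : Subgroup G) (hle : K' ≤ K)
    (hne : K' ≠ K) : p * Nat.card K' ≤ Nat.card K := by
  have hp : p.Prime := Fact.out
  obtain ⟨a, -, ha⟩ := (Nat.dvd_prime_pow hp).mp (hG ▸ Subgroup.card_subgroup_dvd_card K')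
  obtain ⟨b, -, hb⟩ := (Nat.dvd_prime_pow hp).mp (hG ▸ Subgroup.card_subgroup_dvd_card K)
  have hlt : Nat.card K' < Nat.card K := by
    by_contra hcon
    push Not at hcon
    exact hne (Subgroup.eq_of_le_of_card_ge hle hcon)
  rw [ha, hb] at hlt ⊢
  have hab : a < b := (Nat.pow_lt_pow_iff_right hp.one_lt).mp hlt
  calc p * p ^ a = p ^ (a + 1) := by rw [pow_succ, mul_comm]
    _ ≤ p ^ b := Nat.pow_le_pow_right hp.pos hab

theorem sizes (n : ℕ) (hG : Nat.card G = p ^ n) (hcl : Group.nilpotencyClass G = n - 1)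
    (hn : 3 ≤ n) : ∀ k, 1 ≤ k → k ≤ n - 1 →
    Nat.card ((⊤ : Subgroup G).lowerCentralSeries k) = p ^ (n - 1 - k) := by
  have hp : p.Prime := Fact.out
  haveI : Group.IsNilpotent G := (IsPGroup.of_card hG).isNilpotent
  have hne : ∀ k, k + 2 ≤ n → (⊤ : Subgroup G).lowerCentralSeries k ≠ ⊥ := by
    intro k hk h
    have := Subgroup.lowerCentralSeries_eq_bot_iff_nilpotencyClass_le.mp h
    omega
  have hstrict : ∀ k, k + 2 ≤ n → (⊤ : Subgroup G).lowerCentralSeries (k + 1) ≠
      (⊤ : Subgroup G).lowerCentralSeries k :=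
    fun k hk h => hne k hk (lcs_eq_bot_of_succ_eq k h)
  have hLB : ∀ i k, k + i = n - 1 →
      p ^ i ≤ Nat.card ((⊤ : Subgroup G).lowerCentralSeries k) := by
    intro i
    induction i with
    | zero => intro k _; rw [pow_zero]; exact Nat.card_pos
    | succ i ih =>
      intro k hk
      have h1 := ih (k + 1) (by omega)
      have h2 := pstep n hG _ _ (Subgroup.lowerCentralSeries_antitone _ (Nat.le_succ k))
        (hstrict k (by omega))
      calc p ^ (i + 1) = p * p ^ i := by rw [pow_succ, mul_comm]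
        _ ≤ p * Nat.card ((⊤ : Subgroup G).lowerCentralSeries (k + 1)) :=
          Nat.mul_le_mul_left p h1
        _ ≤ _ := h2
  have hexp : ∀ K : Subgroup G, ∃ j, j ≤ n ∧ Nat.card K = p ^ j ∧ K.index = p ^ (n - j) := by
    intro K
    obtain ⟨j, hj, hK⟩ := (Nat.dvd_prime_pow hp).mp (hG ▸ Subgroup.card_subgroup_dvd_card K)
    refine ⟨j, hj, hK, ?_⟩
    have h1 := K.card_mul_index
    rw [hK, hG] at h1
    apply Nat.eq_of_mul_eq_mul_left (pow_pos hp.pos j)
    rw [h1, ← pow_add, Nat.add_sub_of_le hj]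
  have hUB1 : ∀ j, Nat.card ((⊤ : Subgroup G).lowerCentralSeries 1) = p ^ j → j + 2 ≤ n := by
    intro j hj
    by_contra hcon
    push Not at hcon
    obtain ⟨j', hj'n, hj', hidx⟩ := hexp ((⊤ : Subgroup G).lowerCentralSeries 1)
    have hjj : j' = j := Nat.pow_right_injective hp.two_le (hj'.symm.trans hj)
    subst hjj
    have hcyc : IsCyclic (G ⧸ (⊤ : Subgroup G).lowerCentralSeries 1) := by
      apply isCyclic_of_card_dvd_prime (p := p)
      rw [← Subgroup.index_eq_card, hidx]
      have h1 : n - j' ≤ 1 := by omega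
      exact (pow_dvd_pow p h1).trans (by rw [pow_one])
    have h1 := commutator_le_of_cyclic_quot ((⊤ : Subgroup G).lowerCentralSeries 1)
      ((⊤ : Subgroup G).lowerCentralSeries 2)
      (Subgroup.lowerCentralSeries_antitone _ (Nat.le_succ 1)) (le_of_eq rfl) hcyc
    have h2 : (⊤ : Subgroup G).lowerCentralSeries (1 + 1) =
        (⊤ : Subgroup G).lowerCentralSeries 1 :=
      le_antisymm (Subgroup.lowerCentralSeries_antitone _ (Nat.le_succ 1)) h1
    exact hstrict 1 (by omega) h2
  have hUB : ∀ k, 1 ≤ k → k ≤ n - 1 → ∀ j,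
      Nat.card ((⊤ : Subgroup G).lowerCentralSeries k) = p ^ j → j + k + 1 ≤ n := by
    intro k hk1 hkn j hj
    rcases Nat.lt_or_ge k 2 with hk2 | hk2
    · have hk : k = 1 := by omega
      subst hk
      have := hUB1 j hj
      omega
    · by_contra hcon
      push Not at hcon
      obtain ⟨j', hj'n, hj', hidx⟩ := hexp ((⊤ : Subgroup G).lowerCentralSeries k)
      have hjj : j' = j := Nat.pow_right_injective hp.two_le (hj'.symm.trans hj)
      subst hjj
      obtain ⟨j₁, hj₁n, hj₁, hidx₁⟩ := hexp ((⊤ : Subgroup G).lowerCentralSeries 1)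
      have h1 := hUB1 j₁ hj₁
      have hdvd : ((⊤ : Subgroup G).lowerCentralSeries 1).index ∣
          ((⊤ : Subgroup G).lowerCentralSeries k).index :=
        Subgroup.index_dvd_of_le (Subgroup.lowerCentralSeries_antitone _ hk1)
      rw [hidx, hidx₁] at hdvd
      have h2 : n - j₁ ≤ n - j' := (Nat.pow_dvd_pow_iff_le_right hp.one_lt).mp hdvd
      have hQ : Nat.card (G ⧸ (⊤ : Subgroup G).lowerCentralSeries k) = p ^ (n - j') := by
        rw [← Subgroup.index_eq_card, hidx]
      have hclQ := Cfsg.Agent.Lib_helper1_MaxClass2.class_le p (n - j')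
        (G ⧸ (⊤ : Subgroup G).lowerCentralSeries k) hQ (by omega)
      haveI : Group.IsNilpotent (G ⧸ (⊤ : Subgroup G).lowerCentralSeries k) :=
        (IsPGroup.of_card hQ).isNilpotent
      have hbot : (⊤ : Subgroup (G ⧸ (⊤ : Subgroup G).lowerCentralSeries k)).lowerCentralSeries
          (k - 1) = ⊥ :=
        Subgroup.lowerCentralSeries_eq_bot_iff_nilpotencyClass_le.mpr (by omega)
      have hmap := Subgroup.lowerCentralSeries.map
        (QuotientGroup.mk' ((⊤ : Subgroup G).lowerCentralSeries k)) (k - 1)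
      rw [hbot, le_bot_iff] at hmap
      have hle : (⊤ : Subgroup G).lowerCentralSeries (k - 1) ≤
          (⊤ : Subgroup G).lowerCentralSeries k := by
        intro x hx
        have hx' : QuotientGroup.mk' ((⊤ : Subgroup G).lowerCentralSeries k) x ∈
            Subgroup.map (QuotientGroup.mk' ((⊤ : Subgroup G).lowerCentralSeries k))
              ((⊤ : Subgroup G).lowerCentralSeries (k - 1)) := Subgroup.mem_map_of_mem _ hx
        rw [hmap, Subgroup.mem_bot] at hx'
        exact (QuotientGroup.eq_one_iff x).mp hx'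
      obtain ⟨k', rfl⟩ : ∃ k', k = k' + 1 := ⟨k - 1, by omega⟩
      rw [Nat.add_sub_cancel] at hle
      exact hstrict k' (by omega)
        (le_antisymm (Subgroup.lowerCentralSeries_antitone _ (Nat.le_succ k')) hle)
  intro k hk1 hkn
  obtain ⟨j, hjn, hj, -⟩ := hexp ((⊤ : Subgroup G).lowerCentralSeries k)
  have h1 := hUB k hk1 hkn j hj
  have h2 := hLB (n - 1 - k) k (by omega)
  rw [hj] at h2
  have h3 : n - 1 - k ≤ j := (Nat.pow_le_pow_iff_right hp.one_lt).mp h2
  rw [hj]; congr 1; omega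

theorem normal_eq (n : ℕ) (hG : Nat.card G = p ^ n) (hcl : Group.nilpotencyClass G = n - 1)
    (hn : 3 ≤ n) (N : Subgroup G) [N.Normal] (r : ℕ) (hr : 2 ≤ r) (hN : N.index = p ^ r) :
    N = (⊤ : Subgroup G).lowerCentralSeries (r - 1) := by
  have hp : p.Prime := Fact.out
  have hrn : r ≤ n := by
    have h1 : N.index ∣ Nat.card G := N.index_dvd_card
    rw [hN, hG] at h1
    exact (Nat.pow_dvd_pow_iff_le_right hp.one_lt).mp h1
  have hQ : Nat.card (G ⧸ N) = p ^ r := by rw [← Subgroup.index_eq_card, hN]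
  have hclQ := Cfsg.Agent.Lib_helper1_MaxClass2.class_le p r (G ⧸ N) hQ hr
  haveI : Group.IsNilpotent (G ⧸ N) := (IsPGroup.of_card hQ).isNilpotent
  have hbot : (⊤ : Subgroup (G ⧸ N)).lowerCentralSeries (r - 1) = ⊥ :=
    Subgroup.lowerCentralSeries_eq_bot_iff_nilpotencyClass_le.mpr hclQ
  have hmap := Subgroup.lowerCentralSeries.map (QuotientGroup.mk' N) (r - 1)
  rw [hbot, le_bot_iff] at hmap
  have hle : (⊤ : Subgroup G).lowerCentralSeries (r - 1) ≤ N := by
    intro x hx
    have hx' : QuotientGroup.mk' N x ∈ Subgroup.map (QuotientGroup.mk' N)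
        ((⊤ : Subgroup G).lowerCentralSeries (r - 1)) := Subgroup.mem_map_of_mem _ hx
    rw [hmap, Subgroup.mem_bot] at hx'
    exact (QuotientGroup.eq_one_iff x).mp hx'
  have hcardN : Nat.card N = p ^ (n - r) := by
    have h1 := N.card_mul_index
    rw [hN, hG] at h1
    apply Nat.eq_of_mul_eq_mul_right (pow_pos hp.pos r)
    rw [h1, ← pow_add, Nat.sub_add_cancel hrn]
  have hcardL := sizes n hG hcl hn (r - 1) (by omega) (by omega)
  symm
  apply Subgroup.eq_of_le_of_card_ge hle
  rw [hcardN, hcardL]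
  exact Nat.pow_le_pow_right hp.pos (by omega)

theorem card_normal_index_p (n : ℕ) (hG : Nat.card G = p ^ n)
    (hcl : Group.nilpotencyClass G = n - 1) (hn : 3 ≤ n) :
    Nat.card {N : Subgroup G // N.Normal ∧ N.index = p} = p + 1 := by
  have hp : p.Prime := Fact.out
  haveI : Group.IsNilpotent G := (IsPGroup.of_card hG).isNilpotent
  have hL1card : Nat.card ((⊤ : Subgroup G).lowerCentralSeries 1) = p ^ (n - 2) := by
    have h1 := sizes n hG hcl hn 1 le_rfl (by omega)
    rw [h1]; congr 1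
  have hL1idx : ((⊤ : Subgroup G).lowerCentralSeries 1).index = p ^ 2 := by
    have h1 := ((⊤ : Subgroup G).lowerCentralSeries 1).card_mul_index
    rw [hL1card, hG] at h1
    apply Nat.eq_of_mul_eq_mul_left (pow_pos hp.pos (n - 2))
    rw [h1, ← pow_add]; congr 1; omega
  have hQ : Nat.card (G ⧸ (⊤ : Subgroup G).lowerCentralSeries 1) = p ^ 2 := by
    rw [← Subgroup.index_eq_card, hL1idx]
  have hnc : ¬ IsCyclic (G ⧸ (⊤ : Subgroup G).lowerCentralSeries 1) := by
    intro hcyc
    have h1 := commutator_le_of_cyclic_quot ((⊤ : Subgroup G).lowerCentralSeries 1)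
      ((⊤ : Subgroup G).lowerCentralSeries 2)
      (Subgroup.lowerCentralSeries_antitone _ (Nat.le_succ 1)) (le_of_eq rfl) hcyc
    have h2 : (⊤ : Subgroup G).lowerCentralSeries (1 + 1) =
        (⊤ : Subgroup G).lowerCentralSeries 1 :=
      le_antisymm (Subgroup.lowerCentralSeries_antitone _ (Nat.le_succ 1)) h1
    have h3 := lcs_eq_bot_of_succ_eq 1 h2
    have h4 := Subgroup.lowerCentralSeries_eq_bot_iff_nilpotencyClass_le.mp h3
    omega
  have hci : ∀ M : Subgroup (G ⧸ (⊤ : Subgroup G).lowerCentralSeries 1),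
      Nat.card M = p ↔ M.index = p := by
    intro M
    have h1 := M.card_mul_index
    rw [hQ, sq] at h1
    constructor
    · intro h; rw [h] at h1; exact Nat.eq_of_mul_eq_mul_left hp.pos h1
    · intro h; rw [h] at h1; exact Nat.eq_of_mul_eq_mul_right hp.pos h1
  have hLle : ∀ N : Subgroup G, N.Normal → N.index = p →
      (⊤ : Subgroup G).lowerCentralSeries 1 ≤ N := by
    intro N hNn hNi
    haveI := hNn
    exact Cfsg.Agent.H1CF.commutator_le_of_index_prime N hNi
  rw [← card_subgroups_prime_sq p hQ hnc]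
  apply Nat.card_congr
  exact
    { toFun := fun N => ⟨N.1.map (QuotientGroup.mk' ((⊤ : Subgroup G).lowerCentralSeries 1)),
        (hci _).mpr (by
          rw [Subgroup.index_map_eq _ (QuotientGroup.mk'_surjective _)
            (by rw [QuotientGroup.ker_mk']; exact hLle N.1 N.2.1 N.2.2), N.2.2])⟩
      invFun := fun M =>
        ⟨M.1.comap (QuotientGroup.mk' ((⊤ : Subgroup G).lowerCentralSeries 1)),
          Subgroup.normal_of_index_eq_minFac_card (by
            rw [Subgroup.index_comap_of_surjective _ (QuotientGroup.mk'_surjective _),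
              (hci _).mp M.2, hG, hp.pow_minFac (by omega)]),
          by rw [Subgroup.index_comap_of_surjective _ (QuotientGroup.mk'_surjective _),
            (hci _).mp M.2]⟩
      left_inv := fun N => Subtype.ext (by
        show Subgroup.comap (QuotientGroup.mk' ((⊤ : Subgroup G).lowerCentralSeries 1))
          (Subgroup.map (QuotientGroup.mk' ((⊤ : Subgroup G).lowerCentralSeries 1)) N.1) = N.1
        rw [Subgroup.comap_map_eq, QuotientGroup.ker_mk', sup_eq_left.mpr (hLle N.1 N.2.1 N.2.2)])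
      right_inv := fun M => Subtype.ext (by
        show Subgroup.map (QuotientGroup.mk' ((⊤ : Subgroup G).lowerCentralSeries 1))
          (Subgroup.comap (QuotientGroup.mk' ((⊤ : Subgroup G).lowerCentralSeries 1)) M.1) = M.1
        exact Subgroup.map_comap_eq_self_of_surjective (QuotientGroup.mk'_surjective _) M.1) }

end

end Cfsg.Agent.H1MCN
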