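import Mathlib
import Cfsg.Prelude.Def_Transfer
import Cfsg.Prelude.Def_SolvableStructure
import Cfsg.Agent.Lib_helper1_MinNonNil
import Cfsg.Agent.Lib_helper1_FratNil
import Cfsg.Agent.Lib_helper1_SS

set_option autoImplicit false

namespace Cfsg.Agent.Lib_helper1_MinNonNil2

open Cfsg Cfsg.Agent.Lib_helper1_Frobenius Cfsg.Agent.Lib_helper1_MinNonNil

universe u

/-- `q`-elements lie in every normal subgroup of index prime to `q`. -/
theorem mem_of_pelt_of_index {G : Type*} [Group G] {q : ℕ} (hq : q.Prime) (N : Subgroup G)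
    [N.Normal] (hN : ¬ q ∣ N.index) (x : G) {e : ℕ} (hx : x ^ q ^ e = 1) : x ∈ N := by
  rw [← QuotientGroup.eq_one_iff]
  have e1 : (x : G ⧸ N) ^ q ^ e = 1 := by rw [← QuotientGroup.mk_pow, hx]; rfl
  have e2 : (x : G ⧸ N) ^ N.index = 1 := by
    rw [Subgroup.index_eq_card]; exact pow_card_eq_one'
  have e3 : orderOf (x : G ⧸ N) ∣ q ^ e := orderOf_dvd_of_pow_eq_one e1
  have e4 : orderOf (x : G ⧸ N) ∣ N.index := orderOf_dvd_of_pow_eq_one e2
  have e5 : (N.index).Coprime (q ^ e) :=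
    Nat.Coprime.pow_right e ((Nat.Prime.coprime_iff_not_dvd hq).mpr hN).symm
  exact orderOf_eq_one_iff.mp (Nat.eq_one_of_dvd_coprimes e5 e4 e3)

/-- Decomposition of an element into commuting `q`- and `q'`-parts. -/
theorem exists_decomp {K : Type*} [Group K] [Finite K] {q : ℕ} (hq : q.Prime) (x : K) :
    ∃ x₁ x₂ : K, x = x₁ * x₂ ∧ (∃ e : ℕ, x₁ ^ q ^ e = 1) ∧ (orderOf x₂).Coprime q ∧
      Commute x₁ x₂ := by
  have hpos : 0 < orderOf x := orderOf_pos x
  obtain ⟨e, m, hm, hxm⟩ := Nat.exists_eq_pow_mul_and_not_dvd hpos.ne' q hq.ne_one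
  have hcop : Nat.Coprime (q ^ e) m :=
    Nat.Coprime.pow_left e ((Nat.Prime.coprime_iff_not_dvd hq).mpr hm)
  have h1 : (1 : ℤ) = ((q ^ e : ℕ) : ℤ) * Int.gcdA (q ^ e : ℕ) m + (m : ℤ) * Int.gcdB (q ^ e : ℕ) m := by
    have := Int.gcd_eq_gcd_ab ((q ^ e : ℕ) : ℤ) (m : ℤ)
    rw [Int.gcd_natCast_natCast, hcop] at this
    exact_mod_cast this
  refine ⟨x ^ ((m : ℤ) * Int.gcdB (q ^ e : ℕ) m), x ^ (((q ^ e : ℕ) : ℤ) * Int.gcdA (q ^ e : ℕ) m),
    ?_, ⟨e, ?_⟩, ?_, Commute.zpow_zpow_self x _ _⟩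
  · rw [← zpow_add, add_comm, ← h1, zpow_one]
  · rw [← zpow_natCast, ← zpow_mul]
    have : (m : ℤ) * Int.gcdB (q ^ e : ℕ) m * ((q ^ e : ℕ) : ℤ)
        = ((orderOf x : ℕ) : ℤ) * Int.gcdB (q ^ e : ℕ) m := by
      rw [hxm]; push_cast; ring
    rw [this, zpow_mul, zpow_natCast, pow_orderOf_eq_one, one_zpow]
  · have h2 : (x ^ (((q ^ e : ℕ) : ℤ) * Int.gcdA (q ^ e : ℕ) m)) ^ m = 1 := by
      rw [← zpow_natCast, ← zpow_mul]
      have : ((q ^ e : ℕ) : ℤ) * Int.gcdA (q ^ e : ℕ) m * (m : ℤ)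
          = ((orderOf x : ℕ) : ℤ) * Int.gcdA (q ^ e : ℕ) m := by
        rw [hxm]; push_cast; ring
      rw [this, zpow_mul, zpow_natCast, pow_orderOf_eq_one, one_zpow]
    exact Nat.Coprime.coprime_dvd_left (orderOf_dvd_of_pow_eq_one h2)
      ((Nat.Prime.coprime_iff_not_dvd hq).mpr hm).symm

/-- In a finite nilpotent group with a normal Sylow `q`-subgroup `A` and abelian quotient `K/A`,
every commutator is a commutator of two elements of `A`. -/
theorem comm_eq_comm {K : Type u} [Group K] [Finite K] [Group.IsNilpotent K] {q : ℕ}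
    [Fact q.Prime] (A : Subgroup K) [A.Normal] (hA : IsPGroup q A) (hAi : ¬ q ∣ A.index)
    (hKA : ∀ a b : K, a * b * a⁻¹ * b⁻¹ ∈ A) (a b : K) :
    ∃ a₁ ∈ A, ∃ b₁ ∈ A, a * b * a⁻¹ * b⁻¹ = a₁ * b₁ * a₁⁻¹ * b₁⁻¹ := by
  have hq : q.Prime := Fact.out
  obtain ⟨a₁, u, ha, ⟨ea, hea⟩, hu, hau⟩ := exists_decomp hq a
  obtain ⟨b₁, v, hb, ⟨eb, heb⟩, hv, hbv⟩ := exists_decomp hq b
  have ha₁ : a₁ ∈ A := mem_of_pelt_of_index hq A hAi a₁ hea
  have hb₁ : b₁ ∈ A := mem_of_pelt_of_index hq A hAi b₁ heb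
  have huC := centralizes_of_nilpotent A hA u hu
  have hvC := centralizes_of_nilpotent A hA v hv
  rw [Subgroup.mem_centralizer_iff] at huC hvC
  obtain ⟨N, hN, hc, k, hk⟩ := npc_of_nilpotent (G := K) q
  haveI := hN
  have huN : u ∈ N := mem_of_coprime_of_index N hk u hu
  have hvN : v ∈ N := mem_of_coprime_of_index N hk v hv
  have huv : u * v = v * u := by
    have hcN : u * v * u⁻¹ * v⁻¹ ∈ N :=
      mul_mem (mul_mem (mul_mem huN hvN) (inv_mem huN)) (inv_mem hvN)
    have h1 := eq_one_of_coprime_of_pgroup N A hc hA hcN (hKA u v)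
    calc u * v = (u * v * u⁻¹ * v⁻¹) * (v * u) := by group
      _ = v * u := by rw [h1, one_mul]
  have hub : u * b₁ = b₁ * u := (huC b₁ hb₁).symm
  have hva : v * a₁ = a₁ * v := (hvC a₁ ha₁).symm
  have h1 : a * b = a₁ * b₁ * (u * v) := by
    rw [ha, hb]
    calc a₁ * u * (b₁ * v) = a₁ * (u * b₁) * v := by group
      _ = a₁ * (b₁ * u) * v := by rw [hub]
      _ = a₁ * b₁ * (u * v) := by group
  have h2 : b * a = b₁ * a₁ * (u * v) := by
    rw [ha, hb]
    calc b₁ * v * (a₁ * u) = b₁ * (v * a₁) * u := by group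
      _ = b₁ * (a₁ * v) * u := by rw [hva]
      _ = b₁ * a₁ * (v * u) := by group
      _ = b₁ * a₁ * (u * v) := by rw [huv]
  refine ⟨a₁, ha₁, b₁, hb₁, ?_⟩
  calc a * b * a⁻¹ * b⁻¹ = (a * b) * (b * a)⁻¹ := by group
    _ = (a₁ * b₁ * (u * v)) * (b₁ * a₁ * (u * v))⁻¹ := by rw [h1, h2]
    _ = a₁ * b₁ * a₁⁻¹ * b₁⁻¹ := by group

/-- An automorphism of order prime to `q` of an abelian `q`-group that centralises the elements
of order dividing `q` is trivial (inner version). -/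
theorem centralizes_of_centralizes_omega {G : Type*} [Group G] [Finite G] (Q : Subgroup G)
    [Q.Normal] {q : ℕ} (hQ : IsPGroup q Q) (hQc : ∀ a ∈ Q, ∀ b ∈ Q, a * b = b * a) (g : G)
    (hgo : (orderOf g).Coprime q) (hΩ : ∀ y ∈ Q, y ^ q = 1 → g * y = y * g) :
    ∀ x ∈ Q, g * x = x * g := by
  have key : ∀ m : ℕ, ∀ x ∈ Q, x ^ q ^ m = 1 → g * x = x * g := by
    intro m
    induction m with
    | zero =>
      intro x _ hx
      rw [pow_zero, pow_one] at hx
      rw [hx, mul_one, one_mul]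
    | succ m ih =>
      intro x hxQ hx
      have hxq : (x ^ q) ^ q ^ m = 1 := by rw [← pow_mul, ← pow_succ']; exact hx
      have h1 : g * x ^ q = x ^ q * g := ih (x ^ q) (pow_mem hxQ q) hxq
      have hcQ : g * x * g⁻¹ ∈ Q := Subgroup.Normal.conj_mem inferInstance x hxQ g
      have hyQ : g * x * g⁻¹ * x⁻¹ ∈ Q := mul_mem hcQ (inv_mem hxQ)
      have hyq : (g * x * g⁻¹ * x⁻¹) ^ q = 1 := by
        have hcomm : Commute (g * x * g⁻¹) x⁻¹ := hQc _ hcQ _ (inv_mem hxQ)
        rw [hcomm.mul_pow, conj_pow, h1, inv_pow]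
        group
      have hgy : g * (g * x * g⁻¹ * x⁻¹) = (g * x * g⁻¹ * x⁻¹) * g := hΩ _ hyQ hyq
      have hpow : ∀ n : ℕ, g ^ n * x * (g ^ n)⁻¹ = (g * x * g⁻¹ * x⁻¹) ^ n * x := by
        intro n
        induction n with
        | zero => simp
        | succ n ihn =>
          have hc2 : Commute g ((g * x * g⁻¹ * x⁻¹) ^ n) := Commute.pow_right hgy n
          calc g ^ (n + 1) * x * (g ^ (n + 1))⁻¹ = g * (g ^ n * x * (g ^ n)⁻¹) * g⁻¹ := by
                rw [pow_succ']; group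
            _ = g * ((g * x * g⁻¹ * x⁻¹) ^ n * x) * g⁻¹ := by rw [ihn]
            _ = (g * (g * x * g⁻¹ * x⁻¹) ^ n) * x * g⁻¹ := by group
            _ = ((g * x * g⁻¹ * x⁻¹) ^ n * g) * x * g⁻¹ := by rw [hc2.eq]
            _ = (g * x * g⁻¹ * x⁻¹) ^ n * (g * x * g⁻¹ * x⁻¹) * x := by group
            _ = (g * x * g⁻¹ * x⁻¹) ^ (n + 1) * x := by rw [← pow_succ]
      have h2 := hpow (orderOf g)
      rw [pow_orderOf_eq_one, one_mul, inv_one, mul_one] at h2
      have h3 : (g * x * g⁻¹ * x⁻¹) ^ orderOf g = 1 := by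
        have : (g * x * g⁻¹ * x⁻¹) ^ orderOf g * x = 1 * x := by rw [one_mul]; exact h2.symm
        exact mul_right_cancel this
      have h4 : orderOf (g * x * g⁻¹ * x⁻¹) ∣ orderOf g := orderOf_dvd_of_pow_eq_one h3
      have h5 : orderOf (g * x * g⁻¹ * x⁻¹) ∣ q := orderOf_dvd_of_pow_eq_one hyq
      have h6 : g * x * g⁻¹ * x⁻¹ = 1 :=
        orderOf_eq_one_iff.mp (Nat.eq_one_of_dvd_coprimes hgo h4 h5)
      calc g * x = (g * x * g⁻¹ * x⁻¹) * (x * g) := by group
        _ = x * g := by rw [h6, one_mul]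
  intro x hx
  obtain ⟨m, hm⟩ := hQ ⟨x, hx⟩
  have hm' : x ^ q ^ m = 1 := by
    have := congrArg Subtype.val hm
    simpa using this
  exact key m x hx hm'

/-- Sylow subgroups from the data of a minimal non-nilpotent group. -/
theorem sylows_of_data {G : Type u} [Group G] [Finite G] {q r : ℕ} (hq : q.Prime) (hr : r.Prime)
    (hne : q ≠ r) (Q : Subgroup G) (g : G) {k a : ℕ} (hQ : IsPGroup q Q)
    (hgr : orderOf g = r ^ k) (hQi : Q.index = r ^ k)
    (hZi : (Subgroup.zpowers g).index = q ^ a) :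
    ∃ (P : Sylow r G) (Q' : Sylow q G), (P : Subgroup G) = Subgroup.zpowers g ∧
      (Q' : Subgroup G) = Q := by
  haveI : Fact q.Prime := ⟨hq⟩
  haveI : Fact r.Prime := ⟨hr⟩
  have hZp : IsPGroup r (Subgroup.zpowers g) := by
    apply IsPGroup.of_card (n := k)
    rw [Nat.card_zpowers, hgr]
  have h1 : ¬ r ∣ (Subgroup.zpowers g).index := by
    rw [hZi]
    exact fun h => hne ((Nat.prime_dvd_prime_iff_eq hr hq).mp (hr.dvd_of_dvd_pow h)).symm
  have h2 : ¬ q ∣ Q.index := by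
    rw [hQi]
    exact fun h => hne ((Nat.prime_dvd_prime_iff_eq hq hr).mp (hq.dvd_of_dvd_pow h))
  exact ⟨hZp.toSylow h1, hQ.toSylow h2, rfl, rfl⟩

/-- Non-abelian groups all of whose proper subgroups are abelian. -/
theorem all_proper_abelian {G : Type u} [Group G] [Finite G] (hna : ¬ IsMulCommutative G)
    (h : ∀ H : Subgroup G, H ≠ ⊤ → IsMulCommutative H) :
    (∃ p : ℕ, p.Prime ∧ IsPGroup p G) ∨ ∃ p q : ℕ, p.Prime ∧ q.Prime ∧ p ≠ q ∧
      ∃ (P : Sylow p G) (Q : Sylow q G), IsCyclic P ∧ (Q : Subgroup G).Normal ∧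
        Cfsg.IsElementaryAbelian q (Q : Subgroup G) ∧ (P : Subgroup G) ⊔ Q = ⊤ := by
  have hprop : ∀ H : Subgroup G, H ≠ ⊤ → Group.IsNilpotent H := by
    intro H hH
    haveI := h H hH
    letI : CommGroup H := { (inferInstance : Group H) with mul_comm := fun a b => mul_comm' a b }
    infer_instance
  by_cases hnil : Group.IsNilpotent G
  · left
    by_contra hcon
    push_neg at hcon
    apply hna
    have hcomm : ∀ a b : G, a * b = b * a := by
      intro a b
      have hc : ∀ u : ℕ, u.Prime → ∃ N : Subgroup G, (Nat.card N).Coprime u ∧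
          a * b * a⁻¹ * b⁻¹ ∈ N := by
        intro u hu
        haveI : Fact u.Prime := ⟨hu⟩
        obtain ⟨N, hN, hc, k, hk⟩ := npc_of_nilpotent (G := G) u
        haveI := hN
        refine ⟨N, hc, ?_⟩
        obtain ⟨S⟩ : Nonempty (Sylow u G) := inferInstance
        have hSne : (S : Subgroup G) ≠ ⊤ := by
          intro htop
          apply hcon u hu
          intro x
          obtain ⟨j, hj⟩ := S.2 ⟨x, htop ▸ Subgroup.mem_top x⟩
          exact ⟨j, by simpa using congrArg Subtype.val hj⟩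
        haveI := h _ hSne
        have hsup : N ⊔ (S : Subgroup G) = ⊤ := by
          rw [sup_comm]; exact sup_eq_top_of_index _ _ S.not_dvd_index hk
        have key : ∀ x : G, ∃ s ∈ (S : Subgroup G), (x : G ⧸ N) = (s : G ⧸ N) := by
          intro x
          have hx : x ∈ N ⊔ (S : Subgroup G) := by rw [hsup]; trivial
          rw [← SetLike.mem_coe, Subgroup.normal_mul] at hx
          obtain ⟨n, hn, s, hs, rfl⟩ := Set.mem_mul.mp hx
          exact ⟨s, hs, by
            rw [QuotientGroup.mk_mul, (QuotientGroup.eq_one_iff n).mpr hn, one_mul]⟩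
        obtain ⟨s, hs, hsa⟩ := key a
        obtain ⟨t, ht, htb⟩ := key b
        rw [← QuotientGroup.eq_one_iff, QuotientGroup.mk_mul, QuotientGroup.mk_mul,
          QuotientGroup.mk_mul, QuotientGroup.mk_inv, QuotientGroup.mk_inv, hsa, htb]
        have hst : s * t = t * s := by
          have := mul_comm' (⟨s, hs⟩ : (S : Subgroup G)) ⟨t, ht⟩
          exact congrArg Subtype.val this
        rw [← QuotientGroup.mk_mul, hst, QuotientGroup.mk_mul]; group
      have h1 : orderOf (a * b * a⁻¹ * b⁻¹) = 1 := by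
        by_contra hne1
        have hu := Nat.minFac_prime hne1
        obtain ⟨N, hc, hmem⟩ := hc _ hu
        have hd1 : (orderOf (a * b * a⁻¹ * b⁻¹)).minFac ∣ Nat.card N :=
          dvd_trans (Nat.minFac_dvd _) (Subgroup.orderOf_dvd_natCard _ hmem)
        exact (Nat.Prime.coprime_iff_not_dvd hu).mp hc.symm hd1
      rw [orderOf_eq_one_iff] at h1
      calc a * b = (a * b * a⁻¹ * b⁻¹) * (b * a) := by group
        _ = b * a := by rw [h1, one_mul]
    exact ⟨⟨hcomm⟩⟩
  · right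
    obtain ⟨q, r, Q, g, k, a, hq, hr, hne, hQ, hQn, htop, hgr, hgC, ha, hcardG, hQi, hZi, hinf⟩ :=
      minNonNil_data ⟨hnil, hprop⟩
    haveI := hQn
    haveI : Fact q.Prime := ⟨hq⟩
    have hQne : Q ≠ ⊤ := by
      intro htop'
      apply hnil
      have hGq : IsPGroup q G := by
        intro x
        obtain ⟨j, hj⟩ := hQ ⟨x, htop' ▸ Subgroup.mem_top x⟩
        exact ⟨j, by simpa using congrArg Subtype.val hj⟩
      exact hGq.isNilpotent
    have hQcomm := h Q hQne
    have hQc : ∀ a ∈ Q, ∀ b ∈ Q, a * b = b * a := fun a ha b hb =>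
      congrArg Subtype.val (mul_comm' (⟨a, ha⟩ : Q) ⟨b, hb⟩)
    have hexp : ∀ x ∈ Q, x ^ q = 1 := by
      by_contra hcon
      push_neg at hcon
      obtain ⟨x₀, hx₀, hx₀q⟩ := hcon
      let Ω : Subgroup G :=
        { carrier := {x | x ∈ Q ∧ x ^ q = 1}
          mul_mem' := by
            rintro a b ⟨ha, hap⟩ ⟨hb, hbp⟩
            refine ⟨mul_mem ha hb, ?_⟩
            have hab : Commute a b := hQc a ha b hb
            rw [hab.mul_pow, hap, hbp, one_mul]
          one_mem' := ⟨one_mem _, one_pow _⟩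
          inv_mem' := by
            rintro a ⟨ha, hap⟩
            exact ⟨inv_mem ha, by rw [inv_pow, hap, inv_one]⟩ }
      have hΩn : Ω.Normal :=
        ⟨fun x hx h => ⟨hQn.conj_mem x hx.1 h, by rw [conj_pow, hx.2]; group⟩⟩
      haveI := hΩn
      have hLne : Ω ⊔ Subgroup.zpowers g ≠ ⊤ := by
        intro hL
        apply hx₀q
        have hx : x₀ ∈ Ω ⊔ Subgroup.zpowers g := by rw [hL]; trivial
        rw [← SetLike.mem_coe, Subgroup.normal_mul] at hx
        obtain ⟨w, hw, z, hz, hwz⟩ := Set.mem_mul.mp hx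
        have hzQ : z ∈ Q := by
          have : z = w⁻¹ * x₀ := by rw [← hwz]; group
          rw [this]; exact mul_mem (inv_mem hw.1) hx₀
        have hz1 : z = 1 := by
          have : z ∈ Q ⊓ Subgroup.zpowers g := ⟨hzQ, hz⟩
          rw [hinf] at this; exact this
        rw [hz1, mul_one] at hwz
        rw [← hwz]; exact hw.2
      have hLc := h _ hLne
      apply hgC
      rw [Subgroup.mem_centralizer_iff]
      intro x hx
      have hΩ : ∀ y ∈ Q, y ^ q = 1 → g * y = y * g := by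
        intro y hy hyq
        have hyL : y ∈ Ω ⊔ Subgroup.zpowers g := le_sup_left (a := Ω) ⟨hy, hyq⟩
        have hgL : g ∈ Ω ⊔ Subgroup.zpowers g :=
          le_sup_right (a := Ω) (Subgroup.mem_zpowers g)
        exact congrArg Subtype.val
          (mul_comm' (⟨g, hgL⟩ : (Ω ⊔ Subgroup.zpowers g : Subgroup G)) ⟨y, hyL⟩)
      have hgo : (orderOf g).Coprime q := by
        rw [hgr]; exact Nat.Coprime.pow_left k ((Nat.coprime_primes hr hq).mpr hne.symm)
      exact (centralizes_of_centralizes_omega Q hQ hQc g hgo hΩ x hx).symm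
    obtain ⟨P, Q', hP, hQ'⟩ := sylows_of_data hq hr hne Q g hQ hgr hQi hZi
    refine ⟨r, q, hr, hq, hne.symm, P, Q', ?_, ?_, ?_, ?_⟩
    · rw [hP]; exact Subgroup.isCyclic_zpowers g
    · rw [hQ']; exact hQn
    · rw [hQ']; exact ⟨hQcomm, hexp⟩
    · rw [hP, hQ', sup_comm]; exact htop

open scoped commutatorElement in
/-- The quotient of a minimal non-nilpotent group by the derived subgroup of its normal Sylow
subgroup is non-abelian with all proper subgroups abelian. -/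
theorem quotient_commutator {G : Type u} [Group G] [Finite G] (hG : IsMinimalNonNilpotent G)
    (q : ℕ) [Fact q.Prime] (hq : q ∣ Nat.card G) (Q : Sylow q G)
    (hQ : (Q : Subgroup G).Normal) (D : Subgroup G) [D.Normal]
    (hD : D = (commutator ↥(Q : Subgroup G)).map (Q : Subgroup G).subtype) :
    ¬ IsMulCommutative (G ⧸ D) ∧ ∀ K : Subgroup (G ⧸ D), K ≠ ⊤ → IsMulCommutative K := by
  have hqp : q.Prime := Fact.out
  obtain ⟨q₀, r, Q₀, g, k, a, hq₀, hr, hne, hQ₀, hQ₀n, htop, hgr, hgC, ha, hcardG, hQi, hZi,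
    hinf⟩ := minNonNil_data hG
  haveI := hQ₀n
  haveI := hQ
  haveI : Fact q₀.Prime := ⟨hq₀⟩
  haveI : Fact r.Prime := ⟨hr⟩
  have hD' : D = ⁅(Q : Subgroup G), (Q : Subgroup G)⁆ := by
    rw [hD, commutator_def, Subgroup.map_commutator, ← MonoidHom.range_eq_map,
      Subgroup.range_subtype]
  have hZQ_contra : q = r → False := by
    intro hqr
    subst hqr
    apply hgC
    have hgQ : g ∈ (Q : Subgroup G) :=
      mem_of_pelt_of_index hqp _ Q.not_dvd_index g (by rw [← hgr]; exact pow_orderOf_eq_one g)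
    have hdisj : Disjoint Q₀ (Q : Subgroup G) := IsPGroup.disjoint_of_ne q₀ q hne _ _ hQ₀ Q.2
    rw [Subgroup.mem_centralizer_iff]
    intro t ht
    have hcQ : t * g * t⁻¹ * g⁻¹ ∈ (Q : Subgroup G) :=
      mul_mem (hQ.conj_mem g hgQ t) (inv_mem hgQ)
    have hcQ₀ : t * g * t⁻¹ * g⁻¹ ∈ Q₀ := by
      have : t * g * t⁻¹ * g⁻¹ = t * (g * t⁻¹ * g⁻¹) := by group
      rw [this]; exact mul_mem ht (hQ₀n.conj_mem _ (inv_mem ht) g)
    have h1 : t * g * t⁻¹ * g⁻¹ = 1 := by
      have : t * g * t⁻¹ * g⁻¹ ∈ Q₀ ⊓ (Q : Subgroup G) := ⟨hcQ₀, hcQ⟩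
      rw [hdisj.eq_bot] at this; exact this
    calc t * g = (t * g * t⁻¹ * g⁻¹) * (g * t) := by group
      _ = g * t := by rw [h1, one_mul]
  have hqq : q = q₀ := by
    have h1 : q ∣ q₀ ^ a * r ^ k := hcardG ▸ hq
    rcases (Nat.Prime.dvd_mul hqp).mp h1 with h2 | h2
    · exact (Nat.prime_dvd_prime_iff_eq hqp hq₀).mp (hqp.dvd_of_dvd_pow h2)
    · exact absurd ((Nat.prime_dvd_prime_iff_eq hqp hr).mp (hqp.dvd_of_dvd_pow h2)) hZQ_contra
  subst hqq
  have hQQ : (Q : Subgroup G) = Q₀ := by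
    apply le_antisymm
    · intro x hx
      obtain ⟨j, hj⟩ := Q.2 ⟨x, hx⟩
      have hj' : x ^ q ^ j = 1 := by simpa using congrArg Subtype.val hj
      exact mem_of_pelt_of_index hqp Q₀ (by
        rw [hQi]
        exact fun h => hne ((Nat.prime_dvd_prime_iff_eq hqp hr).mp (hqp.dvd_of_dvd_pow h))) x hj'
    · exact Cfsg.Agent.Lib_helper1_SS.normal_pgroup_le_sylow Q Q₀ hQ₀
  rw [hQQ] at hD'
  have hDQ : D ≤ Q₀ := by rw [hD']; exact Subgroup.commutator_le_left Q₀ Q₀
  have hcommD : ∀ x ∈ Q₀, ∀ y ∈ Q₀, x * y * x⁻¹ * y⁻¹ ∈ D := by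
    intro x hx y hy
    rw [hD', ← commutatorElement_def]
    exact Subgroup.commutator_mem_commutator hx hy
  have hGQ := comm_mem_of_sup_zpowers Q₀ g htop
  constructor
  · intro hcomm
    have hallD : ∀ x y : G, x * y * x⁻¹ * y⁻¹ ∈ D := by
      intro x y
      rw [← QuotientGroup.eq_one_iff]
      have := mul_comm' (x : G ⧸ D) (y : G ⧸ D)
      rw [QuotientGroup.mk_mul, QuotientGroup.mk_mul, QuotientGroup.mk_mul, QuotientGroup.mk_inv,
        QuotientGroup.mk_inv, this]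
      group
    apply hgC
    by_cases hL : D ⊔ Subgroup.zpowers g = ⊤
    · have hQD : Q₀ ≤ D := by
        intro t ht
        have hx : t ∈ D ⊔ Subgroup.zpowers g := by rw [hL]; trivial
        rw [← SetLike.mem_coe, Subgroup.normal_mul] at hx
        obtain ⟨w, hw, z, hz, hwz⟩ := Set.mem_mul.mp hx
        have hzQ : z ∈ Q₀ := by
          have : z = w⁻¹ * t := by rw [← hwz]; group
          rw [this]; exact mul_mem (inv_mem (hDQ hw)) ht
        have hz1 : z = 1 := by
          have : z ∈ Q₀ ⊓ Subgroup.zpowers g := ⟨hzQ, hz⟩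
          rw [hinf] at this; exact this
        rw [hz1, mul_one] at hwz
        rw [← hwz]; exact hw
      have hQbot : Q₀ = ⊥ := by
        by_contra hQne
        haveI : Group.IsSolvable Q₀ := by
          haveI := hQ₀.isNilpotent
          infer_instance
        have hlt := Cfsg.Agent.Lib_helper1_SZConj.commutator_lt_of_solvable Q₀ hQne
        rw [← hD'] at hlt
        exact absurd (lt_of_lt_of_le hlt hQD) (lt_irrefl _)
      rw [hQbot, Subgroup.mem_centralizer_iff]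
      intro t ht
      have : t = 1 := ht
      rw [this, one_mul, mul_one]
    · have hLnil := hG.2 _ hL
      have hLn : (D ⊔ Subgroup.zpowers g).Normal := by
        constructor
        intro l hl x
        have : x * l * x⁻¹ = (x * l * x⁻¹ * l⁻¹) * l := by group
        rw [this]
        exact mul_mem (le_sup_left (a := D) (hallD x l)) hl
      haveI := hLn
      have hZp : IsPGroup r (Subgroup.zpowers g) :=
        IsPGroup.of_card (n := k) (by rw [Nat.card_zpowers, hgr])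
      have hZn : (Subgroup.zpowers g).Normal := by
        apply Cfsg.Agent.Lib_helper1_FratNil.normal_of_sylow_of_nilpotent_normal
          (D ⊔ Subgroup.zpowers g) hLnil (Subgroup.zpowers g) le_sup_right hZp
        intro hdvd
        have h1 := Subgroup.relIndex_mul_index
          (le_sup_right : Subgroup.zpowers g ≤ D ⊔ Subgroup.zpowers g)
        rw [hZi] at h1
        have h2 : r ∣ q ^ a := h1 ▸ Dvd.dvd.mul_right hdvd _
        exact hne ((Nat.prime_dvd_prime_iff_eq hr hqp).mp (hr.dvd_of_dvd_pow h2)).symm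
      rw [Subgroup.mem_centralizer_iff]
      intro t ht
      have hcZ : t * g * t⁻¹ * g⁻¹ ∈ Subgroup.zpowers g :=
        mul_mem (hZn.conj_mem g (Subgroup.mem_zpowers g) t) (inv_mem (Subgroup.mem_zpowers g))
      have hcQ : t * g * t⁻¹ * g⁻¹ ∈ Q₀ := by
        have : t * g * t⁻¹ * g⁻¹ = t * (g * t⁻¹ * g⁻¹) := by group
        rw [this]; exact mul_mem ht (hQ₀n.conj_mem _ (inv_mem ht) g)
      have h1 : t * g * t⁻¹ * g⁻¹ = 1 := by
        have : t * g * t⁻¹ * g⁻¹ ∈ Q₀ ⊓ Subgroup.zpowers g := ⟨hcQ, hcZ⟩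
        rw [hinf] at this; exact this
      calc t * g = (t * g * t⁻¹ * g⁻¹) * (g * t) := by group
        _ = g * t := by rw [h1, one_mul]
  · intro K hK
    obtain ⟨H, hH⟩ : ∃ H : Subgroup G, H = K.comap (QuotientGroup.mk' D) := ⟨_, rfl⟩
    have hHne : H ≠ ⊤ := by
      intro htop'
      apply hK
      rw [eq_top_iff]
      intro y _
      obtain ⟨x, rfl⟩ := QuotientGroup.mk_surjective y
      have : x ∈ H := by rw [htop']; trivial
      rw [hH] at this; exact this
    haveI := hG.2 H hHne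
    haveI : (Q₀.subgroupOf H).Normal := inferInstance
    have hA : IsPGroup q (Q₀.subgroupOf H) := hQ₀.comap_subtype
    have hAi : ¬ q ∣ (Q₀.subgroupOf H).index := by
      intro hd
      have h1 : q ∣ Q₀.index := dvd_trans hd (Subgroup.relIndex_dvd_index_of_normal Q₀ H)
      rw [hQi] at h1
      exact hne ((Nat.prime_dvd_prime_iff_eq hqp hr).mp (hqp.dvd_of_dvd_pow h1))
    have hKA : ∀ a b : H, a * b * a⁻¹ * b⁻¹ ∈ Q₀.subgroupOf H := by
      intro a b; rw [Subgroup.mem_subgroupOf]; exact hGQ _ _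
    have hHD : ∀ a b : H, (a : G) * b * (a : G)⁻¹ * (b : G)⁻¹ ∈ D := by
      intro a b
      obtain ⟨a₁, ha₁, b₁, hb₁, hab⟩ := comm_eq_comm (Q₀.subgroupOf H) hA hAi hKA a b
      have := congrArg Subtype.val hab
      have h2 : (a : G) * b * (a : G)⁻¹ * (b : G)⁻¹
          = (a₁ : G) * b₁ * (a₁ : G)⁻¹ * (b₁ : G)⁻¹ := by simpa using this
      rw [h2]
      exact hcommD _ ha₁ _ hb₁
    refine ⟨⟨fun x y => ?_⟩⟩
    obtain ⟨x', hx'⟩ := QuotientGroup.mk_surjective (x : G ⧸ D)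
    obtain ⟨y', hy'⟩ := QuotientGroup.mk_surjective (y : G ⧸ D)
    have hxH : x' ∈ H := by
      rw [hH, Subgroup.mem_comap]
      show (x' : G ⧸ D) ∈ K
      rw [hx']; exact x.2
    have hyH : y' ∈ H := by
      rw [hH, Subgroup.mem_comap]
      show (y' : G ⧸ D) ∈ K
      rw [hy']; exact y.2
    have h3 := hHD ⟨x', hxH⟩ ⟨y', hyH⟩
    have h4 : (x' : G ⧸ D) * y' * (x' : G ⧸ D)⁻¹ * (y' : G ⧸ D)⁻¹ = 1 :=
      (QuotientGroup.eq_one_iff _).mpr h3
    apply Subtype.ext
    show (x : G ⧸ D) * y = y * x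
    rw [← hx', ← hy']
    calc (x' : G ⧸ D) * y' = ((x' : G ⧸ D) * y' * (x' : G ⧸ D)⁻¹ * (y' : G ⧸ D)⁻¹) * (y' * x') := by
          group
      _ = y' * x' := by rw [h4, one_mul]

end Cfsg.Agent.Lib_helper1_MinNonNil2
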