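import Mathlib
import Cfsg.Prelude

set_option autoImplicit false

namespace Cfsg.Agent.Lib_helper1_NCBound

/-- an automorphism of prime order `q` of a group of order `p ^ k`: `q ∣ p ^ k - p ^ j`, `j < k` -/
theorem aut_fix {T : Type*} [Group T] [Finite T] {p q k : ℕ} [Fact p.Prime] (hq : q.Prime)
    (hT : Nat.card T = p ^ k) (α : MulAut T) (hα : orderOf α = q) :
    ∃ j, j < k ∧ q ∣ p ^ k - p ^ j := by
  haveI : Fact q.Prime := ⟨hq⟩
  have hZ : IsPGroup q (Subgroup.zpowers α) :=
    IsPGroup.of_card (n := 1) (by rw [Nat.card_zpowers, hα, pow_one])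
  have h1 := hZ.card_modEq_card_fixedPoints T
  let F : Subgroup T :=
    { carrier := {t | α t = t}
      mul_mem' := by
        intro a b ha hb
        simp only [Set.mem_setOf_eq] at ha hb ⊢
        rw [map_mul, ha, hb]
      one_mem' := by simp
      inv_mem' := by
        intro a ha
        simp only [Set.mem_setOf_eq] at ha ⊢
        rw [map_inv, ha] }
  have hF : ∀ t, t ∈ F ↔ α t = t := fun t => Iff.rfl
  have h2 : Nat.card (MulAction.fixedPoints (Subgroup.zpowers α) T) = Nat.card F := by
    apply Nat.card_congr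
    apply Equiv.subtypeEquivRight
    intro t
    constructor
    · intro h
      exact h ⟨α, Subgroup.mem_zpowers α⟩
    · intro h g
      have h3 : α ∈ MulAction.stabilizer (MulAut T) t := by
        rw [MulAction.mem_stabilizer_iff]
        exact h
      have h4 : Subgroup.zpowers α ≤ MulAction.stabilizer (MulAut T) t := by
        rw [Subgroup.zpowers_le]
        exact h3
      have h5 := h4 g.2
      rw [MulAction.mem_stabilizer_iff] at h5
      exact h5
  have h3 : Nat.card F ∣ p ^ k := hT ▸ Subgroup.card_subgroup_dvd_card F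
  obtain ⟨j, hjk, hj⟩ := (Nat.dvd_prime_pow (Fact.out : p.Prime)).mp h3
  have hjk' : j ≠ k := by
    rintro rfl
    have h4 : F = ⊤ := Subgroup.eq_top_of_card_eq F (by rw [hj, hT])
    have h5 : α = 1 := by
      ext t
      have h6 : t ∈ F := h4 ▸ Subgroup.mem_top t
      simpa using (hF t).mp h6
    rw [h5, orderOf_one] at hα
    exact hq.one_lt.ne' hα.symm
  refine ⟨j, lt_of_le_of_ne hjk hjk', ?_⟩
  rw [hT, h2, hj] at h1
  exact (Nat.modEq_iff_dvd' (Nat.pow_le_pow_right (Fact.out : p.Prime).pos hjk)).mp h1.symm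

theorem normalizer_le_centralizer {G : Type*} [Group G] [Finite G] {p : ℕ} [Fact p.Prime]
    (T : Sylow p G) (hTc : IsMulCommutative T) (k : ℕ) (hk : Nat.card T = p ^ k)
    (h : ∀ q : ℕ, q.Prime → q ∣ Nat.card G → q ≠ p → ∀ i, 1 ≤ i → i ≤ k → ¬ q ∣ p ^ i - 1) :
    Subgroup.normalizer ((T : Subgroup G) : Set G) ≤
      Subgroup.centralizer ((T : Subgroup G) : Set G) := by
  by_contra hne
  have hker : (T : Subgroup G).normalizerMonoidHom.ker =
      (Subgroup.centralizer ((T : Subgroup G) : Set G)).subgroupOf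
        (Subgroup.normalizer ((T : Subgroup G) : Set G)) :=
    Subgroup.normalizerMonoidHom_ker _
  have hr : Nat.card (T : Subgroup G).normalizerMonoidHom.range =
      (Subgroup.centralizer ((T : Subgroup G) : Set G)).relIndex
        (Subgroup.normalizer ((T : Subgroup G) : Set G)) := by
    rw [← Subgroup.index_ker, hker]
    rfl
  have hr1 : Nat.card (T : Subgroup G).normalizerMonoidHom.range ≠ 1 := by
    rw [hr]
    intro h1
    exact hne (Subgroup.relIndex_eq_one.mp h1)
  obtain ⟨q, hq, hqr⟩ := Nat.exists_prime_and_dvd hr1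
  have hTC : (T : Subgroup G) ≤ Subgroup.centralizer ((T : Subgroup G) : Set G) := by
    intro x hx
    rw [Subgroup.mem_centralizer_iff]
    intro y hy
    exact congrArg Subtype.val (mul_comm' (⟨y, hy⟩ : T) ⟨x, hx⟩)
  have hdvd : (Subgroup.centralizer ((T : Subgroup G) : Set G)).relIndex
      (Subgroup.normalizer ((T : Subgroup G) : Set G)) ∣ (T : Subgroup G).index :=
    (Subgroup.relIndex_dvd_of_le_left _ hTC).trans
      (Subgroup.relIndex_dvd_index_of_le Subgroup.le_normalizer)
  have hqp : q ≠ p := by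
    rintro rfl
    exact T.not_dvd_index ((hr ▸ hqr).trans hdvd)
  have hqG : q ∣ Nat.card G := (hr ▸ hqr).trans (hdvd.trans (Subgroup.index_dvd_card _))
  haveI : Fact q.Prime := ⟨hq⟩
  obtain ⟨α, hα⟩ := exists_prime_orderOf_dvd_card' q hqr
  have hα' : orderOf (α : MulAut (T : Subgroup G)) = q := by
    rw [Subgroup.orderOf_coe]
    exact hα
  obtain ⟨j, hj, hdiv⟩ := aut_fix hq hk (α : MulAut (T : Subgroup G)) hα'
  have e : p ^ k - p ^ j = p ^ j * (p ^ (k - j) - 1) := by
    rw [Nat.mul_sub, mul_one, ← pow_add]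
    congr 2
    omega
  rw [e] at hdiv
  rcases (Nat.Prime.dvd_mul hq).mp hdiv with h1 | h1
  · exact hqp ((Nat.prime_dvd_prime_iff_eq hq (Fact.out)).mp (hq.dvd_of_dvd_pow h1))
  · exact h q hq hqG hqp (k - j) (by omega) (by omega) h1

end Cfsg.Agent.Lib_helper1_NCBound
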