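import Cfsg.Agent.Lib_helper2_PCons

set_option autoImplicit false
open Cfsg

namespace Cfsg.Agent.Lib_helper1_PConsNormal

open Cfsg.Agent.Lib_helper2_Comp Cfsg.Agent.Lib_helper2_Comp2 Cfsg.Agent.Lib_helper2_PComp
  Cfsg.Agent.Lib_helper2_PCons

/-- `L_{p'}` of a group embedded as a normal subgroup of a group with trivial `L_{p'}` is
trivial. -/
theorem pLayer_eq_bot_of_hom {A N : Type*} [Group A] [Group N] [Finite A] [Finite N] (p : ℕ)
    [Fact p.Prime] (g : A →* N) (hg : Function.Injective g) (hnorm : g.range.Normal)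
    (h : pLayer p N = ⊥) : pLayer p A = ⊥ := by
  have hlay : layer (N ⧸ pPrimeCore p N) = ⊥ := (pLayer_eq_bot_iff p).mp h
  have hbot : pPrimeCore p (N ⧸ pPrimeCore p N) = ⊥ := pPrimeCore_quotient_bot p
  let f : A →* N ⧸ pPrimeCore p N := (QuotientGroup.mk' (pPrimeCore p N)).comp g
  have hBn : f.range.Normal := by
    have : f.range = g.range.map (QuotientGroup.mk' (pPrimeCore p N)) :=
      (MonoidHom.map_range _ _).symm
    rw [this]
    exact Subgroup.Normal.map hnorm _ (QuotientGroup.mk'_surjective _)
  have hBsub : f.range.IsSubnormal := Subgroup.Normal.isSubnormal hBn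
  apply pLayer_eq_bot_of_surj p f.rangeRestrict f.rangeRestrict_surjective
  · have hk : f.rangeRestrict.ker = (pPrimeCore p N).comap g := by
      ext a
      rw [MonoidHom.mem_ker, Subgroup.mem_comap, Subtype.ext_iff]
      show (QuotientGroup.mk' (pPrimeCore p N)) (g a) = 1 ↔ _
      rw [QuotientGroup.mk'_apply, QuotientGroup.eq_one_iff]
    rw [hk]
    exact Nat.Coprime.coprime_dvd_left (Subgroup.card_comap_dvd_of_injective _ _ hg)
      (card_pPrimeCore p)
  · have h1 : ((pPrimeCore p ↥f.range).map f.range.subtype).IsSubnormal :=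
      (Subgroup.Normal.isSubnormal inferInstance).trans' hBsub
    have h2 : (Nat.card ((pPrimeCore p ↥f.range).map f.range.subtype)).Coprime p := by
      rw [← Nat.card_congr ((pPrimeCore p ↥f.range).equivMapOfInjective f.range.subtype
        f.range.subtype_injective).toEquiv]
      exact card_pPrimeCore p
    have h3 := subnormal_pprime_le p _ h1 h2
    rw [hbot, le_bot_iff, Subgroup.map_eq_bot_iff_of_injective _ f.range.subtype_injective] at h3
    exact h3
  · rw [eq_bot_iff]
    apply sSup_le
    intro L hL
    exfalso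
    have h1 : IsComponent (L.map f.range.subtype) := (comp_iff_map f.range hBsub L).mp hL
    have h2 := comp_le_layer h1
    rw [hlay, le_bot_iff, Subgroup.map_eq_bot_iff_of_injective _ f.range.subtype_injective] at h2
    exact qs_ne_bot hL.2 h2

end Cfsg.Agent.Lib_helper1_PConsNormal
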