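import Mathlib
import Cfsg.Prelude
import Cfsg.Agent.Lib_helper1_Basic
import Cfsg.Agent.Lib_helper1_MaxSub
import Cfsg.Agent.Lib_helper1_SZConj
import Cfsg.Agent.Lib_helper1_Primitive
import Cfsg.Agent.Lib_helper6_PCore

set_option autoImplicit false

namespace Cfsg.Agent.Lib_helper1_PrimCore

open Cfsg.Agent.Lib_helper1_Basic

theorem sup_eq_top {G : Type*} [Group G] (M : Subgroup G) (hM : IsCoatom M)
    (hcore : M.normalCore = ⊥) (K : Subgroup G) [K.Normal] (hK : K ≠ ⊥) : K ⊔ M = ⊤ := by
  apply Cfsg.Agent.Lib_helper1_MaxSub.sup_eq_top_of_coatom hM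
  intro h
  have := Subgroup.normal_le_normalCore.mpr h
  rw [hcore] at this
  exact hK (le_bot_iff.mp this)

/-- A subgroup of a core-free maximal subgroup `M` normalized by `M` and by a nontrivial normal
subgroup is trivial. -/
theorem eq_bot_of_normalized {G : Type*} [Group G] (M : Subgroup G) (hM : IsCoatom M)
    (hcore : M.normalCore = ⊥) (K : Subgroup G) [K.Normal] (hK : K ≠ ⊥) (X : Subgroup G)
    (hXM : X ≤ M) (hMX : M ≤ Subgroup.normalizer (X : Set G))
    (hKX : K ≤ Subgroup.normalizer (X : Set G)) : X = ⊥ := by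
  have h3 : Subgroup.normalizer (X : Set G) = ⊤ :=
    top_le_iff.mp (sup_eq_top M hM hcore K hK ▸ sup_le hKX hMX)
  haveI : X.Normal := Subgroup.normalizer_eq_top_iff.mp h3
  have := Subgroup.normal_le_normalCore.mpr hXM
  rw [hcore] at this
  exact le_bot_iff.mp this

/-- If some element outside `M` normalizes `X ≤ M` and `M` normalizes `X`, then `X = ⊥`. -/
theorem eq_bot_of_normalized' {G : Type*} [Group G] (M : Subgroup G) (hM : IsCoatom M)
    (hcore : M.normalCore = ⊥) (X : Subgroup G)
    (hXM : X ≤ M) (hMX : M ≤ Subgroup.normalizer (X : Set G))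
    (l : G) (hl : l ∉ M) (hlX : l ∈ Subgroup.normalizer (X : Set G)) : X = ⊥ := by
  have h3 : Subgroup.normalizer (X : Set G) = ⊤ := by
    by_contra hne
    have h4 : M = Subgroup.normalizer (X : Set G) := by
      by_contra h5
      exact hne (hM.2 _ (lt_of_le_of_ne hMX h5))
    rw [← h4] at hlX
    exact hl hlX
  haveI : X.Normal := Subgroup.normalizer_eq_top_iff.mp h3
  have := Subgroup.normal_le_normalCore.mpr hXM
  rw [hcore] at this
  exact le_bot_iff.mp this

theorem structure_of_pCore {G : Type*} [Group G] [Finite G] (p : ℕ) [Fact p.Prime]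
    (L : Subgroup G) [L.Normal] (hLp : IsPGroup p L) (hL : L ≠ ⊥) (M : Subgroup G)
    (hM : IsCoatom M) (hcore : M.normalCore = ⊥) :
    L ⊓ M = ⊥ ∧ L ⊔ M = ⊤ ∧ (∀ K : Subgroup G, K.Normal → K ≤ L → K = ⊥ ∨ K = L) ∧
    IsMulCommutative L ∧ (∀ a ∈ L, a ^ p = 1) := by
  have hp : p.Prime := Fact.out
  have hsup := sup_eq_top M hM hcore L hL
  -- the centre of L
  have hZne : L ⊓ Subgroup.centralizer (L : Set G) ≠ ⊥ := by
    haveI : Nontrivial L := by
      rw [← not_subsingleton_iff_nontrivial]
      intro h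
      exact hL (Subgroup.eq_bot_of_subsingleton L)
    haveI := hLp.center_nontrivial
    obtain ⟨c, hc1⟩ := exists_ne (1 : Subgroup.center L)
    intro hbot
    apply hc1
    have hcc : ∀ m : L, m * (c : L) = (c : L) * m := fun m => Subgroup.mem_center_iff.mp c.2 m
    have : ((c : L) : G) ∈ L ⊓ Subgroup.centralizer (L : Set G) := by
      refine Subgroup.mem_inf.mpr ⟨(c : L).2, ?_⟩
      rw [Subgroup.mem_centralizer_iff]
      intro y hy
      exact congrArg Subtype.val (hcc ⟨y, hy⟩)
    rw [hbot, Subgroup.mem_bot] at this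
    apply Subtype.ext
    apply Subtype.ext
    exact this
  have hinf : L ⊓ M = ⊥ := by
    apply eq_bot_of_normalized M hM hcore (L ⊓ Subgroup.centralizer (L : Set G)) hZne _ inf_le_right
    · exact Cfsg.Agent.Lib_helper1_SZConj.le_normalizer_inf_of_normal L M
    · intro z hz
      apply mem_normalizer_of_conj_le
      intro x hx
      have hz2 : z ∈ Subgroup.centralizer (L : Set G) := (Subgroup.mem_inf.mp hz).2
      rw [Subgroup.mem_centralizer_iff] at hz2
      have e : z * x * z⁻¹ = x := by
        rw [← hz2 x (Subgroup.mem_inf.mp hx).1, mul_inv_cancel_right]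
      rw [e]; exact hx
  have hmin : ∀ K : Subgroup G, K.Normal → K ≤ L → K = ⊥ ∨ K = L := by
    intro K hKn hKL
    by_cases hK : K = ⊥
    · exact Or.inl hK
    · right
      haveI := hKn
      have hKM := sup_eq_top M hM hcore K hK
      apply le_antisymm hKL
      intro x hx
      obtain ⟨k, hk, m, hm, rfl⟩ := exists_mul_of_sup_eq_top K M hKM x
      have hmL : m ∈ L := by
        have := L.mul_mem (L.inv_mem (hKL hk)) hx
        simpa using this
      have : m ∈ L ⊓ M := Subgroup.mem_inf.mpr ⟨hmL, hm⟩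
      rw [hinf, Subgroup.mem_bot] at this
      rw [this, mul_one]; exact hk
  have hZL : L ⊓ Subgroup.centralizer (L : Set G) = L :=
    (hmin _ inferInstance inf_le_left).resolve_left hZne
  have hcomm : ∀ x ∈ L, ∀ y ∈ L, x * y = y * x := by
    intro x hx y hy
    have : y ∈ L ⊓ Subgroup.centralizer (L : Set G) := by rw [hZL]; exact hy
    have h2 : y ∈ Subgroup.centralizer (L : Set G) := (Subgroup.mem_inf.mp this).2
    rw [Subgroup.mem_centralizer_iff] at h2
    exact h2 x hx
  refine ⟨hinf, hsup, hmin, ⟨⟨fun a b => Subtype.ext (hcomm a a.2 b b.2)⟩⟩, ?_⟩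
  -- exponent p
  obtain ⟨K, hKdef⟩ : ∃ K : Subgroup G, ∀ x, x ∈ K ↔ x ∈ L ∧ x ^ p = 1 :=
    ⟨{ carrier := {x | x ∈ L ∧ x ^ p = 1}
       mul_mem' := by
         rintro a b ⟨ha, ha'⟩ ⟨hb, hb'⟩
         refine ⟨L.mul_mem ha hb, ?_⟩
         have hc : Commute a b := hcomm a ha b hb
         rw [hc.mul_pow, ha', hb', one_mul]
       one_mem' := ⟨L.one_mem, one_pow _⟩
       inv_mem' := by
         rintro a ⟨ha, ha'⟩
         exact ⟨L.inv_mem ha, by rw [inv_pow, ha', inv_one]⟩ }, fun x => Iff.rfl⟩
  have hKn : K.Normal := by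
    refine ⟨fun x hx g => ?_⟩
    rw [hKdef] at hx ⊢
    refine ⟨‹L.Normal›.conj_mem x hx.1 g, ?_⟩
    rw [conj_pow, hx.2]; group
  have hKL : K ≤ L := fun x hx => ((hKdef x).mp hx).1
  have hKne : K ≠ ⊥ := by
    have hpd : p ∣ Nat.card L := by
      obtain ⟨k, hk⟩ := IsPGroup.iff_card.mp hLp
      rw [hk]
      have hk0 : k ≠ 0 := by
        intro h0
        rw [h0, pow_zero] at hk
        exact hL (Subgroup.card_eq_one.mp hk)
      exact dvd_pow_self p hk0
    obtain ⟨z, hz⟩ := exists_prime_orderOf_dvd_card' p hpd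
    intro hbot
    have hzK : (z : G) ∈ K := by
      rw [hKdef]
      refine ⟨z.2, ?_⟩
      have := pow_orderOf_eq_one z
      rw [hz] at this
      exact_mod_cast congrArg Subtype.val this
    rw [hbot, Subgroup.mem_bot] at hzK
    have : z = 1 := Subtype.ext hzK
    rw [this, orderOf_one] at hz
    exact hp.one_lt.ne hz
  have hKeq := (hmin K hKn hKL).resolve_left hKne
  intro a ha
  rw [← hKeq] at ha
  exact ((hKdef a).mp ha).2

/-- A `q`-subgroup acting by conjugation on a normal subgroup `L` with no nontrivial fixed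
points forces `|L| ≡ 1 mod q`. -/
theorem card_modEq_one_of_fpf {G : Type*} [Group G] [Finite G] (q : ℕ) [Fact q.Prime]
    (L Q : Subgroup G) [L.Normal] (hQ : IsPGroup q Q)
    (hfix : ∀ l ∈ L, (∀ y ∈ Q, y * l = l * y) → l = 1) : Nat.card L ≡ 1 [MOD q] := by
  letI : MulAction Q L := MulAction.compHom L ((MulAut.conjNormal (H := L)).comp Q.subtype)
  have hsm : ∀ (y : Q) (l : L), ((y • l : L) : G) = (y : G) * l * (y : G)⁻¹ := fun y l => rfl
  have h1 := hQ.card_modEq_card_fixedPoints L
  have h2 : MulAction.fixedPoints Q L = {1} := by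
    ext l
    rw [MulAction.mem_fixedPoints, Set.mem_singleton_iff]
    constructor
    · intro h
      apply Subtype.ext
      apply hfix l l.2
      intro y hy
      have := congrArg Subtype.val (h ⟨y, hy⟩)
      rw [hsm] at this
      calc y * (l : G) = y * (l : G) * y⁻¹ * y := by group
        _ = (l : G) * y := by rw [this]
    · intro h y
      rw [h]
      apply Subtype.ext
      rw [hsm]
      simp
  rw [h2] at h1
  simpa using h1

theorem part5 {G : Type*} [Group G] [Finite G] (p : ℕ) [Fact p.Prime]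
    (L : Subgroup G) [L.Normal] (hLp : IsPGroup p L) (hL : L ≠ ⊥)
    (hLmax : ∀ N : Subgroup G, N.Normal → IsPGroup p N → N ≤ L) (M : Subgroup G)
    (hM : IsCoatom M) (hcore : M.normalCore = ⊥) (q : ℕ) [Fact q.Prime] (Q : Subgroup G)
    (hQM : Q ≤ M) (hQq : IsPGroup q Q) (hQne : Q ≠ ⊥)
    (hMQ : M ≤ Subgroup.normalizer (Q : Set G)) :
    Nat.card L % q = 1 % q ∧ q ≠ p := by
  obtain ⟨hinf, hsup, hmin, hcomm, hexp⟩ := structure_of_pCore p L hLp hL M hM hcore
  constructor
  · apply card_modEq_one_of_fpf q L Q hQq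
    intro l hl hfix
    by_contra hl1
    apply hQne
    apply eq_bot_of_normalized' M hM hcore Q hQM hMQ l
    · intro hlM
      have : l ∈ L ⊓ M := Subgroup.mem_inf.mpr ⟨hl, hlM⟩
      rw [hinf, Subgroup.mem_bot] at this
      exact hl1 this
    · apply mem_normalizer_of_conj_le
      intro y hy
      have := hfix y hy
      have e : l * y * l⁻¹ = y := by rw [← this, mul_inv_cancel_right]
      rw [e]; exact hy
  · intro hqp
    subst hqp
    apply hQne
    have hn : (L ⊔ Q).Normal := by
      have h3 : Subgroup.normalizer ((L ⊔ Q : Subgroup G) : Set G) = ⊤ := by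
        apply top_le_iff.mp
        rw [← hsup]
        apply sup_le
        · exact le_sup_left.trans Subgroup.le_normalizer
        · intro m hm
          apply mem_normalizer_of_conj_le
          intro x hx
          have hx' : x ∈ L ⊔ Q := hx
          rw [Subgroup.mem_sup_of_normal_left] at hx'
          obtain ⟨a, ha, b, hb, rfl⟩ := hx'
          have e : m * (a * b) * m⁻¹ = (m * a * m⁻¹) * (m * b * m⁻¹) := by group
          rw [e]
          apply Subgroup.mul_mem
          · exact Subgroup.mem_sup_left (‹L.Normal›.conj_mem a ha m)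
          · apply Subgroup.mem_sup_right
            have h4 := hMQ hm
            rw [Subgroup.mem_normalizer_iff] at h4
            exact (h4 b).mp hb
      exact Subgroup.normalizer_eq_top_iff.mp h3
    have hpg : IsPGroup q (L ⊔ Q : Subgroup G) := IsPGroup.to_sup_of_normal_left hLp hQq
    have hQL : Q ≤ L := le_sup_right.trans (hLmax _ hn hpg)
    rw [eq_bot_iff, ← hinf]
    exact le_inf hQL hQM

end Cfsg.Agent.Lib_helper1_PrimCore
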