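import Mathlib
import Cfsg.Agent.Lib_helper1_Hall

set_option autoImplicit false

namespace Cfsg.Agent.Lib_helper1_PrimSolv

theorem regular_of_minimal_normal {G : Type*} [Group G] [Finite G] [Group.IsSolvable G]
    {Ω : Type*} [MulAction G Ω] [FaithfulSMul G Ω] (hprim : MulAction.IsPreprimitive G Ω)
    (M : Subgroup G) [M.Normal] (hM : M ≠ ⊥)
    (hmin : ∀ K : Subgroup G, K.Normal → K ≤ M → K = ⊥ ∨ K = M) :
    MulAction.IsPretransitive M Ω ∧ IsMulCommutative M ∧ (∃ p : ℕ, p.Prime ∧ ∀ x ∈ M, x ^ p = 1) ∧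
      (∀ ω : Ω, ∀ m ∈ M, m • ω = ω → m = 1) := by
  have hfix : MulAction.fixedPoints M Ω ≠ Set.univ := by
    intro h
    apply hM
    rw [eq_bot_iff]
    intro m hm
    rw [Subgroup.mem_bot]
    apply FaithfulSMul.eq_of_smul_eq_smul (α := Ω)
    intro ω
    have : ω ∈ MulAction.fixedPoints M Ω := by rw [h]; trivial
    rw [MulAction.mem_fixedPoints] at this
    rw [one_smul]
    exact this ⟨m, hm⟩
  have htrans : MulAction.IsPretransitive M Ω :=
    MulAction.IsQuasiPreprimitive.isPretransitive_of_normal hfix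
  obtain ⟨hcomm, p, hp, hexp⟩ := Cfsg.Agent.Lib_helper1_Hall.minimal_normal_elementary M hM hmin
  refine ⟨htrans, hcomm, ⟨p, hp, hexp⟩, ?_⟩
  intro ω m hm hmω
  apply FaithfulSMul.eq_of_smul_eq_smul (α := Ω)
  intro ω'
  obtain ⟨n, hn⟩ := MulAction.exists_smul_eq M ω ω'
  have hn' : (n : G) • ω = ω' := hn
  rw [one_smul, ← hn', ← mul_smul]
  have e : m * (n : G) = (n : G) * m := congrArg Subtype.val (mul_comm' (⟨m, hm⟩ : M) n)
  rw [e, mul_smul, hmω]

end Cfsg.Agent.Lib_helper1_PrimSolv
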