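import Mathlib
import Cfsg.Prelude.Def_PLocal
import Cfsg.Prelude.Def_Local
import Cfsg.Agent.Lib_helper1_ZJE
import Cfsg.Agent.Lib_helper7_PCore

set_option autoImplicit false
set_option maxHeartbeats 800000

/-! The stable normal closure `W(S)` of `Ω₁(Z(S))` (Stellmacher's characteristic subgroup). -/

namespace Cfsg.Agent.H1SNC

open scoped commutatorElement Pointwise

universe u

/-! ### Quadratic action, elementwise -/

theorem cent_iff {G : Type*} [Group G] (V : Subgroup G) (a : G) :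
    ⁅V, Subgroup.zpowers a⁆ = ⊥ ↔ ∀ v ∈ V, ⁅v, a⁆ = 1 := by
  constructor
  · intro h v hv
    have h1 : ⁅v, a⁆ ∈ ⁅V, Subgroup.zpowers a⁆ :=
      Subgroup.commutator_mem_commutator hv (Subgroup.mem_zpowers a)
    rw [h, Subgroup.mem_bot] at h1
    exact h1
  · intro h
    rw [Subgroup.commutator_eq_bot_iff_le_centralizer]
    intro v hv
    rw [Subgroup.mem_centralizer_iff]
    intro z hz
    obtain ⟨k, rfl⟩ := Subgroup.mem_zpowers_iff.mp hz
    have h1 : Commute v a := commutatorElement_eq_one_iff_commute.mp (h v hv)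
    exact (h1.zpow_right k).symm.eq

theorem comm_zpow {G : Type*} [Group G] (v a : G) (h : ⁅⁅v, a⁆, a⁆ = 1) (k : ℤ) :
    ⁅v, a ^ k⁆ = ⁅v, a⁆ ^ k := by
  have hc : Commute ⁅v, a⁆ a := commutatorElement_eq_one_iff_commute.mp h
  have h1 : v * a * v⁻¹ = ⁅v, a⁆ * a := by rw [commutatorElement_def]; group
  have h2 : v * a ^ k * v⁻¹ = (v * a * v⁻¹) ^ k := by rw [conj_zpow]
  have h3 : ⁅v, a ^ k⁆ = v * a ^ k * v⁻¹ * (a ^ k)⁻¹ := commutatorElement_def _ _
  rw [h3, h2, h1, hc.mul_zpow, mul_inv_cancel_right]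

theorem quad_iff {G : Type*} [Group G] (V : Subgroup G) (a : G) :
    ⁅⁅V, Subgroup.zpowers a⁆, Subgroup.zpowers a⁆ = ⊥ ↔ ∀ v ∈ V, ⁅⁅v, a⁆, a⁆ = 1 := by
  constructor
  · intro h v hv
    have h1 : ⁅⁅v, a⁆, a⁆ ∈ ⁅⁅V, Subgroup.zpowers a⁆, Subgroup.zpowers a⁆ :=
      Subgroup.commutator_mem_commutator
        (Subgroup.commutator_mem_commutator hv (Subgroup.mem_zpowers a))
        (Subgroup.mem_zpowers a)
    rw [h, Subgroup.mem_bot] at h1
    exact h1
  · intro h
    rw [Subgroup.commutator_eq_bot_iff_le_centralizer, Subgroup.commutator_le]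
    intro v hv z hz
    obtain ⟨k, rfl⟩ := Subgroup.mem_zpowers_iff.mp hz
    rw [comm_zpow v a (h v hv) k, Subgroup.mem_centralizer_iff]
    intro z' hz'
    obtain ⟨j, rfl⟩ := Subgroup.mem_zpowers_iff.mp hz'
    have hc : Commute ⁅v, a⁆ a := commutatorElement_eq_one_iff_commute.mp (h v hv)
    exact ((hc.zpow_left k).zpow_right j).symm.eq

theorem comm_congr {G : Type*} [Group G] (U : Subgroup G) (a s : G)
    (h : s⁻¹ * a ∈ Subgroup.centralizer (U : Set G)) (u : G) (hu : u ∈ U) :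
    ⁅u, a⁆ = ⁅u, s⁆ := by
  obtain ⟨c, hc⟩ : ∃ c, c = s⁻¹ * a := ⟨_, rfl⟩
  rw [← hc] at h
  have ha : a = s * c := by rw [hc]; group
  have h1 : u⁻¹ * c = c * u⁻¹ := Subgroup.mem_centralizer_iff.mp h u⁻¹ (U.inv_mem hu)
  rw [commutatorElement_def, commutatorElement_def, ha]
  calc u * (s * c) * u⁻¹ * (s * c)⁻¹ = u * s * (c * u⁻¹) * c⁻¹ * s⁻¹ := by group
    _ = u * s * (u⁻¹ * c) * c⁻¹ * s⁻¹ := by rw [h1]
    _ = u * s * u⁻¹ * s⁻¹ := by group

theorem comm_mem {G : Type*} [Group G] (U : Subgroup G) [hU : U.Normal] (u a : G)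
    (hu : u ∈ U) : ⁅u, a⁆ ∈ U := by
  rw [commutatorElement_def]
  have := U.mul_mem hu (hU.conj_mem u⁻¹ (U.inv_mem hu) a)
  have e : u * a * u⁻¹ * a⁻¹ = u * (a * u⁻¹ * a⁻¹) := by group
  rw [e]; exact this

theorem quad_congr {G : Type*} [Group G] (U : Subgroup G) [U.Normal] (a s : G)
    (h : s⁻¹ * a ∈ Subgroup.centralizer (U : Set G)) (hq : ∀ u ∈ U, ⁅⁅u, a⁆, a⁆ = 1) :
    ∀ u ∈ U, ⁅⁅u, s⁆, s⁆ = 1 := by
  intro u hu
  rw [← comm_congr U a s h u hu, ← comm_congr U a s h _ (comm_mem U u a hu)]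
  exact hq u hu

theorem quad_conj {G : Type*} [Group G] (U : Subgroup G) [hU : U.Normal] (a h : G)
    (hq : ∀ u ∈ U, ⁅⁅u, a⁆, a⁆ = 1) : ∀ u ∈ U, ⁅⁅u, h * a * h⁻¹⁆, h * a * h⁻¹⁆ = 1 := by
  intro u hu
  have h1 := hq (h⁻¹ * u * h) (by have := hU.conj_mem u hu h⁻¹; simpa using this)
  have h2 := congrArg (MulAut.conj h) h1
  rw [map_commutatorElement, map_commutatorElement, map_one] at h2
  simp only [MulAut.conj_apply] at h2
  have e : h * (h⁻¹ * u * h) * h⁻¹ = u := by group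
  rw [e] at h2
  exact h2

/-- The key step of Stellmacher's argument. -/
theorem ks_lemma {H : Type*} [Group H] [Finite H] {p : ℕ} [Fact p.Prime] (P : Sylow p H)
    (U : Subgroup H) [hUn : U.Normal] (X : Subgroup H) (hXU : X ≤ U)
    (hgood : ∀ s ∈ (P : Subgroup H), (∀ x ∈ X, ⁅⁅x, s⁆, s⁆ = 1) → ∀ x ∈ X, ⁅x, s⁆ = 1)
    (a : H) (hq : ∀ u ∈ U, ⁅⁅u, a⁆, a⁆ = 1)
    (ha : (QuotientGroup.mk a : H ⧸ Subgroup.centralizer (U : Set H)) ∈
      Cfsg.pCore p (H ⧸ Subgroup.centralizer (U : Set H))) :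
    ∀ h : H, ∀ x ∈ X, ⁅h * x * h⁻¹, a⁆ = 1 := by
  intro h x hx
  obtain ⟨b, hb⟩ : ∃ b, b = h⁻¹ * a * h := ⟨_, rfl⟩
  have hqb : ∀ u ∈ U, ⁅⁅u, b⁆, b⁆ = 1 := by
    have := quad_conj U a h⁻¹ hq
    rw [inv_inv] at this
    rw [hb]; exact this
  have hbcore : (QuotientGroup.mk' (Subgroup.centralizer (U : Set H))) b ∈
      Cfsg.pCore p (H ⧸ Subgroup.centralizer (U : Set H)) := by
    have hn := Lib_helper7_PCore.pCore_normal (G := H ⧸ Subgroup.centralizer (U : Set H)) p
    have := hn.conj_mem _ ha ((QuotientGroup.mk' (Subgroup.centralizer (U : Set H))) h⁻¹)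
    rw [hb, map_mul, map_mul]
    have e : (QuotientGroup.mk' (Subgroup.centralizer (U : Set H))) h =
        ((QuotientGroup.mk' (Subgroup.centralizer (U : Set H))) h⁻¹)⁻¹ := by
      rw [map_inv, inv_inv]
    rw [e]; exact this
  have hle := Lib_helper7_PCore.pCore_le_sylow
    (P.mapSurjective (QuotientGroup.mk'_surjective (Subgroup.centralizer (U : Set H))))
  have hb2 := hle hbcore
  rw [Sylow.coe_mapSurjective] at hb2
  obtain ⟨s, hsP, hse⟩ := hb2
  have hsb : s⁻¹ * b ∈ Subgroup.centralizer (U : Set H) := QuotientGroup.eq.mp hse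
  have hqs := quad_congr U b s hsb hqb
  have h1 := hgood s hsP (fun x hx => hqs x (hXU hx)) x hx
  have h2 : ⁅x, b⁆ = 1 := by rw [comm_congr U b s hsb x (hXU hx)]; exact h1
  have h3 := congrArg (MulAut.conj h) h2
  rw [map_commutatorElement, map_one] at h3
  simp only [MulAut.conj_apply] at h3
  have e : h * b * h⁻¹ = a := by rw [hb]; group
  rw [e] at h3; exact h3

/-! ### The defining family -/

/-- The family whose infimum is the stable normal closure. -/
def fam (p : ℕ) (S : Type u) [Group S] : Set (Subgroup S) :=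
  {W : Subgroup S | Cfsg.omegaOne p (Subgroup.center S) ≤ W ∧
    ∀ (H : Type u) [Group H] (τ : S →* H), Cfsg.IsStableEmbedding p τ → (W.map τ).Normal}

theorem snc_eq (p : ℕ) (S : Type u) [Group S] :
    Cfsg.stableNormalClosure p S = sInf (fam p S) := rfl

theorem omega_le_snc (p : ℕ) (S : Type u) [Group S] :
    Cfsg.omegaOne p (Subgroup.center S) ≤ Cfsg.stableNormalClosure p S := by
  rw [snc_eq]
  exact le_sInf (fun W hW => hW.1)

theorem omega_le_oct (p : ℕ) (S : Type u) [Group S] [Finite S] :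
    Cfsg.omegaOne p (Subgroup.center S) ≤ Cfsg.omegaCenterThompson p S := by
  unfold Cfsg.omegaOne
  rw [Subgroup.closure_le]
  rintro x ⟨hx, hxp⟩
  rw [SetLike.mem_coe, H1ZJE.ctE_T]
  intro U hU
  exact H1ZJE.mem_maxEl_of_centralizes U hU x
    (fun u _ => (Subgroup.mem_center_iff.mp hx u)) hxp

theorem oct_map_normal (p : ℕ) {S H : Type u} [Group S] [Group H] (τ : S →* H)
    (hinj : Function.Injective τ) (hJ : ((Cfsg.thompsonSubgroup p S).map τ).Normal) :
    ((Cfsg.omegaCenterThompson p S).map τ).Normal := by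
  constructor
  rintro _ ⟨z, hz, rfl⟩ h
  unfold Cfsg.omegaCenterThompson Cfsg.omegaOne at hz ⊢
  induction hz using Subgroup.closure_induction with
  | mem y hy =>
    obtain ⟨hy1, hyp⟩ := hy
    obtain ⟨hyJ, hyC⟩ := Subgroup.mem_inf.mp hy1
    obtain ⟨y', hy'J, hy'e⟩ := hJ.conj_mem _ (Subgroup.mem_map_of_mem τ hyJ) h
    refine ⟨y', Subgroup.subset_closure ⟨Subgroup.mem_inf.mpr ⟨hy'J, ?_⟩, ?_⟩, hy'e⟩
    · rw [Subgroup.mem_centralizer_iff]
      intro j hj
      obtain ⟨j', hj'J, hj'e⟩ := hJ.conj_mem _ (Subgroup.mem_map_of_mem τ hj) h⁻¹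
      apply hinj
      rw [map_mul, map_mul, hy'e]
      have h1 : τ j = h * τ j' * h⁻¹ := by rw [hj'e]; group
      have h2 : τ j' * τ y = τ y * τ j' := by
        rw [← map_mul, ← map_mul, Subgroup.mem_centralizer_iff.mp hyC j' hj'J]
      rw [h1]
      calc h * τ j' * h⁻¹ * (h * τ y * h⁻¹) = h * (τ j' * τ y) * h⁻¹ := by group
        _ = h * (τ y * τ j') * h⁻¹ := by rw [h2]
        _ = h * τ y * h⁻¹ * (h * τ j' * h⁻¹) := by group
    · apply hinj
      rw [map_pow, hy'e, conj_pow, ← map_pow, hyp, map_one]; simp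
  | one =>
    have : h * τ 1 * h⁻¹ = 1 := by rw [map_one]; group
    rw [this]; exact Subgroup.one_mem _
  | mul a b _ _ iha ihb =>
    have : h * τ (a * b) * h⁻¹ = (h * τ a * h⁻¹) * (h * τ b * h⁻¹) := by
      rw [map_mul]; group
    rw [this]; exact Subgroup.mul_mem _ iha ihb
  | inv a _ iha =>
    have : h * τ a⁻¹ * h⁻¹ = (h * τ a * h⁻¹)⁻¹ := by rw [map_inv]; group
    rw [this]; exact Subgroup.inv_mem _ iha

theorem sInf_mem_fam (p : ℕ) (S : Type u) [Group S] (W₀ : Subgroup S) (hW₀ : W₀ ∈ fam p S) :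
    sInf (fam p S) ∈ fam p S := by
  refine ⟨le_sInf (fun W hW => hW.1), ?_⟩
  intro H _ τ hτ
  have hinj := hτ.1
  constructor
  rintro _ ⟨w, hw, rfl⟩ h
  obtain ⟨w', hw'₀, hw'e⟩ := (hW₀.2 H τ hτ).conj_mem _
    (Subgroup.mem_map_of_mem τ (sInf_le hW₀ hw)) h
  refine ⟨w', Subgroup.mem_sInf.mpr ?_, hw'e⟩
  intro W hW
  obtain ⟨w'', hw'', hw''e⟩ := (hW.2 H τ hτ).conj_mem _
    (Subgroup.mem_map_of_mem τ (sInf_le hW hw)) h
  have : w'' = w' := hinj (hw''e.trans hw'e.symm)
  rw [← this]; exact hw''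

theorem oct_mem_fam (p : ℕ) (S : Type u) [Group S] [Finite S] :
    Cfsg.omegaCenterThompson p S ∈ fam p S :=
  ⟨omega_le_oct p S, fun H _ τ hτ => oct_map_normal p τ hτ.1 hτ.2.2.2.2.1⟩

theorem snc_mem_fam (p : ℕ) (S : Type u) [Group S] [Finite S] :
    Cfsg.stableNormalClosure p S ∈ fam p S :=
  sInf_mem_fam p S _ (oct_mem_fam p S)

theorem snc_le_oct (p : ℕ) (S : Type u) [Group S] [Finite S] :
    Cfsg.stableNormalClosure p S ≤ Cfsg.omegaCenterThompson p S :=
  sInf_le (oct_mem_fam p S)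

/-! ### Good subgroups -/

/-- A normal subgroup between `Ω₁(Z(S))` and `W(S)` on which quadratic action is trivial. -/
def Good (p : ℕ) (S : Type u) [Group S] (X : Subgroup S) : Prop :=
  Cfsg.omegaOne p (Subgroup.center S) ≤ X ∧ X ≤ Cfsg.stableNormalClosure p S ∧ X.Normal ∧
    ∀ y : S, (∀ x ∈ X, ⁅⁅x, y⁆, y⁆ = 1) → ∀ x ∈ X, ⁅x, y⁆ = 1

theorem omega_le_center (p : ℕ) (S : Type u) [Group S] :
    Cfsg.omegaOne p (Subgroup.center S) ≤ Subgroup.center S := by
  unfold Cfsg.omegaOne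
  rw [Subgroup.closure_le]
  rintro x ⟨hx, -⟩
  exact hx

theorem good_omega (p : ℕ) (S : Type u) [Group S] :
    Good p S (Cfsg.omegaOne p (Subgroup.center S)) := by
  refine ⟨le_rfl, omega_le_snc p S, ?_, ?_⟩
  · constructor
    intro n hn g
    have h1 := Subgroup.mem_center_iff.mp (omega_le_center p S hn) g
    have : g * n * g⁻¹ = n := by rw [h1]; group
    rw [this]; exact hn
  · intro y _ x hx
    have h1 := Subgroup.mem_center_iff.mp (omega_le_center p S hx) y
    rw [commutatorElement_eq_one_iff_mul_comm]; exact h1.symm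

theorem good_step (p : ℕ) [Fact p.Prime] (S : Type u) [Group S] [Finite S] (X : Subgroup S)
    (hX : Good p S X) (H : Type u) [Group H] (τ : S →* H)
    (hτ : Cfsg.IsStableEmbedding p τ) :
    Good p S ((Subgroup.normalClosure ((X.map τ : Subgroup H) : Set H)).comap τ) := by
  obtain ⟨hX1, hX2, hX3, hX4⟩ := hX
  have hsncN : ((Cfsg.stableNormalClosure p S).map τ).Normal := (snc_mem_fam p S).2 H τ hτ
  obtain ⟨hinj, hfin, ⟨P, hP⟩, hcent, hJ, hstab⟩ := hτ
  haveI := hfin
  obtain ⟨U, hUe⟩ : ∃ U, U = Subgroup.normalClosure ((X.map τ : Subgroup H) : Set H) :=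
    ⟨_, rfl⟩
  rw [← hUe]
  haveI hUn : U.Normal := hUe ▸ Subgroup.normalClosure_normal
  have hXU : X.map τ ≤ U := hUe ▸ Subgroup.le_normalClosure
  have hUsnc : U ≤ (Cfsg.stableNormalClosure p S).map τ := by
    rw [hUe]
    exact Subgroup.normalClosure_le_normal (SetLike.coe_subset_coe.mpr (Subgroup.map_mono hX2))
  have hUoct : U ≤ (Cfsg.omegaCenterThompson p S).map τ :=
    hUsnc.trans (Subgroup.map_mono (snc_le_oct p S))
  have hXcomap : X ≤ U.comap τ := by
    intro x hx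
    exact Subgroup.mem_comap.mpr (hXU (Subgroup.mem_map_of_mem τ hx))
  refine ⟨hX1.trans hXcomap, ?_, hUn.comap τ, ?_⟩
  · intro x hx
    obtain ⟨w, hw, hwe⟩ := hUsnc (Subgroup.mem_comap.mp hx)
    rw [← hinj hwe]; exact hw
  · intro y hy x hx
    have hstU := hstab U hUoct
    have hqU : ∀ u ∈ U, ⁅⁅u, τ y⁆, τ y⁆ = 1 := by
      intro u hu
      obtain ⟨w, hw, rfl⟩ := hUsnc hu
      have := hy w (Subgroup.mem_comap.mpr hu)
      rw [← map_commutatorElement, ← map_commutatorElement, this, map_one]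
    have hcore := hstU (τ y) ((quad_iff U (τ y)).mpr hqU)
    have hgood : ∀ s ∈ (P : Subgroup H), (∀ x ∈ X.map τ, ⁅⁅x, s⁆, s⁆ = 1) →
        ∀ x ∈ X.map τ, ⁅x, s⁆ = 1 := by
      intro s hs hq
      rw [hP] at hs
      obtain ⟨y', rfl⟩ := hs
      have h1 : ∀ x ∈ X, ⁅⁅x, y'⁆, y'⁆ = 1 := by
        intro x hx
        apply hinj
        rw [map_commutatorElement, map_commutatorElement, map_one]
        exact hq _ (Subgroup.mem_map_of_mem τ hx)
      have h2 := hX4 y' h1
      rintro _ ⟨x, hx, rfl⟩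
      rw [← map_commutatorElement, h2 x hx, map_one]
    have hks := ks_lemma P U (X.map τ) hXU hgood (τ y) hqU hcore
    have hcentU : U ≤ Subgroup.centralizer ({τ y} : Set H) := by
      rw [hUe, Subgroup.normalClosure, Subgroup.closure_le]
      intro c hc
      obtain ⟨b, hb, hbc⟩ := Group.mem_conjugatesOfSet_iff.mp hc
      obtain ⟨g, rfl⟩ := isConj_iff.mp hbc
      rw [SetLike.mem_coe, Subgroup.mem_centralizer_iff]
      intro z hz
      rw [Set.mem_singleton_iff] at hz; subst hz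
      have := hks g b hb
      exact (commutatorElement_eq_one_iff_mul_comm.mp this).symm
    have h3 := Subgroup.mem_centralizer_iff.mp (hcentU (Subgroup.mem_comap.mp hx)) (τ y)
      (Set.mem_singleton _)
    rw [commutatorElement_eq_one_iff_mul_comm]
    apply hinj
    rw [map_mul, map_mul]; exact h3.symm

/-- `W(S)` itself is good: quadratic action on `W(S)` is trivial. -/
theorem snc_good (p : ℕ) [Fact p.Prime] (S : Type u) [Group S] [Finite S] :
    Good p S (Cfsg.stableNormalClosure p S) := by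
  haveI : Nonempty {X : Subgroup S // Good p S X} := ⟨⟨_, good_omega p S⟩⟩
  obtain ⟨⟨X, hX⟩, hmax⟩ := Finite.exists_max
    (fun X : {X : Subgroup S // Good p S X} => Nat.card ↥X.1)
  have hXfam : X ∈ fam p S := by
    refine ⟨hX.1, ?_⟩
    intro H _ τ hτ
    have hstep := good_step p S X hX H τ hτ
    have hle : X ≤ (Subgroup.normalClosure ((X.map τ : Subgroup H) : Set H)).comap τ := by
      intro x hx
      exact Subgroup.mem_comap.mpr (Subgroup.le_normalClosure (Subgroup.mem_map_of_mem τ hx))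
    have hcard := hmax ⟨_, hstep⟩
    have heq := Subgroup.eq_of_le_of_card_ge hle hcard
    have hUr : Subgroup.normalClosure ((X.map τ : Subgroup H) : Set H) ≤ τ.range := by
      haveI := (snc_mem_fam p S).2 H τ hτ
      have h1 : Subgroup.normalClosure ((X.map τ : Subgroup H) : Set H) ≤
          (Cfsg.stableNormalClosure p S).map τ :=
        Subgroup.normalClosure_le_normal
          (SetLike.coe_subset_coe.mpr (Subgroup.map_mono hX.2.1))
      exact h1.trans (Subgroup.map_le_range τ _)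
    have h2 : X.map τ = Subgroup.normalClosure ((X.map τ : Subgroup H) : Set H) := by
      conv_lhs => rw [heq]
      exact Subgroup.map_comap_eq_self hUr
    rw [h2]
    exact Subgroup.normalClosure_normal
  have hle : Cfsg.stableNormalClosure p S ≤ X := sInf_le hXfam
  have heq : Cfsg.stableNormalClosure p S = X := le_antisymm hle hX.2.1
  rw [heq]; exact hX

/-! ### Transport by isomorphisms -/

theorem maxEl_map_equiv (p : ℕ) {S S' : Type*} [Group S] [Group S'] (η : S ≃* S')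
    (A : Subgroup S) (hA : A ∈ Cfsg.maxElementaryAbelianSubgroups p S) :
    A.map η.toMonoidHom ∈ Cfsg.maxElementaryAbelianSubgroups p S' := by
  refine ⟨⟨H1ZJ.map_comm _ _ hA.1.1, ?_⟩, ?_⟩
  · rintro _ ⟨a, ha, rfl⟩
    rw [← map_pow, hA.1.2 a ha, map_one]
  · intro B' hB'
    have h1 := hA.2 (B'.map η.symm.toMonoidHom) ⟨H1ZJ.map_comm _ _ hB'.1, by
      rintro _ ⟨b, hb, rfl⟩
      rw [← map_pow, hB'.2 b hb, map_one]⟩
    rw [Subgroup.card_map_of_injective η.symm.injective] at h1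
    rw [Subgroup.card_map_of_injective η.injective]
    exact h1

theorem map_symm_map {S S' : Type*} [Group S] [Group S'] (η : S ≃* S') (A' : Subgroup S') :
    (A'.map η.symm.toMonoidHom).map η.toMonoidHom = A' := by
  ext x
  constructor
  · rintro ⟨_, ⟨a, ha, rfl⟩, rfl⟩
    simpa using ha
  · intro hx
    exact ⟨η.symm x, ⟨x, hx, rfl⟩, by simp⟩

theorem ts_map_equiv (p : ℕ) {S S' : Type*} [Group S] [Group S'] (η : S ≃* S') :
    (Cfsg.thompsonSubgroup p S).map η.toMonoidHom = Cfsg.thompsonSubgroup p S' := by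
  unfold Cfsg.thompsonSubgroup
  apply le_antisymm
  · rw [Subgroup.map_le_iff_le_comap]
    apply sSup_le
    intro A hA
    rw [← Subgroup.map_le_iff_le_comap]
    exact le_sSup (α := Subgroup S') (maxEl_map_equiv p η A hA)
  · apply sSup_le
    intro A' hA'
    rw [← map_symm_map η A']
    exact Subgroup.map_mono (le_sSup (α := Subgroup S) (maxEl_map_equiv p η.symm A' hA'))

theorem oct_map_equiv (p : ℕ) {S S' : Type*} [Group S] [Group S'] [Finite S] [Finite S']
    (η : S ≃* S') :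
    (Cfsg.omegaCenterThompson p S).map η.toMonoidHom = Cfsg.omegaCenterThompson p S' := by
  ext x'
  rw [H1ZJE.ctE_T]
  constructor
  · rintro ⟨x, hx, rfl⟩ U' hU'
    have h1 := (H1ZJE.ctE_T p S x).mp hx _ (maxEl_map_equiv p η.symm U' hU')
    obtain ⟨u, hu, hue⟩ := h1
    have hx' : η.toMonoidHom x = u := by rw [← hue]; simp
    rw [hx']; exact hu
  · intro h
    refine ⟨η.symm x', (H1ZJE.ctE_T p S _).mpr ?_, by simp⟩
    intro U hU
    obtain ⟨u, hu, hue⟩ := h _ (maxEl_map_equiv p η U hU)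
    have hx' : η.symm x' = u := by rw [← hue]; simp
    rw [hx']; exact hu

theorem omega_map_equiv (p : ℕ) {S S' : Type*} [Group S] [Group S'] (η : S ≃* S') :
    (Cfsg.omegaOne p (Subgroup.center S)).map η.toMonoidHom =
      Cfsg.omegaOne p (Subgroup.center S') := by
  unfold Cfsg.omegaOne
  rw [MonoidHom.map_closure]
  congr 1
  ext x'
  constructor
  · rintro ⟨x, ⟨hx, hxp⟩, rfl⟩
    refine ⟨?_, ?_⟩
    · rw [Subgroup.mem_center_iff]
      intro g'
      obtain ⟨g, rfl⟩ := η.surjective g'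
      have := Subgroup.mem_center_iff.mp hx g
      show η g * η x = η x * η g
      rw [← map_mul, ← map_mul, this]
    · show (η x) ^ p = 1
      rw [← map_pow, hxp, map_one]
  · rintro ⟨hx', hx'p⟩
    refine ⟨η.symm x', ⟨?_, ?_⟩, by simp⟩
    · rw [Subgroup.mem_center_iff]
      intro g
      have := Subgroup.mem_center_iff.mp hx' (η g)
      apply η.injective
      rw [map_mul, map_mul, MulEquiv.apply_symm_apply]; exact this
    · rw [← map_pow, hx'p, map_one]

theorem stable_comp (p : ℕ) {S S' H : Type u} [Group S] [Group S'] [Group H] [Finite S]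
    (η : S ≃* S') (τ' : S' →* H) (h : Cfsg.IsStableEmbedding p τ') :
    Cfsg.IsStableEmbedding p (τ'.comp η.toMonoidHom) := by
  obtain ⟨hinj, hfin, ⟨P, hP⟩, hcent, hJ, hstab⟩ := h
  haveI : Finite S' := Finite.of_equiv S η.toEquiv
  refine ⟨hinj.comp η.injective, hfin, ⟨P, ?_⟩, hcent, ?_, ?_⟩
  · rw [hP]
    ext x
    constructor
    · rintro ⟨s', rfl⟩
      exact ⟨η.symm s', by simp⟩
    · rintro ⟨s, rfl⟩
      exact ⟨η s, rfl⟩
  · rw [← Subgroup.map_map, ts_map_equiv p η]; exact hJ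
  · intro V _ hV
    apply hstab V
    rw [← Subgroup.map_map, oct_map_equiv p η] at hV; exact hV

theorem fam_map_equiv (p : ℕ) {S S' : Type u} [Group S] [Group S'] [Finite S] (η : S ≃* S')
    (W : Subgroup S) (hW : W ∈ fam p S) : W.map η.toMonoidHom ∈ fam p S' := by
  refine ⟨?_, ?_⟩
  · rw [← omega_map_equiv p η]; exact Subgroup.map_mono hW.1
  · intro H _ τ' hτ'
    have := hW.2 H (τ'.comp η.toMonoidHom) (stable_comp p η τ' hτ')
    rw [← Subgroup.map_map] at this; exact this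

/-- `W(S)` is transported by isomorphisms. -/
theorem snc_map_equiv (p : ℕ) {S S' : Type u} [Group S] [Group S'] [Finite S] (η : S ≃* S') :
    (Cfsg.stableNormalClosure p S).map η.toMonoidHom = Cfsg.stableNormalClosure p S' := by
  haveI : Finite S' := Finite.of_equiv S η.toEquiv
  ext x'
  rw [snc_eq, snc_eq, Subgroup.mem_sInf]
  constructor
  · rintro ⟨x, hx, rfl⟩ W' hW'
    have h1 := Subgroup.mem_sInf.mp hx _ (fam_map_equiv p η.symm W' hW')
    obtain ⟨w, hw, hwe⟩ := h1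
    have hx' : η.toMonoidHom x = w := by rw [← hwe]; simp
    rw [hx']; exact hw
  · intro h
    refine ⟨η.symm x', Subgroup.mem_sInf.mpr ?_, by simp⟩
    intro W hW
    obtain ⟨w, hw, hwe⟩ := h _ (fam_map_equiv p η W hW)
    have hx' : η.symm x' = w := by rw [← hwe]; simp
    rw [hx']; exact hw

theorem omega_center_ne_bot (p : ℕ) [Fact p.Prime] (S : Type u) [Group S] [Finite S]
    (hS : IsPGroup p S) [Nontrivial S] : Cfsg.omegaOne p (Subgroup.center S) ≠ ⊥ := by
  haveI := hS.center_nontrivial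
  have hp : p.Prime := Fact.out
  have hZp : IsPGroup p ↥(Subgroup.center S) := hS.to_subgroup _
  have hdvd : p ∣ Nat.card ↥(Subgroup.center S) := by
    obtain ⟨k, hk⟩ := hZp.exists_card_eq
    rw [hk]
    have hk0 : k ≠ 0 := by
      rintro rfl
      rw [pow_zero] at hk
      have := Finite.one_lt_card (α := ↥(Subgroup.center S))
      omega
    exact dvd_pow_self p hk0
  obtain ⟨z, hz⟩ := exists_prime_orderOf_dvd_card' p hdvd
  intro hbot
  have hzmem : (z : S) ∈ Cfsg.omegaOne p (Subgroup.center S) := by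
    apply Subgroup.subset_closure
    refine ⟨z.2, ?_⟩
    have h1 : z ^ p = 1 := by rw [← hz]; exact pow_orderOf_eq_one z
    have h2 := congrArg Subtype.val h1
    simpa using h2
  rw [hbot, Subgroup.mem_bot] at hzmem
  have h3 : z = 1 := Subtype.ext hzmem
  rw [h3, orderOf_one] at hz
  exact hp.one_lt.ne hz

theorem snc_ne_bot (p : ℕ) [Fact p.Prime] (S : Type u) [Group S] [Finite S]
    (hS : IsPGroup p S) [Nontrivial S] : Cfsg.stableNormalClosure p S ≠ ⊥ := by
  intro h
  exact omega_center_ne_bot p S hS (le_bot_iff.mp (h ▸ omega_le_snc p S))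

end Cfsg.Agent.H1SNC
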