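import Mathlib
import Cfsg.Prelude.Def_PLocal
import Cfsg.Prelude.Def_Local
import Cfsg.Agent.Lib_helper1_SNC
import Cfsg.Agent.Lib_helper1_GTG
import Cfsg.Agent.Lib_helper1_JE
import Cfsg.Agent.Lib_helper7_SE2

set_option autoImplicit false
set_option maxHeartbeats 1600000

/-! Thompson's normal `p`-complement theorem in the form with `W(S)`. -/

namespace Cfsg.Agent.H1SNC2

open Cfsg Cfsg.Agent.Lib_helper1_Frobenius Cfsg.Agent.H1GT Cfsg.Agent.H1GTG
open scoped commutatorElement Pointwise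

universe u

/-- Stability for the elements of a Sylow subgroup gives stability for all elements, on a
normal subgroup of exponent `p`. -/
theorem ext_stab {G : Type*} [Group G] [Finite G] {p : ℕ} [Fact p.Prime] (P : Sylow p G)
    (V : Subgroup G) [hVn : V.Normal] (hVe : ∀ v ∈ V, v ^ p = 1)
    (hst : ∀ a ∈ (P : Subgroup G), ⁅⁅V, Subgroup.zpowers a⁆, Subgroup.zpowers a⁆ = ⊥ →
      (QuotientGroup.mk a : G ⧸ Subgroup.centralizer (V : Set G)) ∈
        Cfsg.pCore p (G ⧸ Subgroup.centralizer (V : Set G))) :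
    Cfsg.IsPStableOn p V := by
  intro a hqa
  have hp : p.Prime := Fact.out
  have hq := (H1SNC.quad_iff V a).mp hqa
  obtain ⟨C, hC⟩ : ∃ C, C = Subgroup.centralizer (V : Set G) := ⟨_, rfl⟩
  have hap : a ^ p ∈ C := by
    rw [hC, Subgroup.mem_centralizer_iff]
    intro v hv
    have h1 := H1SNC.comm_zpow v a (hq v hv) (p : ℤ)
    rw [zpow_natCast, zpow_natCast, hVe _ (H1SNC.comm_mem V v a hv)] at h1
    exact commutatorElement_eq_one_iff_mul_comm.mp h1
  obtain ⟨α, t, ht, hlo⟩ := Nat.exists_eq_pow_mul_and_not_dvd (orderOf_pos a).ne' p hp.ne_one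
  have htc : t.Coprime p := ((Nat.Prime.coprime_iff_not_dvd hp).mpr ht).symm
  have haC : a ^ p ^ α ∈ C := by
    apply mem_of_pow_mem_coprime C (a ^ p ^ α) p t htc.symm
    · rw [← pow_mul, mul_comm, pow_mul]; exact C.pow_mem hap _
    · rw [← pow_mul, ← hlo, pow_orderOf_eq_one]; exact C.one_mem
  obtain ⟨u, v, huv⟩ := Nat.isCoprime_iff_coprime.mpr (Nat.Coprime.pow_left α htc.symm)
  obtain ⟨b, hb⟩ : ∃ b, b = (a ^ t) ^ v := ⟨_, rfl⟩
  have hab : a = b * (a ^ p ^ α) ^ u := by
    rw [hb, ← zpow_natCast a (p ^ α), ← zpow_natCast a t, ← zpow_mul, ← zpow_mul, ← zpow_add]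
    have h1 : (t : ℤ) * v + ((p ^ α : ℕ) : ℤ) * u = 1 := by rw [← huv]; ring
    rw [h1, zpow_one]
  have hbp : b ^ p ^ α = 1 := by
    rw [hb, ← zpow_natCast ((a ^ t) ^ v) (p ^ α), ← zpow_mul, mul_comm v, zpow_mul,
      zpow_natCast, ← pow_mul, mul_comm t, ← hlo, pow_orderOf_eq_one, one_zpow]
  have hmk : (QuotientGroup.mk a : G ⧸ Subgroup.centralizer (V : Set G)) =
      QuotientGroup.mk b := by
    rw [QuotientGroup.eq]
    have h1 : a⁻¹ * b = ((a ^ p ^ α) ^ u)⁻¹ := by
      conv_lhs => rw [hab]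
      group
    rw [h1, ← hC]
    exact C.inv_mem (C.zpow_mem haC u)
  have hbq : ⁅⁅V, Subgroup.zpowers b⁆, Subgroup.zpowers b⁆ = ⊥ := by
    have hle : Subgroup.zpowers b ≤ Subgroup.zpowers a := by
      rw [Subgroup.zpowers_le, hb]
      exact Subgroup.zpow_mem _ (Subgroup.pow_mem _ (Subgroup.mem_zpowers a) t) v
    rw [eq_bot_iff, ← hqa]
    exact Subgroup.commutator_mono (Subgroup.commutator_mono le_rfl hle) hle
  have hbP : IsPGroup p ↥(Subgroup.zpowers b) := by
    rintro ⟨x, hx⟩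
    obtain ⟨k, rfl⟩ := Subgroup.mem_zpowers_iff.mp hx
    refine ⟨α, Subtype.ext ?_⟩
    show (b ^ k) ^ p ^ α = 1
    rw [← zpow_natCast (b ^ k) (p ^ α), ← zpow_mul, mul_comm, zpow_mul, zpow_natCast, hbp,
      one_zpow]
  obtain ⟨w, -, hw⟩ := Lib_helper7_SE2.exists_conj_le_of_le P ⊤ le_top (Subgroup.zpowers b)
    hbP le_top
  have hb'P : w * b * w⁻¹ ∈ (P : Subgroup G) := hw b (Subgroup.mem_zpowers b)
  have hb'q : ⁅⁅V, Subgroup.zpowers (w * b * w⁻¹)⁆, Subgroup.zpowers (w * b * w⁻¹)⁆ = ⊥ :=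
    (H1SNC.quad_iff V _).mpr (H1SNC.quad_conj V b w ((H1SNC.quad_iff V b).mp hbq))
  have h1 := hst _ hb'P hb'q
  have hn := Lib_helper7_PCore.pCore_normal (G := G ⧸ Subgroup.centralizer (V : Set G)) p
  have h2 := hn.conj_mem _ h1 ((QuotientGroup.mk' (Subgroup.centralizer (V : Set G))) w⁻¹)
  rw [hmk]
  have e : (QuotientGroup.mk b : G ⧸ Subgroup.centralizer (V : Set G)) =
      (QuotientGroup.mk' (Subgroup.centralizer (V : Set G))) w⁻¹ *
        (QuotientGroup.mk (w * b * w⁻¹)) *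
        ((QuotientGroup.mk' (Subgroup.centralizer (V : Set G))) w⁻¹)⁻¹ := by
    show (QuotientGroup.mk' (Subgroup.centralizer (V : Set G))) b =
      (QuotientGroup.mk' (Subgroup.centralizer (V : Set G))) w⁻¹ *
        (QuotientGroup.mk' (Subgroup.centralizer (V : Set G))) (w * b * w⁻¹) *
        ((QuotientGroup.mk' (Subgroup.centralizer (V : Set G))) w⁻¹)⁻¹
    rw [← map_inv, ← map_mul, ← map_mul]
    congr 1
    group
  rw [e]; exact h2

/-- `W(T)` inside `G` is carried to `W(f T)` by any homomorphism injective on `T`. -/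
theorem sncOf_map (p : ℕ) {G G' : Type u} [Group G] [Group G'] [Finite G] (f : G →* G')
    (T : Subgroup G) (hinj : ∀ x ∈ T, f x = 1 → x = 1) :
    ((Cfsg.stableNormalClosure p ↥T).map T.subtype).map f =
      (Cfsg.stableNormalClosure p ↥(T.map f)).map (T.map f).subtype := by
  have hinj' : Function.Injective (f.subgroupMap T) := by
    rw [injective_iff_map_eq_one]
    intro x hx
    apply Subtype.ext
    exact hinj x.1 x.2 (congrArg Subtype.val hx)
  obtain ⟨η, hη⟩ : ∃ η : ↥T ≃* ↥(T.map f), ∀ x, η x = f.subgroupMap T x :=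
    ⟨MulEquiv.ofBijective (f.subgroupMap T) ⟨hinj', f.subgroupMap_surjective T⟩, fun x => rfl⟩
  have hcomp : (T.map f).subtype.comp η.toMonoidHom = f.comp T.subtype := by
    ext x
    show ((η x : ↥(T.map f)) : G') = f x
    rw [hη]; rfl
  rw [Subgroup.map_map, ← hcomp, ← Subgroup.map_map, H1SNC.snc_map_equiv p η]

theorem sncOf_ne_bot (p : ℕ) [Fact p.Prime] {G : Type u} [Group G] [Finite G] (T : Subgroup G)
    (hT : IsPGroup p T) (hne : T ≠ ⊥) :
    (Cfsg.stableNormalClosure p ↥T).map T.subtype ≠ ⊥ := by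
  haveI : Nontrivial ↥T := (Subgroup.nontrivial_iff_ne_bot T).mpr hne
  intro h
  rw [Subgroup.map_eq_bot_iff_of_injective _ T.subtype_injective] at h
  exact H1SNC.snc_ne_bot p ↥T hT h

/-- In the final configuration, `W(P)` is normal. -/
theorem snc_fin {G : Type u} [Group G] [Finite G] {p : ℕ} [Fact p.Prime] (hp2 : p ≠ 2)
    (P : Sylow p G) (hfc : FinalConf p G P) :
    ((Cfsg.stableNormalClosure p ↥(P : Subgroup G)).map (P : Subgroup G).subtype).Normal := by
  obtain ⟨hc, hO, hPmax, hst, L, m, hLn, hHL, hLP, hm, hLpow, hdich⟩ := hfc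
  have hp : p.Prime := Fact.out
  obtain ⟨H, hHe⟩ : ∃ H, H = Cfsg.pCore p G := ⟨_, rfl⟩
  rw [← hHe] at hc hHL hLpow hdich
  haveI hHn : H.Normal := hHe ▸ Lib_helper7_PCore.pCore_normal p
  have hHp : IsPGroup p H := hHe ▸ Lib_helper7_PCore.pCore_isPGroup p
  have hHP : H ≤ P := hHe ▸ Lib_helper7_PCore.pCore_le_sylow P
  have hgood := H1SNC.snc_good p ↥(P : Subgroup G)
  obtain ⟨W₀, hW₀⟩ : ∃ W₀, W₀ = Cfsg.stableNormalClosure p ↥(P : Subgroup G) := ⟨_, rfl⟩
  rw [← hW₀] at hgood ⊢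
  obtain ⟨W, hWe⟩ : ∃ W, W = W₀.map (P : Subgroup G).subtype := ⟨_, rfl⟩
  rw [← hWe]
  have hWP : W ≤ P := hWe ▸ Subgroup.map_subtype_le _
  obtain ⟨U₀, hU₀⟩ := H1ZJE.exists_maxEl p ↥(P : Subgroup G)
  have hW₀oct : W₀ ≤ Cfsg.omegaCenterThompson p ↥(P : Subgroup G) :=
    hW₀ ▸ H1SNC.snc_le_oct p _
  have hW₀U : W₀ ≤ U₀ := fun x hx => (H1ZJE.ctE_T p _ x).mp (hW₀oct hx) U₀ hU₀
  have hWc : ∀ a ∈ W, ∀ b ∈ W, a * b = b * a := by
    rw [hWe]
    rintro _ ⟨a, ha, rfl⟩ _ ⟨b, hb, rfl⟩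
    have := H1ZJ.comm_elem U₀ hU₀.1.1 a (hW₀U ha) b (hW₀U hb)
    rw [← map_mul, ← map_mul, this]
  have hWe' : ∀ a ∈ W, a ^ p = 1 := by
    rw [hWe]
    rintro _ ⟨a, ha, rfl⟩
    rw [← map_pow, hU₀.1.2 a (hW₀U ha), map_one]
  have hWnP : ∀ x ∈ (P : Subgroup G), ∀ w ∈ W, x * w * x⁻¹ ∈ W := by
    intro x hx w hw
    rw [hWe] at hw ⊢
    obtain ⟨w₀, hw₀, rfl⟩ := hw
    exact ⟨⟨x, hx⟩ * w₀ * ⟨x, hx⟩⁻¹, hgood.2.2.1.conj_mem w₀ hw₀ ⟨x, hx⟩, rfl⟩
  have hWprime : ∀ s ∈ (P : Subgroup G), (∀ w ∈ W, ⁅⁅w, s⁆, s⁆ = 1) →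
      ∀ w ∈ W, ⁅w, s⁆ = 1 := by
    intro s hs hq
    obtain ⟨y, hy⟩ : ∃ y : ↥(P : Subgroup G), (P : Subgroup G).subtype y = s :=
      ⟨⟨s, hs⟩, rfl⟩
    have h1 : ∀ x ∈ W₀, ⁅⁅x, y⁆, y⁆ = 1 := by
      intro x hx
      apply (P : Subgroup G).subtype_injective
      rw [map_commutatorElement, map_commutatorElement, map_one, hy]
      exact hq _ (hWe ▸ Subgroup.mem_map_of_mem _ hx)
    have h2 := hgood.2.2.2 y h1
    intro w hw
    rw [hWe] at hw
    obtain ⟨x, hx, rfl⟩ := hw
    have h3 := congrArg (P : Subgroup G).subtype (h2 x hx)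
    rw [map_commutatorElement, map_one, hy] at h3
    exact h3
  by_cases hJ : (Cfsg.thompsonSubgroupOf p (P : Subgroup G)).Normal
  · have hemb : Cfsg.IsStableEmbedding p (P : Subgroup G).subtype := by
      refine ⟨(P : Subgroup G).subtype_injective, inferInstance, ⟨P, ?_⟩, ?_, hJ, ?_⟩
      · exact (Subgroup.range_subtype _).symm
      · rw [← hHe]; exact hc
      · intro V _ hV
        have hVe : ∀ v ∈ V, v ^ p = 1 := by
          intro v hv
          obtain ⟨z, hz, rfl⟩ := hV hv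
          have hzU := (H1ZJE.ctE_T p _ z).mp hz U₀ hU₀
          rw [← map_pow, hU₀.1.2 z hzU, map_one]
        have hVp : IsPGroup p V := by
          rintro ⟨v, hv⟩
          exact ⟨1, Subtype.ext (by simpa using hVe v hv)⟩
        exact ext_stab P V hVe (fun a ha hq => hst V hVp a ha hq)
    have := (H1SNC.snc_mem_fam p ↥(P : Subgroup G)).2 G (P : Subgroup G).subtype hemb
    rw [hWe, hW₀]; exact this
  · have hWH : W ≤ H := by
      intro z hz
      have hq := H1ZJ.quad H W hWc (fun l hl x hx => hWnP l (hHP hl) x hx) z hz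
      have h1 := hst H hHp z (hWP hz) hq
      have hKp : IsPGroup p ((Cfsg.pCore p (G ⧸ Subgroup.centralizer (H : Set G))).comap
          (QuotientGroup.mk' (Subgroup.centralizer (H : Set G)))) := by
        apply IsPGroup.comap_of_ker_isPGroup (Lib_helper7_PCore.pCore_isPGroup p)
        rw [QuotientGroup.ker_mk']
        exact hHp.to_le hc
      have hKn : ((Cfsg.pCore p (G ⧸ Subgroup.centralizer (H : Set G))).comap
          (QuotientGroup.mk' (Subgroup.centralizer (H : Set G)))).Normal :=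
        (Lib_helper7_PCore.pCore_normal p).comap _
      rw [hHe]
      exact Lib_helper7_PCore.le_pCore hKn hKp (Subgroup.mem_comap.mpr h1)
    have hconj : ∀ h : G, ∀ x ∈ W, ∀ w ∈ W, ⁅w, h * x * h⁻¹⁆ = 1 := by
      intro h x hx
      obtain ⟨x', hx'⟩ : ∃ x', x' = h * x * h⁻¹ := ⟨_, rfl⟩
      rw [← hx']
      have hx'H : x' ∈ H := hx' ▸ hHn.conj_mem x (hWH hx) h
      apply hWprime x' (hHP hx'H)
      intro w hw
      have h1 : h⁻¹ * ⁅w, x'⁆ * h ∈ W := by
        have hw' : h⁻¹ * w * h ∈ (P : Subgroup G) :=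
          hHP (by have := hHn.conj_mem w (hWH hw) h⁻¹; simpa using this)
        have e : h⁻¹ * ⁅w, x'⁆ * h = ((h⁻¹ * w * h) * x * (h⁻¹ * w * h)⁻¹) * x⁻¹ := by
          rw [hx']; group
        rw [e]
        exact W.mul_mem (hWnP _ hw' x hx) (W.inv_mem hx)
      have h2 := hWc _ h1 x hx
      rw [commutatorElement_eq_one_iff_mul_comm]
      have e1 : ⁅w, x'⁆ * x' = h * ((h⁻¹ * ⁅w, x'⁆ * h) * x) * h⁻¹ := by rw [hx']; group
      have e2 : x' * ⁅w, x'⁆ = h * (x * (h⁻¹ * ⁅w, x'⁆ * h)) * h⁻¹ := by rw [hx']; group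
      rw [e1, e2, h2]
    obtain ⟨U, hUe⟩ : ∃ U, U = Subgroup.normalClosure (W : Set G) := ⟨_, rfl⟩
    haveI hUn : U.Normal := hUe ▸ Subgroup.normalClosure_normal
    have hWU : W ≤ U := hUe ▸ Subgroup.le_normalClosure
    have hUH : U ≤ H := by
      rw [hUe]; exact Subgroup.normalClosure_le_normal (SetLike.coe_subset_coe.mpr hWH)
    have hgen : ∀ c ∈ Group.conjugatesOfSet (W : Set G), ∃ h : G, ∃ x ∈ W,
        c = h * x * h⁻¹ := by
      intro c hc
      obtain ⟨b, hb, hbc⟩ := Group.mem_conjugatesOfSet_iff.mp hc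
      obtain ⟨g, rfl⟩ := isConj_iff.mp hbc
      exact ⟨g, b, hb, rfl⟩
    have hgc : ∀ c ∈ Group.conjugatesOfSet (W : Set G),
        ∀ d ∈ Group.conjugatesOfSet (W : Set G), c * d = d * c := by
      intro c hc d hd
      obtain ⟨h, x, hx, rfl⟩ := hgen c hc
      obtain ⟨g, y, hy, rfl⟩ := hgen d hd
      have h1 := hconj (g⁻¹ * h) x hx y hy
      have h2 := commutatorElement_eq_one_iff_mul_comm.mp h1
      calc h * x * h⁻¹ * (g * y * g⁻¹)
          = g * ((g⁻¹ * h) * x * (g⁻¹ * h)⁻¹ * y) * g⁻¹ := by group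
        _ = g * (y * ((g⁻¹ * h) * x * (g⁻¹ * h)⁻¹)) * g⁻¹ := by rw [h2]
        _ = g * y * g⁻¹ * (h * x * h⁻¹) := by group
    have hUc : ∀ a ∈ U, ∀ b ∈ U, a * b = b * a := by
      have := Subgroup.isMulCommutative_closure hgc
      rw [hUe]
      exact H1ZJ.comm_elem _ this
    have hUe' : ∀ a ∈ U, a ^ p = 1 := by
      intro a ha
      rw [hUe, Subgroup.normalClosure] at ha
      induction ha using Subgroup.closure_induction with
      | mem c hc =>
        obtain ⟨h, x, hx, rfl⟩ := hgen c hc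
        rw [conj_pow, hWe' x hx]; simp
      | one => exact one_pow p
      | mul a b ha hb iha ihb =>
        have hab : Commute a b := hUc a (by rw [hUe]; exact ha) b (by rw [hUe]; exact hb)
        rw [hab.mul_pow, iha, ihb, one_mul]
      | inv a _ iha => rw [inv_pow, iha, inv_one]
    have hUp : IsPGroup p U := by
      rintro ⟨u, hu⟩
      exact ⟨1, Subtype.ext (by simpa using hUe' u hu)⟩
    have hrep : ∀ A ∈ Cfsg.maxElementaryAbelianSubgroups p ↥(P : Subgroup G),
        ∀ Q : Subgroup ↥(P : Subgroup G), Nat.card Q = Nat.card A → IsMulCommutative Q →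
        Monoid.exponent Q ∣ Monoid.exponent A →
        Q ∈ Cfsg.maxElementaryAbelianSubgroups p ↥(P : Subgroup G) := by
      intro A hA Q hcard hcomm hexp
      refine ⟨⟨hcomm, ?_⟩, fun B hB => hcard ▸ hA.2 B hB⟩
      intro x hx
      have hAe : Monoid.exponent A ∣ p := by
        apply Monoid.exponent_dvd_of_forall_pow_eq_one
        rintro ⟨a, ha⟩
        apply Subtype.ext
        have h5 := hA.1.2 a ha
        simpa using h5
      have hQ := (Monoid.exponent_dvd_iff_forall_pow_eq_one.mp (hexp.trans hAe)) ⟨x, hx⟩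
      have h6 := congrArg Subtype.val hQ
      simpa using h6
    have hAcent : ∀ A, H1JE.MaxElIn p (P : Subgroup G) A → ∀ a ∈ A, ∀ u ∈ U,
        u * a = a * u := by
      intro A₁ hA₁
      by_contra hnot
      push_neg at hnot
      obtain ⟨a₁, ha₁, u₁, hu₁, hne⟩ := hnot
      have hUA₁ : ¬ U ≤ A₁ := fun hle => hne (hA₁.2.1 u₁ (hle hu₁) a₁ ha₁)
      have hUeq : (A₁.subgroupOf (P : Subgroup G)).map (P : Subgroup G).subtype = A₁ :=
        Subgroup.map_subgroupOf_eq_of_le hA₁.1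
      obtain ⟨A₀, hA₀, h3, h4⟩ := H1ZJ.F5_of_family hp2 (P : Subgroup G) P.isPGroup'
        (Cfsg.maxElementaryAbelianSubgroups p ↥(P : Subgroup G)) (fun A hA => hA.1.1)
        hrep U (hUH.trans hHP)
        ⟨A₁.subgroupOf (P : Subgroup G), H1JE.maxEl_of_maxElIn p _ A₁ hA₁, by
          rw [hUeq, Subgroup.commutator_le]
          intro a ha b hb
          rw [commutatorElement_eq_one_iff_mul_comm.mpr (hUc a ha b hb)]
          exact A₁.one_mem, by rw [hUeq]; exact hUA₁⟩
      have hA := H1JE.maxElIn_of_maxEl p (P : Subgroup G) A₀ hA₀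
      have hAU : ∀ a ∈ A₀.map (P : Subgroup G).subtype, ∀ u ∈ U, u * a = a * u := by
        intro a ha
        have hq := H1ZJ.quad U _ hA.2.1
          (fun l hl x hx => (Subgroup.mem_normalizer_iff.mp (h4 hl) x).mp hx) a ha
        have h1 := hst U hUp a (hA.1 ha) hq
        have hks := H1SNC.ks_lemma P U W hWU hWprime a ((H1SNC.quad_iff U a).mp hq) h1
        have hcentU : U ≤ Subgroup.centralizer ({a} : Set G) := by
          rw [hUe, Subgroup.normalClosure, Subgroup.closure_le]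
          intro c hc
          obtain ⟨h, x, hx, rfl⟩ := hgen c hc
          rw [SetLike.mem_coe, Subgroup.mem_centralizer_iff]
          intro z hz
          rw [Set.mem_singleton_iff] at hz
          rw [hz]
          exact (commutatorElement_eq_one_iff_mul_comm.mp (hks h x hx)).symm
        intro u hu
        exact (Subgroup.mem_centralizer_iff.mp (hcentU hu) a (Set.mem_singleton _)).symm
      apply h3
      intro v hv
      have hvP : v ∈ (P : Subgroup G) := hHP (hUH hv)
      have hmem := H1ZJE.mem_maxEl_of_centralizes A₀ hA₀ (⟨v, hvP⟩ : ↥(P : Subgroup G)) (by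
        intro u hu
        apply Subtype.ext
        exact (hAU (u : G) (Subgroup.mem_map_of_mem _ hu) v hv).symm) (by
        apply Subtype.ext
        have := hUe' v hv
        simpa using this)
      exact ⟨⟨v, hvP⟩, hmem, rfl⟩
    obtain ⟨C, hC⟩ : ∃ C, C = Subgroup.centralizer (U : Set G) := ⟨_, rfl⟩
    haveI hCn : C.Normal := hC ▸ inferInstance
    rcases hdich C hCn with hCH | hLC
    · exfalso
      apply hJ
      have hall : ∀ A, H1JE.MaxElIn p (P : Subgroup G) A → A ≤ H := by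
        intro A hA a ha
        apply hCH
        rw [hC, Subgroup.mem_centralizer_iff]
        intro u hu
        exact hAcent A hA a ha u hu
      rw [H1JE.tsOf_eq_of_le p _ H hHP hall, ← Subgroup.normalizer_eq_top_iff, eq_top_iff]
      intro g _
      exact H1JE.tsOf_normalizer p H (by rw [Subgroup.normalizer_eq_top_iff.mpr hHn]; trivial)
    · rw [← Subgroup.normalizer_eq_top_iff, eq_top_iff, ← hLP]
      apply sup_le
      · refine hLC.trans (sup_le ?_ ?_)
        · intro c hc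
          apply Lib_helper1_Basic.mem_normalizer_of_conj_le
          intro w hw
          rw [hC] at hc
          have h1 := Subgroup.mem_centralizer_iff.mp hc w (hWU hw)
          have e : c * w * c⁻¹ = w := by rw [← h1]; group
          rw [e]; exact hw
        · intro h hh
          apply Lib_helper1_Basic.mem_normalizer_of_conj_le
          intro w hw
          exact hWnP h (hHP hh) w hw
      · intro x hx
        apply Lib_helper1_Basic.mem_normalizer_of_conj_le
        intro w hw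
        exact hWnP x hx w hw

/-- The functor `T ↦ W(T)`. -/
def WS (p : ℕ) : Unit → ∀ (G : Type u) [Group G], Subgroup G → Subgroup G :=
  fun _ G _ T => (Cfsg.stableNormalClosure p ↥T).map T.subtype

/-- The local subgroup `N_G(W(T))`. -/
def KS (p : ℕ) : Unit → ∀ (G : Type u) [Group G], Subgroup G → Subgroup G :=
  fun _ G _ T => Subgroup.normalizer
    (((Cfsg.stableNormalClosure p ↥T).map T.subtype : Subgroup G) : Set G)

theorem snc_npc {G : Type u} [Group G] [Finite G] {p : ℕ} [Fact p.Prime] (hp : p ≠ 2)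
    (S : Sylow p G)
    (hN : Cfsg.HasNormalPComplement p ↥(Subgroup.normalizer
      (((Cfsg.stableNormalClosure p ↥(S : Subgroup G)).map (S : Subgroup G).subtype) : Set G))) :
    Cfsg.HasNormalPComplement p G := by
  apply gtg_final p hp (WS p) (KS p) ?hW1 ?hW2 ?hW3 ?hK1 ?hK2 ?hK3 ?hK4 ?hfin G S ?hN
  case hW1 =>
    intro i G _ T
    exact Subgroup.map_subtype_le _
  case hW2 =>
    intro i G G' _ _ _ _ f T hinj
    exact sncOf_map p f T hinj
  case hW3 =>
    intro i G _ _ T hT hne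
    exact sncOf_ne_bot p T hT hne
  case hK1 =>
    intro i G _ _ T
    exact le_rfl
  case hK2 =>
    intro i G _ _ N T
    rintro _ ⟨x, hx, rfl⟩
    show (x : G) ∈ Subgroup.normalizer (((Cfsg.stableNormalClosure p ↥(T.map N.subtype)).map
      (T.map N.subtype).subtype : Subgroup G) : Set G)
    rw [← sncOf_map p N.subtype T (fun x _ hx => Subtype.ext hx)]
    exact coe_mem_normalizer_map N _ x hx
  case hK3 =>
    intro i G _ _ O _ hOc P
    have hinj : ∀ x ∈ (P : Subgroup G), (QuotientGroup.mk' O) x = 1 → x = 1 := by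
      intro x hx hx1
      exact eq_one_of_coprime_of_pgroup O (P : Subgroup G) hOc P.isPGroup'
        ((QuotientGroup.eq_one_iff x).mp hx1) hx
    show Subgroup.normalizer (((Cfsg.stableNormalClosure p
        ↥((P : Subgroup G).map (QuotientGroup.mk' O))).map
        ((P : Subgroup G).map (QuotientGroup.mk' O)).subtype : Subgroup (G ⧸ O)) :
        Set (G ⧸ O)) ≤
      (Subgroup.normalizer (((Cfsg.stableNormalClosure p ↥(P : Subgroup G)).map
        (P : Subgroup G).subtype : Subgroup G) : Set G)).map (QuotientGroup.mk' O)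
    rw [← sncOf_map p (QuotientGroup.mk' O) (P : Subgroup G) hinj]
    exact normalizer_map_le P O hOc _ (Subgroup.map_subtype_le _)
  case hK4 =>
    intro i G _ _ g T
    show Subgroup.normalizer (((Cfsg.stableNormalClosure p
        ↥(T.map (MulAut.conj g).toMonoidHom)).map
        (T.map (MulAut.conj g).toMonoidHom).subtype : Subgroup G) : Set G) ≤
      (Subgroup.normalizer (((Cfsg.stableNormalClosure p ↥T).map T.subtype : Subgroup G) :
        Set G)).map (MulAut.conj g).toMonoidHom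
    rw [← sncOf_map p (MulAut.conj g).toMonoidHom T (fun x _ hx => by simpa using hx)]
    exact normalizer_conj_le _ g
  case hfin =>
    intro G _ _ P hfc
    exact ⟨(), Subgroup.normalizer_eq_top_iff.mpr (snc_fin hp P hfc)⟩
  case hN =>
    intro i
    exact hN

end Cfsg.Agent.H1SNC2
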