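import Mathlib
import Cfsg.Prelude.Def_PLocal
import Cfsg.Prelude.Def_Local
import Cfsg.Agent.Lib_helper1_SNC2
import Cfsg.Agent.Lib_helper1_Coprime
import Cfsg.Agent.Lib_helper7_PPrimeP

set_option autoImplicit false
set_option maxHeartbeats 1600000

/-! The analogue of the ZJ-theorem for `W(S)` in action-`p`-stable groups. -/

namespace Cfsg.Agent.H1SNC3

open Cfsg Cfsg.Agent.Lib_helper1_Frobenius Cfsg.Agent.H1GT Cfsg.Agent.H1GTG
open scoped commutatorElement Pointwise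

universe u

/-- Thompson replacement for a normal elementary abelian subgroup `B` (any prime). -/
theorem replacement_el {S : Type*} [Group S] [Finite S] {p : ℕ} [Fact p.Prime]
    (hS : IsPGroup p S) (B : Subgroup S) [hBn : B.Normal] (hBc : IsMulCommutative B)
    (hBe : ∀ b ∈ B, b ^ p = 1)
    (hU : ∃ U ∈ Cfsg.maxElementaryAbelianSubgroups p S, ¬ B ≤ U) :
    ∃ A ∈ Cfsg.maxElementaryAbelianSubgroups p S, ¬ B ≤ A ∧
      B ≤ Subgroup.normalizer (A : Set S) := by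
  have hBB : ∀ A : Subgroup S, ⁅B, B⁆ ≤ A := by
    intro A
    rw [Subgroup.commutator_le]
    intro x hx y hy
    have := H1ZJ.comm_elem B hBc x hx y hy
    rw [commutatorElement_eq_one_iff_mul_comm.mpr this]; exact A.one_mem
  obtain ⟨U, hUF, hU2⟩ := hU
  haveI : Nonempty {A : Subgroup S // A ∈ Cfsg.maxElementaryAbelianSubgroups p S ∧ ¬ B ≤ A} :=
    ⟨⟨U, hUF, hU2⟩⟩
  obtain ⟨⟨A, hAF, hA2⟩, hmax⟩ := Finite.exists_max
    (fun X : {A : Subgroup S // A ∈ Cfsg.maxElementaryAbelianSubgroups p S ∧ ¬ B ≤ A} =>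
      Nat.card (X.1 ⊓ B : Subgroup S))
  refine ⟨A, hAF, hA2, ?_⟩
  by_contra hnot
  obtain ⟨b, hb, hbN, hbA⟩ := H1GlaubFam.exists_b hS B (Subgroup.normalizer (A : Set S)) hnot
  obtain ⟨Q, hQe⟩ : ∃ Q, Q = (A ⊓ A.map (MulAut.conj b⁻¹).toMonoidHom) ⊔
      Subgroup.closure {g : S | ∃ a ∈ A, g = a * b⁻¹ * a⁻¹ * b} := ⟨_, rfl⟩
  obtain ⟨h1, h2, h3, h4, h5, -, -, -, -, -⟩ :=
    H1Glaub.glauberman hS B (fun _ => hBc) A hAF.1.1 (hBB A) hnot b hb hbN hbA Q hQe
  have hQc := H1ZJ.comm_elem Q h2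
  have hQcl : Q = Subgroup.closure (((A ⊓ A.map (MulAut.conj b⁻¹).toMonoidHom : Subgroup S) :
      Set S) ∪ {g : S | ∃ a ∈ A, g = a * b⁻¹ * a⁻¹ * b}) := by
    rw [hQe, Subgroup.closure_union, Subgroup.closure_eq]
  have hQexp : ∀ x ∈ Q, x ^ p = 1 := by
    intro x hx
    rw [hQcl] at hx
    induction hx using Subgroup.closure_induction with
    | mem y hy =>
      rcases hy with hy | ⟨a, ha, rfl⟩
      · exact hAF.1.2 y (Subgroup.mem_inf.mp hy).1
      · apply hBe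
        exact B.mul_mem (hBn.conj_mem b⁻¹ (B.inv_mem hb) a) hb
    | one => exact one_pow p
    | mul a c ha hc iha ihc =>
      have hac : Commute a c := hQc a (hQcl ▸ ha) c (hQcl ▸ hc)
      rw [hac.mul_pow, iha, ihc, one_mul]
    | inv a _ iha => rw [inv_pow, iha, inv_one]
  have hQF : Q ∈ Cfsg.maxElementaryAbelianSubgroups p S :=
    ⟨⟨h2, hQexp⟩, fun B' hB' => h1 ▸ hAF.2 B' hB'⟩
  have hBQ : ¬ B ≤ Q := fun h => h5.ne (inf_eq_right.mpr h)
  have hle := hmax ⟨Q, hQF, hBQ⟩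
  exact h4.ne (Subgroup.eq_of_le_of_card_ge h4.le hle)

theorem F5_el {G : Type*} [Group G] [Finite G] {p : ℕ} [Fact p.Prime] (S : Subgroup G)
    (hS : IsPGroup p S) (L : Subgroup G) [hLn : L.Normal] (hLS : L ≤ S)
    (hLc : ∀ a ∈ L, ∀ b ∈ L, a * b = b * a) (hLe : ∀ a ∈ L, a ^ p = 1)
    (hU : ∃ U ∈ Cfsg.maxElementaryAbelianSubgroups p ↥S, ¬ L ≤ U.map S.subtype) :
    ∃ A ∈ Cfsg.maxElementaryAbelianSubgroups p ↥S, ¬ L ≤ A.map S.subtype ∧
      L ≤ Subgroup.normalizer ((A.map S.subtype : Subgroup G) : Set G) := by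
  obtain ⟨U, hUM, hU2⟩ := hU
  have hU' : ∃ U ∈ Cfsg.maxElementaryAbelianSubgroups p ↥S, ¬ L.subgroupOf S ≤ U := by
    refine ⟨U, hUM, ?_⟩
    intro hle
    apply hU2
    intro l hl
    exact ⟨⟨l, hLS hl⟩, hle (Subgroup.mem_subgroupOf.mpr hl), rfl⟩
  obtain ⟨A, hAM, hA2, hA3⟩ := replacement_el hS (L.subgroupOf S)
    (H1GlaubFam.subgroupOf_comm _ _ (H1ZJ.comm_of_elem L hLc)) (by
      intro b hb
      apply Subtype.ext
      have := hLe b.1 (Subgroup.mem_subgroupOf.mp hb)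
      simpa using this) hU'
  refine ⟨A, hAM, ?_, ?_⟩
  · intro hle
    apply hA2
    intro x hx
    obtain ⟨a, ha, hae⟩ := hle (Subgroup.mem_subgroupOf.mp hx)
    have h1 : a = x := S.subtype_injective hae
    rw [← h1]; exact ha
  · intro l hl
    apply Lib_helper1_Basic.mem_normalizer_of_conj_le
    rintro _ ⟨a, ha, rfl⟩
    have hlN := hA3 (Subgroup.mem_subgroupOf.mpr hl : (⟨l, hLS hl⟩ : ↥S) ∈ L.subgroupOf S)
    have h1 := (Subgroup.mem_normalizer_iff.mp hlN a).mp ha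
    exact ⟨_, h1, by simp⟩

/-- The Thompson subgroup centralizes the normal closure of `W`. -/
theorem core_cent {G : Type*} [Group G] [Finite G] {p : ℕ} [Fact p.Prime] (P : Sylow p G)
    (H : Subgroup G) [hHn : H.Normal] (hHP : H ≤ P) (W : Subgroup G) (hWH : W ≤ H)
    (hWc : ∀ a ∈ W, ∀ b ∈ W, a * b = b * a) (hWe' : ∀ a ∈ W, a ^ p = 1)
    (hWnP : ∀ x ∈ (P : Subgroup G), ∀ w ∈ W, x * w * x⁻¹ ∈ W)
    (hWprime : ∀ s ∈ (P : Subgroup G), (∀ w ∈ W, ⁅⁅w, s⁆, s⁆ = 1) → ∀ w ∈ W, ⁅w, s⁆ = 1)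
    (hstU : ∀ (U : Subgroup G) [U.Normal], (∀ a ∈ U, ∀ b ∈ U, a * b = b * a) →
      (∀ a ∈ U, a ^ p = 1) → ∀ a ∈ (P : Subgroup G),
      ⁅⁅U, Subgroup.zpowers a⁆, Subgroup.zpowers a⁆ = ⊥ →
      (QuotientGroup.mk a : G ⧸ Subgroup.centralizer (U : Set G)) ∈
        Cfsg.pCore p (G ⧸ Subgroup.centralizer (U : Set G))) :
    ∀ A, H1JE.MaxElIn p (P : Subgroup G) A →
      A ≤ Subgroup.centralizer ((Subgroup.normalClosure (W : Set G) : Subgroup G) : Set G) := by
  have hconj : ∀ h : G, ∀ x ∈ W, ∀ w ∈ W, ⁅w, h * x * h⁻¹⁆ = 1 := by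
    intro h x hx
    obtain ⟨x', hx'⟩ : ∃ x', x' = h * x * h⁻¹ := ⟨_, rfl⟩
    rw [← hx']
    have hx'H : x' ∈ H := hx' ▸ hHn.conj_mem x (hWH hx) h
    apply hWprime x' (hHP hx'H)
    intro w hw
    have h1 : h⁻¹ * ⁅w, x'⁆ * h ∈ W := by
      have hw' : h⁻¹ * w * h ∈ (P : Subgroup G) :=
        hHP (by have := hHn.conj_mem w (hWH hw) h⁻¹; simpa using this)
      have e : h⁻¹ * ⁅w, x'⁆ * h = ((h⁻¹ * w * h) * x * (h⁻¹ * w * h)⁻¹) * x⁻¹ := by
        rw [hx']; group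
      rw [e]
      exact W.mul_mem (hWnP _ hw' x hx) (W.inv_mem hx)
    have h2 := hWc _ h1 x hx
    rw [commutatorElement_eq_one_iff_mul_comm]
    have e1 : ⁅w, x'⁆ * x' = h * ((h⁻¹ * ⁅w, x'⁆ * h) * x) * h⁻¹ := by rw [hx']; group
    have e2 : x' * ⁅w, x'⁆ = h * (x * (h⁻¹ * ⁅w, x'⁆ * h)) * h⁻¹ := by rw [hx']; group
    rw [e1, e2, h2]
  obtain ⟨U, hUe⟩ : ∃ U, U = Subgroup.normalClosure (W : Set G) := ⟨_, rfl⟩
  rw [← hUe]
  haveI hUn : U.Normal := hUe ▸ Subgroup.normalClosure_normal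
  have hWU : W ≤ U := hUe ▸ Subgroup.le_normalClosure
  have hUH : U ≤ H := by
    rw [hUe]; exact Subgroup.normalClosure_le_normal (SetLike.coe_subset_coe.mpr hWH)
  have hgen : ∀ c ∈ Group.conjugatesOfSet (W : Set G), ∃ h : G, ∃ x ∈ W,
      c = h * x * h⁻¹ := by
    intro c hc
    obtain ⟨b, hb, hbc⟩ := Group.mem_conjugatesOfSet_iff.mp hc
    obtain ⟨g, rfl⟩ := isConj_iff.mp hbc
    exact ⟨g, b, hb, rfl⟩
  have hgc : ∀ c ∈ Group.conjugatesOfSet (W : Set G),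
      ∀ d ∈ Group.conjugatesOfSet (W : Set G), c * d = d * c := by
    intro c hc d hd
    obtain ⟨h, x, hx, rfl⟩ := hgen c hc
    obtain ⟨g, y, hy, rfl⟩ := hgen d hd
    have h1 := hconj (g⁻¹ * h) x hx y hy
    have h2 := commutatorElement_eq_one_iff_mul_comm.mp h1
    calc h * x * h⁻¹ * (g * y * g⁻¹)
        = g * ((g⁻¹ * h) * x * (g⁻¹ * h)⁻¹ * y) * g⁻¹ := by group
      _ = g * (y * ((g⁻¹ * h) * x * (g⁻¹ * h)⁻¹)) * g⁻¹ := by rw [h2]
      _ = g * y * g⁻¹ * (h * x * h⁻¹) := by group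
  have hUc : ∀ a ∈ U, ∀ b ∈ U, a * b = b * a := by
    have := Subgroup.isMulCommutative_closure hgc
    rw [hUe]
    exact H1ZJ.comm_elem _ this
  have hUe' : ∀ a ∈ U, a ^ p = 1 := by
    intro a ha
    rw [hUe, Subgroup.normalClosure] at ha
    induction ha using Subgroup.closure_induction with
    | mem c hc =>
      obtain ⟨h, x, hx, rfl⟩ := hgen c hc
      rw [conj_pow, hWe' x hx]; simp
    | one => exact one_pow p
    | mul a b ha hb iha ihb =>
      have hab : Commute a b := hUc a (by rw [hUe]; exact ha) b (by rw [hUe]; exact hb)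
      rw [hab.mul_pow, iha, ihb, one_mul]
    | inv a _ iha => rw [inv_pow, iha, inv_one]
  intro A₁ hA₁
  by_contra hnot
  have hUA₁ : ¬ U ≤ A₁ := by
    intro hle
    apply hnot
    intro a ha
    rw [Subgroup.mem_centralizer_iff]
    intro u hu
    exact hA₁.2.1 u (hle hu) a ha
  have hUeq : (A₁.subgroupOf (P : Subgroup G)).map (P : Subgroup G).subtype = A₁ :=
    Subgroup.map_subgroupOf_eq_of_le hA₁.1
  obtain ⟨A₀, hA₀, h3, h4⟩ := F5_el (P : Subgroup G) P.isPGroup' U (hUH.trans hHP) hUc hUe'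
    ⟨A₁.subgroupOf (P : Subgroup G), H1JE.maxEl_of_maxElIn p _ A₁ hA₁, by
      rw [hUeq]; exact hUA₁⟩
  have hA := H1JE.maxElIn_of_maxEl p (P : Subgroup G) A₀ hA₀
  have hAU : ∀ a ∈ A₀.map (P : Subgroup G).subtype, ∀ u ∈ U, u * a = a * u := by
    intro a ha
    have hq := H1ZJ.quad U _ hA.2.1
      (fun l hl x hx => (Subgroup.mem_normalizer_iff.mp (h4 hl) x).mp hx) a ha
    have h1 := hstU U hUc hUe' a (hA.1 ha) hq
    have hks := H1SNC.ks_lemma P U W hWU hWprime a ((H1SNC.quad_iff U a).mp hq) h1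
    have hcentU : U ≤ Subgroup.centralizer ({a} : Set G) := by
      rw [hUe, Subgroup.normalClosure, Subgroup.closure_le]
      intro c hc
      obtain ⟨h, x, hx, rfl⟩ := hgen c hc
      rw [SetLike.mem_coe, Subgroup.mem_centralizer_iff]
      intro z hz
      rw [Set.mem_singleton_iff] at hz
      rw [hz]
      exact (commutatorElement_eq_one_iff_mul_comm.mp (hks h x hx)).symm
    intro u hu
    exact (Subgroup.mem_centralizer_iff.mp (hcentU hu) a (Set.mem_singleton _)).symm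
  apply h3
  intro v hv
  have hvP : v ∈ (P : Subgroup G) := hHP (hUH hv)
  have hmem := H1ZJE.mem_maxEl_of_centralizes A₀ hA₀ (⟨v, hvP⟩ : ↥(P : Subgroup G)) (by
    intro u hu
    apply Subtype.ext
    exact (hAU (u : G) (Subgroup.mem_map_of_mem _ hu) v hv).symm) (by
    apply Subtype.ext
    have := hUe' v hv
    simpa using this)
  exact ⟨⟨v, hvP⟩, hmem, rfl⟩

theorem mem_sectionKernel {G : Type*} [Group G] (K N : Subgroup G) [N.Normal] (g : G)
    (hg : g ∈ Cfsg.sectionKernel K N) : ∀ k ∈ K, ⁅k, g⁆ ∈ N := by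
  intro k hk
  unfold Cfsg.sectionKernel at hg
  rw [Subgroup.mem_comap, Subgroup.mem_centralizer_iff] at hg
  have h1 := hg ((QuotientGroup.mk' N) k) (Subgroup.mem_map_of_mem _ hk)
  rw [commutatorElement_def, ← QuotientGroup.eq_one_iff]
  show (QuotientGroup.mk' N) (k * g * k⁻¹ * g⁻¹) = 1
  rw [map_mul, map_mul, map_mul, map_inv, map_inv, h1]
  group

/-- Burnside: the kernel of the action on `H / Φ(H)` is a `p`-group when `C_G(H) ≤ H`. -/
theorem section_kernel_pgroup {G : Type u} [Group G] [Finite G] {p : ℕ} [Fact p.Prime]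
    (H : Subgroup G) [hHn : H.Normal] (hHp : IsPGroup p H)
    (hc : Subgroup.centralizer (H : Set G) ≤ H) (Φ : Subgroup G) [Φ.Normal]
    (hΦ : Φ = (frattini ↥H).map H.subtype) : IsPGroup p ↥(Cfsg.sectionKernel H Φ) := by
  have hp : p.Prime := Fact.out
  have key : ∀ x ∈ Cfsg.sectionKernel H Φ, ∀ t : ℕ, t.Coprime p → x ^ t = 1 → x = 1 := by
    intro x hx t ht hxt
    obtain ⟨A, hAe⟩ : ∃ A, A = Subgroup.zpowers x := ⟨_, rfl⟩
    have hAK : A ≤ Cfsg.sectionKernel H Φ := by rw [hAe, Subgroup.zpowers_le]; exact hx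
    have hcomm : ⁅H, A⁆ ≤ Φ := by
      rw [Subgroup.commutator_le]
      intro h hh a ha
      exact mem_sectionKernel H Φ a (hAK ha) h hh
    have hAN : A ≤ Subgroup.normalizer (H : Set G) := by
      rw [Subgroup.normalizer_eq_top_iff.mpr hHn]; exact le_top
    have hcop : (Nat.card A).Coprime (Nat.card H) := by
      obtain ⟨j, hj⟩ := hHp.exists_card_eq
      rw [hj, hAe, Nat.card_zpowers]
      exact Nat.Coprime.pow_right j
        (Nat.Coprime.coprime_dvd_left (orderOf_dvd_of_pow_eq_one hxt) ht)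
    haveI : Group.IsNilpotent ↥H := hHp.isNilpotent
    have hsolv : Group.IsSolvable ↥H := IsNilpotent.to_isSolvable
    have hCH : ((Subgroup.centralizer (A : Set G)).subgroupOf H) ⊔ frattini ↥H = ⊤ := by
      rw [eq_top_iff]
      intro h _
      obtain ⟨n, hn, c, hc', hnc⟩ := Lib_helper1_Coprime.exists_commutator_mul_fixed A H hAN
        hcop (Or.inr hsolv) (h : G) h.2
      have hnΦ := hcomm hn
      rw [hΦ] at hnΦ
      obtain ⟨n', hn', hn'e⟩ := hnΦ
      obtain ⟨hcH, hcC⟩ := Subgroup.mem_inf.mp hc'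
      have hh : h = n' * ⟨c, hcH⟩ := by
        apply Subtype.ext
        show (h : G) = (n' : G) * c
        rw [hnc]; congr 1; exact hn'e.symm
      rw [hh]
      exact Subgroup.mul_mem _ (Subgroup.mem_sup_right hn')
        (Subgroup.mem_sup_left (Subgroup.mem_subgroupOf.mpr hcC))
    have htop := frattini_nongenerating hCH
    have hxC : x ∈ Subgroup.centralizer (H : Set G) := by
      rw [Subgroup.mem_centralizer_iff]
      intro h hh
      have h1 : (⟨h, hh⟩ : ↥H) ∈ (Subgroup.centralizer (A : Set G)).subgroupOf H := by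
        rw [htop]; trivial
      have h2 := Subgroup.mem_centralizer_iff.mp (Subgroup.mem_subgroupOf.mp h1) x
        (hAe ▸ Subgroup.mem_zpowers x)
      exact h2.symm
    exact eq_one_of_pow_eq_one_of_pgroup H hHp x (hc hxC) t ht hxt
  rintro ⟨g, hg⟩
  obtain ⟨α, t, ht, hlo⟩ := Nat.exists_eq_pow_mul_and_not_dvd (orderOf_pos g).ne' p hp.ne_one
  have htc : t.Coprime p := ((Nat.Prime.coprime_iff_not_dvd hp).mpr ht).symm
  refine ⟨α, Subtype.ext ?_⟩
  show g ^ p ^ α = 1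
  apply key _ (Subgroup.pow_mem _ hg _) t htc
  rw [← pow_mul, ← hlo, pow_orderOf_eq_one]

/-- The inclusion of a Sylow subgroup into a subgroup normalizing its Thompson subgroup is a
stable embedding. -/
theorem stable_embedding_sub {G : Type u} [Group G] [Finite G] {p : ℕ} [Fact p.Prime]
    (hc : Subgroup.centralizer (Cfsg.pCore p G : Set G) ≤ Cfsg.pCore p G) (P : Sylow p G)
    (N : Subgroup G) (hPN : (P : Subgroup G) ≤ N)
    (hNJ : N ≤ Subgroup.normalizer (Cfsg.thompsonSubgroupOf p (P : Subgroup G) : Set G))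
    (hstN : ∀ (V : Subgroup ↥N) [V.Normal], V.map N.subtype ≤
        (Cfsg.omegaCenterThompson p ↥(P : Subgroup G)).map (P : Subgroup G).subtype →
        Cfsg.IsPStableOn p V) :
    Cfsg.IsStableEmbedding p (Subgroup.inclusion hPN) := by
  have hHn := Lib_helper7_PCore.pCore_normal (G := G) p
  have hHp := Lib_helper7_PCore.pCore_isPGroup (G := G) p
  have hHP : Cfsg.pCore p G ≤ P := Lib_helper7_PCore.pCore_le_sylow P
  have hcomp : N.subtype.comp (Subgroup.inclusion hPN) = (P : Subgroup G).subtype := by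
    ext x; rfl
  refine ⟨Subgroup.inclusion_injective hPN, inferInstance, ⟨P.subtype hPN, ?_⟩, ?_, ?_, ?_⟩
  · rw [Sylow.coe_subtype]
    ext x
    constructor
    · intro hx
      exact ⟨⟨x.1, Subgroup.mem_subgroupOf.mp hx⟩, Subtype.ext rfl⟩
    · rintro ⟨y, rfl⟩
      exact Subgroup.mem_subgroupOf.mpr y.2
  · intro x hx
    have hHN : (Cfsg.pCore p G).subgroupOf N ≤ Cfsg.pCore p ↥N :=
      Lib_helper7_PCore.le_pCore (hHn.subgroupOf N) (hHp.comap_subtype)
    apply hHN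
    rw [Subgroup.mem_subgroupOf]
    apply hc
    rw [Subgroup.mem_centralizer_iff]
    intro h hh
    have hhN : h ∈ N := hPN (hHP hh)
    have h1 := Subgroup.mem_centralizer_iff.mp hx ⟨h, hhN⟩
      (hHN (Subgroup.mem_subgroupOf.mpr hh))
    exact congrArg Subtype.val h1
  · constructor
    rintro _ ⟨y, hy, rfl⟩ n
    have hnJ := hNJ n.2
    have h1 : (n : G) * (y : G) * (n : G)⁻¹ ∈ Cfsg.thompsonSubgroupOf p (P : Subgroup G) :=
      (Subgroup.mem_normalizer_iff.mp hnJ _).mp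
        (Subgroup.mem_map_of_mem (P : Subgroup G).subtype hy)
    obtain ⟨y', hy', hy'e⟩ := h1
    refine ⟨y', hy', ?_⟩
    apply Subtype.ext
    exact hy'e
  · intro V _ hV
    apply hstN V
    rw [← hcomp, ← Subgroup.map_map]
    exact Subgroup.map_mono hV

theorem frattini_inf' {G : Type*} [Group G] [Finite G] {p : ℕ} [Fact p.Prime] (P : Sylow p G)
    (K : Subgroup G) [K.Normal] :
    Subgroup.normalizer (((P : Subgroup G) ⊓ K : Subgroup G) : Set G) ⊔ K = ⊤ := by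
  have hp : IsPGroup p (((P : Subgroup G) ⊓ K).subgroupOf K) :=
    (P.isPGroup'.to_le inf_le_left).comap_subtype
  have hidx : ¬ p ∣ (((P : Subgroup G) ⊓ K).subgroupOf K).index :=
    Cfsg.Agent.Lib_helper7_PPrimeP.sylow_inf_normal P K
  have h := Sylow.normalizer_sup_eq_top (hp.toSylow hidx)
  have h2 : ((hp.toSylow hidx : Sylow p K) : Subgroup K).map K.subtype = (P : Subgroup G) ⊓ K :=
    Subgroup.map_subgroupOf_eq_of_le inf_le_right
  rw [← h2]; exact h

/-- In an action-`p`-stable group with `C_G(O_p(G)) ≤ O_p(G)`, `W(S)` is normal. -/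
theorem snc_normal {G : Type u} [Group G] [Finite G] {p : ℕ} [Fact p.Prime]
    (hst : Cfsg.IsActionPStable p G)
    (hc : Subgroup.centralizer (Cfsg.pCore p G : Set G) ≤ Cfsg.pCore p G) (P : Sylow p G) :
    ((Cfsg.stableNormalClosure p ↥(P : Subgroup G)).map (P : Subgroup G).subtype).Normal := by
  obtain ⟨hst1, hst2, hst3⟩ := hst
  have hp : p.Prime := Fact.out
  have hHn := Lib_helper7_PCore.pCore_normal (G := G) p
  have hHp := Lib_helper7_PCore.pCore_isPGroup (G := G) p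
  have hHP : Cfsg.pCore p G ≤ P := Lib_helper7_PCore.pCore_le_sylow P
  have hgood := H1SNC.snc_good p ↥(P : Subgroup G)
  have hPN : (P : Subgroup G) ≤
      Subgroup.normalizer (Cfsg.thompsonSubgroupOf p (P : Subgroup G) : Set G) :=
    Subgroup.le_normalizer.trans (H1JE.tsOf_normalizer p _)
  have hemb := stable_embedding_sub hc P _ hPN le_rfl (hst3 P)
  have hWN := (H1SNC.snc_mem_fam p ↥(P : Subgroup G)).2 _ (Subgroup.inclusion hPN) hemb
  obtain ⟨W₀, hW₀⟩ : ∃ W₀, W₀ = Cfsg.stableNormalClosure p ↥(P : Subgroup G) := ⟨_, rfl⟩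
  rw [← hW₀] at hgood hWN ⊢
  obtain ⟨W, hWe⟩ : ∃ W, W = W₀.map (P : Subgroup G).subtype := ⟨_, rfl⟩
  rw [← hWe]
  have hWP : W ≤ P := hWe ▸ Subgroup.map_subtype_le _
  obtain ⟨U₀, hU₀⟩ := H1ZJE.exists_maxEl p ↥(P : Subgroup G)
  have hW₀oct : W₀ ≤ Cfsg.omegaCenterThompson p ↥(P : Subgroup G) :=
    hW₀ ▸ H1SNC.snc_le_oct p _
  have hW₀U : W₀ ≤ U₀ := fun x hx => (H1ZJE.ctE_T p _ x).mp (hW₀oct hx) U₀ hU₀
  have hWc : ∀ a ∈ W, ∀ b ∈ W, a * b = b * a := by
    rw [hWe]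
    rintro _ ⟨a, ha, rfl⟩ _ ⟨b, hb, rfl⟩
    have := H1ZJ.comm_elem U₀ hU₀.1.1 a (hW₀U ha) b (hW₀U hb)
    rw [← map_mul, ← map_mul, this]
  have hWe' : ∀ a ∈ W, a ^ p = 1 := by
    rw [hWe]
    rintro _ ⟨a, ha, rfl⟩
    rw [← map_pow, hU₀.1.2 a (hW₀U ha), map_one]
  have hWnN : ∀ n ∈ Subgroup.normalizer (Cfsg.thompsonSubgroupOf p (P : Subgroup G) : Set G),
      ∀ w ∈ W, n * w * n⁻¹ ∈ W := by
    intro n hn w hw
    rw [hWe] at hw ⊢
    obtain ⟨w₀, hw₀, rfl⟩ := hw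
    have h1 := hWN.conj_mem _ (Subgroup.mem_map_of_mem (Subgroup.inclusion hPN) hw₀) ⟨n, hn⟩
    obtain ⟨w₁, hw₁, hw₁e⟩ := h1
    refine ⟨w₁, hw₁, ?_⟩
    have h2 := congrArg Subtype.val hw₁e
    exact h2
  have hWnP : ∀ x ∈ (P : Subgroup G), ∀ w ∈ W, x * w * x⁻¹ ∈ W :=
    fun x hx w hw => hWnN x (hPN hx) w hw
  have hWprime : ∀ s ∈ (P : Subgroup G), (∀ w ∈ W, ⁅⁅w, s⁆, s⁆ = 1) →
      ∀ w ∈ W, ⁅w, s⁆ = 1 := by
    intro s hs hq
    obtain ⟨y, hy⟩ : ∃ y : ↥(P : Subgroup G), (P : Subgroup G).subtype y = s :=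
      ⟨⟨s, hs⟩, rfl⟩
    have h1 : ∀ x ∈ W₀, ⁅⁅x, y⁆, y⁆ = 1 := by
      intro x hx
      apply (P : Subgroup G).subtype_injective
      rw [map_commutatorElement, map_commutatorElement, map_one, hy]
      exact hq _ (hWe ▸ Subgroup.mem_map_of_mem _ hx)
    have h2 := hgood.2.2.2 y h1
    intro w hw
    rw [hWe] at hw
    obtain ⟨x, hx, rfl⟩ := hw
    have h3 := congrArg (P : Subgroup G).subtype (h2 x hx)
    rw [map_commutatorElement, map_one, hy] at h3
    exact h3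
  have hWH : W ≤ Cfsg.pCore p G := by
    intro z hz
    have hq := H1ZJ.quad (Cfsg.pCore p G) W hWc (fun l hl x hx => hWnP l (hHP hl) x hx) z hz
    obtain ⟨D, hDn, hKD, ⟨k, hk⟩, hzD⟩ := hst2 z (by rw [hq]; exact bot_le)
    have hK₀p := section_kernel_pgroup (Cfsg.pCore p G) hHp hc
      ((frattini ↥(Cfsg.pCore p G)).map (Cfsg.pCore p G).subtype) rfl
    have hDp : IsPGroup p D := by
      obtain ⟨j, hj⟩ := hK₀p.exists_card_eq
      apply IsPGroup.of_card (n := j + k)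
      have h1 := Subgroup.card_mul_index ((Cfsg.sectionKernel (Cfsg.pCore p G)
        ((frattini ↥(Cfsg.pCore p G)).map (Cfsg.pCore p G).subtype)).subgroupOf D)
      rw [Lib_helper1_Hall.card_subgroupOf_of_le hKD, hj] at h1
      have h2 : ((Cfsg.sectionKernel (Cfsg.pCore p G)
        ((frattini ↥(Cfsg.pCore p G)).map (Cfsg.pCore p G).subtype)).subgroupOf D).index
          = p ^ k := hk
      rw [h2] at h1
      rw [← h1, pow_add]
    exact Lib_helper7_PCore.le_pCore hDn hDp hzD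
  have hcent := core_cent P (Cfsg.pCore p G) hHP W hWH hWc hWe' hWnP hWprime
    (fun U _ hUc hUe a _ hq => hst1 U ⟨H1ZJ.comm_of_elem U hUc, hUe⟩ a hq)
  obtain ⟨U, hUe⟩ : ∃ U, U = Subgroup.normalClosure (W : Set G) := ⟨_, rfl⟩
  rw [← hUe] at hcent
  haveI hUn : U.Normal := hUe ▸ Subgroup.normalClosure_normal
  have hWU : W ≤ U := hUe ▸ Subgroup.le_normalClosure
  obtain ⟨C, hC⟩ : ∃ C, C = Subgroup.centralizer (U : Set G) := ⟨_, rfl⟩
  haveI hCn : C.Normal := hC ▸ inferInstance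
  rw [← hC] at hcent
  have hall : ∀ A, H1JE.MaxElIn p (P : Subgroup G) A → A ≤ (P : Subgroup G) ⊓ C :=
    fun A hA => le_inf hA.1 (hcent A hA)
  have hJeq := H1JE.tsOf_eq_of_le p (P : Subgroup G) ((P : Subgroup G) ⊓ C) inf_le_left hall
  have hfr := frattini_inf' P C
  rw [← Subgroup.normalizer_eq_top_iff, eq_top_iff, ← hfr]
  apply sup_le
  · intro n hn
    have hnJ : n ∈ Subgroup.normalizer
        (Cfsg.thompsonSubgroupOf p (P : Subgroup G) : Set G) := by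
      rw [hJeq]; exact H1JE.tsOf_normalizer p _ hn
    apply Lib_helper1_Basic.mem_normalizer_of_conj_le
    intro w hw
    exact hWnN n hnJ w hw
  · intro c hc'
    apply Lib_helper1_Basic.mem_normalizer_of_conj_le
    intro w hw
    rw [hC] at hc'
    have h1 := Subgroup.mem_centralizer_iff.mp hc' w (hWU hw)
    have e : c * w * c⁻¹ = w := by rw [← h1]; group
    rw [e]; exact hw

end Cfsg.Agent.H1SNC3
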