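import Mathlib
import Cfsg.Prelude
import Cfsg.Agent.Lib_helper1_PGroup
import Cfsg.Agent.Lib_helper7_FratCent

set_option autoImplicit false

namespace Cfsg.Agent.Lib_helper1_Special

/-- a characteristic subgroup fixed pointwise by `A` is central when `G = [G, A]` -/
theorem char_abelian_central {G : Type*} [Group G] (A : Subgroup (MulAut G))
    (hGA : Subgroup.closure {x : G | ∃ g : G, ∃ a ∈ A, x = g⁻¹ * a g} = ⊤)
    (H : Subgroup G) [hH : H.Characteristic] (hfix : ∀ a ∈ A, ∀ h ∈ H, a h = h) :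
    H ≤ Subgroup.center G := by
  intro h hh
  rw [Subgroup.mem_center_iff]
  have h1 : (⊤ : Subgroup G) ≤ Subgroup.centralizer {h} := by
    rw [← hGA, Subgroup.closure_le]
    rintro x ⟨g, a, ha, rfl⟩
    have hgoal : g⁻¹ * a g ∈ Subgroup.centralizer {h} := by
      rw [Subgroup.mem_centralizer_iff]
      intro y hy
      rw [Set.mem_singleton_iff] at hy
      rw [hy]
      have h2 : g * h * g⁻¹ ∈ H := (inferInstance : H.Normal).conj_mem h hh g
      have h3 := hfix a ha _ h2
      have h4 := hfix a ha _ hh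
      rw [map_mul, map_mul, map_inv, h4] at h3
      calc h * (g⁻¹ * a g) = g⁻¹ * (g * h * g⁻¹) * a g := by group
        _ = g⁻¹ * (a g * h * (a g)⁻¹) * a g := by rw [h3]
        _ = g⁻¹ * a g * h := by group
    exact hgoal
  intro g
  have := h1 (Subgroup.mem_top g)
  rw [Subgroup.mem_centralizer_iff] at this
  exact (this h rfl).symm

/-- class at most two when characteristic abelian subgroups are central -/
theorem class_two {G : Type*} [Group G] [Finite G] {p : ℕ} [Fact p.Prime] (hG : IsPGroup p G)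
    (hcen : ∀ H : Subgroup G, H.Characteristic → IsMulCommutative H → H ≤ Subgroup.center G) :
    commutator G ≤ Subgroup.center G := by
  haveI : Group.IsNilpotent G := hG.isNilpotent
  obtain ⟨n, hn⟩ := Subgroup.nilpotent_iff_lowerCentralSeries.mp ‹Group.IsNilpotent G›
  have key : ∀ n, 2 ≤ n → Subgroup.lowerCentralSeries (⊤ : Subgroup G) (n + 1) = ⊥ →
      Subgroup.lowerCentralSeries (⊤ : Subgroup G) n = ⊥ := by
    intro n hn2 hn
    obtain ⟨m, rfl⟩ : ∃ m, n = m + 1 := ⟨n - 1, by omega⟩
    have hKc : Subgroup.lowerCentralSeries (⊤ : Subgroup G) m ≤ commutator G := by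
      rw [← Subgroup.top_lowerCentralSeries_one]
      exact Subgroup.lowerCentralSeries_antitone _ (by omega)
    have h1 : ⁅⁅Subgroup.lowerCentralSeries (⊤ : Subgroup G) m, (⊤ : Subgroup G)⁆,
        (⊤ : Subgroup G)⁆ = ⊥ := by
      rw [← Subgroup.lowerCentralSeries_succ, ← Subgroup.lowerCentralSeries_succ]
      exact hn
    have h2 : ⁅⁅(⊤ : Subgroup G), (⊤ : Subgroup G)⁆,
        Subgroup.lowerCentralSeries (⊤ : Subgroup G) m⁆ = ⊥ := by
      apply Subgroup.commutator_commutator_eq_bot_of_rotate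
      · rw [Subgroup.commutator_comm ⊤ (Subgroup.lowerCentralSeries (⊤ : Subgroup G) m)]
        exact h1
      · exact h1
    have h3 := Subgroup.commutator_eq_bot_iff_le_centralizer.mp h2
    have hKab : IsMulCommutative (Subgroup.lowerCentralSeries (⊤ : Subgroup G) m) := by
      refine ⟨⟨fun a b => Subtype.ext ?_⟩⟩
      have h4 : (a : G) ∈ commutator G := hKc a.2
      rw [commutator_def] at h4
      have h5 := h3 h4
      rw [Subgroup.mem_centralizer_iff] at h5
      exact (h5 b b.2).symm
    have hKZ := hcen _ inferInstance hKab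
    rw [Subgroup.lowerCentralSeries_succ, Subgroup.commutator_eq_bot_iff_le_centralizer]
    intro x hx
    have h6 := hKZ hx
    rw [Subgroup.mem_centralizer_iff]
    intro y _
    exact (Subgroup.mem_center_iff.mp h6 y)
  have h2 : Subgroup.lowerCentralSeries (⊤ : Subgroup G) 2 = ⊥ := by
    have h3 : ∀ d, ∀ m, 2 ≤ m → n ≤ m + d → Subgroup.lowerCentralSeries (⊤ : Subgroup G) m = ⊥ := by
      intro d
      induction d with
      | zero =>
        intro m _ hm
        rw [eq_bot_iff, ← hn]
        exact Subgroup.lowerCentralSeries_antitone _ (by omega)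
      | succ d ih =>
        intro m hm2 hm
        exact key m hm2 (ih (m + 1) (by omega) (by omega))
    exact h3 n 2 le_rfl (by omega)
  rw [Subgroup.lowerCentralSeries_succ, Subgroup.top_lowerCentralSeries_one,
    Subgroup.commutator_eq_bot_iff_le_centralizer] at h2
  intro x hx
  have h3 := h2 hx
  rw [Subgroup.mem_centralizer_iff] at h3
  rw [Subgroup.mem_center_iff]
  intro g
  exact h3 g (Subgroup.mem_top g)

/-- fixed points lie in the derived subgroup -/
theorem fixed_le_commutator {G : Type*} [Group G] [Finite G] {p : ℕ} [Fact p.Prime]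
    (hG : IsPGroup p G) (A : Subgroup (MulAut G)) (hA : Nat.Coprime (Nat.card A) p)
    (hGA : Subgroup.closure {x : G | ∃ g : G, ∃ a ∈ A, x = g⁻¹ * a g} = ⊤)
    (g : G) (hg : ∀ a ∈ A, a g = g) : g ∈ commutator G := by
  classical
  haveI : Fintype A := Fintype.ofFinite A
  let N : G →* Abelianization G :=
    { toFun := fun x => ∏ a : A, Abelianization.of ((a : MulAut G) x)
      map_one' := by simp
      map_mul' := fun x y => by simp [Finset.prod_mul_distrib] }
  have hNdef : ∀ x, N x = ∏ a : A, Abelianization.of ((a : MulAut G) x) := fun x => rfl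
  have hN : ∀ x, N x = 1 := by
    have h1 : (⊤ : Subgroup G) ≤ N.ker := by
      rw [← hGA, Subgroup.closure_le]
      rintro x ⟨y, a, ha, rfl⟩
      rw [SetLike.mem_coe, MonoidHom.mem_ker, map_mul, map_inv]
      have h2 : N (a y) = N y := by
        rw [hNdef, hNdef]
        exact Fintype.prod_equiv (Equiv.mulRight (⟨a, ha⟩ : A)) _ _ (fun b => rfl)
      rw [h2, inv_mul_cancel]
    intro x
    exact h1 (Subgroup.mem_top x)
  have h3 : N g = Abelianization.of g ^ Nat.card A := by
    rw [hNdef, Finset.prod_congr rfl (fun b _ => by rw [hg b b.2]), Finset.prod_const,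
      Finset.card_univ, Nat.card_eq_fintype_card]
  rw [hN g] at h3
  obtain ⟨k, hk⟩ := hG g
  have h4 : Abelianization.of g ^ (p ^ k) = 1 := by rw [← map_pow, hk, map_one]
  have h5 : Abelianization.of g = 1 := by
    have h6 : orderOf (Abelianization.of g) ∣ Nat.card A := orderOf_dvd_of_pow_eq_one h3.symm
    have h7 : orderOf (Abelianization.of g) ∣ p ^ k := orderOf_dvd_of_pow_eq_one h4
    have h8 : orderOf (Abelianization.of g) = 1 :=
      Nat.eq_one_of_dvd_coprimes (Nat.Coprime.pow_right k hA) h6 h7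
    exact orderOf_eq_one_iff.mp h8
  have h9 : g ∈ (Abelianization.of (G := G)).ker := MonoidHom.mem_ker.mpr h5
  rw [Abelianization.ker_of] at h9
  exact h9

theorem pow_comm_of_central {G : Type*} [Group G] (x y : G)
    (hc : ∀ z, z * (x * y * x⁻¹ * y⁻¹) = (x * y * x⁻¹ * y⁻¹) * z) (n : ℕ) :
    x ^ n * y = (x * y * x⁻¹ * y⁻¹) ^ n * y * x ^ n := by
  have h1 : x * y = (x * y * x⁻¹ * y⁻¹) * y * x := by group
  generalize x * y * x⁻¹ * y⁻¹ = c at hc h1
  have h2 : ∀ k : ℕ, x * c ^ k = c ^ k * x := by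
    intro k
    induction k with
    | zero => simp
    | succ k ihk => rw [pow_succ, ← mul_assoc, ihk, mul_assoc, hc x, mul_assoc]
  induction n with
  | zero => simp
  | succ n ih =>
    calc x ^ (n + 1) * y = x * (x ^ n * y) := by rw [pow_succ', mul_assoc]
      _ = x * (c ^ n * y * x ^ n) := by rw [ih]
      _ = (x * c ^ n) * y * x ^ n := by simp only [mul_assoc]
      _ = c ^ n * (x * y) * x ^ n := by rw [h2]; simp only [mul_assoc]
      _ = c ^ n * (c * y * x) * x ^ n := by rw [h1]
      _ = c ^ (n + 1) * y * x ^ (n + 1) := by rw [pow_succ, pow_succ']; simp only [mul_assoc]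

theorem pow_closure_char {G : Type*} [Group G] (n : ℕ) :
    (Subgroup.closure {g : G | ∃ x : G, g = x ^ n}).Characteristic := by
  rw [Subgroup.characteristic_iff_map_le]
  intro φ
  rw [MonoidHom.map_closure, Subgroup.closure_le]
  rintro _ ⟨_, ⟨x, rfl⟩, rfl⟩
  apply Subgroup.subset_closure
  exact ⟨φ x, by simp⟩

theorem closure_comm {G : Type*} [Group G] (S : Set G) (h : ∀ a ∈ S, ∀ b ∈ S, a * b = b * a) :
    IsMulCommutative (Subgroup.closure S) := by
  have h1 : Subgroup.closure S ≤ Subgroup.centralizer (Subgroup.closure S : Set G) := by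
    rw [Subgroup.closure_le]
    intro a ha
    have hgoal : a ∈ Subgroup.centralizer (Subgroup.closure S : Set G) := by
      rw [Subgroup.mem_centralizer_iff]
      intro b hb
      have h2 : Subgroup.closure S ≤ Subgroup.centralizer {a} := by
        rw [Subgroup.closure_le]
        intro c hc
        have hgoal2 : c ∈ Subgroup.centralizer {a} := by
          rw [Subgroup.mem_centralizer_iff]
          intro d hd
          rw [Set.mem_singleton_iff] at hd
          rw [hd]
          exact h a ha c hc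
        exact hgoal2
      have h3 := h2 hb
      rw [Subgroup.mem_centralizer_iff] at h3
      exact (h3 a rfl).symm
    exact hgoal
  refine ⟨⟨fun a b => Subtype.ext ?_⟩⟩
  have h4 := h1 a.2
  rw [Subgroup.mem_centralizer_iff] at h4
  exact (h4 b b.2).symm

theorem exp_step {G : Type*} [Group G] {p : ℕ} (hGZ : commutator G ≤ Subgroup.center G)
    (hcen : ∀ H : Subgroup G, H.Characteristic → IsMulCommutative H → H ≤ Subgroup.center G)
    (k : ℕ) (hk : 1 ≤ k) (h : ∀ x : G, x ^ (p ^ (k + 1)) ∈ Subgroup.center G) :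
    ∀ x : G, x ^ (p ^ k) ∈ Subgroup.center G := by
  have hc : ∀ x y z : G, z * (x * y * x⁻¹ * y⁻¹) = (x * y * x⁻¹ * y⁻¹) * z := by
    intro x y z
    have h1 : x * y * x⁻¹ * y⁻¹ ∈ commutator G := by
      have h2 := Subgroup.commutator_mem_commutator (Subgroup.mem_top x) (Subgroup.mem_top y)
      rw [commutatorElement_def] at h2
      rw [commutator_def]
      exact h2
    exact Subgroup.mem_center_iff.mp (hGZ h1) z
  have hcomm : ∀ x y : G, x ^ (p ^ k) * y ^ (p ^ k) = y ^ (p ^ k) * x ^ (p ^ k) := by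
    intro x y
    have h1 := pow_comm_of_central x (y ^ (p ^ k)) (hc x (y ^ (p ^ k))) (p ^ k)
    have h2 := pow_comm_of_central y x⁻¹ (hc y x⁻¹) (p ^ k)
    have h4 : (y * x⁻¹ * y⁻¹ * x⁻¹⁻¹) ^ (p ^ k * p ^ k) = 1 := by
      have h5 : y ^ (p ^ k * p ^ k) ∈ Subgroup.center G := by
        have h6 : p ^ k * p ^ k = p ^ (k - 1) * p ^ (k + 1) := by
          rw [← pow_add, ← pow_add]
          congr 1
          omega
        rw [h6, pow_mul]
        exact h _
      have h6 := pow_comm_of_central y x⁻¹ (hc y x⁻¹) (p ^ k * p ^ k)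
      have h7 := Subgroup.mem_center_iff.mp h5 x⁻¹
      rw [← h7] at h6
      have h8 : 1 * (x⁻¹ * y ^ (p ^ k * p ^ k)) =
          (y * x⁻¹ * y⁻¹ * x⁻¹⁻¹) ^ (p ^ k * p ^ k) * (x⁻¹ * y ^ (p ^ k * p ^ k)) := by
        rw [one_mul, ← mul_assoc]
        exact h6
      exact (mul_right_cancel h8).symm
    have hcz := hc y x⁻¹
    generalize y * x⁻¹ * y⁻¹ * x⁻¹⁻¹ = c at h2 h4 hcz
    have hcz' : ∀ j : ℕ, x * c ^ j = c ^ j * x := by
      intro j
      induction j with
      | zero => simp
      | succ j ihj => rw [pow_succ, ← mul_assoc, ihj, mul_assoc, hcz x, mul_assoc]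
    have h3 : x * y ^ (p ^ k) * x⁻¹ * (y ^ (p ^ k))⁻¹ = c ^ (p ^ k) := by
      calc x * y ^ (p ^ k) * x⁻¹ * (y ^ (p ^ k))⁻¹
          = x * (y ^ (p ^ k) * x⁻¹) * (y ^ (p ^ k))⁻¹ := by simp only [mul_assoc]
        _ = x * (c ^ (p ^ k) * x⁻¹ * y ^ (p ^ k)) * (y ^ (p ^ k))⁻¹ := by rw [h2]
        _ = (x * c ^ (p ^ k)) * x⁻¹ := by simp only [mul_assoc, mul_inv_cancel, mul_one]
        _ = c ^ (p ^ k) := by rw [hcz']; simp only [mul_assoc, mul_inv_cancel, mul_one]
    rw [h1, h3, ← pow_mul, h4, one_mul]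
  have hT : IsMulCommutative (Subgroup.closure {g : G | ∃ x : G, g = x ^ (p ^ k)}) :=
    closure_comm _ (by
      rintro _ ⟨x, rfl⟩ _ ⟨y, rfl⟩
      exact hcomm x y)
  have hTZ := hcen _ (pow_closure_char (p ^ k)) hT
  intro x
  exact hTZ (Subgroup.subset_closure ⟨x, rfl⟩)

theorem main {G : Type*} [Group G] [Finite G] {p : ℕ} [Fact p.Prime] (hG : IsPGroup p G)
    (A : Subgroup (MulAut G)) (hA : Nat.Coprime (Nat.card A) p)
    (hGA : Subgroup.closure {x : G | ∃ g : G, ∃ a ∈ A, x = g⁻¹ * a g} = ⊤)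
    (hchar : ∀ H : Subgroup G, H.Characteristic → IsMulCommutative H → ∀ a ∈ A, ∀ h ∈ H, a h = h) :
    Cfsg.IsSpecial p G ∧ (∀ g : G, (g ∈ Subgroup.center G ↔ ∀ a ∈ A, a g = g)) := by
  have hcen : ∀ H : Subgroup G, H.Characteristic → IsMulCommutative H →
      H ≤ Subgroup.center G := by
    intro H hH hHc
    haveI := hH
    exact char_abelian_central A hGA H (hchar H hH hHc)
  have hGZ : commutator G ≤ Subgroup.center G := class_two hG hcen
  have hZfix : ∀ a ∈ A, ∀ g ∈ Subgroup.center G, a g = g :=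
    hchar (Subgroup.center G) inferInstance inferInstance
  have hfixG' := fixed_le_commutator hG A hA hGA
  have hZG' : Subgroup.center G ≤ commutator G := fun g hg =>
    hfixG' g (fun a ha => hZfix a ha g hg)
  have hZeq : commutator G = Subgroup.center G := le_antisymm hGZ hZG'
  have hexp : ∀ x : G, x ^ p ∈ Subgroup.center G := by
    obtain ⟨N, hN⟩ := (IsPGroup.iff_card.mp hG)
    have h1 : ∀ d, ∀ k, 1 ≤ k → N ≤ k + d → ∀ x : G, x ^ (p ^ k) ∈ Subgroup.center G := by
      intro d
      induction d with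
      | zero =>
        intro k _ hk x
        have h2 : x ^ (p ^ k) = 1 := by
          have h3 : p ^ k = p ^ N * p ^ (k - N) := by
            rw [← pow_add]
            congr 1
            omega
          rw [h3, pow_mul, ← hN, pow_card_eq_one', one_pow]
        rw [h2]
        exact Subgroup.one_mem _
      | succ d ih =>
        intro k hk1 hk
        exact exp_step hGZ hcen k hk1 (ih (k + 1) (by omega) (by omega))
    have h2 := h1 N 1 le_rfl (by omega)
    simpa using h2
  refine ⟨⟨hG, ?_, hZeq⟩, ?_⟩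
  · apply le_antisymm
    · exact Cfsg.Agent.Lib_helper7_FratCent.frattini_le_of_elementary_quotient (p := p) _ hGZ hexp
    · rw [← hZeq]
      exact Cfsg.Agent.Lib_helper1_PGroup.commutator_le_frattini hG
  · intro g
    exact ⟨fun hg a ha => hZfix a ha g hg, fun hg => hGZ (hfixG' g hg)⟩

end Cfsg.Agent.Lib_helper1_Special
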