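import Cfsg.Statements.S0079
import Mathlib
import Cfsg.Agent.Lib_helper1_FocalHall
import Cfsg.Agent.Lib_helper1_Basic

set_option autoImplicit false
open Cfsg

namespace Cfsg.Agent.S0079

open scoped commutatorElement in
/-- A nilpotent Hall subgroup has a normal complement exactly when elements of it that are conjugate in the whole group are already conjugate inside it. -/
theorem result {G : Type*} [Group G] [Finite G] (H : Subgroup G) (hH : Group.IsNilpotent H) (hHall : Nat.Coprime (Nat.card H) H.index) : (∃ N : Subgroup G, N.Normal ∧ N.IsComplement' H) ↔ ∀ x ∈ H, ∀ y ∈ H, (∃ g : G, g * x * g⁻¹ = y) → ∃ h ∈ H, h * x * h⁻¹ = y := by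
  constructor
  · rintro ⟨N, hNn, hNc⟩ x hx y hy ⟨g, hg⟩
    haveI := hNn
    have hsup : N ⊔ H = ⊤ := hNc.sup_eq_top
    have hinf : N ⊓ H = ⊥ := disjoint_iff.mp hNc.disjoint
    obtain ⟨n, hn, h, hh, rfl⟩ := Cfsg.Agent.Lib_helper1_Basic.exists_mul_of_sup_eq_top N H hsup g
    refine ⟨h, hh, ?_⟩
    have hx' : h * x * h⁻¹ ∈ H := H.mul_mem (H.mul_mem hh hx) (H.inv_mem hh)
    have h1 : y * (h * x * h⁻¹)⁻¹ ∈ N ⊓ H := by
      refine Subgroup.mem_inf.mpr ⟨?_, H.mul_mem hy (H.inv_mem hx')⟩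
      have e : y * (h * x * h⁻¹)⁻¹ = n * ((h * x * h⁻¹) * n⁻¹ * (h * x * h⁻¹)⁻¹) := by
        rw [← hg]; group
      rw [e]
      exact N.mul_mem hn (hNn.conj_mem _ (N.inv_mem hn) _)
    rw [hinf, Subgroup.mem_bot] at h1
    exact (mul_inv_eq_one.mp h1).symm
  · intro hfus
    obtain ⟨n, hn⟩ := (Subgroup.isNilpotent_iff_lowerCentralSeries (S := H)).mp hH
    have hmono : ∀ K K' : Subgroup G, K ≤ K' → K.focalSubgroup ≤ K'.focalSubgroup := by
      intro K K' hKK'
      rw [Subgroup.focalSubgroup_def, Subgroup.focalSubgroup_def]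
      apply Subgroup.closure_mono
      rintro g ⟨hg, x, hx, u, rfl⟩
      exact ⟨hKK' hg, x, hKK' hx, u, rfl⟩
    have hstep : ∀ K : Subgroup G, K ≤ H → K.focalSubgroup ≤ ⁅K, H⁆ := by
      intro K hKH
      rw [Subgroup.focalSubgroup_def, Subgroup.closure_le]
      rintro g ⟨hg, x, hx, u, rfl⟩
      have h1 : u * x⁻¹ * u⁻¹ ∈ K := by
        have e : u * x⁻¹ * u⁻¹ = x⁻¹ * ⁅x, u⁆ := by rw [commutatorElement_def]; group
        rw [e]; exact K.mul_mem (K.inv_mem hx) hg
      obtain ⟨h, hh, hh'⟩ := hfus x⁻¹ (H.inv_mem (hKH hx)) _ (hKH h1) ⟨u, rfl⟩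
      have e : ⁅x, u⁆ = ⁅x, h⁆ := by
        rw [commutatorElement_def, commutatorElement_def]
        calc x * u * x⁻¹ * u⁻¹ = x * (u * x⁻¹ * u⁻¹) := by group
          _ = x * (h * x⁻¹ * h⁻¹) := by rw [hh']
          _ = x * h * x⁻¹ * h⁻¹ := by group
      show ⁅x, u⁆ ∈ ⁅K, H⁆
      rw [e]
      exact Subgroup.commutator_mem_commutator hx hh
    have hLH : ∀ j : ℕ, H.lowerCentralSeries j ≤ H := by
      intro j
      induction j with
      | zero => exact le_rfl
      | succ j ih =>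
        rw [Subgroup.lowerCentralSeries_succ, Subgroup.commutator_le]
        intro a ha b hb
        rw [commutatorElement_def]
        exact H.mul_mem (H.mul_mem (H.mul_mem (ih ha) hb) (H.inv_mem (ih ha))) (H.inv_mem hb)
    have hle : ∀ j : ℕ, (fun K : Subgroup G => K.focalSubgroup)^[j] H ≤ H.lowerCentralSeries j := by
      intro j
      induction j with
      | zero => exact le_rfl
      | succ j ih =>
        rw [Function.iterate_succ_apply', Subgroup.lowerCentralSeries_succ]
        exact (hmono _ _ ih).trans (hstep _ (hLH j))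
    have hfoc : (fun K : Subgroup G => K.focalSubgroup)^[n] H = ⊥ := by
      rw [eq_bot_iff, ← hn]; exact hle n
    exact Cfsg.Agent.Lib_helper1_FocalHall.focal_complement n G H hHall hfoc

end Cfsg.Agent.S0079
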