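import Mathlib
import Cfsg.Agent.Lib_helper1_Basic
import Cfsg.Agent.Lib_helper1_Hall
import Cfsg.Agent.Lib_helper1_ProdCard
import Cfsg.Agent.S0079

set_option autoImplicit false

namespace Cfsg.Agent.Lib_helper1_SylNorm

open scoped Pointwise
open Cfsg.Agent.Lib_helper1_Basic

theorem not_dvd_index_of_normalizer {G : Type*} [Group G] [Finite G] {p : ℕ} [Fact p.Prime]
    (Q : Subgroup G) (hQ : IsPGroup p Q)
    (h : ¬ p ∣ Q.relIndex (Subgroup.normalizer (Q : Set G))) : ¬ p ∣ Q.index := by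
  obtain ⟨n, hn⟩ := IsPGroup.iff_card.mp hQ
  have h1 := Sylow.card_quotient_normalizer_modEq_card_quotient hn
  intro hd
  apply h
  have h2 : Q.relIndex (Subgroup.normalizer (Q : Set G)) ≡ Q.index [MOD p] := h1
  exact (Nat.ModEq.dvd_iff h2 dvd_rfl).mpr hd

section

variable {G : Type*} [Group G] [Finite G] (H : Subgroup G)
  (hnorm : ∀ p : ℕ, p.Prime → p ∣ Nat.card H → ∀ P : Sylow p H,
    Subgroup.normalizer (((P : Subgroup H).map H.subtype : Subgroup G) : Set G) = H)

include hnorm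

omit [Finite G] hnorm in
theorem relIndex_map_sylow' {p : ℕ} [Fact p.Prime] (P : Sylow p H) :
    ((P : Subgroup H).map H.subtype).relIndex H = (P : Subgroup H).index := by
  show (((P : Subgroup H).map H.subtype).subgroupOf H).index = _
  rw [show ((P : Subgroup H).map H.subtype).subgroupOf H = (P : Subgroup H) from
    Subgroup.comap_map_eq_self_of_injective (Subgroup.subtype_injective H) _]

theorem not_dvd_index_map {p : ℕ} [hp : Fact p.Prime] (hpd : p ∣ Nat.card H) (P : Sylow p H) :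
    ¬ p ∣ ((P : Subgroup H).map H.subtype).index := by
  apply not_dvd_index_of_normalizer _ (P.isPGroup'.map _)
  rw [hnorm p hp.out hpd P, relIndex_map_sylow' H P]
  exact P.not_dvd_index

theorem comm_of_ne {p q : ℕ} [hp : Fact p.Prime] [hq : Fact q.Prime] (hpq : p ≠ q)
    (hpd : p ∣ Nat.card H) (hqd : q ∣ Nat.card H) (P : Sylow p H) (Q : Sylow q H) :
    ∀ a ∈ (P : Subgroup H).map H.subtype, ∀ b ∈ (Q : Subgroup H).map H.subtype, a * b = b * a := by
  intro a ha b hb
  have hPH : (P : Subgroup H).map H.subtype ≤ H := Subgroup.map_subtype_le _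
  have hQH : (Q : Subgroup H).map H.subtype ≤ H := Subgroup.map_subtype_le _
  have hbN : b ∈ Subgroup.normalizer (((P : Subgroup H).map H.subtype : Subgroup G) : Set G) := by
    rw [hnorm p hp.out hpd P]; exact hQH hb
  have haN : a ∈ Subgroup.normalizer (((Q : Subgroup H).map H.subtype : Subgroup G) : Set G) := by
    rw [hnorm q hq.out hqd Q]; exact hPH ha
  have h1 : a * b * a⁻¹ * b⁻¹ ∈ (P : Subgroup H).map H.subtype := by
    have := (Subgroup.mem_normalizer_iff.mp hbN a⁻¹).mp (Subgroup.inv_mem _ ha)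
    have e : a * b * a⁻¹ * b⁻¹ = a * (b * a⁻¹ * b⁻¹) := by group
    rw [e]; exact Subgroup.mul_mem _ ha this
  have h2 : a * b * a⁻¹ * b⁻¹ ∈ (Q : Subgroup H).map H.subtype := by
    have := (Subgroup.mem_normalizer_iff.mp haN b).mp hb
    exact Subgroup.mul_mem _ this (Subgroup.inv_mem _ hb)
  have hdisj : Disjoint ((P : Subgroup H).map H.subtype) ((Q : Subgroup H).map H.subtype) :=
    IsPGroup.disjoint_of_ne p q hpq _ _ (P.isPGroup'.map _) (Q.isPGroup'.map _)
  have h3 : a * b * a⁻¹ * b⁻¹ ∈ (P : Subgroup H).map H.subtype ⊓ (Q : Subgroup H).map H.subtype :=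
    Subgroup.mem_inf.mpr ⟨h1, h2⟩
  rw [disjoint_iff.mp hdisj, Subgroup.mem_bot] at h3
  calc a * b = (a * b * a⁻¹ * b⁻¹) * (b * a) := by group
    _ = b * a := by rw [h3, one_mul]

theorem decomp {p : ℕ} [hp : Fact p.Prime] (hpd : p ∣ Nat.card H) (P : Sylow p H) :
    ∀ h ∈ H, ∃ u ∈ (P : Subgroup H).map H.subtype, ∃ c ∈ H,
      (∀ a ∈ (P : Subgroup H).map H.subtype, c * a = a * c) ∧ h = u * c := by
  classical
  obtain ⟨D, hD⟩ : ∃ D : Subgroup G, ∀ h, h ∈ D ↔ ∃ u ∈ (P : Subgroup H).map H.subtype, ∃ c ∈ H,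
      (∀ a ∈ (P : Subgroup H).map H.subtype, c * a = a * c) ∧ h = u * c := by
    refine ⟨{ carrier := {h | ∃ u ∈ (P : Subgroup H).map H.subtype, ∃ c ∈ H,
                (∀ a ∈ (P : Subgroup H).map H.subtype, c * a = a * c) ∧ h = u * c}
              mul_mem' := ?_
              one_mem' := ?_
              inv_mem' := ?_ }, fun h => Iff.rfl⟩
    · rintro _ _ ⟨u, hu, c, hc, hcc, rfl⟩ ⟨u', hu', c', hc', hcc', rfl⟩
      refine ⟨u * u', Subgroup.mul_mem _ hu hu', c * c', H.mul_mem hc hc', ?_, ?_⟩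
      · intro a ha
        rw [mul_assoc, hcc' a ha, ← mul_assoc, hcc a ha, mul_assoc]
      · calc u * c * (u' * c') = u * (c * u') * c' := by group
          _ = u * (u' * c) * c' := by rw [hcc u' hu']
          _ = u * u' * (c * c') := by group
    · exact ⟨1, Subgroup.one_mem _, 1, H.one_mem, fun a _ => by rw [one_mul, mul_one], by group⟩
    · rintro _ ⟨u, hu, c, hc, hcc, rfl⟩
      refine ⟨u⁻¹, Subgroup.inv_mem _ hu, c⁻¹, H.inv_mem hc, ?_, ?_⟩
      · intro a ha
        have := hcc a ha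
        calc c⁻¹ * a = c⁻¹ * (a * c) * c⁻¹ := by group
          _ = c⁻¹ * (c * a) * c⁻¹ := by rw [this]
          _ = a * c⁻¹ := by group
      · have := hcc u⁻¹ (Subgroup.inv_mem _ hu)
        calc (u * c)⁻¹ = c⁻¹ * (u⁻¹ * c) * c⁻¹ := by group
          _ = c⁻¹ * (c * u⁻¹) * c⁻¹ := by rw [this]
          _ = u⁻¹ * c⁻¹ := by group
  have hPD : (P : Subgroup H).map H.subtype ≤ D := by
    intro u hu
    rw [hD]
    exact ⟨u, hu, 1, H.one_mem, fun a _ => by rw [one_mul, mul_one], by group⟩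
  have hHD : H ≤ D := by
    rw [← Subgroup.relIndex_eq_one]
    by_contra hne
    obtain ⟨r, hr, hrd⟩ := Nat.exists_prime_and_dvd hne
    haveI : Fact r.Prime := ⟨hr⟩
    have hrH : r ∣ Nat.card H := hrd.trans (Subgroup.relIndex_dvd_card D H)
    have key : ∃ S : Sylow r H, (S : Subgroup H).map H.subtype ≤ D := by
      by_cases hrp : r = p
      · subst hrp
        exact ⟨P, hPD⟩
      · obtain ⟨S⟩ : Nonempty (Sylow r H) := inferInstance
        refine ⟨S, ?_⟩
        intro c hc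
        rw [hD]
        refine ⟨1, Subgroup.one_mem _, c, Subgroup.map_subtype_le _ hc, ?_, by group⟩
        intro a ha
        exact (comm_of_ne H hnorm (Ne.symm hrp) hpd hrH P S a ha c hc).symm
    obtain ⟨S, hS⟩ := key
    have h1 : D.relIndex H ∣ ((S : Subgroup H).map H.subtype).relIndex H :=
      Subgroup.relIndex_dvd_of_le_left H hS
    rw [relIndex_map_sylow' H S] at h1
    exact S.not_dvd_index (hrd.trans h1)
  intro h hh
  exact (hD h).mp (hHD hh)

variable (hnot : ∀ p : ℕ, p.Prime → ∀ P : Sylow p G, (P : Subgroup G) ≠ H)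
include hnot

theorem exists_other_prime {p : ℕ} [hp : Fact p.Prime] (hpd : p ∣ Nat.card H) (P : Sylow p H) :
    ∃ q : ℕ, q.Prime ∧ q ≠ p ∧ q ∣ Nat.card H := by
  by_contra hcon
  have hall : ∀ {d : ℕ}, d.Prime → d ∣ Nat.card H → d = p := by
    intro d hd hdd
    by_contra hne
    exact hcon ⟨d, hd, hne, hdd⟩
  have hcard := Nat.eq_prime_pow_of_unique_prime_dvd Nat.card_pos.ne' hall
  have hPtop : (P : Subgroup H) = ⊤ := by
    apply Subgroup.eq_top_of_card_eq
    rw [P.card_eq_multiplicity]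
    conv_rhs => rw [hcard]
    congr 1
    conv_lhs => rw [hcard]
    rw [Nat.Prime.factorization_pow hp.out]
    simp
  have hP' : (P : Subgroup H).map H.subtype = H := by
    rw [hPtop, ← MonoidHom.range_eq_map, Subgroup.range_subtype]
  have hnd := not_dvd_index_map H hnorm hpd P
  exact hnot p hp.out ((P.isPGroup'.map H.subtype).toSylow hnd)
    (by rw [IsPGroup.toSylow_coe]; exact hP')

theorem fusion {p : ℕ} [hp : Fact p.Prime] (hpd : p ∣ Nat.card H) (P : Sylow p H) :
    ∀ x ∈ (P : Subgroup H).map H.subtype, ∀ y ∈ (P : Subgroup H).map H.subtype,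
      (∃ g : G, g * x * g⁻¹ = y) → ∃ h ∈ (P : Subgroup H).map H.subtype, h * x * h⁻¹ = y := by
  classical
  rintro x hx y hy ⟨g, hg⟩
  obtain ⟨q, hq, hqp, hqd⟩ := exists_other_prime H hnorm hnot hpd P
  haveI : Fact q.Prime := ⟨hq⟩
  obtain ⟨Q⟩ : Nonempty (Sylow q H) := inferInstance
  have hQ'q : IsPGroup q ((Q : Subgroup H).map H.subtype) := Q.isPGroup'.map _
  have hQnd := not_dvd_index_map H hnorm hqd Q
  obtain ⟨QG, hQG⟩ : ∃ QG : Sylow q G, (QG : Subgroup G) = (Q : Subgroup H).map H.subtype :=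
    ⟨hQ'q.toSylow hQnd, IsPGroup.toSylow_coe _ _⟩
  have hcomm := comm_of_ne H hnorm (Ne.symm hqp) hpd hqd P Q
  have hQC : ∀ b ∈ (QG : Subgroup G), b ∈ Subgroup.centralizer ({x} : Set G) := by
    intro b hb
    rw [hQG] at hb
    rw [Subgroup.mem_centralizer_iff]
    intro w hw
    rw [Set.mem_singleton_iff] at hw
    subst hw
    exact hcomm w hx b hb
  have hQ2C : ∀ b ∈ (QG : Subgroup G), g⁻¹ * b * g ∈ Subgroup.centralizer ({x} : Set G) := by
    intro b hb
    rw [hQG] at hb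
    rw [Subgroup.mem_centralizer_iff]
    intro w hw
    rw [Set.mem_singleton_iff] at hw
    subst hw
    have h1 := hcomm y hy b hb
    rw [← hg] at h1
    calc w * (g⁻¹ * b * g) = g⁻¹ * ((g * w * g⁻¹) * b) * g := by group
      _ = g⁻¹ * (b * (g * w * g⁻¹)) * g := by rw [h1]
      _ = g⁻¹ * b * g * w := by group
  obtain ⟨R₁, hR₁⟩ := (QG.isPGroup'.comap_subtype
    (K := Subgroup.centralizer ({x} : Set G))).exists_le_sylow
  obtain ⟨R₂, hR₂⟩ := ((g⁻¹ • QG).isPGroup'.comap_subtype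
    (K := Subgroup.centralizer ({x} : Set G))).exists_le_sylow
  obtain ⟨c, hc⟩ := MulAction.exists_smul_eq (Subgroup.centralizer ({x} : Set G)) R₂ R₁
  have hR₁' : (R₁ : Subgroup (Subgroup.centralizer ({x} : Set G))).map
      (Subgroup.centralizer ({x} : Set G)).subtype = (QG : Subgroup G) := by
    apply QG.is_maximal' (R₁.isPGroup'.map _)
    intro b hb
    exact ⟨⟨b, hQC b hb⟩, hR₁ (by rw [Subgroup.mem_comap]; exact hb), rfl⟩
  have hm : (c : G) * g⁻¹ ∈ Subgroup.normalizer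
      (((Q : Subgroup H).map H.subtype : Subgroup G) : Set G) := by
    apply mem_normalizer_of_conj_le
    intro b hb
    rw [← hQG] at hb ⊢
    have h1 : (⟨g⁻¹ * b * g, hQ2C b hb⟩ : Subgroup.centralizer ({x} : Set G)) ∈
        (R₂ : Subgroup (Subgroup.centralizer ({x} : Set G))) := hR₂ (by
      rw [Subgroup.mem_comap, mem_sylow_smul]
      have e : g⁻¹⁻¹ * (g⁻¹ * b * g) * g⁻¹ = b := by group
      show g⁻¹⁻¹ * (g⁻¹ * b * g) * g⁻¹ ∈ (QG : Subgroup G)
      rw [e]; exact hb)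
    have h2 : c * (⟨g⁻¹ * b * g, hQ2C b hb⟩ : Subgroup.centralizer ({x} : Set G)) * c⁻¹ ∈
        (R₁ : Subgroup (Subgroup.centralizer ({x} : Set G))) := by
      rw [← hc, mem_sylow_smul]
      have e : c⁻¹ * (c * (⟨g⁻¹ * b * g, hQ2C b hb⟩ : Subgroup.centralizer ({x} : Set G)) * c⁻¹) * c
          = ⟨g⁻¹ * b * g, hQ2C b hb⟩ := by group
      rw [e]; exact h1
    have h3 : (c : G) * (g⁻¹ * b * g) * (c : G)⁻¹ ∈ (QG : Subgroup G) := by
      rw [← hR₁']; exact ⟨_, h2, rfl⟩
    have e : (c : G) * g⁻¹ * b * ((c : G) * g⁻¹)⁻¹ = (c : G) * (g⁻¹ * b * g) * (c : G)⁻¹ := by group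
    rw [e]; exact h3
  rw [hnorm q hq hqd Q] at hm
  have hcx : x * (c : G) = (c : G) * x := by
    have := c.2
    rw [Subgroup.mem_centralizer_iff] at this
    exact this x rfl
  have hmy : ((c : G) * g⁻¹) * y * ((c : G) * g⁻¹)⁻¹ = x := by
    rw [← hg]
    calc (c : G) * g⁻¹ * (g * x * g⁻¹) * ((c : G) * g⁻¹)⁻¹ = ((c : G) * x) * (c : G)⁻¹ := by group
      _ = x := by rw [← hcx]; group
  obtain ⟨m, hmdef⟩ : ∃ m : G, m = (c : G) * g⁻¹ := ⟨_, rfl⟩
  rw [← hmdef] at hm hmy
  obtain ⟨u, hu, c', hc'H, hc'c, hdec⟩ := decomp H hnorm hpd P m⁻¹ (H.inv_mem hm)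
  refine ⟨u, hu, ?_⟩
  have h5 : y = m⁻¹ * (m * y * m⁻¹) * m⁻¹⁻¹ := by group
  rw [hmy, hdec] at h5
  rw [h5]
  have := hc'c x hx
  calc u * x * u⁻¹ = u * (x * c') * c'⁻¹ * u⁻¹ := by group
    _ = u * (c' * x) * c'⁻¹ * u⁻¹ := by rw [this]
    _ = u * c' * x * (u * c')⁻¹ := by group

theorem exists_normal_p_complement {p : ℕ} [hp : Fact p.Prime] (hpd : p ∣ Nat.card H) :
    ∃ N : Subgroup G, N.Normal ∧ (Nat.card N).Coprime p ∧
      N.index = p ^ (Nat.card H).factorization p := by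
  obtain ⟨P⟩ : Nonempty (Sylow p H) := inferInstance
  have hP'p : IsPGroup p ((P : Subgroup H).map H.subtype) := P.isPGroup'.map _
  have hnd := not_dvd_index_map H hnorm hpd P
  have hcard : Nat.card ((P : Subgroup H).map H.subtype) = p ^ (Nat.card H).factorization p := by
    rw [Subgroup.card_subtype]; exact P.card_eq_multiplicity
  have hHall : (Nat.card ((P : Subgroup H).map H.subtype)).Coprime
      ((P : Subgroup H).map H.subtype).index := by
    rw [hcard]
    exact Nat.Coprime.pow_left _ ((Nat.Prime.coprime_iff_not_dvd hp.out).mpr hnd)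
  obtain ⟨N, hNn, hNc⟩ := (Cfsg.Agent.S0079.result _ hP'p.isNilpotent hHall).mpr
    (fusion H hnorm hnot hpd P)
  refine ⟨N, hNn, ?_, ?_⟩
  · have : Nat.card N = ((P : Subgroup H).map H.subtype).index := hNc.index_eq_card.symm
    rw [this]
    exact ((Nat.Prime.coprime_iff_not_dvd hp.out).mpr hnd).symm
  · rw [← hcard]; exact hNc.symm.index_eq_card

theorem main : ∃ N : Subgroup G, N.Normal ∧ Subgroup.IsComplement' N H := by
  classical
  have hex : ∀ p : ℕ, ∃ N : Subgroup G, N.Normal ∧ (p ∈ (Nat.card H).primeFactors →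
      (Nat.card N).Coprime p ∧ N.index = p ^ (Nat.card H).factorization p) := by
    intro p
    by_cases hp : p ∈ (Nat.card H).primeFactors
    · haveI : Fact p.Prime := ⟨Nat.prime_of_mem_primeFactors hp⟩
      obtain ⟨N, h1, h2, h3⟩ := exists_normal_p_complement H hnorm hnot
        (Nat.dvd_of_mem_primeFactors hp)
      exact ⟨N, h1, fun _ => ⟨h2, h3⟩⟩
    · exact ⟨⊤, inferInstance, fun h => absurd h hp⟩
  choose N hNn hN using hex
  have hfin : ∀ S : Finset ℕ, (⨅ p ∈ S, N p).Normal ∧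
      ((⨅ p ∈ S, N p).index ≤ ∏ p ∈ S, (N p).index) := by
    intro S
    induction S using Finset.induction_on with
    | empty => simp
    | insert a S ha ih =>
      rw [Finset.iInf_insert, Finset.prod_insert ha]
      haveI := ih.1
      haveI := hNn a
      exact ⟨inferInstance, Subgroup.index_inf_le.trans (Nat.mul_le_mul_left _ ih.2)⟩
  obtain ⟨hMn, hMidx⟩ := hfin (Nat.card H).primeFactors
  have hprod : ∏ p ∈ (Nat.card H).primeFactors, (N p).index = Nat.card H := by
    rw [Finset.prod_congr rfl (fun p hp => (hN p hp).2)]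
    exact Nat.factorization_prod_pow_eq_self Nat.card_pos.ne'
  have hinf : (⨅ p ∈ (Nat.card H).primeFactors, N p) ⊓ H = ⊥ := by
    rw [eq_bot_iff]
    intro x hx
    obtain ⟨hxM, hxH⟩ := Subgroup.mem_inf.mp hx
    rw [Subgroup.mem_bot]
    by_contra hx1
    have ho : orderOf x ≠ 1 := fun h => hx1 (orderOf_eq_one_iff.mp h)
    obtain ⟨p, hp, hpo⟩ := Nat.exists_prime_and_dvd ho
    have hpH : p ∣ Nat.card H := hpo.trans (Subgroup.orderOf_dvd_natCard H hxH)
    have hpm : p ∈ (Nat.card H).primeFactors :=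
      Nat.mem_primeFactors.mpr ⟨hp, hpH, Nat.card_pos.ne'⟩
    have hxN : x ∈ N p := by
      have : (⨅ p ∈ (Nat.card H).primeFactors, N p) ≤ N p := iInf₂_le p hpm
      exact this hxM
    have hcop := (hN p hpm).1
    have hd : p ∣ Nat.card (N p) := hpo.trans (Subgroup.orderOf_dvd_natCard _ hxN)
    exact hp.one_lt.ne' (Nat.Coprime.eq_one_of_dvd hcop.symm hd)
  refine ⟨_, hMn, ?_⟩
  apply Subgroup.isComplement'_of_card_mul_and_disjoint _ (disjoint_iff.mpr hinf)
  have h1 := Cfsg.Agent.Lib_helper1_ProdCard.card_mul_set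
    (⨅ p ∈ (Nat.card H).primeFactors, N p) H
  rw [hinf, Subgroup.card_bot, mul_one] at h1
  have h2 : Nat.card (((⨅ p ∈ (Nat.card H).primeFactors, N p : Subgroup G) : Set G) *
      (H : Set G) : Set G) ≤ Nat.card G :=
    Nat.card_le_card_of_injective Subtype.val Subtype.val_injective
  have h3 := Subgroup.card_mul_index (⨅ p ∈ (Nat.card H).primeFactors, N p)
  have h4 : Nat.card G ≤ Nat.card (⨅ p ∈ (Nat.card H).primeFactors, N p : Subgroup G) *
      Nat.card H := by
    rw [← h3]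
    exact Nat.mul_le_mul_left _ (hMidx.trans hprod.le)
  omega

end

end Cfsg.Agent.Lib_helper1_SylNorm
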