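import Mathlib
import Cfsg.Agent.Lib_helper1_Hall
import Cfsg.Agent.Lib_helper1_Carter
import Cfsg.Agent.Lib_helper6_PCore

set_option autoImplicit false

universe u

namespace Cfsg.Agent.Lib_helper1_SylProd

open scoped Pointwise

theorem prod_mul_subset_mul_prod {G : Type*} [Group G] (N : Set G) (L : List (Set G))
    (h : ∀ A ∈ L, A * N ⊆ N * A) : L.prod * N ⊆ N * L.prod := by
  induction L with
  | nil => simp
  | cons A L ih =>
    rw [List.prod_cons]
    have h1 : L.prod * N ⊆ N * L.prod := ih (fun B hB => h B (List.mem_cons_of_mem _ hB))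
    calc A * L.prod * N = A * (L.prod * N) := mul_assoc _ _ _
      _ ⊆ A * (N * L.prod) := Set.mul_subset_mul_left h1
      _ = (A * N) * L.prod := (mul_assoc _ _ _).symm
      _ ⊆ (N * A) * L.prod := Set.mul_subset_mul_right (h A List.mem_cons_self)
      _ = N * (A * L.prod) := mul_assoc _ _ _

theorem prod_mul_subset_prod {G : Type*} [Group G] (N : Set G) (L : List (Set G))
    (h : ∀ A ∈ L, A * N ⊆ N * A) (h' : ∃ A ∈ L, A * N ⊆ A) : L.prod * N ⊆ L.prod := by
  induction L with
  | nil =>
    obtain ⟨A, hA, -⟩ := h'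
    simp at hA
  | cons A L ih =>
    rw [List.prod_cons]
    obtain ⟨B, hB, hBN⟩ := h'
    have hL : ∀ C ∈ L, C * N ⊆ N * C := fun C hC => h C (List.mem_cons_of_mem _ hC)
    rcases List.mem_cons.mp hB with hBA | hBL
    · subst hBA
      calc B * L.prod * N = B * (L.prod * N) := mul_assoc _ _ _
        _ ⊆ B * (N * L.prod) := Set.mul_subset_mul_left (prod_mul_subset_mul_prod N L hL)
        _ = (B * N) * L.prod := (mul_assoc _ _ _).symm
        _ ⊆ B * L.prod := Set.mul_subset_mul_right hBN
    · calc A * L.prod * N = A * (L.prod * N) := mul_assoc _ _ _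
        _ ⊆ A * L.prod := Set.mul_subset_mul_left (ih hL ⟨B, hBL, hBN⟩)

theorem sylow_prod (n : ℕ) : ∀ (G : Type u) [Group G] [Finite G] [Group.IsSolvable G],
    Nat.card G = n → ∀ (t : ℕ) (p : Fin t → ℕ), (∀ i, (p i).Prime) →
    (∀ q : ℕ, q.Prime → q ∣ Nat.card G → ∃ i, p i = q) →
    ∀ (S : (i : Fin t) → Sylow (p i) G),
      (List.ofFn (fun i => ((S i : Subgroup G) : Set G))).prod = Set.univ := by
  induction n using Nat.strong_induction_on with
  | _ n ih =>
    intro G _ _ _ hn t p hp hall S
    rw [Set.eq_univ_iff_forall]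
    intro g
    by_cases hsub : Subsingleton G
    · rw [Set.mem_prod_list_ofFn]
      refine ⟨fun i => ⟨1, (S i : Subgroup G).one_mem⟩, ?_⟩
      exact Subsingleton.elim _ _
    · rw [not_subsingleton_iff_nontrivial] at hsub
      obtain ⟨N, hNn, hN1, hNab, hNmin, q, k, hq, hk, hNcard⟩ :=
        Cfsg.Agent.Lib_helper1_Hall.exists_minimal_normal (G := G)
      haveI := hNn
      have hqG : q ∣ Nat.card G := by
        have h1 : q ∣ Nat.card N := by rw [hNcard]; exact dvd_pow_self q hk
        exact h1.trans (Subgroup.card_subgroup_dvd_card N)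
      obtain ⟨j, hj⟩ := hall q hq hqG
      haveI hfact : ∀ i, Fact (p i).Prime := fun i => ⟨hp i⟩
      have hNp : IsPGroup (p j) N := by
        rw [hj]
        haveI : Fact q.Prime := ⟨hq⟩
        exact IsPGroup.of_card hNcard
      have hNS : N ≤ (S j : Subgroup G) :=
        (Cfsg.Agent.Lib_helper6_PCore.le_pCore hNn hNp).trans
          (Cfsg.Agent.Lib_helper6_PCore.pCore_le_sylow (S j))
      have hsurj : Function.Surjective (QuotientGroup.mk' N) := QuotientGroup.mk'_surjective N
      have hlt : Nat.card (G ⧸ N) < n := by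
        rw [← hn]; exact Cfsg.Agent.Lib_helper1_Carter.card_quot_lt N hN1
      have hallQ : ∀ q' : ℕ, q'.Prime → q' ∣ Nat.card (G ⧸ N) → ∃ i, p i = q' := by
        intro q' hq' hd
        exact hall q' hq' (hd.trans (Subgroup.card_quotient_dvd_card N))
      have hIH := ih _ hlt (G ⧸ N) rfl t p hp hallQ (fun i => (S i).mapSurjective hsurj)
      have hg : QuotientGroup.mk' N g ∈
          (List.ofFn (fun i => ((((S i).mapSurjective hsurj : Sylow (p i) (G ⧸ N)) :
            Subgroup (G ⧸ N)) : Set (G ⧸ N)))).prod := by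
        rw [hIH]; trivial
      rw [Set.mem_prod_list_ofFn] at hg
      obtain ⟨f, hf⟩ := hg
      have hlift : ∀ i, ∃ s ∈ (S i : Subgroup G), QuotientGroup.mk' N s = (f i : G ⧸ N) := by
        intro i
        have := (f i).2
        exact this
      choose s hs hs' using hlift
      have hmem : (List.ofFn s).prod ∈ (List.ofFn (fun i => ((S i : Subgroup G) : Set G))).prod := by
        rw [Set.mem_prod_list_ofFn]
        exact ⟨fun i => ⟨s i, hs i⟩, rfl⟩
      have hker : ((List.ofFn s).prod)⁻¹ * g ∈ N := by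
        apply QuotientGroup.eq.mp
        show QuotientGroup.mk' N (List.ofFn s).prod = QuotientGroup.mk' N g
        rw [map_list_prod, List.map_ofFn, ← hf]
        congr 2
        funext i
        exact hs' i
      have hgmem : g ∈ (List.ofFn (fun i => ((S i : Subgroup G) : Set G))).prod * (N : Set G) := by
        refine ⟨(List.ofFn s).prod, hmem, ((List.ofFn s).prod)⁻¹ * g, hker, by group⟩
      apply prod_mul_subset_prod (N : Set G) _ _ _ hgmem
      · intro A hA
        rw [List.mem_ofFn] at hA
        obtain ⟨i, rfl⟩ := hA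
        rintro _ ⟨a, ha, m, hm, rfl⟩
        refine ⟨a * m * a⁻¹, hNn.conj_mem m hm a, a, ha, by group⟩
      · refine ⟨((S j : Subgroup G) : Set G), ?_, ?_⟩
        · rw [List.mem_ofFn]
          exact ⟨j, rfl⟩
        · rintro _ ⟨a, ha, m, hm, rfl⟩
          exact (S j : Subgroup G).mul_mem ha (hNS hm)

end Cfsg.Agent.Lib_helper1_SylProd
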