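import Cfsg.Agent.Lib_helper1_HallConverse

set_option autoImplicit false
set_option linter.style.haveILetI false

namespace Cfsg.Agent.Lib_helper1_SylowSystem2

open scoped Pointwise
open Cfsg.Agent.Lib_helper1_Basic Cfsg.Agent.Lib_helper1_SZ Cfsg.Agent.Lib_helper1_Hall
  Cfsg.Agent.Lib_helper1_SZConj Cfsg.Agent.Lib_helper1_SylowSystem
  Cfsg.Agent.Lib_helper1_HallConverse

universe u

/-- The product of two permuting subgroups, as a subgroup. -/
def mulSubgroup {G : Type*} [Group G] (H K : Subgroup G)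
    (h : (H : Set G) * (K : Set G) = (K : Set G) * (H : Set G)) : Subgroup G where
  carrier := (H : Set G) * (K : Set G)
  one_mem' := ⟨1, H.one_mem, 1, K.one_mem, mul_one 1⟩
  mul_mem' := by
    rintro _ _ ⟨a, ha, b, hb, rfl⟩ ⟨c, hc, d, hd, rfl⟩
    have : b * c ∈ (H : Set G) * (K : Set G) := by rw [h]; exact ⟨b, hb, c, hc, rfl⟩
    obtain ⟨c', hc', b', hb', e'⟩ := this
    have e : c' * b' = b * c := e'
    refine ⟨a * c', H.mul_mem ha hc', b' * d, K.mul_mem hb' hd, ?_⟩
    calc a * c' * (b' * d) = a * (c' * b') * d := by group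
      _ = a * (b * c) * d := by rw [e]
      _ = a * b * (c * d) := by group
  inv_mem' := by
    rintro _ ⟨a, ha, b, hb, rfl⟩
    have : b⁻¹ * a⁻¹ ∈ (H : Set G) * (K : Set G) := by
      rw [h]; exact ⟨b⁻¹, K.inv_mem hb, a⁻¹, H.inv_mem ha, rfl⟩
    rwa [mul_inv_rev]

theorem coe_mulSubgroup {G : Type*} [Group G] (H K : Subgroup G)
    (h : (H : Set G) * (K : Set G) = (K : Set G) * (H : Set G)) :
    ((mulSubgroup H K h : Subgroup G) : Set G) = (H : Set G) * (K : Set G) := rfl

theorem card_mulSubgroup {G : Type*} [Group G] [Finite G] (H K : Subgroup G)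
    (h : (H : Set G) * (K : Set G) = (K : Set G) * (H : Set G))
    (hcop : (Nat.card H).Coprime (Nat.card K)) :
    Nat.card (mulSubgroup H K h) = Nat.card H * Nat.card K := by
  have hH : H ≤ mulSubgroup H K h := fun x hx => ⟨x, hx, 1, K.one_mem, mul_one x⟩
  have hK : K ≤ mulSubgroup H K h := fun x hx => ⟨1, H.one_mem, x, hx, one_mul x⟩
  have hc : Subgroup.IsComplement' (H.subgroupOf (mulSubgroup H K h))
      (K.subgroupOf (mulSubgroup H K h)) := by
    apply Subgroup.isComplement'_of_disjoint_and_mul_eq_univ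
    · apply Subgroup.disjoint_of_coprime_natCard
      rw [card_subgroupOf_of_le hH, card_subgroupOf_of_le hK]; exact hcop
    · rw [Set.eq_univ_iff_forall]
      intro x
      obtain ⟨a, ha, b, hb, hab⟩ := x.2
      exact ⟨⟨a, hH ha⟩, ha, ⟨b, hK hb⟩, hb, Subtype.ext hab⟩
  have := hc.card_mul_card
  rw [card_subgroupOf_of_le hH, card_subgroupOf_of_le hK] at this
  exact this.symm

theorem exists_prod_subgroup {G : Type*} [Group G] [Finite G] (S' : ℕ → Subgroup G)
    (hperm : ∀ r r', (S' r : Set G) * (S' r' : Set G) = (S' r' : Set G) * (S' r : Set G))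
    (v : ℕ → ℕ) (hcard : ∀ r, r.Prime → Nat.card (S' r) = r ^ v r) (s : Finset ℕ)
    (hs : ∀ r ∈ s, r.Prime) :
    ∃ X : Subgroup G, (∀ r, (S' r : Set G) * (X : Set G) = (X : Set G) * (S' r : Set G)) ∧
      Nat.card X = ∏ q ∈ s, q ^ v q := by
  classical
  induction s using Finset.induction_on with
  | empty =>
    refine ⟨⊥, fun r => ?_, by simp⟩
    rw [Subgroup.coe_bot]
    simp
  | insert a s ha ih =>
    obtain ⟨X, hX1, hX2⟩ := ih (fun r hr => hs r (Finset.mem_insert_of_mem hr))
    have hcop : (Nat.card (S' a)).Coprime (Nat.card X) := by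
      rw [hcard a (hs a (Finset.mem_insert_self a s)), hX2]
      apply Nat.Coprime.prod_right
      intro r hr
      apply Nat.Coprime.pow
      exact (Nat.coprime_primes (hs a (Finset.mem_insert_self a s))
        (hs r (Finset.mem_insert_of_mem hr))).mpr (fun h => ha (h ▸ hr))
    refine ⟨mulSubgroup (S' a) X (hX1 a), fun r => ?_, ?_⟩
    · rw [coe_mulSubgroup, ← mul_assoc, hperm r a, mul_assoc, hX1 r, ← mul_assoc]
    · rw [card_mulSubgroup _ _ _ hcop, hcard a (hs a (Finset.mem_insert_self a s)), hX2,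
        Finset.prod_insert ha]

theorem prime_pow_mul_prod_erase (n : ℕ) (hn : n ≠ 0) (p : ℕ) (hp : p.Prime) :
    p ^ n.factorization p * ∏ r ∈ n.primeFactors.erase p, r ^ n.factorization r = n := by
  classical
  have hprod : ∏ r ∈ n.primeFactors, r ^ n.factorization r = n := by
    have := Nat.prod_factorization_pow_eq_self hn
    rwa [Finsupp.prod, Nat.support_factorization] at this
  by_cases hmem : p ∈ n.primeFactors
  · rw [Finset.mul_prod_erase n.primeFactors (fun r => r ^ n.factorization r) hmem, hprod]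
  · have h0 : n.factorization p = 0 := by
      apply Nat.factorization_eq_zero_of_not_dvd
      intro hd
      exact hmem (Nat.mem_primeFactors.mpr ⟨hp, hd, hn⟩)
    rw [Finset.erase_eq_of_notMem hmem, h0, pow_zero, one_mul, hprod]

/-- A finite group with a Sylow system is solvable. -/
theorem solvable_of_sylow_system {G : Type u} [Group G] [Finite G]
    (S : (p : Nat.Primes) → Sylow (p : ℕ) G)
    (hS : ∀ p q : Nat.Primes, (S p : Set G) * (S q : Set G) = (S q : Set G) * (S p : Set G)) :
    Group.IsSolvable G := by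
  classical
  apply hall_converse
  have hex : ∃ S' : ℕ → Subgroup G, (∀ r (h : r.Prime), S' r = (S ⟨r, h⟩ : Subgroup G)) ∧
      (∀ r, ¬ r.Prime → S' r = ⊥) :=
    ⟨fun r => if h : r.Prime then (S ⟨r, h⟩ : Subgroup G) else ⊥,
      fun r h => dif_pos h, fun r h => dif_neg h⟩
  obtain ⟨S', hS'prime, hS'np⟩ := hex
  have hperm : ∀ r r', (S' r : Set G) * (S' r' : Set G) = (S' r' : Set G) * (S' r : Set G) := by
    intro r r'
    by_cases h : r.Prime
    · by_cases h' : r'.Prime
      · rw [hS'prime r h, hS'prime r' h']; exact hS ⟨r, h⟩ ⟨r', h'⟩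
      · rw [hS'np r' h', Subgroup.coe_bot]; simp
    · rw [hS'np r h, Subgroup.coe_bot]; simp
  have hcardS : ∀ r, r.Prime → Nat.card (S' r) = r ^ (Nat.card G).factorization r := by
    intro r h
    rw [hS'prime r h]
    haveI : Fact r.Prime := ⟨h⟩
    exact (S ⟨r, h⟩).card_eq_multiplicity
  intro p hp
  obtain ⟨X, -, hX⟩ := exists_prod_subgroup S' hperm (fun r => (Nat.card G).factorization r)
    hcardS ((Nat.card G).primeFactors.erase p)
    (fun r hr => Nat.prime_of_mem_primeFactors (Finset.mem_of_mem_erase hr))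
  refine ⟨X, ?_⟩
  have h1 := Subgroup.card_mul_index X
  have h2 := prime_pow_mul_prod_erase (Nat.card G) Nat.card_pos.ne' p hp
  rw [hX] at h1
  have hpos : 0 < ∏ r ∈ (Nat.card G).primeFactors.erase p, r ^ (Nat.card G).factorization r :=
    Finset.prod_pos (fun r hr =>
      pow_pos (Nat.prime_of_mem_primeFactors (Finset.mem_of_mem_erase hr)).pos _)
  exact Nat.eq_of_mul_eq_mul_left hpos (h1.trans (h2.symm.trans (mul_comm _ _)))

end Cfsg.Agent.Lib_helper1_SylowSystem2
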