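import Mathlib
import Cfsg.Prelude.Def_PLocal
import Cfsg.Prelude.Def_Local
import Cfsg.Agent.Lib_helper1_SNC3
import Cfsg.Agent.Lib_helper2_PCons
import Cfsg.Agent.Lib_helper2_PComp

set_option autoImplicit false
set_option maxHeartbeats 800000

/-! Thompson factorizability: basic equivalences. -/

namespace Cfsg.Agent.H1TF

open Cfsg Cfsg.Agent.Lib_helper1_Frobenius Cfsg.Agent.H1GT
open scoped commutatorElement Pointwise

theorem omega_le_centralizer {G : Type*} [Group G] (p : ℕ) (S : Subgroup G) :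
    Cfsg.omegaOne p (S ⊓ Subgroup.centralizer (S : Set G)) ≤ Subgroup.centralizer (S : Set G) := by
  unfold Cfsg.omegaOne
  rw [Subgroup.closure_le]
  rintro y ⟨hy, -⟩
  exact (Subgroup.mem_inf.mp hy).2

theorem maxEl_le_sylow {G : Type*} [Group G] [Finite G] {p : ℕ} [Fact p.Prime] (A : Subgroup G)
    (hA : A ∈ Cfsg.maxElementaryAbelianSubgroups p G) :
    ∃ T : Sylow p G, H1JE.MaxElIn p (T : Subgroup G) A := by
  have hAp : IsPGroup p A := by
    rintro ⟨a, ha⟩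
    exact ⟨1, Subtype.ext (by simpa using hA.1.2 a ha)⟩
  obtain ⟨T, hT⟩ := hAp.exists_le_sylow
  exact ⟨T, hT, H1ZJ.comm_elem A hA.1.1, hA.1.2,
    fun B _ hBc hBp => hA.2 B ⟨H1ZJ.comm_of_elem B hBc, hBp⟩⟩

theorem maxElIn_sylow_mem {G : Type*} [Group G] [Finite G] {p : ℕ} [Fact p.Prime]
    (S : Sylow p G) (A : Subgroup G) (hA : H1JE.MaxElIn p (S : Subgroup G) A) :
    A ∈ Cfsg.maxElementaryAbelianSubgroups p G := by
  refine ⟨⟨H1ZJ.comm_of_elem A hA.2.1, hA.2.2.1⟩, ?_⟩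
  intro B hB
  have hBp : IsPGroup p B := by
    rintro ⟨b, hb⟩
    exact ⟨1, Subtype.ext (by simpa using hB.2 b hb)⟩
  obtain ⟨w, -, hw⟩ := Lib_helper7_SE2.exists_conj_le_of_le S ⊤ le_top B hBp le_top
  have h1 := hA.2.2.2 (B.map (MulAut.conj w).toMonoidHom) (by
      rintro _ ⟨b, hb, rfl⟩
      exact hw b hb) (by
      rintro _ ⟨x, hx, rfl⟩ _ ⟨y, hy, rfl⟩
      rw [← map_mul, ← map_mul, H1ZJ.comm_elem B hB.1 x hx y hy]) (by
      rintro _ ⟨x, hx, rfl⟩
      rw [← map_pow, hB.2 x hx, map_one])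
  rw [Subgroup.card_map_of_injective (MulAut.conj w).injective] at h1
  exact h1

theorem omegaZ_conj {G : Type*} [Group G] {p : ℕ} (S : Sylow p G) (g z : G)
    (hz : z ∈ (S : Subgroup G) ⊓ Subgroup.centralizer ((S : Subgroup G) : Set G)) :
    g * z * g⁻¹ ∈ ((g • S : Sylow p G) : Subgroup G) ⊓
      Subgroup.centralizer (((g • S : Sylow p G) : Subgroup G) : Set G) := by
  obtain ⟨hz1, hz2⟩ := Subgroup.mem_inf.mp hz
  refine Subgroup.mem_inf.mpr ⟨?_, ?_⟩
  · rw [mem_smul_sylow]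
    have : g⁻¹ * (g * z * g⁻¹) * g = z := by group
    rw [this]; exact hz1
  · rw [Subgroup.mem_centralizer_iff]
    intro y hy
    rw [SetLike.mem_coe, mem_smul_sylow] at hy
    have h1 := Subgroup.mem_centralizer_iff.mp hz2 _ hy
    calc y * (g * z * g⁻¹) = g * ((g⁻¹ * y * g) * z) * g⁻¹ := by group
      _ = g * (z * (g⁻¹ * y * g)) * g⁻¹ := by rw [h1]
      _ = g * z * g⁻¹ * y := by group

/-- The join of all `Ω₁(Z(S))`, `S` Sylow. -/
def VV (p : ℕ) (G : Type*) [Group G] : Subgroup G :=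
  ⨆ S : Sylow p G, Cfsg.omegaOne p
    ((S : Subgroup G) ⊓ Subgroup.centralizer ((S : Subgroup G) : Set G))

theorem VV_conj {G : Type*} [Group G] (p : ℕ) (g : G) :
    (VV p G).map (MulAut.conj g).toMonoidHom ≤ VV p G := by
  rw [Subgroup.map_le_iff_le_comap]
  refine iSup_le (fun S => ?_)
  unfold Cfsg.omegaOne
  rw [Subgroup.closure_le]
  rintro z ⟨hz, hzp⟩
  rw [SetLike.mem_coe, Subgroup.mem_comap]
  have h1 : (MulAut.conj g).toMonoidHom z ∈ Cfsg.omegaOne p
      (((g • S : Sylow p G) : Subgroup G) ⊓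
        Subgroup.centralizer (((g • S : Sylow p G) : Subgroup G) : Set G)) := by
    apply Subgroup.subset_closure
    refine ⟨omegaZ_conj S g z hz, ?_⟩
    show (g * z * g⁻¹) ^ p = 1
    rw [conj_pow, hzp]; simp
  exact (le_iSup (fun S : Sylow p G => Cfsg.omegaOne p
    ((S : Subgroup G) ⊓ Subgroup.centralizer ((S : Subgroup G) : Set G))) (g • S)) h1

theorem VV_normal (p : ℕ) (G : Type*) [Group G] : (VV p G).Normal :=
  ⟨fun v hv g => VV_conj p g ⟨v, hv, rfl⟩⟩

theorem tf_imp {G : Type*} [Group G] [Finite G] {p : ℕ} [Fact p.Prime]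
    (hO : Cfsg.pPrimeCore p G = ⊥) (h : Cfsg.IsThompsonFactorizable p G) :
    Cfsg.thompsonSubgroup p G ≤ Subgroup.centralizer (VV p G : Set G) := by
  show sSup (Cfsg.maxElementaryAbelianSubgroups p G) ≤ _
  apply sSup_le
  intro A hA
  obtain ⟨T, hT⟩ := maxEl_le_sylow A hA
  have hAJ : A ≤ Cfsg.thompsonSubgroupOf p (T : Subgroup G) := by
    rw [H1JE.tsOf_eq]; exact le_sSup (α := Subgroup G) hT
  intro a ha
  have hV : VV p G ≤ Subgroup.centralizer ({a} : Set G) := by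
    refine iSup_le (fun S => ?_)
    unfold Cfsg.omegaOne
    rw [Subgroup.closure_le]
    rintro z ⟨hz, hzp⟩
    rw [SetLike.mem_coe, Subgroup.mem_centralizer_iff]
    intro a' ha'
    rw [Set.mem_singleton_iff] at ha'
    rw [ha']
    obtain ⟨g, hg⟩ := MulAction.exists_smul_eq G S T
    obtain ⟨x, hx, c, hc, n, hn, hgcn⟩ := h T g
    rw [hO, Subgroup.mem_bot] at hx
    rw [hx, one_mul] at hgcn
    have hz' := omegaZ_conj S g z hz
    rw [hg] at hz'
    have hz'Ω : g * z * g⁻¹ ∈ Cfsg.omegaOne p ((T : Subgroup G) ⊓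
        Subgroup.centralizer ((T : Subgroup G) : Set G)) := by
      apply Subgroup.subset_closure
      refine ⟨hz', ?_⟩
      show (g * z * g⁻¹) ^ p = 1
      rw [conj_pow, hzp]; simp
    have hcz := Subgroup.mem_centralizer_iff.mp hc _ hz'Ω
    obtain ⟨z', hz'e⟩ : ∃ z', z' = g * z * g⁻¹ := ⟨_, rfl⟩
    rw [← hz'e] at hcz hz'
    have hzn : z = n⁻¹ * z' * n := by
      have e : c⁻¹ * z' * c = z' := by
        rw [mul_assoc, hcz]; group
      calc z = n⁻¹ * (c⁻¹ * z' * c) * n := by rw [hz'e, hgcn]; group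
        _ = n⁻¹ * z' * n := by rw [e]
    have hna : n * a * n⁻¹ ∈ Cfsg.thompsonSubgroupOf p (T : Subgroup G) :=
      (Subgroup.mem_normalizer_iff.mp hn a).mp (hAJ ha)
    have hnaT : n * a * n⁻¹ ∈ (T : Subgroup G) := H1JE.tsOf_le p _ hna
    have hcomm := Subgroup.mem_centralizer_iff.mp (Subgroup.mem_inf.mp hz').2 _ hnaT
    rw [hzn]
    calc a * (n⁻¹ * z' * n) = n⁻¹ * ((n * a * n⁻¹) * z') * n := by group
      _ = n⁻¹ * (z' * (n * a * n⁻¹)) * n := by rw [hcomm]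
      _ = n⁻¹ * z' * n * a := by group
  rw [Subgroup.mem_centralizer_iff]
  intro v hv
  exact (Subgroup.mem_centralizer_iff.mp (hV hv) a (Set.mem_singleton a)).symm

theorem tf_of_le {G : Type*} [Group G] [Finite G] {p : ℕ} [Fact p.Prime]
    (h : Cfsg.thompsonSubgroup p G ≤ Subgroup.centralizer (VV p G : Set G)) :
    Cfsg.IsThompsonFactorizable p G := by
  intro S g
  haveI := VV_normal p G
  obtain ⟨C, hC⟩ : ∃ C, C = Subgroup.centralizer (VV p G : Set G) := ⟨_, rfl⟩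
  haveI hCn : C.Normal := hC ▸ inferInstance
  have hall : ∀ A, H1JE.MaxElIn p (S : Subgroup G) A → A ≤ (S : Subgroup G) ⊓ C := by
    intro A hA
    refine le_inf hA.1 ?_
    rw [hC]
    exact (le_sSup (α := Subgroup G) (maxElIn_sylow_mem S A hA)).trans h
  have hJeq := H1JE.tsOf_eq_of_le p (S : Subgroup G) ((S : Subgroup G) ⊓ C) inf_le_left hall
  have hfr := H1SNC3.frattini_inf' S C
  have hg : g ∈ ((C ⊔ Subgroup.normalizer (((S : Subgroup G) ⊓ C : Subgroup G) : Set G) :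
      Subgroup G) : Set G) := by
    rw [sup_comm, hfr]; trivial
  rw [Subgroup.normal_mul] at hg
  obtain ⟨c, hc, n, hn, rfl⟩ := Set.mem_mul.mp hg
  refine ⟨1, Subgroup.one_mem _, c, ?_, n, ?_, by rw [one_mul]⟩
  · have hc' : c ∈ Subgroup.centralizer (VV p G : Set G) := by rw [← hC]; exact hc
    rw [Subgroup.mem_centralizer_iff] at hc' ⊢
    intro z hz
    exact hc' z ((le_iSup (fun S : Sylow p G => Cfsg.omegaOne p
      ((S : Subgroup G) ⊓ Subgroup.centralizer ((S : Subgroup G) : Set G))) S) hz)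
  · rw [hJeq]; exact H1JE.tsOf_normalizer p _ hn

end Cfsg.Agent.H1TF
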