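import Mathlib
import Cfsg.Prelude.Def_PLocal
import Cfsg.Prelude.Def_Local
import Cfsg.Agent.Lib_helper1_TF
import Cfsg.Agent.Lib_helper1_GT0
import Cfsg.Agent.Lib_helper7_PPrime

/-!
# Thompson factorizability and the quotient by `O_{p'}(G)`
-/

namespace Cfsg.Agent.H1TF

theorem omegaOne_map {G G' : Type*} [Group G] [Group G'] (p : ℕ) (f : G →* G') (X : Subgroup G)
    (hinj : ∀ x ∈ X, f x = 1 → x = 1) :
    (Cfsg.omegaOne p X).map f = Cfsg.omegaOne p (X.map f) := by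
  unfold Cfsg.omegaOne
  rw [MonoidHom.map_closure]
  congr 1
  ext y
  constructor
  · rintro ⟨x, ⟨hx, hxp⟩, rfl⟩
    exact ⟨Subgroup.mem_map_of_mem f hx, by rw [← map_pow, hxp, map_one]⟩
  · rintro ⟨⟨x, hx, rfl⟩, hxp⟩
    exact ⟨x, ⟨hx, hinj _ (X.pow_mem hx p) (by rw [map_pow]; exact hxp)⟩, rfl⟩

theorem omegaOne_le {G : Type*} [Group G] (p : ℕ) (X : Subgroup G) : Cfsg.omegaOne p X ≤ X := by
  unfold Cfsg.omegaOne
  rw [Subgroup.closure_le]
  intro x hx
  exact hx.1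

theorem tf_quot {G : Type*} [Group G] [Finite G] {p : ℕ} [Fact p.Prime] :
    Cfsg.IsThompsonFactorizable p G ↔
      Cfsg.IsThompsonFactorizable p (G ⧸ Cfsg.pPrimeCore p G) := by
  have hOc := Cfsg.Agent.Lib_helper7_PPrime.card_pPrimeCore_coprime (G := G) p
  have hbot := Cfsg.Agent.Lib_helper2_PComp.pPrimeCore_quotient_bot (X := G) p
  have hsurj := QuotientGroup.mk'_surjective (Cfsg.pPrimeCore p G)
  have hinj : ∀ S : Sylow p G, ∀ x ∈ (S : Subgroup G),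
      (QuotientGroup.mk' (Cfsg.pPrimeCore p G)) x = 1 → x = 1 := by
    intro S x hx h1
    have hxO : x ∈ Cfsg.pPrimeCore p G := (QuotientGroup.eq_one_iff x).mp h1
    refine H1GT.eq_one_of_pow_eq_one_of_pgroup (S : Subgroup G) S.isPGroup' x hx _ hOc ?_
    have h2 : (⟨x, hxO⟩ : ↥(Cfsg.pPrimeCore p G)) ^ Nat.card ↥(Cfsg.pPrimeCore p G) = 1 :=
      pow_card_eq_one'
    exact congrArg Subtype.val h2
  have hZ : ∀ S : Sylow p G, (Cfsg.omegaOne p ((S : Subgroup G) ⊓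
      Subgroup.centralizer ((S : Subgroup G) : Set G))).map
        (QuotientGroup.mk' (Cfsg.pPrimeCore p G)) =
      Cfsg.omegaOne p ((S : Subgroup G).map (QuotientGroup.mk' (Cfsg.pPrimeCore p G)) ⊓
        Subgroup.centralizer (((S : Subgroup G).map (QuotientGroup.mk' (Cfsg.pPrimeCore p G)) :
          Subgroup (G ⧸ Cfsg.pPrimeCore p G)) : Set (G ⧸ Cfsg.pPrimeCore p G))) := by
    intro S
    rw [omegaOne_map p _ _ (fun x hx => hinj S x (Subgroup.mem_inf.mp hx).1),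
      H1JE.zOf_map _ (S : Subgroup G) (hinj S)]
  have hJ : ∀ S : Sylow p G, (Cfsg.thompsonSubgroupOf p (S : Subgroup G)).map
        (QuotientGroup.mk' (Cfsg.pPrimeCore p G)) =
      Cfsg.thompsonSubgroupOf p ((S : Subgroup G).map
        (QuotientGroup.mk' (Cfsg.pPrimeCore p G))) :=
    fun S => H1JE.tsOf_map p _ (S : Subgroup G) (hinj S)
  constructor
  · intro h S' gbar
    obtain ⟨S, rfl⟩ := Sylow.mapSurjective_surjective hsurj p S'
    obtain ⟨g, rfl⟩ := hsurj gbar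
    obtain ⟨x, hx, c, hc, n, hn, rfl⟩ := h S g
    refine ⟨1, Subgroup.one_mem _, (QuotientGroup.mk' (Cfsg.pPrimeCore p G)) c, ?_,
      (QuotientGroup.mk' (Cfsg.pPrimeCore p G)) n, ?_, ?_⟩
    · rw [Sylow.coe_mapSurjective, ← hZ S]
      rw [Subgroup.mem_centralizer_iff]
      rintro _ ⟨w, hw, rfl⟩
      rw [← map_mul, ← map_mul, Subgroup.mem_centralizer_iff.mp hc w hw]
    · rw [Sylow.coe_mapSurjective, ← hJ S]
      exact Subgroup.le_normalizer_map _ (Subgroup.mem_map_of_mem _ hn)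
    · have hx1 : (QuotientGroup.mk' (Cfsg.pPrimeCore p G)) x = 1 :=
        (QuotientGroup.eq_one_iff x).mpr hx
      rw [one_mul, map_mul, map_mul, hx1, one_mul]
  · intro h S g
    obtain ⟨xb, hxb, cb, hcb, nb, hnb, hg⟩ := h (S.mapSurjective hsurj)
      ((QuotientGroup.mk' (Cfsg.pPrimeCore p G)) g)
    rw [hbot, Subgroup.mem_bot] at hxb
    rw [Sylow.coe_mapSurjective, ← hZ S] at hcb
    rw [Sylow.coe_mapSurjective, ← hJ S] at hnb
    obtain ⟨c₀, rfl⟩ := hsurj cb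
    obtain ⟨w, hw, hwc⟩ := Cfsg.Agent.Lib_helper2_PCons.exists_mul_mem_centralizer p
      (Cfsg.pPrimeCore p G) hOc
      (Cfsg.omegaOne p ((S : Subgroup G) ⊓ Subgroup.centralizer ((S : Subgroup G) : Set G)))
      (S.isPGroup'.to_le ((omegaOne_le p _).trans inf_le_left)) c₀ hcb
    obtain ⟨n, hn, rfl⟩ := H1GT.normalizer_map_le S (Cfsg.pPrimeCore p G) hOc
      (Cfsg.thompsonSubgroupOf p (S : Subgroup G)) (H1JE.tsOf_le p _) hnb
    refine ⟨g * (w * c₀ * n)⁻¹, ?_, w * c₀, hwc, n, hn, by group⟩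
    have hw1 : (QuotientGroup.mk' (Cfsg.pPrimeCore p G)) w = 1 :=
      (QuotientGroup.eq_one_iff w).mpr hw
    have h1 : (QuotientGroup.mk' (Cfsg.pPrimeCore p G)) (g * (w * c₀ * n)⁻¹) = 1 := by
      rw [map_mul, map_inv, map_mul, map_mul, hg, hxb, hw1, mul_inv_cancel]
    exact (QuotientGroup.eq_one_iff _).mp h1

end Cfsg.Agent.H1TF
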