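import Mathlib
import Cfsg.Prelude.Def_Transfer
import Cfsg.Agent.Lib_helper9_FusionFocal
import Cfsg.Agent.Lib_helper9_PGroup
import Cfsg.Agent.Lib_helper7_Sylow
import Cfsg.Agent.Lib_helper1_Frobenius

/-!
# Tate's normal `p`-complement theorem

If `N ⊴ G` and `N ∩ P ≤ Φ(P)` for a Sylow `p`-subgroup `P`, then `N` has a normal `p`-complement.
The proof transfers in a fibre product `G ×_{G/M} P/[M ∩ P, P]` (a central extension that
splits over a Sylow subgroup).
-/

namespace Cfsg.Agent.H1Tate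

open scoped commutatorElement
open scoped IsMulCommutative

theorem transfer_mem_range {G A : Type*} [Group G] [CommGroup A] {H : Subgroup G}
    [H.FiniteIndex] (ϕ : H →* A) (g : G) : MonoidHom.transfer ϕ g ∈ ϕ.range := by
  classical
  rw [MonoidHom.transfer_def ϕ default g]
  unfold Subgroup.leftTransversals.diff
  exact Subgroup.prod_mem _ (fun q _ => ⟨_, rfl⟩)

theorem not_le_commutator_top {K : Type*} [Group K] [Group.IsNilpotent K] (H : Subgroup K)
    (hH : H ≠ ⊥) : ¬ H ≤ ⁅H, (⊤ : Subgroup K)⁆ := by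
  intro h
  apply hH
  have key : ∀ n, H ≤ Subgroup.lowerCentralSeries (⊤ : Subgroup K) n := by
    intro n
    induction n with
    | zero => rw [Subgroup.lowerCentralSeries_zero]; exact le_top
    | succ n ih =>
      rw [Subgroup.lowerCentralSeries_succ]
      exact h.trans (Subgroup.commutator_mono ih le_rfl)
  have h1 := key (Group.nilpotencyClass K)
  rw [Subgroup.lowerCentralSeries_nilpotencyClass] at h1
  exact le_bot_iff.mp h1

variable {G : Type*} [Group G]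

/-- the quotient `P / [M ∩ P, P]` -/
abbrev TQ (P M : Subgroup G) [M.Normal] : Type _ :=
  ↥P ⧸ ⁅M.subgroupOf P, (⊤ : Subgroup ↥P)⁆

/-- the fibre product of `MP` and `P / [M ∩ P, P]` over `P / (M ∩ P)` -/
def fib (P M : Subgroup G) [hM : M.Normal] : Subgroup (G × TQ P M) where
  carrier := {a | ∃ y : ↥P, a.2 = QuotientGroup.mk' ⁅M.subgroupOf P, (⊤ : Subgroup ↥P)⁆ y ∧
    a.1 * (y : G)⁻¹ ∈ M}
  one_mem' := ⟨1, by simp, by simp⟩
  mul_mem' := by
    rintro a b ⟨y, hy1, hy2⟩ ⟨z, hz1, hz2⟩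
    refine ⟨y * z, by rw [Prod.snd_mul, hy1, hz1, map_mul], ?_⟩
    have h1 : (a * b).1 * ((y * z : ↥P) : G)⁻¹ =
        a.1 * (y : G)⁻¹ * ((y : G) * (b.1 * (z : G)⁻¹) * (y : G)⁻¹) := by
      rw [Prod.fst_mul, Subgroup.coe_mul]; group
    rw [h1]
    exact M.mul_mem hy2 (hM.conj_mem _ hz2 _)
  inv_mem' := by
    rintro a ⟨y, hy1, hy2⟩
    refine ⟨y⁻¹, by rw [Prod.snd_inv, hy1, map_inv], ?_⟩
    have h1 : (a⁻¹).1 * ((y⁻¹ : ↥P) : G)⁻¹ =
        (y : G)⁻¹ * (a.1 * (y : G)⁻¹)⁻¹ * (y : G)⁻¹⁻¹ := by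
      rw [Prod.fst_inv, Subgroup.coe_inv]; group
    rw [h1]
    exact hM.conj_mem _ (M.inv_mem hy2) _

theorem mem_fib (P M : Subgroup G) [M.Normal] (a : G × TQ P M) :
    a ∈ fib P M ↔ ∃ y : ↥P, a.2 = QuotientGroup.mk' ⁅M.subgroupOf P, (⊤ : Subgroup ↥P)⁆ y ∧
      a.1 * (y : G)⁻¹ ∈ M := Iff.rfl

/-- first projection on the fibre product -/
def fibFst (P M : Subgroup G) [M.Normal] : ↥(fib P M) →* G :=
  (MonoidHom.fst G (TQ P M)).comp (fib P M).subtype

/-- the preimage of `P` in the fibre product -/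
def fibP (P M : Subgroup G) [M.Normal] : Subgroup ↥(fib P M) := P.comap (fibFst P M)

theorem mk_mem_center (P M : Subgroup G) [M.Normal] (d : ↥P) (hd : d ∈ M.subgroupOf P) :
    QuotientGroup.mk' ⁅M.subgroupOf P, (⊤ : Subgroup ↥P)⁆ d ∈ Subgroup.center (TQ P M) := by
  rw [Subgroup.mem_center_iff]
  intro q
  obtain ⟨w, rfl⟩ := QuotientGroup.mk'_surjective _ q
  rw [← map_mul, ← map_mul]
  show ((w * d : ↥P) : TQ P M) = ((d * w : ↥P) : TQ P M)
  rw [QuotientGroup.eq]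
  have e : (w * d)⁻¹ * (d * w) = ⁅d⁻¹, w⁻¹⁆ := by
    rw [commutatorElement_def]; group
  rw [e]
  exact Subgroup.commutator_mem_commutator ((M.subgroupOf P).inv_mem hd) (Subgroup.mem_top _)

theorem fibP_diff (P M : Subgroup G) [M.Normal] (a : ↥(fibP P M)) :
    ∃ d ∈ M.subgroupOf P, a.1.1.2 *
      (QuotientGroup.mk' ⁅M.subgroupOf P, (⊤ : Subgroup ↥P)⁆ (⟨a.1.1.1, a.2⟩ : ↥P))⁻¹ =
      QuotientGroup.mk' ⁅M.subgroupOf P, (⊤ : Subgroup ↥P)⁆ d := by
  obtain ⟨y, hy1, hy2⟩ := (mem_fib P M a.1.1).mp a.1.2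
  refine ⟨y * (⟨a.1.1.1, a.2⟩ : ↥P)⁻¹, ?_, by rw [hy1, map_mul, map_inv]⟩
  rw [Subgroup.mem_subgroupOf]
  have h1 : ((y * (⟨a.1.1.1, a.2⟩ : ↥P)⁻¹ : ↥P) : G) = (a.1.1.1 * (y : G)⁻¹)⁻¹ := by
    rw [Subgroup.coe_mul, Subgroup.coe_inv]; group
  rw [h1]; exact M.inv_mem hy2

/-- the homomorphism `(x, q) ↦ q * x̄⁻¹` from the preimage of `P` to the centre of `P / [M ∩ P, P]` -/
noncomputable def phi (P M : Subgroup G) [M.Normal] : ↥(fibP P M) →* Subgroup.center (TQ P M) :=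
  MonoidHom.mk' (fun a => ⟨a.1.1.2 *
      (QuotientGroup.mk' ⁅M.subgroupOf P, (⊤ : Subgroup ↥P)⁆ (⟨a.1.1.1, a.2⟩ : ↥P))⁻¹, by
      obtain ⟨d, hd, he⟩ := fibP_diff P M a
      rw [he]; exact mk_mem_center P M d hd⟩)
    (by
      intro a b
      apply Subtype.ext
      obtain ⟨d, hd, he⟩ := fibP_diff P M b
      have hc := Subgroup.mem_center_iff.mp (mk_mem_center P M d hd)
      have h1 : (⟨(a * b).1.1.1, (a * b).2⟩ : ↥P) =
          (⟨a.1.1.1, a.2⟩ : ↥P) * ⟨b.1.1.1, b.2⟩ := rfl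
      have h2 : (a * b).1.1.2 = a.1.1.2 * b.1.1.2 := rfl
      show (a * b).1.1.2 * (QuotientGroup.mk' ⁅M.subgroupOf P, (⊤ : Subgroup ↥P)⁆
          (⟨(a * b).1.1.1, (a * b).2⟩ : ↥P))⁻¹ =
        (a.1.1.2 * (QuotientGroup.mk' ⁅M.subgroupOf P, (⊤ : Subgroup ↥P)⁆
          (⟨a.1.1.1, a.2⟩ : ↥P))⁻¹) *
        (b.1.1.2 * (QuotientGroup.mk' ⁅M.subgroupOf P, (⊤ : Subgroup ↥P)⁆
          (⟨b.1.1.1, b.2⟩ : ↥P))⁻¹)
      rw [h1, map_mul, he, h2, mul_inv_rev]
      calc a.1.1.2 * b.1.1.2 *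
            ((QuotientGroup.mk' ⁅M.subgroupOf P, (⊤ : Subgroup ↥P)⁆ (⟨b.1.1.1, b.2⟩ : ↥P))⁻¹ *
            (QuotientGroup.mk' ⁅M.subgroupOf P, (⊤ : Subgroup ↥P)⁆ (⟨a.1.1.1, a.2⟩ : ↥P))⁻¹)
          = a.1.1.2 * ((b.1.1.2 *
            (QuotientGroup.mk' ⁅M.subgroupOf P, (⊤ : Subgroup ↥P)⁆ (⟨b.1.1.1, b.2⟩ : ↥P))⁻¹) *
            (QuotientGroup.mk' ⁅M.subgroupOf P, (⊤ : Subgroup ↥P)⁆ (⟨a.1.1.1, a.2⟩ : ↥P))⁻¹) := by
            group
        _ = a.1.1.2 * ((QuotientGroup.mk' ⁅M.subgroupOf P, (⊤ : Subgroup ↥P)⁆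
            (⟨a.1.1.1, a.2⟩ : ↥P))⁻¹ *
            QuotientGroup.mk' ⁅M.subgroupOf P, (⊤ : Subgroup ↥P)⁆ d) := by rw [he, hc]
        _ = _ := by group)

theorem phi_spec (P M : Subgroup G) [M.Normal] (a : ↥(fibP P M)) :
    ∃ d ∈ M.subgroupOf P, ((phi P M a : Subgroup.center (TQ P M)) : TQ P M) =
      QuotientGroup.mk' ⁅M.subgroupOf P, (⊤ : Subgroup ↥P)⁆ d := fibP_diff P M a

/-- `(1, d̄)` -/
def zhat (P M : Subgroup G) [M.Normal] (d : ↥P) (hd : d ∈ M.subgroupOf P) : ↥(fib P M) :=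
  ⟨(1, QuotientGroup.mk' ⁅M.subgroupOf P, (⊤ : Subgroup ↥P)⁆ d), (mem_fib P M _).mpr ⟨d, rfl, by
    have : (d : G)⁻¹ ∈ M := M.inv_mem (Subgroup.mem_subgroupOf.mp hd)
    simpa using this⟩⟩

/-- `(m, 1)` -/
def mhat (P M : Subgroup G) [M.Normal] (m : G) (hm : m ∈ M) : ↥(fib P M) :=
  ⟨(m, 1), (mem_fib P M _).mpr ⟨1, by simp, by simpa using hm⟩⟩

/-- `y ↦ (y, ȳ)` -/
def diag (P M : Subgroup G) [M.Normal] : ↥P →* ↥(fib P M) :=
  MonoidHom.mk' (fun y => ⟨((y : G), QuotientGroup.mk' ⁅M.subgroupOf P, (⊤ : Subgroup ↥P)⁆ y),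
    (mem_fib P M _).mpr ⟨y, rfl, by simp⟩⟩) (by
    intro y z
    apply Subtype.ext
    apply Prod.ext
    · rfl
    · exact map_mul _ y z)

theorem zhat_comm (P M : Subgroup G) [M.Normal] (d : ↥P) (hd : d ∈ M.subgroupOf P)
    (a : ↥(fib P M)) : a * zhat P M d hd = zhat P M d hd * a := by
  apply Subtype.ext
  apply Prod.ext
  · show a.1.1 * 1 = 1 * a.1.1
    rw [mul_one, one_mul]
  · show a.1.2 * QuotientGroup.mk' ⁅M.subgroupOf P, (⊤ : Subgroup ↥P)⁆ d =
      QuotientGroup.mk' ⁅M.subgroupOf P, (⊤ : Subgroup ↥P)⁆ d * a.1.2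
    exact Subgroup.mem_center_iff.mp (mk_mem_center P M d hd) a.1.2

theorem zhat_mem (P M : Subgroup G) [M.Normal] (d : ↥P) (hd : d ∈ M.subgroupOf P) :
    zhat P M d hd ∈ fibP P M := by
  show (1 : G) ∈ P
  exact P.one_mem

theorem phi_zhat (P M : Subgroup G) [M.Normal] (d : ↥P) (hd : d ∈ M.subgroupOf P) :
    phi P M ⟨zhat P M d hd, zhat_mem P M d hd⟩ =
      ⟨QuotientGroup.mk' ⁅M.subgroupOf P, (⊤ : Subgroup ↥P)⁆ d, mk_mem_center P M d hd⟩ := by
  apply Subtype.ext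
  show QuotientGroup.mk' ⁅M.subgroupOf P, (⊤ : Subgroup ↥P)⁆ d *
    (QuotientGroup.mk' ⁅M.subgroupOf P, (⊤ : Subgroup ↥P)⁆ (1 : ↥P))⁻¹ = _
  rw [map_one, inv_one, mul_one]

theorem transfer_zhat [Finite G] (P M : Subgroup G) [M.Normal] (d : ↥P)
    (hd : d ∈ M.subgroupOf P) :
    MonoidHom.transfer (phi P M) (zhat P M d hd) =
      (⟨QuotientGroup.mk' ⁅M.subgroupOf P, (⊤ : Subgroup ↥P)⁆ d, mk_mem_center P M d hd⟩ :
        Subgroup.center (TQ P M)) ^ (fibP P M).index := by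
  have key : ∀ (k : ℕ) (g₀ : ↥(fib P M)), g₀⁻¹ * zhat P M d hd ^ k * g₀ ∈ fibP P M →
      g₀⁻¹ * zhat P M d hd ^ k * g₀ = zhat P M d hd ^ k := by
    intro k g₀ _
    have hcomm : Commute g₀ (zhat P M d hd) := zhat_comm P M d hd g₀
    rw [mul_assoc, ← (hcomm.pow_right k).eq, inv_mul_cancel_left]
  rw [MonoidHom.transfer_eq_pow (phi P M) (zhat P M d hd) key, ← phi_zhat P M d hd, ← map_pow]
  rfl

theorem transfer_mhat [Finite G] {p : ℕ} [Fact p.Prime] (P M : Subgroup G) [M.Normal]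
    (hP : IsPGroup p ↥P)
    (hgen : M ≤ Subgroup.closure {x : G | x ∈ M ∧ (orderOf x).Coprime p})
    (m : G) (hm : m ∈ M) : MonoidHom.transfer (phi P M) (mhat P M m hm) = 1 := by
  have hQp : IsPGroup p (TQ P M) := hP.to_quotient _
  have hAp : IsPGroup p ↥(Subgroup.center (TQ P M)) := hQp.to_subgroup _
  have hSM : Subgroup.closure {x : G | x ∈ M ∧ (orderOf x).Coprime p} ≤ M :=
    (Subgroup.closure_le M).mpr (fun x hx => hx.1)
  have key : ∀ x ∈ Subgroup.closure {x : G | x ∈ M ∧ (orderOf x).Coprime p},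
      ∀ hx : x ∈ M, MonoidHom.transfer (phi P M) (mhat P M x hx) = 1 := by
    intro x hx
    induction hx using Subgroup.closure_induction with
    | mem x hx =>
      intro hxM
      obtain ⟨k, hk⟩ := hAp (MonoidHom.transfer (phi P M) (mhat P M x hxM))
      have h1 : MonoidHom.transfer (phi P M) (mhat P M x hxM) ^ orderOf x = 1 := by
        rw [← map_pow]
        have h0 : mhat P M x hxM ^ orderOf x = 1 := by
          apply Subtype.ext
          apply Prod.ext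
          · show x ^ orderOf x = 1
            exact pow_orderOf_eq_one x
          · show (1 : TQ P M) ^ orderOf x = 1
            exact one_pow _
        rw [h0, map_one]
      have h2 := orderOf_dvd_of_pow_eq_one h1
      have h3 := orderOf_dvd_of_pow_eq_one hk
      have h4 : orderOf (MonoidHom.transfer (phi P M) (mhat P M x hxM)) = 1 :=
        Nat.Coprime.eq_one_of_dvd ((Nat.Coprime.pow_right k hx.2).coprime_dvd_left h2) h3
      exact orderOf_eq_one_iff.mp h4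
    | one =>
      intro h
      have h0 : mhat P M 1 h = 1 := rfl
      rw [h0, map_one]
    | mul a b ha hb iha ihb =>
      intro h
      have h0 : mhat P M (a * b) h = mhat P M a (hSM ha) * mhat P M b (hSM hb) := by
        apply Subtype.ext
        apply Prod.ext
        · rfl
        · show (1 : TQ P M) = 1 * 1
          rw [one_mul]
      rw [h0, map_mul, iha, ihb, one_mul]
    | inv a ha iha =>
      intro h
      have h0 : mhat P M a⁻¹ h = (mhat P M a (hSM ha))⁻¹ := by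
        apply Subtype.ext
        apply Prod.ext
        · rfl
        · show (1 : TQ P M) = 1⁻¹
          rw [inv_one]
      rw [h0, map_inv, iha, inv_one]
  exact key m (hgen hm) hm

theorem index_fibP [Finite G] {p : ℕ} [Fact p.Prime] (P : Sylow p G) (M : Subgroup G)
    [M.Normal] : ¬ p ∣ (fibP (P : Subgroup G) M).index := by
  intro hdvd
  have h1 : (fibP (P : Subgroup G) M).index =
      (P : Subgroup G).relIndex (fibFst (P : Subgroup G) M).range := Subgroup.index_comap _ _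
  have hle : (P : Subgroup G) ≤ (fibFst (P : Subgroup G) M).range := by
    intro y hy
    exact ⟨diag (P : Subgroup G) M ⟨y, hy⟩, rfl⟩
  have h2 := Subgroup.relIndex_mul_index hle
  have h3 : (fibP (P : Subgroup G) M).index ∣ (P : Subgroup G).index := by
    rw [h1, ← h2]; exact dvd_mul_right _ _
  exact P.not_dvd_index (hdvd.trans h3)

theorem tate_core [Finite G] {p : ℕ} [Fact p.Prime] (P : Sylow p G)
    (M : Subgroup G) [hMn : M.Normal]
    (hgen : M ≤ Subgroup.closure {x : G | x ∈ M ∧ (orderOf x).Coprime p})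
    (hfr : M.subgroupOf (P : Subgroup G) ≤ frattini ↥(P : Subgroup G)) :
    M.subgroupOf (P : Subgroup G) = ⊥ := by
  by_contra hne
  have hp : p.Prime := Fact.out
  have hPp : IsPGroup p ↥(P : Subgroup G) := P.isPGroup'
  haveI : Group.IsNilpotent ↥(P : Subgroup G) := hPp.isNilpotent
  have hlt := not_le_commutator_top (M.subgroupOf (P : Subgroup G)) hne
  have hQp : IsPGroup p (TQ (P : Subgroup G) M) := hPp.to_quotient _
  have hcop : (Nat.card (TQ (P : Subgroup G) M)).Coprime (fibP (P : Subgroup G) M).index := by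
    obtain ⟨k, hk⟩ := IsPGroup.iff_card.mp hQp
    rw [hk]
    exact Nat.Coprime.pow_left k ((Nat.Prime.coprime_iff_not_dvd hp).mpr (index_fibP P M))
  have hF6 : ∀ a, ((MonoidHom.transfer (phi (P : Subgroup G) M) a :
      Subgroup.center (TQ (P : Subgroup G) M)) : TQ (P : Subgroup G) M) ∈
      (M.subgroupOf (P : Subgroup G)).map
        (QuotientGroup.mk' ⁅M.subgroupOf (P : Subgroup G), (⊤ : Subgroup ↥(P : Subgroup G))⁆) := by
    intro a
    obtain ⟨b, hb⟩ := transfer_mem_range (phi (P : Subgroup G) M) a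
    rw [← hb]
    obtain ⟨d, hd, he⟩ := phi_spec (P : Subgroup G) M b
    rw [he]; exact Subgroup.mem_map_of_mem _ hd
  have hfrQ : (M.subgroupOf (P : Subgroup G)).map
      (QuotientGroup.mk' ⁅M.subgroupOf (P : Subgroup G), (⊤ : Subgroup ↥(P : Subgroup G))⁆) ≤
      frattini (TQ (P : Subgroup G) M) :=
    Subgroup.map_le_iff_le_comap.mpr (hfr.trans
      (frattini_le_comap_frattini_of_surjective (QuotientGroup.mk'_surjective _)))
  obtain ⟨τ', hτ'⟩ : ∃ τ' : ↥(P : Subgroup G) →* Subgroup.center (TQ (P : Subgroup G) M),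
      ∀ y, τ' y = (MonoidHom.transfer (phi (P : Subgroup G) M) (diag (P : Subgroup G) M y)) ^
        (Nat.card (TQ (P : Subgroup G) M)).gcdB (fibP (P : Subgroup G) M).index :=
    ⟨(zpowGroupHom ((Nat.card (TQ (P : Subgroup G) M)).gcdB
      (fibP (P : Subgroup G) M).index)).comp
      ((MonoidHom.transfer (phi (P : Subgroup G) M)).comp (diag (P : Subgroup G) M)),
      fun y => rfl⟩
  obtain ⟨θ, hθ⟩ : ∃ θ : ↥(P : Subgroup G) →* TQ (P : Subgroup G) M, ∀ y, θ y =
      QuotientGroup.mk' ⁅M.subgroupOf (P : Subgroup G), (⊤ : Subgroup ↥(P : Subgroup G))⁆ y *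
        ((τ' y : Subgroup.center (TQ (P : Subgroup G) M)) : TQ (P : Subgroup G) M)⁻¹ := by
    refine ⟨MonoidHom.mk' (fun y =>
      QuotientGroup.mk' ⁅M.subgroupOf (P : Subgroup G), (⊤ : Subgroup ↥(P : Subgroup G))⁆ y *
        ((τ' y : Subgroup.center (TQ (P : Subgroup G) M)) : TQ (P : Subgroup G) M)⁻¹) ?_,
      fun y => rfl⟩
    intro y z
    have hc' := Subgroup.mem_center_iff.mp
      ((Subgroup.center (TQ (P : Subgroup G) M)).inv_mem (τ' y).2)
    show QuotientGroup.mk' ⁅M.subgroupOf (P : Subgroup G), (⊤ : Subgroup ↥(P : Subgroup G))⁆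
        (y * z) * ((τ' (y * z) : Subgroup.center (TQ (P : Subgroup G) M)) :
          TQ (P : Subgroup G) M)⁻¹ = _
    rw [map_mul, map_mul, Subgroup.coe_mul, mul_inv_rev]
    calc QuotientGroup.mk' ⁅M.subgroupOf (P : Subgroup G), (⊤ : Subgroup ↥(P : Subgroup G))⁆ y *
          QuotientGroup.mk' ⁅M.subgroupOf (P : Subgroup G), (⊤ : Subgroup ↥(P : Subgroup G))⁆ z *
          (((τ' z : Subgroup.center (TQ (P : Subgroup G) M)) : TQ (P : Subgroup G) M)⁻¹ *
          ((τ' y : Subgroup.center (TQ (P : Subgroup G) M)) : TQ (P : Subgroup G) M)⁻¹)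
        = QuotientGroup.mk' ⁅M.subgroupOf (P : Subgroup G), (⊤ : Subgroup ↥(P : Subgroup G))⁆ y *
          ((QuotientGroup.mk' ⁅M.subgroupOf (P : Subgroup G),
            (⊤ : Subgroup ↥(P : Subgroup G))⁆ z *
          ((τ' z : Subgroup.center (TQ (P : Subgroup G) M)) : TQ (P : Subgroup G) M)⁻¹) *
          ((τ' y : Subgroup.center (TQ (P : Subgroup G) M)) : TQ (P : Subgroup G) M)⁻¹) := by
          group
      _ = QuotientGroup.mk' ⁅M.subgroupOf (P : Subgroup G), (⊤ : Subgroup ↥(P : Subgroup G))⁆ y *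
          (((τ' y : Subgroup.center (TQ (P : Subgroup G) M)) : TQ (P : Subgroup G) M)⁻¹ *
          (QuotientGroup.mk' ⁅M.subgroupOf (P : Subgroup G),
            (⊤ : Subgroup ↥(P : Subgroup G))⁆ z *
          ((τ' z : Subgroup.center (TQ (P : Subgroup G) M)) : TQ (P : Subgroup G) M)⁻¹)) := by
          rw [hc']
      _ = _ := by group
  have hsurj : θ.range = ⊤ := by
    apply frattini_nongenerating
    rw [eq_top_iff]
    intro q _
    obtain ⟨y, rfl⟩ := QuotientGroup.mk'_surjective _ q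
    have h1 : QuotientGroup.mk' ⁅M.subgroupOf (P : Subgroup G),
        (⊤ : Subgroup ↥(P : Subgroup G))⁆ y = θ y *
        ((τ' y : Subgroup.center (TQ (P : Subgroup G) M)) : TQ (P : Subgroup G) M) := by
      rw [hθ]; group
    rw [h1]
    refine Subgroup.mul_mem_sup (MonoidHom.mem_range.mpr ⟨y, rfl⟩) ?_
    apply hfrQ
    rw [hτ', Subgroup.coe_zpow]
    exact Subgroup.zpow_mem _ (hF6 _) _
  have hker : M.subgroupOf (P : Subgroup G) ≤ θ.ker := by
    intro d hd
    rw [MonoidHom.mem_ker, hθ, hτ']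
    have h1 : diag (P : Subgroup G) M d =
        mhat (P : Subgroup G) M (d : G) (Subgroup.mem_subgroupOf.mp hd) *
          zhat (P : Subgroup G) M d hd := by
      apply Subtype.ext
      apply Prod.ext
      · show (d : G) = (d : G) * 1
        rw [mul_one]
      · show QuotientGroup.mk' ⁅M.subgroupOf (P : Subgroup G),
          (⊤ : Subgroup ↥(P : Subgroup G))⁆ d = 1 * QuotientGroup.mk' ⁅M.subgroupOf (P : Subgroup G),
          (⊤ : Subgroup ↥(P : Subgroup G))⁆ d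
        rw [one_mul]
    rw [h1, map_mul, transfer_mhat (P : Subgroup G) M hPp hgen, one_mul,
      transfer_zhat (P : Subgroup G) M d hd, Subgroup.coe_zpow, Subgroup.coe_pow]
    have h2 : (QuotientGroup.mk' ⁅M.subgroupOf (P : Subgroup G),
        (⊤ : Subgroup ↥(P : Subgroup G))⁆ d ^ (fibP (P : Subgroup G) M).index) ^
        (Nat.card (TQ (P : Subgroup G) M)).gcdB (fibP (P : Subgroup G) M).index =
        QuotientGroup.mk' ⁅M.subgroupOf (P : Subgroup G), (⊤ : Subgroup ↥(P : Subgroup G))⁆ d :=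
      (powCoprime hcop).left_inv _
    show QuotientGroup.mk' ⁅M.subgroupOf (P : Subgroup G), (⊤ : Subgroup ↥(P : Subgroup G))⁆ d *
      ((QuotientGroup.mk' ⁅M.subgroupOf (P : Subgroup G),
        (⊤ : Subgroup ↥(P : Subgroup G))⁆ d ^ (fibP (P : Subgroup G) M).index) ^
        (Nat.card (TQ (P : Subgroup G) M)).gcdB (fibP (P : Subgroup G) M).index)⁻¹ = 1
    rw [h2, mul_inv_cancel]
  have hidxeq : θ.ker.index =
      (⁅M.subgroupOf (P : Subgroup G), (⊤ : Subgroup ↥(P : Subgroup G))⁆).index := by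
    rw [Subgroup.index_ker, hsurj, Subgroup.index_eq_card]
    exact Subgroup.card_top
  have hD0le : ⁅M.subgroupOf (P : Subgroup G), (⊤ : Subgroup ↥(P : Subgroup G))⁆ ≤ θ.ker :=
    (Subgroup.commutator_le_left _ _).trans hker
  have h5 := Subgroup.relIndex_mul_index hD0le
  rw [hidxeq] at h5
  have hpos : 0 < (⁅M.subgroupOf (P : Subgroup G), (⊤ : Subgroup ↥(P : Subgroup G))⁆).index :=
    Nat.pos_of_ne_zero Subgroup.index_ne_zero_of_finite
  have h6 : (⁅M.subgroupOf (P : Subgroup G), (⊤ : Subgroup ↥(P : Subgroup G))⁆).relIndex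
      θ.ker = 1 := Nat.eq_of_mul_eq_mul_right hpos (by rw [h5, one_mul])
  have h7 := Subgroup.relIndex_eq_one.mp h6
  exact hlt (hker.trans h7)

/-- **Tate's theorem.** -/
theorem tate [Finite G] {p : ℕ} [Fact p.Prime] (P : Sylow p G) (N : Subgroup G) [N.Normal]
    (h : N ⊓ (P : Subgroup G) ≤ (frattini P).map (P : Subgroup G).subtype) :
    Cfsg.HasNormalPComplement p N := by
  have hp : p.Prime := Fact.out
  obtain ⟨M, hM⟩ : ∃ M : Subgroup G, M = (Cfsg.pResidual p N).map N.subtype := ⟨_, rfl⟩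
  haveI hMn : M.Normal := by
    constructor
    intro m hm g
    rw [hM] at hm ⊢
    obtain ⟨n, hn, rfl⟩ := hm
    refine ⟨MulAut.conjNormal g n, ?_, ?_⟩
    · exact Cfsg.Agent.Lib_helper9_FusionFocal.pResidual_map_le (p := p)
        (MulAut.conjNormal g : MulAut N).toMonoidHom (Subgroup.mem_map_of_mem _ hn)
    · exact MulAut.conjNormal_apply g n
  have hMN : M ≤ N := by rw [hM]; exact Subgroup.map_subtype_le _
  have hgen : M ≤ Subgroup.closure {x : G | x ∈ M ∧ (orderOf x).Coprime p} := by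
    have h1 : M = Subgroup.closure (N.subtype '' {g : N | Nat.Coprime (orderOf g) p}) := by
      rw [hM]; unfold Cfsg.pResidual; rw [MonoidHom.map_closure]
    have h2 : N.subtype '' {g : N | Nat.Coprime (orderOf g) p} ⊆
        {x : G | x ∈ M ∧ (orderOf x).Coprime p} := by
      rintro _ ⟨x, hx, rfl⟩
      refine ⟨?_, ?_⟩
      · rw [hM]; exact Subgroup.mem_map_of_mem _ (Subgroup.subset_closure hx)
      · show (orderOf ((x : N) : G)).Coprime p
        rw [Subgroup.orderOf_coe]; exact hx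
    calc M = Subgroup.closure (N.subtype '' {g : N | Nat.Coprime (orderOf g) p}) := h1
      _ ≤ _ := Subgroup.closure_mono h2
  have hfr : M.subgroupOf (P : Subgroup G) ≤ frattini ↥(P : Subgroup G) := by
    intro y hy
    have h1 : (y : G) ∈ N ⊓ (P : Subgroup G) := ⟨hMN (Subgroup.mem_subgroupOf.mp hy), y.2⟩
    obtain ⟨y', hy', he⟩ := h h1
    have h2 : y' = y := Subtype.ext he
    rw [← h2]; exact hy'
  have hbot := tate_core P M hgen hfr
  have hMc : (Nat.card M).Coprime p := by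
    rw [Nat.coprime_comm, Nat.Prime.coprime_iff_not_dvd hp]
    intro hdvd
    obtain ⟨x, hx⟩ := exists_prime_orderOf_dvd_card' p hdvd
    have hzp : IsPGroup p (Subgroup.zpowers (x : G)) :=
      IsPGroup.of_card (n := 1) (by rw [Nat.card_zpowers, Subgroup.orderOf_coe, hx, pow_one])
    obtain ⟨k, hk⟩ := Cfsg.Agent.Lib_helper9_PGroup.exists_conj_le_sylow P _ hzp
    have h1 : k * (x : G) * k⁻¹ ∈ (P : Subgroup G) := hk _ (Subgroup.mem_zpowers _)
    have h2 : k * (x : G) * k⁻¹ ∈ M := hMn.conj_mem _ x.2 k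
    have h3 : (⟨k * (x : G) * k⁻¹, h1⟩ : ↥(P : Subgroup G)) ∈ M.subgroupOf (P : Subgroup G) :=
      Subgroup.mem_subgroupOf.mpr h2
    rw [hbot, Subgroup.mem_bot] at h3
    have h4 : k * (x : G) * k⁻¹ = 1 := congrArg Subtype.val h3
    have h5 : (x : G) = 1 := by
      have h0 : (x : G) = k⁻¹ * (k * (x : G) * k⁻¹) * k := by group
      rw [h0, h4]; group
    have h6 : x = 1 := Subtype.ext h5
    rw [h6, orderOf_one] at hx
    exact hp.one_lt.ne hx
  apply Cfsg.Agent.Lib_helper1_Frobenius.hasNormalPComplement_of_npc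
  refine ⟨Cfsg.pResidual p N, Cfsg.Agent.Lib_helper7_Sylow.pResidual_normal p, ?_, ?_⟩
  · have h0 : Nat.card (Cfsg.pResidual p N) = Nat.card M := by
      rw [hM]; exact (Subgroup.card_map_of_injective N.subtype_injective).symm
    rw [h0]; exact hMc
  · have hq := Cfsg.Agent.Lib_helper7_Sylow.isPGroup_quotient_pResidual (K := N) p
    obtain ⟨k, hk⟩ := IsPGroup.iff_card.mp hq
    exact ⟨k, by rw [Subgroup.index_eq_card]; exact hk⟩

end Cfsg.Agent.H1Tate
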