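import Mathlib
import Cfsg.Prelude.Def_PLocal
import Cfsg.Prelude.Def_Local
import Cfsg.Agent.Lib_helper1_GTG
import Cfsg.Agent.Lib_helper1_JE
import Cfsg.Agent.Lib_helper2_PCons

set_option autoImplicit false
set_option maxHeartbeats 1600000

/-! Thompson's normal `p`-complement theorem (`C_G(Z(P))` and `N_G(J(P))`). -/

namespace Cfsg.Agent.H1ThNPC

open Cfsg Cfsg.Agent.Lib_helper1_Frobenius Cfsg.Agent.H1GT Cfsg.Agent.H1GTG
open scoped commutatorElement Pointwise

universe u

/-- The final configuration for Thompson's theorem. -/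
theorem th_fin {G : Type u} [Group G] [Finite G] {p : ℕ} [Fact p.Prime] (hp2 : p ≠ 2)
    (P : Sylow p G) (hfc : FinalConf p G P) :
    Subgroup.centralizer ((((P : Subgroup G) ⊓
        Subgroup.centralizer ((P : Subgroup G) : Set G) : Subgroup G)) : Set G) = ⊤ ∨
      Subgroup.normalizer (Cfsg.thompsonSubgroupOf p (P : Subgroup G) : Set G) = ⊤ := by
  obtain ⟨hc, hO, hPmax, hst, L, m, hLn, hHL, hLP, hm, hLpow, hdich⟩ := hfc
  have hp : p.Prime := Fact.out
  obtain ⟨H, hHe⟩ : ∃ H, H = Cfsg.pCore p G := ⟨_, rfl⟩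
  rw [← hHe] at hc hHL hLpow hdich
  haveI hHn : H.Normal := hHe ▸ Lib_helper7_PCore.pCore_normal p
  have hHp : IsPGroup p H := hHe ▸ Lib_helper7_PCore.pCore_isPGroup p
  have hHP : H ≤ P := hHe ▸ Lib_helper7_PCore.pCore_le_sylow P
  obtain ⟨V₂, hV₂⟩ : ∃ V₂ : Subgroup G, ∀ x, x ∈ V₂ ↔
      (x ∈ H ∧ x ∈ Subgroup.centralizer (H : Set G) ∧ x ^ p = 1) :=
    ⟨{ carrier := {x | x ∈ H ∧ x ∈ Subgroup.centralizer (H : Set G) ∧ x ^ p = 1}
       one_mem' := ⟨H.one_mem, Subgroup.one_mem _, one_pow p⟩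
       mul_mem' := by
        rintro a b ⟨ha1, ha2, ha3⟩ ⟨hb1, hb2, hb3⟩
        refine ⟨H.mul_mem ha1 hb1, Subgroup.mul_mem _ ha2 hb2, ?_⟩
        have hab : Commute a b := (Subgroup.mem_centralizer_iff.mp hb2 a ha1)
        rw [hab.mul_pow, ha3, hb3, one_mul]
       inv_mem' := by
        rintro a ⟨ha1, ha2, ha3⟩
        exact ⟨H.inv_mem ha1, Subgroup.inv_mem _ ha2, by rw [inv_pow, ha3, inv_one]⟩ },
      fun x => Iff.rfl⟩
  have hCHn : (Subgroup.centralizer (H : Set G)).Normal := inferInstance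
  have hV₂n : V₂.Normal := by
    constructor
    intro v hv g
    rw [hV₂] at hv ⊢
    obtain ⟨h1, h2, h3⟩ := hv
    refine ⟨hHn.conj_mem v h1 g, hCHn.conj_mem v h2 g, ?_⟩
    rw [conj_pow, h3]; simp
  haveI := hV₂n
  have hV₂p : IsPGroup p V₂ := by
    rintro ⟨v, hv⟩
    refine ⟨1, ?_⟩
    apply Subtype.ext
    have := ((hV₂ v).mp hv).2.2
    simpa using this
  have hV₂c : ∀ a ∈ V₂, ∀ b ∈ V₂, a * b = b * a := by
    intro a ha b hb
    exact Subgroup.mem_centralizer_iff.mp ((hV₂ b).mp hb).2.1 a ((hV₂ a).mp ha).1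
  have hV₂H : V₂ ≤ H := fun a ha => ((hV₂ a).mp ha).1
  obtain ⟨C₂, hC₂⟩ : ∃ C₂, C₂ = Subgroup.centralizer (V₂ : Set G) := ⟨_, rfl⟩
  haveI hC₂n : C₂.Normal := hC₂ ▸ inferInstance
  have hHC₂ : H ≤ C₂ := by
    intro h hh
    rw [hC₂, Subgroup.mem_centralizer_iff]
    intro v hv
    exact (Subgroup.mem_centralizer_iff.mp ((hV₂ v).mp hv).2.1 h hh).symm
  rcases hdich C₂ hC₂n with hC₂H | hLC
  · right
    have hall : ∀ U, H1JE.MaxElIn p (P : Subgroup G) U → U ≤ H := by
      intro U hU
      by_contra hUH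
      have hUV : ¬ V₂ ≤ U := by
        intro hle
        apply hUH
        intro u hu
        apply hC₂H
        rw [hC₂, Subgroup.mem_centralizer_iff]
        intro v hv
        exact hU.2.1 v (hle hv) u hu
      have hrep : ∀ A ∈ Cfsg.maxElementaryAbelianSubgroups p ↥(P : Subgroup G),
          ∀ Q : Subgroup ↥(P : Subgroup G), Nat.card Q = Nat.card A → IsMulCommutative Q →
          Monoid.exponent Q ∣ Monoid.exponent A →
          Q ∈ Cfsg.maxElementaryAbelianSubgroups p ↥(P : Subgroup G) := by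
        intro A hA Q hcard hcomm hexp
        refine ⟨⟨hcomm, ?_⟩, fun B hB => hcard ▸ hA.2 B hB⟩
        intro x hx
        have hAe : Monoid.exponent A ∣ p := by
          apply Monoid.exponent_dvd_of_forall_pow_eq_one
          rintro ⟨a, ha⟩
          apply Subtype.ext
          have h5 := hA.1.2 a ha
          simpa using h5
        have hQ := (Monoid.exponent_dvd_iff_forall_pow_eq_one.mp (hexp.trans hAe)) ⟨x, hx⟩
        have h6 := congrArg Subtype.val hQ
        simpa using h6
      have hUeq : (U.subgroupOf (P : Subgroup G)).map (P : Subgroup G).subtype = U :=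
        Subgroup.map_subgroupOf_eq_of_le hU.1
      obtain ⟨A₀, hA₀, h3, h4⟩ := H1ZJ.F5_of_family hp2 (P : Subgroup G) P.isPGroup'
        (Cfsg.maxElementaryAbelianSubgroups p ↥(P : Subgroup G)) (fun A hA => hA.1.1)
        hrep V₂ (hV₂H.trans hHP)
        ⟨U.subgroupOf (P : Subgroup G), H1JE.maxEl_of_maxElIn p _ U hU, by
          rw [hUeq, Subgroup.commutator_le]
          intro a ha b hb
          rw [commutatorElement_eq_one_iff_mul_comm.mpr (hV₂c a ha b hb)]
          exact U.one_mem, by rw [hUeq]; exact hUV⟩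
      have hA := H1JE.maxElIn_of_maxEl p (P : Subgroup G) A₀ hA₀
      have hKp : IsPGroup p
          ((Cfsg.pCore p (G ⧸ Subgroup.centralizer (V₂ : Set G))).comap
          (QuotientGroup.mk' (Subgroup.centralizer (V₂ : Set G)))) := by
        apply IsPGroup.comap_of_ker_isPGroup (Lib_helper7_PCore.pCore_isPGroup p)
        rw [QuotientGroup.ker_mk']
        exact hHp.to_le (hC₂ ▸ hC₂H)
      have hKn : ((Cfsg.pCore p (G ⧸ Subgroup.centralizer (V₂ : Set G))).comap
          (QuotientGroup.mk' (Subgroup.centralizer (V₂ : Set G)))).Normal :=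
        (Lib_helper7_PCore.pCore_normal p).comap _
      have hAH : A₀.map (P : Subgroup G).subtype ≤ H := by
        intro a ha
        have hq := H1ZJ.quad V₂ _ hA.2.1
          (fun l hl x hx => (Subgroup.mem_normalizer_iff.mp (h4 hl) x).mp hx) a ha
        have h1 := hst V₂ hV₂p a (hA.1 ha) hq
        rw [hHe]
        exact Lib_helper7_PCore.le_pCore hKn hKp (Subgroup.mem_comap.mpr h1)
      apply h3
      intro v hv
      have hvP : v ∈ (P : Subgroup G) := hHP (hV₂H hv)
      have hmem := H1ZJE.mem_maxEl_of_centralizes A₀ hA₀ (⟨v, hvP⟩ : ↥(P : Subgroup G)) (by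
        intro u hu
        apply Subtype.ext
        have huH : (u : G) ∈ H := hAH (Subgroup.mem_map_of_mem _ hu)
        exact Subgroup.mem_centralizer_iff.mp ((hV₂ v).mp hv).2.1 (u : G) huH) (by
        apply Subtype.ext
        have := ((hV₂ v).mp hv).2.2
        simpa using this)
      exact ⟨⟨v, hvP⟩, hmem, rfl⟩
    rw [H1JE.tsOf_eq_of_le p _ H hHP hall, eq_top_iff]
    intro g _
    exact H1JE.tsOf_normalizer p H (by rw [Subgroup.normalizer_eq_top_iff.mpr hHn]; trivial)
  · left
    have hLC₂ : L ≤ C₂ := hLC.trans (sup_le le_rfl hHC₂)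
    obtain ⟨ZH, hZH⟩ : ∃ ZH, ZH = H ⊓ Subgroup.centralizer (H : Set G) := ⟨_, rfl⟩
    have hZHmem : ∀ z, z ∈ ZH ↔ z ∈ H ∧ z ∈ Subgroup.centralizer (H : Set G) := by
      intro z; rw [hZH]; exact Subgroup.mem_inf
    have hLZ : ∀ l ∈ L, l ∈ Subgroup.centralizer (ZH : Set G) := by
      intro l hl
      obtain ⟨α, t, ht, hlo⟩ :=
        Nat.exists_eq_pow_mul_and_not_dvd (orderOf_pos l).ne' p hp.ne_one
      have htc : t.Coprime p := ((Nat.Prime.coprime_iff_not_dvd hp).mpr ht).symm
      obtain ⟨n', hn'⟩ : ∃ n', n' = l ^ p ^ α := ⟨_, rfl⟩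
      have hn't : n' ^ t = 1 := by rw [hn', ← pow_mul, ← hlo, pow_orderOf_eq_one]
      have hn'L : n' ∈ L := hn' ▸ L.pow_mem hl _
      have hn'C : n' ∈ Subgroup.centralizer (ZH : Set G) := by
        rw [Subgroup.mem_centralizer_iff]
        intro z hz
        have h1 := H1JE.centralizes_of_centralizes_omega ZH (by
            intro a ha b hb
            exact Subgroup.mem_centralizer_iff.mp ((hZHmem b).mp hb).2 a ((hZHmem a).mp ha).1)
          (hHp.to_le (hZH ▸ inf_le_left)) n' (by
            intro a ha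
            rw [hZHmem] at ha ⊢
            exact ⟨hHn.conj_mem a ha.1 n', hCHn.conj_mem a ha.2 n'⟩) t htc hn't (by
            intro a ha hap
            have haV : a ∈ V₂ := (hV₂ a).mpr ⟨((hZHmem a).mp ha).1, ((hZHmem a).mp ha).2, hap⟩
            have h2 := hLC₂ hn'L
            rw [hC₂] at h2
            exact (Subgroup.mem_centralizer_iff.mp h2 a haV).symm) z hz
        exact h1.symm
      apply mem_of_pow_mem_coprime _ l m (p ^ α) (Nat.Coprime.pow_right α hm)
      · have h1 := hLpow l hl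
        rw [Subgroup.mem_centralizer_iff]
        intro z hz
        exact (Subgroup.mem_centralizer_iff.mp ((hZHmem z).mp hz).2 _ h1).symm
      · rw [← hn']; exact hn'C
    rw [eq_top_iff, ← hLP]
    apply sup_le
    · intro l hl
      rw [Subgroup.mem_centralizer_iff]
      intro z hz
      obtain ⟨hz1, hz2⟩ := Subgroup.mem_inf.mp hz
      have hzC : z ∈ Subgroup.centralizer (H : Set G) := by
        rw [Subgroup.mem_centralizer_iff]
        intro h hh
        exact Subgroup.mem_centralizer_iff.mp hz2 h (hHP hh)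
      have hzZH : z ∈ ZH := (hZHmem z).mpr ⟨hc hzC, hzC⟩
      exact Subgroup.mem_centralizer_iff.mp (hLZ l hl) z hzZH
    · intro x hx
      rw [Subgroup.mem_centralizer_iff]
      intro z hz
      exact (Subgroup.mem_centralizer_iff.mp (Subgroup.mem_inf.mp hz).2 x hx).symm

/-- The two functors of Thompson's theorem: `Z(T)` and `J_e(T)`. -/
def WT (p : ℕ) : Bool → ∀ (G : Type u) [Group G], Subgroup G → Subgroup G :=
  fun i G _ T => cond i (Cfsg.thompsonSubgroupOf p T) (T ⊓ Subgroup.centralizer (T : Set G))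

/-- The two local subgroups of Thompson's theorem: `C_G(Z(T))` and `N_G(J_e(T))`. -/
def KT (p : ℕ) : Bool → ∀ (G : Type u) [Group G], Subgroup G → Subgroup G :=
  fun i G _ T => cond i (Subgroup.normalizer (Cfsg.thompsonSubgroupOf p T : Set G))
    (Subgroup.centralizer ((T ⊓ Subgroup.centralizer (T : Set G) : Subgroup G) : Set G))

theorem thompson_npc {G : Type u} [Group G] [Finite G] {p : ℕ} [Fact p.Prime] (hp : p ≠ 2)
    (P : Sylow p G)
    (h1 : Cfsg.HasNormalPComplement p
      (Subgroup.normalizer (Cfsg.thompsonSubgroupOf p (P : Subgroup G) : Set G)))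
    (h2 : Cfsg.HasNormalPComplement p (Subgroup.centralizer
      (((P : Subgroup G) ⊓ Subgroup.centralizer (P : Set G)) : Set G))) :
    Cfsg.HasNormalPComplement p G := by
  have hinjs : ∀ (G : Type u) [Group G] (N : Subgroup G) (x : ↥N), N.subtype x = 1 → x = 1 :=
    fun G _ N x hx => Subtype.ext hx
  have hinjc : ∀ (G : Type u) [Group G] (g x : G), (MulAut.conj g).toMonoidHom x = 1 → x = 1 :=
    fun G _ g x hx => by simpa using hx
  apply gtg_final p hp (WT p) (KT p) ?hW1 ?hW2 ?hW3 ?hK1 ?hK2 ?hK3 ?hK4 ?hfin G P ?hN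
  case hW1 =>
    intro i G _ T
    cases i
    · exact inf_le_left
    · exact H1JE.tsOf_le p T
  case hW2 =>
    intro i G G' _ _ _ _ f T hinj
    cases i
    · exact H1JE.zOf_map f T hinj
    · exact H1JE.tsOf_map p f T hinj
  case hW3 =>
    intro i G _ _ T hT hne
    cases i
    · exact H1JE.zOf_ne_bot T hT hne
    · exact H1JE.tsOf_ne_bot T hT hne
  case hK1 =>
    intro i G _ _ T
    cases i
    · exact Subgroup.centralizer_le_normalizer _
    · exact le_rfl
  case hK2 =>
    intro i G _ _ N T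
    cases i
    · rintro _ ⟨x, hx, rfl⟩
      show (x : G) ∈ Subgroup.centralizer ((T.map N.subtype ⊓
        Subgroup.centralizer ((T.map N.subtype : Subgroup G) : Set G) : Subgroup G) : Set G)
      rw [← H1JE.zOf_map N.subtype T (fun x _ hx => hinjs G N x hx),
        Subgroup.mem_centralizer_iff]
      rintro _ ⟨y, hy, rfl⟩
      have h3 := Subgroup.mem_centralizer_iff.mp hx y hy
      exact congrArg Subtype.val h3
    · rintro _ ⟨x, hx, rfl⟩
      show (x : G) ∈ Subgroup.normalizer
        (Cfsg.thompsonSubgroupOf p (T.map N.subtype) : Set G)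
      rw [← H1JE.tsOf_map p N.subtype T (fun x _ hx => hinjs G N x hx)]
      exact coe_mem_normalizer_map N _ x hx
  case hK3 =>
    intro i G _ _ O _ hOc P
    have hinj : ∀ x ∈ (P : Subgroup G), (QuotientGroup.mk' O) x = 1 → x = 1 := by
      intro x hx hx1
      exact eq_one_of_coprime_of_pgroup O (P : Subgroup G) hOc P.isPGroup'
        ((QuotientGroup.eq_one_iff x).mp hx1) hx
    cases i
    · intro gb hgb
      obtain ⟨g, rfl⟩ := QuotientGroup.mk'_surjective O gb
      have hgb' : (QuotientGroup.mk' O) g ∈ Subgroup.centralizer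
          (((P : Subgroup G).map (QuotientGroup.mk' O) ⊓ Subgroup.centralizer
            (((P : Subgroup G).map (QuotientGroup.mk' O) : Subgroup (G ⧸ O)) : Set (G ⧸ O)) :
            Subgroup (G ⧸ O)) : Set (G ⧸ O)) := hgb
      rw [← H1JE.zOf_map (QuotientGroup.mk' O) (P : Subgroup G) hinj] at hgb'
      obtain ⟨w, hw, hwg⟩ := Lib_helper2_PCons.exists_mul_mem_centralizer p O hOc _
        (P.isPGroup'.to_le inf_le_left) g hgb'
      refine ⟨w * g, hwg, ?_⟩
      have hw1 : (QuotientGroup.mk' O) w = 1 := (QuotientGroup.eq_one_iff w).mpr hw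
      rw [map_mul, hw1, one_mul]
    · show Subgroup.normalizer (Cfsg.thompsonSubgroupOf p
        ((P : Subgroup G).map (QuotientGroup.mk' O)) : Set (G ⧸ O)) ≤
        (Subgroup.normalizer (Cfsg.thompsonSubgroupOf p (P : Subgroup G) : Set G)).map
          (QuotientGroup.mk' O)
      rw [← H1JE.tsOf_map p (QuotientGroup.mk' O) (P : Subgroup G) hinj]
      exact normalizer_map_le P O hOc _ (H1JE.tsOf_le p _)
  case hK4 =>
    intro i G _ _ g T
    cases i
    · intro x hx
      have hx' : x ∈ Subgroup.centralizer ((T.map (MulAut.conj g).toMonoidHom ⊓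
          Subgroup.centralizer ((T.map (MulAut.conj g).toMonoidHom : Subgroup G) : Set G) :
          Subgroup G) : Set G) := hx
      rw [← H1JE.zOf_map (MulAut.conj g).toMonoidHom T (fun x _ hx => hinjc G g x hx)] at hx'
      rw [Lib_helper7_Sylow.mem_map_conj]
      show g⁻¹ * x * g ∈ Subgroup.centralizer
        ((T ⊓ Subgroup.centralizer (T : Set G) : Subgroup G) : Set G)
      rw [Subgroup.mem_centralizer_iff]
      intro z hz
      have h3 := Subgroup.mem_centralizer_iff.mp hx' _ ⟨z, hz, rfl⟩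
      have h4 : g * z * g⁻¹ * x = x * (g * z * g⁻¹) := by simpa using h3
      calc z * (g⁻¹ * x * g) = g⁻¹ * (g * z * g⁻¹ * x) * g := by group
        _ = g⁻¹ * (x * (g * z * g⁻¹)) * g := by rw [h4]
        _ = g⁻¹ * x * g * z := by group
    · show Subgroup.normalizer (Cfsg.thompsonSubgroupOf p
        (T.map (MulAut.conj g).toMonoidHom) : Set G) ≤
        (Subgroup.normalizer (Cfsg.thompsonSubgroupOf p T : Set G)).map
          (MulAut.conj g).toMonoidHom
      rw [← H1JE.tsOf_map p (MulAut.conj g).toMonoidHom T (fun x _ hx => hinjc G g x hx)]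
      exact normalizer_conj_le _ g
  case hfin =>
    intro G _ _ P hfc
    rcases th_fin hp P hfc with h | h
    · exact ⟨false, h⟩
    · exact ⟨true, h⟩
  case hN =>
    intro i
    cases i
    · exact h2
    · exact h1

end Cfsg.Agent.H1ThNPC
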