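import Cfsg.Agent.Lib_helper1_Basic

set_option autoImplicit false

namespace Cfsg.Agent.Lib_helper1_Transfer

open scoped IsMulCommutative in
/-- Transfer into an abelian subgroup kills central elements of the derived subgroup. -/
theorem pow_index_eq_one_of_mem_commutator_center {G : Type*} [Group G] [Finite G]
    (H : Subgroup G) [IsMulCommutative H] (x : G) (hx : x ∈ commutator G)
    (hz : x ∈ Subgroup.center G) : x ^ H.index = 1 := by
  have key : ∀ (k : ℕ) (g₀ : G), g₀⁻¹ * x ^ k * g₀ ∈ H → g₀⁻¹ * x ^ k * g₀ = x ^ k := by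
    intro k g₀ _
    have hc : x ^ k ∈ Subgroup.center G := Subgroup.pow_mem _ hz k
    have := Subgroup.mem_center_iff.mp hc g₀
    rw [mul_assoc, ← this, inv_mul_cancel_left]
  have h1 := MonoidHom.transfer_eq_pow (MonoidHom.id H) x key
  have h2 : MonoidHom.transfer (MonoidHom.id H) x = 1 := by
    have := Abelianization.commutator_subset_ker (MonoidHom.transfer (MonoidHom.id H)) hx
    exact MonoidHom.mem_ker.mp this
  rw [h2] at h1
  have := congrArg Subtype.val h1
  simpa using this.symm

end Cfsg.Agent.Lib_helper1_Transfer
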