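import Cfsg.Prelude.Def_PLocal
import Cfsg.Agent.Lib_helper1_Coprime
import Cfsg.Agent.Lib_helper1_Hall
import Cfsg.Agent.Lib_helper1_AutBound

set_option autoImplicit false

namespace Cfsg.Agent.Lib_helper1_Uniserial

open Cfsg.Agent Cfsg.Agent.Lib_helper1_Coprime
open scoped Pointwise commutatorElement

variable {L : Type*} [Group L] [Finite L] {p : ℕ} [hpf : Fact p.Prime] (N G : Subgroup L)

theorem relIndex_mul_card' {H K : Subgroup L} (h : H ≤ K) :
    H.relIndex K * Nat.card H = Nat.card K := by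
  have := (H.subgroupOf K).index_mul_card
  rwa [Lib_helper1_Hall.card_subgroupOf_of_le h] at this

theorem iter_props (hGN : G ≤ Subgroup.normalizer (N : Set L)) (i : ℕ) :
    Cfsg.iterCommutator N G i ≤ N ∧
      G ≤ Subgroup.normalizer ((Cfsg.iterCommutator N G i : Subgroup L) : Set L) ∧
      Cfsg.iterCommutator N G (i + 1) ≤ Cfsg.iterCommutator N G i := by
  induction i with
  | zero => exact ⟨le_rfl, hGN, commutator_le_of_normalizes G N hGN⟩
  | succ i ih =>
    obtain ⟨h1, h2, h3⟩ := ih
    have h4 : G ≤ Subgroup.normalizer ((Cfsg.iterCommutator N G (i + 1) : Subgroup L) : Set L) :=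
      normalizer_commutator_right G _ h2
    exact ⟨h3.trans h1, h4, commutator_le_of_normalizes G _ h4⟩

theorem iter_anti (hGN : G ≤ Subgroup.normalizer (N : Set L)) (j k : ℕ) (hjk : j ≤ k) :
    Cfsg.iterCommutator N G k ≤ Cfsg.iterCommutator N G j := by
  induction k, hjk using Nat.le_induction with
  | base => exact le_rfl
  | succ k _ ih => exact ((iter_props N G hGN k).2.2).trans ih

theorem p_mul_card_le (hN : IsPGroup p N) (hG : IsPGroup p G) (K : Subgroup L) (hK : K ≤ N)
    (hGK : G ≤ Subgroup.normalizer (K : Set L)) (hK1 : K ≠ ⊥) :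
    p * Nat.card (⁅K, G⁆ : Subgroup L) ≤ Nat.card K := by
  have hp : p.Prime := hpf.out
  have hKp : IsPGroup p K := hN.to_le hK
  have hle := commutator_le_of_normalizes G K hGK
  have hne := commutator_ne_self_of_pgroups p G K hG hKp hGK hK1
  have h1 := relIndex_mul_card' hle
  obtain ⟨k, hk⟩ := IsPGroup.iff_card.mp hKp
  have hd : (⁅K, G⁆ : Subgroup L).relIndex K ∣ p ^ k := hk ▸ Dvd.intro _ h1
  obtain ⟨m, -, hm⟩ := (Nat.dvd_prime_pow hp).mp hd
  have hm0 : m ≠ 0 := by
    rintro rfl
    rw [pow_zero, Subgroup.relIndex_eq_one] at hm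
    exact hne (le_antisymm hle hm)
  have h2 : p ≤ (⁅K, G⁆ : Subgroup L).relIndex K := by rw [hm]; exact Nat.le_self_pow hm0 p
  calc p * Nat.card (⁅K, G⁆ : Subgroup L)
      ≤ (⁅K, G⁆ : Subgroup L).relIndex K * Nat.card (⁅K, G⁆ : Subgroup L) :=
        Nat.mul_le_mul_right _ h2
    _ = Nat.card K := h1

theorem chain_of_U (hGN : G ≤ Subgroup.normalizer (N : Set L)) (n : ℕ) (hn : Nat.card N = p ^ n)
    (hU : ∀ H : Subgroup L, H ≤ N → G ≤ Subgroup.normalizer (H : Set L) → H ≠ ⊥ →
      (⁅H, G⁆).relIndex H = p) :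
    ∀ i ≤ n, Nat.card (Cfsg.iterCommutator N G i) = p ^ (n - i) := by
  have hp : p.Prime := hpf.out
  intro i
  induction i with
  | zero => intro _; exact hn
  | succ i ih =>
    intro hi
    have h0 := ih (by omega)
    obtain ⟨h1, h2, h3⟩ := iter_props N G hGN i
    have hne : Cfsg.iterCommutator N G i ≠ ⊥ := by
      intro hb
      rw [hb, Subgroup.card_bot] at h0
      have : 1 < p ^ (n - i) := Nat.one_lt_pow (by omega) hp.one_lt
      omega
    have h4 := hU _ h1 h2 hne
    have h5 := relIndex_mul_card' h3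
    have h6 : (Cfsg.iterCommutator N G (i + 1)).relIndex (Cfsg.iterCommutator N G i) = p := h4
    rw [h6, h0] at h5
    have e : n - i = (n - (i + 1)) + 1 := by omega
    rw [e, pow_succ, mul_comm] at h5
    exact Nat.eq_of_mul_eq_mul_right hp.pos h5

theorem chain_of_ne_bot (hN : IsPGroup p N) (hG : IsPGroup p G)
    (hGN : G ≤ Subgroup.normalizer (N : Set L)) (n : ℕ) (hn : Nat.card N = p ^ n)
    (h : Cfsg.iterCommutator N G (n - 1) ≠ ⊥ ∨ n = 0) :
    ∀ i ≤ n, Nat.card (Cfsg.iterCommutator N G i) = p ^ (n - i) := by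
  have hp : p.Prime := hpf.out
  by_cases hn0 : n = 0
  · subst hn0
    intro i hi
    have : i = 0 := by omega
    subst this
    exact hn
  have h := h.resolve_right hn0
  have hne : ∀ i ≤ n - 1, Cfsg.iterCommutator N G i ≠ ⊥ := by
    intro i hi hb
    apply h
    exact eq_bot_iff.mpr (hb ▸ iter_anti N G hGN i (n - 1) hi)
  have step : ∀ i ≤ n - 1, p * Nat.card (Cfsg.iterCommutator N G (i + 1)) ≤
      Nat.card (Cfsg.iterCommutator N G i) := fun i hi =>
    p_mul_card_le N G hN hG _ (iter_props N G hGN i).1 (iter_props N G hGN i).2.1 (hne i hi)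
  have mono : ∀ i j, i ≤ j → j ≤ n → Nat.card (Cfsg.iterCommutator N G j) * p ^ j ≤
      Nat.card (Cfsg.iterCommutator N G i) * p ^ i := by
    intro i j hij
    induction j, hij using Nat.le_induction with
    | base => intro _; exact le_rfl
    | succ j hij ih =>
      intro hj
      have h1 := step j (by omega)
      calc Nat.card (Cfsg.iterCommutator N G (j + 1)) * p ^ (j + 1)
          = (p * Nat.card (Cfsg.iterCommutator N G (j + 1))) * p ^ j := by ring
        _ ≤ Nat.card (Cfsg.iterCommutator N G j) * p ^ j := Nat.mul_le_mul_right _ h1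
        _ ≤ _ := ih (by omega)
  have hlow : p ≤ Nat.card (Cfsg.iterCommutator N G (n - 1)) := by
    obtain ⟨k, hk⟩ := IsPGroup.iff_card.mp (hN.to_le (iter_props N G hGN (n - 1)).1)
    rw [hk]
    have hk0 : k ≠ 0 := by
      rintro rfl
      rw [pow_zero] at hk
      exact h (Subgroup.card_eq_one.mp hk)
    exact Nat.le_self_pow hk0 p
  have h00 : Nat.card (Cfsg.iterCommutator N G 0) = p ^ n := hn
  intro i hi
  by_cases hin : i = n
  · rw [hin, Nat.sub_self, pow_zero]
    have h1 := mono 0 n (Nat.zero_le _) le_rfl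
    rw [pow_zero, mul_one, h00] at h1
    have h2 : Nat.card (Cfsg.iterCommutator N G n) ≤ 1 := by
      by_contra hc
      have h3 : 2 ≤ Nat.card (Cfsg.iterCommutator N G n) := by omega
      have h4 : 2 * p ^ n ≤ Nat.card (Cfsg.iterCommutator N G n) * p ^ n :=
        Nat.mul_le_mul_right _ h3
      have h5 : 0 < p ^ n := pow_pos hp.pos n
      omega
    have h3 : 0 < Nat.card (Cfsg.iterCommutator N G n) := Nat.card_pos
    omega
  · have hi' : i ≤ n - 1 := by omega
    have h1 := mono 0 i (Nat.zero_le _) hi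
    rw [pow_zero, mul_one, h00] at h1
    have h2 := mono i (n - 1) hi' (by omega)
    have h3 : p ^ n ≤ Nat.card (Cfsg.iterCommutator N G i) * p ^ i := by
      calc p ^ n = p * p ^ (n - 1) := by
            rw [← pow_succ']; congr 1; omega
        _ ≤ Nat.card (Cfsg.iterCommutator N G (n - 1)) * p ^ (n - 1) :=
            Nat.mul_le_mul_right _ hlow
        _ ≤ _ := h2
    have h4 : Nat.card (Cfsg.iterCommutator N G i) * p ^ i = p ^ (n - i) * p ^ i := by
      rw [← pow_add, Nat.sub_add_cancel hi]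
      exact le_antisymm h1 h3
    exact Nat.eq_of_mul_eq_mul_right (pow_pos hp.pos i) h4

theorem normal_of_chain (hN : IsPGroup p N) (hG : IsPGroup p G)
    (hGN : G ≤ Subgroup.normalizer (N : Set L)) (n : ℕ)
    (hch : ∀ i ≤ n, Nat.card (Cfsg.iterCommutator N G i) = p ^ (n - i)) :
    ∀ i ≤ n, N ⊔ G ≤ Subgroup.normalizer ((Cfsg.iterCommutator N G i : Subgroup L) : Set L) := by
  have hp : p.Prime := hpf.out
  have hP : IsPGroup p (N ⊔ G : Subgroup L) := IsPGroup.to_sup_of_normal_left' hN hG hGN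
  intro i
  induction i with
  | zero => intro _; exact sup_le Subgroup.le_normalizer hGN
  | succ i ih =>
    intro hi
    have hPi := ih (by omega)
    obtain ⟨h1, h2, h3⟩ := iter_props N G hGN i
    have hc1 := hch i (by omega)
    have hc2 := hch (i + 1) hi
    have hne : Cfsg.iterCommutator N G i ≠ ⊥ := by
      intro hb
      rw [hb, Subgroup.card_bot] at hc1
      have : 1 < p ^ (n - i) := Nat.one_lt_pow (by omega) hp.one_lt
      omega
    have hD1 : Cfsg.iterCommutator N G (i + 1) ≤ ⁅Cfsg.iterCommutator N G i, N ⊔ G⁆ :=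
      Subgroup.commutator_mono le_rfl le_sup_right
    have hD2 : ⁅Cfsg.iterCommutator N G i, N ⊔ G⁆ ≤ Cfsg.iterCommutator N G i :=
      commutator_le_of_normalizes _ _ hPi
    have hD3 : ⁅Cfsg.iterCommutator N G i, N ⊔ G⁆ ≠ Cfsg.iterCommutator N G i :=
      commutator_ne_self_of_pgroups p (N ⊔ G) _ hP (hN.to_le h1) hPi hne
    have hDn := normalizer_commutator_right (N ⊔ G) _ hPi
    have hcard : Nat.card (Cfsg.iterCommutator N G i) =
        p * Nat.card (Cfsg.iterCommutator N G (i + 1)) := by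
      rw [hc1, hc2, ← pow_succ']; congr 1; omega
    have heq : ⁅Cfsg.iterCommutator N G i, N ⊔ G⁆ = Cfsg.iterCommutator N G (i + 1) := by
      by_contra hne'
      exact hD3 (Lib_helper1_AutBound.eq_of_between hp _ _ _ hD1 hD2 hcard hne')
    rw [← heq]; exact hDn

theorem classify (hN : IsPGroup p N) (hG : IsPGroup p G)
    (hGN : G ≤ Subgroup.normalizer (N : Set L)) (n : ℕ)
    (hch : ∀ i ≤ n, Nat.card (Cfsg.iterCommutator N G i) = p ^ (n - i))
    (H : Subgroup L) (hHN : H ≤ N) (hGH : G ≤ Subgroup.normalizer (H : Set L)) :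
    (∃ i ≤ n, H = Cfsg.iterCommutator N G i) ∧ N ≤ Subgroup.normalizer (H : Set L) := by
  classical
  have hp : p.Prime := hpf.out
  have hnorm := normal_of_chain N G hN hG hGN n hch
  have hcn : Cfsg.iterCommutator N G n = ⊥ := by
    have := hch n le_rfl
    rw [Nat.sub_self, pow_zero] at this
    exact Subgroup.card_eq_one.mp this
  suffices hex : ∃ i ≤ n, H = Cfsg.iterCommutator N G i by
    obtain ⟨i, hi, rfl⟩ := hex
    exact ⟨⟨i, hi, rfl⟩, le_sup_left.trans (hnorm i hi)⟩
  obtain ⟨j, hjn, hj, hjmax⟩ : ∃ j ≤ n, H ≤ Cfsg.iterCommutator N G j ∧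
      ∀ k, j < k → k ≤ n → ¬ H ≤ Cfsg.iterCommutator N G k :=
    ⟨Nat.findGreatest (fun j => H ≤ Cfsg.iterCommutator N G j) n, Nat.findGreatest_le n,
      Nat.findGreatest_spec (P := fun j => H ≤ Cfsg.iterCommutator N G j) (Nat.zero_le n) hHN,
      fun k hk hkn => Nat.findGreatest_is_greatest hk hkn⟩
  by_cases hjn' : j = n
  · refine ⟨n, le_rfl, ?_⟩
    rw [hjn', hcn] at hj
    rw [hcn]; exact le_bot_iff.mp hj
  have hj1 : ¬ H ≤ Cfsg.iterCommutator N G (j + 1) := hjmax (j + 1) (by omega) (by omega)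
  refine ⟨j, hjn, ?_⟩
  have hcard : Nat.card (Cfsg.iterCommutator N G j) =
      p * Nat.card (Cfsg.iterCommutator N G (j + 1)) := by
    rw [hch j hjn, hch (j + 1) (by omega), ← pow_succ']; congr 1; omega
  have hsup : H ⊔ Cfsg.iterCommutator N G (j + 1) = Cfsg.iterCommutator N G j := by
    apply Lib_helper1_AutBound.eq_of_between hp _ _ _ le_sup_right
      (sup_le hj (iter_props N G hGN j).2.2) hcard
    intro he
    exact hj1 (he ▸ le_sup_left)
  have key : ∀ k, j + 1 ≤ k → k ≤ n →
      H ⊔ Cfsg.iterCommutator N G k = Cfsg.iterCommutator N G j := by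
    intro k hk
    induction k, hk using Nat.le_induction with
    | base => intro _; exact hsup
    | succ k hk ih =>
      intro hkn
      have ih' := ih (by omega)
      have h1 : Cfsg.iterCommutator N G (j + 1) ≤ H ⊔ Cfsg.iterCommutator N G (k + 1) := by
        show ⁅Cfsg.iterCommutator N G j, G⁆ ≤ _
        rw [Subgroup.commutator_le]
        intro x hx g hg
        rw [← ih'] at hx
        have hHk : H ≤ Subgroup.normalizer ((Cfsg.iterCommutator N G k : Subgroup L) : Set L) :=
          hHN.trans (le_sup_left.trans (hnorm k (by omega)))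
        rw [← SetLike.mem_coe, Subgroup.coe_mul_of_left_le_normalizer_right _ _ hHk,
          Set.mem_mul] at hx
        obtain ⟨a, ha, b, hb, rfl⟩ := hx
        have e : ⁅a * b, g⁆ = a * ⁅b, g⁆ * a⁻¹ * ⁅a, g⁆ := by
          simp only [commutatorElement_def]; group
        rw [e]
        have hb' : ⁅b, g⁆ ∈ Cfsg.iterCommutator N G (k + 1) :=
          Subgroup.commutator_mem_commutator hb hg
        have hHk1 : a ∈ Subgroup.normalizer
            ((Cfsg.iterCommutator N G (k + 1) : Subgroup L) : Set L) :=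
          (hHN.trans (le_sup_left.trans (hnorm (k + 1) hkn))) ha
        have h2 : a * ⁅b, g⁆ * a⁻¹ ∈ Cfsg.iterCommutator N G (k + 1) :=
          (Subgroup.mem_normalizer_iff.mp hHk1 _).mp hb'
        have h3 : ⁅a, g⁆ ∈ H :=
          (commutator_le_of_normalizes G H hGH) (Subgroup.commutator_mem_commutator ha hg)
        exact Subgroup.mul_mem _ (Subgroup.mem_sup_right h2) (Subgroup.mem_sup_left h3)
      apply le_antisymm
      · exact sup_le hj (iter_anti N G hGN j (k + 1) (by omega))
      · rw [← hsup]; exact sup_le le_sup_left h1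
  have := key n (by omega) le_rfl
  rw [hcn, sup_bot_eq] at this
  exact this

theorem main (hN : IsPGroup p N) (hG : IsPGroup p G)
    (hGN : G ≤ Subgroup.normalizer (N : Set L)) (n : ℕ) (hn : Nat.card N = p ^ n) :
    ((∀ H : Subgroup L, H ≤ N → G ≤ Subgroup.normalizer (H : Set L) → H ≠ ⊥ →
        (⁅H, G⁆).relIndex H = p) ↔ Cfsg.iterCommutator N G (n - 1) ≠ ⊥ ∨ n = 0) ∧
    ((∀ H : Subgroup L, H ≤ N → G ≤ Subgroup.normalizer (H : Set L) → H ≠ ⊥ →
        (⁅H, G⁆).relIndex H = p) → ∀ H : Subgroup L, H ≤ N →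
        G ≤ Subgroup.normalizer (H : Set L) →
        (∃ i ≤ n, H = Cfsg.iterCommutator N G i) ∧ N ≤ Subgroup.normalizer (H : Set L)) := by
  have hp : p.Prime := hpf.out
  refine ⟨⟨fun hU => ?_, fun h => ?_⟩, fun hU H hHN hGH =>
    classify N G hN hG hGN n (chain_of_U N G hGN n hn hU) H hHN hGH⟩
  · have hch := chain_of_U N G hGN n hn hU
    by_cases hn0 : n = 0
    · exact Or.inr hn0
    · left
      intro hb
      have h1 := hch (n - 1) (by omega)
      rw [hb, Subgroup.card_bot] at h1
      have : 1 < p ^ (n - (n - 1)) := Nat.one_lt_pow (by omega) hp.one_lt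
      omega
  · have hch := chain_of_ne_bot N G hN hG hGN n hn h
    intro H hHN hGH hH1
    obtain ⟨⟨i, hi, rfl⟩, -⟩ := classify N G hN hG hGN n hch H hHN hGH
    have hin : i < n := by
      by_contra hc
      have : i = n := by omega
      apply hH1
      have h1 := hch i hi
      rw [this, Nat.sub_self, pow_zero] at h1
      rw [this]
      exact Subgroup.card_eq_one.mp h1
    have h5 := relIndex_mul_card' (iter_props N G hGN i).2.2
    have h6 : (⁅Cfsg.iterCommutator N G i, G⁆).relIndex (Cfsg.iterCommutator N G i) =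
        (Cfsg.iterCommutator N G (i + 1)).relIndex (Cfsg.iterCommutator N G i) := rfl
    rw [h6]
    rw [hch i hi, hch (i + 1) (by omega)] at h5
    have e : n - i = (n - (i + 1)) + 1 := by omega
    rw [e, pow_succ, mul_comm] at h5
    exact Nat.eq_of_mul_eq_mul_left (pow_pos hp.pos _) h5

end Cfsg.Agent.Lib_helper1_Uniserial
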