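import Mathlib
import Cfsg.Agent.Lib_helper1_MinNonNil2
import Cfsg.Agent.Lib_helper1_Basic
import Cfsg.Agent.Lib_helper1_Hall

set_option autoImplicit false

namespace Cfsg.Agent.Lib_helper1_Wielandt

open Cfsg Cfsg.Agent.Lib_helper1_Frobenius Cfsg.Agent.Lib_helper1_MinNonNil
  Cfsg.Agent.Lib_helper1_MinNonNil2

universe u

/-- Sylow `q`-subgroup and `q`-complement of a finite nilpotent group. -/
theorem sylow_npc_data {X : Type u} [Group X] [Finite X] [hX : Group.IsNilpotent X] (q : ℕ)
    [Fact q.Prime] :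
    ∃ S N : Subgroup X, S.Normal ∧ N.Normal ∧ IsPGroup q S ∧ ¬ q ∣ S.index ∧
      (Nat.card N).Coprime q ∧ (∃ j : ℕ, N.index = q ^ j) ∧ S ⊔ N = ⊤ ∧
      ∀ s ∈ S, ∀ t ∈ N, s * t = t * s := by
  have hsyl := ((Group.isNilpotent_of_finite_tfae (G := X)).out 0 3).mp hX
  obtain ⟨S⟩ : Nonempty (Sylow q X) := inferInstance
  have hSn : (S : Subgroup X).Normal := hsyl q inferInstance S
  obtain ⟨N, hN, hc, j, hj⟩ := npc_of_nilpotent (G := X) q
  refine ⟨S, N, hSn, hN, S.2, S.not_dvd_index, hc, ⟨j, hj⟩,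
    sup_eq_top_of_index _ _ S.not_dvd_index hj, ?_⟩
  intro s hs t ht
  have hcN : s * t * s⁻¹ * t⁻¹ ∈ N := mul_mem (hN.conj_mem t ht s) (inv_mem ht)
  have hcS : s * t * s⁻¹ * t⁻¹ ∈ (S : Subgroup X) := by
    have : s * t * s⁻¹ * t⁻¹ = s * (t * s⁻¹ * t⁻¹) := by group
    rw [this]; exact mul_mem hs (hSn.conj_mem _ (inv_mem hs) t)
  have h1 := eq_one_of_coprime_of_pgroup N (S : Subgroup X) hc S.2 hcN hcS
  calc s * t = (s * t * s⁻¹ * t⁻¹) * (t * s) := by group
    _ = t * s := by rw [h1, one_mul]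

/-- A nontrivial finite group all of whose proper subgroups are nilpotent has a nontrivial normal
Sylow subgroup with a complement. -/
theorem normal_sylow_data {X : Type u} [Group X] [Finite X] [Nontrivial X]
    (h : ∀ M : Subgroup X, M ≠ ⊤ → Group.IsNilpotent M) :
    ∃ (q : ℕ) (Q' L' : Subgroup X), q.Prime ∧ Q'.Normal ∧ IsPGroup q Q' ∧ Q' ≠ ⊥ ∧
      Q' ⊔ L' = ⊤ ∧ (Nat.card L').Coprime q := by
  by_cases hnil : Group.IsNilpotent X
  · have hcard : Nat.card X ≠ 1 := by
      have := Finite.one_lt_card (α := X); omega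
    have hq := Nat.minFac_prime hcard
    haveI : Fact (Nat.card X).minFac.Prime := ⟨hq⟩
    obtain ⟨S, N, hSn, hN, hS, hSi, hc, ⟨j, hj⟩, hsup, -⟩ :=
      sylow_npc_data (X := X) (Nat.card X).minFac
    refine ⟨_, S, N, hq, hSn, hS, ?_, hsup, hc⟩
    intro hbot
    rw [hbot, Subgroup.index_bot] at hSi
    exact hSi (Nat.minFac_dvd _)
  · obtain ⟨q, r, Q, g, k, a, hq, hr, hne, hQ, hQn, htop, hgr, hgC, ha, hcardG, hQi, hZi, hinf⟩ :=
      minNonNil_data ⟨hnil, h⟩
    refine ⟨q, Q, Subgroup.zpowers g, hq, hQn, hQ, ?_, htop, ?_⟩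
    · intro hbot
      apply hgC
      rw [hbot, Subgroup.mem_centralizer_iff]
      intro t ht
      have : t = 1 := ht
      rw [this, one_mul, mul_one]
    · rw [Nat.card_zpowers, hgr]
      exact Nat.Coprime.pow_left k ((Nat.coprime_primes hr hq).mpr hne.symm)

theorem wielandt_aux (n : ℕ) : ∀ (G : Type u) [Group G] [Finite G] (H K : Subgroup G),
    Group.IsNilpotent H → (Nat.card H).Coprime H.index →
    (∀ p : ℕ, p.Prime → p ∣ Nat.card K → p ∣ Nat.card H) → Nat.card K ≤ n →
    ∃ x : G, ∀ k ∈ K, x⁻¹ * k * x ∈ H := by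
  induction n with
  | zero =>
    intro G _ _ H K _ _ _ hc
    have := Nat.card_pos (α := K)
    omega
  | succ n ih =>
    intro G _ _ H K hH hHall hK hcard
    by_cases hKb : K = ⊥
    · refine ⟨1, fun k hk => ?_⟩
      rw [hKb, Subgroup.mem_bot] at hk
      rw [hk]; simp
    haveI : Nontrivial K := (Subgroup.nontrivial_iff_ne_bot K).mpr hKb
    haveI := hH
    have hprop : ∀ M : Subgroup K, M ≠ ⊤ → Group.IsNilpotent M := by
      intro M hM
      have hlt : Nat.card M < Nat.card K := Cfsg.Agent.Lib_helper1_SZConj.card_lt_of_ne_top M hM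
      have hcM : Nat.card (M.map K.subtype) ≤ n := by rw [Subgroup.card_subtype]; omega
      obtain ⟨x, hx⟩ := ih G H (M.map K.subtype) hH hHall (fun p hp hpd =>
        hK p hp (dvd_trans hpd (Subgroup.card_dvd_of_le (Subgroup.map_subtype_le M)))) hcM
      let f : M →* H :=
        { toFun := fun m => ⟨x⁻¹ * ((m : K) : G) * x, hx _ (Subgroup.mem_map_of_mem _ m.2)⟩
          map_one' := by apply Subtype.ext; simp
          map_mul' := by intro a b; apply Subtype.ext; simp; group }
      have hf : Function.Injective f := by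
        intro a b hab
        have h1 : x⁻¹ * ((a : K) : G) * x = x⁻¹ * ((b : K) : G) * x := congrArg Subtype.val hab
        have h2 : ((a : K) : G) = ((b : K) : G) := by
          have := congrArg (fun z => x * z * x⁻¹) h1
          simpa [mul_assoc] using this
        exact Subtype.ext (Subtype.ext h2)
      exact Group.nilpotent_of_mulEquiv (MonoidHom.ofInjective hf).symm
    obtain ⟨q, Q', L', hq, hQ'n, hQ'p, hQ'1, hsup, hLc⟩ := normal_sylow_data hprop
    haveI : Fact q.Prime := ⟨hq⟩
    have hqK : q ∣ Nat.card K := by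
      obtain ⟨a, ha⟩ := hQ'p.exists_card_eq
      have ha0 : a ≠ 0 := by
        intro h0
        rw [h0, pow_zero] at ha
        exact hQ'1 (Subgroup.card_eq_one.mp ha)
      have h1 : q ∣ Nat.card Q' := by rw [ha]; exact dvd_pow_self q ha0
      exact dvd_trans h1 (Subgroup.card_subgroup_dvd_card Q')
    have hqH : q ∣ Nat.card H := hK q hq hqK
    obtain ⟨S, N, hSn, hN, hS, hSi, hc, ⟨j, hj⟩, -, hcomm⟩ := sylow_npc_data (X := H) q
    have hH₁p : IsPGroup q (S.map H.subtype) := hS.map _
    have hH₁i : ¬ q ∣ (S.map H.subtype).index := by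
      rw [Subgroup.index_map_subtype]
      intro hd
      rcases (Nat.Prime.dvd_mul hq).mp hd with h1 | h1
      · exact hSi h1
      · exact (Nat.Prime.coprime_iff_not_dvd hq).mp
          (Nat.Coprime.coprime_dvd_left hqH hHall) h1
    have hQp : IsPGroup q (Q'.map K.subtype) := hQ'p.map _
    obtain ⟨R, hR⟩ := hQp.exists_le_sylow
    obtain ⟨g, hg⟩ := MulAction.exists_smul_eq G (hH₁p.toSylow hH₁i) R
    have hQg : ∀ t ∈ Q'.map K.subtype, g⁻¹ * t * g ∈ S.map H.subtype := by
      intro t ht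
      have h1 : t ∈ ((g • (hH₁p.toSylow hH₁i) : Sylow q G) : Subgroup G) := by
        rw [hg]; exact hR ht
      rw [mem_smul_sylow] at h1
      exact h1
    obtain ⟨Nn, hNn⟩ : ∃ Nn : Subgroup G,
      Nn = Subgroup.normalizer ((Q'.map K.subtype : Subgroup G) : Set G) := ⟨_, rfl⟩
    have hH₂gmem : ∀ y : G, y ∈ (N.map H.subtype).map (MulAut.conj g).toMonoidHom ↔
        ∃ t ∈ N, y = g * (t : G) * g⁻¹ := by
      intro y
      constructor
      · rintro ⟨_, ⟨t, ht, rfl⟩, rfl⟩; exact ⟨t, ht, rfl⟩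
      · rintro ⟨t, ht, rfl⟩; exact ⟨_, ⟨t, ht, rfl⟩, rfl⟩
    have hH₂N : (N.map H.subtype).map (MulAut.conj g).toMonoidHom ≤ Nn := by
      intro y hy
      obtain ⟨t, ht, rfl⟩ := (hH₂gmem y).mp hy
      rw [hNn]
      apply Subgroup.centralizer_le_normalizer
      rw [Subgroup.mem_centralizer_iff]
      intro z hz
      obtain ⟨s, hs, hse⟩ := hQg z hz
      have h1 : (s : G) * (t : G) = (t : G) * (s : G) := congrArg Subtype.val (hcomm s hs t ht)
      have hz' : z = g * (s : G) * g⁻¹ := by
        have : (s : G) = g⁻¹ * z * g := hse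
        rw [this]; group
      rw [hz']
      calc g * (s : G) * g⁻¹ * (g * (t : G) * g⁻¹) = g * ((s : G) * (t : G)) * g⁻¹ := by group
        _ = g * ((t : G) * (s : G)) * g⁻¹ := by rw [h1]
        _ = g * (t : G) * g⁻¹ * (g * (s : G) * g⁻¹) := by group
    have hKN : K ≤ Nn := by
      intro k hk
      rw [hNn, Subgroup.mem_normalizer_iff]
      intro z
      constructor
      · rintro ⟨t, ht, rfl⟩
        exact ⟨⟨k, hk⟩ * t * ⟨k, hk⟩⁻¹, hQ'n.conj_mem t ht ⟨k, hk⟩, rfl⟩
      · rintro ⟨t, ht, hte⟩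
        refine ⟨⟨k, hk⟩⁻¹ * t * ⟨k, hk⟩, ?_, ?_⟩
        · have := hQ'n.conj_mem t ht ⟨k, hk⟩⁻¹
          simpa using this
        · show k⁻¹ * (t : G) * k = z
          have : (t : G) = k * z * k⁻¹ := hte
          rw [this]; group
    have hNnil : Group.IsNilpotent
        (((N.map H.subtype).map (MulAut.conj g).toMonoidHom).subgroupOf Nn) := by
      haveI : Group.IsNilpotent N := Subgroup.isNilpotent N
      have e1 : N ≃* (N.map H.subtype) := N.equivMapOfInjective _ H.subtype_injective
      have e2 : (N.map H.subtype) ≃* ((N.map H.subtype).map (MulAut.conj g).toMonoidHom) :=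
        (N.map H.subtype).equivMapOfInjective _ (MulAut.conj g).injective
      have e3 : (((N.map H.subtype).map (MulAut.conj g).toMonoidHom).subgroupOf Nn) ≃*
          ((N.map H.subtype).map (MulAut.conj g).toMonoidHom) := Subgroup.subgroupOfEquivOfLe hH₂N
      exact Group.nilpotent_of_mulEquiv ((e1.trans e2).trans e3.symm)
    have hcardH₂ : Nat.card ((N.map H.subtype).map (MulAut.conj g).toMonoidHom) = Nat.card N := by
      rw [Subgroup.card_map_of_injective (show Function.Injective ((MulAut.conj g).toMonoidHom)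
        from (MulAut.conj g).injective), Subgroup.card_subtype]
    have hidxH₂ : ((N.map H.subtype).map (MulAut.conj g).toMonoidHom).index
        = N.index * H.index := by
      have : ((N.map H.subtype).map (MulAut.conj g).toMonoidHom).index
          = (N.map H.subtype).index := Subgroup.index_map_equiv _ (MulAut.conj g)
      rw [this, Subgroup.index_map_subtype]
    have hHall₂ : (Nat.card (((N.map H.subtype).map (MulAut.conj g).toMonoidHom).subgroupOf Nn)).Coprime
        (((N.map H.subtype).map (MulAut.conj g).toMonoidHom).subgroupOf Nn).index := by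
      rw [Cfsg.Agent.Lib_helper1_Hall.card_subgroupOf_of_le hH₂N, hcardH₂]
      have h1 : (((N.map H.subtype).map (MulAut.conj g).toMonoidHom).subgroupOf Nn).index ∣
          ((N.map H.subtype).map (MulAut.conj g).toMonoidHom).index :=
        Subgroup.relIndex_dvd_index_of_le hH₂N
      rw [hidxH₂, hj] at h1
      apply Nat.Coprime.coprime_dvd_right h1
      apply Nat.Coprime.mul_right
      · exact Nat.Coprime.pow_right j hc
      · exact Nat.Coprime.coprime_dvd_left (Subgroup.card_subgroup_dvd_card N) hHall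
    have hLN : L'.map K.subtype ≤ Nn := le_trans (Subgroup.map_subtype_le L') hKN
    have hLcard : Nat.card ((L'.map K.subtype).subgroupOf Nn) ≤ n := by
      rw [Cfsg.Agent.Lib_helper1_Hall.card_subgroupOf_of_le hLN, Subgroup.card_subtype]
      have hL'ne : L' ≠ ⊤ := by
        intro htop
        rw [htop, Subgroup.card_top] at hLc
        exact (Nat.Prime.coprime_iff_not_dvd hq).mp hLc.symm hqK
      have := Cfsg.Agent.Lib_helper1_SZConj.card_lt_of_ne_top L' hL'ne
      omega
    have hLprimes : ∀ p : ℕ, p.Prime → p ∣ Nat.card ((L'.map K.subtype).subgroupOf Nn) →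
        p ∣ Nat.card (((N.map H.subtype).map (MulAut.conj g).toMonoidHom).subgroupOf Nn) := by
      intro p hp hpd
      rw [Cfsg.Agent.Lib_helper1_Hall.card_subgroupOf_of_le hLN, Subgroup.card_subtype] at hpd
      rw [Cfsg.Agent.Lib_helper1_Hall.card_subgroupOf_of_le hH₂N, hcardH₂]
      have hpK : p ∣ Nat.card K := dvd_trans hpd (Subgroup.card_subgroup_dvd_card L')
      have hpH : p ∣ Nat.card H := hK p hp hpK
      have hpq : p ≠ q := by
        intro h
        rw [h] at hpd
        exact (Nat.Prime.coprime_iff_not_dvd hq).mp hLc.symm hpd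
      have h1 := Subgroup.card_mul_index N
      rw [hj] at h1
      rw [← h1] at hpH
      rcases (Nat.Prime.dvd_mul hp).mp hpH with h2 | h2
      · exact h2
      · exact absurd ((Nat.prime_dvd_prime_iff_eq hp hq).mp (hp.dvd_of_dvd_pow h2)) hpq
    obtain ⟨x, hx⟩ := ih Nn (((N.map H.subtype).map (MulAut.conj g).toMonoidHom).subgroupOf Nn)
      ((L'.map K.subtype).subgroupOf Nn) hNnil hHall₂ hLprimes hLcard
    refine ⟨(x : G) * g, ?_⟩
    have hle : K ≤ H.comap (MulAut.conj ((x : G) * g)⁻¹).toMonoidHom := by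
      have hKsup : K = Q'.map K.subtype ⊔ L'.map K.subtype := by
        rw [← Subgroup.map_sup, hsup, ← MonoidHom.range_eq_map, Subgroup.range_subtype]
      rw [hKsup]
      apply sup_le
      · intro t ht
        rw [Subgroup.mem_comap]
        show ((x : G) * g)⁻¹ * t * (((x : G) * g)⁻¹)⁻¹ ∈ H
        have hxN : (x : G) ∈ Subgroup.normalizer ((Q'.map K.subtype : Subgroup G) : Set G) :=
          hNn ▸ x.2
        have h1 : (x : G)⁻¹ * t * (x : G) ∈ Q'.map K.subtype :=
          (Subgroup.mem_normalizer_iff''.mp hxN t).mp ht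
        have h2 := hQg _ h1
        have h3 : ((x : G) * g)⁻¹ * t * (((x : G) * g)⁻¹)⁻¹
            = g⁻¹ * ((x : G)⁻¹ * t * (x : G)) * g := by group
        rw [h3]; exact Subgroup.map_subtype_le S h2
      · intro l hl
        rw [Subgroup.mem_comap]
        show ((x : G) * g)⁻¹ * l * (((x : G) * g)⁻¹)⁻¹ ∈ H
        have hlN : l ∈ Nn := hLN hl
        have h1 := hx ⟨l, hlN⟩ (by rw [Subgroup.mem_subgroupOf]; exact hl)
        rw [Subgroup.mem_subgroupOf] at h1
        have h1' : (x : G)⁻¹ * l * (x : G) ∈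
            (N.map H.subtype).map (MulAut.conj g).toMonoidHom := by simpa using h1
        obtain ⟨t, ht, hte⟩ := (hH₂gmem _).mp h1'
        have h3 : ((x : G) * g)⁻¹ * l * (((x : G) * g)⁻¹)⁻¹
            = g⁻¹ * ((x : G)⁻¹ * l * (x : G)) * g := by group
        rw [h3, hte]
        have : g⁻¹ * (g * (t : G) * g⁻¹) * g = (t : G) := by group
        rw [this]; exact t.2
    intro k hk
    have := hle hk
    rw [Subgroup.mem_comap] at this
    have h3 : ((x : G) * g)⁻¹ * k * ((x : G) * g)
        = (MulAut.conj ((x : G) * g)⁻¹).toMonoidHom k := by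
      show _ = ((x : G) * g)⁻¹ * k * (((x : G) * g)⁻¹)⁻¹
      group
    rw [h3]; exact this

open scoped Pointwise in
/-- **Wielandt**: if `G` has a nilpotent Hall subgroup `H`, every subgroup whose order involves
only primes dividing `|H|` lies in a conjugate of `H`. -/
theorem wielandt {G : Type u} [Group G] [Finite G] (H K : Subgroup G)
    (hH : Group.IsNilpotent H) (hHall : (Nat.card H).Coprime H.index)
    (hK : ∀ p : ℕ, p.Prime → p ∣ Nat.card K → p ∣ Nat.card H) :
    ∃ x : G, K ≤ MulAut.conj x • H := by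
  obtain ⟨x, hx⟩ := wielandt_aux (Nat.card K) G H K hH hHall hK le_rfl
  exact ⟨x, fun k hk => (Cfsg.Agent.Lib_helper1_Basic.mem_conj_smul H x k).mpr (hx k hk)⟩

end Cfsg.Agent.Lib_helper1_Wielandt
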