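import Mathlib
import Cfsg.Prelude
import Cfsg.Agent.Lib_helper1_Basic
import Cfsg.Agent.Lib_helper1_Hall
import Cfsg.Agent.Lib_helper1_Coprime
import Cfsg.Agent.Lib_helper2_Four
import Cfsg.Agent.Lib_helper6_CycSylow

set_option autoImplicit false

namespace Cfsg.Agent.Lib_helper1_ZCenter

universe u

open Cfsg.Agent.Lib_helper1_Coprime Cfsg.Agent.Lib_helper1_Basic Cfsg.Agent.Lib_helper1_Hall

/-- a Z-group in which all subgroups of order `pq` are abelian has nontrivial centre -/
theorem center_ne_bot_of_zgroup {F : Type u} [Group F] [Finite F] [Nontrivial F] [IsZGroup F]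
    (hpq : ∀ (T : Subgroup F) (a b : ℕ), a.Prime → b.Prime → a < b → Nat.card T = a * b →
      ∀ u ∈ T, ∀ v ∈ T, u * v = v * u) : Subgroup.center F ≠ ⊥ := by
  classical
  have hcard1 : Nat.card F ≠ 1 := (Finite.one_lt_card (α := F)).ne'
  set q := (Nat.card F).minFac with hq
  have hqp : q.Prime := Nat.minFac_prime hcard1
  haveI : Fact q.Prime := ⟨hqp⟩
  obtain ⟨Q⟩ : Nonempty (Sylow q F) := inferInstance
  have hQc : IsCyclic Q := inferInstance
  obtain ⟨M, hMn, hcomp⟩ : ∃ M : Subgroup F, M.Normal ∧ M.IsComplement' (Q : Subgroup F) :=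
    ⟨_, inferInstance, IsCyclic.isComplement' (G := F) (p := q) rfl hQc⟩
  have hqQ : q ∣ Nat.card Q := Q.dvd_card_of_dvd_card (Nat.minFac_dvd _)
  obtain ⟨x', hx'⟩ := exists_prime_orderOf_dvd_card' (G := Q) q hqQ
  have hxo : orderOf (x' : F) = q := (Subgroup.orderOf_coe x').trans hx'
  have hxQ : (x' : F) ∈ (Q : Subgroup F) := x'.2
  generalize (x' : F) = x at hxo hxQ
  have hx1 : x ≠ 1 := by
    rintro rfl
    rw [orderOf_one] at hxo
    exact hqp.one_lt.ne hxo
  have hMcard : Nat.card M = (Q : Subgroup F).index := hcomp.index_eq_card.symm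
  have hMq : ¬ q ∣ Nat.card M := by
    rw [hMcard]
    exact Q.not_dvd_index
  have hzx : Nat.card (Subgroup.zpowers x) = q := by rw [Nat.card_zpowers, hxo]
  have hxM : Subgroup.zpowers x ≤ Subgroup.normalizer (M : Set F) := by
    rw [Subgroup.normalizer_eq_top_iff.mpr hMn]
    exact le_top
  have hcop : (Nat.card (Subgroup.zpowers x)).Coprime (Nat.card M) := by
    rw [hzx]
    exact (Nat.Prime.coprime_iff_not_dvd hqp).mpr hMq
  haveI : Group.IsSolvable (Subgroup.zpowers x) :=
    isSolvable_of_comm (fun a b => mul_comm' a b)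
  have hMle : M ≤ Subgroup.centralizer {x} := by
    rw [← Subgroup.relIndex_eq_one]
    by_contra hne
    obtain ⟨r, hr, hrd⟩ := Nat.exists_prime_and_dvd hne
    haveI : Fact r.Prime := ⟨hr⟩
    have hrM : r ∣ Nat.card M := hrd.trans (Subgroup.relIndex_dvd_card _ _)
    have hrq : r ≠ q := fun h => hMq (h ▸ hrM)
    have hqr : q < r := lt_of_le_of_ne (Nat.minFac_le_of_dvd hr.two_le
      (hrM.trans (Subgroup.card_subgroup_dvd_card M))) (Ne.symm hrq)
    obtain ⟨R, hR⟩ := exists_invariant_sylow (Subgroup.zpowers x) M hxM hcop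
      (Or.inl inferInstance) r
    have hR'p : IsPGroup r ((R : Subgroup M).map M.subtype) := R.isPGroup'.map M.subtype
    haveI hR'c : IsCyclic ((R : Subgroup M).map M.subtype) := hR'p.isCyclic_of_isZGroup
    have hrR : r ∣ Nat.card ((R : Subgroup M).map M.subtype) := by
      rw [Subgroup.card_map_of_injective (Subgroup.subtype_injective _)]
      exact R.dvd_card_of_dvd_card hrM
    obtain ⟨y', hy'⟩ := exists_prime_orderOf_dvd_card'
      (G := ((R : Subgroup M).map M.subtype)) r hrR
    have hyo : orderOf (y' : F) = r := (Subgroup.orderOf_coe y').trans hy'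
    have hyR : (y' : F) ∈ (R : Subgroup M).map M.subtype := y'.2
    generalize (y' : F) = y at hyo hyR
    have hy1 : y ≠ 1 := by
      rintro rfl
      rw [orderOf_one] at hyo
      exact hr.one_lt.ne hyo
    have hxN := hR (Subgroup.mem_zpowers x)
    have hxy : x * y * x⁻¹ ∈ Subgroup.zpowers y := by
      apply Cfsg.Agent.Lib_helper2_Four.cyclic_mem_zpowers' ((R : Subgroup M).map M.subtype) hyR
        ((Subgroup.mem_normalizer_iff.mp hxN y).mp hyR)
      rw [conj_pow, pow_orderOf_eq_one]
      group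
    have hnorm : Subgroup.zpowers x ≤ Subgroup.normalizer (Subgroup.zpowers y : Set F) := by
      rw [Subgroup.zpowers_le]
      apply mem_normalizer_of_conj_le
      intro m hm
      obtain ⟨i, rfl⟩ := Subgroup.mem_zpowers_iff.mp hm
      rw [← conj_zpow]
      exact Subgroup.zpow_mem _ hxy i
    have hcop2 : (Nat.card (Subgroup.zpowers x)).Coprime (Nat.card (Subgroup.zpowers y)) := by
      rw [Nat.card_zpowers, Nat.card_zpowers, hxo, hyo]
      exact (Nat.coprime_primes hqp hr).mpr (Ne.symm hrq)
    obtain ⟨-, hcardT⟩ := card_sup_of_normalizes (Subgroup.zpowers x) (Subgroup.zpowers y)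
      hnorm hcop2
    rw [card_subgroupOf_of_le le_sup_left, card_subgroupOf_of_le le_sup_right,
      Nat.card_zpowers, Nat.card_zpowers, hxo, hyo] at hcardT
    have hcomm := hpq (Subgroup.zpowers y ⊔ Subgroup.zpowers x) q r hqp hr hqr
      (by rw [← hcardT, mul_comm]) x (Subgroup.mem_sup_right (Subgroup.mem_zpowers x)) y
      (Subgroup.mem_sup_left (Subgroup.mem_zpowers y))
    have hidx : ¬ r ∣ ((R : Subgroup M).map M.subtype).index := by
      rw [Subgroup.index_map_subtype]
      intro h
      rcases (Nat.Prime.dvd_mul hr).mp h with h1 | h1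
      · exact R.not_dvd_index h1
      · rw [hcomp.symm.index_eq_card] at h1
        obtain ⟨j, hj⟩ := (IsPGroup.iff_card (p := q)).mp Q.isPGroup'
        rw [hj] at h1
        exact hrq ((Nat.prime_dvd_prime_iff_eq hr hqp).mp (hr.dvd_of_dvd_pow h1))
    have hcen := Cfsg.Agent.Lib_helper6_CycSylow.commute_of_cyclic (hR'p.toSylow hidx)
      (by rw [IsPGroup.toSylow_coe]; exact hR'c) x (by
        intro z
        rw [IsPGroup.toSylow_coe]
        exact Subgroup.mem_normalizer_iff.mp hxN z)
      (Or.inr ⟨y, by rw [IsPGroup.toSylow_coe]; exact hyR, hy1, by rw [hcomm]; group⟩)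
    have h1 : (R : Subgroup M) ≤ (Subgroup.centralizer {x}).subgroupOf M := by
      intro z hz
      rw [Subgroup.mem_subgroupOf, Subgroup.mem_centralizer_iff]
      intro w hw
      rw [Set.mem_singleton_iff] at hw
      rw [hw]
      exact hcen (z : F) (by
        rw [IsPGroup.toSylow_coe]
        exact Subgroup.mem_map_of_mem M.subtype hz)
    have h2 : ((Subgroup.centralizer {x}).subgroupOf M).index ∣ (R : Subgroup M).index :=
      Subgroup.index_dvd_of_le h1
    exact R.not_dvd_index (hrd.trans h2)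
  intro hbot
  apply hx1
  have hxc : x ∈ Subgroup.center F := by
    rw [Subgroup.mem_center_iff]
    intro f
    have hf : f ∈ M ⊔ (Q : Subgroup F) := hcomp.sup_eq_top ▸ Subgroup.mem_top f
    rw [Subgroup.mem_sup_of_normal_left] at hf
    obtain ⟨m, hm, u, hu, rfl⟩ := hf
    have h1 := Subgroup.mem_centralizer_iff.mp (hMle hm) x rfl
    have h2 : u * x = x * u := congrArg Subtype.val (mul_comm' (⟨u, hu⟩ : Q) ⟨x, hxQ⟩)
    calc m * u * x = m * (u * x) := by group
      _ = m * (x * u) := by rw [h2]
      _ = (m * x) * u := by group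
      _ = (x * m) * u := by rw [h1]
      _ = x * (m * u) := by group
  rw [hbot, Subgroup.mem_bot] at hxc
  exact hxc

end Cfsg.Agent.Lib_helper1_ZCenter
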