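import Mathlib
import Cfsg.Prelude.Def_PLocal
import Cfsg.Prelude.Def_Local
import Cfsg.Agent.Lib_helper1_GT0
import Cfsg.Agent.Lib_helper2_PCons
import Cfsg.Agent.Lib_helper7_PPrime

set_option autoImplicit false
set_option maxHeartbeats 1600000

/-! Glauberman's ZJ-theorem in the `p`-constrained, `p`-stable vocabulary. -/

namespace Cfsg.Agent.H1ZJCons

open Cfsg
open scoped commutatorElement Pointwise

theorem comm_le_of_le {G : Type*} [Group G] {H₁ H₂ K : Subgroup G} (h1 : H₁ ≤ K)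
    (h2 : H₂ ≤ K) : ⁅H₁, H₂⁆ ≤ K := by
  rw [Subgroup.commutator_le]
  intro x hx y hy
  rw [commutatorElement_def]
  exact K.mul_mem (K.mul_mem (K.mul_mem (h1 hx) (h2 hy)) (K.inv_mem (h1 hx))) (K.inv_mem (h2 hy))

theorem zj_core {G : Type*} [Group G] [Finite G] {p : ℕ} [Fact p.Prime] (hp : p ≠ 2)
    (O : Subgroup G) [hOn : O.Normal] (hOc : (Nat.card O).Coprime p)
    (hc' : Subgroup.centralizer (Cfsg.pCore p (G ⧸ O) : Set (G ⧸ O)) ≤ Cfsg.pCore p (G ⧸ O))
    (hs' : ∀ A Q : Subgroup G, IsPGroup p A → IsPGroup p Q →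
      (∀ a ∈ A, ∀ x ∈ Q, a * x * a⁻¹ ∈ Q) →
      Q ≤ (Cfsg.pCore p (G ⧸ O)).comap (QuotientGroup.mk' O) → (O ⊔ Q).Normal →
      ⁅⁅Q, A⁆, A⁆ = ⊥ →
        (A.subgroupOf (Subgroup.normalizer (Q : Set G))).map
            (QuotientGroup.mk' ((Subgroup.centralizer (Q : Set G)).subgroupOf
              (Subgroup.normalizer (Q : Set G))))
          ≤ Cfsg.pCore p _)
    (P : Sylow p G) :
    O ⊔ Subgroup.normalizer (Cfsg.centerThompsonAOf ((P : Subgroup G)) : Set G) = ⊤ := by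
  obtain ⟨π, hπ⟩ : ∃ π : G →* G ⧸ O, π = QuotientGroup.mk' O := ⟨_, rfl⟩
  have hπs : Function.Surjective π := hπ ▸ QuotientGroup.mk'_surjective O
  have hπ1 : ∀ x : G, π x = 1 ↔ x ∈ O := by
    intro x; rw [hπ]; exact QuotientGroup.eq_one_iff x
  have hinj : ∀ x ∈ (P : Subgroup G), π x = 1 → x = 1 := fun x hx hx1 =>
    Lib_helper1_Frobenius.eq_one_of_coprime_of_pgroup O (P : Subgroup G) hOc P.isPGroup'
      ((hπ1 x).mp hx1) hx
  obtain ⟨Pb, hPb⟩ : ∃ Pb : Sylow p (G ⧸ O), Pb = P.mapSurjective hπs := ⟨_, rfl⟩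
  have hPbcoe : (Pb : Subgroup (G ⧸ O)) = (P : Subgroup G).map π := by
    rw [hPb, Sylow.coe_mapSurjective]
  have hst' : ∀ (V : Subgroup (G ⧸ O)) [V.Normal], IsPGroup p V →
      ∀ ab ∈ (Pb : Subgroup (G ⧸ O)),
      ⁅⁅V, Subgroup.zpowers ab⁆, Subgroup.zpowers ab⁆ = ⊥ →
      (QuotientGroup.mk ab : (G ⧸ O) ⧸ Subgroup.centralizer (V : Set (G ⧸ O))) ∈
        Cfsg.pCore p ((G ⧸ O) ⧸ Subgroup.centralizer (V : Set (G ⧸ O))) := by
    intro V hVn hVp ab hab hquad
    rw [hPbcoe] at hab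
    obtain ⟨a, haP, rfl⟩ := hab
    obtain ⟨PV, hPVe⟩ : ∃ PV, PV = (P : Subgroup G) ⊓ V.comap π := ⟨_, rfl⟩
    have hPVP : PV ≤ P := hPVe ▸ inf_le_left
    have hPVp : IsPGroup p PV := P.isPGroup'.to_le hPVP
    have hzP : Subgroup.zpowers a ≤ (P : Subgroup G) := (Subgroup.zpowers_le).mpr haP
    have hAp : IsPGroup p (Subgroup.zpowers a) := P.isPGroup'.to_le hzP
    have hVcore : V ≤ Cfsg.pCore p (G ⧸ O) := Lib_helper7_PCore.le_pCore hVn hVp
    have hVmap : ∀ v ∈ V, ∃ x ∈ PV, π x = v := by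
      intro v hv
      have h1 : v ∈ (Pb : Subgroup (G ⧸ O)) := Lib_helper7_PCore.pCore_le_sylow Pb (hVcore hv)
      rw [hPbcoe] at h1
      obtain ⟨x, hx, rfl⟩ := h1
      exact ⟨x, by rw [hPVe]; exact Subgroup.mem_inf.mpr ⟨hx, hv⟩, rfl⟩
    have hPVV : ∀ x ∈ PV, π x ∈ V := by
      intro x hx; rw [hPVe] at hx; exact (Subgroup.mem_inf.mp hx).2
    have hnorm : ∀ a' ∈ Subgroup.zpowers a, ∀ x ∈ PV, a' * x * a'⁻¹ ∈ PV := by
      intro a' ha' x hx
      have ha'P : a' ∈ (P : Subgroup G) := hzP ha'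
      rw [hPVe]
      refine Subgroup.mem_inf.mpr ⟨(P : Subgroup G).mul_mem
        ((P : Subgroup G).mul_mem ha'P (hPVP hx)) ((P : Subgroup G).inv_mem ha'P), ?_⟩
      rw [Subgroup.mem_comap, map_mul, map_mul, map_inv]
      exact hVn.conj_mem _ (hPVV x hx) _
    have hle : PV ≤ (Cfsg.pCore p (G ⧸ O)).comap (QuotientGroup.mk' O) := by
      intro x hx
      rw [Subgroup.mem_comap, ← hπ]
      exact hVcore (hPVV x hx)
    have hsupn : (O ⊔ PV).Normal := by
      have e : O ⊔ PV = V.comap π := by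
        apply le_antisymm
        · apply sup_le
          · intro x hx
            rw [Subgroup.mem_comap, (hπ1 x).mpr hx]; exact V.one_mem
          · intro x hx; exact hPVV x hx
        · intro g hg
          obtain ⟨x, hx, hxe⟩ := hVmap _ (Subgroup.mem_comap.mp hg)
          have h1 : x⁻¹ * g ∈ O := by
            rw [← hπ1, map_mul, map_inv, hxe, inv_mul_cancel]
          have e : g = (x * (x⁻¹ * g) * x⁻¹) * x := by group
          rw [e]
          exact Subgroup.mul_mem _ (Subgroup.mem_sup_left (hOn.conj_mem _ h1 x))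
            (Subgroup.mem_sup_right hx)
      rw [e]; exact hVn.comap π
    have hq : ⁅⁅PV, Subgroup.zpowers a⁆, Subgroup.zpowers a⁆ = ⊥ := by
      rw [eq_bot_iff]
      intro x hx
      rw [Subgroup.mem_bot]
      apply hinj
      · exact comm_le_of_le (comm_le_of_le hPVP hzP) hzP hx
      · have h2 : (⁅⁅PV, Subgroup.zpowers a⁆, Subgroup.zpowers a⁆).map π ≤
            ⁅⁅V, Subgroup.zpowers (π a)⁆, Subgroup.zpowers (π a)⁆ := by
          rw [Subgroup.map_commutator, Subgroup.map_commutator, MonoidHom.map_zpowers]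
          exact Subgroup.commutator_mono (Subgroup.commutator_mono
            (by rintro _ ⟨y, hy, rfl⟩; exact hPVV y hy) le_rfl) le_rfl
        have h3 := h2 (Subgroup.mem_map_of_mem π hx)
        rw [hquad, Subgroup.mem_bot] at h3
        exact h3
    have hstab := hs' (Subgroup.zpowers a) PV hAp hPVp hnorm hle hsupn hq
    obtain ⟨g₀, hg₀⟩ : ∃ g₀ : ↥(Subgroup.normalizer (PV : Set G)) →*
        (G ⧸ O) ⧸ Subgroup.centralizer (V : Set (G ⧸ O)),
        g₀ = (QuotientGroup.mk' (Subgroup.centralizer (V : Set (G ⧸ O)))).comp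
          (π.comp (Subgroup.normalizer (PV : Set G)).subtype) := ⟨_, rfl⟩
    have hker : (Subgroup.centralizer (PV : Set G)).subgroupOf
        (Subgroup.normalizer (PV : Set G)) ≤ g₀.ker := by
      intro x hx
      rw [MonoidHom.mem_ker, hg₀]
      show (QuotientGroup.mk' (Subgroup.centralizer (V : Set (G ⧸ O)))) (π (x : G)) = 1
      rw [QuotientGroup.mk'_apply, QuotientGroup.eq_one_iff, Subgroup.mem_centralizer_iff]
      intro v hv
      obtain ⟨y, hy, rfl⟩ := hVmap v hv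
      have h1 := Subgroup.mem_centralizer_iff.mp (Subgroup.mem_subgroupOf.mp hx) y hy
      rw [← map_mul, ← map_mul, h1]
    obtain ⟨f, hf⟩ : ∃ f : (↥(Subgroup.normalizer (PV : Set G)) ⧸
        (Subgroup.centralizer (PV : Set G)).subgroupOf (Subgroup.normalizer (PV : Set G))) →*
        (G ⧸ O) ⧸ Subgroup.centralizer (V : Set (G ⧸ O)),
        ∀ x : ↥(Subgroup.normalizer (PV : Set G)),
          f (QuotientGroup.mk' _ x) = QuotientGroup.mk' _ (π (x : G)) :=
      ⟨QuotientGroup.lift _ g₀ hker, fun x => by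
        rw [QuotientGroup.mk'_apply, QuotientGroup.lift_mk, hg₀]; rfl⟩
    have hfs : Function.Surjective f := by
      intro y
      obtain ⟨gb, rfl⟩ := QuotientGroup.mk'_surjective _ y
      obtain ⟨g, rfl⟩ := hπs gb
      have hVeq : PV.map π = V := by
        apply le_antisymm
        · rintro _ ⟨x, hx, rfl⟩; exact hPVV x hx
        · intro v hv; obtain ⟨x, hx, rfl⟩ := hVmap v hv; exact ⟨x, hx, rfl⟩
      have h1 := H1GT.normalizer_map_le P O hOc PV hPVP
      rw [← hπ, hVeq, Subgroup.normalizer_eq_top_iff.mpr hVn] at h1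
      obtain ⟨n', hn', hne⟩ := h1 (Subgroup.mem_top (π g))
      refine ⟨QuotientGroup.mk' _ ⟨n', hn'⟩, ?_⟩
      rw [hf, ← hne]
    have hmapn : ((Cfsg.pCore p (↥(Subgroup.normalizer (PV : Set G)) ⧸
        (Subgroup.centralizer (PV : Set G)).subgroupOf
          (Subgroup.normalizer (PV : Set G)))).map f).Normal :=
      (Lib_helper7_PCore.pCore_normal p).map f hfs
    have hmapp := (Lib_helper7_PCore.pCore_isPGroup (G := ↥(Subgroup.normalizer (PV : Set G)) ⧸
        (Subgroup.centralizer (PV : Set G)).subgroupOf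
          (Subgroup.normalizer (PV : Set G))) p).map f
    have hle2 := Lib_helper7_PCore.le_pCore hmapn hmapp
    have haN : a ∈ Subgroup.normalizer (PV : Set G) := by
      apply Lib_helper1_Basic.mem_normalizer_of_conj_le
      intro x hx
      exact hnorm a (Subgroup.mem_zpowers a) x hx
    have h5 : QuotientGroup.mk' ((Subgroup.centralizer (PV : Set G)).subgroupOf
        (Subgroup.normalizer (PV : Set G))) ⟨a, haN⟩ ∈ Cfsg.pCore p _ :=
      hstab (Subgroup.mem_map_of_mem _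
        (Subgroup.mem_subgroupOf.mpr (Subgroup.mem_zpowers a)))
    have h6 := hle2 (Subgroup.mem_map_of_mem f h5)
    rw [hf] at h6
    exact h6
  have hZn := H1ZJ2.zjA_normal2 hp hc' Pb hst'
  rw [hPbcoe, ← H1ZJ2.ctA_map π (P : Subgroup G) hinj] at hZn
  have h1 := H1GT.normalizer_map_le P O hOc (Cfsg.centerThompsonAOf (P : Subgroup G))
    (H1ZJ2.ctA_le _)
  rw [← hπ, Subgroup.normalizer_eq_top_iff.mpr hZn] at h1
  rw [eq_top_iff]
  intro g _
  obtain ⟨n', hn', hne⟩ := h1 (Subgroup.mem_top (π g))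
  have h2 : g * n'⁻¹ ∈ O := by rw [← hπ1, map_mul, map_inv, hne, mul_inv_cancel]
  have e : g = (g * n'⁻¹) * n' := by group
  rw [e]
  exact Subgroup.mul_mem _ (Subgroup.mem_sup_left h2) (Subgroup.mem_sup_right hn')

/-- S0667. -/
theorem zj_constrained {G : Type*} [Group G] [Finite G] {p : ℕ} [Fact p.Prime] (hp : p ≠ 2)
    (hc : Cfsg.IsPConstrained p G) (hs : Cfsg.IsPStable p G) (P : Sylow p G) :
    Cfsg.pPrimeCore p G ⊔
        Subgroup.normalizer (Cfsg.centerThompsonAOf ((P : Subgroup G)) : Set G) = ⊤ ∧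
      (Cfsg.pPrimeCore p G = ⊥ → (Cfsg.centerThompsonAOf ((P : Subgroup G))).Normal) := by
  have hc' : Subgroup.centralizer (Cfsg.pCore p (G ⧸ Cfsg.pPrimeCore p G) :
      Set (G ⧸ Cfsg.pPrimeCore p G)) ≤ Cfsg.pCore p (G ⧸ Cfsg.pPrimeCore p G) :=
    (Lib_helper2_PCons.layer_eq_bot_iff_of_pPrimeCore p
      (Lib_helper2_PComp.pPrimeCore_quotient_bot p)).mp
      ((Lib_helper2_PCons.pLayer_eq_bot_iff p).mp ((Lib_helper2_PCons.pConstrained_iff p).mp hc))
  have h1 := zj_core hp (Cfsg.pPrimeCore p G) (Lib_helper7_PPrime.card_pPrimeCore_coprime p) hc'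
    (fun A Q h1 h2 h3 h4 h5 h6 => hs.2.2 A Q h1 h2 h3 h4 h5 h6) P
  refine ⟨h1, fun h0 => ?_⟩
  rw [h0, bot_sup_eq] at h1
  exact Subgroup.normalizer_eq_top_iff.mp h1

end Cfsg.Agent.H1ZJCons
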