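import Mathlib
import Cfsg.Prelude.Def_PLocal
import Cfsg.Prelude.Def_Local
import Cfsg.Agent.Lib_helper1_ZJCons

set_option autoImplicit false
set_option maxHeartbeats 1600000

/-! In a group all of whose `p`-locals are `p`-constrained, `p`-stable with trivial `p'`-core,
`N_G(Z(J(P)))` contains the normalizer of every nontrivial subgroup of `P`. -/

namespace Cfsg.Agent.H1ZJCtrl

open Cfsg
open scoped commutatorElement Pointwise

theorem normalizer_le_of_sylow {G : Type*} [Group G] [Finite G] {p : ℕ} [Fact p.Prime]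
    (hp : p ≠ 2) (Q : Subgroup G)
    (h : Cfsg.pPrimeCore p ↥(Subgroup.normalizer (Q : Set G)) = ⊥ ∧
      Cfsg.IsPConstrained p ↥(Subgroup.normalizer (Q : Set G)) ∧
      Cfsg.IsPStable p ↥(Subgroup.normalizer (Q : Set G)))
    (R' : Sylow p ↥(Subgroup.normalizer (Q : Set G))) :
    Subgroup.normalizer (Q : Set G) ≤ Subgroup.normalizer (Cfsg.centerThompsonAOf
      ((R' : Subgroup ↥(Subgroup.normalizer (Q : Set G))).map
        (Subgroup.normalizer (Q : Set G)).subtype) : Set G) := by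
  have hZn := (H1ZJCons.zj_constrained hp h.2.1 h.2.2 R').2 h.1
  rw [← H1ZJ2.ctA_map (Subgroup.normalizer (Q : Set G)).subtype _
    (fun x _ hx => by simpa using hx)]
  intro n hn
  apply Lib_helper1_Basic.mem_normalizer_of_conj_le
  rintro _ ⟨z, hz, rfl⟩
  exact ⟨⟨n, hn⟩ * z * ⟨n, hn⟩⁻¹, hZn.conj_mem z hz ⟨n, hn⟩, rfl⟩

theorem plocal_control {G : Type*} [Group G] [Finite G] {p : ℕ} [Fact p.Prime] (hp : p ≠ 2)
    (hloc : ∀ Q : Subgroup G, IsPGroup p Q → Q ≠ ⊥ →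
      Cfsg.pPrimeCore p ↥(Subgroup.normalizer (Q : Set G)) = ⊥ ∧
      Cfsg.IsPConstrained p ↥(Subgroup.normalizer (Q : Set G)) ∧
      Cfsg.IsPStable p ↥(Subgroup.normalizer (Q : Set G)))
    (P : Sylow p G) (Q₀ : Subgroup G) (hQ₀P : Q₀ ≤ (P : Subgroup G)) (hQ₀1 : Q₀ ≠ ⊥) :
    Subgroup.normalizer (Q₀ : Set G) ≤
      Subgroup.normalizer (Cfsg.centerThompsonAOf ((P : Subgroup G)) : Set G) := by
  by_contra hQ₀
  obtain ⟨M, hMe⟩ : ∃ M, M = Subgroup.normalizer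
    (Cfsg.centerThompsonAOf ((P : Subgroup G)) : Set G) := ⟨_, rfl⟩
  rw [← hMe] at hQ₀
  haveI : Nonempty {Q : Subgroup G // Q ≤ (P : Subgroup G) ∧ Q ≠ ⊥ ∧
      ¬ Subgroup.normalizer (Q : Set G) ≤ M} := ⟨⟨Q₀, hQ₀P, hQ₀1, hQ₀⟩⟩
  obtain ⟨⟨Q, hQP, hQ1, hQM⟩, hmax⟩ := Finite.exists_max
    (fun X : {Q : Subgroup G // Q ≤ (P : Subgroup G) ∧ Q ≠ ⊥ ∧
      ¬ Subgroup.normalizer (Q : Set G) ≤ M} =>
      Nat.card ↥((P : Subgroup G) ⊓ Subgroup.normalizer (X.1 : Set G)))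
  have hMx : ∀ Q' : Subgroup G, Q' ≤ (P : Subgroup G) → Q' ≠ ⊥ →
      Nat.card ↥((P : Subgroup G) ⊓ Subgroup.normalizer (Q : Set G)) <
        Nat.card ↥((P : Subgroup G) ⊓ Subgroup.normalizer (Q' : Set G)) →
      Subgroup.normalizer (Q' : Set G) ≤ M := by
    intro Q' h1 h2 h3
    by_contra h4
    have := hmax ⟨Q', h1, h2, h4⟩
    exact absurd h3 (not_lt.mpr this)
  obtain ⟨R, hRe⟩ : ∃ R, R = (P : Subgroup G) ⊓ Subgroup.normalizer (Q : Set G) := ⟨_, rfl⟩
  rw [← hRe] at hMx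
  have hRP : R ≤ P := hRe ▸ inf_le_left
  have hRN : R ≤ Subgroup.normalizer (Q : Set G) := hRe ▸ inf_le_right
  have hQR : Q ≤ R := by rw [hRe]; exact le_inf hQP Subgroup.le_normalizer
  have hRne : R ≠ ⊥ := fun h => hQ1 (le_bot_iff.mp (h ▸ hQR))
  have hRp : IsPGroup p R := P.isPGroup'.to_le hRP
  have hPM : (P : Subgroup G) ≤ M := by
    rw [hMe]; exact Subgroup.le_normalizer.trans (H1ZJ2.ctA_normalizer _)
  have hF1 : R ≠ (P : Subgroup G) → Subgroup.normalizer (R : Set G) ≤ M ∧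
      Nat.card ↥R < Nat.card ↥((P : Subgroup G) ⊓ Subgroup.normalizer (R : Set G)) := by
    intro hne
    obtain ⟨t, htP, htN, htR⟩ :=
      Lib_helper7_Sylow.exists_mem_normalizer_not_mem P.isPGroup' (lt_of_le_of_ne hRP hne)
    have hlt : Nat.card ↥R <
        Nat.card ↥((P : Subgroup G) ⊓ Subgroup.normalizer (R : Set G)) := by
      have hle : R ≤ (P : Subgroup G) ⊓ Subgroup.normalizer (R : Set G) :=
        le_inf hRP Subgroup.le_normalizer
      by_contra hge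
      have heq := Subgroup.eq_of_le_of_card_ge hle (not_lt.mp hge)
      apply htR
      rw [heq]; exact Subgroup.mem_inf.mpr ⟨htP, htN⟩
    exact ⟨hMx R hRP hRne hlt, hlt⟩
  obtain ⟨R'', hR''⟩ :=
    (hRp.comap_subtype (K := Subgroup.normalizer (Q : Set G))).exists_le_sylow
  obtain ⟨Rs, hRse⟩ : ∃ Rs : Subgroup G,
      Rs = (R'' : Subgroup ↥(Subgroup.normalizer (Q : Set G))).map
        (Subgroup.normalizer (Q : Set G)).subtype := ⟨_, rfl⟩
  have hRRs : R ≤ Rs := by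
    intro x hx
    rw [hRse]
    exact ⟨⟨x, hRN hx⟩, hR'' (Subgroup.mem_subgroupOf.mpr hx), rfl⟩
  have hRsN : Rs ≤ Subgroup.normalizer (Q : Set G) := hRse ▸ Subgroup.map_subtype_le _
  have hRsp : IsPGroup p Rs := hRse ▸ R''.isPGroup'.map _
  have hK := normalizer_le_of_sylow hp Q (hloc Q (P.isPGroup'.to_le hQP) hQ1) R''
  rw [← hRse] at hK
  by_cases hRs : Rs = R
  · rw [hRs] at hK
    by_cases hRPeq : R = (P : Subgroup G)
    · apply hQM
      rw [hMe, ← hRPeq]; exact hK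
    · obtain ⟨hNR, hlt⟩ := hF1 hRPeq
      have hTne : Cfsg.centerThompsonAOf R ≠ ⊥ := H1ZJ2.ctA_ne_bot R hRp hRne
      have hTP : Cfsg.centerThompsonAOf R ≤ (P : Subgroup G) := (H1ZJ2.ctA_le R).trans hRP
      have hlt2 : Nat.card ↥R < Nat.card ↥((P : Subgroup G) ⊓
          Subgroup.normalizer (Cfsg.centerThompsonAOf R : Set G)) :=
        lt_of_lt_of_le hlt
          (Subgroup.card_le_of_le (inf_le_inf_left _ (H1ZJ2.ctA_normalizer R)))
      exact hQM (hK.trans (hMx _ hTP hTne hlt2))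
  · have hlt : R < Rs := lt_of_le_of_ne hRRs (Ne.symm hRs)
    obtain ⟨t, htRs, htN, htR⟩ := Lib_helper7_Sylow.exists_mem_normalizer_not_mem hRsp hlt
    have hRPne : R ≠ (P : Subgroup G) := by
      intro heq
      apply hRs
      have := P.is_maximal' hRsp (heq ▸ hRRs)
      rw [this, heq]
    obtain ⟨hNR, -⟩ := hF1 hRPne
    obtain ⟨R₁, hR₁e⟩ : ∃ R₁, R₁ = R ⊔ Subgroup.zpowers t := ⟨_, rfl⟩
    have hR₁Rs : R₁ ≤ Rs := by
      rw [hR₁e]; exact sup_le hRRs ((Subgroup.zpowers_le).mpr htRs)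
    have hR₁p : IsPGroup p R₁ := hRsp.to_le hR₁Rs
    have hR₁M : R₁ ≤ M := by
      rw [hR₁e]
      exact sup_le (Subgroup.le_normalizer.trans hNR) ((Subgroup.zpowers_le).mpr (hNR htN))
    have hRR₁ : Nat.card ↥R < Nat.card ↥R₁ := by
      have hle : R ≤ R₁ := by rw [hR₁e]; exact le_sup_left
      by_contra hge
      have heq := Subgroup.eq_of_le_of_card_ge hle (not_lt.mp hge)
      apply htR
      rw [heq, hR₁e]; exact Subgroup.mem_sup_right (Subgroup.mem_zpowers t)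
    obtain ⟨w, hwM, hw⟩ := Lib_helper7_SE2.exists_conj_le_of_le P M hPM R₁ hR₁p hR₁M
    obtain ⟨Q', hQ'e⟩ : ∃ Q', Q' = Q.map (MulAut.conj w).toMonoidHom := ⟨_, rfl⟩
    have hQR₁ : Q ≤ R₁ := hQR.trans (by rw [hR₁e]; exact le_sup_left)
    have hQ'P : Q' ≤ (P : Subgroup G) := by
      rw [hQ'e]
      rintro _ ⟨x, hx, rfl⟩
      exact hw x (hQR₁ hx)
    have hQ'ne : Q' ≠ ⊥ := by
      rw [hQ'e]
      intro h0
      rw [Subgroup.map_eq_bot_iff_of_injective _ (MulAut.conj w).injective] at h0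
      exact hQ1 h0
    have hlt3 : Nat.card ↥R <
        Nat.card ↥((P : Subgroup G) ⊓ Subgroup.normalizer (Q' : Set G)) := by
      have hle : R₁.map (MulAut.conj w).toMonoidHom ≤
          (P : Subgroup G) ⊓ Subgroup.normalizer (Q' : Set G) := by
        rintro _ ⟨d, hd, rfl⟩
        refine Subgroup.mem_inf.mpr ⟨hw d hd, ?_⟩
        apply Lib_helper1_Basic.mem_normalizer_of_conj_le
        rw [hQ'e]
        rintro _ ⟨x, hx, rfl⟩
        have hdN : d ∈ Subgroup.normalizer (Q : Set G) := hRsN (hR₁Rs hd)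
        have h1 := (Subgroup.mem_normalizer_iff.mp hdN x).mp hx
        refine ⟨d * x * d⁻¹, h1, ?_⟩
        rw [map_mul, map_mul, map_inv]
      have h2 := Subgroup.card_le_of_le hle
      rw [Subgroup.card_map_of_injective (MulAut.conj w).injective] at h2
      omega
    have hN' := hMx Q' hQ'P hQ'ne hlt3
    apply hQM
    intro n hn
    have h1 : w * n * w⁻¹ ∈ Subgroup.normalizer (Q' : Set G) := by
      apply Lib_helper1_Basic.mem_normalizer_of_conj_le
      rw [hQ'e]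
      rintro _ ⟨x, hx, rfl⟩
      have h2 := (Subgroup.mem_normalizer_iff.mp hn x).mp hx
      refine ⟨n * x * n⁻¹, h2, ?_⟩
      simp [MulAut.conj_apply, mul_assoc]
    have h3 := hN' h1
    have h4 := M.mul_mem (M.mul_mem (M.inv_mem hwM) h3) hwM
    have e : w⁻¹ * (w * n * w⁻¹) * w = n := by group
    rw [e] at h4
    exact h4

end Cfsg.Agent.H1ZJCtrl
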