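import Mathlib
import Cfsg.Prelude.Def_CaseTheorems
import Cfsg.Agent.Lib_helper2_SE

set_option autoImplicit false

namespace Cfsg.Agent.Lib_helper2_Rank

open Cfsg.Agent.Lib_helper2_Dihedral Cfsg.Agent.Lib_helper2_Inv Cfsg.Agent.Lib_helper2_Isolated
  Cfsg.Agent.Lib_helper2_SE

variable {G : Type*} [Group G]

/-- `X` contains an elementary abelian `p`-subgroup of order greater than `p ^ j`. -/
def HasElemAb (p j : ℕ) (X : Subgroup G) : Prop :=
  ∃ E : Subgroup G, E ≤ X ∧ (∀ a ∈ E, ∀ b ∈ E, a * b = b * a) ∧ (∀ a ∈ E, a ^ p = 1) ∧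
    p ^ j < Nat.card E

theorem not_pRankLE_iff (p j : ℕ) (X : Subgroup G) :
    ¬ Cfsg.PRankLE p j ↥X ↔ HasElemAb p j X := by
  constructor
  · intro h
    unfold Cfsg.PRankLE at h
    push Not at h
    obtain ⟨B, hBc, hBe, hBcard⟩ := h
    refine ⟨B.map X.subtype, ?_, ?_, ?_, ?_⟩
    · rintro _ ⟨b, _, rfl⟩; exact b.2
    · rintro _ ⟨a, ha, rfl⟩ _ ⟨b, hb, rfl⟩
      have h1 := hBc.is_comm.comm ⟨a, ha⟩ ⟨b, hb⟩
      have h2 : a * b = b * a := congrArg Subtype.val h1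
      exact congrArg Subtype.val h2
    · rintro _ ⟨a, ha, rfl⟩
      have h1 := hBe a ha
      have h2 : ((a ^ p : X) : G) = 1 := by rw [h1]; rfl
      rw [Subgroup.coe_pow] at h2
      exact h2
    · rw [Subgroup.card_map_of_injective X.subtype_injective]
      exact hBcard
  · rintro ⟨E, hEX, hEc, hEe, hEcard⟩ h
    have h1 := h (E.subgroupOf X)
      ⟨⟨fun a b => Subtype.ext (Subtype.ext (hEc a.1.1 a.2 b.1.1 b.2))⟩⟩
      (fun a ha => Subtype.ext (by
        rw [Subgroup.coe_pow]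
        exact hEe a.1 ha))
    rw [Nat.card_congr (Subgroup.subgroupOfEquivOfLe hEX).toEquiv] at h1
    omega

theorem HasElemAb.mono {p j : ℕ} {X Y : Subgroup G} (h : X ≤ Y) :
    HasElemAb p j X → HasElemAb p j Y :=
  fun ⟨E, hE, r⟩ => ⟨E, hE.trans h, r⟩

theorem HasElemAb.conj {p j : ℕ} {X : Subgroup G} (g : G) :
    HasElemAb p j X → HasElemAb p j (X.map (MulAut.conj g).toMonoidHom) := by
  rintro ⟨E, hEX, hEc, hEe, hEcard⟩
  refine ⟨E.map (MulAut.conj g).toMonoidHom, Subgroup.map_mono hEX, ?_, ?_, ?_⟩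
  · rintro _ ⟨a, ha, rfl⟩ _ ⟨b, hb, rfl⟩
    simp only [MulEquiv.toMonoidHom_eq_coe, MonoidHom.coe_coe, MulAut.conj_apply]
    have h1 := hEc a ha b hb
    calc g * a * g⁻¹ * (g * b * g⁻¹) = g * (a * b) * g⁻¹ := by group
      _ = g * (b * a) * g⁻¹ := by rw [h1]
      _ = g * b * g⁻¹ * (g * a * g⁻¹) := by group
  · rintro _ ⟨a, ha, rfl⟩
    rw [← map_pow, hEe a ha, map_one]
  · rw [Subgroup.card_map_of_injective (MulAut.conj g).injective]; exact hEcard

/-- Generalisation of the strong-embedding criterion to `p`-rank `k`. -/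
theorem rank_control {p : ℕ} [Fact p.Prime] [Finite G] (j : ℕ) (H : Subgroup G) (P : Sylow p ↥H) :
    (∀ X : Subgroup G, X ≤ (P : Subgroup ↥H).map H.subtype → ¬ Cfsg.PRankLE p j ↥X →
      Subgroup.normalizer (X : Set G) ≤ H) ↔
    (∀ g : G, g ∉ H → Cfsg.PRankLE p j ↥(H ⊓ H.map (MulAut.conj g).toMonoidHom)) := by
  have hP'H : (P : Subgroup ↥H).map H.subtype ≤ H := by
    rintro _ ⟨y, _, rfl⟩; exact y.2
  constructor
  · intro hN g hg
    by_contra hcon
    rw [not_pRankLE_iff] at hcon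
    obtain ⟨E, hEle, hEc, hEe, hEcard⟩ := hcon
    have hEp : IsPGroup p E := by
      rintro ⟨e, he⟩
      refine ⟨1, ?_⟩
      apply Subtype.ext
      rw [pow_one, Subgroup.coe_pow]
      exact hEe e he
    have hEH : E ≤ H := hEle.trans inf_le_left
    obtain ⟨a, haH, ha⟩ := exists_conj_le_sylow_of_le P hEp hEH
    have hE2H : E.map (MulAut.conj g⁻¹).toMonoidHom ≤ H := by
      rintro _ ⟨e, he, rfl⟩
      have h1 : e ∈ H.map (MulAut.conj g).toMonoidHom := (hEle he).2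
      rw [mem_map_conj] at h1
      simp only [MulEquiv.toMonoidHom_eq_coe, MonoidHom.coe_coe, MulAut.conj_apply, inv_inv]
      exact h1
    obtain ⟨b, hbH, hb⟩ := exists_conj_le_sylow_of_le P (hEp.map (MulAut.conj g⁻¹).toMonoidHom)
      hE2H
    have hU : E.map (MulAut.conj a).toMonoidHom ≤ (P : Subgroup ↥H).map H.subtype := by
      rintro _ ⟨e, he, rfl⟩
      exact ha e he
    have hPrE : HasElemAb p j E := ⟨E, le_rfl, hEc, hEe, hEcard⟩
    have hPrU : HasElemAb p j (E.map (MulAut.conj a).toMonoidHom) := hPrE.conj a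
    have hx : (E.map (MulAut.conj a).toMonoidHom).map (MulAut.conj (b * g⁻¹ * a⁻¹)).toMonoidHom ≤
        (P : Subgroup ↥H).map H.subtype := by
      rintro _ ⟨_, ⟨e, he, rfl⟩, rfl⟩
      have h1 := hb (g⁻¹ * e * g⁻¹⁻¹) ⟨e, he, rfl⟩
      simp only [MulEquiv.toMonoidHom_eq_coe, MonoidHom.coe_coe, MulAut.conj_apply]
      have e1 : b * g⁻¹ * a⁻¹ * (a * e * a⁻¹) * (b * g⁻¹ * a⁻¹)⁻¹ =
          b * (g⁻¹ * e * g⁻¹⁻¹) * b⁻¹ := by group
      rw [e1]; exact h1
    have hxH := control_of_normalizers_pred P (HasElemAb p j)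
      (fun X Y hXY hX => hX.mono hXY) (fun X g hX => hX.conj g)
      (fun X hXP hX => hN X hXP ((not_pRankLE_iff p j X).mpr hX)) _ _ hU hPrU rfl
      (b * g⁻¹ * a⁻¹) hx
    apply hg
    have e2 : g = a⁻¹ * (b * g⁻¹ * a⁻¹)⁻¹ * b := by group
    rw [e2]
    exact mul_mem (mul_mem (inv_mem haH) (inv_mem hxH)) hbH
  · intro hg X hXP hX g hgN
    by_contra hgH
    have h1 := hg g hgH
    rw [not_pRankLE_iff] at hX
    have hle : X ≤ H ⊓ H.map (MulAut.conj g).toMonoidHom := by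
      intro x hx
      refine ⟨hP'H (hXP hx), ?_⟩
      show x ∈ H.map (MulAut.conj g).toMonoidHom
      rw [mem_map_conj]
      have hginv : g⁻¹ ∈ Subgroup.normalizer (X : Set G) := inv_mem hgN
      have h2 := (Subgroup.mem_normalizer_iff.mp hginv x).mp hx
      rw [inv_inv] at h2
      exact hP'H (hXP h2)
    exact (not_pRankLE_iff p j _).mpr (hX.mono hle) h1

end Cfsg.Agent.Lib_helper2_Rank
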