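import Mathlib

set_option autoImplicit false

namespace Cfsg.Agent.Lib_helper2_Transfer

open MulAction Subgroup

/-- Transfer of an element all of whose relevant conjugates agree with powers of `g` modulo
`ker ϕ`. -/
theorem transfer_eq_pow_of_mod {G : Type*} [Group G] {A : Type*} [CommGroup A] (H : Subgroup G)
    [H.FiniteIndex] (ϕ : H →* A) (g : G) (hgH : g ∈ H)
    (key : ∀ (k : ℕ) (g₀ : G) (hk : g₀⁻¹ * g ^ k * g₀ ∈ H),
      ϕ ⟨g₀⁻¹ * g ^ k * g₀, hk⟩ = ϕ ⟨g, hgH⟩ ^ k) :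
    MonoidHom.transfer ϕ g = ϕ ⟨g, hgH⟩ ^ H.index := by
  classical
  letI := H.fintypeQuotientOfFiniteIndex
  rw [MonoidHom.transfer_eq_prod_quotient_orbitRel_zpowers_quot]
  rw [Finset.prod_congr rfl (fun q _ => key _ _ _), Finset.prod_pow_eq_pow_sum,
    ← Subgroup.index_eq_sum_minimalPeriod H g]

end Cfsg.Agent.Lib_helper2_Transfer
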