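import Mathlib
import Cfsg.Prelude.Def_CaseTheorems
import Cfsg.Agent.Lib_helper2_Rank
import Cfsg.Agent.Lib_helper2_Transfer

set_option autoImplicit false

namespace Cfsg.Agent.Lib_helper2_AbSylow

open Cfsg.Agent.Lib_helper2_Dihedral Cfsg.Agent.Lib_helper2_Inv Cfsg.Agent.Lib_helper2_Isolated
  Cfsg.Agent.Lib_helper2_SE Cfsg.Agent.Lib_helper2_Rank Cfsg.Agent.Lib_helper2_Transfer

variable {G : Type*} [Group G]

/-- `Ω₁` of a commutative subgroup (elements of square one). -/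
def omega (S : Subgroup G) (hcomm : ∀ a ∈ S, ∀ b ∈ S, a * b = b * a) : Subgroup G where
  carrier := {s | s ∈ S ∧ s ^ 2 = 1}
  mul_mem' := by
    rintro a b ⟨ha, ha2⟩ ⟨hb, hb2⟩
    refine ⟨mul_mem ha hb, ?_⟩
    have hc : Commute a b := hcomm a ha b hb
    rw [hc.mul_pow, ha2, hb2, one_mul]
  one_mem' := ⟨one_mem _, one_pow 2⟩
  inv_mem' := by
    rintro a ⟨ha, ha2⟩
    exact ⟨inv_mem ha, by rw [inv_pow, ha2, inv_one]⟩

theorem mem_omega {S : Subgroup G} {hcomm : ∀ a ∈ S, ∀ b ∈ S, a * b = b * a} {s : G} :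
    s ∈ omega S hcomm ↔ s ∈ S ∧ s ^ 2 = 1 := Iff.rfl

theorem omega_le {S : Subgroup G} (hcomm : ∀ a ∈ S, ∀ b ∈ S, a * b = b * a) :
    omega S hcomm ≤ S := fun _ h => h.1

theorem card_omega_le [Finite G] {S : Subgroup G} (hcomm : ∀ a ∈ S, ∀ b ∈ S, a * b = b * a)
    {j : ℕ} (h : Cfsg.PRankLE 2 j ↥S) : Nat.card (omega S hcomm) ≤ 2 ^ j := by
  by_contra hcon
  push Not at hcon
  have : HasElemAb 2 j S :=
    ⟨omega S hcomm, omega_le hcomm, fun a ha b hb => hcomm a ha.1 b hb.1, fun a ha => ha.2, hcon⟩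
  exact (not_pRankLE_iff 2 j S).mpr this h

theorem lt_card_omega [Finite G] {S : Subgroup G} (hcomm : ∀ a ∈ S, ∀ b ∈ S, a * b = b * a)
    {j : ℕ} (h : ¬ Cfsg.PRankLE 2 j ↥S) : 2 ^ j < Nat.card (omega S hcomm) := by
  obtain ⟨B, hBS, -, hBe, hBcard⟩ := (not_pRankLE_iff 2 j S).mp h
  have hle : B ≤ omega S hcomm := fun b hb => ⟨hBS hb, hBe b hb⟩
  exact lt_of_lt_of_le hBcard (Subgroup.card_le_of_le hle)

theorem card_omega_eq [Finite G] {S : Subgroup G} (hS2 : IsPGroup 2 S)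
    (hcomm : ∀ a ∈ S, ∀ b ∈ S, a * b = b * a) {j : ℕ} (h1 : Cfsg.PRankLE 2 (j + 1) ↥S)
    (h2 : ¬ Cfsg.PRankLE 2 j ↥S) : Nat.card (omega S hcomm) = 2 ^ (j + 1) := by
  have hub := card_omega_le hcomm h1
  have hlb := lt_card_omega hcomm h2
  obtain ⟨e, he⟩ := (hS2.to_le (omega_le hcomm)).exists_card_eq
  rw [he] at hub hlb ⊢
  have h3 : j < e := (Nat.pow_lt_pow_iff_right (by norm_num)).mp hlb
  have h4 : e ≤ j + 1 := (Nat.pow_le_pow_iff_right (by norm_num)).mp hub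
  have : e = j + 1 := by omega
  rw [this]

/-- Abelian Sylow 2-subgroup, no subgroup of index two: every involution of `S` is
`N_G(S)`-conjugate into any subgroup of rank one less. -/
theorem exists_normalizer_conj_mem [Finite G] (hG : ∀ H : Subgroup G, H.index ≠ 2)
    (S : Sylow 2 G) (hS : IsMulCommutative (S : Subgroup G)) (r : ℕ) (hr1 : 1 ≤ r)
    (hSr : Cfsg.PRankLE 2 r (S : Subgroup G) ∧ ¬ Cfsg.PRankLE 2 (r - 1) (S : Subgroup G))
    (R : Subgroup G) (hRS : R ≤ S)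
    (hRr : Cfsg.PRankLE 2 (r - 1) R ∧ (r = 1 ∨ ¬ Cfsg.PRankLE 2 (r - 2) R)) (t : G)
    (ht : orderOf t = 2) (htS : t ∈ S) :
    ∃ n ∈ Subgroup.normalizer ((S : Subgroup G) : Set G), n * t * n⁻¹ ∈ R := by
  classical
  haveI : Fact (Nat.Prime 2) := ⟨Nat.prime_two⟩
  have hcomm : ∀ a ∈ (S : Subgroup G), ∀ b ∈ (S : Subgroup G), a * b = b * a :=
    fun a ha b hb => congrArg Subtype.val (hS.is_comm.comm ⟨a, ha⟩ ⟨b, hb⟩)
  have hcommR : ∀ a ∈ R, ∀ b ∈ R, a * b = b * a := fun a ha b hb => hcomm a (hRS ha) b (hRS hb)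
  by_contra hcon
  push Not at hcon
  have ht2 : t ^ 2 = 1 := by rw [← ht]; exact pow_orderOf_eq_one t
  -- cardinalities
  obtain ⟨j, rfl⟩ : ∃ j, r = j + 1 := ⟨r - 1, by omega⟩
  rw [Nat.add_sub_cancel] at hSr hRr
  have hE : Nat.card (omega (S : Subgroup G) hcomm) = 2 ^ (j + 1) :=
    card_omega_eq S.2 hcomm hSr.1 hSr.2
  have hE₀ : Nat.card (omega R hcommR) = 2 ^ j := by
    rcases Nat.eq_zero_or_pos j with hj | hj
    · subst hj
      have h1 := card_omega_le hcommR hRr.1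
      have h2 : 0 < Nat.card (omega R hcommR) := Nat.card_pos
      rw [pow_zero] at h1 ⊢
      omega
    · obtain ⟨i, rfl⟩ : ∃ i, j = i + 1 := ⟨j - 1, by omega⟩
      have h3 : ¬ Cfsg.PRankLE 2 i ↥R := by
        rcases hRr.2 with h | h
        · omega
        · have e : i + 1 + 1 - 2 = i := by omega
          rw [e] at h; exact h
      exact card_omega_eq (S.2.to_le hRS) hcommR hRr.1 h3
  have hle : omega R hcommR ≤ omega (S : Subgroup G) hcomm := fun s hs => ⟨hRS hs.1, hs.2⟩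
  have hidx : ((omega R hcommR).subgroupOf (omega (S : Subgroup G) hcomm)).index = 2 := by
    have h1 := ((omega R hcommR).subgroupOf (omega (S : Subgroup G) hcomm)).card_mul_index
    rw [Nat.card_congr (Subgroup.subgroupOfEquivOfLe hle).toEquiv, hE, hE₀, pow_succ] at h1
    exact Nat.eq_of_mul_eq_mul_left (by positivity) h1
  have hcoset : ∀ a b : G, a ∈ omega (S : Subgroup G) hcomm → b ∈ omega (S : Subgroup G) hcomm →
      a ∉ omega R hcommR → b ∉ omega R hcommR → a⁻¹ * b ∈ omega R hcommR := by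
    intro a b ha hb ha' hb'
    have h1 := Subgroup.mul_mem_iff_of_index_two hidx
      (a := (⟨a⁻¹, inv_mem ha⟩ : omega (S : Subgroup G) hcomm)) (b := ⟨b, hb⟩)
    rw [Subgroup.mem_subgroupOf, Subgroup.mem_subgroupOf, Subgroup.mem_subgroupOf] at h1
    have h2 : a⁻¹ ∉ omega R hcommR := fun h => ha' (by simpa using inv_mem h)
    exact h1.mpr ⟨fun h => absurd h h2, fun h => absurd h hb'⟩
  have htE : t ∈ omega (S : Subgroup G) hcomm := ⟨htS, ht2⟩
  have htR : t ∉ R := by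
    have := hcon 1 (one_mem _)
    simpa using this
  have htE₀ : t ∉ omega R hcommR := fun h => htR h.1
  -- the transfer into S / E₀
  letI : CommGroup ↥(S : Subgroup G) :=
    { (inferInstance : Group ↥(S : Subgroup G)) with mul_comm := fun a b => hS.is_comm.comm a b }
  have hφt2 : (QuotientGroup.mk' ((omega R hcommR).subgroupOf (S : Subgroup G)))
      ⟨t, htS⟩ ^ 2 = 1 := by
    rw [← map_pow]
    have : (⟨t, htS⟩ : (S : Subgroup G)) ^ 2 = 1 := Subtype.ext (by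
      rw [Subgroup.coe_pow]; exact ht2)
    rw [this, map_one]
  have key : ∀ (k : ℕ) (g₀ : G) (hk : g₀⁻¹ * t ^ k * g₀ ∈ (S : Subgroup G)),
      (QuotientGroup.mk' ((omega R hcommR).subgroupOf (S : Subgroup G)))
        ⟨g₀⁻¹ * t ^ k * g₀, hk⟩ =
      (QuotientGroup.mk' ((omega R hcommR).subgroupOf (S : Subgroup G))) ⟨t, htS⟩ ^ k := by
    intro k g₀ hk
    rcases Nat.even_or_odd' k with ⟨i, rfl | rfl⟩
    · have e1 : (⟨g₀⁻¹ * t ^ (2 * i) * g₀, hk⟩ : (S : Subgroup G)) = 1 := Subtype.ext (by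
        show g₀⁻¹ * t ^ (2 * i) * g₀ = 1
        rw [pow_mul, ht2, one_pow]; group)
      rw [e1, map_one, pow_mul, hφt2, one_pow]
    · have e0 : t ^ (2 * i + 1) = t := by rw [pow_succ, pow_mul, ht2, one_pow, one_mul]
      have hy : g₀⁻¹ * t * g₀ ∈ (S : Subgroup G) := by rw [e0] at hk; exact hk
      have e1 : (⟨g₀⁻¹ * t ^ (2 * i + 1) * g₀, hk⟩ : (S : Subgroup G)) = ⟨g₀⁻¹ * t * g₀, hy⟩ :=
        Subtype.ext (by show g₀⁻¹ * t ^ (2 * i + 1) * g₀ = g₀⁻¹ * t * g₀; rw [e0])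
      rw [e1, pow_succ, pow_mul, hφt2, one_pow, one_mul]
      -- Burnside fusion
      obtain ⟨n, hn, hneq⟩ := S.conj_eq_normalizer_conj_of_mem t g₀ htS hy
      have hyR : g₀⁻¹ * t * g₀ ∉ R := by
        rw [hneq]
        have := hcon n⁻¹ (inv_mem hn)
        rw [inv_inv] at this
        exact this
      have hy2 : (g₀⁻¹ * t * g₀) ^ 2 = 1 := by
        have e : g₀⁻¹ * t * g₀ = g₀⁻¹ * t * g₀⁻¹⁻¹ := by rw [inv_inv]
        rw [e, conj_pow, ht2]; group
      have hyE : g₀⁻¹ * t * g₀ ∈ omega (S : Subgroup G) hcomm := ⟨hy, hy2⟩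
      have hyE₀ : g₀⁻¹ * t * g₀ ∉ omega R hcommR := fun h => hyR h.1
      have hmem := hcoset _ _ hyE htE hyE₀ htE₀
      rw [QuotientGroup.mk'_apply, QuotientGroup.mk'_apply, QuotientGroup.eq,
        Subgroup.mem_subgroupOf]
      exact hmem
  have htr := transfer_eq_pow_of_mod (S : Subgroup G)
    (QuotientGroup.mk' ((omega R hcommR).subgroupOf (S : Subgroup G))) t htS key
  have hodd : Odd (S : Subgroup G).index := by
    rw [← Nat.not_even_iff_odd, even_iff_two_dvd]; exact S.not_dvd_index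
  obtain ⟨m, hm⟩ := hodd
  rw [hm, pow_succ, pow_mul, hφt2, one_pow, one_mul] at htr
  have hVt : MonoidHom.transfer
      (QuotientGroup.mk' ((omega R hcommR).subgroupOf (S : Subgroup G))) t ≠ 1 := by
    rw [htr, QuotientGroup.mk'_apply, Ne, QuotientGroup.eq_one_iff, Subgroup.mem_subgroupOf]
    exact htE₀
  -- an index two subgroup
  generalize MonoidHom.transfer
      (QuotientGroup.mk' ((omega R hcommR).subgroupOf (S : Subgroup G))) = V at hVt
  have hA : Nat.card (↥(S : Subgroup G) ⧸ (omega R hcommR).subgroupOf (S : Subgroup G)) ∣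
      Nat.card ↥(S : Subgroup G) := Subgroup.card_quotient_dvd_card _
  obtain ⟨a, ha⟩ := S.2.exists_card_eq
  have hrange : Nat.card V.range ∣ 2 ^ a := by
    rw [← ha]; exact (Subgroup.card_subgroup_dvd_card V.range).trans hA
  obtain ⟨b, -, hb⟩ := (Nat.dvd_prime_pow Nat.prime_two).mp hrange
  have hb0 : b ≠ 0 := by
    rintro rfl
    rw [pow_zero, Subgroup.card_eq_one] at hb
    apply hVt
    have : V t ∈ V.range := ⟨t, rfl⟩
    rw [hb] at this
    exact Subgroup.mem_bot.mp this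
  obtain ⟨c, rfl⟩ : ∃ c, b = c + 1 := ⟨b - 1, by omega⟩
  obtain ⟨K, hK⟩ := exists_index_two_of_card_pow (Q := V.range) hb
  have hi := Subgroup.index_comap_of_surjective K V.rangeRestrict_surjective
  rw [hK] at hi
  exact hG _ hi

end Cfsg.Agent.Lib_helper2_AbSylow
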