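import Mathlib

set_option autoImplicit false

namespace Cfsg.Agent.Lib_helper4_Count

/-- Number of non-identity elements of a finite subgroup. -/
lemma card_subgroup_ne_one {G : Type*} [Group G] (H : Subgroup G) [Finite H] :
    Nat.card {g : G // g ∈ H ∧ g ≠ 1} = Nat.card H - 1 := by
  classical
  have e1 : {g : G // g ∈ H ∧ g ≠ 1} ≃ {x : H // x ≠ 1} :=
    { toFun := fun g => ⟨⟨g.1, g.2.1⟩, fun h => g.2.2 (congrArg Subtype.val h)⟩
      invFun := fun x => ⟨x.1.1, x.1.2, fun h => x.2 (Subtype.ext h)⟩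
      left_inv := fun g => rfl
      right_inv := fun x => rfl }
  have e2 := Nat.card_congr (Equiv.optionSubtypeNe (1 : H))
  rw [Finite.card_option] at e2
  rw [Nat.card_congr e1, ← e2]
  omega

/-- If distinct Sylow `p`-subgroups intersect trivially, the non-identity elements lying in
Sylow `p`-subgroups number `n_p (m - 1)`, where `m` is the order of a Sylow `p`-subgroup. -/
theorem card_sylow_elements {G : Type*} [Group G] [Finite G] {p : ℕ} [Fact p.Prime] (m : ℕ)
    (hm : ∀ P : Sylow p G, Nat.card P = m)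
    (h : ∀ P Q : Sylow p G, P ≠ Q → (P : Subgroup G) ⊓ (Q : Subgroup G) = ⊥) :
    Nat.card {g : G // g ≠ 1 ∧ ∃ P : Sylow p G, g ∈ P} = Nat.card (Sylow p G) * (m - 1) := by
  classical
  have : Fintype (Sylow p G) := Fintype.ofFinite _
  let φ : (Σ P : Sylow p G, {g : G // g ∈ (P : Subgroup G) ∧ g ≠ 1}) →
      {g : G // g ≠ 1 ∧ ∃ P : Sylow p G, g ∈ P} := fun x => ⟨x.2.1, x.2.2.2, x.1, x.2.2.1⟩
  have hφ : Function.Bijective φ := by
    constructor
    · rintro ⟨P, g, hg, hg1⟩ ⟨Q, g', hg', hg1'⟩ hx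
      have hgg : g = g' := congrArg Subtype.val hx
      subst hgg
      have hPQ : P = Q := by
        by_contra hne
        have := h P Q hne
        have hmem : g ∈ (P : Subgroup G) ⊓ (Q : Subgroup G) := ⟨hg, hg'⟩
        rw [this, Subgroup.mem_bot] at hmem
        exact hg1 hmem
      subst hPQ
      rfl
    · rintro ⟨g, hg1, P, hg⟩
      exact ⟨⟨P, g, hg, hg1⟩, rfl⟩
  rw [← Nat.card_congr (Equiv.ofBijective φ hφ), Nat.card_sigma]
  simp_rw [card_subgroup_ne_one, hm]
  simp [Nat.card_eq_fintype_card]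

/-- Elements of Sylow subgroups for distinct primes are trivial. -/
lemma eq_one_of_mem_sylow_of_mem_sylow {G : Type*} [Group G] {p q : ℕ} [Fact p.Prime]
    [Fact q.Prime] (hpq : p ≠ q) (P : Sylow p G) (Q : Sylow q G) {g : G}
    (hP : g ∈ (P : Subgroup G)) (hQ : g ∈ (Q : Subgroup G)) : g = 1 := by
  obtain ⟨k, hk⟩ := P.isPGroup' ⟨g, hP⟩
  obtain ⟨l, hl⟩ := Q.isPGroup' ⟨g, hQ⟩
  have hk' : g ^ p ^ k = 1 := congrArg Subtype.val hk
  have hl' : g ^ q ^ l = 1 := congrArg Subtype.val hl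
  have h1 := orderOf_dvd_of_pow_eq_one hk'
  have h2 := orderOf_dvd_of_pow_eq_one hl'
  have hcop : Nat.Coprime (p ^ k) (q ^ l) :=
    Nat.Coprime.pow _ _ ((Nat.coprime_primes Fact.out Fact.out).mpr hpq)
  have := Nat.eq_one_of_dvd_coprimes hcop h1 h2
  exact orderOf_eq_one_iff.mp this

/-- Counting inequality for two primes: if the Sylow subgroups for `p` and for `q` pairwise
intersect trivially, then `n_p (m_p - 1) + n_q (m_q - 1) + 1 ≤ |G|`. -/
theorem card_sylow_elements_two {G : Type*} [Group G] [Finite G] {p q : ℕ} [Fact p.Prime]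
    [Fact q.Prime] (hpq : p ≠ q) (mp mq : ℕ)
    (hmp : ∀ P : Sylow p G, Nat.card P = mp) (hmq : ∀ Q : Sylow q G, Nat.card Q = mq)
    (hp : ∀ P Q : Sylow p G, P ≠ Q → (P : Subgroup G) ⊓ (Q : Subgroup G) = ⊥)
    (hq : ∀ P Q : Sylow q G, P ≠ Q → (P : Subgroup G) ⊓ (Q : Subgroup G) = ⊥) :
    Nat.card (Sylow p G) * (mp - 1) + Nat.card (Sylow q G) * (mq - 1) + 1 ≤ Nat.card G := by
  rw [← card_sylow_elements mp hmp hp, ← card_sylow_elements mq hmq hq]
  let ψ : ({g : G // g ≠ 1 ∧ ∃ P : Sylow p G, g ∈ P} ⊕ {g : G // g ≠ 1 ∧ ∃ P : Sylow q G, g ∈ P}) ⊕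
      Unit → G := fun x => match x with
    | Sum.inl (Sum.inl g) => g.1
    | Sum.inl (Sum.inr g) => g.1
    | Sum.inr _ => 1
  have hψ : Function.Injective ψ := by
    rintro ((⟨g, hg1, P, hg⟩ | ⟨g, hg1, P, hg⟩) | u) ((⟨g', hg1', P', hg'⟩ | ⟨g', hg1', P', hg'⟩) | u') hx
    · simp only [ψ] at hx; subst hx; rfl
    · simp only [ψ] at hx; subst hx
      exact absurd (eq_one_of_mem_sylow_of_mem_sylow hpq P P' hg hg') hg1
    · simp only [ψ] at hx; exact absurd hx hg1
    · simp only [ψ] at hx; subst hx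
      exact absurd (eq_one_of_mem_sylow_of_mem_sylow hpq P' P hg' hg) hg1
    · simp only [ψ] at hx; subst hx; rfl
    · simp only [ψ] at hx; exact absurd hx hg1
    · simp only [ψ] at hx; exact absurd hx.symm hg1'
    · simp only [ψ] at hx; exact absurd hx.symm hg1'
    · rfl
  have := Nat.card_le_card_of_injective ψ hψ
  simpa [Nat.card_sum] using this


/-- The order of a Sylow `p`-subgroup when `|G| = p^k m` with `p ∤ m`. -/
lemma sylow_card_eq_pow {G : Type*} [Group G] [Finite G] {p : ℕ} [Fact p.Prime] (P : Sylow p G)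
    {k m : ℕ} (hcard : Nat.card G = p ^ k * m) (hm : ¬ p ∣ m) : Nat.card P = p ^ k := by
  have hp : p.Prime := Fact.out
  obtain ⟨j, hj⟩ := IsPGroup.iff_card.mp P.isPGroup'
  apply Nat.dvd_antisymm
  · have h1 : Nat.card P ∣ p ^ k * m := hcard ▸ Subgroup.card_subgroup_dvd_card _
    refine Nat.Coprime.dvd_of_dvd_mul_right ?_ h1
    rw [hj]
    exact Nat.Coprime.pow_left _ ((hp.coprime_iff_not_dvd).mpr hm)
  · apply P.pow_dvd_card_of_pow_dvd_card
    rw [hcard]
    exact Dvd.intro _ rfl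

lemma sylow_index_eq {G : Type*} [Group G] [Finite G] {p : ℕ} [Fact p.Prime] (P : Sylow p G)
    {k m : ℕ} (hcard : Nat.card G = p ^ k * m) (hm : ¬ p ∣ m) :
    (P : Subgroup G).index = m := by
  have h1 := Subgroup.card_mul_index (P : Subgroup G)
  rw [sylow_card_eq_pow P hcard hm, hcard] at h1
  exact Nat.eq_of_mul_eq_mul_left (pow_pos (Fact.out : p.Prime).pos k) h1

/-- Sylow subgroups of prime order intersect trivially. -/
lemma sylow_inf_eq_bot_of_card_prime {G : Type*} [Group G] [Finite G] {p : ℕ} [Fact p.Prime]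
    (hm : ∀ P : Sylow p G, Nat.card P = p) (P Q : Sylow p G) (hne : P ≠ Q) :
    (P : Subgroup G) ⊓ (Q : Subgroup G) = ⊥ := by
  have hp : p.Prime := Fact.out
  have hdvd : Nat.card ((P : Subgroup G) ⊓ (Q : Subgroup G) : Subgroup G) ∣ p := by
    have h0 : Nat.card ((P : Subgroup G) ⊓ (Q : Subgroup G) : Subgroup G) ∣ Nat.card P :=
      Subgroup.card_dvd_of_le inf_le_left
    rwa [hm P] at h0
  rcases (Nat.dvd_prime hp).mp hdvd with h1 | h1
  · exact Subgroup.card_eq_one.mp h1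
  · exfalso
    apply hne
    have h2 : (P : Subgroup G) ⊓ (Q : Subgroup G) = P :=
      Subgroup.eq_of_le_of_card_ge inf_le_left (by rw [h1, hm P])
    have h3 : (P : Subgroup G) ≤ Q := h2 ▸ inf_le_right
    exact Sylow.ext (Subgroup.eq_of_le_of_card_ge h3 (by rw [hm P, hm Q]))

end Cfsg.Agent.Lib_helper4_Count
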