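import Mathlib
import Cfsg.Agent.Lib_helper2_Inv
import Cfsg.Agent.Lib_helper4_Count

set_option autoImplicit false

namespace Cfsg.Agent.Lib_helper2_BF

open Cfsg.Agent.Lib_helper2_Dihedral Cfsg.Agent.Lib_helper2_Inv

variable {G : Type*} [Group G]

/-- Number of ways of writing `x` as a product of two involutions. -/
noncomputable def beta (x : G) : ℕ :=
  Nat.card {p : G × G // orderOf p.1 = 2 ∧ orderOf p.2 = 2 ∧ p.1 * p.2 = x}

/-- The extended centralizer of `x`. -/
def extCentralizer (x : G) : Subgroup G where
  carrier := {g | g * x * g⁻¹ = x ∨ g * x * g⁻¹ = x⁻¹}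
  mul_mem' := by
    intro a b ha hb
    have e : a * b * x * (a * b)⁻¹ = a * (b * x * b⁻¹) * a⁻¹ := by group
    have e' : ∀ c : G, a * c⁻¹ * a⁻¹ = (a * c * a⁻¹)⁻¹ := fun c => by group
    show a * b * x * (a * b)⁻¹ = x ∨ a * b * x * (a * b)⁻¹ = x⁻¹
    rw [e]
    rcases hb with hb | hb <;> rcases ha with ha | ha
    · left; rw [hb, ha]
    · right; rw [hb, ha]
    · right; rw [hb, e', ha]
    · left; rw [hb, e', ha, inv_inv]
  one_mem' := by left; simp
  inv_mem' := by
    intro a ha
    show a⁻¹ * x * a⁻¹⁻¹ = x ∨ a⁻¹ * x * a⁻¹⁻¹ = x⁻¹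
    rcases ha with ha | ha
    · left
      calc a⁻¹ * x * a⁻¹⁻¹ = a⁻¹ * (a * x * a⁻¹) * a := by rw [ha, inv_inv]
        _ = x := by group
    · right
      calc a⁻¹ * x * a⁻¹⁻¹ = (a⁻¹ * x⁻¹ * a)⁻¹ := by group
        _ = (a⁻¹ * (a * x * a⁻¹) * a)⁻¹ := by rw [ha]
        _ = x⁻¹ := by group

theorem mem_centralizer_singleton_iff_conj {g x : G} :
    g ∈ Subgroup.centralizer ({x} : Set G) ↔ g * x * g⁻¹ = x := by
  rw [Subgroup.mem_centralizer_singleton_iff]
  constructor
  · intro h; rw [h]; group
  · intro h
    calc g * x = g * x * g⁻¹ * g := by group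
      _ = x * g := by rw [h]

theorem card_extCentralizer [Finite G] (x : G) (hx : x ^ 2 ≠ 1) (hreal : IsConj x x⁻¹) :
    Nat.card (extCentralizer x) = 2 * Nat.card (Subgroup.centralizer ({x} : Set G)) := by
  have h1 : Nat.card (extCentralizer x) = Set.ncard ((extCentralizer x : Subgroup G) : Set G) :=
    rfl
  have h2 : ((extCentralizer x : Subgroup G) : Set G) =
      ((Subgroup.centralizer ({x} : Set G) : Subgroup G) : Set G) ∪
        {g : G | g * x * g⁻¹ = x⁻¹} := by
    ext g
    rw [Set.mem_union, SetLike.mem_coe, SetLike.mem_coe, mem_centralizer_singleton_iff_conj]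
    rfl
  have hdisj : Disjoint (((Subgroup.centralizer ({x} : Set G) : Subgroup G) : Set G))
      {g : G | g * x * g⁻¹ = x⁻¹} := by
    rw [Set.disjoint_left]
    intro g hg hg'
    rw [SetLike.mem_coe, mem_centralizer_singleton_iff_conj] at hg
    have hg2 : g * x * g⁻¹ = x⁻¹ := hg'
    rw [hg] at hg2
    apply hx
    rw [pow_two]
    calc x * x = x * x⁻¹ := by rw [← hg2]
      _ = 1 := by group
  rw [h1, h2, Set.ncard_union_eq hdisj (Set.toFinite _) (Set.toFinite _)]
  have h3 : Set.ncard {g : G | g * x * g⁻¹ = x⁻¹} = Nat.card {g : G // g * x * g⁻¹ = x⁻¹} := rfl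
  have h4 : Set.ncard ((Subgroup.centralizer ({x} : Set G) : Subgroup G) : Set G) =
      Nat.card (Subgroup.centralizer ({x} : Set G)) := rfl
  rw [h3, card_inverting x hreal, h4]; ring

theorem beta_le_of_sq_ne_one [Finite G] (x : G) (hx : x ^ 2 ≠ 1) (hb : beta x ≠ 0) :
    IsConj x x⁻¹ ∧ beta x ≤ Nat.card (Subgroup.centralizer ({x} : Set G)) := by
  unfold beta at hb ⊢
  rw [card_pairs_of_sq_ne_one x hx] at hb ⊢
  have hne : Nonempty {t : G // orderOf t = 2 ∧ t * x * t⁻¹ = x⁻¹} := by
    by_contra h
    rw [not_nonempty_iff] at h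
    exact hb Nat.card_of_isEmpty
  obtain ⟨⟨t, ht2, ht⟩⟩ := hne
  have hreal : IsConj x x⁻¹ := isConj_iff.mpr ⟨t, ht⟩
  refine ⟨hreal, ?_⟩
  rw [← card_inverting x hreal]
  exact Nat.card_le_card_of_injective
    (fun t => (⟨t.1, t.2.2⟩ : {g : G // g * x * g⁻¹ = x⁻¹}))
    (fun a b h => by
      have := congrArg Subtype.val h
      exact Subtype.ext this)

theorem sum_beta [Fintype G] :
    ∑ x : G, beta x =
      Nat.card {t : G // orderOf t = 2} * Nat.card {t : G // orderOf t = 2} := by
  have e1 : (Σ x : G, {p : G × G // orderOf p.1 = 2 ∧ orderOf p.2 = 2 ∧ p.1 * p.2 = x}) ≃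
      {t : G // orderOf t = 2} × {t : G // orderOf t = 2} :=
    { toFun := fun s => (⟨s.2.1.1, s.2.2.1⟩, ⟨s.2.1.2, s.2.2.2.1⟩)
      invFun := fun q => ⟨q.1.1 * q.2.1, ⟨(q.1.1, q.2.1), q.1.2, q.2.2, rfl⟩⟩
      left_inv := by
        rintro ⟨x, ⟨⟨a, b⟩, h1, h2, rfl⟩⟩
        rfl
      right_inv := by
        rintro ⟨⟨a, ha⟩, ⟨b, hb⟩⟩
        rfl }
  have h := Nat.card_congr e1
  rw [Nat.card_sigma, Nat.card_prod] at h
  exact h

theorem beta_one_le [Finite G] : beta (1 : G) ≤ Nat.card {t : G // orderOf t = 2} := by
  unfold beta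
  apply Nat.card_le_card_of_injective
    (fun p => (⟨p.1.1, p.2.1⟩ : {t : G // orderOf t = 2}))
  rintro ⟨⟨a, b⟩, ha, hb, hab⟩ ⟨⟨c, d⟩, hc, hd, hcd⟩ h
  have hac : a = c := congrArg Subtype.val h
  subst hac
  have hbd : b = d := by
    have h1 : b = a⁻¹ := eq_inv_of_mul_eq_one_right hab
    have h2 : d = a⁻¹ := eq_inv_of_mul_eq_one_right hcd
    rw [h1, h2]
  subst hbd
  rfl

/-- Brauer–Fowler: a group of even order with centre of odd order has a proper subgroup of
index `2` or of index less than `a(a+1)/2`, `a = |G|/n`, `n` the number of involutions. -/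
theorem brauer_fowler_index [Finite G] (heven : Even (Nat.card G))
    (hZ : Odd (Nat.card (Subgroup.center G))) :
    ∃ H : Subgroup G, H ≠ ⊤ ∧ (H.index = 2 ∨
      2 * H.index * (Nat.card {t : G // orderOf t = 2}) ^ 2 <
        Nat.card G * (Nat.card G + Nat.card {t : G // orderOf t = 2})) := by
  classical
  by_contra hcon
  push Not at hcon
  have hn1 : 1 ≤ Nat.card {t : G // orderOf t = 2} := (odd_card_involutions heven).pos
  have hN1 : 1 ≤ Nat.card G := Nat.card_pos
  letI := Fintype.ofFinite G
  generalize hn : Nat.card {t : G // orderOf t = 2} = n at hcon hn1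
  generalize hN : Nat.card G = N at hcon hN1
  have key : ∀ x : G, (N + n) * beta x + (if orderOf x = 2 then 2 * (N + n) else 0) ≤
      n ^ 2 + (if x = 1 then N * n else 0) + (if orderOf x = 2 then n ^ 2 else 0) := by
    intro x
    by_cases hx1 : x = 1
    · subst hx1
      have hb := beta_one_le (G := G)
      rw [hn] at hb
      have h12 : ¬ orderOf (1 : G) = 2 := by rw [orderOf_one]; omega
      rw [if_neg h12, if_pos rfl, if_neg h12]
      nlinarith
    · by_cases hx2 : orderOf x = 2
      · rw [if_pos hx2, if_neg hx1, if_pos hx2]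
        have hb : beta x + 2 ≤ Nat.card (Subgroup.centralizer ({x} : Set G)) := by
          have h1 := card_pairs_of_involution x hx2
          have h2 := card_involutions_centralizer_succ_le x
          unfold beta; omega
        have hCtop : Subgroup.centralizer ({x} : Set G) ≠ ⊤ := by
          intro h
          have hxZ : x ∈ Subgroup.center G := by
            rw [Subgroup.mem_center_iff]
            intro g
            have hg : g ∈ Subgroup.centralizer ({x} : Set G) := by rw [h]; trivial
            exact Subgroup.mem_centralizer_singleton_iff.mp hg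
          have hdvd := orderOf_dvd_natCard (⟨x, hxZ⟩ : Subgroup.center G)
          rw [Subgroup.orderOf_mk, hx2] at hdvd
          exact (Nat.not_even_iff_odd.mpr hZ) (even_iff_two_dvd.mpr hdvd)
        obtain ⟨_, hle⟩ := hcon _ hCtop
        have hidx := (Subgroup.centralizer ({x} : Set G)).card_mul_index
        rw [hN] at hidx
        generalize Nat.card (Subgroup.centralizer ({x} : Set G)) = c at hb hidx
        generalize (Subgroup.centralizer ({x} : Set G)).index = k at hle hidx
        have h3 : c * (N + n) ≤ 2 * n ^ 2 := by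
          have h6 : c * (N * (N + n)) ≤ c * (2 * k * n ^ 2) := Nat.mul_le_mul_left c hle
          have h4 : c * (N * (N + n)) = N * (c * (N + n)) := by ring
          have h5 : c * (2 * k * n ^ 2) = N * (2 * n ^ 2) := by rw [← hidx]; ring
          rw [h4, h5] at h6
          exact Nat.le_of_mul_le_mul_left h6 (by omega)
        nlinarith
      · rw [if_neg hx2, if_neg hx1, if_neg hx2]
        have hxsq : x ^ 2 ≠ 1 := by
          intro h
          apply hx2
          rw [orderOf_eq_two_iff']
          exact ⟨hx1, by rw [← pow_two]; exact h⟩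
        by_cases hb0 : beta x = 0
        · rw [hb0]; simp
        · obtain ⟨hreal, hb⟩ := beta_le_of_sq_ne_one x hxsq hb0
          have hK := card_extCentralizer x hxsq hreal
          have hC1 : 1 ≤ Nat.card (Subgroup.centralizer ({x} : Set G)) := Nat.card_pos
          have hKidx := (extCentralizer x).card_mul_index
          have hCidx := (Subgroup.centralizer ({x} : Set G)).card_mul_index
          rw [hN] at hKidx hCidx
          rw [hK] at hKidx
          by_cases hKtop : extCentralizer x = ⊤
          · exfalso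
            rw [hKtop, Subgroup.index_top, mul_one] at hKidx
            have hi2 : (Subgroup.centralizer ({x} : Set G)).index = 2 := by
              have : Nat.card (Subgroup.centralizer ({x} : Set G)) *
                  (Subgroup.centralizer ({x} : Set G)).index =
                  Nat.card (Subgroup.centralizer ({x} : Set G)) * 2 := by
                rw [hCidx, ← hKidx]; ring
              exact Nat.eq_of_mul_eq_mul_left (by omega) this
            have hCtop : Subgroup.centralizer ({x} : Set G) ≠ ⊤ := by
              intro h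
              rw [h, Subgroup.index_top] at hi2
              omega
            exact (hcon _ hCtop).1 hi2
          · obtain ⟨_, hle⟩ := hcon _ hKtop
            generalize Nat.card (Subgroup.centralizer ({x} : Set G)) = c at hb hKidx hC1
            generalize (extCentralizer x).index = k at hle hKidx
            have h3 : c * (N + n) ≤ n ^ 2 := by
              have h6 : c * (N * (N + n)) ≤ c * (2 * k * n ^ 2) := Nat.mul_le_mul_left c hle
              have h4 : c * (N * (N + n)) = N * (c * (N + n)) := by ring
              have h5 : c * (2 * k * n ^ 2) = N * (n ^ 2) := by rw [← hKidx]; ring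
              rw [h4, h5] at h6
              exact Nat.le_of_mul_le_mul_left h6 (by omega)
            nlinarith
  have hsum := Finset.sum_le_sum (fun x (_ : x ∈ (Finset.univ : Finset G)) => key x)
  rw [Finset.sum_add_distrib, Finset.sum_add_distrib, Finset.sum_add_distrib,
    ← Finset.mul_sum, sum_beta, hn] at hsum
  have hcardinv : (Finset.univ.filter (fun x : G => orderOf x = 2)).card = n := by
    rw [← hn, Nat.card_eq_fintype_card, Fintype.card_subtype]
  have hS1 : ∑ x : G, (if orderOf x = 2 then 2 * (N + n) else 0) = n * (2 * (N + n)) := by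
    rw [← Finset.sum_filter, Finset.sum_const, smul_eq_mul, hcardinv]
  have hS2 : ∑ x : G, (if x = 1 then N * n else 0) = N * n := by
    rw [Finset.sum_ite_eq' Finset.univ (1 : G) (fun _ => N * n)]
    simp
  have hS3 : ∑ x : G, (if orderOf x = 2 then n ^ 2 else 0) = n * n ^ 2 := by
    rw [← Finset.sum_filter, Finset.sum_const, smul_eq_mul, hcardinv]
  have hS4 : ∑ _x : G, n ^ 2 = N * n ^ 2 := by
    rw [Finset.sum_const, smul_eq_mul, Finset.card_univ, ← hN, Nat.card_eq_fintype_card]
  rw [hS1, hS2, hS3, hS4] at hsum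
  have h7 : n * N + 2 * n ^ 2 ≤ 0 := by nlinarith
  have h8 : 0 < n * N := Nat.mul_pos hn1 hN1
  omega

/-- The class of an involution consists of involutions: `|G| ≤ n * |C(t)|`. -/
theorem card_le_involutions_mul_centralizer [Finite G] (t : G) (ht : orderOf t = 2) :
    Nat.card G ≤ Nat.card {s : G // orderOf s = 2} *
      Nat.card (Subgroup.centralizer ({t} : Set G)) := by
  rw [← card_conj_mul_card_centralizer t]
  apply Nat.mul_le_mul_right
  have hinv : ∀ b : {b : G // IsConj t b}, orderOf b.1 = 2 := by
    rintro ⟨b, hb⟩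
    obtain ⟨g, hg⟩ := isConj_iff.mp hb
    have h1 := orderOf_injective (MulAut.conj g).toMonoidHom (MulAut.conj g).injective t
    have h2 : (MulAut.conj g).toMonoidHom t = b := by simpa using hg
    rw [h2] at h1
    show orderOf b = 2
    rw [h1]; exact ht
  exact Nat.card_le_card_of_injective
    (fun b => (⟨b.1, hinv b⟩ : {s : G // orderOf s = 2}))
    (fun a b h => Subtype.ext (by
      have h3 : (⟨a.1, hinv a⟩ : {s : G // orderOf s = 2}) = ⟨b.1, hinv b⟩ := h
      have h4 := congrArg Subtype.val h3
      exact h4))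

/-- A simple group containing an involution has centre of odd order unless it has prime order. -/
theorem odd_card_center_of_simple [Finite G] [IsSimpleGroup G]
    (hnc : ¬ IsMulCommutative G) : Odd (Nat.card (Subgroup.center G)) := by
  rcases (inferInstance : (Subgroup.center G).Normal).eq_bot_or_eq_top with h | h
  · rw [h, Subgroup.card_bot]; exact odd_one
  · exfalso
    apply hnc
    refine ⟨⟨fun a b => ?_⟩⟩
    have ha : a ∈ Subgroup.center G := by rw [h]; trivial
    exact ((Subgroup.mem_center_iff.mp ha) b).symm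

theorem index_cube_lt_of_index_two [Finite G] {H : Subgroup G} (h2 : H.index = 2)
    (hgt : 2 < Nat.card G) (heven : Even (Nat.card G)) :
    H ≠ ⊤ ∧ H.index ^ 3 < Nat.card G ^ 2 := by
  refine ⟨?_, ?_⟩
  · intro h; rw [h, Subgroup.index_top] at h2; omega
  · rw [h2]
    obtain ⟨m, hm⟩ := heven
    have : 4 ≤ Nat.card G := by omega
    nlinarith

universe u

/-- Brauer–Fowler: a group of even order `> 2` has a proper subgroup `H` with
`|G : H|³ < |G|²`. -/
theorem exists_index_cube_lt : ∀ (n : ℕ) (G : Type u) [Group G] [Finite G], Nat.card G = n →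
    Even n → 2 < n → ∃ H : Subgroup G, H ≠ ⊤ ∧ H.index ^ 3 < n ^ 2 := by
  intro n
  induction n using Nat.strong_induction_on with
  | _ n ih =>
    intro G _ _ hn heven hgt
    subst hn
    haveI : Fact (Nat.Prime 2) := ⟨Nat.prime_two⟩
    by_cases hZ : Odd (Nat.card (Subgroup.center G))
    · obtain ⟨H, hH, hcase⟩ := brauer_fowler_index heven hZ
      rcases hcase with h2 | hlt
      · exact ⟨H, index_cube_lt_of_index_two h2 hgt heven⟩
      · obtain ⟨t, ht⟩ := exists_prime_orderOf_dvd_card' (G := G) 2 (even_iff_two_dvd.mp heven)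
        have hCtop : Subgroup.centralizer ({t} : Set G) ≠ ⊤ := by
          intro h
          have htZ : t ∈ Subgroup.center G := by
            rw [Subgroup.mem_center_iff]
            intro g
            have hg : g ∈ Subgroup.centralizer ({t} : Set G) := by rw [h]; trivial
            exact Subgroup.mem_centralizer_singleton_iff.mp hg
          have hdvd := orderOf_dvd_natCard (⟨t, htZ⟩ : Subgroup.center G)
          rw [Subgroup.orderOf_mk, ht] at hdvd
          exact (Nat.not_even_iff_odd.mpr hZ) (even_iff_two_dvd.mpr hdvd)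
        have hm := card_le_involutions_mul_centralizer t ht
        have hidx := (Subgroup.centralizer ({t} : Set G)).card_mul_index
        have hc1 : 1 ≤ Nat.card (Subgroup.centralizer ({t} : Set G)) := Nat.card_pos
        have hj0 : (Subgroup.centralizer ({t} : Set G)).index ≠ 0 :=
          Subgroup.index_ne_zero_of_finite
        by_cases hj : (Subgroup.centralizer ({t} : Set G)).index <
            Nat.card (Subgroup.centralizer ({t} : Set G)) ^ 2
        · refine ⟨_, hCtop, ?_⟩
          rw [← hidx]
          generalize Nat.card (Subgroup.centralizer ({t} : Set G)) = c at hj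
          generalize (Subgroup.centralizer ({t} : Set G)).index = j at hj hj0
          have hj2 : 0 < j ^ 2 := by positivity
          calc j ^ 3 = j * j ^ 2 := by ring
            _ < c ^ 2 * j ^ 2 := Nat.mul_lt_mul_of_pos_right hj hj2
            _ = (c * j) ^ 2 := by ring
        · push Not at hj
          refine ⟨H, hH, ?_⟩
          generalize Nat.card {s : G // orderOf s = 2} = n at hm hlt
          generalize Nat.card (Subgroup.centralizer ({t} : Set G)) = c at hj hm hidx hc1
          generalize (Subgroup.centralizer ({t} : Set G)).index = j at hj hidx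
          generalize H.index = k at hlt
          generalize Nat.card G = N at hm hlt hidx
          have h1 : N * (N + n) ≤ (n * c) * (n * c + n) := Nat.mul_le_mul hm (by omega)
          have h2 : 2 * k * n ^ 2 < (n * c) * (n * c + n) := lt_of_lt_of_le hlt h1
          have h3 : (n * c) * (n * c + n) = n ^ 2 * (c * (c + 1)) := by ring
          have h4 : 2 * k * n ^ 2 = n ^ 2 * (2 * k) := by ring
          rw [h3, h4] at h2
          have h5 : 2 * k < c * (c + 1) := lt_of_mul_lt_mul_left h2 (Nat.zero_le _)
          have h6 : k < c ^ 2 := by nlinarith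
          have h7 : c ^ 3 ≤ N := by
            rw [← hidx]
            calc c ^ 3 = c * c ^ 2 := by ring
              _ ≤ c * j := Nat.mul_le_mul_left c hj
          have h8 : k ^ 3 < (c ^ 2) ^ 3 := Nat.pow_lt_pow_left h6 (by norm_num)
          have h9 : (c ^ 2) ^ 3 = (c ^ 3) ^ 2 := by ring
          have h10 : (c ^ 3) ^ 2 ≤ N ^ 2 := Nat.pow_le_pow_left h7 2
          omega
    · rw [Nat.not_odd_iff_even] at hZ
      obtain ⟨z, hz⟩ := exists_prime_orderOf_dvd_card' (G := Subgroup.center G) 2
        (even_iff_two_dvd.mp hZ)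
      have hZn : (Subgroup.zpowers (z : G)).Normal := by
        refine ⟨fun x hx g => ?_⟩
        have hxc : x ∈ Subgroup.center G := by
          obtain ⟨k, rfl⟩ := hx
          exact Subgroup.zpow_mem _ z.2 k
        have h1 := (Subgroup.mem_center_iff.mp hxc) g
        have h2 : g * x * g⁻¹ = x := by rw [h1]; group
        rw [h2]; exact hx
      have hZcard : Nat.card (Subgroup.zpowers (z : G)) = 2 := by
        rw [Nat.card_zpowers, Subgroup.orderOf_coe]; exact hz
      have hQ : Nat.card G = Nat.card (G ⧸ Subgroup.zpowers (z : G)) * 2 := by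
        rw [← hZcard]; exact Subgroup.card_eq_card_quotient_mul_card_subgroup _
      by_cases hMeven : Even (Nat.card (G ⧸ Subgroup.zpowers (z : G)))
      · by_cases hM2 : Nat.card (G ⧸ Subgroup.zpowers (z : G)) = 2
        · obtain ⟨K, hK⟩ := exists_index_two_of_card_pow (Q := G) (a := 1) (by rw [hQ, hM2]; rfl)
          exact ⟨K, index_cube_lt_of_index_two hK hgt heven⟩
        · have hMgt : 2 < Nat.card (G ⧸ Subgroup.zpowers (z : G)) := by
            obtain ⟨m, hm⟩ := hMeven
            have : Nat.card (G ⧸ Subgroup.zpowers (z : G)) ≠ 0 := Nat.card_pos.ne'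
            omega
          obtain ⟨Hbar, hHbar, hlt⟩ := ih (Nat.card (G ⧸ Subgroup.zpowers (z : G))) (by omega)
            (G ⧸ Subgroup.zpowers (z : G)) rfl hMeven hMgt
          have hi := Subgroup.index_comap_of_surjective Hbar
            (QuotientGroup.mk'_surjective (Subgroup.zpowers (z : G)))
          refine ⟨Hbar.comap (QuotientGroup.mk' (Subgroup.zpowers (z : G))), ?_, ?_⟩
          · intro h
            rw [h, Subgroup.index_top] at hi
            exact hHbar (Subgroup.index_eq_one.mp hi.symm)
          · rw [hi]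
            calc Hbar.index ^ 3 < Nat.card (G ⧸ Subgroup.zpowers (z : G)) ^ 2 := hlt
              _ ≤ Nat.card G ^ 2 := Nat.pow_le_pow_left (by omega) 2
      · obtain ⟨T⟩ : Nonempty (Sylow 2 G) := inferInstance
        have hT : Nat.card T = 2 ^ 1 :=
          Cfsg.Agent.Lib_helper4_Count.sylow_card_eq_pow T (k := 1)
            (m := Nat.card (G ⧸ Subgroup.zpowers (z : G))) (by rw [hQ]; ring)
            (by rwa [← even_iff_two_dvd])
        have hTc : IsCyclic (T : Subgroup G) :=
          isCyclic_of_prime_card (p := 2) (by rw [hT]; rfl)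
        obtain ⟨K, hK⟩ := exists_index_two_of_cyclic_sylow heven T hTc
        exact ⟨K, index_cube_lt_of_index_two hK hgt heven⟩

/-- Brauer–Fowler: a group of even order `> 2` has a proper subgroup `H` with `|G| < |H|³`. -/
theorem exists_card_lt_cube [Finite G] (heven : Even (Nat.card G)) (hgt : 2 < Nat.card G) :
    ∃ H : Subgroup G, H ≠ ⊤ ∧ Nat.card G < (Nat.card H) ^ 3 := by
  obtain ⟨H, hH, hlt⟩ := exists_index_cube_lt (Nat.card G) G rfl heven hgt
  refine ⟨H, hH, ?_⟩
  have hidx := H.card_mul_index
  have hk0 : H.index ≠ 0 := Subgroup.index_ne_zero_of_finite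
  generalize Nat.card H = c at hidx
  generalize H.index = k at hidx hlt hk0
  rw [← hidx] at hlt ⊢
  -- k^3 < (c k)^2  ⇒ c k < c^3
  have h1 : k * k ^ 2 < c ^ 2 * k ^ 2 := by
    calc k * k ^ 2 = k ^ 3 := by ring
      _ < (c * k) ^ 2 := hlt
      _ = c ^ 2 * k ^ 2 := by ring
  have h2 : k < c ^ 2 := lt_of_mul_lt_mul_right h1 (Nat.zero_le _)
  have hc0 : 0 < c := by
    rcases Nat.eq_zero_or_pos c with h | h
    · rw [h] at h2; simp at h2
    · exact h
  calc c * k < c * c ^ 2 := Nat.mul_lt_mul_of_pos_left h2 hc0
    _ = c ^ 3 := by ring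

end Cfsg.Agent.Lib_helper2_BF
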