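import Mathlib

namespace Cfsg.Agent.Lib_helper2_CA

open scoped Pointwise

theorem cls_card {W : Type*} [Group W] [Finite W] (M N : Subgroup W)
    (hN : ∀ g ∈ N, ∀ m ∈ M, g * m * g⁻¹ ∈ M)
    (hTI : ∀ g : W, ∀ m ∈ M, m ≠ 1 → g * m * g⁻¹ ∈ M → g ∈ N) :
    Set.ncard {y : W | y ≠ 1 ∧ ∃ g : W, g * y * g⁻¹ ∈ M} * Nat.card N
      = Nat.card W * (Nat.card M - 1) := by
  classical
  have hch : ∀ y : {y : W | y ≠ 1 ∧ ∃ g : W, g * y * g⁻¹ ∈ M},
      ∃ g : W, g * (y : W) * g⁻¹ ∈ M := fun y => y.2.2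
  choose γ hγ using hch
  have hm1 : ∀ y : {y : W | y ≠ 1 ∧ ∃ g : W, g * y * g⁻¹ ∈ M},
      γ y * (y : W) * (γ y)⁻¹ ≠ 1 := by
    intro y h
    apply y.2.1
    have : (y : W) = (γ y)⁻¹ * (γ y * (y : W) * (γ y)⁻¹) * γ y := by group
    rw [this, h]; group
  let φ : {y : W | y ≠ 1 ∧ ∃ g : W, g * y * g⁻¹ ∈ M} × N → W × ↥((M : Set W) \ {1}) :=
    fun yn =>
    ((yn.2 : W) * γ yn.1,
      ⟨(yn.2 : W) * (γ yn.1 * (yn.1 : W) * (γ yn.1)⁻¹) * (yn.2 : W)⁻¹,
        hN _ yn.2.2 _ (hγ yn.1), by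
          intro h
          rw [Set.mem_singleton_iff] at h
          apply hm1 yn.1
          have : γ yn.1 * (yn.1 : W) * (γ yn.1)⁻¹ = (yn.2 : W)⁻¹ *
              ((yn.2 : W) * (γ yn.1 * (yn.1 : W) * (γ yn.1)⁻¹) * (yn.2 : W)⁻¹) * (yn.2 : W) := by
            group
          rw [this, h]; group⟩)
  have hrec : ∀ yn, ((φ yn).1)⁻¹ * ((φ yn).2 : W) * (φ yn).1 = (yn.1 : W) := by
    intro yn
    show ((yn.2 : W) * γ yn.1)⁻¹ * ((yn.2 : W) * (γ yn.1 * (yn.1 : W) * (γ yn.1)⁻¹) *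
      (yn.2 : W)⁻¹) * ((yn.2 : W) * γ yn.1) = (yn.1 : W)
    group
  have hinj : Function.Injective φ := by
    intro a b hab
    have h1 : (a.1 : W) = (b.1 : W) := by rw [← hrec a, ← hrec b, hab]
    have h1' : a.1 = b.1 := Subtype.ext h1
    have h2 : (a.2 : W) * γ a.1 = (b.2 : W) * γ b.1 := congrArg Prod.fst hab
    rw [h1'] at h2
    have h3 : (a.2 : W) = (b.2 : W) := mul_right_cancel h2
    exact Prod.ext h1' (Subtype.ext h3)
  have hsurj : Function.Surjective φ := by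
    rintro ⟨g, m, hmM, hm1'⟩
    have hm1'' : m ≠ 1 := fun h => hm1' (by rw [h]; exact Set.mem_singleton _)
    have hyX : g⁻¹ * m * g ∈ {y : W | y ≠ 1 ∧ ∃ g : W, g * y * g⁻¹ ∈ M} := by
      refine ⟨?_, g, ?_⟩
      · intro h
        apply hm1''
        have : m = g * (g⁻¹ * m * g) * g⁻¹ := by group
        rw [this, h]; group
      · have : g * (g⁻¹ * m * g) * g⁻¹ = m := by group
        rw [this]; exact hmM
    have hyv : ∀ (y : {y : W | y ≠ 1 ∧ ∃ g : W, g * y * g⁻¹ ∈ M}), (y : W) = g⁻¹ * m * g →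
        ∃ a, φ a = (g, ⟨m, hmM, hm1'⟩) := by
      intro y hy
      have hn : g * (γ y)⁻¹ ∈ N := by
        apply hTI _ _ (hγ y) (hm1 y)
        have : g * (γ y)⁻¹ * (γ y * (y : W) * (γ y)⁻¹) * (g * (γ y)⁻¹)⁻¹ = m := by
          rw [hy]; group
        rw [this]; exact hmM
      refine ⟨(y, ⟨g * (γ y)⁻¹, hn⟩), ?_⟩
      refine Prod.ext ?_ (Subtype.ext ?_)
      · show g * (γ y)⁻¹ * γ y = g
        group
      · show g * (γ y)⁻¹ * (γ y * (y : W) * (γ y)⁻¹) * (g * (γ y)⁻¹)⁻¹ = m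
        rw [hy]; group
    exact hyv ⟨g⁻¹ * m * g, hyX⟩ rfl
  have hcard := Nat.card_congr (Equiv.ofBijective φ ⟨hinj, hsurj⟩)
  rw [Nat.card_prod, Nat.card_prod, Nat.card_coe_set_eq, Nat.card_coe_set_eq,
    Set.ncard_sdiff_singleton_of_mem (Subgroup.one_mem M)] at hcard
  have hMc : (M : Set W).ncard = Nat.card M := (Nat.card_coe_set_eq (M : Set W)).symm
  rw [hMc] at hcard
  exact hcard

theorem conj_comm_iff {W : Type*} [Group W] (g c m : W) :
    (g * c * g⁻¹) * (g * m * g⁻¹) = (g * m * g⁻¹) * (g * c * g⁻¹) ↔ c * m = m * c := by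
  constructor
  · intro h
    have h1 : c * m = g⁻¹ * ((g * c * g⁻¹) * (g * m * g⁻¹)) * g := by group
    rw [h1, h]; group
  · intro h
    have h1 : (g * c * g⁻¹) * (g * m * g⁻¹) = g * (c * m) * g⁻¹ := by group
    rw [h1, h]; group

theorem arithB (k n Q : ℤ) (hk : 2 ≤ k) (hn : 2 ≤ n) (hQ : 0 ≤ Q)
    (h : k * (n * (Q + 2) - n + 1) - n * (Q + 2) = 0) : False := by
  have hnQ : 0 ≤ n * Q := mul_nonneg (by linarith) hQ
  have hA : 0 ≤ n * (Q + 2) - n + 1 := by nlinarith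
  have h1 : 2 * (n * (Q + 2) - n + 1) ≤ k * (n * (Q + 2) - n + 1) :=
    mul_le_mul_of_nonneg_right hk hA
  nlinarith

theorem arithA (c w m : ℕ) (h : c * (m + 2) = w * (m + 1)) : w ≤ 2 * c := by
  by_contra hlt
  push Not at hlt
  have h1 : (2 * c + 1) * (m + 2) ≤ w * (m + 2) := Nat.mul_le_mul_right (m + 2) (by omega)
  nlinarith

set_option maxHeartbeats 1600000 in
theorem pelts_commute {W : Type*} [Group W] [Finite W] (p : ℕ) [Fact p.Prime]
    (hodd : Odd (Nat.card W))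
    (hCA : ∀ x : W, x ≠ 1 → ∀ a b : W, a * x = x * a → b * x = x * b → a * b = b * a)
    (hS : ∀ x : W, x ≠ 1 → (orderOf x).Coprime p → ∀ h : W,
      (h * x * h⁻¹) * x = x * (h * x * h⁻¹) → h * x * h⁻¹ = x ∨ h * x * h⁻¹ = x⁻¹)
    (hU : ∀ u : W, orderOf u = p → ∀ c : W, c * u = u * c → c ^ p = 1)
    (hT : ∀ u : W, orderOf u = p → ∃ t : W, (orderOf t).Coprime p ∧
      (t * u * t⁻¹) * u = u * (t * u * t⁻¹) ∧
      ∀ h : W, (h * u * h⁻¹) * u = u * (h * u * h⁻¹) →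
        ∃ k : ℕ, ((t ^ k)⁻¹ * h) * u = u * ((t ^ k)⁻¹ * h)) :
    ∀ x y : W, x ^ p = 1 → y ^ p = 1 → x * y = y * x := by
  classical
  have hp := (Fact.out : p.Prime)
  have F1 : ∀ x₀ : W, x₀ ≠ 1 → ∀ a : W, a ≠ 1 → a * x₀ = x₀ * a → ∀ c : W,
      (c * a = a * c ↔ c * x₀ = x₀ * c) := by
    intro x₀ hx₀ a ha hax c
    constructor
    · intro hc
      exact hCA a ha c x₀ hc hax.symm
    · intro hc
      exact hCA x₀ hx₀ c a hc hax
  intro x y hx hy
  by_cases hx1 : x = 1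
  · subst hx1; simp
  have hox : orderOf x = p := orderOf_eq_prime hx hx1
  have hzx : IsPGroup p (Subgroup.zpowers x) :=
    IsPGroup.of_card (n := 1) (by rw [Nat.card_zpowers, hox, pow_one])
  obtain ⟨S, hxS⟩ := hzx.exists_le_sylow
  have hxS' : x ∈ (S : Subgroup W) := hxS (Subgroup.mem_zpowers x)
  haveI : Nontrivial (S : Subgroup W) :=
    ⟨⟨⟨x, hxS'⟩, 1, fun h => hx1 (congrArg Subtype.val h)⟩⟩
  haveI := IsPGroup.center_nontrivial S.isPGroup'
  have hcz : p ∣ Nat.card (Subgroup.center (S : Subgroup W)) := by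
    rcases (S.isPGroup'.to_subgroup (Subgroup.center (S : Subgroup W))).card_eq_or_dvd with h | h
    · exact absurd h (ne_of_gt Finite.one_lt_card)
    · exact h
  obtain ⟨z', hz'⟩ := exists_prime_orderOf_dvd_card' p hcz
  set u : W := ((z' : (S : Subgroup W)) : W) with hu
  have hou : orderOf u = p := by
    rw [hu, Subgroup.orderOf_coe, Subgroup.orderOf_coe]; exact hz'
  have hu1 : u ≠ 1 := by
    intro h; rw [h, orderOf_one] at hou; exact hp.one_lt.ne hou
  have hSu : ∀ s ∈ (S : Subgroup W), s * u = u * s := by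
    intro s hs
    have := Subgroup.mem_center_iff.mp z'.2 ⟨s, hs⟩
    exact congrArg Subtype.val this
  have Fp : ∀ a : W, orderOf a = p → ∃ g : W, (g * a * g⁻¹) * u = u * (g * a * g⁻¹) := by
    intro a hoa
    have hz : IsPGroup p (Subgroup.zpowers a) :=
      IsPGroup.of_card (n := 1) (by rw [Nat.card_zpowers, hoa, pow_one])
    obtain ⟨Q, haQ⟩ := hz.exists_le_sylow
    obtain ⟨g, hg⟩ := MulAction.exists_smul_eq W Q S
    refine ⟨g, hSu _ ?_⟩
    rw [← hg, Sylow.smul_def]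
    show g * a * g⁻¹ ∈ MulAut.conj g • (Q : Subgroup W)
    rw [Subgroup.mem_pointwise_smul_iff_inv_smul_mem]
    have : (MulAut.conj g)⁻¹ • (g * a * g⁻¹) = a := by
      simp [MulAut.smul_def]
      group
    rw [this]; exact haQ (Subgroup.mem_zpowers a)
  have G1 : ∀ x₀ : W, x₀ ≠ 1 → (orderOf x₀).Coprime p → ∀ m : W, m * x₀ = x₀ * m →
      (orderOf m).Coprime p := by
    intro x₀ hx₀ hcop m hm
    by_contra hnc
    have hdvd : p ∣ orderOf m := by
      by_contra hnd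
      exact hnc ((Nat.Prime.coprime_iff_not_dvd hp).mpr hnd).symm
    have ho : orderOf (m ^ (orderOf m / p)) = p :=
      orderOf_pow_orderOf_div (orderOf_pos m).ne' hdvd
    have hc : x₀ * m ^ (orderOf m / p) = m ^ (orderOf m / p) * x₀ :=
      ((show Commute x₀ m from hm.symm).pow_right _).eq
    have := hU _ ho x₀ hc
    have h1 : orderOf x₀ ∣ p := orderOf_dvd_of_pow_eq_one this
    have h2 : orderOf x₀ = 1 := Nat.Coprime.eq_one_of_dvd hcop h1
    exact hx₀ (orderOf_eq_one_iff.mp h2)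
  have G2 : ∀ x₀ : W, x₀ ≠ 1 → (orderOf x₀).Coprime p → ∀ g m : W, m * x₀ = x₀ * m → m ≠ 1 →
      (g * m * g⁻¹) * x₀ = x₀ * (g * m * g⁻¹) → g * x₀ = x₀ * g := by
    intro x₀ hx₀ hcop g m hm hm1 hgm
    have hmc := G1 x₀ hx₀ hcop m hm
    have h1 : (g * m * g⁻¹) * m = m * (g * m * g⁻¹) := (F1 x₀ hx₀ m hm1 hm _).mpr hgm
    have h2 : g * m = m * g := by
      rcases hS m hm1 hmc g h1 with h | h
      · calc g * m = (g * m * g⁻¹) * g := by group
          _ = m * g := by rw [h]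
      · have h3 : g ^ 2 * m = m * g ^ 2 := by
          have h3' : g ^ 2 * m * (g ^ 2)⁻¹ = m := by
            calc g ^ 2 * m * (g ^ 2)⁻¹ = g * (g * m * g⁻¹) * g⁻¹ := by rw [pow_two]; group
              _ = g * m⁻¹ * g⁻¹ := by rw [h]
              _ = (g * m * g⁻¹)⁻¹ := by group
              _ = m := by rw [h, inv_inv]
          calc g ^ 2 * m = (g ^ 2 * m * (g ^ 2)⁻¹) * g ^ 2 := by
                rw [inv_mul_cancel_right]
            _ = m * g ^ 2 := by rw [h3']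
        have hog : Odd (orderOf g) := Odd.of_dvd_nat hodd (orderOf_dvd_natCard g)
        obtain ⟨k, hk⟩ := hog
        have h4 : (g ^ 2) ^ (k + 1) = g := by
          rw [← pow_mul, show 2 * (k + 1) = orderOf g + 1 by omega, pow_succ,
            pow_orderOf_eq_one, one_mul]
        have h5 : Commute ((g ^ 2) ^ (k + 1)) m := (show Commute (g ^ 2) m from h3).pow_left _
        rw [h4] at h5
        exact h5.eq
    exact (F1 x₀ hx₀ m hm1 hm g).mp h2
  have G3 : ∀ x₀ : W, x₀ ≠ 1 → (orderOf x₀).Coprime p →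
      Nat.card W ≤ 2 * Set.ncard {y : W | y ≠ 1 ∧ ∃ g : W, g * y * g⁻¹ ∈
        Subgroup.centralizer {x₀}} ∧
      Set.ncard {y : W | y ≠ 1 ∧ ∃ g : W, g * y * g⁻¹ ∈ Subgroup.centralizer {x₀}} *
        Nat.card (Subgroup.centralizer ({x₀} : Set W)) =
        Nat.card W * (Nat.card (Subgroup.centralizer ({x₀} : Set W)) - 1) := by
    intro x₀ hx₀ hcop
    have hc := cls_card (Subgroup.centralizer {x₀}) (Subgroup.centralizer {x₀})
      (fun g hg m hm => Subgroup.mul_mem _ (Subgroup.mul_mem _ hg hm) (Subgroup.inv_mem _ hg))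
      (fun g m hm hm1 hgm => by
        rw [Subgroup.mem_centralizer_singleton_iff] at hm hgm ⊢
        exact G2 x₀ hx₀ hcop g m hm hm1 hgm)
    refine ⟨?_, hc⟩
    have h2 : 2 ≤ Nat.card (Subgroup.centralizer ({x₀} : Set W)) := by
      haveI : Nontrivial (Subgroup.centralizer ({x₀} : Set W)) :=
        ⟨⟨⟨x₀, Subgroup.mem_centralizer_singleton_iff.mpr rfl⟩, 1,
          fun h => hx₀ (congrArg Subtype.val h)⟩⟩
      exact Finite.one_lt_card
    obtain ⟨m', hm'⟩ : ∃ m', Nat.card (Subgroup.centralizer ({x₀} : Set W)) = m' + 2 :=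
      ⟨_, (Nat.sub_add_cancel h2).symm⟩
    rw [hm'] at hc
    have e : m' + 2 - 1 = m' + 1 := by omega
    rw [e] at hc
    exact arithA _ _ _ hc
  have D : ∀ x₁ x₂ y' : W, y' ≠ 1 →
      (∃ g : W, (g * y' * g⁻¹) * x₁ = x₁ * (g * y' * g⁻¹)) →
      (∃ g : W, (g * y' * g⁻¹) * x₂ = x₂ * (g * y' * g⁻¹)) →
      ∃ g : W, (g * x₂ * g⁻¹) * x₁ = x₁ * (g * x₂ * g⁻¹) := by
    rintro x₁ x₂ y' hy' ⟨g₁, h₁⟩ ⟨g₂, h₂⟩
    refine ⟨g₁ * g₂⁻¹, ?_⟩
    have hne : g₁ * y' * g₁⁻¹ ≠ 1 := by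
      intro h
      apply hy'
      have : y' = g₁⁻¹ * (g₁ * y' * g₁⁻¹) * g₁ := by group
      rw [this, h]; group
    have h3 : (g₁ * g₂⁻¹ * x₂ * (g₁ * g₂⁻¹)⁻¹) * (g₁ * y' * g₁⁻¹) =
        (g₁ * y' * g₁⁻¹) * (g₁ * g₂⁻¹ * x₂ * (g₁ * g₂⁻¹)⁻¹) := by
      have e1 : (g₁ * g₂⁻¹ * x₂ * (g₁ * g₂⁻¹)⁻¹) * (g₁ * y' * g₁⁻¹) =
          (g₁ * g₂⁻¹) * (x₂ * (g₂ * y' * g₂⁻¹)) * (g₁ * g₂⁻¹)⁻¹ := by group
      have e2 : (g₁ * y' * g₁⁻¹) * (g₁ * g₂⁻¹ * x₂ * (g₁ * g₂⁻¹)⁻¹) =
          (g₁ * g₂⁻¹) * ((g₂ * y' * g₂⁻¹) * x₂) * (g₁ * g₂⁻¹)⁻¹ := by group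
      rw [e1, e2, h₂]
    exact hCA (g₁ * y' * g₁⁻¹) hne _ x₁ h3 h₁.symm
  set P : Subgroup W := Subgroup.centralizer {u} with hP
  have memP : ∀ c : W, c ∈ P ↔ c * u = u * c := fun c => Subgroup.mem_centralizer_singleton_iff
  have hPp : ∀ c ∈ P, c ^ p = 1 := fun c hc => hU u hou c ((memP c).mp hc)
  have hPg : IsPGroup p P := fun c => ⟨1, by
    rw [pow_one]; exact Subtype.ext (by simpa using hPp c c.2)⟩
  obtain ⟨e, he⟩ := hPg.exists_card_eq
  have huP : u ∈ P := (memP u).mpr rfl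
  have hq2 : 2 ≤ Nat.card P := by
    haveI : Nontrivial P := ⟨⟨⟨u, huP⟩, 1, fun h => hu1 (congrArg Subtype.val h)⟩⟩
    exact Finite.one_lt_card
  set B : Subgroup W := Subgroup.normalizer (P : Set W) with hB
  have hB1 : ∀ h : W, (h * u * h⁻¹) * u = u * (h * u * h⁻¹) → h ∈ B := by
    intro h hh
    rw [hB, Subgroup.mem_normalizer_iff]
    intro c
    rw [memP, memP]
    have hne : h * u * h⁻¹ ≠ 1 := by
      intro h'
      apply hu1
      have : u = h⁻¹ * (h * u * h⁻¹) * h := by group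
      rw [this, h']; group
    rw [← F1 u hu1 (h * u * h⁻¹) hne hh (h * c * h⁻¹), conj_comm_iff]
  have hB2 : ∀ h ∈ B, (h * u * h⁻¹) * u = u * (h * u * h⁻¹) := by
    intro h hh
    rw [hB, Subgroup.mem_normalizer_iff] at hh
    exact (memP _).mp ((hh u).mp huP)
  have hPB : P ≤ B := Subgroup.le_normalizer
  have hcP := cls_card P B
    (fun g hg m hm => by
      rw [hB, Subgroup.mem_normalizer_iff] at hg
      exact (hg m).mp hm)
    (fun g m hm hm1 hgm => by
      apply hB1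
      rw [memP] at hm hgm
      have hne : g * m * g⁻¹ ≠ 1 := by
        intro h'
        apply hm1
        have : m = g⁻¹ * (g * m * g⁻¹) * g := by group
        rw [this, h']; group
      rw [← F1 u hu1 (g * m * g⁻¹) hne hgm (g * u * g⁻¹), conj_comm_iff]
      exact hm.symm)
  set CP : Set W := {y : W | y ≠ 1 ∧ ∃ g : W, g * y * g⁻¹ ∈ P} with hCP
  have hcov : ∀ a : W, a ≠ 1 → ¬ (orderOf a).Coprime p → a ∈ CP := by
    intro a ha hnc
    have hdvd : p ∣ orderOf a := by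
      by_contra hnd
      exact hnc ((Nat.Prime.coprime_iff_not_dvd hp).mpr hnd).symm
    have ho : orderOf (a ^ (orderOf a / p)) = p :=
      orderOf_pow_orderOf_div (orderOf_pos a).ne' hdvd
    obtain ⟨g, hg⟩ := Fp _ ho
    refine ⟨ha, g, (memP _).mpr ?_⟩
    have hne : g * a ^ (orderOf a / p) * g⁻¹ ≠ 1 := by
      intro h'
      have h1 : a ^ (orderOf a / p) = 1 := by
        have : a ^ (orderOf a / p) = g⁻¹ * (g * a ^ (orderOf a / p) * g⁻¹) * g := by group
        rw [this, h']; group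
      rw [h1, orderOf_one] at ho
      exact hp.one_lt.ne ho
    rw [← F1 u hu1 _ hne hg (g * a * g⁻¹), conj_comm_iff]
    exact ((Commute.refl a).pow_right _).eq
  have hdisjP : ∀ x₀ : W, x₀ ≠ 1 → (orderOf x₀).Coprime p → ∀ y' : W, y' ∈ CP →
      y' ∉ {y : W | y ≠ 1 ∧ ∃ g : W, g * y * g⁻¹ ∈ Subgroup.centralizer {x₀}} := by
    rintro x₀ hx₀ hcop y' ⟨hy'1, g₁, hg₁⟩ ⟨_, g₂, hg₂⟩
    rw [memP] at hg₁
    rw [Subgroup.mem_centralizer_singleton_iff] at hg₂
    obtain ⟨g, hg⟩ := D u x₀ y' hy'1 ⟨g₁, hg₁⟩ ⟨g₂, hg₂⟩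
    have h1 := hU u hou _ hg
    have h2 : x₀ ^ p = 1 := by
      rw [conj_pow] at h1
      have : x₀ ^ p = g⁻¹ * (g * x₀ ^ p * g⁻¹) * g := by group
      rw [this, h1]; group
    have h3 : orderOf x₀ = 1 := Nat.Coprime.eq_one_of_dvd hcop (orderOf_dvd_of_pow_eq_one h2)
    exact hx₀ (orderOf_eq_one_iff.mp h3)
  have hsum : ∀ A₁ A₂ : Set W, (∀ a ∈ A₁, a ≠ 1) → (∀ a ∈ A₂, a ≠ 1) → (∀ a ∈ A₁, a ∉ A₂) →
      A₁.ncard + A₂.ncard + 1 ≤ Nat.card W := by
    intro A₁ A₂ h1 h2 h12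
    have hd : Disjoint A₁ A₂ := Set.disjoint_left.mpr h12
    have hd2 : Disjoint (A₁ ∪ A₂) {1} := by
      rw [Set.disjoint_singleton_right]
      rintro (h | h)
      · exact h1 _ h rfl
      · exact h2 _ h rfl
    have e1 := Set.ncard_union_eq hd (Set.toFinite _) (Set.toFinite _)
    have e2 := Set.ncard_union_eq hd2 (Set.toFinite _) (Set.toFinite _)
    have e3 : ((A₁ ∪ A₂) ∪ {1}).ncard ≤ Nat.card W := by
      rw [← Set.ncard_univ]
      exact Set.ncard_le_ncard (Set.subset_univ _) (Set.toFinite _)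
    rw [e2, e1, Set.ncard_singleton] at e3
    exact e3
  have hsumeq : ∀ A₁ A₂ : Set W, (∀ a ∈ A₁, a ≠ 1) → (∀ a ∈ A₂, a ≠ 1) →
      (∀ a ∈ A₁, a ∉ A₂) → (∀ a : W, a ≠ 1 → a ∈ A₁ ∨ a ∈ A₂) →
      A₁.ncard + A₂.ncard + 1 = Nat.card W := by
    intro A₁ A₂ h1 h2 h12 hcov'
    have hd : Disjoint A₁ A₂ := Set.disjoint_left.mpr h12
    have hd2 : Disjoint (A₁ ∪ A₂) {1} := by
      rw [Set.disjoint_singleton_right]
      rintro (h | h)
      · exact h1 _ h rfl
      · exact h2 _ h rfl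
    have e1 := Set.ncard_union_eq hd (Set.toFinite _) (Set.toFinite _)
    have e2 := Set.ncard_union_eq hd2 (Set.toFinite _) (Set.toFinite _)
    have e3 : ((A₁ ∪ A₂) ∪ {1}) = Set.univ := by
      ext a
      simp only [Set.mem_union, Set.mem_singleton_iff, Set.mem_univ, iff_true]
      by_cases ha : a = 1
      · exact Or.inr ha
      · exact Or.inl (hcov' a ha)
    rw [← Set.ncard_univ, ← e3, e2, e1, Set.ncard_singleton]
  obtain ⟨t, htc, htB, htgen⟩ := hT u hou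
  have htB' : t ∈ B := hB1 t htB
  have hb : Nat.card B = orderOf t * Nat.card P := by
    have h1 : Nat.card P ∣ Nat.card B := Subgroup.card_dvd_of_le hPB
    have h2 : orderOf t ∣ Nat.card B := by
      rw [← Nat.card_zpowers]
      exact Subgroup.card_dvd_of_le ((Subgroup.zpowers_le).mpr htB')
    have h3 : (orderOf t).Coprime (Nat.card P) := by rw [he]; exact Nat.Coprime.pow_right _ htc
    have h4 : orderOf t * Nat.card P ∣ Nat.card B := Nat.Coprime.mul_dvd_of_dvd_of_dvd h3 h2 h1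
    have h5 : Nat.card B ≤ orderOf t * Nat.card P := by
      let ψ : (Subgroup.zpowers t) × P → B := fun ac =>
        ⟨(ac.1 : W) * (ac.2 : W), B.mul_mem ((Subgroup.zpowers_le).mpr htB' ac.1.2) (hPB ac.2.2)⟩
      have hψ : Function.Surjective ψ := by
        rintro ⟨h, hh⟩
        obtain ⟨k, hk⟩ := htgen h (hB2 h hh)
        refine ⟨(⟨t ^ k, Subgroup.npow_mem_zpowers t k⟩, ⟨(t ^ k)⁻¹ * h, (memP _).mpr hk⟩), ?_⟩
        apply Subtype.ext
        show t ^ k * ((t ^ k)⁻¹ * h) = h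
        group
      have := Nat.card_le_card_of_surjective ψ hψ
      rwa [Nat.card_prod, Nat.card_zpowers] at this
    exact Nat.le_antisymm h5 (Nat.le_of_dvd Nat.card_pos h4)
  have hbw : Nat.card B = Nat.card W := by
    by_contra hne
    obtain ⟨n, hn⟩ : Nat.card B ∣ Nat.card W := Subgroup.card_subgroup_dvd_card B
    have hwpos : 0 < Nat.card W := Nat.card_pos
    have hn2 : 2 ≤ n := by
      rcases n with _ | _ | n
      · rw [Nat.mul_zero] at hn; omega
      · rw [Nat.mul_one] at hn; exact absurd hn.symm hne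
      · omega
    have hCP1 : ∀ a ∈ CP, a ≠ 1 := fun a ha => ha.1
    obtain ⟨Q', hQ'⟩ : ∃ Q', Nat.card P = Q' + 2 := ⟨_, (Nat.sub_add_cancel hq2).symm⟩
    have eQ : Q' + 2 - 1 = Q' + 1 := by omega
    rw [hQ', eQ] at hcP
    rw [hQ'] at hb
    by_cases ht1 : t = 1
    · have hb' : Nat.card B = Q' + 2 := by rw [hb, ht1, orderOf_one, one_mul]
      rw [hb'] at hcP hn
      by_cases hex : ∃ y' : W, y' ≠ 1 ∧ y' ∉ CP
      · obtain ⟨y', hy'1, hy'⟩ := hex
        have hyc : (orderOf y').Coprime p := by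
          by_contra h; exact hy' (hcov y' hy'1 h)
        obtain ⟨g3a, g3b⟩ := G3 y' hy'1 hyc
        have h3 := hsum CP _ hCP1 (fun a ha => ha.1) (hdisjP y' hy'1 hyc)
        have h2 : Nat.card W ≤ 2 * CP.ncard := arithA _ _ _ hcP
        omega
      · push Not at hex
        have h3 := hsumeq CP ∅ hCP1 (by simp) (by simp) (fun a ha => Or.inl (hex a ha))
        rw [Set.ncard_empty] at h3
        have h4 : CP.ncard = Q' + 1 := by
          have h5 : CP.ncard * (Q' + 2) = (CP.ncard + 1) * (Q' + 1) := by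
            rw [hcP]; congr 1; omega
          nlinarith
        have h6 : Nat.card W = Q' + 2 := by omega
        rw [h6] at hn
        nlinarith
    · have hto : 1 ≤ orderOf t := orderOf_pos t
      obtain ⟨g3a, g3b⟩ := G3 t ht1 htc
      set M : Subgroup W := Subgroup.centralizer {t} with hM
      set CM : Set W := {y : W | y ≠ 1 ∧ ∃ g : W, g * y * g⁻¹ ∈ M} with hCM
      have hCM1 : ∀ a ∈ CM, a ≠ 1 := fun a ha => ha.1
      have hdPM := hdisjP t ht1 htc
      by_cases hex : ∃ y' : W, y' ≠ 1 ∧ y' ∉ CP ∧ y' ∉ CM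
      · obtain ⟨y', hy'1, hy'P, hy'M⟩ := hex
        have hyc : (orderOf y').Coprime p := by
          by_contra h; exact hy'P (hcov y' hy'1 h)
        obtain ⟨g3a', g3b'⟩ := G3 y' hy'1 hyc
        have hdis : ∀ a ∈ CM, a ∉ {y : W | y ≠ 1 ∧ ∃ g : W, g * y * g⁻¹ ∈
            Subgroup.centralizer {y'}} := by
          rintro a ⟨ha1, g₁, hg₁⟩ ⟨_, g₂, hg₂⟩
          rw [hM, Subgroup.mem_centralizer_singleton_iff] at hg₁
          rw [Subgroup.mem_centralizer_singleton_iff] at hg₂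
          obtain ⟨g, hg⟩ := D t y' a ha1 ⟨g₁, hg₁⟩ ⟨g₂, hg₂⟩
          exact hy'M ⟨hy'1, g, by rw [hM, Subgroup.mem_centralizer_singleton_iff]; exact hg⟩
        have h3 := hsum CM _ hCM1 (fun a ha => ha.1) hdis
        omega
      · push Not at hex
        have hs := hsumeq CP CM hCP1 hCM1 hdPM (fun a ha => by
          by_cases h : a ∈ CP
          · exact Or.inl h
          · exact Or.inr (hex a ha h))
        have hτm : orderOf t ∣ Nat.card M := by
          rw [← Nat.card_zpowers]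
          exact Subgroup.card_dvd_of_le ((Subgroup.zpowers_le).mpr
            ((Subgroup.mem_centralizer_singleton_iff).mpr rfl))
        obtain ⟨k, hk⟩ := hτm
        have hMpos : 0 < Nat.card M := Nat.card_pos
        have hk1 : 1 ≤ k := by
          rcases k with _ | k
          · rw [Nat.mul_zero] at hk; omega
          · omega
        obtain ⟨m', hm'⟩ : ∃ m', Nat.card M = m' + 1 := ⟨_, (Nat.sub_add_cancel hMpos).symm⟩
        have em : m' + 1 - 1 = m' := by omega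
        rw [hm', em] at g3b
        rw [hm'] at hk
        -- integers
        have E1 : (CP.ncard : ℤ) = n * (Q' + 1) := by
          have h5 : CP.ncard * (orderOf t * (Q' + 2)) = (n * (Q' + 1)) * (orderOf t * (Q' + 2)) := by
            rw [← hb, hcP, hn]; ring
          have h6 := Nat.eq_of_mul_eq_mul_right (by positivity) h5
          exact_mod_cast h6
        have E2 : (CM.ncard : ℤ) * (orderOf t * k) =
            orderOf t * (Q' + 2) * n * (orderOf t * k - 1) := by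
          have h5 : CM.ncard * (m' + 1) = Nat.card W * m' := g3b
          rw [hn, hb] at h5
          have h6 : (m' : ℤ) = orderOf t * k - 1 := by
            have : ((m' + 1 : ℕ) : ℤ) = ((orderOf t * k : ℕ) : ℤ) := by rw [hk]
            push_cast at this
            linarith
          have h7 : ((m' + 1 : ℕ) : ℤ) = orderOf t * k := by rw [hk]; push_cast; ring
          have h8 : (CM.ncard : ℤ) * ((m' + 1 : ℕ) : ℤ) =
              ((orderOf t * (Q' + 2) * n : ℕ) : ℤ) * (m' : ℤ) := by exact_mod_cast h5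
          rw [h7, h6] at h8
          rw [h8]; push_cast; ring
        have E3 : (CP.ncard : ℤ) + CM.ncard + 1 = orderOf t * (Q' + 2) * n := by
          have : CP.ncard + CM.ncard + 1 = orderOf t * (Q' + 2) * n := by rw [hs, hn, hb]
          exact_mod_cast this
        have hT0 : (orderOf t : ℤ) ≠ 0 := by exact_mod_cast (orderOf_pos t).ne'
        have key : (orderOf t : ℤ) * ((k : ℤ) * (n * (Q' + 2) - n + 1) - n * (Q' + 2)) = 0 := by
          linear_combination (-1 : ℤ) * E2 + ((orderOf t : ℤ) * k) * E3 -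
            ((orderOf t : ℤ) * k) * E1
        have key2 : (k : ℤ) * (n * (Q' + 2) - n + 1) - n * (Q' + 2) = 0 := by
          rcases mul_eq_zero.mp key with h | h
          · exact absurd h hT0
          · exact h
        have hkZ : (1 : ℤ) ≤ k := by exact_mod_cast hk1
        have hnZ : (2 : ℤ) ≤ n := by exact_mod_cast hn2
        have hQZ : (0 : ℤ) ≤ Q' := by positivity
        rcases Nat.lt_or_ge k 2 with hk2 | hk2
        · have : k = 1 := by omega
          subst this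
          push_cast at key2
          linarith
        · have hk2' : (2 : ℤ) ≤ k := by exact_mod_cast hk2
          exact arithB k n Q' hk2' hnZ hQZ key2
  have hBtop : B = ⊤ := Subgroup.eq_top_of_card_eq B hbw
  have hPall : ∀ a : W, a ^ p = 1 → a * u = u * a := by
    intro a ha
    by_cases ha1 : a = 1
    · subst ha1; simp
    have hoa : orderOf a = p := orderOf_eq_prime ha ha1
    obtain ⟨g, hg⟩ := Fp a hoa
    have hgB : g⁻¹ ∈ B := by rw [hBtop]; exact Subgroup.mem_top _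
    rw [hB, Subgroup.mem_normalizer_iff] at hgB
    have h1 := (hgB (g * a * g⁻¹)).mp ((memP _).mpr hg)
    have h2 : g⁻¹ * (g * a * g⁻¹) * g⁻¹⁻¹ = a := by group
    rw [h2] at h1
    exact (memP a).mp h1
  exact hCA u hu1 x y (hPall x hx) (hPall y hy)

end Cfsg.Agent.Lib_helper2_CA
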