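import Mathlib
import Cfsg.Agent.Lib_helper1_Hall
import Cfsg.Agent.Lib_helper7_PPrime

namespace Cfsg.Agent.Lib_helper2_Higman

open Cfsg.Agent.Lib_helper1_Hall

open scoped IsMulCommutative in
/-- Core of the Frobenius-action argument: if `U ⟨x⟩` acts on the abelian normal subgroup `A`
with every nontrivial element of `U`, every conjugate of `x` acting fixed-point-freely, and
`x` acting fixed-point-freely on `U`, then `A` has exponent dividing `|U|`. -/
theorem frob_core {G : Type*} [Group G] [Finite G] (A U : Subgroup G) [hAn : A.Normal]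
    [IsMulCommutative A] (x : G) (s : ℕ) (hs : s.Prime) (hx : orderOf x = s)
    (hxU : ∀ c ∈ U, x * c * x⁻¹ ∈ U) (hU1 : U ≠ ⊥)
    (hfU : ∀ c ∈ U, c ≠ 1 → ∀ a ∈ A, c * a = a * c → a = 1)
    (hfx : ∀ c ∈ U, ∀ a ∈ A, (c * x * c⁻¹) * a = a * (c * x * c⁻¹) → a = 1)
    (hfxU : ∀ i : ℕ, 0 < i → i < s → ∀ c ∈ U, x ^ i * c = c * x ^ i → c = 1) :
    ∀ v ∈ A, v ^ Nat.card U = 1 := by
  classical
  haveI : Fintype ↥U := Fintype.ofFinite _
  intro v hv
  obtain ⟨ρ, hρ⟩ : ∃ ρ : G →* MulAut ↥A, ∀ (g : G) (a : ↥A), ((ρ g a : ↥A) : G) = g * a * g⁻¹ :=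
    ⟨MulAut.conjNormal, fun g a => MulAut.conjNormal_apply g a⟩
  have hT : ∀ w : ↥A, ∏ d : ↥U, ρ (d : G) w = 1 := by
    intro w
    obtain ⟨c, hc, hc1⟩ : ∃ c ∈ U, c ≠ 1 := by
      by_contra hcon
      push Not at hcon
      exact hU1 ((Subgroup.eq_bot_iff_forall _).mpr hcon)
    have hfix : ρ c (∏ d : ↥U, ρ (d : G) w) = ∏ d : ↥U, ρ (d : G) w := by
      rw [map_prod]
      have h1 : ∀ d : ↥U, ρ c (ρ (d : G) w) = ρ (((⟨c, hc⟩ : ↥U) * d : ↥U) : G) w := by
        intro d
        rw [Subgroup.coe_mul, map_mul]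
        rfl
      simp_rw [h1]
      exact Equiv.prod_comp (Equiv.mulLeft (⟨c, hc⟩ : ↥U)) (fun d : ↥U => ρ (d : G) w)
    have h2 := congrArg (fun a : ↥A => (a : G)) hfix
    simp only [hρ] at h2
    have h3 := hfU c hc hc1 _ (∏ d : ↥U, ρ (d : G) w).2 (mul_inv_eq_iff_eq_mul.mp h2)
    exact Subtype.ext h3
  have hN : ∀ c ∈ U, ∀ w : ↥A, ∏ i ∈ Finset.range s, ρ ((c * x * c⁻¹) ^ i) w = 1 := by
    intro c hc w
    obtain ⟨y, hy⟩ : ∃ y, y = c * x * c⁻¹ := ⟨_, rfl⟩
    rw [← hy]
    have hys : y ^ s = 1 := by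
      rw [hy, conj_pow, ← hx, pow_orderOf_eq_one, mul_one, mul_inv_cancel]
    have hfix : ρ y (∏ i ∈ Finset.range s, ρ (y ^ i) w) = ∏ i ∈ Finset.range s, ρ (y ^ i) w := by
      rw [map_prod]
      have h1 : ∀ i : ℕ, ρ y (ρ (y ^ i) w) = ρ (y ^ (i + 1)) w := by
        intro i
        rw [pow_succ', map_mul]
        rfl
      simp_rw [h1]
      have h2 := Finset.prod_range_succ (fun i => ρ (y ^ i) w) s
      have h3 := Finset.prod_range_succ' (fun i => ρ (y ^ i) w) s
      rw [h3] at h2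
      simp only [hys, pow_zero] at h2
      exact mul_right_cancel h2
    have h4 := congrArg (fun a : ↥A => (a : G)) hfix
    simp only [hρ] at h4
    have h5 := hfx c hc _ (∏ i ∈ Finset.range s, ρ (y ^ i) w).2
      (by rw [← hy]; exact mul_inv_eq_iff_eq_mul.mp h4)
    exact Subtype.ext h5
  obtain ⟨s', hs'⟩ : ∃ s', s = s' + 1 := ⟨s - 1, by have := hs.two_le; omega⟩
  have hN' : ∀ c ∈ U, ∏ j ∈ Finset.range s', ρ ((c * x * c⁻¹) ^ (j + 1)) ⟨v, hv⟩ =
      (⟨v, hv⟩ : ↥A)⁻¹ := by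
    intro c hc
    have h1 := hN c hc ⟨v, hv⟩
    rw [hs', Finset.prod_range_succ'] at h1
    simp only [pow_zero, map_one, MulAut.one_apply] at h1
    exact eq_inv_of_mul_eq_one_left h1
  have hpowU : ∀ i : ℕ, ∀ c ∈ U, x ^ i * c * (x ^ i)⁻¹ ∈ U := by
    intro i
    induction i with
    | zero => intro c hc; simpa using hc
    | succ i ih =>
      intro c hc
      have h1 := hxU _ (ih c hc)
      have h2 : x * (x ^ i * c * (x ^ i)⁻¹) * x⁻¹ = x ^ (i + 1) * c * (x ^ (i + 1))⁻¹ := by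
        rw [pow_succ']; group
      rw [← h2]; exact h1
  have hC : ∀ i : ℕ, 0 < i → i < s → ∀ w : ↥A,
      ∏ c : ↥U, ρ ((c : G) * x ^ i * (c : G)⁻¹) w = 1 := by
    intro i hi0 his w
    have hφ : ∀ c : ↥U, (c : G) * x ^ i * (c : G)⁻¹ * (x ^ i)⁻¹ ∈ U := by
      intro c
      have h1 := U.mul_mem c.2 (hpowU i _ (U.inv_mem c.2))
      have h2 : (c : G) * (x ^ i * (c : G)⁻¹ * (x ^ i)⁻¹) =
          (c : G) * x ^ i * (c : G)⁻¹ * (x ^ i)⁻¹ := by group
      rw [← h2]; exact h1
    obtain ⟨φ, hφdef⟩ : ∃ φ : ↥U → ↥U, ∀ c : ↥U,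
        ((φ c : ↥U) : G) = (c : G) * x ^ i * (c : G)⁻¹ * (x ^ i)⁻¹ :=
      ⟨fun c => ⟨_, hφ c⟩, fun c => rfl⟩
    have hφinj : Function.Injective φ := by
      intro c c' h
      have h1 : (c : G) * x ^ i * (c : G)⁻¹ * (x ^ i)⁻¹ =
          (c' : G) * x ^ i * (c' : G)⁻¹ * (x ^ i)⁻¹ := by
        rw [← hφdef, ← hφdef, h]
      have h3 : (c : G) * x ^ i * (c : G)⁻¹ = (c' : G) * x ^ i * (c' : G)⁻¹ :=
        mul_right_cancel h1
      have h2 : x ^ i * ((c' : G)⁻¹ * c) = ((c' : G)⁻¹ * c) * x ^ i := by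
        calc x ^ i * ((c' : G)⁻¹ * c)
            = (c' : G)⁻¹ * ((c' : G) * x ^ i * (c' : G)⁻¹) * c := by group
          _ = (c' : G)⁻¹ * ((c : G) * x ^ i * (c : G)⁻¹) * c := by rw [h3]
          _ = ((c' : G)⁻¹ * c) * x ^ i := by group
      have h4 := hfxU i hi0 his _ (U.mul_mem (U.inv_mem c'.2) c.2) h2
      apply Subtype.ext
      exact (inv_mul_eq_one.mp h4).symm
    have hφbij : Function.Bijective φ := Finite.injective_iff_bijective.mp hφinj
    have h5 : ∀ c : ↥U, ρ ((c : G) * x ^ i * (c : G)⁻¹) w = ρ ((φ c : ↥U) : G) (ρ (x ^ i) w) := by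
      intro c
      have h6 : (c : G) * x ^ i * (c : G)⁻¹ = ((φ c : ↥U) : G) * x ^ i := by
        rw [hφdef, inv_mul_cancel_right]
      rw [h6, map_mul]
      rfl
    simp_rw [h5]
    exact (Function.Bijective.prod_comp hφbij (fun d : ↥U => ρ (d : G) (ρ (x ^ i) w))).trans
      (hT _)
  have hD1 : ∏ c : ↥U, ∏ j ∈ Finset.range s', ρ (((c : G) * x * (c : G)⁻¹) ^ (j + 1)) ⟨v, hv⟩ =
      ((⟨v, hv⟩ : ↥A)⁻¹) ^ Fintype.card ↥U := by
    rw [Finset.prod_congr rfl (fun (c : ↥U) _ => hN' (c : G) c.2), Finset.prod_const,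
      Finset.card_univ]
  have hD2 : ∏ c : ↥U, ∏ j ∈ Finset.range s', ρ (((c : G) * x * (c : G)⁻¹) ^ (j + 1)) ⟨v, hv⟩ =
      1 := by
    rw [Finset.prod_comm]
    apply Finset.prod_eq_one
    intro j hj
    rw [Finset.mem_range] at hj
    have h1 := hC (j + 1) (Nat.succ_pos j) (by omega) ⟨v, hv⟩
    simp_rw [conj_pow]
    exact h1
  rw [hD2] at hD1
  have h7 : ((⟨v, hv⟩ : ↥A)) ^ Fintype.card ↥U = 1 := by
    rw [inv_pow] at hD1
    exact inv_eq_one.mp hD1.symm
  have h8 : v ^ Fintype.card ↥U = 1 := congrArg (fun a : ↥A => (a : G)) h7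
  rw [Nat.card_eq_fintype_card]
  exact h8

/-- Every non-identity element has prime power order. -/
def PPO (G : Type*) [Group G] : Prop := ∀ g : G, IsPrimePow (orderOf g) ∨ g = 1

theorem ppo_coprime {G : Type*} [Group G] [Finite G] (hG : PPO G) {a b : G}
    (hab : a * b = b * a) (hcop : (orderOf a).Coprime (orderOf b)) : a = 1 ∨ b = 1 := by
  by_contra hcon
  push Not at hcon
  obtain ⟨ha, hb⟩ := hcon
  have ho : orderOf (a * b) = orderOf a * orderOf b :=
    Commute.orderOf_mul_eq_mul_orderOf_of_coprime hab hcop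
  have ha1 : 1 < orderOf a := by
    have h1 := orderOf_pos a
    have h2 : orderOf a ≠ 1 := fun h => ha (orderOf_eq_one_iff.mp h)
    omega
  have hb1 : 1 < orderOf b := by
    have h1 := orderOf_pos b
    have h2 : orderOf b ≠ 1 := fun h => hb (orderOf_eq_one_iff.mp h)
    omega
  have h22 : 2 * 2 ≤ orderOf a * orderOf b := Nat.mul_le_mul ha1 hb1
  rcases hG (a * b) with h | h
  · rw [ho] at h
    rcases (hcop.isPrimePow_dvd_mul h).mp dvd_rfl with h3 | h3
    · have h4 := Nat.le_of_dvd (by omega) h3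
      have h5 : orderOf a * 2 ≤ orderOf a * orderOf b := Nat.mul_le_mul_left _ hb1
      omega
    · have h4 := Nat.le_of_dvd (by omega) h3
      have h5 : 2 * orderOf b ≤ orderOf a * orderOf b := Nat.mul_le_mul_right _ ha1
      omega
  · have h1 : orderOf (a * b) = 1 := by rw [h, orderOf_one]
    rw [ho] at h1
    omega

theorem ppo_quotient {G : Type*} [Group G] (hG : PPO G) (N : Subgroup G) [N.Normal] :
    PPO (G ⧸ N) := by
  intro q
  obtain ⟨g, rfl⟩ := QuotientGroup.mk'_surjective N q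
  have hdvd : orderOf (QuotientGroup.mk' N g) ∣ orderOf g := orderOf_map_dvd _ g
  rcases hG g with h | h
  · obtain ⟨r, e, hr, he, hre⟩ := (isPrimePow_nat_iff _).mp h
    rw [← hre] at hdvd
    obtain ⟨i, hi, hi2⟩ := (Nat.dvd_prime_pow hr).mp hdvd
    by_cases hi0 : i = 0
    · right
      rw [hi0, pow_zero] at hi2
      exact orderOf_eq_one_iff.mp hi2
    · left
      rw [hi2]
      exact (isPrimePow_nat_iff _).mpr ⟨r, i, hr, Nat.pos_of_ne_zero hi0, rfl⟩
  · right
    rw [h, map_one]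

/-- Higman: a finite solvable group all of whose elements have prime power order has order
divisible by at most two primes. -/
theorem higman.{u} : ∀ (n : ℕ) (G : Type u) [Group G] [Finite G] [Group.IsSolvable G], PPO G →
    Nat.card G = n → (Nat.card G).primeFactors.card ≤ 2 := by
  intro n
  induction n using Nat.strong_induction_on with
  | _ n ih =>
    intro G _ _ _ hG hn
    by_contra hcon
    push Not at hcon
    haveI : Nontrivial G := by
      rw [← Finite.one_lt_card_iff_nontrivial]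
      by_contra h1
      have h2 : Nat.card G = 1 := by
        have h3 := Nat.card_pos (α := G)
        omega
      rw [h2] at hcon
      simp at hcon
    obtain ⟨A, hAn, hA1, hAc, -, t, k, ht, hk, hAcard⟩ := exists_minimal_normal (G := G)
    haveI := hAn
    haveI := hAc
    have hcardG := Subgroup.card_eq_card_quotient_mul_card_subgroup A
    have hApos : 1 < Nat.card A := by rw [hAcard]; exact Nat.one_lt_pow hk ht.one_lt
    have hq : 0 < Nat.card (G ⧸ A) := Nat.card_pos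
    have hQlt : Nat.card (G ⧸ A) < n := by
      rw [← hn, hcardG]
      exact lt_mul_of_one_lt_right hq hApos
    have hQ := ih _ hQlt (G ⧸ A) (ppo_quotient hG A) rfl
    have hQ0 : Nat.card (G ⧸ A) ≠ 0 := hq.ne'
    have hpf : (Nat.card G).primeFactors = (Nat.card (G ⧸ A)).primeFactors ∪ {t} := by
      rw [hcardG, Nat.primeFactors_mul hQ0 (by rw [hAcard]; exact pow_ne_zero _ ht.ne_zero),
        hAcard, Nat.primeFactors_prime_pow hk ht]
    have htQ : t ∉ (Nat.card (G ⧸ A)).primeFactors := by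
      intro h
      rw [hpf, Finset.union_eq_left.mpr (Finset.singleton_subset_iff.mpr h)] at hcon
      omega
    have hQ2 : (Nat.card (G ⧸ A)).primeFactors.card = 2 := by
      have h1 := Finset.card_union_le (Nat.card (G ⧸ A)).primeFactors {t}
      rw [← hpf, Finset.card_singleton] at h1
      omega
    haveI : Nontrivial (G ⧸ A) := by
      rw [← Finite.one_lt_card_iff_nontrivial]
      by_contra h1
      have h2 : Nat.card (G ⧸ A) = 1 := by omega
      rw [h2] at hQ2
      simp at hQ2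
    obtain ⟨Nb, hNbn, hNb1, -, -, u, j, hu, hj, hNbcard⟩ := exists_minimal_normal (G := G ⧸ A)
    haveI := hNbn
    have huQ : u ∈ (Nat.card (G ⧸ A)).primeFactors := by
      rw [Nat.mem_primeFactors]
      refine ⟨hu, ?_, hQ0⟩
      have h1 := Subgroup.card_subgroup_dvd_card Nb
      rw [hNbcard] at h1
      exact (dvd_pow_self u hj).trans h1
    have hut : u ≠ t := fun h => htQ (h ▸ huQ)
    obtain ⟨s, hsQ, hsu⟩ := Finset.exists_mem_ne
      (by omega : 1 < (Nat.card (G ⧸ A)).primeFactors.card) u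
    have hsp : s.Prime := (Nat.mem_primeFactors.mp hsQ).1
    have hst : s ≠ t := fun h => htQ (h ▸ hsQ)
    have hsG : s ∣ Nat.card G := by
      rw [hcardG]
      exact Dvd.dvd.mul_right (Nat.mem_primeFactors.mp hsQ).2.1 _
    haveI : Fact u.Prime := ⟨hu⟩
    haveI : Fact s.Prime := ⟨hsp⟩
    obtain ⟨N, hN⟩ : ∃ N : Subgroup G, N = Nb.comap (QuotientGroup.mk' A) := ⟨_, rfl⟩
    haveI hNn : N.Normal := by rw [hN]; exact hNbn.comap _
    have hNcard : Nat.card N = t ^ k * u ^ j := by rw [hN, card_comap_mk', hAcard, hNbcard]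
    have hsN : ¬ s ∣ Nat.card N := by
      rw [hNcard]
      intro h
      rcases (Nat.Prime.dvd_mul hsp).mp h with h1 | h1
      · exact hst ((Nat.prime_dvd_prime_iff_eq hsp ht).mp (hsp.dvd_of_dvd_pow h1))
      · exact hsu ((Nat.prime_dvd_prime_iff_eq hsp hu).mp (hsp.dvd_of_dvd_pow h1))
    obtain ⟨P0⟩ : Nonempty (Sylow u ↥N) := inferInstance
    obtain ⟨U, hU⟩ : ∃ U : Subgroup G, U = (P0 : Subgroup ↥N).map N.subtype := ⟨_, rfl⟩
    have hfrat := Sylow.normalizer_sup_eq_top P0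
    rw [← hU] at hfrat
    have hUu : IsPGroup u ↥U := by rw [hU]; exact P0.2.map _
    have hU1 : U ≠ ⊥ := by
      have h1 : (P0 : Subgroup ↥N) ≠ ⊥ := P0.ne_bot_of_dvd_card (by
        rw [hNcard]; exact Dvd.dvd.mul_left (dvd_pow_self u hj) _)
      intro h
      apply h1
      rw [hU] at h
      exact (Subgroup.map_eq_bot_iff_of_injective _ (Subgroup.subtype_injective N)).mp h
    obtain ⟨m, hm⟩ := IsPGroup.iff_card.mp hUu
    have hsK : s ∣ Nat.card ↥(Subgroup.normalizer (U : Set G)) := by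
      have h1 := Cfsg.Agent.Lib_helper7_PPrime.card_sup_dvd (Subgroup.normalizer (U : Set G)) N
      rw [hfrat, Subgroup.card_top] at h1
      have h2 := hsG.trans h1
      rcases (Nat.Prime.dvd_mul hsp).mp h2 with h3 | h3
      · exact h3
      · exact absurd h3 hsN
    obtain ⟨x0, hx0⟩ := exists_prime_orderOf_dvd_card' s hsK
    obtain ⟨x, hx⟩ : ∃ x : G, x = (x0 : G) := ⟨_, rfl⟩
    have hxo : orderOf x = s := by rw [hx, Subgroup.orderOf_coe]; exact hx0
    have hxU : ∀ c ∈ U, x * c * x⁻¹ ∈ U := by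
      intro c hc
      have h1 : x ∈ Subgroup.normalizer (U : Set G) := by rw [hx]; exact x0.2
      exact (Subgroup.mem_normalizer_iff.mp h1 c).mp hc
    have hoA : ∀ a ∈ A, orderOf a ∣ t ^ k := by
      intro a ha
      rw [← hAcard]; exact Subgroup.orderOf_dvd_natCard A ha
    have hoU : ∀ c ∈ U, orderOf c ∣ u ^ m := by
      intro c hc
      rw [← hm]; exact Subgroup.orderOf_dvd_natCard U hc
    have hcop_ut : (u ^ m).Coprime (t ^ k) :=
      Nat.Coprime.pow _ _ ((Nat.coprime_primes hu ht).mpr hut)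
    have hcop_st : s.Coprime (t ^ k) :=
      Nat.Coprime.pow_right _ ((Nat.coprime_primes hsp ht).mpr hst)
    have hcop_su : s.Coprime (u ^ m) :=
      Nat.Coprime.pow_right _ ((Nat.coprime_primes hsp hu).mpr hsu)
    have hxs : x ^ s = 1 := by rw [← hxo]; exact pow_orderOf_eq_one x
    have hx1 : x ≠ 1 := by
      intro h
      rw [h, orderOf_one] at hxo
      exact hsp.one_lt.ne hxo
    have hf1 : ∀ c ∈ U, c ≠ 1 → ∀ a ∈ A, c * a = a * c → a = 1 := by
      intro c hc hc1 a ha hca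
      rcases ppo_coprime hG hca (Nat.Coprime.coprime_dvd_left (hoU c hc)
        (Nat.Coprime.coprime_dvd_right (hoA a ha) hcop_ut)) with h | h
      · exact absurd h hc1
      · exact h
    have hf2 : ∀ c ∈ U, ∀ a ∈ A, (c * x * c⁻¹) * a = a * (c * x * c⁻¹) → a = 1 := by
      intro c hc a ha hca
      have hdvd : orderOf (c * x * c⁻¹) ∣ s := by
        apply orderOf_dvd_of_pow_eq_one
        rw [conj_pow, hxs, mul_one, mul_inv_cancel]
      rcases ppo_coprime hG hca (Nat.Coprime.coprime_dvd_left hdvd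
        (Nat.Coprime.coprime_dvd_right (hoA a ha) hcop_st)) with h | h
      · exfalso
        apply hx1
        have h2 : c⁻¹ * (c * x * c⁻¹) * c = x := by group
        rw [← h2, h, mul_one, inv_mul_cancel]
      · exact h
    have hf3 : ∀ i : ℕ, 0 < i → i < s → ∀ c ∈ U, x ^ i * c = c * x ^ i → c = 1 := by
      intro i hi0 his c hc hca
      have hdvd : orderOf (x ^ i) ∣ s := by
        apply orderOf_dvd_of_pow_eq_one
        rw [← pow_mul, mul_comm, pow_mul, hxs, one_pow]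
      rcases ppo_coprime hG hca (Nat.Coprime.coprime_dvd_left hdvd
        (Nat.Coprime.coprime_dvd_right (hoU c hc) hcop_su)) with h | h
      · exfalso
        exact pow_ne_one_of_lt_orderOf hi0.ne' (by rw [hxo]; exact his) h
      · exact h
    have hkey := frob_core A U x s hsp hxo hxU hU1 hf1 hf2 hf3
    apply hA1
    rw [Subgroup.eq_bot_iff_forall]
    intro v hv
    have h1 := hkey v hv
    rw [hm] at h1
    have h2 := orderOf_dvd_of_pow_eq_one h1
    have h3 := Nat.dvd_gcd h2 (hoA v hv)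
    rw [Nat.Coprime.gcd_eq_one hcop_ut] at h3
    exact orderOf_eq_one_iff.mp (Nat.dvd_one.mp h3)

end Cfsg.Agent.Lib_helper2_Higman
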