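import Mathlib
import Cfsg.Prelude.Def_OddOrderLocal
import Cfsg.Agent.Lib_helper2_CN
import Cfsg.Agent.Lib_helper2_Higman
import Cfsg.Agent.Lib_helper2_Trans
import Cfsg.Agent.Lib_helper1_MinNonNil

namespace Cfsg.Agent.Lib_helper2_CN2

open Cfsg.Agent.Lib_helper2_CN Cfsg.Agent.Lib_helper2_Higman Cfsg.Agent.Lib_helper1_MinNonNil
open Cfsg.Agent.Lib_helper2_Trans

universe u

/-- A nontrivial element of the center of a nontrivial `p`-subgroup. -/
theorem exists_central_of_pgroup {G : Type*} [Group G] [Finite G] {p : ℕ} [Fact p.Prime]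
    (P : Subgroup G) (hP : IsPGroup p P) (hP1 : P ≠ ⊥) :
    ∃ z ∈ P, z ≠ 1 ∧ ∀ y ∈ P, y * z = z * y := by
  haveI : Nontrivial P := (Subgroup.nontrivial_iff_ne_bot P).mpr hP1
  haveI := hP.center_nontrivial
  obtain ⟨⟨z, hzc⟩, hz1⟩ := exists_ne (1 : Subgroup.center P)
  refine ⟨(z : G), z.2, ?_, ?_⟩
  · intro h
    apply hz1
    apply Subtype.ext
    apply Subtype.ext
    exact h
  · intro y hy
    have := Subgroup.mem_center_iff.mp hzc ⟨y, hy⟩
    exact congrArg (fun w : P => (w : G)) this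

/-- A normal subgroup of index prime to `p` contains all `p`-elements. -/
theorem mem_of_pelt_of_not_dvd_index {G : Type*} [Group G] [Finite G] {p : ℕ} (hp : p.Prime)
    (N : Subgroup G) [N.Normal] (hN : ¬ p ∣ N.index) {x : G} (hx : ∃ e : ℕ, x ^ p ^ e = 1) :
    x ∈ N := by
  obtain ⟨e, hx⟩ := hx
  rw [← QuotientGroup.eq_one_iff]
  have e1 : (x : G ⧸ N) ^ p ^ e = 1 := by rw [← QuotientGroup.mk_pow, hx]; rfl
  have e2 : (x : G ⧸ N) ^ N.index = 1 := by
    rw [Subgroup.index_eq_card]; exact pow_card_eq_one'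
  have h1 : orderOf (x : G ⧸ N) ∣ Nat.gcd (p ^ e) N.index :=
    Nat.dvd_gcd (orderOf_dvd_of_pow_eq_one e1) (orderOf_dvd_of_pow_eq_one e2)
  have h2 : Nat.gcd (p ^ e) N.index = 1 :=
    Nat.Coprime.pow_left e ((Nat.Prime.coprime_iff_not_dvd hp).mpr hN)
  rw [h2] at h1
  exact orderOf_eq_one_iff.mp (Nat.dvd_one.mp h1)

theorem mem_centralizer_singleton {G : Type*} [Group G] {x g : G} (h : x * g = g * x) :
    g ∈ Subgroup.centralizer ({x} : Set G) := by
  apply Subgroup.mem_centralizer_iff.mpr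
  intro v hv
  rw [Set.mem_singleton_iff] at hv
  rw [hv]
  exact h

/-- A subgroup `E` of a CN-group acting fixed-point-freely (by conjugation) on a nontrivial
normal `p`-subgroup, of order prime to `p`, is nilpotent. -/
theorem fpf_cn_nilpotent {G : Type u} [Group G] [Finite G]
    (hCN : ∀ g : G, g ≠ 1 → Group.IsNilpotent (Subgroup.centralizer ({g} : Set G)))
    (p : ℕ) [hp : Fact p.Prime] (P : Subgroup G) [hPn : P.Normal] (hP : IsPGroup p P)
    (hP1 : P ≠ ⊥) :
    ∀ (n : ℕ) (E : Subgroup G), Nat.card E ≤ n → (Nat.card E).Coprime p →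
      (∀ e ∈ E, e ≠ 1 → ∀ x ∈ P, e * x = x * e → x = 1) → Group.IsNilpotent E := by
  intro n
  induction n with
  | zero =>
    intro E hE _ _
    have := Nat.card_pos (α := E)
    omega
  | succ n ih =>
    intro E hE hcop hfpf
    by_contra hnil
    have hmin : IsMinimalNonNilpotent E := by
      refine ⟨hnil, fun H hH => ?_⟩
      have hcard : Nat.card (H.map E.subtype) = Nat.card H :=
        Subgroup.card_map_of_injective E.subtype_injective
      have hlt : Nat.card H < Nat.card E := by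
        have h1 : Nat.card H ≤ Nat.card E := Subgroup.card_le_card_group H
        have h2 : Nat.card H ≠ Nat.card E := fun h => hH ((Subgroup.card_eq_iff_eq_top H).mp h)
        omega
      have hle : H.map E.subtype ≤ E := Subgroup.map_subtype_le H
      have h3 := ih (H.map E.subtype) (by rw [hcard]; omega)
        (Nat.Coprime.coprime_dvd_left (Subgroup.card_dvd_of_le hle) hcop)
        (fun e he he1 x hx hex => hfpf e (hle he) he1 x hx hex)
      haveI := h3
      exact Group.nilpotent_of_mulEquiv (H.equivMapOfInjective E.subtype E.subtype_injective).symm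
    obtain ⟨q, r, Q, g, k, a, hq, hr, hqr, hQ, hQn, htop, hgr, hgC, -, -, -, -, -⟩ :=
      minNonNil_data hmin
    obtain ⟨Q', hQ'def⟩ : ∃ Q' : Subgroup G, Q' = Q.map E.subtype := ⟨_, rfl⟩
    have hQ'E : Q' ≤ E := by rw [hQ'def]; exact Subgroup.map_subtype_le _
    have hQ'p : IsPGroup q Q' := by rw [hQ'def]; exact hQ.map _
    have hQ'mem : ∀ x : G, ∀ hx : x ∈ E, x ∈ Q' ↔ (⟨x, hx⟩ : E) ∈ Q := by
      intro x hx
      rw [hQ'def]
      constructor
      · rintro ⟨y, hy, hyx⟩
        have : y = ⟨x, hx⟩ := Subtype.ext hyx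
        rw [← this]; exact hy
      · intro h
        exact ⟨⟨x, hx⟩, h, rfl⟩
    have hQ'n : ∀ e ∈ E, ∀ x ∈ Q', e * x * e⁻¹ ∈ Q' := by
      intro e he x hx
      have hxE := hQ'E hx
      rw [hQ'mem _ (E.mul_mem (E.mul_mem he hxE) (E.inv_mem he))]
      exact hQn.conj_mem ⟨x, hxE⟩ ((hQ'mem x hxE).mp hx) ⟨e, he⟩
    have hQ'1 : Q' ≠ ⊥ := by
      intro h
      apply hgC
      apply Subgroup.mem_centralizer_iff.mpr
      intro y hy
      have : (y : G) ∈ Q' := (hQ'mem _ y.2).mpr hy
      rw [h, Subgroup.mem_bot] at this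
      have hy1 : y = 1 := Subtype.ext this
      rw [hy1, one_mul, mul_one]
    have hk : k ≠ 0 := by
      intro h
      rw [h, pow_zero, orderOf_eq_one_iff] at hgr
      apply hgC
      rw [hgr]; exact one_mem _
    obtain ⟨y₀, hy₀def⟩ : ∃ y₀ : G, y₀ = (g : G) ^ (r ^ (k - 1)) := ⟨_, rfl⟩
    have hgo : orderOf (g : G) = r ^ k := by rw [Subgroup.orderOf_coe]; exact hgr
    have hy₀o : orderOf y₀ = r := by
      rw [hy₀def]
      have h1 : r ^ (k - 1) = orderOf (g : G) / r := by
        rw [hgo]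
        obtain ⟨j, rfl⟩ := Nat.exists_eq_succ_of_ne_zero hk
        rw [Nat.succ_sub_one, pow_succ, Nat.mul_div_cancel _ hr.pos]
      rw [h1]
      exact orderOf_pow_orderOf_div (by rw [hgo]; exact (pow_pos hr.pos k).ne')
        (by rw [hgo]; exact dvd_pow_self r hk)
    have hy₀E : y₀ ∈ E := by rw [hy₀def]; exact E.pow_mem g.2 _
    have hy₀1 : y₀ ≠ 1 := by
      intro h
      rw [h, orderOf_one] at hy₀o
      exact hr.one_lt.ne' hy₀o.symm
    haveI : Fact q.Prime := ⟨hq⟩
    obtain ⟨w, hwQ, hw1, hwc⟩ := exists_central_of_pgroup Q' hQ'p hQ'1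
    obtain ⟨U, hUdef⟩ : ∃ U : Subgroup G, U = Q' ⊓ Subgroup.centralizer (Q' : Set G) := ⟨_, rfl⟩
    have hUmem : ∀ c : G, c ∈ U ↔ c ∈ Q' ∧ ∀ y ∈ Q', y * c = c * y := by
      intro c
      rw [hUdef]
      constructor
      · intro h
        obtain ⟨h1, h2⟩ := Subgroup.mem_inf.mp h
        exact ⟨h1, fun y hy => Subgroup.mem_centralizer_iff.mp h2 y hy⟩
      · rintro ⟨h1, h2⟩
        exact Subgroup.mem_inf.mpr ⟨h1, Subgroup.mem_centralizer_iff.mpr (fun y hy => h2 y hy)⟩
    have hwU : w ∈ U := (hUmem w).mpr ⟨hwQ, hwc⟩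
    have hU1 : U ≠ ⊥ := fun h => hw1 (by rw [h, Subgroup.mem_bot] at hwU; exact hwU)
    have hUE : U ≤ E := fun c hc => hQ'E ((hUmem c).mp hc).1
    by_cases hcase : ∃ c ∈ U, c ≠ 1 ∧ y₀ * c = c * y₀
    · obtain ⟨c, hcU, hc1, hcy⟩ := hcase
      have hC := hCN c hc1
      have hy₀C : y₀ ∈ Subgroup.centralizer ({c} : Set G) := mem_centralizer_singleton hcy.symm
      have hQ'C : Q' ≤ Subgroup.centralizer ({c} : Set G) := by
        intro y hy
        exact mem_centralizer_singleton (((hUmem c).mp hcU).2 y hy).symm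
      have hy₀Q : ∀ y ∈ Q', y₀ * y = y * y₀ := by
        intro y hy
        apply nilpotent_coprime_comm' _ hC hy₀C (hQ'C hy)
        rw [hy₀o]
        obtain ⟨j, hj⟩ := hQ'p ⟨y, hy⟩
        have hj' : y ^ (q ^ j) = 1 := congrArg (fun w : Q' => (w : G)) hj
        exact Nat.Coprime.coprime_dvd_right (orderOf_dvd_of_pow_eq_one hj')
          (Nat.Coprime.pow_right j ((Nat.coprime_primes hr hq).mpr (Ne.symm hqr)))
      have hcent : (⊤ : Subgroup E) ≤ Subgroup.centralizer ({(⟨y₀, hy₀E⟩ : E)} : Set E) := by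
        rw [← htop]
        apply sup_le
        · intro y hy
          apply mem_centralizer_singleton
          apply Subtype.ext
          exact hy₀Q (y : G) ((hQ'mem _ y.2).mpr hy)
        · rw [Subgroup.zpowers_le]
          apply mem_centralizer_singleton
          apply Subtype.ext
          show y₀ * (g : G) = (g : G) * y₀
          rw [hy₀def, ← pow_succ, ← pow_succ']
      apply hnil
      have hEle : E ≤ Subgroup.centralizer ({y₀} : Set G) := by
        intro e he
        have := hcent (Subgroup.mem_top (⟨e, he⟩ : E))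
        have h2 := Subgroup.mem_centralizer_iff.mp this _ rfl
        apply mem_centralizer_singleton
        exact congrArg (fun w : E => (w : G)) h2
      exact nilpotent_of_le hEle (hCN y₀ hy₀1)
    · push Not at hcase
      obtain ⟨A, hAdef⟩ : ∃ A : Subgroup G, A = P ⊓ Subgroup.centralizer (P : Set G) := ⟨_, rfl⟩
      haveI hAn : A.Normal := by
        rw [hAdef]
        infer_instance
      have hAmem : ∀ c : G, c ∈ A ↔ c ∈ P ∧ ∀ y ∈ P, y * c = c * y := by
        intro c
        rw [hAdef]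
        constructor
        · intro h
          obtain ⟨h1, h2⟩ := Subgroup.mem_inf.mp h
          exact ⟨h1, fun y hy => Subgroup.mem_centralizer_iff.mp h2 y hy⟩
        · rintro ⟨h1, h2⟩
          exact Subgroup.mem_inf.mpr ⟨h1, Subgroup.mem_centralizer_iff.mpr (fun y hy => h2 y hy)⟩
      haveI hAc : IsMulCommutative A :=
        ⟨⟨fun a b => Subtype.ext (((hAmem b).mp b.2).2 a ((hAmem a).mp a.2).1)⟩⟩
      have hfix := frob_core A U y₀ r hr hy₀o
        (by
          intro c hc
          obtain ⟨hcQ, hcc⟩ := (hUmem c).mp hc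
          refine (hUmem _).mpr ⟨hQ'n y₀ hy₀E c hcQ, fun y hy => ?_⟩
          have h1 : y₀⁻¹ * y * y₀ ∈ Q' := by
            have := hQ'n y₀⁻¹ (E.inv_mem hy₀E) y hy
            rwa [inv_inv] at this
          have h2 := hcc (y₀⁻¹ * y * y₀) h1
          calc y * (y₀ * c * y₀⁻¹) = y₀ * ((y₀⁻¹ * y * y₀) * c) * y₀⁻¹ := by group
            _ = y₀ * (c * (y₀⁻¹ * y * y₀)) * y₀⁻¹ := by rw [h2]
            _ = y₀ * c * y₀⁻¹ * y := by group)
        hU1
        (by
          intro c hc hc1 a ha hca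
          exact hfpf c (hUE hc) hc1 a ((hAmem a).mp ha).1 hca)
        (by
          intro c hc a ha hca
          have hcE := hUE hc
          refine hfpf (c * y₀ * c⁻¹) (E.mul_mem (E.mul_mem hcE hy₀E) (E.inv_mem hcE)) ?_ a
            ((hAmem a).mp ha).1 hca
          intro h1
          apply hy₀1
          have : y₀ = c⁻¹ * (c * y₀ * c⁻¹) * c := by group
          rw [this, h1]; group)
        (by
          intro i hi0 hir c hc hic
          by_contra hc1
          have hcopi : Nat.Coprime i (orderOf y₀) := by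
            rw [hy₀o]
            exact Nat.Coprime.symm ((Nat.Prime.coprime_iff_not_dvd hr).mpr
              (Nat.not_dvd_of_pos_of_lt hi0 hir))
          obtain ⟨m, hm⟩ := exists_pow_eq_self_of_coprime hcopi
          have h1 : Commute ((y₀ ^ i) ^ m) c := Commute.pow_left hic m
          rw [hm] at h1
          exact hcase c hc hc1 h1)
      obtain ⟨z, hzP, hz1, hzc⟩ := exists_central_of_pgroup P hP hP1
      have hzA : z ∈ A := (hAmem z).mpr ⟨hzP, hzc⟩
      have h1 := hfix z hzA
      obtain ⟨j, hj⟩ := hP ⟨z, hzP⟩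
      have hj' : z ^ (p ^ j) = 1 := congrArg (fun w : P => (w : G)) hj
      have h2 : orderOf z ∣ Nat.gcd (Nat.card U) (p ^ j) :=
        Nat.dvd_gcd (orderOf_dvd_of_pow_eq_one h1) (orderOf_dvd_of_pow_eq_one hj')
      have h3 : Nat.gcd (Nat.card U) (p ^ j) = 1 :=
        Nat.Coprime.pow_right j (Nat.Coprime.coprime_dvd_left (Subgroup.card_dvd_of_le hUE) hcop)
      rw [h3] at h2
      exact hz1 (orderOf_eq_one_iff.mp (Nat.dvd_one.mp h2))

/-- Structure of a CN-group with a nontrivial normal Sylow subgroup: the largest normal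
nilpotent Hall subgroup is the centralizer of any nontrivial central element of the Sylow. -/
theorem cn_normal_sylow {G : Type u} [Group G] [Finite G]
    (hCN : ∀ g : G, g ≠ 1 → Group.IsNilpotent (Subgroup.centralizer ({g} : Set G)))
    (p : ℕ) [hp : Fact p.Prime] (P : Sylow p G) (hP1 : (P : Subgroup G) ≠ ⊥)
    (hPn : (P : Subgroup G).Normal) :
    ∃ z ∈ (P : Subgroup G), z ≠ 1 ∧ (∀ y ∈ (P : Subgroup G), y * z = z * y) ∧
      Cfsg.fittingHall G = Subgroup.centralizer ({z} : Set G) ∧
      Group.IsNilpotent (Cfsg.fittingHall G) ∧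
      (Nat.card (Cfsg.fittingHall G)).Coprime (Cfsg.fittingHall G).index ∧
      (P : Subgroup G) ≤ Cfsg.fittingHall G := by
  haveI := hPn
  obtain ⟨z, hzP, hz1, hzc⟩ := exists_central_of_pgroup (P : Subgroup G) P.isPGroup' hP1
  obtain ⟨H, hH, hCH, hmax⟩ := exists_max_subgroup (fun R : Subgroup G => Group.IsNilpotent R)
    (Subgroup.centralizer ({z} : Set G)) (hCN z hz1)
  have hPC : (P : Subgroup G) ≤ Subgroup.centralizer ({z} : Set G) := by
    intro y hy
    exact mem_centralizer_singleton (hzc y hy).symm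
  have hPH : (P : Subgroup G) ≤ H := hPC.trans hCH
  have hPp : ∀ s ∈ (P : Subgroup G), ∃ k : ℕ, s ^ (p ^ k) = 1 := by
    intro s hs
    obtain ⟨k, hk⟩ := P.isPGroup' ⟨s, hs⟩
    exact ⟨k, congrArg (fun w : (P : Subgroup G) => (w : G)) hk⟩
  have hkey : ∀ z' ∈ (P : Subgroup G), z' ≠ 1 → (∀ y ∈ (P : Subgroup G), y * z' = z' * y) →
      Subgroup.centralizer ({z'} : Set G) = H := by
    intro z' hz'P hz'1 hz'c
    apply cn_cent_eq hCN H hmax hz'1
    apply central_of_comm_pelts H hH p hp.out z' (hPH hz'P) (hPp z' hz'P)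
    intro a ha hap
    exact hz'c a (mem_sylow_of_nilpotent H hH p P hPH ha hap)
  have hCz := hkey z hzP hz1 hzc
  have hHn : H.Normal := by
    refine ⟨fun h hh g => ?_⟩
    have hz' : g * z * g⁻¹ ∈ (P : Subgroup G) := hPn.conj_mem z hzP g
    have hz'1 : g * z * g⁻¹ ≠ 1 := by
      intro h1
      apply hz1
      have : z = g⁻¹ * (g * z * g⁻¹) * g := by group
      rw [this, h1]; group
    have hz'c : ∀ y ∈ (P : Subgroup G), y * (g * z * g⁻¹) = (g * z * g⁻¹) * y := by
      intro y hy
      have h1 := hzc (g⁻¹ * y * g) (by have := hPn.conj_mem y hy g⁻¹; rwa [inv_inv] at this)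
      calc y * (g * z * g⁻¹) = g * ((g⁻¹ * y * g) * z) * g⁻¹ := by group
        _ = g * (z * (g⁻¹ * y * g)) * g⁻¹ := by rw [h1]
        _ = g * z * g⁻¹ * y := by group
    rw [← hkey _ hz' hz'1 hz'c]
    apply mem_centralizer_singleton
    have h1 : z * h = h * z := by
      have : h ∈ Subgroup.centralizer ({z} : Set G) := by rw [hCz]; exact hh
      exact Subgroup.mem_centralizer_iff.mp this z rfl
    calc g * z * g⁻¹ * (g * h * g⁻¹) = g * (z * h) * g⁻¹ := by group
      _ = g * (h * z) * g⁻¹ := by rw [h1]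
      _ = g * h * g⁻¹ * (g * z * g⁻¹) := by group
  have hHall : (Nat.card H).Coprime H.index := cn_hall hCN H hH hmax
  have hPi : ¬ p ∣ (P : Subgroup G).index := P.not_dvd_index
  have hFH : Cfsg.fittingHall G = H := by
    apply le_antisymm
    · apply sSup_le
      rintro N ⟨hNn, hNnil, hNhall⟩
      haveI := hNn
      rw [← hCz]
      by_cases hpN : p ∣ Nat.card N
      · have hpi : ¬ p ∣ N.index := by
          intro h
          have h1 := Nat.dvd_gcd hpN h
          rw [Nat.Coprime.gcd_eq_one hNhall] at h1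
          exact hp.out.one_lt.ne' (Nat.dvd_one.mp h1)
        have hzN : z ∈ N := mem_of_pelt_of_not_dvd_index hp.out N hpi (hPp z hzP)
        have hcen := central_of_comm_pelts N hNnil p hp.out z hzN (hPp z hzP)
          (fun a _ hap => hzc a (mem_of_pelt_of_not_dvd_index hp.out (P : Subgroup G) hPi hap))
        intro n hn
        exact mem_centralizer_singleton (hcen n hn).symm
      · have hcopN : (Nat.card N).Coprime p :=
          ((Nat.Prime.coprime_iff_not_dvd hp.out).mpr hpN).symm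
        intro n hn
        have hcN : n * z * n⁻¹ * z⁻¹ ∈ N := by
          have h1 : n * z * n⁻¹ * z⁻¹ = n * (z * n⁻¹ * z⁻¹) := by group
          rw [h1]
          exact N.mul_mem hn (hNn.conj_mem n⁻¹ (N.inv_mem hn) z)
        have hcP : n * z * n⁻¹ * z⁻¹ ∈ (P : Subgroup G) :=
          (P : Subgroup G).mul_mem (hPn.conj_mem z hzP n) ((P : Subgroup G).inv_mem hzP)
        have hc1 := Cfsg.Agent.Lib_helper1_Frobenius.eq_one_of_coprime_of_pgroup N
          (P : Subgroup G) hcopN P.isPGroup' hcN hcP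
        apply mem_centralizer_singleton
        have h2 : n * z = (n * z * n⁻¹ * z⁻¹) * (z * n) := by group
        rw [h2, hc1, one_mul]
    · apply le_sSup
      exact ⟨hHn, hH, hHall⟩
  refine ⟨z, hzP, hz1, hzc, ?_, ?_, ?_, ?_⟩
  · rw [hFH, hCz]
  · rw [hFH]; exact hH
  · rw [hFH]; exact hHall
  · rw [hFH]; exact hPH

end Cfsg.Agent.Lib_helper2_CN2
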