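import Mathlib
import Cfsg.Agent.Lib_helper2_CN
import Cfsg.Agent.Lib_helper2_CN2
import Cfsg.Agent.Lib_helper1_Coprime
import Cfsg.Agent.Lib_helper1_Socle
import Cfsg.Agent.Lib_helper1_SZConj
import Cfsg.Agent.Lib_helper1_Hall
import Cfsg.Agent.Lib_helper5_Fitting
import Cfsg.Agent.Lib_helper6_PCore

namespace Cfsg.Agent.Lib_helper2_CN3

open Cfsg.Agent.Lib_helper2_CN Cfsg.Agent.Lib_helper2_CN2 Cfsg.Agent.Lib_helper2_Trans
open Cfsg.Agent.Lib_helper1_MinNonNil

universe u

theorem eq_one_of_dvd_of_coprime {k n : ℕ} (h1 : k ∣ n) (h2 : k.Coprime n) : k = 1 := by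
  have := Nat.dvd_gcd (dvd_refl k) h1
  rw [Nat.Coprime.gcd_eq_one h2] at this
  exact Nat.dvd_one.mp this

theorem isPGroup_zpowers {G : Type*} [Group G] {p : ℕ} {a : G} (h : ∃ k : ℕ, a ^ (p ^ k) = 1) :
    IsPGroup p (Subgroup.zpowers a) := by
  obtain ⟨k, hk⟩ := h
  rintro ⟨y, hy⟩
  obtain ⟨n, rfl⟩ := Subgroup.mem_zpowers_iff.mp hy
  refine ⟨k, Subtype.ext ?_⟩
  show ((a ^ n) ^ (p ^ k) : G) = 1
  rw [← zpow_natCast, ← zpow_mul, mul_comm, zpow_mul, zpow_natCast, hk, one_zpow]

theorem isSolvable_zpowers {G : Type*} [Group G] (a : G) :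
    Group.IsSolvable (Subgroup.zpowers a) := by
  apply Group.isSolvable_of_comm
  intro x y
  obtain ⟨i, hi⟩ := Subgroup.mem_zpowers_iff.mp x.2
  obtain ⟨j, hj⟩ := Subgroup.mem_zpowers_iff.mp y.2
  apply Subtype.ext
  show (x : G) * (y : G) = (y : G) * (x : G)
  rw [← hi, ← hj, ← zpow_add, ← zpow_add, add_comm]

theorem le_normalizer_of_normal {G : Type*} [Group G] (V : Subgroup G) [hVn : V.Normal]
    (A : Subgroup G) : A ≤ Subgroup.normalizer (V : Set G) := by
  intro a _
  rw [Subgroup.mem_normalizer_iff]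
  intro v
  constructor
  · intro hv
    exact hVn.conj_mem v hv a
  · intro hv
    have := hVn.conj_mem _ hv a⁻¹
    have h2 : a⁻¹ * (a * v * a⁻¹) * a⁻¹⁻¹ = v := by group
    rwa [h2] at this

theorem mk'_eq_one_iff {G : Type*} [Group G] (V : Subgroup G) [V.Normal] {x : G} :
    QuotientGroup.mk' V x = 1 ↔ x ∈ V := QuotientGroup.eq_one_iff x

/-- A nontrivial normal subgroup inside a `p`-subgroup `D` contains a nontrivial element
central in `D`. -/
theorem exists_central_in_normal {G : Type*} [Group G] [Finite G] (p : ℕ) [Fact p.Prime]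
    (V : Subgroup G) [V.Normal] (hV1 : V ≠ ⊥) (D : Subgroup G) (hD : IsPGroup p D)
    (hVD : V ≤ D) : ∃ u ∈ V, u ≠ 1 ∧ ∀ d ∈ D, d * u = u * d := by
  haveI : Group.IsNilpotent D := hD.isNilpotent
  have hN1 : V.subgroupOf D ≠ ⊥ := by
    intro h
    apply hV1
    rw [Subgroup.subgroupOf_eq_bot] at h
    exact h.eq_bot_of_le hVD
  have h2 := Cfsg.Agent.Lib_helper1_Socle.normal_inf_center_ne_bot (V.subgroupOf D) hN1
  obtain ⟨w, hw, hw1⟩ : ∃ w ∈ V.subgroupOf D ⊓ Subgroup.center D, w ≠ 1 := by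
    by_contra hcon
    push Not at hcon
    exact h2 ((Subgroup.eq_bot_iff_forall _).mpr hcon)
  obtain ⟨hwV, hwc⟩ := Subgroup.mem_inf.mp hw
  refine ⟨(w : G), Subgroup.mem_subgroupOf.mp hwV, fun h => hw1 (Subtype.ext h), fun d hd => ?_⟩
  have := Subgroup.mem_center_iff.mp hwc ⟨d, hd⟩
  exact congrArg (fun t : D => (t : G)) this

/-- The CN property passes along isomorphisms. -/
theorem cn_of_mulEquiv {A B : Type*} [Group A] [Group B]
    (hA : ∀ a : A, a ≠ 1 → Group.IsNilpotent (Subgroup.centralizer ({a} : Set A))) (e : A ≃* B) :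
    ∀ b : B, b ≠ 1 → Group.IsNilpotent (Subgroup.centralizer ({b} : Set B)) := by
  intro b hb
  have ha : e.symm b ≠ 1 := by
    intro h
    apply hb
    have := congrArg e h
    simpa using this
  haveI := hA _ ha
  have hle : Subgroup.centralizer ({b} : Set B) ≤
      (Subgroup.centralizer ({e.symm b} : Set A)).map e.toMonoidHom := by
    intro y hy
    refine ⟨e.symm y, ?_, by simp⟩
    apply mem_centralizer_singleton
    have h1 := Subgroup.mem_centralizer_iff.mp hy b rfl
    rw [← map_mul, ← map_mul, h1]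
  exact nilpotent_of_le hle (Group.nilpotent_of_surjective (e.toMonoidHom.subgroupMap _)
    (MonoidHom.subgroupMap_surjective _ _))

section CN

variable {G : Type u} [Group G] [Finite G]
  (hCN : ∀ g : G, g ≠ 1 → Group.IsNilpotent (Subgroup.centralizer ({g} : Set G)))

include hCN in
/-- A maximal nilpotent subgroup of non-prime-power order of a CN-group coincides with any
conjugate meeting it nontrivially. -/
theorem cn_conj_eq (H : Subgroup G) (hH : Group.IsNilpotent H)
    (hmax : ∀ L : Subgroup G, Group.IsNilpotent L → H ≤ L → L = H)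
    (hnpp : ¬ IsPrimePow (Nat.card H)) (g : G) {x : G} (hxH : x ∈ H)
    (hxg : x ∈ H.map (MulAut.conj g).toMonoidHom) (hx1 : x ≠ 1) :
    H.map (MulAut.conj g).toMonoidHom = H := by
  have hK : Group.IsNilpotent (H.map (MulAut.conj g).toMonoidHom) := by
    haveI := hH
    exact Group.nilpotent_of_surjective ((MulAut.conj g).toMonoidHom.subgroupMap H)
      (MonoidHom.subgroupMap_surjective _ _)
  have hKS : ∀ q : ℕ, ∀ _ : Fact q.Prime, q ∣ Nat.card H →
      ∃ S' : Sylow q G, (S' : Subgroup G) ≤ H.map (MulAut.conj g).toMonoidHom := by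
    intro q hq hqH
    obtain ⟨S, hSH, -⟩ := cn_sylow hCN H hH hmax q hqH
    refine ⟨g • S, ?_⟩
    rw [Sylow.coe_subgroup_smul]
    rintro y ⟨s, hs, rfl⟩
    exact ⟨s, hSH hs, rfl⟩
  have hle := cn_le_of_inter hCN H hH hmax hnpp _ hK hKS hxH hxg hx1
  apply Subgroup.eq_of_le_of_card_ge hle
  rw [Subgroup.card_map_of_injective (MulAut.conj g).injective]

include hCN in
/-- The centralizer in `G ⧸ V` of the image of a `p`-element outside the normal `p`-subgroup
`V` is nilpotent. -/
theorem cn_quotient_pelt (p : ℕ) [hp : Fact p.Prime] (V : Subgroup G) [hVn : V.Normal]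
    (hV : IsPGroup p V) (hV1 : V ≠ ⊥) (x : G) (hxV : x ∉ V) (hxp : ∃ k : ℕ, x ^ (p ^ k) = 1) :
    Group.IsNilpotent (Subgroup.centralizer ({QuotientGroup.mk' V x} : Set (G ⧸ V))) := by
  obtain ⟨C, hCdef⟩ : ∃ C : Subgroup G, C = (Subgroup.centralizer
      ({QuotientGroup.mk' V x} : Set (G ⧸ V))).comap (QuotientGroup.mk' V) := ⟨_, rfl⟩
  have hC : ∀ c : G, c ∈ C ↔ c * x * c⁻¹ * x⁻¹ ∈ V := by
    intro c
    rw [hCdef]
    constructor
    · intro h
      have h1 : (QuotientGroup.mk' V x) * (QuotientGroup.mk' V c)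
          = (QuotientGroup.mk' V c) * (QuotientGroup.mk' V x) :=
        Subgroup.mem_centralizer_iff.mp (Subgroup.mem_comap.mp h) _ rfl
      rw [← mk'_eq_one_iff V, map_mul, map_mul, map_mul, map_inv, map_inv, ← h1]
      group
    · intro h
      apply Subgroup.mem_comap.mpr
      apply mem_centralizer_singleton
      have h2 := (mk'_eq_one_iff V).mpr h
      rw [map_mul, map_mul, map_mul, map_inv, map_inv] at h2
      have h3 : (QuotientGroup.mk' V c) * (QuotientGroup.mk' V x)
          = ((QuotientGroup.mk' V c) * (QuotientGroup.mk' V x) * (QuotientGroup.mk' V c)⁻¹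
            * (QuotientGroup.mk' V x)⁻¹) * ((QuotientGroup.mk' V x) * (QuotientGroup.mk' V c)) := by
        group
      rw [h2, one_mul] at h3
      exact h3.symm
  obtain ⟨D, hDdef⟩ : ∃ D : Subgroup G, D = V ⊔ Subgroup.zpowers x := ⟨_, rfl⟩
  have hD : IsPGroup p D := by rw [hDdef]; exact hV.to_sup_of_normal_left (isPGroup_zpowers hxp)
  have hVD : V ≤ D := by rw [hDdef]; exact le_sup_left
  have hxD : x ∈ D := by
    rw [hDdef]
    exact (le_sup_right : Subgroup.zpowers x ≤ V ⊔ Subgroup.zpowers x) (Subgroup.mem_zpowers x)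
  have hCD : ∀ c ∈ C, ∀ d ∈ D, c * d * c⁻¹ ∈ D := by
    intro c hc
    have hle : D ≤ D.comap (MulAut.conj c).toMonoidHom := by
      rw [hDdef]
      apply sup_le
      · intro v hv
        rw [Subgroup.mem_comap]
        exact (le_sup_left : V ≤ V ⊔ Subgroup.zpowers x) (hVn.conj_mem v hv c)
      · rw [Subgroup.zpowers_le, Subgroup.mem_comap]
        show c * x * c⁻¹ ∈ V ⊔ Subgroup.zpowers x
        have h1 : c * x * c⁻¹ = (c * x * c⁻¹ * x⁻¹) * x := by group
        rw [h1]
        exact Subgroup.mul_mem _ ((le_sup_left : V ≤ V ⊔ Subgroup.zpowers x) ((hC c).mp hc))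
          ((le_sup_right : Subgroup.zpowers x ≤ V ⊔ Subgroup.zpowers x) (Subgroup.mem_zpowers x))
    intro d hd
    exact hle hd
  have hCND : C ≤ Subgroup.normalizer (D : Set G) := fun c hc =>
    Cfsg.Agent.Lib_helper1_Basic.mem_normalizer_of_conj_le D c (hCD c hc)
  obtain ⟨u, huV, hu1, huc⟩ := exists_central_in_normal p V hV1 D hD hVD
  have hVp : ∀ v ∈ V, ∃ j : ℕ, v ^ (p ^ j) = 1 := by
    intro v hv
    obtain ⟨j, hj⟩ := hV ⟨v, hv⟩
    exact ⟨j, congrArg (fun w : V => (w : G)) hj⟩
  have hα : ∀ c ∈ C, (∃ j : ℕ, c ^ (p ^ j) = 1) → ∃ u' ∈ V, u' ≠ 1 ∧ c * u' = u' * c := by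
    intro c hc hcp
    have hD' : IsPGroup p (Subgroup.zpowers c ⊔ D : Subgroup G) :=
      IsPGroup.to_sup_of_normal_right' (isPGroup_zpowers hcp) hD
        (by rw [Subgroup.zpowers_le]; exact hCND hc)
    obtain ⟨u', hu'V, hu'1, hu'c⟩ := exists_central_in_normal p V hV1 _ hD'
      (hVD.trans le_sup_right)
    exact ⟨u', hu'V, hu'1, hu'c c ((le_sup_left : Subgroup.zpowers c ≤ Subgroup.zpowers c ⊔ D) (Subgroup.mem_zpowers c))⟩
  have hβ : ∀ c ∈ C, (orderOf c).Coprime p → ∃ y ∈ D, y ≠ 1 ∧ c * y = y * c := by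
    intro c hc hcop
    have hzC : Subgroup.zpowers c ≤ C := by rw [Subgroup.zpowers_le]; exact hc
    have hfix : ∀ a' ∈ Subgroup.zpowers c, a' * x * a'⁻¹ * x⁻¹ ∈ V :=
      fun a' ha' => (hC a').mp (hzC ha')
    have hcopcard : (Nat.card (Subgroup.zpowers c)).Coprime (Nat.card V) := by
      rw [Nat.card_zpowers]
      obtain ⟨k, hk⟩ := IsPGroup.iff_card.mp hV
      rw [hk]; exact Nat.Coprime.pow_right k hcop
    obtain ⟨n, hn, hny⟩ := Cfsg.Agent.Lib_helper1_Coprime.fixed_in_coset (Subgroup.zpowers c) V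
      (le_normalizer_of_normal V _) hcopcard (Or.inl (isSolvable_zpowers c)) x hfix
    refine ⟨n * x, D.mul_mem (hVD hn) hxD, ?_, ?_⟩
    · intro h
      apply hxV
      have h1 : x = n⁻¹ * (n * x) := by group
      rw [h1, h, mul_one]
      exact V.inv_mem hn
    · exact Subgroup.mem_centralizer_iff.mp hny c (Subgroup.mem_zpowers c)
  obtain ⟨M, hMnil, hCM, hMmax⟩ := exists_max_subgroup
    (fun R : Subgroup G => Group.IsNilpotent R) (Subgroup.centralizer ({u} : Set G)) (hCN u hu1)
  have hDM : D ≤ M := fun d hd => hCM (mem_centralizer_singleton (huc d hd).symm)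
  have huM : u ∈ M := hDM (hVD huV)
  have hmapeq : Subgroup.centralizer ({QuotientGroup.mk' V x} : Set (G ⧸ V))
      = C.map (QuotientGroup.mk' V) := by
    rw [hCdef, Subgroup.map_comap_eq_self_of_surjective (QuotientGroup.mk'_surjective V)]
  by_cases hMp : IsPGroup p M
  · have hall : ∀ c ∈ C, ∃ j : ℕ, c ^ (p ^ j) = 1 := by
      intro c hc
      obtain ⟨a', ha', b', hb', hab', hap', hbp'⟩ := exists_p_decomp p hp.out c
      have hzC : Subgroup.zpowers c ≤ C := by rw [Subgroup.zpowers_le]; exact hc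
      have hb'C : b' ∈ C := hzC hb'
      obtain ⟨y, hyD, hy1, hby⟩ := hβ b' hb'C hbp'
      have hCy := hCN y hy1
      have hb'y : b' ∈ Subgroup.centralizer ({y} : Set G) := mem_centralizer_singleton hby.symm
      have huy : u ∈ Subgroup.centralizer ({y} : Set G) := mem_centralizer_singleton (huc y hyD)
      obtain ⟨j, hj⟩ := hVp u huV
      have hcop : (orderOf b').Coprime (orderOf u) :=
        Nat.Coprime.coprime_dvd_right (orderOf_dvd_of_pow_eq_one hj) (Nat.Coprime.pow_right j hbp')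
      have hbu := nilpotent_coprime_comm' _ hCy hb'y huy hcop
      have hb'M : b' ∈ M := hCM (mem_centralizer_singleton hbu.symm)
      obtain ⟨i, hi⟩ := hMp ⟨b', hb'M⟩
      have hi' : b' ^ (p ^ i) = 1 := congrArg (fun w : M => (w : G)) hi
      have hb'1 : b' = 1 := orderOf_eq_one_iff.mp
        (eq_one_of_dvd_of_coprime (orderOf_dvd_of_pow_eq_one hi') (Nat.Coprime.pow_right i hbp'))
      rw [← hab', hb'1, mul_one]
      exact hap'
    have hPG : IsPGroup p (Subgroup.centralizer ({QuotientGroup.mk' V x} : Set (G ⧸ V))) := by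
      rintro ⟨t, ht⟩
      have ht' := ht
      rw [hmapeq] at ht'
      obtain ⟨c, hc, hct⟩ := ht'
      obtain ⟨j, hj⟩ := hall c hc
      refine ⟨j, Subtype.ext ?_⟩
      show t ^ (p ^ j) = 1
      rw [← hct, ← map_pow, hj, map_one]
    exact hPG.isNilpotent
  · have hnpp : ¬ IsPrimePow (Nat.card M) := by
      intro hpp
      apply hMp
      rw [isPrimePow_nat_iff] at hpp
      obtain ⟨r, j, hr, hj0, hrj⟩ := hpp
      have h1 : orderOf u ∣ r ^ j := by rw [hrj]; exact Subgroup.orderOf_dvd_natCard M huM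
      obtain ⟨i, hi⟩ := hVp u huV
      have h2 : orderOf u ∣ p ^ i := orderOf_dvd_of_pow_eq_one hi
      have h3 : orderOf u ≠ 1 := fun h => hu1 (orderOf_eq_one_iff.mp h)
      obtain ⟨s, hs, hsu⟩ := Nat.exists_prime_and_dvd h3
      have hsp : s = p := (Nat.prime_dvd_prime_iff_eq hs hp.out).mp (hs.dvd_of_dvd_pow (hsu.trans h2))
      have hsr : s = r := (Nat.prime_dvd_prime_iff_eq hs hr).mp (hs.dvd_of_dvd_pow (hsu.trans h1))
      rw [← hsp, hsr]
      exact IsPGroup.of_card hrj.symm
    have hnorm : ∀ c' ∈ C, c' ∈ Subgroup.normalizer (M : Set G) := by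
      intro c' hc'
      have hu' : u ∈ M.map (MulAut.conj c').toMonoidHom := by
        refine ⟨c'⁻¹ * u * c', hDM ?_, ?_⟩
        · have := hCD c'⁻¹ (C.inv_mem hc') u (hVD huV)
          rwa [inv_inv] at this
        · show c' * (c'⁻¹ * u * c') * c'⁻¹ = u
          group
      have heq := cn_conj_eq hCN M hMnil hMmax hnpp c' huM hu' hu1
      apply Cfsg.Agent.Lib_helper1_Basic.mem_normalizer_of_conj_le
      intro m hm
      have : c' * m * c'⁻¹ ∈ M.map (MulAut.conj c').toMonoidHom := ⟨m, hm, rfl⟩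
      rwa [heq] at this
    have hCM' : C ≤ M := by
      intro c hc
      obtain ⟨a', ha', b', hb', hab', hap', hbp'⟩ := exists_p_decomp p hp.out c
      have hzC : Subgroup.zpowers c ≤ C := by rw [Subgroup.zpowers_le]; exact hc
      have ha'C : a' ∈ C := hzC ha'
      have hb'C : b' ∈ C := hzC hb'
      have ha'M : a' ∈ M := by
        obtain ⟨u', hu'V, hu'1, hau'⟩ := hα a' ha'C hap'
        exact cn_cent_le hCN M hMnil hMmax (hDM (hVD hu'V)) hu'1
          (mem_centralizer_singleton hau'.symm) (hnorm a' ha'C)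
      have hb'M : b' ∈ M := by
        obtain ⟨y, hyD, hy1, hby⟩ := hβ b' hb'C hbp'
        exact cn_cent_le hCN M hMnil hMmax (hDM hyD) hy1
          (mem_centralizer_singleton hby.symm) (hnorm b' hb'C)
      rw [← hab']
      exact M.mul_mem ha'M hb'M
    have hle : Subgroup.centralizer ({QuotientGroup.mk' V x} : Set (G ⧸ V))
        ≤ M.map (QuotientGroup.mk' V) := by
      rw [hmapeq]; exact Subgroup.map_mono hCM'
    haveI := hMnil
    exact nilpotent_of_le hle (Group.nilpotent_of_surjective ((QuotientGroup.mk' V).subgroupMap M)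
      (MonoidHom.subgroupMap_surjective _ _))

include hCN in
/-- The quotient of a CN-group by a nontrivial normal `p`-subgroup is a CN-group. -/
theorem cn_quotient_pgroup (p : ℕ) [hp : Fact p.Prime] (V : Subgroup G) [hVn : V.Normal]
    (hV : IsPGroup p V) (hV1 : V ≠ ⊥) :
    ∀ q : G ⧸ V, q ≠ 1 → Group.IsNilpotent (Subgroup.centralizer ({q} : Set (G ⧸ V))) := by
  intro q hq1
  obtain ⟨g₀, rfl⟩ := QuotientGroup.mk'_surjective V q
  obtain ⟨a, ha, b, hb, hab, hap, hbp⟩ := exists_p_decomp p hp.out g₀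
  by_cases hbV : b ∈ V
  · have hqx : QuotientGroup.mk' V g₀ = QuotientGroup.mk' V a := by
      rw [← hab, map_mul, (mk'_eq_one_iff V).mpr hbV, mul_one]
    rw [hqx] at hq1 ⊢
    have hxV : a ∉ V := fun h => hq1 ((mk'_eq_one_iff V).mpr h)
    exact cn_quotient_pelt hCN p V hV hV1 a hxV hap
  · have hb1 : b ≠ 1 := fun h => hbV (h ▸ V.one_mem)
    have hCb := hCN b hb1
    have h1 : Subgroup.centralizer ({QuotientGroup.mk' V g₀} : Set (G ⧸ V))
        ≤ Subgroup.centralizer ({QuotientGroup.mk' V b} : Set (G ⧸ V)) := by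
      intro t ht
      apply mem_centralizer_singleton
      have ht' : Commute (QuotientGroup.mk' V g₀) t := Subgroup.mem_centralizer_iff.mp ht _ rfl
      obtain ⟨i, hi⟩ := Subgroup.mem_zpowers_iff.mp hb
      rw [← hi, map_zpow]
      exact Commute.zpow_left ht' i
    have h2 : Subgroup.centralizer ({QuotientGroup.mk' V b} : Set (G ⧸ V))
        ≤ (Subgroup.centralizer ({b} : Set G)).map (QuotientGroup.mk' V) := by
      intro t ht
      obtain ⟨y, rfl⟩ := QuotientGroup.mk'_surjective V t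
      have ht' : Commute (QuotientGroup.mk' V b) (QuotientGroup.mk' V y) :=
        Subgroup.mem_centralizer_iff.mp ht _ rfl
      have hcop : (Nat.card (Subgroup.zpowers b)).Coprime (Nat.card V) := by
        rw [Nat.card_zpowers]
        obtain ⟨k, hk⟩ := IsPGroup.iff_card.mp hV
        rw [hk]; exact Nat.Coprime.pow_right k hbp
      have hfix : ∀ a' ∈ Subgroup.zpowers b, a' * y * a'⁻¹ * y⁻¹ ∈ V := by
        intro a' ha'
        obtain ⟨i, hi⟩ := Subgroup.mem_zpowers_iff.mp ha'
        rw [← mk'_eq_one_iff V, map_mul, map_mul, map_mul, map_inv, map_inv, ← hi, map_zpow]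
        have hc : Commute (QuotientGroup.mk' V b ^ i) (QuotientGroup.mk' V y) :=
          Commute.zpow_left ht' i
        rw [hc.eq]
        group
      obtain ⟨n, hn, hny⟩ := Cfsg.Agent.Lib_helper1_Coprime.fixed_in_coset (Subgroup.zpowers b) V
        (le_normalizer_of_normal V _) hcop (Or.inl (isSolvable_zpowers b)) y hfix
      refine ⟨n * y, ?_, ?_⟩
      · apply mem_centralizer_singleton
        exact Subgroup.mem_centralizer_iff.mp hny b (Subgroup.mem_zpowers b)
      · rw [map_mul, (mk'_eq_one_iff V).mpr hn, one_mul]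
    haveI := hCb
    have h3 : Group.IsNilpotent ((Subgroup.centralizer ({b} : Set G)).map (QuotientGroup.mk' V)) :=
      Group.nilpotent_of_surjective ((QuotientGroup.mk' V).subgroupMap _)
        (MonoidHom.subgroupMap_surjective _ _)
    exact nilpotent_of_le (h1.trans h2) h3

end CN

/-- The quotient of a CN-group by a solvable normal subgroup is a CN-group. -/
theorem cn_quotient_solvable : ∀ (n : ℕ) (G : Type u) [Group G] [Finite G],
    (∀ g : G, g ≠ 1 → Group.IsNilpotent (Subgroup.centralizer ({g} : Set G))) →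
    ∀ (H : Subgroup G) [H.Normal], Group.IsSolvable H → Nat.card H ≤ n →
    ∀ q : G ⧸ H, q ≠ 1 → Group.IsNilpotent (Subgroup.centralizer ({q} : Set (G ⧸ H))) := by
  intro n
  induction n with
  | zero =>
    intro G _ _ hCN H _ hH hcard
    have := Nat.card_pos (α := H)
    omega
  | succ n ih =>
    intro G _ _ hCN H hHn hH hcard
    by_cases hH1 : H = ⊥
    · subst hH1
      exact cn_of_mulEquiv hCN (QuotientGroup.quotientBot (G := G)).symm
    · haveI := hH
      haveI : Nontrivial H := (Subgroup.nontrivial_iff_ne_bot H).mpr hH1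
      obtain ⟨M, hMn, hM1, -, -, p, k, hp, hk, hMcard⟩ :=
        Cfsg.Agent.Lib_helper1_Hall.exists_minimal_normal (G := H)
      haveI : Fact p.Prime := ⟨hp⟩
      obtain ⟨V, hVdef⟩ : ∃ V : Subgroup G, V = (Cfsg.pCore p H).map H.subtype := ⟨_, rfl⟩
      have hVH : V ≤ H := by rw [hVdef]; exact Subgroup.map_subtype_le _
      have hVp : IsPGroup p V := by
        rw [hVdef]; exact (Cfsg.Agent.Lib_helper6_PCore.pCore_isPGroup p).map _
      have hV1 : V ≠ ⊥ := by
        rw [hVdef]
        intro h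
        rw [Subgroup.map_eq_bot_iff_of_injective _ H.subtype_injective] at h
        apply hM1
        have hle : M ≤ Cfsg.pCore p H :=
          Cfsg.Agent.Lib_helper6_PCore.le_pCore hMn (IsPGroup.of_card hMcard)
        rw [h] at hle
        exact le_bot_iff.mp hle
      have hVn : V.Normal := by
        refine ⟨fun v hv g => ?_⟩
        have h1 := Cfsg.Agent.Lib_helper1_Coprime.normalizer_le_normalizer_map_characteristic H
          (Cfsg.pCore p H)
        have hg : g ∈ Subgroup.normalizer (H : Set G) := le_normalizer_of_normal H ⊤ (Subgroup.mem_top g)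
        have h2 := h1 hg
        rw [← hVdef] at h2
        exact (Subgroup.mem_normalizer_iff.mp h2 v).mp hv
      haveI := hVn
      have hCNV := cn_quotient_pgroup hCN p V hVp hV1
      have hH'solv : Group.IsSolvable (H.map (QuotientGroup.mk' V)) :=
        Cfsg.Agent.Lib_helper1_SZConj.isSolvable_map _ _
      have hH'card : Nat.card (H.map (QuotientGroup.mk' V)) ≤ n := by
        have h1 := Cfsg.Agent.Lib_helper1_SZConj.card_map_mk'_mul V H hVH
        have h2 := Cfsg.Agent.Lib_helper1_SZConj.two_le_card_of_ne_bot V hV1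
        have h3 := Nat.card_pos (α := (H.map (QuotientGroup.mk' V)))
        nlinarith
      haveI hH'n : (H.map (QuotientGroup.mk' V)).Normal :=
        Subgroup.Normal.map hHn _ (QuotientGroup.mk'_surjective V)
      have hCN2 := ih (G ⧸ V) hCNV (H.map (QuotientGroup.mk' V)) hH'solv hH'card
      exact cn_of_mulEquiv hCN2 (QuotientGroup.quotientQuotientEquivQuotient V H hVH)

end Cfsg.Agent.Lib_helper2_CN3
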