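import Mathlib
import Cfsg.Agent.Lib_helper2_CN
import Cfsg.Agent.Lib_helper2_CN2
import Cfsg.Agent.Lib_helper2_CN3
import Cfsg.Agent.Lib_helper2_Cyc
import Cfsg.Agent.Lib_helper1_Coprime
import Cfsg.Agent.Lib_helper1_Hall
import Cfsg.Agent.Lib_helper1_FrobAct
import Cfsg.Agent.Lib_helper1_FrobSylow
import Cfsg.Agent.Lib_helper6_PCore
import Cfsg.Agent.Lib_helper7_PPrime
import Cfsg.Agent.S0016
import Cfsg.Prelude.Def_OddOrderLocal

namespace Cfsg.Agent.Lib_helper2_CN4

open Cfsg.Agent.Lib_helper2_CN Cfsg.Agent.Lib_helper2_CN2 Cfsg.Agent.Lib_helper2_CN3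
open Cfsg.Agent.Lib_helper2_Trans Cfsg.Agent.Lib_helper2_Cyc

universe u

/-- Sylow subgroups of a group acting fixed-point-freely on a nontrivial abelian subgroup. -/
theorem fpf_sylow {G : Type*} [Group G] [Finite G] (A L : Subgroup G)
    (hLA : L ≤ Subgroup.normalizer (A : Set G)) (hAab : ∀ a ∈ A, ∀ b ∈ A, a * b = b * a)
    (hA1 : A ≠ ⊥) (hfpf : ∀ e ∈ L, e ≠ 1 → ∀ v ∈ A, e * v = v * e → v = 1)
    (r : ℕ) [Fact r.Prime] (S : Sylow r L) :
    IsCyclic S ∨ (r = 2 ∧ ∃ n : ℕ, Nonempty (S ≃* QuaternionGroup (2 ^ n))) := by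
  letI : CommGroup ↥A :=
    { (inferInstance : Group ↥A) with
      mul_comm := fun a b => Subtype.ext (hAab a a.2 b b.2) }
  have hV' : ∃ v : A, v ≠ 1 := by
    by_contra h
    push Not at h
    apply hA1
    rw [eq_bot_iff]
    intro v hv
    rw [Subgroup.mem_bot]
    exact congrArg Subtype.val (h ⟨v, hv⟩)
  have hfpf' : ∀ f : L, f ≠ 1 → ∀ v : A,
      Cfsg.Agent.Lib_helper1_FrobAct.conjAct A L hLA f v = v → v = 1 := by
    intro f hf v hv
    have h1 := congrArg Subtype.val hv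
    rw [Cfsg.Agent.Lib_helper1_FrobAct.conjAct_apply] at h1
    have h2 : (f : G) * v = v * f := by
      calc (f : G) * v = (f : G) * v * (f : G)⁻¹ * f := by group
        _ = v * f := by rw [h1]
    exact Subtype.ext (hfpf f f.2 (fun h => hf (Subtype.ext h)) v v.2 h2)
  have huniq : ∀ X Y : Subgroup ↥(S : Subgroup L), Nat.card X = r → Nat.card Y = r → X = Y :=
    fun X Y hX hY => Cfsg.Agent.Lib_helper1_FrobSylow.unique_order_p
      (Cfsg.Agent.Lib_helper1_FrobAct.conjAct A L hLA) hV' hfpf' r (S : Subgroup L) S.isPGroup'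
      X Y hX hY
  exact Cfsg.Agent.S0016.result r S.isPGroup' huniq

/-- An involution acting fixed-point-freely on a finite normal subgroup inverts it. -/
theorem inv_of_fpf_invol {G : Type*} [Group G] [Finite G] (V : Subgroup G) [hVn : V.Normal]
    (t : G) (ht : t * t = 1) (hfpf : ∀ v ∈ V, t * v = v * t → v = 1) :
    ∀ v ∈ V, t * v * t⁻¹ = v⁻¹ := by
  have ht' : t⁻¹ = t := inv_eq_of_mul_eq_one_right ht
  obtain ⟨f, hf⟩ : ∃ f : V → V, ∀ v : V, ((f v : V) : G) = (v : G)⁻¹ * (t * v * t⁻¹) :=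
    ⟨fun v => ⟨(v : G)⁻¹ * (t * v * t⁻¹), V.mul_mem (V.inv_mem v.2) (hVn.conj_mem v v.2 t)⟩,
      fun v => rfl⟩
  have hinj : Function.Injective f := by
    intro v w hvw
    have h1 := congrArg (fun x : V => (x : G)) hvw
    simp only [hf] at h1
    have h2 : t * ((w : G) * (v : G)⁻¹) = ((w : G) * (v : G)⁻¹) * t := by
      have e1 : t * ((w : G) * (v : G)⁻¹) = (w : G) * ((w : G)⁻¹ * (t * w * t⁻¹)) * t * (v : G)⁻¹ := by
        group
      have e2 : ((w : G) * (v : G)⁻¹) * t = (w : G) * ((v : G)⁻¹ * (t * v * t⁻¹)) * t * (v : G)⁻¹ := by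
        group
      rw [e1, e2, h1]
    have h3 := hfpf _ (V.mul_mem w.2 (V.inv_mem v.2)) h2
    apply Subtype.ext
    exact (mul_inv_eq_one.mp h3).symm
  have hsurj : Function.Surjective f := Finite.injective_iff_surjective.mp hinj
  intro v hv
  obtain ⟨u, hu⟩ := hsurj ⟨v, hv⟩
  have hu' : (v : G) = (u : G)⁻¹ * (t * u * t⁻¹) := by
    rw [← hf u, hu]
  rw [hu']
  have e1 : t * ((u : G)⁻¹ * (t * u * t⁻¹)) * t⁻¹ = t * (u : G)⁻¹ * (t * u) * (t * t)⁻¹ := by group
  have e2 : ((u : G)⁻¹ * (t * u * t⁻¹))⁻¹ = t * (u : G)⁻¹ * t⁻¹ * u := by group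
  rw [e1, e2, ht, inv_one, mul_one, ht']
  group

/-- The elements whose commutator with `x` lies in a normal subgroup form a subgroup. -/
theorem exists_comm_subgroup {G : Type*} [Group G] (V : Subgroup G) [V.Normal] (x : G) :
    ∃ C : Subgroup G, ∀ c : G, c ∈ C ↔ c * x * c⁻¹ * x⁻¹ ∈ V := by
  refine ⟨(Subgroup.centralizer ({QuotientGroup.mk' V x} : Set (G ⧸ V))).comap
    (QuotientGroup.mk' V), ?_⟩
  intro c
  constructor
  · intro h
    have h1 : (QuotientGroup.mk' V x) * (QuotientGroup.mk' V c)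
        = (QuotientGroup.mk' V c) * (QuotientGroup.mk' V x) :=
      Subgroup.mem_centralizer_iff.mp (Subgroup.mem_comap.mp h) _ rfl
    rw [← mk'_eq_one_iff V, map_mul, map_mul, map_mul, map_inv, map_inv, ← h1]
    group
  · intro h
    apply Subgroup.mem_comap.mpr
    apply mem_centralizer_singleton
    have h2 := (mk'_eq_one_iff V).mpr h
    rw [map_mul, map_mul, map_mul, map_inv, map_inv] at h2
    have h3 : (QuotientGroup.mk' V c) * (QuotientGroup.mk' V x)
        = ((QuotientGroup.mk' V c) * (QuotientGroup.mk' V x) * (QuotientGroup.mk' V c)⁻¹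
          * (QuotientGroup.mk' V x)⁻¹) * ((QuotientGroup.mk' V x) * (QuotientGroup.mk' V c)) := by
      group
    rw [h2, one_mul] at h3
    exact h3.symm

/-- If `a` has order coprime to the normal subgroup `V` and centralizes `x` modulo `V`, then
`a` centralizes an element of the coset `V x`. -/
theorem fixed_of_comm_mem {G : Type u} [Group G] [Finite G] (V : Subgroup G) [V.Normal]
    (a x : G) (hcop : (orderOf a).Coprime (Nat.card V)) (h : a * x * a⁻¹ * x⁻¹ ∈ V) :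
    ∃ n ∈ V, a * (n * x) = (n * x) * a := by
  obtain ⟨C, hC⟩ := exists_comm_subgroup V x
  have hzC : Subgroup.zpowers a ≤ C := by rw [Subgroup.zpowers_le]; exact (hC a).mpr h
  have hfix : ∀ a' ∈ Subgroup.zpowers a, a' * x * a'⁻¹ * x⁻¹ ∈ V :=
    fun a' ha' => (hC a').mp (hzC ha')
  have hcopcard : (Nat.card (Subgroup.zpowers a)).Coprime (Nat.card V) := by
    rw [Nat.card_zpowers]; exact hcop
  obtain ⟨n, hn, hny⟩ := Cfsg.Agent.Lib_helper1_Coprime.fixed_in_coset (Subgroup.zpowers a) V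
    (le_normalizer_of_normal V _) hcopcard (Or.inl (isSolvable_zpowers a)) x hfix
  exact ⟨n, hn, Subgroup.mem_centralizer_iff.mp hny a (Subgroup.mem_zpowers a)⟩

/-- A nilpotent subgroup whose Sylow subgroups are cyclic or generalized quaternion is cyclic
or the central product of a cyclic group of odd order and a generalized quaternion group. -/
theorem nilpotent_cyc_or_quat {G : Type*} [Group G] [Finite G] (E : Subgroup G)
    (hE : Group.IsNilpotent E)
    (hS : ∀ (r : ℕ) [Fact r.Prime] (S : Sylow r E),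
      IsCyclic S ∨ ∃ n : ℕ, Nonempty (S ≃* QuaternionGroup (2 ^ n))) :
    IsCyclic E ∨ ∃ C Q : Subgroup G, C ⊔ Q = E ∧ (∀ a ∈ C, ∀ b ∈ Q, a * b = b * a) ∧ IsCyclic C ∧
      Odd (Nat.card C) ∧ ∃ n : ℕ, Nonempty (↥Q ≃* QuaternionGroup (2 ^ n)) := by
  haveI := hE
  by_cases hall : ∀ (r : ℕ) [Fact r.Prime] (S : Sylow r E), IsCyclic S
  · left
    haveI : IsZGroup E := ⟨fun r hr S => by haveI : Fact r.Prime := ⟨hr⟩; exact hall r S⟩
    infer_instance
  · right
    push Not at hall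
    obtain ⟨r, hr, S, hSnc⟩ := hall
    haveI := hr
    obtain ⟨n, ⟨e⟩⟩ := (hS r S).resolve_left hSnc
    have hquat : ∀ (q : ℕ) [hq : Fact q.Prime] (T : Sylow q E) (m : ℕ),
        (T ≃* QuaternionGroup (2 ^ m)) → q = 2 := by
      intro q hq T m e'
      have hcardT : Nat.card T = 4 * 2 ^ m := by
        rw [Nat.card_congr e'.toEquiv, Nat.card_eq_fintype_card, QuaternionGroup.card]
      obtain ⟨k, hk⟩ := IsPGroup.iff_card.mp T.isPGroup'
      have h2 : 2 ∣ q ^ k := by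
        have : Nat.card T = q ^ k := hk
        rw [← this, hcardT]; exact ⟨2 * 2 ^ m, by ring⟩
      exact ((Nat.prime_dvd_prime_iff_eq Nat.prime_two hq.out).mp
        (Nat.prime_two.dvd_of_dvd_pow h2)).symm
    have hr2 : r = 2 := hquat r S n e
    subst hr2
    have hSn : (S : Subgroup E).Normal := inferInstance
    have hcop : (Nat.card (S : Subgroup E)).Coprime (S : Subgroup E).index := S.card_coprime_index
    obtain ⟨C₀, hC₀⟩ := Subgroup.exists_left_complement'_of_coprime hcop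
    have hC₀card : Nat.card C₀ = (S : Subgroup E).index := hC₀.index_eq_card.symm
    have hC₀odd : ¬ 2 ∣ Nat.card C₀ := by rw [hC₀card]; exact S.not_dvd_index
    have hC₀cop : ∀ j : ℕ, (Nat.card C₀).Coprime (2 ^ j) := fun j =>
      Nat.Coprime.pow_right j ((Nat.Prime.coprime_iff_not_dvd Nat.prime_two).mpr hC₀odd).symm
    have hC₀Z : IsZGroup C₀ := by
      refine ⟨fun q hq' T => ?_⟩
      haveI hq : Fact q.Prime := ⟨hq'⟩
      by_cases hq2 : q = 2
      · subst hq2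
        obtain ⟨j, hj⟩ := IsPGroup.iff_card.mp T.isPGroup'
        have hj' : Nat.card (T : Subgroup C₀) = 2 ^ j := hj
        have h1 : Nat.card (T : Subgroup C₀) ∣ Nat.card C₀ := Subgroup.card_subgroup_dvd_card _
        have h2 : Nat.card (T : Subgroup C₀) = 1 := by
          apply eq_one_of_dvd_of_coprime h1
          rw [hj']; exact (hC₀cop j).symm
        haveI : Subsingleton (T : Subgroup C₀) := (Nat.card_eq_one_iff_unique.mp h2).1
        exact isCyclic_of_subsingleton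
      · have hT' : IsPGroup q ((T : Subgroup C₀).map C₀.subtype) := T.isPGroup'.map _
        obtain ⟨S', hS'⟩ := hT'.exists_le_sylow
        have hS'cyc : IsCyclic S' := by
          rcases hS q S' with h | ⟨m, ⟨e'⟩⟩
          · exact h
          · exact absurd (hquat q S' m e') hq2
        haveI := hS'cyc
        exact isCyclic_of_injective
          ((Subgroup.inclusion hS').comp
            ((T : Subgroup C₀).equivMapOfInjective C₀.subtype C₀.subtype_injective).toMonoidHom)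
          ((Subgroup.inclusion_injective hS').comp (MulEquiv.injective _))
    haveI := hC₀Z
    have hC₀cyc : IsCyclic C₀ := inferInstance
    refine ⟨C₀.map E.subtype, (S : Subgroup E).map E.subtype, ?_, ?_, ?_, ?_, n, ⟨?_⟩⟩
    · rw [← Subgroup.map_sup, hC₀.sup_eq_top, ← MonoidHom.range_eq_map, Subgroup.range_subtype]
    · rintro a ⟨a₀, ha₀, rfl⟩ b ⟨b₀, hb₀, rfl⟩
      have hcop' : (orderOf a₀).Coprime (orderOf b₀) := by
        obtain ⟨j, hj⟩ := IsPGroup.iff_card.mp S.isPGroup'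
        have hj' : Nat.card (S : Subgroup E) = 2 ^ j := hj
        have h1 : orderOf a₀ ∣ Nat.card C₀ := Subgroup.orderOf_dvd_natCard C₀ ha₀
        have h2 : orderOf b₀ ∣ 2 ^ j := by
          rw [← hj']; exact Subgroup.orderOf_dvd_natCard _ hb₀
        exact Nat.Coprime.coprime_dvd_left h1 (Nat.Coprime.coprime_dvd_right h2 (hC₀cop j))
      have := nilpotent_coprime_comm E a₀ b₀ hcop'
      exact congrArg (fun w : E => (w : G)) this
    · haveI := hC₀cyc
      exact isCyclic_of_surjective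
        (C₀.equivMapOfInjective E.subtype E.subtype_injective).toMonoidHom
        (MulEquiv.surjective _)
    · rw [Subgroup.card_map_of_injective E.subtype_injective]
      exact Nat.odd_iff.mpr (by omega)
    · exact ((S : Subgroup E).equivMapOfInjective E.subtype E.subtype_injective).symm.trans e

/-- A solvable CN-group with `O_p(G) ≠ 1` and non-normal Sylow `p`-subgroup is a three-step
group. -/
theorem cn_three_step {G : Type u} [Group G] [Finite G] [Group.IsSolvable G]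
    (hCN : ∀ g : G, g ≠ 1 → Group.IsNilpotent (Subgroup.centralizer ({g} : Set G)))
    (p : ℕ) [hp : Fact p.Prime] (hV1 : Cfsg.pCore p G ≠ ⊥) (P : Sylow p G)
    (hPn : ¬ (P : Subgroup G).Normal) : Cfsg.IsThreeStepGroup p G := by
  obtain ⟨V, hVdef⟩ : ∃ V : Subgroup G, V = Cfsg.pCore p G := ⟨_, rfl⟩
  have hVn : V.Normal := by rw [hVdef]; infer_instance
  haveI := hVn
  have hVp : IsPGroup p V := by rw [hVdef]; exact Cfsg.Agent.Lib_helper6_PCore.pCore_isPGroup p
  have hVP : V ≤ (P : Subgroup G) := by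
    rw [hVdef]; exact Cfsg.Agent.Lib_helper6_PCore.pCore_le_sylow P
  have hV1' : V ≠ ⊥ := by rw [hVdef]; exact hV1
  have hVpow : ∀ v ∈ V, ∃ j : ℕ, v ^ (p ^ j) = 1 := by
    intro v hv
    obtain ⟨j, hj⟩ := hVp ⟨v, hv⟩
    exact ⟨j, congrArg (fun w : V => (w : G)) hj⟩
  have hPpow : ∀ x ∈ (P : Subgroup G), ∃ j : ℕ, x ^ (p ^ j) = 1 := by
    intro x hx
    obtain ⟨j, hj⟩ := P.isPGroup' ⟨x, hx⟩
    exact ⟨j, congrArg (fun w : (P : Subgroup G) => (w : G)) hj⟩
  obtain ⟨eV, heV⟩ := IsPGroup.iff_card.mp hVp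
  obtain ⟨eP, hePcard⟩ := IsPGroup.iff_card.mp P.isPGroup'
  have hePcard' : Nat.card (P : Subgroup G) = p ^ eP := hePcard
  have hcopV : ∀ a : G, (orderOf a).Coprime p → (orderOf a).Coprime (Nat.card V) := by
    intro a ha
    rw [heV]; exact Nat.Coprime.pow_right eV ha
  -- Step A: the centralizer of a central element of `P` in `V` is a `p`-group
  obtain ⟨z, hzV, hz1, hzc⟩ := exists_central_in_normal p V hV1' (P : Subgroup G) P.isPGroup' hVP
  obtain ⟨M, hMnil, hCM, hMmax⟩ := exists_max_subgroup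
    (fun R : Subgroup G => Group.IsNilpotent R) (Subgroup.centralizer ({z} : Set G)) (hCN z hz1)
  have hPM : (P : Subgroup G) ≤ M := fun d hd => hCM (mem_centralizer_singleton (hzc d hd).symm)
  have hzM : z ∈ M := hPM (hVP hzV)
  have hMp : IsPGroup p M := by
    by_contra hMp
    have hnpp : ¬ IsPrimePow (Nat.card M) := by
      intro hpp
      apply hMp
      rw [isPrimePow_nat_iff] at hpp
      obtain ⟨r, j, hr, hj0, hrj⟩ := hpp
      have h1 : orderOf z ∣ r ^ j := by rw [hrj]; exact Subgroup.orderOf_dvd_natCard M hzM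
      obtain ⟨i, hi⟩ := hVpow z hzV
      have h2 : orderOf z ∣ p ^ i := orderOf_dvd_of_pow_eq_one hi
      have h3 : orderOf z ≠ 1 := fun h => hz1 (orderOf_eq_one_iff.mp h)
      obtain ⟨s, hs, hsu⟩ := Nat.exists_prime_and_dvd h3
      have hsp : s = p :=
        (Nat.prime_dvd_prime_iff_eq hs hp.out).mp (hs.dvd_of_dvd_pow (hsu.trans h2))
      have hsr : s = r := (Nat.prime_dvd_prime_iff_eq hs hr).mp (hs.dvd_of_dvd_pow (hsu.trans h1))
      rw [← hsp, hsr]
      exact IsPGroup.of_card hrj.symm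
    have hMnorm : ∀ g : G, ∀ m ∈ M, g * m * g⁻¹ ∈ M := by
      intro g m hm
      have hz' : z ∈ M.map (MulAut.conj g).toMonoidHom := by
        refine ⟨g⁻¹ * z * g, hPM (hVP ?_), ?_⟩
        · have := hVn.conj_mem z hzV g⁻¹
          rwa [inv_inv] at this
        · show g * (g⁻¹ * z * g) * g⁻¹ = z
          group
      have heq := cn_conj_eq hCN M hMnil hMmax hnpp g hzM hz' hz1
      have : g * m * g⁻¹ ∈ M.map (MulAut.conj g).toMonoidHom := ⟨m, hm, rfl⟩
      rwa [heq] at this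
    apply hPn
    refine ⟨fun x hx g => ?_⟩
    apply mem_sylow_of_nilpotent M hMnil p P hPM (hMnorm g x (hPM hx))
    obtain ⟨j, hj⟩ := hPpow x hx
    refine ⟨j, ?_⟩
    rw [conj_pow, hj, mul_one, mul_inv_cancel]
  have hCzp : ∀ c : G, z * c = c * z → ∃ j : ℕ, c ^ (p ^ j) = 1 := by
    intro c hc
    obtain ⟨j, hj⟩ := hMp ⟨c, hCM (mem_centralizer_singleton hc)⟩
    exact ⟨j, congrArg (fun w : M => (w : G)) hj⟩
  -- Step B: `C_G(V) ≤ V`
  have hCV : ∀ g : G, (∀ v ∈ V, v * g = g * v) → g ∈ V := by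
    intro g hg
    have hle : Subgroup.centralizer (V : Set G) ≤ Cfsg.pCore p G := by
      apply Cfsg.Agent.Lib_helper6_PCore.le_pCore
      · infer_instance
      · rintro ⟨c, hc⟩
        obtain ⟨j, hj⟩ := hCzp c (Subgroup.mem_centralizer_iff.mp hc z hzV)
        exact ⟨j, Subtype.ext hj⟩
    rw [hVdef]
    exact hle (Subgroup.mem_centralizer_iff.mpr hg)
  -- Step C: `p'`-elements act fixed-point-freely on `V`
  have hfpf : ∀ b : G, (orderOf b).Coprime p → b ≠ 1 → ∀ v ∈ V, b * v = v * b → v = 1 := by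
    intro b hbp hb1 v hv hbv
    by_contra hv1
    have hCv := hCN v hv1
    have hbC : b ∈ Subgroup.centralizer ({v} : Set G) := mem_centralizer_singleton hbv.symm
    have hzC : z ∈ Subgroup.centralizer ({v} : Set G) :=
      mem_centralizer_singleton (hzc v (hVP hv))
    obtain ⟨j, hj⟩ := hVpow z hzV
    have hcop : (orderOf b).Coprime (orderOf z) :=
      Nat.Coprime.coprime_dvd_right (orderOf_dvd_of_pow_eq_one hj) (Nat.Coprime.pow_right j hbp)
    have hbz := nilpotent_coprime_comm' _ hCv hbC hzC hcop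
    obtain ⟨i, hi⟩ := hCzp b hbz.symm
    exact hb1 (orderOf_eq_one_iff.mp
      (eq_one_of_dvd_of_coprime (orderOf_dvd_of_pow_eq_one hi) (Nat.Coprime.pow_right i hbp)))
  -- Step D: a normal subgroup `N₁ = V R₁` with `R₁` an `r`-group, `r ≠ p`
  have hVtop : V ≠ ⊤ := by
    intro h
    apply hPn
    have h1 : (P : Subgroup G) = ⊤ := top_le_iff.mp (h ▸ hVP)
    rw [h1]; infer_instance
  haveI : Nontrivial (G ⧸ V) := QuotientGroup.nontrivial_iff.mpr hVtop
  obtain ⟨Mb, hMbn, hMb1, -, -, r, k, hr, hk, hMbcard⟩ :=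
    Cfsg.Agent.Lib_helper1_Hall.exists_minimal_normal (G := G ⧸ V)
  haveI : Fact r.Prime := ⟨hr⟩
  obtain ⟨N₁, hN₁def⟩ : ∃ N₁ : Subgroup G, N₁ = Mb.comap (QuotientGroup.mk' V) := ⟨_, rfl⟩
  have hN₁n : N₁.Normal := by rw [hN₁def]; exact hMbn.comap _
  have hVN₁ : V ≤ N₁ := by
    rw [hN₁def]; exact Cfsg.Agent.Lib_helper1_Hall.le_comap_mk'_of_le V Mb
  have hN₁card : Nat.card N₁ = Nat.card V * r ^ k := by
    rw [hN₁def, Cfsg.Agent.Lib_helper1_Hall.card_comap_mk', hMbcard]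
  have hrk1 : r ^ k ≠ 1 := by
    intro h
    rcases (Nat.pow_eq_one).mp h with h | h
    · exact hr.ne_one h
    · exact hk h
  have hrp : r ≠ p := by
    intro hrp
    have hN₁p : IsPGroup p N₁ := by
      apply IsPGroup.of_card (n := eV + k)
      rw [hN₁card, heV, hrp, pow_add]
    have hle : N₁ ≤ V := by rw [hVdef]; exact Cfsg.Agent.Lib_helper6_PCore.le_pCore hN₁n hN₁p
    have heq : N₁ = V := le_antisymm hle hVN₁
    have h1 : Nat.card V * r ^ k = Nat.card V * 1 := by rw [← hN₁card, heq, mul_one]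
    exact hrk1 (Nat.eq_of_mul_eq_mul_left Nat.card_pos h1)
  have hrpcop : ∀ i j : ℕ, (r ^ i).Coprime (p ^ j) := fun i j =>
    Nat.Coprime.pow _ _ ((Nat.coprime_primes hr hp.out).mpr hrp)
  obtain ⟨K₁, hK₁⟩ := Sylow.exists_subgroup_card_pow_prime (G := N₁) r
    (show r ^ k ∣ Nat.card N₁ by rw [hN₁card]; exact dvd_mul_left _ _)
  obtain ⟨R₁, hR₁def⟩ : ∃ R₁ : Subgroup G, R₁ = K₁.map N₁.subtype := ⟨_, rfl⟩
  have hR₁card : Nat.card R₁ = r ^ k := by
    rw [hR₁def, Subgroup.card_map_of_injective N₁.subtype_injective, hK₁]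
  have hR₁N₁ : R₁ ≤ N₁ := by rw [hR₁def]; exact Subgroup.map_subtype_le _
  have hN₁eq : N₁ = V ⊔ R₁ := by
    symm
    apply Subgroup.eq_of_le_of_card_ge (sup_le hVN₁ hR₁N₁)
    rw [hN₁card]
    apply Nat.le_of_dvd Nat.card_pos
    apply Nat.Coprime.mul_dvd_of_dvd_of_dvd
    · rw [heV]; exact (hrpcop k eV).symm
    · exact Subgroup.card_dvd_of_le le_sup_left
    · rw [← hR₁card]; exact Subgroup.card_dvd_of_le le_sup_right
  obtain ⟨a₁, ha₁, ha₁1⟩ : ∃ a₁ ∈ R₁, a₁ ≠ 1 := by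
    by_contra hcon
    push Not at hcon
    have h1 : R₁ = ⊥ := (Subgroup.eq_bot_iff_forall _).mpr hcon
    rw [h1, Subgroup.card_bot] at hR₁card
    exact hrk1 hR₁card.symm
  -- Step E: a Hall `p'`-subgroup `L` containing `R₁`
  have hcardG : Nat.card G = (P : Subgroup G).index * Nat.card (P : Subgroup G) := by
    rw [mul_comm]; exact (Subgroup.card_mul_index _).symm
  have hcopP : ((P : Subgroup G).index).Coprime (Nat.card (P : Subgroup G)) :=
    P.card_coprime_index.symm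
  have hR₁cop : (Nat.card R₁).Coprime (Nat.card (P : Subgroup G)) := by
    rw [hR₁card, hePcard']
    exact hrpcop k eP
  obtain ⟨L, hLcard, hR₁L⟩ :=
    Cfsg.Agent.Lib_helper1_Hall.hall_dominance _ _ hcardG hcopP R₁ hR₁cop
  have hLp : (Nat.card L).Coprime p := by
    rw [hLcard]
    exact (Nat.Coprime.symm ((Nat.Prime.coprime_iff_not_dvd hp.out).mpr P.not_dvd_index))
  have hLord : ∀ a ∈ L, (orderOf a).Coprime p := fun a ha =>
    Nat.Coprime.coprime_dvd_left (Subgroup.orderOf_dvd_natCard L ha) hLp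
  have hLfpf : ∀ e ∈ L, e ≠ 1 → ∀ x ∈ V, e * x = x * e → x = 1 := fun e he he1 x hx hex =>
    hfpf e (hLord e he) he1 x hx hex
  have hLnil : Group.IsNilpotent L :=
    fpf_cn_nilpotent hCN p V hVp hV1' (Nat.card L) L le_rfl hLp hLfpf
  have hVL : ∀ x ∈ V, x ∈ L → x = 1 := by
    intro x hxV hxL
    obtain ⟨j, hj⟩ := hVpow x hxV
    exact orderOf_eq_one_iff.mp (eq_one_of_dvd_of_coprime (orderOf_dvd_of_pow_eq_one hj)
      (Nat.Coprime.pow_right j (hLord x hxL)))
  -- Step F: centralizers of central elements of `L`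
  have hcentL : ∀ a ∈ L, a ≠ 1 → (∀ l ∈ L, l * a = a * l) →
      Subgroup.centralizer ({a} : Set G) ≤ L := by
    intro a haL ha1 hac
    obtain ⟨M', hM'nil, hCM', hM'max⟩ := exists_max_subgroup
      (fun R : Subgroup G => Group.IsNilpotent R) (Subgroup.centralizer ({a} : Set G)) (hCN a ha1)
    have hLM' : L ≤ M' := fun l hl => hCM' (mem_centralizer_singleton (hac l hl).symm)
    have hpM' : ¬ p ∣ Nat.card M' := by
      intro hpM'
      obtain ⟨S, hSM', -⟩ := cn_sylow hCN M' hM'nil hM'max p hpM'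
      have hVM' : V ≤ M' := by
        rw [hVdef]; exact (Cfsg.Agent.Lib_helper6_PCore.pCore_le_sylow S).trans hSM'
      obtain ⟨v, hv, hv1⟩ : ∃ v ∈ V, v ≠ 1 := by
        by_contra hcon
        push Not at hcon
        exact hV1' ((Subgroup.eq_bot_iff_forall _).mpr hcon)
      obtain ⟨j, hj⟩ := hVpow v hv
      have hcop : (orderOf a).Coprime (orderOf v) :=
        Nat.Coprime.coprime_dvd_right (orderOf_dvd_of_pow_eq_one hj)
          (Nat.Coprime.pow_right j (hLord a haL))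
      have hav := nilpotent_coprime_comm' M' hM'nil (hLM' haL) (hVM' hv) hcop
      exact hv1 (hfpf a (hLord a haL) ha1 v hv hav)
    have hM'dvd : Nat.card M' ∣ Nat.card L := by
      have h1 : Nat.card M' ∣ (P : Subgroup G).index * Nat.card (P : Subgroup G) := by
        rw [← hcardG]; exact Subgroup.card_subgroup_dvd_card M'
      have h2 : (Nat.card M').Coprime (Nat.card (P : Subgroup G)) := by
        rw [hePcard']
        exact Nat.Coprime.pow_right _ ((Nat.Prime.coprime_iff_not_dvd hp.out).mpr hpM').symm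
      rw [hLcard]
      exact h2.dvd_of_dvd_mul_right h1
    have hM'L : L = M' :=
      Subgroup.eq_of_le_of_card_ge hLM' (Nat.le_of_dvd Nat.card_pos hM'dvd)
    rw [hM'L]; exact hCM'
  -- Step G: `|V L| = |V| |L|` and `V L ≠ G`
  have hVLcard : Nat.card (V ⊔ L : Subgroup G) = Nat.card V * Nat.card L := by
    have hcopVL : (Nat.card V).Coprime (Nat.card L) := by
      rw [heV]; exact Nat.Coprime.pow_left _ hLp.symm
    apply Nat.dvd_antisymm
    · have := Cfsg.Agent.Lib_helper7_PPrime.card_sup_dvd L V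
      rwa [sup_comm, mul_comm] at this
    · exact Nat.Coprime.mul_dvd_of_dvd_of_dvd hcopVL (Subgroup.card_dvd_of_le le_sup_left)
        (Subgroup.card_dvd_of_le le_sup_right)
  have hPcardV : Nat.card V ≠ Nat.card (P : Subgroup G) := by
    intro h
    apply hPn
    have h1 : V = (P : Subgroup G) := Subgroup.eq_of_le_of_card_ge hVP h.ge
    rw [← h1]; exact hVn
  have hidx : (V ⊔ L : Subgroup G).index * Nat.card V = Nat.card (P : Subgroup G) := by
    have h1 := Subgroup.card_mul_index (V ⊔ L : Subgroup G)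
    rw [hVLcard, hcardG, hLcard] at h1
    have hpos : 0 < (P : Subgroup G).index := Nat.pos_of_ne_zero Subgroup.index_ne_zero_of_finite
    apply Nat.eq_of_mul_eq_mul_left hpos
    rw [← h1]; ring
  have hVLtop : V ⊔ L ≠ ⊤ := by
    intro h
    rw [h, Subgroup.index_top, one_mul] at hidx
    exact hPcardV hidx
  -- Step H: `|L|` is odd
  have hLodd : ¬ 2 ∣ Nat.card L := by
    intro h2
    haveI : Fact (Nat.Prime 2) := ⟨Nat.prime_two⟩
    obtain ⟨t₀, ht₀⟩ := exists_prime_orderOf_dvd_card' (G := L) 2 h2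
    obtain ⟨t, htL, hto⟩ : ∃ t ∈ L, orderOf t = 2 :=
      ⟨t₀, t₀.2, by rw [← ht₀]; exact (Subgroup.orderOf_coe t₀)⟩
    have ht1 : t ≠ 1 := by
      intro h; rw [h, orderOf_one] at hto; omega
    have htt : t * t = 1 := by
      rw [← pow_two, ← hto]; exact pow_orderOf_eq_one t
    have hinv : ∀ g : G, ∀ v ∈ V, (g * t * g⁻¹) * v * (g * t * g⁻¹)⁻¹ = v⁻¹ := by
      intro g
      apply inv_of_fpf_invol V (g * t * g⁻¹)
      · have e : g * t * g⁻¹ * (g * t * g⁻¹) = g * (t * t) * g⁻¹ := by group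
        rw [e, htt, mul_one, mul_inv_cancel]
      · intro v hv hcomm
        have h1 : t * (g⁻¹ * v * g) = (g⁻¹ * v * g) * t := by
          have e1 : t * (g⁻¹ * v * g) = g⁻¹ * (g * t * g⁻¹ * v) * g := by group
          have e2 : (g⁻¹ * v * g) * t = g⁻¹ * (v * (g * t * g⁻¹)) * g := by group
          rw [e1, e2, hcomm]
        have hmem : g⁻¹ * v * g ∈ V := by
          have := hVn.conj_mem v hv g⁻¹
          rwa [inv_inv] at this
        have h2 := hfpf t (hLord t htL) ht1 _ hmem h1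
        have e3 : v = g * (g⁻¹ * v * g) * g⁻¹ := by group
        rw [e3, h2, mul_one, mul_inv_cancel]
    have hinvt : ∀ v ∈ V, t * v * t⁻¹ = v⁻¹ := by
      intro v hv
      have := hinv 1 v hv
      simpa using this
    have htg : ∀ g : G, t * g * t⁻¹ * g⁻¹ ∈ V := by
      intro g
      apply hCV
      intro v hv
      have h3 := hinvt v⁻¹ (V.inv_mem hv)
      rw [inv_inv] at h3
      have hmem : (g * t * g⁻¹)⁻¹ * v * (g * t * g⁻¹) ∈ V := by
        have := hVn.conj_mem v hv (g * t * g⁻¹)⁻¹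
        rwa [inv_inv] at this
      have h4 := hinv g _ hmem
      have e4 : (g * t * g⁻¹) * ((g * t * g⁻¹)⁻¹ * v * (g * t * g⁻¹)) * (g * t * g⁻¹)⁻¹ = v := by
        group
      rw [e4] at h4
      have h5 : (g * t * g⁻¹)⁻¹ * v * (g * t * g⁻¹) = v⁻¹ := by
        calc (g * t * g⁻¹)⁻¹ * v * (g * t * g⁻¹)
            = (((g * t * g⁻¹)⁻¹ * v * (g * t * g⁻¹))⁻¹)⁻¹ := (inv_inv _).symm
          _ = v⁻¹ := by rw [← h4]
      calc v * (t * g * t⁻¹ * g⁻¹) = (t * v⁻¹ * t⁻¹) * (t * g * t⁻¹ * g⁻¹) := by rw [h3]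
        _ = t * v⁻¹ * (g * t * g⁻¹)⁻¹ := by group
        _ = t * ((g * t * g⁻¹)⁻¹ * v * (g * t * g⁻¹)) * (g * t * g⁻¹)⁻¹ := by rw [h5]
        _ = (t * g * t⁻¹ * g⁻¹) * v := by group
    have htcL : ∀ l ∈ L, l * t = t * l := by
      intro l hl
      have h1 := htg l
      have h2 : t * l * t⁻¹ * l⁻¹ ∈ L :=
        L.mul_mem (L.mul_mem (L.mul_mem htL hl) (L.inv_mem htL)) (L.inv_mem hl)
      have h3 := hVL _ h1 h2
      have e : t * l = (t * l * t⁻¹ * l⁻¹) * (l * t) := by group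
      rw [h3, one_mul] at e
      exact e.symm
    have hCtL := hcentL t htL ht1 htcL
    apply hVLtop
    rw [eq_top_iff]
    intro g _
    obtain ⟨n, hn, hng⟩ := fixed_of_comm_mem V t g (hcopV t (hLord t htL)) (htg g)
    have hngL : n * g ∈ L := hCtL (mem_centralizer_singleton hng)
    have e : g = n⁻¹ * (n * g) := by group
    rw [e]
    exact Subgroup.mul_mem _ ((le_sup_left : V ≤ V ⊔ L) (V.inv_mem hn))
      ((le_sup_right : L ≤ V ⊔ L) hngL)
  -- Step I: `L` is cyclic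
  obtain ⟨A₁, hA₁def⟩ : ∃ A₁ : Subgroup G, A₁ = V ⊓ Subgroup.centralizer (V : Set G) := ⟨_, rfl⟩
  have hA₁ab : ∀ a ∈ A₁, ∀ b ∈ A₁, a * b = b * a := by
    intro a ha b hb
    rw [hA₁def] at ha hb
    exact Subgroup.mem_centralizer_iff.mp hb.2 a ha.1
  have hA₁1 : A₁ ≠ ⊥ := by
    obtain ⟨u, huV, hu1, huc⟩ := exists_central_in_normal p V hV1' V hVp le_rfl
    intro h
    apply hu1
    have hu : u ∈ A₁ := by
      rw [hA₁def]
      exact ⟨huV, Subgroup.mem_centralizer_iff.mpr (fun d hd => huc d hd)⟩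
    rw [h] at hu
    exact Subgroup.mem_bot.mp hu
  have hA₁n : A₁.Normal := by rw [hA₁def]; infer_instance
  have hLA₁ : L ≤ Subgroup.normalizer (A₁ : Set G) := le_normalizer_of_normal A₁ L
  have hA₁fpf : ∀ e ∈ L, e ≠ 1 → ∀ v ∈ A₁, e * v = v * e → v = 1 := by
    intro e he he1 v hv hev
    rw [hA₁def] at hv
    exact hLfpf e he he1 v hv.1 hev
  have hLcyc : IsCyclic L := by
    haveI := hLnil
    haveI : IsZGroup L := by
      refine ⟨fun q hq' S => ?_⟩
      haveI hq : Fact q.Prime := ⟨hq'⟩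
      rcases fpf_sylow A₁ L hLA₁ hA₁ab hA₁1 hA₁fpf q S with h | ⟨hq2, n, ⟨e⟩⟩
      · exact h
      · exfalso
        apply hLodd
        have hcardS : Nat.card S = 4 * 2 ^ n := by
          rw [Nat.card_congr e.toEquiv, Nat.card_eq_fintype_card, QuaternionGroup.card]
        have h1 : Nat.card (S : Subgroup L) ∣ Nat.card L := Subgroup.card_subgroup_dvd_card _
        have h1' : Nat.card S ∣ Nat.card L := h1
        rw [hcardS] at h1'
        exact Dvd.dvd.trans ⟨2 * 2 ^ n, by ring⟩ h1'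
    infer_instance
  have hLcomm : ∀ a ∈ L, ∀ b ∈ L, a * b = b * a := fun a ha b hb => cyclic_comm' L ha hb
  have hCL : ∀ a ∈ L, a ≠ 1 → Subgroup.centralizer ({a} : Set G) ≤ L := fun a ha ha1 =>
    hcentL a ha ha1 (fun l hl => hLcomm l hl a ha)
  -- Step J: `V L` is normal
  have hstar : ∀ g : G, ∀ ℓ ∈ L, ∃ n ∈ V, ∃ l' ∈ L, ℓ = n * (g * l' * g⁻¹) := by
    intro g ℓ hℓ
    have h1 : g * a₁ * g⁻¹ ∈ (↑(V ⊔ R₁) : Set G) := by
      rw [← hN₁eq]; exact hN₁n.conj_mem a₁ (hR₁N₁ ha₁) g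
    rw [Subgroup.normal_mul] at h1
    obtain ⟨v, hv, b, hb, hvb⟩ := Set.mem_mul.mp h1
    have hbl : b * ℓ = ℓ * b := hLcomm b (hR₁L hb) ℓ hℓ
    have hcomm : (g * a₁ * g⁻¹) * ℓ * (g * a₁ * g⁻¹)⁻¹ * ℓ⁻¹ ∈ V := by
      rw [← hvb]
      have e1 : (v * b) * ℓ * (v * b)⁻¹ * ℓ⁻¹ = v * (b * ℓ) * b⁻¹ * v⁻¹ * ℓ⁻¹ := by group
      have e2 : v * (ℓ * b) * b⁻¹ * v⁻¹ * ℓ⁻¹ = v * (ℓ * v⁻¹ * ℓ⁻¹) := by group
      rw [e1, hbl, e2]
      exact V.mul_mem hv (hVn.conj_mem _ (V.inv_mem hv) ℓ)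
    have hord : (orderOf (g * a₁ * g⁻¹)).Coprime p := by
      have hdvd : orderOf (g * a₁ * g⁻¹) ∣ orderOf a₁ := by
        apply orderOf_dvd_of_pow_eq_one
        rw [conj_pow, pow_orderOf_eq_one, mul_one, mul_inv_cancel]
      exact Nat.Coprime.coprime_dvd_left hdvd (hLord a₁ (hR₁L ha₁))
    obtain ⟨n, hn, hnℓ⟩ := fixed_of_comm_mem V (g * a₁ * g⁻¹) ℓ (hcopV _ hord) hcomm
    have hl' : g⁻¹ * (n * ℓ) * g ∈ L := by
      apply hCL a₁ (hR₁L ha₁) ha₁1
      apply mem_centralizer_singleton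
      have e1 : a₁ * (g⁻¹ * (n * ℓ) * g) = g⁻¹ * ((g * a₁ * g⁻¹) * (n * ℓ)) * g := by group
      have e2 : g⁻¹ * (n * ℓ) * g * a₁ = g⁻¹ * ((n * ℓ) * (g * a₁ * g⁻¹)) * g := by group
      rw [e1, e2, hnℓ]
    refine ⟨n⁻¹, V.inv_mem hn, _, hl', ?_⟩
    group
  have hVLn : (V ⊔ L).Normal := by
    refine ⟨fun h hh g => ?_⟩
    have hle : V ⊔ L ≤ (V ⊔ L).comap (MulAut.conj g).toMonoidHom := by
      apply sup_le
      · intro v hv
        rw [Subgroup.mem_comap]
        exact (le_sup_left : V ≤ V ⊔ L) (hVn.conj_mem v hv g)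
      · intro ℓ hℓ
        rw [Subgroup.mem_comap]
        obtain ⟨n, hn, l', hl', hℓeq⟩ := hstar g⁻¹ ℓ hℓ
        show g * ℓ * g⁻¹ ∈ V ⊔ L
        have e : g * ℓ * g⁻¹ = (g * n * g⁻¹) * l' := by rw [hℓeq]; group
        rw [e]
        exact Subgroup.mul_mem _ ((le_sup_left : V ≤ V ⊔ L) (hVn.conj_mem n hn g))
          ((le_sup_right : L ≤ V ⊔ L) hl')
    exact hle hh
  -- assembling
  have hL1 : L ≠ ⊥ := by
    intro h
    rw [h] at hR₁L
    exact ha₁1 (Subgroup.mem_bot.mp (hR₁L ha₁))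
  unfold Cfsg.IsThreeStepGroup
  rw [← hVdef]
  refine ⟨hV1', L, hL1, hLcyc, Nat.odd_iff.mpr (by omega), hLp, hVLn, hVLtop, ?_, ?_, ?_⟩
  · have hdvd : (V ⊔ L : Subgroup G).index ∣ p ^ eP := by
      rw [← hePcard', ← hidx]; exact dvd_mul_right _ _
    obtain ⟨j, -, hj⟩ := (Nat.dvd_prime_pow hp.out).mp hdvd
    exact ⟨j, hj⟩
  · intro a ha ha1
    rw [eq_bot_iff]
    rintro v ⟨hvV, hvC⟩
    rw [Subgroup.mem_bot]
    exact hLfpf a ha ha1 v hvV (Subgroup.mem_centralizer_iff.mp hvC a rfl)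
  · intro x hx a ha ha1 hxa
    apply hx
    have h1 : a * x * a⁻¹ * x⁻¹ ∈ V := by
      have e : a * x * a⁻¹ * x⁻¹ = (x * a * x⁻¹ * a⁻¹)⁻¹ := by group
      rw [e]; exact V.inv_mem hxa
    obtain ⟨n, hn, hnx⟩ := fixed_of_comm_mem V a x (hcopV a (hLord a ha)) h1
    have hnxL : n * x ∈ L := hCL a ha ha1 (mem_centralizer_singleton hnx)
    have e : x = n⁻¹ * (n * x) := by group
    rw [e]
    exact Subgroup.mul_mem _ ((le_sup_left : V ≤ V ⊔ L) (V.inv_mem hn))
      ((le_sup_right : L ≤ V ⊔ L) hnxL)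

end Cfsg.Agent.Lib_helper2_CN4
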