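import Mathlib
import Cfsg.Agent.Lib_helper2_CN
import Cfsg.Agent.Lib_helper2_CN2
import Cfsg.Agent.Lib_helper2_CN3

namespace Cfsg.Agent.Lib_helper2_CN5

open Cfsg.Agent.Lib_helper2_CN Cfsg.Agent.Lib_helper2_CN2 Cfsg.Agent.Lib_helper2_CN3
open Cfsg.Agent.Lib_helper2_Trans

universe u

open scoped Pointwise

/-- The centralizer of a conjugate is the conjugate of the centralizer. -/
theorem centralizer_conj {G : Type*} [Group G] (g z : G) :
    Subgroup.centralizer ({g * z * g⁻¹} : Set G)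
      = (Subgroup.centralizer ({z} : Set G)).map (MulAut.conj g).toMonoidHom := by
  ext y
  constructor
  · intro hy
    have h1 := Subgroup.mem_centralizer_iff.mp hy _ rfl
    refine ⟨g⁻¹ * y * g, mem_centralizer_singleton ?_, ?_⟩
    · have e1 : z * (g⁻¹ * y * g) = g⁻¹ * ((g * z * g⁻¹) * y) * g := by group
      have e2 : (g⁻¹ * y * g) * z = g⁻¹ * (y * (g * z * g⁻¹)) * g := by group
      rw [e1, e2, h1]
    · show g * (g⁻¹ * y * g) * g⁻¹ = y
      group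
  · rintro ⟨c, hc, rfl⟩
    have h1 := Subgroup.mem_centralizer_iff.mp hc _ rfl
    apply mem_centralizer_singleton
    show (g * z * g⁻¹) * (g * c * g⁻¹) = (g * c * g⁻¹) * (g * z * g⁻¹)
    have e1 : (g * z * g⁻¹) * (g * c * g⁻¹) = g * (z * c) * g⁻¹ := by group
    have e2 : (g * c * g⁻¹) * (g * z * g⁻¹) = g * (c * z) * g⁻¹ := by group
    rw [e1, e2, h1]

/-- A nontrivial element of prime-power order has order divisible by the prime. -/
theorem dvd_orderOf_of_pelt {G : Type*} [Group G] {q : ℕ} (hq : q.Prime) {y : G} (hy1 : y ≠ 1)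
    (hyq : IsPGroup q (Subgroup.zpowers y)) : (∃ k : ℕ, y ^ (q ^ k) = 1) ∧ q ∣ orderOf y := by
  obtain ⟨k, hk⟩ := hyq ⟨y, Subgroup.mem_zpowers y⟩
  have hk' : y ^ (q ^ k) = 1 := congrArg (fun w : Subgroup.zpowers y => (w : G)) hk
  refine ⟨⟨k, hk'⟩, ?_⟩
  obtain ⟨j, -, hj⟩ := (Nat.dvd_prime_pow hq).mp (orderOf_dvd_of_pow_eq_one hk')
  rw [hj]
  have hj0 : j ≠ 0 := by
    intro h
    rw [h, pow_zero] at hj
    exact hy1 (orderOf_eq_one_iff.mp hj)
  exact dvd_pow_self q hj0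

section CN

variable {G : Type*} [Group G] [Finite G]
  (hCN : ∀ g : G, g ≠ 1 → Group.IsNilpotent (Subgroup.centralizer ({g} : Set G)))

include hCN in
/-- A maximal nilpotent subgroup of a CN-group containing a Sylow `p`-subgroup `S` of the group
is the centralizer of any nontrivial central element of `S`. -/
theorem cn_eq_of_sylow (H : Subgroup G) (hH : Group.IsNilpotent H)
    (hmax : ∀ L : Subgroup G, Group.IsNilpotent L → H ≤ L → L = H) (p : ℕ) [hp : Fact p.Prime]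
    (S : Sylow p G) (hSH : (S : Subgroup G) ≤ H) {z : G} (hzS : z ∈ (S : Subgroup G))
    (hz1 : z ≠ 1) (hzc : ∀ s ∈ (S : Subgroup G), s * z = z * s) :
    Subgroup.centralizer ({z} : Set G) = H := by
  apply cn_cent_eq hCN H hmax hz1
  obtain ⟨k, hk⟩ := S.isPGroup' ⟨z, hzS⟩
  have hzp : ∃ k : ℕ, z ^ (p ^ k) = 1 :=
    ⟨k, congrArg (fun w : (S : Subgroup G) => (w : G)) hk⟩
  exact central_of_comm_pelts H hH p hp.out z (hSH hzS) hzp
    (fun a ha hap => hzc a (mem_sylow_of_nilpotent H hH p S hSH ha hap))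

include hCN in
/-- Two maximal nilpotent subgroups of a CN-group are conjugate or of coprime orders. -/
theorem cn_conj_or_coprime (H₁ H₂ : Subgroup G) (hH₁ : Group.IsNilpotent H₁)
    (hmax₁ : ∀ L : Subgroup G, Group.IsNilpotent L → H₁ ≤ L → L = H₁)
    (hH₂ : Group.IsNilpotent H₂)
    (hmax₂ : ∀ L : Subgroup G, Group.IsNilpotent L → H₂ ≤ L → L = H₂) :
    (∃ g : G, H₂ = H₁.map (MulAut.conj g).toMonoidHom) ∨
      (Nat.card H₁).Coprime (Nat.card H₂) := by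
  by_cases hcop : (Nat.card H₁).Coprime (Nat.card H₂)
  · exact Or.inr hcop
  left
  obtain ⟨p, hp, hp1, hp2⟩ := Nat.Prime.not_coprime_iff_dvd.mp hcop
  haveI : Fact p.Prime := ⟨hp⟩
  obtain ⟨S₁, hS₁, -⟩ := cn_sylow hCN H₁ hH₁ hmax₁ p hp1
  obtain ⟨S₂, hS₂, -⟩ := cn_sylow hCN H₂ hH₂ hmax₂ p hp2
  obtain ⟨g, hg⟩ := MulAction.exists_smul_eq G S₁ S₂
  have hpG : p ∣ Nat.card G := hp1.trans (Subgroup.card_subgroup_dvd_card H₁)
  obtain ⟨z, hzS, hz1, hzc⟩ := exists_central_of_pgroup (S₁ : Subgroup G) S₁.isPGroup'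
    (S₁.ne_bot_of_dvd_card hpG)
  have h1 := cn_eq_of_sylow hCN H₁ hH₁ hmax₁ p S₁ hS₁ hzS hz1 hzc
  have hS₂eq : (S₂ : Subgroup G) = MulAut.conj g • (S₁ : Subgroup G) := by
    rw [← hg, Sylow.coe_subgroup_smul]
  have hz'S : g * z * g⁻¹ ∈ (S₂ : Subgroup G) := by
    rw [hS₂eq]; exact ⟨z, hzS, rfl⟩
  have hz'1 : g * z * g⁻¹ ≠ 1 := by
    intro h
    apply hz1
    have e : z = g⁻¹ * (g * z * g⁻¹) * g := by group
    rw [e, h]; group
  have hz'c : ∀ s ∈ (S₂ : Subgroup G), s * (g * z * g⁻¹) = (g * z * g⁻¹) * s := by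
    intro s hs
    rw [hS₂eq] at hs
    obtain ⟨s₀, hs₀, rfl⟩ := hs
    have h2 := hzc s₀ hs₀
    show (g * s₀ * g⁻¹) * (g * z * g⁻¹) = (g * z * g⁻¹) * (g * s₀ * g⁻¹)
    have e1 : (g * s₀ * g⁻¹) * (g * z * g⁻¹) = g * (s₀ * z) * g⁻¹ := by group
    have e2 : (g * z * g⁻¹) * (g * s₀ * g⁻¹) = g * (z * s₀) * g⁻¹ := by group
    rw [e1, e2, h2]
  have h2 := cn_eq_of_sylow hCN H₂ hH₂ hmax₂ p S₂ hS₂ hz'S hz'1 hz'c
  refine ⟨g, ?_⟩
  rw [← h2, ← h1, centralizer_conj]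

end CN

end Cfsg.Agent.Lib_helper2_CN5
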