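import Mathlib
import Cfsg.Prelude.Def_Balance
import Cfsg.Agent.Lib_helper2_Isolated
import Cfsg.Agent.Lib_helper2_CN2

set_option autoImplicit false

namespace Cfsg.Agent.Lib_helper2_Conn

open Cfsg.Agent.Lib_helper2_Isolated Cfsg.Agent.Lib_helper2_CN2

variable {G : Type*} [Group G]

/-- vertices of the commuting graph -/
def Vtx (p : ℕ) (A : Subgroup G) : Prop := Cfsg.IsElementaryAbelian p A ∧ p ^ 1 ≤ Nat.card A

/-- edges of the commuting graph -/
def Edge (p : ℕ) (A B : Subgroup G) : Prop :=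
  Cfsg.IsElementaryAbelian p A ∧ p ^ 1 ≤ Nat.card A ∧ Cfsg.IsElementaryAbelian p B ∧
    p ^ 1 ≤ Nat.card B ∧ ∀ a ∈ A, ∀ b ∈ B, a * b = b * a

theorem cj_one (A : Subgroup G) : A.map (MulAut.conj (1 : G)).toMonoidHom = A := by
  ext x; rw [mem_map_conj]; simp

theorem cj_mul (g h : G) (A : Subgroup G) :
    A.map (MulAut.conj (g * h)).toMonoidHom =
      (A.map (MulAut.conj h).toMonoidHom).map (MulAut.conj g).toMonoidHom := by
  ext x
  rw [mem_map_conj, mem_map_conj, mem_map_conj]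
  have : (g * h)⁻¹ * x * (g * h) = h⁻¹ * (g⁻¹ * x * g) * h := by group
  rw [this]

theorem cj_inv_cj (g : G) (A : Subgroup G) :
    (A.map (MulAut.conj g).toMonoidHom).map (MulAut.conj g⁻¹).toMonoidHom = A := by
  rw [← cj_mul, inv_mul_cancel, cj_one]

theorem cj_cj_inv (g : G) (A : Subgroup G) :
    (A.map (MulAut.conj g⁻¹).toMonoidHom).map (MulAut.conj g).toMonoidHom = A := by
  rw [← cj_mul, mul_inv_cancel, cj_one]

theorem isEA_cj {p : ℕ} {A : Subgroup G} (hA : Cfsg.IsElementaryAbelian p A) (g : G) :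
    Cfsg.IsElementaryAbelian p (A.map (MulAut.conj g).toMonoidHom) := by
  obtain ⟨hc, hp⟩ := hA
  refine ⟨⟨⟨?_⟩⟩, ?_⟩
  · rintro ⟨x, hx⟩ ⟨y, hy⟩
    apply Subtype.ext
    show x * y = y * x
    rw [mem_map_conj] at hx hy
    have h1 : (g⁻¹ * x * g) * (g⁻¹ * y * g) = (g⁻¹ * y * g) * (g⁻¹ * x * g) :=
      congrArg Subtype.val (hc.is_comm.comm ⟨_, hx⟩ ⟨_, hy⟩)
    calc x * y = g * ((g⁻¹ * x * g) * (g⁻¹ * y * g)) * g⁻¹ := by group
      _ = g * ((g⁻¹ * y * g) * (g⁻¹ * x * g)) * g⁻¹ := by rw [h1]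
      _ = y * x := by group
  · intro a ha
    rw [mem_map_conj] at ha
    have h1 := hp _ ha
    have h2 : a = g * (g⁻¹ * a * g) * g⁻¹ := by group
    rw [h2, conj_pow, h1]; group

theorem vtx_zpowers {p : ℕ} {x : G} (hx : orderOf x = p) : Vtx p (Subgroup.zpowers x) := by
  refine ⟨⟨inferInstance, ?_⟩, ?_⟩
  · intro a ha
    obtain ⟨k, hk⟩ := ha
    have hk' : x ^ k = a := hk
    rw [← hk', ← zpow_natCast, ← zpow_mul, mul_comm, zpow_mul, zpow_natCast, ← hx,
      pow_orderOf_eq_one, one_zpow]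
  · rw [Nat.card_zpowers, hx, pow_one]

theorem vtx_exists_order {p : ℕ} [Fact p.Prime] [Finite G] {A : Subgroup G} (hA : Vtx p A) :
    ∃ a ∈ A, orderOf a = p := by
  obtain ⟨⟨_, hp⟩, hcard⟩ := hA
  have hp' : p.Prime := Fact.out
  have h1 : 1 < Nat.card A := by
    rw [pow_one] at hcard; exact lt_of_lt_of_le hp'.one_lt hcard
  haveI : Nontrivial A := Finite.one_lt_card_iff_nontrivial.mp h1
  obtain ⟨⟨a, ha⟩, ha1⟩ := exists_ne (1 : A)
  refine ⟨a, ha, ?_⟩
  have hd : orderOf a ∣ p := orderOf_dvd_of_pow_eq_one (hp a ha)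
  rcases (Nat.dvd_prime hp').mp hd with h | h
  · exfalso; apply ha1; apply Subtype.ext; exact orderOf_eq_one_iff.mp h
  · exact h

theorem vtx_isPGroup {p : ℕ} {A : Subgroup G} (hA : Vtx p A) : IsPGroup p A := by
  intro a
  refine ⟨1, ?_⟩
  apply Subtype.ext
  show (a : G) ^ p ^ 1 = 1
  rw [pow_one]
  exact hA.1.2 a a.2

theorem vtx_cj {p : ℕ} {A : Subgroup G} (hA : Vtx p A) (g : G) :
    Vtx p (A.map (MulAut.conj g).toMonoidHom) := by
  refine ⟨isEA_cj hA.1 g, ?_⟩
  rw [Subgroup.card_map_of_injective (by exact (MulAut.conj g).injective)]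
  exact hA.2

theorem edge_cj {p : ℕ} {A B : Subgroup G} (h : Edge p A B) (g : G) :
    Edge p (A.map (MulAut.conj g).toMonoidHom) (B.map (MulAut.conj g).toMonoidHom) := by
  obtain ⟨hA, hA', hB, hB', hc⟩ := h
  refine ⟨(vtx_cj ⟨hA, hA'⟩ g).1, (vtx_cj ⟨hA, hA'⟩ g).2, (vtx_cj ⟨hB, hB'⟩ g).1,
    (vtx_cj ⟨hB, hB'⟩ g).2, ?_⟩
  intro a ha b hb
  rw [mem_map_conj] at ha hb
  have h1 := hc _ ha _ hb
  calc a * b = g * ((g⁻¹ * a * g) * (g⁻¹ * b * g)) * g⁻¹ := by group
    _ = g * ((g⁻¹ * b * g) * (g⁻¹ * a * g)) * g⁻¹ := by rw [h1]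
    _ = b * a := by group

theorem rtg_cj {p : ℕ} {A B : Subgroup G} (h : Relation.ReflTransGen (Edge p) A B) (g : G) :
    Relation.ReflTransGen (Edge p) (A.map (MulAut.conj g).toMonoidHom)
      (B.map (MulAut.conj g).toMonoidHom) := by
  induction h with
  | refl => exact Relation.ReflTransGen.refl
  | tail _ hbc ih => exact Relation.ReflTransGen.tail ih (edge_cj hbc g)

theorem edge_symm {p : ℕ} {A B : Subgroup G} (h : Edge p A B) : Edge p B A :=
  ⟨h.2.2.1, h.2.2.2.1, h.1, h.2.1, fun b hb a ha => (h.2.2.2.2 a ha b hb).symm⟩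

theorem rtg_symm {p : ℕ} {A B : Subgroup G} (h : Relation.ReflTransGen (Edge p) A B) :
    Relation.ReflTransGen (Edge p) B A := by
  induction h with
  | refl => exact Relation.ReflTransGen.refl
  | tail _ hbc ih => exact Relation.ReflTransGen.head (edge_symm hbc) ih

/-- two vertices inside a common `p`-subgroup are connected -/
theorem rtg_of_le_pgroup {p : ℕ} [Fact p.Prime] [Finite G] (Q : Subgroup G) (hQ : IsPGroup p Q)
    {A B : Subgroup G} (hA : Vtx p A) (hB : Vtx p B) (hAQ : A ≤ Q) (hBQ : B ≤ Q) :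
    Relation.ReflTransGen (Edge p) A B := by
  have hp : p.Prime := Fact.out
  have hQ1 : Q ≠ ⊥ := by
    obtain ⟨a, ha, hao⟩ := vtx_exists_order hA
    intro h
    have h1 : a ∈ (⊥ : Subgroup G) := h ▸ hAQ ha
    rw [Subgroup.mem_bot] at h1
    rw [h1, orderOf_one] at hao
    exact hp.one_lt.ne hao
  obtain ⟨z, hzQ, hz1, hzc⟩ := exists_central_of_pgroup Q hQ hQ1
  obtain ⟨k, hk⟩ := hQ ⟨z, hzQ⟩
  have hzo : p ∣ orderOf z := by
    have hpz : z ^ p ^ k = 1 := congrArg Subtype.val hk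
    have hd := orderOf_dvd_of_pow_eq_one hpz
    obtain ⟨j, -, hj⟩ := (Nat.dvd_prime_pow hp).mp hd
    rcases j with _ | j
    · exfalso; apply hz1; rw [pow_zero] at hj; exact orderOf_eq_one_iff.mp hj
    · rw [hj, pow_succ]; exact dvd_mul_left p _
  haveI : Fintype (Subgroup.zpowers z) := Fintype.ofFinite _
  obtain ⟨w, hw⟩ := exists_prime_orderOf_dvd_card (G := Subgroup.zpowers z) p
    (by rw [← Nat.card_eq_fintype_card, Nat.card_zpowers]; exact hzo)
  have hwo : orderOf (w : G) = p := (Subgroup.orderOf_coe w).trans hw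
  have hwc : ∀ y ∈ Q, y * (w : G) = (w : G) * y := by
    intro y hy
    obtain ⟨i, hi⟩ := w.2
    have hi' : z ^ i = (w : G) := hi
    rw [← hi']
    exact ((show Commute y z from hzc y hy).zpow_right i).eq
  have hZ := vtx_zpowers hwo
  have hmemZ : ∀ u ∈ Subgroup.zpowers (w : G), ∀ y ∈ Q, y * u = u * y := by
    intro u hu y hy
    obtain ⟨i, hi⟩ := hu
    have hi' : (w : G) ^ i = u := hi
    rw [← hi']
    exact ((show Commute y (w : G) from hwc y hy).zpow_right i).eq
  have e1 : Edge p A (Subgroup.zpowers (w : G)) :=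
    ⟨hA.1, hA.2, hZ.1, hZ.2, fun a ha u hu => hmemZ u hu a (hAQ ha)⟩
  have e2 : Edge p (Subgroup.zpowers (w : G)) B :=
    ⟨hZ.1, hZ.2, hB.1, hB.2, fun u hu b hb => (hmemZ u hu b (hBQ hb)).symm⟩
  exact Relation.ReflTransGen.tail (Relation.ReflTransGen.single e1) e2

theorem strongly_embedded_iff [Finite G] (p : ℕ) [Fact p.Prime] :
    (∃ H : Subgroup G, H ≠ ⊤ ∧ p ∣ Nat.card ↥H ∧ ∀ g : G, g ∉ H →
      ¬ p ∣ Nat.card ↥(H ⊓ H.map (MulAut.conj g).toMonoidHom)) ↔ ¬ Cfsg.IsKConnected p 1 G := by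
  have hp : p.Prime := Fact.out
  constructor
  · rintro ⟨H, hHtop, hpH, hH⟩ hconn
    haveI : Fintype H := Fintype.ofFinite _
    obtain ⟨x, hx⟩ := exists_prime_orderOf_dvd_card (G := H) p
      (by rw [← Nat.card_eq_fintype_card]; exact hpH)
    have hxo : orderOf (x : G) = p := (Subgroup.orderOf_coe x).trans hx
    obtain ⟨g, hg⟩ : ∃ g : G, g ∉ H := by
      by_contra hcon
      push Not at hcon
      exact hHtop ((Subgroup.eq_top_iff' H).mpr hcon)
    have hE := vtx_zpowers hxo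
    have hE' := vtx_cj hE g
    have hpath : Relation.ReflTransGen (Edge p) (Subgroup.zpowers (x : G))
        ((Subgroup.zpowers (x : G)).map (MulAut.conj g).toMonoidHom) :=
      hconn _ _ hE.1 hE.2 hE'.1 hE'.2
    have key : ∀ B : Subgroup G,
        Relation.ReflTransGen (Edge p) (Subgroup.zpowers (x : G)) B → B ≤ H := by
      intro B hB
      induction hB with
      | refl => exact (Subgroup.zpowers_le).mpr x.2
      | @tail b c _ hbc ih =>
        intro y hy
        by_contra hyH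
        obtain ⟨u, hub, huo⟩ := vtx_exists_order (⟨hbc.1, hbc.2.1⟩ : Vtx p b)
        apply hH y hyH
        have hcomm := hbc.2.2.2.2 u hub y hy
        have h2u : u ∈ H.map (MulAut.conj y).toMonoidHom := by
          rw [mem_map_conj]
          have h1 : y⁻¹ * u * y = u := by
            rw [mul_assoc, hcomm, ← mul_assoc, inv_mul_cancel, one_mul]
          rw [h1]; exact ih hub
        have humem : u ∈ H ⊓ H.map (MulAut.conj y).toMonoidHom := ⟨ih hub, h2u⟩
        have hd := orderOf_dvd_natCard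
          (⟨u, humem⟩ : (H ⊓ H.map (MulAut.conj y).toMonoidHom : Subgroup G))
        rw [← Subgroup.orderOf_coe] at hd
        have hd' : orderOf u ∣ Nat.card ↥(H ⊓ H.map (MulAut.conj y).toMonoidHom) := hd
        rw [huo] at hd'
        exact hd'
    have hE'H := key _ hpath
    apply hH g hg
    have hy1 : g * (x : G) * g⁻¹ ∈ H :=
      hE'H (conj_mem_map_conj (Subgroup.mem_zpowers (x : G)))
    have hy2 : g * (x : G) * g⁻¹ ∈ H.map (MulAut.conj g).toMonoidHom := conj_mem_map_conj x.2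
    have hd := orderOf_dvd_natCard
      (⟨_, ⟨hy1, hy2⟩⟩ : (H ⊓ H.map (MulAut.conj g).toMonoidHom : Subgroup G))
    rw [← Subgroup.orderOf_coe] at hd
    have hd' : orderOf (g * (x : G) * g⁻¹) ∣
        Nat.card ↥(H ⊓ H.map (MulAut.conj g).toMonoidHom) := hd
    rw [orderOf_conj_eq, hxo] at hd'
    exact hd'
  · intro hnc
    unfold Cfsg.IsKConnected at hnc
    push Not at hnc
    obtain ⟨E, E', hE1, hE2, hE'1, hE'2, hnot⟩ := hnc
    have hEv : Vtx p E := ⟨hE1, hE2⟩
    have hE'v : Vtx p E' := ⟨hE'1, hE'2⟩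
    have hnot' : ¬ Relation.ReflTransGen (Edge p) E E' := hnot
    obtain ⟨H, hH⟩ : ∃ H : Subgroup G, ∀ g : G, g ∈ H ↔
        Relation.ReflTransGen (Edge p) E (E.map (MulAut.conj g).toMonoidHom) := by
      refine ⟨{ carrier := {g | Relation.ReflTransGen (Edge p) E
                  (E.map (MulAut.conj g).toMonoidHom)}
                one_mem' := ?_, mul_mem' := ?_, inv_mem' := ?_ }, fun g => Iff.rfl⟩
      · intro a b ha hb
        show Relation.ReflTransGen (Edge p) E (E.map (MulAut.conj (a * b)).toMonoidHom)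
        rw [cj_mul]
        exact Relation.ReflTransGen.trans ha (rtg_cj hb a)
      · show Relation.ReflTransGen (Edge p) E (E.map (MulAut.conj (1 : G)).toMonoidHom)
        rw [cj_one]
      · intro a ha
        show Relation.ReflTransGen (Edge p) E (E.map (MulAut.conj a⁻¹).toMonoidHom)
        have h1 := rtg_cj ha a⁻¹
        rw [cj_inv_cj] at h1
        exact rtg_symm h1
    have hEH : E ≤ H := by
      intro x hx
      rw [hH]
      have h1 : E.map (MulAut.conj x).toMonoidHom = E := by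
        ext y
        rw [mem_map_conj]
        constructor
        · intro h
          have h2 : y = x * (x⁻¹ * y * x) * x⁻¹ := by group
          rw [h2]
          exact E.mul_mem (E.mul_mem hx h) (E.inv_mem hx)
        · intro h
          exact E.mul_mem (E.mul_mem (E.inv_mem hx) h) hx
      rw [h1]
    have claimA : ∀ X : Subgroup G, Vtx p X → X ≤ H → Relation.ReflTransGen (Edge p) E X := by
      intro X hXv hXH
      have hpX : IsPGroup p (X.subgroupOf H) :=
        (vtx_isPGroup hXv).comap_of_injective H.subtype H.subtype_injective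
      have hpE : IsPGroup p (E.subgroupOf H) :=
        (vtx_isPGroup hEv).comap_of_injective H.subtype H.subtype_injective
      obtain ⟨RX, hRX⟩ := hpX.exists_le_sylow
      obtain ⟨RE, hRE⟩ := hpE.exists_le_sylow
      obtain ⟨h, hh⟩ := MulAction.exists_smul_eq H RE RX
      obtain ⟨Q, hQ⟩ : ∃ Q : Subgroup G, Q = (RX : Subgroup H).map H.subtype := ⟨_, rfl⟩
      have hQp : IsPGroup p Q := by rw [hQ]; exact RX.2.map H.subtype
      have hXQ : X ≤ Q := by
        intro x hx
        rw [hQ]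
        exact ⟨⟨x, hXH hx⟩, hRX (Subgroup.mem_subgroupOf.mpr hx), rfl⟩
      have hEQ : E.map (MulAut.conj (h : G)).toMonoidHom ≤ Q := by
        intro y hy
        rw [mem_map_conj] at hy
        rw [hQ]
        have hyH' : (h : G)⁻¹ * y * (h : G) ∈ H := hEH hy
        have h3 : (⟨(h : G)⁻¹ * y * (h : G), hyH'⟩ : H) ∈ (RE : Subgroup H) :=
          hRE (Subgroup.mem_subgroupOf.mpr hy)
        have h4 := conj_mem_of_smul_eq hh h3
        refine ⟨_, h4, ?_⟩
        show (h : G) * ((h : G)⁻¹ * y * (h : G)) * (h : G)⁻¹ = y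
        group
      have h5 : Relation.ReflTransGen (Edge p) E (E.map (MulAut.conj (h : G)).toMonoidHom) :=
        (hH _).mp h.2
      exact h5.trans (rtg_of_le_pgroup Q hQp (vtx_cj hEv _) hXv hEQ hXQ)
    refine ⟨H, ?_, ?_, ?_⟩
    · intro htop
      obtain ⟨P, hP⟩ := (vtx_isPGroup hEv).exists_le_sylow
      obtain ⟨P', hP'⟩ := (vtx_isPGroup hE'v).exists_le_sylow
      obtain ⟨g, hg⟩ := MulAction.exists_smul_eq G P P'
      have hgE : E.map (MulAut.conj g).toMonoidHom ≤ (P' : Subgroup G) := by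
        intro y hy
        rw [mem_map_conj] at hy
        have h1 := conj_mem_of_smul_eq hg (hP hy)
        have h2 : g * (g⁻¹ * y * g) * g⁻¹ = y := by group
        rwa [h2] at h1
      have h1 : Relation.ReflTransGen (Edge p) E (E.map (MulAut.conj g).toMonoidHom) :=
        (hH g).mp (by rw [htop]; exact Subgroup.mem_top g)
      have h2 := rtg_of_le_pgroup (P' : Subgroup G) P'.2 (vtx_cj hEv g) hE'v hgE hP'
      exact hnot' (h1.trans h2)
    · obtain ⟨a, ha, hao⟩ := vtx_exists_order hEv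
      have hd := orderOf_dvd_natCard (⟨a, hEH ha⟩ : H)
      rw [← Subgroup.orderOf_coe] at hd
      have hd' : orderOf a ∣ Nat.card ↥H := hd
      rw [hao] at hd'
      exact hd'
    · intro g hg hdvd
      apply hg
      haveI : Fintype (H ⊓ H.map (MulAut.conj g).toMonoidHom : Subgroup G) := Fintype.ofFinite _
      obtain ⟨y, hy⟩ := exists_prime_orderOf_dvd_card
        (G := (H ⊓ H.map (MulAut.conj g).toMonoidHom : Subgroup G)) p
        (by rw [← Nat.card_eq_fintype_card]; exact hdvd)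
      have hyo : orderOf (y : G) = p := (Subgroup.orderOf_coe y).trans hy
      have hyH : (y : G) ∈ H := y.2.1
      have hyHg : (y : G) ∈ H.map (MulAut.conj g).toMonoidHom := y.2.2
      have hX := vtx_zpowers hyo
      have hA1 := claimA _ hX ((Subgroup.zpowers_le).mpr hyH)
      have hX'H : (Subgroup.zpowers (y : G)).map (MulAut.conj g⁻¹).toMonoidHom ≤ H := by
        intro u hu
        rw [mem_map_conj, inv_inv] at hu
        have h6 : Subgroup.zpowers (y : G) ≤ H.map (MulAut.conj g).toMonoidHom :=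
          (Subgroup.zpowers_le).mpr hyHg
        have h7 := h6 hu
        rw [mem_map_conj] at h7
        have h8 : g⁻¹ * (g * u * g⁻¹) * g = u := by group
        rwa [h8] at h7
      have hA2 := claimA _ (vtx_cj hX g⁻¹) hX'H
      have hA3 := rtg_cj hA2 g
      rw [cj_cj_inv] at hA3
      rw [hH]
      exact hA1.trans (rtg_symm hA3)

end Cfsg.Agent.Lib_helper2_Conn
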