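import Mathlib
import Cfsg.Prelude.Def_Transfer
import Cfsg.Agent.Lib_helper2_QD
import Cfsg.Agent.Lib_helper2_Cyc

set_option autoImplicit false

namespace Cfsg.Agent.Lib_helper2_Ded

variable {G : Type*} [Group G]

theorem conj_pow_class2 {a b d : G} (hd : b * a = a * d * b) (hdb : Commute d b) (N : ℕ) :
    b ^ N * a = a * d ^ N * b ^ N := by
  induction N with
  | zero => simp
  | succ N ih =>
    calc b ^ (N + 1) * a = b * (b ^ N * a) := by rw [pow_succ', mul_assoc]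
      _ = b * (a * d ^ N * b ^ N) := by rw [ih]
      _ = (b * a) * d ^ N * b ^ N := by simp only [mul_assoc]
      _ = (a * d * b) * d ^ N * b ^ N := by rw [hd]
      _ = a * d * (b * d ^ N) * b ^ N := by simp only [mul_assoc]
      _ = a * d * (d ^ N * b) * b ^ N := by rw [← (hdb.pow_left N).eq]
      _ = a * d ^ (N + 1) * b ^ (N + 1) := by rw [pow_succ', pow_succ']; simp only [mul_assoc]

theorem mul_pow_class2 {a b d : G} (hd : b * a = a * d * b) (hda : Commute d a)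
    (hdb : Commute d b) (N : ℕ) :
    (a * b) ^ N = a ^ N * b ^ N * d ^ (∑ i ∈ Finset.range N, i) := by
  induction N with
  | zero => simp
  | succ N ih =>
    have h1 := conj_pow_class2 hd hdb N
    obtain ⟨T, hT⟩ : ∃ T, T = ∑ i ∈ Finset.range N, i := ⟨_, rfl⟩
    rw [Finset.sum_range_succ, ← hT]
    rw [← hT] at ih
    have hdT_a : Commute (d ^ T) a := hda.pow_left _
    have hdT_b : Commute (d ^ T) b := hdb.pow_left _
    calc (a * b) ^ (N + 1) = a ^ N * b ^ N * d ^ T * (a * b) := by rw [pow_succ, ih]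
      _ = a ^ N * b ^ N * (d ^ T * a) * b := by simp only [mul_assoc]
      _ = a ^ N * b ^ N * (a * d ^ T) * b := by rw [hdT_a.eq]
      _ = a ^ N * (b ^ N * a) * (d ^ T * b) := by simp only [mul_assoc]
      _ = a ^ N * (a * d ^ N * b ^ N) * (b * d ^ T) := by rw [h1, hdT_b.eq]
      _ = a ^ (N + 1) * (d ^ N * b ^ (N + 1)) * d ^ T := by
          rw [pow_succ, pow_succ]; simp only [mul_assoc]
      _ = a ^ (N + 1) * (b ^ (N + 1) * d ^ N) * d ^ T := by
          rw [((hdb.pow_left N).pow_right (N + 1)).eq]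
      _ = a ^ (N + 1) * b ^ (N + 1) * (d ^ T * d ^ N) := by
          rw [pow_mul_comm d T N]; simp only [mul_assoc]
      _ = a ^ (N + 1) * b ^ (N + 1) * d ^ (T + N) := by rw [← pow_add]

theorem mem_zp4 [Finite G] {u v : G} (h4 : u ^ 4 = 1) (hv : v ∈ Subgroup.zpowers u) :
    v = 1 ∨ v = u ∨ v = u ^ 2 ∨ v = u ^ 3 := by
  obtain ⟨n, rfl⟩ := (Submonoid.mem_powers_iff _ _).mp (mem_powers_iff_mem_zpowers.mpr hv)
  have h1 : u ^ n = u ^ (n % 4) := by
    conv_lhs => rw [← Nat.div_add_mod n 4, pow_add, pow_mul, h4, one_pow, one_mul]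
  rw [h1]
  have h2 : n % 4 < 4 := Nat.mod_lt _ (by norm_num)
  interval_cases (n % 4)
  · left; exact pow_zero u
  · right; left; exact pow_one u
  · right; right; left; rfl
  · right; right; right; rfl

theorem pow_comm_class2 {x y c : G} (hxy : x * y = c * y * x) (hcx : Commute c x) (k : ℕ) :
    x ^ k * y = c ^ k * y * x ^ k := by
  induction k with
  | zero => simp
  | succ k ih =>
    calc x ^ (k + 1) * y = x ^ k * (x * y) := by rw [pow_succ, mul_assoc]
      _ = x ^ k * (c * y * x) := by rw [hxy]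
      _ = x ^ k * c * y * x := by simp only [mul_assoc]
      _ = c * (x ^ k * y) * x := by rw [← (hcx.pow_right k).eq]; simp only [mul_assoc]
      _ = c * (c ^ k * y * x ^ k) * x := by rw [ih]
      _ = c ^ (k + 1) * y * x ^ (k + 1) := by rw [pow_succ', pow_succ]; simp only [mul_assoc]

theorem core [Finite G] {x y c : G} (hc : c = x * y * x⁻¹ * y⁻¹) (hc1 : c ≠ 1)
    {p m' n' : ℕ} (hp : p.Prime) (hox : orderOf x = p ^ (m' + 1)) (hoy : orderOf y = p ^ (n' + 1))
    (hmn : n' ≤ m') (hcxm : c ∈ Subgroup.zpowers x) (hcym : c ∈ Subgroup.zpowers y)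
    (hcp : c ^ p = 1)
    (hmin : ∀ z : G, x * z ≠ z * x → orderOf y ≤ orderOf z) :
    p = 2 ∧ m' = 1 ∧ n' = 1 := by
  obtain ⟨r, hr⟩ := (Submonoid.mem_powers_iff _ _).mp (mem_powers_iff_mem_zpowers.mpr hcxm)
  obtain ⟨s, hs⟩ := (Submonoid.mem_powers_iff _ _).mp (mem_powers_iff_mem_zpowers.mpr hcym)
  have hcx : Commute c x := by rw [← hr]; exact (Commute.refl x).pow_left r
  have hcy : Commute c y := by rw [← hs]; exact (Commute.refl y).pow_left s
  have hxy : x * y = c * y * x := by rw [hc]; group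
  have hne : x * y ≠ y * x := by
    intro h
    apply hc1
    rw [hc, h]; group
  have hpow := pow_comm_class2 hxy hcx
  obtain ⟨N, hN⟩ : ∃ N, N = p ^ n' := ⟨_, rfl⟩
  have hyNp : y ^ (N * p) = 1 := by rw [hN, ← pow_succ, ← hoy]; exact pow_orderOf_eq_one y
  have hs1 : N ∣ s := by
    have h1 : y ^ (s * p) = 1 := by rw [pow_mul, hs, hcp]
    have h2 : p ^ (n' + 1) ∣ s * p := by rw [← hoy]; exact orderOf_dvd_of_pow_eq_one h1
    rw [pow_succ] at h2
    rw [hN]; exact Nat.dvd_of_mul_dvd_mul_right hp.pos h2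
  obtain ⟨s', rfl⟩ := hs1
  have hps' : ¬ p ∣ s' := by
    rintro ⟨s'', rfl⟩
    apply hc1
    rw [← hs, ← mul_assoc, pow_mul, hyNp, one_pow]
  obtain ⟨w, -, hw⟩ := Nat.exists_mul_mod_eq_one_of_coprime
    ((Nat.Prime.coprime_iff_not_dvd hp).mpr hps').symm hp.one_lt
  have hyN : y ^ N = c ^ w := by
    rw [← hs, ← pow_mul, mul_assoc, pow_mul, ← Nat.div_add_mod (s' * w) p, hw, pow_add, pow_one,
      pow_mul, ← pow_mul y N p, hyNp, one_pow, one_mul]
  have hr1 : p ^ m' ∣ r := by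
    have h1 : x ^ (r * p) = 1 := by rw [pow_mul, hr, hcp]
    have h2 : p ^ (m' + 1) ∣ r * p := by rw [← hox]; exact orderOf_dvd_of_pow_eq_one h1
    rw [pow_succ] at h2
    exact Nat.dvd_of_mul_dvd_mul_right hp.pos h2
  obtain ⟨r', rfl⟩ := hr1
  obtain ⟨e, he⟩ : ∃ e, e = p ^ (m' - n') * r' * w := ⟨_, rfl⟩
  have heN : x ^ (e * N) = y ^ N := by
    have h1 : e * N = p ^ m' * r' * w := by
      rw [he, hN, ← Nat.pow_sub_mul_pow p hmn]; ring
    rw [h1, pow_mul, hr, hyN]
  obtain ⟨a, ha⟩ : ∃ a, a = (x ^ e)⁻¹ := ⟨_, rfl⟩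
  obtain ⟨d, hd⟩ : ∃ d, d = c ^ e := ⟨_, rfl⟩
  have hda : Commute d a := by rw [hd, ha]; exact ((hcx.pow_right e).pow_left e).inv_right
  have hdb : Commute d y := by rw [hd]; exact hcy.pow_left e
  have hba : y * a = a * d * y := by
    have h1 := hpow e
    rw [ha, hd]
    calc y * (x ^ e)⁻¹ = (x ^ e)⁻¹ * (x ^ e * y) * (x ^ e)⁻¹ := by group
      _ = (x ^ e)⁻¹ * (c ^ e * y * x ^ e) * (x ^ e)⁻¹ := by rw [h1]
      _ = (x ^ e)⁻¹ * c ^ e * y := by group
  have hform := mul_pow_class2 hba hda hdb N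
  have haN : a ^ N * y ^ N = 1 := by
    rw [ha, inv_pow, ← pow_mul, heN, inv_mul_cancel]
  rw [haN, one_mul] at hform
  have hzx : x * (a * y) ≠ (a * y) * x := by
    intro h
    apply hne
    have hax : Commute a x := by rw [ha]; exact ((Commute.refl x).pow_left e).inv_left
    have h2 : a * (x * y) = a * (y * x) := by
      rw [← mul_assoc, hax.eq, mul_assoc, h, mul_assoc]
    exact mul_left_cancel h2
  have hzN : (a * y) ^ N ≠ 1 := by
    intro h
    have h1 := hmin _ hzx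
    have h2 : orderOf (a * y) ∣ N := orderOf_dvd_of_pow_eq_one h
    have h3 : orderOf (a * y) ≤ N := Nat.le_of_dvd (by rw [hN]; exact pow_pos hp.pos _) h2
    rw [hoy, pow_succ] at h1
    have h4 : p ^ n' * 2 ≤ p ^ n' * p := Nat.mul_le_mul_left _ hp.two_le
    have h5 : 0 < p ^ n' := pow_pos hp.pos _
    rw [hN] at h3
    have h6 : p ^ n' * p ≤ p ^ n' := h1.trans h3
    omega
  rw [hform] at hzN
  obtain ⟨T, hT⟩ : ∃ T, T = ∑ i ∈ Finset.range N, i := ⟨_, rfl⟩
  rw [← hT, hd, ← pow_mul] at hzN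
  have hndvd : ¬ p ∣ e * T := by
    rintro ⟨t, ht⟩
    apply hzN
    rw [ht, pow_mul, hcp, one_pow]
  have hT2 : T * 2 = N * (N - 1) := by rw [hT]; exact Finset.sum_range_id_mul_two N
  have hpe : ¬ p ∣ e := fun h => hndvd (Dvd.dvd.mul_right h T)
  have hpT : ¬ p ∣ T := fun h => hndvd (Dvd.dvd.mul_left h e)
  have hm : m' = n' := by
    by_contra hne'
    apply hpe
    rw [he]
    exact Dvd.dvd.mul_right (Dvd.dvd.mul_right (dvd_pow_self p (by omega)) r') w
  have hn0 : n' ≠ 0 := by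
    rintro rfl
    apply hpT
    rw [hT, hN]; simp
  have hpN : p ∣ N := by rw [hN]; exact dvd_pow_self p hn0
  have hp2 : p = 2 := by
    have h1 : p ∣ T * 2 := by rw [hT2]; exact Dvd.dvd.mul_right hpN _
    rcases (Nat.Prime.dvd_mul hp).mp h1 with h | h
    · exact absurd h hpT
    · exact (Nat.prime_dvd_prime_iff_eq hp Nat.prime_two).mp h
  subst hp2
  have hn1 : n' = 1 := by
    by_contra hne'
    apply hpT
    obtain ⟨j, rfl⟩ : ∃ j, n' = j + 2 := ⟨n' - 2, by omega⟩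
    have hN' : N = 2 * (2 * 2 ^ j) := by rw [hN]; ring
    obtain ⟨M, hM⟩ : ∃ M, M = N - 1 := ⟨_, rfl⟩
    rw [← hM, hN'] at hT2
    have h3 : T * 2 = (2 * (2 ^ j * M)) * 2 := by rw [hT2]; ring
    exact ⟨2 ^ j * M, Nat.eq_of_mul_eq_mul_right (by norm_num) h3⟩
  exact ⟨rfl, by omega, hn1⟩

theorem prime_pow_facts [Finite G] {x y c : G} (hc : c = x * y * x⁻¹ * y⁻¹)
    (hcxm : c ∈ Subgroup.zpowers x)
    (hmin : ∀ z : G, z * y ≠ y * z → orderOf x ≤ orderOf z) :
    ∀ q : ℕ, q.Prime → q ∣ orderOf x → c ^ q = 1 := by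
  intro q hq hqd
  obtain ⟨r, hr⟩ := (Submonoid.mem_powers_iff _ _).mp (mem_powers_iff_mem_zpowers.mpr hcxm)
  have hcx : Commute c x := by rw [← hr]; exact (Commute.refl x).pow_left r
  have hxy : x * y = c * y * x := by rw [hc]; group
  have h1 : orderOf (x ^ q) < orderOf x := by
    rw [orderOf_pow_of_dvd hq.ne_zero hqd]
    exact Nat.div_lt_self (orderOf_pos x) hq.one_lt
  have h2 : x ^ q * y = y * x ^ q := by
    by_contra h
    have := hmin (x ^ q) h
    omega
  have h3 := pow_comm_class2 hxy hcx q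
  rw [h2] at h3
  have h4 : c ^ q * (y * x ^ q) = 1 * (y * x ^ q) := by rw [one_mul, ← mul_assoc]; exact h3.symm
  exact mul_right_cancel h4

theorem exists_q8_pair [Finite G] (hconj : ∀ x g : G, g * x * g⁻¹ ∈ Subgroup.zpowers x)
    (hna : ∃ x y : G, x * y ≠ y * x) :
    ∃ x y : G, orderOf x = 4 ∧ orderOf y = 4 ∧ y * y = x ^ 2 ∧ y * x * y⁻¹ = x⁻¹ ∧
      x * y ≠ y * x := by
  classical
  have hex : ∃ n : ℕ, ∃ x y : G, x * y ≠ y * x ∧ orderOf x + orderOf y = n := by
    obtain ⟨x, y, h⟩ := hna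
    exact ⟨_, x, y, h, rfl⟩
  obtain ⟨x, y, hne, hsum⟩ := Nat.find_spec hex
  have hmin : ∀ x' y' : G, x' * y' ≠ y' * x' →
      orderOf x + orderOf y ≤ orderOf x' + orderOf y' := by
    intro x' y' h
    rw [hsum]
    exact Nat.find_min' hex ⟨x', y', h, rfl⟩
  have M3 : ∀ z : G, x * z ≠ z * x → orderOf y ≤ orderOf z := by
    intro z hz
    have := hmin x z hz
    omega
  have M4 : ∀ z : G, z * y ≠ y * z → orderOf x ≤ orderOf z := by
    intro z hz
    have := hmin z y hz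
    omega
  have M3' : ∀ z : G, z * x ≠ x * z → orderOf y ≤ orderOf z :=
    fun z hz => M3 z (fun h => hz h.symm)
  have M4' : ∀ z : G, y * z ≠ z * y → orderOf x ≤ orderOf z :=
    fun z hz => M4 z (fun h => hz h.symm)
  obtain ⟨c, hc⟩ : ∃ c, c = x * y * x⁻¹ * y⁻¹ := ⟨_, rfl⟩
  have hc' : c⁻¹ = y * x * y⁻¹ * x⁻¹ := by rw [hc]; group
  have hc1 : c ≠ 1 := by
    intro h
    apply hne
    have h2 : x * y = (x * y * x⁻¹ * y⁻¹) * (y * x) := by group
    rw [h2, ← hc, h, one_mul]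
  have hc1' : c⁻¹ ≠ 1 := fun h => hc1 (inv_eq_one.mp h)
  have hcx : c ∈ Subgroup.zpowers x := by
    have h1 := hconj x⁻¹ y
    rw [Subgroup.zpowers_inv] at h1
    have h2 : c = x * (y * x⁻¹ * y⁻¹) := by rw [hc]; group
    rw [h2]; exact Subgroup.mul_mem _ (Subgroup.mem_zpowers x) h1
  have hcy : c ∈ Subgroup.zpowers y := by
    have h1 := hconj y x
    rw [hc]; exact Subgroup.mul_mem _ h1 (Subgroup.inv_mem _ (Subgroup.mem_zpowers y))
  have hcx' : c⁻¹ ∈ Subgroup.zpowers x := Subgroup.inv_mem _ hcx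
  have hcy' : c⁻¹ ∈ Subgroup.zpowers y := Subgroup.inv_mem _ hcy
  have hqx := prime_pow_facts hc hcx M4
  have hqy' := prime_pow_facts hc' hcy' M3'
  have hqy : ∀ q : ℕ, q.Prime → q ∣ orderOf y → c ^ q = 1 := by
    intro q hq hqd
    have h := hqy' q hq hqd
    rwa [inv_pow, inv_eq_one] at h
  have hx1 : orderOf x ≠ 1 := by
    intro h
    rw [orderOf_eq_one_iff] at h
    apply hne; rw [h, one_mul, mul_one]
  have hy1 : orderOf y ≠ 1 := by
    intro h
    rw [orderOf_eq_one_iff] at h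
    apply hne; rw [h, one_mul, mul_one]
  obtain ⟨p, hp⟩ : ∃ p, p = orderOf c := ⟨_, rfl⟩
  have hpq : ∀ q : ℕ, q.Prime → c ^ q = 1 → q = p := by
    intro q hq h
    have h1 : orderOf c ∣ q := orderOf_dvd_of_pow_eq_one h
    rcases (Nat.dvd_prime hq).mp h1 with h2 | h2
    · exact absurd (orderOf_eq_one_iff.mp h2) hc1
    · rw [hp, h2]
  have hpp : p.Prime := by
    obtain ⟨q, hq, hqd⟩ := Nat.exists_prime_and_dvd hx1
    rw [← hpq q hq (hqx q hq hqd)]; exact hq
  have hcp : c ^ p = 1 := by rw [hp]; exact pow_orderOf_eq_one c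
  have hcp' : c⁻¹ ^ p = 1 := by rw [inv_pow, hcp, inv_one]
  obtain ⟨m', hm'⟩ : ∃ m', orderOf x = p ^ (m' + 1) := by
    have h1 := Nat.eq_prime_pow_of_unique_prime_dvd (orderOf_pos x).ne'
      (fun {d} hd hdd => hpq d hd (hqx d hd hdd))
    rcases Nat.eq_zero_or_pos (orderOf x).primeFactorsList.length with h0 | h0
    · rw [h0, pow_zero] at h1; exact absurd h1 hx1
    · exact ⟨(orderOf x).primeFactorsList.length - 1, by rw [Nat.sub_add_cancel h0]; exact h1⟩
  obtain ⟨n', hn'⟩ : ∃ n', orderOf y = p ^ (n' + 1) := by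
    have h1 := Nat.eq_prime_pow_of_unique_prime_dvd (orderOf_pos y).ne'
      (fun {d} hd hdd => hpq d hd (hqy d hd hdd))
    rcases Nat.eq_zero_or_pos (orderOf y).primeFactorsList.length with h0 | h0
    · rw [h0, pow_zero] at h1; exact absurd h1 hy1
    · exact ⟨(orderOf y).primeFactorsList.length - 1, by rw [Nat.sub_add_cancel h0]; exact h1⟩
  have hres : p = 2 ∧ m' = 1 ∧ n' = 1 := by
    rcases Nat.le_total n' m' with hmn | hmn
    · exact core hc hc1 hpp hm' hn' hmn hcx hcy hcp M3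
    · obtain ⟨h1, h2, h3⟩ := core hc' hc1' hpp hn' hm' hmn hcy' hcx' hcp' M4'
      exact ⟨h1, h3, h2⟩
  obtain ⟨h1, h2, h3⟩ := hres
  rw [h1] at hcp
  rw [h1, h2] at hm'
  rw [h1, h3] at hn'
  have hox : orderOf x = 4 := by rw [hm']; norm_num
  have hoy : orderOf y = 4 := by rw [hn']; norm_num
  have key : ∀ u : G, orderOf u = 4 → c ∈ Subgroup.zpowers u → c = u ^ 2 := by
    intro u hu hcu
    have hu4 : u ^ 4 = 1 := by rw [← hu]; exact pow_orderOf_eq_one u
    rcases mem_zp4 hu4 hcu with h | h | h | h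
    · exact absurd h hc1
    · exfalso
      rw [h] at hcp
      have h5 := orderOf_dvd_of_pow_eq_one hcp
      rw [hu] at h5; omega
    · exact h
    · exfalso
      rw [h, ← pow_mul] at hcp
      have h5 := orderOf_dvd_of_pow_eq_one hcp
      rw [hu] at h5; omega
  have hcx2 := key x hox hcx
  have hcy2 := key y hoy hcy
  refine ⟨x, y, hox, hoy, ?_, ?_, hne⟩
  · rw [← pow_two, ← hcy2, hcx2]
  · have h4 : y * x⁻¹ * y⁻¹ = x := by
      have h5 : y * x⁻¹ * y⁻¹ = x⁻¹ * (x * y * x⁻¹ * y⁻¹) := by group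
      rw [h5, ← hc, hcx2, pow_two]; group
    have h6 : y * x * y⁻¹ = (y * x⁻¹ * y⁻¹)⁻¹ := by group
    rw [h6, h4]

theorem conj4 [Finite G] {u g : G} (hu : orderOf u = 4)
    (h : g * u * g⁻¹ ∈ Subgroup.zpowers u) :
    g * u * g⁻¹ = u ∨ g * u * g⁻¹ = u⁻¹ := by
  have hu4 : u ^ 4 = 1 := by rw [← hu]; exact pow_orderOf_eq_one u
  have hu1 : u ≠ 1 := by
    intro h1; rw [h1, orderOf_one] at hu; omega
  have hu2 : u ^ 2 ≠ 1 := by
    intro h1
    have h5 := orderOf_dvd_of_pow_eq_one h1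
    rw [hu] at h5; omega
  rcases mem_zp4 hu4 h with h1 | h1 | h1 | h1
  · exfalso; apply hu1
    have h2 : u = g⁻¹ * (g * u * g⁻¹) * g := by group
    rw [h2, h1]; group
  · exact Or.inl h1
  · exfalso; apply hu2
    have h2 : g * u ^ 2 * g⁻¹ = (g * u * g⁻¹) ^ 2 := by rw [pow_two, pow_two]; group
    rw [h1, ← pow_mul, hu4] at h2
    have h3 : u ^ 2 = g⁻¹ * (g * u ^ 2 * g⁻¹) * g := by group
    rw [h3, h2]; group
  · right
    rw [h1]
    exact eq_inv_of_mul_eq_one_left (by rw [← pow_succ]; exact hu4)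

open Cfsg.Agent.Lib_helper2_QD in
theorem S4211_main {G : Type*} [Group G] [Finite G] (hna : ¬ IsMulCommutative G)
    (hn : ∀ H : Subgroup G, H.Normal) :
    ∃ Q E A : Subgroup G, Nonempty (Q ≃* QuaternionGroup 2) ∧ Cfsg.IsElementaryAbelian 2 E ∧
      IsMulCommutative A ∧ Odd (Nat.card A) ∧ E ⊓ A = ⊥ ∧ Q ⊓ (E ⊔ A) = ⊥ ∧
      Q ⊔ (E ⊔ A) = ⊤ := by
  have hconj : ∀ x g : G, g * x * g⁻¹ ∈ Subgroup.zpowers x :=
    fun x g => (hn (Subgroup.zpowers x)).conj_mem x (Subgroup.mem_zpowers x) g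
  have hna' : ∃ x y : G, x * y ≠ y * x := by
    by_contra h
    push Not at h
    exact hna ⟨⟨h⟩⟩
  obtain ⟨x, y, hox, hoy, hyy, hinv, hne⟩ := exists_q8_pair hconj hna'
  have hx4 : x ^ 4 = 1 := by rw [← hox]; exact pow_orderOf_eq_one x
  have hy4 : y ^ 4 = 1 := by rw [← hoy]; exact pow_orderOf_eq_one y
  obtain ⟨c, hc⟩ : ∃ c, c = x ^ 2 := ⟨_, rfl⟩
  have hxx : x * x = c := by rw [hc, pow_two]
  have hyy' : y * y = c := by rw [hc]; exact hyy
  have hcc : c * c = 1 := by rw [hc, ← pow_add]; exact hx4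
  have hcinv : c⁻¹ = c := inv_eq_of_mul_eq_one_left hcc
  have hc1 : c ≠ 1 := by
    intro h
    rw [hc] at h
    have h5 := orderOf_dvd_of_pow_eq_one h
    rw [hox] at h5; omega
  have hcxc : Commute c x := by rw [hc]; exact (Commute.refl x).pow_left 2
  have hcyc : Commute c y := by rw [← hyy']; exact (Commute.refl y).mul_left (Commute.refl y)
  have hyx : y * x = x⁻¹ * y := by
    have h1 : y * x = (y * x * y⁻¹) * y := by group
    rw [h1, hinv]
  have hxy : x * y = y * x⁻¹ := by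
    have h1 : x * y = x * (y * x) * x⁻¹ := by group
    rw [h1, hyx]; group
  have hR2 : x * y * x⁻¹ = y⁻¹ := by
    apply eq_inv_of_mul_eq_one_left
    calc x * y * x⁻¹ * y = x * (y * x⁻¹) * y := by group
      _ = x * (x * y) * y := by rw [hxy]
      _ = (x * x) * (y * y) := by group
      _ = 1 := by rw [hxx, hyy', hcc]
  have hcdef : x * y * x⁻¹ * y⁻¹ = c := by
    rw [hR2, ← mul_inv_rev, hyy', hcinv]
  obtain ⟨C, hCmem⟩ : ∃ C : Subgroup G, ∀ g, g ∈ C ↔ (g * x = x * g ∧ g * y = y * g) :=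
    ⟨Subgroup.centralizer {x} ⊓ Subgroup.centralizer {y}, fun g => by
      rw [Subgroup.mem_inf, Subgroup.mem_centralizer_singleton_iff,
        Subgroup.mem_centralizer_singleton_iff]⟩
  have hCc : ∀ g ∈ C, Commute g c := by
    intro g hg
    rw [hc]; exact (show Commute g x from ((hCmem g).mp hg).1).pow_right 2
  have hcC : c ∈ C := (hCmem c).mpr ⟨hcxc.eq, hcyc.eq⟩
  have hCconj : ∀ z : G, z * x * z⁻¹ = x → z * y * z⁻¹ = y → z ∈ C := by
    intro z h1 h2
    rw [hCmem]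
    constructor
    · have h3 : z * x = (z * x * z⁻¹) * z := by group
      rw [h3, h1]
    · have h3 : z * y = (z * y * z⁻¹) * z := by group
      rw [h3, h2]
  have hno4 : ∀ g ∈ C, orderOf g ≠ 4 := by
    intro g hg ho
    obtain ⟨hgx, hgy⟩ := (hCmem g).mp hg
    have hgyc : Commute g y := hgy
    have hgxc : Commute g x := hgx
    have hg4 : g ^ 4 = 1 := by rw [← ho]; exact pow_orderOf_eq_one g
    have hgy4 : (g * y) ^ 4 = 1 := by rw [hgyc.mul_pow, hg4, hy4, one_mul]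
    have h1 : x * (g * y) * x⁻¹ * (g * y)⁻¹ = c := by
      calc x * (g * y) * x⁻¹ * (g * y)⁻¹ = (x * g) * y * x⁻¹ * y⁻¹ * g⁻¹ := by group
        _ = (g * x) * y * x⁻¹ * y⁻¹ * g⁻¹ := by rw [hgx]
        _ = g * (x * y * x⁻¹ * y⁻¹) * g⁻¹ := by group
        _ = g * c * g⁻¹ := by rw [hcdef]
        _ = c := by rw [(hCc g hg).eq, mul_inv_cancel_right]
    have h2 : c ∈ Subgroup.zpowers (g * y) := by
      rw [← h1]
      exact Subgroup.mul_mem _ (hconj (g * y) x) (Subgroup.inv_mem _ (Subgroup.mem_zpowers _))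
    have hxg : Commute x g := hgxc.symm
    have hxc : Commute x c := hcxc.symm
    rcases mem_zp4 hgy4 h2 with h | h | h | h
    · exact hc1 h
    · apply hne
      have hy : y = g⁻¹ * c := by rw [h]; group
      rw [hy]
      exact (hxg.inv_right.mul_right hxc).eq
    · rw [hgyc.mul_pow, pow_two y, hyy'] at h
      have h3 : g ^ 2 = 1 := by
        have h4 : g ^ 2 * c = 1 * c := by rw [one_mul]; exact h.symm
        exact mul_right_cancel h4
      have h5 := orderOf_dvd_of_pow_eq_one h3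
      rw [ho] at h5; omega
    · apply hne
      have hy3 : y ^ 3 = (g ^ 3)⁻¹ * c := by rw [h, hgyc.mul_pow]; group
      have hxy3 : Commute x (y ^ 3) := by
        rw [hy3]; exact ((hxg.pow_right 3).inv_right).mul_right hxc
      have hy9 : y = (y ^ 3) ^ 3 := by
        rw [← pow_mul]
        calc y = (y ^ 4) ^ 2 * y := by rw [hy4, one_pow, one_mul]
          _ = y ^ (3 * 3) := by rw [← pow_mul, ← pow_succ]
      rw [hy9]
      exact (hxy3.pow_right 3).eq
  have hCab : ∀ u ∈ C, ∀ v ∈ C, u * v = v * u := by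
    by_contra hcon
    push Not at hcon
    obtain ⟨u, hu, v, hv, huv⟩ := hcon
    have hconjC : ∀ a g : ↥C, g * a * g⁻¹ ∈ Subgroup.zpowers a := by
      intro a g
      obtain ⟨k, hk⟩ := Subgroup.mem_zpowers_iff.mp (hconj (a : G) (g : G))
      refine Subgroup.mem_zpowers_iff.mpr ⟨k, ?_⟩
      apply Subtype.ext
      rw [Subgroup.coe_zpow]
      exact hk
    obtain ⟨x', y', hox', -⟩ := exists_q8_pair hconjC
      ⟨⟨u, hu⟩, ⟨v, hv⟩, fun h => huv (congrArg Subtype.val h)⟩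
    exact hno4 (x' : G) x'.2 (by rw [Subgroup.orderOf_coe]; exact hox')
  obtain ⟨C2, hC2mem⟩ : ∃ C2 : Subgroup G, ∀ g, g ∈ C2 ↔ (g ∈ C ∧ g * g = 1) := by
    refine ⟨{ carrier := {g | g ∈ C ∧ g * g = 1}
              mul_mem' := ?_
              one_mem' := ?_
              inv_mem' := ?_ }, fun g => Iff.rfl⟩
    · rintro a b ⟨ha, ha2⟩ ⟨hb, hb2⟩
      refine ⟨C.mul_mem ha hb, ?_⟩
      have h1 := hCab a ha b hb
      calc a * b * (a * b) = a * (b * a) * b := by group
        _ = a * (a * b) * b := by rw [← h1]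
        _ = (a * a) * (b * b) := by group
        _ = 1 := by rw [ha2, hb2, one_mul]
    · exact ⟨C.one_mem, one_mul 1⟩
    · rintro a ⟨ha, ha2⟩
      refine ⟨C.inv_mem ha, ?_⟩
      rw [← mul_inv_rev, ha2, inv_one]
  have hcC2 : c ∈ C2 := (hC2mem c).mpr ⟨hcC, hcc⟩
  obtain ⟨E, hEmax⟩ : ∃ E : Subgroup G, Maximal (fun E : Subgroup G => E ≤ C2 ∧ c ∉ E) E := by
    have hfin : {E : Subgroup G | E ≤ C2 ∧ c ∉ E}.Finite := Set.toFinite _
    have hne' : {E : Subgroup G | E ≤ C2 ∧ c ∉ E}.Nonempty :=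
      ⟨⊥, bot_le, fun h => hc1 (Subgroup.mem_bot.mp h)⟩
    exact hfin.exists_maximal hne'
  obtain ⟨⟨hEC2, hcE⟩, hEmax'⟩ := hEmax
  have hEC : E ≤ C := fun g hg => ((hC2mem g).mp (hEC2 hg)).1
  have hE : ∀ g ∈ C2, g ∈ E ∨ c * g ∈ E := by
    intro g hg
    by_cases hgE : g ∈ E
    · exact Or.inl hgE
    · right
      have hgg : g * g = 1 := ((hC2mem g).mp hg).2
      have hcomm : ∀ a ∈ E, ∀ b ∈ Subgroup.zpowers g, a * b = b * a := by
        intro a ha b hb
        have hb' : b ∈ C := (Subgroup.zpowers_le.mpr ((hC2mem g).mp hg).1) hb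
        exact hCab a (hEC ha) b hb'
      have hcE' : c ∈ E ⊔ Subgroup.zpowers g := by
        by_contra hcn
        have hle : E ⊔ Subgroup.zpowers g ≤ E :=
          hEmax' ⟨sup_le hEC2 (Subgroup.zpowers_le.mpr hg), hcn⟩ le_sup_left
        exact hgE (hle ((le_sup_right : Subgroup.zpowers g ≤ _) (Subgroup.mem_zpowers g)))
      obtain ⟨a, ha, b, hb, hab⟩ :=
        Cfsg.Agent.Lib_helper2_Cyc.exists_mul_of_mem_sup_comm E (Subgroup.zpowers g) hcomm hcE'
      have hb' : b = 1 ∨ b = g := by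
        obtain ⟨k, rfl⟩ := Subgroup.mem_zpowers_iff.mp hb
        obtain ⟨j, rfl | rfl⟩ := Int.even_or_odd' k
        · left; rw [zpow_mul, zpow_two, hgg, one_zpow]
        · right; rw [zpow_add, zpow_mul, zpow_two, hgg, one_zpow, one_mul, zpow_one]
      rcases hb' with rfl | rfl
      · exfalso; apply hcE; rw [hab, mul_one]; exact ha
      · rw [hab, mul_assoc, hgg, mul_one]; exact ha
  obtain ⟨A, hAmem⟩ : ∃ A : Subgroup G, ∀ g, g ∈ A ↔ (g ∈ C ∧ Odd (orderOf g)) := by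
    refine ⟨{ carrier := {g | g ∈ C ∧ Odd (orderOf g)}
              mul_mem' := ?_
              one_mem' := ?_
              inv_mem' := ?_ }, fun g => Iff.rfl⟩
    · rintro a b ⟨ha, hao⟩ ⟨hb, hbo⟩
      refine ⟨C.mul_mem ha hb, ?_⟩
      have hcomm : Commute a b := hCab a ha b hb
      have h1 : (a * b) ^ (orderOf a * orderOf b) = 1 := by
        rw [hcomm.mul_pow, pow_mul, pow_orderOf_eq_one, one_pow, mul_comm (orderOf a), pow_mul,
          pow_orderOf_eq_one, one_pow, one_mul]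
      exact Odd.of_dvd_nat (hao.mul hbo) (orderOf_dvd_of_pow_eq_one h1)
    · exact ⟨C.one_mem, by rw [orderOf_one]; exact odd_one⟩
    · rintro a ⟨ha, hao⟩
      exact ⟨C.inv_mem ha, by rw [orderOf_inv]; exact hao⟩
  have hAC : A ≤ C := fun g hg => ((hAmem g).mp hg).1
  have hEAcomm : ∀ a ∈ E, ∀ b ∈ A, a * b = b * a :=
    fun a ha b hb => hCab a (hEC ha) b (hAC hb)
  have hEAC : E ⊔ A ≤ C := sup_le hEC hAC
  have hA4 : x ^ (2 * 2) = 1 := hx4
  have hnot : y ∉ Subgroup.zpowers x := by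
    intro h
    obtain ⟨k, hk⟩ := Subgroup.mem_zpowers_iff.mp h
    apply hne
    rw [← hk]
    exact ((Commute.refl x).zpow_right k).eq
  have hinj := quatHom_injective x y 2 hA4 hyy hinv hox hnot
  obtain ⟨Q, hQ⟩ : ∃ Q : Subgroup G, Q = (quatHom x y 2 hA4 hyy hinv).range := ⟨_, rfl⟩
  have hQiso : Nonempty (Q ≃* QuaternionGroup 2) := by
    rw [hQ]; exact ⟨(MonoidHom.ofInjective hinj).symm⟩
  have hxQ : x ∈ Q := by
    rw [hQ]
    refine ⟨QuaternionGroup.a 1, ?_⟩
    rw [quatHom_a]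
    have h1 := zq_natCast x (2 * 2) hA4 1
    rw [Nat.cast_one, pow_one] at h1
    exact h1
  have hyQ : y ∈ Q := by
    rw [hQ]
    refine ⟨QuaternionGroup.xa 0, ?_⟩
    rw [quatHom_xa, zq_zero, mul_one]
  have hcQ : c ∈ Q := by rw [← hxx]; exact Q.mul_mem hxQ hxQ
  have hQform : ∀ q ∈ Q, q ∈ Subgroup.zpowers x ∨ ∃ t ∈ Subgroup.zpowers x, q = y * t := by
    intro q hq
    rw [hQ] at hq
    obtain ⟨d, rfl⟩ := hq
    cases d with
    | a i => left; rw [quatHom_a]; exact zq_mem_zpowers x (2 * 2) hA4 i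
    | xa i => right; exact ⟨_, zq_mem_zpowers x (2 * 2) hA4 i, quatHom_xa x y 2 hA4 hyy hinv i⟩
  have hQC : ∀ q ∈ Q, q ∈ C → q = 1 ∨ q = c := by
    intro q hqQ hqC
    obtain ⟨hqx, hqy⟩ := (hCmem q).mp hqC
    rcases hQform q hqQ with h | ⟨t, ht, rfl⟩
    · rcases mem_zp4 hx4 h with h1 | h1 | h1 | h1
      · exact Or.inl h1
      · exfalso; apply hne; rw [← h1]; exact hqy
      · right; rw [h1, hc]
      · exfalso; apply hne
        have hx9 : x = (x ^ 3) ^ 3 := by
          rw [← pow_mul]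
          calc x = (x ^ 4) ^ 2 * x := by rw [hx4, one_pow, one_mul]
            _ = x ^ (3 * 3) := by rw [← pow_mul, ← pow_succ]
        rw [hx9, ← h1]
        exact ((show Commute q y from hqy).pow_left 3).eq
    · exfalso; apply hne
      obtain ⟨k, rfl⟩ := Subgroup.mem_zpowers_iff.mp ht
      have htx : Commute (x ^ k) x := ((Commute.refl x).zpow_left k)
      have h1 : y * x * x ^ k = x * y * x ^ k := by
        calc y * x * x ^ k = y * (x * x ^ k) := by rw [mul_assoc]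
          _ = y * (x ^ k * x) := by rw [htx.eq]
          _ = y * x ^ k * x := by rw [mul_assoc]
          _ = x * (y * x ^ k) := hqx
          _ = x * y * x ^ k := by rw [mul_assoc]
      exact (mul_right_cancel h1).symm
  refine ⟨Q, E, A, hQiso,
    ⟨⟨⟨fun a b => Subtype.ext (hCab a (hEC a.2) b (hEC b.2))⟩⟩, fun a ha => ?_⟩,
    ⟨⟨fun a b => Subtype.ext (hCab a (hAC a.2) b (hAC b.2))⟩⟩, ?_, ?_, ?_, ?_⟩
  · rw [pow_two]; exact ((hC2mem a).mp (hEC2 ha)).2
  · by_contra hodd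
    rw [Nat.not_odd_iff_even] at hodd
    haveI : Fact (Nat.Prime 2) := ⟨Nat.prime_two⟩
    obtain ⟨a, ha⟩ := exists_prime_orderOf_dvd_card' (G := A) 2 (even_iff_two_dvd.mp hodd)
    have h1 : Odd (orderOf (a : G)) := ((hAmem a).mp a.2).2
    rw [Subgroup.orderOf_coe, ha] at h1
    exact absurd h1 (by decide)
  · rw [eq_bot_iff]
    rintro g ⟨hgE, hgA⟩
    rw [Subgroup.mem_bot]
    have h1 : g * g = 1 := ((hC2mem g).mp (hEC2 hgE)).2
    have h2 : Odd (orderOf g) := ((hAmem g).mp hgA).2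
    have h3 : orderOf g ∣ 2 := orderOf_dvd_of_pow_eq_one (by rw [pow_two]; exact h1)
    have h4 : orderOf g = 1 := by
      rcases (Nat.dvd_prime Nat.prime_two).mp h3 with h | h
      · exact h
      · rw [h] at h2; exact absurd h2 (by decide)
    exact orderOf_eq_one_iff.mp h4
  · rw [eq_bot_iff]
    rintro q ⟨hqQ, hqEA⟩
    rw [Subgroup.mem_bot]
    rcases hQC q hqQ (hEAC hqEA) with h | h
    · exact h
    · exfalso
      rw [h] at hqEA
      obtain ⟨e, he, a, ha, hea⟩ :=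
        Cfsg.Agent.Lib_helper2_Cyc.exists_mul_of_mem_sup_comm E A hEAcomm hqEA
      have ha2 : a ∈ C2 := by
        have h5 : a = e⁻¹ * c := by rw [hea]; group
        rw [h5]; exact C2.mul_mem (C2.inv_mem (hEC2 he)) hcC2
      have h1 : a * a = 1 := ((hC2mem a).mp ha2).2
      have h2 : Odd (orderOf a) := ((hAmem a).mp ha).2
      have h3 : orderOf a ∣ 2 := orderOf_dvd_of_pow_eq_one (by rw [pow_two]; exact h1)
      have h4 : orderOf a = 1 := by
        rcases (Nat.dvd_prime Nat.prime_two).mp h3 with h | h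
        · exact h
        · rw [h] at h2; exact absurd h2 (by decide)
      rw [orderOf_eq_one_iff.mp h4, mul_one] at hea
      exact hcE (by rw [hea]; exact he)
  · rw [eq_top_iff]
    intro g _
    obtain ⟨T, hT⟩ : ∃ T : Subgroup G, T = Q ⊔ (E ⊔ A) := ⟨_, rfl⟩
    rw [← hT]
    have hQT : Q ≤ T := by rw [hT]; exact le_sup_left
    have hET : E ≤ T := by rw [hT]; exact le_sup_left.trans le_sup_right
    have hAT : A ≤ T := by rw [hT]; exact le_sup_right.trans le_sup_right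
    have hCT : C ≤ T := by
      intro z hz
      obtain ⟨k, t, ht, hkt⟩ := Nat.exists_eq_two_pow_mul_odd (orderOf_pos z).ne'
      have hk1 : k ≤ 1 := by
        by_contra hk
        obtain ⟨j, rfl⟩ : ∃ j, k = j + 2 := ⟨k - 2, by omega⟩
        have hdvd : 2 ^ j * t ∣ orderOf z := by rw [hkt]; exact ⟨4, by ring⟩
        have hpos : 2 ^ j * t ≠ 0 := by
          have h5 := ht.pos
          positivity
        have h1 : orderOf (z ^ (2 ^ j * t)) = 4 := by
          rw [orderOf_pow_of_dvd hpos hdvd, hkt]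
          have h6 : 2 ^ (j + 2) * t = 4 * (2 ^ j * t) := by ring
          rw [h6, Nat.mul_div_cancel _ (Nat.pos_of_ne_zero hpos)]
        exact hno4 _ (C.pow_mem hz _) h1
      have hz2t : z ^ (2 * t) = 1 := by
        have hdvd : orderOf z ∣ 2 * t := by
          rw [hkt]
          interval_cases k
          · exact ⟨2, by ring⟩
          · exact ⟨1, by ring⟩
        exact orderOf_dvd_iff_pow_eq_one.mp hdvd
      obtain ⟨u, hu⟩ := ht
      have hzt : z ^ t ∈ C2 :=
        (hC2mem _).mpr ⟨C.pow_mem hz t, by rw [← pow_add, ← two_mul]; exact hz2t⟩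
      have hzt1 : z ^ (t + 1) ∈ A := by
        rw [hAmem]
        refine ⟨C.pow_mem hz _, ?_⟩
        have h1 : (z ^ (t + 1)) ^ t = 1 := by
          rw [← pow_mul]
          have h6 : (t + 1) * t = (2 * t) * (u + 1) := by rw [hu]; ring
          rw [h6, pow_mul, hz2t, one_pow]
        exact Odd.of_dvd_nat ⟨u, hu⟩ (orderOf_dvd_of_pow_eq_one h1)
      have hzdec : z = z ^ (t + 1) * z ^ t := by
        rw [← pow_add]
        have h6 : t + 1 + t = 2 * t + 1 := by ring
        rw [h6, pow_succ, hz2t, one_mul]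
      rw [hzdec]
      apply T.mul_mem (hAT hzt1)
      rcases hE _ hzt with h | h
      · exact hET h
      · have h6 : z ^ t = c * (c * z ^ t) := by rw [← mul_assoc, hcc, one_mul]
        rw [h6]
        exact T.mul_mem (hQT hcQ) (hET h)
    rcases conj4 hox (hconj x g) with h1 | h1 <;> rcases conj4 hoy (hconj y g) with h2 | h2
    · exact hCT (hCconj g h1 h2)
    · have hz : g * x ∈ C := by
        apply hCconj
        · calc g * x * x * (g * x)⁻¹ = g * x * g⁻¹ := by group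
            _ = x := h1
        · calc g * x * y * (g * x)⁻¹ = g * (x * y * x⁻¹) * g⁻¹ := by group
            _ = g * y⁻¹ * g⁻¹ := by rw [hR2]
            _ = (g * y * g⁻¹)⁻¹ := by group
            _ = y := by rw [h2, inv_inv]
      have h6 : g = (g * x) * x⁻¹ := by group
      rw [h6]
      exact T.mul_mem (hCT hz) (T.inv_mem (hQT hxQ))
    · have hz : g * y ∈ C := by
        apply hCconj
        · calc g * y * x * (g * y)⁻¹ = g * (y * x * y⁻¹) * g⁻¹ := by group
            _ = g * x⁻¹ * g⁻¹ := by rw [hinv]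
            _ = (g * x * g⁻¹)⁻¹ := by group
            _ = x := by rw [h1, inv_inv]
        · calc g * y * y * (g * y)⁻¹ = g * y * g⁻¹ := by group
            _ = y := h2
      have h6 : g = (g * y) * y⁻¹ := by group
      rw [h6]
      exact T.mul_mem (hCT hz) (T.inv_mem (hQT hyQ))
    · have hz : g * x * y ∈ C := by
        apply hCconj
        · calc g * x * y * x * (g * x * y)⁻¹ = g * x * (y * x * y⁻¹) * x⁻¹ * g⁻¹ := by group
            _ = g * x * x⁻¹ * x⁻¹ * g⁻¹ := by rw [hinv]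
            _ = (g * x * g⁻¹)⁻¹ := by group
            _ = x := by rw [h1, inv_inv]
        · calc g * x * y * y * (g * x * y)⁻¹ = g * (x * y * x⁻¹) * g⁻¹ := by group
            _ = g * y⁻¹ * g⁻¹ := by rw [hR2]
            _ = (g * y * g⁻¹)⁻¹ := by group
            _ = y := by rw [h2, inv_inv]
      have h6 : g = (g * x * y) * y⁻¹ * x⁻¹ := by group
      rw [h6]
      exact T.mul_mem (T.mul_mem (hCT hz) (T.inv_mem (hQT hyQ))) (T.inv_mem (hQT hxQ))

end Cfsg.Agent.Lib_helper2_Ded
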