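import Mathlib
import Cfsg.Agent.Lib_helper2_Klein

set_option autoImplicit false

namespace Cfsg.Agent.Lib_helper2_SE2

open Cfsg Cfsg.Agent.Lib_helper2_Dihedral Cfsg.Agent.Lib_helper2_Inv Cfsg.Agent.Lib_helper2_Isolated
  Cfsg.Agent.Lib_helper2_SE Cfsg.Agent.Lib_helper2_BS Cfsg.Agent.Lib_helper2_Klein

variable {G : Type*} [Group G] [Finite G] {H : Subgroup G}

theorem se_mem_of_conj (hH : IsStronglyEmbedded H) {g s : G} (hs : s ∈ H) (hs2 : orderOf s = 2)
    (h : g⁻¹ * s * g ∈ H) : g ∈ H :=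
  ((se_iff H).mp hH).2.2 g s hs hs2 h

theorem se_centralizer (hH : IsStronglyEmbedded H) {s g : G} (hs : s ∈ H) (hs2 : orderOf s = 2)
    (hc : g * s = s * g) : g ∈ H := by
  apply se_mem_of_conj hH hs hs2
  have : g⁻¹ * s * g = s := by rw [mul_assoc, ← hc, ← mul_assoc, inv_mul_cancel, one_mul]
  rw [this]; exact hs

/-- The product of an involution of `H` and an involution of a different conjugate of `H` has odd
order. -/
theorem se_odd (hH : IsStronglyEmbedded H) {t s₀ g : G} (ht : orderOf t = 2) (htH : t ∈ H)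
    (hs₀ : orderOf s₀ = 2) (hg : g ∉ H) (hs₀g : g⁻¹ * s₀ * g ∈ H) : Odd (orderOf (t * s₀)) := by
  by_contra hodd
  rw [Nat.not_odd_iff_even] at hodd
  obtain ⟨hz, hzt, hzs⟩ := central_inv ht hs₀ hodd
  have hzH : (t * s₀) ^ (orderOf (t * s₀) / 2) ∈ H := se_centralizer hH htH ht hzt.eq
  have hs₀H : s₀ ∈ H := se_centralizer hH hzH hz hzs.eq.symm
  exact hg (se_mem_of_conj hH hs₀H hs₀ hs₀g)

/-- For involutions `t ∈ H` and `s₀ ∈ uHu⁻¹` (`u ∉ H`) there is an involution `i ∈ uH` conjugating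
`t` to `s₀`. -/
theorem se_swap (hH : IsStronglyEmbedded H) {t s₀ u : G} (ht : orderOf t = 2) (htH : t ∈ H)
    (hs₀ : orderOf s₀ = 2) (hu : u ∉ H) (hs₀u : u⁻¹ * s₀ * u ∈ H) :
    ∃ i : G, orderOf i = 2 ∧ u⁻¹ * i ∈ H ∧ i * t * i⁻¹ = s₀ := by
  have hodd := se_odd hH ht htH hs₀ hu hs₀u
  obtain ⟨m, hm⟩ := exists_pow_conj_of_odd ht hs₀ hodd
  have ht2 := sq_eq_one_of_orderOf_two ht
  have hs₀2 := sq_eq_one_of_orderOf_two hs₀
  have hinv : t * (t * s₀) ^ m * t⁻¹ = ((t * s₀) ^ m)⁻¹ := inv_conj_pow (inv_conj_mul ht2 hs₀2) m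
  generalize (t * s₀) ^ m = w at hm hinv
  have hs₁ : orderOf (u⁻¹ * s₀ * u) = 2 := by
    have := orderOf_conj_two (g := u⁻¹) hs₀
    rwa [inv_inv] at this
  have hwH : u⁻¹ * w ∈ H := by
    apply se_mem_of_conj hH hs₀u hs₁
    have e1 : (u⁻¹ * w)⁻¹ * (u⁻¹ * s₀ * u) * (u⁻¹ * w) = w⁻¹ * s₀ * w := by group
    rw [e1, ← hm]
    have e2 : w⁻¹ * (w * t * w⁻¹) * w = t := by group
    rw [e2]; exact htH
  refine ⟨w * t, ?_, ?_, ?_⟩
  · rw [orderOf_eq_two_iff']
    constructor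
    · intro h1
      have h2 : u⁻¹ * (w * t) ∈ H := by rw [← mul_assoc]; exact H.mul_mem hwH htH
      rw [h1, mul_one] at h2
      exact hu (by simpa using H.inv_mem h2)
    · calc w * t * (w * t) = w * (t * w * t⁻¹) * (t * t) := by group
        _ = 1 := by rw [hinv, ht2]; group
  · rw [← mul_assoc]; exact H.mul_mem hwH htH
  · calc w * t * t * (w * t)⁻¹ = w * t * w⁻¹ := by group
      _ = s₀ := hm

/-- Any two involutions of a strongly embedded `H` are conjugate under `H ∩ uHu⁻¹`. -/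
theorem se_conj_D (hH : IsStronglyEmbedded H) {u s t : G} (hu : orderOf u = 2) (huH : u ∉ H)
    (hs : orderOf s = 2) (hsH : s ∈ H) (ht : orderOf t = 2) (htH : t ∈ H) :
    ∃ d ∈ H ⊓ H.map (MulAut.conj u).toMonoidHom, d * s * d⁻¹ = t := by
  have hs₀2 : orderOf (u * s * u⁻¹) = 2 := orderOf_conj_two hs
  have hs₀u : u⁻¹ * (u * s * u⁻¹) * u ∈ H := by
    have : u⁻¹ * (u * s * u⁻¹) * u = s := by group
    rw [this]; exact hsH
  obtain ⟨i, hi2, hiH, hi⟩ := se_swap hH hs hsH hs₀2 huH hs₀u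
  obtain ⟨j, hj2, hjH, hj⟩ := se_swap hH ht htH hs₀2 huH hs₀u
  have hi' := inv_eq_self_of_orderOf_two hi2
  have hj' := inv_eq_self_of_orderOf_two hj2
  refine ⟨j⁻¹ * i, ⟨?_, ?_⟩, ?_⟩
  · have : j⁻¹ * i = (u⁻¹ * j)⁻¹ * (u⁻¹ * i) := by group
    rw [this]; exact H.mul_mem (H.inv_mem hjH) hiH
  · show j⁻¹ * i ∈ H.map (MulAut.conj u).toMonoidHom
    rw [mem_map_conj]
    have : u⁻¹ * (j⁻¹ * i) * u = (u⁻¹ * j) * (u⁻¹ * i)⁻¹ := by
      rw [hj', mul_inv_rev, hi', inv_inv]; group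
    rw [this]; exact H.mul_mem hjH (H.inv_mem hiH)
  · calc j⁻¹ * i * s * (j⁻¹ * i)⁻¹ = j⁻¹ * (i * s * i⁻¹) * j := by group
      _ = j⁻¹ * (j * t * j⁻¹) * j := by rw [hi, hj]
      _ = t := by group

/-- Every involution of `G` is conjugate into a strongly embedded subgroup. -/
theorem se_conj_into (hH : IsStronglyEmbedded H) {a : G} (ha : orderOf a = 2) :
    ∃ g : G, g⁻¹ * a * g ∈ H := by
  haveI : Fact (Nat.Prime 2) := ⟨Nat.prime_two⟩
  have heven := hH.2.1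
  obtain S : Sylow 2 H := default
  have hSp : IsPGroup 2 ((S : Subgroup H).map H.subtype) := S.isPGroup'.map _
  have hSH : (S : Subgroup H).map H.subtype ≤ H := by
    rintro _ ⟨x, _, rfl⟩
    exact x.2
  obtain ⟨P, hP⟩ := hSp.exists_le_sylow
  have hEq : (S : Subgroup H).map H.subtype = (P : Subgroup G) := by
    by_contra hne
    obtain ⟨r, hrP, hrN, hrS⟩ := exists_normalizing_not_mem P.isPGroup' hP hne
    -- an involution of S
    have hS2 : 2 ∣ Nat.card (S : Subgroup H) := S.dvd_card_of_dvd_card (even_iff_two_dvd.mp heven)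
    obtain ⟨z, hz⟩ := exists_prime_orderOf_dvd_card' 2 hS2
    have hzG : orderOf ((z : H) : G) = 2 := by
      rw [Subgroup.orderOf_coe, Subgroup.orderOf_coe]; exact hz
    have hzS : ((z : H) : G) ∈ (S : Subgroup H).map H.subtype := ⟨z, z.2, rfl⟩
    have hrz : r * ((z : H) : G) * r⁻¹ ∈ (S : Subgroup H).map H.subtype :=
      (Subgroup.mem_normalizer_iff.mp hrN _).mp hzS
    have hrH : r⁻¹ ∈ H := by
      apply se_mem_of_conj hH (hSH hzS) hzG
      rw [inv_inv]; exact hSH hrz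
    have hrH' : r ∈ H := by simpa using H.inv_mem hrH
    have hQ : IsPGroup 2 (((P : Subgroup G) ⊓ H).subgroupOf H) :=
      (P.isPGroup'.to_le inf_le_left).comap_subtype
    have hSQ : (S : Subgroup H) ≤ ((P : Subgroup G) ⊓ H).subgroupOf H := by
      intro x hx
      rw [Subgroup.mem_subgroupOf]
      exact Subgroup.mem_inf.mpr ⟨hP ⟨x, hx, rfl⟩, x.2⟩
    have hEq' := S.is_maximal' hQ hSQ
    apply hrS
    have h1 : (⟨r, hrH'⟩ : H) ∈ ((P : Subgroup G) ⊓ H).subgroupOf H := by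
      rw [Subgroup.mem_subgroupOf]
      exact Subgroup.mem_inf.mpr ⟨hrP, hrH'⟩
    rw [hEq'] at h1
    exact ⟨⟨r, hrH'⟩, h1, rfl⟩
  obtain ⟨k, hk⟩ := exists_conj_mem_sylow P ha
  refine ⟨k⁻¹, ?_⟩
  rw [inv_inv]
  apply hSH
  rw [hEq]; exact hk

/-- All involutions are conjugate, provided some involution lies outside `H`. -/
theorem se_all_conj (hH : IsStronglyEmbedded H) {u : G} (hu : orderOf u = 2) (huH : u ∉ H)
    {a b : G} (ha : orderOf a = 2) (hb : orderOf b = 2) : IsConj a b := by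
  have hnotin : ∀ {c g : G}, c ∉ H → g⁻¹ * c * g ∈ H → g ∉ H := by
    intro c g hc hg hgH
    apply hc
    have : c = g * (g⁻¹ * c * g) * g⁻¹ := by group
    rw [this]; exact H.mul_mem (H.mul_mem hgH hg) (H.inv_mem hgH)
  have key1 : ∀ {c : G}, orderOf c = 2 → c ∈ H → IsConj c u := by
    intro c hc hcH
    obtain ⟨g, hg⟩ := se_conj_into hH hu
    have hodd := se_odd hH hc hcH hu (hnotin huH hg) hg
    obtain ⟨m, hm⟩ := exists_pow_conj_of_odd hc hu hodd
    exact isConj_iff.mpr ⟨_, hm⟩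
  obtain ⟨b₀, hb₀H, hb₀⟩ := exists_involution_of_even_card hH.2.1
  have key2 : ∀ {c : G}, orderOf c = 2 → IsConj c u := by
    intro c hc
    by_cases hcH : c ∈ H
    · exact key1 hc hcH
    · obtain ⟨g, hg⟩ := se_conj_into hH hc
      have hodd := se_odd hH hb₀ hb₀H hc (hnotin hcH hg) hg
      obtain ⟨m, hm⟩ := exists_pow_conj_of_odd hb₀ hc hodd
      have h1 : IsConj b₀ c := isConj_iff.mpr ⟨_, hm⟩
      exact h1.symm.trans (key1 hb₀ hb₀H)
  exact (key2 ha).trans (key2 hb).symm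

omit [Finite G] in
theorem smul_mk_eq_iff (t g g' : G) :
    t • (QuotientGroup.mk g : G ⧸ H) = QuotientGroup.mk g' ↔ g'⁻¹ * t * g ∈ H := by
  rw [MulAction.Quotient.smul_mk, smul_eq_mul, QuotientGroup.eq]
  have : (t * g)⁻¹ * g' = (g'⁻¹ * t * g)⁻¹ := by group
  rw [this, H.inv_mem_iff]

/-- An involution fixes at most one coset of a strongly embedded subgroup. -/
theorem se_fix_unique (hH : IsStronglyEmbedded H) {a : G} (ha : orderOf a = 2) {x y : G ⧸ H}
    (hx : a • x = x) (hy : a • y = y) : x = y := by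
  induction x using QuotientGroup.induction_on with
  | H g =>
    induction y using QuotientGroup.induction_on with
    | H g' =>
      rw [smul_mk_eq_iff] at hx hy
      rw [QuotientGroup.eq]
      have hs2 : orderOf (g⁻¹ * a * g) = 2 := by
        have := orderOf_conj_two (g := g⁻¹) ha
        rwa [inv_inv] at this
      apply se_mem_of_conj hH hx hs2
      have : (g⁻¹ * g')⁻¹ * (g⁻¹ * a * g) * (g⁻¹ * g') = g'⁻¹ * a * g' := by group
      rw [this]; exact hy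

theorem se_fix_exists (hH : IsStronglyEmbedded H) {a : G} (ha : orderOf a = 2) :
    ∃ x : G ⧸ H, a • x = x := by
  obtain ⟨g, hg⟩ := se_conj_into hH ha
  exact ⟨QuotientGroup.mk g, (smul_mk_eq_iff a g g).mpr hg⟩

end Cfsg.Agent.Lib_helper2_SE2
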