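import Mathlib
import Cfsg.Agent.Lib_helper2_SE2

set_option autoImplicit false

namespace Cfsg.Agent.Lib_helper2_EAC

open Cfsg Cfsg.Agent.Lib_helper2_Dihedral Cfsg.Agent.Lib_helper2_Inv Cfsg.Agent.Lib_helper2_Isolated
  Cfsg.Agent.Lib_helper2_SE Cfsg.Agent.Lib_helper2_BS Cfsg.Agent.Lib_helper2_Klein
  Cfsg.Agent.Lib_helper2_SE2

variable {G : Type*} [Group G] [Finite G]

/-- Centralizers of involutions are elementary abelian 2-groups. -/
def CentElem (G : Type*) [Group G] : Prop :=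
  ∀ t : G, orderOf t = 2 → IsMulCommutative (Subgroup.centralizer ({t} : Set G)) ∧
    ∀ c ∈ Subgroup.centralizer ({t} : Set G), c ^ 2 = 1

theorem isPGroup_centralizer (hC : CentElem G) {t : G} (ht : orderOf t = 2) :
    IsPGroup 2 (Subgroup.centralizer ({t} : Set G)) := by
  intro c
  refine ⟨1, ?_⟩
  have := (hC t ht).2 c.1 c.2
  rw [pow_one]
  exact Subtype.ext this

/-- A central involution of a noncyclic Sylow 2-subgroup. -/
theorem exists_central_involution (T : Sylow 2 G) (hnc : ¬ IsCyclic (T : Subgroup G)) :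
    ∃ z ∈ (T : Subgroup G), orderOf z = 2 ∧ ∀ x ∈ (T : Subgroup G), x * z = z * x := by
  haveI : Fact (Nat.Prime 2) := ⟨Nat.prime_two⟩
  haveI : Nontrivial (T : Subgroup G) := by
    by_contra h
    rw [not_nontrivial_iff_subsingleton] at h
    exact hnc inferInstance
  haveI := IsPGroup.center_nontrivial T.isPGroup'
  have hZp : IsPGroup 2 (Subgroup.center (T : Subgroup G)) := T.isPGroup'.to_subgroup _
  have h2 : 2 ∣ Nat.card (Subgroup.center (T : Subgroup G)) := by
    rcases hZp.card_eq_or_dvd with h | h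
    · exfalso
      have : Subgroup.center (T : Subgroup G) = ⊥ := Subgroup.card_eq_one.mp h
      exact (Subgroup.nontrivial_iff_ne_bot _).mp inferInstance this
    · exact h
  obtain ⟨z, hz⟩ := exists_prime_orderOf_dvd_card' 2 h2
  refine ⟨((z : (T : Subgroup G)) : G), (z : (T : Subgroup G)).2, ?_, ?_⟩
  · rw [Subgroup.orderOf_coe, Subgroup.orderOf_coe]; exact hz
  · intro x hx
    have := Subgroup.mem_center_iff.mp z.2 ⟨x, hx⟩
    exact congrArg Subtype.val this

theorem centralizer_eq_of_central (hC : CentElem G) (T : Sylow 2 G) {z : G} (hz : orderOf z = 2)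
    (hzc : ∀ x ∈ (T : Subgroup G), x * z = z * x) :
    Subgroup.centralizer ({z} : Set G) = (T : Subgroup G) := by
  apply T.is_maximal' (isPGroup_centralizer hC hz)
  intro x hx
  rw [Subgroup.mem_centralizer_iff]
  intro y hy
  rw [Set.mem_singleton_iff] at hy
  rw [hy]
  exact (hzc x hx).symm

theorem T_sq (hC : CentElem G) (T : Sylow 2 G) (hnc : ¬ IsCyclic (T : Subgroup G)) :
    ∀ x ∈ (T : Subgroup G), x * x = 1 := by
  obtain ⟨z, hzT, hz, hzc⟩ := exists_central_involution T hnc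
  intro x hx
  rw [← centralizer_eq_of_central hC T hz hzc] at hx
  have := (hC z hz).2 x hx
  rwa [pow_two] at this

theorem T_comm (hC : CentElem G) (T : Sylow 2 G) (hnc : ¬ IsCyclic (T : Subgroup G)) :
    ∀ x ∈ (T : Subgroup G), ∀ y ∈ (T : Subgroup G), x * y = y * x := by
  obtain ⟨z, hzT, hz, hzc⟩ := exists_central_involution T hnc
  intro x hx y hy
  rw [← centralizer_eq_of_central hC T hz hzc] at hx hy
  exact congrArg Subtype.val ((hC z hz).1.is_comm.comm ⟨x, hx⟩ ⟨y, hy⟩)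

/-- The centralizer of any involution of `T` is `T`. -/
theorem centralizer_eq (hC : CentElem G) (T : Sylow 2 G) (hnc : ¬ IsCyclic (T : Subgroup G))
    {s : G} (hs : orderOf s = 2) (hsT : s ∈ (T : Subgroup G)) :
    Subgroup.centralizer ({s} : Set G) = (T : Subgroup G) :=
  centralizer_eq_of_central hC T hs (fun x hx => T_comm hC T hnc x hx s hsT)

theorem comm_mem_T (hC : CentElem G) (T : Sylow 2 G) (hnc : ¬ IsCyclic (T : Subgroup G))
    {s g : G} (hs : orderOf s = 2) (hsT : s ∈ (T : Subgroup G)) (hc : g * s = s * g) :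
    g ∈ (T : Subgroup G) := by
  rw [← centralizer_eq hC T hnc hs hsT, Subgroup.mem_centralizer_iff]
  intro y hy
  rw [Set.mem_singleton_iff] at hy
  rw [hy]; exact hc.symm

/-- An involution of `N(T)` lies in `T`. -/
theorem involution_mem_T (T : Sylow 2 G) {s : G} (hs : orderOf s = 2)
    (hsN : s ∈ Subgroup.normalizer ((T : Subgroup G) : Set G)) : s ∈ (T : Subgroup G) := by
  haveI : Fact (Nat.Prime 2) := ⟨Nat.prime_two⟩
  apply mem_sylow_of_mem_normalizer T (e := 1) _ hsN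
  rw [pow_one, pow_two]; exact sq_eq_one_of_orderOf_two hs

theorem T_ne_bot (T : Sylow 2 G) (hnc : ¬ IsCyclic (T : Subgroup G)) : (T : Subgroup G) ≠ ⊥ := by
  intro h
  apply hnc
  rw [h]
  infer_instance

/-- `N(T)` is strongly embedded. -/
theorem se_normalizer (hC : CentElem G) (T : Sylow 2 G) (hnc : ¬ IsCyclic (T : Subgroup G))
    (hnn : ¬ (T : Subgroup G).Normal) :
    IsStronglyEmbedded (Subgroup.normalizer ((T : Subgroup G) : Set G)) := by
  rw [se_iff]
  obtain ⟨z, hzT, hz, hzc⟩ := exists_central_involution T hnc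
  refine ⟨?_, ?_, ?_⟩
  · intro h
    exact hnn (Subgroup.normalizer_eq_top_iff.mp h)
  · exact even_card_of_involution_mem hz (Subgroup.le_normalizer hzT)
  · intro g s hsN hs hgs
    have hsT := involution_mem_T T hs hsN
    have hs' : orderOf (g⁻¹ * s * g) = 2 := by
      have := orderOf_conj_two (g := g⁻¹) hs
      rwa [inv_inv] at this
    have hgsT := involution_mem_T T hs' hgs
    -- g⁻¹ T g = T
    rw [Subgroup.mem_normalizer_iff]
    have key : ∀ x, x ∈ (T : Subgroup G) → g * x * g⁻¹ ∈ (T : Subgroup G) := by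
      intro x hx
      -- g x g⁻¹ commutes with s
      apply comm_mem_T hC T hnc hs hsT
      have h1 : x * (g⁻¹ * s * g) = (g⁻¹ * s * g) * x := T_comm hC T hnc x hx _ hgsT
      calc g * x * g⁻¹ * s = g * (x * (g⁻¹ * s * g)) * g⁻¹ := by group
        _ = g * ((g⁻¹ * s * g) * x) * g⁻¹ := by rw [h1]
        _ = s * (g * x * g⁻¹) := by group
    have key' : ∀ x, x ∈ (T : Subgroup G) → g⁻¹ * x * g ∈ (T : Subgroup G) := by
      intro x hx
      apply comm_mem_T hC T hnc hs' hgsT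
      have h1 : x * s = s * x := T_comm hC T hnc x hx _ hsT
      calc g⁻¹ * x * g * (g⁻¹ * s * g) = g⁻¹ * (x * s) * g := by group
        _ = g⁻¹ * (s * x) * g := by rw [h1]
        _ = g⁻¹ * s * g * (g⁻¹ * x * g) := by group
    intro x
    constructor
    · exact key x
    · intro hx
      have := key' _ hx
      have e : g⁻¹ * (g * x * g⁻¹) * g = x := by group
      rwa [e] at this

/-- A fixed-point-free involutory conjugation action on a finite subgroup inverts it. -/
theorem inverts_of_fpf {D : Subgroup G} {u : G} (hu : u * u = 1)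
    (hnorm : ∀ d ∈ D, u * d * u⁻¹ ∈ D) (hfpf : ∀ d ∈ D, u * d * u⁻¹ = d → d = 1) :
    ∀ d ∈ D, u * d * u⁻¹ = d⁻¹ := by
  have hu' : u⁻¹ = u := inv_eq_of_mul_eq_one_left hu
  let φ : D → D := fun e => ⟨(e : G)⁻¹ * (u * e * u⁻¹), D.mul_mem (D.inv_mem e.2) (hnorm e e.2)⟩
  have hinj : Function.Injective φ := by
    intro e e' h
    have h1 : (e : G)⁻¹ * (u * e * u⁻¹) = (e' : G)⁻¹ * (u * e' * u⁻¹) := congrArg Subtype.val h
    have h2 : u * ((e' : G) * (e : G)⁻¹) * u⁻¹ = (e' : G) * (e : G)⁻¹ := by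
      calc u * ((e' : G) * (e : G)⁻¹) * u⁻¹
          = (e' : G) * ((e' : G)⁻¹ * (u * e' * u⁻¹)) * ((e : G)⁻¹ * (u * e * u⁻¹))⁻¹ * (e : G)⁻¹ := by
            group
        _ = (e' : G) * (e : G)⁻¹ := by rw [h1]; group
    have h3 := hfpf _ (D.mul_mem e'.2 (D.inv_mem e.2)) h2
    have h4 : (e' : G) = e := by
      calc (e' : G) = (e' : G) * (e : G)⁻¹ * e := by group
        _ = e := by rw [h3, one_mul]
    exact Subtype.ext h4.symm
  have hsurj : Function.Surjective φ := Finite.surjective_of_injective hinj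
  intro d hd
  obtain ⟨e, he⟩ := hsurj ⟨d, hd⟩
  have h1 : (e : G)⁻¹ * (u * e * u⁻¹) = d := congrArg Subtype.val he
  rw [← h1, hu']
  calc u * ((e : G)⁻¹ * (u * e * u)) * u = u * (e : G)⁻¹ * u * e * (u * u) := by
        simp only [mul_assoc]
    _ = u * (e : G)⁻¹ * u * e := by rw [hu, mul_one]
    _ = ((e : G)⁻¹ * (u * e * u))⁻¹ := by
      simp only [mul_inv_rev, inv_inv, hu', mul_assoc]

/-- `N(T)`. -/
abbrev NT (T : Sylow 2 G) : Subgroup G := Subgroup.normalizer ((T : Subgroup G) : Set G)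

/-- `D = N(T) ∩ u N(T) u⁻¹`. -/
abbrev DD (T : Sylow 2 G) (u : G) : Subgroup G := NT T ⊓ (NT T).map (MulAut.conj u).toMonoidHom

section
variable (hC : CentElem G) (T : Sylow 2 G) (hnc : ¬ IsCyclic (T : Subgroup G))
  (hnn : ¬ (T : Subgroup G).Normal) {u : G} (hu : orderOf u = 2) (huH : u ∉ NT T)
include hC hnc hnn hu huH

theorem DD_odd : Odd (Nat.card (DD T u)) := (se_normalizer hC T hnc hnn).2.2 u huH

theorem DD_orderOf_odd {d : G} (hd : d ∈ DD T u) : Odd (orderOf d) := by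
  have h1 : orderOf d ∣ Nat.card (DD T u) := by
    have := orderOf_dvd_natCard (⟨d, hd⟩ : DD T u)
    rwa [Subgroup.orderOf_mk] at this
  exact (DD_odd hC T hnc hnn hu huH).of_dvd_nat h1

theorem DD_eq_one_of_sq {d : G} (hd : d ∈ DD T u) (h2 : d * d = 1) : d = 1 := by
  have hodd := DD_orderOf_odd hC T hnc hnn hu huH hd
  have h3 : orderOf d ∣ 2 := orderOf_dvd_of_pow_eq_one (by rw [pow_two]; exact h2)
  have h4 : orderOf d = 1 := by
    rcases (Nat.dvd_prime Nat.prime_two).mp h3 with h | h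
    · exact h
    · rw [h] at hodd; exact absurd hodd (by decide)
  exact orderOf_eq_one_iff.mp h4

theorem DD_conj_u {d : G} (hd : d ∈ DD T u) : u * d * u⁻¹ ∈ DD T u := by
  have hu' := inv_eq_self_of_orderOf_two hu
  obtain ⟨h1, h2⟩ := hd
  have h2' : u⁻¹ * d * u ∈ NT T := mem_map_conj.mp h2
  refine ⟨?_, ?_⟩
  · have : u * d * u⁻¹ = u⁻¹ * d * u := by rw [hu']
    rw [this]; exact h2'
  · show u * d * u⁻¹ ∈ (NT T).map (MulAut.conj u).toMonoidHom
    rw [mem_map_conj]
    have : u⁻¹ * (u * d * u⁻¹) * u = d := by group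
    rw [this]; exact h1

/-- `u` inverts `D`. -/
theorem DD_inverted {d : G} (hd : d ∈ DD T u) : u * d * u⁻¹ = d⁻¹ := by
  apply inverts_of_fpf (D := DD T u) (sq_eq_one_of_orderOf_two hu)
    (fun d hd => DD_conj_u hC T hnc hnn hu huH hd) _ d hd
  intro e he hfix
  apply DD_eq_one_of_sq hC T hnc hnn hu huH he
  have hmem : e ∈ Subgroup.centralizer ({u} : Set G) := by
    rw [Subgroup.mem_centralizer_iff]
    intro y hy
    rw [Set.mem_singleton_iff] at hy
    rw [hy]
    calc u * e = u * e * u⁻¹ * u := by group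
      _ = e * u := by rw [hfix]
  have := (hC u hu).2 e hmem
  rwa [pow_two] at this

theorem DD_comm {d e : G} (hd : d ∈ DD T u) (he : e ∈ DD T u) : d * e = e * d := by
  have h1 := DD_inverted hC T hnc hnn hu huH hd
  have h2 := DD_inverted hC T hnc hnn hu huH he
  have h3 := DD_inverted hC T hnc hnn hu huH ((DD T u).mul_mem hd he)
  have h4 : u * (d * e) * u⁻¹ = (u * d * u⁻¹) * (u * e * u⁻¹) := by group
  rw [h4, h1, h2, mul_inv_rev] at h3
  -- d⁻¹ e⁻¹ = e⁻¹ d⁻¹
  have h5 : (d⁻¹ * e⁻¹)⁻¹ = (e⁻¹ * d⁻¹)⁻¹ := by rw [h3]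
  rw [mul_inv_rev, mul_inv_rev, inv_inv, inv_inv] at h5
  exact h5.symm

theorem DD_inf_T {d : G} (hd : d ∈ DD T u) (hdT : d ∈ (T : Subgroup G)) : d = 1 :=
  DD_eq_one_of_sq hC T hnc hnn hu huH hd (T_sq hC T hnc d hdT)

/-- `N(T) = D T`. -/
theorem NT_eq_mul {h : G} (hh : h ∈ NT T) :
    ∃ d ∈ DD T u, ∃ t ∈ (T : Subgroup G), h = d * t := by
  obtain ⟨z, hzT, hz, -⟩ := exists_central_involution T hnc
  have hse := se_normalizer hC T hnc hnn
  have h1 : h * z * h⁻¹ ∈ (T : Subgroup G) := (Subgroup.mem_normalizer_iff.mp hh z).mp hzT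
  have h2 : orderOf (h * z * h⁻¹) = 2 := orderOf_conj_two hz
  obtain ⟨d, hd, hdz⟩ := se_conj_D hse hu huH hz (Subgroup.le_normalizer hzT) h2
    (Subgroup.le_normalizer h1)
  refine ⟨d, hd, d⁻¹ * h, ?_, by group⟩
  apply comm_mem_T hC T hnc hz hzT
  calc d⁻¹ * h * z = d⁻¹ * (h * z * h⁻¹) * h := by group
    _ = d⁻¹ * (d * z * d⁻¹) * h := by rw [hdz]
    _ = z * (d⁻¹ * h) := by group

theorem DD_le : DD T u ≤ NT T := inf_le_left

theorem T_le : (T : Subgroup G) ≤ NT T := Subgroup.le_normalizer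

theorem isComplement_DD_T :
    Subgroup.IsComplement' ((DD T u).subgroupOf (NT T)) ((T : Subgroup G).subgroupOf (NT T)) := by
  apply Subgroup.isComplement'_of_disjoint_and_mul_eq_univ
  · rw [Subgroup.disjoint_def]
    intro x hx hxT
    rw [Subgroup.mem_subgroupOf] at hx hxT
    exact Subtype.ext (DD_inf_T hC T hnc hnn hu huH hx hxT)
  · rw [Set.eq_univ_iff_forall]
    intro h
    obtain ⟨d, hd, t, ht, hdt⟩ := NT_eq_mul hC T hnc hnn hu huH h.2
    refine ⟨⟨d, DD_le hC T hnc hnn hu huH hd⟩, ?_, ⟨t, Subgroup.le_normalizer ht⟩, ?_, ?_⟩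
    · exact Subgroup.mem_subgroupOf.mpr hd
    · exact Subgroup.mem_subgroupOf.mpr ht
    · exact Subtype.ext hdt.symm

/-- `|D| = |T| - 1`. -/
theorem card_DD : Nat.card (DD T u) = Nat.card (T : Subgroup G) - 1 := by
  obtain ⟨z, hzT, hz, -⟩ := exists_central_involution T hnc
  have hse := se_normalizer hC T hnc hnn
  have hz1 : z ≠ 1 := ne_one_of_orderOf_two hz
  have hnorm : ∀ d ∈ DD T u, ∀ t ∈ (T : Subgroup G), d * t * d⁻¹ ∈ (T : Subgroup G) := by
    intro d hd t ht
    exact (Subgroup.mem_normalizer_iff.mp (DD_le hC T hnc hnn hu huH hd) t).mp ht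
  have hcard : Nat.card (DD T u) = Nat.card {t : (T : Subgroup G) // t ≠ 1} := by
    apply Nat.card_congr
    refine Equiv.ofBijective (fun d => ⟨⟨(d : G) * z * (d : G)⁻¹, hnorm d d.2 z hzT⟩, ?_⟩) ⟨?_, ?_⟩
    · intro h
      have h1 : (d : G) * z * (d : G)⁻¹ = 1 := congrArg Subtype.val h
      apply hz1
      calc z = (d : G)⁻¹ * ((d : G) * z * (d : G)⁻¹) * d := by group
        _ = 1 := by rw [h1]; group
    · intro d e h
      have h1 : (d : G) * z * (d : G)⁻¹ = (e : G) * z * (e : G)⁻¹ :=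
        congrArg (fun x => ((x : {t : (T : Subgroup G) // t ≠ 1}) : G)) h
      have h2 : (e : G)⁻¹ * d ∈ (T : Subgroup G) := by
        apply comm_mem_T hC T hnc hz hzT
        calc (e : G)⁻¹ * d * z = (e : G)⁻¹ * ((d : G) * z * (d : G)⁻¹) * d := by group
          _ = (e : G)⁻¹ * ((e : G) * z * (e : G)⁻¹) * d := by rw [h1]
          _ = z * ((e : G)⁻¹ * d) := by group
      have h3 := DD_inf_T hC T hnc hnn hu huH ((DD T u).mul_mem ((DD T u).inv_mem e.2) d.2) h2
      apply Subtype.ext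
      calc (d : G) = e * ((e : G)⁻¹ * d) := by group
        _ = e := by rw [h3, mul_one]
    · rintro ⟨⟨t, ht⟩, ht1⟩
      have ht1' : t ≠ 1 := fun h => ht1 (Subtype.ext h)
      have ht2 : orderOf t = 2 := orderOf_eq_two_iff'.mpr ⟨ht1', T_sq hC T hnc t ht⟩
      obtain ⟨d, hd, hdz⟩ := se_conj_D hse hu huH hz (Subgroup.le_normalizer hzT) ht2
        (Subgroup.le_normalizer ht)
      exact ⟨⟨d, hd⟩, Subtype.ext (Subtype.ext hdz)⟩
  rw [hcard]
  have h2 : Nat.card {t : (T : Subgroup G) // t ≠ 1} + 1 = Nat.card (T : Subgroup G) := by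
    have h3 : Nat.card {t : (T : Subgroup G) // t ≠ 1} = Set.ncard {t : (T : Subgroup G) | t ≠ 1} := rfl
    have h4 : {t : (T : Subgroup G) | t ≠ 1} = (Set.univ : Set (T : Subgroup G)) \ {1} := by
      ext t; simp
    rw [h3, h4, Set.ncard_sdiff (by simp) (Set.finite_singleton _), Set.ncard_univ, Set.ncard_singleton]
    have : 0 < Nat.card (T : Subgroup G) := Nat.card_pos
    omega
  omega

theorem card_NT : Nat.card (NT T) = Nat.card (T : Subgroup G) * (Nat.card (T : Subgroup G) - 1) := by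
  have h1 := (isComplement_DD_T hC T hnc hnn hu huH).card_mul_card
  have h2 : Nat.card ((DD T u).subgroupOf (NT T)) = Nat.card (DD T u) :=
    Nat.card_congr (Subgroup.subgroupOfEquivOfLe (DD_le hC T hnc hnn hu huH)).toEquiv
  have h3 : Nat.card ((T : Subgroup G).subgroupOf (NT T)) = Nat.card (T : Subgroup G) :=
    Nat.card_congr (Subgroup.subgroupOfEquivOfLe Subgroup.le_normalizer).toEquiv
  rw [h2, h3, card_DD hC T hnc hnn hu huH] at h1
  rw [← h1, mul_comm]

end

end Cfsg.Agent.Lib_helper2_EAC
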