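import Mathlib
import Cfsg.Agent.Lib_helper2_EAC

set_option autoImplicit false

namespace Cfsg.Agent.Lib_helper2_EAC2

open Cfsg Cfsg.Agent.Lib_helper2_Dihedral Cfsg.Agent.Lib_helper2_Inv Cfsg.Agent.Lib_helper2_Isolated
  Cfsg.Agent.Lib_helper2_SE Cfsg.Agent.Lib_helper2_BS Cfsg.Agent.Lib_helper2_Klein
  Cfsg.Agent.Lib_helper2_SE2 Cfsg.Agent.Lib_helper2_EAC

variable {G : Type*} [Group G] [Finite G]

theorem three_le_card_T (T : Sylow 2 G) (hnc : ¬ IsCyclic (T : Subgroup G)) :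
    3 ≤ Nat.card (T : Subgroup G) := by
  have h0 : 0 < Nat.card (T : Subgroup G) := Nat.card_pos
  have h1 : Nat.card (T : Subgroup G) ≠ 1 := fun h => T_ne_bot T hnc (Subgroup.card_eq_one.mp h)
  have h2 : Nat.card (T : Subgroup G) ≠ 2 := by
    intro h
    haveI : Fact (Nat.Prime 2) := ⟨Nat.prime_two⟩
    exact hnc (isCyclic_of_prime_card (p := 2) h)
  omega

section
variable (hC : CentElem G) (T : Sylow 2 G) (hnc : ¬ IsCyclic (T : Subgroup G))
  (hnn : ¬ (T : Subgroup G).Normal) {u : G} (hu : orderOf u = 2) (huH : u ∉ NT T)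
include hC hnc hnn hu huH

theorem exists_DD_ne_one : ∃ d ∈ DD T u, d ≠ 1 := by
  have h1 := card_DD hC T hnc hnn hu huH
  have h2 := three_le_card_T T hnc
  have h3 : DD T u ≠ ⊥ := by
    intro h
    have : Nat.card (DD T u) = 1 := Subgroup.card_eq_one.mpr h
    omega
  obtain ⟨d, hd1⟩ := (Subgroup.ne_bot_iff_exists_ne_one).mp h3
  exact ⟨d, d.2, fun h => hd1 (Subtype.ext h)⟩

theorem DD_free {d z : G} (hd : d ∈ DD T u) (hz : z ∈ (T : Subgroup G)) (hz1 : z ≠ 1)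
    (h : d * z = z * d) : d = 1 := by
  have hz2 : orderOf z = 2 := orderOf_eq_two_iff'.mpr ⟨hz1, T_sq hC T hnc z hz⟩
  exact DD_inf_T hC T hnc hnn hu huH hd (comm_mem_T hC T hnc hz2 hz h)

theorem DD_trans {z t : G} (hz : z ∈ (T : Subgroup G)) (hz1 : z ≠ 1) (ht : t ∈ (T : Subgroup G))
    (ht1 : t ≠ 1) : ∃ d ∈ DD T u, d * z * d⁻¹ = t := by
  have hz2 : orderOf z = 2 := orderOf_eq_two_iff'.mpr ⟨hz1, T_sq hC T hnc z hz⟩
  have ht2 : orderOf t = 2 := orderOf_eq_two_iff'.mpr ⟨ht1, T_sq hC T hnc t ht⟩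
  exact se_conj_D (se_normalizer hC T hnc hnn) hu huH hz2 (Subgroup.le_normalizer hz) ht2
    (Subgroup.le_normalizer ht)

/-- The centralizer in `N(T)` of a nontrivial element of `D` lies in `D`. -/
theorem DD_centralizer {d₀ h : G} (hd₀ : d₀ ∈ DD T u) (hd₀1 : d₀ ≠ 1) (hh : h ∈ NT T)
    (hc : h * d₀ = d₀ * h) : h ∈ DD T u := by
  obtain ⟨d, hd, t, ht, rfl⟩ := NT_eq_mul hC T hnc hnn hu huH hh
  have h1 : d * d₀ = d₀ * d := DD_comm hC T hnc hnn hu huH hd hd₀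
  have h2 : t * d₀ = d₀ * t := by
    have : d * (t * d₀) = d * (d₀ * t) := by
      calc d * (t * d₀) = d * t * d₀ := by group
        _ = d₀ * (d * t) := hc
        _ = (d₀ * d) * t := by group
        _ = (d * d₀) * t := by rw [h1]
        _ = d * (d₀ * t) := by group
    exact mul_left_cancel this
  by_cases ht1 : t = 1
  · rw [ht1, mul_one]; exact hd
  · exfalso; exact hd₀1 (DD_free hC T hnc hnn hu huH hd₀ ht ht1 h2.symm)

/-- No element of `N(T)` inverts a nontrivial element of `D`. -/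
theorem no_invert {d₀ h : G} (hd₀ : d₀ ∈ DD T u) (hd₀1 : d₀ ≠ 1) (hh : h ∈ NT T)
    (hinv : h * d₀ * h⁻¹ = d₀⁻¹) : False := by
  obtain ⟨d, hd, t, ht, rfl⟩ := NT_eq_mul hC T hnc hnn hu huH hh
  have h1 : d * d₀⁻¹ = d₀⁻¹ * d := DD_comm hC T hnc hnn hu huH hd (inv_mem hd₀)
  have h2 : t * d₀ * t⁻¹ = d₀⁻¹ := by
    calc t * d₀ * t⁻¹ = d⁻¹ * (d * t * d₀ * (d * t)⁻¹) * d := by group
      _ = d⁻¹ * d₀⁻¹ * d := by rw [hinv]
      _ = d⁻¹ * (d₀⁻¹ * d) := by group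
      _ = d⁻¹ * (d * d₀⁻¹) := by rw [h1]
      _ = d₀⁻¹ := by group
  have h3 : d₀⁻¹ * d₀⁻¹ ∈ (T : Subgroup G) := by
    have e : d₀⁻¹ * d₀⁻¹ = t * (d₀ * t⁻¹ * d₀⁻¹) := by
      calc d₀⁻¹ * d₀⁻¹ = (t * d₀ * t⁻¹) * d₀⁻¹ := by rw [h2]
        _ = t * (d₀ * t⁻¹ * d₀⁻¹) := by group
    rw [e]
    exact mul_mem ht ((Subgroup.mem_normalizer_iff.mp (DD_le hC T hnc hnn hu huH hd₀) t⁻¹).mp
      (inv_mem ht))
  have h4 := DD_inf_T hC T hnc hnn hu huH (mul_mem (inv_mem hd₀) (inv_mem hd₀)) h3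
  have h5 := DD_eq_one_of_sq hC T hnc hnn hu huH (inv_mem hd₀) h4
  exact hd₀1 (inv_eq_one.mp h5)

/-- Two involutions outside `N(T)` whose `D`-groups share a nontrivial element lie in the same
coset of `N(T)`. -/
theorem same_coset {v : G} (hv : orderOf v = 2) (hvH : v ∉ NT T) {d₀ : G} (hd₀ : d₀ ∈ DD T u)
    (hd₀v : d₀ ∈ DD T v) (hd₀1 : d₀ ≠ 1) : u⁻¹ * v ∈ NT T := by
  by_contra hc
  have hDle : ∀ d ∈ DD T u, d ∈ DD T v := fun d hd =>
    DD_centralizer hC T hnc hnn hv hvH hd₀v hd₀1 (DD_le hC T hnc hnn hu huH hd)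
      (DD_comm hC T hnc hnn hu huH hd hd₀)
  have hvinv : ∀ d ∈ DD T u, v * d * v⁻¹ = d⁻¹ := fun d hd =>
    DD_inverted hC T hnc hnn hv hvH (hDle d hd)
  have hccent : ∀ d ∈ DD T u, (u⁻¹ * v) * d * (u⁻¹ * v)⁻¹ = d := by
    intro d hd
    have h1 := hvinv d hd
    have h2 := DD_inverted hC T hnc hnn hu huH hd
    calc (u⁻¹ * v) * d * (u⁻¹ * v)⁻¹ = u⁻¹ * (v * d * v⁻¹) * u := by group
      _ = u⁻¹ * (u * d * u⁻¹) * u := by rw [h1, h2]
      _ = d := by group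
  generalize u⁻¹ * v = c at hc hccent
  obtain ⟨z, hzT, hz, -⟩ := exists_central_involution T hnc
  have hse := se_normalizer hC T hnc hnn
  have hs₀ : orderOf (c * z * c⁻¹) = 2 := orderOf_conj_two hz
  have hs₀c : c⁻¹ * (c * z * c⁻¹) * c ∈ NT T := by
    have : c⁻¹ * (c * z * c⁻¹) * c = z := by group
    rw [this]; exact Subgroup.le_normalizer hzT
  obtain ⟨w, hw2, hwH, -⟩ := se_swap hse hz (Subgroup.le_normalizer hzT) hs₀ hc hs₀c
  have hw' := inv_eq_self_of_orderOf_two hw2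
  have hhH : w * c ∈ NT T := by
    have : w * c = (c⁻¹ * w)⁻¹ := by rw [mul_inv_rev, inv_inv, hw']
    rw [this]; exact inv_mem hwH
  have hwnH : w ∉ NT T := by
    intro h
    apply hc
    have : c = w⁻¹ * (w * c) := by group
    rw [this]; exact mul_mem (inv_mem h) hhH
  have hDw : ∀ d ∈ DD T u, d ∈ DD T w := by
    intro d hd
    refine ⟨DD_le hC T hnc hnn hu huH hd, ?_⟩
    show d ∈ (NT T).map (MulAut.conj w).toMonoidHom
    rw [mem_map_conj]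
    have h1 : c⁻¹ * d * c = d := by
      have := hccent d hd
      calc c⁻¹ * d * c = c⁻¹ * (c * d * c⁻¹) * c := by rw [this]
        _ = d := by group
    have e : w⁻¹ * d * w = (c⁻¹ * w)⁻¹ * (c⁻¹ * d * c) * (c⁻¹ * w) := by group
    rw [e, h1]
    exact mul_mem (mul_mem (inv_mem hwH) (DD_le hC T hnc hnn hu huH hd)) hwH
  have hinv : (w * c) * d₀ * (w * c)⁻¹ = d₀⁻¹ := by
    calc (w * c) * d₀ * (w * c)⁻¹ = w * (c * d₀ * c⁻¹) * w⁻¹ := by group
      _ = w * d₀ * w⁻¹ := by rw [hccent d₀ hd₀]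
      _ = d₀⁻¹ := DD_inverted hC T hnc hnn hw2 hwnH (hDw d₀ hd₀)
  exact no_invert hC T hnc hnn hu huH hd₀ hd₀1 hhH hinv

/-- Every involution outside `N(T)` lies in `T u N(T)`. -/
theorem exists_T_mul {v : G} (hv : orderOf v = 2) (hvH : v ∉ NT T) :
    ∃ t ∈ (T : Subgroup G), (t * u)⁻¹ * v ∈ NT T := by
  obtain ⟨d₀, hd₀, hd₀1⟩ := exists_DD_ne_one hC T hnc hnn hu huH
  obtain ⟨d', hd', t₁, ht₁, hdt⟩ := NT_eq_mul hC T hnc hnn hv hvH (DD_le hC T hnc hnn hu huH hd₀)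
  have hd'1 : d' ≠ 1 := by
    intro h
    rw [h, one_mul] at hdt
    rw [hdt] at hd₀ hd₀1
    exact hd₀1 (DD_inf_T hC T hnc hnn hu huH hd₀ ht₁)
  have hd'N : d' ∈ NT T := DD_le hC T hnc hnn hv hvH hd'
  have hconj : ∀ t ∈ (T : Subgroup G), d'⁻¹ * t * d' ∈ (T : Subgroup G) := by
    intro t ht
    have := (Subgroup.mem_normalizer_iff.mp (inv_mem hd'N) t).mp ht
    rwa [inv_inv] at this
  let ψ : ↥(T : Subgroup G) → ↥(T : Subgroup G) := fun t =>
    ⟨d'⁻¹ * t * d' * (t : G)⁻¹, mul_mem (hconj t t.2) (inv_mem t.2)⟩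
  have hinj : Function.Injective ψ := by
    intro t s h
    have h1 : d'⁻¹ * t * d' * (t : G)⁻¹ = d'⁻¹ * s * d' * (s : G)⁻¹ := congrArg Subtype.val h
    have h2 : d' * ((s : G)⁻¹ * t) = ((s : G)⁻¹ * t) * d' := by
      calc d' * ((s : G)⁻¹ * t) = (s : G)⁻¹ * (d' * (d'⁻¹ * s * d' * (s : G)⁻¹))⁻¹⁻¹ * t := by group
        _ = (s : G)⁻¹ * (d' * (d'⁻¹ * t * d' * (t : G)⁻¹))⁻¹⁻¹ * t := by rw [h1]
        _ = ((s : G)⁻¹ * t) * d' := by group
    by_contra hne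
    have h3 : (s : G)⁻¹ * t ≠ 1 := by
      intro h4
      apply hne
      apply Subtype.ext
      calc (t : G) = s * ((s : G)⁻¹ * t) := by group
        _ = s := by rw [h4, mul_one]
    exact hd'1 (DD_free hC T hnc hnn hv hvH hd' (mul_mem (inv_mem s.2) t.2) h3 h2)
  obtain ⟨t, ht⟩ := Finite.surjective_of_injective hinj ⟨t₁, ht₁⟩
  have ht' : d'⁻¹ * t * d' * (t : G)⁻¹ = t₁ := congrArg Subtype.val ht
  have hd₀eq : d₀ = t * d' * (t : G)⁻¹ := by
    rw [hdt, ← ht']; group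
  have hv' : orderOf ((t : G) * v * (t : G)⁻¹) = 2 := orderOf_conj_two hv
  have htN : (t : G) ∈ NT T := Subgroup.le_normalizer t.2
  have hv'H : (t : G) * v * (t : G)⁻¹ ∉ NT T := by
    intro h
    apply hvH
    have : v = (t : G)⁻¹ * ((t : G) * v * (t : G)⁻¹) * t := by group
    rw [this]; exact mul_mem (mul_mem (inv_mem htN) h) htN
  have hd₀v' : d₀ ∈ DD T ((t : G) * v * (t : G)⁻¹) := by
    rw [hd₀eq]
    refine ⟨(NT T).mul_mem ((NT T).mul_mem htN hd'N) ((NT T).inv_mem htN), ?_⟩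
    show _ ∈ (NT T).map (MulAut.conj ((t : G) * v * (t : G)⁻¹)).toMonoidHom
    rw [mem_map_conj]
    have e : ((t : G) * v * (t : G)⁻¹)⁻¹ * ((t : G) * d' * (t : G)⁻¹) * ((t : G) * v * (t : G)⁻¹)
        = (t : G) * (v⁻¹ * d' * v) * (t : G)⁻¹ := by group
    rw [e]
    exact mul_mem (mul_mem htN (mem_map_conj.mp hd'.2)) (inv_mem htN)
  have hsame := same_coset hC T hnc hnn hu huH hv' hv'H hd₀ hd₀v' hd₀1
  refine ⟨(t : G)⁻¹, inv_mem t.2, ?_⟩
  have e : ((t : G)⁻¹ * u)⁻¹ * v = (u⁻¹ * ((t : G) * v * (t : G)⁻¹)) * t := by group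
  rw [e]; exact mul_mem hsame htN

/-- `G = N(T) ∪ T u N(T)`. -/
theorem exists_T_mul' {g : G} (hg : g ∉ NT T) : ∃ t ∈ (T : Subgroup G), (t * u)⁻¹ * g ∈ NT T := by
  obtain ⟨z, hzT, hz, -⟩ := exists_central_involution T hnc
  have hse := se_normalizer hC T hnc hnn
  have hs₀ : orderOf (g * z * g⁻¹) = 2 := orderOf_conj_two hz
  have hs₀c : g⁻¹ * (g * z * g⁻¹) * g ∈ NT T := by
    have : g⁻¹ * (g * z * g⁻¹) * g = z := by group
    rw [this]; exact Subgroup.le_normalizer hzT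
  obtain ⟨i, hi2, hiH, -⟩ := se_swap hse hz (Subgroup.le_normalizer hzT) hs₀ hg hs₀c
  have hinH : i ∉ NT T := by
    intro h
    apply hg
    have : g = i * (g⁻¹ * i)⁻¹ := by group
    rw [this]; exact mul_mem h (inv_mem hiH)
  obtain ⟨t, ht, hti⟩ := exists_T_mul hC T hnc hnn hu huH hi2 hinH
  refine ⟨t, ht, ?_⟩
  have e : (t * u)⁻¹ * g = ((t * u)⁻¹ * i) * (g⁻¹ * i)⁻¹ := by group
  rw [e]; exact mul_mem hti (inv_mem hiH)

theorem mk_ne_one_iff {g : G} :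
    (QuotientGroup.mk g : G ⧸ NT T) ≠ QuotientGroup.mk 1 ↔ g ∉ NT T := by
  rw [Ne, eq_comm, QuotientGroup.eq, inv_one, one_mul]

/-- Every coset other than `N(T)` is `t • uN(T)` for some `t ∈ T`. -/
theorem exists_T_smul (x : G ⧸ NT T) (hx : x ≠ QuotientGroup.mk 1) :
    ∃ t ∈ (T : Subgroup G), x = t • (QuotientGroup.mk u : G ⧸ NT T) := by
  induction x using QuotientGroup.induction_on with
  | H g =>
    rw [mk_ne_one_iff hC T hnc hnn hu huH] at hx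
    obtain ⟨t, ht, h⟩ := exists_T_mul' hC T hnc hnn hu huH hx
    refine ⟨t, ht, ?_⟩
    rw [MulAction.Quotient.smul_mk, smul_eq_mul, eq_comm, QuotientGroup.eq]
    exact h

/-- `T` acts freely off the base point. -/
theorem T_free {t t' : G} (ht : t ∈ (T : Subgroup G)) (ht' : t' ∈ (T : Subgroup G))
    (x : G ⧸ NT T) (hx : x ≠ QuotientGroup.mk 1) (h : t • x = t' • x) : t = t' := by
  by_contra hne
  have hs1 : t'⁻¹ * t ≠ 1 := by
    intro h1
    apply hne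
    calc t = t' * (t'⁻¹ * t) := by group
      _ = t' := by rw [h1, mul_one]
  have hsT : t'⁻¹ * t ∈ (T : Subgroup G) := mul_mem (inv_mem ht') ht
  have hs2 : orderOf (t'⁻¹ * t) = 2 := orderOf_eq_two_iff'.mpr ⟨hs1, T_sq hC T hnc _ hsT⟩
  have hfix : (t'⁻¹ * t) • x = x := by
    rw [mul_smul, h, ← mul_smul, inv_mul_cancel, one_smul]
  have hfix1 : (t'⁻¹ * t) • (QuotientGroup.mk 1 : G ⧸ NT T) = QuotientGroup.mk 1 := by
    rw [smul_mk_eq_iff]
    have e : (1 : G)⁻¹ * (t'⁻¹ * t) * 1 = t'⁻¹ * t := by group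
    rw [e]; exact Subgroup.le_normalizer hsT
  exact hx (se_fix_unique (se_normalizer hC T hnc hnn) hs2 hfix hfix1)

theorem smul_base {h : G} (hh : h ∈ NT T) :
    h • (QuotientGroup.mk 1 : G ⧸ NT T) = QuotientGroup.mk 1 := by
  rw [smul_mk_eq_iff]
  have e : (1 : G)⁻¹ * h * 1 = h := by group
  rw [e]; exact hh

theorem smul_u {d : G} (hd : d ∈ DD T u) :
    d • (QuotientGroup.mk u : G ⧸ NT T) = QuotientGroup.mk u := by
  rw [smul_mk_eq_iff]
  exact mem_map_conj.mp hd.2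

theorem mk_u_ne : (QuotientGroup.mk u : G ⧸ NT T) ≠ QuotientGroup.mk 1 :=
  (mk_ne_one_iff hC T hnc hnn hu huH).mpr huH

/-- `D` fixes exactly the two cosets `N(T)` and `uN(T)`. -/
theorem DD_fix_iff (x : G ⧸ NT T) :
    (∀ d ∈ DD T u, d • x = x) ↔ x = QuotientGroup.mk 1 ∨ x = QuotientGroup.mk u := by
  constructor
  · intro hfix
    by_cases h1 : x = QuotientGroup.mk 1
    · exact Or.inl h1
    · right
      obtain ⟨t, ht, hx⟩ := exists_T_smul hC T hnc hnn hu huH x h1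
      by_cases ht1 : t = 1
      · rw [hx, ht1, one_smul]
      · exfalso
        obtain ⟨d₀, hd₀, hd₀1⟩ := exists_DD_ne_one hC T hnc hnn hu huH
        have h2 := hfix d₀ hd₀
        rw [hx] at h2
        have h3 : (d₀ * t * d₀⁻¹) • (QuotientGroup.mk u : G ⧸ NT T) = t • QuotientGroup.mk u := by
          calc (d₀ * t * d₀⁻¹) • (QuotientGroup.mk u : G ⧸ NT T)
              = (d₀ * t * d₀⁻¹) • (d₀ • (QuotientGroup.mk u : G ⧸ NT T)) := by
                rw [smul_u hC T hnc hnn hu huH hd₀]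
            _ = d₀ • t • (QuotientGroup.mk u : G ⧸ NT T) := by
                rw [← mul_smul, ← mul_smul]; congr 1; group
            _ = t • QuotientGroup.mk u := h2
        have hmem : d₀ * t * d₀⁻¹ ∈ (T : Subgroup G) :=
          (Subgroup.mem_normalizer_iff.mp (DD_le hC T hnc hnn hu huH hd₀) t).mp ht
        have h4 := T_free hC T hnc hnn hu huH hmem ht _ (mk_u_ne hC T hnc hnn hu huH) h3
        apply hd₀1
        apply DD_free hC T hnc hnn hu huH hd₀ ht ht1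
        calc d₀ * t = d₀ * t * d₀⁻¹ * d₀ := by group
          _ = t * d₀ := by rw [h4]
  · rintro (rfl | rfl) d hd
    · exact smul_base hC T hnc hnn hu huH (DD_le hC T hnc hnn hu huH hd)
    · exact smul_u hC T hnc hnn hu huH hd

theorem u_mem_normalizer_DD : u ∈ Subgroup.normalizer ((DD T u : Subgroup G) : Set G) := by
  have hu2 := sq_eq_one_of_orderOf_two hu
  have hu' := inv_eq_self_of_orderOf_two hu
  rw [Subgroup.mem_normalizer_iff]
  intro d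
  constructor
  · exact fun hd => DD_conj_u hC T hnc hnn hu huH hd
  · intro hd
    have := DD_conj_u hC T hnc hnn hu huH hd
    have e : u * (u * d * u⁻¹) * u⁻¹ = d := by
      rw [hu']
      calc u * (u * d * u) * u = (u * u) * d * (u * u) := by group
        _ = d := by rw [hu2, one_mul, mul_one]
    rwa [e] at this

theorem normalizer_DD_inf_le {g : G} (hg : g ∈ NT T)
    (hgN : g ∈ Subgroup.normalizer ((DD T u : Subgroup G) : Set G)) : g ∈ DD T u := by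
  obtain ⟨d, hd, t, ht, rfl⟩ := NT_eq_mul hC T hnc hnn hu huH hg
  by_cases ht1 : t = 1
  · rw [ht1, mul_one]; exact hd
  exfalso
  obtain ⟨d₀, hd₀, hd₀1⟩ := exists_DD_ne_one hC T hnc hnn hu huH
  have htN : t ∈ Subgroup.normalizer ((DD T u : Subgroup G) : Set G) := by
    have : t = d⁻¹ * (d * t) := by group
    rw [this]
    exact mul_mem (inv_mem (Subgroup.le_normalizer hd)) hgN
  have h1 : t * d₀ * t⁻¹ ∈ DD T u := (Subgroup.mem_normalizer_iff.mp htN d₀).mp hd₀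
  have h2 : t * d₀ * t⁻¹ * d₀⁻¹ ∈ DD T u := mul_mem h1 (inv_mem hd₀)
  have h3 : t * d₀ * t⁻¹ * d₀⁻¹ ∈ (T : Subgroup G) := by
    have e : t * d₀ * t⁻¹ * d₀⁻¹ = t * (d₀ * t⁻¹ * d₀⁻¹) := by group
    rw [e]
    exact mul_mem ht ((Subgroup.mem_normalizer_iff.mp (DD_le hC T hnc hnn hu huH hd₀) t⁻¹).mp
      (inv_mem ht))
  have h4 := DD_inf_T hC T hnc hnn hu huH h2 h3
  apply hd₀1
  apply DD_free hC T hnc hnn hu huH hd₀ ht ht1
  calc d₀ * t = (t * d₀ * t⁻¹ * d₀⁻¹)⁻¹ * (t * d₀) := by group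
    _ = t * d₀ := by rw [h4, inv_one, one_mul]

/-- `N_G(D) = D ⟨u⟩`. -/
theorem normalizer_DD :
    Subgroup.normalizer ((DD T u : Subgroup G) : Set G) = DD T u ⊔ Subgroup.zpowers u := by
  apply le_antisymm
  · intro g hg
    have hfix : ∀ d ∈ DD T u, d • (QuotientGroup.mk g : G ⧸ NT T) = QuotientGroup.mk g := by
      intro d hd
      rw [smul_mk_eq_iff]
      have := (Subgroup.mem_normalizer_iff.mp (inv_mem hg) d).mp hd
      rw [inv_inv] at this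
      exact DD_le hC T hnc hnn hu huH this
    rcases (DD_fix_iff hC T hnc hnn hu huH _).mp hfix with h | h
    · have hgH : g ∈ NT T := by
        by_contra hgn
        exact (mk_ne_one_iff hC T hnc hnn hu huH).mpr hgn h
      exact Subgroup.mem_sup_left (normalizer_DD_inf_le hC T hnc hnn hu huH hgH hg)
    · have h1 : u⁻¹ * g ∈ NT T := QuotientGroup.eq.mp h.symm
      have h2 : u⁻¹ * g ∈ Subgroup.normalizer ((DD T u : Subgroup G) : Set G) :=
        mul_mem (inv_mem (u_mem_normalizer_DD hC T hnc hnn hu huH)) hg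
      have h3 := normalizer_DD_inf_le hC T hnc hnn hu huH h1 h2
      have e' : g = (u⁻¹ * g) * ((u⁻¹ * g)⁻¹ * u * (u⁻¹ * g)) := by group
      rw [e']
      have hconj : (u⁻¹ * g)⁻¹ * u * (u⁻¹ * g) ∈ DD T u ⊔ Subgroup.zpowers u := by
        apply mul_mem (mul_mem _ _) _
        · exact Subgroup.mem_sup_left (inv_mem h3)
        · exact Subgroup.mem_sup_right (Subgroup.mem_zpowers u)
        · exact Subgroup.mem_sup_left h3
      exact mul_mem (Subgroup.mem_sup_left h3) hconj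
  · apply sup_le Subgroup.le_normalizer
    rw [Subgroup.zpowers_le]
    exact u_mem_normalizer_DD hC T hnc hnn hu huH

/-- Normalizing a triple of distinct cosets. -/
theorem exists_normalize (x₁ x₂ x₃ : G ⧸ NT T) (h12 : x₁ ≠ x₂) (h13 : x₁ ≠ x₃) (h23 : x₂ ≠ x₃)
    {z₀ : G} (hz₀ : z₀ ∈ (T : Subgroup G)) (hz₀1 : z₀ ≠ 1) :
    ∃ g : G, g • x₁ = QuotientGroup.mk 1 ∧ g • x₂ = QuotientGroup.mk u ∧
      g • x₃ = z₀ • (QuotientGroup.mk u : G ⧸ NT T) := by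
  have hstep1 : ∃ g₁ : G, g₁ • x₁ = QuotientGroup.mk 1 := by
    induction x₁ using QuotientGroup.induction_on with
    | H a =>
      refine ⟨a⁻¹, ?_⟩
      rw [MulAction.Quotient.smul_mk, smul_eq_mul, inv_mul_cancel]
  obtain ⟨g₁, hg₁⟩ := hstep1
  have hx₂ : g₁ • x₂ ≠ QuotientGroup.mk 1 := by
    rw [← hg₁]
    exact fun h => h12 (MulAction.injective g₁ h).symm
  obtain ⟨t, ht, hx₂'⟩ := exists_T_smul hC T hnc hnn hu huH _ hx₂
  have htN : t⁻¹ ∈ NT T := Subgroup.le_normalizer (inv_mem ht)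
  have hx₃a : (t⁻¹ * g₁) • x₃ ≠ QuotientGroup.mk 1 := by
    have h1 : (t⁻¹ * g₁) • x₁ = QuotientGroup.mk 1 := by
      rw [mul_smul, hg₁]; exact smul_base hC T hnc hnn hu huH htN
    rw [← h1]
    exact fun h => h13 (MulAction.injective _ h).symm
  have h2u : (t⁻¹ * g₁) • x₂ = QuotientGroup.mk u := by
    rw [mul_smul, hx₂', ← mul_smul, inv_mul_cancel, one_smul]
  have hx₃b : (t⁻¹ * g₁) • x₃ ≠ QuotientGroup.mk u := by
    rw [← h2u]
    exact fun h => h23 (MulAction.injective _ h).symm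
  obtain ⟨t', ht', hx₃'⟩ := exists_T_smul hC T hnc hnn hu huH _ hx₃a
  have ht'1 : t' ≠ 1 := by
    intro h
    rw [h, one_smul] at hx₃'
    exact hx₃b hx₃'
  obtain ⟨d, hd, hdt⟩ := DD_trans hC T hnc hnn hu huH ht' ht'1 hz₀ hz₀1
  refine ⟨d * (t⁻¹ * g₁), ?_, ?_, ?_⟩
  · rw [mul_smul, mul_smul, hg₁, smul_base hC T hnc hnn hu huH htN]
    exact smul_base hC T hnc hnn hu huH (DD_le hC T hnc hnn hu huH hd)
  · rw [mul_smul, h2u]; exact smul_u hC T hnc hnn hu huH hd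
  · rw [mul_smul, hx₃', ← hdt]
    conv_rhs => rw [← smul_u hC T hnc hnn hu huH hd]
    rw [← mul_smul, ← mul_smul]
    congr 1
    group

theorem triple_transitive (x₁ x₂ x₃ y₁ y₂ y₃ : G ⧸ NT T) (h12 : x₁ ≠ x₂) (h13 : x₁ ≠ x₃)
    (h23 : x₂ ≠ x₃) (k12 : y₁ ≠ y₂) (k13 : y₁ ≠ y₃) (k23 : y₂ ≠ y₃) :
    ∃ g : G, g • x₁ = y₁ ∧ g • x₂ = y₂ ∧ g • x₃ = y₃ := by
  obtain ⟨z, hzT, hz, -⟩ := exists_central_involution T hnc
  have hz1 := ne_one_of_orderOf_two hz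
  obtain ⟨a, ha1, ha2, ha3⟩ := exists_normalize hC T hnc hnn hu huH x₁ x₂ x₃ h12 h13 h23 hzT hz1
  obtain ⟨b, hb1, hb2, hb3⟩ := exists_normalize hC T hnc hnn hu huH y₁ y₂ y₃ k12 k13 k23 hzT hz1
  refine ⟨b⁻¹ * a, ?_, ?_, ?_⟩
  · rw [mul_smul, ha1, ← hb1, ← mul_smul, inv_mul_cancel, one_smul]
  · rw [mul_smul, ha2, ← hb2, ← mul_smul, inv_mul_cancel, one_smul]
  · rw [mul_smul, ha3, ← hb3, ← mul_smul, inv_mul_cancel, one_smul]

theorem triple_stabilizer (g : G) (x₁ x₂ x₃ : G ⧸ NT T) (h12 : x₁ ≠ x₂) (h13 : x₁ ≠ x₃)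
    (h23 : x₂ ≠ x₃) (f1 : g • x₁ = x₁) (f2 : g • x₂ = x₂) (f3 : g • x₃ = x₃) : g = 1 := by
  obtain ⟨z, hzT, hz, -⟩ := exists_central_involution T hnc
  have hz1 := ne_one_of_orderOf_two hz
  obtain ⟨a, ha1, ha2, ha3⟩ := exists_normalize hC T hnc hnn hu huH x₁ x₂ x₃ h12 h13 h23 hzT hz1
  have hfix : ∀ x y : G ⧸ NT T, g • x = x → a • x = y → (a * g * a⁻¹) • y = y := by
    intro x y hx hy
    rw [← hy, ← mul_smul]
    have : a * g * a⁻¹ * a = a * g := by group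
    rw [this, mul_smul, hx]
  have k1 := hfix _ _ f1 ha1
  have k2 := hfix _ _ f2 ha2
  have k3 := hfix _ _ f3 ha3
  have hD : a * g * a⁻¹ ∈ DD T u := by
    refine ⟨?_, ?_⟩
    · have := (smul_mk_eq_iff (H := NT T) (a * g * a⁻¹) 1 1).mp k1
      have e : (1 : G)⁻¹ * (a * g * a⁻¹) * 1 = a * g * a⁻¹ := by group
      rwa [e] at this
    · show a * g * a⁻¹ ∈ (NT T).map (MulAut.conj u).toMonoidHom
      rw [mem_map_conj]
      exact (smul_mk_eq_iff (H := NT T) (a * g * a⁻¹) u u).mp k2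
  have h3 : ((a * g * a⁻¹) * z * (a * g * a⁻¹)⁻¹) • (QuotientGroup.mk u : G ⧸ NT T)
      = z • QuotientGroup.mk u := by
    conv_rhs => rw [← k3]
    conv_lhs => rw [← smul_u hC T hnc hnn hu huH hD]
    rw [← mul_smul, ← mul_smul]
    congr 1
    group
  have hmem : (a * g * a⁻¹) * z * (a * g * a⁻¹)⁻¹ ∈ (T : Subgroup G) :=
    (Subgroup.mem_normalizer_iff.mp (DD_le hC T hnc hnn hu huH hD) z).mp hzT
  have h4 := T_free hC T hnc hnn hu huH hmem hzT _ (mk_u_ne hC T hnc hnn hu huH) h3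
  have h5 : a * g * a⁻¹ = 1 := by
    apply DD_free hC T hnc hnn hu huH hD hzT hz1
    calc a * g * a⁻¹ * z = (a * g * a⁻¹) * z * (a * g * a⁻¹)⁻¹ * (a * g * a⁻¹) := by group
      _ = z * (a * g * a⁻¹) := by rw [h4]
  calc g = a⁻¹ * (a * g * a⁻¹) * a := by group
    _ = 1 := by rw [h5]; group

theorem T_regular (x y : G ⧸ NT T) (hx : x ≠ QuotientGroup.mk 1) (hy : y ≠ QuotientGroup.mk 1) :
    ∃! t : G, t ∈ (T : Subgroup G) ∧ t • x = y := by
  obtain ⟨t₁, ht₁, hx'⟩ := exists_T_smul hC T hnc hnn hu huH x hx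
  obtain ⟨t₂, ht₂, hy'⟩ := exists_T_smul hC T hnc hnn hu huH y hy
  refine ⟨t₂ * t₁⁻¹, ⟨mul_mem ht₂ (inv_mem ht₁), ?_⟩, ?_⟩
  · rw [hx', hy', ← mul_smul]
    congr 1
    group
  · rintro t' ⟨ht', h'⟩
    apply T_free hC T hnc hnn hu huH ht' (mul_mem ht₂ (inv_mem ht₁)) x hx
    rw [h', hx', hy', ← mul_smul]
    congr 1
    group

end

/-- An involution outside `N(T)`. -/
theorem exists_involution_not_mem (hC : CentElem G) (T : Sylow 2 G)
    (hnc : ¬ IsCyclic (T : Subgroup G)) (hnn : ¬ (T : Subgroup G).Normal) :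
    ∃ u : G, orderOf u = 2 ∧ u ∉ NT T := by
  obtain ⟨z, hzT, hz, -⟩ := exists_central_involution T hnc
  have hse := se_normalizer hC T hnc hnn
  have hne : NT T ≠ ⊤ := hse.1
  obtain ⟨g, hg⟩ : ∃ g : G, g ∉ NT T := by
    by_contra h
    push Not at h
    exact hne (Subgroup.eq_top_iff' _ |>.mpr h)
  refine ⟨g * z * g⁻¹, orderOf_conj_two hz, ?_⟩
  intro h
  apply hg
  have h1 : g⁻¹ ∈ NT T := by
    apply se_mem_of_conj hse (Subgroup.le_normalizer hzT) hz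
    rw [inv_inv]; exact h
  simpa using (NT T).inv_mem h1

end Cfsg.Agent.Lib_helper2_EAC2
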