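import Mathlib
import Cfsg.Prelude.Def_TwoFusion
import Cfsg.Prelude.Def_Transfer
import Cfsg.Agent.Lib_helper2_Dihedral
import Cfsg.Agent.Lib_helper2_Inv
import Cfsg.Agent.Lib_helper2_Isolated
import Cfsg.Agent.Lib_helper2_Transfer
import Cfsg.Agent.Lib_helper7_Sylow

set_option autoImplicit false

namespace Cfsg.Agent.Lib_helper2_Iso3

open Cfsg.Agent.Lib_helper2_Dihedral Cfsg.Agent.Lib_helper2_Inv Cfsg.Agent.Lib_helper2_Isolated
open Cfsg.Agent.Lib_helper2_Transfer

variable {G : Type*} [Group G]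

theorem pResidual_map_le' {p : ℕ} {A B : Type*} [Group A] [Group B] (Φ : A →* B) :
    (Cfsg.pResidual p A).map Φ ≤ Cfsg.pResidual p B := by
  unfold Cfsg.pResidual
  rw [MonoidHom.map_closure]
  apply Subgroup.closure_mono
  rintro _ ⟨g, hg, rfl⟩
  exact Nat.Coprime.coprime_dvd_left (orderOf_map_dvd Φ g) hg

section Iso

variable [Finite G]

/-- The conjugacy class of an isolated involution has odd size. -/
theorem odd_card_conj {z : G} (hz : Cfsg.IsIsolatedInvolution z) :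
    Odd (Nat.card {b : G // IsConj z b}) := by
  classical
  haveI : Fintype {b : G // IsConj z b} := Fintype.ofFinite _
  haveI : Fact (Nat.Prime 2) := ⟨Nat.prime_two⟩
  have hz2 := sq_eq_one_of_orderOf_two hz.1
  obtain ⟨f, hf⟩ : ∃ f : Function.End {b : G // IsConj z b},
      ∀ b, ((f b : {b : G // IsConj z b}) : G) = z * b.1 * z⁻¹ :=
    ⟨fun b => ⟨z * b.1 * z⁻¹, b.2.trans (isConj_iff.mpr ⟨z, rfl⟩)⟩, fun b => rfl⟩
  have hf2 : f ^ 2 ^ 1 = 1 := by
    rw [pow_one, pow_two]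
    funext b
    apply Subtype.ext
    show ((f (f b) : {b : G // IsConj z b}) : G) = b.1
    rw [hf, hf]
    have e : z * (z * b.1 * z⁻¹) * z⁻¹ = (z * z) * b.1 * (z * z)⁻¹ := by group
    rw [e, hz2, one_mul, inv_one, mul_one]
  have h := Equiv.Perm.card_fixedPoints_modEq (p := 2) (n := 1) hf2
  have hfix : ∀ inst : Fintype (Function.fixedPoints f), @Fintype.card _ inst = 1 := by
    intro inst
    rw [Fintype.card_eq_one_iff]
    have hzfix : f ⟨z, IsConj.refl z⟩ = ⟨z, IsConj.refl z⟩ := by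
      apply Subtype.ext
      rw [hf]
      show z * z * z⁻¹ = z
      group
    refine ⟨⟨⟨z, IsConj.refl z⟩, hzfix⟩, ?_⟩
    rintro ⟨⟨b, hb⟩, hbfix⟩
    apply Subtype.ext
    apply Subtype.ext
    show b = z
    have h1 : z * b * z⁻¹ = b := by
      have := congrArg (fun x : {b : G // IsConj z b} => (x : G)) hbfix
      simp only [hf] at this
      exact this
    obtain ⟨g, rfl⟩ := isConj_iff.mp hb
    apply hz.2 g
    show z * (g * z * g⁻¹) = (g * z * g⁻¹) * z
    exact (mul_inv_eq_iff_eq_mul.mp h1)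
  rw [hfix] at h
  rw [Nat.card_eq_fintype_card]
  exact Nat.odd_iff.mpr h

/-- The centralizer of an isolated involution has odd index. -/
theorem odd_index_centralizer {z : G} (hz : Cfsg.IsIsolatedInvolution z) :
    Odd (Subgroup.centralizer ({z} : Set G)).index := by
  have h1 := card_conj_mul_card_centralizer z
  have h2 := Subgroup.card_mul_index (Subgroup.centralizer ({z} : Set G))
  have h3 : (Subgroup.centralizer ({z} : Set G)).index = Nat.card {b : G // IsConj z b} := by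
    apply Nat.eq_of_mul_eq_mul_left (Nat.card_pos (α := Subgroup.centralizer ({z} : Set G)))
    rw [h2, ← h1, mul_comm]
  rw [h3]
  exact odd_card_conj hz

/-- The centralizer of an isolated involution controls fusion of its elements. -/
theorem fusion_control {z : G} (hz : Cfsg.IsIsolatedInvolution z) {x g₀ : G}
    (hx : x ∈ Subgroup.centralizer ({z} : Set G))
    (hy : g₀⁻¹ * x * g₀ ∈ Subgroup.centralizer ({z} : Set G)) :
    ∃ c ∈ Subgroup.centralizer ({z} : Set G), c * x * c⁻¹ = g₀⁻¹ * x * g₀ := by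
  have hx' : z * x = x * z := Subgroup.mem_centralizer_iff.mp hx z rfl
  have hy' : z * (g₀⁻¹ * x * g₀) = (g₀⁻¹ * x * g₀) * z := Subgroup.mem_centralizer_iff.mp hy z rfl
  have h1 : Commute x (g₀ * z * g₀⁻¹) := by
    show x * (g₀ * z * g₀⁻¹) = (g₀ * z * g₀⁻¹) * x
    have e1 : x * (g₀ * z * g₀⁻¹) = g₀ * ((g₀⁻¹ * x * g₀) * z) * g₀⁻¹ := by group
    have e2 : (g₀ * z * g₀⁻¹) * x = g₀ * (z * (g₀⁻¹ * x * g₀)) * g₀⁻¹ := by group
    rw [e1, e2, hy']
  obtain ⟨j, -, -, hk⟩ := isolated_exists_K hz g₀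
  have h2 : Commute x ((g₀ * z * g₀⁻¹ * z) ^ j) :=
    (h1.mul_right hx'.symm).pow_right j
  obtain ⟨k, hkdef⟩ : ∃ k : G, k = (g₀ * z * g₀⁻¹ * z) ^ j := ⟨_, rfl⟩
  rw [← hkdef] at hk h2
  refine ⟨g₀⁻¹ * k, ?_, ?_⟩
  · apply Subgroup.mem_centralizer_iff.mpr
    intro w hw
    rw [Set.mem_singleton_iff] at hw
    rw [hw]
    have e : (g₀⁻¹ * k) * z * (g₀⁻¹ * k)⁻¹ = g₀⁻¹ * (k * z * k⁻¹) * g₀ := by group
    rw [hk] at e
    have e' : (g₀⁻¹ * k) * z * (g₀⁻¹ * k)⁻¹ = z := by rw [e]; group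
    exact (mul_inv_eq_iff_eq_mul.mp e').symm
  · have e : (g₀⁻¹ * k) * x * (g₀⁻¹ * k)⁻¹ = g₀⁻¹ * (k * x) * k⁻¹ * g₀ := by group
    rw [e, ← h2.eq]; group

/-- Every element is a product of an odd-order element and an element of the centralizer of
an isolated involution. -/
theorem exists_K_mul_C {z : G} (hz : Cfsg.IsIsolatedInvolution z) (g : G) :
    ∃ k c : G, Odd (orderOf k) ∧ c ∈ Subgroup.centralizer ({z} : Set G) ∧ g = k * c := by
  obtain ⟨j, hodd, -, hk⟩ := isolated_exists_K hz g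
  refine ⟨(g * z * g⁻¹ * z) ^ j, ((g * z * g⁻¹ * z) ^ j)⁻¹ * g, hodd, ?_, by group⟩
  obtain ⟨k, hkdef⟩ : ∃ k : G, k = (g * z * g⁻¹ * z) ^ j := ⟨_, rfl⟩
  rw [← hkdef] at hk ⊢
  apply Subgroup.mem_centralizer_iff.mpr
  intro w hw
  rw [Set.mem_singleton_iff] at hw
  rw [hw]
  have e : (k⁻¹ * g) * z * (k⁻¹ * g)⁻¹ = k⁻¹ * (g * z * g⁻¹) * k := by group
  rw [← hk] at e
  have e' : (k⁻¹ * g) * z * (k⁻¹ * g)⁻¹ = z := by rw [e]; group
  exact (mul_inv_eq_iff_eq_mul.mp e').symm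

/-- `O^2(G) = G` iff `O^2(C) = C` for the centralizer `C` of an isolated involution. -/
theorem isolated_residual {z : G} (hz : Cfsg.IsIsolatedInvolution z) :
    Cfsg.pResidual 2 G = ⊤ ↔ Cfsg.pResidual 2 ↥(Subgroup.centralizer ({z} : Set G)) = ⊤ := by
  haveI : Fact (Nat.Prime 2) := ⟨Nat.prime_two⟩
  constructor
  · intro hG
    by_contra hR
    have hPG : IsPGroup 2 (↥(Subgroup.centralizer ({z} : Set G)) ⧸
        Cfsg.pResidual 2 ↥(Subgroup.centralizer ({z} : Set G))) :=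
      Cfsg.Agent.Lib_helper7_Sylow.isPGroup_quotient_pResidual 2
    haveI : Nontrivial (↥(Subgroup.centralizer ({z} : Set G)) ⧸
        Cfsg.pResidual 2 ↥(Subgroup.centralizer ({z} : Set G))) :=
      QuotientGroup.nontrivial_iff.mpr hR
    haveI : Group.IsNilpotent (↥(Subgroup.centralizer ({z} : Set G)) ⧸
        Cfsg.pResidual 2 ↥(Subgroup.centralizer ({z} : Set G))) := hPG.isNilpotent
    have hcomm := Group.IsSolvable.commutator_lt_top_of_nontrivial
      (↥(Subgroup.centralizer ({z} : Set G)) ⧸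
        Cfsg.pResidual 2 ↥(Subgroup.centralizer ({z} : Set G)))
    have hof : Function.Surjective (Abelianization.of :
        (↥(Subgroup.centralizer ({z} : Set G)) ⧸
          Cfsg.pResidual 2 ↥(Subgroup.centralizer ({z} : Set G))) →* _) :=
      fun x => QuotientGroup.mk_surjective x
    have hA : IsPGroup 2 (Abelianization (↥(Subgroup.centralizer ({z} : Set G)) ⧸
        Cfsg.pResidual 2 ↥(Subgroup.centralizer ({z} : Set G)))) :=
      hPG.of_surjective _ hof
    obtain ⟨ϕ, hϕdef⟩ : ∃ ϕ : ↥(Subgroup.centralizer ({z} : Set G)) →*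
        Abelianization (↥(Subgroup.centralizer ({z} : Set G)) ⧸
          Cfsg.pResidual 2 ↥(Subgroup.centralizer ({z} : Set G))),
        ϕ = (Abelianization.of).comp (QuotientGroup.mk' _) := ⟨_, rfl⟩
    obtain ⟨q, -, hq⟩ := SetLike.exists_of_lt hcomm
    obtain ⟨g', rfl⟩ := QuotientGroup.mk'_surjective _ q
    have hw : ϕ g' ≠ 1 := by
      intro h
      apply hq
      rw [← Abelianization.ker_of]
      rw [hϕdef] at h
      exact MonoidHom.mem_ker.mpr h
    have key : ∀ (k : ℕ) (g₀ : G)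
        (hk : g₀⁻¹ * (g' : G) ^ k * g₀ ∈ Subgroup.centralizer ({z} : Set G)),
        ϕ ⟨g₀⁻¹ * (g' : G) ^ k * g₀, hk⟩ = ϕ ⟨(g' : G), g'.2⟩ ^ k := by
      intro k g₀ hk
      have hx : (g' : G) ^ k ∈ Subgroup.centralizer ({z} : Set G) := Subgroup.pow_mem _ g'.2 k
      obtain ⟨c, hc, hcx⟩ := fusion_control hz hx hk
      have e : (⟨g₀⁻¹ * (g' : G) ^ k * g₀, hk⟩ : ↥(Subgroup.centralizer ({z} : Set G)))
          = ⟨c, hc⟩ * g' ^ k * ⟨c, hc⟩⁻¹ := by
        apply Subtype.ext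
        show g₀⁻¹ * (g' : G) ^ k * g₀ = c * (g' : G) ^ k * c⁻¹
        exact hcx.symm
      rw [e, map_mul, map_mul, map_inv, map_pow, mul_comm, ← mul_assoc, inv_mul_cancel, one_mul]
    have hV := transfer_eq_pow_of_mod (Subgroup.centralizer ({z} : Set G)) ϕ (g' : G) g'.2 key
    have hV1 : MonoidHom.transfer ϕ (g' : G) = 1 := by
      have hle : Cfsg.pResidual 2 G ≤ (MonoidHom.transfer ϕ).ker := by
        unfold Cfsg.pResidual
        rw [Subgroup.closure_le]
        intro g hg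
        have hg' : Nat.Coprime (orderOf g) 2 := hg
        rw [SetLike.mem_coe, MonoidHom.mem_ker]
        obtain ⟨m, hm⟩ := hA (MonoidHom.transfer ϕ g)
        have h1 : orderOf (MonoidHom.transfer ϕ g) ∣ 2 ^ m := orderOf_dvd_of_pow_eq_one hm
        have h2 : orderOf (MonoidHom.transfer ϕ g) ∣ orderOf g := orderOf_map_dvd _ g
        have h3 : (orderOf g).Coprime (2 ^ m) := Nat.Coprime.pow_right m hg'
        exact orderOf_eq_one_iff.mp (Nat.eq_one_of_dvd_coprimes h3 h2 h1)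
      rw [hG] at hle
      exact MonoidHom.mem_ker.mp (hle (Subgroup.mem_top _))
    rw [hV1] at hV
    obtain ⟨m, hm⟩ := hA (ϕ g')
    have h1 : orderOf (ϕ g') ∣ 2 ^ m := orderOf_dvd_of_pow_eq_one hm
    have h2 : orderOf (ϕ g') ∣ (Subgroup.centralizer ({z} : Set G)).index :=
      orderOf_dvd_of_pow_eq_one hV.symm
    have h3 : ((Subgroup.centralizer ({z} : Set G)).index).Coprime (2 ^ m) :=
      Nat.Coprime.pow_right m (Nat.coprime_two_right.mpr (odd_index_centralizer hz))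
    exact hw (orderOf_eq_one_iff.mp (Nat.eq_one_of_dvd_coprimes h3 h2 h1))
  · intro hC
    rw [eq_top_iff]
    intro g _
    obtain ⟨k, c, hk, hc, rfl⟩ := exists_K_mul_C hz g
    apply Subgroup.mul_mem
    · exact Subgroup.subset_closure (Nat.coprime_two_right.mpr hk)
    · have h1 : (⟨c, hc⟩ : ↥(Subgroup.centralizer ({z} : Set G))) ∈
          Cfsg.pResidual 2 ↥(Subgroup.centralizer ({z} : Set G)) := by
        rw [hC]; exact Subgroup.mem_top _
      exact pResidual_map_le' (Subgroup.centralizer ({z} : Set G)).subtype ⟨_, h1, rfl⟩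

end Iso

end Cfsg.Agent.Lib_helper2_Iso3
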