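import Mathlib
import Cfsg.Prelude.Def_Transfer
import Cfsg.Agent.Lib_helper2_CN
import Cfsg.Agent.Lib_helper2_Transfer
import Cfsg.Agent.Lib_helper2_Iso3
import Cfsg.Agent.Lib_helper7_Sylow

set_option autoImplicit false

namespace Cfsg.Agent.Lib_helper2_Focal

open Cfsg.Agent.Lib_helper2_CN Cfsg.Agent.Lib_helper2_Transfer Cfsg.Agent.Lib_helper2_Iso3

variable {G : Type*} [Group G] [Finite G]

/-- Transfer into `H / O^p(H) H'` under control of fusion of `p`-elements. -/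
theorem focal_control {p : ℕ} [hp : Fact p.Prime] (H : Subgroup G) (hidx : Nat.Coprime p H.index)
    (hfus : ∀ g ∈ H, (∃ k : ℕ, orderOf g = p ^ k) → ∀ a : G, a * g * a⁻¹ ∈ H →
      ∃ h ∈ H, h * g * h⁻¹ = a * g * a⁻¹) :
    (Cfsg.pResidual p G ⊔ commutator G) ⊓ H
      = (Cfsg.pResidual p ↥H ⊔ commutator ↥H).map H.subtype := by
  apply le_antisymm
  · rintro x ⟨hx1, hxH⟩
    have hPG : IsPGroup p (↥H ⧸ Cfsg.pResidual p ↥H) :=
      Cfsg.Agent.Lib_helper7_Sylow.isPGroup_quotient_pResidual p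
    have hof : Function.Surjective (Abelianization.of :
        (↥H ⧸ Cfsg.pResidual p ↥H) →* _) := fun x => QuotientGroup.mk_surjective x
    have hA : IsPGroup p (Abelianization (↥H ⧸ Cfsg.pResidual p ↥H)) :=
      hPG.of_surjective _ hof
    obtain ⟨ϕ, hϕdef⟩ : ∃ ϕ : ↥H →* Abelianization (↥H ⧸ Cfsg.pResidual p ↥H),
        ϕ = (Abelianization.of).comp (QuotientGroup.mk' _) := ⟨_, rfl⟩
    -- `ϕ` kills `p'`-elements
    have hϕp' : ∀ (b : G) (hb : b ∈ H), (orderOf b).Coprime p → ϕ ⟨b, hb⟩ = 1 := by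
      intro b hb hbp
      have h1 : (⟨b, hb⟩ : ↥H) ∈ Cfsg.pResidual p ↥H := by
        apply Subgroup.subset_closure
        show Nat.Coprime (orderOf (⟨b, hb⟩ : ↥H)) p
        rw [Subgroup.orderOf_mk]; exact hbp
      have h2 : QuotientGroup.mk' (Cfsg.pResidual p ↥H) ⟨b, hb⟩ = 1 :=
        (QuotientGroup.eq_one_iff _).mpr h1
      rw [hϕdef, MonoidHom.comp_apply, h2, map_one]
    have key : ∀ (g : G) (hg : g ∈ H) (k : ℕ) (g₀ : G) (hk : g₀⁻¹ * g ^ k * g₀ ∈ H),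
        ϕ ⟨g₀⁻¹ * g ^ k * g₀, hk⟩ = ϕ ⟨g, hg⟩ ^ k := by
      intro g hg k g₀ hk
      have hy : g ^ k ∈ H := H.pow_mem hg k
      obtain ⟨a, ha, b, hb, hab, ⟨e, hap⟩, hbp⟩ := exists_p_decomp p hp.out (g ^ k)
      have hzH : Subgroup.zpowers (g ^ k) ≤ H := by rw [Subgroup.zpowers_le]; exact hy
      have haH : a ∈ H := hzH ha
      have hbH : b ∈ H := hzH hb
      have hconj : ∀ c ∈ Subgroup.zpowers (g ^ k), g₀⁻¹ * c * g₀ ∈ H := by
        intro c hc
        obtain ⟨i, rfl⟩ := Subgroup.mem_zpowers_iff.mp hc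
        have e1 : g₀⁻¹ * (g ^ k) ^ i * g₀ = (g₀⁻¹ * g ^ k * g₀) ^ i := by
          have := map_zpow (MulAut.conj g₀⁻¹) (g ^ k) i
          simp only [MulAut.conj_apply, inv_inv] at this
          exact this
        rw [e1]
        exact H.zpow_mem hk i
      have ha'H := hconj a ha
      have hb'H := hconj b hb
      have hb'ord : (orderOf (g₀⁻¹ * b * g₀)).Coprime p := by
        have e1 : g₀⁻¹ * b * g₀ = g₀⁻¹ * b * g₀⁻¹⁻¹ := by rw [inv_inv]
        rw [e1, Cfsg.Agent.Lib_helper7_Sylow.orderOf_conj']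
        exact hbp
      obtain ⟨j, -, hj⟩ := (Nat.dvd_prime_pow hp.out).mp (orderOf_dvd_of_pow_eq_one hap)
      have ha'H' : g₀⁻¹ * a * g₀⁻¹⁻¹ ∈ H := by rw [inv_inv]; exact ha'H
      obtain ⟨h, hh, hha⟩ := hfus a haH ⟨j, hj⟩ g₀⁻¹ ha'H'
      rw [inv_inv] at hha
      have e2 : (⟨g₀⁻¹ * g ^ k * g₀, hk⟩ : ↥H)
          = (⟨h, hh⟩ * ⟨a, haH⟩ * ⟨h, hh⟩⁻¹) * ⟨g₀⁻¹ * b * g₀, hb'H⟩ := by
        apply Subtype.ext
        show g₀⁻¹ * g ^ k * g₀ = (h * a * h⁻¹) * (g₀⁻¹ * b * g₀)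
        rw [hha, ← hab]; group
      have e3 : (⟨g, hg⟩ : ↥H) ^ k = ⟨a, haH⟩ * ⟨b, hbH⟩ := by
        apply Subtype.ext
        show g ^ k = a * b
        exact hab.symm
      rw [← map_pow, e3, e2, map_mul, map_mul, map_mul, map_inv, map_mul,
        hϕp' _ hb'H hb'ord, hϕp' b hbH hbp, mul_one, mul_one, mul_comm, ← mul_assoc,
        inv_mul_cancel, one_mul]
    have hV := transfer_eq_pow_of_mod H ϕ x hxH (key x hxH)
    have hV1 : MonoidHom.transfer ϕ x = 1 := by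
      have hle1 : Cfsg.pResidual p G ≤ (MonoidHom.transfer ϕ).ker := by
        unfold Cfsg.pResidual
        rw [Subgroup.closure_le]
        intro g hg
        have hg' : Nat.Coprime (orderOf g) p := hg
        rw [SetLike.mem_coe, MonoidHom.mem_ker]
        obtain ⟨m, hm⟩ := hA (MonoidHom.transfer ϕ g)
        have h1 : orderOf (MonoidHom.transfer ϕ g) ∣ p ^ m := orderOf_dvd_of_pow_eq_one hm
        have h2 : orderOf (MonoidHom.transfer ϕ g) ∣ orderOf g := orderOf_map_dvd _ g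
        have h3 : (orderOf g).Coprime (p ^ m) := Nat.Coprime.pow_right m hg'
        exact orderOf_eq_one_iff.mp (Nat.eq_one_of_dvd_coprimes h3 h2 h1)
      have hle2 : commutator G ≤ (MonoidHom.transfer ϕ).ker :=
        Abelianization.commutator_subset_ker _
      exact MonoidHom.mem_ker.mp ((sup_le hle1 hle2) hx1)
    rw [hV1] at hV
    obtain ⟨m, hm⟩ := hA (ϕ ⟨x, hxH⟩)
    have h1 : orderOf (ϕ ⟨x, hxH⟩) ∣ p ^ m := orderOf_dvd_of_pow_eq_one hm
    have h2 : orderOf (ϕ ⟨x, hxH⟩) ∣ H.index := orderOf_dvd_of_pow_eq_one hV.symm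
    have h3 : (H.index).Coprime (p ^ m) := Nat.Coprime.pow_right m hidx.symm
    have hϕx : ϕ ⟨x, hxH⟩ = 1 := orderOf_eq_one_iff.mp (Nat.eq_one_of_dvd_coprimes h3 h2 h1)
    -- unwind the kernel
    rw [hϕdef, MonoidHom.comp_apply] at hϕx
    have h4 : QuotientGroup.mk' (Cfsg.pResidual p ↥H) ⟨x, hxH⟩
        ∈ commutator (↥H ⧸ Cfsg.pResidual p ↥H) := by
      rw [← Abelianization.ker_of]; exact MonoidHom.mem_ker.mpr hϕx
    have h5 : commutator (↥H ⧸ Cfsg.pResidual p ↥H)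
        = (commutator ↥H).map (QuotientGroup.mk' (Cfsg.pResidual p ↥H)) := by
      rw [commutator_def, commutator_def, Subgroup.map_commutator,
        Subgroup.map_top_of_surjective _ (QuotientGroup.mk'_surjective _)]
    rw [h5] at h4
    obtain ⟨y, hy, hyx⟩ := h4
    have h6 : y⁻¹ * ⟨x, hxH⟩ ∈ Cfsg.pResidual p ↥H := by
      rw [← QuotientGroup.eq_one_iff, QuotientGroup.mk_mul, QuotientGroup.mk_inv]
      have hyx' : (QuotientGroup.mk y : ↥H ⧸ Cfsg.pResidual p ↥H)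
          = QuotientGroup.mk (⟨x, hxH⟩ : ↥H) := hyx
      rw [hyx', inv_mul_cancel]
    refine ⟨⟨x, hxH⟩, ?_, rfl⟩
    have e : (⟨x, hxH⟩ : ↥H) = y * (y⁻¹ * ⟨x, hxH⟩) := by group
    rw [e]
    exact Subgroup.mul_mem _
      ((le_sup_right : commutator ↥H ≤ Cfsg.pResidual p ↥H ⊔ commutator ↥H) hy)
      ((le_sup_left : Cfsg.pResidual p ↥H ≤ Cfsg.pResidual p ↥H ⊔ commutator ↥H) h6)
  · rw [Subgroup.map_sup]
    apply le_inf
    · apply sup_le_sup (pResidual_map_le' H.subtype)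
      rw [commutator_def, commutator_def, Subgroup.map_commutator]
      exact Subgroup.commutator_mono le_top le_top
    · exact sup_le (Subgroup.map_subtype_le _) (Subgroup.map_subtype_le _)

end Cfsg.Agent.Lib_helper2_Focal
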