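import Mathlib

namespace Cfsg.Agent.Lib_helper2_FrobCl

/-- Sum of centralizer orders equals class number times group order. -/
theorem sum_comm (G : Type*) [Group G] [Fintype G] :
    ∑ a : G, Nat.card {b : G // Commute a b} = Nat.card (ConjClasses G) * Nat.card G := by
  rw [← card_comm_eq_card_conjClasses_mul_card G, ← Nat.card_sigma]
  exact (Nat.card_congr (Equiv.subtypeProdEquivSigmaSubtype (fun a b : G => Commute a b))).symm

theorem comm_one (G : Type*) [Group G] : Nat.card {b : G // Commute (1 : G) b} = Nat.card G :=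
  Nat.card_congr (Equiv.subtypeUnivEquiv (fun b => Commute.one_left b))

section Frob

variable {G : Type*} [Group G] [Finite G] (K H : Subgroup G) [K.Normal]

theorem inter_one (hKH : K ⊓ H = ⊥) {g : G} (hk : g ∈ K) (hh : g ∈ H) : g = 1 := by
  have : g ∈ K ⊓ H := ⟨hk, hh⟩
  rwa [hKH, Subgroup.mem_bot] at this

theorem decomp (hKH' : K ⊔ H = ⊤) (g : G) : ∃ k ∈ K, ∃ h ∈ H, g = k * h := by
  have h1 : g ∈ ((K ⊔ H : Subgroup G) : Set G) := by rw [hKH']; trivial
  rw [Subgroup.normal_mul] at h1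
  obtain ⟨k, hk, h, hh, rfl⟩ := Set.mem_mul.mp h1
  exact ⟨k, hk, h, hh, rfl⟩

theorem comm_mem {u h : G} (hu : u ∈ K) : u * h * u⁻¹ * h⁻¹ ∈ K := by
  have h1 : h * u⁻¹ * h⁻¹ ∈ K := Subgroup.Normal.conj_mem inferInstance _ (K.inv_mem hu) h
  have h2 : u * h * u⁻¹ * h⁻¹ = u * (h * u⁻¹ * h⁻¹) := by group
  rw [h2]; exact K.mul_mem hu h1

theorem key_inj (hKH : K ⊓ H = ⊥)
    (hfpf : ∀ h ∈ H, h ≠ 1 → ∀ k ∈ K, h * k = k * h → k = 1)
    {u h h' : G} (hu : u ∈ K) (hh : h ∈ H) (hne : h ≠ 1) (hh' : h' ∈ H)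
    (he : u * h * u⁻¹ = h') : u = 1 ∧ h' = h := by
  have h1 : u * h * u⁻¹ * h⁻¹ ∈ K := comm_mem K hu
  have h2 : u * h * u⁻¹ * h⁻¹ ∈ H := by rw [he]; exact H.mul_mem hh' (H.inv_mem hh)
  have h3 : u * h * u⁻¹ * h⁻¹ = 1 := inter_one K H hKH h1 h2
  have h4 : h' = h := by
    rw [he] at h3
    exact mul_inv_eq_one.mp h3
  have h5 : h * u = u * h := by
    rw [h4] at he
    calc h * u = (u * h * u⁻¹) * u := by rw [he]
      _ = u * h := by group
  exact ⟨hfpf h hh hne u hu h5, h4⟩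

theorem exists_conj (hKH : K ⊓ H = ⊥) (hKH' : K ⊔ H = ⊤)
    (hfpf : ∀ h ∈ H, h ≠ 1 → ∀ k ∈ K, h * k = k * h → k = 1)
    {a : G} (ha : a ∉ K) : ∃ u ∈ K, ∃ h ∈ H, h ≠ 1 ∧ a = u * h * u⁻¹ := by
  obtain ⟨k₀, hk₀, h₀, hh₀, rfl⟩ := decomp K H hKH' a
  have hne : h₀ ≠ 1 := by
    intro h
    apply ha
    rw [h, mul_one]; exact hk₀
  let φ : K → K := fun u => ⟨(u : G) * h₀ * (u : G)⁻¹ * h₀⁻¹, comm_mem K u.2⟩
  have hinj : Function.Injective φ := by
    intro u v huv
    have h1 : (u : G) * h₀ * (u : G)⁻¹ * h₀⁻¹ = (v : G) * h₀ * (v : G)⁻¹ * h₀⁻¹ :=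
      congrArg Subtype.val huv
    have h2 : ((v : G)⁻¹ * u) * h₀ * ((v : G)⁻¹ * u)⁻¹ = h₀ := by
      have h3 : (u : G) * h₀ * (u : G)⁻¹ = (v : G) * h₀ * (v : G)⁻¹ := mul_right_cancel h1
      calc ((v : G)⁻¹ * u) * h₀ * ((v : G)⁻¹ * u)⁻¹
          = (v : G)⁻¹ * ((u : G) * h₀ * (u : G)⁻¹) * v := by group
        _ = (v : G)⁻¹ * ((v : G) * h₀ * (v : G)⁻¹) * v := by rw [h3]
        _ = h₀ := by group
    have h4 := (key_inj K H hKH hfpf (K.mul_mem (K.inv_mem v.2) u.2) hh₀ hne hh₀ h2).1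
    apply Subtype.ext
    exact (inv_mul_eq_one.mp h4).symm
  have hsurj : Function.Surjective φ := Finite.surjective_of_injective hinj
  obtain ⟨u, hu⟩ := hsurj ⟨k₀, hk₀⟩
  have hu' : (u : G) * h₀ * (u : G)⁻¹ * h₀⁻¹ = k₀ := congrArg Subtype.val hu
  refine ⟨u, u.2, h₀, hh₀, hne, ?_⟩
  rw [← hu']; group

theorem cent_le_H (hKH : K ⊓ H = ⊥) (hKH' : K ⊔ H = ⊤)
    (hfpf : ∀ h ∈ H, h ≠ 1 → ∀ k ∈ K, h * k = k * h → k = 1)
    {h b : G} (hh : h ∈ H) (hne : h ≠ 1) (hc : h * b = b * h) : b ∈ H := by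
  obtain ⟨k₁, hk₁, h₁, hh₁, rfl⟩ := decomp K H hKH' b
  have h2 : k₁ * (h₁ * h * h₁⁻¹) * k₁⁻¹ = h := by
    calc k₁ * (h₁ * h * h₁⁻¹) * k₁⁻¹ = (k₁ * h₁ * h) * (k₁ * h₁)⁻¹ := by group
      _ = (h * (k₁ * h₁)) * (k₁ * h₁)⁻¹ := by rw [hc]
      _ = h := by group
  have hne' : h₁ * h * h₁⁻¹ ≠ 1 := by
    intro h3
    apply hne
    have : h = h₁⁻¹ * (h₁ * h * h₁⁻¹) * h₁ := by group
    rw [this, h3]; group
  have h4 := (key_inj K H hKH hfpf hk₁ (H.mul_mem (H.mul_mem hh₁ hh) (H.inv_mem hh₁)) hne' hh h2).1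
  rw [h4, one_mul]; exact hh₁

theorem cent_le_K (hKH : K ⊓ H = ⊥) (hKH' : K ⊔ H = ⊤)
    (hfpf : ∀ h ∈ H, h ≠ 1 → ∀ k ∈ K, h * k = k * h → k = 1)
    {a b : G} (ha : a ∈ K) (hne : a ≠ 1) (hc : a * b = b * a) : b ∈ K := by
  by_contra hb
  obtain ⟨u, hu, h, hh, hh1, rfl⟩ := exists_conj K H hKH hKH' hfpf hb
  have h1 : u⁻¹ * a * u ∈ K := K.mul_mem (K.mul_mem (K.inv_mem hu) ha) hu
  have h2 : h * (u⁻¹ * a * u) = (u⁻¹ * a * u) * h := by
    calc h * (u⁻¹ * a * u) = u⁻¹ * ((u * h * u⁻¹) * a) * u := by group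
      _ = u⁻¹ * (a * (u * h * u⁻¹)) * u := by rw [hc]
      _ = (u⁻¹ * a * u) * h := by group
  have h3 := hfpf h hh hh1 _ h1 h2
  apply hne
  have : a = u * (u⁻¹ * a * u) * u⁻¹ := by group
  rw [this, h3]; group

theorem S0172_main (hKH : K ⊓ H = ⊥) (hKH' : K ⊔ H = ⊤)
    (hfpf : ∀ h ∈ H, h ≠ 1 → ∀ k ∈ K, h * k = k * h → k = 1) :
    Nat.card H * Nat.card (ConjClasses G) + 1
      = Nat.card H * Nat.card (ConjClasses H) + Nat.card (ConjClasses K) := by
  classical
  letI : Fintype G := Fintype.ofFinite G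
  have hcard : Nat.card K * Nat.card H = Nat.card G := by
    have hc : Subgroup.IsComplement' K H :=
      Subgroup.isComplement'_of_disjoint_and_mul_eq_univ (disjoint_iff.mpr hKH)
        (by rw [← Subgroup.normal_mul, hKH', Subgroup.coe_top])
    exact hc.card_mul_card
  -- pointwise comparisons
  have zGK : ∀ a : K, a ≠ 1 →
      Nat.card {b : G // Commute (a : G) b} = Nat.card {b : K // Commute a b} := by
    intro a ha
    have ha' : (a : G) ≠ 1 := fun h => ha (Subtype.ext h)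
    exact Nat.card_congr
      { toFun := fun b => ⟨⟨b.1, cent_le_K K H hKH hKH' hfpf a.2 ha' b.2.eq⟩, Subtype.ext b.2.eq⟩
        invFun := fun b => ⟨(b.1 : G), congrArg Subtype.val b.2.eq⟩
        left_inv := fun b => rfl
        right_inv := fun b => rfl }
  have zGH : ∀ (k : K) (h : H), h ≠ 1 →
      Nat.card {b : G // Commute ((k : G) * h * (k : G)⁻¹) b} = Nat.card {b : H // Commute h b} := by
    intro k h hh
    have hh' : (h : G) ≠ 1 := fun e => hh (Subtype.ext e)
    have hcm : ∀ b : G, (k : G) * h * (k : G)⁻¹ * b = b * ((k : G) * h * (k : G)⁻¹) →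
        (h : G) * ((k : G)⁻¹ * b * k) = ((k : G)⁻¹ * b * k) * h := by
      intro b hb
      calc (h : G) * ((k : G)⁻¹ * b * k)
          = (k : G)⁻¹ * ((k : G) * h * (k : G)⁻¹ * b) * k := by group
        _ = (k : G)⁻¹ * (b * ((k : G) * h * (k : G)⁻¹)) * k := by rw [hb]
        _ = ((k : G)⁻¹ * b * k) * h := by group
    have hcm' : ∀ b : G, (h : G) * b = b * h →
        (k : G) * h * (k : G)⁻¹ * ((k : G) * b * (k : G)⁻¹)
          = ((k : G) * b * (k : G)⁻¹) * ((k : G) * h * (k : G)⁻¹) := by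
      intro b hb
      calc (k : G) * h * (k : G)⁻¹ * ((k : G) * b * (k : G)⁻¹)
          = (k : G) * ((h : G) * b) * (k : G)⁻¹ := by group
        _ = (k : G) * (b * h) * (k : G)⁻¹ := by rw [hb]
        _ = ((k : G) * b * (k : G)⁻¹) * ((k : G) * h * (k : G)⁻¹) := by group
    exact Nat.card_congr
      { toFun := fun b => ⟨⟨(k : G)⁻¹ * b.1 * k,
          cent_le_H K H hKH hKH' hfpf h.2 hh' (hcm b.1 b.2.eq)⟩, Subtype.ext (hcm b.1 b.2.eq)⟩
        invFun := fun b => ⟨(k : G) * (b.1 : G) * (k : G)⁻¹,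
          hcm' (b.1 : G) (congrArg Subtype.val b.2.eq)⟩
        left_inv := fun b => by
          apply Subtype.ext
          show (k : G) * ((k : G)⁻¹ * b.1 * k) * (k : G)⁻¹ = b.1
          group
        right_inv := fun b => by
          apply Subtype.ext
          apply Subtype.ext
          show (k : G)⁻¹ * ((k : G) * (b.1 : G) * (k : G)⁻¹) * k = (b.1 : G)
          group }
  -- the bijection for elements outside K
  have hout : ∀ (k : K) (h : {h : H // h ≠ 1}), (k : G) * (h.1 : G) * (k : G)⁻¹ ∉ K := by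
    intro k h hmem
    have h1 : ((h.1 : H) : G) ∈ K := by
      have h2 : ((h.1 : H) : G) = (k : G)⁻¹ * ((k : G) * (h.1 : G) * (k : G)⁻¹) * k := by group
      rw [h2]
      exact K.mul_mem (K.mul_mem (K.inv_mem k.2) hmem) k.2
    exact h.2 (Subtype.ext (inter_one K H hKH h1 h.1.2))
  let e0 : K × {h : H // h ≠ 1} → {a : G // a ∉ K} :=
    fun q => ⟨(q.1 : G) * (q.2.1 : G) * (q.1 : G)⁻¹, hout q.1 q.2⟩
  have he0 : Function.Bijective e0 := by
    constructor
    · rintro ⟨k, h⟩ ⟨k', h'⟩ hq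
      have h1 : (k : G) * (h.1 : G) * (k : G)⁻¹ = (k' : G) * (h'.1 : G) * (k' : G)⁻¹ :=
        congrArg Subtype.val hq
      have h2 : ((k' : G)⁻¹ * k) * (h.1 : G) * ((k' : G)⁻¹ * k)⁻¹ = (h'.1 : G) := by
        calc ((k' : G)⁻¹ * k) * (h.1 : G) * ((k' : G)⁻¹ * k)⁻¹
            = (k' : G)⁻¹ * ((k : G) * (h.1 : G) * (k : G)⁻¹) * k' := by group
          _ = (k' : G)⁻¹ * ((k' : G) * (h'.1 : G) * (k' : G)⁻¹) * k' := by rw [h1]
          _ = (h'.1 : G) := by group
      have hh1 : ((h.1 : H) : G) ≠ 1 := fun e => h.2 (Subtype.ext e)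
      obtain ⟨h3, h4⟩ := key_inj K H hKH hfpf (K.mul_mem (K.inv_mem k'.2) k.2) h.1.2 hh1 h'.1.2 h2
      have hk : k = k' := Subtype.ext (inv_mul_eq_one.mp h3).symm
      have hh : h = h' := Subtype.ext (Subtype.ext h4.symm)
      rw [hk, hh]
    · rintro ⟨a, ha⟩
      obtain ⟨u, hu, h, hh, hne, rfl⟩ := exists_conj K H hKH hKH' hfpf ha
      exact ⟨(⟨u, hu⟩, ⟨⟨h, hh⟩, fun e => hne (congrArg Subtype.val e)⟩), rfl⟩
  let e : K × {h : H // h ≠ 1} ≃ {a : G // a ∉ K} := Equiv.ofBijective e0 he0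
  -- sums
  have hG := sum_comm G
  have hK := sum_comm K
  have hH := sum_comm H
  have hsplit := Fintype.sum_subtype_add_sum_subtype (fun x : G => x ∈ K)
    (fun a : G => Nat.card {b : G // Commute a b})
  -- K part
  have hKpart : (∑ a : K, Nat.card {b : G // Commute (a : G) b}) + Nat.card K
      = Nat.card G + Nat.card (ConjClasses K) * Nat.card K := by
    rw [← hK]
    rw [← Finset.add_sum_erase Finset.univ (fun a : K => Nat.card {b : G // Commute (a : G) b})
      (Finset.mem_univ (1 : K)),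
      ← Finset.add_sum_erase Finset.univ (fun a : K => Nat.card {b : K // Commute a b})
      (Finset.mem_univ (1 : K))]
    have h1 : ∑ a ∈ (Finset.univ : Finset K).erase 1, Nat.card {b : G // Commute (a : G) b}
        = ∑ a ∈ (Finset.univ : Finset K).erase 1, Nat.card {b : K // Commute a b} := by
      apply Finset.sum_congr rfl
      intro a ha
      exact zGK a (Finset.ne_of_mem_erase ha)
    rw [h1]
    have h2 : Nat.card {b : G // Commute ((1 : K) : G) b} = Nat.card G := comm_one G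
    have h3 : Nat.card {b : K // Commute (1 : K) b} = Nat.card K := comm_one K
    rw [h2, h3]
    ring
  -- outside part
  have hOut : (∑ a : {x : G // x ∉ K}, Nat.card {b : G // Commute (a : G) b})
      + Nat.card K * Nat.card H = Nat.card K * (Nat.card (ConjClasses H) * Nat.card H) := by
    rw [← hH]
    have h1 : (∑ a : {x : G // x ∉ K}, Nat.card {b : G // Commute (a : G) b})
        = ∑ q : K × {h : H // h ≠ 1}, Nat.card {b : H // Commute q.2.1 b} := by
      rw [← Equiv.sum_comp e (fun a : {x : G // x ∉ K} => Nat.card {b : G // Commute (a : G) b})]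
      apply Finset.sum_congr rfl
      intro q _
      exact zGH q.1 q.2.1 q.2.2
    have h1' : (∑ q : K × {h : H // h ≠ 1}, Nat.card {b : H // Commute q.2.1 b})
        = Nat.card K * ∑ h : {h : H // h ≠ 1}, Nat.card {b : H // Commute h.1 b} := by
      rw [Fintype.sum_prod_type]
      have h5 : ∀ x : K, (∑ y : {h : H // h ≠ 1}, Nat.card {b : H // Commute ((x, y).2).1 b})
          = ∑ h : {h : H // h ≠ 1}, Nat.card {b : H // Commute h.1 b} := fun x => rfl
      rw [Finset.sum_congr rfl (fun x _ => h5 x), Finset.sum_const, Finset.card_univ,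
        smul_eq_mul, ← Nat.card_eq_fintype_card]
    rw [h1, h1']
    rw [← Finset.add_sum_erase Finset.univ (fun a : H => Nat.card {b : H // Commute a b})
      (Finset.mem_univ (1 : H))]
    have h2 : ∑ a ∈ (Finset.univ : Finset H).erase 1, Nat.card {b : H // Commute a b}
        = ∑ h : {h : H // h ≠ 1}, Nat.card {b : H // Commute h.1 b} :=
      Finset.sum_subtype ((Finset.univ : Finset H).erase 1) (fun x => by simp)
        (fun a : H => Nat.card {b : H // Commute a b})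
    have h3 : Nat.card {b : H // Commute (1 : H) b} = Nat.card H := comm_one H
    rw [h2, h3]
    ring
  -- assemble
  have hpos : 0 < Nat.card K := Nat.card_pos
  have hsum : Nat.card (ConjClasses G) * Nat.card G
      = (∑ a : K, Nat.card {b : G // Commute (a : G) b})
        + ∑ a : {x : G // x ∉ K}, Nat.card {b : G // Commute (a : G) b} := by
    rw [← hG]; exact hsplit.symm
  have hfin : Nat.card K * (Nat.card H * Nat.card (ConjClasses G) + 1)
      = Nat.card K * (Nat.card H * Nat.card (ConjClasses H) + Nat.card (ConjClasses K)) := by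
    have h1 : Nat.card K * (Nat.card H * Nat.card (ConjClasses G) + 1)
        = Nat.card (ConjClasses G) * Nat.card G + Nat.card K := by
      rw [← hcard]; ring
    rw [h1, hsum]
    have h2 : (∑ a : K, Nat.card {b : G // Commute (a : G) b})
        + (∑ a : {x : G // x ∉ K}, Nat.card {b : G // Commute (a : G) b}) + Nat.card K
        + Nat.card K * Nat.card H
        = Nat.card G + Nat.card (ConjClasses K) * Nat.card K
          + Nat.card K * (Nat.card (ConjClasses H) * Nat.card H) := by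
      rw [← hKpart, ← hOut]; ring
    rw [← hcard] at h2
    have h3 : Nat.card K * (Nat.card H * Nat.card (ConjClasses H) + Nat.card (ConjClasses K))
        + Nat.card K * Nat.card H
        = Nat.card K * Nat.card H + Nat.card (ConjClasses K) * Nat.card K
          + Nat.card K * (Nat.card (ConjClasses H) * Nat.card H) := by ring
    exact Nat.add_right_cancel (h2.trans h3.symm)
  exact Nat.eq_of_mul_eq_mul_left hpos hfin

end Frob

end Cfsg.Agent.Lib_helper2_FrobCl
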