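import Mathlib
import Cfsg.Prelude.Def_Solvable

set_option autoImplicit false

namespace Cfsg.Agent.Lib_helper2_FrobCyc

open scoped Pointwise

/-- affine permutations `x ↦ u x + a` of `ZMod q` with `u` in a subgroup of units -/
def affSub (q : ℕ) (K : Subgroup (ZMod q)ˣ) : Subgroup (Equiv.Perm (ZMod q)) where
  carrier := {σ | ∃ u ∈ K, ∃ a : ZMod q, ∀ x, σ x = (u : ZMod q) * x + a}
  one_mem' := ⟨1, K.one_mem, 0, fun x => by rw [Units.val_one, one_mul, add_zero]; rfl⟩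
  mul_mem' := by
    rintro σ τ ⟨u, hu, a, hσ⟩ ⟨v, hv, b, hτ⟩
    refine ⟨u * v, K.mul_mem hu hv, (u : ZMod q) * b + a, fun x => ?_⟩
    rw [Equiv.Perm.mul_apply, hτ, hσ, Units.val_mul]; ring
  inv_mem' := by
    rintro σ ⟨u, hu, a, hσ⟩
    refine ⟨u⁻¹, K.inv_mem hu, -((u⁻¹ : (ZMod q)ˣ) : ZMod q) * a, fun x => ?_⟩
    apply σ.injective
    rw [Equiv.Perm.inv_def, Equiv.apply_symm_apply, hσ]
    have h1 : (u : ZMod q) * ((u⁻¹ : (ZMod q)ˣ) : ZMod q) = 1 := by
      rw [← Units.val_mul, mul_inv_cancel, Units.val_one]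
    linear_combination (a - x) * h1

/-- the linear maps `x ↦ u x` inside the affine group -/
def iota (q : ℕ) (K : Subgroup (ZMod q)ˣ) : K →* affSub q K where
  toFun u := ⟨Units.mulLeft (u : (ZMod q)ˣ), ⟨u, u.2, 0, fun x => by rw [add_zero]; rfl⟩⟩
  map_one' := by
    apply Subtype.ext
    ext x
    show ((1 : (ZMod q)ˣ) : ZMod q) * x = x
    rw [Units.val_one, one_mul]
  map_mul' := by
    intro u v
    apply Subtype.ext
    ext x
    show (((u : (ZMod q)ˣ) * (v : (ZMod q)ˣ) : (ZMod q)ˣ) : ZMod q) * x =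
      ((u : (ZMod q)ˣ) : ZMod q) * (((v : (ZMod q)ˣ) : ZMod q) * x)
    rw [Units.val_mul, mul_assoc]

theorem iota_apply (q : ℕ) (K : Subgroup (ZMod q)ˣ) (u : K) (x : ZMod q) :
    ((iota q K u : affSub q K) : Equiv.Perm (ZMod q)) x = ((u : (ZMod q)ˣ) : ZMod q) * x := rfl

theorem iota_injective (q : ℕ) (K : Subgroup (ZMod q)ˣ) : Function.Injective (iota q K) := by
  intro u v h
  have h1 := iota_apply q K u 1
  rw [h, iota_apply, mul_one, mul_one] at h1
  exact Subtype.ext (Units.ext h1.symm)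

theorem mem_range_iota {q : ℕ} (K : Subgroup (ZMod q)ˣ) (σ : affSub q K) :
    σ ∈ (iota q K).range ↔ (σ : Equiv.Perm (ZMod q)) 0 = 0 := by
  constructor
  · rintro ⟨u, rfl⟩
    rw [iota_apply, mul_zero]
  · intro h0
    obtain ⟨σ, u, hu, a, hσ⟩ := σ
    have ha : a = 0 := by
      have h1 := hσ 0
      rw [mul_zero, zero_add] at h1
      rw [← h1]; exact h0
    refine ⟨⟨u, hu⟩, Subtype.ext ?_⟩
    ext x
    show (u : ZMod q) * x = σ x
    rw [hσ x, ha, add_zero]

theorem S4299_main {C : Type*} [Group C] [Finite C] [IsCyclic C] [Nontrivial C] :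
    ∃ (L : Type) (_ : Group L) (_ : Finite L) (H : Subgroup L),
      Cfsg.IsFrobeniusComplement H ∧ Nonempty (C ≃* H) := by
  have hn2 : 2 ≤ Nat.card C := Finite.one_lt_card
  obtain ⟨q, hq, -, hmod⟩ := Nat.exists_prime_gt_modEq_one (k := Nat.card C) 0 (by omega)
  haveI : Fact q.Prime := ⟨hq⟩
  have hdvd : Nat.card C ∣ q - 1 := (Nat.modEq_iff_dvd' hq.one_le).mp hmod.symm
  obtain ⟨g, hg⟩ := IsCyclic.exists_generator (α := (ZMod q)ˣ)
  have hog : orderOf g = q - 1 := by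
    rw [orderOf_eq_card_of_forall_mem_zpowers hg, Nat.card_eq_fintype_card, ZMod.card_units]
  obtain ⟨d, hd⟩ := hdvd
  have hd0 : d ≠ 0 := by
    rintro rfl
    have := hq.two_le
    omega
  have hou : orderOf (g ^ d) = Nat.card C := by
    rw [orderOf_pow_of_dvd hd0 (by rw [hog, hd]; exact dvd_mul_left d _), hog, hd,
      Nat.mul_div_cancel _ (Nat.pos_of_ne_zero hd0)]
  obtain ⟨K, hK⟩ : ∃ K : Subgroup (ZMod q)ˣ, K = Subgroup.zpowers (g ^ d) := ⟨_, rfl⟩
  have hKcard : Nat.card K = Nat.card C := by rw [hK, Nat.card_zpowers, hou]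
  haveI : IsCyclic K := by rw [hK]; infer_instance
  have hgK : g ^ d ∈ K := by rw [hK]; exact Subgroup.mem_zpowers _
  have hg1 : g ^ d ≠ 1 := by
    intro h1
    rw [h1, orderOf_one] at hou
    omega
  refine ⟨affSub q K, inferInstance, inferInstance, (iota q K).range, ⟨?_, ?_, ?_⟩, ?_⟩
  · intro hbot
    have h1 : iota q K ⟨g ^ d, hgK⟩ ∈ (iota q K).range := ⟨_, rfl⟩
    rw [hbot, Subgroup.mem_bot] at h1
    have h2 := iota_injective q K (h1.trans (map_one (iota q K)).symm)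
    exact hg1 (congrArg Subtype.val h2)
  · intro htop
    have hτ : (Equiv.addRight (1 : ZMod q) : Equiv.Perm (ZMod q)) ∈ affSub q K :=
      ⟨1, K.one_mem, 1, fun x => by rw [Units.val_one, one_mul]; rfl⟩
    have h1 : (⟨_, hτ⟩ : affSub q K) ∈ (iota q K).range := by rw [htop]; exact Subgroup.mem_top _
    rw [mem_range_iota] at h1
    have h2 : (0 : ZMod q) + 1 = 0 := h1
    rw [zero_add] at h2
    exact one_ne_zero h2
  · intro γ hγ
    rw [Subgroup.eq_bot_iff_forall]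
    rintro σ ⟨hσ1, hσ2⟩
    rw [mem_range_iota] at hγ
    obtain ⟨s, hs, hsσ⟩ := (Subgroup.mem_smul_pointwise_iff_exists _ _ _).mp hσ2
    rw [mem_range_iota] at hs
    have hσ1' : σ ∈ (iota q K).range := hσ1
    obtain ⟨u, rfl⟩ := hσ1'
    have h1 : ((iota q K u : affSub q K) : Equiv.Perm (ZMod q)) ((γ : Equiv.Perm (ZMod q)) 0) =
        (γ : Equiv.Perm (ZMod q)) 0 := by
      rw [← hsσ]
      show (γ : Equiv.Perm (ZMod q)) ((s : Equiv.Perm (ZMod q))
        ((γ : Equiv.Perm (ZMod q))⁻¹ ((γ : Equiv.Perm (ZMod q)) 0))) = _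
      rw [Equiv.Perm.inv_def, Equiv.symm_apply_apply, hs]
    rw [iota_apply] at h1
    have h2 : (((u : (ZMod q)ˣ) : ZMod q) - 1) * (γ : Equiv.Perm (ZMod q)) 0 = 0 := by
      rw [sub_mul, h1, one_mul, sub_self]
    rcases mul_eq_zero.mp h2 with h3 | h3
    · have h4 : u = 1 := Subtype.ext (Units.ext (by rw [sub_eq_zero.mp h3]; rfl))
      rw [h4, map_one]
    · exact absurd h3 hγ
  · have e1 : C ≃* K := mulEquivOfCyclicCardEq hKcard.symm
    have e2 : K ≃* (iota q K).range := MonoidHom.ofInjective (iota_injective q K)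
    exact ⟨e1.trans e2⟩

end Cfsg.Agent.Lib_helper2_FrobCyc
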