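import Mathlib
import Cfsg.Prelude.Def_TwoFusion
import Cfsg.Agent.Lib_helper2_Dihedral
import Cfsg.Agent.Lib_helper2_Inv
import Cfsg.Agent.Lib_helper2_Isolated

set_option autoImplicit false

namespace Cfsg.Agent.Lib_helper2_Iso2

open Cfsg.Agent.Lib_helper2_Dihedral Cfsg.Agent.Lib_helper2_Inv Cfsg.Agent.Lib_helper2_Isolated

variable {G : Type*} [Group G]

/-- Squaring is injective on elements of odd order. -/
theorem sq_inj {k l : G} (hk : Odd (orderOf k)) (hl : Odd (orderOf l)) (h : k * k = l * l) :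
    k = l := by
  obtain ⟨t, ht⟩ := hk.mul hl
  have e : ∀ x : G, x ^ (2 * t + 1) * x = (x * x) ^ (t + 1) := fun x => by
    rw [← pow_succ, ← pow_two, ← pow_mul]; congr 1
  have hk1 : k ^ (orderOf k * orderOf l) = 1 := by rw [pow_mul, pow_orderOf_eq_one, one_pow]
  have hl1 : l ^ (orderOf k * orderOf l) = 1 := by
    rw [mul_comm, pow_mul, pow_orderOf_eq_one, one_pow]
  rw [ht] at hk1 hl1
  calc k = k ^ (2 * t + 1) * k := by rw [hk1, one_mul]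
    _ = (k * k) ^ (t + 1) := e k
    _ = (l * l) ^ (t + 1) := by rw [h]
    _ = l ^ (2 * t + 1) * l := (e l).symm
    _ = l := by rw [hl1, one_mul]

/-- An element inverted by `z` and centralized by `s z` is inverted by `s`. -/
theorem inv_of_comm_sz {z s i : G} (hzi : z * i * z⁻¹ = i⁻¹) (hc : Commute i (s * z)) :
    s * i * s⁻¹ = i⁻¹ := by
  have h1 : (s * z) * i * (s * z)⁻¹ = i := by
    rw [← hc.eq]; group
  have h2 : (s * z) * i * (s * z)⁻¹ = s * (z * i * z⁻¹) * s⁻¹ := by group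
  rw [h2, hzi] at h1
  calc s * i * s⁻¹ = (s * i⁻¹ * s⁻¹)⁻¹ := by group
    _ = i⁻¹ := by rw [h1]

/-- Key identities for the element `c i z i⁻¹ c⁻¹`. -/
theorem conj_formula {z s c i : G} (hz2 : z * z = 1) (hsz : s * z * s⁻¹ = z)
    (hsc : s * c * s⁻¹ = c) (hzi : z * i * z⁻¹ = i⁻¹) (hsi : s * i * s⁻¹ = i⁻¹) :
    (c * (i * i) * c⁻¹) * (c * (i * i) * c⁻¹)
        = (c * i * z * i⁻¹ * c⁻¹) * (s * (c * i * z * i⁻¹ * c⁻¹) * s⁻¹) ∧
      (c * i * z * i⁻¹ * c⁻¹) * (c * (i * i) * c⁻¹) = c * z * c⁻¹ := by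
  constructor
  · have e1 : s * (c * i * z * i⁻¹ * c⁻¹) * s⁻¹
        = (s * c * s⁻¹) * (s * i * s⁻¹) * (s * z * s⁻¹) * (s * i * s⁻¹)⁻¹ * (s * c * s⁻¹)⁻¹ := by
      group
    rw [e1, hsc, hsi, hsz, inv_inv]
    have e2 : (c * i * z * i⁻¹ * c⁻¹) * (c * i⁻¹ * z * i * c⁻¹)
        = c * i * ((z * i * z⁻¹)⁻¹ * (z * i * z⁻¹)⁻¹ * (z * z)) * i * c⁻¹ := by group
    rw [e2, hzi, inv_inv, hz2, mul_one]
    group
  · have e1 : (c * i * z * i⁻¹ * c⁻¹) * (c * (i * i) * c⁻¹)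
        = c * (i * (z * i * z⁻¹)) * z * c⁻¹ := by group
    rw [e1, hzi, mul_inv_cancel, mul_one]

section Iso

variable [Finite G]

/-- Existence part of the factorization of conjugates of an isolated involution relative to a
commuting involution `s`. -/
theorem isolated_decomp {z : G} (hz : Cfsg.IsIsolatedInvolution z) {s : G} (hs2 : s * s = 1)
    (hsz : Commute s z) (g : G) :
    ∃ c i : G, (Odd (orderOf c) ∧ z * c * z⁻¹ = c⁻¹ ∧ Commute c s) ∧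
      (Odd (orderOf i) ∧ z * i * z⁻¹ = i⁻¹ ∧ Commute i (s * z)) ∧
      c * i * z * i⁻¹ * c⁻¹ = g * z * g⁻¹ := by
  have hz2 := sq_eq_one_of_orderOf_two hz.1
  have hsinv : s⁻¹ = s := inv_eq_of_mul_eq_one_left hs2
  have hszc : s * z * s⁻¹ = z := by rw [hsz.eq]; group
  obtain ⟨a, hadef⟩ : ∃ a : G, a = g * z * g⁻¹ := ⟨_, rfl⟩
  have ha2 : a * a = 1 := by
    rw [hadef]
    have e : g * z * g⁻¹ * (g * z * g⁻¹) = g * (z * z) * g⁻¹ := by group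
    rw [e, hz2, mul_one, mul_inv_cancel]
  have hainv : a⁻¹ = a := inv_eq_of_mul_eq_one_left ha2
  obtain ⟨a', ha'def⟩ : ∃ a' : G, a' = s * a * s⁻¹ := ⟨_, rfl⟩
  have ha'2 : a' * a' = 1 := by
    rw [ha'def]
    have e : s * a * s⁻¹ * (s * a * s⁻¹) = s * (a * a) * s⁻¹ := by group
    rw [e, ha2, mul_one, mul_inv_cancel]
  have ha'inv : a'⁻¹ = a' := inv_eq_of_mul_eq_one_left ha'2
  have hsa' : s * a' * s⁻¹ = a := by
    rw [ha'def]
    have e : s * (s * a * s⁻¹) * s⁻¹ = (s * s) * a * (s * s)⁻¹ := by group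
    rw [e, hs2, one_mul, inv_one, mul_one]
  obtain ⟨r, hrdef⟩ : ∃ r : G, r = a * a' := ⟨_, rfl⟩
  have hr_odd : Odd (orderOf r) := by
    have e : r = g * (z * ((g⁻¹ * s * g) * z * (g⁻¹ * s * g)⁻¹)) * g⁻¹ := by
      rw [hrdef, ha'def, hadef]; group
    rw [e, orderOf_conj_eq]
    exact isolated_odd hz _
  have har : a * r * a⁻¹ = r⁻¹ := by
    rw [hrdef]
    have e1 : a * (a * a') * a⁻¹ = (a * a) * a' * a⁻¹ := by group
    rw [e1, ha2, one_mul, mul_inv_rev, ha'inv]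
  have hsr : s * r * s⁻¹ = r⁻¹ := by
    rw [hrdef]
    have e1 : s * (a * a') * s⁻¹ = (s * a * s⁻¹) * (s * a' * s⁻¹) := by group
    rw [e1, hsa', ← ha'def, mul_inv_rev, ha'inv, hainv]
  obtain ⟨j, hj⟩ := exists_sqrt_of_odd hr_odd
  have hq_odd := odd_orderOf_pow hr_odd j
  have haq := inv_conj_pow har j
  have hsq := inv_conj_pow hsr j
  obtain ⟨j', hj'⟩ := exists_sqrt_of_odd hq_odd
  have hd_odd := odd_orderOf_pow hq_odd j'
  have had := inv_conj_pow haq j'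
  have hsd := inv_conj_pow hsq j'
  obtain ⟨d, hddef⟩ : ∃ d : G, d = (r ^ j) ^ j' := ⟨_, rfl⟩
  rw [← hddef] at hd_odd had hsd hj'
  have hd4 : (d * d) * (d * d) = a * a' := by rw [hj', hj, hrdef]
  -- the midpoint involution
  obtain ⟨b, hbdef⟩ : ∃ b : G, b = (d⁻¹ * g) * z * (d⁻¹ * g)⁻¹ := ⟨_, rfl⟩
  have hb : b = d⁻¹ * a * d := by rw [hbdef, hadef]; group
  have hbd : b * d * b⁻¹ = d⁻¹ := by
    rw [hb]
    have e : d⁻¹ * a * d * d * (d⁻¹ * a * d)⁻¹ = d⁻¹ * (a * d * a⁻¹) * d := by group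
    rw [e, had]; group
  have hdb : d * b * d⁻¹ = a := by rw [hb]; group
  have hsb : s * b * s⁻¹ = b := by
    rw [hb]
    have e : s * (d⁻¹ * a * d) * s⁻¹ = (s * d * s⁻¹)⁻¹ * (s * a * s⁻¹) * (s * d * s⁻¹) := by
      group
    rw [e, hsd, inv_inv, ← ha'def]
    -- d * a' * d⁻¹ = d⁻¹ * a * d
    have e2 : a' = a⁻¹ * ((d * d) * (d * d)) := by rw [hd4]; group
    rw [e2, hainv]
    have e3 : d * (a * (d * d * (d * d))) * d⁻¹
        = d * (a * d * a⁻¹) * (a * d * a⁻¹) * (a * d * a⁻¹) * a := by group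
    have e4 : d⁻¹ * a * d = d⁻¹ * (a * d * a⁻¹) * a := by group
    rw [e3, e4, had]
    group
  obtain ⟨j₁, hc_odd, hzc, hcb⟩ := isolated_exists_K hz (d⁻¹ * g)
  rw [← hbdef] at hc_odd hzc hcb
  obtain ⟨c, hcdef⟩ : ∃ c : G, c = (b * z) ^ j₁ := ⟨_, rfl⟩
  rw [← hcdef] at hc_odd hzc hcb
  have hsb' : Commute s b := by
    have : s * b = (s * b * s⁻¹) * s := by group
    rw [hsb] at this
    exact this
  have hsc : Commute s c := by
    rw [hcdef]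
    exact (hsb'.mul_right hsz).pow_right j₁
  have hscc : s * c * s⁻¹ = c := by rw [hsc.eq]; group
  refine ⟨c, c⁻¹ * d * c, ⟨hc_odd, hzc, hsc.symm⟩, ⟨?_, ?_, ?_⟩, ?_⟩
  · have e : c⁻¹ * d * c = c⁻¹ * d * c⁻¹⁻¹ := by rw [inv_inv]
    rw [e, orderOf_conj_eq]
    exact hd_odd
  · have e : z * (c⁻¹ * d * c) * z⁻¹ = c⁻¹ * ((c * z * c⁻¹) * d * (c * z * c⁻¹)⁻¹) * c := by
      group
    rw [e, hcb, hbd]; group
  · have hzi : z * (c⁻¹ * d * c) * z⁻¹ = (c⁻¹ * d * c)⁻¹ := by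
      have e : z * (c⁻¹ * d * c) * z⁻¹ = c⁻¹ * ((c * z * c⁻¹) * d * (c * z * c⁻¹)⁻¹) * c := by
        group
      rw [e, hcb, hbd]; group
    have hsi : s * (c⁻¹ * d * c) * s⁻¹ = (c⁻¹ * d * c)⁻¹ := by
      have e : s * (c⁻¹ * d * c) * s⁻¹ = (s * c * s⁻¹)⁻¹ * (s * d * s⁻¹) * (s * c * s⁻¹) := by
        group
      rw [e, hscc, hsd]; group
    have e1 : (s * z) * (c⁻¹ * d * c) * (s * z)⁻¹ = s * (z * (c⁻¹ * d * c) * z⁻¹) * s⁻¹ := by
      group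
    have e2 : s * (c⁻¹ * d * c)⁻¹ * s⁻¹ = (s * (c⁻¹ * d * c) * s⁻¹)⁻¹ := by group
    rw [hzi, e2, hsi, inv_inv] at e1
    exact (mul_inv_eq_iff_eq_mul.mp e1).symm
  · have e : c * (c⁻¹ * d * c) * z * (c⁻¹ * d * c)⁻¹ * c⁻¹ = d * (c * z * c⁻¹) * d⁻¹ := by group
    rw [e, hcb, hdb, hadef]

/-- Uniqueness part of the factorization. -/
theorem isolated_decomp_unique {z s : G} (hz2 : z * z = 1) (hsz : Commute s z)
    {c i c' i' : G} (hc : Odd (orderOf c) ∧ z * c * z⁻¹ = c⁻¹ ∧ Commute c s)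
    (hi : Odd (orderOf i) ∧ z * i * z⁻¹ = i⁻¹ ∧ Commute i (s * z))
    (hc' : Odd (orderOf c') ∧ z * c' * z⁻¹ = c'⁻¹ ∧ Commute c' s)
    (hi' : Odd (orderOf i') ∧ z * i' * z⁻¹ = i'⁻¹ ∧ Commute i' (s * z))
    (h : c * i * z * i⁻¹ * c⁻¹ = c' * i' * z * i'⁻¹ * c'⁻¹) : c = c' ∧ i = i' := by
  have hszc : s * z * s⁻¹ = z := by rw [hsz.eq]; group
  have hscc : s * c * s⁻¹ = c := by rw [← hc.2.2.eq]; group
  have hscc' : s * c' * s⁻¹ = c' := by rw [← hc'.2.2.eq]; group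
  have hsi := inv_of_comm_sz hi.2.1 hi.2.2
  have hsi' := inv_of_comm_sz hi'.2.1 hi'.2.2
  obtain ⟨f1, f2⟩ := conj_formula hz2 hszc hscc hi.2.1 hsi
  obtain ⟨f1', f2'⟩ := conj_formula hz2 hszc hscc' hi'.2.1 hsi'
  have hodd : ∀ c₀ i₀ : G, Odd (orderOf i₀) → Odd (orderOf (c₀ * (i₀ * i₀) * c₀⁻¹)) := by
    intro c₀ i₀ hi₀
    rw [orderOf_conj_eq, ← pow_two]
    exact odd_orderOf_pow hi₀ 2
  have hq : c * (i * i) * c⁻¹ = c' * (i' * i') * c'⁻¹ := by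
    apply sq_inj (hodd c i hi.1) (hodd c' i' hi'.1)
    rw [f1, f1', h]
  have hcz : c * z * c⁻¹ = c' * z * c'⁻¹ := by rw [← f2, ← f2', h, hq]
  have hcc : c = c' := by
    rw [conj_of_inverted hc.2.1, conj_of_inverted hc'.2.1] at hcz
    exact sq_inj hc.1 hc'.1 (mul_right_cancel hcz)
  refine ⟨hcc, ?_⟩
  subst hcc
  have h2 : i * z * i⁻¹ = i' * z * i'⁻¹ := by
    have e1 : i * z * i⁻¹ = c⁻¹ * (c * i * z * i⁻¹ * c⁻¹) * c := by group
    rw [e1, h]; group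
  rw [conj_of_inverted hi.2.1, conj_of_inverted hi'.2.1] at h2
  exact sq_inj hi.1 hi'.1 (mul_right_cancel h2)

/-- The counting formula for an isolated involution `z` and a commuting involution `s`. -/
theorem isolated_count {z : G} (hz : Cfsg.IsIsolatedInvolution z) {s : G} (hs2 : s * s = 1)
    (hsz : Commute s z) :
    Nat.card {b : G // IsConj z b}
      = Nat.card {k : G // Odd (orderOf k) ∧ z * k * z⁻¹ = k⁻¹ ∧ Commute k (s * z)} *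
        Nat.card {k : G // Odd (orderOf k) ∧ z * k * z⁻¹ = k⁻¹ ∧ Commute k s} := by
  have hz2 := sq_eq_one_of_orderOf_two hz.1
  rw [← Nat.card_prod]
  symm
  refine Nat.card_congr (Equiv.ofBijective
    (fun p : {k : G // Odd (orderOf k) ∧ z * k * z⁻¹ = k⁻¹ ∧ Commute k (s * z)} ×
        {k : G // Odd (orderOf k) ∧ z * k * z⁻¹ = k⁻¹ ∧ Commute k s} =>
      (⟨p.2.1 * p.1.1 * z * p.1.1⁻¹ * p.2.1⁻¹,
        isConj_iff.mpr ⟨p.2.1 * p.1.1, by group⟩⟩ : {b : G // IsConj z b})) ⟨?_, ?_⟩)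
  · rintro ⟨⟨i, hi⟩, ⟨c, hc⟩⟩ ⟨⟨i', hi'⟩, ⟨c', hc'⟩⟩ h
    have h' := congrArg Subtype.val h
    simp only at h'
    obtain ⟨h1, h2⟩ := isolated_decomp_unique hz2 hsz hc hi hc' hi' h'
    subst h1; subst h2; rfl
  · rintro ⟨b, hb⟩
    obtain ⟨g, hg⟩ := isConj_iff.mp hb
    obtain ⟨c, i, hc, hi, h⟩ := isolated_decomp hz hs2 hsz g
    refine ⟨⟨⟨i, hi⟩, ⟨c, hc⟩⟩, ?_⟩
    apply Subtype.ext
    show c * i * z * i⁻¹ * c⁻¹ = b
    rw [h, hg]

end Iso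

end Cfsg.Agent.Lib_helper2_Iso2
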