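import Mathlib
import Cfsg.Agent.Lib_helper2_Dihedral

set_option autoImplicit false

namespace Cfsg.Agent.Lib_helper2_Ord12

open Cfsg.Agent.Lib_helper2_Dihedral

variable {G : Type*} [Group G]

theorem mem_zpowers_three {p x : G} (hpo : orderOf p = 3) (hx : x ∈ Subgroup.zpowers p) :
    x = 1 ∨ x = p ∨ x = p⁻¹ := by
  obtain ⟨k, rfl⟩ := hx
  have hmod := zpow_mod_orderOf p k
  rw [hpo] at hmod
  have h0 : 0 ≤ k % ((3 : ℕ) : ℤ) := Int.emod_nonneg _ (by norm_num)
  have h3 : k % ((3 : ℕ) : ℤ) < 3 := Int.emod_lt_of_pos _ (by norm_num)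
  have hp3 : p ^ 3 = 1 := by rw [← hpo]; exact pow_orderOf_eq_one p
  show p ^ k = 1 ∨ p ^ k = p ∨ p ^ k = p⁻¹
  rw [← hmod]
  obtain ⟨r, hr⟩ : ∃ r : ℤ, r = k % ((3 : ℕ) : ℤ) := ⟨_, rfl⟩
  rw [← hr] at h0 h3 ⊢
  interval_cases r
  · left; exact zpow_zero p
  · right; left; exact zpow_one p
  · right; right
    rw [eq_inv_iff_mul_eq_one]
    have h5 : p ^ (2 : ℤ) = p * p := by rw [zpow_ofNat, pow_two]
    rw [h5, ← hp3, pow_succ, pow_two]

theorem sylow_cards [Finite G] (hG : Nat.card G = 12) (P : Sylow 3 G) (Q : Sylow 2 G) :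
    Nat.card (P : Subgroup G) = 3 ∧ Nat.card (Q : Subgroup G) = 4 := by
  haveI : Fact (Nat.Prime 2) := ⟨Nat.prime_two⟩
  haveI : Fact (Nat.Prime 3) := ⟨Nat.prime_three⟩
  constructor
  · obtain ⟨k, hk⟩ := (P.2 : IsPGroup 3 (P : Subgroup G)).exists_card_eq
    have h1 := (P : Subgroup G).card_mul_index
    have h2 : ¬ 3 ∣ (P : Subgroup G).index := P.not_dvd_index
    rw [hG, hk] at h1
    rw [hk]
    rcases k with _ | _ | k
    · exfalso
      rw [pow_zero, one_mul] at h1
      rw [h1] at h2
      exact h2 (by norm_num)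
    · norm_num
    · exfalso
      have h9 : 9 ∣ 12 := ⟨3 ^ k * (P : Subgroup G).index, by rw [← h1]; ring⟩
      omega
  · obtain ⟨k, hk⟩ := (Q.2 : IsPGroup 2 (Q : Subgroup G)).exists_card_eq
    have h1 := (Q : Subgroup G).card_mul_index
    have h2 : ¬ 2 ∣ (Q : Subgroup G).index := Q.not_dvd_index
    rw [hG, hk] at h1
    rw [hk]
    rcases k with _ | _ | _ | k
    · exfalso
      rw [pow_zero, one_mul] at h1
      rw [h1] at h2
      exact h2 (by norm_num)
    · exfalso
      have h6 : (Q : Subgroup G).index = 6 := by omega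
      rw [h6] at h2
      exact h2 (by norm_num)
    · norm_num
    · exfalso
      have h8 : 8 ∣ 12 := ⟨2 ^ k * (Q : Subgroup G).index, by rw [← h1]; ring⟩
      omega

theorem order12 [Finite G] (hG : Nat.card G = 12)
    (hz : ∀ z : G, orderOf z = 2 → z ∉ Subgroup.center G) :
    Nonempty (G ≃* alternatingGroup (Fin 4)) := by
  haveI : Fact (Nat.Prime 2) := ⟨Nat.prime_two⟩
  haveI : Fact (Nat.Prime 3) := ⟨Nat.prime_three⟩
  obtain ⟨P⟩ : Nonempty (Sylow 3 G) := inferInstance
  obtain ⟨Q⟩ : Nonempty (Sylow 2 G) := inferInstance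
  obtain ⟨hP3, hQ4⟩ := sylow_cards hG P Q
  have hmod := card_sylow_modEq_one 3 G
  have hdvd := P.card_dvd_index
  have hidx : (P : Subgroup G).index = 4 := by
    have h1 := (P : Subgroup G).card_mul_index
    rw [hG, hP3] at h1; omega
  rw [hidx] at hdvd
  have hn : Nat.card (Sylow 3 G) = 1 ∨ Nat.card (Sylow 3 G) = 4 := by
    obtain ⟨n, hn⟩ : ∃ n, n = Nat.card (Sylow 3 G) := ⟨_, rfl⟩
    rw [← hn] at hmod hdvd ⊢
    have hle := Nat.le_of_dvd (by norm_num) hdvd
    interval_cases n <;> revert hmod hdvd <;> decide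
  rcases hn with h1 | h4
  · exfalso
    haveI : Subsingleton (Sylow 3 G) := (Nat.card_eq_one_iff_unique.mp h1).1
    have hPn : (P : Subgroup G).Normal := P.normal_of_subsingleton
    obtain ⟨p, hpP, hp1⟩ : ∃ p ∈ (P : Subgroup G), p ≠ 1 := by
      by_contra hcon
      push Not at hcon
      have h5 : (P : Subgroup G) = ⊥ := (Subgroup.eq_bot_iff_forall _).mpr hcon
      rw [h5, Subgroup.card_bot] at hP3
      omega
    have hpo : orderOf p = 3 := by
      have hd : orderOf p ∣ 3 := by
        have h7 := orderOf_dvd_natCard (⟨p, hpP⟩ : (P : Subgroup G))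
        rw [hP3, ← Subgroup.orderOf_coe] at h7; exact h7
      rcases (Nat.dvd_prime Nat.prime_three).mp hd with h | h
      · exact absurd (orderOf_eq_one_iff.mp h) hp1
      · exact h
    have hPeq : (P : Subgroup G) = Subgroup.zpowers p := by
      symm
      apply Subgroup.eq_of_le_of_card_ge ((Subgroup.zpowers_le).mpr hpP)
      rw [Nat.card_zpowers, hpo, hP3]
    have hdich : ∀ g : G, g * p * g⁻¹ = p ∨ g * p * g⁻¹ = p⁻¹ := by
      intro g
      have hmem : g * p * g⁻¹ ∈ Subgroup.zpowers p := by
        rw [← hPeq]; exact hPn.conj_mem p hpP g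
      rcases mem_zpowers_three hpo hmem with h | h | h
      · exfalso; apply hp1
        calc p = g⁻¹ * (g * p * g⁻¹) * g := by group
          _ = 1 := by rw [h]; group
      · exact Or.inl h
      · exact Or.inr h
    have hQcomm : ∀ a ∈ (Q : Subgroup G), ∀ b ∈ (Q : Subgroup G), a * b = b * a := by
      intro a ha b hb
      have h := IsPGroup.commutative_of_card_eq_prime_sq (p := 2) (G := (Q : Subgroup G))
        (by rw [hQ4]; norm_num) ⟨a, ha⟩ ⟨b, hb⟩
      exact congrArg Subtype.val h
    have hQpow : ∀ a ∈ (Q : Subgroup G), a ^ 4 = 1 := by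
      intro a ha
      have h := pow_card_eq_one' (G := (Q : Subgroup G)) (x := ⟨a, ha⟩)
      rw [hQ4] at h
      exact congrArg Subtype.val h
    obtain ⟨a, haQ, hao⟩ : ∃ a ∈ (Q : Subgroup G), orderOf a = 2 := by
      haveI : Fintype (Q : Subgroup G) := Fintype.ofFinite _
      obtain ⟨x, hx⟩ := exists_prime_orderOf_dvd_card (G := (Q : Subgroup G)) 2
        (by rw [← Nat.card_eq_fintype_card, hQ4]; norm_num)
      exact ⟨x, x.2, (Subgroup.orderOf_coe x).trans hx⟩
    have key : ∃ t ∈ (Q : Subgroup G), orderOf t = 2 ∧ t * p * t⁻¹ = p := by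
      rcases hdich a with hca | hia
      · exact ⟨a, haQ, hao, hca⟩
      · obtain ⟨x, hxQ, hx1, hxa⟩ : ∃ x ∈ (Q : Subgroup G), x ≠ 1 ∧ x ≠ a := by
          by_contra hcon
          push Not at hcon
          have hle : (Q : Subgroup G) ≤ Subgroup.zpowers a := by
            intro x hx
            by_cases hx1 : x = 1
            · rw [hx1]; exact Subgroup.one_mem _
            · rw [hcon x hx hx1]; exact Subgroup.mem_zpowers a
          have h5 := Subgroup.card_le_of_le hle
          rw [hQ4, Nat.card_zpowers, hao] at h5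
          omega
        by_cases hxx : x * x = 1
        · rcases hdich x with hcx | hix
          · exact ⟨x, hxQ, orderOf_eq_two_iff'.mpr ⟨hx1, hxx⟩, hcx⟩
          · refine ⟨x * a, Subgroup.mul_mem _ hxQ haQ, ?_, ?_⟩
            · rw [orderOf_eq_two_iff']
              have haa : a * a = 1 := sq_eq_one_of_orderOf_two hao
              refine ⟨?_, ?_⟩
              · intro h
                apply hxa
                rw [eq_inv_of_mul_eq_one_left h, inv_eq_of_mul_eq_one_left haa]
              · calc x * a * (x * a) = x * (a * x) * a := by group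
                  _ = x * (x * a) * a := by rw [hQcomm a haQ x hxQ]
                  _ = (x * x) * (a * a) := by group
                  _ = 1 := by rw [hxx, haa, one_mul]
            · calc x * a * p * (x * a)⁻¹ = x * (a * p * a⁻¹) * x⁻¹ := by group
                _ = x * p⁻¹ * x⁻¹ := by rw [hia]
                _ = (x * p * x⁻¹)⁻¹ := by group
                _ = p := by rw [hix, inv_inv]
        · refine ⟨x * x, Subgroup.mul_mem _ hxQ hxQ, ?_, ?_⟩
          · rw [orderOf_eq_two_iff']
            refine ⟨hxx, ?_⟩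
            have h5 := hQpow x hxQ
            calc x * x * (x * x) = x ^ 4 := by
                  rw [show (4 : ℕ) = 2 + 2 from rfl, pow_add, pow_two]
              _ = 1 := h5
          · rcases hdich x with hcx | hix
            · calc x * x * p * (x * x)⁻¹ = x * (x * p * x⁻¹) * x⁻¹ := by group
                _ = p := by rw [hcx, hcx]
            · calc x * x * p * (x * x)⁻¹ = x * (x * p * x⁻¹) * x⁻¹ := by group
                _ = x * p⁻¹ * x⁻¹ := by rw [hix]
                _ = (x * p * x⁻¹)⁻¹ := by group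
                _ = p := by rw [hix, inv_inv]
    obtain ⟨t, htQ, hto, htp⟩ := key
    apply hz t hto
    have hPle : (P : Subgroup G) ≤ Subgroup.centralizer {t} := by
      rw [hPeq, Subgroup.zpowers_le, Subgroup.mem_centralizer_iff]
      intro y hy
      rw [Set.mem_singleton_iff] at hy
      rw [hy]
      calc t * p = (t * p * t⁻¹) * t := by group
        _ = p * t := by rw [htp]
    have hQle : (Q : Subgroup G) ≤ Subgroup.centralizer {t} := by
      intro y hy
      rw [Subgroup.mem_centralizer_iff]
      intro u hu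
      rw [Set.mem_singleton_iff] at hu
      rw [hu]
      exact hQcomm t htQ y hy
    have h3 : 3 ∣ Nat.card (Subgroup.centralizer ({t} : Set G)) := by
      have h5 := Subgroup.card_dvd_of_le hPle; rwa [hP3] at h5
    have h4 : 4 ∣ Nat.card (Subgroup.centralizer ({t} : Set G)) := by
      have h5 := Subgroup.card_dvd_of_le hQle; rwa [hQ4] at h5
    have h12 : Nat.card (Subgroup.centralizer ({t} : Set G)) ∣ 12 := by
      rw [← hG]; exact Subgroup.card_subgroup_dvd_card _
    have hcard : Nat.card (Subgroup.centralizer ({t} : Set G)) = Nat.card G := by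
      rw [hG]
      have hle := Nat.le_of_dvd (by norm_num) h12
      have hpos : 0 < Nat.card (Subgroup.centralizer ({t} : Set G)) := Nat.card_pos
      omega
    have htop := (Subgroup.card_eq_iff_eq_top _).mp hcard
    rw [Subgroup.mem_center_iff]
    intro g
    have hg : g ∈ Subgroup.centralizer ({t} : Set G) := by rw [htop]; exact Subgroup.mem_top g
    rw [Subgroup.mem_centralizer_iff] at hg
    exact (hg t rfl).symm
  · letI : Fintype (Sylow 3 G) := Fintype.ofFinite _
    letI : DecidableEq (Sylow 3 G) := Classical.decEq _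
    obtain ⟨φ, hφ⟩ : ∃ φ : G →* Equiv.Perm (Sylow 3 G), φ = MulAction.toPermHom G (Sylow 3 G) :=
      ⟨_, rfl⟩
    have hNP : ∀ R : Sylow 3 G,
        Subgroup.normalizer ((R : Subgroup G) : Set G) = (R : Subgroup G) := by
      intro R
      have hR3 := (sylow_cards hG R Q).1
      have h1 : Nat.card (Sylow 3 G) =
          (Subgroup.normalizer ((R : Subgroup G) : Set G)).index := R.card_eq_index_normalizer
      have h2 := (Subgroup.normalizer ((R : Subgroup G) : Set G)).card_mul_index
      rw [← h1, h4, hG] at h2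
      symm
      apply Subgroup.eq_of_le_of_card_ge Subgroup.le_normalizer
      rw [hR3]; omega
    have hinj : Function.Injective φ := by
      rw [injective_iff_map_eq_one]
      intro g hg
      by_contra hg1
      have hmem : ∀ R : Sylow 3 G, g ∈ (R : Subgroup G) := by
        intro R
        have h5 : g • R = R := by
          have h6 : φ g R = R := by rw [hg]; rfl
          rw [hφ] at h6
          exact h6
        rw [← hNP R]
        exact Sylow.smul_eq_iff_mem_normalizer.mp h5
      have hgo : orderOf g = 3 := by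
        have hd : orderOf g ∣ 3 := by
          have h7 := orderOf_dvd_natCard (⟨g, hmem P⟩ : (P : Subgroup G))
          rw [hP3, ← Subgroup.orderOf_coe] at h7; exact h7
        rcases (Nat.dvd_prime Nat.prime_three).mp hd with h | h
        · exact absurd (orderOf_eq_one_iff.mp h) hg1
        · exact h
      have hall : ∀ R : Sylow 3 G, (R : Subgroup G) = Subgroup.zpowers g := by
        intro R
        symm
        apply Subgroup.eq_of_le_of_card_ge ((Subgroup.zpowers_le).mpr (hmem R))
        rw [Nat.card_zpowers, hgo, (sylow_cards hG R Q).1]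
      haveI : Subsingleton (Sylow 3 G) :=
        ⟨fun R R' => Sylow.ext ((hall R).trans (hall R').symm)⟩
      have h5 : Nat.card (Sylow 3 G) = 1 := Nat.card_eq_one_iff_unique.mpr ⟨inferInstance, ⟨P⟩⟩
      omega
    have hcardR : Nat.card φ.range = 12 := by
      rw [← hG]; exact (Nat.card_congr (MonoidHom.ofInjective hinj).toEquiv).symm
    have hperm : Nat.card (Equiv.Perm (Sylow 3 G)) = 24 := by
      rw [Nat.card_perm, h4]; rfl
    have hidx2 : φ.range.index = 2 := by
      have h8 := φ.range.card_mul_index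
      rw [hcardR, hperm] at h8; omega
    have halt : φ.range = alternatingGroup (Sylow 3 G) :=
      Equiv.Perm.eq_alternatingGroup_of_index_eq_two hidx2
    have e1 : G ≃* φ.range := MonoidHom.ofInjective hinj
    have e2 : φ.range ≃* alternatingGroup (Sylow 3 G) := MulEquiv.subgroupCongr halt
    have e0 : Sylow 3 G ≃ Fin 4 := by
      have h9 : Fintype.card (Sylow 3 G) = Fintype.card (Fin 4) := by
        rw [← Nat.card_eq_fintype_card, h4, Fintype.card_fin]
      exact Fintype.equivOfCardEq h9
    exact ⟨(e1.trans e2).trans (Equiv.altCongrHom e0)⟩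

end Cfsg.Agent.Lib_helper2_Ord12
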