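import Mathlib

set_option autoImplicit false

namespace Cfsg.Agent.Lib_helper4_Simple

/-- Embedding theorem: a non-abelian finite simple group with a proper subgroup of index `k`
embeds in the alternating group of degree `k`. -/
theorem exists_injective_hom_alternatingGroup {G : Type*} [Group G] [Finite G] [IsSimpleGroup G]
    (hG : ¬ IsMulCommutative G) (H : Subgroup G) (hH : H ≠ ⊤) :
    ∃ f : G →* ↥(alternatingGroup (Fin H.index)), Function.Injective f := by
  have hcard : Nat.card (G ⧸ H) = H.index := rfl
  let e : G ⧸ H ≃ Fin H.index := Finite.equivFinOfCardEq hcard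
  let φ : G →* Equiv.Perm (Fin H.index) :=
    e.permCongrHom.toMonoidHom.comp (MulAction.toPermHom G (G ⧸ H))
  have hker : (MulAction.toPermHom G (G ⧸ H)).ker = ⊥ := by
    rcases (MulAction.toPermHom G (G ⧸ H)).normal_ker.eq_bot_or_eq_top with h | h
    · exact h
    · exfalso
      apply hH
      rw [← Subgroup.normalCore_eq_ker] at h
      exact top_le_iff.mp (h ▸ Subgroup.normalCore_le H)
  have hinj : Function.Injective φ :=
    e.permCongrHom.injective.comp ((MonoidHom.ker_eq_bot_iff _).mp hker)
  have hsign : ∀ g : G, φ g ∈ alternatingGroup (Fin H.index) := by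
    intro g
    rw [Equiv.Perm.mem_alternatingGroup]
    let ψ : G →* ℤˣ := Equiv.Perm.sign.comp φ
    rcases ψ.normal_ker.eq_bot_or_eq_top with h | h
    · exfalso
      apply hG
      have hψ : Function.Injective ψ := (MonoidHom.ker_eq_bot_iff _).mp h
      refine isMulCommutative_iff.mpr (fun a b => hψ ?_)
      rw [map_mul, map_mul, mul_comm]
    · have : g ∈ ψ.ker := h ▸ Subgroup.mem_top g
      exact this
  refine ⟨φ.codRestrict _ hsign, ?_⟩
  intro a b hab
  apply hinj
  exact congrArg Subtype.val hab


/-- `2 * |A_k| = k!` for `k ≥ 2`. -/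
lemma two_mul_card_alternatingGroup_fin {k : ℕ} (hk : 2 ≤ k) :
    2 * Nat.card (alternatingGroup (Fin k)) = k.factorial := by
  have : Nontrivial (Fin k) := Fin.nontrivial_iff_two_le.mpr hk
  rw [two_mul_nat_card_alternatingGroup, Nat.card_perm, Nat.card_fin]

/-- In a non-abelian finite simple group, a proper subgroup has index at least 2 and
`2 * |G|` divides `(index)!`. -/
theorem two_mul_card_dvd_factorial_index {G : Type*} [Group G] [Finite G] [IsSimpleGroup G]
    (hG : ¬ IsMulCommutative G) (H : Subgroup G) (hH : H ≠ ⊤) :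
    2 * Nat.card G ∣ H.index.factorial := by
  obtain ⟨f, hf⟩ := exists_injective_hom_alternatingGroup hG H hH
  have hidx0 : H.index ≠ 0 := Subgroup.index_ne_zero_of_finite
  have hidx1 : H.index ≠ 1 := fun h => hH (Subgroup.index_eq_one.mp h)
  have hk : 2 ≤ H.index := by omega
  rw [← two_mul_card_alternatingGroup_fin hk]
  apply Nat.mul_dvd_mul_left
  have h1 : Nat.card f.range = Nat.card G := (Nat.card_congr (Equiv.ofInjective f hf)).symm
  rw [← h1]
  exact Subgroup.card_subgroup_dvd_card _

/-- A nontrivial proper Sylow subgroup of a simple group is not unique. -/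
theorem card_sylow_ne_one {G : Type*} [Group G] [Finite G] [IsSimpleGroup G] {p : ℕ}
    [Fact p.Prime] (P : Sylow p G) (h1 : (P : Subgroup G) ≠ ⊥) (h2 : (P : Subgroup G) ≠ ⊤) :
    Nat.card (Sylow p G) ≠ 1 := by
  intro h
  have hsub : Subsingleton (Sylow p G) := (Nat.card_eq_one_iff_unique.mp h).1
  have hn : (P : Subgroup G).Normal := Sylow.normal_of_subsingleton P
  rcases hn.eq_bot_or_eq_top with h' | h'
  · exact h1 h'
  · exact h2 h'

/-- In a non-abelian finite simple group, `2 * |G|` divides `(n_p)!` if the Sylow `p`-subgroups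
are nontrivial and proper. -/
theorem two_mul_card_dvd_factorial_card_sylow {G : Type*} [Group G] [Finite G] [IsSimpleGroup G]
    (hG : ¬ IsMulCommutative G) {p : ℕ} [Fact p.Prime] (P : Sylow p G)
    (h1 : (P : Subgroup G) ≠ ⊥) (h2 : (P : Subgroup G) ≠ ⊤) :
    2 * Nat.card G ∣ (Nat.card (Sylow p G)).factorial := by
  rw [P.card_eq_index_normalizer]
  apply two_mul_card_dvd_factorial_index hG
  intro h
  have hn : (P : Subgroup G).Normal := Subgroup.normalizer_eq_top_iff.mp h
  rcases hn.eq_bot_or_eq_top with h' | h'
  · exact h1 h'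
  · exact h2 h'

/-- A simple group whose order is not prime is not commutative. -/
theorem not_isMulCommutative_of_not_prime {G : Type*} [Group G] [Finite G] [IsSimpleGroup G]
    (h : ¬ (Nat.card G).Prime) : ¬ IsMulCommutative G := by
  intro hc
  let _ : CommGroup G := { (inferInstance : Group G) with mul_comm := fun a b => mul_comm' a b }
  exact h IsSimpleGroup.prime_card

end Cfsg.Agent.Lib_helper4_Simple
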