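import Mathlib
import Cfsg.Agent.Lib_helper4_Simple
import Cfsg.Agent.Lib_helper4_SmallSimple

set_option autoImplicit false

namespace Cfsg.Agent.Lib_helper2_Ord60

open Cfsg.Agent.Lib_helper4_Simple

theorem S0494_main {G : Type*} [Group G] [Finite G] [IsSimpleGroup G] (h : Nat.card G = 60) :
    Nonempty (G ≃* alternatingGroup (Fin 5)) := by
  haveI : Fact (Nat.Prime 2) := ⟨Nat.prime_two⟩
  have hG : ¬ IsMulCommutative G := not_isMulCommutative_of_not_prime (by rw [h]; norm_num)
  have hcard : Nat.card G = 2 ^ 2 * 15 := by rw [h]; norm_num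
  have hm : ¬ 2 ∣ 15 := by norm_num
  obtain ⟨P⟩ : Nonempty (Sylow 2 G) := inferInstance
  have hP4' : Nat.card (P : Subgroup G) = 2 ^ 2 :=
    Cfsg.Agent.Lib_helper4_SmallSimple.card_sylow_of_card hcard hm P
  have hP4 : Nat.card (P : Subgroup G) = 4 := by rw [hP4']; norm_num
  have hdvd : Nat.card (Sylow 2 G) ∣ 15 :=
    Cfsg.Agent.Lib_helper4_SmallSimple.card_sylow_dvd hcard hm
  have hne1 : Nat.card (Sylow 2 G) ≠ 1 :=
    Cfsg.Agent.Lib_helper4_SmallSimple.card_sylow_ne_one hcard hm (by norm_num) (by norm_num)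
  have hN := Cfsg.Agent.Lib_helper4_SmallSimple.card_normalizer_sylow P
  have hidx : (Subgroup.normalizer ((P : Subgroup G) : Set G)).index = Nat.card (Sylow 2 G) :=
    (Sylow.card_eq_index_normalizer P).symm
  have hPbot : (P : Subgroup G) ≠ ⊥ := by
    intro hb
    rw [hb, Subgroup.card_bot] at hP4; omega
  have hPtop : (P : Subgroup G) ≠ ⊤ := by
    intro hb
    rw [hb, Subgroup.card_top, h] at hP4; omega
  have hfact := two_mul_card_dvd_factorial_card_sylow hG P hPbot hPtop
  obtain ⟨n2, hn2⟩ : ∃ n2, n2 = Nat.card (Sylow 2 G) := ⟨_, rfl⟩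
  rw [← hn2] at hdvd hne1 hN hidx hfact
  have hmem : n2 ∈ Nat.divisors 15 := Nat.mem_divisors.mpr ⟨hdvd, by norm_num⟩
  have h15 : Nat.divisors 15 = {1, 3, 5, 15} := by decide
  rw [h15] at hmem
  simp only [Finset.mem_insert, Finset.mem_singleton] at hmem
  rcases hmem with h1 | h1 | h1 | h1
  · exact absurd h1 hne1
  · exfalso
    rw [h1, h] at hfact
    have h6 : Nat.factorial 3 = 6 := rfl
    rw [h6] at hfact
    have := Nat.le_of_dvd (by norm_num) hfact
    omega
  · -- index 5
    rw [h1] at hidx
    have hNtop : Subgroup.normalizer ((P : Subgroup G) : Set G) ≠ ⊤ := by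
      intro ht
      rw [ht, Subgroup.index_top] at hidx; omega
    obtain ⟨f, hf⟩ := exists_injective_hom_alternatingGroup hG _ hNtop
    have hA := two_mul_card_alternatingGroup_fin
      (k := (Subgroup.normalizer ((P : Subgroup G) : Set G)).index) (by rw [hidx]; norm_num)
    have hA' : Nat.card (alternatingGroup
        (Fin (Subgroup.normalizer ((P : Subgroup G) : Set G)).index)) = 60 := by
      have h120 : (Subgroup.normalizer ((P : Subgroup G) : Set G)).index.factorial = 120 := by
        rw [hidx]; rfl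
      rw [h120] at hA
      omega
    have hbij : Function.Bijective f :=
      hf.bijective_of_nat_card_le (by rw [hA', h])
    exact ⟨(MulEquiv.ofBijective f hbij).trans (Equiv.altCongrHom (finCongr hidx))⟩
  · -- 15 Sylow subgroups: normalizer is P, Burnside transfer
    exfalso
    rw [h1, h] at hN
    have hN4 : Nat.card (Subgroup.normalizer ((P : Subgroup G) : Set G)) = 4 := by omega
    have hNP : (P : Subgroup G) = Subgroup.normalizer ((P : Subgroup G) : Set G) :=
      Subgroup.eq_of_le_of_card_ge Subgroup.le_normalizer (by rw [hN4, hP4])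
    haveI hPc : IsMulCommutative (P : Subgroup G) :=
      IsPGroup.isMulCommutative_of_card_eq_prime_sq (p := 2) hP4'
    have hP' : Subgroup.normalizer ((P : Subgroup G) : Set G) ≤
        Subgroup.centralizer ((P : Subgroup G) : Set G) := by
      rw [← hNP]
      intro g hg
      rw [Subgroup.mem_centralizer_iff]
      intro x hx
      exact congrArg Subtype.val (mul_comm' (⟨x, hx⟩ : (P : Subgroup G)) ⟨g, hg⟩)
    have hcompl := MonoidHom.ker_transferSylow_isComplement' P hP'
    have hcm := hcompl.card_mul_card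
    rw [h, hP4] at hcm
    have hK15 : Nat.card (MonoidHom.transferSylow P hP').ker = 15 := by omega
    rcases (MonoidHom.transferSylow P hP').normal_ker.eq_bot_or_eq_top with hb | hb
    · rw [hb, Subgroup.card_bot] at hK15; omega
    · rw [hb, Subgroup.card_top, h] at hK15; omega

end Cfsg.Agent.Lib_helper2_Ord60
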