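import Mathlib
import Cfsg.Prelude.Def_OddOrderLocal
import Cfsg.Agent.Lib_helper1_Socle
import Cfsg.Agent.Lib_helper5_Fitting

set_option autoImplicit false

namespace Cfsg.Agent.Lib_helper2_Puig

open Cfsg

universe u

variable {G : Type u} [Group G]

theorem puigStep_anti {X Y : Subgroup G} (h : X ≤ Y) : puigStep Y ≤ puigStep X := by
  apply sSup_le
  rintro A ⟨hA, hYA⟩
  exact le_sSup ⟨hA, h.trans hYA⟩

theorem puigStep_bot : puigStep (⊥ : Subgroup G) = ⊤ := by
  rw [eq_top_iff]
  intro g _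
  have h : Subgroup.zpowers g ≤ puigStep (⊥ : Subgroup G) := le_sSup ⟨inferInstance, bot_le⟩
  exact h (Subgroup.mem_zpowers g)

theorem puigSeq_one : puigSeq G 1 = ⊤ := puigStep_bot

theorem puigSeq_even_succ (n : ℕ) :
    puigSeq G (2 * (n + 1)) = puigStep (puigSeq G (2 * n + 1)) := rfl

theorem puigSeq_odd (n : ℕ) : puigSeq G (2 * n + 1) = puigStep (puigSeq G (2 * n)) := rfl

theorem puig_mono (n : ℕ) : puigSeq G (2 * n) ≤ puigSeq G (2 * (n + 1)) ∧
    puigSeq G (2 * (n + 1) + 1) ≤ puigSeq G (2 * n + 1) := by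
  induction n with
  | zero =>
    refine ⟨?_, ?_⟩
    · show (⊥ : Subgroup G) ≤ _
      exact bot_le
    · show _ ≤ puigSeq G 1
      rw [puigSeq_one]; exact le_top
  | succ n ih =>
    have h1 : puigSeq G (2 * (n + 1)) ≤ puigSeq G (2 * (n + 1 + 1)) := by
      rw [puigSeq_even_succ, puigSeq_even_succ]
      exact puigStep_anti ih.2
    refine ⟨h1, ?_⟩
    rw [puigSeq_odd, puigSeq_odd]
    exact puigStep_anti h1

theorem puig_even_mono : Monotone (fun n : ℕ => puigSeq G (2 * n)) :=
  monotone_nat_of_le_succ (fun n => (puig_mono n).1)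

theorem puig_odd_anti : Antitone (fun n : ℕ => puigSeq G (2 * n + 1)) :=
  antitone_nat_of_succ_le (fun n => (puig_mono n).2)

theorem puig_even_le_odd_same (n : ℕ) : puigSeq G (2 * n) ≤ puigSeq G (2 * n + 1) := by
  induction n with
  | zero => show (⊥ : Subgroup G) ≤ _; exact bot_le
  | succ n ih =>
    have h1 : puigSeq G (2 * (n + 1)) ≤ puigSeq G (2 * n + 1) := by
      rw [puigSeq_even_succ, puigSeq_odd]
      exact puigStep_anti ih
    rw [puigSeq_odd (n + 1)]
    conv_lhs => rw [puigSeq_even_succ]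
    exact puigStep_anti h1

theorem puig_even_le_odd (n m : ℕ) : puigSeq G (2 * n) ≤ puigSeq G (2 * m + 1) :=
  ((puig_even_mono (G := G) (le_max_left n m)).trans (puig_even_le_odd_same (max n m))).trans
    (puig_odd_anti (G := G) (le_max_right n m))

theorem puig_stable [Finite G] : ∃ k : ℕ, ∀ n : ℕ, k ≤ n →
    puigSeq G (2 * n) = puigLower G ∧ puigSeq G (2 * n + 1) = puigSubgroup G := by
  obtain ⟨k, hk⟩ := WellFoundedGT.monotone_chain_condition
    (⟨fun n : ℕ => puigSeq G (2 * n), puig_even_mono⟩ : ℕ →o Subgroup G)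
  have hk' : ∀ m : ℕ, k ≤ m → puigSeq G (2 * k) = puigSeq G (2 * m) := hk
  have hL : puigLower G = puigSeq G (2 * k) := by
    apply le_antisymm
    · apply iSup_le
      intro n
      rw [hk' (max n k) (le_max_right n k)]
      exact puig_even_mono (G := G) (le_max_left n k)
    · exact le_iSup (fun n : ℕ => puigSeq G (2 * n)) k
  have hU : puigSubgroup G = puigSeq G (2 * k + 1) := by
    apply le_antisymm
    · exact iInf_le (fun n : ℕ => puigSeq G (2 * n + 1)) k
    · apply le_iInf
      intro n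
      have h1 : puigSeq G (2 * k + 1) = puigSeq G (2 * (max n k) + 1) := by
        rw [puigSeq_odd, puigSeq_odd, hk' (max n k) (le_max_right n k)]
      rw [h1]
      exact puig_odd_anti (G := G) (le_max_left n k)
  refine ⟨k, fun n hn => ⟨?_, ?_⟩⟩
  · rw [hL, hk' n hn]
  · rw [hU, puigSeq_odd, puigSeq_odd, hk' n hn]

/-- **S1467** -/
theorem puig_basic [Finite G] :
    puigSeq G 0 = ⊥ ∧ puigSeq G 1 = ⊤ ∧
      (∀ n m : ℕ, puigSeq G (2 * n) ≤ puigSeq G (2 * n + 2) ∧
        puigSeq G (2 * n) ≤ puigSeq G (2 * m + 1) ∧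
        puigSeq G (2 * m + 3) ≤ puigSeq G (2 * m + 1)) ∧
      (∃ k : ℕ, ∀ n : ℕ, k ≤ n → puigSeq G (2 * n) = puigLower G ∧
        puigSeq G (2 * n + 1) = puigSubgroup G) ∧
      puigLower G ≤ puigSubgroup G ∧
      puigStep (puigLower G) = puigSubgroup G ∧ puigStep (puigSubgroup G) = puigLower G := by
  refine ⟨rfl, puigSeq_one, fun n m => ⟨(puig_mono n).1, puig_even_le_odd n m, (puig_mono m).2⟩,
    puig_stable, ?_, ?_, ?_⟩
  · exact iSup_le (fun n => le_iInf (fun m => puig_even_le_odd n m))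
  · obtain ⟨k, hk⟩ := puig_stable (G := G)
    rw [← (hk k le_rfl).1, ← (hk k le_rfl).2]
    rfl
  · obtain ⟨k, hk⟩ := puig_stable (G := G)
    rw [← (hk k le_rfl).2, ← (hk (k + 1) (Nat.le_succ k)).1]
    rfl

/-- In a finite nilpotent group, a normal subgroup containing every abelian normal subgroup
contains its centralizer. -/
theorem centralizer_le_of_abelian_normal_le {R : Type*} [Group R] [Finite R]
    [Group.IsNilpotent R] (Y : Subgroup R) [hY : Y.Normal]
    (h : ∀ D : Subgroup R, D.Normal → IsMulCommutative D → D ≤ Y) :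
    Subgroup.centralizer (Y : Set R) ≤ Y := by
  by_contra hcon
  obtain ⟨C, hCdef⟩ : ∃ C : Subgroup R, C = Subgroup.centralizer (Y : Set R) := ⟨_, rfl⟩
  rw [← hCdef] at hcon
  haveI hCn : C.Normal := by rw [hCdef]; exact Subgroup.normal_centralizer
  haveI hZn : (C ⊓ Y).Normal := inferInstance
  have hCbar : C.map (QuotientGroup.mk' (C ⊓ Y)) ≠ ⊥ := by
    intro h0
    apply hcon
    intro c hc
    have h1 : (QuotientGroup.mk' (C ⊓ Y)) c ∈ C.map (QuotientGroup.mk' (C ⊓ Y)) := ⟨c, hc, rfl⟩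
    rw [h0, Subgroup.mem_bot] at h1
    exact ((QuotientGroup.eq_one_iff c).mp h1).2
  haveI : (C.map (QuotientGroup.mk' (C ⊓ Y))).Normal :=
    Subgroup.Normal.map hCn _ (QuotientGroup.mk'_surjective _)
  have h2 := Cfsg.Agent.Lib_helper1_Socle.normal_inf_center_ne_bot
    (C.map (QuotientGroup.mk' (C ⊓ Y))) hCbar
  obtain ⟨cbar, hcb, hcb1⟩ : ∃ x ∈ C.map (QuotientGroup.mk' (C ⊓ Y)) ⊓
      Subgroup.center (R ⧸ (C ⊓ Y)), x ≠ 1 := by
    by_contra hne
    push Not at hne
    exact h2 ((Subgroup.eq_bot_iff_forall _).mpr hne)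
  obtain ⟨⟨c, hc, rfl⟩, hcz⟩ := hcb
  have hc' : c ∈ Subgroup.centralizer (Y : Set R) := by rw [← hCdef]; exact hc
  have hcZ : ∀ z ∈ C ⊓ Y, z * c = c * z := fun z hz =>
    (Subgroup.mem_centralizer_iff.mp hc') z hz.2
  have hZZ : ∀ z ∈ C ⊓ Y, ∀ w ∈ C ⊓ Y, z * w = w * z := by
    intro z hz w hw
    have hw' : w ∈ Subgroup.centralizer (Y : Set R) := by rw [← hCdef]; exact hw.1
    exact (Subgroup.mem_centralizer_iff.mp hw') z hz.2
  have hDab : IsMulCommutative ↥((C ⊓ Y) ⊔ Subgroup.zpowers c) := by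
    have hcc : c ∈ Subgroup.centralizer ((C ⊓ Y : Subgroup R) : Set R) := by
      rw [Subgroup.mem_centralizer_iff]; exact hcZ
    have hccc : c ∈ Subgroup.centralizer ((Subgroup.zpowers c : Subgroup R) : Set R) := by
      rw [Subgroup.mem_centralizer_iff]
      intro h hh
      obtain ⟨k, rfl⟩ := Subgroup.mem_zpowers_iff.mp hh
      exact (Commute.zpow_left (Commute.refl c) k).eq
    have hle : (C ⊓ Y) ⊔ Subgroup.zpowers c ≤
        Subgroup.centralizer (((C ⊓ Y) ⊔ Subgroup.zpowers c : Subgroup R) : Set R) := by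
      apply sup_le
      · rw [Subgroup.le_centralizer_iff]
        apply sup_le
        · intro z hz
          rw [Subgroup.mem_centralizer_iff]
          intro w hw
          exact hZZ w hw z hz
        · rw [Subgroup.zpowers_le]; exact hcc
      · rw [Subgroup.le_centralizer_iff]
        apply sup_le
        · rw [Subgroup.le_centralizer_iff, Subgroup.zpowers_le]; exact hcc
        · rw [Subgroup.zpowers_le]; exact hccc
    exact ⟨⟨fun a b => Subtype.ext ((Subgroup.mem_centralizer_iff.mp (hle b.2)) a.1 a.2)⟩⟩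
  have hDn : ((C ⊓ Y) ⊔ Subgroup.zpowers c).Normal := by
    constructor
    intro d hd r
    have hmap : ((C ⊓ Y) ⊔ Subgroup.zpowers c).map (MulAut.conj r).toMonoidHom ≤
        (C ⊓ Y) ⊔ Subgroup.zpowers c := by
      rw [Subgroup.map_sup, MonoidHom.map_zpowers]
      apply sup_le
      · rintro _ ⟨z, hz, rfl⟩
        exact Subgroup.mem_sup_left (hZn.conj_mem z hz r)
      · rw [Subgroup.zpowers_le]
        have h3 : (QuotientGroup.mk' (C ⊓ Y)) (r * c * r⁻¹) = (QuotientGroup.mk' (C ⊓ Y)) c := by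
          rw [map_mul, map_mul, map_inv]
          have h5 := Subgroup.mem_center_iff.mp hcz ((QuotientGroup.mk' (C ⊓ Y)) r)
          rw [h5, mul_inv_cancel_right]
        have h4 : c⁻¹ * (r * c * r⁻¹) ∈ C ⊓ Y := QuotientGroup.eq.mp h3.symm
        have e : (MulAut.conj r).toMonoidHom c = c * (c⁻¹ * (r * c * r⁻¹)) := by
          show r * c * r⁻¹ = _
          group
        rw [e]
        exact Subgroup.mul_mem _ (Subgroup.mem_sup_right (Subgroup.mem_zpowers c))
          (Subgroup.mem_sup_left h4)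
    exact hmap ⟨d, hd, rfl⟩
  have hDY := h _ hDn hDab
  have hcY : c ∈ Y := hDY (Subgroup.mem_sup_right (Subgroup.mem_zpowers c))
  apply hcb1
  exact (QuotientGroup.eq_one_iff c).mpr ⟨hc, hcY⟩

theorem puigStep_char (X : Subgroup G) [hX : X.Characteristic] :
    (puigStep X).Characteristic := by
  apply Cfsg.Agent.Lib_helper5_Fitting.sSup_characteristic
  rintro A ⟨hA, hXA⟩ φ
  haveI := hA
  refine ⟨inferInstance, ?_⟩
  intro x hx
  have hx' : φ.symm x ∈ X := by
    have h1 := Subgroup.characteristic_iff_comap_eq.mp hX φ.symm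
    have h2 : x ∈ X.comap φ.symm.toMonoidHom := by rw [h1]; exact hx
    exact h2
  have h2 := Subgroup.le_normalizer_map (H := A) φ.toMonoidHom ⟨φ.symm x, hXA hx', rfl⟩
  have e : φ.toMonoidHom (φ.symm x) = x := φ.apply_symm_apply x
  rw [e] at h2
  exact h2

theorem puigSeq_char (n : ℕ) : (puigSeq G n).Characteristic := by
  induction n with
  | zero => exact Subgroup.botCharacteristic
  | succ n ih =>
    haveI := ih
    exact puigStep_char _

/-- **S1466** -/
theorem puig_centralizer {R : Type u} [Group R] [Finite R] (p : ℕ) [Fact p.Prime]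
    (hR : IsPGroup p R) [Nontrivial R] :
    (∀ i : ℕ, 0 < i → Subgroup.center R ≤
          Subgroup.centralizer ((puigSeq R i : Subgroup R) : Set R) ∧
        Subgroup.centralizer ((puigSeq R i : Subgroup R) : Set R) ≤ puigSeq R i) ∧
      (Subgroup.center R ≤ Subgroup.centralizer ((puigLower R : Subgroup R) : Set R) ∧
        Subgroup.centralizer ((puigLower R : Subgroup R) : Set R) ≤ puigLower R) ∧
      (Subgroup.center R ≤ Subgroup.centralizer ((puigSubgroup R : Subgroup R) : Set R) ∧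
        Subgroup.centralizer ((puigSubgroup R : Subgroup R) : Set R) ≤ puigSubgroup R) ∧
      puigSubgroup R ≠ ⊥ ∧ puigLower R ≠ ⊥ := by
  haveI : Group.IsNilpotent R := hR.isNilpotent
  have key : ∀ i : ℕ, 0 < i →
      Subgroup.centralizer ((puigSeq R i : Subgroup R) : Set R) ≤ puigSeq R i := by
    intro i hi
    obtain ⟨j, rfl⟩ : ∃ j, i = j + 1 := ⟨i - 1, by omega⟩
    haveI : (puigSeq R (j + 1)).Normal := by
      haveI := puigSeq_char (G := R) (j + 1)
      infer_instance
    apply centralizer_le_of_abelian_normal_le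
    intro D hDn hDab
    haveI := hDn
    exact le_sSup ⟨hDab, by rw [Subgroup.normalizer_eq_top]; exact le_top⟩
  obtain ⟨k, hk⟩ := puig_stable (G := R)
  have hlow : puigSeq R (2 * (k + 1)) = puigLower R := (hk (k + 1) (Nat.le_succ k)).1
  have hup : puigSeq R (2 * k + 1) = puigSubgroup R := (hk k le_rfl).2
  have h1 : Subgroup.centralizer ((puigLower R : Subgroup R) : Set R) ≤ puigLower R := by
    rw [← hlow]; exact key _ (by omega)
  have h2 : Subgroup.centralizer ((puigSubgroup R : Subgroup R) : Set R) ≤ puigSubgroup R := by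
    rw [← hup]; exact key _ (by omega)
  have hZ : Subgroup.center R ≠ ⊥ := (hR.bot_lt_center).ne'
  refine ⟨fun i hi => ⟨Subgroup.center_le_centralizer _, key i hi⟩,
    ⟨Subgroup.center_le_centralizer _, h1⟩, ⟨Subgroup.center_le_centralizer _, h2⟩, ?_, ?_⟩
  · intro h0
    apply hZ
    rw [eq_bot_iff, ← h0]
    exact (Subgroup.center_le_centralizer _).trans h2
  · intro h0
    apply hZ
    rw [eq_bot_iff, ← h0]
    exact (Subgroup.center_le_centralizer _).trans h1

end Cfsg.Agent.Lib_helper2_Puig
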