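import Mathlib
import Cfsg.Agent.Lib_helper2_SE2

set_option autoImplicit false

namespace Cfsg.Agent.Lib_helper2_SECount

open Cfsg Cfsg.Agent.Lib_helper2_Dihedral Cfsg.Agent.Lib_helper2_Inv Cfsg.Agent.Lib_helper2_Isolated
  Cfsg.Agent.Lib_helper2_SE Cfsg.Agent.Lib_helper2_BS Cfsg.Agent.Lib_helper2_Klein
  Cfsg.Agent.Lib_helper2_SE2

variable {G : Type*} [Group G] [Finite G] {H : Subgroup G}

theorem orderOf_conj_two' {g z : G} (hz : orderOf z = 2) : orderOf (g⁻¹ * z * g) = 2 := by
  have := orderOf_conj_two (g := g⁻¹) hz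
  rwa [inv_inv] at this

/-- Coset version of `se_swap`: for distinct cosets `gH ≠ g'H`, an involution `t` fixing `gH` and
an involution `s₀` fixing `g'H`, there is an involution `i` with `i • gH = g'H` conjugating `t`
to `s₀`. -/
theorem se_swap_coset (hH : IsStronglyEmbedded H) {g g' : G}
    (hne : (QuotientGroup.mk g : G ⧸ H) ≠ QuotientGroup.mk g') {s₀ : G} (hs₀ : orderOf s₀ = 2)
    (hs₀y : g'⁻¹ * s₀ * g' ∈ H) {t : G} (ht : orderOf t = 2) (htx : g⁻¹ * t * g ∈ H) :
    ∃ i : G, orderOf i = 2 ∧ g'⁻¹ * i * g ∈ H ∧ i * t * i⁻¹ = s₀ := by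
  have hu : g⁻¹ * g' ∉ H := fun h => hne (QuotientGroup.eq.mpr h)
  have ht' : orderOf (g⁻¹ * t * g) = 2 := orderOf_conj_two' ht
  have hs' : orderOf (g⁻¹ * s₀ * g) = 2 := orderOf_conj_two' hs₀
  have hs₀u : (g⁻¹ * g')⁻¹ * (g⁻¹ * s₀ * g) * (g⁻¹ * g') ∈ H := by
    have : (g⁻¹ * g')⁻¹ * (g⁻¹ * s₀ * g) * (g⁻¹ * g') = g'⁻¹ * s₀ * g' := by group
    rw [this]; exact hs₀y
  obtain ⟨i', hi'2, hi'H, hi'⟩ := se_swap hH ht' htx hs' hu hs₀u
  refine ⟨g * i' * g⁻¹, orderOf_conj_two hi'2, ?_, ?_⟩
  · have : g'⁻¹ * (g * i' * g⁻¹) * g = (g⁻¹ * g')⁻¹ * i' := by group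
    rw [this]; exact hi'H
  · calc g * i' * g⁻¹ * t * (g * i' * g⁻¹)⁻¹ = g * (i' * (g⁻¹ * t * g) * i'⁻¹) * g⁻¹ := by group
      _ = g * (g⁻¹ * s₀ * g) * g⁻¹ := by rw [hi']
      _ = s₀ := by group

open Finset in
/-- For a strongly embedded subgroup `H` and distinct cosets `x ≠ y`, the number of involutions
mapping `x` to `y` equals the number of involutions of `H`. -/
theorem se_count (hH : IsStronglyEmbedded H) (x y : G ⧸ H) (hxy : x ≠ y) :
    Nat.card {i : G // orderOf i = 2 ∧ i • x = y} = Nat.card {t : G // orderOf t = 2 ∧ t ∈ H} := by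
  classical
  haveI := Fintype.ofFinite G
  haveI : Fintype (G ⧸ H) := Fintype.ofFinite _
  set Iv : Finset G := univ.filter (fun i => orderOf i = 2) with hIv
  have hIvmem : ∀ i, i ∈ Iv ↔ orderOf i = 2 := by intro i; simp [hIv]
  set m : ℕ := (Iv.filter (fun t => t ∈ H)).card with hm
  set J : (G ⧸ H) → (G ⧸ H) → Finset G := fun a b => Iv.filter (fun i => i • a = b) with hJ
  have hJmem : ∀ a b i, i ∈ J a b ↔ orderOf i = 2 ∧ i • a = b := by
    intro a b i; simp [hJ, hIvmem]
  -- (a)
  have hJxx : ∀ a : G ⧸ H, (J a a).card = m := by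
    intro a
    induction a using QuotientGroup.induction_on with
    | H g =>
      apply Finset.card_nbij' (fun i => g⁻¹ * i * g) (fun t => g * t * g⁻¹)
      · intro i hi
        rw [mem_coe, hJmem] at hi
        rw [mem_coe, mem_filter, hIvmem]
        exact ⟨orderOf_conj_two' hi.1, (smul_mk_eq_iff i g g).mp hi.2⟩
      · intro t ht
        rw [mem_coe, mem_filter, hIvmem] at ht
        rw [mem_coe, hJmem]
        refine ⟨orderOf_conj_two ht.1, (smul_mk_eq_iff _ g g).mpr ?_⟩
        have : g⁻¹ * (g * t * g⁻¹) * g = t := by group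
        rw [this]; exact ht.2
      · intro i _; group
      · intro t _; group
  -- (b)
  have hfix : ∀ i ∈ Iv, (univ.filter (fun a : G ⧸ H => i • a = a)).card = 1 := by
    intro i hi
    have hi2 : orderOf i = 2 := (hIvmem i).mp hi
    obtain ⟨a, ha⟩ := se_fix_exists hH hi2
    rw [Finset.card_eq_one]
    refine ⟨a, ?_⟩
    ext b
    simp only [mem_filter, mem_univ, true_and, mem_singleton]
    constructor
    · intro hb; exact se_fix_unique hH hi2 hb ha
    · rintro rfl; exact ha
  -- (c)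
  have hIvcard : Iv.card = Fintype.card (G ⧸ H) * m := by
    have h := Finset.sum_card_bipartiteAbove_eq_sum_card_bipartiteBelow (s := Iv)
      (t := (univ : Finset (G ⧸ H))) (r := fun i a => i • a = a)
    simp only [Finset.bipartiteAbove, Finset.bipartiteBelow] at h
    rw [Finset.sum_congr rfl hfix] at h
    have h2 : ∀ a ∈ (univ : Finset (G ⧸ H)), (Iv.filter (fun i => i • a = a)).card = m :=
      fun a _ => hJxx a
    rw [Finset.sum_congr rfl h2] at h
    simpa using h
  -- (d)
  obtain ⟨b₀, hb₀H, hb₀⟩ := exists_involution_of_even_card hH.2.1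
  have hlow : ∀ a b : G ⧸ H, a ≠ b → m ≤ (J a b).card := by
    intro a b hab
    rw [← hJxx a]
    induction a using QuotientGroup.induction_on with
    | H g =>
      induction b using QuotientGroup.induction_on with
      | H g' =>
        have hs₀ : orderOf (g' * b₀ * g'⁻¹) = 2 := orderOf_conj_two hb₀
        have hs₀y : g'⁻¹ * (g' * b₀ * g'⁻¹) * g' ∈ H := by
          have : g'⁻¹ * (g' * b₀ * g'⁻¹) * g' = b₀ := by group
          rw [this]; exact hb₀H
        have hex : ∀ t : G, ∃ i : G, t ∈ J (QuotientGroup.mk g) (QuotientGroup.mk g) →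
            (i ∈ J (QuotientGroup.mk g) (QuotientGroup.mk g') ∧ i * t * i⁻¹ = g' * b₀ * g'⁻¹) := by
          intro t
          by_cases ht : t ∈ J (QuotientGroup.mk g) (QuotientGroup.mk g)
          · have ht' := (hJmem _ _ _).mp ht
            obtain ⟨i, hi2, hiH, hi⟩ := se_swap_coset hH hab hs₀ hs₀y ht'.1
              ((smul_mk_eq_iff t g g).mp ht'.2)
            exact ⟨i, fun _ => ⟨(hJmem _ _ _).mpr ⟨hi2, (smul_mk_eq_iff i g g').mpr hiH⟩, hi⟩⟩
          · exact ⟨1, fun h => absurd h ht⟩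
        choose f hf using hex
        apply Finset.card_le_card_of_injOn f
        · intro t ht; exact (hf t ht).1
        · intro t₁ ht₁ t₂ ht₂ h12
          have h1 := (hf t₁ ht₁).2
          have h2 := (hf t₂ ht₂).2
          rw [h12] at h1
          exact mul_left_cancel (mul_right_cancel (h1.trans h2.symm))
  -- (e)
  have hmoved : ∀ i ∈ Iv, (((univ : Finset (G ⧸ H)).offDiag).filter
      (fun p => i • p.1 = p.2)).card = Fintype.card (G ⧸ H) - 1 := by
    intro i hi
    have h1 : (((univ : Finset (G ⧸ H)).offDiag).filter (fun p => i • p.1 = p.2)).card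
        = (univ.filter (fun a : G ⧸ H => ¬ i • a = a)).card := by
      apply Finset.card_nbij' (fun p => p.1) (fun a => (a, i • a))
      · intro p hp
        rw [mem_coe, mem_filter, mem_offDiag] at hp
        rw [mem_coe, mem_filter]
        refine ⟨mem_univ _, ?_⟩
        rw [hp.2]; exact fun h => hp.1.2.2 h.symm
      · intro a ha
        rw [mem_coe, mem_filter] at ha
        rw [mem_coe, mem_filter, mem_offDiag]
        exact ⟨⟨mem_univ _, mem_univ _, fun h => ha.2 h.symm⟩, rfl⟩
      · intro p hp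
        rw [mem_coe, mem_filter] at hp
        exact Prod.ext rfl hp.2
      · intro a _; rfl
    have h2 := Finset.card_filter_add_card_filter_not (s := (univ : Finset (G ⧸ H)))
      (fun a : G ⧸ H => i • a = a)
    rw [hfix i hi, Finset.card_univ] at h2
    rw [h1]; omega
  have hsum : ∑ p ∈ (univ : Finset (G ⧸ H)).offDiag, m
      = ∑ p ∈ (univ : Finset (G ⧸ H)).offDiag, (J p.1 p.2).card := by
    have h := Finset.sum_card_bipartiteAbove_eq_sum_card_bipartiteBelow (s := Iv)
      (t := (univ : Finset (G ⧸ H)).offDiag) (r := fun i p => i • p.1 = p.2)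
    simp only [Finset.bipartiteAbove, Finset.bipartiteBelow] at h
    rw [Finset.sum_congr rfl hmoved] at h
    rw [← h, Finset.sum_const, Finset.sum_const, Finset.offDiag_card, Finset.card_univ, hIvcard,
      smul_eq_mul, smul_eq_mul, Nat.mul_sub_one]
    generalize Fintype.card (G ⧸ H) = n
    rw [Nat.sub_mul]
    congr 1 <;> ring
  have hall := (Finset.sum_eq_sum_iff_of_le (fun p hp => hlow p.1 p.2 (mem_offDiag.mp hp).2.2)).mp hsum
  have hxyJ : m = (J x y).card := hall (x, y) (mem_offDiag.mpr ⟨mem_univ _, mem_univ _, hxy⟩)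
  rw [Nat.card_eq_fintype_card, Nat.card_eq_fintype_card,
    Fintype.card_of_subtype (J x y) (fun i => hJmem x y i),
    Fintype.card_of_subtype (Iv.filter (fun t => t ∈ H)) (fun i => by rw [mem_filter, hIvmem]),
    ← hxyJ]

end Cfsg.Agent.Lib_helper2_SECount
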