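import Mathlib
import Cfsg.Agent.Lib_helper2_CA

namespace Cfsg.Agent.Lib_helper2_SL2

open Matrix

theorem commutantX {F : Type*} [Field F] (X Y : Matrix (Fin 2) (Fin 2) F)
    (hX : X 0 1 ≠ 0 ∨ X 1 0 ≠ 0 ∨ X 0 0 ≠ X 1 1) (h : Y * X = X * Y) :
    ∃ α β : F, Y = α • (1 : Matrix (Fin 2) (Fin 2) F) + β • X := by
  have e00 := congrFun (congrFun h 0) 0
  have e01 := congrFun (congrFun h 0) 1
  have e10 := congrFun (congrFun h 1) 0
  have e11 := congrFun (congrFun h 1) 1
  simp only [Matrix.mul_apply, Fin.sum_univ_two] at e00 e01 e10 e11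
  rcases hX with hb | hc | had
  · refine ⟨Y 0 0 - Y 0 1 / X 0 1 * X 0 0, Y 0 1 / X 0 1, ?_⟩
    ext i j
    fin_cases i <;> fin_cases j
    · simp
    · simp; field_simp
    · simp; field_simp; linear_combination (-1 : F) * e00
    · simp; field_simp; linear_combination (-1 : F) * e01
  · refine ⟨Y 0 0 - Y 1 0 / X 1 0 * X 0 0, Y 1 0 / X 1 0, ?_⟩
    ext i j
    fin_cases i <;> fin_cases j
    · simp
    · simp; field_simp; linear_combination e00
    · simp; field_simp
    · simp; field_simp; linear_combination e10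
  · have hd : X 0 0 - X 1 1 ≠ 0 := sub_ne_zero.mpr had
    refine ⟨Y 0 0 - (Y 0 0 - Y 1 1) / (X 0 0 - X 1 1) * X 0 0, (Y 0 0 - Y 1 1) / (X 0 0 - X 1 1), ?_⟩
    ext i j
    fin_cases i <;> fin_cases j
    · simp
    · simp; field_simp; linear_combination (-1 : F) * e01
    · simp; field_simp; linear_combination e10
    · simp; field_simp; ring

theorem cayleyX {F : Type*} [Field F] (X : Matrix (Fin 2) (Fin 2) F) :
    X * X = X.trace • X - X.det • (1 : Matrix (Fin 2) (Fin 2) F) := by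
  ext i j
  fin_cases i <;> fin_cases j <;>
    simp [Matrix.mul_apply, Fin.sum_univ_two, Matrix.det_fin_two, Matrix.trace_fin_two] <;> ring

theorem det_linX {F : Type*} [Field F] (X : Matrix (Fin 2) (Fin 2) F) (α β : F) :
    (α • (1 : Matrix (Fin 2) (Fin 2) F) + β • X).det =
      α ^ 2 + α * β * X.trace + β ^ 2 * X.det := by
  simp [Matrix.det_fin_two, Matrix.trace_fin_two]; ring

theorem trace_linX {F : Type*} [Field F] (X : Matrix (Fin 2) (Fin 2) F) (α β : F) :
    (α • (1 : Matrix (Fin 2) (Fin 2) F) + β • X).trace = 2 * α + β * X.trace := by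
  simp [Matrix.trace_fin_two]; ring

theorem sq_zero_of_powX {F : Type*} [Field F] (N : Matrix (Fin 2) (Fin 2) F) (n : ℕ)
    (h : N ^ n = 0) : N * N = 0 := by
  rcases n with _ | k
  · rw [pow_zero] at h
    exact absurd h one_ne_zero
  have hd : N.det = 0 := by
    have h1 := congrArg Matrix.det h
    rw [Matrix.det_pow, Matrix.det_zero] at h1
    by_contra hne
    exact (pow_ne_zero _ hne) h1
  have hC := cayleyX N
  rw [hd, zero_smul, sub_zero] at hC
  have hpow : ∀ j : ℕ, N ^ (j + 1) = N.trace ^ j • N := by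
    intro j
    induction j with
    | zero => simp
    | succ j ih =>
      rw [pow_succ, ih, Matrix.smul_mul, hC, smul_smul, pow_succ]
  rw [hpow k] at h
  rcases smul_eq_zero.mp h with h1 | h1
  · have : N.trace = 0 := by
      by_contra hne
      exact (pow_ne_zero _ hne) h1
    rw [hC, this, zero_smul]
  · rw [h1, Matrix.mul_zero]

theorem nil_trace_detX {F : Type*} [Field F] (N : Matrix (Fin 2) (Fin 2) F) (hN : N ≠ 0)
    (hNN : N * N = 0) : N.trace = 0 ∧ N.det = 0 := by
  have hd : N.det = 0 := by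
    have h1 := congrArg Matrix.det hNN
    rw [Matrix.det_mul, Matrix.det_zero] at h1
    exact mul_self_eq_zero.mp h1
  refine ⟨?_, hd⟩
  have hC := cayleyX N
  rw [hd, zero_smul, sub_zero, hNN] at hC
  rcases smul_eq_zero.mp hC.symm with h1 | h1
  · exact h1
  · exact absurd h1 hN

theorem nonscalar_nilX {F : Type*} [Field F] (h2 : (2 : F) ≠ 0) (N : Matrix (Fin 2) (Fin 2) F)
    (hN : N ≠ 0) (htr : N.trace = 0) : N 0 1 ≠ 0 ∨ N 1 0 ≠ 0 ∨ N 0 0 ≠ N 1 1 := by
  by_contra hcon
  push Not at hcon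
  obtain ⟨h01, h10, h00⟩ := hcon
  rw [Matrix.trace_fin_two] at htr
  have h0 : N 0 0 = 0 := by
    have : (2 : F) * N 0 0 = 0 := by linear_combination htr + h00
    rcases mul_eq_zero.mp this with h | h
    · exact absurd h h2
    · exact h
  apply hN
  ext i j
  fin_cases i <;> fin_cases j
  · simpa using h0
  · simpa using h01
  · simpa using h10
  · simp; rw [← h00]; exact h0

theorem conj_nilX {F : Type*} [Field F] (h2 : (2 : F) ≠ 0) (N A B : Matrix (Fin 2) (Fin 2) F)
    (hN : N ≠ 0) (hNN : N * N = 0) (hAB : A * B = 1) (hBA : B * A = 1)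
    (hc : (A * (1 + N) * B) * (1 + N) = (1 + N) * (A * (1 + N) * B)) :
    ∃ β : F, β ≠ 0 ∧ A * N = β • (N * A) := by
  obtain ⟨htr, hdet⟩ := nil_trace_detX N hN hNN
  have hns := nonscalar_nilX h2 N hN htr
  have hY : A * (1 + N) * B = 1 + A * N * B := by
    rw [Matrix.mul_add, Matrix.mul_one, Matrix.add_mul, hAB]
  have hc' : (A * (1 + N) * B) * N = N * (A * (1 + N) * B) := by
    have h1 : (A * (1 + N) * B) * (1 + N) = A * (1 + N) * B + (A * (1 + N) * B) * N := by
      rw [Matrix.mul_add, Matrix.mul_one]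
    have h2' : (1 + N) * (A * (1 + N) * B) = A * (1 + N) * B + N * (A * (1 + N) * B) := by
      rw [Matrix.add_mul, Matrix.one_mul]
    rw [h1, h2'] at hc
    exact add_left_cancel hc
  obtain ⟨α, β, hαβ⟩ := commutantX N (A * (1 + N) * B) hns hc'
  have htrY : (A * (1 + N) * B).trace = 2 := by
    rw [Matrix.trace_mul_comm, ← Matrix.mul_assoc, hBA, Matrix.one_mul, Matrix.trace_add, htr,
      Matrix.trace_fin_two]
    simp; norm_num
  have hα : α = 1 := by
    rw [hαβ, trace_linX, htr] at htrY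
    have : (2 : F) * (α - 1) = 0 := by linear_combination htrY
    rcases mul_eq_zero.mp this with h | h
    · exact absurd h h2
    · exact sub_eq_zero.mp h
  have hANB : A * N * B = β • N := by
    have : 1 + A * N * B = 1 + β • N := by rw [← hY, hαβ, hα, one_smul]
    exact add_left_cancel this
  have hAN : A * N = β • (N * A) := by
    calc A * N = A * N * (B * A) := by rw [hBA, Matrix.mul_one]
      _ = (A * N * B) * A := by rw [Matrix.mul_assoc, Matrix.mul_assoc, Matrix.mul_assoc]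
      _ = β • (N * A) := by rw [hANB, Matrix.smul_mul]
  refine ⟨β, ?_, hAN⟩
  intro hβ
  rw [hβ, zero_smul] at hAN
  apply hN
  calc N = (B * A) * N := by rw [hBA, Matrix.one_mul]
    _ = B * (A * N) := by rw [Matrix.mul_assoc]
    _ = 0 := by rw [hAN, Matrix.mul_zero]

theorem ker_lineX {F : Type*} [Field F] (N : Matrix (Fin 2) (Fin 2) F) (hN : N ≠ 0)
    (v w : Fin 2 → F) (hv : v ≠ 0) (hNv : N *ᵥ v = 0) (hNw : N *ᵥ w = 0) :
    w ∈ Submodule.span F {v} := by
  have hD : v 0 * w 1 - v 1 * w 0 = 0 := by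
    by_contra hD
    apply hN
    ext i j
    have e1 := congrFun hNv i
    have e2 := congrFun hNw i
    simp only [Matrix.mulVec, dotProduct, Fin.sum_univ_two, Pi.zero_apply] at e1 e2
    have h0 : N i 0 * (v 0 * w 1 - v 1 * w 0) = 0 := by linear_combination w 1 * e1 - v 1 * e2
    have h1 : N i 1 * (v 0 * w 1 - v 1 * w 0) = 0 := by linear_combination v 0 * e2 - w 0 * e1
    fin_cases j
    · simpa using (mul_eq_zero.mp h0).resolve_right hD
    · simpa using (mul_eq_zero.mp h1).resolve_right hD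
  rw [Submodule.mem_span_singleton]
  have hv' : v 0 ≠ 0 ∨ v 1 ≠ 0 := by
    by_contra hcon
    push Not at hcon
    apply hv
    ext i
    fin_cases i
    · simpa using hcon.1
    · simpa using hcon.2
  rcases hv' with h | h
  · refine ⟨w 0 / v 0, ?_⟩
    ext i
    fin_cases i
    · simp; field_simp
    · simp; field_simp; linear_combination (-1 : F) * hD
  · refine ⟨w 1 / v 1, ?_⟩
    ext i
    fin_cases i
    · simp; field_simp; linear_combination hD
    · simp; field_simp

theorem rel_mulX {F : Type*} [Field F] (A₁ A₂ N : Matrix (Fin 2) (Fin 2) F) (l₁ l₂ : F)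
    (e₁ : A₁ * N = l₁ • (N * A₁)) (e₂ : A₂ * N = l₂ • (N * A₂)) :
    (A₁ * A₂) * N = (l₁ * l₂) • (N * (A₁ * A₂)) := by
  rw [Matrix.mul_assoc, e₂, Matrix.mul_smul, ← Matrix.mul_assoc, e₁, Matrix.smul_mul, smul_smul,
    Matrix.mul_assoc, mul_comm l₂ l₁]

theorem rel_powX {F : Type*} [Field F] (A N : Matrix (Fin 2) (Fin 2) F) (l : F)
    (e : A * N = l • (N * A)) (n : ℕ) : A ^ n * N = l ^ n • (N * A ^ n) := by
  induction n with
  | zero => simp
  | succ n ih => rw [pow_succ, pow_succ]; exact rel_mulX _ _ _ _ _ ih e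

theorem rel_invX {F : Type*} [Field F] (A B N : Matrix (Fin 2) (Fin 2) F) (l : F) (hl : l ≠ 0)
    (hAB : A * B = 1) (hBA : B * A = 1) (e : A * N = l • (N * A)) :
    B * N = l⁻¹ • (N * B) := by
  have h1 : N * B = l • (B * N) := by
    calc N * B = B * (A * N) * B := by rw [← Matrix.mul_assoc B A N, hBA, Matrix.one_mul]
      _ = l • (B * N * (A * B)) := by
          rw [e, Matrix.mul_smul, Matrix.smul_mul]
          simp only [Matrix.mul_assoc]
      _ = l • (B * N) := by rw [hAB, Matrix.mul_one]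
  rw [h1, smul_smul, inv_mul_cancel₀ hl, one_smul]

/-- matrix of an element of a subgroup of `GL₂` -/
def mat {F : Type*} [Field F] (H : Subgroup (GL (Fin 2) F)) (g : H) : Matrix (Fin 2) (Fin 2) F :=
  ((g : GL (Fin 2) F) : Matrix (Fin 2) (Fin 2) F)

theorem mat_mul {F : Type*} [Field F] (H : Subgroup (GL (Fin 2) F)) (a b : H) :
    mat H (a * b) = mat H a * mat H b := rfl

theorem mat_one {F : Type*} [Field F] (H : Subgroup (GL (Fin 2) F)) : mat H 1 = 1 := rfl

theorem mat_inj {F : Type*} [Field F] (H : Subgroup (GL (Fin 2) F)) {a b : H}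
    (h : mat H a = mat H b) : a = b :=
  Subtype.ext (Units.ext h)

theorem mat_pow {F : Type*} [Field F] (H : Subgroup (GL (Fin 2) F)) (a : H) (n : ℕ) :
    mat H (a ^ n) = mat H a ^ n := by
  induction n with
  | zero => rfl
  | succ n ih => rw [pow_succ, pow_succ, mat_mul, ih]

theorem mat_inv_mul {F : Type*} [Field F] (H : Subgroup (GL (Fin 2) F)) (a : H) :
    mat H a⁻¹ * mat H a = 1 := by rw [← mat_mul, inv_mul_cancel, mat_one]

theorem mat_mul_inv {F : Type*} [Field F] (H : Subgroup (GL (Fin 2) F)) (a : H) :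
    mat H a * mat H a⁻¹ = 1 := by rw [← mat_mul, mul_inv_cancel, mat_one]

theorem scalar_eq_one {F : Type*} [Field F] (H : Subgroup (GL (Fin 2) F)) [Finite H]
    (hodd : Odd (Nat.card H)) (hdet : ∀ g : H, (mat H g).det = 1) (g : H) (c : F)
    (h : mat H g = c • (1 : Matrix (Fin 2) (Fin 2) F)) : g = 1 := by
  have hc : c ^ 2 = 1 := by
    have := hdet g
    rw [h, Matrix.det_smul, Matrix.det_one, mul_one, Fintype.card_fin] at this
    exact this
  have hg2 : g ^ 2 = 1 := by
    apply mat_inj H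
    rw [mat_pow, h, mat_one, smul_pow, one_pow, hc, one_smul]
  have h1 : orderOf g ∣ 2 := orderOf_dvd_of_pow_eq_one hg2
  have h2 : Odd (orderOf g) := Odd.of_dvd_nat hodd (orderOf_dvd_natCard g)
  have h3 : orderOf g = 1 := by
    rcases (Nat.dvd_prime Nat.prime_two).mp h1 with h | h
    · exact h
    · rw [h] at h2; exact absurd h2 (by decide)
  exact orderOf_eq_one_iff.mp h3

theorem nonscalar {F : Type*} [Field F] (H : Subgroup (GL (Fin 2) F)) [Finite H]
    (hodd : Odd (Nat.card H)) (hdet : ∀ g : H, (mat H g).det = 1) (g : H) (hg : g ≠ 1) :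
    mat H g 0 1 ≠ 0 ∨ mat H g 1 0 ≠ 0 ∨ mat H g 0 0 ≠ mat H g 1 1 := by
  by_contra hcon
  push Not at hcon
  obtain ⟨h01, h10, h00⟩ := hcon
  apply hg
  apply scalar_eq_one H hodd hdet g (mat H g 0 0)
  ext i j
  fin_cases i <;> fin_cases j
  · simp
  · simpa using h01
  · simpa using h10
  · simp; exact h00.symm

theorem ca {F : Type*} [Field F] (H : Subgroup (GL (Fin 2) F)) [Finite H]
    (hodd : Odd (Nat.card H)) (hdet : ∀ g : H, (mat H g).det = 1) (x : H) (hx : x ≠ 1)
    (a b : H) (ha : a * x = x * a) (hb : b * x = x * b) : a * b = b * a := by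
  have hns := nonscalar H hodd hdet x hx
  obtain ⟨α, β, e1⟩ := commutantX (mat H x) (mat H a) hns (by rw [← mat_mul, ← mat_mul, ha])
  obtain ⟨α', β', e2⟩ := commutantX (mat H x) (mat H b) hns (by rw [← mat_mul, ← mat_mul, hb])
  apply mat_inj H
  rw [mat_mul, mat_mul, e1, e2]
  have h1 : Commute (α • (1 : Matrix (Fin 2) (Fin 2) F) + β • mat H x) (mat H x) :=
    ((Commute.one_left _).smul_left α).add_left ((Commute.refl _).smul_left β)
  exact (((Commute.one_right _).smul_right α').add_right (h1.smul_right β')).eq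

theorem two_ne_zeroX {F : Type*} [Field F] (p : ℕ) [Fact p.Prime] [CharP F p] (hp2 : p ≠ 2) :
    (2 : F) ≠ 0 := by
  intro h
  have h1 : ((2 : ℕ) : F) = 0 := by exact_mod_cast h
  rw [CharP.cast_eq_zero_iff F p 2] at h1
  have := (Nat.prime_dvd_prime_iff_eq (Fact.out : p.Prime) Nat.prime_two).mp h1
  exact hp2 this

theorem unip {F : Type*} [Field F] (p : ℕ) [Fact p.Prime] [CharP F p]
    (H : Subgroup (GL (Fin 2) F)) (u : H) (hu : u ^ p = 1) :
    (mat H u - 1) * (mat H u - 1) = 0 := by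
  apply sq_zero_of_powX _ p
  rw [sub_pow_char_of_commute p (Commute.one_right _), one_pow, ← mat_pow, hu, mat_one, sub_self]

theorem hUX {F : Type*} [Field F] (p : ℕ) [Fact p.Prime] [CharP F p]
    (H : Subgroup (GL (Fin 2) F)) [Finite H]
    (hodd : Odd (Nat.card H)) (hdet : ∀ g : H, (mat H g).det = 1) (u : H) (hu : u ≠ 1)
    (hup : u ^ p = 1) (c : H) (hc : c * u = u * c) : c ^ p = 1 := by
  have hns := nonscalar H hodd hdet u hu
  obtain ⟨α, β, e1⟩ := commutantX (mat H u) (mat H c) hns (by rw [← mat_mul, ← mat_mul, hc])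
  have hNN := unip p H u hup
  have e2 : mat H c = (α + β) • (1 : Matrix (Fin 2) (Fin 2) F) + β • (mat H u - 1) := by
    rw [e1, smul_sub, add_smul]; abel
  have hNp : (mat H u - 1) ^ p = 0 := by
    have hp2 : 2 ≤ p := (Fact.out : p.Prime).two_le
    obtain ⟨k, hk⟩ := Nat.exists_eq_add_of_le hp2
    rw [hk, pow_add, pow_two, hNN, zero_mul]
  apply scalar_eq_one H hodd hdet (c ^ p) ((α + β) ^ p)
  rw [mat_pow, e2, add_pow_char_of_commute p (((Commute.one_left _).smul_left _).smul_right _),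
    smul_pow, one_pow, smul_pow, hNp, smul_zero, add_zero]

theorem hSX {F : Type*} [Field F] (p : ℕ) [Fact p.Prime] [CharP F p] (hp2 : p ≠ 2)
    (H : Subgroup (GL (Fin 2) F)) [Finite H]
    (hodd : Odd (Nat.card H)) (hdet : ∀ g : H, (mat H g).det = 1) (x : H) (hx : x ≠ 1)
    (hcop : (orderOf x).Coprime p) (h : H)
    (hc : (h * x * h⁻¹) * x = x * (h * x * h⁻¹)) : h * x * h⁻¹ = x ∨ h * x * h⁻¹ = x⁻¹ := by
  have h2F : (2 : F) ≠ 0 := two_ne_zeroX p hp2
  have hns := nonscalar H hodd hdet x hx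
  obtain ⟨α, β, e1⟩ := commutantX (mat H x) (mat H (h * x * h⁻¹)) hns
    (by rw [← mat_mul, ← mat_mul, hc])
  have htr : (mat H (h * x * h⁻¹)).trace = (mat H x).trace := by
    rw [mat_mul, mat_mul, Matrix.trace_mul_comm, ← Matrix.mul_assoc, mat_inv_mul, Matrix.one_mul]
  have hT : 2 * α + β * (mat H x).trace = (mat H x).trace := by
    have h' := htr
    rw [e1, trace_linX] at h'
    exact h'
  have hD : α ^ 2 + α * β * (mat H x).trace + β ^ 2 = 1 := by
    have := hdet (h * x * h⁻¹)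
    rw [e1, det_linX, hdet x, mul_one] at this
    exact this
  have hxp : ∀ c : F, mat H x ^ p = c • (1 : Matrix (Fin 2) (Fin 2) F) → False := by
    intro c hcX
    have h1 : x ^ p = 1 := scalar_eq_one H hodd hdet (x ^ p) c (by rw [mat_pow]; exact hcX)
    have h3 : orderOf x = 1 := Nat.Coprime.eq_one_of_dvd hcop (orderOf_dvd_of_pow_eq_one h1)
    exact hx (orderOf_eq_one_iff.mp h3)
  have hC := cayleyX (mat H x)
  rw [hdet x, one_smul] at hC
  have key : (1 - β ^ 2) * ((mat H x).trace ^ 2 - 4) = 0 := by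
    linear_combination 4 * hD - (2 * α + β * (mat H x).trace + (mat H x).trace) * hT
  rcases mul_eq_zero.mp key with hβ | hτ
  · have hβ' : (β - 1) * (β + 1) = 0 := by linear_combination (-1 : F) * hβ
    rcases mul_eq_zero.mp hβ' with h1 | h1
    · left
      have hβ1 : β = 1 := sub_eq_zero.mp h1
      have hα : α = 0 := by
        have : (2 : F) * α = 0 := by rw [hβ1] at hT; linear_combination hT
        rcases mul_eq_zero.mp this with h | h
        · exact absurd h h2F
        · exact h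
      apply mat_inj H
      rw [e1, hα, hβ1, zero_smul, zero_add, one_smul]
    · right
      have hβ1 : β = -1 := eq_neg_of_add_eq_zero_left h1
      have hα : α = (mat H x).trace := by
        have : (2 : F) * (α - (mat H x).trace) = 0 := by rw [hβ1] at hT; linear_combination hT
        rcases mul_eq_zero.mp this with h | h
        · exact absurd h h2F
        · exact sub_eq_zero.mp h
      apply eq_inv_of_mul_eq_one_left
      apply mat_inj H
      rw [mat_mul, e1, hα, hβ1, mat_one, Matrix.add_mul, Matrix.smul_mul, Matrix.smul_mul,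
        Matrix.one_mul, hC, neg_one_smul]
      abel
  · exfalso
    have hτ' : ((mat H x).trace - 2) * ((mat H x).trace + 2) = 0 := by linear_combination hτ
    have hp2' : 2 ≤ p := (Fact.out : p.Prime).two_le
    obtain ⟨k, hk⟩ := Nat.exists_eq_add_of_le hp2'
    rcases mul_eq_zero.mp hτ' with h1 | h1
    · have ht : (mat H x).trace = 2 := sub_eq_zero.mp h1
      have hsq : (mat H x - 1) * (mat H x - 1) = 0 := by
        have e : (mat H x - 1) * (mat H x - 1) = mat H x * mat H x - mat H x - mat H x + 1 := by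
          noncomm_ring
        rw [e, hC, ht, two_smul]; abel
      apply hxp 1
      have hz : (mat H x - 1) ^ p = 0 := by rw [hk, pow_add, pow_two, hsq, zero_mul]
      rw [sub_pow_char_of_commute p (Commute.one_right _), one_pow, sub_eq_zero] at hz
      rw [hz, one_smul]
    · have ht : (mat H x).trace = -2 := eq_neg_of_add_eq_zero_left h1
      have hsq : (mat H x + 1) * (mat H x + 1) = 0 := by
        have e : (mat H x + 1) * (mat H x + 1) = mat H x * mat H x + mat H x + mat H x + 1 := by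
          noncomm_ring
        rw [e, hC, ht, neg_smul, two_smul]; abel
      apply hxp (-1)
      have hz : (mat H x + 1) ^ p = 0 := by rw [hk, pow_add, pow_two, hsq, zero_mul]
      rw [add_pow_char_of_commute p (Commute.one_right _), one_pow] at hz
      rw [neg_one_smul]; exact eq_neg_of_add_eq_zero_left hz

theorem hTX {F : Type*} [Field F] (p : ℕ) [Fact p.Prime] [CharP F p] (hp2 : p ≠ 2)
    (H : Subgroup (GL (Fin 2) F)) [Finite H]
    (hodd : Odd (Nat.card H)) (hdet : ∀ g : H, (mat H g).det = 1) (u : H)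
    (hou : orderOf u = p) :
    ∃ t : H, (orderOf t).Coprime p ∧ (t * u * t⁻¹) * u = u * (t * u * t⁻¹) ∧
      ∀ h : H, (h * u * h⁻¹) * u = u * (h * u * h⁻¹) →
        ∃ k : ℕ, ((t ^ k)⁻¹ * h) * u = u * ((t ^ k)⁻¹ * h) := by
  classical
  have hpr := (Fact.out : p.Prime)
  have h2F : (2 : F) ≠ 0 := two_ne_zeroX p hp2
  have hu1 : u ≠ 1 := by
    intro h; rw [h, orderOf_one] at hou; exact hpr.one_lt.ne hou
  have hup : u ^ p = 1 := by rw [← hou]; exact pow_orderOf_eq_one u
  have hNN := unip p H u hup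
  obtain ⟨N, hN⟩ : ∃ N, N = mat H u - 1 := ⟨_, rfl⟩
  rw [← hN] at hNN
  have hN0 : N ≠ 0 := by
    intro h
    apply hu1
    apply mat_inj H
    rw [mat_one]; rw [hN] at h; exact sub_eq_zero.mp h
  have hmu : mat H u = 1 + N := by rw [hN]; abel
  have K2 : ∀ g : H, mat H g * N = N * mat H g → g * u = u * g := by
    intro g hg
    apply mat_inj H
    rw [mat_mul, mat_mul, hmu, Matrix.mul_add, Matrix.add_mul, Matrix.mul_one, Matrix.one_mul, hg]
  have K3 : ∀ (h : H) (l : F), mat H h * N = l • (N * mat H h) →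
      (h * u * h⁻¹) * u = u * (h * u * h⁻¹) := by
    intro h l e
    have e1 : mat H (h * u * h⁻¹) = 1 + l • N := by
      rw [mat_mul, mat_mul, hmu, Matrix.mul_add, Matrix.mul_one, Matrix.add_mul, mat_mul_inv, e,
        Matrix.smul_mul, Matrix.mul_assoc, mat_mul_inv, Matrix.mul_one]
    apply mat_inj H
    rw [mat_mul, mat_mul H u, e1, hmu]
    exact ((Commute.one_left (1 + N)).add_left
      (((Commute.one_right N).add_right (Commute.refl N)).smul_left l)).eq
  have K1 : ∀ h : H, (h * u * h⁻¹) * u = u * (h * u * h⁻¹) →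
      ∃ β : F, β ≠ 0 ∧ mat H h * N = β • (N * mat H h) := by
    intro h hc
    apply conj_nilX h2F N (mat H h) (mat H h⁻¹) hN0 hNN (mat_mul_inv H h) (mat_inv_mul H h)
    have h' := congrArg (mat H) hc
    simp only [mat_mul, hmu] at h'
    exact h'
  let Λ : Subgroup Fˣ :=
    { carrier := {l : Fˣ | ∃ h : H, mat H h * N = (l : F) • (N * mat H h)}
      mul_mem' := by
        rintro l₁ l₂ ⟨h₁, e₁⟩ ⟨h₂, e₂⟩
        exact ⟨h₁ * h₂, by rw [mat_mul, Units.val_mul]; exact rel_mulX _ _ _ _ _ e₁ e₂⟩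
      one_mem' := ⟨1, by rw [mat_one, Units.val_one, one_smul, Matrix.one_mul, Matrix.mul_one]⟩
      inv_mem' := by
        rintro l ⟨h, e⟩
        exact ⟨h⁻¹, by
          rw [Units.val_inv_eq_inv_val]
          exact rel_invX _ _ _ _ l.ne_zero (mat_mul_inv H h) (mat_inv_mul H h) e⟩ }
  have hΛ : ∀ l : Fˣ, l ∈ Λ ↔ ∃ h : H, mat H h * N = (l : F) • (N * mat H h) := fun l => Iff.rfl
  have hfin : Finite Λ := by
    have hch : ∀ l : Λ, ∃ h : H, mat H h * N = ((l : Fˣ) : F) • (N * mat H h) := fun l => l.2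
    choose f hf using hch
    refine Finite.of_injective f ?_
    intro l l' hll
    have e1 := hf l
    have e2 := hf l'
    rw [hll] at e1
    have e3 : (((l : Fˣ) : F) - ((l' : Fˣ) : F)) • (N * mat H (f l')) = 0 := by
      rw [sub_smul, ← e1, ← e2, sub_self]
    rcases smul_eq_zero.mp e3 with h | h
    · exact Subtype.ext (Units.ext (sub_eq_zero.mp h))
    · exfalso
      apply hN0
      calc N = N * (mat H (f l') * mat H (f l')⁻¹) := by rw [mat_mul_inv, Matrix.mul_one]
        _ = (N * mat H (f l')) * mat H (f l')⁻¹ := by rw [Matrix.mul_assoc]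
        _ = 0 := by rw [h, Matrix.zero_mul]
  haveI := hfin
  obtain ⟨g₀, hg₀⟩ := IsCyclic.exists_generator (α := Λ)
  have hsurj : Function.Surjective (fun l : Λ => l ^ p) := by
    apply Finite.injective_iff_surjective.mp
    intro l l' hll
    have h1 : (((l : Fˣ) : F)) ^ p = (((l' : Fˣ) : F)) ^ p := by
      have := congrArg (fun z : Λ => ((z : Fˣ) : F)) hll
      simpa using this
    exact Subtype.ext (Units.ext (frobenius_inj F p h1))
  obtain ⟨l₁, hl₁⟩ := hsurj g₀
  obtain ⟨t₁, ht₁⟩ := l₁.2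
  have hl₁' : (((l₁ : Fˣ) : F)) ^ p = ((g₀ : Fˣ) : F) := by
    have := congrArg (fun z : Λ => ((z : Fˣ) : F)) hl₁
    simpa using this
  have hrel : mat H (t₁ ^ p) * N = ((g₀ : Fˣ) : F) • (N * mat H (t₁ ^ p)) := by
    rw [mat_pow, ← hl₁']; exact rel_powX _ _ _ ht₁ p
  refine ⟨t₁ ^ p, ?_, K3 _ _ hrel, ?_⟩
  · -- coprime
    have hd : 0 < orderOf l₁ := orderOf_pos l₁
    have hl1d : (((l₁ : Fˣ) : F)) ^ orderOf l₁ = 1 := by
      have h := congrArg (fun z : Λ => ((z : Fˣ) : F)) (pow_orderOf_eq_one l₁)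
      simp only [Subgroup.coe_pow, Units.val_pow_eq_pow_val, Subgroup.coe_one, Units.val_one] at h
      exact h
    have e_d : mat H (t₁ ^ orderOf l₁) * N = N * mat H (t₁ ^ orderOf l₁) := by
      have := rel_powX _ _ _ ht₁ (orderOf l₁)
      rw [hl1d, one_smul] at this
      rw [mat_pow]; exact this
    have h1 := hUX p H hodd hdet u hu1 hup _ (K2 _ e_d)
    have h2 : (t₁ ^ p) ^ orderOf l₁ = 1 := by
      rw [← pow_mul, mul_comm, pow_mul]; exact h1
    have h3 : orderOf (t₁ ^ p) ∣ orderOf l₁ := orderOf_dvd_of_pow_eq_one h2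
    have h4 : (orderOf l₁).Coprime p := by
      by_contra hnc
      have hdvd : p ∣ orderOf l₁ := by
        by_contra hnd
        exact hnc ((Nat.Prime.coprime_iff_not_dvd hpr).mpr hnd).symm
      have ho : orderOf (l₁ ^ (orderOf l₁ / p)) = p :=
        orderOf_pow_orderOf_div hd.ne' hdvd
      have h5 : (l₁ ^ (orderOf l₁ / p)) ^ p = 1 := by
        have h := pow_orderOf_eq_one (l₁ ^ (orderOf l₁ / p))
        rw [ho] at h
        exact h
      have h6 : ((((l₁ ^ (orderOf l₁ / p) : Λ) : Fˣ) : F)) ^ p = (1 : F) ^ p := by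
        have := congrArg (fun z : Λ => ((z : Fˣ) : F)) h5
        simpa using this
      have h7 : (((l₁ ^ (orderOf l₁ / p) : Λ) : Fˣ) : F) = 1 := frobenius_inj F p h6
      have h8 : l₁ ^ (orderOf l₁ / p) = 1 := Subtype.ext (Units.ext h7)
      rw [h8, orderOf_one] at ho
      exact hpr.one_lt.ne ho
    exact Nat.Coprime.coprime_dvd_left h3 h4
  · intro h hc
    obtain ⟨β, hβ, e⟩ := K1 h hc
    have hμ : Units.mk0 β hβ ∈ Λ := ⟨h, e⟩
    have hmem := hg₀ ⟨Units.mk0 β hβ, hμ⟩
    rw [← mem_powers_iff_mem_zpowers, Submonoid.mem_powers_iff] at hmem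
    obtain ⟨j, hj⟩ := hmem
    have hj' : (((g₀ : Fˣ) : F)) ^ j = β := by
      have := congrArg (fun z : Λ => ((z : Fˣ) : F)) hj
      simpa using this
    refine ⟨j, K2 _ ?_⟩
    have r1 : mat H ((t₁ ^ p) ^ j) * N = β • (N * mat H ((t₁ ^ p) ^ j)) := by
      rw [mat_pow, ← hj']; exact rel_powX _ _ _ hrel j
    have r2 := rel_invX _ _ _ _ hβ (mat_mul_inv H ((t₁ ^ p) ^ j)) (mat_inv_mul H ((t₁ ^ p) ^ j)) r1
    have r3 := rel_mulX _ _ _ _ _ r2 e
    rw [inv_mul_cancel₀ hβ, one_smul] at r3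
    rw [mat_mul]; exact r3

theorem sl2_pelts_commute {F : Type*} [Field F] (p : ℕ) [Fact p.Prime] [CharP F p] (hp2 : p ≠ 2)
    (H : Subgroup (GL (Fin 2) F)) [Finite H]
    (hodd : Odd (Nat.card H)) (hdet : ∀ g : H, (mat H g).det = 1) :
    ∀ x y : H, x ^ p = 1 → y ^ p = 1 → x * y = y * x := by
  have hpr := (Fact.out : p.Prime)
  apply Cfsg.Agent.Lib_helper2_CA.pelts_commute p hodd
  · intro x hx a b ha hb; exact ca H hodd hdet x hx a b ha hb
  · intro x hx hcop h hc; exact hSX p hp2 H hodd hdet x hx hcop h hc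
  · intro u hou c hc
    have hu1 : u ≠ 1 := by
      intro h; rw [h, orderOf_one] at hou; exact hpr.one_lt.ne hou
    exact hUX p H hodd hdet u hu1 (by rw [← hou]; exact pow_orderOf_eq_one u) c hc
  · intro u hou; exact hTX p hp2 H hodd hdet u hou

theorem S1463_main {F : Type*} [Field F] (p : ℕ) [Fact p.Prime] [CharP F p] (hp : p ≠ 2)
    (H : Subgroup (GL (Fin 2) F)) [Finite H] (hodd : Odd (Nat.card H))
    (hirr : ∀ v : Fin 2 → F, v ≠ 0 → ∃ g ∈ H,
      (g : Matrix (Fin 2) (Fin 2) F).mulVec v ∉ Submodule.span F {v}) :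
    ¬ p ∣ Nat.card H := by
  classical
  intro hdvd
  have hpr := (Fact.out : p.Prime)
  have h2F : (2 : F) ≠ 0 := two_ne_zeroX p hp
  obtain ⟨x₀, hx₀⟩ := exists_prime_orderOf_dvd_card' p hdvd
  obtain ⟨K, hK⟩ : ∃ K : Subgroup (GL (Fin 2) F),
      K = H ⊓ (Matrix.GeneralLinearGroup.det : GL (Fin 2) F →* Fˣ).ker := ⟨_, rfl⟩
  have hKH : K ≤ H := by rw [hK]; exact inf_le_left
  have hKker : ∀ g ∈ K, g ∈ (Matrix.GeneralLinearGroup.det : GL (Fin 2) F →* Fˣ).ker := by
    intro g hg
    rw [hK] at hg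
    exact hg.2
  haveI : Finite K := Finite.of_injective (Subgroup.inclusion hKH) (Subgroup.inclusion_injective _)
  have hKodd : Odd (Nat.card K) := Odd.of_dvd_nat hodd (Subgroup.card_dvd_of_le hKH)
  have hKdet : ∀ g : K, (mat K g).det = 1 := by
    intro g
    have h1 : (g : GL (Fin 2) F) ∈ (Matrix.GeneralLinearGroup.det : GL (Fin 2) F →* Fˣ).ker :=
      hKker _ g.2
    rw [MonoidHom.mem_ker] at h1
    have h2 := congrArg Units.val h1
    simpa [mat] using h2
  have key := sl2_pelts_commute p hp K hKodd hKdet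
  have hx₀p : (x₀ : GL (Fin 2) F) ^ p = 1 := by
    have := congrArg (fun g : H => (g : GL (Fin 2) F)) (hx₀ ▸ pow_orderOf_eq_one x₀)
    simpa using this
  have hx₀1 : (x₀ : GL (Fin 2) F) ≠ 1 := by
    intro h
    have : x₀ = 1 := Subtype.ext h
    rw [this, orderOf_one] at hx₀
    exact hpr.one_lt.ne hx₀
  have hxker : (x₀ : GL (Fin 2) F) ∈ (Matrix.GeneralLinearGroup.det : GL (Fin 2) F →* Fˣ).ker := by
    rw [MonoidHom.mem_ker]
    have h1 : (Matrix.GeneralLinearGroup.det (x₀ : GL (Fin 2) F)) ^ p = 1 := by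
      rw [← map_pow, hx₀p, map_one]
    have h2 : ((Matrix.GeneralLinearGroup.det (x₀ : GL (Fin 2) F) : Fˣ) : F) ^ p = (1 : F) ^ p := by
      have := congrArg Units.val h1
      simpa using this
    exact Units.ext (frobenius_inj F p h2)
  have hxK : (x₀ : GL (Fin 2) F) ∈ K := by rw [hK]; exact ⟨x₀.2, hxker⟩
  obtain ⟨X, hX⟩ : ∃ X : Matrix (Fin 2) (Fin 2) F, X = ((x₀ : GL (Fin 2) F) : Matrix (Fin 2) (Fin 2) F) := ⟨_, rfl⟩
  have hNN : (X - 1) * (X - 1) = 0 := by
    have := unip p K ⟨x₀, hxK⟩ (Subtype.ext hx₀p)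
    rw [hX]; exact this
  have hN0 : X - 1 ≠ 0 := by
    intro h
    apply hx₀1
    apply Units.ext
    rw [← hX]; exact sub_eq_zero.mp h
  -- a nonzero column
  have hcol : ∃ i j, (X - 1) i j ≠ 0 := by
    by_contra hcon
    push Not at hcon
    apply hN0
    ext i j
    exact hcon i j
  obtain ⟨i₀, j₀, hij⟩ := hcol
  obtain ⟨v, hv⟩ : ∃ v : Fin 2 → F, v = fun i => (X - 1) i j₀ := ⟨_, rfl⟩
  have hv0 : v ≠ 0 := by
    intro h
    apply hij
    have := congrFun h i₀
    rw [hv] at this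
    exact this
  have hNv : (X - 1) *ᵥ v = 0 := by
    ext i
    have := congrFun (congrFun hNN i) j₀
    rw [hv]
    simpa [Matrix.mul_apply, Matrix.mulVec, dotProduct] using this
  obtain ⟨g, hgH, hgv⟩ := hirr v hv0
  have hyK : g * (x₀ : GL (Fin 2) F) * g⁻¹ ∈ K := by
    rw [hK]
    exact ⟨H.mul_mem (H.mul_mem hgH x₀.2) (H.inv_mem hgH),
      (MonoidHom.normal_ker _).conj_mem _ hxker g⟩
  have hcomm := key ⟨g * (x₀ : GL (Fin 2) F) * g⁻¹, hyK⟩ ⟨x₀, hxK⟩
    (Subtype.ext (by
      show (g * (x₀ : GL (Fin 2) F) * g⁻¹) ^ p = 1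
      rw [conj_pow, hx₀p, mul_one, mul_inv_cancel]))
    (Subtype.ext hx₀p)
  have hcomm' : ((g : Matrix (Fin 2) (Fin 2) F) * X * ((g⁻¹ : GL (Fin 2) F) : Matrix (Fin 2) (Fin 2) F)) * X
      = X * ((g : Matrix (Fin 2) (Fin 2) F) * X * ((g⁻¹ : GL (Fin 2) F) : Matrix (Fin 2) (Fin 2) F)) := by
    have := congrArg (mat K) hcomm
    rw [hX]
    exact this
  have hAB : (g : Matrix (Fin 2) (Fin 2) F) * ((g⁻¹ : GL (Fin 2) F) : Matrix (Fin 2) (Fin 2) F) = 1 := by
    rw [← Units.val_mul, mul_inv_cancel, Units.val_one]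
  have hBA : ((g⁻¹ : GL (Fin 2) F) : Matrix (Fin 2) (Fin 2) F) * (g : Matrix (Fin 2) (Fin 2) F) = 1 := by
    rw [← Units.val_mul, inv_mul_cancel, Units.val_one]
  have hX1 : X = 1 + (X - 1) := by abel
  obtain ⟨β, hβ, e⟩ := conj_nilX h2F (X - 1) (g : Matrix (Fin 2) (Fin 2) F) _ hN0 hNN hAB hBA
    (by rw [← hX1]; exact hcomm')
  have hNgv : (X - 1) *ᵥ ((g : Matrix (Fin 2) (Fin 2) F) *ᵥ v) = 0 := by
    have h1 : (X - 1) * (g : Matrix (Fin 2) (Fin 2) F) = β⁻¹ • ((g : Matrix (Fin 2) (Fin 2) F) * (X - 1)) := by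
      rw [e, smul_smul, inv_mul_cancel₀ hβ, one_smul]
    rw [Matrix.mulVec_mulVec, h1, Matrix.smul_mulVec, ← Matrix.mulVec_mulVec, hNv, Matrix.mulVec_zero,
      smul_zero]
  exact hgv (ker_lineX (X - 1) hN0 v _ hv0 hNv hNgv)

end Cfsg.Agent.Lib_helper2_SL2
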