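import Mathlib

set_option autoImplicit false

namespace Cfsg.Agent.Lib_helper2_Shift

open Polynomial

variable {p : ℕ} [Fact p.Prime] {K : Type*} [Field K] [CharP K p]

/-- Evaluation of a polynomial at the points of the prime field. -/
noncomputable def ev (p : ℕ) (K : Type*) [Field K] : K[X] →ₗ[K] (ZMod p → K) :=
  LinearMap.pi fun j => Polynomial.leval (ZMod.cast j : K)

omit [Fact p.Prime] [CharP K p] in
theorem ev_apply (P : K[X]) (j : ZMod p) : ev p K P j = P.eval (ZMod.cast j : K) := rfl

theorem cast_inj : Function.Injective (ZMod.cast : ZMod p → K) := by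
  have h := (ZMod.castHom (dvd_refl p) K).injective
  intro a b hab
  apply h
  rw [ZMod.castHom_apply, ZMod.castHom_apply]; exact hab

theorem cast_sub_one (j : ZMod p) : (ZMod.cast (j - 1) : K) = ZMod.cast j - 1 := by
  have h := map_sub (ZMod.castHom (dvd_refl p) K) j 1
  rw [map_one] at h
  exact h

theorem lagrange (f : ZMod p → K) : ∃ P : K[X], P.degree < (p : WithBot ℕ) ∧ f = ev p K P := by
  classical
  have hinj : Set.InjOn (ZMod.cast : ZMod p → K) (Finset.univ : Finset (ZMod p)) :=
    fun a _ b _ h => cast_inj h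
  refine ⟨Lagrange.interpolate Finset.univ (ZMod.cast : ZMod p → K) f, ?_, ?_⟩
  · have := Lagrange.degree_interpolate_lt (r := f) hinj
    rwa [Finset.card_univ, ZMod.card] at this
  · funext j
    rw [ev_apply, Lagrange.eval_interpolate_at_node f hinj (Finset.mem_univ j)]

theorem eq_zero_of_ev {P : K[X]} (hd : P.degree < (p : WithBot ℕ)) (h : ev p K P = 0) : P = 0 := by
  classical
  have hinj : Set.InjOn (ZMod.cast : ZMod p → K) (Finset.univ : Finset (ZMod p)) :=
    fun a _ b _ h => cast_inj h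
  apply Polynomial.eq_zero_of_degree_lt_of_eval_index_eq_zero (Finset.univ) hinj
  · rwa [Finset.card_univ, ZMod.card]
  · intro j _
    have := congrFun h j
    rwa [ev_apply] at this

/-- The difference operator `P(X - 1) - P(X)`. -/
noncomputable def dl (P : K[X]) : K[X] := P.comp (X - C 1) - P

theorem ev_dl (P : K[X]) (j : ZMod p) :
    ev p K (dl P) j = ev p K P (j - 1) - ev p K P j := by
  rw [ev_apply, ev_apply, ev_apply, dl, eval_sub, eval_comp, eval_sub, eval_X, eval_C,
    cast_sub_one]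

omit [Fact p.Prime] [CharP K p] in
theorem dl_add (P Q : K[X]) : dl (P + Q) = dl P + dl Q := by
  simp only [dl, add_comp]; ring

omit [Fact p.Prime] [CharP K p] in
theorem dl_C_mul (a : K) (P : K[X]) : dl (C a * P) = C a * dl P := by
  simp only [dl, C_mul_comp]; ring

omit [Fact p.Prime] [CharP K p] in
theorem dl_zero : dl (0 : K[X]) = 0 := by simp [dl]

omit [Fact p.Prime] [CharP K p] in
theorem degree_dl_lt {P : K[X]} (hP : P ≠ 0) : (dl P).degree < P.degree := by
  unfold dl
  have hq : (X - C (1:K)).natDegree ≠ 0 := by rw [natDegree_X_sub_C]; exact one_ne_zero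
  have hlc : (P.comp (X - C 1)).leadingCoeff = P.leadingCoeff := by
    rw [leadingCoeff_comp hq, leadingCoeff_X_sub_C, one_pow, mul_one]
  have hne : P.comp (X - C 1) ≠ 0 := by
    intro h
    rw [h, leadingCoeff_zero] at hlc
    exact hP (leadingCoeff_eq_zero.mp hlc.symm)
  have hnd : (P.comp (X - C 1)).natDegree = P.natDegree := by
    rw [natDegree_comp, natDegree_X_sub_C, mul_one]
  have hd : (P.comp (X - C 1)).degree = P.degree := by
    rw [degree_eq_natDegree hne, degree_eq_natDegree hP, hnd]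
  have := degree_sub_lt_left hd hne hlc
  rw [hd] at this
  exact this

omit [Fact p.Prime] [CharP K p] in
theorem coeff_dl_X_pow (e : ℕ) : (dl ((X : K[X]) ^ (e + 1))).coeff e = -((e + 1 : ℕ) : K) := by
  rw [dl, X_pow_comp, coeff_sub, coeff_X_pow, sub_eq_add_neg X (C 1), ← C_neg, coeff_X_add_C_pow]
  simp [Nat.choose_succ_self_right]

theorem natDegree_dl {P : K[X]} {d : ℕ} (hd : P.natDegree = d) (h1 : 1 ≤ d) (hdp : d < p) :
    dl P ≠ 0 ∧ (dl P).natDegree = d - 1 := by
  have hP : P ≠ 0 := by
    intro h; rw [h, natDegree_zero] at hd; omega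
  have hlt := degree_dl_lt hP
  have hdecomp := eraseLead_add_C_mul_X_pow P
  have hQ : (dl P.eraseLead).coeff (d - 1) = 0 := by
    by_cases hQ0 : P.eraseLead = 0
    · rw [hQ0, dl_zero, coeff_zero]
    · apply coeff_eq_zero_of_degree_lt
      calc (dl P.eraseLead).degree < P.eraseLead.degree := degree_dl_lt hQ0
        _ ≤ (P.eraseLead.natDegree : WithBot ℕ) := degree_le_natDegree
        _ ≤ ((d - 1 : ℕ) : WithBot ℕ) := by
            have := eraseLead_natDegree_le P
            rw [hd] at this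
            exact_mod_cast this
  have hdl : dl P = dl P.eraseLead + C P.leadingCoeff * dl (X ^ d) := by
    rw [← dl_C_mul, ← dl_add, ← hd, hdecomp]
  obtain ⟨e, rfl⟩ : ∃ e, d = e + 1 := ⟨d - 1, by omega⟩
  have hcoeff : (dl P).coeff e = P.leadingCoeff * -((e + 1 : ℕ) : K) := by
    rw [hdl, coeff_add, coeff_C_mul]
    rw [Nat.add_sub_cancel] at hQ
    rw [hQ, zero_add, coeff_dl_X_pow e]
  have hdK : ((e + 1 : ℕ) : K) ≠ 0 := by
    rw [Ne, CharP.cast_eq_zero_iff K p]
    intro hdvd
    exact absurd (Nat.le_of_dvd (by omega) hdvd) (by omega)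
  have hne : (dl P).coeff e ≠ 0 := by
    rw [hcoeff]
    exact mul_ne_zero (leadingCoeff_ne_zero.mpr hP) (neg_ne_zero.mpr hdK)
  have hdl0 : dl P ≠ 0 := by
    intro h; rw [h, coeff_zero] at hne; exact hne rfl
  refine ⟨hdl0, ?_⟩
  apply le_antisymm
  · have : (dl P).natDegree < e + 1 := by
      rw [natDegree_lt_iff_degree_lt hdl0]
      calc (dl P).degree < P.degree := hlt
        _ = ((e + 1 : ℕ) : WithBot ℕ) := by rw [degree_eq_natDegree hP, hd]
    omega
  · rw [Nat.add_sub_cancel]
    exact le_natDegree_of_ne_zero hne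

theorem span_of_mem (W : Submodule K (ZMod p → K)) (hW : ∀ f ∈ W, (fun j => f (j - 1)) ∈ W) :
    ∀ d : ℕ, d < p → ∀ P : K[X], P.natDegree = d → P ≠ 0 → ev p K P ∈ W →
      ∀ Q : K[X], Q.natDegree ≤ d → ev p K Q ∈ W := by
  intro d
  induction d using Nat.strong_induction_on with
  | _ d ih =>
    intro hdp P hPd hP hPW Q hQ
    have ha : P.leadingCoeff ≠ 0 := leadingCoeff_ne_zero.mpr hP
    have hPc : P.coeff d = P.leadingCoeff := by rw [← hPd]; rfl
    obtain ⟨R, hR⟩ : ∃ R, R = Q - C (Q.coeff d / P.leadingCoeff) * P := ⟨_, rfl⟩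
    have hQR : Q = R + C (Q.coeff d / P.leadingCoeff) * P := by rw [hR]; ring
    have hRcoeff : R.coeff d = 0 := by
      rw [hR, coeff_sub, coeff_C_mul, hPc, div_mul_cancel₀ _ ha, sub_self]
    have hRd : R.natDegree ≤ d := by
      rw [hR]
      refine (natDegree_sub_le _ _).trans (max_le hQ ?_)
      exact (natDegree_C_mul_le _ _).trans (le_of_eq hPd)
    have hevQ : ev p K Q = ev p K R + (Q.coeff d / P.leadingCoeff) • ev p K P := by
      conv_lhs => rw [hQR]
      rw [map_add, ← smul_eq_C_mul, map_smul]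
    rw [hevQ]
    refine W.add_mem ?_ (W.smul_mem _ hPW)
    rcases Nat.eq_zero_or_pos d with hd0 | hdpos
    · have h0 : R = 0 := by
        have h1 : R.natDegree = 0 := by omega
        rw [eq_C_of_natDegree_eq_zero h1]
        rw [hd0] at hRcoeff
        rw [hRcoeff, C_0]
      rw [h0, map_zero]; exact W.zero_mem
    · obtain ⟨hdl0, hdld⟩ := natDegree_dl hPd hdpos hdp
      have hdlW : ev p K (dl P) ∈ W := by
        have h1 := hW _ hPW
        have h2 : ev p K (dl P) = (fun j => ev p K P (j - 1)) - ev p K P := by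
          funext j; rw [ev_dl]; rfl
        rw [h2]; exact W.sub_mem h1 hPW
      have hRd' : R.natDegree ≤ d - 1 := by
        by_contra hcon
        have h1 : R.natDegree = d := by omega
        have h2 : R.leadingCoeff = 0 := by rw [leadingCoeff, h1, hRcoeff]
        have h3 : R = 0 := leadingCoeff_eq_zero.mp h2
        rw [h3, natDegree_zero] at h1
        omega
      exact ih (d - 1) (by omega) (by omega) (dl P) hdld hdl0 hdlW R hRd'

omit [Fact p.Prime] [CharP K p] in
theorem natDegree_le_of_degree_lt_succ {Q : K[X]} {n : ℕ}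
    (h : Q.degree < ((n + 1 : ℕ) : WithBot ℕ)) : Q.natDegree ≤ n := by
  by_cases hQ : Q = 0
  · rw [hQ]; simp
  · have := (Polynomial.natDegree_lt_iff_degree_lt hQ).mpr h
    omega

theorem S0673_main (W : Submodule K (ZMod p → K)) (hW : ∀ f ∈ W, (fun j => f (j - 1)) ∈ W) :
    ∃ r : ℕ, r ≤ p ∧ Module.finrank K W = r ∧ ∀ f : ZMod p → K, f ∈ W ↔
      ∃ P : Polynomial K, P.degree < r ∧ ∀ j : ZMod p, f j = P.eval (ZMod.cast j : K) := by
  classical
  have hex : ∃ r : ℕ, r ≤ p ∧ ∀ f ∈ W, ∃ P : K[X], P.degree < (r : WithBot ℕ) ∧ f = ev p K P :=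
    ⟨p, le_rfl, fun f _ => lagrange f⟩
  obtain ⟨hrp, hWr⟩ := Nat.find_spec hex
  have hmin := fun m (hm : m < Nat.find hex) => Nat.find_min hex hm
  generalize Nat.find hex = r at hrp hWr hmin
  have hVW : ∀ Q : K[X], Q.degree < (r : WithBot ℕ) → ev p K Q ∈ W := by
    intro Q hQ
    rcases Nat.eq_zero_or_pos r with hr0 | hrpos
    · have hQ0 : Q = 0 := by
        rw [hr0] at hQ
        by_contra hne
        have := (Polynomial.natDegree_lt_iff_degree_lt hne).mpr hQ
        omega
      rw [hQ0, map_zero]; exact W.zero_mem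
    · obtain ⟨r', rfl⟩ : ∃ r', r = r' + 1 := ⟨r - 1, by omega⟩
      have hm := hmin r' (by omega)
      have hex' : ∃ f ∈ W, ∀ P : K[X], P.degree < (r' : WithBot ℕ) → f ≠ ev p K P := by
        by_contra hcon
        apply hm
        refine ⟨by omega, fun f hf => ?_⟩
        by_contra hcon2
        apply hcon
        refine ⟨f, hf, fun P hP hfP => hcon2 ⟨P, hP, hfP⟩⟩
      obtain ⟨f, hfW, hfn⟩ := hex'
      obtain ⟨P, hPd, hfP⟩ := hWr f hfW
      have hP0 : P ≠ 0 := by
        intro h
        apply hfn 0 (by rw [degree_zero]; exact WithBot.bot_lt_coe _)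
        rw [hfP, h]
      have hPn : P.natDegree = r' := by
        apply le_antisymm (natDegree_le_of_degree_lt_succ hPd)
        by_contra hlt
        exact hfn P ((Polynomial.natDegree_lt_iff_degree_lt hP0).mp (by omega)) hfP
      have hPW : ev p K P ∈ W := by rw [← hfP]; exact hfW
      exact span_of_mem W hW r' (by omega) P hPn hP0 hPW Q (natDegree_le_of_degree_lt_succ hQ)
  refine ⟨r, hrp, ?_, ?_⟩
  · -- dimension
    let φ : Polynomial.degreeLT K r →ₗ[K] W :=
      LinearMap.codRestrict W ((ev p K).comp (Polynomial.degreeLT K r).subtype)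
        (fun P => hVW P.1 (Polynomial.mem_degreeLT.mp P.2))
    have hinj : Function.Injective φ := by
      rw [← LinearMap.ker_eq_bot, LinearMap.ker_eq_bot']
      intro P hP
      have h1 : ev p K P.1 = 0 := congrArg Subtype.val hP
      have h2 : P.1.degree < (p : WithBot ℕ) :=
        lt_of_lt_of_le (Polynomial.mem_degreeLT.mp P.2) (by exact_mod_cast hrp)
      exact Subtype.ext (eq_zero_of_ev h2 h1)
    have hsurj : Function.Surjective φ := by
      intro w
      obtain ⟨P, hPd, hwP⟩ := hWr w.1 w.2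
      exact ⟨⟨P, Polynomial.mem_degreeLT.mpr hPd⟩, Subtype.ext hwP.symm⟩
    have e := LinearEquiv.ofBijective φ ⟨hinj, hsurj⟩
    rw [← e.finrank_eq, (Polynomial.degreeLTEquiv K r).finrank_eq, Module.finrank_fin_fun]
  · intro f
    constructor
    · intro hf
      obtain ⟨P, hPd, hfP⟩ := hWr f hf
      exact ⟨P, hPd, fun j => by rw [hfP]; rfl⟩
    · rintro ⟨P, hPd, hfP⟩
      have : f = ev p K P := funext fun j => by rw [hfP j]; rfl
      rw [this]; exact hVW P hPd

end Cfsg.Agent.Lib_helper2_Shift
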