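import Mathlib

set_option autoImplicit false

namespace Cfsg.Agent.Lib_helper2_Stab

variable {G : Type*} [Group G]

/-- Iterating a "twisted" conjugation: if `x h x⁻¹ = h k` and `x` commutes with `k`, then
`x^m h x^{-m} = h k^m`. -/
theorem conj_pow_eq (x h k : G) (hk : x * h * x⁻¹ = h * k) (hc : x * k = k * x) (m : ℕ) :
    x ^ m * h * (x ^ m)⁻¹ = h * k ^ m := by
  induction m with
  | zero => simp
  | succ m ih =>
    have h1 : x ^ (m + 1) * h * (x ^ (m + 1))⁻¹ = x * (x ^ m * h * (x ^ m)⁻¹) * x⁻¹ := by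
      rw [pow_succ']; group
    rw [h1, ih]
    have h2 : x * (h * k ^ m) * x⁻¹ = (x * h * x⁻¹) * (x * k ^ m * x⁻¹) := by group
    rw [h2, hk]
    have h3 : x * k ^ m * x⁻¹ = k ^ m := by
      have : Commute x (k ^ m) := (show Commute x k from hc).pow_right m
      rw [this.eq]; group
    rw [h3, pow_succ', mul_assoc]

/-- The basic coprime stability step: if `x h x⁻¹ = h k` with `k ∈ H` centralized by `x`, and the
order of `x` is coprime to `|H|`, then `x` centralizes `h`. -/
theorem comm_of_coprime_step [Finite G] (H : Subgroup G) (x h k : G) (hkH : k ∈ H)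
    (hk : x * h * x⁻¹ = h * k) (hc : x * k = k * x) (hcop : (orderOf x).Coprime (Nat.card H)) :
    x * h = h * x := by
  have h1 := conj_pow_eq x h k hk hc (orderOf x)
  rw [pow_orderOf_eq_one] at h1
  simp at h1
  -- h1 : k ^ orderOf x = 1
  have h2 : orderOf k ∣ orderOf x := orderOf_dvd_of_pow_eq_one h1
  have h3 : orderOf k ∣ Nat.card H := by
    have : orderOf (⟨k, hkH⟩ : H) ∣ Nat.card H := orderOf_dvd_natCard _
    rwa [Subgroup.orderOf_mk] at this
  have h4 : orderOf k = 1 := Nat.eq_one_of_dvd_coprimes hcop h2 h3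
  have h5 : k = 1 := orderOf_eq_one_iff.mp h4
  rw [h5, mul_one] at hk
  calc x * h = x * h * x⁻¹ * x := by group
    _ = h * x := by rw [hk]

/-- Stability: if `x` acts trivially on the factors of a chain `c 0 ≥ c 1 ≥ ... ≥ c n = 1`
(in the sense `h⁻¹ x h x⁻¹ ∈ c (i+1)` for `h ∈ c i`) and has order coprime to `|c 0|`, then `x`
centralizes `c 0`. -/
theorem centralizes_of_chain [Finite G] (n : ℕ) (c : Fin (n + 1) → Subgroup G)
    (hcn : c (Fin.last n) = ⊥) (hanti : Antitone c) (x : G)
    (hstep : ∀ i : Fin n, ∀ h ∈ c i.castSucc, h⁻¹ * (x * h * x⁻¹) ∈ c i.succ)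
    (hcop : (orderOf x).Coprime (Nat.card (c 0))) :
    ∀ h ∈ c 0, x * h = h * x := by
  have key : ∀ i : Fin (n + 1), ∀ h ∈ c i, x * h = h * x := by
    intro i
    induction i using Fin.reverseInduction with
    | last =>
      intro h hh
      rw [hcn, Subgroup.mem_bot] at hh
      rw [hh]; simp
    | cast i ih =>
      intro h hh
      have hk := hstep i h hh
      have hk0 : h⁻¹ * (x * h * x⁻¹) ∈ c 0 := hanti (Fin.zero_le _) hk
      exact comm_of_coprime_step (c 0) x h _ hk0 (by group) (ih _ hk) hcop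
  exact key 0

end Cfsg.Agent.Lib_helper2_Stab
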