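import Mathlib
import Cfsg.Prelude.Def_Local
import Cfsg.Agent.Lib_helper2_Comp2
import Cfsg.Agent.Lib_helper1_Basic

set_option autoImplicit false

namespace Cfsg.Agent.Lib_helper2_Std

open Cfsg Cfsg.Agent.Lib_helper2_Comp Cfsg.Agent.Lib_helper2_Comp2 Cfsg.Agent.Lib_helper5_Fitting
open scoped commutatorElement

/-- transport of "component of a subgroup" along an automorphism -/
theorem comp_subgroupOf_map {G : Type*} [Group G] (φ : G ≃* G) (H H' L : Subgroup G)
    (hH : H.map φ.toMonoidHom = H') (hLH : L ≤ H) (hL : IsComponent (L.subgroupOf H)) :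
    IsComponent ((L.map φ.toMonoidHom).subgroupOf H') := by
  subst hH
  have hinj : Function.Injective (φ.toMonoidHom.subgroupMap H) := by
    intro a b hab
    have := congrArg Subtype.val hab
    exact Subtype.ext (φ.injective this)
  have e : (L.subgroupOf H).map (φ.toMonoidHom.subgroupMap H) =
      (L.map φ.toMonoidHom).subgroupOf (H.map φ.toMonoidHom) := by
    ext ⟨z, hz⟩
    constructor
    · rintro ⟨w, hw, hwz⟩
      rw [Subgroup.mem_subgroupOf]
      exact ⟨w, Subgroup.mem_subgroupOf.mp hw, congrArg Subtype.val hwz⟩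
    · intro hz'
      rw [Subgroup.mem_subgroupOf] at hz'
      obtain ⟨l, hl, rfl⟩ := hz'
      exact ⟨⟨l, hLH hl⟩, Subgroup.mem_subgroupOf.mpr hl, Subtype.ext rfl⟩
  rw [← e]
  exact ⟨hL.1.map (φ.toMonoidHom.subgroupMap_surjective H),
    qs_of_mulEquiv ((L.subgroupOf H).equivMapOfInjective _ hinj) hL.2⟩

theorem centralizer_conj_map {G : Type*} [Group G] (g y : G) :
    (Subgroup.centralizer ({y} : Set G)).map (MulAut.conj g).toMonoidHom =
      Subgroup.centralizer {g * y * g⁻¹} := by
  ext z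
  constructor
  · rintro ⟨w, hw, rfl⟩
    have h1 : w * y = y * w := Subgroup.mem_centralizer_singleton_iff.mp hw
    apply Subgroup.mem_centralizer_singleton_iff.mpr
    show g * w * g⁻¹ * (g * y * g⁻¹) = g * y * g⁻¹ * (g * w * g⁻¹)
    calc g * w * g⁻¹ * (g * y * g⁻¹) = g * (w * y) * g⁻¹ := by group
      _ = g * (y * w) * g⁻¹ := by rw [h1]
      _ = g * y * g⁻¹ * (g * w * g⁻¹) := by group
  · intro hz
    have h1 : z * (g * y * g⁻¹) = g * y * g⁻¹ * z := Subgroup.mem_centralizer_singleton_iff.mp hz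
    refine ⟨g⁻¹ * z * g, ?_, ?_⟩
    · apply Subgroup.mem_centralizer_singleton_iff.mpr
      calc g⁻¹ * z * g * y = g⁻¹ * (z * (g * y * g⁻¹)) * g := by group
        _ = g⁻¹ * (g * y * g⁻¹ * z) * g := by rw [h1]
        _ = y * (g⁻¹ * z * g) := by group
    · show g * (g⁻¹ * z * g) * g⁻¹ = z
      group

/-- **S1306** -/
theorem standard_of_components {G : Type*} [Group G] [Finite G] (x : G) (hx : orderOf x = 2)
    (L : Subgroup G) (hLx : L ≤ Subgroup.centralizer ({x} : Set G))
    (hL : IsComponent (L.subgroupOf (Subgroup.centralizer ({x} : Set G))))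
    (hne : ∀ y : G, orderOf y = 2 → y ∈ Subgroup.centralizer (L : Set G) →
      L ≤ Subgroup.centralizer ({y} : Set G) ∧
        IsComponent (L.subgroupOf (Subgroup.centralizer ({y} : Set G))))
    (hnc : ∀ g : G, L.map (MulAut.conj g).toMonoidHom ≠ L →
      ⁅L, L.map (MulAut.conj g).toMonoidHom⁆ ≠ ⊥) : IsStandardSubgroup L := by
  haveI : Fact (Nat.Prime 2) := ⟨Nat.prime_two⟩
  have key : ∀ g : G, ∀ y : G, orderOf y = 2 → y ∈ Subgroup.centralizer (L : Set G) →
      y ∈ Subgroup.centralizer ((L.map (MulAut.conj g).toMonoidHom : Subgroup G) : Set G) →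
      L.map (MulAut.conj g).toMonoidHom = L := by
    intro g y hy hyL hyLg
    by_contra hne'
    obtain ⟨h1, h2⟩ := hne y hy hyL
    have hy' : orderOf (g⁻¹ * y * g) = 2 := by
      have e : g⁻¹ * y * g = (MulAut.conj g⁻¹) y := by simp
      rw [e, MulEquiv.orderOf_eq]; exact hy
    have hy'L : g⁻¹ * y * g ∈ Subgroup.centralizer (L : Set G) := by
      rw [Subgroup.mem_centralizer_iff]
      intro l hl
      have h := (Subgroup.mem_centralizer_iff.mp hyLg) (g * l * g⁻¹) ⟨l, hl, rfl⟩
      calc l * (g⁻¹ * y * g) = g⁻¹ * ((g * l * g⁻¹) * y) * g := by group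
        _ = g⁻¹ * (y * (g * l * g⁻¹)) * g := by rw [h]
        _ = g⁻¹ * y * g * l := by group
    obtain ⟨h3, h4⟩ := hne (g⁻¹ * y * g) hy' hy'L
    have hLgy : L.map (MulAut.conj g).toMonoidHom ≤ Subgroup.centralizer ({y} : Set G) := by
      intro m hm
      exact Subgroup.mem_centralizer_singleton_iff.mpr
        ((Subgroup.mem_centralizer_iff.mp hyLg) m hm)
    have hcm : (Subgroup.centralizer ({g⁻¹ * y * g} : Set G)).map (MulAut.conj g).toMonoidHom =
        Subgroup.centralizer {y} := by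
      have e : g * (g⁻¹ * y * g) * g⁻¹ = y := by group
      rw [centralizer_conj_map, e]
    have h5 : IsComponent ((L.map (MulAut.conj g).toMonoidHom).subgroupOf
        (Subgroup.centralizer ({y} : Set G))) :=
      comp_subgroupOf_map (MulAut.conj g) _ _ L hcm h3 h4
    rcases comp_eq_or_comm h2 h5 with h6 | h6
    · apply hne'
      have h7 := congrArg (Subgroup.map (Subgroup.centralizer ({y} : Set G)).subtype) h6
      rw [Subgroup.subgroupOf_map_subtype, Subgroup.subgroupOf_map_subtype,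
        inf_eq_left.mpr h1, inf_eq_left.mpr hLgy] at h7
      exact h7.symm
    · apply hnc g hne'
      apply comm_bot_of_elementwise
      intro l hl m hm
      have h7 := h6 ⟨l, h1 hl⟩ (Subgroup.mem_subgroupOf.mpr hl) ⟨m, hLgy hm⟩
        (Subgroup.mem_subgroupOf.mpr hm)
      exact congrArg Subtype.val h7
  have hxK : x ∈ Subgroup.centralizer (L : Set G) := by
    rw [Subgroup.mem_centralizer_iff]
    intro l hl
    exact Subgroup.mem_centralizer_singleton_iff.mp (hLx hl)
  have hnorm : ∀ g : G, L.map (MulAut.conj g).toMonoidHom = L →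
      g ∈ Subgroup.normalizer (L : Set G) := by
    intro g hg
    apply Cfsg.Agent.Lib_helper1_Basic.mem_normalizer_of_conj_le
    intro m hm
    rw [← hg]
    exact ⟨m, hm, rfl⟩
  refine ⟨qs_of_mulEquiv (Subgroup.subgroupOfEquivOfLe hLx) hL.2, ⟨?_, ?_⟩, hnc, ?_⟩
  · rw [even_iff_two_dvd, ← hx]
    exact Subgroup.orderOf_dvd_natCard _ hxK
  · intro g hg
    by_contra hodd
    rw [Nat.not_odd_iff_even, even_iff_two_dvd] at hodd
    obtain ⟨y, hy⟩ := exists_prime_orderOf_dvd_card' 2 hodd
    have hy2 : orderOf (y : G) = 2 := by rw [Subgroup.orderOf_coe]; exact hy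
    have hyK : (y : G) ∈ Subgroup.centralizer (L : Set G) := y.2.1
    have hyKg : (y : G) ∈ Subgroup.centralizer
        ((L.map (MulAut.conj g).toMonoidHom : Subgroup G) : Set G) := by
      obtain ⟨k, hk, hky⟩ := y.2.2
      rw [Subgroup.mem_centralizer_iff]
      rintro _ ⟨l, hl, rfl⟩
      have h1 : l * k = k * l := (Subgroup.mem_centralizer_iff.mp hk) l hl
      rw [← hky]
      show g * l * g⁻¹ * (g * k * g⁻¹) = g * k * g⁻¹ * (g * l * g⁻¹)
      calc g * l * g⁻¹ * (g * k * g⁻¹) = g * (l * k) * g⁻¹ := by group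
        _ = g * (k * l) * g⁻¹ := by rw [h1]
        _ = g * k * g⁻¹ * (g * l * g⁻¹) := by group
    exact hg (normalizer_le_normalizer_centralizer L (hnorm g (key g y hy2 hyK hyKg)))
  · apply le_antisymm (normalizer_le_normalizer_centralizer L)
    intro g hg
    apply hnorm g
    apply key g x hx hxK
    have h1 : g⁻¹ * x * g ∈ Subgroup.centralizer (L : Set G) :=
      (Subgroup.mem_normalizer_iff''.mp hg x).mp hxK
    rw [Subgroup.mem_centralizer_iff]
    rintro _ ⟨l, hl, rfl⟩
    have h2 : l * (g⁻¹ * x * g) = g⁻¹ * x * g * l := (Subgroup.mem_centralizer_iff.mp h1) l hl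
    show g * l * g⁻¹ * x = x * (g * l * g⁻¹)
    calc g * l * g⁻¹ * x = g * (l * (g⁻¹ * x * g)) * g⁻¹ := by group
      _ = g * (g⁻¹ * x * g * l) * g⁻¹ := by rw [h2]
      _ = x * (g * l * g⁻¹) := by group

end Cfsg.Agent.Lib_helper2_Std
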