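import Cfsg.Prelude.Def_Characters
import Cfsg.Prelude.Def_CharExt
import Cfsg.Agent.Lib_helper3_CharMore
import Cfsg.Agent.Lib_helper3_RepEquiv

set_option autoImplicit false
open Cfsg
open Cfsg.Agent.Lib_helper3_CharBasic Cfsg.Agent.Lib_helper3_CharMore

namespace Cfsg.Agent.Lib_helper3_Det

universe u v w

section Basic

variable {G : Type u} [Group G] [Finite G]

/-- The determinantal character can be computed from any representation affording the
character. -/
theorem detChar_of_rep {V : Type v} [AddCommGroup V] [Module ℂ V] [FiniteDimensional ℂ V]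
    (ρ : Representation ℂ G V) :
    detChar ρ.character = fun g => LinearMap.det (ρ g) := by
  have h : IsCharacter G ρ.character := isCharacter_of_rep ρ
  unfold detChar
  rw [dif_pos h]
  funext g
  have hspec := Classical.choose_spec (Classical.choose_spec h)
  obtain ⟨e⟩ := Cfsg.Agent.Lib_helper3_RepEquiv.equiv_of_char_eq
    (Classical.choose (Classical.choose_spec h)) ρ hspec
  have hconj : ρ g = e.toLinearEquiv.toLinearMap ∘ₗ
      ((Classical.choose (Classical.choose_spec h)) g) ∘ₗ e.toLinearEquiv.symm.toLinearMap := by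
    apply LinearMap.ext
    intro v
    have h1 := e.toIntertwiningMap.isIntertwining _ _ g (e.toLinearEquiv.symm v)
    simp only [LinearMap.comp_apply, LinearEquiv.coe_coe]
    have h2 : e.toLinearEquiv (e.toLinearEquiv.symm v) = v := LinearEquiv.apply_symm_apply _ _
    rw [← h2, LinearEquiv.symm_apply_apply]
    exact h1.symm
  rw [hconj, LinearMap.det_conj]

theorem exists_hom_detChar {χ : G → ℂ} (hχ : IsCharacter G χ) :
    ∃ δ : G →* ℂˣ, detChar χ = fun g => (δ g : ℂ) := by
  obtain ⟨k, ρ, rfl⟩ := hχ
  refine ⟨((LinearMap.det : ((Fin k → ℂ) →ₗ[ℂ] (Fin k → ℂ)) →* ℂ).comp ρ).toHomUnits, ?_⟩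
  rw [detChar_of_rep]
  rfl

/-- Twisting a representation by a linear character. -/
def twistRep {V : Type v} [AddCommGroup V] [Module ℂ V] (β : G →* ℂˣ)
    (ρ : Representation ℂ G V) : Representation ℂ G V where
  toFun g := (β g : ℂ) • ρ g
  map_one' := by simp
  map_mul' := fun g h => by rw [map_mul, map_mul, Units.val_mul, smul_mul_smul_comm]

theorem twistRep_apply {V : Type v} [AddCommGroup V] [Module ℂ V] (β : G →* ℂˣ)
    (ρ : Representation ℂ G V) (g : G) : twistRep β ρ g = (β g : ℂ) • ρ g := rfl

theorem twistRep_character {V : Type v} [AddCommGroup V] [Module ℂ V] (β : G →* ℂˣ)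
    (ρ : Representation ℂ G V) :
    (twistRep β ρ).character = fun g => (β g : ℂ) * ρ.character g := by
  funext g
  show LinearMap.trace ℂ V ((β g : ℂ) • ρ g) = _
  rw [map_smul, smul_eq_mul]
  rfl

theorem detChar_twist {χ : G → ℂ} (hχ : IsCharacter G χ) (β : G →* ℂˣ) (d : ℕ)
    (hd : χ 1 = d) :
    detChar (fun g => (β g : ℂ) * χ g) = fun g => (β g : ℂ) ^ d * detChar χ g := by
  obtain ⟨k, ρ, rfl⟩ := hχ
  have hk : Module.finrank ℂ (Fin k → ℂ) = d := by
    rw [Representation.char_one] at hd
    exact_mod_cast hd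
  rw [← twistRep_character, detChar_of_rep, detChar_of_rep]
  funext g
  rw [twistRep_apply, LinearMap.det_smul, hk]

theorem detChar_comp {H : Type w} [Group H] [Finite H] (f : H →* G) {χ : G → ℂ}
    (hχ : IsCharacter G χ) :
    detChar (fun h => χ (f h)) = fun h => detChar χ (f h) := by
  obtain ⟨k, ρ, rfl⟩ := hχ
  let σ : Representation ℂ H (Fin k → ℂ) := ρ.comp f
  have h1 : (fun h => ρ.character (f h)) = σ.character := rfl
  rw [h1, detChar_of_rep, detChar_of_rep]
  rfl

end Basic

end Cfsg.Agent.Lib_helper3_Det
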