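import Mathlib
import Cfsg.Prelude.Def_Characters
import Cfsg.Prelude.Def_CharExt
import Cfsg.Agent.Lib_helper3_AbInd
import Cfsg.Agent.Lib_helper3_Det
import Cfsg.Agent.Lib_helper3_CharIntegral

set_option autoImplicit false
open Cfsg
open Cfsg.Agent.Lib_helper3_CharBasic Cfsg.Agent.Lib_helper3_CharInd
  Cfsg.Agent.Lib_helper3_CharMore Cfsg.Agent.Lib_helper3_CharDiag
  Cfsg.Agent.Lib_helper3_CharNormal Cfsg.Agent.Lib_helper3_Clifford
  Cfsg.Agent.Lib_helper3_CliffCorr Cfsg.Agent.Lib_helper3_AbInd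

namespace Cfsg.Agent.Lib_helper3_AbInd2

open scoped ComplexConjugate

universe u

section TLevel

variable {T : Type u} [Group T] [Fintype T]

/-- If an invariant irreducible character of a normal subgroup with abelian quotient extends,
the induced character is multiplicity free. -/
theorem ind_abelian_quotient_ext (N : Subgroup T) [N.Normal] (ϑ : N → ℂ)
    (hϑ : IsIrrCharacter N ϑ) (hinv : ∀ t : T, conjFun N t ϑ = ϑ)
    (hab : ∀ x y : T, x * y * x⁻¹ * y⁻¹ ∈ N)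
    (ψ₀ : T → ℂ) (hψ₀ : IsIrrCharacter T ψ₀) (hres : ∀ n : N, ψ₀ n = ϑ n) :
    ∃ Ψ : Finset (T → ℂ), (∀ ψ ∈ Ψ, IsIrrCharacter T ψ) ∧
      (∀ ψ ∈ Ψ, classInner (indFun N ϑ) ψ ≠ 0) ∧ indFun N ϑ = ∑ ψ ∈ Ψ, ψ ∧
      (∀ ψ ∈ Ψ, ψ 1 = ϑ 1) ∧ Ψ.card * Nat.card N = Nat.card T := by
  classical
  have := Fintype.ofFinite N
  obtain ⟨e, Ψ, he, hΨirr, hΨne, hdecomp, hdeg, hcount⟩ := ind_abelian_quotient N ϑ hϑ hinv hab
  have hne : Ψ.Nonempty := by
    by_contra h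
    rw [Finset.not_nonempty_iff_eq_empty] at h
    rw [h] at hcount
    simp only [Finset.card_empty, mul_zero, zero_mul] at hcount
    exact (Nat.card_pos (α := T)).ne' hcount.symm
  obtain ⟨ψ, hψ⟩ := hne
  have h1 := restrict_eq_of_const N hab ϑ hψ₀ (hΨirr ψ hψ) 1
    (by funext n; simp [hres n]) (hΨne ψ hψ) one_ne_zero
  have hϑ1 : ϑ 1 ≠ 0 := irr_apply_one_ne_zero hϑ
  have he1 : e = 1 := by
    have h2 := hdeg ψ hψ
    have h3 : ψ 1 = ϑ 1 := by
      have h4 := h1 1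
      have h5 := hres 1
      simp only [Subgroup.coe_one] at h4 h5
      rw [h4, h5]
    rw [h3] at h2
    have h6 : (e : ℂ) = 1 := by
      have h7 : (1 : ℂ) * ϑ 1 = (e : ℂ) * ϑ 1 := by rw [one_mul]; exact h2
      exact (mul_right_cancel₀ hϑ1 h7).symm
    exact_mod_cast h6
  subst he1
  refine ⟨Ψ, hΨirr, hΨne, by simpa using hdecomp, by simpa using hdeg, by simpa using hcount⟩

end TLevel

section GLevel

variable {G : Type u} [Group G] [Fintype G]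

/-- Induction of an irreducible character of a normal subgroup whose inertia group has abelian
quotient, when the character extends to its inertia group. -/
theorem ind_abelian_inertia_ext (H T : Subgroup G)
    [hN : H.Normal] (θ : H → ℂ) (hθ : IsIrrCharacter H θ)
    (hT : ∀ g : G, g ∈ T ↔ conjFun H g θ = θ)
    (hab : ∀ x ∈ T, ∀ y ∈ T, x * y * x⁻¹ * y⁻¹ ∈ H)
    (hext : ∃ ψ₀ : T → ℂ, IsIrrCharacter T ψ₀ ∧ ∀ x : H.subgroupOf T,
      ψ₀ x = θ ⟨(x : T), Subgroup.mem_subgroupOf.mp x.2⟩) :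
    ∃ (C : Finset (G → ℂ)), (∀ χ ∈ C, IsIrrCharacter G χ) ∧
      C.card * Nat.card H = Nat.card T ∧ indFun H θ = ∑ χ ∈ C, χ ∧
      ∀ χ ∈ C, χ 1 = (T.index : ℂ) * θ 1 := by
  classical
  have := Fintype.ofFinite H
  have := Fintype.ofFinite T
  have hHT : H ≤ T := fun x hx => (hT x).2 (conjFun_of_mem H (isClassFunction_of_irr hθ) hx)
  let N : Subgroup T := H.subgroupOf T
  have hNn : N.Normal := inferInstance
  let eH : N ≃* H := Subgroup.subgroupOfEquivOfLe hHT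
  let ϑ : N → ℂ := fun x => θ ⟨(x : T), Subgroup.mem_subgroupOf.mp x.2⟩
  have hϑ : IsIrrCharacter N ϑ := isIrrCharacter_comp_mulEquiv' eH hθ
  have hinv : ∀ t : T, conjFun N t ϑ = ϑ := by
    intro t
    have h1 := (hT t).1 t.2
    funext x
    exact congrFun h1 (eH x)
  have hab' : ∀ x y : T, x * y * x⁻¹ * y⁻¹ ∈ N := by
    intro x y
    exact Subgroup.mem_subgroupOf.mpr (hab x x.2 y y.2)
  obtain ⟨ψ₀, hψ₀, hres⟩ := hext
  obtain ⟨Ψ, hΨirr, hΨne, hdecomp, hdeg, hcount⟩ :=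
    ind_abelian_quotient_ext N ϑ hϑ hinv hab' ψ₀ hψ₀ hres
  have hinner : ∀ ψ₁ ∈ Ψ, ∀ ψ₂ ∈ Ψ,
      classInner (indFun T ψ₁) (indFun T ψ₂) = if ψ₁ = ψ₂ then 1 else 0 := by
    intro ψ₁ h₁ ψ₂ h₂
    exact Cfsg.Agent.Lib_helper3_CliffCorr2.clifford_ind_inner H T θ hθ hT hHT ψ₁ ψ₂
      (hΨirr ψ₁ h₁) (hΨirr ψ₂ h₂) (hΨne ψ₁ h₁) (hΨne ψ₂ h₂)
  have hinj : Set.InjOn (indFun T) (Ψ : Set (T → ℂ)) := by
    intro ψ₁ h₁ ψ₂ h₂ h
    have h3 := hinner ψ₁ h₁ ψ₂ h₂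
    rw [← h, hinner ψ₁ h₁ ψ₁ h₁, if_pos rfl] at h3
    by_contra hcon
    rw [if_neg hcon] at h3
    exact one_ne_zero h3
  refine ⟨Ψ.image (indFun T), ?_, ?_, ?_, ?_⟩
  · intro χ hχ
    obtain ⟨ψ, hψ, rfl⟩ := Finset.mem_image.1 hχ
    apply isIrrCharacter_of_inner_self_eq_one
      (isCharacter_indFun T (isCharacter_of_irr (hΨirr ψ hψ)))
    rw [hinner ψ hψ ψ hψ, if_pos rfl]
  · rw [Finset.card_image_of_injOn hinj, ← hcount, Nat.card_congr eH.toEquiv]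
  · rw [← indFun_trans H T hHT θ]
    show indFun T (indFun N ϑ) = _
    rw [hdecomp, indFun_sum, Finset.sum_image hinj]
  · intro χ hχ
    obtain ⟨ψ, hψ, rfl⟩ := Finset.mem_image.1 hχ
    rw [indFun_apply_one, hdeg ψ hψ]
    rfl

/-- The determinantal order of a character divides the group order. -/
theorem detOrder_dvd_card {χ : G → ℂ} (hχ : IsCharacter G χ) : detOrder χ ∣ Nat.card G := by
  obtain ⟨δ, hδ⟩ := Cfsg.Agent.Lib_helper3_Det.exists_hom_detChar hχ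
  unfold detOrder
  apply orderOf_dvd_of_pow_eq_one
  rw [hδ]
  funext g
  show ((δ g : ℂˣ) : ℂ) ^ Nat.card G = 1
  rw [← Units.val_pow_eq_pow_val, ← map_pow, pow_card_eq_one', map_one, Units.val_one]

/-- The degree of an irreducible character divides the group order. -/
theorem degree_dvd_card {χ : G → ℂ} (hχ : IsIrrCharacter G χ) (d : ℕ) (hd : χ 1 = d) :
    d ∣ Nat.card G := by
  obtain ⟨n, ρ, hirr, rfl⟩ := hχ
  have h1 := Cfsg.Agent.Lib_helper3_CharIntegral.finrank_dvd_card ρ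
  have h2 : ρ.character 1 = (Module.finrank ℂ (Fin n → ℂ) : ℂ) := Representation.char_one ρ
  rw [h2] at hd
  have h3 : Module.finrank ℂ (Fin n → ℂ) = d := by exact_mod_cast hd
  rw [← h3]
  exact h1

end GLevel

end Cfsg.Agent.Lib_helper3_AbInd2
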