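import Mathlib
import Cfsg.Prelude.Def_Solvable

set_option autoImplicit false

namespace Cfsg.Agent.Lib_helper3_AugNil

open MonoidAlgebra
open scoped IsMulCommutative

universe u v w

section Ker

variable (F : Type v) [Field F] {G : Type u} [Group G] {H : Type w} [Group H]

/-- The kernel of the map of group algebras induced by a group homomorphism, as a subspace. -/
noncomputable def kerSub (φ : G →* H) : Submodule F (MonoidAlgebra F G) :=
  LinearMap.ker (mapDomainAlgHom F F φ).toLinearMap

theorem mem_kerSub (φ : G →* H) (a : MonoidAlgebra F G) :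
    a ∈ kerSub F φ ↔ mapDomain φ a = 0 := by
  unfold kerSub
  rw [LinearMap.mem_ker]
  rfl

end Ker

section Base

variable (F : Type v) [Field F] {G : Type u} [Group G]
variable (Z : Subgroup G) [Z.Normal] [IsMulCommutative Z]

/-- The ideal of the group algebra of `Z` generated by the elements `z - 1`. -/
noncomputable def augI : Ideal (MonoidAlgebra F Z) :=
  Ideal.span (Set.range fun z : Z => (single z (1 : F) - 1 : MonoidAlgebra F Z))

/-- Conjugation by `h` on the group algebra of the normal subgroup `Z`. -/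
noncomputable def conjAlg (h : G) : MonoidAlgebra F Z →+* MonoidAlgebra F Z :=
  mapDomainRingHom F (MulAut.conjNormal h : Z ≃* Z).toMonoidHom

theorem conjAlg_single (h : G) (z : Z) (r : F) :
    conjAlg F Z h (single z r) = single (MulAut.conjNormal h z) r := by
  unfold conjAlg
  simp

/-- The inclusion of group algebras. -/
noncomputable def incl : MonoidAlgebra F Z →+* MonoidAlgebra F G :=
  mapDomainRingHom F Z.subtype

theorem incl_single (z : Z) (r : F) : incl F Z (single z r) = single (z : G) r := by
  unfold incl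
  simp

theorem single_mul_incl (h : G) (b : MonoidAlgebra F Z) :
    single h (1 : F) * incl F Z b = incl F Z (conjAlg F Z h b) * single h (1 : F) := by
  induction b using MonoidAlgebra.induction_linear with
  | zero => simp
  | add x y hx hy => rw [map_add, mul_add, hx, hy, map_add, map_add, add_mul]
  | single z r =>
    rw [incl_single, conjAlg_single, incl_single, single_mul_single, single_mul_single,
      MulAut.conjNormal_apply]
    congr 1
    · group
    · ring

theorem conjAlg_mem_augI_pow (h : G) (k : ℕ) {b : MonoidAlgebra F Z} (hb : b ∈ augI F Z ^ k) :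
    conjAlg F Z h b ∈ augI F Z ^ k := by
  have hle : augI F Z ≤ (augI F Z).comap (conjAlg F Z h) := by
    unfold augI
    rw [Ideal.span_le]
    rintro _ ⟨z, rfl⟩
    show conjAlg F Z h (single z (1 : F) - 1) ∈
      Ideal.span (Set.range fun z : Z => (single z (1 : F) - 1 : MonoidAlgebra F Z))
    rw [map_sub, map_one, conjAlg_single]
    exact Ideal.subset_span ⟨_, rfl⟩
  have h1 := Ideal.pow_right_mono hle k
  have h2 := Ideal.le_comap_pow (conjAlg F Z h) (K := augI F Z) k
  exact h2 (h1 hb)

/-- The filtration of the group algebra of `G` by powers of the ideal `augI`. -/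
noncomputable def filt (k : ℕ) : Submodule F (MonoidAlgebra F G) :=
  Submodule.span F {x | ∃ b ∈ augI F Z ^ k, ∃ g : G, x = incl F Z b * single g (1 : F)}

theorem filt_mul (k l : ℕ) : filt F Z k * filt F Z l ≤ filt F Z (k + l) := by
  unfold filt
  rw [Submodule.span_mul_span, Submodule.span_le]
  rintro _ ⟨_, ⟨c, hc, h, rfl⟩, _, ⟨b, hb, g, rfl⟩, rfl⟩
  apply Submodule.subset_span
  refine ⟨c * conjAlg F Z h b, ?_, h * g, ?_⟩
  · rw [pow_add]
    exact Ideal.mul_mem_mul hc (conjAlg_mem_augI_pow F Z h l hb)
  · show incl F Z c * single h (1 : F) * (incl F Z b * single g (1 : F)) = _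
    rw [map_mul, mul_assoc, ← mul_assoc (single h (1 : F)), single_mul_incl, mul_assoc,
      single_mul_single, mul_one, mul_assoc]

theorem filt_eq_bot {N : ℕ} (hN : augI F Z ^ N = ⊥) : filt F Z N = ⊥ := by
  unfold filt
  rw [hN, eq_bot_iff, Submodule.span_le]
  rintro _ ⟨b, hb, g, rfl⟩
  rw [Ideal.mem_bot] at hb
  rw [hb, map_zero, zero_mul]
  exact Submodule.zero_mem _

theorem sub_section_mem_filt (a : MonoidAlgebra F G) :
    a - mapDomain (Quotient.out : G ⧸ Z → G) (mapDomain (QuotientGroup.mk : G → G ⧸ Z) a) ∈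
      filt F Z 1 := by
  induction a using MonoidAlgebra.induction_linear with
  | zero =>
    rw [mapDomain_zero, mapDomain_zero, sub_zero]
    exact Submodule.zero_mem _
  | add x y hx hy =>
    rw [mapDomain_add, mapDomain_add, add_sub_add_comm]
    exact Submodule.add_mem _ hx hy
  | single g r =>
    rw [mapDomain_single, mapDomain_single]
    obtain ⟨g', hg'⟩ : ∃ g' : G, g' = Quotient.out (QuotientGroup.mk g : G ⧸ Z) := ⟨_, rfl⟩
    rw [← hg']
    have hmk : (QuotientGroup.mk g' : G ⧸ Z) = QuotientGroup.mk g := by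
      rw [hg']
      exact Quotient.out_eq _
    have hz : g * g'⁻¹ ∈ Z := by
      have h1 : g'⁻¹ * g ∈ Z := QuotientGroup.eq.mp hmk
      have h2 := (inferInstance : Z.Normal).conj_mem _ h1 g'
      have h3 : g' * (g'⁻¹ * g) * g'⁻¹ = g * g'⁻¹ := by group
      rwa [h3] at h2
    have h4 : (single g r - single g' r : MonoidAlgebra F G) =
        r • (incl F Z (single (⟨g * g'⁻¹, hz⟩ : Z) (1 : F) - 1) * single g' (1 : F)) := by
      rw [map_sub, map_one, incl_single, sub_mul, one_mul, single_mul_single, smul_sub,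
        smul_single, smul_single]
      simp
    rw [h4]
    apply Submodule.smul_mem
    apply Submodule.subset_span
    refine ⟨_, ?_, g', rfl⟩
    rw [pow_one]
    exact Ideal.subset_span ⟨_, rfl⟩

theorem kerSub_le_filt : kerSub F (QuotientGroup.mk' Z) ≤ filt F Z 1 := by
  intro a ha
  rw [mem_kerSub] at ha
  have h := sub_section_mem_filt F Z a
  have h1 : mapDomain (QuotientGroup.mk : G → G ⧸ Z) a = 0 := ha
  rwa [h1, mapDomain_zero, sub_zero] at h

theorem kerSub_pow_le_filt (k : ℕ) : kerSub F (QuotientGroup.mk' Z) ^ (k + 1) ≤ filt F Z (k + 1) := by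
  induction k with
  | zero =>
    rw [zero_add, pow_one]
    exact kerSub_le_filt F Z
  | succ k ih =>
    rw [pow_succ]
    exact le_trans (mul_le_mul' ih (kerSub_le_filt F Z)) (filt_mul F Z (k + 1) 1)

theorem augI_nilpotent [Finite G] (p : ℕ) [Fact p.Prime] [CharP F p] (hZ : IsPGroup p Z) :
    ∃ N : ℕ, augI F Z ^ N = ⊥ := by
  have hfg : (augI F Z).FG := Submodule.fg_span (Set.finite_range _)
  have hch : CharP (MonoidAlgebra F Z) p :=
    charP_of_injective_algebraMap (algebraMap F (MonoidAlgebra F Z)).injective p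
  have hle : augI F Z ≤ nilradical (MonoidAlgebra F Z) := by
    unfold augI
    rw [Ideal.span_le]
    rintro _ ⟨z, rfl⟩
    obtain ⟨m, hm⟩ := IsPGroup.iff_card.mp hZ
    show IsNilpotent _
    refine ⟨p ^ m, ?_⟩
    rw [sub_pow_char_pow, one_pow, single_pow, one_pow, ← hm, pow_card_eq_one', one_def,
      sub_self]
  obtain ⟨N, hN⟩ := hfg.isNilpotent_iff_le_nilradical.mpr hle
  exact ⟨N, hN⟩

/-- The kernel of the map of group algebras modulo a commutative normal `p`-subgroup is a
nilpotent subspace, in characteristic `p`. -/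
theorem kerSub_nilpotent_base [Finite G] (p : ℕ) [Fact p.Prime] [CharP F p] (hZ : IsPGroup p Z) :
    ∃ N : ℕ, kerSub F (QuotientGroup.mk' Z) ^ N = ⊥ := by
  obtain ⟨N, hN⟩ := augI_nilpotent F Z p hZ
  refine ⟨N + 1, ?_⟩
  rw [eq_bot_iff]
  refine le_trans (kerSub_pow_le_filt F Z N) ?_
  rw [filt_eq_bot F Z (N := N + 1) (by rw [pow_succ, hN, Ideal.bot_mul])]

end Base

section General

variable (F : Type v) [Field F] (p : ℕ) [Fact p.Prime] [CharP F p] {H : Type w} [Group H]

theorem kerSub_nilpotent_aux (n : ℕ) : ∀ (G : Type u) [Group G] [Finite G] (φ : G →* H),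
    IsPGroup p φ.ker → Nat.card G = n → ∃ N : ℕ, kerSub F φ ^ N = ⊥ := by
  induction n using Nat.strong_induction_on with
  | _ n ih =>
    intro G _ _ φ hφ hn
    by_cases hk : φ.ker = ⊥
    · refine ⟨1, ?_⟩
      rw [pow_one, eq_bot_iff]
      intro a ha
      rw [mem_kerSub] at ha
      have hinj : Function.Injective φ := (MonoidHom.ker_eq_bot_iff φ).mp hk
      have h1 := mapDomain_injective (R := F) hinj
      rw [Submodule.mem_bot]
      apply h1
      rw [ha, mapDomain_zero]
    · have hnt : Nontrivial φ.ker := (Subgroup.nontrivial_iff_ne_bot _).mpr hk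
      have hcn : Nontrivial (Subgroup.center φ.ker) := IsPGroup.center_nontrivial hφ
      obtain ⟨Z, hZdef⟩ : ∃ Z : Subgroup G, Z = (Subgroup.center φ.ker).map φ.ker.subtype :=
        ⟨_, rfl⟩
      have hZn : Z.Normal := by
        rw [hZdef]
        exact ConjAct.normal_of_characteristic_of_normal
      have hZc : IsMulCommutative Z := by
        rw [hZdef]
        infer_instance
      have hZle : Z ≤ φ.ker := by
        rw [hZdef]
        exact Subgroup.map_subtype_le _
      have hZp : IsPGroup p Z := hφ.to_le hZle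
      have hZne : Z ≠ ⊥ := by
        intro h
        rw [hZdef, Subgroup.map_eq_bot_iff_of_injective _ (Subgroup.subtype_injective _)] at h
        exact (Subgroup.nontrivial_iff_ne_bot _).mp hcn h
      obtain ⟨φ', hφ'def⟩ : ∃ φ' : G ⧸ Z →* H, φ' = QuotientGroup.lift Z φ hZle := ⟨_, rfl⟩
      have hcomp : φ'.comp (QuotientGroup.mk' Z) = φ := by
        rw [hφ'def]
        exact MonoidHom.ext fun x => rfl
      have hφ' : IsPGroup p φ'.ker := by
        rintro ⟨x', hx'⟩
        obtain ⟨x, rfl⟩ := QuotientGroup.mk_surjective x'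
        have hx : x ∈ φ.ker := by
          rw [MonoidHom.mem_ker, ← hcomp]
          exact hx'
        obtain ⟨k, hk⟩ := hφ ⟨x, hx⟩
        refine ⟨k, ?_⟩
        apply Subtype.ext
        show (QuotientGroup.mk x : G ⧸ Z) ^ p ^ k = 1
        rw [← QuotientGroup.mk_pow]
        have h1 : x ^ p ^ k = 1 := congrArg Subtype.val hk
        rw [h1]
        rfl
      have hcard : Nat.card (G ⧸ Z) < n := by
        rw [← hn, Subgroup.card_eq_card_quotient_mul_card_subgroup Z]
        have h1 : 1 < Nat.card Z := (Subgroup.one_lt_card_iff_ne_bot Z).mpr hZne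
        have h2 : 0 < Nat.card (G ⧸ Z) := Nat.card_pos
        nlinarith
      obtain ⟨N', hN'⟩ := ih _ hcard (G ⧸ Z) φ' hφ' rfl
      obtain ⟨N₀, hN₀⟩ := kerSub_nilpotent_base F Z p hZp
      refine ⟨N' * N₀, ?_⟩
      have hle : kerSub F φ ^ N' ≤ kerSub F (QuotientGroup.mk' Z) := by
        intro a ha
        rw [mem_kerSub]
        have h1 : Submodule.map (mapDomainAlgHom F F (QuotientGroup.mk' Z)).toLinearMap
            (kerSub F φ) ≤ kerSub F φ' := by
          rintro _ ⟨b, hb, rfl⟩
          have hb' : mapDomain φ b = 0 := (mem_kerSub F φ b).mp hb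
          rw [mem_kerSub]
          show mapDomainRingHom F φ' (mapDomainRingHom F (QuotientGroup.mk' Z) b) = 0
          rw [← RingHom.comp_apply, ← mapDomainRingHom_comp, hcomp]
          exact hb'
        have h2 : (mapDomainAlgHom F F (QuotientGroup.mk' Z)).toLinearMap a ∈
            (Submodule.map (mapDomainAlgHom F F (QuotientGroup.mk' Z)).toLinearMap
              (kerSub F φ)) ^ N' := by
          rw [← Submodule.map_pow]
          exact Submodule.mem_map_of_mem ha
        have h3 := pow_le_pow_left' h1 N' h2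
        rw [hN'] at h3
        exact (Submodule.mem_bot F).mp h3
      rw [pow_mul, eq_bot_iff, ← hN₀]
      exact pow_le_pow_left' hle N₀

/-- The kernel of the map of group algebras induced by a homomorphism with `p`-group kernel is
a nilpotent subspace, in characteristic `p`. -/
theorem kerSub_nilpotent {G : Type u} [Group G] [Finite G] (φ : G →* H)
    (hφ : IsPGroup p φ.ker) : ∃ N : ℕ, kerSub F φ ^ N = ⊥ :=
  kerSub_nilpotent_aux F p _ G φ hφ rfl

end General

section ClassSum

variable (F : Type v) [Field F] (p : ℕ) [Fact p.Prime] [CharP F p] {G : Type u} [Group G]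
  [Finite G]

theorem pCore_normal : (Cfsg.pCore p G).Normal :=
  Subgroup.sSup_normal _ (fun _ h => h.1)

theorem isPGroup_pCore : IsPGroup p (Cfsg.pCore p G) := by
  obtain ⟨Q⟩ : Nonempty (Sylow p G) := inferInstance
  refine Q.2.to_le (sSup_le ?_)
  rintro N ⟨hN, hNp⟩
  have := hN
  exact hNp.le_sylow_of_normal Q

/-- The number of elements of a class in a fixed coset of a normal `p`-subgroup is divisible by
`p` when no element of the class centralizes the subgroup. -/
theorem dvd_card_class_coset (P : Subgroup G) [P.Normal] (hP : IsPGroup p P) (g : G)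
    (hg : ∀ x : G, IsConj g x → x ∉ Subgroup.centralizer (P : Set G)) (q : G ⧸ P) :
    p ∣ Nat.card {x : G // IsConj g x ∧ (QuotientGroup.mk x : G ⧸ P) = q} := by
  let _ : MulAction P {x : G // IsConj g x ∧ (QuotientGroup.mk x : G ⧸ P) = q} :=
    { smul := fun u x => ⟨(u : G) * x.1 * (u : G)⁻¹, by
        refine ⟨?_, ?_⟩
        · exact x.2.1.trans (isConj_iff.mpr ⟨u, rfl⟩)
        · rw [QuotientGroup.mk_mul, QuotientGroup.mk_mul, QuotientGroup.mk_inv,
            (QuotientGroup.eq_one_iff (u : G)).mpr u.2, one_mul, inv_one, mul_one]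
          exact x.2.2⟩
      one_smul := fun x => Subtype.ext (by
        show ((1 : P) : G) * x.1 * ((1 : P) : G)⁻¹ = x.1
        simp)
      mul_smul := fun u v x => Subtype.ext (by
        show ((u * v : P) : G) * x.1 * ((u * v : P) : G)⁻¹ =
          (u : G) * ((v : G) * x.1 * (v : G)⁻¹) * (u : G)⁻¹
        simp [mul_assoc]) }
  have h1 := hP.card_modEq_card_fixedPoints
    {x : G // IsConj g x ∧ (QuotientGroup.mk x : G ⧸ P) = q}
  have h2 : IsEmpty (MulAction.fixedPoints P
      {x : G // IsConj g x ∧ (QuotientGroup.mk x : G ⧸ P) = q}) := by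
    refine ⟨fun ⟨x, hx⟩ => hg x.1 x.2.1 ?_⟩
    rw [Subgroup.mem_centralizer_iff]
    intro u hu
    have h3 := congrArg Subtype.val (hx ⟨u, hu⟩)
    have h4 : u * x.1 * u⁻¹ = x.1 := h3
    rw [mul_inv_eq_iff_eq_mul] at h4
    exact h4
  have h5 : Nat.card (MulAction.fixedPoints P
      {x : G // IsConj g x ∧ (QuotientGroup.mk x : G ⧸ P) = q}) = 0 := Nat.card_of_isEmpty
  rw [h5] at h1
  exact (Nat.modEq_zero_iff_dvd).mp h1

theorem classSum_mem_kerSub [Fintype G] (P : Subgroup G) [P.Normal] (hP : IsPGroup p P) (g : G)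
    (hg : ∀ x : G, IsConj g x → x ∉ Subgroup.centralizer (P : Set G)) :
    (∑ᶠ x ∈ ConjClasses.carrier (ConjClasses.mk g), single x (1 : F) : MonoidAlgebra F G) ∈
      kerSub F (QuotientGroup.mk' P) := by
  classical
  have hsum : (∑ᶠ x ∈ ConjClasses.carrier (ConjClasses.mk g), single x (1 : F) :
      MonoidAlgebra F G) = ∑ x : G, if IsConj g x then single x (1 : F) else 0 := by
    rw [finsum_mem_def, finsum_eq_sum_of_fintype]
    apply Finset.sum_congr rfl
    intro x _
    rw [Set.indicator_apply]
    apply if_congr _ rfl rfl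
    rw [ConjClasses.mem_carrier_iff_mk_eq, ConjClasses.mk_eq_mk_iff_isConj, isConj_comm]
  rw [hsum, mem_kerSub]
  have h1 : mapDomain (QuotientGroup.mk' P) (∑ x : G, if IsConj g x then single x (1 : F) else 0)
      = ∑ x : G, if IsConj g x then single (QuotientGroup.mk x : G ⧸ P) (1 : F) else 0 := by
    show mapDomainRingHom F (QuotientGroup.mk' P) _ = _
    rw [map_sum]
    apply Finset.sum_congr rfl
    intro x _
    split_ifs with h
    · exact mapDomain_single
    · exact map_zero _
  rw [h1]
  apply coeff_injective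
  ext q
  rw [coeff_sum, Finsupp.finsetSum_apply, coeff_zero, Finsupp.zero_apply]
  have h2 : ∀ x : G, (if IsConj g x then single (QuotientGroup.mk x : G ⧸ P) (1 : F) else 0 :
      MonoidAlgebra F (G ⧸ P)).coeff q =
      if IsConj g x ∧ (QuotientGroup.mk x : G ⧸ P) = q then 1 else 0 := by
    intro x
    by_cases hc : IsConj g x
    · rw [if_pos hc, coeff_single, Finsupp.single_apply]
      exact if_congr ⟨fun h => ⟨hc, h⟩, fun h => h.2⟩ rfl rfl
    · rw [if_neg hc, if_neg (fun h => hc h.1)]
      rfl
  rw [Finset.sum_congr rfl (fun x _ => h2 x), Finset.sum_boole]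
  have h3 := dvd_card_class_coset p P hP g hg q
  rw [Nat.card_eq_fintype_card, Fintype.card_subtype] at h3
  exact (CharP.cast_eq_zero_iff F p _).mpr h3

/-- The class sum of an element no conjugate of which centralizes a normal `p`-subgroup is
nilpotent in the group algebra, in characteristic `p`. -/
theorem classSum_nilpotent (P : Subgroup G) [P.Normal] (hP : IsPGroup p P) (g : G)
    (hg : ∀ x : G, IsConj g x → x ∉ Subgroup.centralizer (P : Set G)) :
    IsNilpotent (∑ᶠ x ∈ ConjClasses.carrier (ConjClasses.mk g), single x (1 : F) :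
      MonoidAlgebra F G) := by
  classical
  have := Fintype.ofFinite G
  have hker : IsPGroup p (QuotientGroup.mk' P).ker := by
    rw [QuotientGroup.ker_mk']
    exact hP
  obtain ⟨N, hN⟩ := kerSub_nilpotent F p (QuotientGroup.mk' P) hker
  refine ⟨N, ?_⟩
  have h1 := Submodule.pow_mem_pow _ (classSum_mem_kerSub F p P hP g hg) N
  rw [hN] at h1
  exact (Submodule.mem_bot F).mp h1

end ClassSum

end Cfsg.Agent.Lib_helper3_AugNil
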