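import Mathlib
import Cfsg.Prelude.Def_Characters
import Cfsg.Prelude.Def_Blocks
import Cfsg.Agent.Lib_helper3_Local2
import Cfsg.Agent.Lib_helper3_BlockAlg
import Cfsg.Agent.Lib_helper3_AugNil

set_option autoImplicit false
open Cfsg
open Cfsg.Agent.Lib_helper3_Local Cfsg.Agent.Lib_helper3_Local2 Cfsg.Agent.Lib_helper3_BlockAlg
open Cfsg.Agent.Lib_helper3_CharBasic Cfsg.Agent.Lib_helper3_CharMore
open Cfsg.Agent.Lib_helper3_AugNil

namespace Cfsg.Agent.Lib_helper3_Residue

attribute [local instance] Ideal.Quotient.field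

universe u

section Res

variable (M : Ideal AlgInt) [hMm : M.IsMaximal]

/-- The residue of a complex number in the residue field of `M` (zero outside the local
ring). -/
noncomputable def res (z : ℂ) : AlgInt ⧸ M :=
  open Classical in
  if h : MemLocalRing M z then
    Ideal.Quotient.mk M (Classical.choose h) *
      (Ideal.Quotient.mk M (Classical.choose (Classical.choose_spec h)))⁻¹
  else 0

variable {M}

theorem mk_ne_zero {b : AlgInt} (hb : b ∉ M) : Ideal.Quotient.mk M b ≠ 0 := by
  intro h
  exact hb (Ideal.Quotient.eq_zero_iff_mem.mp h)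

theorem res_div (a : AlgInt) {b : AlgInt} (hb : b ∉ M) :
    res M ((a : ℂ) / (b : ℂ)) = Ideal.Quotient.mk M a * (Ideal.Quotient.mk M b)⁻¹ := by
  have h : MemLocalRing M ((a : ℂ) / (b : ℂ)) := ⟨a, b, hb, rfl⟩
  unfold res
  rw [dif_pos h]
  obtain ⟨hb', heq⟩ := Classical.choose_spec (Classical.choose_spec h)
  have h1 := coe_ne_zero_of_not_mem hb
  have h2 := coe_ne_zero_of_not_mem hb'
  have h3 : Classical.choose h * b = a * Classical.choose (Classical.choose_spec h) := by
    apply Subtype.ext
    push_cast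
    exact (div_eq_div_iff h2 h1).mp heq
  have h4 := congrArg (Ideal.Quotient.mk M) h3
  rw [map_mul, map_mul] at h4
  rw [← div_eq_mul_inv, ← div_eq_mul_inv, div_eq_div_iff (mk_ne_zero hb') (mk_ne_zero hb)]
  exact h4

theorem res_coe (a : AlgInt) : res M (a : ℂ) = Ideal.Quotient.mk M a := by
  have h1 : (1 : AlgInt) ∉ M := (Ideal.ne_top_iff_one M).mp hMm.ne_top
  have h2 : (a : ℂ) = (a : ℂ) / ((1 : AlgInt) : ℂ) := by simp
  rw [h2, res_div a h1, map_one, inv_one, mul_one]

theorem res_zero : res M 0 = 0 := by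
  have h := res_coe (M := M) 0
  simpa using h

theorem res_one : res M 1 = 1 := by
  have h := res_coe (M := M) 1
  simpa using h

theorem res_add {z w : ℂ} (hz : MemLocalRing M z) (hw : MemLocalRing M w) :
    res M (z + w) = res M z + res M w := by
  have hMp : M.IsPrime := hMm.isPrime
  obtain ⟨a, b, hb, rfl⟩ := hz
  obtain ⟨c, d, hd, rfl⟩ := hw
  have hbd : b * d ∉ M := fun h => (hMp.mem_or_mem h).elim hb hd
  have h1 := coe_ne_zero_of_not_mem hb
  have h2 := coe_ne_zero_of_not_mem hd
  have h3 : (a : ℂ) / (b : ℂ) + (c : ℂ) / (d : ℂ) =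
      ((a * d + c * b : AlgInt) : ℂ) / ((b * d : AlgInt) : ℂ) := by
    push_cast
    field_simp
  rw [h3, res_div _ hbd, res_div _ hb, res_div _ hd, map_add, map_mul, map_mul, map_mul]
  have h4 := mk_ne_zero hb
  have h5 := mk_ne_zero hd
  field_simp

theorem res_mul {z w : ℂ} (hz : MemLocalRing M z) (hw : MemLocalRing M w) :
    res M (z * w) = res M z * res M w := by
  have hMp : M.IsPrime := hMm.isPrime
  obtain ⟨a, b, hb, rfl⟩ := hz
  obtain ⟨c, d, hd, rfl⟩ := hw
  have hbd : b * d ∉ M := fun h => (hMp.mem_or_mem h).elim hb hd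
  have h1 := coe_ne_zero_of_not_mem hb
  have h2 := coe_ne_zero_of_not_mem hd
  have h3 : (a : ℂ) / (b : ℂ) * ((c : ℂ) / (d : ℂ)) =
      ((a * c : AlgInt) : ℂ) / ((b * d : AlgInt) : ℂ) := by
    push_cast
    field_simp
  rw [h3, res_div _ hbd, res_div _ hb, res_div _ hd, map_mul, map_mul]
  have h4 := mk_ne_zero hb
  have h5 := mk_ne_zero hd
  field_simp

theorem res_eq_zero_iff {z : ℂ} (hz : MemLocalRing M z) : res M z = 0 ↔ MemLocalIdeal M z := by
  have hMp : M.IsPrime := hMm.isPrime
  obtain ⟨a, b, hb, rfl⟩ := hz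
  rw [res_div _ hb, memLocalIdeal_div_iff hb, mul_eq_zero, inv_eq_zero,
    Ideal.Quotient.eq_zero_iff_mem]
  constructor
  · rintro (h | h)
    · exact h
    · exact absurd h (mk_ne_zero hb)
  · intro h
    exact Or.inl h

theorem res_sum {ι : Type*} (s : Finset ι) (f : ι → ℂ) (hf : ∀ i ∈ s, MemLocalRing M (f i)) :
    res M (∑ i ∈ s, f i) = ∑ i ∈ s, res M (f i) := by
  classical
  have hMp : M.IsPrime := hMm.isPrime
  induction s using Finset.induction_on with
  | empty => simp [res_zero]
  | insert a s ha ih =>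
    rw [Finset.sum_insert ha, Finset.sum_insert ha,
      res_add (hf a (Finset.mem_insert_self a s))
        (memLocalRing_sum s f (fun i hi => hf i (Finset.mem_insert_of_mem hi))),
      ih (fun i hi => hf i (Finset.mem_insert_of_mem hi))]

theorem charP_quot {p : ℕ} (hM : IsPModular p M) : CharP (AlgInt ⧸ M) p := by
  have := Fact.mk hM.1
  rw [CharP.charP_iff_prime_eq_zero hM.1]
  have h : ((p : AlgInt) : AlgInt ⧸ M) = 0 := Ideal.Quotient.eq_zero_iff_mem.mpr hM.2.2
  simpa using h

end Res

section Fun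

variable {F : Type*} [Field F] {G : Type u} [Group G] [Fintype G]

/-- The element of the group algebra with given coefficient function. -/
noncomputable def ofFun (r : G → F) : MonoidAlgebra F G := ∑ g, MonoidAlgebra.single g (r g)

theorem coeff_ofFun (r : G → F) (g : G) : (ofFun r).coeff g = r g := by
  classical
  unfold ofFun
  rw [MonoidAlgebra.coeff_sum, Finsupp.finsetSum_apply]
  simp [MonoidAlgebra.coeff_single, Finsupp.single_apply]

theorem ofFun_eq_zero_iff (r : G → F) : ofFun r = 0 ↔ ∀ g, r g = 0 := by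
  constructor
  · intro h g
    rw [← coeff_ofFun r g, h]
    rfl
  · intro h
    apply MonoidAlgebra.coeff_injective
    ext g
    rw [coeff_ofFun, h g]
    rfl

theorem ofFun_mul (r₁ r₂ : G → F) :
    ofFun r₁ * ofFun r₂ = ofFun (fun g => ∑ h, r₁ h * r₂ (h⁻¹ * g)) := by
  apply MonoidAlgebra.coeff_injective
  ext g
  rw [coeff_ofFun, MonoidAlgebra.coeff_mul_apply_left,
    Finsupp.sum_fintype _ _ (by intros; simp)]
  simp [coeff_ofFun]

theorem ofFun_add (r₁ r₂ : G → F) : ofFun r₁ + ofFun r₂ = ofFun (fun g => r₁ g + r₂ g) := by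
  apply MonoidAlgebra.coeff_injective
  ext g
  rw [coeff_ofFun, MonoidAlgebra.coeff_add, Finsupp.add_apply, coeff_ofFun, coeff_ofFun]

end Fun

section Red

variable {G : Type u} [Group G] [Fintype G] (M : Ideal AlgInt) [hMm : M.IsMaximal]

/-- The reduction of a complex-valued function to the group algebra over the residue field. -/
noncomputable def red (f : G → ℂ) : MonoidAlgebra (AlgInt ⧸ M) G := ofFun (fun g => res M (f g))

variable {M}

theorem red_conv {f₁ f₂ : G → ℂ} (h₁ : ∀ g, MemLocalRing M (f₁ g))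
    (h₂ : ∀ g, MemLocalRing M (f₂ g)) : red M (conv f₁ f₂) = red M f₁ * red M f₂ := by
  have hMp : M.IsPrime := hMm.isPrime
  unfold red
  rw [ofFun_mul]
  congr 1
  funext g
  unfold conv
  rw [res_sum _ _ (fun h _ => memLocalRing_mul (h₁ h) (h₂ _))]
  apply Finset.sum_congr rfl
  intro h _
  exact res_mul (h₁ h) (h₂ _)

theorem red_eq_zero_iff {f : G → ℂ} (hf : ∀ g, MemLocalRing M (f g)) :
    red M f = 0 ↔ ∀ g, MemLocalIdeal M (f g) := by
  unfold red
  rw [ofFun_eq_zero_iff]
  constructor
  · intro h g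
    exact (res_eq_zero_iff (hf g)).mp (h g)
  · intro h g
    exact (res_eq_zero_iff (hf g)).mpr (h g)

theorem memLocalRing_conv {f₁ f₂ : G → ℂ} (h₁ : ∀ g, MemLocalRing M (f₁ g))
    (h₂ : ∀ g, MemLocalRing M (f₂ g)) (g : G) : MemLocalRing M (conv f₁ f₂ g) := by
  have hMp : M.IsPrime := hMm.isPrime
  unfold conv
  exact memLocalRing_sum _ _ (fun h _ => memLocalRing_mul (h₁ h) (h₂ _))

open Classical in
/-- Convolution powers. -/
noncomputable def cpow (f : G → ℂ) : ℕ → G → ℂ
  | 0 => fun g => if g = 1 then 1 else 0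
  | n + 1 => conv f (cpow f n)

theorem memLocalRing_cpow {f : G → ℂ} (hf : ∀ g, MemLocalRing M (f g)) (n : ℕ) (g : G) :
    MemLocalRing M (cpow f n g) := by
  have hMp : M.IsPrime := hMm.isPrime
  induction n generalizing g with
  | zero =>
    unfold cpow
    split_ifs
    · exact memLocalRing_one hMp.ne_top
    · exact memLocalRing_zero hMp.ne_top
  | succ n ih =>
    exact memLocalRing_conv hf ih g

theorem red_cpow {f : G → ℂ} (hf : ∀ g, MemLocalRing M (f g)) (n : ℕ) :
    red M (cpow f n) = red M f ^ n := by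
  classical
  induction n with
  | zero =>
    rw [pow_zero]
    apply MonoidAlgebra.coeff_injective
    ext g
    unfold red
    rw [coeff_ofFun, MonoidAlgebra.one_def, MonoidAlgebra.coeff_single, Finsupp.single_apply]
    unfold cpow
    by_cases h : g = 1
    · rw [if_pos h, if_pos h.symm, res_one]
    · rw [if_neg h, if_neg (fun h' => h h'.symm), res_zero]
  | succ n ih =>
    rw [pow_succ', ← ih]
    exact red_conv hf (memLocalRing_cpow hf n)

omit hMm in
theorem isClassFunction_cpow {f : G → ℂ} (hf : IsClassFunction G f) (n : ℕ) :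
    IsClassFunction G (cpow f n) := by
  classical
  induction n with
  | zero =>
    intro g k
    unfold cpow
    have : k * g * k⁻¹ = 1 ↔ g = 1 := by
      constructor
      · intro h
        have h2 : g = k⁻¹ * (k * g * k⁻¹) * k := by group
        rw [h2, h]
        group
      · rintro rfl
        group
    exact if_congr this rfl rfl
  | succ n ih => exact isClassFunction_conv hf ih

omit hMm in
theorem om_cpow {χ : G → ℂ} (hχ : IsIrrCharacter G χ) {f : G → ℂ} (hf : IsClassFunction G f)
    (n : ℕ) : Om χ (cpow f n) = Om χ f ^ n := by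
  classical
  induction n with
  | zero =>
    rw [pow_zero]
    unfold Om cpow
    have h1 : ∑ g : G, (if g = 1 then (1 : ℂ) else 0) * χ g = χ 1 := by
      simp
    rw [h1, div_self (irr_apply_one_ne_zero hχ)]
  | succ n ih =>
    rw [pow_succ', ← ih]
    exact om_conv hχ hf (isClassFunction_cpow hf n)

theorem om_memLocalIdeal {χ : G → ℂ} (hχ : IsIrrCharacter G χ) {f : G → ℂ}
    (hf : IsClassFunction G f) (h : ∀ g, MemLocalIdeal M (f g)) : MemLocalIdeal M (Om χ f) := by
  classical
  have hMp : M.IsPrime := hMm.isPrime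
  have := Fintype.ofFinite (ConjClasses G)
  rw [om_eq_sum_conjClasses (isClassFunction_of_irr hχ) hf]
  apply memLocalIdeal_sum
  intro C _
  rw [mul_comm]
  exact memLocalIdeal_mul_left (memLocalRing_centralChar hχ _) (h _)

theorem pow_not_memLocalIdeal {z : ℂ} (hz : MemLocalRing M z) (hz' : ¬ MemLocalIdeal M z)
    (n : ℕ) : ¬ MemLocalIdeal M (z ^ n) := by
  have hMp : M.IsPrime := hMm.isPrime
  induction n with
  | zero =>
    rw [pow_zero]
    exact not_memLocalIdeal_one
  | succ n ih =>
    rw [pow_succ]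
    have hzn : MemLocalRing M (z ^ n) := by
      have h := memLocalRing_prod (M := M) (Finset.range n) (fun _ => z) (fun _ _ => hz)
      simpa using h
    exact not_memLocalIdeal_mul hzn ih hz hz'

theorem red_classInd (g : G) [DecidablePred (IsConj g)] :
    red M (classInd g) = ∑ x : G, if IsConj g x then MonoidAlgebra.single x 1 else 0 := by
  unfold red ofFun
  apply Finset.sum_congr rfl
  intro x _
  show MonoidAlgebra.single x (res M (classInd g x)) = _
  unfold classInd
  by_cases h : IsConj g x
  · rw [if_pos h, if_pos h, res_one]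
  · rw [if_neg h, if_neg h, res_zero, MonoidAlgebra.single_zero]

/-- The central character of an irreducible character lies in the local ideal at every element
no conjugate of which centralizes a given normal `p`-subgroup. -/
theorem centralChar_memLocalIdeal_of_avoid {p : ℕ} [Fact p.Prime] (hM : IsPModular p M)
    (P : Subgroup G) [P.Normal] (hP : IsPGroup p P) {χ : G → ℂ} (hχ : IsIrrCharacter G χ) (g : G)
    (hg : ∀ x : G, IsConj g x → x ∉ Subgroup.centralizer (P : Set G)) :
    MemLocalIdeal M (centralChar χ g) := by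
  classical
  have hMp : M.IsPrime := hMm.isPrime
  have hch : CharP (AlgInt ⧸ M) p := charP_quot hM
  obtain ⟨N, hN⟩ := classSum_nilpotent (AlgInt ⧸ M) p P hP g hg
  have hsum : (∑ᶠ x ∈ ConjClasses.carrier (ConjClasses.mk g),
      MonoidAlgebra.single x (1 : AlgInt ⧸ M) : MonoidAlgebra (AlgInt ⧸ M) G) =
      red M (classInd g) := by
    rw [red_classInd, finsum_mem_def, finsum_eq_sum_of_fintype]
    apply Finset.sum_congr rfl
    intro x _
    rw [Set.indicator_apply]
    apply if_congr _ rfl rfl
    rw [ConjClasses.mem_carrier_iff_mk_eq, ConjClasses.mk_eq_mk_iff_isConj, isConj_comm]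
  have hR : ∀ x, MemLocalRing M (classInd g x) := fun x => memLocalRing_classInd g x
  rw [hsum, ← red_cpow hR] at hN
  have h2' := hN
  have h3 := (red_eq_zero_iff (memLocalRing_cpow hR N)).mp h2'
  have h4 := om_memLocalIdeal hχ (isClassFunction_cpow (isClassFunction_classInd g) N) h3
  rw [om_cpow hχ (isClassFunction_classInd g), om_classInd (isClassFunction_of_irr hχ)] at h4
  by_contra hcon
  exact pow_not_memLocalIdeal (memLocalRing_centralChar hχ g) hcon N h4

end Red

end Cfsg.Agent.Lib_helper3_Residue
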