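import Mathlib
import Cfsg.Prelude.Def_Characters
import Cfsg.Prelude.Def_Blocks
import Cfsg.Agent.Lib_helper3_AugNil
import Cfsg.Agent.Lib_helper3_Residue
import Cfsg.Agent.Lib_helper3_IdemSupp

set_option autoImplicit false
open Cfsg
open Cfsg.Agent.Lib_helper3_AugNil Cfsg.Agent.Lib_helper3_Residue

namespace Cfsg.Agent.Lib_helper3_IdemCent

universe u v

section Alg

/-- In a ring, if `a + b` and `a` are idempotent, `a` and `b` commute and `b` is nilpotent,
then `b = 0`. -/
theorem eq_zero_of_idem {A : Type*} [Ring A] {a b : A} (h1 : (a + b) * (a + b) = a + b)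
    (h2 : a * a = a) (h3 : a * b = b * a) {N : ℕ} (h4 : b ^ N = 0) : b = 0 := by
  -- `2ab + b² = b`
  have e1 : a * b + a * b + b * b = b := by
    have : (a + b) * (a + b) = a * a + a * b + b * a + b * b := by noncomm_ring
    rw [this, h2, ← h3] at h1
    have h5 : a + a * b + a * b + b * b = a + (a * b + a * b + b * b) := by abel
    rw [h5] at h1
    exact add_left_cancel h1
  -- multiply by `a`
  have e2 : a * b = -(a * b * b) := by
    have h5 : a * (a * b + a * b + b * b) = a * b := by rw [e1]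
    have h6 : a * (a * b + a * b + b * b) = a * a * b + a * a * b + a * b * b := by noncomm_ring
    rw [h6, h2] at h5
    have h7 : a * b + (a * b + a * b * b) = a * b + 0 := by
      rw [add_zero, ← add_assoc]
      exact h5
    have h8 := add_left_cancel h7
    exact eq_neg_of_add_eq_zero_left h8
  have e3 : ∀ k : ℕ, a * b = a * b * (-b) ^ k := by
    intro k
    induction k with
    | zero => rw [pow_zero, mul_one]
    | succ k ih =>
      rw [pow_succ', ← mul_assoc, mul_neg, ← e2]
      exact ih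
  have e4 : a * b = 0 := by
    rw [e3 N, neg_pow, h4, mul_zero, mul_zero]
  rw [e4, add_zero, zero_add] at e1
  have e5 : ∀ k : ℕ, b ^ (k + 1) = b := by
    intro k
    induction k with
    | zero => rw [zero_add, pow_one]
    | succ k ih => rw [pow_succ, ih, e1]
  rw [← e5 N, pow_succ, h4, zero_mul]

end Alg

section Orbit

variable {p : ℕ} [Fact p.Prime] {G : Type u} [Group G]

theorem conj_mem_centralizer_iff (P : Subgroup G) [hPn : P.Normal] (c x : G) :
    c * x * c⁻¹ ∈ Subgroup.centralizer (P : Set G) ↔ x ∈ Subgroup.centralizer (P : Set G) := by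
  have key : ∀ (c x : G), x ∈ Subgroup.centralizer (P : Set G) →
      c * x * c⁻¹ ∈ Subgroup.centralizer (P : Set G) := by
    intro c x hx
    rw [Subgroup.mem_centralizer_iff] at hx ⊢
    intro u hu
    have h1 := hx (c⁻¹ * u * c⁻¹⁻¹) (hPn.conj_mem u hu c⁻¹)
    rw [inv_inv] at h1
    calc u * (c * x * c⁻¹) = c * (c⁻¹ * u * c * x) * c⁻¹ := by group
      _ = c * (x * (c⁻¹ * u * c)) * c⁻¹ := by rw [h1]
      _ = c * x * c⁻¹ * u := by group
  constructor
  · intro h
    have h2 := key c⁻¹ _ h
    have h3 : c⁻¹ * (c * x * c⁻¹) * c⁻¹⁻¹ = x := by group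
    rwa [h3] at h2
  · exact key c x

/-- A set stable under conjugation by a `p`-group and without fixed points has cardinality
divisible by `p`. -/
theorem dvd_card_of_conj_stable [Finite G] (P : Subgroup G) (hP : IsPGroup p P) (T : Set G)
    (hT : ∀ u ∈ P, ∀ x ∈ T, u * x * u⁻¹ ∈ T)
    (hfix : ∀ x ∈ T, x ∉ Subgroup.centralizer (P : Set G)) : p ∣ Nat.card T := by
  let _ : MulAction P T :=
    { smul := fun u x => ⟨(u : G) * x.1 * (u : G)⁻¹, hT u u.2 x.1 x.2⟩
      one_smul := fun x => Subtype.ext (by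
        show ((1 : P) : G) * x.1 * ((1 : P) : G)⁻¹ = x.1
        simp)
      mul_smul := fun u v x => Subtype.ext (by
        show ((u * v : P) : G) * x.1 * ((u * v : P) : G)⁻¹ =
          (u : G) * ((v : G) * x.1 * (v : G)⁻¹) * (u : G)⁻¹
        simp [mul_assoc]) }
  have h1 := hP.card_modEq_card_fixedPoints T
  have h2 : IsEmpty (MulAction.fixedPoints P T) := by
    refine ⟨fun ⟨x, hx⟩ => hfix x.1 x.2 ?_⟩
    rw [Subgroup.mem_centralizer_iff]
    intro u hu
    have h3 := congrArg Subtype.val (hx ⟨u, hu⟩)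
    have h4 : u * x.1 * u⁻¹ = x.1 := h3
    rw [mul_inv_eq_iff_eq_mul] at h4
    exact h4
  have h5 : Nat.card (MulAction.fixedPoints P T) = 0 := Nat.card_of_isEmpty
  rw [h5] at h1
  exact (Nat.modEq_zero_iff_dvd).mp h1

/-- Orbit sums: a function invariant under conjugation by a `p`-group sums to zero, in
characteristic `p`, over a stable set without fixed points. -/
theorem sum_eq_zero_of_conj_stable {F : Type v} [Field F] [CharP F p] [Fintype G]
    (P : Subgroup G) (hP : IsPGroup p P) (S : Set G) [DecidablePred (· ∈ S)]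
    (hS : ∀ u ∈ P, ∀ x ∈ S, u * x * u⁻¹ ∈ S)
    (hfix : ∀ x ∈ S, x ∉ Subgroup.centralizer (P : Set G))
    (r : G → F) (hr : ∀ u ∈ P, ∀ x ∈ S, r (u * x * u⁻¹) = r x) :
    ∑ x : G, (if x ∈ S then r x else 0) = 0 := by
  classical
  rw [← Finset.sum_filter]
  rw [← Finset.sum_fiberwise_of_maps_to (g := r)
    (t := (Finset.univ.filter (fun x => x ∈ S)).image r)
    (fun x hx => Finset.mem_image_of_mem r hx)]
  apply Finset.sum_eq_zero
  intro c _
  have h1 : ∀ x ∈ (Finset.univ.filter (fun x => x ∈ S)).filter (fun x => r x = c), r x = c := by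
    intro x hx
    exact (Finset.mem_filter.mp hx).2
  rw [Finset.sum_congr rfl h1, Finset.sum_const, nsmul_eq_mul]
  have h2 : p ∣ Nat.card {x : G | x ∈ S ∧ r x = c} := by
    apply dvd_card_of_conj_stable P hP
    · intro u hu x hx
      exact ⟨hS u hu x hx.1, by rw [hr u hu x hx.1]; exact hx.2⟩
    · intro x hx
      exact hfix x hx.1
  have h3 : Nat.card {x : G | x ∈ S ∧ r x = c} =
      ((Finset.univ.filter (fun x => x ∈ S)).filter (fun x => r x = c)).card := by
    rw [Finset.filter_filter, ← Fintype.card_subtype, ← Nat.card_eq_fintype_card]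
    rfl
  rw [h3] at h2
  rw [(CharP.cast_eq_zero_iff F p _).mpr h2, zero_mul]

end Orbit

section Idem

variable {p : ℕ} [Fact p.Prime] {F : Type v} [Field F] [CharP F p] {G : Type u} [Group G]
  [Fintype G]

omit [Fact p.Prime] [CharP F p] in
theorem ofFun_comm {s t : G → F} (ht : ∀ k x : G, t (k * x * k⁻¹) = t x) :
    ofFun s * ofFun t = ofFun t * ofFun s := by
  rw [ofFun_mul, ofFun_mul]
  congr 1
  funext z
  rw [← Equiv.sum_comp ((Equiv.inv G).trans (Equiv.mulLeft z)) (fun h => t h * s (h⁻¹ * z))]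
  apply Finset.sum_congr rfl
  intro k _
  show s k * t (k⁻¹ * z) = t (z * k⁻¹) * s ((z * k⁻¹)⁻¹ * z)
  have h1 : (z * k⁻¹)⁻¹ * z = k := by group
  have h2 : z * k⁻¹ = k * (k⁻¹ * z) * k⁻¹ := by group
  rw [h1, h2, ht, mul_comm]

omit [Fact p.Prime] [CharP F p] in
theorem coeff_mapDomain_ofFun {H : Type*} [Group H] [DecidableEq H] (φ : G →* H) (t : G → F)
    (q : H) :
    (MonoidAlgebra.mapDomain φ (ofFun t)).coeff q = ∑ x, if φ x = q then t x else 0 := by
  have h1 : MonoidAlgebra.mapDomain φ (ofFun t) = ∑ x, MonoidAlgebra.single (φ x) (t x) := by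
    unfold ofFun
    show MonoidAlgebra.mapDomainRingHom F φ _ = _
    rw [map_sum]
    apply Finset.sum_congr rfl
    intro x _
    exact MonoidAlgebra.mapDomain_single
  rw [h1, MonoidAlgebra.coeff_sum, Finsupp.finsetSum_apply]
  apply Finset.sum_congr rfl
  intro x _
  rw [MonoidAlgebra.coeff_single, Finsupp.single_apply]

/-- A class-invariant idempotent of the group algebra in characteristic `p` is supported on
the centralizer of every normal `p`-subgroup. -/
theorem eq_zero_of_idem_avoid (P : Subgroup G) [P.Normal] (hP : IsPGroup p P) (r : G → F)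
    (hr : ∀ k x : G, r (k * x * k⁻¹) = r x) (hidem : ofFun r * ofFun r = ofFun r)
    (x : G) (hx : x ∉ Subgroup.centralizer (P : Set G)) : r x = 0 := by
  classical
  obtain ⟨C, hC⟩ : ∃ C : Subgroup G, C = Subgroup.centralizer (P : Set G) := ⟨_, rfl⟩
  rw [← hC] at hx
  have hconj : ∀ c y : G, c * y * c⁻¹ ∈ C ↔ y ∈ C := by
    intro c y
    rw [hC]
    exact conj_mem_centralizer_iff P c y
  obtain ⟨ra, hra⟩ : ∃ ra : G → F, ra = fun y => if y ∈ C then r y else 0 := ⟨_, rfl⟩
  obtain ⟨rb, hrb⟩ : ∃ rb : G → F, rb = fun y => if y ∈ C then 0 else r y := ⟨_, rfl⟩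
  have hab : ofFun ra + ofFun rb = ofFun r := by
    rw [ofFun_add]
    congr 1
    funext y
    rw [hra, hrb]
    by_cases hy : y ∈ C
    · simp [hy]
    · simp [hy]
  have hrbc : ∀ k y : G, rb (k * y * k⁻¹) = rb y := by
    intro k y
    rw [hrb]
    show (if k * y * k⁻¹ ∈ C then 0 else r (k * y * k⁻¹)) = if y ∈ C then 0 else r y
    rw [hr k y]
    exact if_congr (hconj k y) rfl rfl
  have h1 : (ofFun ra + ofFun rb) * (ofFun ra + ofFun rb) = ofFun ra + ofFun rb := by
    rw [hab, hidem]
  have h3 : ofFun ra * ofFun rb = ofFun rb * ofFun ra := ofFun_comm hrbc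
  have h2 : ofFun ra * ofFun ra = ofFun ra := by
    rw [ofFun_mul]
    congr 1
    funext z
    by_cases hz : z ∈ C
    · have e1 : ∀ h : G, ra h * ra (h⁻¹ * z) = r h * r (h⁻¹ * z) -
          (if h ∈ ((C : Set G)ᶜ) then r h * r (h⁻¹ * z) else 0) := by
        intro h
        rw [hra]
        by_cases hh : h ∈ C
        · have h' : h⁻¹ * z ∈ C := C.mul_mem (C.inv_mem hh) hz
          have h'' : h ∉ ((C : Set G)ᶜ) := fun hcon => hcon hh
          simp only [if_pos hh, if_pos h', if_neg h'', sub_zero]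
        · have h'' : h ∈ ((C : Set G)ᶜ) := hh
          simp only [if_neg hh, if_pos h'', zero_mul, sub_self]
      rw [Finset.sum_congr rfl (fun h _ => e1 h), Finset.sum_sub_distrib]
      have e2 : ∑ h, r h * r (h⁻¹ * z) = r z := by
        have h4 : (ofFun r * ofFun r).coeff z = (ofFun r).coeff z := by rw [hidem]
        rw [ofFun_mul, coeff_ofFun, coeff_ofFun] at h4
        exact h4
      have e3 : ∑ h : G, (if h ∈ ((C : Set G)ᶜ) then r h * r (h⁻¹ * z) else 0) = 0 := by
        apply sum_eq_zero_of_conj_stable P hP ((C : Set G)ᶜ)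
        · intro u hu y hy hcon
          exact hy ((hconj u y).mp hcon)
        · intro y hy
          rw [← hC]
          exact hy
        · intro u hu y hy
          rw [hr u y]
          have hzu : u * z = z * u := by
            rw [hC] at hz
            exact (Subgroup.mem_centralizer_iff.mp hz) u hu
          have h5 : (u * y * u⁻¹)⁻¹ * z = u * (y⁻¹ * z) * u⁻¹ := by
            have h6 : u⁻¹ * z = z * u⁻¹ := by
              rw [inv_mul_eq_iff_eq_mul, ← mul_assoc, hzu, mul_assoc, mul_inv_cancel, mul_one]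
            calc (u * y * u⁻¹)⁻¹ * z = u * y⁻¹ * (u⁻¹ * z) := by group
              _ = u * y⁻¹ * (z * u⁻¹) := by rw [h6]
              _ = u * (y⁻¹ * z) * u⁻¹ := by group
          rw [h5, hr]
      rw [e2, e3, sub_zero, hra]
      exact (if_pos hz).symm
    · have e1 : ∀ h : G, ra h * ra (h⁻¹ * z) = 0 := by
        intro h
        rw [hra]
        by_cases hh : h ∈ C
        · have hn : h⁻¹ * z ∉ C := by
            intro hcon
            apply hz
            have h4 := C.mul_mem hh hcon
            rwa [mul_inv_cancel_left] at h4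
          simp only [if_neg hn, mul_zero]
        · simp only [if_neg hh, zero_mul]
      rw [Finset.sum_congr rfl (fun h _ => e1 h), Finset.sum_const_zero, hra]
      exact (if_neg hz).symm
  have h5 : ofFun rb ∈ kerSub F (QuotientGroup.mk' P) := by
    rw [mem_kerSub]
    apply MonoidAlgebra.coeff_injective
    ext q
    rw [coeff_mapDomain_ofFun]
    have e1 : ∀ y : G, (if (QuotientGroup.mk' P) y = q then rb y else 0) =
        if y ∈ {y : G | y ∉ C ∧ (QuotientGroup.mk y : G ⧸ P) = q} then r y else 0 := by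
      intro y
      rw [hrb]
      by_cases hy : y ∈ C
      · by_cases hq : (QuotientGroup.mk y : G ⧸ P) = q
        · simp [hy, hq]
        · simp [hy, hq]
      · by_cases hq : (QuotientGroup.mk y : G ⧸ P) = q
        · simp [hy, hq]
        · simp [hy, hq]
    rw [Finset.sum_congr rfl (fun y _ => e1 y)]
    have e2 := sum_eq_zero_of_conj_stable (F := F) P hP
      {y : G | y ∉ C ∧ (QuotientGroup.mk y : G ⧸ P) = q} (by
        intro u hu y hy
        refine ⟨fun hcon => hy.1 ((hconj u y).mp hcon), ?_⟩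
        rw [QuotientGroup.mk_mul, QuotientGroup.mk_mul, QuotientGroup.mk_inv,
          (QuotientGroup.eq_one_iff u).mpr hu, one_mul, inv_one, mul_one]
        exact hy.2) (by
        intro y hy
        rw [← hC]
        exact hy.1) r (fun u _ y _ => hr u y)
    rw [e2]
    rfl
  have hker : IsPGroup p (QuotientGroup.mk' P).ker := by
    rw [QuotientGroup.ker_mk']
    exact hP
  obtain ⟨N, hN⟩ := kerSub_nilpotent F p (QuotientGroup.mk' P) hker
  have h6 : ofFun rb ^ N = 0 := by
    have h7 := Submodule.pow_mem_pow _ h5 N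
    rw [hN] at h7
    exact (Submodule.mem_bot F).mp h7
  have h7 := eq_zero_of_idem h1 h2 h3 h6
  have h8 := (ofFun_eq_zero_iff rb).mp h7 x
  rw [hrb] at h8
  simpa [hx] using h8

end Idem

section Main

attribute [local instance] Ideal.Quotient.field

variable {p : ℕ} [Fact p.Prime] {G : Type u} [Group G] [Fintype G] {M : Ideal AlgInt}

open Cfsg.Agent.Lib_helper3_BlockAlg in
/-- A class function with local-integer values that is idempotent under convolution has its
values in the local ideal off the centralizer of every normal `p`-subgroup. -/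
theorem memLocalIdeal_of_idem_avoid (hM : IsPModular p M) (P : Subgroup G) [P.Normal]
    (hP : IsPGroup p P) {e : G → ℂ} (hcl : IsClassFunction G e)
    (hR : ∀ g, MemLocalRing M (e g)) (hidem : conv e e = e) (g : G)
    (hg : g ∉ Subgroup.centralizer (P : Set G)) : MemLocalIdeal M (e g) := by
  have hMm : M.IsMaximal := hM.2.1
  have hch : CharP (AlgInt ⧸ M) p := charP_quot hM
  have h1 : red M e * red M e = red M e := by rw [← red_conv hR hR, hidem]
  have h2 := eq_zero_of_idem_avoid (p := p) (F := AlgInt ⧸ M) P hP (fun x => res M (e x))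
    (fun k x => by rw [hcl x k]) h1 g hg
  exact (res_eq_zero_iff (hR g)).mp h2

omit [Fact p.Prime] in
theorem cpow_zero_one (f : G → ℂ) : cpow f 0 1 = 1 := by
  unfold cpow
  exact if_pos rfl

omit [Fact p.Prime] in
theorem cpow_zero_ne (f : G → ℂ) {g : G} (hg : g ≠ 1) : cpow f 0 g = 0 := by
  unfold cpow
  exact if_neg hg

open Cfsg.Agent.Lib_helper3_BlockAlg Cfsg.Agent.Lib_helper3_IdemSupp
  Cfsg.Agent.Lib_helper3_Local Cfsg.Agent.Lib_helper3_Local2 in
/-- A finite group with a normal `p`-subgroup containing its own centralizer has a single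
`p`-block. -/
theorem sameBlock_of_centralizer_le (hM : IsPModular p M) (P : Subgroup G) [P.Normal]
    (hP : IsPGroup p P) (hCP : Subgroup.centralizer (P : Set G) ≤ P) (χ ψ : IrrCharacter G) :
    SameBlock M (χ : G → ℂ) (ψ : G → ℂ) := by
  classical
  have hMm : M.IsMaximal := hM.2.1
  have hMp : M.IsPrime := hMm.isPrime
  obtain ⟨B, hBdef⟩ : ∃ B, B = blockOf M (χ : G → ℂ) := ⟨_, rfl⟩
  have hB : IsPBlock M B := ⟨χ, hBdef⟩
  have hχB : χ ∈ B := by
    rw [hBdef]
    exact mem_blockOf_self hMp.ne_top χ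
  have hcl := isClassFunction_blockCoeff B
  have hR : ∀ g, MemLocalRing M (blockCoeff B g) := fun g => osima hB g
  have hidem := conv_blockCoeff B
  have hoff : ∀ g : G, g ≠ 1 → MemLocalIdeal M (blockCoeff B g) := by
    intro g hg1
    by_cases hgC : g ∈ Subgroup.centralizer (P : Set G)
    · have hgP : g ∈ P := hCP hgC
      have hdvd : p ∣ orderOf g := by
        obtain ⟨k, hk⟩ := hP ⟨g, hgP⟩
        have hk' : g ^ p ^ k = 1 := congrArg Subtype.val hk
        have h1 : orderOf g ∣ p ^ k := orderOf_dvd_of_pow_eq_one hk'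
        obtain ⟨j, hj, hj'⟩ := (Nat.dvd_prime_pow (Fact.out : p.Prime)).mp h1
        rcases Nat.eq_zero_or_pos j with h0 | h0
        · exfalso
          rw [h0, pow_zero] at hj'
          exact hg1 (orderOf_eq_one_iff.mp hj')
        · rw [hj']
          exact dvd_pow_self p h0.ne'
      rw [blockCoeff_eq_zero_of_singular hM hR g hdvd]
      exact memLocalIdeal_zero hMp.ne_top
    · exact memLocalIdeal_of_idem_avoid hM P hP hcl hR hidem g hgC
  obtain ⟨f, hf⟩ : ∃ f : G → ℂ,
      f = blockCoeff B - (blockCoeff B 1) • cpow (blockCoeff B) 0 := ⟨_, rfl⟩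
  have hfcl : IsClassFunction G f := by
    intro g k
    rw [hf]
    show blockCoeff B (k * g * k⁻¹) - blockCoeff B 1 * cpow (blockCoeff B) 0 (k * g * k⁻¹) =
      blockCoeff B g - blockCoeff B 1 * cpow (blockCoeff B) 0 g
    rw [hcl g k, isClassFunction_cpow hcl 0 g k]
  have hfI : ∀ g, MemLocalIdeal M (f g) := by
    intro g
    rw [hf]
    show MemLocalIdeal M (blockCoeff B g - blockCoeff B 1 * cpow (blockCoeff B) 0 g)
    by_cases hg1 : g = 1
    · rw [hg1, cpow_zero_one, mul_one, sub_self]
      exact memLocalIdeal_zero hMp.ne_top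
    · rw [cpow_zero_ne _ hg1, mul_zero, sub_zero]
      exact hoff g hg1
  have key : ∀ φ : IrrCharacter G,
      MemLocalIdeal M (Om (φ : G → ℂ) (blockCoeff B) - blockCoeff B 1) := by
    intro φ
    have h1 := om_memLocalIdeal (M := M) φ.2 hfcl hfI
    rw [hf, om_sub, om_smul, om_cpow φ.2 hcl 0, pow_zero, mul_one] at h1
    exact h1
  show ψ ∈ blockOf M (χ : G → ℂ)
  rw [← hBdef]
  by_contra hψ
  have h1 := key χ
  have h2 := key ψ
  rw [om_blockCoeff_of_mem hχB] at h1
  rw [om_blockCoeff_of_not_mem hψ] at h2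
  have h3 := memLocalIdeal_sub h1 h2
  rw [sub_sub_sub_cancel_right, sub_zero] at h3
  exact not_memLocalIdeal_one h3

end Main

end Cfsg.Agent.Lib_helper3_IdemCent
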