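import Cfsg.Prelude.Def_Characters
import Cfsg.Agent.Lib_helper3_CharInd

set_option autoImplicit false
open Cfsg
open Cfsg.Agent.Lib_helper3_CharBasic Cfsg.Agent.Lib_helper3_CharInd

namespace Cfsg.Agent.Lib_helper3_GenChar

universe u

variable {G : Type u} [Group G]

theorem isGen_of_char {χ : G → ℂ} (h : IsCharacter G χ) : IsGeneralizedCharacter G χ :=
  ⟨χ, 0, h, isCharacter_zero, by simp⟩

theorem isGen_zero : IsGeneralizedCharacter G (0 : G → ℂ) :=
  ⟨0, 0, isCharacter_zero, isCharacter_zero, by simp⟩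

theorem isGen_add {f g : G → ℂ} (hf : IsGeneralizedCharacter G f)
    (hg : IsGeneralizedCharacter G g) : IsGeneralizedCharacter G (f + g) := by
  obtain ⟨a, b, ha, hb, rfl⟩ := hf
  obtain ⟨c, d, hc, hd, rfl⟩ := hg
  exact ⟨a + c, b + d, isCharacter_add ha hc, isCharacter_add hb hd, by abel⟩

theorem isGen_neg {f : G → ℂ} (hf : IsGeneralizedCharacter G f) :
    IsGeneralizedCharacter G (-f) := by
  obtain ⟨a, b, ha, hb, rfl⟩ := hf
  exact ⟨b, a, hb, ha, by abel⟩

theorem isGen_sub {f g : G → ℂ} (hf : IsGeneralizedCharacter G f)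
    (hg : IsGeneralizedCharacter G g) : IsGeneralizedCharacter G (f - g) := by
  rw [sub_eq_add_neg]
  exact isGen_add hf (isGen_neg hg)

theorem isGen_natCast_smul (n : ℕ) {f : G → ℂ} (hf : IsGeneralizedCharacter G f) :
    IsGeneralizedCharacter G ((n : ℂ) • f) := by
  obtain ⟨a, b, ha, hb, rfl⟩ := hf
  exact ⟨(n : ℂ) • a, (n : ℂ) • b, isCharacter_natCast_smul n ha, isCharacter_natCast_smul n hb,
    by rw [smul_sub]⟩

theorem isGen_intCast_smul (z : ℤ) {f : G → ℂ} (hf : IsGeneralizedCharacter G f) :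
    IsGeneralizedCharacter G ((z : ℂ) • f) := by
  rcases Int.eq_nat_or_neg z with ⟨n, rfl | rfl⟩
  · exact_mod_cast isGen_natCast_smul n hf
  · have h1 : (((-(n : ℤ)) : ℤ) : ℂ) • f = -((n : ℂ) • f) := by
      push_cast
      rw [neg_smul]
    rw [h1]
    exact isGen_neg (isGen_natCast_smul n hf)

theorem isGen_list_sum (l : List (G → ℂ)) (h : ∀ f ∈ l, IsGeneralizedCharacter G f) :
    IsGeneralizedCharacter G l.sum := by
  induction l with
  | nil => exact isGen_zero
  | cons a l ih =>
    rw [List.sum_cons]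
    exact isGen_add (h a List.mem_cons_self) (ih (fun f hf => h f (List.mem_cons_of_mem _ hf)))

theorem isGen_sum {ι : Type*} (s : Finset ι) (f : ι → G → ℂ)
    (h : ∀ i ∈ s, IsGeneralizedCharacter G (f i)) : IsGeneralizedCharacter G (∑ i ∈ s, f i) :=
  Finset.sum_induction _ _ (fun _ _ => isGen_add) isGen_zero h

theorem isGen_char_mul {χ f : G → ℂ} (hχ : IsCharacter G χ) (hf : IsGeneralizedCharacter G f) :
    IsGeneralizedCharacter G (fun g => χ g * f g) := by
  obtain ⟨a, b, ha, hb, rfl⟩ := hf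
  refine ⟨χ * a, χ * b, isCharacter_mul hχ ha, isCharacter_mul hχ hb, ?_⟩
  funext g
  simp [mul_sub]

theorem isGen_mul_char {χ f : G → ℂ} (hχ : IsCharacter G χ) (hf : IsGeneralizedCharacter G f) :
    IsGeneralizedCharacter G (fun g => f g * χ g) := by
  have h := isGen_char_mul hχ hf
  have h1 : (fun g => f g * χ g) = fun g => χ g * f g := by
    funext g
    rw [mul_comm]
  rw [h1]
  exact h

theorem isGen_ind [Fintype G] (H : Subgroup G) {f : H → ℂ} (hf : IsGeneralizedCharacter H f) :
    IsGeneralizedCharacter G (indFun H f) := by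
  obtain ⟨a, b, ha, hb, rfl⟩ := hf
  exact ⟨indFun H a, indFun H b, isCharacter_indFun H ha, isCharacter_indFun H hb,
    indFun_sub H a b⟩

theorem isGen_restrict (H : Subgroup G) {f : G → ℂ} (hf : IsGeneralizedCharacter G f) :
    IsGeneralizedCharacter H (fun h : H => f h) := by
  obtain ⟨a, b, ha, hb, rfl⟩ := hf
  exact ⟨fun h : H => a h, fun h : H => b h, isCharacter_restrict H ha, isCharacter_restrict H hb,
    rfl⟩

theorem isClassFunction_of_isGen {f : G → ℂ} (hf : IsGeneralizedCharacter G f) :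
    IsClassFunction G f := by
  obtain ⟨a, b, ha, hb, rfl⟩ := hf
  exact isClassFunction_sub (isClassFunction_of_isCharacter ha) (isClassFunction_of_isCharacter hb)

end Cfsg.Agent.Lib_helper3_GenChar
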