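import Mathlib
import Cfsg.Prelude.Def_Characters
import Cfsg.Prelude.Def_OddOrderChar
import Cfsg.Agent.Lib_helper3_TIFN
import Cfsg.Agent.Lib_helper3_GenChar
import Cfsg.Agent.Lib_helper3_CharDiag
import Cfsg.Agent.Lib_helper3_IntLemmas

set_option autoImplicit false
open Cfsg
open Cfsg.Agent.Lib_helper3_CharBasic Cfsg.Agent.Lib_helper3_CharInd
  Cfsg.Agent.Lib_helper3_CharMore Cfsg.Agent.Lib_helper3_Clifford
  Cfsg.Agent.Lib_helper3_TIFN Cfsg.Agent.Lib_helper3_GenChar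
open scoped ComplexConjugate

namespace Cfsg.Agent.Lib_helper3_TIFN2

universe u

section NLevel

variable {G : Type u} [Group G] [Fintype G]

/-- A generalized character of norm one is an irreducible character up to sign. -/
theorem norm_one_gen {τ : G → ℂ} (hτ : IsGeneralizedCharacter G τ) (h1 : classInner τ τ = 1) :
    ∃ μ : G → ℂ, IsIrrCharacter G μ ∧ (τ = μ ∨ τ = -μ) := by
  classical
  have hfin : Finite (IrrCharacter G) := irr_finite
  have := Fintype.ofFinite (IrrCharacter G)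
  obtain ⟨χ, ψ, hχ, hψ, rfl⟩ := hτ
  have hcf : IsClassFunction G (χ - ψ) :=
    isClassFunction_sub (isClassFunction_of_isCharacter hχ) (isClassFunction_of_isCharacter hψ)
  have hint : ∀ θ : IrrCharacter G, ∃ z : ℤ, classInner (χ - ψ) (θ : G → ℂ) = z := by
    intro θ
    obtain ⟨m, hm⟩ := classInner_nat hχ (isCharacter_of_irr θ.2)
    obtain ⟨k, hk⟩ := classInner_nat hψ (isCharacter_of_irr θ.2)
    exact ⟨(m : ℤ) - k, by rw [classInner_sub_left, hm, hk]; push_cast; ring⟩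
  choose c hc using hint
  have hsum : ∑ θ : IrrCharacter G, c θ ^ 2 = 1 := by
    have h3 := classInner_eq_sum_irr (χ - ψ) (χ - ψ) hcf
    rw [h1] at h3
    have h4 : ∀ θ : IrrCharacter G, classInner (χ - ψ) (θ : G → ℂ)
        * classInner (θ : G → ℂ) (χ - ψ) = ((c θ ^ 2 : ℤ) : ℂ) := by
      intro θ
      rw [← classInner_conj_symm (χ - ψ) (θ : G → ℂ), hc θ]
      simp [sq]
    rw [Finset.sum_congr rfl (fun θ _ => h4 θ)] at h3
    exact_mod_cast h3.symm
  have hex : ∃ a, c a ≠ 0 := by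
    by_contra hne
    push Not at hne
    rw [Finset.sum_eq_zero (fun i _ => by rw [hne i]; simp)] at hsum
    omega
  obtain ⟨a, ha⟩ := hex
  have h2 := Finset.add_sum_erase Finset.univ (fun i => c i ^ 2) (Finset.mem_univ a)
  rw [hsum] at h2
  have hnn : 0 ≤ ∑ x ∈ Finset.univ.erase a, c x ^ 2 := Finset.sum_nonneg (fun i _ => sq_nonneg _)
  have hapos : 0 < c a ^ 2 := by positivity
  have ha1 : c a ^ 2 = 1 := by linarith
  have h4 : ∑ x ∈ Finset.univ.erase a, c x ^ 2 = 0 := by linarith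
  have hrest : ∀ i, i ≠ a → c i = 0 := by
    intro i hi
    have h5 := (Finset.sum_eq_zero_iff_of_nonneg (fun i _ => sq_nonneg (c i))).mp h4 i
      (Finset.mem_erase.mpr ⟨hi, Finset.mem_univ i⟩)
    exact pow_eq_zero_iff (two_ne_zero) |>.mp h5
  have hexp : (χ - ψ) = (c a : ℂ) • (a : G → ℂ) := by
    conv_lhs => rw [classFunction_eq_sum (χ - ψ) hcf]
    rw [← Finset.add_sum_erase Finset.univ _ (Finset.mem_univ a)]
    rw [Finset.sum_eq_zero, add_zero, hc a]
    intro θ hθ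
    rw [Finset.mem_erase] at hθ
    rw [hc θ, hrest θ hθ.1]
    simp
  have ha' : c a = 1 ∨ c a = -1 := by
    have h7 : (c a - 1) * (c a + 1) = 0 := by ring_nf; linarith
    rcases mul_eq_zero.mp h7 with h | h
    · left; linarith
    · right; linarith
  refine ⟨a, a.2, ?_⟩
  rcases ha' with h | h
  · left
    rw [hexp, h]
    simp
  · right
    rw [hexp, h]
    simp

/-- A class function whose inner products with the relevant characters are compatible is
constant on the non-identity elements of the kernel. -/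
theorem const_of_orth (K : Subgroup G) [hK : K.Normal] [Fintype K]
    (hfr : ∀ x : G, x ∉ K → ∀ k ∈ K, x * k = k * x → k = 1)
    (β : G → ℂ) (hβ : IsClassFunction G β)
    (horth : ∀ χ ξ : G → ℂ, IsIrrCharacter G χ → (∃ k : G, k ∈ K ∧ χ k ≠ χ 1) →
      IsIrrCharacter G ξ → (∃ k : G, k ∈ K ∧ ξ k ≠ ξ 1) →
      ξ 1 * classInner β χ = χ 1 * classInner β ξ) :
    ∃ c : ℂ, ∀ k ∈ K, k ≠ 1 → β k = c := by
  by_cases hex : ∃ χ₀ : G → ℂ, IsIrrCharacter G χ₀ ∧ ∃ k : G, k ∈ K ∧ χ₀ k ≠ χ₀ 1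
  · obtain ⟨χ₀, hχ₀, hrel₀⟩ := hex
    have h0 := irr_apply_one_ne_zero hχ₀
    refine ⟨_, fun k hk hk1 => const_on_kernel K hfr β hβ (classInner β χ₀ / χ₀ 1) ?_ k hk hk1⟩
    intro ξ hξ hrelξ
    have h1 := horth χ₀ ξ hχ₀ hrel₀ hξ hrelξ
    rw [div_mul_eq_mul_div, eq_div_iff h0]
    linear_combination -h1
  · refine ⟨_, fun k hk hk1 => const_on_kernel K hfr β hβ 0 ?_ k hk hk1⟩
    intro ξ hξ hrelξ
    exact absurd ⟨ξ, hξ, hrelξ⟩ hex

/-- With at least two relevant characters, a relevant character is not constant on the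
non-identity elements of the kernel. -/
theorem nonconst_of_two (K : Subgroup G) [hK : K.Normal] [Fintype K]
    (hfr : ∀ x : G, x ∉ K → ∀ k ∈ K, x * k = k * x → k = 1)
    {χ ξ : G → ℂ} (hχ : IsIrrCharacter G χ) (hrelχ : ∃ k : G, k ∈ K ∧ χ k ≠ χ 1)
    (hξ : IsIrrCharacter G ξ) (hrelξ : ∃ k : G, k ∈ K ∧ ξ k ≠ ξ 1) (hne : χ ≠ ξ) :
    ∃ a ∈ K, ∃ b ∈ K, a ≠ 1 ∧ b ≠ 1 ∧ χ a ≠ χ b := by
  classical
  by_contra hcon
  push Not at hcon
  obtain ⟨k₁, hk₁, hk₁1⟩ := hrelχ
  have hk₁ne : k₁ ≠ 1 := fun h => hk₁1 (by rw [h])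
  have hv : ∀ k ∈ K, k ≠ 1 → χ k = χ k₁ := fun k hk hk1 => hcon k hk k₁ hk₁ hk1 hk₁ne
  have h0 : classInner χ ξ = 0 := irr_inner_ne hχ hξ hne
  have hcut : cut K χ = χ := by
    funext x
    by_cases hx : x ∈ K
    · exact cut_mem K χ hx
    · rw [cut_not_mem K χ hx, vanish_off hχ K hfr ⟨k₁, hk₁, hk₁1⟩ x hx]
  rw [← hcut, inner_cut] at h0
  have hS := sum_eq_zero_of_relevant hξ K hrelξ
  have hterm : ∀ k : K, χ k * conj (ξ k) = χ k₁ * conj (ξ k) +
      (if k = 1 then (χ 1 - χ k₁) * ξ 1 else 0) := by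
    intro k
    by_cases hk : k = 1
    · rw [if_pos hk, hk]
      simp only [Subgroup.coe_one]
      rw [conj_irr_one hξ]
      ring
    · rw [if_neg hk, add_zero, hv k k.2 (fun h => hk (Subtype.ext h))]
  rw [Finset.sum_congr rfl (fun k _ => hterm k), Finset.sum_add_distrib, ← Finset.mul_sum,
    ← map_sum, hS, map_zero, mul_zero, zero_add, Finset.sum_ite_eq' Finset.univ (1 : K),
    if_pos (Finset.mem_univ _)] at h0
  have hG0 := card_ne_zero (G := G)
  have h1 : (χ 1 - χ k₁) * ξ 1 = 0 := by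
    rcases mul_eq_zero.mp h0 with h | h
    · exact absurd (inv_eq_zero.mp h) hG0
    · exact h
  rcases mul_eq_zero.mp h1 with h | h
  · exact hk₁1 (sub_eq_zero.mp h).symm
  · exact irr_apply_one_ne_zero hξ h

/-- The relevant characters, weighted by degree, sum to minus the index at non-identity
elements of the kernel. -/
theorem sum_rel_deg_mul (K : Subgroup G) [hK : K.Normal] [Fintype K] [Fintype (IrrCharacter G)]
    [DecidablePred (fun ξ : IrrCharacter G => ∀ k ∈ K, (ξ : G → ℂ) k = (ξ : G → ℂ) 1)]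
    (k : G) (hk : k ∈ K) (hk1 : k ≠ 1) :
    ∑ ξ : IrrCharacter G, (if ∀ k ∈ K, (ξ : G → ℂ) k = (ξ : G → ℂ) 1 then 0
      else (ξ : G → ℂ) 1 * (ξ : G → ℂ) k) = -(K.index : ℂ) := by
  classical
  have h1 := second_orthogonality (G := G) 1 k
  have hnc : ¬ IsConj 1 k := fun hc => hk1 (isConj_one_right.mp hc)
  rw [if_neg hnc] at h1
  have h2 := sum_irrel_sq K
  have hterm : ∀ ξ : IrrCharacter G, (ξ : G → ℂ) k * conj ((ξ : G → ℂ) 1) =
      (if ∀ k ∈ K, (ξ : G → ℂ) k = (ξ : G → ℂ) 1 then (ξ : G → ℂ) 1 ^ 2 else 0) +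
      (if ∀ k ∈ K, (ξ : G → ℂ) k = (ξ : G → ℂ) 1 then 0
        else (ξ : G → ℂ) 1 * (ξ : G → ℂ) k) := by
    intro ξ
    rw [conj_irr_one ξ.2]
    by_cases hirr : ∀ k ∈ K, (ξ : G → ℂ) k = (ξ : G → ℂ) 1
    · rw [if_pos hirr, if_pos hirr, hirr k hk]
      ring
    · rw [if_neg hirr, if_neg hirr]
      ring
  rw [Finset.sum_congr rfl (fun ξ _ => hterm ξ), Finset.sum_add_distrib, h2] at h1
  linear_combination h1

/-- A generalized character constant off the identity on a nontrivial group takes a rational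
value there. -/
theorem rat_of_const {β : G → ℂ} (hβ : IsGeneralizedCharacter G β) (c : ℂ)
    (hc : ∀ k : G, k ≠ 1 → β k = c) (hnt : ∃ k : G, k ≠ 1) : ∃ r : ℚ, c = r := by
  classical
  obtain ⟨χ, ψ, hχ, hψ, rfl⟩ := hβ
  obtain ⟨n₁, hn₁⟩ := classInner_nat hχ (isCharacter_one (G := G))
  obtain ⟨n₂, hn₂⟩ := classInner_nat hψ (isCharacter_one (G := G))
  obtain ⟨d₁, hd₁⟩ := isCharacter_apply_one hχ
  obtain ⟨d₂, hd₂⟩ := isCharacter_apply_one hψ
  have h1 : classInner (χ - ψ) (fun _ => 1) = (n₁ : ℂ) - n₂ := by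
    rw [classInner_sub_left, hn₁, hn₂]
  rw [classInner_def] at h1
  have hterm : ∀ x : G, (χ - ψ) x * conj ((fun _ : G => (1 : ℂ)) x) =
      c + (if x = 1 then ((d₁ : ℂ) - d₂ - c) else 0) := by
    intro x
    by_cases hx : x = 1
    · rw [if_pos hx, hx]
      simp [hd₁, hd₂]
    · rw [if_neg hx, add_zero, hc x hx]
      simp
  rw [Finset.sum_congr rfl (fun x _ => hterm x), Finset.sum_add_distrib, Finset.sum_const,
    Finset.card_univ, Finset.sum_ite_eq' Finset.univ (1 : G), if_pos (Finset.mem_univ _),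
    nsmul_eq_mul, ← Nat.card_eq_fintype_card] at h1
  have hG0 := card_ne_zero (G := G)
  have hG1 : (Nat.card G : ℂ) - 1 ≠ 0 := by
    obtain ⟨k, hk⟩ := hnt
    have h2 : 1 < Nat.card G := by
      rw [Nat.card_eq_fintype_card]
      exact Fintype.one_lt_card_iff.mpr ⟨k, 1, hk⟩
    have h3 : (1 : ℝ) < (Nat.card G : ℝ) := by exact_mod_cast h2
    intro h4
    have h5 : (Nat.card G : ℂ) = 1 := by linear_combination h4
    have h6 : (Nat.card G : ℝ) = 1 := by exact_mod_cast h5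
    linarith
  refine ⟨(((n₁ : ℚ) - n₂) * (Nat.card G : ℚ) - ((d₁ : ℚ) - d₂)) / ((Nat.card G : ℚ) - 1), ?_⟩
  push_cast
  rw [eq_div_iff hG1]
  field_simp at h1
  linear_combination h1

theorem isGen_isIntegral {f : G → ℂ} (hf : IsGeneralizedCharacter G f) (g : G) :
    IsIntegral ℤ (f g) := by
  obtain ⟨a, b, ha, hb, rfl⟩ := hf
  exact IsIntegral.sub (Cfsg.Agent.Lib_helper3_CharDiag.isCharacter_isIntegral ha g)
    (Cfsg.Agent.Lib_helper3_CharDiag.isCharacter_isIntegral hb g)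

end NLevel

section GLevel

variable {G : Type u} [Group G] [Fintype G] (H : Subgroup G) [Fintype H]

theorem mem_zspan {X : Type u} {S : Set (X → ℂ)} {χ : X → ℂ} (h : χ ∈ S) : χ ∈ zspan S :=
  Submodule.subset_span h

theorem smul_mem_zspan {X : Type u} {S : Set (X → ℂ)} {χ : X → ℂ} (h : χ ∈ zspan S) (n : ℤ) :
    n • χ ∈ zspan S :=
  Submodule.smul_mem (Submodule.span ℤ S) n h

theorem add_mem_zspan {X : Type u} {S : Set (X → ℂ)} {χ ξ : X → ℂ} (h : χ ∈ zspan S)
    (h' : ξ ∈ zspan S) : χ + ξ ∈ zspan S :=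
  Submodule.add_mem (Submodule.span ℤ S) h h'

theorem zsmul_fun_apply {X : Type u} (n : ℤ) (f : X → ℂ) (x : X) : (n • f) x = (n : ℂ) * f x := by
  rw [Pi.smul_apply, zsmul_eq_mul]

/-- The star map on degree-weighted differences is induction. -/
theorem star_comb (S : Set (H → ℂ)) (hSirr : ∀ χ ∈ S, IsIrrCharacter H χ)
    (star : (H → ℂ) → (G → ℂ)) (hstar : IsLinearIsometryOn (zspan S) star)
    (hext : ∀ α ∈ zspanOn S ({1}ᶜ : Set H), star α = indFun H α)
    {χ ξ : H → ℂ} (hχ : χ ∈ S) (hξ : ξ ∈ S) :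
    indFun H ((ξ 1) • χ - (χ 1) • ξ) = (ξ 1) • star χ - (χ 1) • star ξ := by
  obtain ⟨dχ, -, hdχ⟩ := irr_apply_one_pos (hSirr χ hχ)
  obtain ⟨dξ, -, hdξ⟩ := irr_apply_one_pos (hSirr ξ hξ)
  have hχz : χ ∈ zspan S := mem_zspan hχ
  have hξz : ξ ∈ zspan S := mem_zspan hξ
  have ha : ((dξ : ℤ) • χ) ∈ zspan S := smul_mem_zspan hχz _
  have hb : ((-(dχ : ℤ)) • ξ) ∈ zspan S := smul_mem_zspan hξz _
  have hab : ((dξ : ℤ) • χ + (-(dχ : ℤ)) • ξ) ∈ zspan S := add_mem_zspan ha hb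
  have hα : ((dξ : ℤ) • χ + (-(dχ : ℤ)) • ξ) ∈ zspanOn S ({1}ᶜ : Set H) := by
    refine ⟨hab, ?_⟩
    intro x hx
    have hx1 : x = 1 := by simpa using hx
    rw [hx1]
    simp only [Pi.add_apply, zsmul_fun_apply, hdχ, hdξ, Int.cast_natCast, Int.cast_neg]
    ring
  have h1 := hext _ hα
  rw [hstar.1 _ ha _ hb, hstar.2.1 _ hχz, hstar.2.1 _ hξz] at h1
  have e1 : (ξ 1) • χ - (χ 1) • ξ = (dξ : ℤ) • χ + (-(dχ : ℤ)) • ξ := by
    ext x
    simp only [Pi.add_apply, Pi.sub_apply, zsmul_fun_apply]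
    simp only [Pi.smul_apply, hdχ, hdξ, smul_eq_mul, Int.cast_natCast, Int.cast_neg]
    ring
  have e2 : (ξ 1) • star χ - (χ 1) • star ξ = (dξ : ℤ) • star χ + (-(dχ : ℤ)) • star ξ := by
    ext x
    simp only [Pi.add_apply, Pi.sub_apply, zsmul_fun_apply]
    simp only [Pi.smul_apply, hdχ, hdξ, smul_eq_mul, Int.cast_natCast, Int.cast_neg]
    ring
  rw [e1, e2, ← h1]

/-- Frobenius reciprocity for degree-weighted differences of members of a coherent set. -/
theorem inner_restrict_comb (S : Set (H → ℂ)) (hSirr : ∀ χ ∈ S, IsIrrCharacter H χ)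
    (star : (H → ℂ) → (G → ℂ)) (hstar : IsLinearIsometryOn (zspan S) star)
    (hext : ∀ α ∈ zspanOn S ({1}ᶜ : Set H), star α = indFun H α)
    {χ ξ : H → ℂ} (hχ : χ ∈ S) (hξ : ξ ∈ S) (Ψ : G → ℂ) (hΨ : IsClassFunction G Ψ) :
    ξ 1 * classInner (fun x : H => Ψ x) χ - χ 1 * classInner (fun x : H => Ψ x) ξ =
      ξ 1 * classInner Ψ (star χ) - χ 1 * classInner Ψ (star ξ) := by
  have h1 : classInner (fun x : H => Ψ x) ((ξ 1) • χ - (χ 1) • ξ) =
      classInner Ψ (indFun H ((ξ 1) • χ - (χ 1) • ξ)) := by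
    rw [← classInner_conj_symm, ← classInner_conj_symm (indFun H ((ξ 1) • χ - (χ 1) • ξ)) Ψ,
      frobenius_reciprocity H _ Ψ hΨ]
  rw [star_comb H S hSirr star hstar hext hχ hξ] at h1
  rw [classInner_sub_right, classInner_sub_right, classInner_smul_right, classInner_smul_right,
    classInner_smul_right, classInner_smul_right, conj_irr_one (hSirr ξ hξ),
    conj_irr_one (hSirr χ hχ)] at h1
  exact h1

end GLevel

section TIFNLevel

variable {G : Type u} [Group G] [Fintype G] (K : Subgroup G)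

theorem hfr_of_hC (hC : ∀ k ∈ K, k ≠ 1 → Subgroup.centralizer ({k} : Set G) ≤ K) :
    ∀ x : Subgroup.normalizer (K : Set G), x ∉ K.subgroupOf (Subgroup.normalizer (K : Set G)) →
      ∀ k ∈ K.subgroupOf (Subgroup.normalizer (K : Set G)), x * k = k * x → k = 1 := by
  intro x hx k hk hxk
  by_contra hk1
  apply hx
  rw [Subgroup.mem_subgroupOf] at hk ⊢
  have hk1' : (k : G) ≠ 1 := fun h => hk1 (Subtype.ext h)
  apply hC (k : G) hk hk1'
  rw [Subgroup.mem_centralizer_iff]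
  intro z hz
  rw [Set.mem_singleton_iff] at hz
  rw [hz]
  exact (congrArg Subtype.val hxk).symm

/-- The main constancy statement for coherent sets attached to a T.I. subgroup with Frobenius
normalizer. -/
theorem const_of_star (hC : ∀ k ∈ K, k ≠ 1 → Subgroup.centralizer ({k} : Set G) ≤ K)
    [Fintype ↥(Subgroup.normalizer (K : Set G))]
    (S : Set (↥(Subgroup.normalizer (K : Set G)) → ℂ))
    (hS : S = {χ : ↥(Subgroup.normalizer (K : Set G)) → ℂ |
      IsIrrCharacter ↥(Subgroup.normalizer (K : Set G)) χ ∧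
        ∃ k : ↥(Subgroup.normalizer (K : Set G)), (k : G) ∈ K ∧ χ k ≠ χ 1})
    (star : (↥(Subgroup.normalizer (K : Set G)) → ℂ) → (G → ℂ))
    (hstar : IsLinearIsometryOn (zspan S) star)
    (hext : ∀ α ∈ zspanOn S ({1}ᶜ : Set ↥(Subgroup.normalizer (K : Set G))),
      star α = indFun (Subgroup.normalizer (K : Set G)) α)
    (Ψ : G → ℂ) (hΨ : IsClassFunction G Ψ)
    (φ : ↥(Subgroup.normalizer (K : Set G)) → ℂ)
    (hφ : IsClassFunction ↥(Subgroup.normalizer (K : Set G)) φ)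
    (hinner : ∀ χ ∈ S, classInner Ψ (star χ) = classInner φ χ) :
    ∃ c : ℂ, ∀ k : ↥(Subgroup.normalizer (K : Set G)), (k : G) ∈ K → k ≠ 1 →
      Ψ k - φ k = c := by
  classical
  have hKn : (K.subgroupOf (Subgroup.normalizer (K : Set G))).Normal :=
    Subgroup.normal_in_normalizer
  have := Fintype.ofFinite (K.subgroupOf (Subgroup.normalizer (K : Set G)))
  have hSirr : ∀ χ ∈ S, IsIrrCharacter ↥(Subgroup.normalizer (K : Set G)) χ := by
    intro χ hχ
    rw [hS] at hχ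
    exact hχ.1
  have hβ : IsClassFunction ↥(Subgroup.normalizer (K : Set G))
      ((fun x : ↥(Subgroup.normalizer (K : Set G)) => Ψ x) - φ) := by
    apply isClassFunction_sub _ hφ
    intro g h
    exact hΨ g h
  obtain ⟨c, hc⟩ := const_of_orth (K.subgroupOf (Subgroup.normalizer (K : Set G)))
    (hfr_of_hC K hC) _ hβ (by
      intro χ ξ hχ hrelχ hξ hrelξ
      have hχS : χ ∈ S := by
        rw [hS]
        exact ⟨hχ, hrelχ⟩
      have hξS : ξ ∈ S := by
        rw [hS]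
        exact ⟨hξ, hrelξ⟩
      have h1 := inner_restrict_comb (Subgroup.normalizer (K : Set G)) S hSirr star hstar hext
        hχS hξS Ψ hΨ
      rw [hinner χ hχS, hinner ξ hξS] at h1
      rw [classInner_sub_left, classInner_sub_left]
      linear_combination h1)
  exact ⟨c, fun k hk hk1 => hc k hk hk1⟩

end TIFNLevel

end Cfsg.Agent.Lib_helper3_TIFN2
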