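import Cfsg.Statements.S0164
import Cfsg.Agent.Lib_helper3_Brauer2
import Cfsg.Agent.Lib_helper3_GenChar

set_option autoImplicit false
open Cfsg

namespace Cfsg.Agent.S0164

/-- Brauer's characterisation of characters: a class function on a finite group whose restriction to every elementary subgroup is a generalized character is a generalized character. -/
theorem result {G : Type*} [Group G] [Finite G] (θ : G → ℂ) (hθ : Cfsg.IsClassFunction G θ) (hE : ∀ (E : Subgroup G) (p : ℕ), p.Prime → Cfsg.IsElementary p E → Cfsg.IsGeneralizedCharacter E (fun e : E => θ e)) : Cfsg.IsGeneralizedCharacter G θ := by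
  classical
  have := Fintype.ofFinite G
  obtain ⟨l, hl, hsum⟩ := Cfsg.Agent.Lib_helper3_Brauer2.brauer_induction
    (Cfsg.Agent.Lib_helper3_CharBasic.isCharacter_one (G := G))
  have h1 : θ = (l.map fun t => ((t.2.2 : ℂ) • Cfsg.indFun t.1 (fun e => ((t.2.1 e : ℂˣ) : ℂ)))
      * θ).sum := by
    rw [List.sum_map_mul_right, ← hsum]
    funext x
    simp
  rw [h1]
  apply Cfsg.Agent.Lib_helper3_GenChar.isGen_list_sum
  intro f hf
  obtain ⟨t, ht, rfl⟩ := List.mem_map.mp hf
  obtain ⟨p, hp, hel⟩ := hl t ht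
  rw [smul_mul_assoc]
  apply Cfsg.Agent.Lib_helper3_GenChar.isGen_intCast_smul
  have h2 := Cfsg.Agent.Lib_helper3_AbInd.indFun_mul_restrict t.1
    (fun e => ((t.2.1 e : ℂˣ) : ℂ)) hθ
  have h3 : Cfsg.indFun t.1 (fun e => ((t.2.1 e : ℂˣ) : ℂ)) * θ
      = fun x => Cfsg.indFun t.1 (fun e => ((t.2.1 e : ℂˣ) : ℂ)) x * θ x := rfl
  rw [h3, ← h2]
  apply Cfsg.Agent.Lib_helper3_GenChar.isGen_ind
  exact Cfsg.Agent.Lib_helper3_GenChar.isGen_char_mul
    (Cfsg.Agent.Lib_helper3_CharBasic.isCharacter_of_monoidHom t.2.1) (hE t.1 p hp hel)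
end Cfsg.Agent.S0164
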