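import Mathlib
import Cfsg.Prelude.Def_Characters
import Cfsg.Agent.Lib_helper3_AlgComb
import Cfsg.Agent.Lib_helper3_GenChar
import Cfsg.Agent.Lib_helper3_TIFN2
import Cfsg.Agent.Lib_helper3_CharCount
import Cfsg.Agent.S0164

set_option autoImplicit false
open Cfsg
open Cfsg.Agent.Lib_helper3_CharBasic Cfsg.Agent.Lib_helper3_CharInd
  Cfsg.Agent.Lib_helper3_CharMore Cfsg.Agent.Lib_helper3_GenChar
open scoped ComplexConjugate

namespace Cfsg.Agent.Lib_helper3_BrSuz

universe u

section Elem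

/-- Subgroups of elementary groups are elementary. -/
theorem isElementary_subgroup {p : ℕ} (hp : p.Prime) {E : Type u} [Group E] [Finite E]
    (hE : IsElementary p E) (B : Subgroup E) : IsElementary p B := by
  obtain ⟨x, hx, hcop, k, hk⟩ := hE
  set Z : Subgroup E := Subgroup.zpowers x with hZ
  have hZc : Z ≤ Subgroup.center E := (Subgroup.zpowers_le).mpr hx
  have hZn : Z.Normal := by
    refine ⟨fun n hn g => ?_⟩
    have h1 : g * n * g⁻¹ = n := by
      have h2 := Subgroup.mem_center_iff.mp (hZc hn) g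
      rw [h2, mul_assoc, mul_inv_cancel, mul_one]
    rwa [h1]
  set ZB : Subgroup B := Z.subgroupOf B with hZB
  have hcyc : IsCyclic ZB := by
    let φ : ZB →* Z :=
      { toFun := fun b => ⟨((b : B) : E), Subgroup.mem_subgroupOf.mp b.2⟩
        map_one' := rfl
        map_mul' := fun _ _ => rfl }
    apply isCyclic_of_injective φ
    intro a b hab
    have h1 := congrArg Subtype.val hab
    exact Subtype.ext (Subtype.ext h1)
  obtain ⟨z, hz⟩ := hcyc.exists_generator
  have hzZ : ((z : B) : E) ∈ Z := Subgroup.mem_subgroupOf.mp z.2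
  refine ⟨(z : B), ?_, ?_, ?_⟩
  · rw [Subgroup.mem_center_iff]
    intro b
    apply Subtype.ext
    exact Subgroup.mem_center_iff.mp (hZc hzZ) (b : E)
  · have h2 : orderOf (z : B) = orderOf (((z : B) : E)) := (Subgroup.orderOf_coe (z : B)).symm
    rw [h2]
    exact Nat.Coprime.coprime_dvd_left (orderOf_dvd_of_mem_zpowers hzZ) hcop
  · have h3 : Subgroup.zpowers (z : B) = ZB := by
      ext w
      constructor
      · intro hw
        obtain ⟨i, rfl⟩ := Subgroup.mem_zpowers_iff.mp hw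
        exact ZB.zpow_mem z.2 i
      · intro hw
        obtain ⟨i, hi⟩ := Subgroup.mem_zpowers_iff.mp (hz ⟨w, hw⟩)
        refine Subgroup.mem_zpowers_iff.mpr ⟨i, ?_⟩
        have h4 := congrArg Subtype.val hi
        simpa using h4
    rw [h3]
    have h4 : ZB.index ∣ Z.index := Subgroup.relIndex_dvd_index_of_normal Z B
    rw [hk] at h4
    obtain ⟨j, -, hj⟩ := (Nat.dvd_prime_pow hp).mp h4
    exact ⟨j, hj⟩

/-- A subgroup of exponent dividing `N` in a group of order dividing `M * N`. -/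
theorem card_dvd_of_pow {E : Type u} [Group E] [Finite E] {M N : ℕ} (hMN : Nat.Coprime M N)
    (hcard : Nat.card E ∣ M * N) (B : Subgroup E) (hB : ∀ b ∈ B, b ^ N = 1) :
    Nat.card B ∣ N := by
  have h1 : Nat.card B ∣ M * N := (Subgroup.card_subgroup_dvd_card _).trans hcard
  have h2 : Nat.Coprime (Nat.card B) M := by
    apply Nat.coprime_of_dvd
    intro q hq hq1 hq2
    have := Fact.mk hq
    obtain ⟨b, hb⟩ := exists_prime_orderOf_dvd_card' q hq1
    have hqN : q ∣ N := by
      rw [← hb, ← Subgroup.orderOf_coe b]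
      exact orderOf_dvd_of_pow_eq_one (hB b b.2)
    have hqq : Nat.Coprime q q :=
      Nat.Coprime.coprime_dvd_right hqN (Nat.Coprime.coprime_dvd_left hq2 hMN)
    exact hq.one_lt.ne' (Nat.Coprime.eq_one_of_dvd hqq (dvd_refl q))
  exact Nat.Coprime.dvd_of_dvd_mul_left h2 h1

/-- Cyclic groups are elementary for a suitable prime. -/
theorem exists_elementary_zpowers {G : Type u} [Group G] [Finite G] (y : G) :
    ∃ p : ℕ, p.Prime ∧ IsElementary p (Subgroup.zpowers y) := by
  obtain ⟨p, hp1, hp⟩ := Nat.exists_infinite_primes (orderOf y + 1)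
  refine ⟨p, hp, ⟨y, Subgroup.mem_zpowers y⟩, ?_, ?_, 0, ?_⟩
  · rw [Subgroup.mem_center_iff]
    intro b
    obtain ⟨i, hi⟩ := Subgroup.mem_zpowers_iff.mp b.2
    apply Subtype.ext
    show (b : G) * y = y * (b : G)
    rw [← hi]
    exact ((Commute.refl y).zpow_left i).eq
  · have h1 : orderOf (⟨y, Subgroup.mem_zpowers y⟩ : Subgroup.zpowers y) = orderOf y :=
      (Subgroup.orderOf_coe (⟨y, Subgroup.mem_zpowers y⟩ : Subgroup.zpowers y)).symm
    rw [h1]
    apply Nat.Coprime.symm
    rw [Nat.Prime.coprime_iff_not_dvd hp]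
    exact Nat.not_dvd_of_pos_of_lt (orderOf_pos y) (by omega)
  · rw [pow_zero, Subgroup.index_eq_one]
    rw [eq_top_iff]
    intro w _
    obtain ⟨i, hi⟩ := Subgroup.mem_zpowers_iff.mp w.2
    refine Subgroup.mem_zpowers_iff.mpr ⟨i, ?_⟩
    apply Subtype.ext
    rw [← hi]
    simp

end Elem

section Main

variable {G : Type u} [Group G] [Fintype G] {H : Subgroup G} {m n t : ℕ}

/-- Every `x ^ t` is conjugate to an element of `H`. -/
theorem exists_rep (hmn : Nat.card G = m * n) (hn : Nat.card H = n) (ht0 : m ∣ t)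
    (helem : ∀ (E : Subgroup G) (p : ℕ), p.Prime → IsElementary p E →
      Nat.card E ∣ Nat.card H → ∃ g : G, E.map (MulAut.conj g).toMonoidHom ≤ H) (x : G) :
    ∃ h : H, IsConj (x ^ t) (h : G) := by
  obtain ⟨p, hp, hel⟩ := exists_elementary_zpowers (x ^ t)
  have hcard : Nat.card (Subgroup.zpowers (x ^ t)) ∣ Nat.card H := by
    rw [Nat.card_zpowers, hn]
    apply orderOf_dvd_of_pow_eq_one
    rw [← pow_mul]
    apply orderOf_dvd_iff_pow_eq_one.mp
    exact (hmn ▸ orderOf_dvd_natCard x).trans (Nat.mul_dvd_mul_right ht0 n)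
  obtain ⟨g, hg⟩ := helem _ p hp hel hcard
  have h1 : g * x ^ t * g⁻¹ ∈ H :=
    hg (Subgroup.mem_map.mpr ⟨x ^ t, Subgroup.mem_zpowers _, by simp [MulAut.conj_apply]⟩)
  exact ⟨⟨_, h1⟩, isConj_iff.mpr ⟨g, rfl⟩⟩

variable (r : G → H)

omit [Fintype G] in
theorem rep_iff (hfus : ∀ x ∈ H, ∀ y ∈ H, IsConj x y → ∃ h ∈ H, h * x * h⁻¹ = y)
    (hr : ∀ x : G, IsConj (x ^ t) (r x : G)) (x : G) (h : H) :
    IsConj (x ^ t) (h : G) ↔ IsConj (r x) h := by
  constructor
  · intro hx
    obtain ⟨k, hk, hkx⟩ := hfus (r x : G) (r x).2 (h : G) h.2 ((hr x).symm.trans hx)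
    exact isConj_iff.mpr ⟨⟨k, hk⟩, Subtype.ext hkx⟩
  · intro hx
    obtain ⟨k, hk⟩ := isConj_iff.mp hx
    have h1 : (k : G) * (r x : G) * (k : G)⁻¹ = (h : G) := by
      have h2 := congrArg Subtype.val hk
      simpa using h2
    exact (hr x).trans (isConj_iff.mpr ⟨(k : G), h1⟩)

omit [Fintype G] in
theorem isClassFunction_comp (hfus : ∀ x ∈ H, ∀ y ∈ H, IsConj x y → ∃ h ∈ H, h * x * h⁻¹ = y)
    (hr : ∀ x : G, IsConj (x ^ t) (r x : G)) {α : H → ℂ} (hα : IsClassFunction H α) :
    IsClassFunction G (fun x => α (r x)) := by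
  intro x g
  show α (r (g * x * g⁻¹)) = α (r x)
  have h1 : IsConj ((g * x * g⁻¹) ^ t) (r x : G) := by
    rw [conj_pow]
    exact (isConj_iff.mpr ⟨g, rfl⟩ : IsConj (x ^ t) (g * x ^ t * g⁻¹)).symm.trans (hr x)
  have h2 := (rep_iff r hfus hr (g * x * g⁻¹) (r x)).mp h1
  exact (isClassFunction_iff_isConj.mp hα) _ _ h2

omit [Fintype G] in
theorem comp_coe (hfus : ∀ x ∈ H, ∀ y ∈ H, IsConj x y → ∃ h ∈ H, h * x * h⁻¹ = y)
    (hr : ∀ x : G, IsConj (x ^ t) (r x : G)) (hHt : ∀ h : H, (h : G) ^ t = h)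
    {α : H → ℂ} (hα : IsClassFunction H α) (h : H) : α (r (h : G)) = α h := by
  have h1 : IsConj ((h : G) ^ t) (h : G) := by rw [hHt]
  have h2 := (rep_iff r hfus hr (h : G) h).mp h1
  exact (isClassFunction_iff_isConj.mp hα) _ _ h2

/-- The weight of an element of `H`: the size of its section over the size of its class. -/
noncomputable def wt (H : Subgroup G) (t : ℕ) (h : H) : ℂ :=
  (Nat.card {x : G // IsConj (x ^ t) (h : G)} : ℂ) / (Nat.card {k : H // IsConj h k} : ℂ)

theorem sum_comp [Fintype H]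
    (hfus : ∀ x ∈ H, ∀ y ∈ H, IsConj x y → ∃ h ∈ H, h * x * h⁻¹ = y)
    (hr : ∀ x : G, IsConj (x ^ t) (r x : G)) {F : H → ℂ} (hF : IsClassFunction H F) :
    ∑ x : G, F (r x) = ∑ h : H, F h * wt H t h := by
  classical
  have hA : ∀ x : G, F (r x) = ∑ h : H, if IsConj (x ^ t) (h : G) then
      F h / (Nat.card {k : H // IsConj h k} : ℂ) else 0 := by
    intro x
    have h1 : ∀ h : H, (if IsConj (x ^ t) (h : G) then
        F h / (Nat.card {k : H // IsConj h k} : ℂ) else 0) =
        if IsConj (r x) h then F (r x) / (Nat.card {k : H // IsConj (r x) k} : ℂ) else 0 := by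
      intro h
      by_cases hc : IsConj (r x) h
      · rw [if_pos ((rep_iff r hfus hr x h).mpr hc), if_pos hc]
        have e1 : F h = F (r x) := ((isClassFunction_iff_isConj.mp hF) _ _ hc).symm
        have e2 : Nat.card {k : H // IsConj h k} = Nat.card {k : H // IsConj (r x) k} := by
          apply Nat.card_congr
          exact Equiv.subtypeEquivRight
            (fun k => ⟨fun hk => hc.trans hk, fun hk => hc.symm.trans hk⟩)
        rw [e1, e2]
      · rw [if_neg (fun hc' => hc ((rep_iff r hfus hr x h).mp hc')), if_neg hc]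
    rw [Finset.sum_congr rfl (fun h _ => h1 h), ← Finset.sum_filter, Finset.sum_const,
      nsmul_eq_mul]
    have e3 : ((Finset.univ.filter (fun h : H => IsConj (r x) h)).card : ℂ) =
        (Nat.card {k : H // IsConj (r x) k} : ℂ) := by
      rw [Nat.card_eq_fintype_card, Fintype.card_subtype]
    have e4 : (Nat.card {k : H // IsConj (r x) k} : ℂ) ≠ 0 := by
      have : Nonempty {k : H // IsConj (r x) k} := ⟨⟨r x, IsConj.refl _⟩⟩
      exact_mod_cast (Nat.card_pos (α := {k : H // IsConj (r x) k})).ne'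
    rw [e3]
    field_simp
  rw [Finset.sum_congr rfl (fun x _ => hA x), Finset.sum_comm]
  apply Finset.sum_congr rfl
  intro h _
  rw [← Finset.sum_filter, Finset.sum_const, nsmul_eq_mul]
  unfold wt
  rw [Nat.card_eq_fintype_card (α := {x : G // IsConj (x ^ t) (h : G)}), Fintype.card_subtype]
  ring

theorem inner_comp [Fintype H]
    (hfus : ∀ x ∈ H, ∀ y ∈ H, IsConj x y → ∃ h ∈ H, h * x * h⁻¹ = y)
    (hr : ∀ x : G, IsConj (x ^ t) (r x : G)) {α β : H → ℂ} (hα : IsClassFunction H α)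
    (hβ : IsClassFunction H β) :
    classInner (fun x => α (r x)) (fun x => β (r x)) =
      classInner (fun h => wt H t h / (H.index : ℂ) * α h) β := by
  have hF : IsClassFunction H (fun h => α h * conj (β h)) := by
    intro h k
    show α (k * h * k⁻¹) * conj (β (k * h * k⁻¹)) = α h * conj (β h)
    rw [hα h k, hβ h k]
  rw [classInner_def, classInner_def, sum_comp r hfus hr hF]
  have h1 : (Nat.card G : ℂ) = (Nat.card H : ℂ) * (H.index : ℂ) := by
    rw [← Nat.cast_mul, Subgroup.card_mul_index]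
  have h2 : (Nat.card H : ℂ) ≠ 0 := card_subgroup_ne_zero H
  have h3 : (H.index : ℂ) ≠ 0 := by
    have : H.index ≠ 0 := Subgroup.index_ne_zero_of_finite
    exact_mod_cast this
  rw [h1, Finset.mul_sum, Finset.mul_sum]
  apply Finset.sum_congr rfl
  intro h _
  field_simp

end Main

section Gen

variable {G : Type u} [Group G] [Fintype G] {H : Subgroup G} {m n t : ℕ} (r : G → H)

/-- The transported character is a generalized character. -/
theorem isGen_comp (hmn : Nat.card G = m * n) (hn : Nat.card H = n) (hcop : Nat.Coprime m n)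
    (ht1 : t ≡ 1 [MOD n]) (ht0 : m ∣ t)
    (hfus : ∀ x ∈ H, ∀ y ∈ H, IsConj x y → ∃ h ∈ H, h * x * h⁻¹ = y)
    (helem : ∀ (E : Subgroup G) (p : ℕ), p.Prime → IsElementary p E →
      Nat.card E ∣ Nat.card H → ∃ g : G, E.map (MulAut.conj g).toMonoidHom ≤ H)
    (hr : ∀ x : G, IsConj (x ^ t) (r x : G)) {ψ : H → ℂ} (hψ : IsCharacter H ψ) :
    IsGeneralizedCharacter G (fun x => ψ (r x)) := by
  have hψc := isClassFunction_of_isCharacter hψ
  apply Cfsg.Agent.S0164.result _ (isClassFunction_comp r hfus hr hψc)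
  intro E p hp hel
  have hexp : ∀ e : E, e ^ (m * n) = 1 := by
    intro e
    apply Subtype.ext
    rw [Subgroup.coe_pow, Subgroup.coe_one]
    exact orderOf_dvd_iff_pow_eq_one.mp (hmn ▸ orderOf_dvd_natCard (e : G))
  have hcardE : Nat.card E ∣ m * n := hmn ▸ Subgroup.card_subgroup_dvd_card E
  have hmul := Cfsg.Agent.Lib_helper3_AlgComb.pow_mul_of_elementary hp hel hcop hexp ht1 ht0
  set f : E →* E := Cfsg.Agent.Lib_helper3_AlgComb.powHom t hmul with hf
  set B' : Subgroup G := f.range.map E.subtype with hB'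
  have hB'el : IsElementary p B' :=
    Cfsg.Agent.Lib_helper3_Brauer.isElementary_of_mulEquiv
      (f.range.equivMapOfInjective E.subtype (Subgroup.subtype_injective E))
      (isElementary_subgroup hp hel f.range)
  have hB'card : Nat.card B' ∣ Nat.card H := by
    rw [hn]
    have h1 : Nat.card B' = Nat.card f.range :=
      (Nat.card_congr (f.range.equivMapOfInjective E.subtype
        (Subgroup.subtype_injective E)).toEquiv).symm
    rw [h1]
    apply card_dvd_of_pow hcop hcardE f.range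
    rintro b ⟨e, rfl⟩
    show (e ^ t) ^ n = 1
    rw [← pow_mul]
    apply orderOf_dvd_iff_pow_eq_one.mp
    exact (orderOf_dvd_of_pow_eq_one (hexp e)).trans (Nat.mul_dvd_mul_right ht0 n)
  obtain ⟨g, hg⟩ := helem B' p hp hB'el hB'card
  have hmem : ∀ e : E, g * (e : G) ^ t * g⁻¹ ∈ H := by
    intro e
    apply hg
    refine Subgroup.mem_map.mpr ⟨(e : G) ^ t, Subgroup.mem_map.mpr ⟨f e, ⟨e, rfl⟩, rfl⟩, ?_⟩
    simp [MulAut.conj_apply]
  let φ : E →* H :=
    { toFun := fun e => ⟨g * (e : G) ^ t * g⁻¹, hmem e⟩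
      map_one' := by
        apply Subtype.ext
        simp
      map_mul' := by
        intro e e'
        apply Subtype.ext
        have h1 := congrArg Subtype.val (hmul e e')
        simp only [Subgroup.coe_mul, Subgroup.coe_pow] at h1 ⊢
        rw [h1]
        group }
  have h1 : (fun e : E => ψ (r (e : G))) = ψ ∘ φ := by
    funext e
    have h2 : IsConj ((e : G) ^ t) ((φ e : H) : G) := isConj_iff.mpr ⟨g, rfl⟩
    have h3 := (rep_iff r hfus hr (e : G) (φ e)).mp h2
    exact (isClassFunction_iff_isConj.mp hψc) _ _ h3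
  rw [h1]
  exact isGen_of_char (isCharacter_comp φ hψ)

end Gen

section Weight

variable {G : Type u} [Group G] [Fintype G] {H : Subgroup G} {t : ℕ} (r : G → H)

theorem inner_char_gen_int {χ θ : G → ℂ} (hχ : IsCharacter G χ)
    (hθ : IsGeneralizedCharacter G θ) : ∃ z : ℤ, classInner χ θ = z := by
  obtain ⟨a, b, ha, hb, rfl⟩ := hθ
  obtain ⟨n₁, h₁⟩ := classInner_nat hχ ha
  obtain ⟨n₂, h₂⟩ := classInner_nat hχ hb
  refine ⟨(n₁ : ℤ) - n₂, ?_⟩
  rw [classInner_sub_right, h₁, h₂]
  push_cast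
  ring

omit [Fintype G] in
theorem isClassFunction_wt (H : Subgroup G) (t : ℕ) : IsClassFunction H (wt H t) := by
  intro h k
  unfold wt
  have e1 : Nat.card {x : G // IsConj (x ^ t) ((k * h * k⁻¹ : H) : G)} =
      Nat.card {x : G // IsConj (x ^ t) (h : G)} := by
    apply Nat.card_congr
    apply Equiv.subtypeEquivRight
    intro x
    have hc : IsConj (h : G) ((k * h * k⁻¹ : H) : G) := isConj_iff.mpr ⟨(k : G), by simp⟩
    exact ⟨fun hx => hx.trans hc.symm, fun hx => hx.trans hc⟩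
  have e2 : Nat.card {j : H // IsConj (k * h * k⁻¹) j} = Nat.card {j : H // IsConj h j} := by
    apply Nat.card_congr
    apply Equiv.subtypeEquivRight
    intro j
    have hc : IsConj h (k * h * k⁻¹) := isConj_iff.mpr ⟨k, rfl⟩
    exact ⟨fun hx => hc.trans hx, fun hx => hc.symm.trans hx⟩
  rw [e1, e2]

theorem wt_rat (hHt : ∀ h : H, (h : G) ^ t = h) (h : H) :
    ∃ q : ℚ, 0 < q ∧ wt H t h / (H.index : ℂ) = q := by
  have h1 : 0 < Nat.card {x : G // IsConj (x ^ t) (h : G)} := by
    have : Nonempty {x : G // IsConj (x ^ t) (h : G)} := ⟨⟨(h : G), by rw [hHt]⟩⟩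
    exact Nat.card_pos
  have h2 : 0 < Nat.card {k : H // IsConj h k} := by
    have : Nonempty {k : H // IsConj h k} := ⟨⟨h, IsConj.refl _⟩⟩
    exact Nat.card_pos
  have h3 : 0 < H.index := Nat.pos_of_ne_zero Subgroup.index_ne_zero_of_finite
  refine ⟨(Nat.card {x : G // IsConj (x ^ t) (h : G)} : ℚ) /
    (Nat.card {k : H // IsConj h k} : ℚ) / (H.index : ℚ), by positivity, ?_⟩
  unfold wt
  push_cast
  rfl

theorem wt_eq_one [Fintype H]
    (hfus : ∀ x ∈ H, ∀ y ∈ H, IsConj x y → ∃ h ∈ H, h * x * h⁻¹ = y)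
    (hr : ∀ x : G, IsConj (x ^ t) (r x : G)) (hHt : ∀ h : H, (h : G) ^ t = h)
    (hgen : ∀ ψ : H → ℂ, IsIrrCharacter H ψ → IsGeneralizedCharacter G (fun x => ψ (r x)))
    (h : H) : wt H t h / (H.index : ℂ) = 1 := by
  classical
  set W : H → ℂ := fun h => wt H t h / (H.index : ℂ) with hW
  have hWc : IsClassFunction H W := by
    intro h k
    show wt H t (k * h * k⁻¹) / _ = wt H t h / _
    rw [isClassFunction_wt H t h k]
  have hone : IsClassFunction H (fun _ : H => (1 : ℂ)) := fun _ _ => rfl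
  have hW1 : (fun h : H => wt H t h / (H.index : ℂ) * (fun _ : H => (1 : ℂ)) h) = W := by
    funext h
    simp [hW]
  have hint : ∀ ψ : H → ℂ, IsIrrCharacter H ψ → ∃ z : ℤ, classInner W ψ = z := by
    intro ψ hψ
    have h1 := inner_comp r hfus hr hone (isClassFunction_of_irr hψ)
    obtain ⟨z, hz⟩ := inner_char_gen_int (isCharacter_one (G := G)) (hgen ψ hψ)
    refine ⟨z, ?_⟩
    rw [← hz, ← hW1, ← h1]
  have hfinI := irr_finite (G := H)
  have := Fintype.ofFinite (IrrCharacter H)
  have hWint : ∀ h : H, IsIntegral ℤ (W h) := by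
    intro h
    rw [classFunction_eq_sum_apply W hWc h]
    apply IsIntegral.sum
    intro ψ _
    obtain ⟨z, hz⟩ := hint ψ ψ.2
    rw [hz]
    have hzint : IsIntegral ℤ ((z : ℤ) : ℂ) := by
      have := isIntegral_algebraMap (R := ℤ) (A := ℂ) (x := z)
      simpa using this
    exact IsIntegral.mul hzint
      (Cfsg.Agent.Lib_helper3_CharDiag.isCharacter_isIntegral (isCharacter_of_irr ψ.2) h)
  have hz : ∀ h : H, ∃ z : ℤ, 1 ≤ z ∧ W h = z := by
    intro h
    obtain ⟨q, hq0, hq⟩ := wt_rat hHt h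
    have hWq : W h = (q : ℂ) := hq
    have h3 : IsIntegral ℤ (algebraMap ℚ ℂ q) := by
      have h4 := hWint h
      rw [hWq] at h4
      simpa using h4
    have h5 := (isIntegral_algebraMap_iff (algebraMap ℚ ℂ).injective).mp h3
    obtain ⟨z, hz⟩ := IsIntegrallyClosed.isIntegral_iff.mp h5
    have hzq : (z : ℚ) = q := by simpa using hz
    refine ⟨z, ?_, ?_⟩
    · have h6 : (0 : ℚ) < z := hzq ▸ hq0
      have h7 : 0 < z := by exact_mod_cast h6
      omega
    · rw [hWq, ← hzq]
      push_cast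
      rfl
  choose z hz1 hzW using hz
  have hsum : ∑ h : H, W h = (Nat.card H : ℂ) := by
    have h1 := inner_comp r hfus hr hone hone
    rw [hW1] at h1
    have h2 : classInner (fun _ : G => (1 : ℂ)) (fun _ : G => (1 : ℂ)) = 1 :=
      irr_inner_self isIrrCharacter_one
    have h3 : classInner W (fun _ : H => (1 : ℂ)) = 1 := by
      rw [← h1]
      exact h2
    rw [classInner_def] at h3
    have h4 : (Nat.card H : ℂ) ≠ 0 := card_subgroup_ne_zero H
    have h5 : ∑ g : H, W g * conj ((fun _ : H => (1 : ℂ)) g) = ∑ h : H, W h := by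
      apply Finset.sum_congr rfl
      intro g _
      simp
    rw [h5] at h3
    field_simp at h3
    exact h3
  have hsumz : ∑ h : H, (z h - 1) = 0 := by
    have h1 : ((∑ h : H, z h : ℤ) : ℂ) = ((Nat.card H : ℤ) : ℂ) := by
      push_cast
      rw [← hsum]
      exact Finset.sum_congr rfl (fun h _ => (hzW h).symm)
    have h2 : ∑ h : H, z h = (Nat.card H : ℤ) := by exact_mod_cast h1
    rw [Finset.sum_sub_distrib, h2, Finset.sum_const, Finset.card_univ, Nat.card_eq_fintype_card]
    simp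
  have hz0 := (Finset.sum_eq_zero_iff_of_nonneg
    (fun h _ => by have := hz1 h; omega)).mp hsumz h (Finset.mem_univ h)
  have hz1' : z h = 1 := by omega
  show W h = 1
  rw [hzW h, hz1']
  simp

end Weight

section Final

/-- The Brauer–Suzuki theorem on Hall subgroups. -/
theorem brauer_suzuki {G : Type u} [Group G] [Finite G] (H : Subgroup G)
    (hHall : Nat.Coprime (Nat.card H) H.index)
    (hfus : ∀ x ∈ H, ∀ y ∈ H, IsConj x y → ∃ h ∈ H, h * x * h⁻¹ = y)
    (helem : ∀ (E : Subgroup G) (p : ℕ), p.Prime → IsElementary p E →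
      Nat.card E ∣ Nat.card H → ∃ g : G, E.map (MulAut.conj g).toMonoidHom ≤ H) :
    ∃ K : Subgroup G, K.Normal ∧ K ⊔ H = ⊤ ∧ K ⊓ H = ⊥ := by
  classical
  have := Fintype.ofFinite G
  have : Fintype H := Fintype.ofFinite H
  set n := Nat.card H with hn
  set m := H.index with hm
  have hmn : Nat.card G = m * n := by
    rw [mul_comm]
    exact (Subgroup.card_mul_index H).symm
  have hcop : Nat.Coprime m n := hHall.symm
  obtain ⟨t, ht1, ht0⟩ := Cfsg.Agent.Lib_helper3_AlgComb.exists_exponent hcop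
  have hHt : ∀ h : H, (h : G) ^ t = h := by
    intro h
    have h1 : orderOf (h : G) ∣ n := by
      rw [Subgroup.orderOf_coe]
      exact orderOf_dvd_natCard h
    have h2 := (pow_eq_pow_iff_modEq (x := (h : G))).mpr (ht1.of_dvd h1)
    rw [h2, pow_one]
  choose r hr using exists_rep hmn rfl ht0 helem
  have hgen : ∀ ψ : H → ℂ, IsCharacter H ψ → IsGeneralizedCharacter G (fun x => ψ (r x)) :=
    fun ψ hψ => isGen_comp r hmn rfl hcop ht1 ht0 hfus helem hr hψ
  have hW := wt_eq_one r hfus hr hHt (fun ψ hψ => hgen ψ (isCharacter_of_irr hψ))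
  have hrone : ∀ x : G, IsConj (x ^ t) (1 : G) → r x = 1 := by
    intro x hx
    have h1 : IsConj (x ^ t) (((1 : H) : G)) := by rwa [Subgroup.coe_one]
    have h2 := (rep_iff r hfus hr x 1).mp h1
    obtain ⟨c, hc⟩ := isConj_iff.mp h2.symm
    rw [← hc]
    simp
  have hr1 : r 1 = 1 := hrone 1 (by rw [one_pow])
  have hirr : ∀ ψ : H → ℂ, IsIrrCharacter H ψ → IsIrrCharacter G (fun x => ψ (r x)) := by
    intro ψ hψ
    have hψc := isClassFunction_of_irr hψ
    have h1 : classInner (fun x => ψ (r x)) (fun x => ψ (r x)) = 1 := by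
      rw [inner_comp r hfus hr hψc hψc]
      have h2 : (fun h => wt H t h / (H.index : ℂ) * ψ h) = ψ := by
        funext h
        rw [hW h, one_mul]
      rw [h2]
      exact irr_inner_self hψ
    obtain ⟨μ, hμ, h2 | h2⟩ := Cfsg.Agent.Lib_helper3_TIFN2.norm_one_gen
      (hgen ψ (isCharacter_of_irr hψ)) h1
    · rw [h2]
      exact hμ
    · exfalso
      have h4 := congrFun h2 1
      obtain ⟨a, ha, ha'⟩ := irr_apply_one_pos hψ
      obtain ⟨b, hb, hb'⟩ := irr_apply_one_pos hμ
      simp only [Pi.neg_apply] at h4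
      rw [hr1, ha', hb'] at h4
      have h5 : ((a + b : ℕ) : ℂ) = 0 := by
        push_cast
        rw [h4]
        ring
      have h6 : a + b = 0 := by exact_mod_cast h5
      omega
  let K : Subgroup G :=
    { carrier := {x | ∀ ψ : H → ℂ, IsIrrCharacter H ψ → ψ (r x) = ψ (r 1)}
      one_mem' := fun ψ hψ => rfl
      mul_mem' := by
        intro a b ha hb ψ hψ
        have h1 := Cfsg.Agent.Lib_helper3_CharDiag.isCharacter_eq_degree_mul
          (isCharacter_of_irr (hirr ψ hψ)) (g := a) (ha ψ hψ) b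
        exact h1.trans (hb ψ hψ)
      inv_mem' := by
        intro a ha ψ hψ
        have h1 := Cfsg.Agent.Lib_helper3_CharDiag.isCharacter_eq_degree_mul
          (isCharacter_of_irr (hirr ψ hψ)) (g := a) (ha ψ hψ) a⁻¹
        rw [mul_inv_cancel] at h1
        exact h1.symm }
  have hKmem : ∀ x : G, x ∈ K ↔ ∀ ψ : H → ℂ, IsIrrCharacter H ψ → ψ (r x) = ψ (r 1) :=
    fun x => Iff.rfl
  have hKn : K.Normal := by
    refine ⟨fun x hx g => ?_⟩
    rw [hKmem]
    intro ψ hψ
    have h1 := isClassFunction_of_irr (hirr ψ hψ) x g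
    exact h1.trans ((hKmem x).mp hx ψ hψ)
  have hKH : K ⊓ H = ⊥ := by
    rw [eq_bot_iff]
    intro x hx
    obtain ⟨hxK, hxH⟩ := hx
    rw [Subgroup.mem_bot]
    have h1 : IsConj (⟨x, hxH⟩ : H) 1 := by
      rw [Cfsg.Agent.Lib_helper3_CharCount.isConj_iff_forall_irr]
      intro ψ
      have h2 := (hKmem x).mp hxK ψ ψ.2
      have h3 := comp_coe r hfus hr hHt (isClassFunction_of_irr ψ.2) ⟨x, hxH⟩
      rw [hr1] at h2
      rw [← h3]
      exact h2
    have h5 : (⟨x, hxH⟩ : H) = 1 := by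
      obtain ⟨c, hc⟩ := isConj_iff.mp h1.symm
      rw [← hc]
      simp
    exact congrArg Subtype.val h5
  have hm0 : (H.index : ℂ) ≠ 0 := by
    have : H.index ≠ 0 := Subgroup.index_ne_zero_of_finite
    exact_mod_cast this
  have hKcard : m ≤ Nat.card K := by
    have h1 := hW 1
    have hcl : Nat.card {k : H // IsConj (1 : H) k} = 1 := by
      rw [Nat.card_eq_one_iff_unique]
      refine ⟨⟨?_⟩, ⟨⟨1, IsConj.refl _⟩⟩⟩
      rintro ⟨a, ha⟩ ⟨b, hb⟩
      apply Subtype.ext
      have ha' : a = 1 := by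
        obtain ⟨c, hc⟩ := isConj_iff.mp ha
        rw [← hc]
        simp
      have hb' : b = 1 := by
        obtain ⟨c, hc⟩ := isConj_iff.mp hb
        rw [← hc]
        simp
      exact ha'.trans hb'.symm
    have hN : Nat.card {x : G // IsConj (x ^ t) ((1 : H) : G)} = m := by
      unfold wt at h1
      rw [hcl, Nat.cast_one, div_one, div_eq_one_iff_eq hm0] at h1
      exact_mod_cast h1
    rw [← hN]
    have hmemK : ∀ x : {x : G // IsConj (x ^ t) ((1 : H) : G)}, (x : G) ∈ K := by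
      intro x
      rw [hKmem]
      intro ψ hψ
      have h2 : IsConj ((x : G) ^ t) (1 : G) := x.2
      rw [hrone x h2, hr1]
    apply Nat.card_le_card_of_injective
      (fun x : {x : G // IsConj (x ^ t) ((1 : H) : G)} => (⟨x.1, hmemK x⟩ : K))
    intro a b hab
    exact Subtype.ext (congrArg (fun k : K => (k : G)) hab)
  have hdisj : Disjoint K H := disjoint_iff.mpr hKH
  have hle : Nat.card K * Nat.card H ≤ Nat.card G := by
    rw [← Nat.card_prod]
    apply Nat.card_le_card_of_injective (fun q : K × H => (q.1 : G) * (q.2 : G))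
    rintro ⟨k₁, h₁⟩ ⟨k₂, h₂⟩ hq
    simp only at hq
    have h1 : (k₂ : G)⁻¹ * (k₁ : G) = (h₂ : G) * (h₁ : G)⁻¹ := by
      rw [eq_mul_inv_iff_mul_eq, mul_assoc, hq, inv_mul_cancel_left]
    have h2 : (k₂ : G)⁻¹ * (k₁ : G) ∈ K ⊓ H := by
      refine ⟨K.mul_mem (K.inv_mem k₂.2) k₁.2, ?_⟩
      rw [h1]
      exact H.mul_mem h₂.2 (H.inv_mem h₁.2)
    rw [hKH, Subgroup.mem_bot] at h2
    have h3 : (k₁ : G) = k₂ := by
      rw [inv_mul_eq_one] at h2
      exact h2.symm
    have h4 : (h₁ : G) = h₂ := by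
      rw [h3] at hq
      exact mul_left_cancel hq
    exact Prod.ext (Subtype.ext h3) (Subtype.ext h4)
  have hKeq : Nat.card K * Nat.card H = Nat.card G := by
    apply le_antisymm hle
    rw [hmn]
    exact Nat.mul_le_mul_right n hKcard
  exact ⟨K, hKn, (Subgroup.isComplement'_of_card_mul_and_disjoint hKeq hdisj).sup_eq_top, hKH⟩

end Final

end Cfsg.Agent.Lib_helper3_BrSuz
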