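import Mathlib
import Cfsg.Prelude.Def_Characters
import Cfsg.Agent.Lib_helper3_AlgComb
import Cfsg.Agent.Lib_helper3_BrSuz

set_option autoImplicit false
open Cfsg
open Cfsg.Agent.Lib_helper3_CharBasic Cfsg.Agent.Lib_helper3_CharInd
  Cfsg.Agent.Lib_helper3_CharMore Cfsg.Agent.Lib_helper3_AlgComb
open scoped ComplexConjugate

namespace Cfsg.Agent.Lib_helper3_PReg

universe u

theorem orderOf_conj_eq {E : Type u} [Group E] (g n : E) :
    orderOf (g * n * g⁻¹) = orderOf n := by
  have h1 := orderOf_injective (MulAut.conj g).toMonoidHom (MulAut.conj g).injective n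
  rw [← h1]
  rfl

/-- On an elementary group, the `p`-regular part of `p ^ a` times a character is a
character. -/
theorem isCharacter_preg {E : Type u} [Group E] [Fintype E] {q : ℕ} (hq : q.Prime)
    (hE : IsElementary q E) {p a m : ℕ} (hp : p.Prime) (hpm : ¬ p ∣ m)
    (hcard : Nat.card E ∣ p ^ a * m) {χ : E → ℂ} (hχ : IsCharacter E χ) :
    IsCharacter E (fun e => if p ∣ orderOf e then 0 else ((p ^ a : ℕ) : ℂ) * χ e) := by
  classical
  have hcop : Nat.Coprime (p ^ a) m :=
    Nat.Coprime.pow_left a ((Nat.Prime.coprime_iff_not_dvd hp).mpr hpm)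
  obtain ⟨t, ht1, ht0⟩ := exists_exponent hcop
  have hexp : ∀ e : E, e ^ (p ^ a * m) = 1 := fun e =>
    orderOf_dvd_iff_pow_eq_one.mp ((orderOf_dvd_natCard e).trans hcard)
  have hmul := pow_mul_of_elementary hq hE hcop hexp ht1 ht0
  obtain ⟨φ, hφ⟩ : ∃ φ : E →* E, ∀ e : E, φ e = e ^ t := ⟨powHom t hmul, fun e => rfl⟩
  have hB : ∀ e : E, e ∈ φ.range ↔ ¬ p ∣ orderOf e := by
    intro e
    constructor
    · rintro ⟨e', rfl⟩ hdvd
      rw [hφ] at hdvd
      have h1 : (e' ^ t) ^ m = 1 := by
        obtain ⟨c, hc⟩ := ht0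
        rw [← pow_mul, hc, mul_assoc, mul_comm c m, ← mul_assoc, pow_mul, hexp, one_pow]
      have h2 : orderOf (e' ^ t) ∣ m := orderOf_dvd_of_pow_eq_one h1
      exact hpm (hdvd.trans h2)
    · intro hnd
      refine ⟨e, ?_⟩
      rw [hφ]
      have h1 : orderOf e ∣ p ^ a * m := orderOf_dvd_of_pow_eq_one (hexp e)
      have h2 : Nat.Coprime (orderOf e) (p ^ a) :=
        Nat.Coprime.pow_right a ((Nat.Prime.coprime_iff_not_dvd hp).mpr hnd).symm
      have h3 : orderOf e ∣ m := h2.dvd_of_dvd_mul_left h1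
      have h4 : t ≡ 1 [MOD orderOf e] := ht1.of_dvd h3
      have h5 := (pow_eq_pow_iff_modEq (x := e)).mpr h4
      rwa [pow_one] at h5
  have hconj : ∀ (e x : E), x⁻¹ * e * x ∈ φ.range ↔ e ∈ φ.range := by
    intro e x
    rw [hB, hB]
    have h1 := orderOf_conj_eq x⁻¹ e
    rw [inv_inv] at h1
    rw [h1]
  have hker : Nat.card φ.ker ∣ p ^ a := by
    apply Cfsg.Agent.Lib_helper3_BrSuz.card_dvd_of_pow hcop.symm (by rwa [mul_comm]) φ.ker
    intro e he
    have h1 : e ^ t = 1 := by
      rw [← hφ]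
      exact he
    have h2 : orderOf e ∣ t := orderOf_dvd_of_pow_eq_one h1
    have h3 : Nat.Coprime t m := by
      unfold Nat.Coprime
      rw [ht1.gcd_eq]
      exact Nat.gcd_one_left m
    have h4 : Nat.Coprime (orderOf e) m := Nat.Coprime.coprime_dvd_left h2 h3
    have h5 : orderOf e ∣ p ^ a :=
      h4.dvd_of_dvd_mul_right (orderOf_dvd_of_pow_eq_one (hexp e))
    exact orderOf_dvd_iff_pow_eq_one.mp h5
  obtain ⟨k, hk⟩ := hker
  have hcardE : (Nat.card E : ℂ) = (Nat.card φ.ker : ℂ) * (Nat.card φ.range : ℂ) := by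
    rw [← Nat.cast_mul, ← Subgroup.index_ker, Subgroup.card_mul_index]
  have hχc := isClassFunction_of_isCharacter hχ
  have hfun : (fun e => if p ∣ orderOf e then 0 else ((p ^ a : ℕ) : ℂ) * χ e) =
      (k : ℂ) • indFun φ.range (fun b : φ.range => χ b) := by
    funext e
    rw [Pi.smul_apply, smul_eq_mul, indFun_apply]
    by_cases he : p ∣ orderOf e
    · rw [if_pos he]
      have h1 : ∀ x : E, extendByZero φ.range (fun b : φ.range => χ b) (x⁻¹ * e * x) = 0 := by
        intro x
        apply extendByZero_not_mem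
        rw [hconj, hB]
        exact fun h => h he
      simp only [h1, Finset.sum_const_zero, mul_zero]
    · rw [if_neg he]
      have h1 : ∀ x : E, extendByZero φ.range (fun b : φ.range => χ b) (x⁻¹ * e * x) = χ e := by
        intro x
        rw [extendByZero_mem φ.range _ ((hconj e x).mpr ((hB e).mpr he))]
        have h2 := hχc e x⁻¹
        rw [inv_inv] at h2
        exact h2
      simp only [h1, Finset.sum_const, Finset.card_univ, nsmul_eq_mul]
      rw [← Nat.card_eq_fintype_card, hcardE, hk]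
      have h3 : (Nat.card φ.range : ℂ) ≠ 0 := card_subgroup_ne_zero φ.range
      push_cast
      field_simp
  rw [hfun]
  exact isCharacter_natCast_smul k (isCharacter_indFun φ.range (isCharacter_restrict φ.range hχ))

end Cfsg.Agent.Lib_helper3_PReg
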