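import Mathlib
import Cfsg.Prelude.Def_Characters
import Cfsg.Prelude.Def_Blocks
import Cfsg.Agent.Lib_helper3_BlockInfl
import Cfsg.Agent.Lib_helper3_IdemCent
import Cfsg.Agent.Lib_helper3_PReg

set_option autoImplicit false
open Cfsg
open Cfsg.Agent.Lib_helper3_CharBasic Cfsg.Agent.Lib_helper3_CharMore
  Cfsg.Agent.Lib_helper3_Local Cfsg.Agent.Lib_helper3_Local2 Cfsg.Agent.Lib_helper3_BlockAlg
  Cfsg.Agent.Lib_helper3_BlockPQuot Cfsg.Agent.Lib_helper3_BlockInfl
  Cfsg.Agent.Lib_helper3_IdemSupp Cfsg.Agent.Lib_helper3_AugNil Cfsg.Agent.Lib_helper3_Residue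
  Cfsg.Agent.Lib_helper3_IdemCent
open scoped ComplexConjugate

namespace Cfsg.Agent.Lib_helper3_BlockDom

attribute [local instance] Ideal.Quotient.field

universe u

variable {G : Type u} [Group G] [Fintype G] {M : Ideal AlgInt}

section Dom

/-- The central character of an inflated function is a natural multiple of the central
character on the quotient. -/
theorem centralChar_infl (N : Subgroup G) [N.Normal] (g : G) :
    ∃ m : ℕ, ∀ χ : G ⧸ N → ℂ, centralChar (χ ∘ QuotientGroup.mk : G → ℂ) g =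
      (m : ℂ) * centralChar χ (QuotientGroup.mk g) := by
  obtain ⟨H, hH⟩ : ∃ H : Subgroup G, H = (Subgroup.centralizer
      ({(QuotientGroup.mk g : G ⧸ N)} : Set (G ⧸ N))).comap (QuotientGroup.mk' N) := ⟨_, rfl⟩
  have hle : Subgroup.centralizer ({g} : Set G) ≤ H := by
    intro k hk
    rw [hH, Subgroup.mem_comap, Subgroup.mem_centralizer_singleton_iff]
    rw [Subgroup.mem_centralizer_singleton_iff] at hk
    show (QuotientGroup.mk k : G ⧸ N) * QuotientGroup.mk g = QuotientGroup.mk g * QuotientGroup.mk k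
    rw [← QuotientGroup.mk_mul, ← QuotientGroup.mk_mul, hk]
  have hidx : H.index = (Subgroup.centralizer
      ({(QuotientGroup.mk g : G ⧸ N)} : Set (G ⧸ N))).index := by
    rw [hH]
    exact Subgroup.index_comap_of_surjective _ (QuotientGroup.mk'_surjective N)
  have h1 := Subgroup.relIndex_mul_index hle
  refine ⟨(Subgroup.centralizer ({g} : Set G)).relIndex H, fun χ => ?_⟩
  unfold centralChar
  rw [← h1, hidx]
  push_cast
  show _ * _ * χ (QuotientGroup.mk g) / χ (QuotientGroup.mk (1 : G)) = _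
  rw [QuotientGroup.mk_one]
  ring

/-- Characters of a quotient in the same block have inflations in the same block. -/
theorem sameBlock_infl [hMp : M.IsPrime] (N : Subgroup G) [N.Normal] {χ ψ : G ⧸ N → ℂ}
    (h : SameBlock M χ ψ) :
    SameBlock M (χ ∘ QuotientGroup.mk : G → ℂ) (ψ ∘ QuotientGroup.mk) := by
  intro g
  obtain ⟨m, hm⟩ := centralChar_infl N g
  rw [hm χ, hm ψ, ← mul_sub]
  exact memLocalIdeal_mul_left (memLocalRing_natCast hMp.ne_top m) (h _)

end Dom

section PRegLift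

variable {p : ℕ} [Fact p.Prime]

omit [Fintype G] in
/-- A coset of a normal `p`-subgroup contains at most one `p`-regular element centralizing the
subgroup. -/
theorem preg_lift_unique (P : Subgroup G) (hP : IsPGroup p P)
    {g₁ g₂ : G} (h₁ : ¬ p ∣ orderOf g₁) (h₂ : ¬ p ∣ orderOf g₂)
    (hc : g₁ ∈ Subgroup.centralizer (P : Set G)) (hu' : g₁⁻¹ * g₂ ∈ P) : g₁ = g₂ := by
  obtain ⟨u, hudef⟩ : ∃ u, u = g₁⁻¹ * g₂ := ⟨_, rfl⟩
  have hu : u ∈ P := by rw [hudef]; exact hu'
  have hg₂ : g₂ = g₁ * u := by rw [hudef]; group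
  have hcomm : Commute g₁ u := ((Subgroup.mem_centralizer_iff.mp hc) u hu).symm
  obtain ⟨n, hn⟩ : ∃ n, n = orderOf g₁ := ⟨_, rfl⟩
  have h3 : g₂ ^ n = u ^ n := by
    rw [hg₂, hcomm.mul_pow, hn, pow_orderOf_eq_one, one_mul]
  obtain ⟨k, hk⟩ := hP ⟨u, hu⟩
  have hk' : u ^ p ^ k = 1 := congrArg Subtype.val hk
  have h4 : orderOf (u ^ n) ∣ p ^ k := by
    apply orderOf_dvd_of_pow_eq_one
    rw [← pow_mul, mul_comm, pow_mul, hk', one_pow]
  have h5 : orderOf (u ^ n) ∣ orderOf g₂ := by
    rw [← h3]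
    exact orderOf_pow_dvd n
  have h6 : orderOf (u ^ n) = 1 := by
    obtain ⟨j, hj, hj'⟩ := (Nat.dvd_prime_pow (Fact.out : p.Prime)).mp h4
    rcases Nat.eq_zero_or_pos j with h0 | h0
    · rw [hj', h0, pow_zero]
    · exfalso
      apply h₂
      rw [hj'] at h5
      exact dvd_trans (dvd_pow_self p h0.ne') h5
  have h7 : u ^ n = 1 := orderOf_eq_one_iff.mp h6
  have h8 : orderOf u ∣ n := orderOf_dvd_of_pow_eq_one h7
  have h9 : orderOf u ∣ p ^ k := orderOf_dvd_of_pow_eq_one hk'
  have h10 : orderOf u = 1 := by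
    obtain ⟨j, hj, hj'⟩ := (Nat.dvd_prime_pow (Fact.out : p.Prime)).mp h9
    rcases Nat.eq_zero_or_pos j with h0 | h0
    · rw [hj', h0, pow_zero]
    · exfalso
      apply h₁
      rw [hj', hn] at h8
      exact dvd_trans (dvd_pow_self p h0.ne') h8
  rw [hg₂, orderOf_eq_one_iff.mp h10, mul_one]

/-- Every `p`-regular element of the quotient by a normal `p`-subgroup has a `p`-regular
lift. -/
theorem exists_preg_lift (P : Subgroup G) [P.Normal] (hP : IsPGroup p P) (q : G ⧸ P)
    (hq : ¬ p ∣ orderOf q) : ∃ g : G, ¬ p ∣ orderOf g ∧ (QuotientGroup.mk g : G ⧸ P) = q := by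
  obtain ⟨K, hK⟩ := IsPGroup.iff_card.mp hP
  have hcop : (p ^ K).Coprime (orderOf q) :=
    Nat.Coprime.pow_left K ((Nat.Prime.coprime_iff_not_dvd Fact.out).mpr hq)
  obtain ⟨b, hb⟩ := exists_pow_eq_self_of_coprime hcop
  obtain ⟨g, rfl⟩ := QuotientGroup.mk_surjective q
  refine ⟨(g ^ p ^ K) ^ b, ?_, ?_⟩
  · have hgm : g ^ orderOf (QuotientGroup.mk g : G ⧸ P) ∈ P := by
      rw [← QuotientGroup.eq_one_iff, QuotientGroup.mk_pow, pow_orderOf_eq_one]
    have h1 : (g ^ orderOf (QuotientGroup.mk g : G ⧸ P)) ^ p ^ K = 1 := by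
      have h0 := pow_card_eq_one' (G := P) (x := ⟨_, hgm⟩)
      rw [hK] at h0
      exact congrArg Subtype.val h0
    have h2 : ((g ^ p ^ K) ^ b) ^ orderOf (QuotientGroup.mk g : G ⧸ P) = 1 := by
      have h3 : ((g ^ p ^ K) ^ b) ^ orderOf (QuotientGroup.mk g : G ⧸ P) =
          ((g ^ orderOf (QuotientGroup.mk g : G ⧸ P)) ^ p ^ K) ^ b := by
        rw [← pow_mul, ← pow_mul, ← pow_mul, ← pow_mul]
        congr 1
        ring
      rw [h3, h1, one_pow]
    intro hdvd
    exact hq (dvd_trans hdvd (orderOf_dvd_of_pow_eq_one h2))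
  · rw [QuotientGroup.mk_pow, QuotientGroup.mk_pow]
    exact hb

/-- If the centralizer of a normal `p`-subgroup `P` has `p`-power index, characters of `G ⧸ P`
whose inflations lie in the same block lie in the same block. -/
theorem sameBlock_of_infl_pgroup (hM : IsPModular p M) (P : Subgroup G) [P.Normal]
    (hP : IsPGroup p P) (hC : ∃ k : ℕ, (Subgroup.centralizer (P : Set G)).index = p ^ k)
    (χ ψ : IrrCharacter (G ⧸ P))
    (h : SameBlock M ((χ : G ⧸ P → ℂ) ∘ QuotientGroup.mk : G → ℂ)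
      ((ψ : G ⧸ P → ℂ) ∘ QuotientGroup.mk)) :
    SameBlock M (χ : G ⧸ P → ℂ) (ψ : G ⧸ P → ℂ) := by
  classical
  have := Fintype.ofFinite (G ⧸ P)
  have hMp : M.IsPrime := isPrime_of_modular hM
  obtain ⟨B, hBdef⟩ : ∃ B, B = blockOf M (χ : G ⧸ P → ℂ) := ⟨_, rfl⟩
  have hB : IsPBlock M B := ⟨χ, hBdef⟩
  have hχB : χ ∈ B := by
    rw [hBdef]
    exact mem_blockOf_self hMp.ne_top χ
  have hcl := isClassFunction_blockCoeff B
  have hR : ∀ q, MemLocalRing M (blockCoeff B q) := fun q => osima hB q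
  have hsing : ∀ q : G ⧸ P, p ∣ orderOf q → blockCoeff B q = 0 :=
    fun q hq => blockCoeff_eq_zero_of_singular hM hR q hq
  have hregC : ∀ g : G, ¬ p ∣ orderOf g → g ∈ Subgroup.centralizer (P : Set G) := by
    intro g hg
    by_contra hcon
    exact hg (dvd_orderOf_of_not_mem (Subgroup.centralizer (P : Set G)) hC hcon)
  obtain ⟨z, hz⟩ : ∃ z : G → ℂ,
      z = fun g => if p ∣ orderOf g then 0 else blockCoeff B (QuotientGroup.mk g) := ⟨_, rfl⟩
  have hzcl : IsClassFunction G z := by
    intro g k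
    rw [hz]
    show (if p ∣ orderOf (k * g * k⁻¹) then 0
      else blockCoeff B (QuotientGroup.mk (k * g * k⁻¹))) =
      if p ∣ orderOf g then 0 else blockCoeff B (QuotientGroup.mk g)
    rw [Cfsg.Agent.Lib_helper3_PReg.orderOf_conj_eq, QuotientGroup.mk_mul, QuotientGroup.mk_mul,
      QuotientGroup.mk_inv, hcl]
  have hzR : ∀ g, MemLocalRing M (z g) := by
    intro g
    rw [hz]
    show MemLocalRing M (if p ∣ orderOf g then 0 else blockCoeff B (QuotientGroup.mk g))
    split_ifs
    · exact memLocalRing_zero hMp.ne_top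
    · exact hR _
  have key : ∀ θ : G ⧸ P → ℂ,
      Om (θ ∘ QuotientGroup.mk : G → ℂ) z = Om θ (blockCoeff B) := by
    intro θ
    unfold Om
    show (∑ g : G, z g * θ (QuotientGroup.mk g)) / θ (QuotientGroup.mk (1 : G)) = _
    congr 1
    have e1 : ∑ g : G, z g * θ (QuotientGroup.mk g) =
        ∑ g ∈ Finset.univ.filter (fun g : G => ¬ p ∣ orderOf g),
          blockCoeff B (QuotientGroup.mk g) * θ (QuotientGroup.mk g) := by
      rw [Finset.sum_filter]
      apply Finset.sum_congr rfl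
      intro g _
      rw [hz]
      by_cases hg : p ∣ orderOf g
      · simp [hg]
      · simp [hg]
    have e2 : ∑ q : G ⧸ P, blockCoeff B q * θ q =
        ∑ q ∈ Finset.univ.filter (fun q : G ⧸ P => ¬ p ∣ orderOf q), blockCoeff B q * θ q := by
      rw [Finset.sum_filter]
      apply Finset.sum_congr rfl
      intro q _
      by_cases hq : p ∣ orderOf q
      · simp [hq, hsing q hq]
      · simp [hq]
    rw [e1, e2]
    apply Finset.sum_bij (fun g _ => (QuotientGroup.mk g : G ⧸ P))
    · intro g hg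
      rw [Finset.mem_filter] at hg ⊢
      refine ⟨Finset.mem_univ _, fun hdvd => hg.2 (dvd_trans hdvd ?_)⟩
      apply orderOf_dvd_of_pow_eq_one
      rw [← QuotientGroup.mk_pow, pow_orderOf_eq_one]
      rfl
    · intro g₁ hg₁ g₂ hg₂ heq
      exact preg_lift_unique P hP (Finset.mem_filter.mp hg₁).2 (Finset.mem_filter.mp hg₂).2
        (hregC g₁ (Finset.mem_filter.mp hg₁).2) (QuotientGroup.eq.mp heq)
    · intro q hq
      obtain ⟨g, hg, rfl⟩ := exists_preg_lift P hP q (Finset.mem_filter.mp hq).2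
      exact ⟨g, Finset.mem_filter.mpr ⟨Finset.mem_univ _, hg⟩, rfl⟩
    · intro g _
      rfl
  have hclG : ∀ θ : IrrCharacter (G ⧸ P),
      IsClassFunction G ((θ : G ⧸ P → ℂ) ∘ QuotientGroup.mk : G → ℂ) :=
    fun θ => isClassFunction_of_irr (isIrrCharacter_infl P θ.2)
  have h1 := om_congr (hclG χ) (hclG ψ) h hzcl hzR
  rw [key, key, om_blockCoeff_of_mem hχB] at h1
  show ψ ∈ blockOf M (χ : G ⧸ P → ℂ)
  rw [← hBdef]
  by_contra hψ
  rw [om_blockCoeff_of_not_mem hψ, sub_zero] at h1
  exact not_memLocalIdeal_one h1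

end PRegLift

section GenF

variable {p : ℕ} [Fact p.Prime] {F : Type*} [Field F] [CharP F p]

omit [Fintype G] in
/-- An idempotent in the kernel of the map of group algebras modulo a normal `p`-subgroup is
zero, in characteristic `p`. -/
theorem eq_zero_of_idem_mem_kerSub [Finite G] (P : Subgroup G) [P.Normal] (hP : IsPGroup p P)
    {a : MonoidAlgebra F G} (ha : a * a = a) (hk : a ∈ kerSub F (QuotientGroup.mk' P)) :
    a = 0 := by
  have hker : IsPGroup p (QuotientGroup.mk' P).ker := by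
    rw [QuotientGroup.ker_mk']
    exact hP
  obtain ⟨N, hN⟩ := kerSub_nilpotent F p (QuotientGroup.mk' P) hker
  have h1 : a ^ N = 0 := by
    have h7 := Submodule.pow_mem_pow _ hk N
    rw [hN] at h7
    exact (Submodule.mem_bot F).mp h7
  have h2 : ∀ k : ℕ, a ^ (k + 1) = a := by
    intro k
    induction k with
    | zero => rw [zero_add, pow_one]
    | succ k ih => rw [pow_succ, ih, ha]
  rw [← h2 N, pow_succ, h1, zero_mul]

omit [Fact p.Prime] [CharP F p] in
/-- A coefficient function with vanishing coset sums lies in the kernel. -/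
theorem ofFun_mem_kerSub (P : Subgroup G) [P.Normal] [Fintype P] (r : G → F)
    (hcos : ∀ y : G, ∑ n : P, r (y * n) = 0) : ofFun r ∈ kerSub F (QuotientGroup.mk' P) := by
  classical
  rw [mem_kerSub]
  apply MonoidAlgebra.coeff_injective
  ext q
  rw [coeff_mapDomain_ofFun]
  obtain ⟨y, rfl⟩ := QuotientGroup.mk_surjective q
  have e1 : ∑ x : G, (if (QuotientGroup.mk' P) x = (QuotientGroup.mk y : G ⧸ P) then r x else 0) =
      ∑ n : P, r (y * n) := by
    rw [← Finset.sum_filter]
    symm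
    apply Finset.sum_bij (fun (n : P) _ => y * (n : G))
    · intro n _
      rw [Finset.mem_filter]
      refine ⟨Finset.mem_univ _, ?_⟩
      show (QuotientGroup.mk (y * n) : G ⧸ P) = QuotientGroup.mk y
      rw [QuotientGroup.mk_mul, (QuotientGroup.eq_one_iff (n : G)).mpr n.2, mul_one]
    · intro n₁ _ n₂ _ h
      exact Subtype.ext (mul_left_cancel h)
    · intro x hx
      rw [Finset.mem_filter] at hx
      have h1 : y⁻¹ * x ∈ P := QuotientGroup.eq.mp hx.2.symm
      exact ⟨⟨y⁻¹ * x, h1⟩, Finset.mem_univ _, by simp⟩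
    · intro n _
      rfl
  rw [e1, hcos y]
  rfl

/-- An idempotent coefficient function with vanishing coset sums over a normal `p`-subgroup is
zero. -/
theorem eq_zero_of_idem_coset (P : Subgroup G) [P.Normal] [Fintype P] (hP : IsPGroup p P)
    (r : G → F) (hidem : ofFun r * ofFun r = ofFun r)
    (hcos : ∀ y : G, ∑ n : P, r (y * n) = 0) (g : G) : r g = 0 :=
  (ofFun_eq_zero_iff r).mp
    (eq_zero_of_idem_mem_kerSub P hP hidem (ofFun_mem_kerSub P r hcos)) g

end GenF

section Infl

variable {p : ℕ} [Fact p.Prime]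

open Cfsg.Agent.Lib_helper3_CharIntegral in
/-- Translating an irreducible character against a class function. -/
theorem sum_mul_translate {θ : G → ℂ} (hθ : IsIrrCharacter G θ) {f : G → ℂ}
    (hf : IsClassFunction G f) (y : G) : ∑ h, f h * θ (y * h) = Om θ f * θ y := by
  obtain ⟨n, ρ, hirr, rfl⟩ := hθ
  have e1 := schur_scalar f hf ρ
  unfold Om
  rw [Representation.char_one]
  have e4 : ∑ h, f h * ρ.character (y * h) =
      LinearMap.trace ℂ (Fin n → ℂ) (ρ y * ∑ h, f h • ρ h) := by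
    rw [Finset.mul_sum, map_sum]
    apply Finset.sum_congr rfl
    intro h _
    rw [mul_smul_comm, map_smul, smul_eq_mul, ← map_mul]
    rfl
  rw [e4, e1, mul_smul_comm, mul_one, map_smul, smul_eq_mul]
  rfl

/-- An irreducible character not trivial on a normal subgroup sums to zero over its cosets. -/
theorem sum_coset_eq_zero (N : Subgroup G) [N.Normal] [Fintype N] {θ : IrrCharacter G}
    (hθ : ¬ ∀ n ∈ N, (θ : G → ℂ) n = (θ : G → ℂ) 1) (y : G) :
    ∑ n : N, (θ : G → ℂ) (y * n) = 0 := by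
  classical
  have hinner : classInner (fun n : N => (θ : G → ℂ) n) (fun _ : N => (1 : ℂ)) = 0 := by
    by_contra hne
    exact hθ ((over_trivial_iff N θ).mp hne)
  have hsumN : ∑ n : N, (θ : G → ℂ) n = 0 := by
    rw [classInner_def] at hinner
    have h0 := card_ne_zero (G := N)
    rcases mul_eq_zero.mp hinner with h | h
    · exact absurd (inv_eq_zero.mp h) h0
    · simpa using h
  obtain ⟨f, hfdef⟩ : ∃ f : G → ℂ, f = fun g => if g ∈ N then 1 else 0 := ⟨_, rfl⟩
  have hf : IsClassFunction G f := by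
    intro g k
    rw [hfdef]
    show (if k * g * k⁻¹ ∈ N then (1 : ℂ) else 0) = if g ∈ N then 1 else 0
    have h1 : k * g * k⁻¹ ∈ N ↔ g ∈ N := by
      constructor
      · intro h
        have h2 := (inferInstance : N.Normal).conj_mem _ h k⁻¹
        have h3 : k⁻¹ * (k * g * k⁻¹) * k⁻¹⁻¹ = g := by group
        rwa [h3] at h2
      · intro h
        exact (inferInstance : N.Normal).conj_mem _ h k
    exact if_congr h1 rfl rfl
  have h1 := sum_mul_translate θ.2 hf y
  have h2 : ∀ φ : G → ℂ, ∑ h : G, f h * φ h = ∑ n : N, φ n := by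
    intro φ
    rw [hfdef]
    simp only [ite_mul, one_mul, zero_mul]
    rw [← Finset.sum_filter]
    exact Finset.sum_subtype (Finset.univ.filter (· ∈ N)) (by simp) φ
  rw [h2 (fun h => (θ : G → ℂ) (y * h))] at h1
  rw [h1]
  unfold Om
  rw [h2 (θ : G → ℂ), hsumN, zero_div, zero_mul]

/-- If no member of a set of irreducible characters is trivial on the normal subgroup `N`,
the idempotent coefficients of the set sum to zero over the cosets of `N`. -/
theorem sum_blockCoeff_coset_eq_zero (N : Subgroup G) [N.Normal] [Fintype N]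
    {B : Set (IrrCharacter G)}
    (hB : ∀ θ ∈ B, ¬ ∀ n ∈ N, (θ : G → ℂ) n = (θ : G → ℂ) 1) (y : G) :
    ∑ n : N, blockCoeff B (y * n) = 0 := by
  classical
  have hfin := irr_finite (G := G)
  have := Fintype.ofFinite (IrrCharacter G)
  simp only [blockCoeff_eq_sum]
  rw [← Finset.mul_sum, Finset.sum_comm]
  have h1 : ∀ ψ : IrrCharacter G, ∑ n : N, B.indicator
      (fun ψ : IrrCharacter G => (ψ : G → ℂ) 1 * conj ((ψ : G → ℂ) (y * n))) ψ = 0 := by
    intro ψ
    by_cases hψ : ψ ∈ B
    · simp only [Set.indicator_of_mem hψ]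
      rw [← Finset.mul_sum, ← map_sum, sum_coset_eq_zero N (hB ψ hψ) y, map_zero, mul_zero]
    · simp only [Set.indicator_of_notMem hψ]
      exact Finset.sum_const_zero
  rw [Finset.sum_congr rfl (fun ψ _ => h1 ψ), Finset.sum_const_zero, mul_zero]

/-- Every block contains a character with a given normal `p`-subgroup in its kernel. -/
theorem exists_infl_mem_block (hM : IsPModular p M) (P : Subgroup G) [P.Normal]
    (hP : IsPGroup p P) {B : Set (IrrCharacter G)} (hB : IsPBlock M B) :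
    ∃ θ ∈ B, ∀ n ∈ P, (θ : G → ℂ) n = (θ : G → ℂ) 1 := by
  classical
  have hMm : M.IsMaximal := hM.2.1
  have hMp : M.IsPrime := hMm.isPrime
  have hch : CharP (AlgInt ⧸ M) p := charP_quot hM
  have := Fintype.ofFinite P
  by_contra hcon
  have hB' : ∀ θ ∈ B, ¬ ∀ n ∈ P, (θ : G → ℂ) n = (θ : G → ℂ) 1 :=
    fun θ hθ hn => hcon ⟨θ, hθ, hn⟩
  have hR : ∀ g, MemLocalRing M (blockCoeff B g) := fun g => osima hB g
  have hidem := conv_blockCoeff B
  have h1 : red M (blockCoeff B) * red M (blockCoeff B) = red M (blockCoeff B) := by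
    rw [← red_conv hR hR, hidem]
  have h2 : ∀ g, res M (blockCoeff B g) = 0 := by
    apply eq_zero_of_idem_coset (p := p) (F := AlgInt ⧸ M) P hP
      (fun x => res M (blockCoeff B x)) h1
    intro y
    rw [← res_sum _ _ (fun n _ => hR _), sum_blockCoeff_coset_eq_zero P hB' y, res_zero]
  obtain ⟨χ₀, rfl⟩ := hB
  have hχ₀ : χ₀ ∈ blockOf M (χ₀ : G → ℂ) := mem_blockOf_self hMp.ne_top χ₀
  have h3 := om_memLocalIdeal (M := M) χ₀.2 (isClassFunction_blockCoeff _)
    (fun g => (res_eq_zero_iff (hR g)).mp (h2 g))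
  rw [om_blockCoeff_of_mem hχ₀] at h3
  exact not_memLocalIdeal_one h3

end Infl

end Cfsg.Agent.Lib_helper3_BlockDom
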