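import Mathlib
import Cfsg.Prelude.Def_Characters
import Cfsg.Prelude.Def_Blocks
import Cfsg.Agent.Lib_helper3_IdemCent
import Cfsg.Agent.Lib_helper3_BlockDom

set_option autoImplicit false
open Cfsg
open Cfsg.Agent.Lib_helper3_CharBasic Cfsg.Agent.Lib_helper3_CharMore
  Cfsg.Agent.Lib_helper3_Local Cfsg.Agent.Lib_helper3_Local2 Cfsg.Agent.Lib_helper3_BlockAlg
  Cfsg.Agent.Lib_helper3_IdemSupp Cfsg.Agent.Lib_helper3_AugNil Cfsg.Agent.Lib_helper3_Residue
  Cfsg.Agent.Lib_helper3_IdemCent
open scoped ComplexConjugate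

namespace Cfsg.Agent.Lib_helper3_DefectLoc

attribute [local instance] Ideal.Quotient.field

universe u

section InAI

variable {G : Type u} [Group G] [Fintype G] {M : Ideal AlgInt}

/-- Functions on the irreducible characters given by the central character values of a central
element with coefficients in the local ideal. -/
def InAI (M : Ideal AlgInt) (c : IrrCharacter G → ℂ) : Prop :=
  ∃ f : G → ℂ, IsClassFunction G f ∧ (∀ g, MemLocalIdeal M (f g)) ∧
    ∀ χ : IrrCharacter G, Om (χ : G → ℂ) f = c χ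

theorem inAI_const [hM : M.IsPrime] {r : ℂ} (hr : MemLocalIdeal M r) :
    InAI M (fun _ : IrrCharacter G => r) := by
  refine ⟨r • classInd 1, isClassFunction_smul r (isClassFunction_classInd 1), ?_, ?_⟩
  · intro g
    rw [Pi.smul_apply, smul_eq_mul, mul_comm]
    exact memLocalIdeal_mul_left (memLocalRing_classInd 1 g) hr
  · intro χ
    rw [om_smul, om_classInd (isClassFunction_of_irr χ.2),
      centralChar_one (irr_apply_one_ne_zero χ.2), mul_one]

theorem inAI_add [hM : M.IsPrime] {c d : IrrCharacter G → ℂ} (hc : InAI M c) (hd : InAI M d) :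
    InAI M (fun χ => c χ + d χ) := by
  obtain ⟨f, hf, hfR, hfc⟩ := hc
  obtain ⟨k, hk, hkR, hkc⟩ := hd
  refine ⟨f + k, isClassFunction_add hf hk, fun g => memLocalIdeal_add (hfR g) (hkR g), ?_⟩
  intro χ
  rw [om_add, hfc, hkc]

theorem inAI_mul [hM : M.IsPrime] {c d : IrrCharacter G → ℂ} (hc : InA M c) (hd : InAI M d) :
    InAI M (fun χ => c χ * d χ) := by
  obtain ⟨f, hf, hfR, hfc⟩ := hc
  obtain ⟨k, hk, hkR, hkc⟩ := hd
  refine ⟨conv f k, isClassFunction_conv hf hk, ?_, ?_⟩
  · intro g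
    exact memLocalIdeal_sum _ _ (fun h _ => memLocalIdeal_mul_left (hfR h) (hkR _))
  · intro χ
    rw [om_conv χ.2 hf hk, hfc, hkc]

/-- A class function is determined by its central character values. -/
theorem om_ext {f₁ f₂ : G → ℂ} (h₁ : IsClassFunction G f₁) (h₂ : IsClassFunction G f₂)
    (h : ∀ χ : IrrCharacter G, Om (χ : G → ℂ) f₁ = Om (χ : G → ℂ) f₂) : f₁ = f₂ := by
  have hD : f₁ - f₂ = 0 := by
    apply eq_zero_of_forall_irr_sum_eq_zero
    · exact isClassFunction_sub h₁ h₂
    · intro χ hχ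
      have h3 := h ⟨χ, hχ⟩
      unfold Om at h3
      have h4 := irr_apply_one_ne_zero hχ
      have h5 : ∑ g, f₁ g * χ g = ∑ g, f₂ g * χ g := by
        field_simp at h3
        exact h3
      simp only [Pi.sub_apply, sub_mul]
      rw [Finset.sum_sub_distrib, h5, sub_self]
  exact sub_eq_zero.mp hD

theorem memLocalIdeal_of_inAI {c : IrrCharacter G → ℂ} (hc : InAI M c) {F : G → ℂ}
    (hF : IsClassFunction G F) (h : ∀ χ : IrrCharacter G, Om (χ : G → ℂ) F = c χ) (g : G) :
    MemLocalIdeal M (F g) := by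
  obtain ⟨f, hf, hfI, hfc⟩ := hc
  have h1 : F = f := om_ext hF hf (fun χ => by rw [h, hfc])
  rw [h1]
  exact hfI g

/-- If the central characters of a block vanish modulo the local ideal on a central element
with local-integer coefficients, a convolution power of the element times the block idempotent
has coefficients in the local ideal. -/
theorem conv_cpow_blockCoeff_memLocalIdeal [hMm : M.IsMaximal] (χ₀ : IrrCharacter G) {f : G → ℂ}
    (hf : IsClassFunction G f) (hfR : ∀ g, MemLocalRing M (f g))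
    (hfB : ∀ χ ∈ blockOf M (χ₀ : G → ℂ), MemLocalIdeal M (Om (χ : G → ℂ) f)) :
    ∃ n : ℕ, ∀ g, MemLocalIdeal M (conv (cpow f n) (blockCoeff (blockOf M (χ₀ : G → ℂ))) g) := by
  classical
  have hM : M.IsPrime := hMm.isPrime
  have hfin := irr_finite (G := G)
  have := Fintype.ofFinite (IrrCharacter G)
  obtain ⟨B, hBdef⟩ : ∃ B, B = blockOf M (χ₀ : G → ℂ) := ⟨_, rfl⟩
  rw [← hBdef] at hfB ⊢
  obtain ⟨c, hcdef⟩ : ∃ c : IrrCharacter G → ℂ,
      c = fun χ : IrrCharacter G => Om (χ : G → ℂ) f := ⟨_, rfl⟩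
  have hc : InA M c := ⟨f, hf, hfR, fun χ => by rw [hcdef]⟩
  have hstep : ∀ T : Finset (IrrCharacter G), (∀ ψ ∈ T, ψ ∈ B) →
      InAI M (fun χ => c χ ^ T.card - ∏ ψ ∈ T, (c χ - c ψ)) := by
    intro T
    induction T using Finset.induction_on with
    | empty =>
      intro _
      have h0 : (fun χ : IrrCharacter G => c χ ^ (∅ : Finset (IrrCharacter G)).card -
          ∏ ψ ∈ (∅ : Finset (IrrCharacter G)), (c χ - c ψ)) = fun _ => 0 := by
        funext χ
        simp
      rw [h0]
      exact inAI_const (memLocalIdeal_zero hM.ne_top)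
    | insert ψ T hψ ih =>
      intro hT
      have ih' := ih (fun φ hφ => hT φ (Finset.mem_insert_of_mem hφ))
      have hψB : ψ ∈ B := hT ψ (Finset.mem_insert_self ψ T)
      have h0 : (fun χ : IrrCharacter G => c χ ^ (insert ψ T).card -
          ∏ φ ∈ insert ψ T, (c χ - c φ)) = fun χ =>
          c χ * (c χ ^ T.card - ∏ φ ∈ T, (c χ - c φ)) +
            (∏ φ ∈ T, (c χ - c φ)) * c ψ := by
        funext χ
        rw [Finset.card_insert_of_notMem hψ, Finset.prod_insert hψ]
        ring
      rw [h0]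
      apply inAI_add (inAI_mul hc ih')
      have hP : InA M (fun χ : IrrCharacter G => ∏ φ ∈ T, (c χ - c φ)) := by
        apply inA_prod T (fun φ χ => c χ - c φ)
        intro φ _
        apply inA_sub hc
        apply inA_const
        rw [hcdef]
        exact memLocalRing_of_memLocalIdeal (M := M) (by
          have : φ ∈ B := hT φ (Finset.mem_insert_of_mem ‹φ ∈ T›)
          exact hfB φ this)
      have hcψ : InAI M (fun _ : IrrCharacter G => c ψ) := by
        apply inAI_const
        rw [hcdef]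
        exact hfB ψ hψB
      exact inAI_mul hP hcψ
  obtain ⟨T₀, hT₀⟩ : ∃ T₀ : Finset (IrrCharacter G), T₀ = Finset.univ.filter (fun χ => χ ∈ B) :=
    ⟨_, rfl⟩
  have hT₀B : ∀ ψ ∈ T₀, ψ ∈ B := by
    intro ψ hψ
    rw [hT₀] at hψ
    exact (Finset.mem_filter.mp hψ).2
  have h1B : InA M (fun χ : IrrCharacter G => B.indicator (fun _ => (1 : ℂ)) χ) := by
    rw [hBdef]
    exact inA_indicator_block χ₀
  have h2 := inAI_mul h1B (hstep T₀ hT₀B)
  refine ⟨T₀.card, fun g => ?_⟩
  apply memLocalIdeal_of_inAI h2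
    (isClassFunction_conv (isClassFunction_cpow hf T₀.card) (isClassFunction_blockCoeff B))
  intro χ
  rw [om_conv χ.2 (isClassFunction_cpow hf T₀.card) (isClassFunction_blockCoeff B),
    om_cpow χ.2 hf]
  by_cases hχ : χ ∈ B
  · rw [om_blockCoeff_of_mem hχ, Set.indicator_of_mem hχ]
    have h3 : ∏ ψ ∈ T₀, (c χ - c ψ) = 0 := by
      apply Finset.prod_eq_zero (i := χ)
      · rw [hT₀]
        exact Finset.mem_filter.mpr ⟨Finset.mem_univ _, hχ⟩
      · exact sub_self _
    rw [h3, sub_zero, hcdef]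
    ring
  · rw [om_blockCoeff_of_not_mem hχ, Set.indicator_of_notMem hχ]
    ring

end InAI

section Center

variable {F : Type*} [Field F] {G : Type u} [Group G] [Fintype G]

theorem ofFun_coeff (b : MonoidAlgebra F G) : ofFun (fun g => b.coeff g) = b := by
  apply MonoidAlgebra.coeff_injective
  ext g
  rw [coeff_ofFun]

/-- Class-invariant coefficient functions give central elements. -/
theorem ofFun_mem_center {r : G → F} (hr : ∀ k x : G, r (k * x * k⁻¹) = r x) :
    ofFun r ∈ Subalgebra.center F (MonoidAlgebra F G) := by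
  rw [Subalgebra.mem_center_iff]
  intro b
  rw [← ofFun_coeff b]
  exact ofFun_comm hr

/-- Central elements have class-invariant coefficients. -/
theorem coeff_conj_of_mem_center {W : MonoidAlgebra F G}
    (hW : W ∈ Subalgebra.center F (MonoidAlgebra F G)) (k x : G) :
    W.coeff (k * x * k⁻¹) = W.coeff x := by
  have h1 := (Subalgebra.mem_center_iff.mp hW) (MonoidAlgebra.single k (1 : F))
  have h2 := congrArg (fun a : MonoidAlgebra F G => a.coeff (k * x)) h1
  simp only [MonoidAlgebra.coeff_single_mul_apply, MonoidAlgebra.coeff_mul_single_apply,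
    one_mul, mul_one, inv_mul_cancel_left] at h2
  exact h2.symm

/-- If a product of a class sum with a central element has a nonzero coefficient at an element
centralizing the `p`-subgroup `Q`, some element of the class centralizes `Q`. -/
theorem exists_conj_mem_centralizer {p : ℕ} [Fact p.Prime] [CharP F p] (Q : Subgroup G)
    (hQ : IsPGroup p Q) (g : G) (s : G → F) (hs : ∀ x, s x ≠ 0 → IsConj g x)
    (hsc : ∀ k x : G, s (k * x * k⁻¹) = s x)
    {W : MonoidAlgebra F G} (hW : W ∈ Subalgebra.center F (MonoidAlgebra F G)) {z : G}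
    (hz : z ∈ Subgroup.centralizer (Q : Set G)) (hne : (ofFun s * W).coeff z ≠ 0) :
    ∃ x, IsConj g x ∧ x ∈ Subgroup.centralizer (Q : Set G) := by
  classical
  by_contra hcon
  have hcon' : ∀ x ∈ {x : G | IsConj g x}, x ∉ Subgroup.centralizer (Q : Set G) :=
    fun x hx hxc => hcon ⟨x, hx, hxc⟩
  apply hne
  rw [← ofFun_coeff W, ofFun_mul, coeff_ofFun]
  have e1 : ∀ x : G, s x * W.coeff (x⁻¹ * z) =
      if x ∈ {x : G | IsConj g x} then s x * W.coeff (x⁻¹ * z) else 0 := by
    intro x
    by_cases hx : IsConj g x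
    · rw [if_pos (show x ∈ {x : G | IsConj g x} from hx)]
    · rw [if_neg (show x ∉ {x : G | IsConj g x} from hx)]
      have h0 : s x = 0 := by
        by_contra h
        exact hx (hs x h)
      rw [h0, zero_mul]
  rw [Finset.sum_congr rfl (fun x _ => e1 x)]
  apply sum_eq_zero_of_conj_stable Q hQ {x : G | IsConj g x}
  · intro u _ x hx
    exact (show IsConj g x from hx).trans (isConj_iff.mpr ⟨u, rfl⟩)
  · exact hcon'
  · intro u hu x _
    rw [hsc u x]
    have hzu : u * z = z * u := (Subgroup.mem_centralizer_iff.mp hz) u hu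
    have h5 : (u * x * u⁻¹)⁻¹ * z = u * (x⁻¹ * z) * u⁻¹ := by
      have h6 : u⁻¹ * z = z * u⁻¹ := by
        rw [inv_mul_eq_iff_eq_mul, ← mul_assoc, hzu, mul_assoc, mul_inv_cancel, mul_one]
      calc (u * x * u⁻¹)⁻¹ * z = u * x⁻¹ * (u⁻¹ * z) := by group
        _ = u * x⁻¹ * (z * u⁻¹) := by rw [h6]
        _ = u * (x⁻¹ * z) * u⁻¹ := by group
    rw [h5, coeff_conj_of_mem_center hW]

end Center

section Sylow

variable {G : Type u} [Group G] [Finite G] {p : ℕ} [Fact p.Prime]

/-- A `p`-subgroup inside a subgroup `H` lies in a Sylow `p`-subgroup of `H`. -/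
theorem exists_sylow_ge (H : Subgroup G) {Q : Subgroup G} (hQ : IsPGroup p Q) (hQH : Q ≤ H) :
    ∃ S : Sylow p H, Q ≤ (S : Subgroup H).map H.subtype := by
  have hQ₀ : IsPGroup p (Q.subgroupOf H) := hQ.comap_subtype
  obtain ⟨S, hS⟩ := hQ₀.exists_le_sylow
  refine ⟨S, fun u hu => ⟨⟨u, hQH hu⟩, hS (show (⟨u, hQH hu⟩ : H) ∈ Q.subgroupOf H from hu), rfl⟩⟩

/-- A `p`-subgroup inside a subgroup `H` lies in an `H`-conjugate of any given Sylow
`p`-subgroup of `H`. -/
theorem le_conj_sylow (H : Subgroup G) (D : Sylow p H) {Q : Subgroup G} (hQ : IsPGroup p Q)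
    (hQH : Q ≤ H) :
    ∃ t ∈ H, Q ≤ ((D : Subgroup H).map H.subtype).map (MulAut.conj t).toMonoidHom := by
  obtain ⟨S, hS⟩ := exists_sylow_ge H hQ hQH
  obtain ⟨t, ht⟩ := MulAction.exists_smul_eq H D S
  refine ⟨t, t.2, ?_⟩
  intro u hu
  obtain ⟨v, hv, rfl⟩ := hS hu
  have hv' : v ∈ ((t • D : Sylow p H) : Subgroup H) := by
    rw [ht]
    exact hv
  rw [Sylow.coe_subgroup_smul, Subgroup.mem_smul_pointwise_iff_exists] at hv'
  obtain ⟨d, hd, hdv⟩ := hv'
  refine ⟨(d : G), ⟨d, hd, rfl⟩, ?_⟩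
  rw [← hdv]
  rfl

end Sylow

section AlgK

/-- If `(a - c)^n e = 0` for a nonzero scalar `c`, then `e` is a multiple of `a` (inside any
subalgebra containing `a` and `e`). -/
theorem exists_factor_of_pow_mul_eq_zero {F : Type*} [Field F] {A : Type*} [Ring A]
    [Algebra F A] (Z : Subalgebra F A) {a e : A} (ha : a ∈ Z) (he : e ∈ Z) {c : F} (hc : c ≠ 0)
    {n : ℕ} (hn : (a - c • (1 : A)) ^ n * e = 0) : ∃ W ∈ Z, e = a * W := by
  have hxy : Commute (a - c • (1 : A)) (-(c • (1 : A))) :=
    ((Commute.one_right _).smul_right c).neg_right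
  have hgeom := hxy.mul_geom_sum₂ n
  rw [sub_neg_eq_add, sub_add_cancel] at hgeom
  obtain ⟨q, hq⟩ : ∃ q : A, q = ∑ i ∈ Finset.range n,
      (a - c • (1 : A)) ^ i * (-(c • (1 : A))) ^ (n - 1 - i) := ⟨_, rfl⟩
  rw [← hq] at hgeom
  have hx : a - c • (1 : A) ∈ Z := Z.sub_mem ha (Z.smul_mem Z.one_mem c)
  have hy : -(c • (1 : A)) ∈ Z := Z.neg_mem (Z.smul_mem Z.one_mem c)
  have hqZ : q ∈ Z := by
    rw [hq]
    exact Z.sum_mem (fun i _ => Z.mul_mem (Z.pow_mem hx i) (Z.pow_mem hy _))
  have hyn : (-(c • (1 : A))) ^ n = (-c) ^ n • (1 : A) := by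
    rw [← neg_smul, smul_pow, one_pow]
  have h1 : a * (q * e) = -((-c) ^ n • e) := by
    have h2 : (a - c • (1 : A)) ^ n = a * q + (-(c • (1 : A))) ^ n := by
      rw [hgeom]
      abel
    rw [h2, add_mul, hyn, smul_mul_assoc, one_mul, mul_assoc] at hn
    exact eq_neg_of_add_eq_zero_left hn
  have hcn : (-c) ^ n ≠ 0 := pow_ne_zero n (neg_ne_zero.mpr hc)
  refine ⟨-(((-c) ^ n)⁻¹ • (q * e)), Z.neg_mem (Z.smul_mem (Z.mul_mem hqZ he) _), ?_⟩
  rw [mul_neg, mul_smul_comm, h1, smul_neg, neg_neg, smul_smul, inv_mul_cancel₀ hcn, one_smul]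

end AlgK

section Local

variable {G : Type u} [Group G] [Fintype G] {M : Ideal AlgInt} [hMm : M.IsMaximal]

theorem res_sub {z w : ℂ} (hz : MemLocalRing M z) (hw : MemLocalRing M w) :
    res M (z - w) = res M z - res M w := by
  have hMp := hMm.isPrime
  have h := res_add (memLocalRing_sub hz hw) hw
  rw [sub_add_cancel] at h
  rw [h, add_sub_cancel_right]

set_option synthInstance.maxHeartbeats 400000 in
theorem red_sub_smul {f₁ f₂ : G → ℂ} (h₁ : ∀ g, MemLocalRing M (f₁ g))
    (h₂ : ∀ g, MemLocalRing M (f₂ g)) {r : ℂ} (hr : MemLocalRing M r) :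
    red M (f₁ - r • f₂) = red M f₁ - res M r • red M f₂ := by
  have hMp := hMm.isPrime
  apply MonoidAlgebra.coeff_injective
  ext g
  unfold red
  rw [coeff_ofFun, MonoidAlgebra.coeff_sub, Finsupp.sub_apply, MonoidAlgebra.coeff_smul,
    Finsupp.smul_apply, coeff_ofFun, coeff_ofFun, smul_eq_mul]
  show res M (f₁ g - r * f₂ g) = _
  rw [res_sub (h₁ g) (memLocalRing_mul hr (h₂ g)), res_mul hr (h₂ g)]

theorem red_mem_center {f : G → ℂ} (hf : IsClassFunction G f) :
    red M f ∈ Subalgebra.center (AlgInt ⧸ M) (MonoidAlgebra (AlgInt ⧸ M) G) :=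
  ofFun_mem_center (fun k x => by rw [hf x k])

theorem coeff_red (f : G → ℂ) (g : G) : (red M f).coeff g = res M (f g) := by
  unfold red
  rw [coeff_ofFun]

/-- If the central characters of a block vanish modulo the local ideal on a central element,
a power of its reduction kills the reduced block idempotent. -/
theorem red_pow_mul_blockCoeff (χ₀ : IrrCharacter G) {f : G → ℂ} (hf : IsClassFunction G f)
    (hfR : ∀ g, MemLocalRing M (f g))
    (hfB : ∀ χ ∈ blockOf M (χ₀ : G → ℂ), MemLocalIdeal M (Om (χ : G → ℂ) f)) :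
    ∃ n : ℕ, red M f ^ n * red M (blockCoeff (blockOf M (χ₀ : G → ℂ))) = 0 := by
  have hMp := hMm.isPrime
  obtain ⟨n, hn⟩ := conv_cpow_blockCoeff_memLocalIdeal χ₀ hf hfR hfB
  refine ⟨n, ?_⟩
  have hR : ∀ g, MemLocalRing M (blockCoeff (blockOf M (χ₀ : G → ℂ)) g) :=
    fun g => osima ⟨χ₀, rfl⟩ g
  rw [← red_cpow hfR, ← red_conv (memLocalRing_cpow hfR n) hR]
  exact (red_eq_zero_iff (memLocalRing_conv (memLocalRing_cpow hfR n) hR)).mpr hn

set_option synthInstance.maxHeartbeats 400000 in
/-- If the central character of a block does not vanish modulo the local ideal at `h`, the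
reduced block idempotent is a central multiple of the class sum of `h`. -/
theorem exists_center_factor (χ₀ : IrrCharacter G) (h : G)
    (hne : ¬ MemLocalIdeal M (centralChar (χ₀ : G → ℂ) h)) :
    ∃ W ∈ Subalgebra.center (AlgInt ⧸ M) (MonoidAlgebra (AlgInt ⧸ M) G),
      red M (blockCoeff (blockOf M (χ₀ : G → ℂ))) = red M (classInd h) * W := by
  have hMp := hMm.isPrime
  obtain ⟨ω, hω⟩ : ∃ ω, ω = centralChar (χ₀ : G → ℂ) h := ⟨_, rfl⟩
  have hωR : MemLocalRing M ω := by
    rw [hω]
    exact memLocalRing_centralChar χ₀.2 h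
  have hclh := isClassFunction_classInd h
  have hRh : ∀ g, MemLocalRing M (classInd h g) := fun g => memLocalRing_classInd h g
  have hcl0 := isClassFunction_cpow hclh 0
  have hR0 : ∀ g, MemLocalRing M (cpow (classInd h) 0 g) := memLocalRing_cpow hRh 0
  obtain ⟨f, hfdef⟩ : ∃ f : G → ℂ, f = classInd h - ω • cpow (classInd h) 0 := ⟨_, rfl⟩
  have hf : IsClassFunction G f := by
    rw [hfdef]
    exact isClassFunction_sub hclh (isClassFunction_smul ω hcl0)
  have hfR : ∀ g, MemLocalRing M (f g) := by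
    intro g
    rw [hfdef]
    show MemLocalRing M (classInd h g - ω * cpow (classInd h) 0 g)
    exact memLocalRing_sub (hRh g) (memLocalRing_mul hωR (hR0 g))
  have hfB : ∀ χ ∈ blockOf M (χ₀ : G → ℂ), MemLocalIdeal M (Om (χ : G → ℂ) f) := by
    intro χ hχ
    rw [hfdef, om_sub, om_smul, om_classInd (isClassFunction_of_irr χ.2), om_cpow χ.2 hclh 0,
      pow_zero, mul_one, hω]
    have h1 := memLocalIdeal_neg (hχ h)
    rwa [neg_sub] at h1
  obtain ⟨n, hn⟩ := red_pow_mul_blockCoeff χ₀ hf hfR hfB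
  have hc0 : res M ω ≠ 0 := by
    intro h0
    apply hne
    rw [← hω]
    exact (res_eq_zero_iff hωR).mp h0
  have hredf : red M f = red M (classInd h) -
      res M ω • (1 : MonoidAlgebra (AlgInt ⧸ M) G) := by
    rw [hfdef, red_sub_smul hRh hR0 hωR, red_cpow hRh 0, pow_zero]
  rw [hredf] at hn
  exact exists_factor_of_pow_mul_eq_zero _ (red_mem_center hclh)
    (red_mem_center (isClassFunction_blockCoeff _)) hc0 hn

set_option synthInstance.maxHeartbeats 400000 in
/-- The core of the min-max theorem: if the central character of a block does not vanish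
modulo the local ideal at `a`, the block idempotent has a coefficient outside the local ideal
at `z`, and the `p`-subgroup `Q` centralizes `z`, then some conjugate of `a` centralizes `Q`. -/
theorem exists_conj_centralizing {p : ℕ} [Fact p.Prime] (hM : IsPModular p M)
    (χ₀ : IrrCharacter G) (a z : G)
    (ha : ¬ MemLocalIdeal M (centralChar (χ₀ : G → ℂ) a))
    (hzR : MemLocalRing M (blockCoeff (blockOf M (χ₀ : G → ℂ)) z))
    (hz : ¬ MemLocalIdeal M (blockCoeff (blockOf M (χ₀ : G → ℂ)) z))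
    (Q : Subgroup G) (hQ : IsPGroup p Q) (hQz : z ∈ Subgroup.centralizer (Q : Set G)) :
    ∃ x, IsConj a x ∧ x ∈ Subgroup.centralizer (Q : Set G) := by
  classical
  have hch : CharP (AlgInt ⧸ M) p := charP_quot hM
  have hMp := hMm.isPrime
  obtain ⟨W, hW, hfac⟩ := exists_center_factor χ₀ a ha
  have hne : (red M (blockCoeff (blockOf M (χ₀ : G → ℂ)))).coeff z ≠ 0 := by
    rw [coeff_red]
    intro h0
    exact hz ((res_eq_zero_iff hzR).mp h0)
  rw [hfac] at hne
  refine exists_conj_mem_centralizer (F := AlgInt ⧸ M) Q hQ a (fun x => res M (classInd a x))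
    ?_ ?_ hW hQz hne
  · intro x hx
    by_contra hcon
    apply hx
    have h0 : classInd a x = 0 := by
      unfold classInd
      exact if_neg hcon
    rw [h0, res_zero]
  · intro k x
    rw [isClassFunction_classInd a x k]

end Local

end Cfsg.Agent.Lib_helper3_DefectLoc
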