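import Mathlib
import Cfsg.Prelude.Def_Characters
import Cfsg.Prelude.Def_Blocks
import Cfsg.Agent.Lib_helper3_DefectLoc
import Cfsg.Agent.Lib_helper3_BlockInd

set_option autoImplicit false
open Cfsg
open Cfsg.Agent.Lib_helper3_CharBasic Cfsg.Agent.Lib_helper3_CharMore
  Cfsg.Agent.Lib_helper3_Local Cfsg.Agent.Lib_helper3_Local2 Cfsg.Agent.Lib_helper3_BlockAlg
  Cfsg.Agent.Lib_helper3_BlockInd Cfsg.Agent.Lib_helper3_DefectLoc
open scoped ComplexConjugate

namespace Cfsg.Agent.Lib_helper3_DefectLoc2

universe u

variable {G : Type u} [Group G] [Fintype G] {M : Ideal AlgInt}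

/-- The central character of a class function is a class function. -/
theorem centralChar_conj {χ : G → ℂ} (hχ : IsClassFunction G χ) (g k : G) :
    centralChar χ (k * g * k⁻¹) = centralChar χ g := by
  rw [← om_classInd hχ, ← om_classInd hχ]
  congr 1
  funext x
  unfold classInd
  have h1 : IsConj (k * g * k⁻¹) x ↔ IsConj g x := by
    have hc : IsConj g (k * g * k⁻¹) := isConj_iff.mpr ⟨k, rfl⟩
    exact ⟨fun h => hc.trans h, fun h => hc.symm.trans h⟩
  by_cases h : IsConj g x
  · rw [if_pos h, if_pos (h1.mpr h)]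
  · rw [if_neg h, if_neg (fun h' => h (h1.mp h'))]

/-- Conjugates of a defect class representative represent a defect class. -/
theorem isDefectClass_conj {B : Set (IrrCharacter G)} {g : G} (hg : IsDefectClass M B g)
    (k : G) : IsDefectClass M B (k * g * k⁻¹) := by
  have hcl := isClassFunction_blockCoeff B g k
  refine ⟨?_, ?_, ?_⟩
  · rw [hcl]
    exact hg.1
  · rw [hcl]
    exact hg.2.1
  · intro χ hχ
    rw [centralChar_conj (isClassFunction_of_irr χ.2)]
    exact hg.2.2 χ hχ

/-- If the induced central character of `ξ` is outside the local ideal at `g`, some element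
of `H` conjugate to `g` has its central character outside the local ideal. -/
theorem exists_fusion_not_memLocalIdeal [hMp : M.IsPrime] (H : Subgroup G) [Fintype H]
    (ξ : IrrCharacter H) (g : G)
    (h : ¬ MemLocalIdeal M (inducedCentralChar H (ξ : H → ℂ) g)) :
    ∃ h₁ : H, IsConj g (h₁ : G) ∧ ¬ MemLocalIdeal M (centralChar (ξ : H → ℂ) h₁) := by
  classical
  by_contra hcon
  apply h
  have := Fintype.ofFinite (ConjClasses H)
  rw [inducedCentralChar_eq_om, om_eq_sum_conjClasses (isClassFunction_of_irr ξ.2)
    (isClassFunction_fusInd g)]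
  apply memLocalIdeal_sum
  intro C _
  by_cases hC : IsConj g ((Quotient.out C : H) : G)
  · have h1 : MemLocalIdeal M (centralChar (ξ : H → ℂ) (Quotient.out C)) := by
      by_contra h'
      exact hcon ⟨_, hC, h'⟩
    exact memLocalIdeal_mul_left (memLocalRing_fusInd g _) h1
  · rw [fusInd_of_not g hC, zero_mul]
    exact memLocalIdeal_zero hMp.ne_top

end Cfsg.Agent.Lib_helper3_DefectLoc2
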