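import Mathlib
import Cfsg.Prelude.Def_Characters
import Cfsg.Prelude.Def_Blocks
import Cfsg.Agent.Lib_helper3_DefectLoc2

set_option autoImplicit false
open Cfsg
open Cfsg.Agent.Lib_helper3_CharBasic Cfsg.Agent.Lib_helper3_CharMore
  Cfsg.Agent.Lib_helper3_Local Cfsg.Agent.Lib_helper3_Local2 Cfsg.Agent.Lib_helper3_BlockAlg
  Cfsg.Agent.Lib_helper3_BlockInd Cfsg.Agent.Lib_helper3_DefectLoc
  Cfsg.Agent.Lib_helper3_IdemSupp Cfsg.Agent.Lib_helper3_AugNil Cfsg.Agent.Lib_helper3_Residue
  Cfsg.Agent.Lib_helper3_IdemCent Cfsg.Agent.Lib_helper3_DefectLoc2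
open scoped ComplexConjugate

namespace Cfsg.Agent.Lib_helper3_BrauerHom

attribute [local instance] Ideal.Quotient.field

universe u

variable {G : Type u} [Group G] [Fintype G] {M : Ideal AlgInt} {p : ℕ} [Fact p.Prime]

omit [Fintype G] [Fact p.Prime] in
/-- The normalizer of a subgroup normalizes its centralizer. -/
theorem conj_mem_centralizer_of_mem_normalizer (P : Subgroup G) {n c : G}
    (hn : n ∈ Subgroup.normalizer (P : Set G)) (hc : c ∈ Subgroup.centralizer (P : Set G)) :
    n * c * n⁻¹ ∈ Subgroup.centralizer (P : Set G) := by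
  rw [Subgroup.mem_centralizer_iff] at hc ⊢
  intro u hu
  have hu' : n⁻¹ * u * n ∈ P := by
    have h1 := (Subgroup.mem_normalizer_iff.mp hn (n⁻¹ * u * n)).mpr
    apply h1
    have h2 : n * (n⁻¹ * u * n) * n⁻¹ = u := by group
    rw [h2]
    exact hu
  have h3 := hc _ hu'
  calc u * (n * c * n⁻¹) = n * (n⁻¹ * u * n * c) * n⁻¹ := by group
    _ = n * (c * (n⁻¹ * u * n)) * n⁻¹ := by rw [h3]
    _ = n * c * n⁻¹ * u := by group

/-- For `P ≤ H ≤ N_G(P)` with `P` a `p`-group, the central characters of `H` lie in the local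
ideal at the elements not centralizing `P`. -/
theorem centralChar_memLocalIdeal_of_not_mem_centralizer (hM : IsPModular p M)
    (P H : Subgroup G) [Fintype H] (hP : IsPGroup p P) (hPH : P ≤ H)
    (hHN : H ≤ Subgroup.normalizer (P : Set G)) (ξ : IrrCharacter H) (h : H)
    (hh : (h : G) ∉ Subgroup.centralizer (P : Set G)) :
    MemLocalIdeal M (centralChar (ξ : H → ℂ) h) := by
  have hMm : M.IsMaximal := hM.2.1
  have hn : (P.subgroupOf H).Normal := Subgroup.normal_subgroupOf_of_le_normalizer hHN
  have hP' : IsPGroup p (P.subgroupOf H) := hP.comap_subtype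
  apply centralChar_memLocalIdeal_of_avoid hM (P.subgroupOf H) hP' ξ.2 h
  intro x hx hxc
  apply hh
  obtain ⟨k, rfl⟩ := isConj_iff.mp hx
  have h1 : ((k * h * k⁻¹ : H) : G) ∈ Subgroup.centralizer (P : Set G) := by
    rw [Subgroup.mem_centralizer_iff] at hxc ⊢
    intro u hu
    have h2 := hxc ⟨u, hPH hu⟩ (show (⟨u, hPH hu⟩ : H) ∈ P.subgroupOf H from hu)
    exact congrArg Subtype.val h2
  have h2 := conj_mem_centralizer_of_mem_normalizer P (hHN (k⁻¹).2) h1
  have h3 : ((k⁻¹ : H) : G) * ((k * h * k⁻¹ : H) : G) * ((k⁻¹ : H) : G)⁻¹ = (h : G) := by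
    rw [Subgroup.coe_mul, Subgroup.coe_mul, Subgroup.coe_inv]
    group
  rwa [h3] at h2

open Classical in
/-- Indicator of the elements of `H` conjugate to `g` and not centralizing `P`. -/
noncomputable def fusN (P H : Subgroup G) (g : G) : H → ℂ := fun h =>
  if IsConj g (h : G) ∧ (h : G) ∉ Subgroup.centralizer (P : Set G) then 1 else 0

/-- Modulo the local ideal, the induced central character only sees the elements centralizing
`P`. -/
theorem inducedCentralChar_sub_brauerCentralChar (hM : IsPModular p M)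
    (P H : Subgroup G) [Fintype H] (hP : IsPGroup p P) (hPH : P ≤ H)
    (hHN : H ≤ Subgroup.normalizer (P : Set G)) (ξ : IrrCharacter H) (g : G) :
    MemLocalIdeal M (inducedCentralChar H (ξ : H → ℂ) g -
      brauerCentralChar P H (ξ : H → ℂ) g) := by
  classical
  have hMm : M.IsMaximal := hM.2.1
  have hMp : M.IsPrime := hMm.isPrime
  have := Fintype.ofFinite (ConjClasses H)
  obtain ⟨fN, hfN⟩ : ∃ fN : H → ℂ, fN = fusN P H g := ⟨_, rfl⟩
  have hcl : IsClassFunction H fN := by
    intro h k
    rw [hfN]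
    unfold fusN
    have hc : IsConj (h : G) ((k * h * k⁻¹ : H) : G) := isConj_iff.mpr ⟨(k : G), by simp⟩
    have h1 : (IsConj g ((k * h * k⁻¹ : H) : G) ∧
        ((k * h * k⁻¹ : H) : G) ∉ Subgroup.centralizer (P : Set G)) ↔
        (IsConj g (h : G) ∧ (h : G) ∉ Subgroup.centralizer (P : Set G)) := by
      have h2 : ((k * h * k⁻¹ : H) : G) ∈ Subgroup.centralizer (P : Set G) ↔
          (h : G) ∈ Subgroup.centralizer (P : Set G) := by
        constructor
        · intro h3
          have h4 := conj_mem_centralizer_of_mem_normalizer P (hHN (k⁻¹).2) h3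
          have h5 : ((k⁻¹ : H) : G) * ((k * h * k⁻¹ : H) : G) * ((k⁻¹ : H) : G)⁻¹ = (h : G) := by
            rw [Subgroup.coe_mul, Subgroup.coe_mul, Subgroup.coe_inv]
            group
          rwa [h5] at h4
        · intro h3
          have h4 := conj_mem_centralizer_of_mem_normalizer P (hHN k.2) h3
          rwa [Subgroup.coe_mul, Subgroup.coe_mul, Subgroup.coe_inv]
      constructor
      · rintro ⟨ha, hb⟩
        exact ⟨ha.trans hc.symm, fun h' => hb (h2.mpr h')⟩
      · rintro ⟨ha, hb⟩
        exact ⟨ha.trans hc, fun h' => hb (h2.mp h')⟩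
    exact if_congr h1 rfl rfl
  have hdiff : inducedCentralChar H (ξ : H → ℂ) g - brauerCentralChar P H (ξ : H → ℂ) g =
      Om (ξ : H → ℂ) fN := by
    unfold inducedCentralChar brauerCentralChar Om
    rw [finsum_mem_def, finsum_eq_sum_of_fintype, finsum_mem_def, finsum_eq_sum_of_fintype,
      ← Finset.sum_sub_distrib, Finset.sum_div]
    apply Finset.sum_congr rfl
    intro h _
    rw [hfN]
    unfold fusN
    by_cases h1 : IsConj g (h : G)
    · rw [Set.indicator_of_mem (show h ∈ {h : H | IsConj g (h : G)} from h1)]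
      by_cases h2 : (h : G) ∈ Subgroup.centralizer (P : Set G)
      · rw [Set.indicator_of_mem (show h ∈ {h : H | IsConj g (h : G) ∧
          (h : G) ∈ Subgroup.centralizer (P : Set G)} from ⟨h1, h2⟩),
          if_neg (fun h' => h'.2 h2)]
        ring
      · rw [Set.indicator_of_notMem (show h ∉ {h : H | IsConj g (h : G) ∧
          (h : G) ∈ Subgroup.centralizer (P : Set G)} from fun h' => h2 h'.2),
          if_pos ⟨h1, h2⟩]
        ring
    · rw [Set.indicator_of_notMem (show h ∉ {h : H | IsConj g (h : G)} from h1),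
        Set.indicator_of_notMem (show h ∉ {h : H | IsConj g (h : G) ∧
          (h : G) ∈ Subgroup.centralizer (P : Set G)} from fun h' => h1 h'.1),
        if_neg (fun h' => h1 h'.1)]
      ring
  rw [hdiff, om_eq_sum_conjClasses (isClassFunction_of_irr ξ.2) hcl]
  apply memLocalIdeal_sum
  intro C _
  by_cases hC : IsConj g ((Quotient.out C : H) : G) ∧
      ((Quotient.out C : H) : G) ∉ Subgroup.centralizer (P : Set G)
  · rw [hfN]
    unfold fusN
    simp only [if_pos hC, one_mul]
    exact centralChar_memLocalIdeal_of_not_mem_centralizer hM P H hP hPH hHN ξ _ hC.2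
  · rw [hfN]
    unfold fusN
    simp only [if_neg hC, zero_mul]
    exact memLocalIdeal_zero hMp.ne_top

end Cfsg.Agent.Lib_helper3_BrauerHom
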