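import Mathlib
import Cfsg.Prelude.Def_Characters
import Cfsg.Prelude.Def_Blocks
import Cfsg.Agent.Lib_helper3_BrauerHom

set_option autoImplicit false
open Cfsg
open Cfsg.Agent.Lib_helper3_CharBasic Cfsg.Agent.Lib_helper3_CharMore
  Cfsg.Agent.Lib_helper3_Local Cfsg.Agent.Lib_helper3_Local2 Cfsg.Agent.Lib_helper3_BlockAlg
  Cfsg.Agent.Lib_helper3_BlockInd Cfsg.Agent.Lib_helper3_DefectLoc
  Cfsg.Agent.Lib_helper3_IdemSupp Cfsg.Agent.Lib_helper3_AugNil Cfsg.Agent.Lib_helper3_Residue
  Cfsg.Agent.Lib_helper3_IdemCent Cfsg.Agent.Lib_helper3_DefectLoc2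
  Cfsg.Agent.Lib_helper3_BrauerHom
open scoped ComplexConjugate

namespace Cfsg.Agent.Lib_helper3_BrauerHom2

attribute [local instance] Ideal.Quotient.field

universe u

variable {G : Type u} [Group G] [Fintype G] {M : Ideal AlgInt} {p : ℕ} [Fact p.Prime]

/-- Restriction of a function to a subgroup. -/
def resH (H : Subgroup G) (f : G → ℂ) : H → ℂ := fun h => f h

omit [Fintype G] in
theorem isClassFunction_resH (H : Subgroup G) {f : G → ℂ} (hf : IsClassFunction G f) :
    IsClassFunction H (resH H f) := by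
  intro h k
  show f ((k * h * k⁻¹ : H) : G) = f h
  rw [Subgroup.coe_mul, Subgroup.coe_mul, Subgroup.coe_inv]
  exact hf _ _

omit [Fintype G] in
theorem resH_classInd (H : Subgroup G) (g : G) : resH H (classInd g) = fusInd H g := by
  classical
  funext h
  unfold resH classInd
  by_cases hh : IsConj g (h : G)
  · rw [fusInd_of g hh, if_pos hh]
  · rw [fusInd_of_not g hh, if_neg hh]

omit [Fintype G] in
theorem resH_sub (H : Subgroup G) (f₁ f₂ : G → ℂ) :
    resH H (f₁ - f₂) = resH H f₁ - resH H f₂ := rfl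

omit [Fintype G] in
theorem resH_smul (H : Subgroup G) (c : ℂ) (f : G → ℂ) :
    resH H (c • f) = c • resH H f := rfl

theorem resH_cpow_zero (H : Subgroup G) [Fintype H] (f : G → ℂ) (f' : H → ℂ) :
    resH H (cpow f 0) = cpow f' 0 := by
  classical
  funext h
  unfold resH cpow
  by_cases hh : h = 1
  · rw [if_pos hh, if_pos (show (h : G) = 1 by rw [hh]; rfl)]
  · rw [if_neg hh, if_neg (fun h' : (h : G) = 1 => hh (Subtype.ext h'))]

theorem memLocalRing_om [hMp : M.IsPrime] {χ : G → ℂ} (hχ : IsIrrCharacter G χ) {f : G → ℂ}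
    (hf : IsClassFunction G f) (h : ∀ g, MemLocalRing M (f g)) : MemLocalRing M (Om χ f) := by
  classical
  have := Fintype.ofFinite (ConjClasses G)
  rw [om_eq_sum_conjClasses (isClassFunction_of_irr hχ) hf]
  apply memLocalRing_sum
  intro C _
  exact memLocalRing_mul (h _) (memLocalRing_centralChar hχ _)

theorem om_sum (χ : G → ℂ) {ι : Type*} (s : Finset ι) (f : ι → G → ℂ) :
    Om χ (fun g => ∑ i ∈ s, f i g) = ∑ i ∈ s, Om χ (f i) := by
  unfold Om
  rw [← Finset.sum_div]
  congr 1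
  rw [Finset.sum_comm]
  apply Finset.sum_congr rfl
  intro g _
  rw [Finset.sum_mul]

open Classical in
/-- The difference between convolution in `G` restricted to `H` and convolution in `H`. -/
theorem conv_resH_sub (H : Subgroup G) [Fintype H] (f₁ f₂ : G → ℂ) (z : H) :
    resH H (conv f₁ f₂) z - conv (resH H f₁) (resH H f₂) z =
      ∑ x : G, if x ∈ H then 0 else f₁ x * f₂ (x⁻¹ * z) := by
  classical
  unfold conv resH
  have h1 : ∑ h : H, f₁ (h : G) * f₂ ((h⁻¹ * z : H) : G) =
      ∑ x : G, if x ∈ H then f₁ x * f₂ (x⁻¹ * z) else 0 := by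
    rw [← Finset.sum_filter]
    rw [Finset.sum_subtype (Finset.univ.filter (fun x : G => x ∈ H)) (p := fun x => x ∈ H)
      (by simp) (fun x => f₁ x * f₂ (x⁻¹ * z))]
    apply Finset.sum_congr rfl
    intro h _
    rw [Subgroup.coe_mul, Subgroup.coe_inv]
  rw [h1, ← Finset.sum_sub_distrib]
  apply Finset.sum_congr rfl
  intro x _
  by_cases hx : x ∈ H
  · rw [if_pos hx, if_pos hx, sub_self]
  · rw [if_neg hx, if_neg hx, sub_zero]

open Classical in
/-- The off-`H` part of a convolution of class functions lies in the local ideal at elements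
centralizing `P`. -/
theorem diff_memLocalIdeal (hM : IsPModular p M) (P H : Subgroup G) (hP : IsPGroup p P)
    (hPH : P ≤ H) (hCH : Subgroup.centralizer (P : Set G) ≤ H) {f₁ f₂ : G → ℂ}
    (h₁ : IsClassFunction G f₁) (h₂ : IsClassFunction G f₂) (hR₁ : ∀ g, MemLocalRing M (f₁ g))
    (hR₂ : ∀ g, MemLocalRing M (f₂ g)) (z : G) (hz : z ∈ Subgroup.centralizer (P : Set G)) :
    MemLocalIdeal M (∑ x : G, if x ∈ H then 0 else f₁ x * f₂ (x⁻¹ * z)) := by
  classical
  have hMm : M.IsMaximal := hM.2.1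
  have hMp : M.IsPrime := hMm.isPrime
  have hch : CharP (AlgInt ⧸ M) p := charP_quot hM
  have hterm : ∀ x : G, MemLocalRing M (if x ∈ H then 0 else f₁ x * f₂ (x⁻¹ * z)) := by
    intro x
    split_ifs
    · exact memLocalRing_zero hMp.ne_top
    · exact memLocalRing_mul (hR₁ _) (hR₂ _)
  rw [← res_eq_zero_iff (memLocalRing_sum _ _ (fun x _ => hterm x)),
    res_sum _ _ (fun x _ => hterm x)]
  have h1 : ∀ x : G, res M (if x ∈ H then 0 else f₁ x * f₂ (x⁻¹ * z)) =
      if x ∈ {x : G | x ∉ H} then res M (f₁ x) * res M (f₂ (x⁻¹ * z)) else 0 := by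
    intro x
    by_cases hx : x ∈ H
    · rw [if_pos hx, if_neg (fun h' : x ∈ {x : G | x ∉ H} => h' hx), res_zero]
    · rw [if_neg hx, if_pos (show x ∈ {x : G | x ∉ H} from hx), res_mul (hR₁ _) (hR₂ _)]
  rw [Finset.sum_congr rfl (fun x _ => h1 x)]
  apply sum_eq_zero_of_conj_stable (p := p) P hP {x : G | x ∉ H}
  · intro u hu x hx hux
    apply hx
    have h2 : x = u⁻¹ * (u * x * u⁻¹) * u := by group
    rw [h2]
    exact H.mul_mem (H.mul_mem (H.inv_mem (hPH hu)) hux) (hPH hu)
  · intro x hx hxc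
    exact hx (hCH hxc)
  · intro u hu x _
    rw [h₁ x u]
    have h3 : (u * x * u⁻¹)⁻¹ * z = u * (x⁻¹ * z) * u⁻¹ := by
      have h4 : u * z = z * u := (Subgroup.mem_centralizer_iff.mp hz) u hu
      have h5 : u⁻¹ * z = z * u⁻¹ := by
        calc u⁻¹ * z = u⁻¹ * (z * u) * u⁻¹ := by group
          _ = u⁻¹ * (u * z) * u⁻¹ := by rw [h4]
          _ = z * u⁻¹ := by group
      calc (u * x * u⁻¹)⁻¹ * z = u * x⁻¹ * (u⁻¹ * z) := by group
        _ = u * x⁻¹ * (z * u⁻¹) := by rw [h5]
        _ = u * (x⁻¹ * z) * u⁻¹ := by group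
    rw [h3, h₂ _ u]

/-- Modulo the local ideal, a central character of `H` composed with restriction is
multiplicative on class functions of `G` with local-integer values. -/
theorem om_resH_conv (hM : IsPModular p M) (P H : Subgroup G) [Fintype H] (hP : IsPGroup p P)
    (hPH : P ≤ H) (hCH : Subgroup.centralizer (P : Set G) ≤ H)
    (hHN : H ≤ Subgroup.normalizer (P : Set G)) (ξ : IrrCharacter H) {f₁ f₂ : G → ℂ}
    (h₁ : IsClassFunction G f₁) (h₂ : IsClassFunction G f₂) (hR₁ : ∀ g, MemLocalRing M (f₁ g))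
    (hR₂ : ∀ g, MemLocalRing M (f₂ g)) :
    MemLocalIdeal M (Om (ξ : H → ℂ) (resH H (conv f₁ f₂)) -
      Om (ξ : H → ℂ) (resH H f₁) * Om (ξ : H → ℂ) (resH H f₂)) := by
  classical
  have hMm : M.IsMaximal := hM.2.1
  have hMp : M.IsPrime := hMm.isPrime
  have := Fintype.ofFinite (ConjClasses H)
  have hc₁ := isClassFunction_resH H h₁
  have hc₂ := isClassFunction_resH H h₂
  rw [← om_conv ξ.2 hc₁ hc₂, ← om_sub]
  have hd : IsClassFunction H (resH H (conv f₁ f₂) - conv (resH H f₁) (resH H f₂)) :=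
    isClassFunction_sub (isClassFunction_resH H (isClassFunction_conv h₁ h₂))
      (isClassFunction_conv hc₁ hc₂)
  rw [om_eq_sum_conjClasses (isClassFunction_of_irr ξ.2) hd]
  apply memLocalIdeal_sum
  intro C _
  rw [Pi.sub_apply, conv_resH_sub]
  by_cases hC : ((Quotient.out C : H) : G) ∈ Subgroup.centralizer (P : Set G)
  · rw [mul_comm]
    exact memLocalIdeal_mul_left (memLocalRing_centralChar ξ.2 _)
      (diff_memLocalIdeal hM P H hP hPH hCH h₁ h₂ hR₁ hR₂ _ hC)
  · apply memLocalIdeal_mul_left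
    · apply memLocalRing_sum
      intro x _
      split_ifs
      · exact memLocalRing_zero hMp.ne_top
      · exact memLocalRing_mul (hR₁ _) (hR₂ _)
    · exact centralChar_memLocalIdeal_of_not_mem_centralizer hM P H hP hPH hHN ξ _ hC

section Lam

variable [hMm : M.IsMaximal]

/-- The residue of the central character of `ξ` applied to the restriction of `f`. -/
noncomputable def lam (M : Ideal AlgInt) [M.IsMaximal] (H : Subgroup G) [Fintype H] (ξ : H → ℂ)
    (f : G → ℂ) : AlgInt ⧸ M :=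
  res M (Om ξ (resH H f))

theorem lam_conv (hM : IsPModular p M) (P H : Subgroup G) [Fintype H] (hP : IsPGroup p P)
    (hPH : P ≤ H) (hCH : Subgroup.centralizer (P : Set G) ≤ H)
    (hHN : H ≤ Subgroup.normalizer (P : Set G)) (ξ : IrrCharacter H) {f₁ f₂ : G → ℂ}
    (h₁ : IsClassFunction G f₁) (h₂ : IsClassFunction G f₂) (hR₁ : ∀ g, MemLocalRing M (f₁ g))
    (hR₂ : ∀ g, MemLocalRing M (f₂ g)) :
    lam M H (ξ : H → ℂ) (conv f₁ f₂) = lam M H (ξ : H → ℂ) f₁ * lam M H (ξ : H → ℂ) f₂ := by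
  have hMp : M.IsPrime := hMm.isPrime
  have h := om_resH_conv hM P H hP hPH hCH hHN ξ h₁ h₂ hR₁ hR₂
  have hR : MemLocalRing M (Om (ξ : H → ℂ) (resH H (conv f₁ f₂))) :=
    memLocalRing_om ξ.2 (isClassFunction_resH H (isClassFunction_conv h₁ h₂))
      (fun h => memLocalRing_conv hR₁ hR₂ _)
  have hRa : MemLocalRing M (Om (ξ : H → ℂ) (resH H f₁)) :=
    memLocalRing_om ξ.2 (isClassFunction_resH H h₁) (fun h => hR₁ _)
  have hRb : MemLocalRing M (Om (ξ : H → ℂ) (resH H f₂)) :=
    memLocalRing_om ξ.2 (isClassFunction_resH H h₂) (fun h => hR₂ _)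
  rw [← res_eq_zero_iff (memLocalRing_sub hR (memLocalRing_mul hRa hRb)),
    res_sub hR (memLocalRing_mul hRa hRb), res_mul hRa hRb, sub_eq_zero] at h
  exact h

theorem lam_cpow (hM : IsPModular p M) (P H : Subgroup G) [Fintype H] (hP : IsPGroup p P)
    (hPH : P ≤ H) (hCH : Subgroup.centralizer (P : Set G) ≤ H)
    (hHN : H ≤ Subgroup.normalizer (P : Set G)) (ξ : IrrCharacter H) {f : G → ℂ}
    (hf : IsClassFunction G f) (hR : ∀ g, MemLocalRing M (f g)) (n : ℕ) :
    lam M H (ξ : H → ℂ) (cpow f n) = lam M H (ξ : H → ℂ) f ^ n := by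
  induction n with
  | zero =>
    unfold lam
    rw [resH_cpow_zero H f (resH H f), om_cpow ξ.2 (isClassFunction_resH H hf) 0, pow_zero,
      pow_zero, res_one]
  | succ n ih =>
    rw [pow_succ', ← ih]
    exact lam_conv hM P H hP hPH hCH hHN ξ hf (isClassFunction_cpow hf n) hR
      (memLocalRing_cpow hR n)

omit [Fact p.Prime] in
theorem lam_eq_zero (H : Subgroup G) [Fintype H] (ξ : IrrCharacter H) {f : G → ℂ}
    (hf : IsClassFunction G f) (h : ∀ g, MemLocalIdeal M (f g)) :
    lam M H (ξ : H → ℂ) f = 0 := by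
  have h1 : MemLocalIdeal M (Om (ξ : H → ℂ) (resH H f)) :=
    om_memLocalIdeal ξ.2 (isClassFunction_resH H hf) (fun h' => h _)
  unfold lam
  rw [res_eq_zero_iff (memLocalRing_of_memLocalIdeal h1)]
  exact h1

/-- For `P C_G(P) ≤ H ≤ N_G(P)`, the induced central character of an irreducible character of
`H` is congruent to the central character of some irreducible character of `G`. -/
theorem exists_irr_induced (hM : IsPModular p M) (P H : Subgroup G) [Fintype H]
    (hP : IsPGroup p P) (hPH : P ≤ H) (hCH : Subgroup.centralizer (P : Set G) ≤ H)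
    (hHN : H ≤ Subgroup.normalizer (P : Set G)) (ξ : IrrCharacter H) :
    ∃ χ₀ : IrrCharacter G, ∀ g : G,
      MemLocalIdeal M (inducedCentralChar H (ξ : H → ℂ) g - centralChar (χ₀ : G → ℂ) g) := by
  classical
  have hMp : M.IsPrime := hMm.isPrime
  have hfin := irr_finite (G := G)
  have := Fintype.ofFinite (IrrCharacter G)
  have hex : ∃ χ₀ : IrrCharacter G,
      lam M H (ξ : H → ℂ) (blockCoeff (blockOf M (χ₀ : G → ℂ))) ≠ 0 := by
    by_contra hno
    push Not at hno
    obtain ⟨𝔅, h𝔅def⟩ : ∃ 𝔅 : Finset (Set (IrrCharacter G)), 𝔅 =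
        Finset.univ.image (fun χ : IrrCharacter G => blockOf M (χ : G → ℂ)) := ⟨_, rfl⟩
    have h𝔅 : ∀ B ∈ 𝔅, ∃ χ : IrrCharacter G, B = blockOf M (χ : G → ℂ) := by
      intro B hB
      rw [h𝔅def] at hB
      obtain ⟨χ, -, rfl⟩ := Finset.mem_image.mp hB
      exact ⟨χ, rfl⟩
    have hz : IsClassFunction G (fun _ : G => (0 : ℂ)) := fun _ _ => rfl
    have hF : (fun g => ∑ B ∈ 𝔅, blockCoeff B g) = cpow (fun _ : G => (0 : ℂ)) 0 := by
      apply om_ext
      · intro g k
        exact Finset.sum_congr rfl (fun B _ => isClassFunction_blockCoeff B g k)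
      · exact isClassFunction_cpow hz 0
      · intro χ
        rw [om_sum, om_cpow χ.2 hz 0, pow_zero,
          Finset.sum_eq_single (blockOf M (χ : G → ℂ))]
        · exact om_blockCoeff_of_mem (mem_blockOf_self hMp.ne_top χ)
        · intro B hB hne
          obtain ⟨ψ, rfl⟩ := h𝔅 B hB
          apply om_blockCoeff_of_not_mem
          intro hmem
          exact hne (blockOf_eq_of_mem hmem).symm
        · intro hnot
          rw [h𝔅def] at hnot
          exact absurd (Finset.mem_image_of_mem _ (Finset.mem_univ χ)) hnot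
    have h1 : lam M H (ξ : H → ℂ) (cpow (fun _ : G => (0 : ℂ)) 0) = 1 := by
      rw [lam_cpow hM P H hP hPH hCH hHN ξ hz (fun _ => memLocalRing_zero hMp.ne_top) 0,
        pow_zero]
    have h2 : lam M H (ξ : H → ℂ) (fun g => ∑ B ∈ 𝔅, blockCoeff B g) = 0 := by
      unfold lam
      have h3 : resH H (fun g => ∑ B ∈ 𝔅, blockCoeff B g) =
          fun h => ∑ B ∈ 𝔅, resH H (blockCoeff B) h := rfl
      rw [h3, om_sum, res_sum]
      · apply Finset.sum_eq_zero
        intro B hB
        obtain ⟨χ, rfl⟩ := h𝔅 B hB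
        exact hno χ
      · intro B hB
        obtain ⟨χ, rfl⟩ := h𝔅 B hB
        exact memLocalRing_om ξ.2 (isClassFunction_resH H (isClassFunction_blockCoeff _))
          (fun h => osima ⟨χ, rfl⟩ _)
    rw [hF, h1] at h2
    exact one_ne_zero h2
  obtain ⟨χ₀, hχ₀⟩ := hex
  refine ⟨χ₀, fun g => ?_⟩
  obtain ⟨δ, hδ⟩ : ∃ δ : G → ℂ, δ = cpow (classInd g) 0 := ⟨_, rfl⟩
  obtain ⟨c, hc⟩ : ∃ c : ℂ, c = centralChar (χ₀ : G → ℂ) g := ⟨_, rfl⟩
  obtain ⟨f', hf'⟩ : ∃ f' : G → ℂ, f' = classInd g - c • δ := ⟨_, rfl⟩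
  have hcR : MemLocalRing M c := by
    rw [hc]
    exact memLocalRing_centralChar χ₀.2 g
  have hδcl : IsClassFunction G δ := by
    rw [hδ]
    exact isClassFunction_cpow (isClassFunction_classInd g) 0
  have hδR : ∀ x, MemLocalRing M (δ x) := by
    rw [hδ]
    exact memLocalRing_cpow (fun x => memLocalRing_classInd g x) 0
  have hf'cl : IsClassFunction G f' := by
    rw [hf']
    exact isClassFunction_sub (isClassFunction_classInd g) (isClassFunction_smul c hδcl)
  have hf'R : ∀ x, MemLocalRing M (f' x) := by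
    intro x
    rw [hf']
    exact memLocalRing_sub (memLocalRing_classInd g x) (memLocalRing_mul hcR (hδR x))
  have hf'B : ∀ χ ∈ blockOf M (χ₀ : G → ℂ), MemLocalIdeal M (Om (χ : G → ℂ) f') := by
    intro χ hχ
    rw [hf', om_sub, om_smul, om_classInd (isClassFunction_of_irr χ.2), hδ,
      om_cpow χ.2 (isClassFunction_classInd g) 0, pow_zero, mul_one, hc]
    exact sameBlock_symm hχ g
  obtain ⟨n, hn⟩ := conv_cpow_blockCoeff_memLocalIdeal χ₀ hf'cl hf'R hf'B
  have h1 : lam M H (ξ : H → ℂ) (conv (cpow f' n) (blockCoeff (blockOf M (χ₀ : G → ℂ)))) = 0 :=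
    lam_eq_zero H ξ (isClassFunction_conv (isClassFunction_cpow hf'cl n)
      (isClassFunction_blockCoeff _)) hn
  rw [lam_conv hM P H hP hPH hCH hHN ξ (isClassFunction_cpow hf'cl n)
    (isClassFunction_blockCoeff _) (memLocalRing_cpow hf'R n) (osima ⟨χ₀, rfl⟩),
    lam_cpow hM P H hP hPH hCH hHN ξ hf'cl hf'R n] at h1
  have h2 : lam M H (ξ : H → ℂ) f' = 0 := by
    rcases mul_eq_zero.mp h1 with h | h
    · exact eq_zero_of_pow_eq_zero h
    · exact absurd h hχ₀
  unfold lam at h2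
  rw [hf', resH_sub, resH_smul, om_sub, om_smul, resH_classInd, ← inducedCentralChar_eq_om, hδ,
    resH_cpow_zero H _ (resH H (classInd g)),
    om_cpow ξ.2 (isClassFunction_resH H (isClassFunction_classInd g)) 0, pow_zero, mul_one,
    hc] at h2
  refine (res_eq_zero_iff (memLocalRing_sub ?_ (memLocalRing_centralChar χ₀.2 g))).mp h2
  rw [inducedCentralChar_eq_om]
  exact memLocalRing_om ξ.2 (isClassFunction_fusInd g) (memLocalRing_fusInd g)

end Lam

end Cfsg.Agent.Lib_helper3_BrauerHom2
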