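import Mathlib
import Cfsg.Prelude.Def_Characters
import Cfsg.Prelude.Def_Blocks
import Cfsg.Agent.Lib_helper3_BrauerHom2
import Cfsg.Agent.Lib_helper3_BlockCover

set_option autoImplicit false
open Cfsg
open Cfsg.Agent.Lib_helper3_CharBasic Cfsg.Agent.Lib_helper3_CharMore
  Cfsg.Agent.Lib_helper3_Local Cfsg.Agent.Lib_helper3_Local2 Cfsg.Agent.Lib_helper3_BlockAlg
  Cfsg.Agent.Lib_helper3_BlockInd Cfsg.Agent.Lib_helper3_DefectLoc
  Cfsg.Agent.Lib_helper3_IdemSupp Cfsg.Agent.Lib_helper3_AugNil Cfsg.Agent.Lib_helper3_Residue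
  Cfsg.Agent.Lib_helper3_IdemCent Cfsg.Agent.Lib_helper3_DefectLoc2
  Cfsg.Agent.Lib_helper3_BrauerHom Cfsg.Agent.Lib_helper3_BrauerHom2
  Cfsg.Agent.Lib_helper3_BlockCover
open scoped ComplexConjugate

namespace Cfsg.Agent.Lib_helper3_BrauerHom3

attribute [local instance] Ideal.Quotient.field

universe u

variable {G : Type u} [Group G] [Fintype G] {M : Ideal AlgInt} {p : ℕ} [Fact p.Prime]

omit [Fact p.Prime] in
/-- If the induced central character of `ξ` is congruent to the central character of `χ₀` on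
class sums, the same holds on all class functions with local-integer values. -/
theorem om_resH_sub_om [hMp : M.IsPrime] (H : Subgroup G) [Fintype H] (ξ : H → ℂ) {χ₀ : G → ℂ}
    (hχ₀ : IsClassFunction G χ₀)
    (h : ∀ g, MemLocalIdeal M (inducedCentralChar H ξ g - centralChar χ₀ g)) {f : G → ℂ}
    (hf : IsClassFunction G f) (hfR : ∀ g, MemLocalRing M (f g)) :
    MemLocalIdeal M (Om ξ (resH H f) - Om χ₀ f) := by
  classical
  have := Fintype.ofFinite (ConjClasses G)
  have h1 : Om ξ (resH H f) = ∑ C : ConjClasses G,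
      f (Quotient.out C) * inducedCentralChar H ξ (Quotient.out C) :=
    (sum_mul_inducedCentralChar hf H ξ).symm
  rw [h1, om_eq_sum_conjClasses hχ₀ hf, ← Finset.sum_sub_distrib]
  apply memLocalIdeal_sum
  intro C _
  rw [← mul_sub]
  exact memLocalIdeal_mul_left (hfR _) (h _)

open Classical in
/-- The part of a convolution of class functions off a `P`-stable subgroup containing the
centralizer of `P` lies in the local ideal at elements centralizing `P`. -/
theorem diff_memLocalIdeal' (hM : IsPModular p M) (P H : Subgroup G) (hP : IsPGroup p P)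
    (hstab : ∀ u ∈ P, ∀ x : G, x ∉ H → u * x * u⁻¹ ∉ H)
    (hCH : Subgroup.centralizer (P : Set G) ≤ H) {f₁ f₂ : G → ℂ}
    (h₁ : IsClassFunction G f₁) (h₂ : IsClassFunction G f₂) (hR₁ : ∀ g, MemLocalRing M (f₁ g))
    (hR₂ : ∀ g, MemLocalRing M (f₂ g)) (z : G) (hz : z ∈ Subgroup.centralizer (P : Set G)) :
    MemLocalIdeal M (∑ x : G, if x ∈ H then 0 else f₁ x * f₂ (x⁻¹ * z)) := by
  have hMm : M.IsMaximal := hM.2.1
  have hMp : M.IsPrime := hMm.isPrime
  have hch : CharP (AlgInt ⧸ M) p := charP_quot hM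
  have hterm : ∀ x : G, MemLocalRing M (if x ∈ H then 0 else f₁ x * f₂ (x⁻¹ * z)) := by
    intro x
    split_ifs
    · exact memLocalRing_zero hMp.ne_top
    · exact memLocalRing_mul (hR₁ _) (hR₂ _)
  rw [← res_eq_zero_iff (memLocalRing_sum _ _ (fun x _ => hterm x)),
    res_sum _ _ (fun x _ => hterm x)]
  have h1 : ∀ x : G, res M (if x ∈ H then 0 else f₁ x * f₂ (x⁻¹ * z)) =
      if x ∈ {x : G | x ∉ H} then res M (f₁ x) * res M (f₂ (x⁻¹ * z)) else 0 := by
    intro x
    by_cases hx : x ∈ H
    · rw [if_pos hx, if_neg (fun h' : x ∈ {x : G | x ∉ H} => h' hx), res_zero]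
    · rw [if_neg hx, if_pos (show x ∈ {x : G | x ∉ H} from hx), res_mul (hR₁ _) (hR₂ _)]
  rw [Finset.sum_congr rfl (fun x _ => h1 x)]
  apply sum_eq_zero_of_conj_stable (p := p) P hP {x : G | x ∉ H}
  · intro u hu x hx
    exact hstab u hu x hx
  · intro x hx hxc
    exact hx (hCH hxc)
  · intro u hu x _
    rw [h₁ x u]
    have h3 : (u * x * u⁻¹)⁻¹ * z = u * (x⁻¹ * z) * u⁻¹ := by
      have h4 : u * z = z * u := (Subgroup.mem_centralizer_iff.mp hz) u hu
      have h5 : u⁻¹ * z = z * u⁻¹ := by
        calc u⁻¹ * z = u⁻¹ * (z * u) * u⁻¹ := by group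
          _ = u⁻¹ * (u * z) * u⁻¹ := by rw [h4]
          _ = z * u⁻¹ := by group
      calc (u * x * u⁻¹)⁻¹ * z = u * x⁻¹ * (u⁻¹ * z) := by group
        _ = u * x⁻¹ * (z * u⁻¹) := by rw [h5]
        _ = u * (x⁻¹ * z) * u⁻¹ := by group
    rw [h3, h₂ _ u]

open Classical in
/-- The restriction to `H` of `f`, cut down to the centralizer of `P`. -/
noncomputable def cenFun (P H : Subgroup G) (f : G → ℂ) : H → ℂ :=
  fun h => if (h : G) ∈ Subgroup.centralizer (P : Set G) then f h else 0

omit [Fintype G] in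
theorem conj_mem_centralizer_iff' (P H : Subgroup G)
    (hHN : H ≤ Subgroup.normalizer (P : Set G)) (h k : H) :
    ((k * h * k⁻¹ : H) : G) ∈ Subgroup.centralizer (P : Set G) ↔
      (h : G) ∈ Subgroup.centralizer (P : Set G) := by
  constructor
  · intro h3
    have h4 := conj_mem_centralizer_of_mem_normalizer P (hHN (k⁻¹).2) h3
    have h5 : ((k⁻¹ : H) : G) * ((k * h * k⁻¹ : H) : G) * ((k⁻¹ : H) : G)⁻¹ = (h : G) := by
      rw [Subgroup.coe_mul, Subgroup.coe_mul, Subgroup.coe_inv]
      group
    rwa [h5] at h4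
  · intro h3
    have h4 := conj_mem_centralizer_of_mem_normalizer P (hHN k.2) h3
    rwa [Subgroup.coe_mul, Subgroup.coe_mul, Subgroup.coe_inv]

omit [Fintype G] in
theorem isClassFunction_cenFun (P H : Subgroup G) (hHN : H ≤ Subgroup.normalizer (P : Set G))
    {f : G → ℂ} (hf : IsClassFunction G f) : IsClassFunction H (cenFun P H f) := by
  classical
  intro h k
  unfold cenFun
  have h1 := conj_mem_centralizer_iff' P H hHN h k
  have h2 : f ((k * h * k⁻¹ : H) : G) = f (h : G) := by
    rw [Subgroup.coe_mul, Subgroup.coe_mul, Subgroup.coe_inv]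
    exact hf _ _
  by_cases hc : (h : G) ∈ Subgroup.centralizer (P : Set G)
  · rw [if_pos hc, if_pos (h1.mpr hc), h2]
  · rw [if_neg hc, if_neg (fun h' => hc (h1.mp h'))]

omit [Fintype G] [Fact p.Prime] in
theorem memLocalRing_cenFun [hMp : M.IsPrime] (P H : Subgroup G) {f : G → ℂ}
    (hfR : ∀ g, MemLocalRing M (f g)) (h : H) : MemLocalRing M (cenFun P H f h) := by
  classical
  unfold cenFun
  split_ifs
  · exact hfR _
  · exact memLocalRing_zero hMp.ne_top

/-- Modulo the local ideal, central characters of `H` do not see the part of a class function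
off the centralizer of `P`. -/
theorem om_resH_sub_cenFun (hM : IsPModular p M) (P H : Subgroup G) [Fintype H]
    (hP : IsPGroup p P) (hPH : P ≤ H) (hHN : H ≤ Subgroup.normalizer (P : Set G))
    (ξ : IrrCharacter H) {f : G → ℂ} (hf : IsClassFunction G f)
    (hfR : ∀ g, MemLocalRing M (f g)) :
    MemLocalIdeal M (Om (ξ : H → ℂ) (resH H f) - Om (ξ : H → ℂ) (cenFun P H f)) := by
  classical
  have hMm : M.IsMaximal := hM.2.1
  have hMp : M.IsPrime := hMm.isPrime
  have := Fintype.ofFinite (ConjClasses H)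
  rw [← om_sub]
  have hd : IsClassFunction H (resH H f - cenFun P H f) :=
    isClassFunction_sub (isClassFunction_resH H hf) (isClassFunction_cenFun P H hHN hf)
  rw [om_eq_sum_conjClasses (isClassFunction_of_irr ξ.2) hd]
  apply memLocalIdeal_sum
  intro C _
  rw [Pi.sub_apply]
  by_cases hC : ((Quotient.out C : H) : G) ∈ Subgroup.centralizer (P : Set G)
  · have h1 : cenFun P H f (Quotient.out C) = resH H f (Quotient.out C) := by
      unfold cenFun resH
      rw [if_pos hC]
    rw [h1, sub_self, zero_mul]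
    exact memLocalIdeal_zero hMp.ne_top
  · apply memLocalIdeal_mul_left
    · exact memLocalRing_sub (hfR _) (memLocalRing_cenFun P H hfR _)
    · exact centralChar_memLocalIdeal_of_not_mem_centralizer hM P H hP hPH hHN ξ _ hC

/-- The reduction of the centralizer part of an idempotent class function is idempotent. -/
theorem red_cenFun_idem (hM : IsPModular p M) [hMm : M.IsMaximal] (P H : Subgroup G)
    [Fintype H] (hP : IsPGroup p P) (hCH : Subgroup.centralizer (P : Set G) ≤ H) {e : G → ℂ}
    (he : IsClassFunction G e) (heR : ∀ g, MemLocalRing M (e g)) (hidem : conv e e = e) :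
    red M (cenFun P H e) * red M (cenFun P H e) = red M (cenFun P H e) := by
  classical
  have hMp : M.IsPrime := hMm.isPrime
  have hwR : ∀ h : H, MemLocalRing M (cenFun P H e h) := memLocalRing_cenFun P H heR
  rw [← red_conv hwR hwR]
  unfold red
  congr 1
  funext z
  by_cases hz : (z : G) ∈ Subgroup.centralizer (P : Set G)
  · -- the convolution as a sum over `G`
    have h1 : conv (cenFun P H e) (cenFun P H e) z =
        ∑ x : G, if x ∈ Subgroup.centralizer (P : Set G) then e x * e (x⁻¹ * (z : G)) else 0 := by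
      unfold conv
      have h2 : ∀ h : H, cenFun P H e h * cenFun P H e (h⁻¹ * z) =
          if (h : G) ∈ Subgroup.centralizer (P : Set G) then
            e (h : G) * e ((h : G)⁻¹ * (z : G)) else 0 := by
        intro h
        unfold cenFun
        by_cases hh : (h : G) ∈ Subgroup.centralizer (P : Set G)
        · have h3 : ((h⁻¹ * z : H) : G) ∈ Subgroup.centralizer (P : Set G) := by
            rw [Subgroup.coe_mul, Subgroup.coe_inv]
            exact Subgroup.mul_mem _ (Subgroup.inv_mem _ hh) hz
          rw [if_pos hh, if_pos h3, if_pos hh, Subgroup.coe_mul, Subgroup.coe_inv]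
        · rw [if_neg hh, if_neg hh, zero_mul]
      rw [Finset.sum_congr rfl (fun h _ => h2 h)]
      have h4 : ∑ x : G, (if x ∈ Subgroup.centralizer (P : Set G) then
          e x * e (x⁻¹ * (z : G)) else 0) =
          ∑ x : G, if x ∈ H then (if x ∈ Subgroup.centralizer (P : Set G) then
            e x * e (x⁻¹ * (z : G)) else 0) else 0 := by
        apply Finset.sum_congr rfl
        intro x _
        by_cases hx : x ∈ Subgroup.centralizer (P : Set G)
        · rw [if_pos hx, if_pos (hCH hx)]
        · rw [if_neg hx]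
          split_ifs <;> rfl
      rw [h4]
      symm
      rw [← Finset.sum_filter (fun x : G => x ∈ H) (fun x =>
        if x ∈ Subgroup.centralizer (P : Set G) then e x * e (x⁻¹ * (z : G)) else 0)]
      exact Finset.sum_subtype (Finset.univ.filter (fun x : G => x ∈ H)) (p := fun x => x ∈ H)
        (by simp) (fun x => if x ∈ Subgroup.centralizer (P : Set G) then
            e x * e (x⁻¹ * (z : G)) else 0)
    have h5 : cenFun P H e z = ∑ x : G, e x * e (x⁻¹ * (z : G)) := by
      unfold cenFun
      rw [if_pos hz]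
      exact (congrFun hidem (z : G)).symm
    have h6 : MemLocalIdeal M (cenFun P H e z - conv (cenFun P H e) (cenFun P H e) z) := by
      rw [h5, h1, ← Finset.sum_sub_distrib]
      have h7 : ∀ x : G, e x * e (x⁻¹ * (z : G)) -
          (if x ∈ Subgroup.centralizer (P : Set G) then e x * e (x⁻¹ * (z : G)) else 0) =
          if x ∈ Subgroup.centralizer (P : Set G) then 0 else e x * e (x⁻¹ * (z : G)) := by
        intro x
        split_ifs
        · rw [sub_self]
        · rw [sub_zero]
      rw [Finset.sum_congr rfl (fun x _ => h7 x)]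
      apply diff_memLocalIdeal' hM P (Subgroup.centralizer (P : Set G)) hP _ le_rfl he he heR heR
        _ hz
      intro u hu x hx hux
      apply hx
      have hun : u⁻¹ ∈ Subgroup.normalizer (P : Set G) := Subgroup.le_normalizer (P.inv_mem hu)
      have h9 := conj_mem_centralizer_of_mem_normalizer P hun hux
      have h10 : u⁻¹ * (u * x * u⁻¹) * u⁻¹⁻¹ = x := by group
      rwa [h10] at h9
    have h8 := (res_eq_zero_iff (memLocalRing_sub (hwR z)
      (memLocalRing_conv hwR hwR z))).mpr h6
    rw [res_sub (hwR z) (memLocalRing_conv hwR hwR z), sub_eq_zero] at h8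
    exact h8.symm
  · have h1 : conv (cenFun P H e) (cenFun P H e) z = 0 := by
      unfold conv
      apply Finset.sum_eq_zero
      intro h _
      unfold cenFun
      by_cases hh : (h : G) ∈ Subgroup.centralizer (P : Set G)
      · have h3 : ((h⁻¹ * z : H) : G) ∉ Subgroup.centralizer (P : Set G) := by
          intro h4
          apply hz
          have h5 : (z : G) = (h : G) * ((h⁻¹ * z : H) : G) := by
            rw [Subgroup.coe_mul, Subgroup.coe_inv]
            group
          rw [h5]
          exact Subgroup.mul_mem _ hh h4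
        rw [if_neg h3, mul_zero]
      · rw [if_neg hh, zero_mul]
    have h2 : cenFun P H e z = 0 := by
      unfold cenFun
      rw [if_neg hz]
    rw [h1, h2]

section Nil

variable [hMm : M.IsMaximal]

omit [Fact p.Prime] in
/-- The block idempotents sum to the identity. -/
theorem exists_blocks_sum :
    ∃ 𝔅 : Finset (Set (IrrCharacter G)), (∀ B ∈ 𝔅, ∃ χ : IrrCharacter G,
      B = blockOf M (χ : G → ℂ)) ∧
      (fun g => ∑ B ∈ 𝔅, blockCoeff B g) = cpow (fun _ : G => (0 : ℂ)) 0 := by
  classical
  have hMp : M.IsPrime := hMm.isPrime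
  have hfin := irr_finite (G := G)
  have := Fintype.ofFinite (IrrCharacter G)
  refine ⟨Finset.univ.image (fun χ : IrrCharacter G => blockOf M (χ : G → ℂ)), ?_, ?_⟩
  · intro B hB
    obtain ⟨χ, -, rfl⟩ := Finset.mem_image.mp hB
    exact ⟨χ, rfl⟩
  · have hz : IsClassFunction G (fun _ : G => (0 : ℂ)) := fun _ _ => rfl
    apply om_ext
    · intro g k
      exact Finset.sum_congr rfl (fun B _ => isClassFunction_blockCoeff B g k)
    · exact isClassFunction_cpow hz 0
    · intro χ
      rw [om_sum, om_cpow χ.2 hz 0, pow_zero,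
        Finset.sum_eq_single (blockOf M (χ : G → ℂ))]
      · exact om_blockCoeff_of_mem (mem_blockOf_self hMp.ne_top χ)
      · intro B hB hne
        obtain ⟨ψ, -, rfl⟩ := Finset.mem_image.mp hB
        apply om_blockCoeff_of_not_mem
        intro hmem
        exact hne (blockOf_eq_of_mem hmem).symm
      · intro hnot
        exact absurd (Finset.mem_image_of_mem _ (Finset.mem_univ χ)) hnot

omit [Fact p.Prime] in
theorem red_finset_sum {ι : Type*} (s : Finset ι) (f : ι → G → ℂ)
    (h : ∀ i ∈ s, ∀ g, MemLocalRing M (f i g)) :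
    red M (fun g => ∑ i ∈ s, f i g) = ∑ i ∈ s, red M (f i) := by
  apply MonoidAlgebra.coeff_injective
  ext g
  rw [coeff_red, MonoidAlgebra.coeff_sum, Finsupp.finsetSum_apply,
    res_sum _ _ (fun i hi => h i hi g)]
  apply Finset.sum_congr rfl
  intro i _
  rw [coeff_red]

omit [Fact p.Prime] in
/-- A class function with local-integer values, idempotent modulo the local ideal and killed
modulo the local ideal by all central characters, has all its values in the local ideal. -/
theorem red_eq_zero_of_om {w : G → ℂ} (hw : IsClassFunction G w)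
    (hwR : ∀ g, MemLocalRing M (w g)) (hidem : red M w * red M w = red M w)
    (hom : ∀ χ : IrrCharacter G, MemLocalIdeal M (Om (χ : G → ℂ) w)) : red M w = 0 := by
  classical
  have hMp : M.IsPrime := hMm.isPrime
  have hkill : ∀ χ₀ : IrrCharacter G,
      red M w * red M (blockCoeff (blockOf M (χ₀ : G → ℂ))) = 0 := by
    intro χ₀
    obtain ⟨n, hn⟩ := red_pow_mul_blockCoeff χ₀ hw hwR (fun χ _ => hom χ)
    cases n with
    | zero =>
      rw [pow_zero, one_mul] at hn
      rw [hn, mul_zero]
    | succ n =>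
      have h1 : IsIdempotentElem (red M w) := hidem
      rw [h1.pow_succ_eq] at hn
      exact hn
  obtain ⟨𝔅, h𝔅, hsum⟩ := exists_blocks_sum (G := G) (M := M)
  have h1 : red M (fun g => ∑ B ∈ 𝔅, blockCoeff B g) = 1 := by
    rw [hsum, red_cpow (fun _ => memLocalRing_zero hMp.ne_top) 0, pow_zero]
  rw [red_finset_sum 𝔅 (fun B g => blockCoeff B g) (fun B hB g => by
    obtain ⟨χ, rfl⟩ := h𝔅 B hB
    exact osima ⟨χ, rfl⟩ g)] at h1
  calc red M w = red M w * 1 := (mul_one _).symm
    _ = red M w * ∑ B ∈ 𝔅, red M (fun g => blockCoeff B g) := by rw [h1]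
    _ = ∑ B ∈ 𝔅, red M w * red M (fun g => blockCoeff B g) := Finset.mul_sum _ _ _
    _ = 0 := by
      apply Finset.sum_eq_zero
      intro B hB
      obtain ⟨χ, rfl⟩ := h𝔅 B hB
      exact hkill χ

/-- If the idempotent of the block `B` of `G` does not vanish modulo the local ideal at some
element centralizing `P`, then `B` is induced from `H`, for `P C_G(P) ≤ H ≤ N_G(P)`. -/
theorem exists_induced_of_blockCoeff (hM : IsPModular p M) (P H : Subgroup G) [Fintype H]
    (hP : IsPGroup p P) (hPH : P ≤ H) (hCH : Subgroup.centralizer (P : Set G) ≤ H)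
    (hHN : H ≤ Subgroup.normalizer (P : Set G)) {B : Set (IrrCharacter G)}
    (hB : IsPBlock M B) {y : G} (hyC : y ∈ Subgroup.centralizer (P : Set G))
    (hy : ¬ MemLocalIdeal M (blockCoeff B y)) :
    ∃ ξ : IrrCharacter H, ∃ χ ∈ B, ∀ g : G,
      MemLocalIdeal M (inducedCentralChar H (ξ : H → ℂ) g - centralChar (χ : G → ℂ) g) := by
  classical
  have hMp : M.IsPrime := hMm.isPrime
  by_contra hno
  push Not at hno
  have hecl := isClassFunction_blockCoeff B
  have heR : ∀ g, MemLocalRing M (blockCoeff B g) := fun g => osima hB g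
  have hom : ∀ ξ : IrrCharacter H,
      MemLocalIdeal M (Om (ξ : H → ℂ) (cenFun P H (blockCoeff B))) := by
    intro ξ
    obtain ⟨χ₀, hχ₀⟩ := exists_irr_induced hM P H hP hPH hCH hHN ξ
    have hχ₀B : χ₀ ∉ B := by
      intro hmem
      obtain ⟨g, hg⟩ := hno ξ χ₀ hmem
      exact hg (hχ₀ g)
    have h1 := om_resH_sub_om H (ξ : H → ℂ) (isClassFunction_of_irr χ₀.2) hχ₀ hecl heR
    rw [om_blockCoeff_of_not_mem hχ₀B, sub_zero] at h1
    have h2 := om_resH_sub_cenFun hM P H hP hPH hHN ξ hecl heR
    have h3 := memLocalIdeal_sub h1 h2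
    rwa [sub_sub_cancel] at h3
  have hzero := red_eq_zero_of_om (isClassFunction_cenFun P H hHN hecl)
    (memLocalRing_cenFun P H heR)
    (red_cenFun_idem hM P H hP hCH hecl heR (conv_blockCoeff B)) hom
  have h4 := (red_eq_zero_iff (memLocalRing_cenFun P H heR)).mp hzero ⟨y, hCH hyC⟩
  apply hy
  unfold cenFun at h4
  rw [if_pos hyC] at h4
  exact h4

end Nil

end Cfsg.Agent.Lib_helper3_BrauerHom3
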