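import Mathlib
import Cfsg.Agent.Lib_helper3_DefectLoc
import Cfsg.Agent.Lib_helper3_CharPerm

set_option autoImplicit false

namespace Cfsg.Agent.Lib_helper3_SylCard

open Cfsg.Agent.Lib_helper3_DefectLoc
open scoped Pointwise

universe u

variable {G : Type u} [Group G] [Finite G] {p : ℕ} [Fact p.Prime]

/-- Two subgroups of `K` of Sylow order are conjugate in `K`. -/
theorem exists_conj_eq_of_card (K : Subgroup G) {Q₁ Q₂ : Subgroup G} (h₁ : Q₁ ≤ K) (h₂ : Q₂ ≤ K)
    (c₁ : Nat.card Q₁ = p ^ (Nat.card K).factorization p)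
    (c₂ : Nat.card Q₂ = p ^ (Nat.card K).factorization p) :
    ∃ z ∈ K, Q₁.map (MulAut.conj z).toMonoidHom = Q₂ := by
  obtain ⟨S₁, hS₁⟩ : ∃ S₁ : Sylow p K, (S₁ : Subgroup K) = Q₁.subgroupOf K :=
    ⟨Sylow.ofCard (Q₁.subgroupOf K)
      (by rw [Nat.card_congr (Subgroup.subgroupOfEquivOfLe h₁).toEquiv, c₁]), Sylow.coe_ofCard _ _⟩
  obtain ⟨S₂, hS₂⟩ : ∃ S₂ : Sylow p K, (S₂ : Subgroup K) = Q₂.subgroupOf K :=
    ⟨Sylow.ofCard (Q₂.subgroupOf K)
      (by rw [Nat.card_congr (Subgroup.subgroupOfEquivOfLe h₂).toEquiv, c₂]), Sylow.coe_ofCard _ _⟩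
  obtain ⟨z, hz⟩ := MulAction.exists_smul_eq K S₁ S₂
  have hz' : (S₂ : Subgroup K) = MulAut.conj z • (S₁ : Subgroup K) := by
    rw [← hz, Sylow.coe_subgroup_smul]
  refine ⟨z, z.2, ?_⟩
  ext u
  constructor
  · rintro ⟨v, hv, rfl⟩
    have h3 : (⟨v, h₁ hv⟩ : K) ∈ (S₁ : Subgroup K) := by
      rw [hS₁]
      exact hv
    have h4 := Subgroup.smul_mem_pointwise_smul _ (MulAut.conj z) _ h3
    rw [← hz', hS₂] at h4
    exact h4
  · intro hu
    have h3 : (⟨u, h₂ hu⟩ : K) ∈ (S₂ : Subgroup K) := by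
      rw [hS₂]
      exact hu
    rw [hz', Subgroup.mem_smul_pointwise_iff_exists] at h3
    obtain ⟨s, hs, hsu⟩ := h3
    rw [hS₁] at hs
    refine ⟨(s : G), hs, ?_⟩
    have h5 := congrArg Subtype.val hsu
    exact h5

/-- A subgroup `Q` of `K` that has Sylow order in `K ∩ N_G(Q)` has Sylow order in `K`. -/
theorem card_eq_of_card_inf_normalizer (K : Subgroup G) {Q : Subgroup G} (hQK : Q ≤ K)
    (hc : Nat.card Q =
      p ^ (Nat.card (K ⊓ Subgroup.normalizer (Q : Set G) : Subgroup G)).factorization p) :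
    Nat.card Q = p ^ (Nat.card K).factorization p := by
  have hp : p.Prime := Fact.out
  have hQp : IsPGroup p Q := IsPGroup.of_card hc
  obtain ⟨S, hS⟩ := exists_sylow_ge K hQp hQK
  obtain ⟨S', hS'⟩ : ∃ S' : Subgroup G, S' = (S : Subgroup K).map K.subtype := ⟨_, rfl⟩
  rw [← hS'] at hS
  have hS'K : S' ≤ K := by
    rw [hS']
    exact Subgroup.map_subtype_le _
  have hS'card : Nat.card S' = p ^ (Nat.card K).factorization p := by
    rw [hS', Subgroup.card_map_of_injective K.subtype_injective]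
    exact Sylow.card_eq_multiplicity S
  have hS'p : IsPGroup p S' := IsPGroup.of_card hS'card
  by_contra hne
  have hQS : Q ≠ S' := by
    intro h
    apply hne
    rw [h]
    exact hS'card
  -- the normalizer condition in `S'`
  have hnil : Group.IsNilpotent S' := hS'p.isNilpotent
  have hnc : NormalizerCondition S' := Group.normalizerCondition_of_isNilpotent
  have hlt : Q.subgroupOf S' < ⊤ := by
    rw [lt_top_iff_ne_top]
    intro h
    rw [Subgroup.subgroupOf_eq_top] at h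
    exact hQS (le_antisymm hS h)
  obtain ⟨x', hx'N, hx'Q⟩ := SetLike.exists_of_lt (hnc _ hlt)
  obtain ⟨T, hT⟩ : ∃ T : Subgroup G, T = S' ⊓ Subgroup.normalizer (Q : Set G) := ⟨_, rfl⟩
  have hQT : Q ≤ T := by
    rw [hT]
    exact le_inf hS Subgroup.le_normalizer
  have hxT : (x' : G) ∈ T := by
    rw [hT]
    refine ⟨x'.2, ?_⟩
    show (x' : G) ∈ Subgroup.normalizer (Q : Set G)
    rw [Subgroup.mem_normalizer_iff]
    intro h
    constructor
    · intro hh
      have h1 := (Subgroup.mem_normalizer_iff.mp hx'N ⟨h, hS hh⟩).mp hh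
      exact h1
    · intro hh
      have hhS : h ∈ S' := by
        have h2 : h = (x' : G)⁻¹ * ((x' : G) * h * (x' : G)⁻¹) * (x' : G) := by group
        rw [h2]
        exact S'.mul_mem (S'.mul_mem (S'.inv_mem x'.2) (hS hh)) x'.2
      have h1 := (Subgroup.mem_normalizer_iff.mp hx'N ⟨h, hhS⟩).mpr hh
      exact h1
  have hxQ : (x' : G) ∉ Q := hx'Q
  have hTp : IsPGroup p T := by
    rw [hT]
    exact hS'p.to_le inf_le_left
  obtain ⟨j, hj⟩ := hTp.exists_card_eq
  have hTK : T ≤ K ⊓ Subgroup.normalizer (Q : Set G) := by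
    rw [hT]
    exact inf_le_inf_right _ hS'K
  have h1 : p ^ j ∣ Nat.card (K ⊓ Subgroup.normalizer (Q : Set G) : Subgroup G) := by
    rw [← hj]
    exact Subgroup.card_dvd_of_le hTK
  have h2 := (hp.pow_dvd_iff_le_factorization Nat.card_pos.ne').mp h1
  have h3 : Nat.card T ≤ Nat.card Q := by
    rw [hj, hc]
    exact Nat.pow_le_pow_right hp.pos h2
  have h4 : Q = T := Subgroup.eq_of_le_of_card_ge hQT h3
  exact hxQ (by rw [h4]; exact hxT)

end Cfsg.Agent.Lib_helper3_SylCard
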