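import Cfsg.Statements.S0906
import Cfsg.Agent.Lib_helper3_BlockAlg

set_option autoImplicit false
open Cfsg

namespace Cfsg.Agent.S0906

/-- Let B be a block of the finite group G relative to a maximal ideal M of the algebraic integers containing the prime p. Then some element g represents a defect class of B: the idempotent coefficient of B at g is a local integer not in the local ideal at M, and the central characters of the members of B at g are not in the local ideal. -/
theorem result {G : Type*} [Group G] [Finite G] (p : ℕ) [Fact p.Prime] (M : Ideal Cfsg.AlgInt) (hM : Cfsg.IsPModular p M) (B : Set (Cfsg.IrrCharacter G)) (hB : Cfsg.IsPBlock M B) : ∃ g : G, Cfsg.IsDefectClass M B g := by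
  classical
  have := Fintype.ofFinite G
  have hprime := Cfsg.Agent.Lib_helper3_Local2.isPrime_of_modular hM
  have hB' := hB
  obtain ⟨χ₀, rfl⟩ := hB
  have := Fintype.ofFinite (ConjClasses G)
  set f := Cfsg.blockCoeff (Cfsg.blockOf M (χ₀ : G → ℂ)) with hf
  have hfR : ∀ g, Cfsg.MemLocalRing M (f g) := fun g =>
    Cfsg.Agent.Lib_helper3_BlockAlg.osima hB' g
  have hfc := Cfsg.Agent.Lib_helper3_BlockAlg.isClassFunction_blockCoeff
    (Cfsg.blockOf M (χ₀ : G → ℂ))
  have hχ₀ : χ₀ ∈ Cfsg.blockOf M (χ₀ : G → ℂ) :=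
    Cfsg.Agent.Lib_helper3_BlockAlg.mem_blockOf_self hprime.ne_top χ₀
  have h1 : Cfsg.Agent.Lib_helper3_BlockAlg.Om (χ₀ : G → ℂ) f = 1 :=
    Cfsg.Agent.Lib_helper3_BlockAlg.om_blockCoeff_of_mem hχ₀
  rw [Cfsg.Agent.Lib_helper3_BlockAlg.om_eq_sum_conjClasses
    (Cfsg.Agent.Lib_helper3_CharBasic.isClassFunction_of_irr χ₀.2) hfc] at h1
  have hex : ∃ C : ConjClasses G, ¬ Cfsg.MemLocalIdeal M
      (f (Quotient.out C) * Cfsg.centralChar (χ₀ : G → ℂ) (Quotient.out C)) := by
    by_contra hcon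
    push Not at hcon
    have h2 := Cfsg.Agent.Lib_helper3_Local.memLocalIdeal_sum (M := M) Finset.univ
      (fun C : ConjClasses G => f (Quotient.out C) *
        Cfsg.centralChar (χ₀ : G → ℂ) (Quotient.out C)) (fun C _ => hcon C)
    rw [h1] at h2
    exact Cfsg.Agent.Lib_helper3_Local2.not_memLocalIdeal_one h2
  obtain ⟨C, hC⟩ := hex
  have hω : Cfsg.MemLocalRing M (Cfsg.centralChar (χ₀ : G → ℂ) (Quotient.out C)) :=
    Cfsg.Agent.Lib_helper3_BlockAlg.memLocalRing_centralChar χ₀.2 _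
  have hω' : ¬ Cfsg.MemLocalIdeal M (Cfsg.centralChar (χ₀ : G → ℂ) (Quotient.out C)) := by
    intro h
    exact hC (Cfsg.Agent.Lib_helper3_Local2.memLocalIdeal_mul_left (hfR _) h)
  refine ⟨Quotient.out C, hfR _, ?_, ?_⟩
  · intro h
    apply hC
    rw [mul_comm]
    exact Cfsg.Agent.Lib_helper3_Local2.memLocalIdeal_mul_left hω h
  · intro χ hχ
    apply Cfsg.Agent.Lib_helper3_Local2.not_memLocalIdeal_of_sub
      (w := Cfsg.centralChar (χ₀ : G → ℂ) (Quotient.out C)) _ hω'
    have h3 := Cfsg.Agent.Lib_helper3_Local.memLocalIdeal_neg (hχ (Quotient.out C))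
    rwa [neg_sub] at h3
end Cfsg.Agent.S0906
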