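import Mathlib
import Cfsg.Prelude.Def_Characters
import Cfsg.Prelude.Def_Blocks
import Cfsg.Agent.Lib_helper3_IdemSupp
import Cfsg.Agent.Lib_helper3_CharInd
import Cfsg.Agent.Lib_helper3_DefectZero
import Cfsg.Agent.Lib_helper3_CharDiag

set_option autoImplicit false
open Cfsg
open Cfsg.Agent.Lib_helper3_CharBasic Cfsg.Agent.Lib_helper3_CharMore
  Cfsg.Agent.Lib_helper3_Local Cfsg.Agent.Lib_helper3_Local2 Cfsg.Agent.Lib_helper3_BlockAlg
  Cfsg.Agent.Lib_helper3_IdemSupp Cfsg.Agent.Lib_helper3_CharInd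
  Cfsg.Agent.Lib_helper3_DefectZero
open scoped ComplexConjugate

namespace Cfsg.Agent.Lib_helper3_DefectCard

universe u

variable {G : Type u} [Group G] [Fintype G]

omit [Fintype G] in
theorem commute_of_le_centralizer (Q : Subgroup G) (x : G)
    (hQ : Q ≤ Subgroup.centralizer ({x} : Set G)) (q : Q) (c : Subgroup.zpowers x) :
    Commute (Q.subtype q) ((Subgroup.zpowers x).subtype c) := by
  obtain ⟨k, hk⟩ := Subgroup.mem_zpowers_iff.mp c.2
  have h1 : (q : G) * x = x * (q : G) := Subgroup.mem_centralizer_singleton_iff.mp (hQ q.2)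
  have h2 : Commute (q : G) x := h1
  show Commute (q : G) (c : G)
  rw [← hk]
  exact h2.zpow_right k

/-- The multiplication homomorphism `Q × ⟨x⟩ → G` for `Q` centralizing `x`. -/
noncomputable def prodHom (Q : Subgroup G) (x : G)
    (hQ : Q ≤ Subgroup.centralizer ({x} : Set G)) : Q × Subgroup.zpowers x →* G :=
  MonoidHom.noncommCoprod Q.subtype (Subgroup.zpowers x).subtype
    (commute_of_le_centralizer Q x hQ)

omit [Fintype G] in
theorem prodHom_apply (Q : Subgroup G) (x : G)
    (hQ : Q ≤ Subgroup.centralizer ({x} : Set G)) (g : Q × Subgroup.zpowers x) :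
    prodHom Q x hQ g = (g.1 : G) * (g.2 : G) := rfl

theorem cycFun_one (x : G) (ω : ℂ) : cycFun x ω 1 = 1 := by
  have h1 := cycFun_apply x ω ⟨0, orderOf_pos x⟩
  have h2 : finEquivZPowers (isOfFinOrder_of_finite x) ⟨0, orderOf_pos x⟩ = 1 := by
    apply Subtype.ext
    rw [finEquivZPowers_apply]
    simp
  rw [h2] at h1
  rw [h1]
  simp

/-- The linear character of `⟨x⟩` attached to a root of unity. -/
noncomputable def cycHom (x : G) (ω : ℂ) (hω : ω ^ orderOf x = 1) : Subgroup.zpowers x →* ℂ where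
  toFun := cycFun x ω
  map_one' := cycFun_one x ω
  map_mul' := cycFun_mul x hω

/-- The linear character of `Q × ⟨x⟩` attached to a root of unity. -/
noncomputable def linChar (Q : Subgroup G) (x : G) (ω : ℂ) (hω : ω ^ orderOf x = 1) :
    Q × Subgroup.zpowers x →* ℂˣ :=
  ((cycHom x ω hω).toHomUnits).comp (MonoidHom.snd Q (Subgroup.zpowers x))

theorem linChar_apply (Q : Subgroup G) (x : G) (ω : ℂ) (hω : ω ^ orderOf x = 1)
    (g : Q × Subgroup.zpowers x) : ((linChar Q x ω hω g : ℂˣ) : ℂ) = cycFun x ω g.2 := by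
  unfold linChar
  rw [MonoidHom.comp_apply, MonoidHom.coe_toHomUnits]
  rfl

omit [Fintype G] in
/-- Products of a nontrivial `p`-element with a commuting `p`-regular element are
`p`-singular. -/
theorem dvd_orderOf_mul {p : ℕ} [Fact p.Prime] (Q : Subgroup G) (hQp : IsPGroup p Q) (x : G)
    (hx : ¬ p ∣ orderOf x) (hQ : Q ≤ Subgroup.centralizer ({x} : Set G)) (q : Q) (hq : q ≠ 1)
    (c : Subgroup.zpowers x) : p ∣ orderOf ((q : G) * (c : G)) := by
  have hp : p.Prime := Fact.out
  obtain ⟨k, hk⟩ := hQp q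
  have h1 : orderOf q ∣ p ^ k := orderOf_dvd_of_pow_eq_one hk
  obtain ⟨j, -, hj⟩ := (Nat.dvd_prime_pow hp).mp h1
  have hj0 : j ≠ 0 := by
    rintro rfl
    rw [pow_zero, orderOf_eq_one_iff] at hj
    exact hq hj
  have h2 : orderOf (q : G) = p ^ j := by
    rw [← hj]
    exact Subgroup.orderOf_coe q
  have h3 : orderOf (c : G) ∣ orderOf x := orderOf_dvd_of_mem_zpowers c.2
  have h4 : ¬ p ∣ orderOf (c : G) := fun h => hx (h.trans h3)
  have hcop : (orderOf (q : G)).Coprime (orderOf (c : G)) := by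
    rw [h2]
    exact Nat.Coprime.pow_left j ((Nat.Prime.coprime_iff_not_dvd hp).mpr h4)
  have hcomm : Commute (q : G) (c : G) := commute_of_le_centralizer Q x hQ q c
  rw [hcomm.orderOf_mul_eq_mul_orderOf_of_coprime hcop, h2]
  exact Dvd.dvd.mul_right (dvd_pow_self p hj0) _

/-- Fourier coefficients of a character vanishing at the `p`-singular elements are divisible by
the order of a centralizing `p`-subgroup. -/
theorem exists_nat_fourier {p : ℕ} [Fact p.Prime] {θ : G → ℂ} (hθ : IsCharacter G θ)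
    (hvan : ∀ y : G, p ∣ orderOf y → θ y = 0) (x : G) (hx : ¬ p ∣ orderOf x) (Q : Subgroup G)
    (hQp : IsPGroup p Q) (hQ : Q ≤ Subgroup.centralizer ({x} : Set G)) (ω : ℂ)
    (hω : ω ^ orderOf x = 1) :
    ∃ N : ℕ, ∑ j ∈ Finset.range (orderOf x), (conj ω) ^ j * θ (x ^ j) =
      (N : ℂ) * (Nat.card Q : ℂ) * (orderOf x : ℂ) := by
  classical
  have := Fintype.ofFinite Q
  have := Fintype.ofFinite (Subgroup.zpowers x)
  have hχ : IsCharacter (Q × Subgroup.zpowers x) (θ ∘ prodHom Q x hQ) :=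
    isCharacter_comp (prodHom Q x hQ) hθ
  have hν : IsCharacter (Q × Subgroup.zpowers x)
      (fun g => ((linChar Q x ω hω g : ℂˣ) : ℂ)) :=
    isCharacter_of_monoidHom (linChar Q x ω hω)
  obtain ⟨N, hN⟩ := classInner_nat hχ hν
  refine ⟨N, ?_⟩
  rw [classInner_def] at hN
  have hcard : (Nat.card (Q × Subgroup.zpowers x) : ℂ) = (Nat.card Q : ℂ) * (orderOf x : ℂ) := by
    rw [Nat.card_prod, Nat.card_zpowers, Nat.cast_mul]
  have hne : (Nat.card (Q × Subgroup.zpowers x) : ℂ) ≠ 0 := by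
    exact_mod_cast Nat.card_pos.ne'
  have h1 : ∑ g : Q × Subgroup.zpowers x, (θ ∘ prodHom Q x hQ) g *
      conj (((linChar Q x ω hω g : ℂˣ) : ℂ)) = (N : ℂ) * (Nat.card Q : ℂ) * (orderOf x : ℂ) := by
    rw [mul_assoc, ← hcard, ← hN]
    field_simp
  rw [← h1, Fintype.sum_prod_type, Finset.sum_eq_single (1 : Q)]
  · rw [← Fin.sum_univ_eq_sum_range (fun j => (conj ω) ^ j * θ (x ^ j)) (orderOf x)]
    apply Fintype.sum_equiv (finEquivZPowers (isOfFinOrder_of_finite x))
    intro j
    rw [linChar_apply]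
    show _ = θ (prodHom Q x hQ (1, finEquivZPowers (isOfFinOrder_of_finite x) j)) *
      conj (cycFun x ω (finEquivZPowers (isOfFinOrder_of_finite x) j))
    rw [cycFun_apply, prodHom_apply, map_pow, mul_comm]
    congr 2
    show x ^ (j : ℕ) = ((1 : Q) : G) * ((finEquivZPowers (isOfFinOrder_of_finite x) j : _) : G)
    rw [finEquivZPowers_apply]
    simp
  · intro q _ hq
    apply Finset.sum_eq_zero
    intro c _
    show θ (prodHom Q x hQ (q, c)) * _ = 0
    rw [prodHom_apply, hvan _ (dvd_orderOf_mul Q hQp x hx hQ q hq c), zero_mul]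
  · intro h
    exact absurd (Finset.mem_univ _) h

/-- A character vanishing at the `p`-singular elements has its value at the inverse of a
`p`-regular element divisible by the order of any `p`-subgroup centralizing it. -/
theorem exists_algInt_inv {p : ℕ} [Fact p.Prime] {θ : G → ℂ} (hθ : IsCharacter G θ)
    (hvan : ∀ y : G, p ∣ orderOf y → θ y = 0) (x : G) (hx : ¬ p ∣ orderOf x) (Q : Subgroup G)
    (hQp : IsPGroup p Q) (hQ : Q ≤ Subgroup.centralizer ({x} : Set G)) :
    ∃ α : ℂ, α ∈ AlgInt ∧ θ x⁻¹ = (Nat.card Q : ℂ) * α := by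
  classical
  obtain ⟨n, hn⟩ : ∃ n : ℕ, n = orderOf x := ⟨_, rfl⟩
  have hn0 : 0 < n := by rw [hn]; exact orderOf_pos x
  obtain ⟨ζ, hζ⟩ : ∃ ζ : ℂ, IsPrimitiveRoot ζ n := ⟨_, Complex.isPrimitiveRoot_exp n hn0.ne'⟩
  have hroot : ∀ i : ℕ, (conj (ζ ^ i)) ^ orderOf x = 1 := by
    intro i
    rw [← map_pow, ← pow_mul, mul_comm, pow_mul, ← hn, hζ.pow_eq_one, one_pow, map_one]
  choose N hN using fun i : ℕ =>
    exists_nat_fourier hθ hvan x hx Q hQp hQ (conj (ζ ^ i)) (hroot i)
  have horth := sum_orth hn0 hζ 0 (fun j => θ (x ^ j))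
  have h1 : ∀ i ∈ Finset.range n, ζ ^ i * ∑ j ∈ Finset.range n, (ζ ^ (i + 0)) ^ j * θ (x ^ j) =
      ζ ^ i * ((N i : ℂ) * (Nat.card Q : ℂ) * (n : ℂ)) := by
    intro i _
    have h2 := hN i
    rw [Complex.conj_conj, ← hn] at h2
    rw [add_zero, h2]
  rw [Finset.sum_congr rfl h1] at horth
  simp only [zero_mul, pow_zero, mul_one] at horth
  have hx1 : x ^ (n - 1) = x⁻¹ := by
    rw [hn]
    exact (inv_eq_of_mul_eq_one_left (by
      rw [← pow_succ, Nat.sub_add_cancel (orderOf_pos x), pow_orderOf_eq_one])).symm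
  rw [hx1] at horth
  refine ⟨∑ i ∈ Finset.range n, ζ ^ i * (N i : ℂ), ?_, ?_⟩
  · apply Subalgebra.sum_mem
    intro i _
    apply Subalgebra.mul_mem
    · apply Subalgebra.pow_mem
      exact isIntegral_of_pow_eq_one hn0 hζ.pow_eq_one
    · exact Subalgebra.natCast_mem _ (N i)
  · have hn0' : (n : ℂ) ≠ 0 := by exact_mod_cast hn0.ne'
    apply mul_left_cancel₀ hn0'
    rw [← horth, Finset.mul_sum, Finset.mul_sum]
    apply Finset.sum_congr rfl
    intro i _
    ring

section Main

variable {M : Ideal AlgInt} {p : ℕ} [Fact p.Prime]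

omit [Fact p.Prime] in
/-- A quotient of natural numbers times an algebraic integer lies in the local ideal when the
numerator is divisible by a higher power of `p` than the denominator. -/
theorem memLocalIdeal_of_factorization_lt (hM : IsPModular p M) {u v : ℕ} (hv : v ≠ 0)
    (h : v.factorization p < u.factorization p) {z : ℂ} (hz : z ∈ AlgInt) :
    MemLocalIdeal M ((u : ℂ) * z / (v : ℂ)) := by
  have hp := hM.1
  have hMp : M.IsPrime := hM.2.1.isPrime
  obtain ⟨u', hu'⟩ : ∃ u' : ℕ, u' = u / p ^ u.factorization p := ⟨_, rfl⟩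
  obtain ⟨v', hv'⟩ : ∃ v' : ℕ, v' = v / p ^ v.factorization p := ⟨_, rfl⟩
  have hu2 : p ^ u.factorization p * u' = u := by
    rw [hu']
    exact Nat.ordProj_mul_ordCompl_eq_self u p
  have hv2 : p ^ v.factorization p * v' = v := by
    rw [hv']
    exact Nat.ordProj_mul_ordCompl_eq_self v p
  have hv3 : ¬ p ∣ v' := by
    rw [hv']
    exact Nat.not_dvd_ordCompl hp hv
  obtain ⟨t, ht⟩ : ∃ t : ℕ, u.factorization p = v.factorization p + (t + 1) :=
    ⟨u.factorization p - v.factorization p - 1, by omega⟩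
  have hp0 : (p : ℂ) ≠ 0 := by exact_mod_cast hp.ne_zero
  have hv0 : (v' : ℂ) ≠ 0 := by
    intro h0
    have h1 : v' = 0 := by exact_mod_cast h0
    exact hv3 (by rw [h1]; exact dvd_zero p)
  have e : (u : ℂ) * z / (v : ℂ) = ((u' : ℂ) * z * (p : ℂ) ^ t / (v' : ℂ)) * (p : ℂ) := by
    have hu3 : (u : ℂ) = (p : ℂ) ^ u.factorization p * (u' : ℂ) := by exact_mod_cast hu2.symm
    have hv4 : (v : ℂ) = (p : ℂ) ^ v.factorization p * (v' : ℂ) := by exact_mod_cast hv2.symm
    rw [hu3, hv4, ht, pow_add, pow_succ]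
    field_simp
  rw [e]
  apply memLocalIdeal_mul_left _ (memLocalIdeal_natCast hM dvd_rfl)
  have hnot : (v' : AlgInt) ∉ M := by
    intro h1
    apply not_memLocalIdeal_natCast hM hv3
    have h2 := memLocalIdeal_of_mem hMp.ne_top h1
    simpa using h2
  exact ⟨(u' : AlgInt) * ⟨z, hz⟩ * (p : AlgInt) ^ t, (v' : AlgInt), hnot, by push_cast; rfl⟩

/-- The `p`-part of the centralizer order of a defect class is `p` to the defect. -/
theorem card_defect (hM : IsPModular p M) {B : Set (IrrCharacter G)} (hB : IsPBlock M B) {g : G}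
    (hg : IsDefectClass M B g) :
    (Nat.card (Subgroup.centralizer ({g} : Set G))).factorization p = blockDefect p B := by
  classical
  have hp : p.Prime := Fact.out
  have hMm : M.IsMaximal := hM.2.1
  have hMp : M.IsPrime := hMm.isPrime
  have hfin := irr_finite (G := G)
  have := Fintype.ofFinite (IrrCharacter G)
  have hB' := hB
  obtain ⟨χ₀, hχ₀⟩ := hB
  have hχ₀B : χ₀ ∈ B := by
    rw [hχ₀]
    exact mem_blockOf_self hMp.ne_top χ₀
  obtain ⟨S, hS⟩ : ∃ S : Set ℕ, S = (fun χ : IrrCharacter G =>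
      (charDegree (χ : G → ℂ)).factorization p) '' B := ⟨_, rfl⟩
  have hSne : S.Nonempty := by
    rw [hS]
    exact ⟨_, χ₀, hχ₀B, rfl⟩
  have hmem := Nat.sInf_mem hSne
  obtain ⟨s, hs⟩ : ∃ s : ℕ, s = sInf S := ⟨_, rfl⟩
  have hle : ∀ χ ∈ B, s ≤ (charDegree (χ : G → ℂ)).factorization p := by
    intro χ hχ
    rw [hs]
    apply Nat.sInf_le
    rw [hS]
    exact ⟨χ, hχ, rfl⟩
  rw [← hs] at hmem
  rw [hS] at hmem
  obtain ⟨χ₁, hχ₁B, hχ₁⟩ := hmem
  replace hχ₁ : (charDegree (χ₁ : G → ℂ)).factorization p = s := hχ₁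
  obtain ⟨C, hC⟩ : ∃ C : Subgroup G, C = Subgroup.centralizer ({g} : Set G) := ⟨_, rfl⟩
  rw [← hC]
  have hidx : C.index * Nat.card C = Nat.card G := Subgroup.index_mul_card C
  have hidx0 : C.index ≠ 0 := Subgroup.index_ne_zero_of_finite
  have hC0 : Nat.card C ≠ 0 := Nat.card_pos.ne'
  have hfact : (Nat.card G).factorization p =
      C.index.factorization p + (Nat.card C).factorization p := by
    rw [← hidx, Nat.factorization_mul hidx0 hC0]
    rfl
  -- Claim 1
  have hclaim1 : C.index.factorization p ≤ s := by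
    by_contra hlt
    push Not at hlt
    obtain ⟨d₁, hd₁⟩ := isCharacter_apply_one (isCharacter_of_irr χ₁.2)
    have hd₁' : charDegree (χ₁ : G → ℂ) = d₁ := charDegree_eq hd₁
    have hd₁0 : d₁ ≠ 0 := by
      rintro rfl
      exact irr_apply_one_ne_zero χ₁.2 (by rw [hd₁]; simp)
    have hint : (χ₁ : G → ℂ) g ∈ AlgInt :=
      Cfsg.Agent.Lib_helper3_CharDiag.isCharacter_isIntegral (isCharacter_of_irr χ₁.2) g
    have h1 := memLocalIdeal_of_factorization_lt hM (u := C.index) hd₁0
      (by rw [← hd₁', hχ₁]; exact hlt) hint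
    apply hg.2.2 χ₁ hχ₁B
    unfold centralChar
    rw [hd₁, ← hC]
    exact h1
  -- Claim 2
  have hclaim2 : s + (Nat.card C).factorization p ≤ (Nat.card G).factorization p := by
    by_contra hlt
    push Not at hlt
    obtain ⟨θ, hθdef⟩ : ∃ θ : G → ℂ, θ = ∑ χ : IrrCharacter G, if χ ∈ B then
        ((charDegree (χ : G → ℂ) / p ^ s : ℕ) : ℂ) • (fun y => conj ((χ : G → ℂ) y)) else 0 :=
      ⟨_, rfl⟩
    have hθ : IsCharacter G θ := by
      rw [hθdef]
      apply isCharacter_sum
      intro χ _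
      split_ifs
      · exact isCharacter_natCast_smul _ (isCharacter_conj (isCharacter_of_irr χ.2))
      · exact isCharacter_zero
    have hθB : ∀ y : G, blockCoeff B y = ((p ^ s : ℕ) : ℂ) * θ y / (Nat.card G : ℂ) := by
      intro y
      rw [blockCoeff_eq_sum, hθdef, Finset.sum_apply, Finset.mul_sum, Finset.mul_sum,
        Finset.sum_div]
      apply Finset.sum_congr rfl
      intro χ _
      by_cases hχ : χ ∈ B
      · rw [Set.indicator_of_mem hχ, if_pos hχ, Pi.smul_apply, smul_eq_mul]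
        obtain ⟨d, hd⟩ := isCharacter_apply_one (isCharacter_of_irr χ.2)
        have hd' : charDegree (χ : G → ℂ) = d := charDegree_eq hd
        have hdvd : p ^ s ∣ d := by
          have h1 := hle χ hχ
          rw [hd'] at h1
          exact (pow_dvd_pow p h1).trans (Nat.ordProj_dvd d p)
        have h2 : p ^ s * (d / p ^ s) = d := Nat.mul_div_cancel' hdvd
        have h3 : (d : ℂ) = ((p ^ s : ℕ) : ℂ) * ((d / p ^ s : ℕ) : ℂ) := by
          exact_mod_cast h2.symm
        rw [hd', hd, h3]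
        ring
      · rw [Set.indicator_of_notMem hχ, if_neg hχ]
        simp
    have hG0 := card_ne_zero (G := G)
    have hps0 : ((p ^ s : ℕ) : ℂ) ≠ 0 := by
      exact_mod_cast (pow_pos hp.pos s).ne'
    have hvan : ∀ y : G, p ∣ orderOf y → θ y = 0 := by
      intro y hy
      have h1 := blockCoeff_eq_zero_of_singular hM (fun g => osima hB' g) y hy
      rw [hθB y] at h1
      rcases div_eq_zero_iff.mp h1 with h2 | h2
      · rcases mul_eq_zero.mp h2 with h3 | h3
        · exact absurd h3 hps0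
        · exact h3
      · exact absurd h2 hG0
    have hgreg : ¬ p ∣ orderOf g := by
      intro hy
      apply hg.2.1
      rw [blockCoeff_eq_zero_of_singular hM (fun g => osima hB' g) g hy]
      exact memLocalIdeal_zero hMp.ne_top
    obtain ⟨P⟩ : Nonempty (Sylow p C) := inferInstance
    obtain ⟨Q, hQdef⟩ : ∃ Q : Subgroup G, Q = (P : Subgroup C).map C.subtype := ⟨_, rfl⟩
    have hQcard : Nat.card Q = p ^ (Nat.card C).factorization p := by
      rw [hQdef, Subgroup.card_map_of_injective C.subtype_injective]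
      exact Sylow.card_eq_multiplicity P
    have hQp : IsPGroup p Q := by
      rw [hQdef]
      exact P.2.map C.subtype
    have hQ : Q ≤ Subgroup.centralizer ({g⁻¹} : Set G) := by
      intro q hq
      rw [hQdef] at hq
      obtain ⟨c, -, rfl⟩ := Subgroup.mem_map.mp hq
      have h1 : (c : G) ∈ Subgroup.centralizer ({g} : Set G) := by
        rw [← hC]
        exact c.2
      rw [Subgroup.mem_centralizer_singleton_iff] at h1 ⊢
      show (c : G) * g⁻¹ = g⁻¹ * (c : G)
      calc (c : G) * g⁻¹ = g⁻¹ * (g * (c : G)) * g⁻¹ := by group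
        _ = g⁻¹ * ((c : G) * g) * g⁻¹ := by rw [h1]
        _ = g⁻¹ * (c : G) := by group
    obtain ⟨α, hα, hval⟩ := exists_algInt_inv hθ hvan g⁻¹ (by rw [orderOf_inv]; exact hgreg)
      Q hQp hQ
    rw [inv_inv, hQcard] at hval
    apply hg.2.1
    rw [hθB g, hval]
    have h1 := memLocalIdeal_of_factorization_lt hM
      (u := p ^ (s + (Nat.card C).factorization p)) (v := Nat.card G) Nat.card_pos.ne'
      (by rw [hp.factorization_pow]; simpa using hlt) hα
    have e : ((p ^ s : ℕ) : ℂ) * (((p ^ (Nat.card C).factorization p : ℕ) : ℂ) * α) /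
        (Nat.card G : ℂ) = ((p ^ (s + (Nat.card C).factorization p) : ℕ) : ℂ) * α /
        (Nat.card G : ℂ) := by
      push_cast
      rw [pow_add]
      ring
    rw [e]
    exact h1
  unfold blockDefect
  rw [← hS, ← hs]
  omega

end Main

end Cfsg.Agent.Lib_helper3_DefectCard
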