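import Cfsg.Statements.S0911
import Cfsg.Agent.Lib_helper3_DefectLoc

set_option autoImplicit false
open Cfsg

namespace Cfsg.Agent.S0911

/-- The min–max Theorem for defect classes. Let B be a block of the finite group G relative to a maximal ideal M of the algebraic integers containing the prime p, let g represent a defect class of B and let D be a Sylow p-subgroup of the centralizer of g (viewed in G). For any h: (a) if the idempotent coefficient of B at h is a local integer outside the local ideal, then some conjugate of D contains a Sylow p-subgroup of the centralizer of h; (b) if the central character of some member of B at h is outside the local ideal, then some conjugate of D is contained in a Sylow p-subgroup of the centralizer of h. -/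
theorem result {G : Type*} [Group G] [Finite G] (p : ℕ) [Fact p.Prime] (M : Ideal Cfsg.AlgInt) (hM : Cfsg.IsPModular p M) (B : Set (Cfsg.IrrCharacter G)) (hB : Cfsg.IsPBlock M B) (g : G) (hg : Cfsg.IsDefectClass M B g) (D : Sylow p (Subgroup.centralizer ({g} : Set G))) (h : G) : (Cfsg.MemLocalRing M (Cfsg.blockCoeff B h) → ¬ Cfsg.MemLocalIdeal M (Cfsg.blockCoeff B h) → ∃ (x : G) (Q : Sylow p (Subgroup.centralizer ({h} : Set G))), (Q : Subgroup (Subgroup.centralizer ({h} : Set G))).map (Subgroup.centralizer ({h} : Set G)).subtype ≤ ((D : Subgroup (Subgroup.centralizer ({g} : Set G))).map (Subgroup.centralizer ({g} : Set G)).subtype).map (MulAut.conj x).toMonoidHom) ∧ ((∃ χ ∈ B, ¬ Cfsg.MemLocalIdeal M (Cfsg.centralChar (χ : G → ℂ) h)) → ∃ (x : G) (Q : Sylow p (Subgroup.centralizer ({h} : Set G))), ((D : Subgroup (Subgroup.centralizer ({g} : Set G))).map (Subgroup.centralizer ({g} : Set G)).subtype).map (MulAut.conj x).toMonoidHom ≤ (Q : Subgroup (Subgroup.centralizer ({h} : Set G))).map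 (Subgroup.centralizer ({h} : Set G)).subtype) := by
  classical
  have := Fintype.ofFinite G
  have hMm : M.IsMaximal := hM.2.1
  have hMp : M.IsPrime := hMm.isPrime
  obtain ⟨χ₀, rfl⟩ := hB
  have hχ₀ : χ₀ ∈ Cfsg.blockOf M (χ₀ : G → ℂ) :=
    Cfsg.Agent.Lib_helper3_BlockAlg.mem_blockOf_self hMp.ne_top χ₀
  have hDp : IsPGroup p ((D : Subgroup (Subgroup.centralizer ({g} : Set G))).map
      (Subgroup.centralizer ({g} : Set G)).subtype) := D.isPGroup'.map _
  have hDle : (D : Subgroup (Subgroup.centralizer ({g} : Set G))).map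
      (Subgroup.centralizer ({g} : Set G)).subtype ≤ Subgroup.centralizer ({g} : Set G) := by
    rintro _ ⟨v, _, rfl⟩
    exact v.2
  constructor
  · intro hR hnI
    obtain ⟨Q⟩ : Nonempty (Sylow p (Subgroup.centralizer ({h} : Set G))) := inferInstance
    have hQp : IsPGroup p ((Q : Subgroup (Subgroup.centralizer ({h} : Set G))).map
        (Subgroup.centralizer ({h} : Set G)).subtype) := Q.isPGroup'.map _
    have hQz : h ∈ Subgroup.centralizer (((Q : Subgroup (Subgroup.centralizer ({h} : Set G))).map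
        (Subgroup.centralizer ({h} : Set G)).subtype : Subgroup G) : Set G) := by
      rw [Subgroup.mem_centralizer_iff]
      rintro _ ⟨v, _, rfl⟩
      exact Subgroup.mem_centralizer_singleton_iff.mp v.2
    obtain ⟨x', hx', hx'c⟩ := Cfsg.Agent.Lib_helper3_DefectLoc.exists_conj_centralizing hM χ₀ g h
      (hg.2.2 χ₀ hχ₀) hR hnI _ hQp hQz
    obtain ⟨c, rfl⟩ := isConj_iff.mp hx'
    have hle : ((Q : Subgroup (Subgroup.centralizer ({h} : Set G))).map
        (Subgroup.centralizer ({h} : Set G)).subtype).map (MulAut.conj c⁻¹).toMonoidHom ≤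
        Subgroup.centralizer ({g} : Set G) := by
      rintro _ ⟨u, hu, rfl⟩
      rw [Subgroup.mem_centralizer_singleton_iff]
      have h1 := (Subgroup.mem_centralizer_iff.mp hx'c) u hu
      show c⁻¹ * u * c⁻¹⁻¹ * g = g * (c⁻¹ * u * c⁻¹⁻¹)
      rw [inv_inv]
      calc c⁻¹ * u * c * g = c⁻¹ * (u * (c * g * c⁻¹)) * c := by group
        _ = c⁻¹ * (c * g * c⁻¹ * u) * c := by rw [h1]
        _ = g * (c⁻¹ * u * c) := by group
    obtain ⟨t, _, ht⟩ := Cfsg.Agent.Lib_helper3_DefectLoc.le_conj_sylow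
      (Subgroup.centralizer ({g} : Set G)) D (hQp.map _) hle
    refine ⟨c * t, Q, ?_⟩
    intro u hu
    have h2 := ht ⟨u, hu, rfl⟩
    obtain ⟨d, hd, hdu⟩ := h2
    refine ⟨d, hd, ?_⟩
    have h3 : t * d * t⁻¹ = c⁻¹ * u * c⁻¹⁻¹ := hdu
    show c * t * d * (c * t)⁻¹ = u
    rw [inv_inv] at h3
    calc c * t * d * (c * t)⁻¹ = c * (t * d * t⁻¹) * c⁻¹ := by group
      _ = c * (c⁻¹ * u * c) * c⁻¹ := by rw [h3]
      _ = u := by group
  · rintro ⟨χ, hχB, hχ⟩
    have hχ' : ¬ Cfsg.MemLocalIdeal M (Cfsg.centralChar (χ₀ : G → ℂ) h) :=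
      Cfsg.Agent.Lib_helper3_Local2.not_memLocalIdeal_of_sub (hχB h) hχ
    have hgz : g ∈ Subgroup.centralizer (((D : Subgroup (Subgroup.centralizer ({g} : Set G))).map
        (Subgroup.centralizer ({g} : Set G)).subtype : Subgroup G) : Set G) := by
      rw [Subgroup.mem_centralizer_iff]
      rintro _ ⟨v, _, rfl⟩
      exact Subgroup.mem_centralizer_singleton_iff.mp v.2
    obtain ⟨y, hy, hyc⟩ := Cfsg.Agent.Lib_helper3_DefectLoc.exists_conj_centralizing hM χ₀ h g
      hχ' hg.1 hg.2.1 _ hDp hgz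
    obtain ⟨c, rfl⟩ := isConj_iff.mp hy
    have hle : ((D : Subgroup (Subgroup.centralizer ({g} : Set G))).map
        (Subgroup.centralizer ({g} : Set G)).subtype).map (MulAut.conj c⁻¹).toMonoidHom ≤
        Subgroup.centralizer ({h} : Set G) := by
      rintro _ ⟨u, hu, rfl⟩
      rw [Subgroup.mem_centralizer_singleton_iff]
      have h1 := (Subgroup.mem_centralizer_iff.mp hyc) u hu
      show c⁻¹ * u * c⁻¹⁻¹ * h = h * (c⁻¹ * u * c⁻¹⁻¹)
      rw [inv_inv]
      calc c⁻¹ * u * c * h = c⁻¹ * (u * (c * h * c⁻¹)) * c := by group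
        _ = c⁻¹ * (c * h * c⁻¹ * u) * c := by rw [h1]
        _ = h * (c⁻¹ * u * c) := by group
    obtain ⟨S, hS⟩ := Cfsg.Agent.Lib_helper3_DefectLoc.exists_sylow_ge
      (Subgroup.centralizer ({h} : Set G)) (hDp.map _) hle
    exact ⟨c⁻¹, S, hS⟩
end Cfsg.Agent.S0911
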