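import Cfsg.Statements.S0912
import Cfsg.Agent.Lib_helper3_Residue

set_option autoImplicit false
open Cfsg

namespace Cfsg.Agent.S0912

/-- Let B be a block of the finite group G relative to a maximal ideal M of the algebraic integers containing the prime p. Every defect group of B contains the largest normal p-subgroup O_p(G). -/
theorem result {G : Type*} [Group G] [Finite G] (p : ℕ) [Fact p.Prime] (M : Ideal Cfsg.AlgInt) (hM : Cfsg.IsPModular p M) (B : Set (Cfsg.IrrCharacter G)) (hB : Cfsg.IsPBlock M B) (D : Subgroup G) (hD : Cfsg.IsDefectGroup p M B D) : Cfsg.pCore p G ≤ D := by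
  classical
  have := Fintype.ofFinite G
  have hMm : M.IsMaximal := hM.2.1
  have hMp : M.IsPrime := hMm.isPrime
  obtain ⟨g, hg, S, rfl⟩ := hD
  obtain ⟨χ₀, rfl⟩ := hB
  have hχ₀ : χ₀ ∈ Cfsg.blockOf M (χ₀ : G → ℂ) :=
    Cfsg.Agent.Lib_helper3_BlockAlg.mem_blockOf_self hMp.ne_top χ₀
  have hnot := hg.2.2 χ₀ hχ₀
  have hPn := Cfsg.Agent.Lib_helper3_AugNil.pCore_normal p (G := G)
  have hPp := Cfsg.Agent.Lib_helper3_AugNil.isPGroup_pCore p (G := G)
  have hcen : g ∈ Subgroup.centralizer (Cfsg.pCore p G : Set G) := by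
    by_contra hcon
    apply hnot
    apply Cfsg.Agent.Lib_helper3_Residue.centralChar_memLocalIdeal_of_avoid hM (Cfsg.pCore p G)
      hPp χ₀.2 g
    intro x hx hxc
    apply hcon
    obtain ⟨c, rfl⟩ := isConj_iff.mp hx
    rw [Subgroup.mem_centralizer_iff] at hxc ⊢
    intro u hu
    have h1 := hxc (c * u * c⁻¹) (hPn.conj_mem u hu c)
    have h2 : c * (u * g) * c⁻¹ = c * (g * u) * c⁻¹ := by
      calc c * (u * g) * c⁻¹ = c * u * c⁻¹ * (c * g * c⁻¹) := by group
        _ = c * g * c⁻¹ * (c * u * c⁻¹) := h1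
        _ = c * (g * u) * c⁻¹ := by group
    exact mul_left_cancel (mul_right_cancel h2)
  have hle : Cfsg.pCore p G ≤ Subgroup.centralizer ({g} : Set G) := by
    intro u hu
    rw [Subgroup.mem_centralizer_singleton_iff]
    exact (Subgroup.mem_centralizer_iff.mp hcen) u hu
  intro u hu
  have hO : IsPGroup p ((Cfsg.pCore p G).subgroupOf (Subgroup.centralizer ({g} : Set G))) :=
    hPp.comap_subtype
  have hOn : ((Cfsg.pCore p G).subgroupOf (Subgroup.centralizer ({g} : Set G))).Normal :=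
    inferInstance
  have hle2 := hO.le_sylow_of_normal S
  exact ⟨⟨u, hle hu⟩, hle2 (show (⟨u, hle hu⟩ : Subgroup.centralizer ({g} : Set G)) ∈
    (Cfsg.pCore p G).subgroupOf (Subgroup.centralizer ({g} : Set G)) from hu), rfl⟩
end Cfsg.Agent.S0912
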