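import Cfsg.Statements.S0916
import Cfsg.Agent.Lib_helper3_SylCard

set_option autoImplicit false
open Cfsg

namespace Cfsg.Agent.S0916

/-- Let P be a p-subgroup of the finite group G, C its centralizer and N its normalizer. Say that a conjugacy class (of G, or of N) has defect group P when P is a Sylow p-subgroup of the centralizer (in G, respectively in N) of some element of the class. Then: (i) if the class of g in G has defect group P, the elements of that class lying in C form a single N-class, again with defect group P; (ii) every N-class with defect group P arises this way from exactly one G-class with defect group P. -/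
theorem result {G : Type*} [Group G] [Finite G] (p : ℕ) [Fact p.Prime] (P : Subgroup G) (hP : IsPGroup p P) : (∀ g : G, (∃ S : Sylow p (Subgroup.centralizer ({g} : Set G)), (S : Subgroup (Subgroup.centralizer ({g} : Set G))).map (Subgroup.centralizer ({g} : Set G)).subtype = P) → (∃ c : G, IsConj g c ∧ c ∈ Subgroup.centralizer (P : Set G)) ∧ (∀ c₁ c₂ : G, IsConj g c₁ → IsConj g c₂ → c₁ ∈ Subgroup.centralizer (P : Set G) → c₂ ∈ Subgroup.centralizer (P : Set G) → ∃ n ∈ Subgroup.normalizer (P : Set G), n * c₁ * n⁻¹ = c₂)) ∧ (∀ c : G, c ∈ Subgroup.centralizer (P : Set G) → (∃ S : Sylow p (Subgroup.centralizer ({c} : Set G) ⊓ Subgroup.normalizer (P : Set G) : Subgroup G), (S : Subgroup ↥(Subgroup.centralizer ({c} : Set G) ⊓ Subgroup.normalizer (P : Set G))).map (Subgroup.centralizer ({c} : Set G) ⊓ Subgroup.normalizer (P : Set G)).subtype = P) → ∃ S : Sylow p (Subgroup.centralizer ({c} : Set G)), (S : Subgroup (Subgroup.centralizer ({c} : Set G))).map (Subgroup.centralizer ({c} : Set G)).subtype = P) := by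
  classical
  have hp : p.Prime := Fact.out
  constructor
  · rintro g ⟨S, hS⟩
    have hPle : P ≤ Subgroup.centralizer ({g} : Set G) := by
      rw [← hS]
      exact Subgroup.map_subtype_le _
    have hPcard : Nat.card P = p ^ (Nat.card (Subgroup.centralizer ({g} : Set G))).factorization p := by
      rw [← hS, Subgroup.card_map_of_injective (Subgroup.centralizer ({g} : Set G)).subtype_injective]
      exact Sylow.card_eq_multiplicity S
    constructor
    · refine ⟨g, IsConj.refl g, ?_⟩
      rw [Subgroup.mem_centralizer_iff]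
      intro u hu
      exact Subgroup.mem_centralizer_singleton_iff.mp (hPle hu)
    · intro c₁ c₂ h₁ h₂ hc₁ hc₂
      obtain ⟨a, ha⟩ := isConj_iff.mp h₁
      obtain ⟨b, hb⟩ := isConj_iff.mp h₂
      have ht : (b * a⁻¹) * c₁ * (b * a⁻¹)⁻¹ = c₂ := by
        rw [← ha, ← hb]
        group
      have hQ₁ : P.map (MulAut.conj (b * a⁻¹)).toMonoidHom ≤ Subgroup.centralizer ({c₂} : Set G) := by
        rintro _ ⟨u, hu, rfl⟩
        rw [Subgroup.mem_centralizer_singleton_iff]
        have h1 : u * c₁ = c₁ * u := (Subgroup.mem_centralizer_iff.mp hc₁) u hu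
        show (b * a⁻¹) * u * (b * a⁻¹)⁻¹ * c₂ = c₂ * ((b * a⁻¹) * u * (b * a⁻¹)⁻¹)
        rw [← ht]
        calc (b * a⁻¹) * u * (b * a⁻¹)⁻¹ * ((b * a⁻¹) * c₁ * (b * a⁻¹)⁻¹)
            = (b * a⁻¹) * (u * c₁) * (b * a⁻¹)⁻¹ := by group
          _ = (b * a⁻¹) * (c₁ * u) * (b * a⁻¹)⁻¹ := by rw [h1]
          _ = (b * a⁻¹) * c₁ * (b * a⁻¹)⁻¹ * ((b * a⁻¹) * u * (b * a⁻¹)⁻¹) := by group
      have hQ₂ : P ≤ Subgroup.centralizer ({c₂} : Set G) := by
        intro u hu
        rw [Subgroup.mem_centralizer_singleton_iff]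
        exact (Subgroup.mem_centralizer_iff.mp hc₂) u hu
      have hcard : Nat.card (Subgroup.centralizer ({c₂} : Set G)) =
          Nat.card (Subgroup.centralizer ({g} : Set G)) :=
        Cfsg.Agent.Lib_helper3_CharPerm.card_centralizer_of_isConj h₂
      obtain ⟨z, hz, hzP⟩ := Cfsg.Agent.Lib_helper3_SylCard.exists_conj_eq_of_card (p := p)
        (Subgroup.centralizer ({c₂} : Set G)) hQ₁ hQ₂
        (by rw [Subgroup.card_map_of_injective (MulAut.conj (b * a⁻¹)).injective, hcard]
            exact hPcard)
        (by rw [hcard]; exact hPcard)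
      refine ⟨z * (b * a⁻¹), ?_, ?_⟩
      · rw [Subgroup.mem_normalizer_iff]
        intro h
        constructor
        · intro hh
          have h1 : z * ((b * a⁻¹) * h * (b * a⁻¹)⁻¹) * z⁻¹ ∈
              (P.map (MulAut.conj (b * a⁻¹)).toMonoidHom).map (MulAut.conj z).toMonoidHom :=
            ⟨_, ⟨h, hh, rfl⟩, rfl⟩
          rw [hzP] at h1
          have h2 : z * (b * a⁻¹) * h * (z * (b * a⁻¹))⁻¹ =
              z * ((b * a⁻¹) * h * (b * a⁻¹)⁻¹) * z⁻¹ := by group
          rw [h2]
          exact h1
        · intro hh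
          rw [← hzP] at hh
          obtain ⟨_, ⟨h', hh', rfl⟩, h3⟩ := hh
          have h4 : z * ((b * a⁻¹) * h' * (b * a⁻¹)⁻¹) * z⁻¹ =
              z * (b * a⁻¹) * h * (z * (b * a⁻¹))⁻¹ := h3
          have h5 : h = h' := by
            have h6 : h = (z * (b * a⁻¹))⁻¹ * (z * (b * a⁻¹) * h * (z * (b * a⁻¹))⁻¹) *
                (z * (b * a⁻¹)) := by group
            rw [h6, ← h4]
            group
          rw [h5]
          exact hh'
      · have hz' : z * c₂ = c₂ * z := Subgroup.mem_centralizer_singleton_iff.mp hz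
        calc z * (b * a⁻¹) * c₁ * (z * (b * a⁻¹))⁻¹
            = z * ((b * a⁻¹) * c₁ * (b * a⁻¹)⁻¹) * z⁻¹ := by group
          _ = z * c₂ * z⁻¹ := by rw [ht]
          _ = c₂ * z * z⁻¹ := by rw [hz']
          _ = c₂ := by group
  · rintro c hc ⟨S, hS⟩
    have hPle : P ≤ Subgroup.centralizer ({c} : Set G) := by
      intro u hu
      rw [Subgroup.mem_centralizer_singleton_iff]
      exact (Subgroup.mem_centralizer_iff.mp hc) u hu
    have hcard : Nat.card P = p ^ (Nat.card (Subgroup.centralizer ({c} : Set G) ⊓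
        Subgroup.normalizer (P : Set G) : Subgroup G)).factorization p := by
      have h0 : Nat.card ((S : Subgroup ↥(Subgroup.centralizer ({c} : Set G) ⊓
          Subgroup.normalizer (P : Set G))).map (Subgroup.centralizer ({c} : Set G) ⊓
          Subgroup.normalizer (P : Set G)).subtype) = Nat.card S :=
        Subgroup.card_map_of_injective (Subgroup.subtype_injective _)
      rw [hS] at h0
      rw [h0]
      exact Sylow.card_eq_multiplicity S
    have hcard' := Cfsg.Agent.Lib_helper3_SylCard.card_eq_of_card_inf_normalizer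
      (Subgroup.centralizer ({c} : Set G)) hPle hcard
    refine ⟨Sylow.ofCard (P.subgroupOf (Subgroup.centralizer ({c} : Set G)))
      (by rw [Nat.card_congr (Subgroup.subgroupOfEquivOfLe hPle).toEquiv, hcard']), ?_⟩
    rw [Sylow.coe_ofCard]
    exact Subgroup.map_subgroupOf_eq_of_le hPle
end Cfsg.Agent.S0916
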