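import Cfsg.Statements.S0917
import Cfsg.Agent.Lib_helper3_DefectLoc2
import Cfsg.Agent.S0906

set_option autoImplicit false
open Cfsg

namespace Cfsg.Agent.S0917

/-- Let H be a subgroup of the finite group G, p a prime and M a maximal ideal of the algebraic integers containing p. If the block b of H induces the block B of G relative to M, then every defect group of b (a subgroup of H, viewed in G) is contained in some defect group of B. -/
theorem result {G : Type*} [Group G] [Finite G] (p : ℕ) [Fact p.Prime] (M : Ideal Cfsg.AlgInt) (hM : Cfsg.IsPModular p M) (H : Subgroup G) (b : Set (Cfsg.IrrCharacter H)) (hb : Cfsg.IsPBlock M b) (B : Set (Cfsg.IrrCharacter G)) (hB : Cfsg.IsPBlock M B) (hind : Cfsg.IsInducedBlock M H b B) (D : Subgroup H) (hD : Cfsg.IsDefectGroup p M b D) : ∃ E : Subgroup G, Cfsg.IsDefectGroup p M B E ∧ D.map H.subtype ≤ E := by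
  classical
  have := Fintype.ofFinite G
  have := Fintype.ofFinite H
  have hMm : M.IsMaximal := hM.2.1
  have hMp : M.IsPrime := hMm.isPrime
  obtain ⟨g, hg⟩ := Cfsg.Agent.S0906.result p M hM B hB
  obtain ⟨gb, hgb, Sb, rfl⟩ := hD
  obtain ⟨ξ₀, rfl⟩ := hb
  obtain ⟨χ₀, hχ₀def⟩ := hB
  have hξ₀ : ξ₀ ∈ Cfsg.blockOf M (ξ₀ : H → ℂ) :=
    Cfsg.Agent.Lib_helper3_BlockAlg.mem_blockOf_self hMp.ne_top ξ₀
  have hχ₀ : χ₀ ∈ B := by
    rw [hχ₀def]
    exact Cfsg.Agent.Lib_helper3_BlockAlg.mem_blockOf_self hMp.ne_top χ₀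
  have h1 := hind.2.2 ξ₀ hξ₀ χ₀ hχ₀ g
  have h2 : ¬ Cfsg.MemLocalIdeal M (Cfsg.inducedCentralChar H (ξ₀ : H → ℂ) g) :=
    Cfsg.Agent.Lib_helper3_Local2.not_memLocalIdeal_of_sub h1 (hg.2.2 χ₀ hχ₀)
  obtain ⟨h₁, hconj, hh₁⟩ :=
    Cfsg.Agent.Lib_helper3_DefectLoc2.exists_fusion_not_memLocalIdeal H ξ₀ g h2
  have hSbp : IsPGroup p ((Sb : Subgroup (Subgroup.centralizer ({gb} : Set H))).map
      (Subgroup.centralizer ({gb} : Set H)).subtype) := Sb.isPGroup'.map _
  have hgbz : gb ∈ Subgroup.centralizer (((Sb : Subgroup (Subgroup.centralizer ({gb} : Set H))).map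
      (Subgroup.centralizer ({gb} : Set H)).subtype : Subgroup H) : Set H) := by
    rw [Subgroup.mem_centralizer_iff]
    rintro _ ⟨v, _, rfl⟩
    exact Subgroup.mem_centralizer_singleton_iff.mp v.2
  obtain ⟨y, hy, hyc⟩ := Cfsg.Agent.Lib_helper3_DefectLoc.exists_conj_centralizing hM ξ₀ h₁ gb
    hh₁ hgb.1 hgb.2.1 _ hSbp hgbz
  obtain ⟨k, rfl⟩ := isConj_iff.mp hy
  obtain ⟨c, hc⟩ := isConj_iff.mp hconj
  have hdef : Cfsg.IsDefectClass M B (((k * h₁ * k⁻¹ : H) : G)) := by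
    have h3 : ((k * h₁ * k⁻¹ : H) : G) = ((k : G) * c) * g * ((k : G) * c)⁻¹ := by
      rw [Subgroup.coe_mul, Subgroup.coe_mul, Subgroup.coe_inv, ← hc]
      group
    rw [h3]
    exact Cfsg.Agent.Lib_helper3_DefectLoc2.isDefectClass_conj hg _
  have hle : (((Sb : Subgroup (Subgroup.centralizer ({gb} : Set H))).map
      (Subgroup.centralizer ({gb} : Set H)).subtype).map H.subtype) ≤
      Subgroup.centralizer ({((k * h₁ * k⁻¹ : H) : G)} : Set G) := by
    rintro _ ⟨d, hd, rfl⟩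
    rw [Subgroup.mem_centralizer_singleton_iff]
    have h4 := (Subgroup.mem_centralizer_iff.mp hyc) d hd
    exact congrArg Subtype.val h4
  obtain ⟨S, hS⟩ := Cfsg.Agent.Lib_helper3_DefectLoc.exists_sylow_ge _ (hSbp.map _) hle
  exact ⟨_, ⟨_, hdef, S, rfl⟩, hS⟩
end Cfsg.Agent.S0917
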