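import Cfsg.Statements.S0958
import Cfsg.Agent.Lib_helper3_BrauerHom3
import Cfsg.Agent.S0906
import Cfsg.Agent.S0912
import Cfsg.Agent.S0917

set_option autoImplicit false
open Cfsg

namespace Cfsg.Agent.S0958

/-- Let P be a p-subgroup of the finite group G and H a subgroup with P ⊔ C_G(P) ≤ H ≤ N_G(P); fix a maximal ideal M of the algebraic integers containing p. Then a block B of G is induced by some block of H if and only if some conjugate of P is contained in a defect group of B. -/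
theorem result {G : Type*} [Group G] [Finite G] (p : ℕ) [Fact p.Prime] (M : Ideal Cfsg.AlgInt) (hM : Cfsg.IsPModular p M) (P H : Subgroup G) (hP : IsPGroup p P) (hPH : P ⊔ Subgroup.centralizer (P : Set G) ≤ H) (hHN : H ≤ Subgroup.normalizer (P : Set G)) (B : Set (Cfsg.IrrCharacter G)) (hB : Cfsg.IsPBlock M B) : (∃ b : Set (Cfsg.IrrCharacter H), Cfsg.IsInducedBlock M H b B) ↔ ∃ D : Subgroup G, Cfsg.IsDefectGroup p M B D ∧ ∃ x : G, P.map (MulAut.conj x).toMonoidHom ≤ D := by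
  classical
  have := Fintype.ofFinite G
  have := Fintype.ofFinite H
  have hp : p.Prime := Fact.out
  have hMm : M.IsMaximal := hM.2.1
  have hMp : M.IsPrime := hMm.isPrime
  have hPle : P ≤ H := le_sup_left.trans hPH
  have hCle : Subgroup.centralizer (P : Set G) ≤ H := le_sup_right.trans hPH
  constructor
  · rintro ⟨b, hind⟩
    obtain ⟨hb, -, hcong⟩ := hind
    obtain ⟨h, hh⟩ := Cfsg.Agent.S0906.result p M hM b hb
    obtain ⟨Pb⟩ : Nonempty (Sylow p (Subgroup.centralizer ({h} : Set H))) := inferInstance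
    have hD : Cfsg.IsDefectGroup p M b ((Pb : Subgroup (Subgroup.centralizer ({h} : Set H))).map
        (Subgroup.centralizer ({h} : Set H)).subtype) := ⟨h, hh, Pb, rfl⟩
    have hcore := Cfsg.Agent.S0912.result p M hM b hb _ hD
    obtain ⟨E, hE, hDE⟩ := Cfsg.Agent.S0917.result p M hM H b hb B hB ⟨hb, hB, hcong⟩ _ hD
    refine ⟨E, hE, 1, ?_⟩
    have hPn : (P.subgroupOf H).Normal := Subgroup.normal_subgroupOf_of_le_normalizer hHN
    have hPp : IsPGroup p (P.subgroupOf H) := hP.comap_subtype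
    have hPcore : P.subgroupOf H ≤ Cfsg.pCore p H := le_sSup ⟨hPn, hPp⟩
    intro u hu
    obtain ⟨u', hu', rfl⟩ := Subgroup.mem_map.mp hu
    have h1 : (MulAut.conj (1 : G)).toMonoidHom u' = u' := by simp
    rw [h1]
    apply hDE
    exact Subgroup.mem_map.mpr ⟨⟨u', hPle hu'⟩, hcore (hPcore hu'), rfl⟩
  · rintro ⟨D, ⟨g, hg, S, rfl⟩, x, hx⟩
    -- a conjugate of the defect class centralizes `P`
    have hyC : x⁻¹ * g * x⁻¹⁻¹ ∈ Subgroup.centralizer (P : Set G) := by
      rw [Subgroup.mem_centralizer_iff]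
      intro u hu
      have h1 : (MulAut.conj x).toMonoidHom u ∈ (S : Subgroup (Subgroup.centralizer
          ({g} : Set G))).map (Subgroup.centralizer ({g} : Set G)).subtype :=
        hx (Subgroup.mem_map_of_mem _ hu)
      obtain ⟨c, -, hc⟩ := Subgroup.mem_map.mp h1
      have h2 : (c : G) * g = g * (c : G) := Subgroup.mem_centralizer_singleton_iff.mp c.2
      have h3 : (c : G) = x * u * x⁻¹ := by
        rw [show ((Subgroup.centralizer ({g} : Set G)).subtype c) = (c : G) from rfl] at hc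
        rw [hc]
        simp
      rw [h3] at h2
      calc u * (x⁻¹ * g * x⁻¹⁻¹) = x⁻¹ * (x * u * x⁻¹ * g) * x := by group
        _ = x⁻¹ * (g * (x * u * x⁻¹)) * x := by rw [h2]
        _ = x⁻¹ * g * x⁻¹⁻¹ * u := by group
    have hy : ¬ Cfsg.MemLocalIdeal M (Cfsg.blockCoeff B (x⁻¹ * g * x⁻¹⁻¹)) := by
      rw [Cfsg.Agent.Lib_helper3_BlockAlg.isClassFunction_blockCoeff B g x⁻¹]
      exact hg.2.1
    obtain ⟨ξ, χ, hχ, hcong⟩ := Cfsg.Agent.Lib_helper3_BrauerHom3.exists_induced_of_blockCoeff hM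
      P H hP hPle hCle hHN hB hyC hy
    refine ⟨Cfsg.blockOf M (ξ : H → ℂ), ⟨ξ, rfl⟩, hB, ?_⟩
    intro ξ' hξ' χ' hχ' g'
    have h1 := Cfsg.Agent.Lib_helper3_BlockInd.inducedCentralChar_congr (M := M)
      (Cfsg.Agent.Lib_helper3_CharBasic.isClassFunction_of_irr ξ'.2)
      (Cfsg.Agent.Lib_helper3_CharBasic.isClassFunction_of_irr ξ.2)
      (Cfsg.Agent.Lib_helper3_BlockAlg.sameBlock_symm hξ') g'
    have h2 := hcong g'
    obtain ⟨χ₀, rfl⟩ := hB
    have hχ1 : Cfsg.SameBlock M (χ₀ : G → ℂ) (χ : G → ℂ) := hχ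
    have hχ2 : Cfsg.SameBlock M (χ₀ : G → ℂ) (χ' : G → ℂ) := hχ'
    have h3 : Cfsg.SameBlock M (χ : G → ℂ) (χ' : G → ℂ) :=
      Cfsg.Agent.Lib_helper3_BlockAlg.sameBlock_trans
        (Cfsg.Agent.Lib_helper3_BlockAlg.sameBlock_symm hχ1) hχ2
    have h4 := Cfsg.Agent.Lib_helper3_Local.memLocalIdeal_add
      (Cfsg.Agent.Lib_helper3_Local.memLocalIdeal_add h1 h2) (h3 g')
    have h5 : Cfsg.inducedCentralChar H (ξ' : H → ℂ) g' - Cfsg.inducedCentralChar H (ξ : H → ℂ) g' +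
        (Cfsg.inducedCentralChar H (ξ : H → ℂ) g' - Cfsg.centralChar (χ : G → ℂ) g') +
        (Cfsg.centralChar (χ : G → ℂ) g' - Cfsg.centralChar (χ' : G → ℂ) g') =
        Cfsg.inducedCentralChar H (ξ' : H → ℂ) g' - Cfsg.centralChar (χ' : G → ℂ) g' := by ring
    rwa [h5] at h4
end Cfsg.Agent.S0958
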