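import Mathlib
import Cfsg.Prelude.Def_Characters
import Cfsg.Prelude.Def_Blocks
import Cfsg.Agent.Lib_helper3_BrauerHom3
import Cfsg.Agent.Lib_helper3_SylCard
import Cfsg.Agent.S0916
import Cfsg.Agent.S0906
import Cfsg.Agent.S0908
import Cfsg.Agent.S0911
import Cfsg.Agent.S0912
import Cfsg.Agent.S0917
import Cfsg.Agent.S0958

set_option autoImplicit false
open Cfsg
open Cfsg.Agent.Lib_helper3_CharBasic Cfsg.Agent.Lib_helper3_CharMore
  Cfsg.Agent.Lib_helper3_Local Cfsg.Agent.Lib_helper3_Local2 Cfsg.Agent.Lib_helper3_BlockAlg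
  Cfsg.Agent.Lib_helper3_BlockInd Cfsg.Agent.Lib_helper3_SylCard
open scoped ComplexConjugate

namespace Cfsg.Agent.Lib_helper3_FirstMain

universe u

variable {G : Type u} [Group G] [Finite G] {p : ℕ} [Fact p.Prime]

omit [Finite G] [Fact p.Prime] in
/-- The centralizer of an element of a subgroup, computed in the subgroup. -/
theorem map_centralizer_subtype (N : Subgroup G) (n : N) :
    (Subgroup.centralizer ({n} : Set N)).map N.subtype =
      Subgroup.centralizer ({(n : G)} : Set G) ⊓ N := by
  ext u
  constructor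
  · rintro ⟨c, hc, rfl⟩
    have hc' : c ∈ Subgroup.centralizer ({n} : Set N) := hc
    refine ⟨?_, c.2⟩
    show (c : G) ∈ Subgroup.centralizer ({(n : G)} : Set G)
    rw [Subgroup.mem_centralizer_singleton_iff] at hc' ⊢
    exact congrArg Subtype.val hc'
  · rintro ⟨hu1, hu2⟩
    refine ⟨⟨u, hu2⟩, ?_, rfl⟩
    have hu1' : u ∈ Subgroup.centralizer ({(n : G)} : Set G) := hu1
    show (⟨u, hu2⟩ : N) ∈ Subgroup.centralizer ({n} : Set N)
    rw [Subgroup.mem_centralizer_singleton_iff] at hu1' ⊢
    exact Subtype.ext hu1'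

omit [Finite G] [Fact p.Prime] in
theorem card_centralizer_subtype (N : Subgroup G) (n : N) :
    Nat.card (Subgroup.centralizer ({n} : Set N)) =
      Nat.card (Subgroup.centralizer ({(n : G)} : Set G) ⊓ N : Subgroup G) := by
  rw [← map_centralizer_subtype, Subgroup.card_map_of_injective N.subtype_injective]

/-- If `n ∈ N_G(D)` centralizes the `p`-subgroup `D` and the Sylow `p`-subgroups of its
centralizer in `N_G(D)` are no larger than `D`, then `D` has Sylow order in `C_G(n)`. -/
theorem card_eq_of_sylow_le (D : Subgroup G) (hD : IsPGroup p D)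
    (n : Subgroup.normalizer (D : Set G)) (hn : (n : G) ∈ Subgroup.centralizer (D : Set G))
    (Q : Sylow p (Subgroup.centralizer ({n} : Set (Subgroup.normalizer (D : Set G)))))
    (hQ : Nat.card Q ≤ Nat.card D) :
    Nat.card D = p ^ (Nat.card (Subgroup.centralizer ({(n : G)} : Set G))).factorization p := by
  have hp : p.Prime := Fact.out
  have hDC : D ≤ Subgroup.centralizer ({(n : G)} : Set G) := by
    intro u hu
    rw [Subgroup.mem_centralizer_singleton_iff]
    exact (Subgroup.mem_centralizer_iff.mp hn) u hu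
  apply card_eq_of_card_inf_normalizer _ hDC
  have hle : D ≤ Subgroup.centralizer ({(n : G)} : Set G) ⊓ Subgroup.normalizer (D : Set G) :=
    le_inf hDC Subgroup.le_normalizer
  obtain ⟨j, hj⟩ := hD.exists_card_eq
  have h1 : p ^ j ∣ Nat.card (Subgroup.centralizer ({(n : G)} : Set G) ⊓
      Subgroup.normalizer (D : Set G) : Subgroup G) := by
    rw [← hj]
    exact Subgroup.card_dvd_of_le hle
  have h2 := (hp.pow_dvd_iff_le_factorization Nat.card_pos.ne').mp h1
  have h3 : Nat.card Q = p ^ (Nat.card (Subgroup.centralizer ({(n : G)} : Set G) ⊓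
      Subgroup.normalizer (D : Set G) : Subgroup G)).factorization p := by
    rw [Sylow.card_eq_multiplicity Q, card_centralizer_subtype]
  rw [h3, hj] at hQ
  have h4 := (Nat.pow_le_pow_iff_right hp.one_lt).mp hQ
  rw [hj]
  congr 1
  omega

/-- For `n ∈ N_G(D)` centralizing `D` whose `G`-class has defect group `D`, the Brauer central
character of a class function of `N_G(D)` at `n` is its central character. -/
theorem brauerCentralChar_eq_centralChar (D : Subgroup G) (hD : IsPGroup p D)
    [Fintype (Subgroup.normalizer (D : Set G))]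
    (n₀ : Subgroup.normalizer (D : Set G)) (hn : (n₀ : G) ∈ Subgroup.centralizer (D : Set G))
    (hcard : Nat.card D =
      p ^ (Nat.card (Subgroup.centralizer ({(n₀ : G)} : Set G))).factorization p)
    {ξ : Subgroup.normalizer (D : Set G) → ℂ}
    (hξ : IsClassFunction (Subgroup.normalizer (D : Set G)) ξ) :
    brauerCentralChar D (Subgroup.normalizer (D : Set G)) ξ (n₀ : G) = centralChar ξ n₀ := by
  classical
  have hDC : D ≤ Subgroup.centralizer ({(n₀ : G)} : Set G) := by
    intro u hu
    rw [Subgroup.mem_centralizer_singleton_iff]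
    exact (Subgroup.mem_centralizer_iff.mp hn) u hu
  have hset : {n : Subgroup.normalizer (D : Set G) | IsConj (n₀ : G) (n : G) ∧
      (n : G) ∈ Subgroup.centralizer (D : Set G)} =
      {n : Subgroup.normalizer (D : Set G) | IsConj n₀ n} := by
    ext n
    constructor
    · rintro ⟨h1, h2⟩
      have hS : ∃ S : Sylow p (Subgroup.centralizer ({(n₀ : G)} : Set G)),
          (S : Subgroup (Subgroup.centralizer ({(n₀ : G)} : Set G))).map
            (Subgroup.centralizer ({(n₀ : G)} : Set G)).subtype = D := by
        refine ⟨Sylow.ofCard (D.subgroupOf (Subgroup.centralizer ({(n₀ : G)} : Set G)))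
          (by rw [Nat.card_congr (Subgroup.subgroupOfEquivOfLe hDC).toEquiv, hcard]), ?_⟩
        rw [Sylow.coe_ofCard]
        exact Subgroup.map_subgroupOf_eq_of_le hDC
      obtain ⟨m, hm, hmn⟩ := ((Cfsg.Agent.S0916.result p D hD).1 (n₀ : G) hS).2 (n₀ : G) (n : G)
        (IsConj.refl _) h1 hn h2
      exact isConj_iff.mpr ⟨⟨m, hm⟩, Subtype.ext hmn⟩
    · intro h1
      obtain ⟨k, hk⟩ := isConj_iff.mp h1
      have hk' : (k : G) * (n₀ : G) * (k : G)⁻¹ = (n : G) := by
        rw [← hk]
        rfl
      refine ⟨isConj_iff.mpr ⟨(k : G), hk'⟩, ?_⟩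
      show (n : G) ∈ Subgroup.centralizer (D : Set G)
      rw [← hk']
      exact Cfsg.Agent.Lib_helper3_BrauerHom.conj_mem_centralizer_of_mem_normalizer D k.2 hn
  unfold brauerCentralChar
  rw [hset, ← om_classInd hξ]
  unfold Om
  rw [finsum_mem_def, finsum_eq_sum_of_fintype, Finset.sum_div]
  apply Finset.sum_congr rfl
  intro n _
  unfold classInd
  by_cases hc : IsConj n₀ n
  · rw [Set.indicator_of_mem (show n ∈ {n : Subgroup.normalizer (D : Set G) | IsConj n₀ n}
      from hc), if_pos hc, one_mul]
  · rw [Set.indicator_of_notMem (show n ∉ {n : Subgroup.normalizer (D : Set G) | IsConj n₀ n}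
      from hc), if_neg hc, zero_mul, zero_div]

section Main

variable {M : Ideal AlgInt}

omit [Finite G] [Fact p.Prime] in
theorem centralizer_le_normalizer' (D : Subgroup G) :
    Subgroup.centralizer (D : Set G) ≤ Subgroup.normalizer (D : Set G) := by
  intro c hc
  rw [Subgroup.mem_normalizer_iff]
  intro u
  have h1 : ∀ v ∈ D, c * v * c⁻¹ = v := by
    intro v hv
    have h2 := (Subgroup.mem_centralizer_iff.mp hc) v hv
    rw [← h2]
    group
  constructor
  · intro hu
    rw [h1 u hu]
    exact hu
  · intro hu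
    have h3 := h1 _ hu
    have h6 : c * u * c⁻¹ = u := by
      calc c * u * c⁻¹ = c⁻¹ * (c * (c * u * c⁻¹) * c⁻¹) * c := by group
        _ = c⁻¹ * (c * u * c⁻¹) * c := by rw [h3]
        _ = u := by group
    rw [← h6]
    exact hu

/-- Brauer's first main theorem, existence of the induced block with the same defect group. -/
theorem first_main_induce (hM : IsPModular p M) (D : Subgroup G) (hD : IsPGroup p D)
    (b : Set (IrrCharacter (Subgroup.normalizer (D : Set G)))) (hb : IsPBlock M b)
    (hDb : IsDefectGroup p M b (D.subgroupOf (Subgroup.normalizer (D : Set G)))) :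
    ∃ B : Set (IrrCharacter G), IsPBlock M B ∧ IsDefectGroup p M B D ∧
      IsInducedBlock M (Subgroup.normalizer (D : Set G)) b B := by
  classical
  have := Fintype.ofFinite G
  have := Fintype.ofFinite (Subgroup.normalizer (D : Set G))
  have hp : p.Prime := Fact.out
  have hMm : M.IsMaximal := hM.2.1
  have hMp : M.IsPrime := hMm.isPrime
  have hDN : D ≤ Subgroup.normalizer (D : Set G) := Subgroup.le_normalizer
  have hCN := centralizer_le_normalizer' D
  have hb' := hb
  obtain ⟨ξ₀, hξ₀⟩ := hb
  have hξ₀b : ξ₀ ∈ b := by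
    rw [hξ₀]
    exact mem_blockOf_self hMp.ne_top ξ₀
  obtain ⟨χ₀, hχ₀⟩ := Cfsg.Agent.Lib_helper3_BrauerHom2.exists_irr_induced hM D
    (Subgroup.normalizer (D : Set G)) hD hDN hCN le_rfl ξ₀
  have hB : IsPBlock M (blockOf M (χ₀ : G → ℂ)) := ⟨χ₀, rfl⟩
  have hind : IsInducedBlock M (Subgroup.normalizer (D : Set G)) b (blockOf M (χ₀ : G → ℂ)) := by
    refine ⟨hb', hB, ?_⟩
    intro ξ hξ χ hχ g
    rw [hξ₀] at hξ
    have h1 := inducedCentralChar_congr (M := M) (isClassFunction_of_irr ξ.2)
      (isClassFunction_of_irr ξ₀.2) (sameBlock_symm hξ) g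
    have h2 := hχ₀ g
    have h3 : MemLocalIdeal M (centralChar (χ₀ : G → ℂ) g - centralChar (χ : G → ℂ) g) := hχ g
    have h4 := memLocalIdeal_add (memLocalIdeal_add h1 h2) h3
    have h5 : inducedCentralChar (Subgroup.normalizer (D : Set G))
          (ξ : Subgroup.normalizer (D : Set G) → ℂ) g -
        inducedCentralChar (Subgroup.normalizer (D : Set G))
          (ξ₀ : Subgroup.normalizer (D : Set G) → ℂ) g +
        (inducedCentralChar (Subgroup.normalizer (D : Set G))
          (ξ₀ : Subgroup.normalizer (D : Set G) → ℂ) g - centralChar (χ₀ : G → ℂ) g) +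
        (centralChar (χ₀ : G → ℂ) g - centralChar (χ : G → ℂ) g) =
        inducedCentralChar (Subgroup.normalizer (D : Set G))
          (ξ : Subgroup.normalizer (D : Set G) → ℂ) g - centralChar (χ : G → ℂ) g := by ring
    rwa [h5] at h4
  refine ⟨blockOf M (χ₀ : G → ℂ), hB, ?_, hind⟩
  obtain ⟨h, hh, Pb, hPb⟩ := hDb
  have hhC : (h : G) ∈ Subgroup.centralizer (D : Set G) := by
    rw [Subgroup.mem_centralizer_iff]
    intro u hu
    have h1 : (⟨u, hDN hu⟩ : Subgroup.normalizer (D : Set G)) ∈
        D.subgroupOf (Subgroup.normalizer (D : Set G)) := hu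
    rw [hPb] at h1
    obtain ⟨c, -, hc⟩ := Subgroup.mem_map.mp h1
    have h2 : (c : Subgroup.normalizer (D : Set G)) * h = h * (c : Subgroup.normalizer (D : Set G)) :=
      Subgroup.mem_centralizer_singleton_iff.mp c.2
    have h3 : (c : Subgroup.normalizer (D : Set G)) = ⟨u, hDN hu⟩ := hc
    rw [h3] at h2
    exact congrArg Subtype.val h2
  have hcardPb : Nat.card Pb = Nat.card D := by
    have h1 := Subgroup.card_map_of_injective (K := (Pb : Subgroup (Subgroup.centralizer
      ({h} : Set (Subgroup.normalizer (D : Set G))))))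
      (Subgroup.centralizer ({h} : Set (Subgroup.normalizer (D : Set G)))).subtype_injective
    rw [← hPb] at h1
    rw [← h1]
    exact Nat.card_congr (Subgroup.subgroupOfEquivOfLe hDN).toEquiv
  have hcard := card_eq_of_sylow_le D hD h hhC Pb hcardPb.le
  have hbr := brauerCentralChar_eq_centralChar D hD h hhC hcard (isClassFunction_of_irr ξ₀.2)
  have hnot : ¬ MemLocalIdeal M (centralChar (χ₀ : G → ℂ) (h : G)) := by
    intro hcc
    apply hh.2.2 ξ₀ hξ₀b
    rw [← hbr]
    have h1 := hχ₀ (h : G)
    have h2 := Cfsg.Agent.Lib_helper3_BrauerHom.inducedCentralChar_sub_brauerCentralChar hM D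
      (Subgroup.normalizer (D : Set G)) hD hDN le_rfl ξ₀ (h : G)
    have h3 := memLocalIdeal_sub (memLocalIdeal_add h1 hcc) h2
    have h4 : inducedCentralChar (Subgroup.normalizer (D : Set G))
          (ξ₀ : Subgroup.normalizer (D : Set G) → ℂ) (h : G) - centralChar (χ₀ : G → ℂ) (h : G) +
        centralChar (χ₀ : G → ℂ) (h : G) -
        (inducedCentralChar (Subgroup.normalizer (D : Set G))
          (ξ₀ : Subgroup.normalizer (D : Set G) → ℂ) (h : G) -
          brauerCentralChar D (Subgroup.normalizer (D : Set G))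
            (ξ₀ : Subgroup.normalizer (D : Set G) → ℂ) (h : G)) =
        brauerCentralChar D (Subgroup.normalizer (D : Set G))
            (ξ₀ : Subgroup.normalizer (D : Set G) → ℂ) (h : G) := by ring
    rwa [h4] at h3
  obtain ⟨E, hE, hDE⟩ := Cfsg.Agent.S0917.result p M hM (Subgroup.normalizer (D : Set G)) b hb'
    (blockOf M (χ₀ : G → ℂ)) hB hind _ ⟨h, hh, Pb, rfl⟩
  rw [← hPb, Subgroup.map_subgroupOf_eq_of_le hDN] at hDE
  have hE' := hE
  obtain ⟨gE, hgE, SE, hSE⟩ := hE
  obtain ⟨x, Q', hQ'⟩ := (Cfsg.Agent.S0911.result p M hM (blockOf M (χ₀ : G → ℂ)) hB gE hgE SE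
    (h : G)).2 ⟨χ₀, mem_blockOf_self hMp.ne_top χ₀, hnot⟩
  rw [← hSE] at hQ'
  have hcardE : Nat.card E ≤ Nat.card D := by
    have h1 := Subgroup.card_le_of_le hQ'
    rw [Subgroup.card_map_of_injective (MulAut.conj x).injective,
      Subgroup.card_map_of_injective (Subgroup.subtype_injective _),
      Sylow.card_eq_multiplicity Q', ← hcard] at h1
    exact h1
  have hDeq : D = E := Subgroup.eq_of_le_of_card_ge hDE hcardE
  rw [hDeq]
  exact hE'

/-- Brauer's first main theorem, existence of a Brauer correspondent. -/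
theorem first_main_exists (hM : IsPModular p M) (D : Subgroup G) (hD : IsPGroup p D)
    (B : Set (IrrCharacter G)) (hB : IsPBlock M B) (hDB : IsDefectGroup p M B D) :
    ∃ b : Set (IrrCharacter (Subgroup.normalizer (D : Set G))), IsPBlock M b ∧
      IsDefectGroup p M b (D.subgroupOf (Subgroup.normalizer (D : Set G))) ∧
      IsInducedBlock M (Subgroup.normalizer (D : Set G)) b B := by
  classical
  have hp : p.Prime := Fact.out
  have hDN : D ≤ Subgroup.normalizer (D : Set G) := Subgroup.le_normalizer
  have hCN := centralizer_le_normalizer' D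
  obtain ⟨b, hind⟩ := (Cfsg.Agent.S0958.result p M hM D (Subgroup.normalizer (D : Set G)) hD
    (sup_le hDN hCN) le_rfl B hB).mpr ⟨D, hDB, 1, by
      intro u hu
      obtain ⟨u', hu', rfl⟩ := Subgroup.mem_map.mp hu
      simpa using hu'⟩
  have hind' := hind
  obtain ⟨hb, -, hcong⟩ := hind
  refine ⟨b, hb, ?_, hind'⟩
  obtain ⟨h, hh⟩ := Cfsg.Agent.S0906.result p M hM b hb
  obtain ⟨Pb⟩ : Nonempty (Sylow p (Subgroup.centralizer
    ({h} : Set (Subgroup.normalizer (D : Set G))))) := inferInstance
  have hDb : IsDefectGroup p M b ((Pb : Subgroup (Subgroup.centralizer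
      ({h} : Set (Subgroup.normalizer (D : Set G))))).map
      (Subgroup.centralizer ({h} : Set (Subgroup.normalizer (D : Set G)))).subtype) :=
    ⟨h, hh, Pb, rfl⟩
  have hcore := Cfsg.Agent.S0912.result p M hM b hb _ hDb
  obtain ⟨E, hE, hDE⟩ := Cfsg.Agent.S0917.result p M hM (Subgroup.normalizer (D : Set G)) b hb B
    hB hind' _ hDb
  have hEcard := Cfsg.Agent.S0908.result p M hM B hB E hE
  have hDcard := Cfsg.Agent.S0908.result p M hM B hB D hDB
  have hDn : (D.subgroupOf (Subgroup.normalizer (D : Set G))).Normal :=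
    Subgroup.normal_subgroupOf_of_le_normalizer le_rfl
  have hDp' : IsPGroup p (D.subgroupOf (Subgroup.normalizer (D : Set G))) := hD.comap_subtype
  have hDcore : D.subgroupOf (Subgroup.normalizer (D : Set G)) ≤
      pCore p (Subgroup.normalizer (D : Set G)) := le_sSup ⟨hDn, hDp'⟩
  have hle : D.subgroupOf (Subgroup.normalizer (D : Set G)) ≤
      (Pb : Subgroup (Subgroup.centralizer
      ({h} : Set (Subgroup.normalizer (D : Set G))))).map
      (Subgroup.centralizer ({h} : Set (Subgroup.normalizer (D : Set G)))).subtype :=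
    hDcore.trans hcore
  have hcardle : Nat.card ((Pb : Subgroup (Subgroup.centralizer
      ({h} : Set (Subgroup.normalizer (D : Set G))))).map
      (Subgroup.centralizer ({h} : Set (Subgroup.normalizer (D : Set G)))).subtype) ≤
      Nat.card (D.subgroupOf (Subgroup.normalizer (D : Set G))) := by
    have h1 := Subgroup.card_le_of_le hDE
    rw [Subgroup.card_map_of_injective (Subgroup.subtype_injective _), hEcard, ← hDcard] at h1
    rw [Nat.card_congr (Subgroup.subgroupOfEquivOfLe hDN).toEquiv]
    exact h1
  have heq := Subgroup.eq_of_le_of_card_ge hle hcardle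
  rw [heq]
  exact hDb

/-- Brauer's first main theorem, uniqueness of the Brauer correspondent. -/
theorem first_main_unique (hM : IsPModular p M) (D : Subgroup G) (hD : IsPGroup p D)
    (B : Set (IrrCharacter G)) (b b' : Set (IrrCharacter (Subgroup.normalizer (D : Set G))))
    (hDb : IsDefectGroup p M b (D.subgroupOf (Subgroup.normalizer (D : Set G))))
    (hind : IsInducedBlock M (Subgroup.normalizer (D : Set G)) b B)
    (hind' : IsInducedBlock M (Subgroup.normalizer (D : Set G)) b' B) : b' = b := by
  classical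
  have := Fintype.ofFinite G
  have := Fintype.ofFinite (Subgroup.normalizer (D : Set G))
  have := Fintype.ofFinite (ConjClasses (Subgroup.normalizer (D : Set G)))
  have hp : p.Prime := Fact.out
  have hMm : M.IsMaximal := hM.2.1
  have hMp : M.IsPrime := hMm.isPrime
  have hDN : D ≤ Subgroup.normalizer (D : Set G) := Subgroup.le_normalizer
  obtain ⟨hb, hB, hcong⟩ := hind
  obtain ⟨hb', -, hcong'⟩ := hind'
  have hbb := hb
  obtain ⟨ξ₀, hξ₀⟩ := hb
  obtain ⟨ξ₁, hξ₁⟩ := hb'
  have hξ₀b : ξ₀ ∈ b := by
    rw [hξ₀]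
    exact mem_blockOf_self hMp.ne_top ξ₀
  have hξ₁b : ξ₁ ∈ b' := by
    rw [hξ₁]
    exact mem_blockOf_self hMp.ne_top ξ₁
  obtain ⟨χ₀, hχ₀⟩ := hB
  have hχ₀B : χ₀ ∈ B := by
    rw [hχ₀]
    exact mem_blockOf_self hMp.ne_top χ₀
  obtain ⟨h, hh, Pb, hPb⟩ := hDb
  have hcardPb : Nat.card Pb = Nat.card D := by
    have h1 := Subgroup.card_map_of_injective (K := (Pb : Subgroup (Subgroup.centralizer
      ({h} : Set (Subgroup.normalizer (D : Set G))))))
      (Subgroup.centralizer ({h} : Set (Subgroup.normalizer (D : Set G)))).subtype_injective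
    rw [← hPb] at h1
    rw [← h1]
    exact Nat.card_congr (Subgroup.subgroupOfEquivOfLe hDN).toEquiv
  have heR : ∀ n, MemLocalRing M (blockCoeff b n) := fun n => osima hbb n
  have hkey : MemLocalIdeal M (Om (ξ₀ : Subgroup.normalizer (D : Set G) → ℂ) (blockCoeff b) -
      Om (ξ₁ : Subgroup.normalizer (D : Set G) → ℂ) (blockCoeff b)) := by
    rw [om_eq_sum_conjClasses (isClassFunction_of_irr ξ₀.2) (isClassFunction_blockCoeff b),
      om_eq_sum_conjClasses (isClassFunction_of_irr ξ₁.2) (isClassFunction_blockCoeff b),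
      ← Finset.sum_sub_distrib]
    apply memLocalIdeal_sum
    intro L _
    rw [← mul_sub]
    by_cases hC : ((Quotient.out L : Subgroup.normalizer (D : Set G)) : G) ∈
        Subgroup.centralizer (D : Set G)
    · by_cases he : MemLocalIdeal M (blockCoeff b (Quotient.out L))
      · rw [mul_comm]
        exact memLocalIdeal_mul_left (memLocalRing_sub (memLocalRing_centralChar ξ₀.2 _)
          (memLocalRing_centralChar ξ₁.2 _)) he
      · apply memLocalIdeal_mul_left (heR _)
        obtain ⟨x, Q, hQ⟩ := (Cfsg.Agent.S0911.result p M hM b hbb h hh Pb (Quotient.out L)).1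
          (heR _) he
        have hQcard : Nat.card Q ≤ Nat.card D := by
          have h1 := Subgroup.card_le_of_le hQ
          rw [Subgroup.card_map_of_injective (Subgroup.subtype_injective _),
            Subgroup.card_map_of_injective (MulAut.conj x).injective,
            Subgroup.card_map_of_injective (Subgroup.subtype_injective _), hcardPb] at h1
          exact h1
        have hcard := card_eq_of_sylow_le D hD (Quotient.out L) hC Q hQcard
        have hbr₀ := brauerCentralChar_eq_centralChar D hD (Quotient.out L) hC hcard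
          (isClassFunction_of_irr ξ₀.2)
        have hbr₁ := brauerCentralChar_eq_centralChar D hD (Quotient.out L) hC hcard
          (isClassFunction_of_irr ξ₁.2)
        rw [← hbr₀, ← hbr₁]
        have h1 := Cfsg.Agent.Lib_helper3_BrauerHom.inducedCentralChar_sub_brauerCentralChar hM D
          (Subgroup.normalizer (D : Set G)) hD hDN le_rfl ξ₀
          ((Quotient.out L : Subgroup.normalizer (D : Set G)) : G)
        have h2 := Cfsg.Agent.Lib_helper3_BrauerHom.inducedCentralChar_sub_brauerCentralChar hM D
          (Subgroup.normalizer (D : Set G)) hD hDN le_rfl ξ₁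
          ((Quotient.out L : Subgroup.normalizer (D : Set G)) : G)
        have h3 := hcong ξ₀ hξ₀b χ₀ hχ₀B ((Quotient.out L : Subgroup.normalizer (D : Set G)) : G)
        have h4 := hcong' ξ₁ hξ₁b χ₀ hχ₀B ((Quotient.out L : Subgroup.normalizer (D : Set G)) : G)
        have h5 := memLocalIdeal_add (memLocalIdeal_sub (memLocalIdeal_sub h3 h1) h4) h2
        have h6 : inducedCentralChar (Subgroup.normalizer (D : Set G))
              (ξ₀ : Subgroup.normalizer (D : Set G) → ℂ)
              ((Quotient.out L : Subgroup.normalizer (D : Set G)) : G) -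
            centralChar (χ₀ : G → ℂ) ((Quotient.out L : Subgroup.normalizer (D : Set G)) : G) -
            (inducedCentralChar (Subgroup.normalizer (D : Set G))
              (ξ₀ : Subgroup.normalizer (D : Set G) → ℂ)
              ((Quotient.out L : Subgroup.normalizer (D : Set G)) : G) -
            brauerCentralChar D (Subgroup.normalizer (D : Set G))
              (ξ₀ : Subgroup.normalizer (D : Set G) → ℂ)
              ((Quotient.out L : Subgroup.normalizer (D : Set G)) : G)) -
            (inducedCentralChar (Subgroup.normalizer (D : Set G))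
              (ξ₁ : Subgroup.normalizer (D : Set G) → ℂ)
              ((Quotient.out L : Subgroup.normalizer (D : Set G)) : G) -
            centralChar (χ₀ : G → ℂ) ((Quotient.out L : Subgroup.normalizer (D : Set G)) : G)) +
            (inducedCentralChar (Subgroup.normalizer (D : Set G))
              (ξ₁ : Subgroup.normalizer (D : Set G) → ℂ)
              ((Quotient.out L : Subgroup.normalizer (D : Set G)) : G) -
            brauerCentralChar D (Subgroup.normalizer (D : Set G))
              (ξ₁ : Subgroup.normalizer (D : Set G) → ℂ)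
              ((Quotient.out L : Subgroup.normalizer (D : Set G)) : G)) =
            brauerCentralChar D (Subgroup.normalizer (D : Set G))
              (ξ₀ : Subgroup.normalizer (D : Set G) → ℂ)
              ((Quotient.out L : Subgroup.normalizer (D : Set G)) : G) -
            brauerCentralChar D (Subgroup.normalizer (D : Set G))
              (ξ₁ : Subgroup.normalizer (D : Set G) → ℂ)
              ((Quotient.out L : Subgroup.normalizer (D : Set G)) : G) := by ring
        rwa [h6] at h5
    · exact memLocalIdeal_mul_left (heR _) (memLocalIdeal_sub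
        (Cfsg.Agent.Lib_helper3_BrauerHom.centralChar_memLocalIdeal_of_not_mem_centralizer hM D
          (Subgroup.normalizer (D : Set G)) hD hDN le_rfl ξ₀ _ hC)
        (Cfsg.Agent.Lib_helper3_BrauerHom.centralChar_memLocalIdeal_of_not_mem_centralizer hM D
          (Subgroup.normalizer (D : Set G)) hD hDN le_rfl ξ₁ _ hC))
  have hξ₁mem : ξ₁ ∈ b := by
    by_contra hnot
    rw [om_blockCoeff_of_mem hξ₀b, om_blockCoeff_of_not_mem hnot, sub_zero] at hkey
    exact not_memLocalIdeal_one hkey
  rw [hξ₁, hξ₀]
  rw [hξ₀] at hξ₁mem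
  exact blockOf_eq_of_mem hξ₁mem

end Main

end Cfsg.Agent.Lib_helper3_FirstMain
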