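import Mathlib
import Cfsg.Prelude.Def_Characters
import Cfsg.Prelude.Def_Blocks
import Cfsg.Agent.Lib_helper3_FirstMain

set_option autoImplicit false
open Cfsg
open Cfsg.Agent.Lib_helper3_CharBasic Cfsg.Agent.Lib_helper3_CharMore
  Cfsg.Agent.Lib_helper3_Local Cfsg.Agent.Lib_helper3_Local2 Cfsg.Agent.Lib_helper3_BlockAlg
  Cfsg.Agent.Lib_helper3_BlockInd Cfsg.Agent.Lib_helper3_SylCard
  Cfsg.Agent.Lib_helper3_FirstMain
open scoped ComplexConjugate

namespace Cfsg.Agent.Lib_helper3_FirstMain2

universe u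

variable {G : Type u} [Group G] [Finite G] {p : ℕ} [Fact p.Prime] {M : Ideal AlgInt}

/-- A block of `H`, with `P ≤ H ≤ N_G(P)`, inducing a block of `G` with defect group `P` has
defect group `P`. -/
theorem defect_of_induced (hM : IsPModular p M) (P H : Subgroup G) (hP : IsPGroup p P)
    (hPH : P ≤ H) (hHN : H ≤ Subgroup.normalizer (P : Set G)) (B : Set (IrrCharacter G))
    (hB : IsPBlock M B) (hDB : IsDefectGroup p M B P) (b : Set (IrrCharacter H))
    (hind : IsInducedBlock M H b B) : IsDefectGroup p M b (P.subgroupOf H) := by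
  classical
  have hp : p.Prime := Fact.out
  have hind' := hind
  obtain ⟨hb, -, hcong⟩ := hind
  obtain ⟨h, hh⟩ := Cfsg.Agent.S0906.result p M hM b hb
  obtain ⟨Pb⟩ : Nonempty (Sylow p (Subgroup.centralizer ({h} : Set H))) := inferInstance
  have hDb : IsDefectGroup p M b ((Pb : Subgroup (Subgroup.centralizer ({h} : Set H))).map
      (Subgroup.centralizer ({h} : Set H)).subtype) := ⟨h, hh, Pb, rfl⟩
  have hcore := Cfsg.Agent.S0912.result p M hM b hb _ hDb
  obtain ⟨E, hE, hDE⟩ := Cfsg.Agent.S0917.result p M hM H b hb B hB hind' _ hDb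
  have hEcard := Cfsg.Agent.S0908.result p M hM B hB E hE
  have hDcard := Cfsg.Agent.S0908.result p M hM B hB P hDB
  have hDn : (P.subgroupOf H).Normal := Subgroup.normal_subgroupOf_of_le_normalizer hHN
  have hDp' : IsPGroup p (P.subgroupOf H) := hP.comap_subtype
  have hDcore : P.subgroupOf H ≤ pCore p H := le_sSup ⟨hDn, hDp'⟩
  have hle : P.subgroupOf H ≤ (Pb : Subgroup (Subgroup.centralizer ({h} : Set H))).map
      (Subgroup.centralizer ({h} : Set H)).subtype := hDcore.trans hcore
  have hcardle : Nat.card ((Pb : Subgroup (Subgroup.centralizer ({h} : Set H))).map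
      (Subgroup.centralizer ({h} : Set H)).subtype) ≤ Nat.card (P.subgroupOf H) := by
    have h1 := Subgroup.card_le_of_le hDE
    rw [Subgroup.card_map_of_injective (Subgroup.subtype_injective _), hEcard, ← hDcard] at h1
    rw [Nat.card_congr (Subgroup.subgroupOfEquivOfLe hPH).toEquiv]
    exact h1
  have heq := Subgroup.eq_of_le_of_card_ge hle hcardle
  rw [heq]
  exact hDb

/-- Extended first main theorem, existence: a block with defect group `P` is induced from a
block with defect group `P` of any `H` with `P C_G(P) ≤ H ≤ N_G(P)`. -/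
theorem exists_induced_with_defect (hM : IsPModular p M) (P H : Subgroup G) (hP : IsPGroup p P)
    (hPH : P ⊔ Subgroup.centralizer (P : Set G) ≤ H)
    (hHN : H ≤ Subgroup.normalizer (P : Set G)) (B : Set (IrrCharacter G))
    (hB : IsPBlock M B) (hDB : IsDefectGroup p M B P) :
    ∃ b : Set (IrrCharacter H), IsPBlock M b ∧ IsDefectGroup p M b (P.subgroupOf H) ∧
      IsInducedBlock M H b B := by
  obtain ⟨b, hind⟩ := (Cfsg.Agent.S0958.result p M hM P H hP hPH hHN B hB).mpr ⟨P, hDB, 1, by
      intro u hu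
      obtain ⟨u', hu', rfl⟩ := Subgroup.mem_map.mp hu
      simpa using hu'⟩
  exact ⟨b, hind.1, defect_of_induced hM P H hP (le_sup_left.trans hPH) hHN B hB hDB b hind, hind⟩

omit [Finite G] [Fact p.Prime] in
/-- A defect group is a `p`-group. -/
theorem isPGroup_of_isDefectGroup {B : Set (IrrCharacter G)} {P : Subgroup G}
    (hDB : IsDefectGroup p M B P) : IsPGroup p P := by
  obtain ⟨g, -, S, rfl⟩ := hDB
  exact S.2.map _

end Cfsg.Agent.Lib_helper3_FirstMain2
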