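import Cfsg.Statements.S0964
import Cfsg.Agent.Lib_helper3_BlockCover

set_option autoImplicit false
open Cfsg

namespace Cfsg.Agent.S0964

/-- Let N be a normal subgroup of the finite group G, B a block of G and b a block of N relative to a maximal ideal M of the algebraic integers containing the prime p. Suppose some χ ∈ B has a constituent θ ∈ b on restriction to N. Then for every χ' ∈ B and every constituent ψ of the restriction of χ' to N there are g ∈ G and θ' ∈ b with ψ n = θ' (g n g⁻¹) for all n ∈ N. -/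
theorem result {G : Type*} [Group G] [Fintype G] (p : ℕ) [Fact p.Prime] (M : Ideal Cfsg.AlgInt) (hM : Cfsg.IsPModular p M) (N : Subgroup G) [hN : N.Normal] [Fintype N] (B : Set (Cfsg.IrrCharacter G)) (hB : Cfsg.IsPBlock M B) (b : Set (Cfsg.IrrCharacter N)) (hb : Cfsg.IsPBlock M b) (χ : Cfsg.IrrCharacter G) (hχ : χ ∈ B) (θ : Cfsg.IrrCharacter N) (hθ : θ ∈ b) (hcon : Cfsg.classInner (fun n : N => (χ : G → ℂ) n) (θ : N → ℂ) ≠ 0) (χ' : Cfsg.IrrCharacter G) (hχ' : χ' ∈ B) (ψ : Cfsg.IrrCharacter N) (hψ : Cfsg.classInner (fun n : N => (χ' : G → ℂ) n) (ψ : N → ℂ) ≠ 0) : ∃ g : G, ∃ θ' ∈ b, ∀ n : N, (ψ : N → ℂ) n = (θ' : N → ℂ) ⟨g * n * g⁻¹, hN.conj_mem n n.2 g⟩ := by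
  classical
  have hMp : M.IsPrime := Cfsg.Agent.Lib_helper3_Local2.isPrime_of_modular hM
  have hS := Cfsg.Agent.Lib_helper3_BlockCover.invariant_orbClosure N b
  have hR : ∀ n : N, Cfsg.MemLocalRing M
      (Cfsg.blockCoeff (Cfsg.Agent.Lib_helper3_BlockCover.orbClosure N b) n) := fun n =>
    Cfsg.Agent.Lib_helper3_BlockAlg.osima_union
      (Cfsg.Agent.Lib_helper3_BlockCover.orbClosure_closed N
        (Cfsg.Agent.Lib_helper3_BlockCover.block_closed N hb)) n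
  have hsame : Cfsg.SameBlock M (χ : G → ℂ) (χ' : G → ℂ) := by
    obtain ⟨χ₀, rfl⟩ := hB
    exact Cfsg.Agent.Lib_helper3_BlockAlg.sameBlock_trans
      (Cfsg.Agent.Lib_helper3_BlockAlg.sameBlock_symm hχ) hχ'
  obtain ⟨θ₁, ⟨x, θ', hθ', rfl⟩, hne⟩ :=
    Cfsg.Agent.Lib_helper3_BlockCover.cover_congr N hS hR hsame
      ⟨θ, Cfsg.Agent.Lib_helper3_BlockCover.subset_orbClosure N b hθ, hcon⟩
  obtain ⟨y, hy⟩ := Cfsg.Agent.Lib_helper3_Clifford.clifford_support N χ'.2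
    (Cfsg.Agent.Lib_helper3_BlockCover.conjIrr N x θ').2 ψ.2 hne hψ
  refine ⟨x * y, θ', hθ', ?_⟩
  intro n
  have h1 : (ψ : N → ℂ) = Cfsg.Agent.Lib_helper3_CharNormal.conjFun N (x * y) (θ' : N → ℂ) := by
    rw [hy, Cfsg.Agent.Lib_helper3_BlockCover.conjIrr_coe,
      Cfsg.Agent.Lib_helper3_CharNormal.conjFun_conjFun]
  rw [h1]
  rfl
end Cfsg.Agent.S0964
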