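import Cfsg.Statements.S0971
import Cfsg.Agent.Lib_helper3_BrauerHom2
import Cfsg.Agent.Lib_helper3_BlockCover

set_option autoImplicit false
open Cfsg

namespace Cfsg.Agent.S0971

/-- Let Q be a normal p-subgroup of the finite group G, let N = Q ⊔ C_G(Q) (a normal subgroup) and let b be a block of N relative to a maximal ideal M of the algebraic integers containing p. Then b induces some block of G, and every block B of G containing a character whose restriction to N has a constituent in b is induced by b. -/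
theorem result {G : Type*} [Group G] [Fintype G] (p : ℕ) [Fact p.Prime] (M : Ideal Cfsg.AlgInt) (hM : Cfsg.IsPModular p M) (Q : Subgroup G) [Q.Normal] (hQ : IsPGroup p Q) [Fintype ↥(Q ⊔ Subgroup.centralizer (Q : Set G))] (b : Set (Cfsg.IrrCharacter ↥(Q ⊔ Subgroup.centralizer (Q : Set G)))) (hb : Cfsg.IsPBlock M b) : Cfsg.InducedBlockDefined M (Q ⊔ Subgroup.centralizer (Q : Set G)) b ∧ ∀ B : Set (Cfsg.IrrCharacter G), Cfsg.IsPBlock M B → (∃ χ ∈ B, ∃ θ ∈ b, Cfsg.classInner (fun n : ↥(Q ⊔ Subgroup.centralizer (Q : Set G)) => (χ : G → ℂ) n) (θ : ↥(Q ⊔ Subgroup.centralizer (Q : Set G)) → ℂ) ≠ 0) → Cfsg.IsInducedBlock M (Q ⊔ Subgroup.centralizer (Q : Set G)) b B := by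
  classical
  have hMm : M.IsMaximal := hM.2.1
  have hMp : M.IsPrime := hMm.isPrime
  obtain ⟨ξ₀, rfl⟩ := hb
  have hQN : Q ≤ Q ⊔ Subgroup.centralizer (Q : Set G) := le_sup_left
  have hCN : Subgroup.centralizer (Q : Set G) ≤ Q ⊔ Subgroup.centralizer (Q : Set G) :=
    le_sup_right
  have hNN : Q ⊔ Subgroup.centralizer (Q : Set G) ≤ Subgroup.normalizer (Q : Set G) := by
    rw [Subgroup.normalizer_eq_top]
    exact le_top
  have hnorm : (Q ⊔ Subgroup.centralizer (Q : Set G)).Normal := inferInstance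
  constructor
  · obtain ⟨χ₀, hχ₀⟩ := Cfsg.Agent.Lib_helper3_BrauerHom2.exists_irr_induced hM Q
      (Q ⊔ Subgroup.centralizer (Q : Set G)) hQ hQN hCN hNN ξ₀
    refine ⟨Cfsg.blockOf M (χ₀ : G → ℂ), ⟨ξ₀, rfl⟩, ⟨χ₀, rfl⟩, ?_⟩
    intro ξ hξ χ hχ g
    have h1 := Cfsg.Agent.Lib_helper3_BlockInd.inducedCentralChar_congr (M := M)
      (Cfsg.Agent.Lib_helper3_CharBasic.isClassFunction_of_irr ξ.2)
      (Cfsg.Agent.Lib_helper3_CharBasic.isClassFunction_of_irr ξ₀.2)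
      (Cfsg.Agent.Lib_helper3_BlockAlg.sameBlock_symm hξ) g
    have h2 := hχ₀ g
    have h3 : Cfsg.MemLocalIdeal M (Cfsg.centralChar (χ₀ : G → ℂ) g -
        Cfsg.centralChar (χ : G → ℂ) g) := hχ g
    have h4 := Cfsg.Agent.Lib_helper3_Local.memLocalIdeal_add
      (Cfsg.Agent.Lib_helper3_Local.memLocalIdeal_add h1 h2) h3
    have h5 : Cfsg.inducedCentralChar (Q ⊔ Subgroup.centralizer (Q : Set G)) (ξ : ↥(Q ⊔ Subgroup.centralizer (Q : Set G)) → ℂ) g -
        Cfsg.inducedCentralChar (Q ⊔ Subgroup.centralizer (Q : Set G)) (ξ₀ : ↥(Q ⊔ Subgroup.centralizer (Q : Set G)) → ℂ) g +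
        (Cfsg.inducedCentralChar (Q ⊔ Subgroup.centralizer (Q : Set G)) (ξ₀ : ↥(Q ⊔ Subgroup.centralizer (Q : Set G)) → ℂ) g -
          Cfsg.centralChar (χ₀ : G → ℂ) g) +
        (Cfsg.centralChar (χ₀ : G → ℂ) g - Cfsg.centralChar (χ : G → ℂ) g) =
        Cfsg.inducedCentralChar (Q ⊔ Subgroup.centralizer (Q : Set G)) (ξ : ↥(Q ⊔ Subgroup.centralizer (Q : Set G)) → ℂ) g -
          Cfsg.centralChar (χ : G → ℂ) g := by ring
    rwa [h5] at h4
  · rintro B ⟨χ₁, rfl⟩ ⟨χ, hχ, θ, hθ, hne⟩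
    refine ⟨⟨ξ₀, rfl⟩, ⟨χ₁, rfl⟩, ?_⟩
    intro ξ hξ χ' hχ' g
    -- the middle term
    have hmid : Cfsg.MemLocalIdeal M
        (Cfsg.inducedCentralChar (Q ⊔ Subgroup.centralizer (Q : Set G)) (θ : ↥(Q ⊔ Subgroup.centralizer (Q : Set G)) → ℂ) g -
          Cfsg.centralChar (χ : G → ℂ) g) := by
      by_cases hex : ∃ n : ↥(Q ⊔ Subgroup.centralizer (Q : Set G)), IsConj g (n : G)
      · obtain ⟨n, hn⟩ := hex
        obtain ⟨k, hk⟩ := isConj_iff.mp hn
        have e1 : Cfsg.centralChar (χ : G → ℂ) g = Cfsg.centralChar (χ : G → ℂ) (n : G) := by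
          rw [← hk, Cfsg.Agent.Lib_helper3_DefectLoc2.centralChar_conj
            (Cfsg.Agent.Lib_helper3_CharBasic.isClassFunction_of_irr χ.2)]
        have e2 : Cfsg.inducedCentralChar (Q ⊔ Subgroup.centralizer (Q : Set G)) (θ : ↥(Q ⊔ Subgroup.centralizer (Q : Set G)) → ℂ) g =
            Cfsg.inducedCentralChar (Q ⊔ Subgroup.centralizer (Q : Set G)) (θ : ↥(Q ⊔ Subgroup.centralizer (Q : Set G)) → ℂ) (n : G) := by
          unfold Cfsg.inducedCentralChar
          have hset : {h : ↥(Q ⊔ Subgroup.centralizer (Q : Set G)) | IsConj g (h : G)} =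
              {h : ↥(Q ⊔ Subgroup.centralizer (Q : Set G)) | IsConj (n : G) (h : G)} := by
            ext h
            exact ⟨fun h' => hn.symm.trans h', fun h' => hn.trans h'⟩
          rw [hset]
        rw [e1, e2, Cfsg.Agent.Lib_helper3_BlockCover.centralChar_eq_of_constituent
          (Q ⊔ Subgroup.centralizer (Q : Set G)) χ θ hne n, sub_self]
        exact Cfsg.Agent.Lib_helper3_Local.memLocalIdeal_zero hMp.ne_top
      · have e2 : Cfsg.inducedCentralChar (Q ⊔ Subgroup.centralizer (Q : Set G)) (θ : ↥(Q ⊔ Subgroup.centralizer (Q : Set G)) → ℂ) g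
            = 0 := by
          unfold Cfsg.inducedCentralChar
          have hset : {h : ↥(Q ⊔ Subgroup.centralizer (Q : Set G)) | IsConj g (h : G)} = ∅ := by
            ext h
            simp only [Set.mem_ofPred_eq, Set.mem_empty_iff_false, iff_false]
            exact fun h' => hex ⟨h, h'⟩
          rw [hset, finsum_mem_empty]
        rw [e2, zero_sub]
        apply Cfsg.Agent.Lib_helper3_Local.memLocalIdeal_neg
        apply Cfsg.Agent.Lib_helper3_Residue.centralChar_memLocalIdeal_of_avoid hM Q hQ χ.2 g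
        intro x hx hxc
        exact hex ⟨⟨x, hCN hxc⟩, hx⟩
    have hξ' : Cfsg.SameBlock M (ξ₀ : ↥(Q ⊔ Subgroup.centralizer (Q : Set G)) → ℂ)
        (ξ : ↥(Q ⊔ Subgroup.centralizer (Q : Set G)) → ℂ) := hξ
    have hθ' : Cfsg.SameBlock M (ξ₀ : ↥(Q ⊔ Subgroup.centralizer (Q : Set G)) → ℂ)
        (θ : ↥(Q ⊔ Subgroup.centralizer (Q : Set G)) → ℂ) := hθ
    have hξθ : Cfsg.SameBlock M (ξ : ↥(Q ⊔ Subgroup.centralizer (Q : Set G)) → ℂ)
        (θ : ↥(Q ⊔ Subgroup.centralizer (Q : Set G)) → ℂ) :=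
      Cfsg.Agent.Lib_helper3_BlockAlg.sameBlock_trans
        (Cfsg.Agent.Lib_helper3_BlockAlg.sameBlock_symm hξ') hθ'
    have h1 := Cfsg.Agent.Lib_helper3_BlockInd.inducedCentralChar_congr (M := M)
      (Cfsg.Agent.Lib_helper3_CharBasic.isClassFunction_of_irr ξ.2)
      (Cfsg.Agent.Lib_helper3_CharBasic.isClassFunction_of_irr θ.2) hξθ g
    have hχ1 : Cfsg.SameBlock M (χ₁ : G → ℂ) (χ : G → ℂ) := hχ
    have hχ2 : Cfsg.SameBlock M (χ₁ : G → ℂ) (χ' : G → ℂ) := hχ'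
    have hχχ' : Cfsg.SameBlock M (χ : G → ℂ) (χ' : G → ℂ) :=
      Cfsg.Agent.Lib_helper3_BlockAlg.sameBlock_trans
        (Cfsg.Agent.Lib_helper3_BlockAlg.sameBlock_symm hχ1) hχ2
    have h3 := hχχ' g
    have h4 := Cfsg.Agent.Lib_helper3_Local.memLocalIdeal_add
      (Cfsg.Agent.Lib_helper3_Local.memLocalIdeal_add h1 hmid) h3
    have h5 : Cfsg.inducedCentralChar (Q ⊔ Subgroup.centralizer (Q : Set G)) (ξ : ↥(Q ⊔ Subgroup.centralizer (Q : Set G)) → ℂ) g -
        Cfsg.inducedCentralChar (Q ⊔ Subgroup.centralizer (Q : Set G)) (θ : ↥(Q ⊔ Subgroup.centralizer (Q : Set G)) → ℂ) g +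
        (Cfsg.inducedCentralChar (Q ⊔ Subgroup.centralizer (Q : Set G)) (θ : ↥(Q ⊔ Subgroup.centralizer (Q : Set G)) → ℂ) g -
          Cfsg.centralChar (χ : G → ℂ) g) +
        (Cfsg.centralChar (χ : G → ℂ) g - Cfsg.centralChar (χ' : G → ℂ) g) =
        Cfsg.inducedCentralChar (Q ⊔ Subgroup.centralizer (Q : Set G)) (ξ : ↥(Q ⊔ Subgroup.centralizer (Q : Set G)) → ℂ) g -
          Cfsg.centralChar (χ' : G → ℂ) g := by ring
    rwa [h5] at h4
end Cfsg.Agent.S0971
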