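import Mathlib
import Cfsg.Prelude.Def_Characters
import Cfsg.Prelude.Def_Blocks
import Cfsg.Agent.Lib_helper3_FirstMain2
import Cfsg.Agent.Lib_helper3_BlockPQuot
import Cfsg.Agent.S0964
import Cfsg.Agent.S0971

set_option autoImplicit false
open Cfsg
open Cfsg.Agent.Lib_helper3_CharBasic Cfsg.Agent.Lib_helper3_CharMore
  Cfsg.Agent.Lib_helper3_Local Cfsg.Agent.Lib_helper3_Local2 Cfsg.Agent.Lib_helper3_BlockAlg
  Cfsg.Agent.Lib_helper3_BlockInd Cfsg.Agent.Lib_helper3_SylCard
  Cfsg.Agent.Lib_helper3_FirstMain Cfsg.Agent.Lib_helper3_FirstMain2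
  Cfsg.Agent.Lib_helper3_BrauerHom2 Cfsg.Agent.Lib_helper3_BrauerHom3
  Cfsg.Agent.Lib_helper3_BlockCover
open scoped ComplexConjugate

namespace Cfsg.Agent.Lib_helper3_ExtFirstMain

universe u

section Transport

variable {A B : Type u} [Group A] [Group B]

/-- Irreducible characters transport along group isomorphisms. -/
theorem isIrrCharacter_comp_equiv [Finite A] (e : A ≃* B) {θ : B → ℂ}
    (hθ : IsIrrCharacter B θ) : IsIrrCharacter A (θ ∘ e) := by
  classical
  have := Fintype.ofFinite A
  have : Finite B := Finite.of_equiv A e.toEquiv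
  have := Fintype.ofFinite B
  apply isIrrCharacter_of_inner_self_eq_one (isCharacter_comp e.toMonoidHom (isCharacter_of_irr hθ))
  have h1 := irr_inner_self hθ
  rw [classInner_def] at h1 ⊢
  rw [← h1, Nat.card_congr e.toEquiv]
  congr 1
  exact Fintype.sum_equiv e.toEquiv _ _ (fun a => rfl)

theorem index_centralizer_equiv [Finite A] (e : A ≃* B) (a : A) :
    (Subgroup.centralizer ({e a} : Set B)).index = (Subgroup.centralizer ({a} : Set A)).index := by
  have : Finite B := Finite.of_equiv A e.toEquiv
  rw [← card_isConj_eq_index, ← card_isConj_eq_index]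
  apply Nat.card_congr
  refine (Equiv.subtypeEquiv e.toEquiv (fun m => ?_)).symm
  show IsConj a m ↔ IsConj (e a) (e m)
  constructor
  · intro h
    exact (e : A →* B).map_isConj h
  · intro h
    have h1 := (e.symm : B →* A).map_isConj h
    simpa using h1

theorem centralChar_comp_equiv [Finite A] (e : A ≃* B) (θ : B → ℂ) (a : A) :
    centralChar (θ ∘ e) a = centralChar θ (e a) := by
  unfold centralChar
  rw [Function.comp_apply, Function.comp_apply, map_one, index_centralizer_equiv]

theorem sameBlock_comp_equiv [Finite A] {M : Ideal AlgInt} (e : A ≃* B) {θ₁ θ₂ : B → ℂ}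
    (h : SameBlock M θ₁ θ₂) : SameBlock M (θ₁ ∘ e) (θ₂ ∘ e) := by
  intro a
  rw [centralChar_comp_equiv, centralChar_comp_equiv]
  exact h _

end Transport

section Rep

variable {G : Type u} [Group G] [Fintype G] {M : Ideal AlgInt}

/-- Induction of blocks can be checked on representatives. -/
theorem isInducedBlock_of_rep [hMp : M.IsPrime] (H : Subgroup G) [Fintype H] (ξ : IrrCharacter H)
    (χ : IrrCharacter G)
    (h : ∀ g : G, MemLocalIdeal M (inducedCentralChar H (ξ : H → ℂ) g -
      centralChar (χ : G → ℂ) g)) :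
    IsInducedBlock M H (blockOf M (ξ : H → ℂ)) (blockOf M (χ : G → ℂ)) := by
  refine ⟨⟨ξ, rfl⟩, ⟨χ, rfl⟩, ?_⟩
  intro ξ' hξ' χ' hχ' g
  have h1 := inducedCentralChar_congr (M := M) (isClassFunction_of_irr ξ'.2)
    (isClassFunction_of_irr ξ.2) (sameBlock_symm hξ') g
  have h2 := h g
  have h3 : MemLocalIdeal M (centralChar (χ : G → ℂ) g - centralChar (χ' : G → ℂ) g) := hχ' g
  have h4 := memLocalIdeal_add (memLocalIdeal_add h1 h2) h3
  have h5 : inducedCentralChar H (ξ' : H → ℂ) g - inducedCentralChar H (ξ : H → ℂ) g +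
      (inducedCentralChar H (ξ : H → ℂ) g - centralChar (χ : G → ℂ) g) +
      (centralChar (χ : G → ℂ) g - centralChar (χ' : G → ℂ) g) =
      inducedCentralChar H (ξ' : H → ℂ) g - centralChar (χ' : G → ℂ) g := by ring
  rwa [h5] at h4

/-- Transitivity of block induction, on representatives. -/
theorem induced_trans [hMp : M.IsPrime] (K : Subgroup G) [Fintype K] (A : Subgroup K)
    [Fintype A] (L : Subgroup G) [Fintype L] (e : A ≃* L)
    (he : ∀ a : A, ((e a : L) : G) = ((a : K) : G)) (θ : L → ℂ) (ψ : K → ℂ)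
    (hψ : IsClassFunction K ψ) (χ : G → ℂ)
    (h1 : ∀ k : K, MemLocalIdeal M (inducedCentralChar A (θ ∘ e) k - centralChar ψ k))
    (h2 : ∀ g : G, MemLocalIdeal M (inducedCentralChar L θ g - centralChar χ g)) (g : G) :
    MemLocalIdeal M (inducedCentralChar K ψ g - centralChar χ g) := by
  have h3 := om_resH_sub_om (G := K) A (θ ∘ e) hψ h1 (isClassFunction_fusInd g)
    (memLocalRing_fusInd g)
  have h4 : Om (θ ∘ e) (resH A (fusInd K g)) = inducedCentralChar L θ g := by
    rw [inducedCentralChar_eq_om]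
    unfold Om
    rw [Function.comp_apply, map_one]
    congr 1
    apply Fintype.sum_equiv e.toEquiv
    intro a
    show fusInd K g (a : K) * θ (e a) = fusInd L g (e a) * θ (e a)
    congr 1
    by_cases hc : IsConj g ((a : K) : G)
    · rw [fusInd_of g hc, fusInd_of g (show IsConj g ((e a : L) : G) by rw [he]; exact hc)]
    · rw [fusInd_of_not g hc,
        fusInd_of_not g (show ¬ IsConj g ((e a : L) : G) by rw [he]; exact hc)]
  rw [h4, ← inducedCentralChar_eq_om] at h3
  have h5 := memLocalIdeal_sub (h2 g) h3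
  have h6 : inducedCentralChar L θ g - centralChar χ g -
      (inducedCentralChar L θ g - inducedCentralChar K ψ g) =
      inducedCentralChar K ψ g - centralChar χ g := by ring
  rwa [h6] at h5

end Rep

section Sub

variable {G : Type u} [Group G]

theorem centralizer_subgroupOf (P N : Subgroup G) (hPN : P ≤ N) :
    Subgroup.centralizer ((P.subgroupOf N : Subgroup N) : Set N) =
      (Subgroup.centralizer (P : Set G)).subgroupOf N := by
  ext c
  rw [Subgroup.mem_centralizer_iff, Subgroup.mem_subgroupOf, Subgroup.mem_centralizer_iff]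
  constructor
  · intro h u hu
    have h1 := h ⟨u, hPN hu⟩ hu
    exact congrArg Subtype.val h1
  · intro h q hq
    exact Subtype.ext (h (q : G) hq)

theorem sup_centralizer_subgroupOf (P N : Subgroup G) (hPN : P ≤ N)
    (hCN : Subgroup.centralizer (P : Set G) ≤ N) :
    P.subgroupOf N ⊔ Subgroup.centralizer ((P.subgroupOf N : Subgroup N) : Set N) =
      (P ⊔ Subgroup.centralizer (P : Set G)).subgroupOf N := by
  rw [centralizer_subgroupOf P N hPN, Subgroup.subgroupOf_sup hPN hCN]

end Sub

end Cfsg.Agent.Lib_helper3_ExtFirstMain
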