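import Mathlib
import Cfsg.Prelude.Def_Characters
import Cfsg.Prelude.Def_Blocks
import Cfsg.Agent.Lib_helper3_ExtFirstMain

set_option autoImplicit false
open Cfsg
open Cfsg.Agent.Lib_helper3_CharBasic Cfsg.Agent.Lib_helper3_CharMore
  Cfsg.Agent.Lib_helper3_Local Cfsg.Agent.Lib_helper3_Local2 Cfsg.Agent.Lib_helper3_BlockAlg
  Cfsg.Agent.Lib_helper3_BlockInd Cfsg.Agent.Lib_helper3_SylCard
  Cfsg.Agent.Lib_helper3_FirstMain Cfsg.Agent.Lib_helper3_FirstMain2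
  Cfsg.Agent.Lib_helper3_BrauerHom2 Cfsg.Agent.Lib_helper3_BrauerHom3
  Cfsg.Agent.Lib_helper3_BlockCover Cfsg.Agent.Lib_helper3_ExtFirstMain
open scoped ComplexConjugate

namespace Cfsg.Agent.Lib_helper3_ExtFirstMain2

universe u

variable {G : Type u} [Group G] [Fintype G] {p : ℕ} [Fact p.Prime] {M : Ideal AlgInt}

theorem induced_of_over (hM : IsPModular p M) (K : Subgroup G) [Fintype K] (Q : Subgroup K)
    [Q.Normal] (hQ : IsPGroup p Q) [Fintype ↥(Q ⊔ Subgroup.centralizer (Q : Set K))]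
    (L : Subgroup G) [Fintype L] (e : ↥(Q ⊔ Subgroup.centralizer (Q : Set K)) ≃* L)
    (he : ∀ a : ↥(Q ⊔ Subgroup.centralizer (Q : Set K)), ((e a : L) : G) = ((a : K) : G))
    (θ : IrrCharacter L) (ψ : IrrCharacter K)
    (hover : classInner (fun a : ↥(Q ⊔ Subgroup.centralizer (Q : Set K)) => (ψ : K → ℂ) a)
      ((θ : L → ℂ) ∘ e) ≠ 0) (χ : IrrCharacter G)
    (h2 : ∀ g : G, MemLocalIdeal M (inducedCentralChar L (θ : L → ℂ) g -
      centralChar (χ : G → ℂ) g)) :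
    IsInducedBlock M K (blockOf M (ψ : K → ℂ)) (blockOf M (χ : G → ℂ)) := by
  classical
  have hMm : M.IsMaximal := hM.2.1
  have hMp : M.IsPrime := hMm.isPrime
  have hMtop : M ≠ ⊤ := hMp.ne_top
  have hθt : IsIrrCharacter ↥(Q ⊔ Subgroup.centralizer (Q : Set K)) ((θ : L → ℂ) ∘ e) :=
    isIrrCharacter_comp_equiv e θ.2
  have hθtm := mem_blockOf_self hMtop
    (⟨(θ : L → ℂ) ∘ e, hθt⟩ : IrrCharacter ↥(Q ⊔ Subgroup.centralizer (Q : Set K)))
  have h971 := (Cfsg.Agent.S0971.result p M hM Q hQ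
    (blockOf M (((⟨(θ : L → ℂ) ∘ e, hθt⟩ : IrrCharacter ↥(Q ⊔ Subgroup.centralizer (Q : Set K))) :
      ↥(Q ⊔ Subgroup.centralizer (Q : Set K)) → ℂ))) ⟨⟨(θ : L → ℂ) ∘ e, hθt⟩, rfl⟩).2
    (blockOf M (ψ : K → ℂ)) ⟨ψ, rfl⟩
    ⟨ψ, mem_blockOf_self hMtop ψ, ⟨(θ : L → ℂ) ∘ e, hθt⟩, hθtm, hover⟩
  have h1 := h971.2.2 ⟨(θ : L → ℂ) ∘ e, hθt⟩ hθtm ψ (mem_blockOf_self hMtop ψ)
  apply isInducedBlock_of_rep K ψ χ
  intro g
  exact induced_trans K (Q ⊔ Subgroup.centralizer (Q : Set K)) L e he (θ : L → ℂ) (ψ : K → ℂ)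
    (isClassFunction_of_irr ψ.2) (χ : G → ℂ) h1 h2 g

/-- Abstract form of the conjugacy part of the extended first main theorem. -/
theorem conj_of_induced (hM : IsPModular p M) (K : Subgroup G) [Fintype K] (Q : Subgroup K)
    [Q.Normal] (hQ : IsPGroup p Q) [Fintype ↥(Q ⊔ Subgroup.centralizer (Q : Set K))]
    (L : Subgroup G) [Fintype L] (e : ↥(Q ⊔ Subgroup.centralizer (Q : Set K)) ≃* L)
    (he : ∀ a : ↥(Q ⊔ Subgroup.centralizer (Q : Set K)), ((e a : L) : G) = ((a : K) : G))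
    (B : Set (IrrCharacter G))
    (huniq : ∀ β β' : Set (IrrCharacter K), IsInducedBlock M K β B → IsInducedBlock M K β' B →
      β' = β)
    (b b' : Set (IrrCharacter L)) (hind : IsInducedBlock M L b B)
    (hind' : IsInducedBlock M L b' B) :
    ∃ n : K, ∀ θ ∈ b, ∃ θ' ∈ b', ∀ x y : L, (y : G) = (n : G) * (x : G) * (n : G)⁻¹ →
      (θ' : L → ℂ) x = (θ : L → ℂ) y := by
  classical
  have hMm : M.IsMaximal := hM.2.1
  have hMp : M.IsPrime := hMm.isPrime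
  have hMtop : M ≠ ⊤ := hMp.ne_top
  obtain ⟨hb, hB, hcong⟩ := hind
  obtain ⟨hb', -, hcong'⟩ := hind'
  obtain ⟨θ₀, hθ₀⟩ := hb
  obtain ⟨θ₀', hθ₀'⟩ := hb'
  obtain ⟨χ₀, hχ₀⟩ := hB
  have hθ₀b : θ₀ ∈ b := by rw [hθ₀]; exact mem_blockOf_self hMtop θ₀
  have hθ₀b' : θ₀' ∈ b' := by rw [hθ₀']; exact mem_blockOf_self hMtop θ₀'
  have hχ₀B : χ₀ ∈ B := by rw [hχ₀]; exact mem_blockOf_self hMtop χ₀
  have hθt : IsIrrCharacter ↥(Q ⊔ Subgroup.centralizer (Q : Set K)) ((θ₀ : L → ℂ) ∘ e) :=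
    isIrrCharacter_comp_equiv e θ₀.2
  have hθt' : IsIrrCharacter ↥(Q ⊔ Subgroup.centralizer (Q : Set K)) ((θ₀' : L → ℂ) ∘ e) :=
    isIrrCharacter_comp_equiv e θ₀'.2
  obtain ⟨ψ, hψ⟩ := Lib_helper3_BlockPQuot.exists_over
    (Q ⊔ Subgroup.centralizer (Q : Set K)) ⟨(θ₀ : L → ℂ) ∘ e, hθt⟩
  obtain ⟨ψ', hψ'⟩ := Lib_helper3_BlockPQuot.exists_over
    (Q ⊔ Subgroup.centralizer (Q : Set K)) ⟨(θ₀' : L → ℂ) ∘ e, hθt'⟩
  have hi := induced_of_over hM K Q hQ L e he θ₀ ψ hψ χ₀ (hcong θ₀ hθ₀b χ₀ hχ₀B)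
  have hi' := induced_of_over hM K Q hQ L e he θ₀' ψ' hψ' χ₀ (hcong' θ₀' hθ₀b' χ₀ hχ₀B)
  rw [← hχ₀] at hi hi'
  have hEq := huniq _ _ hi hi'
  have hψ'mem : ψ' ∈ blockOf M (ψ : K → ℂ) := by
    rw [← hEq]; exact mem_blockOf_self hMtop ψ'
  have hθtm := mem_blockOf_self hMtop
    (⟨(θ₀ : L → ℂ) ∘ e, hθt⟩ : IrrCharacter ↥(Q ⊔ Subgroup.centralizer (Q : Set K)))
  obtain ⟨g, θ₁, hθ₁, hval⟩ := Cfsg.Agent.S0964.result p M hM
    (Q ⊔ Subgroup.centralizer (Q : Set K)) (blockOf M (ψ : K → ℂ)) ⟨ψ, rfl⟩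
    (blockOf M ((θ₀ : L → ℂ) ∘ e)) ⟨⟨(θ₀ : L → ℂ) ∘ e, hθt⟩, rfl⟩ ψ (mem_blockOf_self hMtop ψ)
    ⟨(θ₀ : L → ℂ) ∘ e, hθt⟩ hθtm hψ ψ' hψ'mem ⟨(θ₀' : L → ℂ) ∘ e, hθt'⟩ hψ'
  refine ⟨g, ?_⟩
  intro θ hθ
  have hθe : IsIrrCharacter ↥(Q ⊔ Subgroup.centralizer (Q : Set K)) ((θ : L → ℂ) ∘ e) :=
    isIrrCharacter_comp_equiv e θ.2
  have hc : IsIrrCharacter ↥(Q ⊔ Subgroup.centralizer (Q : Set K))
      (Lib_helper3_CharNormal.conjFun (Q ⊔ Subgroup.centralizer (Q : Set K)) g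
        ((θ : L → ℂ) ∘ e)) := Lib_helper3_CharNormal.isIrrCharacter_conjFun _ g hθe
  have hc' : IsIrrCharacter L
      ((Lib_helper3_CharNormal.conjFun (Q ⊔ Subgroup.centralizer (Q : Set K)) g
        ((θ : L → ℂ) ∘ e)) ∘ e.symm) := isIrrCharacter_comp_equiv e.symm hc
  refine ⟨⟨_, hc'⟩, ?_, ?_⟩
  · rw [hθ₀']
    show SameBlock M (θ₀' : L → ℂ)
      ((Lib_helper3_CharNormal.conjFun (Q ⊔ Subgroup.centralizer (Q : Set K)) g
        ((θ : L → ℂ) ∘ e)) ∘ e.symm)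
    have h1 : (θ₀' : L → ℂ) =
        (Lib_helper3_CharNormal.conjFun (Q ⊔ Subgroup.centralizer (Q : Set K)) g
          (θ₁ : ↥(Q ⊔ Subgroup.centralizer (Q : Set K)) → ℂ)) ∘ e.symm := by
      funext x
      have h2 := hval (e.symm x)
      simp only [Function.comp_apply, MulEquiv.apply_symm_apply] at h2
      rw [h2]
      rfl
    rw [h1]
    apply sameBlock_comp_equiv e.symm
    apply sameBlock_conjFun
    have h2 : SameBlock M ((θ₀ : L → ℂ) ∘ e) ((θ : L → ℂ) ∘ e) :=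
      sameBlock_comp_equiv e (by rw [hθ₀] at hθ; exact hθ)
    exact sameBlock_trans (sameBlock_symm hθ₁) h2
  · intro x y hy
    show Lib_helper3_CharNormal.conjFun (Q ⊔ Subgroup.centralizer (Q : Set K)) g
        ((θ : L → ℂ) ∘ e) (e.symm x) = (θ : L → ℂ) y
    rw [Lib_helper3_CharNormal.conjFun_apply, Function.comp_apply]
    refine congrArg (θ : L → ℂ) (Subtype.ext ?_)
    rw [he, hy]
    have h3 := he (e.symm x)
    rw [MulEquiv.apply_symm_apply] at h3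
    rw [h3]
    rfl

/-- The conjugacy part of the extended first main theorem. -/
theorem ext_first_main_conj (hM : IsPModular p M) (P : Subgroup G) (hPp : IsPGroup p P)
    (B : Set (IrrCharacter G)) (hB : IsPBlock M B) (hP : IsDefectGroup p M B P)
    (b b' : Set (IrrCharacter ↥(P ⊔ Subgroup.centralizer (P : Set G))))
    (hind : IsInducedBlock M (P ⊔ Subgroup.centralizer (P : Set G)) b B)
    (hind' : IsInducedBlock M (P ⊔ Subgroup.centralizer (P : Set G)) b' B) :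
    ∃ n ∈ Subgroup.normalizer (P : Set G), ∀ θ ∈ b, ∃ θ' ∈ b',
      ∀ x : ↥(P ⊔ Subgroup.centralizer (P : Set G)),
      ∀ hx : n * (x : G) * n⁻¹ ∈ P ⊔ Subgroup.centralizer (P : Set G),
        (θ' : ↥(P ⊔ Subgroup.centralizer (P : Set G)) → ℂ) x =
          (θ : ↥(P ⊔ Subgroup.centralizer (P : Set G)) → ℂ) ⟨n * (x : G) * n⁻¹, hx⟩ := by
  classical
  have hPN : P ≤ Subgroup.normalizer (P : Set G) := Subgroup.le_normalizer
  have hCN := centralizer_le_normalizer' P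
  have hLN : P ⊔ Subgroup.centralizer (P : Set G) ≤ Subgroup.normalizer (P : Set G) :=
    sup_le hPN hCN
  have hQn : (P.subgroupOf (Subgroup.normalizer (P : Set G))).Normal :=
    Subgroup.normal_subgroupOf_of_le_normalizer le_rfl
  have hQp : IsPGroup p (P.subgroupOf (Subgroup.normalizer (P : Set G))) := hPp.comap_subtype
  have hA := sup_centralizer_subgroupOf P (Subgroup.normalizer (P : Set G)) hPN hCN
  have huniq : ∀ β β' : Set (IrrCharacter (Subgroup.normalizer (P : Set G))),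
      IsInducedBlock M (Subgroup.normalizer (P : Set G)) β B →
      IsInducedBlock M (Subgroup.normalizer (P : Set G)) β' B → β' = β := by
    intro β β' hβ hβ'
    exact first_main_unique hM P hPp B β β'
      (defect_of_induced hM P (Subgroup.normalizer (P : Set G)) hPp hPN le_rfl B hB hP β hβ)
      hβ hβ'
  obtain ⟨n, hn⟩ := conj_of_induced hM (Subgroup.normalizer (P : Set G))
    (P.subgroupOf (Subgroup.normalizer (P : Set G))) hQp
    (P ⊔ Subgroup.centralizer (P : Set G))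
    ((MulEquiv.subgroupCongr hA).trans (Subgroup.subgroupOfEquivOfLe hLN)) (fun a => rfl)
    B huniq b b' hind hind'
  refine ⟨(n : G), n.2, ?_⟩
  intro θ hθ
  obtain ⟨θ', hθ', h⟩ := hn θ hθ
  exact ⟨θ', hθ', fun x hx => h x ⟨_, hx⟩ rfl⟩

end Cfsg.Agent.Lib_helper3_ExtFirstMain2
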