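import Mathlib
import Cfsg.Prelude.Def_Characters
import Cfsg.Prelude.Def_Blocks
import Cfsg.Agent.Lib_helper3_DefectCard
import Cfsg.Agent.Lib_helper3_CharOdd

set_option autoImplicit false
open Cfsg
open Cfsg.Agent.Lib_helper3_CharBasic Cfsg.Agent.Lib_helper3_CharMore
  Cfsg.Agent.Lib_helper3_Local Cfsg.Agent.Lib_helper3_Local2 Cfsg.Agent.Lib_helper3_BlockAlg
  Cfsg.Agent.Lib_helper3_IdemSupp Cfsg.Agent.Lib_helper3_CharInd
  Cfsg.Agent.Lib_helper3_DefectZero Cfsg.Agent.Lib_helper3_DefectCard
open scoped ComplexConjugate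

namespace Cfsg.Agent.Lib_helper3_DefectCard2

universe u

variable {G : Type u} [Group G] [Fintype G] {M : Ideal AlgInt} {p : ℕ} [Fact p.Prime]

omit [Fact p.Prime] in
/-- A quotient of natural numbers is a local integer when the denominator is divisible by at
most the power of `p` dividing the numerator. -/
theorem memLocalRing_of_factorization_le (hM : IsPModular p M) {u v : ℕ} (hv : v ≠ 0)
    (h : v.factorization p ≤ u.factorization p) : MemLocalRing M ((u : ℂ) / (v : ℂ)) := by
  have hp := hM.1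
  have hMp : M.IsPrime := hM.2.1.isPrime
  obtain ⟨u', hu'⟩ : ∃ u' : ℕ, u' = u / p ^ u.factorization p := ⟨_, rfl⟩
  obtain ⟨v', hv'⟩ : ∃ v' : ℕ, v' = v / p ^ v.factorization p := ⟨_, rfl⟩
  have hu2 : p ^ u.factorization p * u' = u := by
    rw [hu']
    exact Nat.ordProj_mul_ordCompl_eq_self u p
  have hv2 : p ^ v.factorization p * v' = v := by
    rw [hv']
    exact Nat.ordProj_mul_ordCompl_eq_self v p
  have hv3 : ¬ p ∣ v' := by
    rw [hv']
    exact Nat.not_dvd_ordCompl hp hv
  obtain ⟨t, ht⟩ : ∃ t : ℕ, u.factorization p = v.factorization p + t :=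
    ⟨u.factorization p - v.factorization p, by omega⟩
  have hp0 : (p : ℂ) ≠ 0 := by exact_mod_cast hp.ne_zero
  have hv0 : (v' : ℂ) ≠ 0 := by
    intro h0
    have h1 : v' = 0 := by exact_mod_cast h0
    exact hv3 (by rw [h1]; exact dvd_zero p)
  have e : (u : ℂ) / (v : ℂ) = ((u' : ℂ) * (p : ℂ) ^ t / (v' : ℂ)) := by
    have hu3 : (u : ℂ) = (p : ℂ) ^ u.factorization p * (u' : ℂ) := by exact_mod_cast hu2.symm
    have hv4 : (v : ℂ) = (p : ℂ) ^ v.factorization p * (v' : ℂ) := by exact_mod_cast hv2.symm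
    rw [hu3, hv4, ht, pow_add]
    field_simp
  rw [e]
  have hnot : (v' : AlgInt) ∉ M := by
    intro h1
    apply not_memLocalIdeal_natCast hM hv3
    have h2 := memLocalIdeal_of_mem hMp.ne_top h1
    simpa using h2
  exact ⟨(u' : AlgInt) * (p : AlgInt) ^ t, (v' : AlgInt), hnot, by push_cast; rfl⟩

omit [Fact p.Prime] in
theorem not_memLocalIdeal_of_factorization_eq (hM : IsPModular p M) {u v : ℕ} (hu : u ≠ 0)
    (hv : v ≠ 0) (h : u.factorization p = v.factorization p) :
    ¬ MemLocalIdeal M ((u : ℂ) / (v : ℂ)) := by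
  have hMp : M.IsPrime := hM.2.1.isPrime
  intro h1
  have h2 := memLocalRing_of_factorization_le hM (u := v) (v := u) hu h.le
  have h3 := memLocalIdeal_mul_left h2 h1
  have hu0 : (u : ℂ) ≠ 0 := by exact_mod_cast hu
  have hv0 : (v : ℂ) ≠ 0 := by exact_mod_cast hv
  have h4 : (v : ℂ) / (u : ℂ) * ((u : ℂ) / (v : ℂ)) = 1 := by
    field_simp
  rw [h4] at h3
  exact not_memLocalIdeal_one h3

omit [Fact p.Prime] in
/-- A defect class is `p`-regular. -/
theorem not_dvd_orderOf_of_defectClass (hM : IsPModular p M) {B : Set (IrrCharacter G)}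
    (hB : IsPBlock M B) {g : G} (hg : IsDefectClass M B g) : ¬ p ∣ orderOf g := by
  have hMp : M.IsPrime := hM.2.1.isPrime
  intro hy
  apply hg.2.1
  rw [blockCoeff_eq_zero_of_singular hM (fun g => osima hB g) g hy]
  exact memLocalIdeal_zero hMp.ne_top

/-- The class size of a defect class has the same `p`-part as the degrees of the height-zero
characters of the block. -/
theorem index_factorization_eq (hM : IsPModular p M) {B : Set (IrrCharacter G)}
    (hB : IsPBlock M B) {g : G} (hg : IsDefectClass M B g) :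
    (∃ χ ∈ B, blockHeight p B (χ : G → ℂ) = 0) ∧ ∀ χ ∈ B, blockHeight p B (χ : G → ℂ) = 0 →
      (charDegree (χ : G → ℂ)).factorization p =
        (Subgroup.centralizer ({g} : Set G)).index.factorization p := by
  classical
  have hp : p.Prime := Fact.out
  have hMp : M.IsPrime := hM.2.1.isPrime
  have hcd := card_defect hM hB hg
  obtain ⟨χ₀, hχ₀⟩ := hB
  have hχ₀B : χ₀ ∈ B := by
    rw [hχ₀]
    exact mem_blockOf_self hMp.ne_top χ₀
  obtain ⟨S, hS⟩ : ∃ S : Set ℕ, S = (fun χ : IrrCharacter G =>
      (charDegree (χ : G → ℂ)).factorization p) '' B := ⟨_, rfl⟩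
  have hSne : S.Nonempty := by
    rw [hS]
    exact ⟨_, χ₀, hχ₀B, rfl⟩
  have hmem := Nat.sInf_mem hSne
  obtain ⟨s, hs⟩ : ∃ s : ℕ, s = sInf S := ⟨_, rfl⟩
  have hle : ∀ χ ∈ B, s ≤ (charDegree (χ : G → ℂ)).factorization p := by
    intro χ hχ
    rw [hs]
    apply Nat.sInf_le
    rw [hS]
    exact ⟨χ, hχ, rfl⟩
  rw [← hs] at hmem
  rw [hS] at hmem
  obtain ⟨χ₁, hχ₁B, hχ₁⟩ := hmem
  replace hχ₁ : (charDegree (χ₁ : G → ℂ)).factorization p = s := hχ₁
  have hidx : (Subgroup.centralizer ({g} : Set G)).index *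
      Nat.card (Subgroup.centralizer ({g} : Set G)) = Nat.card G := Subgroup.index_mul_card _
  have hidx0 : (Subgroup.centralizer ({g} : Set G)).index ≠ 0 := Subgroup.index_ne_zero_of_finite
  have hC0 : Nat.card (Subgroup.centralizer ({g} : Set G)) ≠ 0 := Nat.card_pos.ne'
  have hfact : (Nat.card G).factorization p =
      (Subgroup.centralizer ({g} : Set G)).index.factorization p +
        (Nat.card (Subgroup.centralizer ({g} : Set G))).factorization p := by
    rw [← hidx, Nat.factorization_mul hidx0 hC0]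
    rfl
  have hsa : s ≤ (Nat.card G).factorization p := by
    obtain ⟨d₁, hd₁⟩ := isCharacter_apply_one (isCharacter_of_irr χ₁.2)
    have hd₁' : charDegree (χ₁ : G → ℂ) = d₁ := charDegree_eq hd₁
    have hd₁0 : d₁ ≠ 0 := by
      rintro rfl
      exact irr_apply_one_ne_zero χ₁.2 (by rw [hd₁]; simp)
    have hdvd : d₁ ∣ Nat.card G := Cfsg.Agent.Lib_helper3_CharOdd.irr_degree_dvd_card χ₁.2 hd₁
    rw [← hχ₁, hd₁']
    exact (Nat.factorization_le_iff_dvd hd₁0 Nat.card_pos.ne').mpr hdvd p
  have hbd : blockDefect p B = (Nat.card G).factorization p - s := by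
    unfold blockDefect
    rw [← hS, ← hs]
  have hκ : (Subgroup.centralizer ({g} : Set G)).index.factorization p = s := by
    rw [hbd] at hcd
    omega
  have hbh : ∀ χ : IrrCharacter G, blockHeight p B (χ : G → ℂ) =
      (charDegree (χ : G → ℂ)).factorization p - s := by
    intro χ
    unfold blockHeight
    rw [← hS, ← hs]
  constructor
  · refine ⟨χ₁, hχ₁B, ?_⟩
    rw [hbh, hχ₁, Nat.sub_self]
  · intro χ hχ h0
    rw [hbh] at h0
    have h1 := hle χ hχ
    rw [hκ]
    omega

omit [Fintype G] [Fact p.Prime] in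
/-- The centralizer of a product of commuting elements of coprime orders lies in the
centralizer of the second factor. -/
theorem centralizer_mul_le {x y : G} (hxy : x * y = y * x) (hx : ∃ k : ℕ, orderOf x = p ^ k)
    (hp : p.Prime) (hy : ¬ p ∣ orderOf y) :
    Subgroup.centralizer ({x * y} : Set G) ≤ Subgroup.centralizer ({y} : Set G) := by
  obtain ⟨k, hk⟩ := hx
  have hcomm : Commute x y := hxy
  have hcop : (p ^ k).Coprime (orderOf y) :=
    Nat.Coprime.pow_left k ((Nat.Prime.coprime_iff_not_dvd hp).mpr hy)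
  obtain ⟨j, hj⟩ := exists_pow_eq_self_of_coprime hcop
  have h1 : (x * y) ^ (p ^ k) = y ^ (p ^ k) := by
    rw [hcomm.mul_pow, ← hk, pow_orderOf_eq_one, one_mul]
  intro c hc
  rw [Subgroup.mem_centralizer_singleton_iff] at hc ⊢
  have h2 : Commute c (x * y) := hc
  have h3 : Commute c (((x * y) ^ (p ^ k)) ^ j) := (h2.pow_right _).pow_right _
  rw [h1, hj] at h3
  exact h3

/-- Height-zero characters do not vanish modulo the local ideal on `x y` for `y` a defect class
representative and `x` a commuting `p`-element. -/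
theorem height_zero_not_mem (hM : IsPModular p M) {B : Set (IrrCharacter G)}
    (hB : IsPBlock M B) {y : G} (hy : IsDefectClass M B y) (x : G) (hxy : x * y = y * x)
    (hx : ∃ k : ℕ, orderOf x = p ^ k) (χ : IrrCharacter G) (hχ : χ ∈ B)
    (h0 : blockHeight p B (χ : G → ℂ) = 0) : ¬ MemLocalIdeal M ((χ : G → ℂ) (x * y)) := by
  have hp : p.Prime := Fact.out
  have hMp : M.IsPrime := hM.2.1.isPrime
  have hreg := not_dvd_orderOf_of_defectClass hM hB hy
  have hκ := (index_factorization_eq hM hB hy).2 χ hχ h0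
  obtain ⟨d, hd⟩ := isCharacter_apply_one (isCharacter_of_irr χ.2)
  have hd' : charDegree (χ : G → ℂ) = d := charDegree_eq hd
  have hd0 : d ≠ 0 := by
    rintro rfl
    exact irr_apply_one_ne_zero χ.2 (by rw [hd]; simp)
  rw [hd'] at hκ
  have h1 : ¬ MemLocalIdeal M ((χ : G → ℂ) y) := by
    intro h2
    apply hy.2.2 χ hχ
    unfold centralChar
    rw [hd]
    have h3 := memLocalIdeal_mul_left
      (memLocalRing_of_factorization_le hM (u := (Subgroup.centralizer ({y} : Set G)).index)
        hd0 hκ.le) h2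
    have e : ((Subgroup.centralizer ({y} : Set G)).index : ℂ) * (χ : G → ℂ) y / (d : ℂ) =
        ((Subgroup.centralizer ({y} : Set G)).index : ℂ) / (d : ℂ) * (χ : G → ℂ) y := by ring
    rw [e]
    exact h3
  have hpp : IsPPart p (x * y) x := ⟨y, rfl, hxy, hx, hreg⟩
  obtain ⟨w, hwM, hw⟩ := char_sub_reg_mem hM (isCharacter_of_irr χ.2) hpp
  rw [inv_mul_cancel_left] at hw
  intro h2
  apply h1
  have h3 : (χ : G → ℂ) y = (χ : G → ℂ) (x * y) - (w : ℂ) := by
    rw [hw]
    ring
  rw [h3]
  exact memLocalIdeal_sub h2 (memLocalIdeal_of_mem hMp.ne_top hwM)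

/-- The central characters of a block do not vanish modulo the local ideal at `x y` for `y` a
defect class representative and `x` central in a Sylow `p`-subgroup of the centralizer of
`y`. -/
theorem centralChar_not_mem (hM : IsPModular p M) {B : Set (IrrCharacter G)}
    (hB : IsPBlock M B) {y : G} (hy : IsDefectClass M B y) (x : G) (hxy : x * y = y * x)
    (hx : ∃ k : ℕ, orderOf x = p ^ k) (Q : Subgroup G)
    (hQ : Q ≤ Subgroup.centralizer ({y} : Set G))
    (hQcard : Nat.card Q = p ^ (Nat.card (Subgroup.centralizer ({y} : Set G))).factorization p)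
    (hxQ : ∀ w ∈ Q, x * w = w * x) (χ : IrrCharacter G) (hχ : χ ∈ B) :
    ¬ MemLocalIdeal M (centralChar (χ : G → ℂ) (x * y)) := by
  have hp : p.Prime := Fact.out
  have hMp : M.IsPrime := hM.2.1.isPrime
  have hreg := not_dvd_orderOf_of_defectClass hM hB hy
  obtain ⟨⟨χ₁, hχ₁B, hχ₁0⟩, hall⟩ := index_factorization_eq hM hB hy
  have hκ := hall χ₁ hχ₁B hχ₁0
  have h1 := height_zero_not_mem hM hB hy x hxy hx χ₁ hχ₁B hχ₁0
  obtain ⟨d, hd⟩ := isCharacter_apply_one (isCharacter_of_irr χ₁.2)
  have hd' : charDegree (χ₁ : G → ℂ) = d := charDegree_eq hd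
  have hd0 : d ≠ 0 := by
    rintro rfl
    exact irr_apply_one_ne_zero χ₁.2 (by rw [hd]; simp)
  rw [hd'] at hκ
  -- the `p`-part of the class size of `x y`
  have hle : Subgroup.centralizer ({x * y} : Set G) ≤ Subgroup.centralizer ({y} : Set G) :=
    centralizer_mul_le hxy hx hp hreg
  have hQle : Q ≤ Subgroup.centralizer ({x * y} : Set G) := by
    intro w hw
    rw [Subgroup.mem_centralizer_singleton_iff]
    have h2 : w * y = y * w := Subgroup.mem_centralizer_singleton_iff.mp (hQ hw)
    have h3 := hxQ w hw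
    calc w * (x * y) = (w * x) * y := by group
      _ = (x * w) * y := by rw [h3]
      _ = x * (w * y) := by group
      _ = x * (y * w) := by rw [h2]
      _ = x * y * w := by group
  have hC0 : Nat.card (Subgroup.centralizer ({y} : Set G)) ≠ 0 := Nat.card_pos.ne'
  have hC0' : Nat.card (Subgroup.centralizer ({x * y} : Set G)) ≠ 0 := Nat.card_pos.ne'
  have hf1 : (Nat.card (Subgroup.centralizer ({x * y} : Set G))).factorization p ≤
      (Nat.card (Subgroup.centralizer ({y} : Set G))).factorization p :=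
    (Nat.factorization_le_iff_dvd hC0' hC0).mpr (Subgroup.card_dvd_of_le hle) p
  have hf2 : (Nat.card (Subgroup.centralizer ({y} : Set G))).factorization p ≤
      (Nat.card (Subgroup.centralizer ({x * y} : Set G))).factorization p := by
    have h2 : Nat.card Q ∣ Nat.card (Subgroup.centralizer ({x * y} : Set G)) :=
      Subgroup.card_dvd_of_le hQle
    rw [hQcard] at h2
    have h3 := (Nat.factorization_le_iff_dvd (pow_pos hp.pos _).ne' hC0').mpr h2 p
    rw [hp.factorization_pow] at h3
    simpa using h3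
  have hidx := Subgroup.index_mul_card (Subgroup.centralizer ({y} : Set G))
  have hidx' := Subgroup.index_mul_card (Subgroup.centralizer ({x * y} : Set G))
  have hi0 : (Subgroup.centralizer ({y} : Set G)).index ≠ 0 := Subgroup.index_ne_zero_of_finite
  have hi0' : (Subgroup.centralizer ({x * y} : Set G)).index ≠ 0 :=
    Subgroup.index_ne_zero_of_finite
  have hfa : (Nat.card G).factorization p =
      (Subgroup.centralizer ({y} : Set G)).index.factorization p +
        (Nat.card (Subgroup.centralizer ({y} : Set G))).factorization p := by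
    rw [← hidx, Nat.factorization_mul hi0 hC0]
    rfl
  have hfa' : (Nat.card G).factorization p =
      (Subgroup.centralizer ({x * y} : Set G)).index.factorization p +
        (Nat.card (Subgroup.centralizer ({x * y} : Set G))).factorization p := by
    rw [← hidx', Nat.factorization_mul hi0' hC0']
    rfl
  have hκ' : (Subgroup.centralizer ({x * y} : Set G)).index.factorization p =
      d.factorization p := by
    omega
  have h2 : ¬ MemLocalIdeal M (centralChar (χ₁ : G → ℂ) (x * y)) := by
    unfold centralChar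
    rw [hd]
    have e : ((Subgroup.centralizer ({x * y} : Set G)).index : ℂ) * (χ₁ : G → ℂ) (x * y) /
        (d : ℂ) = ((Subgroup.centralizer ({x * y} : Set G)).index : ℂ) / (d : ℂ) *
        (χ₁ : G → ℂ) (x * y) := by ring
    rw [e]
    apply not_memLocalIdeal_mul (memLocalRing_of_factorization_le hM hd0 hκ'.ge)
      (not_memLocalIdeal_of_factorization_eq hM hi0' hd0 hκ') _ h1
    exact memLocalRing_of_algInt hMp.ne_top
      (Cfsg.Agent.Lib_helper3_CharDiag.isCharacter_isIntegral (isCharacter_of_irr χ₁.2) _)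
  obtain ⟨χ₀, rfl⟩ := hB
  have hs : SameBlock M (χ : G → ℂ) (χ₁ : G → ℂ) :=
    sameBlock_trans (sameBlock_symm hχ) hχ₁B
  exact not_memLocalIdeal_of_sub (hs (x * y)) h2

end Cfsg.Agent.Lib_helper3_DefectCard2
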