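import Cfsg.Statements.S0961
import Cfsg.Agent.Lib_helper3_PReg
import Cfsg.Agent.S0164

set_option autoImplicit false
open Cfsg

namespace Cfsg.Agent.S0961

/-- Let χ be an irreducible character of the finite group G and let p ^ a be the largest power of the prime p dividing the order of G. Then the function equal to p ^ a * χ x at elements x of order prime to p and to 0 elsewhere is a generalized character (a difference of characters). -/
theorem result {G : Type*} [Group G] [Finite G] (p : ℕ) [Fact p.Prime] (χ : Cfsg.IrrCharacter G) : Cfsg.IsGeneralizedCharacter G (fun x : G => if p ∣ orderOf x then 0 else ((p ^ (Nat.card G).factorization p : ℕ) : ℂ) * (χ : G → ℂ) x) := by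
  classical
  have hp : p.Prime := Fact.out
  have hG0 : Nat.card G ≠ 0 := Nat.card_pos.ne'
  apply Cfsg.Agent.S0164.result
  · intro g h
    show (if p ∣ orderOf (h * g * h⁻¹) then 0 else
      ((p ^ (Nat.card G).factorization p : ℕ) : ℂ) * (χ : G → ℂ) (h * g * h⁻¹)) =
      (if p ∣ orderOf g then 0 else ((p ^ (Nat.card G).factorization p : ℕ) : ℂ) * (χ : G → ℂ) g)
    rw [Cfsg.Agent.Lib_helper3_PReg.orderOf_conj_eq,
      Cfsg.Agent.Lib_helper3_CharBasic.isClassFunction_of_irr χ.2 g h]
  · intro E q hq hE
    have := Fintype.ofFinite E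
    apply Cfsg.Agent.Lib_helper3_GenChar.isGen_of_char
    have hcard : Nat.card E ∣ p ^ (Nat.card G).factorization p *
        (Nat.card G / p ^ (Nat.card G).factorization p) := by
      rw [Nat.ordProj_mul_ordCompl_eq_self]
      exact Subgroup.card_subgroup_dvd_card E
    have h := Cfsg.Agent.Lib_helper3_PReg.isCharacter_preg hq hE hp
      (Nat.not_dvd_ordCompl hp hG0) hcard
      (Cfsg.Agent.Lib_helper3_CharBasic.isCharacter_restrict E
        (Cfsg.Agent.Lib_helper3_CharBasic.isCharacter_of_irr χ.2))
    have heq : (fun e : E => (fun x : G => if p ∣ orderOf x then 0 else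
        ((p ^ (Nat.card G).factorization p : ℕ) : ℂ) * (χ : G → ℂ) x) e) =
        (fun e : E => if p ∣ orderOf e then 0 else
          ((p ^ (Nat.card G).factorization p : ℕ) : ℂ) * (χ : G → ℂ) e) := by
      funext e
      show (if p ∣ orderOf (e : G) then 0 else _) = _
      rw [Subgroup.orderOf_coe]
    rw [heq]
    exact h
end Cfsg.Agent.S0961
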