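import Mathlib
import Cfsg.Prelude.Def_Characters
import Cfsg.Prelude.Def_Blocks
import Cfsg.Prelude.Def_BlockRank
import Cfsg.Agent.Lib_helper3_BrauerHom2
import Cfsg.Agent.Lib_helper3_DefectCard2
import Cfsg.Agent.Lib_helper3_DefectZero
import Cfsg.Agent.Lib_helper3_BlockOrth
import Cfsg.Agent.Lib_helper3_CharInd
import Cfsg.Agent.Lib_helper3_CharDiag
import Cfsg.Agent.S0961

set_option autoImplicit false
open Cfsg
open Cfsg.Agent.Lib_helper3_CharBasic Cfsg.Agent.Lib_helper3_CharMore
  Cfsg.Agent.Lib_helper3_Local Cfsg.Agent.Lib_helper3_Local2 Cfsg.Agent.Lib_helper3_BlockAlg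
  Cfsg.Agent.Lib_helper3_Residue Cfsg.Agent.Lib_helper3_BrauerHom2
  Cfsg.Agent.Lib_helper3_DefectCard2 Cfsg.Agent.Lib_helper3_CharInd
  Cfsg.Agent.Lib_helper3_BlockOrth Cfsg.Agent.Lib_helper3_DefectZero
  Cfsg.Agent.Lib_helper3_CharDiag
open scoped ComplexConjugate

namespace Cfsg.Agent.Lib_helper3_RegSpan

universe u

variable {G : Type u} [Group G] [Fintype G] {M : Ideal AlgInt} {p : ℕ}

/-- An integer in the local ideal is divisible by `p`. -/
theorem int_dvd_of_memLocalIdeal (hM : IsPModular p M) {n : ℤ} (h : MemLocalIdeal M (n : ℂ)) :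
    (p : ℤ) ∣ n := by
  have hMp : M.IsPrime := isPrime_of_modular hM
  obtain ⟨k, hk | hk⟩ := Int.eq_nat_or_neg n
  · subst hk
    by_contra hnot
    have h1 : ¬ p ∣ k := fun hd => hnot (Int.natCast_dvd_natCast.mpr hd)
    apply not_memLocalIdeal_natCast hM h1
    have h4 : ((k : ℤ) : ℂ) = (k : ℂ) := by push_cast; rfl
    rw [← h4]
    exact h
  · subst hk
    by_contra hnot
    have h1 : ¬ p ∣ k := fun hd => hnot ((dvd_neg).mpr (Int.natCast_dvd_natCast.mpr hd))
    apply not_memLocalIdeal_natCast hM h1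
    have h4 : ((-(k : ℤ) : ℤ) : ℂ) = -(k : ℂ) := by push_cast; rfl
    rw [h4] at h
    have h5 := memLocalIdeal_neg h
    rw [neg_neg] at h5
    exact h5

/-- A local integer of the form `n / p ^ k` with `n` an integer is an integer. -/
theorem int_dvd_of_memLocalRing (hM : IsPModular p M) (k : ℕ) :
    ∀ n : ℤ, MemLocalRing M ((n : ℂ) / (p : ℂ) ^ k) → (p : ℤ) ^ k ∣ n := by
  have hMp : M.IsPrime := isPrime_of_modular hM
  have hp : p.Prime := hM.1
  have hp0 : (p : ℂ) ≠ 0 := by exact_mod_cast hp.ne_zero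
  induction k with
  | zero => intro n _; simp
  | succ k ih =>
    intro n h
    have h1 : MemLocalIdeal M (n : ℂ) := by
      have h2 : (n : ℂ) = ((n : ℂ) / (p : ℂ) ^ (k + 1)) * ((p : ℂ) ^ (k + 1)) := by
        field_simp
      rw [h2]
      apply memLocalIdeal_mul_left h
      have h3 : ((p : ℂ) ^ (k + 1)) = ((p ^ (k + 1) : ℕ) : ℂ) := by
        push_cast
        rfl
      rw [h3]
      exact memLocalIdeal_natCast hM (dvd_pow_self p (Nat.succ_ne_zero k))
    obtain ⟨m, rfl⟩ := int_dvd_of_memLocalIdeal hM h1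
    have h2 : MemLocalRing M ((m : ℂ) / (p : ℂ) ^ k) := by
      have h3 : ((m : ℂ) / (p : ℂ) ^ k) = (((p : ℤ) * m : ℤ) : ℂ) / (p : ℂ) ^ (k + 1) := by
        push_cast
        field_simp
        ring
      rw [h3]
      exact h
    obtain ⟨c, rfl⟩ := ih m h2
    exact ⟨c, by ring⟩

omit [Fintype G] in
/-- Unfolding of the restriction to the `p`-regular elements. -/
theorem pRegularPart_apply (p : ℕ) (χ : G → ℂ) (g : G) [Decidable (p ∣ orderOf g)] :
    pRegularPart p χ g = if p ∣ orderOf g then 0 else χ g := by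
  unfold pRegularPart
  by_cases hx : p ∣ orderOf g
  · rw [if_pos hx, if_neg (fun h : IsPRegular p g => h hx)]
  · rw [if_neg hx, if_pos (show IsPRegular p g from hx)]

/-- `p ^ d` times the inner product on `p`-regular elements of two characters, the first in a
block of defect `d`, is an integer, and vanishes when the second is outside the block. -/
theorem regInner_int [Fact p.Prime] (hM : IsPModular p M) {B : Set (IrrCharacter G)}
    (hB : IsPBlock M B) (ψ : IrrCharacter G) (hψ : ψ ∈ B) (φ : IrrCharacter G) :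
    ∃ c : ℤ, classInner (fun x => (p : ℂ) ^ blockDefect p B * pRegularPart p (ψ : G → ℂ) x)
      (φ : G → ℂ) = c ∧ (φ ∉ B → c = 0) := by
  classical
  have hp : p.Prime := hM.1
  have hMp : M.IsPrime := isPrime_of_modular hM
  have hp0 : (p : ℂ) ≠ 0 := by exact_mod_cast hp.ne_zero
  have hG0 := card_ne_zero (G := G)
  obtain ⟨a, ha⟩ : ∃ a : ℕ, a = (Nat.card G).factorization p := ⟨_, rfl⟩
  obtain ⟨d, hd⟩ : ∃ d : ℕ, d = blockDefect p B := ⟨_, rfl⟩
  obtain ⟨nψ, hnpos, hn⟩ := irr_apply_one_pos ψ.2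
  have hdeg : charDegree (ψ : G → ℂ) = nψ := charDegree_eq hn
  have hda : d ≤ a := by
    rw [hd, ha]
    unfold blockDefect
    exact Nat.sub_le _ _
  have had : a ≤ d + nψ.factorization p := by
    have h1 : sInf ((fun χ : IrrCharacter G => (charDegree (χ : G → ℂ)).factorization p) '' B) ≤
        nψ.factorization p := by
      apply Nat.sInf_le
      exact ⟨ψ, hψ, by show (charDegree (ψ : G → ℂ)).factorization p = _; rw [hdeg]⟩
    rw [hd, ha]
    unfold blockDefect
    omega
  obtain ⟨F, hF⟩ : ∃ F : G → ℂ, F = fun x => (p : ℂ) ^ d * pRegularPart p (ψ : G → ℂ) x :=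
    ⟨_, rfl⟩
  obtain ⟨F0, hF0⟩ : ∃ F0 : G → ℂ, F0 = fun x : G => if p ∣ orderOf x then (0 : ℂ) else
      ((p ^ (Nat.card G).factorization p : ℕ) : ℂ) * (ψ : G → ℂ) x := ⟨_, rfl⟩
  have hF0F : F0 = ((p : ℂ) ^ (a - d)) • F := by
    rw [hF0, hF]
    funext x
    simp only [Pi.smul_apply, smul_eq_mul, pRegularPart_apply]
    by_cases hx : p ∣ orderOf x
    · simp [hx]
    · rw [if_neg hx, if_neg hx, ← ha]
      have h1 : p ^ a = p ^ (a - d) * p ^ d := by
        rw [← pow_add]
        congr 1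
        omega
      rw [h1]
      push_cast
      ring
  have hgen : IsGeneralizedCharacter G F0 := by
    rw [hF0]
    exact Cfsg.Agent.S0961.result p ψ
  obtain ⟨α, β, hα, hβ, hαβ⟩ := hgen
  obtain ⟨n0, hn0⟩ : ∃ n : ℤ, classInner F0 (φ : G → ℂ) = (n : ℂ) := by
    obtain ⟨n₁, h₁⟩ := classInner_nat hα (isCharacter_of_irr φ.2)
    obtain ⟨n₂, h₂⟩ := classInner_nat hβ (isCharacter_of_irr φ.2)
    refine ⟨(n₁ : ℤ) - n₂, ?_⟩
    rw [hαβ, classInner_sub_left, h₁, h₂]
    push_cast
    ring
  rw [hF0F, classInner_smul_left] at hn0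
  -- the local integrality
  obtain ⟨f, hf⟩ : ∃ f : G → ℂ, f = fun g => if p ∣ orderOf g then 0 else conj ((φ : G → ℂ) g) :=
    ⟨_, rfl⟩
  have hfcl : IsClassFunction G f := by
    intro g k
    rw [hf]
    have h1 : orderOf (k * g * k⁻¹) = orderOf g := by
      have := orderOf_injective (MulAut.conj k).toMonoidHom (MulAut.conj k).injective g
      simpa using this
    show (if p ∣ orderOf (k * g * k⁻¹) then 0 else conj ((φ : G → ℂ) (k * g * k⁻¹))) =
      if p ∣ orderOf g then 0 else conj ((φ : G → ℂ) g)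
    rw [h1, isClassFunction_of_irr φ.2 g k]
  have hfloc : ∀ g, MemLocalRing M (f g) := by
    intro g
    rw [hf]
    show MemLocalRing M (if p ∣ orderOf g then 0 else conj ((φ : G → ℂ) g))
    split_ifs
    · exact memLocalRing_zero hMp.ne_top
    · rw [← isCharacter_inv (isCharacter_of_irr φ.2)]
      exact memLocalRing_of_algInt hMp.ne_top (isCharacter_isIntegral (isCharacter_of_irr φ.2) _)
  have hom := memLocalRing_om (M := M) ψ.2 hfcl hfloc
  have hcoef : MemLocalRing M (((p ^ d * nψ : ℕ) : ℂ) / ((Nat.card G : ℕ) : ℂ)) := by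
    apply memLocalRing_of_factorization_le hM Nat.card_pos.ne'
    rw [Nat.factorization_mul (pow_ne_zero _ hp.ne_zero) hnpos.ne', Nat.factorization_pow]
    simp only [Finsupp.coe_add, Finsupp.coe_smul, Pi.add_apply, Pi.smul_apply, smul_eq_mul,
      hp.factorization_self, mul_one]
    rw [← ha]
    exact had
  have hinner : classInner F (φ : G → ℂ) =
      (((p ^ d * nψ : ℕ) : ℂ) / ((Nat.card G : ℕ) : ℂ)) * Om (ψ : G → ℂ) f := by
    rw [classInner_def]
    unfold Om
    rw [hn]
    have hnψ0 : (nψ : ℂ) ≠ 0 := by exact_mod_cast hnpos.ne'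
    have h1 : ∑ g : G, F g * conj ((φ : G → ℂ) g) =
        (p : ℂ) ^ d * ∑ g : G, f g * (ψ : G → ℂ) g := by
      rw [Finset.mul_sum]
      apply Finset.sum_congr rfl
      intro g _
      rw [hF, hf]
      simp only [pRegularPart_apply]
      by_cases hx : p ∣ orderOf g
      · simp [hx]
      · rw [if_neg hx, if_neg hx]
        ring
    rw [h1]
    push_cast
    field_simp
  have hloc : MemLocalRing M (classInner F (φ : G → ℂ)) := by
    rw [hinner]
    exact memLocalRing_mul hcoef hom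
  have hpk0 : ((p : ℂ) ^ (a - d)) ≠ 0 := pow_ne_zero _ hp0
  have hval : classInner F (φ : G → ℂ) = (n0 : ℂ) / (p : ℂ) ^ (a - d) := by
    rw [← hn0]
    field_simp
  rw [hval] at hloc
  obtain ⟨c, rfl⟩ := int_dvd_of_memLocalRing hM (a - d) n0 hloc
  have hval2 : classInner F (φ : G → ℂ) = (c : ℂ) := by
    rw [hval]
    push_cast
    field_simp
  rw [← hd, ← hF]
  refine ⟨c, hval2, ?_⟩
  intro hφ
  have h0 : classInner F (φ : G → ℂ) = 0 := by
    rw [classInner_def, hF]
    have key := orth_regular hM (A := B) (fun g => osima hB g) hψ hφ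
    have h1 : ∑ g : G, ((p : ℂ) ^ d * pRegularPart p (ψ : G → ℂ) g) * conj ((φ : G → ℂ) g) =
        (p : ℂ) ^ d *
          ∑ x : G, (if p ∣ orderOf x then 0 else (ψ : G → ℂ) x * conj ((φ : G → ℂ) x)) := by
      rw [Finset.mul_sum]
      apply Finset.sum_congr rfl
      intro g _
      simp only [pRegularPart_apply]
      by_cases hx : p ∣ orderOf g
      · simp [hx]
      · rw [if_neg hx, if_neg hx]
        ring
    rw [h1, key]
    simp
  rw [h0] at hval2
  exact_mod_cast hval2.symm

/-- `p ^ d` times the restriction to `p`-regular elements of a character in a block of defect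
`d` is an integral combination of the characters of the block. -/
theorem reg_expand [Fact p.Prime] [Fintype (IrrCharacter G)] (hM : IsPModular p M)
    {B : Set (IrrCharacter G)} (hB : IsPBlock M B) (ψ : IrrCharacter G) (hψ : ψ ∈ B) :
    ∃ c : IrrCharacter G → ℤ, (∀ φ, φ ∉ B → c φ = 0) ∧ ∀ x : G,
      (p : ℂ) ^ blockDefect p B * pRegularPart p (ψ : G → ℂ) x =
        ∑ φ : IrrCharacter G, (c φ : ℂ) * (φ : G → ℂ) x := by
  classical
  choose c hc using fun φ => regInner_int hM hB ψ hψ φ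
  refine ⟨c, fun φ hφ => (hc φ).2 hφ, ?_⟩
  intro x
  have hcl : IsClassFunction G
      (fun x => (p : ℂ) ^ blockDefect p B * pRegularPart p (ψ : G → ℂ) x) := by
    intro g k
    show (p : ℂ) ^ blockDefect p B * pRegularPart p (ψ : G → ℂ) (k * g * k⁻¹) =
      (p : ℂ) ^ blockDefect p B * pRegularPart p (ψ : G → ℂ) g
    have h1 : orderOf (k * g * k⁻¹) = orderOf g := by
      have := orderOf_injective (MulAut.conj k).toMonoidHom (MulAut.conj k).injective g
      simpa using this
    rw [pRegularPart_apply, pRegularPart_apply, h1, isClassFunction_of_irr ψ.2 g k]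
  have h2 := classFunction_eq_sum_apply _ hcl x
  rw [h2]
  apply Finset.sum_congr rfl
  intro φ _
  rw [(hc φ).1]

end Cfsg.Agent.Lib_helper3_RegSpan
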