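import Mathlib
import Cfsg.Prelude.Def_Characters
import Cfsg.Prelude.Def_Blocks
import Cfsg.Agent.Lib_helper3_BlockOrth
import Cfsg.Agent.Lib_helper3_DefectCard2
import Cfsg.Agent.Lib_helper3_BrauerHom3
import Cfsg.Agent.Lib_helper3_PReg
import Cfsg.Agent.S0906

set_option autoImplicit false
open Cfsg
open Cfsg.Agent.Lib_helper3_CharBasic Cfsg.Agent.Lib_helper3_CharMore
  Cfsg.Agent.Lib_helper3_Local Cfsg.Agent.Lib_helper3_Local2 Cfsg.Agent.Lib_helper3_BlockAlg
  Cfsg.Agent.Lib_helper3_IdemSupp Cfsg.Agent.Lib_helper3_CharInd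
  Cfsg.Agent.Lib_helper3_DefectZero Cfsg.Agent.Lib_helper3_DefectCard
  Cfsg.Agent.Lib_helper3_DefectCard2 Cfsg.Agent.Lib_helper3_BlockOrth
  Cfsg.Agent.Lib_helper3_BrauerHom2 Cfsg.Agent.Lib_helper3_BrauerHom3
open scoped ComplexConjugate

namespace Cfsg.Agent.Lib_helper3_ThirdMain

universe u

variable {G : Type u} [Group G] [Fintype G]

/-- The coefficient function of the test element attached to a function `χ`: the value of
`χ` at the inverse on the `p`-regular elements, and zero elsewhere. -/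
noncomputable def testFun (p : ℕ) (χ : G → ℂ) : G → ℂ :=
  fun g => if p ∣ orderOf g then 0 else χ g⁻¹

omit [Fintype G] in
theorem isClassFunction_testFun (p : ℕ) {χ : G → ℂ} (hχ : IsClassFunction G χ) :
    IsClassFunction G (testFun p χ) := by
  intro g h
  show (if p ∣ orderOf (h * g * h⁻¹) then 0 else χ (h * g * h⁻¹)⁻¹) =
    if p ∣ orderOf g then 0 else χ g⁻¹
  have e : (h * g * h⁻¹)⁻¹ = h * g⁻¹ * h⁻¹ := by group
  rw [Cfsg.Agent.Lib_helper3_PReg.orderOf_conj_eq, e, hχ g⁻¹ h]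

omit [Fintype G] in
theorem memLocalRing_testFun [Finite G] {M : Ideal AlgInt} (hM : M ≠ ⊤) (p : ℕ) {χ : G → ℂ}
    (hχ : IsCharacter G χ) (g : G) : MemLocalRing M (testFun p χ g) := by
  unfold testFun
  split_ifs
  · exact memLocalRing_zero hM
  · exact memLocalRing_of_algInt hM
      (Cfsg.Agent.Lib_helper3_CharDiag.isCharacter_isIntegral hχ g⁻¹)

theorem sum_testFun_mul (p : ℕ) (χ : G → ℂ) {ψ : G → ℂ} (hψ : IsCharacter G ψ) :
    ∑ g, testFun p χ g * ψ g = ∑ g, (if p ∣ orderOf g then 0 else χ g * conj (ψ g)) := by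
  refine (Equiv.sum_comp (Equiv.inv G) _).symm.trans ?_
  apply Finset.sum_congr rfl
  intro g _
  show (if p ∣ orderOf g⁻¹ then 0 else χ g⁻¹⁻¹) * ψ g⁻¹ = _
  rw [orderOf_inv, inv_inv, isCharacter_inv hψ]
  split_ifs <;> simp

theorem sum_testFun_symm (p : ℕ) (χ ψ : G → ℂ) :
    ∑ g, testFun p χ g * ψ g = ∑ g, testFun p ψ g * χ g := by
  refine (Equiv.sum_comp (Equiv.inv G) _).symm.trans ?_
  apply Finset.sum_congr rfl
  intro g _
  show (if p ∣ orderOf g⁻¹ then 0 else χ g⁻¹⁻¹) * ψ g⁻¹ =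
    (if p ∣ orderOf g then 0 else ψ g⁻¹) * χ g
  rw [orderOf_inv, inv_inv]
  split_ifs <;> ring

/-- The test element of `χ` is killed by the central characters outside the block of `χ`. -/
theorem om_testFun_eq_zero {M : Ideal AlgInt} {p : ℕ} [Fact p.Prime] (hM : IsPModular p M)
    (χ ψ : IrrCharacter G) (h : ¬ SameBlock M (χ : G → ℂ) (ψ : G → ℂ)) :
    Om (ψ : G → ℂ) (testFun p (χ : G → ℂ)) = 0 := by
  have hMp : M.IsPrime := isPrime_of_modular hM
  have hA : ∀ g : G, MemLocalRing M (blockCoeff (blockOf M (χ : G → ℂ)) g) :=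
    fun g => osima ⟨χ, rfl⟩ g
  have key := orth_regular hM hA (mem_blockOf_self hMp.ne_top χ) (ψ := ψ) h
  unfold Om
  rw [sum_testFun_mul p _ (isCharacter_of_irr ψ.2), key, zero_div]

theorem om_testFun_expand [Fintype (IrrCharacter G)] (p : ℕ) {φ : G → ℂ}
    (hφ : IsClassFunction G φ) (ξ₀ : G → ℂ) :
    Om ξ₀ (testFun p φ) =
      ∑ ξ : IrrCharacter G, classInner φ (ξ : G → ℂ) * Om ξ₀ (testFun p (ξ : G → ℂ)) := by
  have h1 : ∀ g, testFun p φ g =
      ∑ ξ : IrrCharacter G, classInner φ (ξ : G → ℂ) * testFun p (ξ : G → ℂ) g := by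
    intro g
    unfold testFun
    split_ifs
    · simp
    · exact classFunction_eq_sum_apply φ hφ g⁻¹
  unfold Om
  have h2 : (∑ g, testFun p φ g * ξ₀ g) = ∑ ξ : IrrCharacter G, classInner φ (ξ : G → ℂ) *
      ∑ g, testFun p (ξ : G → ℂ) g * ξ₀ g := by
    simp only [h1, Finset.sum_mul, Finset.mul_sum]
    rw [Finset.sum_comm]
    apply Finset.sum_congr rfl
    intro ξ _
    apply Finset.sum_congr rfl
    intro g _
    ring
  rw [h2, Finset.sum_div]
  apply Finset.sum_congr rfl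
  intro ξ _
  rw [mul_div_assoc]

section Fourier

variable {M : Ideal AlgInt} {p : ℕ} [Fact p.Prime]

theorem fourier_sum_eq {θ : G → ℂ} (hvan : ∀ y : G, p ∣ orderOf y → θ y = 0) (x : G)
    (hx : ¬ p ∣ orderOf x) (Q : Subgroup G) [Fintype Q] [Fintype (Subgroup.zpowers x)]
    (hQp : IsPGroup p Q) (hQ : Q ≤ Subgroup.centralizer ({x} : Set G)) (ω : ℂ)
    (hω : ω ^ orderOf x = 1) :
    ∑ g : Q × Subgroup.zpowers x, θ (prodHom Q x hQ g) *
        conj (((linChar Q x ω hω g : ℂˣ) : ℂ)) =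
      ∑ j ∈ Finset.range (orderOf x), (conj ω) ^ j * θ (x ^ j) := by
  classical
  rw [Fintype.sum_prod_type, Finset.sum_eq_single (1 : Q)]
  · rw [← Fin.sum_univ_eq_sum_range (fun j => (conj ω) ^ j * θ (x ^ j)) (orderOf x)]
    symm
    apply Fintype.sum_equiv (finEquivZPowers (isOfFinOrder_of_finite x))
    intro j
    rw [linChar_apply]
    show _ = θ (prodHom Q x hQ (1, finEquivZPowers (isOfFinOrder_of_finite x) j)) *
      conj (cycFun x ω (finEquivZPowers (isOfFinOrder_of_finite x) j))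
    rw [cycFun_apply, prodHom_apply, map_pow, mul_comm]
    congr 2
    show x ^ (j : ℕ) = ((1 : Q) : G) * ((finEquivZPowers (isOfFinOrder_of_finite x) j : _) : G)
    rw [finEquivZPowers_apply]
    simp
  · intro q _ hq
    apply Finset.sum_eq_zero
    intro c _
    rw [prodHom_apply, hvan _ (dvd_orderOf_mul Q hQp x hx hQ q hq c), zero_mul]
  · intro h
    exact absurd (Finset.mem_univ _) h

/-- Fourier coefficients along `⟨x⟩` of a combination of irreducible characters with
coefficients in the local ideal which vanishes at the `p`-singular elements. -/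
theorem fourier_local (hM : IsPModular p M) [Fintype (IrrCharacter G)]
    (a : IrrCharacter G → ℂ) (ha : ∀ ψ, MemLocalIdeal M (a ψ)) {θ : G → ℂ}
    (hθ : ∀ g, θ g = ∑ ψ : IrrCharacter G, a ψ * (ψ : G → ℂ) g)
    (hvan : ∀ y : G, p ∣ orderOf y → θ y = 0) (x : G) (hx : ¬ p ∣ orderOf x) (Q : Subgroup G)
    (hQp : IsPGroup p Q) (hQ : Q ≤ Subgroup.centralizer ({x} : Set G)) (ω : ℂ)
    (hω : ω ^ orderOf x = 1) :
    ∃ m : ℂ, MemLocalIdeal M m ∧ ∑ j ∈ Finset.range (orderOf x), (conj ω) ^ j * θ (x ^ j) =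
      m * (Nat.card Q : ℂ) * (orderOf x : ℂ) := by
  classical
  have hMp : M.IsPrime := isPrime_of_modular hM
  have := Fintype.ofFinite Q
  have := Fintype.ofFinite (Subgroup.zpowers x)
  have hν : IsCharacter (Q × Subgroup.zpowers x)
      (fun g => ((linChar Q x ω hω g : ℂˣ) : ℂ)) :=
    isCharacter_of_monoidHom (linChar Q x ω hω)
  have hN : ∀ ψ : IrrCharacter G, ∃ N : ℕ, classInner ((ψ : G → ℂ) ∘ prodHom Q x hQ)
      (fun g => ((linChar Q x ω hω g : ℂˣ) : ℂ)) = N := fun ψ =>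
    classInner_nat (isCharacter_comp (prodHom Q x hQ) (isCharacter_of_irr ψ.2)) hν
  choose N hN using hN
  refine ⟨∑ ψ : IrrCharacter G, a ψ * (N ψ : ℂ), ?_, ?_⟩
  · apply memLocalIdeal_sum
    intro ψ _
    rw [mul_comm]
    exact memLocalIdeal_algInt_mul (Subalgebra.natCast_mem _ (N ψ)) (ha ψ)
  · rw [← fourier_sum_eq hvan x hx Q hQp hQ ω hω]
    have hcard : (Nat.card (Q × Subgroup.zpowers x) : ℂ) =
        (Nat.card Q : ℂ) * (orderOf x : ℂ) := by
      rw [Nat.card_prod, Nat.card_zpowers, Nat.cast_mul]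
    have hne : (Nat.card (Q × Subgroup.zpowers x) : ℂ) ≠ 0 := by
      exact_mod_cast Nat.card_pos.ne'
    have h1 : ∀ ψ : IrrCharacter G, ∑ g : Q × Subgroup.zpowers x,
        (ψ : G → ℂ) (prodHom Q x hQ g) * conj (((linChar Q x ω hω g : ℂˣ) : ℂ)) =
        (N ψ : ℂ) * (Nat.card (Q × Subgroup.zpowers x) : ℂ) := by
      intro ψ
      have h2 := hN ψ
      rw [classInner_def] at h2
      rw [← h2]
      field_simp
      rfl
    simp only [hθ, Finset.sum_mul]
    rw [Finset.sum_comm]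
    apply Finset.sum_congr rfl
    intro ψ _
    rw [mul_assoc (a ψ * (N ψ : ℂ)), ← hcard, mul_assoc, ← h1 ψ, Finset.mul_sum]
    apply Finset.sum_congr rfl
    intro g _
    ring

/-- A combination of irreducible characters with coefficients in the local ideal which
vanishes at the `p`-singular elements takes, at a `p`-regular element, a value in the local
ideal times the order of any centralizing `p`-subgroup. -/
theorem fourier_inv (hM : IsPModular p M) [Fintype (IrrCharacter G)]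
    (a : IrrCharacter G → ℂ) (ha : ∀ ψ, MemLocalIdeal M (a ψ)) {θ : G → ℂ}
    (hθ : ∀ g, θ g = ∑ ψ : IrrCharacter G, a ψ * (ψ : G → ℂ) g)
    (hvan : ∀ y : G, p ∣ orderOf y → θ y = 0) (x : G) (hx : ¬ p ∣ orderOf x) (Q : Subgroup G)
    (hQp : IsPGroup p Q) (hQ : Q ≤ Subgroup.centralizer ({x} : Set G)) :
    ∃ α : ℂ, MemLocalIdeal M α ∧ θ x⁻¹ = (Nat.card Q : ℂ) * α := by
  classical
  have hMp : M.IsPrime := isPrime_of_modular hM
  obtain ⟨n, hn⟩ : ∃ n : ℕ, n = orderOf x := ⟨_, rfl⟩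
  have hn0 : 0 < n := by rw [hn]; exact orderOf_pos x
  obtain ⟨ζ, hζ⟩ : ∃ ζ : ℂ, IsPrimitiveRoot ζ n := ⟨_, Complex.isPrimitiveRoot_exp n hn0.ne'⟩
  have hroot : ∀ i : ℕ, (conj (ζ ^ i)) ^ orderOf x = 1 := by
    intro i
    rw [← map_pow, ← pow_mul, mul_comm, pow_mul, ← hn, hζ.pow_eq_one, one_pow, map_one]
  choose m hmM hm using fun i : ℕ =>
    fourier_local hM a ha hθ hvan x hx Q hQp hQ (conj (ζ ^ i)) (hroot i)
  have horth := sum_orth hn0 hζ 0 (fun j => θ (x ^ j))
  have h1 : ∀ i ∈ Finset.range n, ζ ^ i * ∑ j ∈ Finset.range n, (ζ ^ (i + 0)) ^ j * θ (x ^ j) =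
      ζ ^ i * (m i * (Nat.card Q : ℂ) * (n : ℂ)) := by
    intro i _
    have h2 := hm i
    rw [Complex.conj_conj, ← hn] at h2
    rw [add_zero, h2]
  rw [Finset.sum_congr rfl h1] at horth
  simp only [zero_mul, pow_zero, mul_one] at horth
  have hx1 : x ^ (n - 1) = x⁻¹ := by
    rw [hn]
    exact (inv_eq_of_mul_eq_one_left (by
      rw [← pow_succ, Nat.sub_add_cancel (orderOf_pos x), pow_orderOf_eq_one])).symm
  rw [hx1] at horth
  refine ⟨∑ i ∈ Finset.range n, ζ ^ i * m i, ?_, ?_⟩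
  · apply memLocalIdeal_sum
    intro i _
    apply memLocalIdeal_algInt_mul _ (hmM i)
    apply Subalgebra.pow_mem
    exact Cfsg.Agent.Lib_helper3_IdemSupp.isIntegral_of_pow_eq_one hn0 hζ.pow_eq_one
  · have hn0' : (n : ℂ) ≠ 0 := by exact_mod_cast hn0.ne'
    apply mul_left_cancel₀ hn0'
    rw [← horth, Finset.mul_sum, Finset.mul_sum]
    apply Finset.sum_congr rfl
    intro i _
    ring

end Fourier

section Main

variable {M : Ideal AlgInt} {p : ℕ} [Fact p.Prime]

omit [Fintype G] [Fact p.Prime] in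
theorem sameBlock_of_mem [M.IsPrime] {B : Set (IrrCharacter G)} (hB : IsPBlock M B)
    {χ ψ : IrrCharacter G} (hχ : χ ∈ B) (hψ : ψ ∈ B) :
    SameBlock M (χ : G → ℂ) (ψ : G → ℂ) := by
  obtain ⟨χB, rfl⟩ := hB
  exact sameBlock_trans (sameBlock_symm hχ) hψ

omit [Fintype G] [Fact p.Prime] in
theorem mem_of_sameBlock [M.IsPrime] {B : Set (IrrCharacter G)} (hB : IsPBlock M B)
    {χ ψ : IrrCharacter G} (hχ : χ ∈ B) (h : SameBlock M (χ : G → ℂ) (ψ : G → ℂ)) : ψ ∈ B := by
  obtain ⟨χB, rfl⟩ := hB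
  exact sameBlock_trans hχ h

omit [Fintype G] [Fact p.Prime] in
/-- A height-zero character has the least `p`-part of the degree in its block. -/
theorem factorization_le_of_height_zero {B : Set (IrrCharacter G)} {χ ψ : IrrCharacter G}
    (h0 : blockHeight p B (χ : G → ℂ) = 0) (hψ : ψ ∈ B) :
    (charDegree (χ : G → ℂ)).factorization p ≤ (charDegree (ψ : G → ℂ)).factorization p := by
  unfold blockHeight at h0
  have h1 : sInf ((fun φ : IrrCharacter G => (charDegree (φ : G → ℂ)).factorization p) '' B) ≤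
      (charDegree (ψ : G → ℂ)).factorization p := Nat.sInf_le ⟨ψ, hψ, rfl⟩
  omega

omit [Fintype G] [Fact p.Prime] in
theorem factorization_lt_of_height_ne_zero {B : Set (IrrCharacter G)} {χ ψ : IrrCharacter G}
    (h0 : blockHeight p B (χ : G → ℂ) = 0) (hψ : blockHeight p B (ψ : G → ℂ) ≠ 0) :
    (charDegree (χ : G → ℂ)).factorization p < (charDegree (ψ : G → ℂ)).factorization p := by
  unfold blockHeight at h0 hψ
  omega

/-- The central character of a height-zero character does not vanish modulo the local ideal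
on its own test element. -/
theorem om_testFun_not_mem (hM : IsPModular p M) {B : Set (IrrCharacter G)} (hB : IsPBlock M B)
    (χ : IrrCharacter G) (hχ : χ ∈ B) (h0 : blockHeight p B (χ : G → ℂ) = 0) :
    ¬ MemLocalIdeal M (Om (χ : G → ℂ) (testFun p (χ : G → ℂ))) := by
  classical
  have hp : p.Prime := Fact.out
  have hMp : M.IsPrime := isPrime_of_modular hM
  have hfin := irr_finite (G := G)
  have := Fintype.ofFinite (IrrCharacter G)
  intro hu
  obtain ⟨y, hy⟩ := Cfsg.Agent.S0906.result p M hM B hB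
  have hreg := not_dvd_orderOf_of_defectClass hM hB hy
  obtain ⟨P⟩ : Nonempty (Sylow p (Subgroup.centralizer ({y} : Set G))) := inferInstance
  obtain ⟨Q, hQdef⟩ : ∃ Q : Subgroup G, Q = (P : Subgroup (Subgroup.centralizer ({y} : Set G))).map
      (Subgroup.centralizer ({y} : Set G)).subtype := ⟨_, rfl⟩
  have hQle : Q ≤ Subgroup.centralizer ({y} : Set G) := by
    rw [hQdef]
    exact Subgroup.map_subtype_le _
  have hQcard : Nat.card Q =
      p ^ (Nat.card (Subgroup.centralizer ({y} : Set G))).factorization p := by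
    rw [hQdef, Subgroup.card_map_of_injective (Subgroup.subtype_injective _)]
    exact Sylow.card_eq_multiplicity P
  have hQp : IsPGroup p Q := IsPGroup.of_card hQcard
  have hQ0 : (Nat.card Q : ℂ) ≠ 0 := by
    exact_mod_cast (Nat.card_pos (α := Q)).ne'
  obtain ⟨F, hF⟩ : ∃ F : G → ℂ, F = testFun p (χ : G → ℂ) := ⟨_, rfl⟩
  have hFcl : IsClassFunction G F := by
    rw [hF]
    exact isClassFunction_testFun p (isClassFunction_of_irr χ.2)
  have hFR : ∀ g, MemLocalRing M (F g) := by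
    intro g
    rw [hF]
    exact memLocalRing_testFun hMp.ne_top p (isCharacter_of_irr χ.2) g
  rw [← hF] at hu
  have hOm : ∀ ψ : IrrCharacter G, ψ ∈ B → MemLocalIdeal M (Om (ψ : G → ℂ) F) := by
    intro ψ hψ
    have hsb : SameBlock M (χ : G → ℂ) (ψ : G → ℂ) := sameBlock_of_mem hB hχ hψ
    have h1 := om_congr (isClassFunction_of_irr χ.2) (isClassFunction_of_irr ψ.2) hsb hFcl hFR
    have e : Om (ψ : G → ℂ) F = Om (χ : G → ℂ) F - (Om (χ : G → ℂ) F - Om (ψ : G → ℂ) F) := by
      ring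
    rw [e]
    exact memLocalIdeal_sub hu h1
  have hOm0 : ∀ ψ : IrrCharacter G, ψ ∉ B → Om (ψ : G → ℂ) F = 0 := by
    intro ψ hψ
    rw [hF]
    apply om_testFun_eq_zero hM χ ψ
    intro hsb
    exact hψ (mem_of_sameBlock hB hχ hsb)
  obtain ⟨θ, hθ⟩ : ∃ θ : G → ℂ, θ = fun g => (Nat.card Q : ℂ) *
      (if p ∣ orderOf g then 0 else (χ : G → ℂ) g) := ⟨_, rfl⟩
  have hθcl : IsClassFunction G θ := by
    intro g h
    rw [hθ]
    show (Nat.card Q : ℂ) * (if p ∣ orderOf (h * g * h⁻¹) then 0 else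
      (χ : G → ℂ) (h * g * h⁻¹)) = (Nat.card Q : ℂ) * (if p ∣ orderOf g then 0 else
      (χ : G → ℂ) g)
    rw [Cfsg.Agent.Lib_helper3_PReg.orderOf_conj_eq, isClassFunction_of_irr χ.2 g h]
  have hvan : ∀ g : G, p ∣ orderOf g → θ g = 0 := by
    intro g hg
    rw [hθ]
    show (Nat.card Q : ℂ) * (if p ∣ orderOf g then 0 else (χ : G → ℂ) g) = 0
    rw [if_pos hg, mul_zero]
  have hexp := fun g => classFunction_eq_sum_apply θ hθcl g
  have hκ := (index_factorization_eq hM hB hy).2 χ hχ h0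
  have hG0 : Nat.card G ≠ 0 := Nat.card_pos.ne'
  have ha : ∀ ψ : IrrCharacter G, MemLocalIdeal M (classInner θ (ψ : G → ℂ)) := by
    intro ψ
    have e1 : classInner θ (ψ : G → ℂ) = (Nat.card Q : ℂ) * (ψ : G → ℂ) 1 / (Nat.card G : ℂ) *
        Om (ψ : G → ℂ) F := by
      rw [classInner_def, hθ, hF]
      unfold Om
      rw [sum_testFun_mul p _ (isCharacter_of_irr ψ.2)]
      have h1 : ∑ g : G, (Nat.card Q : ℂ) * (if p ∣ orderOf g then 0 else (χ : G → ℂ) g) *
          conj ((ψ : G → ℂ) g) = (Nat.card Q : ℂ) * ∑ g : G, (if p ∣ orderOf g then 0 else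
          (χ : G → ℂ) g * conj ((ψ : G → ℂ) g)) := by
        rw [Finset.mul_sum]
        apply Finset.sum_congr rfl
        intro g _
        split_ifs <;> ring
      rw [h1]
      have h2 := irr_apply_one_ne_zero ψ.2
      have h3 := card_ne_zero (G := G)
      field_simp
    rw [e1]
    by_cases hψ : ψ ∈ B
    · refine memLocalIdeal_mul_left ?_ (hOm ψ hψ)
      obtain ⟨d, hd⟩ := isCharacter_apply_one (isCharacter_of_irr ψ.2)
      have hd' : charDegree (ψ : G → ℂ) = d := charDegree_eq hd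
      have hd0 : d ≠ 0 := by
        rintro rfl
        exact irr_apply_one_ne_zero ψ.2 (by rw [hd]; simp)
      have hle := factorization_le_of_height_zero (p := p) h0 hψ
      rw [hκ, hd'] at hle
      have hQ0' : Nat.card Q ≠ 0 := Nat.card_pos.ne'
      have hfac : (Nat.card G).factorization p ≤ (Nat.card Q * d).factorization p := by
        rw [Nat.factorization_mul hQ0' hd0, Finsupp.add_apply, hQcard,
          Nat.Prime.factorization_pow hp, Finsupp.single_eq_same,
          ← Subgroup.card_mul_index (Subgroup.centralizer ({y} : Set G)),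
          Nat.factorization_mul Nat.card_pos.ne'
            (Subgroup.index_ne_zero_of_finite (H := Subgroup.centralizer ({y} : Set G))),
          Finsupp.add_apply]
        omega
      have h4 := memLocalRing_of_factorization_le hM (u := Nat.card Q * d) hG0 hfac
      rw [hd]
      rw [Nat.cast_mul] at h4
      exact h4
    · rw [hOm0 ψ hψ, mul_zero]
      exact memLocalIdeal_zero hMp.ne_top
  have hQinv : Q ≤ Subgroup.centralizer ({y⁻¹} : Set G) := by
    intro w hw
    have h1 := Subgroup.mem_centralizer_singleton_iff.mp (hQle hw)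
    rw [Subgroup.mem_centralizer_singleton_iff]
    exact (show Commute w y from h1).inv_right
  have hreg' : ¬ p ∣ orderOf y⁻¹ := by rwa [orderOf_inv]
  have hfi := @fourier_inv G _ _ M p _ hM this (fun ψ => classInner θ (ψ : G → ℂ)) ha θ hexp
    hvan y⁻¹ hreg' Q hQp hQinv
  obtain ⟨α, hα, hαeq⟩ := hfi
  rw [inv_inv, hθ] at hαeq
  have hαeq' : (Nat.card Q : ℂ) * (if p ∣ orderOf y then 0 else (χ : G → ℂ) y) =
      (Nat.card Q : ℂ) * α := hαeq
  rw [if_neg hreg] at hαeq'
  have h5 : (χ : G → ℂ) y = α := mul_left_cancel₀ hQ0 hαeq'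
  have hnot := height_zero_not_mem hM hB hy 1 (by simp) ⟨0, by simp⟩ χ hχ h0
  rw [one_mul, h5] at hnot
  exact hnot hα

omit [Fact p.Prime] in
/-- Between two characters of a block, one of height zero and one of positive height, the
central character of the first on the test element of the second lies in the local ideal. -/
theorem om_testFun_mem_of_height (hM : IsPModular p M) {B : Set (IrrCharacter G)}
    (ξ₀ ξ : IrrCharacter G) (h0 : blockHeight p B (ξ₀ : G → ℂ) = 0)
    (hξ : blockHeight p B (ξ : G → ℂ) ≠ 0) :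
    MemLocalIdeal M (Om (ξ₀ : G → ℂ) (testFun p (ξ : G → ℂ))) := by
  have hMp : M.IsPrime := isPrime_of_modular hM
  obtain ⟨d₀, hd₀⟩ := isCharacter_apply_one (isCharacter_of_irr ξ₀.2)
  obtain ⟨d, hd⟩ := isCharacter_apply_one (isCharacter_of_irr ξ.2)
  have hd₀' : charDegree (ξ₀ : G → ℂ) = d₀ := charDegree_eq hd₀
  have hd' : charDegree (ξ : G → ℂ) = d := charDegree_eq hd
  have hd₀0 : d₀ ≠ 0 := by
    rintro rfl
    exact irr_apply_one_ne_zero ξ₀.2 (by rw [hd₀]; simp)
  have hlt := factorization_lt_of_height_ne_zero (p := p) h0 hξ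
  rw [hd₀', hd'] at hlt
  have h1 := memLocalIdeal_of_factorization_lt hM hd₀0 hlt (z := 1) (Subalgebra.one_mem _)
  have h2 : MemLocalRing M (Om (ξ : G → ℂ) (testFun p (ξ₀ : G → ℂ))) :=
    memLocalRing_om ξ.2 (isClassFunction_testFun p (isClassFunction_of_irr ξ₀.2))
      (memLocalRing_testFun hMp.ne_top p (isCharacter_of_irr ξ₀.2))
  have e : Om (ξ₀ : G → ℂ) (testFun p (ξ : G → ℂ)) =
      Om (ξ : G → ℂ) (testFun p (ξ₀ : G → ℂ)) * ((d : ℂ) * 1 / (d₀ : ℂ)) := by
    unfold Om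
    rw [sum_testFun_symm p (ξ : G → ℂ) (ξ₀ : G → ℂ), hd, hd₀]
    have hd0 : (d : ℂ) ≠ 0 := by
      rw [← hd]
      exact irr_apply_one_ne_zero ξ.2
    have hd₀0' : (d₀ : ℂ) ≠ 0 := by exact_mod_cast hd₀0
    field_simp
  rw [e]
  exact memLocalIdeal_mul_left h2 h1

omit [Fintype G] [Fact p.Prime] in
theorem resH_testFun (H : Subgroup G) (χ : G → ℂ) :
    resH H (testFun p χ) = testFun p (fun h : H => χ h) := by
  funext h
  show (if p ∣ orderOf (h : G) then 0 else χ (h : G)⁻¹) =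
    if p ∣ orderOf h then 0 else χ ((h⁻¹ : H) : G)
  rw [Subgroup.orderOf_coe]
  rfl

end Main

end Cfsg.Agent.Lib_helper3_ThirdMain
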