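import Mathlib
import Cfsg.Prelude.Def_Characters
import Cfsg.Prelude.Def_Blocks
import Cfsg.Prelude.Def_BlockRank
import Cfsg.Agent.Lib_helper3_RegSpan
import Cfsg.Agent.Lib_helper3_ThirdMain
import Cfsg.Agent.Lib_helper3_GenChar
import Cfsg.Agent.Lib_helper3_IntLemmas

set_option autoImplicit false
open Cfsg
open Cfsg.Agent.Lib_helper3_CharBasic Cfsg.Agent.Lib_helper3_CharMore
  Cfsg.Agent.Lib_helper3_Local Cfsg.Agent.Lib_helper3_Local2 Cfsg.Agent.Lib_helper3_BlockAlg
  Cfsg.Agent.Lib_helper3_Residue Cfsg.Agent.Lib_helper3_BrauerHom2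
  Cfsg.Agent.Lib_helper3_DefectCard2 Cfsg.Agent.Lib_helper3_CharInd
  Cfsg.Agent.Lib_helper3_BlockOrth Cfsg.Agent.Lib_helper3_DefectZero
  Cfsg.Agent.Lib_helper3_CharDiag Cfsg.Agent.Lib_helper3_RegSpan
  Cfsg.Agent.Lib_helper3_GenChar Cfsg.Agent.Lib_helper3_IntLemmas
open scoped ComplexConjugate

namespace Cfsg.Agent.Lib_helper3_RegSpan2

universe u

variable {G : Type u} [Group G] [Fintype G] {M : Ideal AlgInt} {p : ℕ}

/-- There is a maximal ideal of the algebraic integers containing a given prime. -/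
theorem exists_pModular (p : ℕ) (hp : p.Prime) : ∃ M : Ideal AlgInt, IsPModular p M := by
  have hne : Ideal.span {(p : AlgInt)} ≠ ⊤ := by
    intro h
    rw [Ideal.span_singleton_eq_top] at h
    obtain ⟨v, hv⟩ := h.exists_right_inv
    have h1 : (p : ℂ) * (v : ℂ) = 1 := by
      have := congrArg (fun z : AlgInt => (z : ℂ)) hv
      simpa using this
    have hp0 : (p : ℂ) ≠ 0 := by exact_mod_cast hp.ne_zero
    have hint : IsIntegral ℤ (((1 / (p : ℚ) : ℚ)) : ℂ) := by
      have h2 : (((1 / (p : ℚ) : ℚ)) : ℂ) = (v : ℂ) := by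
        push_cast
        field_simp
        exact h1.symm
      rw [h2]
      exact v.2
    obtain ⟨m, hm⟩ := exists_int_of_isIntegral_rat hint
    have hp0' : (p : ℚ) ≠ 0 := by exact_mod_cast hp.ne_zero
    have h3 : (p : ℚ) * m = 1 := by
      rw [← hm]
      field_simp
    have h4 : (p : ℤ) * m = 1 := by exact_mod_cast h3
    have h5 := Int.isUnit_iff.mp (IsUnit.of_mul_eq_one _ h4)
    rcases h5 with h5 | h5
    · have h6 : p = 1 := by exact_mod_cast h5
      exact hp.one_lt.ne' h6
    · have h6 : (0 : ℤ) ≤ p := Int.natCast_nonneg p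
      omega
  obtain ⟨M, hM, hle⟩ := Ideal.exists_le_maximal _ hne
  exact ⟨M, hp, hM, hle (Ideal.subset_span rfl)⟩

/-- The restriction to the `p`-regular elements of the conjugate of a character. -/
noncomputable def regConj (p : ℕ) (φ : G → ℂ) : G → ℂ :=
  pRegularPart p (fun x => conj (φ x))

omit [Fintype G] in
theorem isClassFunction_pRegularPart (p : ℕ) {f : G → ℂ} (hf : IsClassFunction G f) :
    IsClassFunction G (pRegularPart p f) := by
  classical
  intro g k
  have h1 : orderOf (k * g * k⁻¹) = orderOf g := by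
    have := orderOf_injective (MulAut.conj k).toMonoidHom (MulAut.conj k).injective g
    simpa using this
  rw [pRegularPart_apply, pRegularPart_apply, h1, hf g k]

omit [Fintype G] in
theorem isClassFunction_regConj (p : ℕ) (φ : IrrCharacter G) :
    IsClassFunction G (regConj p (φ : G → ℂ)) := by
  apply isClassFunction_pRegularPart
  intro g k
  show conj ((φ : G → ℂ) (k * g * k⁻¹)) = conj ((φ : G → ℂ) g)
  rw [isClassFunction_of_irr φ.2 g k]

theorem memLocalRing_regConj [hMp : M.IsPrime] (p : ℕ) (φ : IrrCharacter G) (g : G) :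
    MemLocalRing M (regConj p (φ : G → ℂ) g) := by
  classical
  unfold regConj
  rw [pRegularPart_apply]
  split_ifs
  · exact memLocalRing_zero hMp.ne_top
  · rw [← isCharacter_inv (isCharacter_of_irr φ.2)]
    exact memLocalRing_of_algInt hMp.ne_top (isCharacter_isIntegral (isCharacter_of_irr φ.2) _)

/-- The inner product of a multiple of the `p`-regular restriction of `ψ` with `φ` in terms of
the central character of `ψ`. -/
theorem regInner_eq_om (p : ℕ) (ψ φ : IrrCharacter G) (c : ℂ) :
    classInner (fun x => c * pRegularPart p (ψ : G → ℂ) x) (φ : G → ℂ) =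
      (c * (ψ : G → ℂ) 1 / (Nat.card G : ℂ)) * Om (ψ : G → ℂ) (regConj p (φ : G → ℂ)) := by
  classical
  obtain ⟨nψ, hnpos, hn⟩ := irr_apply_one_pos ψ.2
  have hG0 := card_ne_zero (G := G)
  rw [classInner_def]
  unfold Om
  rw [hn]
  have hnψ0 : (nψ : ℂ) ≠ 0 := by exact_mod_cast hnpos.ne'
  have h1 : ∑ g : G, (c * pRegularPart p (ψ : G → ℂ) g) * conj ((φ : G → ℂ) g) =
      c * ∑ g : G, regConj p (φ : G → ℂ) g * (ψ : G → ℂ) g := by
    rw [Finset.mul_sum]
    apply Finset.sum_congr rfl
    intro g _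
    unfold regConj
    rw [pRegularPart_apply, pRegularPart_apply]
    by_cases hx : p ∣ orderOf g
    · simp [hx]
    · rw [if_neg hx, if_neg hx]
      ring
  rw [h1]
  field_simp

/-- Symmetry of the inner product on `p`-regular elements. -/
theorem regInner_symm (p : ℕ) (ψ φ : G → ℂ) (c : ℝ) :
    classInner (fun x => (c : ℂ) * pRegularPart p ψ x) φ =
      conj (classInner (fun x => (c : ℂ) * pRegularPart p φ x) ψ) := by
  classical
  rw [classInner_def, classInner_def, map_mul, map_sum]
  congr 1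
  · simp
  · apply Finset.sum_congr rfl
    intro g _
    rw [pRegularPart_apply, pRegularPart_apply, map_mul, map_mul, Complex.conj_conj,
      Complex.conj_ofReal]
    by_cases hx : p ∣ orderOf g
    · simp [hx]
    · rw [if_neg hx, if_neg hx]
      ring

/-- `p ^ e` times the inner product on `p`-regular elements of two irreducible characters is
an integer as soon as `p ^ e` times the degree of the first is divisible by the `p`-part of the
group order. -/
theorem regInner_int_gen [Fact p.Prime] (hM : IsPModular p M) (ψ φ : IrrCharacter G) (e : ℕ)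
    (hea : e ≤ (Nat.card G).factorization p)
    (hae : (Nat.card G).factorization p ≤ e + (charDegree (ψ : G → ℂ)).factorization p) :
    ∃ c : ℤ, classInner (fun x => (p : ℂ) ^ e * pRegularPart p (ψ : G → ℂ) x)
      (φ : G → ℂ) = c := by
  classical
  have hp : p.Prime := hM.1
  have hMp : M.IsPrime := isPrime_of_modular hM
  have hp0 : (p : ℂ) ≠ 0 := by exact_mod_cast hp.ne_zero
  have hG0 := card_ne_zero (G := G)
  obtain ⟨a, ha⟩ : ∃ a : ℕ, a = (Nat.card G).factorization p := ⟨_, rfl⟩
  obtain ⟨nψ, hnpos, hn⟩ := irr_apply_one_pos ψ.2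
  have hdeg : charDegree (ψ : G → ℂ) = nψ := charDegree_eq hn
  rw [hdeg, ← ha] at hae
  rw [← ha] at hea
  obtain ⟨F, hF⟩ : ∃ F : G → ℂ, F = fun x => (p : ℂ) ^ e * pRegularPart p (ψ : G → ℂ) x :=
    ⟨_, rfl⟩
  obtain ⟨F0, hF0⟩ : ∃ F0 : G → ℂ, F0 = fun x : G => if p ∣ orderOf x then (0 : ℂ) else
      ((p ^ (Nat.card G).factorization p : ℕ) : ℂ) * (ψ : G → ℂ) x := ⟨_, rfl⟩
  have hF0F : F0 = ((p : ℂ) ^ (a - e)) • F := by
    rw [hF0, hF]
    funext x
    simp only [Pi.smul_apply, smul_eq_mul, pRegularPart_apply]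
    by_cases hx : p ∣ orderOf x
    · simp [hx]
    · rw [if_neg hx, if_neg hx, ← ha]
      have h1 : p ^ a = p ^ (a - e) * p ^ e := by
        rw [← pow_add]
        congr 1
        omega
      rw [h1]
      push_cast
      ring
  have hgen : IsGeneralizedCharacter G F0 := by
    rw [hF0]
    exact Cfsg.Agent.S0961.result p ψ
  obtain ⟨α, β, hα, hβ, hαβ⟩ := hgen
  obtain ⟨n0, hn0⟩ : ∃ n : ℤ, classInner F0 (φ : G → ℂ) = (n : ℂ) := by
    obtain ⟨n₁, h₁⟩ := classInner_nat hα (isCharacter_of_irr φ.2)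
    obtain ⟨n₂, h₂⟩ := classInner_nat hβ (isCharacter_of_irr φ.2)
    refine ⟨(n₁ : ℤ) - n₂, ?_⟩
    rw [hαβ, classInner_sub_left, h₁, h₂]
    push_cast
    ring
  rw [hF0F, classInner_smul_left] at hn0
  have hom := memLocalRing_om (M := M) ψ.2 (isClassFunction_regConj p φ)
    (fun g => memLocalRing_regConj p φ g)
  have hcoef : MemLocalRing M (((p ^ e * nψ : ℕ) : ℂ) / ((Nat.card G : ℕ) : ℂ)) := by
    apply memLocalRing_of_factorization_le hM Nat.card_pos.ne'
    rw [Nat.factorization_mul (pow_ne_zero _ hp.ne_zero) hnpos.ne', Nat.factorization_pow]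
    simp only [Finsupp.coe_add, Finsupp.coe_smul, Pi.add_apply, Pi.smul_apply, smul_eq_mul,
      hp.factorization_self, mul_one]
    rw [← ha]
    exact hae
  have hloc : MemLocalRing M (classInner F (φ : G → ℂ)) := by
    rw [hF, regInner_eq_om, hn]
    have h2 : ((p : ℂ) ^ e * (nψ : ℂ) / (Nat.card G : ℂ)) =
        (((p ^ e * nψ : ℕ) : ℂ) / ((Nat.card G : ℕ) : ℂ)) := by
      push_cast
      rfl
    rw [h2]
    exact memLocalRing_mul hcoef hom
  have hpk0 : ((p : ℂ) ^ (a - e)) ≠ 0 := pow_ne_zero _ hp0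
  have hval : classInner F (φ : G → ℂ) = (n0 : ℂ) / (p : ℂ) ^ (a - e) := by
    rw [← hn0]
    field_simp
  rw [hval] at hloc
  obtain ⟨c, rfl⟩ := int_dvd_of_memLocalRing hM (a - e) n0 hloc
  refine ⟨c, ?_⟩
  rw [← hF, hval]
  push_cast
  field_simp

/-- A class function all of whose inner products with the irreducible characters are integers
is a generalized character. -/
theorem isGen_of_int_inner {f : G → ℂ} (hf : IsClassFunction G f)
    (h : ∀ φ : IrrCharacter G, ∃ n : ℤ, classInner f (φ : G → ℂ) = n) :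
    IsGeneralizedCharacter G f := by
  classical
  have hfin := irr_finite (G := G)
  let inst2 : Fintype (IrrCharacter G) := Fintype.ofFinite _
  rw [classFunction_eq_sum f hf]
  apply isGen_sum
  intro φ _
  obtain ⟨n, hn⟩ := h φ
  rw [hn]
  exact isGen_intCast_smul n (isGen_of_char (isCharacter_of_irr φ.2))

end Cfsg.Agent.Lib_helper3_RegSpan2
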