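import Cfsg.Statements.S4425
import Cfsg.Agent.Lib_helper3_RegSpan2

set_option autoImplicit false
open Cfsg

namespace Cfsg.Agent.S4425
open Cfsg.Agent.Lib_helper3_CharBasic Cfsg.Agent.Lib_helper3_CharMore
  Cfsg.Agent.Lib_helper3_Local Cfsg.Agent.Lib_helper3_Local2 Cfsg.Agent.Lib_helper3_BlockAlg
  Cfsg.Agent.Lib_helper3_RegSpan Cfsg.Agent.Lib_helper3_RegSpan2 Cfsg.Agent.Lib_helper3_CharInd
  Cfsg.Agent.Lib_helper3_DefectZero
open scoped ComplexConjugate


/-- Let χ be an irreducible character of the finite group G, p a prime, p^a the p-part of the order of G and p^b the p-part of the degree χ(1). Let χ̃ be the class function equal to p^a · χ on p-regular elements and zero on p-singular elements. Then p^(−b) · χ̃ is a generalized character of G, while p^(−(b+1)) · χ̃ is not. -/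
theorem result {G : Type*} [Group G] [Finite G] (p : ℕ) [Fact p.Prime] (χ : Cfsg.IrrCharacter G) : Cfsg.IsGeneralizedCharacter G (fun x : G => if p ∣ orderOf x then (0 : ℂ) else ((p ^ ((Nat.card G).factorization p - (Cfsg.charDegree (χ : G → ℂ)).factorization p) : ℕ) : ℂ) * (χ : G → ℂ) x) ∧ ¬ Cfsg.IsGeneralizedCharacter G (fun x : G => if p ∣ orderOf x then (0 : ℂ) else ((p ^ (Nat.card G).factorization p : ℕ) : ℂ) / ((p ^ ((Cfsg.charDegree (χ : G → ℂ)).factorization p + 1) : ℕ) : ℂ) * (χ : G → ℂ) x) := by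
  classical
  let inst : Fintype G := Fintype.ofFinite G
  have hp : p.Prime := Fact.out
  have hp0 : (p : ℂ) ≠ 0 := by exact_mod_cast hp.ne_zero
  obtain ⟨M, hM⟩ := exists_pModular p hp
  obtain ⟨a, ha⟩ : ∃ a : ℕ, a = (Nat.card G).factorization p := ⟨_, rfl⟩
  obtain ⟨b, hb⟩ : ∃ b : ℕ, b = (charDegree (χ : G → ℂ)).factorization p := ⟨_, rfl⟩
  obtain ⟨n, hnpos, hn⟩ := irr_apply_one_pos χ.2
  have hdeg : charDegree (χ : G → ℂ) = n := charDegree_eq hn
  rw [← ha, ← hb]
  constructor
  · have heq : (fun x : G => if p ∣ orderOf x then (0 : ℂ) else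
        ((p ^ (a - b) : ℕ) : ℂ) * (χ : G → ℂ) x) =
        fun x => (p : ℂ) ^ (a - b) * pRegularPart p (χ : G → ℂ) x := by
      funext x
      rw [pRegularPart_apply]
      split_ifs
      · simp
      · push_cast
        rfl
    rw [heq]
    apply isGen_of_int_inner
    · intro g k
      show (p : ℂ) ^ (a - b) * pRegularPart p (χ : G → ℂ) (k * g * k⁻¹) =
        (p : ℂ) ^ (a - b) * pRegularPart p (χ : G → ℂ) g
      rw [isClassFunction_pRegularPart p (isClassFunction_of_irr χ.2) g k]
    · intro φ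
      apply regInner_int_gen hM χ φ (a - b)
      · rw [← ha]
        exact Nat.sub_le _ _
      · rw [← ha, ← hb]
        omega
  · intro hgen
    obtain ⟨α, β, hα, hβ, hαβ⟩ := hgen
    obtain ⟨P⟩ : Nonempty (Sylow p G) := inferInstance
    let instP : Fintype (P : Subgroup G) := Fintype.ofFinite _
    obtain ⟨n₁, h₁⟩ := classInner_nat (isCharacter_restrict (P : Subgroup G) hα)
      (isCharacter_one (G := (P : Subgroup G)))
    obtain ⟨n₂, h₂⟩ := classInner_nat (isCharacter_restrict (P : Subgroup G) hβ)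
      (isCharacter_one (G := (P : Subgroup G)))
    obtain ⟨Θ, hΘ⟩ : ∃ Θ : G → ℂ, Θ = fun x : G => if p ∣ orderOf x then (0 : ℂ) else
        ((p ^ a : ℕ) : ℂ) / ((p ^ (b + 1) : ℕ) : ℂ) * (χ : G → ℂ) x := ⟨_, rfl⟩
    rw [← hΘ] at hαβ
    have hsub : classInner (fun y : (P : Subgroup G) => Θ y) (fun _ => (1 : ℂ)) =
        (n₁ : ℂ) - n₂ := by
      have h3 : (fun y : (P : Subgroup G) => Θ y) =
          (fun y : (P : Subgroup G) => α y) - (fun y : (P : Subgroup G) => β y) := by
        funext y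
        rw [hαβ]
        rfl
      rw [h3, classInner_sub_left, h₁, h₂]
    have hcard : Nat.card (P : Subgroup G) = p ^ a := by
      rw [ha]
      exact Sylow.card_eq_multiplicity P
    have hdirect : classInner (fun y : (P : Subgroup G) => Θ y) (fun _ => (1 : ℂ)) =
        (n : ℂ) / (p : ℂ) ^ (b + 1) := by
      rw [classInner_def]
      have hsum : ∑ y : (P : Subgroup G), Θ y * conj (1 : ℂ) = Θ 1 := by
        rw [Finset.sum_eq_single (1 : (P : Subgroup G))]
        · simp
        · intro y _ hy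
          have hord : p ∣ orderOf (y : G) := by
            rw [Subgroup.orderOf_coe]
            obtain ⟨k, hk⟩ := (IsPGroup.iff_orderOf.mp P.isPGroup') y
            rw [hk]
            have hk0 : k ≠ 0 := by
              intro h0
              rw [h0, pow_zero, orderOf_eq_one_iff] at hk
              exact hy hk
            exact dvd_pow_self p hk0
          rw [hΘ]
          show (if p ∣ orderOf (y : G) then (0 : ℂ) else
            ((p ^ a : ℕ) : ℂ) / ((p ^ (b + 1) : ℕ) : ℂ) * (χ : G → ℂ) y) * conj (1 : ℂ) = 0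
          rw [if_pos hord, zero_mul]
        · intro h
          exact absurd (Finset.mem_univ _) h
      rw [hsum, hΘ]
      have h1 : ¬ p ∣ orderOf (1 : G) := by
        rw [orderOf_one]
        exact hp.one_lt.ne' ∘ Nat.dvd_one.mp
      simp only [if_neg h1]
      rw [hcard, hn]
      push_cast
      field_simp
    rw [hsub] at hdirect
    have hpb : ((p : ℂ) ^ (b + 1)) ≠ 0 := pow_ne_zero _ hp0
    have h4 : (n : ℂ) = (p : ℂ) ^ (b + 1) * ((n₁ : ℂ) - n₂) := by
      rw [hdirect]
      field_simp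
    have h5 : (n : ℤ) = (p : ℤ) ^ (b + 1) * ((n₁ : ℤ) - n₂) := by exact_mod_cast h4
    have h6 : ((p ^ (b + 1) : ℕ) : ℤ) ∣ (n : ℤ) := ⟨(n₁ : ℤ) - n₂, by rw [h5]; push_cast; ring⟩
    have h7 : p ^ (b + 1) ∣ n := Int.natCast_dvd_natCast.mp h6
    rw [hb, hdeg] at h7
    exact Nat.pow_succ_factorization_not_dvd hnpos.ne' hp h7
end Cfsg.Agent.S4425
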