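import Mathlib
import Cfsg.Prelude.Def_Characters
import Cfsg.Prelude.Def_Blocks
import Cfsg.Prelude.Def_BlockRank
import Cfsg.Agent.Lib_helper3_RegSpan2
import Cfsg.Agent.S4425

set_option autoImplicit false
open Cfsg
open Cfsg.Agent.Lib_helper3_CharBasic Cfsg.Agent.Lib_helper3_CharMore
  Cfsg.Agent.Lib_helper3_Local Cfsg.Agent.Lib_helper3_Local2 Cfsg.Agent.Lib_helper3_BlockAlg
  Cfsg.Agent.Lib_helper3_Residue Cfsg.Agent.Lib_helper3_BrauerHom2
  Cfsg.Agent.Lib_helper3_DefectCard2 Cfsg.Agent.Lib_helper3_CharInd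
  Cfsg.Agent.Lib_helper3_BlockOrth Cfsg.Agent.Lib_helper3_DefectZero
  Cfsg.Agent.Lib_helper3_CharDiag Cfsg.Agent.Lib_helper3_RegSpan
  Cfsg.Agent.Lib_helper3_GenChar Cfsg.Agent.Lib_helper3_IntLemmas
  Cfsg.Agent.Lib_helper3_RegSpan2 Cfsg.Agent.Lib_helper3_ThirdMain
open scoped ComplexConjugate

namespace Cfsg.Agent.Lib_helper3_HeightZero

universe u

variable {G : Type u} [Group G] [Fintype G] {M : Ideal AlgInt} {p : ℕ}

/-- The inner product of `p ^ a` times the `p`-regular restriction of `χ` with `ξ`, `p ^ a`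
being the `p`-part of the group order. -/
noncomputable def tw (p : ℕ) (χ ξ : IrrCharacter G) : ℂ :=
  classInner (fun x => (p : ℂ) ^ (Nat.card G).factorization p * pRegularPart p (χ : G → ℂ) x)
    (ξ : G → ℂ)

theorem tw_int [Fact p.Prime] (hM : IsPModular p M) (χ ξ : IrrCharacter G) :
    ∃ n : ℤ, tw p χ ξ = n :=
  regInner_int_gen hM χ ξ _ le_rfl (Nat.le_add_right _ _)

theorem tw_symm [Fact p.Prime] (hM : IsPModular p M) (χ ξ : IrrCharacter G) :
    tw p χ ξ = tw p ξ χ := by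
  obtain ⟨n, hn⟩ := tw_int hM ξ χ
  have h := regInner_symm p (χ : G → ℂ) (ξ : G → ℂ) ((p : ℝ) ^ (Nat.card G).factorization p)
  have hc : (((p : ℝ) ^ (Nat.card G).factorization p : ℝ) : ℂ) =
      (p : ℂ) ^ (Nat.card G).factorization p := by
    push_cast
    rfl
  rw [hc] at h
  unfold tw
  rw [h]
  have h2 : classInner (fun x => (p : ℂ) ^ (Nat.card G).factorization p *
      pRegularPart p (ξ : G → ℂ) x) (χ : G → ℂ) = (n : ℂ) := hn
  rw [h2]
  simp

theorem tw_div (hM : IsPModular p M) [Fact p.Prime] (χ ξ : IrrCharacter G) :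
    tw p χ ξ / (ξ : G → ℂ) 1 = ((p : ℂ) ^ (Nat.card G).factorization p / (Nat.card G : ℂ)) *
      Om (ξ : G → ℂ) (regConj p (χ : G → ℂ)) := by
  obtain ⟨nξ, hnpos, hn⟩ := irr_apply_one_pos ξ.2
  have hnξ0 : (nξ : ℂ) ≠ 0 := by exact_mod_cast hnpos.ne'
  have hG0 := card_ne_zero (G := G)
  rw [tw_symm hM χ ξ]
  unfold tw
  rw [regInner_eq_om, hn]
  field_simp

theorem coef_memLocalRing (hM : IsPModular p M) :
    MemLocalRing M ((p : ℂ) ^ (Nat.card G).factorization p / (Nat.card G : ℂ)) := by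
  have hp : p.Prime := hM.1
  have h := memLocalRing_of_factorization_le hM (u := p ^ (Nat.card G).factorization p)
    (v := Nat.card G) Nat.card_pos.ne' (by
      rw [Nat.factorization_pow]
      simp [hp.factorization_self])
  have h2 : (((p ^ (Nat.card G).factorization p : ℕ) : ℂ) / ((Nat.card G : ℕ) : ℂ)) =
      ((p : ℂ) ^ (Nat.card G).factorization p / (Nat.card G : ℂ)) := by
    push_cast
    rfl
  rw [h2] at h
  exact h

theorem tw_div_memLocalRing [Fact p.Prime] (hM : IsPModular p M) (χ ξ : IrrCharacter G) :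
    MemLocalRing M (tw p χ ξ / (ξ : G → ℂ) 1) := by
  have hMp : M.IsPrime := isPrime_of_modular hM
  rw [tw_div hM]
  exact memLocalRing_mul (coef_memLocalRing hM)
    (memLocalRing_om (M := M) ξ.2 (isClassFunction_regConj p χ)
      (fun g => memLocalRing_regConj p χ g))

theorem tw_congr [Fact p.Prime] (hM : IsPModular p M) {B : Set (IrrCharacter G)}
    (hB : IsPBlock M B) (χ : IrrCharacter G) {ξ ξ' : IrrCharacter G} (hξ : ξ ∈ B) (hξ' : ξ' ∈ B) :
    MemLocalIdeal M (tw p χ ξ / (ξ : G → ℂ) 1 - tw p χ ξ' / (ξ' : G → ℂ) 1) := by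
  have hMp : M.IsPrime := isPrime_of_modular hM
  rw [tw_div hM, tw_div hM, ← mul_sub]
  apply memLocalIdeal_mul_left (coef_memLocalRing hM)
  exact om_congr (isClassFunction_of_irr ξ.2) (isClassFunction_of_irr ξ'.2)
    (sameBlock_of_mem hB hξ hξ') (isClassFunction_regConj p χ)
    (fun g => memLocalRing_regConj p χ g)

theorem tw_memLocalIdeal_iff [Fact p.Prime] (hM : IsPModular p M) {B : Set (IrrCharacter G)}
    (hB : IsPBlock M B) (χ : IrrCharacter G) {ξ ξ' : IrrCharacter G} (hξ : ξ ∈ B) (hξ' : ξ' ∈ B) :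
    MemLocalIdeal M (tw p χ ξ / (ξ : G → ℂ) 1) ↔ MemLocalIdeal M (tw p χ ξ' / (ξ' : G → ℂ) 1) := by
  have hMp : M.IsPrime := isPrime_of_modular hM
  constructor
  · intro h
    have h1 := memLocalIdeal_add (tw_congr hM hB χ hξ' hξ) h
    rwa [sub_add_cancel] at h1
  · intro h
    have h1 := memLocalIdeal_add (tw_congr hM hB χ hξ hξ') h
    rwa [sub_add_cancel] at h1

theorem tw_eq_zero [Fact p.Prime] (hM : IsPModular p M) {B : Set (IrrCharacter G)}
    (hB : IsPBlock M B) {χ ξ : IrrCharacter G} (hχ : χ ∈ B) (hξ : ξ ∉ B) : tw p χ ξ = 0 := by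
  classical
  have hMp : M.IsPrime := isPrime_of_modular hM
  unfold tw
  rw [classInner_def]
  have key := orth_regular hM (A := B) (fun g => osima hB g) hχ hξ
  have h1 : ∑ g : G, ((p : ℂ) ^ (Nat.card G).factorization p * pRegularPart p (χ : G → ℂ) g) *
      conj ((ξ : G → ℂ) g) = (p : ℂ) ^ (Nat.card G).factorization p *
        ∑ x : G, (if p ∣ orderOf x then 0 else (χ : G → ℂ) x * conj ((ξ : G → ℂ) x)) := by
    rw [Finset.mul_sum]
    apply Finset.sum_congr rfl
    intro g _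
    rw [pRegularPart_apply]
    by_cases hx : p ∣ orderOf g
    · simp [hx]
    · rw [if_neg hx, if_neg hx]
      ring
  rw [h1, key]
  simp

theorem memLocalRing_intCast (hM : M ≠ ⊤) (n : ℤ) : MemLocalRing M (n : ℂ) := by
  apply memLocalRing_of_algInt hM
  exact isIntegral_algebraMap (R := ℤ) (A := ℂ) (x := n)

/-- A quotient `n / k` of an integer by a positive natural number which is a local integer is
a local unit exactly when `n` is nonzero with the same `p`-adic valuation as `k`. -/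
theorem unit_iff [Fact p.Prime] (hM : IsPModular p M) (n : ℤ) (k : ℕ) (hk : k ≠ 0)
    (hloc : MemLocalRing M ((n : ℂ) / (k : ℂ))) :
    ¬ MemLocalIdeal M ((n : ℂ) / (k : ℂ)) ↔ (n ≠ 0 ∧ padicValInt p n = k.factorization p) := by
  have hp : p.Prime := hM.1
  have hMp : M.IsPrime := isPrime_of_modular hM
  have hp0 : (p : ℂ) ≠ 0 := by exact_mod_cast hp.ne_zero
  obtain ⟨t, ht⟩ : ∃ t : ℕ, t = k.factorization p := ⟨_, rfl⟩
  obtain ⟨m, hm⟩ : ∃ m : ℕ, m = k / p ^ k.factorization p := ⟨_, rfl⟩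
  have hkm : p ^ t * m = k := by
    rw [hm, ht]
    exact Nat.ordProj_mul_ordCompl_eq_self k p
  have hpm : ¬ p ∣ m := by
    rw [hm]
    exact Nat.not_dvd_ordCompl hp hk
  have hm0 : (m : ℂ) ≠ 0 := by
    intro h0
    have : m = 0 := by exact_mod_cast h0
    rw [this] at hpm
    exact hpm (dvd_zero p)
  have hkc : (k : ℂ) = (p : ℂ) ^ t * (m : ℂ) := by
    rw [← hkm]
    push_cast
    rfl
  have h1 : MemLocalRing M ((n : ℂ) / (p : ℂ) ^ t) := by
    have h2 : (n : ℂ) / (p : ℂ) ^ t = ((n : ℂ) / (k : ℂ)) * (m : ℂ) := by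
      rw [hkc]
      field_simp
    rw [h2]
    exact memLocalRing_mul hloc (memLocalRing_natCast hMp.ne_top m)
  obtain ⟨n', rfl⟩ := int_dvd_of_memLocalRing hM t n h1
  have h2 : (((p : ℤ) ^ t * n' : ℤ) : ℂ) / (k : ℂ) = (n' : ℂ) / (m : ℂ) := by
    rw [hkc]
    push_cast
    field_simp
  have hminv : MemLocalRing M ((m : ℂ)⁻¹) :=
    memLocalRing_inv (memLocalRing_natCast hMp.ne_top m) (not_memLocalIdeal_natCast hM hpm)
  have hiff : MemLocalIdeal M ((n' : ℂ) / (m : ℂ)) ↔ (p : ℤ) ∣ n' := by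
    constructor
    · intro h
      apply int_dvd_of_memLocalIdeal hM
      have h3 : (n' : ℂ) = (m : ℂ) * ((n' : ℂ) / (m : ℂ)) := by field_simp
      rw [h3]
      exact memLocalIdeal_mul_left (memLocalRing_natCast hMp.ne_top m) h
    · rintro ⟨c, rfl⟩
      have h3 : (((p : ℤ) * c : ℤ) : ℂ) / (m : ℂ) = ((c : ℂ) * (m : ℂ)⁻¹) * ((p : ℕ) : ℂ) := by
        push_cast
        field_simp
      rw [h3]
      exact memLocalIdeal_mul_left (memLocalRing_mul (memLocalRing_intCast hMp.ne_top c) hminv)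
        (memLocalIdeal_natCast hM (dvd_refl p))
  rw [h2, hiff, ← ht]
  have hpt0 : ((p : ℤ) ^ t) ≠ 0 := pow_ne_zero _ (by exact_mod_cast hp.ne_zero)
  constructor
  · intro hnd
    have hn'0 : n' ≠ 0 := by
      rintro rfl
      exact hnd (dvd_zero _)
    have hn0 : (p : ℤ) ^ t * n' ≠ 0 := mul_ne_zero hpt0 hn'0
    refine ⟨hn0, ?_⟩
    have h3 := (padicValInt_dvd_iff (p := p) t ((p : ℤ) ^ t * n')).mp (dvd_mul_right _ _)
    have h4 : ¬ ((p : ℤ) ^ (t + 1) ∣ (p : ℤ) ^ t * n') := by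
      intro h5
      rw [pow_succ] at h5
      exact hnd ((mul_dvd_mul_iff_left hpt0).mp h5)
    rw [padicValInt_dvd_iff (p := p) (t + 1) ((p : ℤ) ^ t * n')] at h4
    push Not at h4
    rcases h3 with h3 | h3
    · exact absurd h3 hn0
    · omega
  · rintro ⟨hn0, hv⟩ hd
    have h5 : (p : ℤ) ^ (t + 1) ∣ (p : ℤ) ^ t * n' := by
      rw [pow_succ]
      exact mul_dvd_mul_left _ hd
    rw [padicValInt_dvd_iff (p := p) (t + 1) ((p : ℤ) ^ t * n')] at h5
    rcases h5 with h5 | h5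
    · exact hn0 h5
    · omega

/-- A height-zero character `ψ` has `[ψ̃, ψ] / ψ(1)` a local unit. -/
theorem unit_of_height_zero [Fact p.Prime] (hM : IsPModular p M) {B : Set (IrrCharacter G)}
    (hB : IsPBlock M B) {ψ : IrrCharacter G} (hψ : ψ ∈ B)
    (hh : blockHeight p B (ψ : G → ℂ) = 0) :
    ¬ MemLocalIdeal M (tw p ψ ψ / (ψ : G → ℂ) 1) := by
  classical
  intro hideal
  have hp : p.Prime := hM.1
  have hMp : M.IsPrime := isPrime_of_modular hM
  have hp0 : (p : ℂ) ≠ 0 := by exact_mod_cast hp.ne_zero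
  obtain ⟨b, hb⟩ : ∃ b : ℕ, b = (charDegree (ψ : G → ℂ)).factorization p := ⟨_, rfl⟩
  obtain ⟨S, hS⟩ : ∃ S : Set ℕ, S = (fun χ : IrrCharacter G =>
      (charDegree (χ : G → ℂ)).factorization p) '' B := ⟨_, rfl⟩
  have hbS : b = sInf S := by
    have h1 : sInf S ≤ b := Nat.sInf_le (by rw [hS, hb]; exact ⟨ψ, hψ, rfl⟩)
    unfold blockHeight at hh
    rw [← hS, ← hb] at hh
    omega
  have hdiv : ∀ ξ : IrrCharacter G, ∃ c : ℤ, tw p ψ ξ = (((p : ℤ) ^ (b + 1) * c : ℤ) : ℂ) := by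
    intro ξ
    by_cases hξ : ξ ∈ B
    · obtain ⟨n, hn⟩ := tw_int hM ψ ξ
      obtain ⟨k, hkpos, hk⟩ := irr_apply_one_pos ξ.2
      have hdeg : charDegree (ξ : G → ℂ) = k := charDegree_eq hk
      have hbk : b ≤ k.factorization p := by
        rw [hbS]
        apply Nat.sInf_le
        rw [hS]
        exact ⟨ξ, hξ, by show (charDegree (ξ : G → ℂ)).factorization p = _; rw [hdeg]⟩
      have hid : MemLocalIdeal M (tw p ψ ξ / (ξ : G → ℂ) 1) :=
        (tw_memLocalIdeal_iff hM hB ψ hξ hψ).mpr hideal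
      rw [hn, hk] at hid
      obtain ⟨m, hm⟩ : p ^ b ∣ k := (pow_dvd_pow p hbk).trans (Nat.ordProj_dvd k p)
      have hm0 : (m : ℂ) ≠ 0 := by
        intro h0
        have h00 : m = 0 := by exact_mod_cast h0
        rw [h00, mul_zero] at hm
        omega
      have h1 : MemLocalIdeal M ((n : ℂ) / (p : ℂ) ^ b) := by
        have h2 : (n : ℂ) / (p : ℂ) ^ b = (m : ℂ) * ((n : ℂ) / (k : ℂ)) := by
          rw [hm]
          push_cast
          field_simp
        rw [h2]
        exact memLocalIdeal_mul_left (memLocalRing_natCast hMp.ne_top m) hid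
      obtain ⟨n', rfl⟩ := int_dvd_of_memLocalRing hM b n (memLocalRing_of_memLocalIdeal h1)
      have h2 : (((p : ℤ) ^ b * n' : ℤ) : ℂ) / (p : ℂ) ^ b = (n' : ℂ) := by
        push_cast
        field_simp
      rw [h2] at h1
      obtain ⟨c, rfl⟩ := int_dvd_of_memLocalIdeal hM h1
      refine ⟨c, ?_⟩
      rw [hn]
      congr 1
      ring
    · exact ⟨0, by rw [tw_eq_zero hM hB hψ hξ]; simp⟩
  have hgen : IsGeneralizedCharacter G (fun x : G => if p ∣ orderOf x then (0 : ℂ) else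
      ((p ^ (Nat.card G).factorization p : ℕ) : ℂ) /
        ((p ^ ((charDegree (ψ : G → ℂ)).factorization p + 1) : ℕ) : ℂ) * (ψ : G → ℂ) x) := by
    have heq : (fun x : G => if p ∣ orderOf x then (0 : ℂ) else
        ((p ^ (Nat.card G).factorization p : ℕ) : ℂ) /
          ((p ^ ((charDegree (ψ : G → ℂ)).factorization p + 1) : ℕ) : ℂ) * (ψ : G → ℂ) x) =
        fun x => ((p : ℂ) ^ (b + 1))⁻¹ *
          ((p : ℂ) ^ (Nat.card G).factorization p * pRegularPart p (ψ : G → ℂ) x) := by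
      funext x
      rw [pRegularPart_apply, ← hb]
      split_ifs
      · simp
      · push_cast
        field_simp
    rw [heq]
    apply isGen_of_int_inner
    · intro g k
      show ((p : ℂ) ^ (b + 1))⁻¹ * ((p : ℂ) ^ (Nat.card G).factorization p *
          pRegularPart p (ψ : G → ℂ) (k * g * k⁻¹)) =
        ((p : ℂ) ^ (b + 1))⁻¹ * ((p : ℂ) ^ (Nat.card G).factorization p *
          pRegularPart p (ψ : G → ℂ) g)
      rw [isClassFunction_pRegularPart p (isClassFunction_of_irr ψ.2) g k]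
    · intro ξ
      obtain ⟨c, hc⟩ := hdiv ξ
      refine ⟨c, ?_⟩
      have h3 : (fun x => ((p : ℂ) ^ (b + 1))⁻¹ * ((p : ℂ) ^ (Nat.card G).factorization p *
          pRegularPart p (ψ : G → ℂ) x)) = ((p : ℂ) ^ (b + 1))⁻¹ •
          (fun x => (p : ℂ) ^ (Nat.card G).factorization p *
            pRegularPart p (ψ : G → ℂ) x) := rfl
      rw [h3, classInner_smul_left]
      have h4 : classInner (fun x => (p : ℂ) ^ (Nat.card G).factorization p *
          pRegularPart p (ψ : G → ℂ) x) (ξ : G → ℂ) = tw p ψ ξ := rfl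
      rw [h4, hc]
      push_cast
      field_simp
  exact (Cfsg.Agent.S4425.result p ψ).2 hgen

/-- The valuation condition on `[χ̃, ξ]` holds exactly when `[χ̃, χ] / χ(1)` is a local
unit. -/
theorem val_iff [Fact p.Prime] (hM : IsPModular p M) {B : Set (IrrCharacter G)}
    (hB : IsPBlock M B) {χ ξ : IrrCharacter G} (hχ : χ ∈ B) (hξ : ξ ∈ B) :
    (∃ n : ℤ, tw p χ ξ = (n : ℂ) ∧ n ≠ 0 ∧
      padicValInt p n = (charDegree (ξ : G → ℂ)).factorization p) ↔
      ¬ MemLocalIdeal M (tw p χ χ / (χ : G → ℂ) 1) := by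
  obtain ⟨n₀, hn₀⟩ := tw_int hM χ ξ
  obtain ⟨k, hkpos, hk⟩ := irr_apply_one_pos ξ.2
  have hdeg : charDegree (ξ : G → ℂ) = k := charDegree_eq hk
  have hloc := tw_div_memLocalRing hM χ ξ
  rw [hn₀, hk] at hloc
  have hu := unit_iff hM n₀ k hkpos.ne' hloc
  have hcong := tw_memLocalIdeal_iff hM hB χ hξ hχ
  rw [hn₀, hk] at hcong
  rw [← hcong, hu, hdeg]
  constructor
  · rintro ⟨n, hn, h1, h2⟩
    have h3 : n = n₀ := by
      rw [hn₀] at hn
      exact_mod_cast hn.symm
    subst h3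
    exact ⟨h1, h2⟩
  · rintro ⟨h1, h2⟩
    exact ⟨n₀, hn₀, h1, h2⟩

/-- Height zero is detected by `[χ̃, χ] / χ(1)` being a local unit. -/
theorem height_zero_iff [Fact p.Prime] (hM : IsPModular p M) {B : Set (IrrCharacter G)}
    (hB : IsPBlock M B) {χ : IrrCharacter G} (hχ : χ ∈ B) :
    blockHeight p B (χ : G → ℂ) = 0 ↔ ¬ MemLocalIdeal M (tw p χ χ / (χ : G → ℂ) 1) := by
  constructor
  · exact unit_of_height_zero hM hB hχ
  · intro hU
    obtain ⟨S, hS⟩ : ∃ S : Set ℕ, S = (fun χ : IrrCharacter G =>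
        (charDegree (χ : G → ℂ)).factorization p) '' B := ⟨_, rfl⟩
    have hne : S.Nonempty := ⟨_, by rw [hS]; exact ⟨χ, hχ, rfl⟩⟩
    obtain ⟨ψ, hψ, hψe⟩ : sInf S ∈ (fun χ : IrrCharacter G =>
        (charDegree (χ : G → ℂ)).factorization p) '' B := by
      rw [← hS]
      exact Nat.sInf_mem hne
    have h1 : (charDegree (ψ : G → ℂ)).factorization p = sInf S := hψe
    have hψ0 : blockHeight p B (ψ : G → ℂ) = 0 := by
      unfold blockHeight
      rw [← hS, h1]
      exact Nat.sub_self _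
    obtain ⟨n, hn, hn0, hnv⟩ := (val_iff hM hB hχ hψ).mpr hU
    obtain ⟨n', hn', hn0', hnv'⟩ := (val_iff hM hB hψ hχ).mpr (unit_of_height_zero hM hB hψ hψ0)
    have h2 : n = n' := by
      rw [tw_symm hM χ ψ, hn'] at hn
      exact_mod_cast hn.symm
    subst h2
    unfold blockHeight
    rw [← hS, ← hnv', hnv, h1]
    exact Nat.sub_self _

end Cfsg.Agent.Lib_helper3_HeightZero
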