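import Mathlib
import Cfsg.Prelude.Def_Characters
import Cfsg.Prelude.Def_Blocks
import Cfsg.Prelude.Def_BlockRank
import Cfsg.Agent.Lib_helper3_HeightZero
import Cfsg.Agent.Lib_helper3_CharOdd

set_option autoImplicit false
open Cfsg
open Cfsg.Agent.Lib_helper3_CharBasic Cfsg.Agent.Lib_helper3_CharMore
  Cfsg.Agent.Lib_helper3_Local Cfsg.Agent.Lib_helper3_Local2 Cfsg.Agent.Lib_helper3_BlockAlg
  Cfsg.Agent.Lib_helper3_Residue Cfsg.Agent.Lib_helper3_BrauerHom2
  Cfsg.Agent.Lib_helper3_DefectCard2 Cfsg.Agent.Lib_helper3_CharInd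
  Cfsg.Agent.Lib_helper3_BlockOrth Cfsg.Agent.Lib_helper3_DefectZero
  Cfsg.Agent.Lib_helper3_CharDiag Cfsg.Agent.Lib_helper3_RegSpan
  Cfsg.Agent.Lib_helper3_GenChar Cfsg.Agent.Lib_helper3_IntLemmas
  Cfsg.Agent.Lib_helper3_RegSpan2 Cfsg.Agent.Lib_helper3_ThirdMain
  Cfsg.Agent.Lib_helper3_HeightZero
open scoped ComplexConjugate

namespace Cfsg.Agent.Lib_helper3_BrauerFeit

universe u

variable {G : Type u} [Group G] [Fintype G] {M : Ideal AlgInt} {p : ℕ}

/-- The inner product of `p ^ d` times the `p`-regular restriction of `χ` with `ψ`, `d` being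
the defect of `B`. -/
noncomputable def cc (p : ℕ) (B : Set (IrrCharacter G)) (χ ψ : IrrCharacter G) : ℂ :=
  classInner (fun x => (p : ℂ) ^ blockDefect p B * pRegularPart p (χ : G → ℂ) x) (ψ : G → ℂ)

theorem cc_int [Fact p.Prime] (hM : IsPModular p M) {B : Set (IrrCharacter G)}
    (hB : IsPBlock M B) {χ : IrrCharacter G} (hχ : χ ∈ B) (ψ : IrrCharacter G) :
    ∃ c : ℤ, cc p B χ ψ = c ∧ (ψ ∉ B → c = 0) :=
  regInner_int hM hB χ hχ ψ

omit [Fintype G] in
theorem blockDefect_le (p : ℕ) (B : Set (IrrCharacter G)) :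
    blockDefect p B ≤ (Nat.card G).factorization p := by
  unfold blockDefect
  exact Nat.sub_le _ _

theorem tw_eq_cc (p : ℕ) (B : Set (IrrCharacter G)) (χ ψ : IrrCharacter G) :
    tw p χ ψ = (p : ℂ) ^ ((Nat.card G).factorization p - blockDefect p B) * cc p B χ ψ := by
  unfold tw cc
  rw [← classInner_smul_left]
  congr 1
  funext x
  simp only [Pi.smul_apply, smul_eq_mul]
  rw [← mul_assoc, ← pow_add]
  congr 2
  have := blockDefect_le (G := G) p B
  omega

/-- The norm identity: the sum of the squares of the numbers `cc χ ψ` is `p ^ d * cc χ χ`. -/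
theorem cc_norm [Fintype (IrrCharacter G)] (p : ℕ) (B : Set (IrrCharacter G))
    (χ : IrrCharacter G) :
    ∑ ψ : IrrCharacter G, cc p B χ ψ * conj (cc p B χ ψ) =
      (p : ℂ) ^ blockDefect p B * cc p B χ χ := by
  classical
  obtain ⟨F, hF⟩ : ∃ F : G → ℂ, F = fun x => (p : ℂ) ^ blockDefect p B *
      pRegularPart p (χ : G → ℂ) x := ⟨_, rfl⟩
  have hFcl : IsClassFunction G F := by
    rw [hF]
    intro g k
    show (p : ℂ) ^ blockDefect p B * pRegularPart p (χ : G → ℂ) (k * g * k⁻¹) =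
      (p : ℂ) ^ blockDefect p B * pRegularPart p (χ : G → ℂ) g
    rw [isClassFunction_pRegularPart p (isClassFunction_of_irr χ.2) g k]
  have hcc : ∀ ψ : IrrCharacter G, cc p B χ ψ = classInner F (ψ : G → ℂ) := by
    intro ψ
    rw [hF]
    rfl
  have h1 : classInner F F = ∑ ψ : IrrCharacter G, cc p B χ ψ * conj (cc p B χ ψ) := by
    have h := classFunction_eq_sum F hFcl
    nth_rewrite 1 [h]
    rw [classInner_sum_left]
    apply Finset.sum_congr rfl
    intro ψ _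
    rw [classInner_smul_left, hcc, classInner_conj_symm]
  have h2 : classInner F F = (p : ℂ) ^ blockDefect p B * classInner F (χ : G → ℂ) := by
    have h3 : ∑ g : G, F g * conj (F g) =
        (p : ℂ) ^ blockDefect p B * ∑ g : G, F g * conj ((χ : G → ℂ) g) := by
      rw [Finset.mul_sum]
      apply Finset.sum_congr rfl
      intro g _
      rw [hF]
      simp only [pRegularPart_apply]
      by_cases hx : p ∣ orderOf g
      · simp [hx]
      · rw [if_neg hx, map_mul, map_pow, Complex.conj_natCast]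
        ring
    rw [classInner_def, classInner_def, h3]
    ring
  rw [← h1, h2, hcc]

/-- `cc χ χ` is a real number between `0` and `p ^ d`. -/
theorem cc_self_bounds (p : ℕ) (B : Set (IrrCharacter G)) (χ : IrrCharacter G) :
    ∃ r : ℝ, cc p B χ χ = (r : ℂ) ∧ 0 ≤ r ∧ r ≤ (p : ℝ) ^ blockDefect p B := by
  classical
  have hG0 := card_ne_zero (G := G)
  have hGpos : (0 : ℝ) < (Nat.card G : ℝ) := by exact_mod_cast Nat.card_pos
  obtain ⟨s, hs⟩ : ∃ s : ℝ, s = ∑ x : G, (if p ∣ orderOf x then 0 else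
      Complex.normSq ((χ : G → ℂ) x)) := ⟨_, rfl⟩
  obtain ⟨t, ht⟩ : ∃ t : ℝ, t = ∑ x : G, Complex.normSq ((χ : G → ℂ) x) := ⟨_, rfl⟩
  have hst : s ≤ t := by
    rw [hs, ht]
    apply Finset.sum_le_sum
    intro x _
    split_ifs
    · exact Complex.normSq_nonneg _
    · exact le_rfl
  have hs0 : 0 ≤ s := by
    rw [hs]
    apply Finset.sum_nonneg
    intro x _
    split_ifs
    · exact le_rfl
    · exact Complex.normSq_nonneg _
  have htG : t = (Nat.card G : ℝ) := by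
    have h1 := irr_orthonormal χ.2 χ.2
    rw [if_pos rfl, classInner_def] at h1
    have h2 : ∑ g : G, (χ : G → ℂ) g * conj ((χ : G → ℂ) g) = ((t : ℝ) : ℂ) := by
      rw [ht]
      push_cast
      apply Finset.sum_congr rfl
      intro g _
      rw [Complex.mul_conj]
    rw [h2] at h1
    have h3 : ((t : ℝ) : ℂ) = (Nat.card G : ℂ) := by
      field_simp at h1
      exact h1
    exact_mod_cast h3
  refine ⟨(p : ℝ) ^ blockDefect p B * s / (Nat.card G : ℝ), ?_, ?_, ?_⟩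
  · unfold cc
    rw [classInner_def]
    have h2 : ∑ g : G, ((p : ℂ) ^ blockDefect p B * pRegularPart p (χ : G → ℂ) g) *
        conj ((χ : G → ℂ) g) = (p : ℂ) ^ blockDefect p B * ((s : ℝ) : ℂ) := by
      rw [hs]
      push_cast
      rw [Finset.mul_sum]
      apply Finset.sum_congr rfl
      intro g _
      rw [pRegularPart_apply]
      by_cases hx : p ∣ orderOf g
      · simp [hx]
      · rw [if_neg hx, if_neg hx, mul_assoc, Complex.mul_conj]
    rw [h2]
    push_cast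
    field_simp
  · positivity
  · rw [div_le_iff₀ hGpos]
    have hp0 : (0 : ℝ) ≤ (p : ℝ) ^ blockDefect p B := by positivity
    rw [← htG]
    exact mul_le_mul_of_nonneg_left hst hp0

omit [Fintype G] in
theorem exists_height_zero (p : ℕ) {B : Set (IrrCharacter G)} {χ : IrrCharacter G}
    (hχ : χ ∈ B) : ∃ ψ ∈ B, blockHeight p B (ψ : G → ℂ) = 0 := by
  obtain ⟨S, hS⟩ : ∃ S : Set ℕ, S = (fun χ : IrrCharacter G =>
      (charDegree (χ : G → ℂ)).factorization p) '' B := ⟨_, rfl⟩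
  have hne : S.Nonempty := ⟨_, by rw [hS]; exact ⟨χ, hχ, rfl⟩⟩
  obtain ⟨ψ, hψ, hψe⟩ : sInf S ∈ (fun χ : IrrCharacter G =>
      (charDegree (χ : G → ℂ)).factorization p) '' B := by
    rw [← hS]
    exact Nat.sInf_mem hne
  have h1 : (charDegree (ψ : G → ℂ)).factorization p = sInf S := hψe
  refine ⟨ψ, hψ, ?_⟩
  unfold blockHeight
  rw [← hS, h1]
  exact Nat.sub_self _

theorem cc_symm [Fact p.Prime] (hM : IsPModular p M) (B : Set (IrrCharacter G))
    (χ ψ : IrrCharacter G) : cc p B χ ψ = cc p B ψ χ := by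
  have hp : p.Prime := hM.1
  have hp0 : (p : ℂ) ≠ 0 := by exact_mod_cast hp.ne_zero
  have h := tw_symm hM χ ψ
  rw [tw_eq_cc p B, tw_eq_cc p B] at h
  exact mul_left_cancel₀ (pow_ne_zero _ hp0) h

theorem cc_ne_zero [Fact p.Prime] (hM : IsPModular p M) {B : Set (IrrCharacter G)}
    (hB : IsPBlock M B) {χ ψ : IrrCharacter G} (hχ : χ ∈ B)
    (hh : blockHeight p B (χ : G → ℂ) = 0) (hψ : ψ ∈ B) : cc p B χ ψ ≠ 0 := by
  intro h0
  obtain ⟨n, hn, hn0, _⟩ := (val_iff hM hB hχ hψ).mpr (unit_of_height_zero hM hB hχ hh)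
  rw [tw_eq_cc p B, h0, mul_zero] at hn
  apply hn0
  exact_mod_cast hn.symm

/-- The Brauer–Feit bound on the number of characters in a block. -/
theorem brauer_feit [Fact p.Prime] (hM : IsPModular p M) {B : Set (IrrCharacter G)}
    (hB : IsPBlock M B) : 4 * Nat.card B ≤ p ^ (2 * blockDefect p B) + 4 := by
  classical
  have hfin := irr_finite (G := G)
  let inst2 : Fintype (IrrCharacter G) := Fintype.ofFinite _
  have hp : p.Prime := hM.1
  have hMp : M.IsPrime := isPrime_of_modular hM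
  obtain ⟨χ₁, hχ₁⟩ : ∃ χ₁ : IrrCharacter G, χ₁ ∈ B := by
    obtain ⟨χ₁, rfl⟩ := hB
    exact ⟨χ₁, mem_blockOf_self hMp.ne_top χ₁⟩
  obtain ⟨χ, hχ, hh⟩ := exists_height_zero p hχ₁
  choose m hm using fun ψ => cc_int hM hB hχ ψ
  obtain ⟨d, hd⟩ : ∃ d : ℕ, d = blockDefect p B := ⟨_, rfl⟩
  have hnorm : ∑ ψ : IrrCharacter G, (m ψ) ^ 2 = (p : ℤ) ^ d * m χ := by
    have h := cc_norm p B χ
    rw [(hm χ).1, ← hd] at h
    have h2 : ∑ ψ : IrrCharacter G, cc p B χ ψ * conj (cc p B χ ψ) =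
        ((∑ ψ : IrrCharacter G, (m ψ) ^ 2 : ℤ) : ℂ) := by
      push_cast
      apply Finset.sum_congr rfl
      intro ψ _
      rw [(hm ψ).1, map_intCast]
      ring
    rw [h2] at h
    exact_mod_cast h
  have hmne : ∀ ψ ∈ B, m ψ ≠ 0 := by
    intro ψ hψ h0
    have h1 := cc_ne_zero hM hB hχ hh hψ
    rw [(hm ψ).1, h0] at h1
    exact h1 (by simp)
  obtain ⟨T, hT⟩ : ∃ T : Finset (IrrCharacter G), T = Finset.univ.filter (fun ψ => ψ ∈ B) :=
    ⟨_, rfl⟩
  have hcard : Nat.card B = T.card := by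
    rw [hT, Nat.card_eq_fintype_card, Fintype.card_subtype]
  have hχT : χ ∈ T := by
    rw [hT]
    simp [hχ]
  have hsum : ∑ ψ : IrrCharacter G, (m ψ) ^ 2 = ∑ ψ ∈ T, (m ψ) ^ 2 := by
    symm
    apply Finset.sum_subset (Finset.subset_univ _)
    intro ψ _ hψ
    have hψB : ψ ∉ B := by
      intro h
      apply hψ
      rw [hT]
      simp [h]
    rw [(hm ψ).2 hψB]
    simp
  have hsplit : ∑ ψ ∈ T, (m ψ) ^ 2 = (m χ) ^ 2 + ∑ ψ ∈ T.erase χ, (m ψ) ^ 2 :=
    (Finset.add_sum_erase T (fun ψ => (m ψ) ^ 2) hχT).symm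
  have hge : ((T.erase χ).card : ℤ) ≤ ∑ ψ ∈ T.erase χ, (m ψ) ^ 2 := by
    have h1 : ∑ ψ ∈ T.erase χ, (1 : ℤ) ≤ ∑ ψ ∈ T.erase χ, (m ψ) ^ 2 := by
      apply Finset.sum_le_sum
      intro ψ hψ
      have hψB : ψ ∈ B := by
        have := Finset.mem_of_mem_erase hψ
        rw [hT] at this
        simpa using this
      have h2 := hmne ψ hψB
      have h3 : 0 < (m ψ) ^ 2 := by positivity
      omega
    simpa using h1
  have hcard2 : (T.erase χ).card = T.card - 1 := Finset.card_erase_of_mem hχT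
  have hTpos : 1 ≤ T.card := Finset.card_pos.mpr ⟨χ, hχT⟩
  rw [hcard, ← hd]
  have key : ((T.card : ℤ) - 1) + (m χ) ^ 2 ≤ (p : ℤ) ^ d * m χ := by
    rw [← hnorm, hsum, hsplit]
    have h5 : ((T.erase χ).card : ℤ) = (T.card : ℤ) - 1 := by
      rw [hcard2]
      push_cast [hTpos]
      ring
    linarith
  have hfinal : (4 : ℤ) * (T.card : ℤ) ≤ ((p : ℤ) ^ d) ^ 2 + 4 := by
    nlinarith [sq_nonneg ((p : ℤ) ^ d - 2 * m χ)]
  have h6 : ((4 * T.card : ℕ) : ℤ) ≤ ((p ^ (2 * d) + 4 : ℕ) : ℤ) := by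
    push_cast
    rw [pow_mul', ]
    exact hfinal
  exact_mod_cast h6

end Cfsg.Agent.Lib_helper3_BrauerFeit
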