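import Mathlib
import Cfsg.Prelude.Def_Characters
import Cfsg.Prelude.Def_Blocks
import Cfsg.Prelude.Def_BlockRank
import Cfsg.Agent.Lib_helper3_BrauerFeit

set_option autoImplicit false
open Cfsg
open Cfsg.Agent.Lib_helper3_CharBasic Cfsg.Agent.Lib_helper3_CharMore
  Cfsg.Agent.Lib_helper3_Local Cfsg.Agent.Lib_helper3_Local2 Cfsg.Agent.Lib_helper3_BlockAlg
  Cfsg.Agent.Lib_helper3_Residue Cfsg.Agent.Lib_helper3_BrauerHom2
  Cfsg.Agent.Lib_helper3_DefectCard2 Cfsg.Agent.Lib_helper3_CharInd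
  Cfsg.Agent.Lib_helper3_BlockOrth Cfsg.Agent.Lib_helper3_DefectZero
  Cfsg.Agent.Lib_helper3_CharDiag Cfsg.Agent.Lib_helper3_RegSpan
  Cfsg.Agent.Lib_helper3_GenChar Cfsg.Agent.Lib_helper3_IntLemmas
  Cfsg.Agent.Lib_helper3_RegSpan2 Cfsg.Agent.Lib_helper3_ThirdMain
  Cfsg.Agent.Lib_helper3_HeightZero Cfsg.Agent.Lib_helper3_BrauerFeit
open scoped ComplexConjugate

namespace Cfsg.Agent.Lib_helper3_BrauerFeit2

universe u

variable {G : Type u} [Group G] [Fintype G] {M : Ideal AlgInt} {p : ℕ}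

/-- The `p`-adic valuation of the degree of a character of a block in terms of its height and
the defect of the block. -/
theorem factorization_degree_eq [Fact p.Prime] {B : Set (IrrCharacter G)}
    {χ : IrrCharacter G} (hχ : χ ∈ B) :
    (charDegree (χ : G → ℂ)).factorization p + blockDefect p B =
      (Nat.card G).factorization p + blockHeight p B (χ : G → ℂ) := by
  obtain ⟨S, hS⟩ : ∃ S : Set ℕ, S = (fun χ : IrrCharacter G =>
      (charDegree (χ : G → ℂ)).factorization p) '' B := ⟨_, rfl⟩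
  have h1 : sInf S ≤ (charDegree (χ : G → ℂ)).factorization p :=
    Nat.sInf_le (by rw [hS]; exact ⟨χ, hχ, rfl⟩)
  obtain ⟨k, hkpos, hk⟩ := irr_apply_one_pos χ.2
  have hdeg : charDegree (χ : G → ℂ) = k := charDegree_eq hk
  have hdvd : k ∣ Nat.card G := Cfsg.Agent.Lib_helper3_CharOdd.irr_degree_dvd_card χ.2 hk
  have h2 : k.factorization p ≤ (Nat.card G).factorization p :=
    (Nat.factorization_le_iff_dvd hkpos.ne' Nat.card_pos.ne').mpr hdvd p
  unfold blockDefect blockHeight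
  rw [← hS]
  rw [hdeg] at h1 ⊢
  omega

/-- The diagonal number `cc χ χ` of a character of positive height `h` is divisible by
`p ^ (h + 1)`. -/
theorem cc_self_dvd [Fact p.Prime] (hM : IsPModular p M) {B : Set (IrrCharacter G)}
    (hB : IsPBlock M B) {χ : IrrCharacter G} (hχ : χ ∈ B)
    (h1 : 1 ≤ blockHeight p B (χ : G → ℂ)) (m : ℤ) (hm : cc p B χ χ = m) :
    (p : ℤ) ^ (blockHeight p B (χ : G → ℂ) + 1) ∣ m := by
  have hp : p.Prime := hM.1
  have hMp : M.IsPrime := isPrime_of_modular hM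
  have hp0 : (p : ℂ) ≠ 0 := by exact_mod_cast hp.ne_zero
  obtain ⟨h, hh⟩ : ∃ h : ℕ, h = blockHeight p B (χ : G → ℂ) := ⟨_, rfl⟩
  rw [← hh] at h1 ⊢
  have hideal : MemLocalIdeal M (tw p χ χ / (χ : G → ℂ) 1) := by
    by_contra hU
    have := (height_zero_iff hM hB hχ).mpr hU
    omega
  obtain ⟨k, hkpos, hk⟩ := irr_apply_one_pos χ.2
  have hdeg : charDegree (χ : G → ℂ) = k := charDegree_eq hk
  have hfac := factorization_degree_eq (p := p) hχ
  rw [hdeg, ← hh] at hfac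
  have hdle := blockDefect_le (G := G) p B
  obtain ⟨a, ha⟩ : ∃ a : ℕ, a = (Nat.card G).factorization p := ⟨_, rfl⟩
  obtain ⟨d, hd⟩ : ∃ d : ℕ, d = blockDefect p B := ⟨_, rfl⟩
  rw [← ha, ← hd] at hfac hdle
  rw [tw_eq_cc p B, hm, hk, ← ha, ← hd] at hideal
  obtain ⟨k', hk'⟩ : ∃ k' : ℕ, k' = k / p ^ k.factorization p := ⟨_, rfl⟩
  have hkk : p ^ k.factorization p * k' = k := by
    rw [hk']
    exact Nat.ordProj_mul_ordCompl_eq_self k p
  have hk'0 : (k' : ℂ) ≠ 0 := by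
    intro h0
    have h00 : k' = 0 := by exact_mod_cast h0
    rw [h00, mul_zero] at hkk
    omega
  have hν : k.factorization p = (a - d) + h := by omega
  have h2 : MemLocalIdeal M ((m : ℂ) / (p : ℂ) ^ h) := by
    have h3 : (m : ℂ) / (p : ℂ) ^ h =
        (k' : ℂ) * ((p : ℂ) ^ (a - d) * (m : ℂ) / (k : ℂ)) := by
      rw [← hkk, hν]
      push_cast
      rw [pow_add]
      field_simp
    rw [h3]
    exact memLocalIdeal_mul_left (memLocalRing_natCast hMp.ne_top k') hideal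
  obtain ⟨m', rfl⟩ := int_dvd_of_memLocalRing hM h m (memLocalRing_of_memLocalIdeal h2)
  have h4 : (((p : ℤ) ^ h * m' : ℤ) : ℂ) / (p : ℂ) ^ h = (m' : ℂ) := by
    push_cast
    field_simp
  rw [h4] at h2
  obtain ⟨c, rfl⟩ := int_dvd_of_memLocalIdeal hM h2
  exact ⟨c, by ring⟩

/-- Brauer–Feit: a character of positive height `h` in a block of defect `d` has
`h ≤ d - 2`. -/
theorem height_bound [Fact p.Prime] (hM : IsPModular p M) {B : Set (IrrCharacter G)}
    (hB : IsPBlock M B) {χ : IrrCharacter G} (hχ : χ ∈ B)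
    (h1 : 1 ≤ blockHeight p B (χ : G → ℂ)) :
    blockHeight p B (χ : G → ℂ) + 2 ≤ blockDefect p B := by
  classical
  by_contra hcon
  have hfin := irr_finite (G := G)
  let inst2 : Fintype (IrrCharacter G) := Fintype.ofFinite _
  have hp : p.Prime := hM.1
  have hMp : M.IsPrime := isPrime_of_modular hM
  obtain ⟨h, hh⟩ : ∃ h : ℕ, h = blockHeight p B (χ : G → ℂ) := ⟨_, rfl⟩
  obtain ⟨d, hd⟩ : ∃ d : ℕ, d = blockDefect p B := ⟨_, rfl⟩
  rw [← hh] at h1
  rw [← hh, ← hd] at hcon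
  choose m hm using fun ψ => cc_int hM hB hχ ψ
  have hdiv := cc_self_dvd hM hB hχ (by rw [← hh]; exact h1) (m χ) (hm χ).1
  rw [← hh] at hdiv
  have hdiv2 : (p : ℤ) ^ d ∣ m χ := (pow_dvd_pow (p : ℤ) (by omega)).trans hdiv
  obtain ⟨r, hr, hr0, hrle⟩ := cc_self_bounds p B χ
  rw [(hm χ).1] at hr
  rw [← hd] at hrle
  have hmr : (m χ : ℝ) = r := by exact_mod_cast hr
  have hm0 : 0 ≤ m χ := by
    have : (0 : ℝ) ≤ (m χ : ℝ) := by rw [hmr]; exact hr0
    exact_mod_cast this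
  have hmle : m χ ≤ (p : ℤ) ^ d := by
    have : (m χ : ℝ) ≤ ((p : ℤ) ^ d : ℤ) := by
      rw [hmr]
      push_cast
      exact hrle
    exact_mod_cast this
  have hnorm : ∑ ψ : IrrCharacter G, (m ψ) ^ 2 = (p : ℤ) ^ d * m χ := by
    have h := cc_norm p B χ
    rw [(hm χ).1, ← hd] at h
    have h2 : ∑ ψ : IrrCharacter G, cc p B χ ψ * conj (cc p B χ ψ) =
        ((∑ ψ : IrrCharacter G, (m ψ) ^ 2 : ℤ) : ℂ) := by
      push_cast
      apply Finset.sum_congr rfl
      intro ψ _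
      rw [(hm ψ).1, map_intCast]
      ring
    rw [h2] at h
    exact_mod_cast h
  obtain ⟨ψ₀, hψ₀, hh₀⟩ := exists_height_zero p hχ
  have hmψ₀ : m ψ₀ ≠ 0 := by
    intro h0
    have h2 := cc_ne_zero hM hB hψ₀ hh₀ hχ
    rw [cc_symm hM B ψ₀ χ, (hm ψ₀).1, h0] at h2
    exact h2 (by simp)
  have hne : ψ₀ ≠ χ := by
    rintro rfl
    omega
  have hpair : (m χ) ^ 2 + (m ψ₀) ^ 2 ≤ ∑ ψ : IrrCharacter G, (m ψ) ^ 2 := by
    have h2 : ∑ ψ ∈ ({χ, ψ₀} : Finset (IrrCharacter G)), (m ψ) ^ 2 ≤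
        ∑ ψ : IrrCharacter G, (m ψ) ^ 2 := by
      apply Finset.sum_le_sum_of_subset_of_nonneg (Finset.subset_univ _)
      intro ψ _ _
      positivity
    rw [Finset.sum_pair hne.symm] at h2
    exact h2
  have hpos : 0 < (m ψ₀) ^ 2 := by positivity
  obtain ⟨c, hc⟩ := hdiv2
  have hpd : (0 : ℤ) < (p : ℤ) ^ d := by
    have : (0 : ℤ) < (p : ℤ) := by exact_mod_cast hp.pos
    positivity
  have hc1 : c = 1 := by
    have hc0 : 0 < c := by
      by_contra hc0
      have hc00 : c ≤ 0 := by omega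
      have : m χ ≤ 0 := by
        rw [hc]
        exact mul_nonpos_of_nonneg_of_nonpos hpd.le hc00
      have hmz : m χ = 0 := le_antisymm this hm0
      rw [hmz] at hnorm hpair
      nlinarith
    have hc1' : c ≤ 1 := by
      by_contra hc2
      have : 2 ≤ c := by omega
      nlinarith
    omega
  rw [hc1, mul_one] at hc
  rw [hc] at hnorm hpair
  nlinarith

end Cfsg.Agent.Lib_helper3_BrauerFeit2
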