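import Mathlib
import Cfsg.Prelude.Def_Characters
import Cfsg.Prelude.Def_Blocks
import Cfsg.Prelude.Def_BlockRank
import Cfsg.Agent.Lib_helper3_BrauerFeit2
import Cfsg.Agent.S0914

set_option autoImplicit false
open Cfsg
open Cfsg.Agent.Lib_helper3_CharBasic Cfsg.Agent.Lib_helper3_CharMore
  Cfsg.Agent.Lib_helper3_Local Cfsg.Agent.Lib_helper3_Local2 Cfsg.Agent.Lib_helper3_BlockAlg
  Cfsg.Agent.Lib_helper3_Residue Cfsg.Agent.Lib_helper3_BrauerHom2
  Cfsg.Agent.Lib_helper3_DefectCard2 Cfsg.Agent.Lib_helper3_CharInd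
  Cfsg.Agent.Lib_helper3_BlockOrth Cfsg.Agent.Lib_helper3_DefectZero
  Cfsg.Agent.Lib_helper3_CharDiag Cfsg.Agent.Lib_helper3_RegSpan
  Cfsg.Agent.Lib_helper3_GenChar Cfsg.Agent.Lib_helper3_IntLemmas
  Cfsg.Agent.Lib_helper3_RegSpan2 Cfsg.Agent.Lib_helper3_ThirdMain
  Cfsg.Agent.Lib_helper3_HeightZero Cfsg.Agent.Lib_helper3_BrauerFeit
  Cfsg.Agent.Lib_helper3_BrauerFeit2 Cfsg.Agent.Lib_helper3_DefectCard
open scoped ComplexConjugate

namespace Cfsg.Agent.Lib_helper3_DefectOne

universe u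

variable {G : Type u} [Group G] [Fintype G] {M : Ideal AlgInt} {p : ℕ}

/-- The order of a defect group is `p` to the defect. -/
theorem card_defectGroup [Fact p.Prime] (hM : IsPModular p M) {B : Set (IrrCharacter G)}
    (hB : IsPBlock M B) {D : Subgroup G} (hD : IsDefectGroup p M B D) :
    Nat.card D = p ^ blockDefect p B := by
  obtain ⟨g, hg, P', rfl⟩ := hD
  rw [Subgroup.card_map_of_injective (Subgroup.subtype_injective _),
    Sylow.card_eq_multiplicity P', card_defect hM hB hg]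

/-- The structure of a `2`-block of defect one: it has exactly two characters, which agree
on the elements of odd order and are opposite on the elements of even order. -/
theorem defect_one_structure (hM : IsPModular 2 M) {B : Set (IrrCharacter G)}
    (hB : IsPBlock M B) (hd : blockDefect 2 B = 1) {χ : IrrCharacter G} (hχ : χ ∈ B) :
    ∃ ψ ∈ B, ψ ≠ χ ∧ (∀ φ ∈ B, φ = χ ∨ φ = ψ) ∧
      (∀ g : G, ¬ 2 ∣ orderOf g → (ψ : G → ℂ) g = (χ : G → ℂ) g) ∧
      (∀ g : G, 2 ∣ orderOf g → (ψ : G → ℂ) g = -(χ : G → ℂ) g) ∧ cc 2 B χ χ = 1 := by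
  classical
  have h2 : Fact (Nat.Prime 2) := ⟨Nat.prime_two⟩
  have hfin := irr_finite (G := G)
  let inst2 : Fintype (IrrCharacter G) := Fintype.ofFinite _
  have hMp : M.IsPrime := isPrime_of_modular hM
  have hheight : ∀ φ ∈ B, blockHeight 2 B (φ : G → ℂ) = 0 := by
    intro φ hφ
    by_contra h0
    have h1 : 1 ≤ blockHeight 2 B (φ : G → ℂ) := by omega
    have := height_bound hM hB hφ h1
    omega
  choose m hm using fun ψ => cc_int hM hB hχ ψ
  have hmne : ∀ φ ∈ B, m φ ≠ 0 := by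
    intro φ hφ h0
    have h1 := cc_ne_zero hM hB hχ (hheight χ hχ) hφ
    rw [(hm φ).1, h0] at h1
    exact h1 (by simp)
  obtain ⟨r, hr, hr0, hrle⟩ := cc_self_bounds 2 B χ
  rw [(hm χ).1] at hr
  rw [hd] at hrle
  have hmr : (m χ : ℝ) = r := by exact_mod_cast hr
  have hm0 : 0 ≤ m χ := by
    have : (0 : ℝ) ≤ (m χ : ℝ) := by rw [hmr]; exact hr0
    exact_mod_cast this
  have hmle : m χ ≤ 2 := by
    have : (m χ : ℝ) ≤ ((2 : ℤ) : ℝ) := by
      rw [hmr]
      push_cast
      simpa using hrle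
    exact_mod_cast this
  have hnorm : ∑ ψ : IrrCharacter G, (m ψ) ^ 2 = 2 * m χ := by
    have h := cc_norm 2 B χ
    rw [(hm χ).1, hd] at h
    have h3 : ∑ ψ : IrrCharacter G, cc 2 B χ ψ * conj (cc 2 B χ ψ) =
        ((∑ ψ : IrrCharacter G, (m ψ) ^ 2 : ℤ) : ℂ) := by
      push_cast
      apply Finset.sum_congr rfl
      intro ψ _
      rw [(hm ψ).1, map_intCast]
      ring
    rw [h3] at h
    have h4 : ((∑ ψ : IrrCharacter G, (m ψ) ^ 2 : ℤ) : ℂ) = ((2 * m χ : ℤ) : ℂ) := by
      rw [h]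
      push_cast
      ring
    exact_mod_cast h4
  have hmχ : m χ = 1 ∨ m χ = 2 := by
    have := hmne χ hχ
    omega
  have hpair : ∀ φ : IrrCharacter G, φ ≠ χ →
      (m χ) ^ 2 + (m φ) ^ 2 ≤ ∑ ψ : IrrCharacter G, (m ψ) ^ 2 := by
    intro φ hφ
    have h3 : ∑ ψ ∈ ({χ, φ} : Finset (IrrCharacter G)), (m ψ) ^ 2 ≤
        ∑ ψ : IrrCharacter G, (m ψ) ^ 2 := by
      apply Finset.sum_le_sum_of_subset_of_nonneg (Finset.subset_univ _)
      intro ψ _ _
      positivity
    rw [Finset.sum_pair hφ.symm] at h3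
    exact h3
  have htriple : ∀ φ ψ : IrrCharacter G, φ ≠ χ → ψ ≠ χ → φ ≠ ψ →
      (m χ) ^ 2 + (m φ) ^ 2 + (m ψ) ^ 2 ≤ ∑ ψ : IrrCharacter G, (m ψ) ^ 2 := by
    intro φ ψ hφ hψ hφψ
    have h3 : ∑ ψ' ∈ ({χ, φ, ψ} : Finset (IrrCharacter G)), (m ψ') ^ 2 ≤
        ∑ ψ : IrrCharacter G, (m ψ) ^ 2 := by
      apply Finset.sum_le_sum_of_subset_of_nonneg (Finset.subset_univ _)
      intro ψ _ _
      positivity
    rw [Finset.sum_insert (by simp [hφ.symm, hψ.symm]), Finset.sum_pair hφψ] at h3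
    linarith
  rcases hmχ with hm1 | hm2
  · -- the main case
    rw [hm1] at hnorm hpair htriple
    obtain ⟨ψ, hψχ, hmψ⟩ : ∃ ψ : IrrCharacter G, ψ ≠ χ ∧ m ψ ≠ 0 := by
      by_contra hcon
      push Not at hcon
      have h3 : ∑ ψ : IrrCharacter G, (m ψ) ^ 2 = (m χ) ^ 2 := by
        apply Finset.sum_eq_single χ
        · intro φ _ hφ
          rw [hcon φ hφ]
          ring
        · intro h
          exact absurd (Finset.mem_univ _) h
      rw [h3, hm1] at hnorm
      norm_num at hnorm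
    have hψB : ψ ∈ B := by
      by_contra h
      exact hmψ ((hm ψ).2 h)
    have hmψsq : (m ψ) ^ 2 = 1 := by
      have h3 := hpair ψ hψχ
      have h4 : 0 < (m ψ) ^ 2 := by positivity
      rw [hnorm] at h3
      omega
    have hcover : ∀ φ ∈ B, φ = χ ∨ φ = ψ := by
      intro φ hφ
      by_contra hcon
      push Not at hcon
      have h3 := htriple ψ φ hψχ hcon.1 (Ne.symm hcon.2)
      have h4 : 0 < (m φ) ^ 2 := by
        have := hmne φ hφ
        positivity
      rw [hnorm, hmψsq] at h3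
      omega
    have hexp : ∀ g : G, 2 * pRegularPart 2 (χ : G → ℂ) g =
        (χ : G → ℂ) g + (m ψ : ℂ) * (ψ : G → ℂ) g := by
      intro g
      have hcl : IsClassFunction G
          (fun x => (2 : ℂ) ^ blockDefect 2 B * pRegularPart 2 (χ : G → ℂ) x) := by
        intro g k
        show (2 : ℂ) ^ blockDefect 2 B * pRegularPart 2 (χ : G → ℂ) (k * g * k⁻¹) =
          (2 : ℂ) ^ blockDefect 2 B * pRegularPart 2 (χ : G → ℂ) g
        rw [isClassFunction_pRegularPart 2 (isClassFunction_of_irr χ.2) g k]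
      have h3 := classFunction_eq_sum_apply _ hcl g
      have h4 : ∀ φ : IrrCharacter G, classInner (fun x => (2 : ℂ) ^ blockDefect 2 B *
          pRegularPart 2 (χ : G → ℂ) x) (φ : G → ℂ) = (m φ : ℂ) := by
        intro φ
        have h5 := (hm φ).1
        unfold cc at h5
        exact_mod_cast h5
      simp only [h4] at h3
      rw [hd, pow_one] at h3
      rw [h3]
      have h6 : ∑ φ : IrrCharacter G, (m φ : ℂ) * (φ : G → ℂ) g =
          ∑ φ ∈ ({χ, ψ} : Finset (IrrCharacter G)), (m φ : ℂ) * (φ : G → ℂ) g := by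
        symm
        apply Finset.sum_subset (Finset.subset_univ _)
        intro φ _ hφ
        have hφB : φ ∉ B := by
          intro h
          apply hφ
          rcases hcover φ h with rfl | rfl
          · simp
          · simp
        rw [(hm φ).2 hφB]
        simp
      rw [h6, Finset.sum_pair hψχ.symm, hm1]
      simp
    obtain ⟨kχ, hkχpos, hkχ⟩ := irr_apply_one_pos χ.2
    obtain ⟨kψ, hkψpos, hkψ⟩ := irr_apply_one_pos ψ.2
    have hone : ¬ 2 ∣ orderOf (1 : G) := by
      rw [orderOf_one]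
      norm_num
    have hmψ1 : m ψ = 1 := by
      have h3 := hexp 1
      rw [pRegularPart_apply, if_neg hone, hkχ, hkψ] at h3
      have h4 : ((kχ : ℤ) : ℂ) = ((m ψ * kψ : ℤ) : ℂ) := by
        push_cast
        linear_combination h3
      have h5 : (kχ : ℤ) = m ψ * kψ := by exact_mod_cast h4
      have h6 : 0 < m ψ := by
        by_contra hneg
        have h7 : m ψ ≤ 0 := by omega
        have h8 : m ψ * (kψ : ℤ) ≤ 0 :=
          mul_nonpos_of_nonpos_of_nonneg h7 (by exact_mod_cast hkψpos.le)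
        have h9 : (0 : ℤ) < (kχ : ℤ) := by exact_mod_cast hkχpos
        omega
      nlinarith
    rw [hmψ1] at hexp
    refine ⟨ψ, hψB, hψχ, hcover, ?_, ?_, ?_⟩
    · intro g hg
      have h3 := hexp g
      rw [pRegularPart_apply, if_neg hg] at h3
      push_cast at h3
      linear_combination -h3
    · intro g hg
      have h3 := hexp g
      rw [pRegularPart_apply, if_pos hg] at h3
      push_cast at h3
      linear_combination -h3
    · rw [(hm χ).1, hm1]
      simp
  · -- the impossible case: the block would be a singleton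
    exfalso
    rw [hm2] at hnorm hpair
    have hsingle : ∀ φ ∈ B, φ = χ := by
      intro φ hφ
      by_contra hne
      have h3 := hpair φ hne
      have h4 : 0 < (m φ) ^ 2 := by
        have := hmne φ hφ
        positivity
      rw [hnorm] at h3
      omega
    have hBeq : blockOf M (χ : G → ℂ) = {χ} := by
      obtain ⟨χ₀, rfl⟩ := hB
      rw [blockOf_eq_of_mem hχ]
      ext φ
      constructor
      · intro hφ
        exact hsingle φ hφ
      · rintro rfl
        exact hχ
    have h5 := (Cfsg.Agent.S0914.result 2 M hM χ).mpr hBeq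
    obtain ⟨k, hkpos, hk⟩ := irr_apply_one_pos χ.2
    have hdeg : charDegree (χ : G → ℂ) = k := charDegree_eq hk
    have hdvd : k ∣ Nat.card G := Cfsg.Agent.Lib_helper3_CharOdd.irr_degree_dvd_card χ.2 hk
    have hfac := factorization_degree_eq (p := 2) hχ
    rw [hheight χ hχ, hd, hdeg] at hfac
    rw [hdeg] at h5
    obtain ⟨q, hq⟩ := hdvd
    rw [hq, Nat.mul_div_cancel_left _ hkpos] at h5
    have hq0 : q ≠ 0 := by
      rintro rfl
      rw [mul_zero] at hq
      exact Nat.card_pos.ne' hq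
    have h6 : (Nat.card G).factorization 2 = k.factorization 2 + q.factorization 2 := by
      rw [hq, Nat.factorization_mul hkpos.ne' hq0]
      rfl
    have h7 : q.factorization 2 = 0 := Nat.factorization_eq_zero_of_not_dvd h5
    omega

end Cfsg.Agent.Lib_helper3_DefectOne
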