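import Mathlib
import Cfsg.Prelude.Def_Characters
import Cfsg.Prelude.Def_Blocks
import Cfsg.Agent.Lib_helper3_IdemSupp

set_option autoImplicit false
open Cfsg
open Cfsg.Agent.Lib_helper3_CharBasic Cfsg.Agent.Lib_helper3_CharMore
  Cfsg.Agent.Lib_helper3_Local Cfsg.Agent.Lib_helper3_Local2 Cfsg.Agent.Lib_helper3_BlockAlg
  Cfsg.Agent.Lib_helper3_IdemSupp
open scoped ComplexConjugate

namespace Cfsg.Agent.Lib_helper3_TraceZero

universe u

section Phase

variable {G : Type u} [Group G]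

/-- The orbit relation of conjugation by the powers of `u`. -/
def orbSetoid (u : G) : Setoid G where
  r g g' := ∃ i : ℤ, g' = u ^ i * g * u ^ (-i)
  iseqv := by
    refine ⟨fun g => ⟨0, by simp⟩, ?_, ?_⟩
    · rintro g g' ⟨i, hi⟩
      refine ⟨-i, ?_⟩
      rw [hi]
      group
    · rintro g g' g'' ⟨i, hi⟩ ⟨j, hj⟩
      refine ⟨j + i, ?_⟩
      rw [hj, hi]
      group

/-- A phase function on the elements whose conjugation orbit under `⟨u⟩` splits over
`⟨u ^ p⟩`. -/
theorem exists_phase (u : G) {p : ℕ} {ζ : ℂ} (hp : 0 < p) (hζ : ζ ^ p = 1) :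
    ∃ φ : G → ℂ, (∀ g, ∃ i : ℕ, φ g = ζ ^ i) ∧
      ∀ g, (∀ j : ℤ, Commute (u ^ j) g → (p : ℤ) ∣ j) → φ (u * g * u⁻¹) = ζ * φ g := by
  classical
  have hζ0 : ζ ≠ 0 := by
    intro h
    rw [h, zero_pow hp.ne'] at hζ
    exact zero_ne_one hζ
  have hrep : ∀ g : G, ∃ i : ℤ, g = u ^ i * (Quotient.mk (orbSetoid u) g).out * u ^ (-i) :=
    fun g => Quotient.mk_out (s := orbSetoid u) g
  choose idx hidx using hrep
  have hzp : ∀ t : ℤ, ζ ^ ((p : ℤ) * t) = 1 := by
    intro t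
    rw [zpow_mul, zpow_natCast, hζ, one_zpow]
  refine ⟨fun g => ζ ^ (idx g), ?_, ?_⟩
  · intro g
    refine ⟨(idx g % (p : ℤ)).toNat, ?_⟩
    have h1 : (0 : ℤ) ≤ idx g % (p : ℤ) := Int.emod_nonneg _ (by exact_mod_cast hp.ne')
    have h2 : idx g = (p : ℤ) * (idx g / (p : ℤ)) + ((idx g % (p : ℤ)).toNat : ℤ) := by
      rw [Int.toNat_of_nonneg h1]
      exact (Int.mul_ediv_add_emod _ _).symm
    show ζ ^ (idx g) = ζ ^ (idx g % (p : ℤ)).toNat
    conv_lhs => rw [h2]
    rw [zpow_add₀ hζ0, hzp, one_mul, zpow_natCast]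
  · intro g hg
    have hq : Quotient.mk (orbSetoid u) (u * g * u⁻¹) = Quotient.mk (orbSetoid u) g := by
      apply Quotient.sound
      refine ⟨-1, ?_⟩
      group
    have h1 := hidx (u * g * u⁻¹)
    rw [hq] at h1
    have h2 := hidx g
    obtain ⟨r, hr⟩ : ∃ r : G, r = (Quotient.mk (orbSetoid u) g).out := ⟨_, rfl⟩
    rw [← hr] at h1 h2
    obtain ⟨i, hi⟩ : ∃ i : ℤ, i = idx g := ⟨_, rfl⟩
    obtain ⟨i', hi'⟩ : ∃ i' : ℤ, i' = idx (u * g * u⁻¹) := ⟨_, rfl⟩
    rw [← hi] at h2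
    rw [← hi'] at h1
    have h3 : Commute (u ^ (i' - i - 1)) g := by
      show u ^ (i' - i - 1) * g = g * u ^ (i' - i - 1)
      have h5 : r = u ^ (-i) * g * u ^ i := by
        rw [h2]
        group
      have h8 : u * g * u⁻¹ = u ^ i' * (u ^ (-i) * g * u ^ i) * u ^ (-i') := by
        rw [← h5]
        exact h1
      calc u ^ (i' - i - 1) * g
          = u⁻¹ * (u ^ i' * (u ^ (-i) * g * u ^ i) * u ^ (-i')) * u ^ (i' - i) := by group
        _ = u⁻¹ * (u * g * u⁻¹) * u ^ (i' - i) := by rw [← h8]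
        _ = g * u ^ (i' - i - 1) := by group
    obtain ⟨t, ht⟩ := hg _ h3
    have h7 : i' = i + 1 + (p : ℤ) * t := by linarith
    show ζ ^ (idx (u * g * u⁻¹)) = ζ * ζ ^ (idx g)
    rw [← hi, ← hi', h7, zpow_add₀ hζ0, zpow_add₀ hζ0, hzp, zpow_one]
    ring

end Phase

section Mat

variable {G : Type u} [Group G] [Fintype G] [DecidableEq G]

/-- The matrix of left multiplication by the element with coefficient function `a`. -/
def Lm (a : G → ℂ) : Matrix G G ℂ := fun g g' => a (g * g'⁻¹)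

omit [DecidableEq G] in
theorem Lm_conv (a b : G → ℂ) : Lm (conv a b) = Lm a * Lm b := by
  ext g g'
  simp only [Lm, Matrix.mul_apply, conv]
  apply Fintype.sum_equiv ((Equiv.inv G).trans (Equiv.mulRight g))
  intro h
  simp only [Equiv.trans_apply, Equiv.inv_apply, Equiv.coe_mulRight]
  have h1 : g * (h⁻¹ * g)⁻¹ = h := by group
  have h2 : h⁻¹ * g * g'⁻¹ = h⁻¹ * (g * g'⁻¹) := by group
  rw [h1, h2]

/-- The matrix of left multiplication by `u`. -/
def Xm (u : G) : Matrix G G ℂ := fun g g' => if g = u * g' then 1 else 0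

/-- The matrix of right multiplication by `k`. -/
def Rk (k : G) : Matrix G G ℂ := fun g g' => if g = g' * k then 1 else 0

theorem Xm_mul (u : G) (A : Matrix G G ℂ) (g g' : G) : (Xm u * A) g g' = A (u⁻¹ * g) g' := by
  rw [Matrix.mul_apply, Finset.sum_eq_single (u⁻¹ * g)]
  · simp [Xm]
  · intro w _ hw
    have h1 : g ≠ u * w := by
      rintro rfl
      exact hw (by group)
    simp [Xm, h1]
  · intro h
    exact absurd (Finset.mem_univ _) h

theorem mul_Xm (u : G) (A : Matrix G G ℂ) (g g' : G) : (A * Xm u) g g' = A g (u * g') := by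
  rw [Matrix.mul_apply, Finset.sum_eq_single (u * g')]
  · simp [Xm]
  · intro w _ hw
    simp [Xm, hw]
  · intro h
    exact absurd (Finset.mem_univ _) h

theorem Rk_mul (k : G) (A : Matrix G G ℂ) (g g' : G) : (Rk k * A) g g' = A (g * k⁻¹) g' := by
  rw [Matrix.mul_apply, Finset.sum_eq_single (g * k⁻¹)]
  · simp [Rk]
  · intro w _ hw
    have h1 : g ≠ w * k := by
      rintro rfl
      exact hw (by group)
    simp [Rk, h1]
  · intro h
    exact absurd (Finset.mem_univ _) h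

theorem mul_Rk (k : G) (A : Matrix G G ℂ) (g g' : G) : (A * Rk k) g g' = A g (g' * k) := by
  rw [Matrix.mul_apply, Finset.sum_eq_single (g' * k)]
  · simp [Rk]
  · intro w _ hw
    simp [Rk, hw]
  · intro h
    exact absurd (Finset.mem_univ _) h

theorem Rk_comm (k : G) (a : G → ℂ) : Rk k * Lm a = Lm a * Rk k := by
  ext g g'
  rw [Rk_mul, mul_Rk]
  simp only [Lm]
  congr 1
  group

theorem Lm_Xm (u : G) {a : G → ℂ} {α : ℂ} (ha : ∀ g, a (u * g * u⁻¹) = α * a g) :
    Lm a * Xm u = α • (Xm u * Lm a) := by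
  ext g g'
  rw [mul_Xm, Matrix.smul_apply, Xm_mul]
  simp only [Lm, smul_eq_mul]
  rw [← ha]
  congr 1
  group

theorem trace_Rk_Xm_Lm (k u : G) (a : G → ℂ) :
    (Rk k * (Xm u * Lm a)).trace = ∑ g, a (u⁻¹ * (g * k⁻¹ * g⁻¹)) := by
  unfold Matrix.trace
  apply Finset.sum_congr rfl
  intro g _
  rw [Matrix.diag_apply, Rk_mul, Xm_mul]
  simp only [Lm]
  congr 1
  group

end Mat

section Main

variable {G : Type u} [Group G] [Fintype G] {p : ℕ} {M : Ideal AlgInt}

/-- Vanishing of class sums of `u⁻¹ e` for an idempotent `e` of the local group ring that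
commutes with `u` and whose coefficients at the elements with non-splitting `⟨u⟩`-orbit lie in
the local ideal. -/
theorem class_sum_eq_zero (hM : IsPModular p M) {e : G → ℂ} (he : conv e e = e)
    (heR : ∀ g, MemLocalRing M (e g)) (u : G) (hu : ∀ g, e (u * g * u⁻¹) = e g)
    (hloc : ∀ g : G, (∃ j : ℤ, Commute (u ^ j) g ∧ ¬ (p : ℤ) ∣ j) → MemLocalIdeal M (e g))
    (k : G) : ∑ g : G, e (u⁻¹ * (g * k * g⁻¹)) = 0 := by
  classical
  have hMp : M.IsPrime := isPrime_of_modular hM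
  have hp : p.Prime := hM.1
  have hω := Complex.isPrimitiveRoot_exp p hp.ne_zero
  obtain ⟨ζ, hζdef⟩ : ∃ ζ : ℂ, ζ = Complex.exp (2 * Real.pi * Complex.I / p) := ⟨_, rfl⟩
  rw [← hζdef] at hω
  have hζp : ζ ^ p = 1 := hω.pow_eq_one
  have hζ1 : ζ ≠ 1 := hω.ne_one hp.one_lt
  obtain ⟨φ, hφpow, hφ⟩ := exists_phase u hp.pos hζp
  have hint : ∀ i : ℕ, ζ ^ i ∈ AlgInt := by
    intro i
    apply isIntegral_of_pow_eq_one hp.pos
    rw [← pow_mul, mul_comm, pow_mul, hζp, one_pow]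
  have hφR : ∀ g, MemLocalRing M (φ g) := by
    intro g
    obtain ⟨i, hi⟩ := hφpow g
    rw [hi]
    exact memLocalRing_of_algInt hMp.ne_top (hint i)
  have hφ1 : ∀ g, MemLocalIdeal M (φ g - 1) := by
    intro g
    obtain ⟨i, hi⟩ := hφpow g
    rw [hi]
    have h3 : ((⟨ζ ^ i, hint i⟩ : AlgInt)) ^ (p ^ 1) = 1 := by
      apply Subtype.ext
      push_cast
      rw [pow_one, ← pow_mul, mul_comm, pow_mul, hζp, one_pow]
    have h4 := root_sub_one_mem hM h3
    have h5 := memLocalIdeal_of_mem hMp.ne_top h4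
    have h6 : (((⟨ζ ^ i, hint i⟩ : AlgInt) - 1 : AlgInt) : ℂ) = ζ ^ i - 1 := by
      push_cast
      rfl
    rw [h6] at h5
    exact h5
  obtain ⟨s₀, hs₀def⟩ : ∃ s₀ : G → ℂ, s₀ = fun g =>
      if (∀ j : ℤ, Commute (u ^ j) g → (p : ℤ) ∣ j) then φ g * e g else 0 := ⟨_, rfl⟩
  have hspl : ∀ g, (∀ j : ℤ, Commute (u ^ j) (u * g * u⁻¹) → (p : ℤ) ∣ j) ↔
      (∀ j : ℤ, Commute (u ^ j) g → (p : ℤ) ∣ j) := by
    intro g
    have key : ∀ j : ℤ, Commute (u ^ j) (u * g * u⁻¹) ↔ Commute (u ^ j) g := by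
      intro j
      constructor
      · intro h
        show u ^ j * g = g * u ^ j
        have h' : u ^ j * (u * g * u⁻¹) = u * g * u⁻¹ * u ^ j := h
        calc u ^ j * g = u⁻¹ * (u ^ j * (u * g * u⁻¹)) * u := by group
          _ = u⁻¹ * (u * g * u⁻¹ * u ^ j) * u := by rw [h']
          _ = g * u ^ j := by group
      · intro h
        show u ^ j * (u * g * u⁻¹) = u * g * u⁻¹ * u ^ j
        have h' : u ^ j * g = g * u ^ j := h
        calc u ^ j * (u * g * u⁻¹) = u * (u ^ j * g) * u⁻¹ := by group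
          _ = u * (g * u ^ j) * u⁻¹ := by rw [h']
          _ = u * g * u⁻¹ * u ^ j := by group
    constructor
    · intro h j hj
      exact h j ((key j).mpr hj)
    · intro h j hj
      exact h j ((key j).mp hj)
  have hs₀u : ∀ g, s₀ (u * g * u⁻¹) = ζ * s₀ g := by
    intro g
    rw [hs₀def]
    by_cases hg : ∀ j : ℤ, Commute (u ^ j) g → (p : ℤ) ∣ j
    · simp only [if_pos hg, if_pos ((hspl g).mpr hg)]
      rw [hφ g hg, hu]
      ring
    · simp only [if_neg hg, if_neg (fun h => hg ((hspl g).mp h)), mul_zero]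
  have hs₀e : ∀ g, MemLocalIdeal M (s₀ g - e g) := by
    intro g
    rw [hs₀def]
    by_cases hg : ∀ j : ℤ, Commute (u ^ j) g → (p : ℤ) ∣ j
    · simp only [if_pos hg]
      have h1 : φ g * e g - e g = e g * (φ g - 1) := by ring
      rw [h1]
      exact memLocalIdeal_mul_left (heR g) (hφ1 g)
    · simp only [if_neg hg, zero_sub]
      apply memLocalIdeal_neg
      apply hloc
      push Not at hg
      exact hg
  obtain ⟨E, hEdef⟩ : ∃ E : Matrix G G ℂ, E = Lm e := ⟨_, rfl⟩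
  obtain ⟨S₀, hS₀def⟩ : ∃ S₀ : Matrix G G ℂ, S₀ = Lm s₀ := ⟨_, rfl⟩
  obtain ⟨X, hXdef⟩ : ∃ X : Matrix G G ℂ, X = Xm u := ⟨_, rfl⟩
  obtain ⟨K, hKdef⟩ : ∃ K : Matrix G G ℂ, K = Rk k⁻¹ := ⟨_, rfl⟩
  have hEE : E * E = E := by rw [hEdef, ← Lm_conv, he]
  have hEX : E * X = X * E := by
    have h1 := Lm_Xm u (a := e) (α := 1) (fun g => by rw [hu, one_mul])
    rw [one_smul] at h1
    rw [hEdef, hXdef]
    exact h1
  have hS₀X : S₀ * X = ζ • (X * S₀) := by
    rw [hS₀def, hXdef]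
    exact Lm_Xm u hs₀u
  have hKE : K * E = E * K := by
    rw [hKdef, hEdef]
    exact Rk_comm _ _
  have hKS₀ : K * S₀ = S₀ * K := by
    rw [hKdef, hS₀def]
    exact Rk_comm _ _
  obtain ⟨S, hSdef⟩ : ∃ S : Matrix G G ℂ, S = E * S₀ * E := ⟨_, rfl⟩
  have hSX : S * X = ζ • (X * S) := by
    calc S * X = E * S₀ * (E * X) := by rw [hSdef, Matrix.mul_assoc]
      _ = E * (S₀ * X) * E := by rw [hEX]; simp only [Matrix.mul_assoc]
      _ = ζ • (E * X * S₀ * E) := by
        rw [hS₀X, Matrix.mul_smul, Matrix.smul_mul]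
        simp only [Matrix.mul_assoc]
      _ = ζ • (X * S) := by rw [hEX, hSdef]; simp only [Matrix.mul_assoc]
  have hSE : S * E = S := by rw [hSdef, Matrix.mul_assoc, hEE]
  have hES : E * S = S := by rw [hSdef, ← Matrix.mul_assoc, ← Matrix.mul_assoc, hEE]
  have hKS : K * S = S * K := by
    calc K * S = (K * E) * S₀ * E := by rw [hSdef]; simp only [Matrix.mul_assoc]
      _ = E * (K * S₀) * E := by rw [hKE]; simp only [Matrix.mul_assoc]
      _ = E * S₀ * (K * E) := by rw [hKS₀]; simp only [Matrix.mul_assoc]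
      _ = S * K := by rw [hKE, hSdef]; simp only [Matrix.mul_assoc]
  obtain ⟨St, hStdef⟩ : ∃ St : Matrix G G ℂ, St = S + (1 - E) := ⟨_, rfl⟩
  have hStE : St * E = S := by
    rw [hStdef, Matrix.add_mul, Matrix.sub_mul, Matrix.one_mul, hSE, hEE, sub_self, add_zero]
  have hESt : E * St = S := by
    rw [hStdef, Matrix.mul_add, Matrix.mul_sub, Matrix.mul_one, hES, hEE, sub_self, add_zero]
  have hKSt : K * St = St * K := by
    rw [hStdef, Matrix.mul_add, Matrix.add_mul, Matrix.mul_sub, Matrix.sub_mul, Matrix.mul_one,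
      Matrix.one_mul, hKS, hKE]
  have hSt1 : ∀ i j, MemLocalIdeal M ((St - 1) i j) := by
    intro i j
    have h1 : St - 1 = E * (S₀ - E) * E := by
      rw [hStdef, Matrix.mul_sub, Matrix.sub_mul, hEE, hEE, hSdef]
      abel
    rw [h1, Matrix.mul_apply]
    apply memLocalIdeal_sum
    intro w _
    rw [mul_comm]
    apply memLocalIdeal_mul_left
    · rw [hEdef]
      exact heR _
    · rw [Matrix.mul_apply]
      apply memLocalIdeal_sum
      intro v _
      apply memLocalIdeal_mul_left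
      · rw [hEdef]
        exact heR _
      · rw [Matrix.sub_apply, hS₀def, hEdef]
        exact hs₀e _
  have hdet0 : St.det ≠ 0 := by
    intro h0
    have h1 := det_sub_one_mem St hSt1
    rw [h0, zero_sub] at h1
    have h2 := memLocalIdeal_neg h1
    rw [neg_neg] at h2
    exact not_memLocalIdeal_one h2
  have hdet : IsUnit St.det := isUnit_iff_ne_zero.mpr hdet0
  have hinv : St * St⁻¹ = 1 := Matrix.mul_nonsing_inv St hdet
  have hinv' : St⁻¹ * St = 1 := Matrix.nonsing_inv_mul St hdet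
  obtain ⟨T, hTdef⟩ : ∃ T : ℂ, T = (K * (X * E)).trace := ⟨_, rfl⟩
  have h1 : (St⁻¹ * K * (X * S)).trace = T := by
    calc (St⁻¹ * K * (X * S)).trace = (St⁻¹ * (K * (X * E) * St)).trace := by
          rw [← hESt]
          simp only [Matrix.mul_assoc]
      _ = (K * (X * E) * St * St⁻¹).trace := Matrix.trace_mul_comm _ _
      _ = T := by rw [Matrix.mul_assoc (K * (X * E)), hinv, Matrix.mul_one, hTdef]
  have h2 : (St⁻¹ * K * (S * X)).trace = T := by
    calc (St⁻¹ * K * (S * X)).trace = (St⁻¹ * (K * St) * (E * X)).trace := by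
          rw [← hStE]
          simp only [Matrix.mul_assoc]
      _ = (St⁻¹ * St * K * (X * E)).trace := by
          rw [hKSt, hEX]
          simp only [Matrix.mul_assoc]
      _ = T := by rw [hinv', Matrix.one_mul, hTdef]
  have h3 : T = ζ * T := by
    have h4 : (St⁻¹ * K * (S * X)).trace = ζ * (St⁻¹ * K * (X * S)).trace := by
      rw [hSX, Matrix.mul_smul, Matrix.trace_smul, smul_eq_mul]
    rw [h1, h2] at h4
    exact h4
  have hT0 : T = 0 := by
    have h5 : (ζ - 1) * T = 0 := by linear_combination -h3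
    rcases mul_eq_zero.mp h5 with h | h
    · exact absurd (sub_eq_zero.mp h) hζ1
    · exact h
  have h6 := trace_Rk_Xm_Lm k⁻¹ u e
  rw [← hKdef, ← hXdef, ← hEdef, ← hTdef, hT0] at h6
  rw [h6]
  apply Finset.sum_congr rfl
  intro g _
  rw [inv_inv]

/-- The trace form of the previous theorem: `e · u` is killed by every class function. -/
theorem sum_mul_classFun_eq_zero (hM : IsPModular p M) {e : G → ℂ} (he : conv e e = e)
    (heR : ∀ g, MemLocalRing M (e g)) (u : G) (hu : ∀ g, e (u * g * u⁻¹) = e g)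
    (hloc : ∀ g : G, (∃ j : ℤ, Commute (u ^ j) g ∧ ¬ (p : ℤ) ∣ j) → MemLocalIdeal M (e g))
    {χ : G → ℂ} (hχ : IsClassFunction G χ) : ∑ g : G, e g * χ (g * u) = 0 := by
  have h1 : ∀ g : G, ∑ w : G, e (u⁻¹ * w) * χ w =
      ∑ w : G, e (u⁻¹ * (g * w * g⁻¹)) * χ w := by
    intro g
    symm
    apply Fintype.sum_equiv (MulAut.conj g).toEquiv
    intro w
    simp only [MulEquiv.toEquiv_eq_coe, EquivLike.coe_coe, MulAut.conj_apply]
    rw [hχ w g]
  have h2 : (Fintype.card G : ℂ) * ∑ w : G, e (u⁻¹ * w) * χ w = 0 := by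
    have h4 : (Fintype.card G : ℂ) * ∑ w : G, e (u⁻¹ * w) * χ w =
        ∑ g : G, ∑ w : G, e (u⁻¹ * (g * w * g⁻¹)) * χ w := by
      rw [← Finset.sum_congr rfl (fun g _ => h1 g), Finset.sum_const, Finset.card_univ,
        nsmul_eq_mul]
    rw [h4, Finset.sum_comm]
    apply Finset.sum_eq_zero
    intro w _
    rw [← Finset.sum_mul, class_sum_eq_zero hM he heR u hu hloc w, zero_mul]
  have h3 : ∑ w : G, e (u⁻¹ * w) * χ w = 0 := by
    rcases mul_eq_zero.mp h2 with h | h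
    · exact absurd h (by exact_mod_cast Fintype.card_ne_zero)
    · exact h
  rw [← h3]
  symm
  apply Fintype.sum_equiv (Equiv.mulLeft u⁻¹)
  intro w
  simp only [Equiv.coe_mulLeft]
  congr 1
  have h5 := hχ w u⁻¹
  rw [inv_inv] at h5
  exact h5.symm

end Main


end Cfsg.Agent.Lib_helper3_TraceZero
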