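import Mathlib
import Cfsg.Prelude.Def_Characters
import Cfsg.Prelude.Def_Blocks
import Cfsg.Agent.Lib_helper3_BrauerHom3
import Cfsg.Agent.Lib_helper3_TraceZero

set_option autoImplicit false
open Cfsg
open Cfsg.Agent.Lib_helper3_CharBasic Cfsg.Agent.Lib_helper3_CharMore
  Cfsg.Agent.Lib_helper3_Local Cfsg.Agent.Lib_helper3_Local2 Cfsg.Agent.Lib_helper3_BlockAlg
  Cfsg.Agent.Lib_helper3_BlockInd Cfsg.Agent.Lib_helper3_DefectLoc
  Cfsg.Agent.Lib_helper3_IdemSupp Cfsg.Agent.Lib_helper3_AugNil Cfsg.Agent.Lib_helper3_Residue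
  Cfsg.Agent.Lib_helper3_IdemCent Cfsg.Agent.Lib_helper3_DefectLoc2
  Cfsg.Agent.Lib_helper3_BrauerHom Cfsg.Agent.Lib_helper3_BrauerHom2
  Cfsg.Agent.Lib_helper3_BlockCover Cfsg.Agent.Lib_helper3_TraceZero
  Cfsg.Agent.Lib_helper3_CharInd
open scoped ComplexConjugate

namespace Cfsg.Agent.Lib_helper3_BrauerTrunc

attribute [local instance] Ideal.Quotient.field

universe u

section Alg

variable {G : Type u} [Group G] [Fintype G]

omit [Fintype G] in
theorem Lm_injective [DecidableEq G] {a b : G → ℂ} (h : Lm a = Lm b) : a = b := by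
  funext g
  have h1 := congrFun (congrFun h g) 1
  simpa [Lm] using h1

theorem conv_assoc (a b c : G → ℂ) : conv (conv a b) c = conv a (conv b c) := by
  classical
  apply Lm_injective
  rw [Lm_conv, Lm_conv, Lm_conv, Lm_conv, Matrix.mul_assoc]

theorem conv_sub_right (a b b' : G → ℂ) : conv a (b - b') = conv a b - conv a b' := by
  funext g
  simp only [conv, Pi.sub_apply, mul_sub, Finset.sum_sub_distrib]

/-- A class function is central for convolution. -/
theorem conv_comm_of_class {E : G → ℂ} (hE : IsClassFunction G E) (a : G → ℂ) :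
    conv a E = conv E a := by
  funext g
  unfold conv
  apply Fintype.sum_equiv ((Equiv.inv G).trans (Equiv.mulLeft g))
  intro h
  simp only [Equiv.trans_apply, Equiv.inv_apply, Equiv.coe_mulLeft]
  have h1 : (g * h⁻¹)⁻¹ * g = h := by group
  rw [h1, mul_comm]
  congr 1
  have h2 := hE (h⁻¹ * g) h
  rw [← h2]
  congr 1
  group

/-- Conjugation-invariance is inherited by convolutions. -/
theorem conv_conj_inv {a b : G → ℂ} (u : G) (ha : ∀ g, a (u * g * u⁻¹) = a g)
    (hb : ∀ g, b (u * g * u⁻¹) = b g) (g : G) : conv a b (u * g * u⁻¹) = conv a b g := by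
  unfold conv
  symm
  apply Fintype.sum_equiv (MulAut.conj u).toEquiv
  intro h
  simp only [MulEquiv.toEquiv_eq_coe, EquivLike.coe_coe, MulAut.conj_apply]
  rw [ha]
  have h1 : (u * h * u⁻¹)⁻¹ * (u * g * u⁻¹) = u * (h⁻¹ * g) * u⁻¹ := by group
  rw [h1, hb]

theorem cpow_conj_inv {a : G → ℂ} (u : G) (ha : ∀ g, a (u * g * u⁻¹) = a g) (n : ℕ) (g : G) :
    cpow a n (u * g * u⁻¹) = cpow a n g := by
  classical
  induction n generalizing g with
  | zero =>
    unfold cpow
    have h1 : u * g * u⁻¹ = 1 ↔ g = 1 := by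
      constructor
      · intro h
        have h2 : g = u⁻¹ * (u * g * u⁻¹) * u := by group
        rw [h2, h]
        group
      · rintro rfl
        group
    exact if_congr h1 rfl rfl
  | succ n ih =>
    exact conv_conj_inv u ha ih g

theorem conv_cpow_zero (a : G → ℂ) : conv a (cpow a 0) = a := by
  classical
  funext g
  unfold conv cpow
  rw [Finset.sum_eq_single g]
  · simp
  · intro h _ hne
    have h1 : h⁻¹ * g ≠ 1 := by
      intro h2
      apply hne
      have h3 : g = h * (h⁻¹ * g) := by group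
      rw [h3, h2, mul_one]
    simp [h1]
  · intro h
    exact absurd (Finset.mem_univ _) h

theorem cpow_idem {e : G → ℂ} (he : conv e e = e) (n : ℕ) : cpow e (n + 1) = e := by
  induction n with
  | zero => exact conv_cpow_zero e
  | succ n ih =>
    show conv e (cpow e (n + 1)) = e
    rw [ih, he]

/-- Extension by zero from a subgroup is multiplicative. -/
theorem conv_extendByZero (H : Subgroup G) [Fintype H] (f₁ f₂ : H → ℂ) :
    conv (extendByZero H f₁) (extendByZero H f₂) = extendByZero H (conv f₁ f₂) := by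
  classical
  funext g
  by_cases hg : g ∈ H
  · rw [extendByZero_mem H _ hg]
    unfold conv
    have h1 : ∑ h : H, f₁ h * f₂ (h⁻¹ * ⟨g, hg⟩) =
        ∑ x : G, if x ∈ H then extendByZero H f₁ x * extendByZero H f₂ (x⁻¹ * g) else 0 := by
      rw [← Finset.sum_filter]
      rw [Finset.sum_subtype (Finset.univ.filter (fun x : G => x ∈ H)) (p := fun x => x ∈ H)
        (by simp) (fun x => extendByZero H f₁ x * extendByZero H f₂ (x⁻¹ * g))]
      apply Finset.sum_congr rfl
      intro h _
      rw [extendByZero_coe]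
      have h2 : (h : G)⁻¹ * g = ((h⁻¹ * ⟨g, hg⟩ : H) : G) := by
        rw [Subgroup.coe_mul, Subgroup.coe_inv]
      rw [h2, extendByZero_coe]
    rw [h1]
    apply Finset.sum_congr rfl
    intro x _
    by_cases hx : x ∈ H
    · rw [if_pos hx]
    · rw [if_neg hx, extendByZero_not_mem H _ hx, zero_mul]
  · rw [extendByZero_not_mem H _ hg]
    unfold conv
    apply Finset.sum_eq_zero
    intro x _
    by_cases hx : x ∈ H
    · have h1 : x⁻¹ * g ∉ H := by
        intro h2
        apply hg
        have h3 : g = x * (x⁻¹ * g) := by group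
        rw [h3]
        exact H.mul_mem hx h2
      rw [extendByZero_not_mem H _ h1, mul_zero]
    · rw [extendByZero_not_mem H _ hx, zero_mul]

theorem cpow_extendByZero (H : Subgroup G) [Fintype H] (f : H → ℂ) (n : ℕ) :
    cpow (extendByZero H f) n = extendByZero H (cpow f n) := by
  classical
  induction n with
  | zero =>
    funext g
    by_cases hg : g ∈ H
    · rw [extendByZero_mem H _ hg]
      unfold cpow
      by_cases h1 : g = 1
      · have h2 : (⟨g, hg⟩ : H) = 1 := Subtype.ext h1
        rw [if_pos h1, if_pos h2]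
      · have h2 : (⟨g, hg⟩ : H) ≠ 1 := fun h => h1 (congrArg Subtype.val h)
        rw [if_neg h1, if_neg h2]
    · rw [extendByZero_not_mem H _ hg]
      unfold cpow
      have h1 : g ≠ 1 := by
        rintro rfl
        exact hg H.one_mem
      rw [if_neg h1]
  | succ n ih =>
    show conv (extendByZero H f) (cpow (extendByZero H f) n) = extendByZero H (conv f (cpow f n))
    rw [ih, conv_extendByZero]

end Alg

section Trunc

variable {G : Type u} [Group G] [Fintype G] {p : ℕ} {M : Ideal AlgInt}

open Classical in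
/-- Truncation of a function to the centralizer of `P`. -/
noncomputable def trunc (P : Subgroup G) (f : G → ℂ) : G → ℂ :=
  fun g => if g ∈ Subgroup.centralizer (P : Set G) then f g else 0

omit [Fintype G] in
theorem trunc_of_mem (P : Subgroup G) (f : G → ℂ) {g : G}
    (hg : g ∈ Subgroup.centralizer (P : Set G)) : trunc P f g = f g := by
  unfold trunc
  rw [if_pos hg]

omit [Fintype G] in
theorem trunc_of_not_mem (P : Subgroup G) (f : G → ℂ) {g : G}
    (hg : g ∉ Subgroup.centralizer (P : Set G)) : trunc P f g = 0 := by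
  unfold trunc
  rw [if_neg hg]

omit [Fintype G] in
theorem memLocalRing_trunc [hMp : M.IsPrime] (P : Subgroup G) {f : G → ℂ}
    (hf : ∀ g, MemLocalRing M (f g)) (g : G) : MemLocalRing M (trunc P f g) := by
  by_cases hg : g ∈ Subgroup.centralizer (P : Set G)
  · rw [trunc_of_mem P f hg]
    exact hf g
  · rw [trunc_of_not_mem P f hg]
    exact memLocalRing_zero hMp.ne_top

theorem memLocalIdeal_conv_right [hMp : M.IsPrime] {a b : G → ℂ} (ha : ∀ g, MemLocalRing M (a g))
    (hb : ∀ g, MemLocalIdeal M (b g)) (g : G) : MemLocalIdeal M (conv a b g) := by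
  unfold conv
  exact memLocalIdeal_sum _ _ (fun h _ => memLocalIdeal_mul_left (ha h) (hb _))

theorem memLocalIdeal_conv_left [hMp : M.IsPrime] {a b : G → ℂ} (ha : ∀ g, MemLocalIdeal M (a g))
    (hb : ∀ g, MemLocalRing M (b g)) (g : G) : MemLocalIdeal M (conv a b g) := by
  unfold conv
  apply memLocalIdeal_sum
  intro h _
  rw [mul_comm]
  exact memLocalIdeal_mul_left (hb _) (ha h)

/-- The Brauer map (truncation to the centralizer of a `p`-subgroup `P`) is multiplicative
modulo the local ideal on `P`-invariant functions with local-integer values. -/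
theorem trunc_conv (hM : IsPModular p M) (P : Subgroup G) (hP : IsPGroup p P) {f₁ f₂ : G → ℂ}
    (h₁ : ∀ u ∈ P, ∀ g, f₁ (u * g * u⁻¹) = f₁ g) (h₂ : ∀ u ∈ P, ∀ g, f₂ (u * g * u⁻¹) = f₂ g)
    (hR₁ : ∀ g, MemLocalRing M (f₁ g)) (hR₂ : ∀ g, MemLocalRing M (f₂ g)) (c : G) :
    MemLocalIdeal M (trunc P (conv f₁ f₂) c - conv (trunc P f₁) (trunc P f₂) c) := by
  classical
  have hMm : M.IsMaximal := hM.2.1
  have hMp : M.IsPrime := hMm.isPrime
  have hch : CharP (AlgInt ⧸ M) p := charP_quot hM
  have hpf : Fact p.Prime := ⟨hM.1⟩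
  by_cases hc : c ∈ Subgroup.centralizer (P : Set G)
  · rw [trunc_of_mem P _ hc]
    have h1 : conv f₁ f₂ c - conv (trunc P f₁) (trunc P f₂) c =
        ∑ x : G, if x ∈ Subgroup.centralizer (P : Set G) then 0 else f₁ x * f₂ (x⁻¹ * c) := by
      unfold conv
      rw [← Finset.sum_sub_distrib]
      apply Finset.sum_congr rfl
      intro x _
      by_cases hx : x ∈ Subgroup.centralizer (P : Set G)
      · have hx' : x⁻¹ * c ∈ Subgroup.centralizer (P : Set G) :=
          Subgroup.mul_mem _ (Subgroup.inv_mem _ hx) hc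
        rw [if_pos hx, trunc_of_mem P _ hx, trunc_of_mem P _ hx', sub_self]
      · rw [if_neg hx, trunc_of_not_mem P _ hx, zero_mul, sub_zero]
    rw [h1]
    have hterm : ∀ x : G, MemLocalRing M
        (if x ∈ Subgroup.centralizer (P : Set G) then 0 else f₁ x * f₂ (x⁻¹ * c)) := by
      intro x
      split_ifs
      · exact memLocalRing_zero hMp.ne_top
      · exact memLocalRing_mul (hR₁ _) (hR₂ _)
    rw [← res_eq_zero_iff (memLocalRing_sum _ _ (fun x _ => hterm x)),
      res_sum _ _ (fun x _ => hterm x)]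
    have h2 : ∀ x : G, res M (if x ∈ Subgroup.centralizer (P : Set G) then 0
        else f₁ x * f₂ (x⁻¹ * c)) =
        if x ∈ {x : G | x ∉ Subgroup.centralizer (P : Set G)} then
          res M (f₁ x) * res M (f₂ (x⁻¹ * c)) else 0 := by
      intro x
      by_cases hx : x ∈ Subgroup.centralizer (P : Set G)
      · rw [if_pos hx, if_neg (fun h' : x ∈ {x : G | x ∉ Subgroup.centralizer (P : Set G)} =>
          h' hx), res_zero]
      · rw [if_neg hx, if_pos (show x ∈ {x : G | x ∉ Subgroup.centralizer (P : Set G)} from hx),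
          res_mul (hR₁ _) (hR₂ _)]
    rw [Finset.sum_congr rfl (fun x _ => h2 x)]
    apply sum_eq_zero_of_conj_stable (p := p) P hP {x : G | x ∉ Subgroup.centralizer (P : Set G)}
    · intro u hu x hx hux
      apply hx
      rw [Subgroup.mem_centralizer_iff] at hux ⊢
      intro v hv
      have h3 := hux (u * v * u⁻¹) (P.mul_mem (P.mul_mem hu hv) (P.inv_mem hu))
      calc v * x = u⁻¹ * (u * v * u⁻¹ * (u * x * u⁻¹)) * u := by group
        _ = u⁻¹ * (u * x * u⁻¹ * (u * v * u⁻¹)) * u := by rw [h3]
        _ = x * v := by group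
    · intro x hx
      exact hx
    · intro u hu x _
      rw [h₁ u hu x]
      have h3 : (u * x * u⁻¹)⁻¹ * c = u * (x⁻¹ * c) * u⁻¹ := by
        have h4 : u * c = c * u := (Subgroup.mem_centralizer_iff.mp hc) u hu
        have h5 : u⁻¹ * c = c * u⁻¹ := by
          calc u⁻¹ * c = u⁻¹ * (c * u) * u⁻¹ := by group
            _ = u⁻¹ * (u * c) * u⁻¹ := by rw [h4]
            _ = c * u⁻¹ := by group
        calc (u * x * u⁻¹)⁻¹ * c = u * x⁻¹ * (u⁻¹ * c) := by group
          _ = u * x⁻¹ * (c * u⁻¹) := by rw [h5]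
          _ = u * (x⁻¹ * c) * u⁻¹ := by group
      rw [h3, h₂ u hu _]
  · rw [trunc_of_not_mem P _ hc, zero_sub]
    apply memLocalIdeal_neg
    have h1 : conv (trunc P f₁) (trunc P f₂) c = 0 := by
      unfold conv
      apply Finset.sum_eq_zero
      intro x _
      by_cases hx : x ∈ Subgroup.centralizer (P : Set G)
      · have hx' : x⁻¹ * c ∉ Subgroup.centralizer (P : Set G) := by
          intro h2
          apply hc
          have h3 : c = x * (x⁻¹ * c) := by group
          rw [h3]
          exact Subgroup.mul_mem _ hx h2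
        rw [trunc_of_not_mem P _ hx', mul_zero]
      · rw [trunc_of_not_mem P _ hx, zero_mul]
    rw [h1]
    exact memLocalIdeal_zero hMp.ne_top

/-- The Brauer map commutes with convolution powers modulo the local ideal. -/
theorem trunc_cpow (hM : IsPModular p M) (P : Subgroup G) (hP : IsPGroup p P) {f : G → ℂ}
    (h₁ : ∀ u ∈ P, ∀ g, f (u * g * u⁻¹) = f g) (hR : ∀ g, MemLocalRing M (f g)) (n : ℕ) (c : G) :
    MemLocalIdeal M (trunc P (cpow f n) c - cpow (trunc P f) n c) := by
  classical
  have hMm : M.IsMaximal := hM.2.1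
  have hMp : M.IsPrime := hMm.isPrime
  induction n generalizing c with
  | zero =>
    have h1 : trunc P (cpow f 0) c = cpow (trunc P f) 0 c := by
      by_cases hc : c ∈ Subgroup.centralizer (P : Set G)
      · rw [trunc_of_mem P _ hc]
        rfl
      · rw [trunc_of_not_mem P _ hc]
        unfold cpow
        have h2 : c ≠ 1 := by
          rintro rfl
          exact hc (Subgroup.one_mem _)
        rw [if_neg h2]
    rw [h1, sub_self]
    exact memLocalIdeal_zero hMp.ne_top
  | succ n ih =>
    have h1 := trunc_conv hM P hP h₁ (fun u hu g => cpow_conj_inv u (h₁ u hu) n g) hR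
      (memLocalRing_cpow hR n) c
    have h2 : MemLocalIdeal M (conv (trunc P f) (trunc P (cpow f n) - cpow (trunc P f) n) c) :=
      memLocalIdeal_conv_right (memLocalRing_trunc P hR) (fun g => ih g) c
    rw [conv_sub_right] at h2
    have h3 := memLocalIdeal_add h1 h2
    have h4 : trunc P (conv f (cpow f n)) c - conv (trunc P f) (trunc P (cpow f n)) c +
        (conv (trunc P f) (trunc P (cpow f n)) - conv (trunc P f) (cpow (trunc P f) n)) c =
        trunc P (cpow f (n + 1)) c - cpow (trunc P f) (n + 1) c := by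
      rw [Pi.sub_apply]
      show _ = trunc P (conv f (cpow f n)) c - conv (trunc P f) (cpow (trunc P f) n) c
      ring
    rw [h4] at h3
    exact h3

/-- An idempotent of the local group ring, invariant under a `p`-subgroup `P`, whose
restriction to a subgroup `H ⊇ P C_G(P)` is nilpotent modulo the local ideal, has coefficients
in the local ideal on the centralizer of `P`. -/
theorem memLocalIdeal_of_nilpotent (hM : IsPModular p M) (P : Subgroup G) (hP : IsPGroup p P)
    (H : Subgroup G) [Fintype H] (hPH : P ≤ H) (hCH : Subgroup.centralizer (P : Set G) ≤ H)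
    {e : G → ℂ} (he : conv e e = e) (heR : ∀ g, MemLocalRing M (e g))
    (heinv : ∀ u ∈ P, ∀ g, e (u * g * u⁻¹) = e g) (y₀ : H → ℂ) (hy : ∀ k : H, e k = y₀ k)
    (hyinv : ∀ u k : H, (u : G) ∈ P → y₀ (u * k * u⁻¹) = y₀ k) (m : ℕ)
    (hm : ∀ k, MemLocalIdeal M (cpow y₀ (m + 1) k)) (c : G)
    (hc : c ∈ Subgroup.centralizer (P : Set G)) : MemLocalIdeal M (e c) := by
  classical
  have hMm : M.IsMaximal := hM.2.1
  have hMp : M.IsPrime := hMm.isPrime
  have hyR : ∀ k : H, MemLocalRing M (y₀ k) := fun k => by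
    rw [← hy]
    exact heR _
  have htr : trunc P e = trunc P (extendByZero H y₀) := by
    funext g
    by_cases hg : g ∈ Subgroup.centralizer (P : Set G)
    · rw [trunc_of_mem P _ hg, trunc_of_mem P _ hg, extendByZero_mem H _ (hCH hg)]
      exact hy ⟨g, hCH hg⟩
    · rw [trunc_of_not_mem P _ hg, trunc_of_not_mem P _ hg]
  have hextR : ∀ g, MemLocalRing M (extendByZero H y₀ g) := by
    intro g
    by_cases hg : g ∈ H
    · rw [extendByZero_mem H _ hg]
      exact hyR _
    · rw [extendByZero_not_mem H _ hg]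
      exact memLocalRing_zero hMp.ne_top
  have hextinv : ∀ u ∈ P, ∀ g, extendByZero H y₀ (u * g * u⁻¹) = extendByZero H y₀ g := by
    intro u hu g
    by_cases hg : g ∈ H
    · have hug : u * g * u⁻¹ ∈ H := H.mul_mem (H.mul_mem (hPH hu) hg) (H.inv_mem (hPH hu))
      rw [extendByZero_mem H _ hg, extendByZero_mem H _ hug]
      exact hyinv ⟨u, hPH hu⟩ ⟨g, hg⟩ hu
    · have hug : u * g * u⁻¹ ∉ H := by
        intro h1
        apply hg
        have h2 : g = u⁻¹ * (u * g * u⁻¹) * u := by group
        rw [h2]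
        exact H.mul_mem (H.mul_mem (H.inv_mem (hPH hu)) h1) (hPH hu)
      rw [extendByZero_not_mem H _ hg, extendByZero_not_mem H _ hug]
  have h1 := trunc_cpow hM P hP heinv heR (m + 1) c
  rw [cpow_idem he m, trunc_of_mem P _ hc, htr] at h1
  have h2 := trunc_cpow hM P hP hextinv hextR (m + 1) c
  rw [cpow_extendByZero, trunc_of_mem P _ hc, extendByZero_mem H _ (hCH hc)] at h2
  have h3 := memLocalIdeal_add (memLocalIdeal_sub h1 h2) (hm ⟨c, hCH hc⟩)
  have h4 : e c - cpow (trunc P (extendByZero H y₀)) (m + 1) c -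
      (cpow y₀ (m + 1) ⟨c, hCH hc⟩ - cpow (trunc P (extendByZero H y₀)) (m + 1) c) +
      cpow y₀ (m + 1) ⟨c, hCH hc⟩ = e c := by ring
  rw [h4] at h3
  exact h3

end Trunc

end Cfsg.Agent.Lib_helper3_BrauerTrunc
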