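import Mathlib
import Cfsg.Prelude.Def_Characters
import Cfsg.Prelude.Def_Blocks
import Cfsg.Agent.Lib_helper3_BrauerTrunc

set_option autoImplicit false
open Cfsg
open Cfsg.Agent.Lib_helper3_CharBasic Cfsg.Agent.Lib_helper3_CharMore
  Cfsg.Agent.Lib_helper3_Local Cfsg.Agent.Lib_helper3_Local2 Cfsg.Agent.Lib_helper3_BlockAlg
  Cfsg.Agent.Lib_helper3_BlockInd Cfsg.Agent.Lib_helper3_DefectLoc
  Cfsg.Agent.Lib_helper3_IdemSupp Cfsg.Agent.Lib_helper3_AugNil Cfsg.Agent.Lib_helper3_Residue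
  Cfsg.Agent.Lib_helper3_IdemCent Cfsg.Agent.Lib_helper3_DefectLoc2
  Cfsg.Agent.Lib_helper3_BrauerHom Cfsg.Agent.Lib_helper3_BrauerHom2
  Cfsg.Agent.Lib_helper3_BrauerHom3
  Cfsg.Agent.Lib_helper3_BlockCover Cfsg.Agent.Lib_helper3_TraceZero
  Cfsg.Agent.Lib_helper3_CharInd Cfsg.Agent.Lib_helper3_BrauerTrunc
  Cfsg.Agent.Lib_helper3_CharIntegral
open scoped ComplexConjugate

namespace Cfsg.Agent.Lib_helper3_SecondMain

attribute [local instance] Ideal.Quotient.field

universe u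

section PPart

variable {G : Type u} [Group G]

/-- Every element of a finite group has a `p`-part. -/
theorem exists_isPPart [Finite G] {p : ℕ} (hp : p.Prime) (h : G) : ∃ x, IsPPart p h x := by
  have hn : orderOf h ≠ 0 := (orderOf_pos h).ne'
  obtain ⟨n, hndef⟩ : ∃ n : ℕ, n = orderOf h := ⟨_, rfl⟩
  rw [← hndef] at hn
  obtain ⟨k, hkdef⟩ : ∃ k : ℕ, k = n.factorization p := ⟨_, rfl⟩
  obtain ⟨m, hmdef⟩ : ∃ m : ℕ, m = n / p ^ k := ⟨_, rfl⟩
  have hnm : p ^ k * m = n := by
    rw [hmdef, hkdef]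
    exact Nat.ordProj_mul_ordCompl_eq_self n p
  have hpm : ¬ p ∣ m := by
    rw [hmdef, hkdef]
    exact Nat.not_dvd_ordCompl hp hn
  have hcop : IsCoprime ((p ^ k : ℕ) : ℤ) (m : ℤ) := by
    apply Nat.isCoprime_iff_coprime.mpr
    rw [hmdef, hkdef]
    exact (Nat.coprime_ordCompl hp hn).pow_left _
  obtain ⟨a, c, hac⟩ := hcop
  have hhn : h ^ (n : ℤ) = 1 := by
    rw [zpow_natCast, hndef, pow_orderOf_eq_one]
  refine ⟨h ^ (c * (m : ℤ)), h ^ (a * ((p ^ k : ℕ) : ℤ)), ?_, ?_, ?_, ?_⟩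
  · rw [← zpow_add]
    have h1 : c * (m : ℤ) + a * ((p ^ k : ℕ) : ℤ) = 1 := by linarith
    rw [h1, zpow_one]
  · exact (Commute.refl h).zpow_zpow _ _
  · have h1 : (h ^ (c * (m : ℤ))) ^ (p ^ k) = 1 := by
      rw [← zpow_natCast, ← zpow_mul]
      have h2 : c * (m : ℤ) * ((p ^ k : ℕ) : ℤ) = (n : ℤ) * c := by
        rw [← hnm]
        push_cast
        ring
      rw [h2, zpow_mul, hhn, one_zpow]
    obtain ⟨i, -, hi⟩ := (Nat.dvd_prime_pow hp).mp (orderOf_dvd_of_pow_eq_one h1)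
    exact ⟨i, hi⟩
  · have h1 : (h ^ (a * ((p ^ k : ℕ) : ℤ))) ^ m = 1 := by
      rw [← zpow_natCast, ← zpow_mul]
      have h2 : a * ((p ^ k : ℕ) : ℤ) * (m : ℤ) = (n : ℤ) * a := by
        rw [← hnm]
        push_cast
        ring
      rw [h2, zpow_mul, hhn, one_zpow]
    intro hdvd
    exact hpm (hdvd.trans (orderOf_dvd_of_pow_eq_one h1))

/-- The `p`-part of `h` commutes with everything commuting with a power `h ^ j`, `p ∤ j`. -/
theorem commute_ppart {p : ℕ} (hp : p.Prime) {h x g : G} (hx : IsPPart p h x) {j : ℤ}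
    (hj : Commute (h ^ j) g) (hpj : ¬ (p : ℤ) ∣ j) : Commute x g := by
  obtain ⟨y, hxy, hcomm, ⟨k, hk⟩, hy⟩ := hx
  obtain ⟨m, hmdef⟩ : ∃ m : ℕ, m = orderOf y := ⟨_, rfl⟩
  rw [← hmdef] at hy
  have hp' : Prime (p : ℤ) := Nat.prime_iff_prime_int.mp hp
  have hm' : ¬ (p : ℤ) ∣ (m : ℤ) := by
    intro h1
    exact hy (Int.natCast_dvd_natCast.mp h1)
  have hjm : ¬ (p : ℤ) ∣ j * (m : ℤ) := by
    intro h1
    rcases hp'.dvd_or_dvd h1 with h2 | h2
    · exact hpj h2
    · exact hm' h2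
  have hcop : IsCoprime (j * (m : ℤ)) ((p : ℤ) ^ k) :=
    (((Prime.coprime_iff_not_dvd hp').mpr hjm).pow_left).symm
  obtain ⟨a, c, hac⟩ := hcop
  have h1 : h ^ (j * (m : ℤ)) = x ^ (j * (m : ℤ)) := by
    rw [← hxy, hcomm.mul_zpow]
    have h2 : y ^ (j * (m : ℤ)) = 1 := by
      rw [mul_comm, zpow_mul, zpow_natCast, hmdef, pow_orderOf_eq_one, one_zpow]
    rw [h2, mul_one]
  have h3 : x ^ ((p : ℤ) ^ k) = 1 := by
    have h4 : ((p : ℤ) ^ k) = ((p ^ k : ℕ) : ℤ) := by push_cast; rfl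
    rw [h4, zpow_natCast, ← hk, pow_orderOf_eq_one]
  have h5 : x = (h ^ (j * (m : ℤ))) ^ a := by
    rw [h1, ← zpow_mul]
    have h6 : x ^ (j * (m : ℤ) * a) = x ^ (j * (m : ℤ) * a) * (x ^ ((p : ℤ) ^ k)) ^ c := by
      rw [h3, one_zpow, mul_one]
    rw [h6, ← zpow_mul, ← zpow_add]
    have h7 : j * (m : ℤ) * a + (p : ℤ) ^ k * c = 1 := by linarith
    rw [h7, zpow_one]
  rw [h5, zpow_mul]
  exact (hj.zpow_left _).zpow_left _

end PPart

section Char

variable {G : Type u} [Group G] [Fintype G]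

/-- A class function acts on an irreducible character by its central character. -/
theorem sum_mul_char_mul {χ : G → ℂ} (hχ : IsIrrCharacter G χ) {F : G → ℂ}
    (hF : IsClassFunction G F) (t : G) : ∑ g, F g * χ (g * t) = Om χ F * χ t := by
  obtain ⟨n, ρ, hirr, rfl⟩ := hχ
  have hd0 : (Module.finrank ℂ (Fin n → ℂ) : ℂ) ≠ 0 := by
    exact_mod_cast (finrank_pos_of_irreducible ρ).ne'
  have e1 := schur_scalar F hF ρ
  have h1 : ∑ g, F g * ρ.character (g * t) =
      LinearMap.trace ℂ _ ((∑ g, F g • ρ g) * ρ t) := by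
    rw [Finset.sum_mul, map_sum]
    apply Finset.sum_congr rfl
    intro g _
    rw [smul_mul_assoc, map_smul, smul_eq_mul, ← map_mul]
    rfl
  rw [h1, e1, smul_mul_assoc, one_mul, map_smul, smul_eq_mul]
  unfold Om
  rw [Representation.char_one]
  rfl

end Char

section Main

variable {G : Type u} [Group G] [Fintype G] {p : ℕ} {M : Ideal AlgInt}

/-- Brauer's second main theorem, idempotent form. -/
theorem second_main_idem (hM : IsPModular p M) (H : Subgroup G) [Fintype H]
    (b : Set (IrrCharacter H)) (B : Set (IrrCharacter G)) (hind : IsInducedBlock M H b B)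
    (h : H) (x : G) (hx : IsPPart p (h : G) x)
    (hC : Subgroup.centralizer ({x} : Set G) ≤ H) (χ : IrrCharacter G) (hχ : χ ∉ B) :
    ∑ k : H, blockCoeff b k * (χ : G → ℂ) ((k : G) * (h : G)) = 0 := by
  classical
  have hMm : M.IsMaximal := hM.2.1
  have hMp : M.IsPrime := hMm.isPrime
  have hMtop : M ≠ ⊤ := hMp.ne_top
  have hp : p.Prime := hM.1
  obtain ⟨hb, hB, hcong⟩ := hind
  have hb' := hb
  obtain ⟨ξ₀, hξ₀⟩ := hb
  obtain ⟨χ₀, hχ₀⟩ := hB
  have hχ₀B : χ₀ ∈ B := by
    rw [hχ₀]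
    exact mem_blockOf_self hMtop χ₀
  obtain ⟨E, hEdef⟩ : ∃ E : G → ℂ, E = blockCoeff (blockOf M (χ : G → ℂ)) := ⟨_, rfl⟩
  have hEcl : IsClassFunction G E := by
    rw [hEdef]
    exact isClassFunction_blockCoeff _
  have hER : ∀ g, MemLocalRing M (E g) := by
    rw [hEdef]
    exact fun g => osima ⟨χ, rfl⟩ g
  have hEE : conv E E = E := by
    rw [hEdef]
    exact conv_blockCoeff _
  have hχ₀E : χ₀ ∉ blockOf M (χ : G → ℂ) := by
    intro hmem
    apply hχ
    rw [hχ₀, blockOf_eq_of_mem hmem]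
    exact mem_blockOf_self hMtop χ
  have hOmχ₀E : Om (χ₀ : G → ℂ) E = 0 := by
    rw [hEdef]
    exact om_blockCoeff_of_not_mem hχ₀E
  have hOmχE : Om (χ : G → ℂ) E = 1 := by
    rw [hEdef]
    exact om_blockCoeff_of_mem (mem_blockOf_self hMtop χ)
  obtain ⟨a, hadef⟩ : ∃ a : H → ℂ, a = blockCoeff b := ⟨_, rfl⟩
  have hacl : IsClassFunction H a := by
    rw [hadef]
    exact isClassFunction_blockCoeff _
  have haR : ∀ k, MemLocalRing M (a k) := by
    rw [hadef]
    exact fun k => osima hb' k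
  have haa : conv a a = a := by
    rw [hadef]
    exact conv_blockCoeff _
  obtain ⟨z, hzdef⟩ : ∃ z : H → ℂ, z = resH H E := ⟨_, rfl⟩
  have hzcl : IsClassFunction H z := by
    rw [hzdef]
    exact isClassFunction_resH H hEcl
  have hzR : ∀ k, MemLocalRing M (z k) := by
    rw [hzdef]
    exact fun k => hER _
  have hzb : ∀ ξ ∈ blockOf M (ξ₀ : H → ℂ), MemLocalIdeal M (Om (ξ : H → ℂ) z) := by
    intro ξ hξ
    have h1 := om_resH_sub_om H (ξ : H → ℂ) (isClassFunction_of_irr χ₀.2)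
      (hcong ξ (by rw [hξ₀]; exact hξ) χ₀ hχ₀B) hEcl hER
    rw [hOmχ₀E, sub_zero] at h1
    rw [hzdef]
    exact h1
  obtain ⟨n, hn⟩ := conv_cpow_blockCoeff_memLocalIdeal ξ₀ hzcl hzR hzb
  obtain ⟨y₀, hy₀def⟩ : ∃ y₀ : H → ℂ, y₀ = conv a z := ⟨_, rfl⟩
  have hy₀cl : IsClassFunction H y₀ := by
    rw [hy₀def]
    exact isClassFunction_conv hacl hzcl
  have hpow : cpow y₀ (n + 1) = conv (conv (cpow z n) a) z := by
    apply om_ext (isClassFunction_cpow hy₀cl _)
      (isClassFunction_conv (isClassFunction_conv (isClassFunction_cpow hzcl n) hacl) hzcl)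
    intro ξ
    rw [om_cpow ξ.2 hy₀cl, hy₀def, om_conv ξ.2 hacl hzcl,
      om_conv ξ.2 (isClassFunction_conv (isClassFunction_cpow hzcl n) hacl) hzcl,
      om_conv ξ.2 (isClassFunction_cpow hzcl n) hacl, om_cpow ξ.2 hzcl]
    by_cases hξ : ξ ∈ b
    · rw [hadef, om_blockCoeff_of_mem hξ]
      ring
    · rw [hadef, om_blockCoeff_of_not_mem hξ, zero_mul, zero_pow (Nat.succ_ne_zero n), mul_zero,
        zero_mul]
  have hm : ∀ k, MemLocalIdeal M (cpow y₀ (n + 1) k) := by
    intro k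
    rw [hpow]
    apply memLocalIdeal_conv_left _ hzR
    intro k'
    have h1 := hn k'
    rw [← hξ₀, ← hadef] at h1
    exact h1
  obtain ⟨e, hedef⟩ : ∃ e : G → ℂ, e = conv (extendByZero H a) E := ⟨_, rfl⟩
  have hãR : ∀ g, MemLocalRing M (extendByZero H a g) := by
    intro g
    by_cases hg : g ∈ H
    · rw [extendByZero_mem H _ hg]
      exact haR _
    · rw [extendByZero_not_mem H _ hg]
      exact memLocalRing_zero hMtop
  have hãinv : ∀ u ∈ H, ∀ g, extendByZero H a (u * g * u⁻¹) = extendByZero H a g := by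
    intro u hu g
    by_cases hg : g ∈ H
    · have hug : u * g * u⁻¹ ∈ H := H.mul_mem (H.mul_mem hu hg) (H.inv_mem hu)
      rw [extendByZero_mem H _ hg, extendByZero_mem H _ hug]
      exact hacl ⟨g, hg⟩ ⟨u, hu⟩
    · have hug : u * g * u⁻¹ ∉ H := by
        intro h1
        apply hg
        have h2 : g = u⁻¹ * (u * g * u⁻¹) * u := by group
        rw [h2]
        exact H.mul_mem (H.mul_mem (H.inv_mem hu) h1) hu
      rw [extendByZero_not_mem H _ hg, extendByZero_not_mem H _ hug]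
  have heR : ∀ g, MemLocalRing M (e g) := by
    rw [hedef]
    exact memLocalRing_conv hãR hER
  have hee : conv e e = e := by
    rw [hedef]
    calc conv (conv (extendByZero H a) E) (conv (extendByZero H a) E)
        = conv (extendByZero H a) (conv E (conv (extendByZero H a) E)) := conv_assoc _ _ _
      _ = conv (extendByZero H a) (conv (conv E (extendByZero H a)) E) := by rw [conv_assoc]
      _ = conv (extendByZero H a) (conv (conv (extendByZero H a) E) E) := by
          rw [conv_comm_of_class hEcl (extendByZero H a)]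
      _ = conv (extendByZero H a) (conv (extendByZero H a) (conv E E)) := by rw [conv_assoc]
      _ = conv (conv (extendByZero H a) (extendByZero H a)) (conv E E) := by rw [conv_assoc]
      _ = conv (extendByZero H a) E := by rw [conv_extendByZero, haa, hEE]
  have heinv : ∀ u ∈ H, ∀ g, e (u * g * u⁻¹) = e g := by
    intro u hu g
    rw [hedef]
    exact conv_conj_inv u (hãinv u hu) (fun g => hEcl g u) g
  have hey : ∀ k : H, e k = y₀ k := by
    intro k
    rw [hedef, hy₀def]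
    unfold conv
    have h1 : ∑ w : H, a w * z (w⁻¹ * k) =
        ∑ w : G, if w ∈ H then extendByZero H a w * E (w⁻¹ * k) else 0 := by
      rw [← Finset.sum_filter]
      rw [Finset.sum_subtype (Finset.univ.filter (fun w : G => w ∈ H)) (p := fun w => w ∈ H)
        (by simp) (fun w => extendByZero H a w * E (w⁻¹ * k))]
      apply Finset.sum_congr rfl
      intro w _
      rw [extendByZero_coe, hzdef]
      rfl
    rw [h1]
    apply Finset.sum_congr rfl
    intro w _
    by_cases hw : w ∈ H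
    · rw [if_pos hw]
    · rw [if_neg hw, extendByZero_not_mem H _ hw, zero_mul]
  have hx' := hx
  obtain ⟨-, -, -, ⟨kx, hkx⟩, -⟩ := hx'
  have hPp : IsPGroup p (Subgroup.zpowers x) := by
    apply IsPGroup.of_card (n := kx)
    rw [Nat.card_zpowers, hkx]
  have hxH : x ∈ H := hC (Subgroup.mem_centralizer_singleton_iff.mpr rfl)
  have hPH : Subgroup.zpowers x ≤ H := (Subgroup.zpowers_le).mpr hxH
  have hCH : Subgroup.centralizer ((Subgroup.zpowers x : Subgroup G) : Set G) ≤ H := by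
    refine le_trans (Subgroup.centralizer_le ?_) hC
    intro v hv
    rw [Set.mem_singleton_iff] at hv
    rw [hv]
    exact Subgroup.mem_zpowers x
  have hloc0 : ∀ c ∈ Subgroup.centralizer ((Subgroup.zpowers x : Subgroup G) : Set G),
      MemLocalIdeal M (e c) :=
    memLocalIdeal_of_nilpotent hM (Subgroup.zpowers x) hPp H hPH hCH hee heR
      (fun u hu => heinv u (hPH hu)) y₀ hey (fun u k _ => hy₀cl k u) n hm
  have hloc : ∀ g : G, (∃ j : ℤ, Commute ((h : G) ^ j) g ∧ ¬ (p : ℤ) ∣ j) →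
      MemLocalIdeal M (e g) := by
    rintro g ⟨j, hj, hpj⟩
    apply hloc0
    have hxg : Commute x g := commute_ppart hp hx hj hpj
    rw [Subgroup.mem_centralizer_iff]
    intro v hv
    obtain ⟨i, rfl⟩ := Subgroup.mem_zpowers_iff.mp hv
    exact (hxg.zpow_left i).eq
  have hfinal := sum_mul_classFun_eq_zero hM hee heR (h : G) (heinv h h.2) hloc
    (isClassFunction_of_irr χ.2)
  have hrel : ∑ g : G, e g * (χ : G → ℂ) (g * (h : G)) =
      ∑ k : H, a k * (χ : G → ℂ) ((k : G) * (h : G)) := by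
    rw [hedef]
    unfold conv
    simp only [Finset.sum_mul]
    rw [Finset.sum_comm]
    have h2 : ∀ w : G, ∑ g : G, extendByZero H a w * E (w⁻¹ * g) * (χ : G → ℂ) (g * (h : G)) =
        extendByZero H a w * (χ : G → ℂ) (w * (h : G)) := by
      intro w
      have h3 : ∑ g : G, extendByZero H a w * E (w⁻¹ * g) * (χ : G → ℂ) (g * (h : G)) =
          extendByZero H a w * ∑ g' : G, E g' * (χ : G → ℂ) (g' * ((h : G) * w)) := by
        rw [Finset.mul_sum]
        apply Fintype.sum_equiv (Equiv.mulLeft w⁻¹)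
        intro g
        simp only [Equiv.coe_mulLeft]
        rw [mul_assoc]
        congr 2
        have h4 := (isClassFunction_of_irr χ.2) (g * (h : G)) w⁻¹
        rw [← h4]
        congr 1
        group
      rw [h3, sum_mul_char_mul χ.2 hEcl, hOmχE, one_mul]
      congr 1
      have h5 := (isClassFunction_of_irr χ.2) ((h : G) * w) w
      rw [← h5]
      congr 1
      group
    rw [Finset.sum_congr rfl (fun w _ => h2 w)]
    have h4 : ∑ k : H, a k * (χ : G → ℂ) ((k : G) * (h : G)) =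
        ∑ w : G, if w ∈ H then extendByZero H a w * (χ : G → ℂ) (w * (h : G)) else 0 := by
      rw [← Finset.sum_filter]
      rw [Finset.sum_subtype (Finset.univ.filter (fun w : G => w ∈ H)) (p := fun w => w ∈ H)
        (by simp) (fun w => extendByZero H a w * (χ : G → ℂ) (w * (h : G)))]
      apply Finset.sum_congr rfl
      intro w _
      rw [extendByZero_coe]
    rw [h4]
    apply Finset.sum_congr rfl
    intro w _
    by_cases hw : w ∈ H
    · rw [if_pos hw]
    · rw [if_neg hw, extendByZero_not_mem H _ hw, zero_mul]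
  rw [hrel, hadef] at hfinal
  exact hfinal

end Main

end Cfsg.Agent.Lib_helper3_SecondMain
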