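import Mathlib
import Cfsg.Prelude.Def_Characters
import Cfsg.Prelude.Def_Blocks
import Cfsg.Agent.Lib_helper3_SecondMain
import Cfsg.Agent.Lib_helper3_ExtFirstMain

set_option autoImplicit false
open Cfsg
open Cfsg.Agent.Lib_helper3_CharBasic Cfsg.Agent.Lib_helper3_CharMore
  Cfsg.Agent.Lib_helper3_Local Cfsg.Agent.Lib_helper3_Local2 Cfsg.Agent.Lib_helper3_BlockAlg
  Cfsg.Agent.Lib_helper3_BlockInd Cfsg.Agent.Lib_helper3_DefectLoc
  Cfsg.Agent.Lib_helper3_IdemSupp Cfsg.Agent.Lib_helper3_AugNil Cfsg.Agent.Lib_helper3_Residue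
  Cfsg.Agent.Lib_helper3_IdemCent Cfsg.Agent.Lib_helper3_DefectLoc2
  Cfsg.Agent.Lib_helper3_BrauerHom Cfsg.Agent.Lib_helper3_BrauerHom2
  Cfsg.Agent.Lib_helper3_BrauerHom3
  Cfsg.Agent.Lib_helper3_BlockCover Cfsg.Agent.Lib_helper3_TraceZero
  Cfsg.Agent.Lib_helper3_CharInd Cfsg.Agent.Lib_helper3_BrauerTrunc
  Cfsg.Agent.Lib_helper3_CharIntegral Cfsg.Agent.Lib_helper3_SecondMain
  Cfsg.Agent.Lib_helper3_ExtFirstMain
open scoped ComplexConjugate

namespace Cfsg.Agent.Lib_helper3_SecondMain2

attribute [local instance] Ideal.Quotient.field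

universe u

section Nil

variable {G : Type u} [Group G] [Fintype G] {M : Ideal AlgInt}

/-- If the central characters of the members of a set `A` (with local-integer idempotent
coefficients) vanish modulo the local ideal on a central element with local-integer
coefficients, a convolution power of the element times the idempotent of `A` has coefficients
in the local ideal. -/
theorem conv_cpow_blockCoeff_memLocalIdeal' [hMm : M.IsMaximal] (A : Set (IrrCharacter G))
    (hA : ∀ g, MemLocalRing M (blockCoeff A g)) {f : G → ℂ}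
    (hf : IsClassFunction G f) (hfR : ∀ g, MemLocalRing M (f g))
    (hfB : ∀ χ ∈ A, MemLocalIdeal M (Om (χ : G → ℂ) f)) :
    ∃ n : ℕ, ∀ g, MemLocalIdeal M (conv (cpow f n) (blockCoeff A) g) := by
  classical
  have hM : M.IsPrime := hMm.isPrime
  have hfin := irr_finite (G := G)
  have := Fintype.ofFinite (IrrCharacter G)
  obtain ⟨c, hcdef⟩ : ∃ c : IrrCharacter G → ℂ,
      c = fun χ : IrrCharacter G => Om (χ : G → ℂ) f := ⟨_, rfl⟩
  have hc : InA M c := ⟨f, hf, hfR, fun χ => by rw [hcdef]⟩
  have hstep : ∀ T : Finset (IrrCharacter G), (∀ ψ ∈ T, ψ ∈ A) →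
      InAI M (fun χ => c χ ^ T.card - ∏ ψ ∈ T, (c χ - c ψ)) := by
    intro T
    induction T using Finset.induction_on with
    | empty =>
      intro _
      have h0 : (fun χ : IrrCharacter G => c χ ^ (∅ : Finset (IrrCharacter G)).card -
          ∏ ψ ∈ (∅ : Finset (IrrCharacter G)), (c χ - c ψ)) = fun _ => 0 := by
        funext χ
        simp
      rw [h0]
      exact inAI_const (memLocalIdeal_zero hM.ne_top)
    | insert ψ T hψ ih =>
      intro hT
      have ih' := ih (fun φ hφ => hT φ (Finset.mem_insert_of_mem hφ))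
      have hψB : ψ ∈ A := hT ψ (Finset.mem_insert_self ψ T)
      have h0 : (fun χ : IrrCharacter G => c χ ^ (insert ψ T).card -
          ∏ φ ∈ insert ψ T, (c χ - c φ)) = fun χ =>
          c χ * (c χ ^ T.card - ∏ φ ∈ T, (c χ - c φ)) +
            (∏ φ ∈ T, (c χ - c φ)) * c ψ := by
        funext χ
        rw [Finset.card_insert_of_notMem hψ, Finset.prod_insert hψ]
        ring
      rw [h0]
      apply inAI_add (inAI_mul hc ih')
      have hP : InA M (fun χ : IrrCharacter G => ∏ φ ∈ T, (c χ - c φ)) := by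
        apply inA_prod T (fun φ χ => c χ - c φ)
        intro φ hφT
        apply inA_sub hc
        apply inA_const
        rw [hcdef]
        exact memLocalRing_of_memLocalIdeal (M := M)
          (hfB φ (hT φ (Finset.mem_insert_of_mem hφT)))
      have hcψ : InAI M (fun _ : IrrCharacter G => c ψ) := by
        apply inAI_const
        rw [hcdef]
        exact hfB ψ hψB
      exact inAI_mul hP hcψ
  obtain ⟨T₀, hT₀⟩ : ∃ T₀ : Finset (IrrCharacter G), T₀ = Finset.univ.filter (fun χ => χ ∈ A) :=
    ⟨_, rfl⟩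
  have hT₀B : ∀ ψ ∈ T₀, ψ ∈ A := by
    intro ψ hψ
    rw [hT₀] at hψ
    exact (Finset.mem_filter.mp hψ).2
  have h1B : InA M (fun χ : IrrCharacter G => A.indicator (fun _ => (1 : ℂ)) χ) := by
    refine ⟨blockCoeff A, isClassFunction_blockCoeff A, hA, ?_⟩
    intro χ
    show _ = A.indicator (fun _ => (1 : ℂ)) χ
    by_cases hχ : χ ∈ A
    · rw [om_blockCoeff_of_mem hχ, Set.indicator_of_mem hχ]
    · rw [om_blockCoeff_of_not_mem hχ, Set.indicator_of_notMem hχ]
  have h2 := inAI_mul h1B (hstep T₀ hT₀B)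
  refine ⟨T₀.card, fun g => ?_⟩
  apply memLocalIdeal_of_inAI h2
    (isClassFunction_conv (isClassFunction_cpow hf T₀.card) (isClassFunction_blockCoeff A))
  intro χ
  rw [om_conv χ.2 (isClassFunction_cpow hf T₀.card) (isClassFunction_blockCoeff A),
    om_cpow χ.2 hf]
  by_cases hχ : χ ∈ A
  · rw [om_blockCoeff_of_mem hχ, Set.indicator_of_mem hχ]
    have h3 : ∏ ψ ∈ T₀, (c χ - c ψ) = 0 := by
      apply Finset.prod_eq_zero (i := χ)
      · rw [hT₀]
        exact Finset.mem_filter.mpr ⟨Finset.mem_univ _, hχ⟩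
      · exact sub_self _
    rw [h3, sub_zero, hcdef]
    ring
  · rw [om_blockCoeff_of_not_mem hχ, Set.indicator_of_notMem hχ]
    ring

end Nil

section Main

variable {G : Type u} [Group G] [Fintype G] {p : ℕ} {M : Ideal AlgInt}

/-- Brauer's second main theorem, idempotent form, for a set `A` of irreducible characters of
`H` whose idempotent has local-integer coefficients and each of whose members induces (on
central characters) a character outside the block of `χ`. -/
theorem second_main_idem_set (hM : IsPModular p M) (H : Subgroup G) [Fintype H]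
    (A : Set (IrrCharacter H)) (hAR : ∀ k, MemLocalRing M (blockCoeff A k))
    (χ : IrrCharacter G)
    (hA : ∀ ξ ∈ A, ∃ χ₀ : IrrCharacter G, χ₀ ∉ blockOf M (χ : G → ℂ) ∧
      ∀ g : G, MemLocalIdeal M (inducedCentralChar H (ξ : H → ℂ) g -
        centralChar (χ₀ : G → ℂ) g))
    (h : H) (x : G) (hx : IsPPart p (h : G) x)
    (hC : Subgroup.centralizer ({x} : Set G) ≤ H) :
    ∑ k : H, blockCoeff A k * (χ : G → ℂ) ((k : G) * (h : G)) = 0 := by
  classical
  have hMm : M.IsMaximal := hM.2.1
  have hMp : M.IsPrime := hMm.isPrime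
  have hMtop : M ≠ ⊤ := hMp.ne_top
  have hp : p.Prime := hM.1
  obtain ⟨E, hEdef⟩ : ∃ E : G → ℂ, E = blockCoeff (blockOf M (χ : G → ℂ)) := ⟨_, rfl⟩
  have hEcl : IsClassFunction G E := by
    rw [hEdef]
    exact isClassFunction_blockCoeff _
  have hER : ∀ g, MemLocalRing M (E g) := by
    rw [hEdef]
    exact fun g => osima ⟨χ, rfl⟩ g
  have hEE : conv E E = E := by
    rw [hEdef]
    exact conv_blockCoeff _
  have hOmχE : Om (χ : G → ℂ) E = 1 := by
    rw [hEdef]
    exact om_blockCoeff_of_mem (mem_blockOf_self hMtop χ)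
  obtain ⟨a, hadef⟩ : ∃ a : H → ℂ, a = blockCoeff A := ⟨_, rfl⟩
  have hacl : IsClassFunction H a := by
    rw [hadef]
    exact isClassFunction_blockCoeff _
  have haR : ∀ k, MemLocalRing M (a k) := by
    rw [hadef]
    exact hAR
  have haa : conv a a = a := by
    rw [hadef]
    exact conv_blockCoeff _
  obtain ⟨z, hzdef⟩ : ∃ z : H → ℂ, z = resH H E := ⟨_, rfl⟩
  have hzcl : IsClassFunction H z := by
    rw [hzdef]
    exact isClassFunction_resH H hEcl
  have hzR : ∀ k, MemLocalRing M (z k) := by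
    rw [hzdef]
    exact fun k => hER _
  have hzb : ∀ ξ ∈ A, MemLocalIdeal M (Om (ξ : H → ℂ) z) := by
    intro ξ hξ
    obtain ⟨χ₀, hχ₀E, hcong⟩ := hA ξ hξ
    have hOmχ₀E : Om (χ₀ : G → ℂ) E = 0 := by
      rw [hEdef]
      exact om_blockCoeff_of_not_mem hχ₀E
    have h1 := om_resH_sub_om H (ξ : H → ℂ) (isClassFunction_of_irr χ₀.2) hcong hEcl hER
    rw [hOmχ₀E, sub_zero] at h1
    rw [hzdef]
    exact h1
  obtain ⟨n, hn⟩ := conv_cpow_blockCoeff_memLocalIdeal' A hAR hzcl hzR hzb
  obtain ⟨y₀, hy₀def⟩ : ∃ y₀ : H → ℂ, y₀ = conv a z := ⟨_, rfl⟩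
  have hy₀cl : IsClassFunction H y₀ := by
    rw [hy₀def]
    exact isClassFunction_conv hacl hzcl
  have hpow : cpow y₀ (n + 1) = conv (conv (cpow z n) a) z := by
    apply om_ext (isClassFunction_cpow hy₀cl _)
      (isClassFunction_conv (isClassFunction_conv (isClassFunction_cpow hzcl n) hacl) hzcl)
    intro ξ
    rw [om_cpow ξ.2 hy₀cl, hy₀def, om_conv ξ.2 hacl hzcl,
      om_conv ξ.2 (isClassFunction_conv (isClassFunction_cpow hzcl n) hacl) hzcl,
      om_conv ξ.2 (isClassFunction_cpow hzcl n) hacl, om_cpow ξ.2 hzcl]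
    by_cases hξ : ξ ∈ A
    · rw [hadef, om_blockCoeff_of_mem hξ]
      ring
    · rw [hadef, om_blockCoeff_of_not_mem hξ, zero_mul, zero_pow (Nat.succ_ne_zero n), mul_zero,
        zero_mul]
  have hm : ∀ k, MemLocalIdeal M (cpow y₀ (n + 1) k) := by
    intro k
    rw [hpow]
    apply memLocalIdeal_conv_left _ hzR
    intro k'
    have h1 := hn k'
    rw [← hadef] at h1
    exact h1
  obtain ⟨e, hedef⟩ : ∃ e : G → ℂ, e = conv (extendByZero H a) E := ⟨_, rfl⟩
  have hãR : ∀ g, MemLocalRing M (extendByZero H a g) := by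
    intro g
    by_cases hg : g ∈ H
    · rw [extendByZero_mem H _ hg]
      exact haR _
    · rw [extendByZero_not_mem H _ hg]
      exact memLocalRing_zero hMtop
  have hãinv : ∀ u ∈ H, ∀ g, extendByZero H a (u * g * u⁻¹) = extendByZero H a g := by
    intro u hu g
    by_cases hg : g ∈ H
    · have hug : u * g * u⁻¹ ∈ H := H.mul_mem (H.mul_mem hu hg) (H.inv_mem hu)
      rw [extendByZero_mem H _ hg, extendByZero_mem H _ hug]
      exact hacl ⟨g, hg⟩ ⟨u, hu⟩
    · have hug : u * g * u⁻¹ ∉ H := by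
        intro h1
        apply hg
        have h2 : g = u⁻¹ * (u * g * u⁻¹) * u := by group
        rw [h2]
        exact H.mul_mem (H.mul_mem (H.inv_mem hu) h1) hu
      rw [extendByZero_not_mem H _ hg, extendByZero_not_mem H _ hug]
  have heR : ∀ g, MemLocalRing M (e g) := by
    rw [hedef]
    exact memLocalRing_conv hãR hER
  have hee : conv e e = e := by
    rw [hedef]
    calc conv (conv (extendByZero H a) E) (conv (extendByZero H a) E)
        = conv (extendByZero H a) (conv E (conv (extendByZero H a) E)) := conv_assoc _ _ _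
      _ = conv (extendByZero H a) (conv (conv E (extendByZero H a)) E) := by rw [conv_assoc]
      _ = conv (extendByZero H a) (conv (conv (extendByZero H a) E) E) := by
          rw [conv_comm_of_class hEcl (extendByZero H a)]
      _ = conv (extendByZero H a) (conv (extendByZero H a) (conv E E)) := by rw [conv_assoc]
      _ = conv (conv (extendByZero H a) (extendByZero H a)) (conv E E) := by rw [conv_assoc]
      _ = conv (extendByZero H a) E := by rw [conv_extendByZero, haa, hEE]
  have heinv : ∀ u ∈ H, ∀ g, e (u * g * u⁻¹) = e g := by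
    intro u hu g
    rw [hedef]
    exact conv_conj_inv u (hãinv u hu) (fun g => hEcl g u) g
  have hey : ∀ k : H, e k = y₀ k := by
    intro k
    rw [hedef, hy₀def]
    unfold conv
    have h1 : ∑ w : H, a w * z (w⁻¹ * k) =
        ∑ w : G, if w ∈ H then extendByZero H a w * E (w⁻¹ * k) else 0 := by
      rw [← Finset.sum_filter]
      rw [Finset.sum_subtype (Finset.univ.filter (fun w : G => w ∈ H)) (p := fun w => w ∈ H)
        (by simp) (fun w => extendByZero H a w * E (w⁻¹ * k))]
      apply Finset.sum_congr rfl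
      intro w _
      rw [extendByZero_coe, hzdef]
      rfl
    rw [h1]
    apply Finset.sum_congr rfl
    intro w _
    by_cases hw : w ∈ H
    · rw [if_pos hw]
    · rw [if_neg hw, extendByZero_not_mem H _ hw, zero_mul]
  have hx' := hx
  obtain ⟨-, -, -, ⟨kx, hkx⟩, -⟩ := hx'
  have hPp : IsPGroup p (Subgroup.zpowers x) := by
    apply IsPGroup.of_card (n := kx)
    rw [Nat.card_zpowers, hkx]
  have hxH : x ∈ H := hC (Subgroup.mem_centralizer_singleton_iff.mpr rfl)
  have hPH : Subgroup.zpowers x ≤ H := (Subgroup.zpowers_le).mpr hxH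
  have hCH : Subgroup.centralizer ((Subgroup.zpowers x : Subgroup G) : Set G) ≤ H := by
    refine le_trans (Subgroup.centralizer_le ?_) hC
    intro v hv
    rw [Set.mem_singleton_iff] at hv
    rw [hv]
    exact Subgroup.mem_zpowers x
  have hloc0 : ∀ c ∈ Subgroup.centralizer ((Subgroup.zpowers x : Subgroup G) : Set G),
      MemLocalIdeal M (e c) :=
    memLocalIdeal_of_nilpotent hM (Subgroup.zpowers x) hPp H hPH hCH hee heR
      (fun u hu => heinv u (hPH hu)) y₀ hey (fun u k _ => hy₀cl k u) n hm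
  have hloc : ∀ g : G, (∃ j : ℤ, Commute ((h : G) ^ j) g ∧ ¬ (p : ℤ) ∣ j) →
      MemLocalIdeal M (e g) := by
    rintro g ⟨j, hj, hpj⟩
    apply hloc0
    have hxg : Commute x g := commute_ppart hp hx hj hpj
    rw [Subgroup.mem_centralizer_iff]
    intro v hv
    obtain ⟨i, rfl⟩ := Subgroup.mem_zpowers_iff.mp hv
    exact (hxg.zpow_left i).eq
  have hfinal := sum_mul_classFun_eq_zero hM hee heR (h : G) (heinv h h.2) hloc
    (isClassFunction_of_irr χ.2)
  have hrel : ∑ g : G, e g * (χ : G → ℂ) (g * (h : G)) =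
      ∑ k : H, a k * (χ : G → ℂ) ((k : G) * (h : G)) := by
    rw [hedef]
    unfold conv
    simp only [Finset.sum_mul]
    rw [Finset.sum_comm]
    have h2 : ∀ w : G, ∑ g : G, extendByZero H a w * E (w⁻¹ * g) * (χ : G → ℂ) (g * (h : G)) =
        extendByZero H a w * (χ : G → ℂ) (w * (h : G)) := by
      intro w
      have h3 : ∑ g : G, extendByZero H a w * E (w⁻¹ * g) * (χ : G → ℂ) (g * (h : G)) =
          extendByZero H a w * ∑ g' : G, E g' * (χ : G → ℂ) (g' * ((h : G) * w)) := by
        rw [Finset.mul_sum]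
        apply Fintype.sum_equiv (Equiv.mulLeft w⁻¹)
        intro g
        simp only [Equiv.coe_mulLeft]
        rw [mul_assoc]
        congr 2
        have h4 := (isClassFunction_of_irr χ.2) (g * (h : G)) w⁻¹
        rw [← h4]
        congr 1
        group
      rw [h3, sum_mul_char_mul χ.2 hEcl, hOmχE, one_mul]
      congr 1
      have h5 := (isClassFunction_of_irr χ.2) ((h : G) * w) w
      rw [← h5]
      congr 1
      group
    rw [Finset.sum_congr rfl (fun w _ => h2 w)]
    have h4 : ∑ k : H, a k * (χ : G → ℂ) ((k : G) * (h : G)) =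
        ∑ w : G, if w ∈ H then extendByZero H a w * (χ : G → ℂ) (w * (h : G)) else 0 := by
      rw [← Finset.sum_filter]
      rw [Finset.sum_subtype (Finset.univ.filter (fun w : G => w ∈ H)) (p := fun w => w ∈ H)
        (by simp) (fun w => extendByZero H a w * (χ : G → ℂ) (w * (h : G)))]
      apply Finset.sum_congr rfl
      intro w _
      rw [extendByZero_coe]
    rw [h4]
    apply Finset.sum_congr rfl
    intro w _
    by_cases hw : w ∈ H
    · rw [if_pos hw]
    · rw [if_neg hw, extendByZero_not_mem H _ hw, zero_mul]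
  rw [hrel, hadef] at hfinal
  exact hfinal

end Main

section Part

variable {K : Type u} [Group K] [Finite K]

/-- The block part of a class function in terms of the block idempotent. -/
theorem blockPart_eq (b : Set (IrrCharacter K)) (ϑ : K → ℂ) (hϑ : IsClassFunction K ϑ) (y : K) :
    blockPart b ϑ y = ∑ᶠ k : K, blockCoeff b k * ϑ (k * y) := by
  classical
  let inst : Fintype K := Fintype.ofFinite K
  have hfin := irr_finite (G := K)
  let inst2 : Fintype (IrrCharacter K) := Fintype.ofFinite (IrrCharacter K)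
  have h0 : blockPart b ϑ y = ∑ᶠ ψ ∈ b, classInner ϑ (ψ : K → ℂ) * (ψ : K → ℂ) y := rfl
  rw [h0, finsum_mem_def, finsum_eq_sum_of_fintype, finsum_eq_sum_of_fintype]
  have h1 : ∀ k : K, blockCoeff b k * ϑ (k * y) = ∑ ψ : IrrCharacter K,
      classInner ϑ (ψ : K → ℂ) * (blockCoeff b k * (ψ : K → ℂ) (k * y)) := by
    intro k
    rw [classFunction_eq_sum_apply ϑ hϑ (k * y), Finset.mul_sum]
    apply Finset.sum_congr rfl
    intro ψ _
    ring
  rw [Finset.sum_congr rfl (fun k _ => h1 k), Finset.sum_comm]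
  apply Finset.sum_congr rfl
  intro ψ _
  rw [← Finset.mul_sum, sum_mul_char_mul ψ.2 (isClassFunction_blockCoeff b) y]
  by_cases hψ : ψ ∈ b
  · rw [Set.indicator_of_mem hψ, om_blockCoeff_of_mem hψ, one_mul]
  · rw [Set.indicator_of_notMem hψ, om_blockCoeff_of_not_mem hψ, zero_mul, mul_zero]

end Part

section Cent

variable {G : Type u} [Group G] [Fintype G] {p : ℕ} [Fact p.Prime] {M : Ideal AlgInt}

omit [Fintype G] [Fact p.Prime] in
theorem centralizer_le_normalizer_zpowers (x : G) :
    Subgroup.centralizer ({x} : Set G) ≤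
      Subgroup.normalizer ((Subgroup.zpowers x : Subgroup G) : Set G) := by
  intro c hc
  have hc' : Commute c x := Subgroup.mem_centralizer_singleton_iff.mp hc
  rw [Subgroup.mem_normalizer_iff]
  intro v
  constructor
  · intro hv
    obtain ⟨i, rfl⟩ := Subgroup.mem_zpowers_iff.mp hv
    have h1 : c * x ^ i * c⁻¹ = x ^ i := by
      rw [(hc'.zpow_right i).eq, mul_inv_cancel_right]
    rw [h1]
    exact Subgroup.zpow_mem_zpowers x i
  · intro hv
    obtain ⟨i, hi⟩ := Subgroup.mem_zpowers_iff.mp hv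
    have h1 : v = x ^ i := by
      have h2 : v = c⁻¹ * (c * v * c⁻¹) * c := by group
      rw [h2, ← hi, mul_assoc, ← (hc'.zpow_right i).eq, ← mul_assoc, inv_mul_cancel, one_mul]
    rw [h1]
    exact Subgroup.zpow_mem_zpowers x i

/-- Every irreducible character of the centralizer of a `p`-element induces, on central
characters, some irreducible character of the group. -/
theorem exists_irr_induced_cent (hM : IsPModular p M) (x : G) (hx : ∃ k : ℕ, orderOf x = p ^ k)
    [Fintype (Subgroup.centralizer ({x} : Set G))]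
    (ξ : IrrCharacter (Subgroup.centralizer ({x} : Set G))) :
    ∃ χ₁ : IrrCharacter G, ∀ g : G, MemLocalIdeal M
      (inducedCentralChar (Subgroup.centralizer ({x} : Set G))
        (ξ : Subgroup.centralizer ({x} : Set G) → ℂ) g - centralChar (χ₁ : G → ℂ) g) := by
  have hMm : M.IsMaximal := hM.2.1
  obtain ⟨kx, hkx⟩ := hx
  have hPp : IsPGroup p (Subgroup.zpowers x) := by
    apply IsPGroup.of_card (n := kx)
    rw [Nat.card_zpowers, hkx]
  have hxH : x ∈ Subgroup.centralizer ({x} : Set G) :=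
    Subgroup.mem_centralizer_singleton_iff.mpr rfl
  have hPH : Subgroup.zpowers x ≤ Subgroup.centralizer ({x} : Set G) :=
    (Subgroup.zpowers_le).mpr hxH
  have hCH : Subgroup.centralizer ((Subgroup.zpowers x : Subgroup G) : Set G) ≤
      Subgroup.centralizer ({x} : Set G) := by
    apply Subgroup.centralizer_le
    intro v hv
    rw [Set.mem_singleton_iff] at hv
    rw [hv]
    exact Subgroup.mem_zpowers x
  exact exists_irr_induced hM (Subgroup.zpowers x) (Subgroup.centralizer ({x} : Set G)) hPp hPH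
    hCH (centralizer_le_normalizer_zpowers x) ξ

/-- Brauer's second main theorem in terms of block idempotents of the centralizer. -/
theorem second_main_char (hM : IsPModular p M) (x : G) (hx : ∃ k : ℕ, orderOf x = p ^ k)
    (B : Set (IrrCharacter G)) (hB : IsPBlock M B) (χ : IrrCharacter G) (hχ : χ ∈ B)
    (b : Set (IrrCharacter (Subgroup.centralizer ({x} : Set G)))) (hb : IsPBlock M b)
    (hnot : ¬ IsInducedBlock M (Subgroup.centralizer ({x} : Set G)) b B)
    (y : Subgroup.centralizer ({x} : Set G)) (hy : ¬ p ∣ orderOf y) :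
    ∑ᶠ k : Subgroup.centralizer ({x} : Set G),
      blockCoeff b k * (χ : G → ℂ) (x * ((k : G) * (y : G))) = 0 := by
  classical
  have hMm : M.IsMaximal := hM.2.1
  have hMp : M.IsPrime := hMm.isPrime
  obtain ⟨ξ, hξ⟩ := hb
  have hxH : x ∈ Subgroup.centralizer ({x} : Set G) :=
    Subgroup.mem_centralizer_singleton_iff.mpr rfl
  obtain ⟨χ₁, hχ₁⟩ := exists_irr_induced_cent hM x hx ξ
  have hind := isInducedBlock_of_rep (Subgroup.centralizer ({x} : Set G)) ξ χ₁ hχ₁
  rw [← hξ] at hind
  have hχ₁B : χ ∉ blockOf M (χ₁ : G → ℂ) := by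
    intro hmem
    apply hnot
    obtain ⟨χB, hχB⟩ := hB
    have h1 : blockOf M (χ : G → ℂ) = B := by
      rw [hχB]
      exact blockOf_eq_of_mem (by rw [← hχB]; exact hχ)
    have h2 : blockOf M (χ : G → ℂ) = blockOf M (χ₁ : G → ℂ) := blockOf_eq_of_mem hmem
    rw [← h1, h2]
    exact hind
  obtain ⟨kx, hkx⟩ := hx
  obtain ⟨h, hhdef⟩ : ∃ h : Subgroup.centralizer ({x} : Set G), h = ⟨x, hxH⟩ * y := ⟨_, rfl⟩
  have hpp : IsPPart p (h : G) x := by
    refine ⟨(y : G), ?_, ?_, ⟨kx, hkx⟩, ?_⟩
    · rw [hhdef]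
      rfl
    · exact (Subgroup.mem_centralizer_singleton_iff.mp y.2).symm
    · rwa [Subgroup.orderOf_coe]
  have key := second_main_idem hM (Subgroup.centralizer ({x} : Set G)) b
    (blockOf M (χ₁ : G → ℂ)) hind h x hpp le_rfl χ hχ₁B
  rw [finsum_eq_sum_of_fintype, ← key]
  apply Finset.sum_congr rfl
  intro k _
  refine congrArg _ (congrArg _ ?_)
  rw [hhdef]
  show x * ((k : G) * (y : G)) = (k : G) * (x * (y : G))
  have hk : (k : G) * x = x * (k : G) := Subgroup.mem_centralizer_singleton_iff.mp k.2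
  rw [← mul_assoc, ← hk, mul_assoc]

end Cent

end Cfsg.Agent.Lib_helper3_SecondMain2
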