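import Mathlib
import Cfsg.Prelude.Def_Characters
import Cfsg.Prelude.Def_Blocks
import Cfsg.Agent.Lib_helper3_SecondMain2

set_option autoImplicit false
open Cfsg
open Cfsg.Agent.Lib_helper3_CharBasic Cfsg.Agent.Lib_helper3_CharMore
  Cfsg.Agent.Lib_helper3_Local Cfsg.Agent.Lib_helper3_Local2 Cfsg.Agent.Lib_helper3_BlockAlg
  Cfsg.Agent.Lib_helper3_BlockInd Cfsg.Agent.Lib_helper3_DefectLoc
  Cfsg.Agent.Lib_helper3_IdemSupp Cfsg.Agent.Lib_helper3_AugNil Cfsg.Agent.Lib_helper3_Residue
  Cfsg.Agent.Lib_helper3_IdemCent Cfsg.Agent.Lib_helper3_DefectLoc2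
  Cfsg.Agent.Lib_helper3_BrauerHom Cfsg.Agent.Lib_helper3_BrauerHom2
  Cfsg.Agent.Lib_helper3_BrauerHom3
  Cfsg.Agent.Lib_helper3_BlockCover Cfsg.Agent.Lib_helper3_TraceZero
  Cfsg.Agent.Lib_helper3_CharInd Cfsg.Agent.Lib_helper3_BrauerTrunc
  Cfsg.Agent.Lib_helper3_CharIntegral Cfsg.Agent.Lib_helper3_SecondMain
  Cfsg.Agent.Lib_helper3_ExtFirstMain Cfsg.Agent.Lib_helper3_SecondMain2
open scoped ComplexConjugate

namespace Cfsg.Agent.Lib_helper3_SecondMain3

attribute [local instance] Ideal.Quotient.field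

universe u

section IndSet

variable {G : Type u} [Group G]

/-- The irreducible characters of the centralizer of `z` whose block induces the block `B`. -/
def indSet (M : Ideal AlgInt) (z : G) (B : Set (IrrCharacter G)) :
    Set (IrrCharacter (Subgroup.centralizer ({z} : Set G))) :=
  {ψ | ∃ χ₁ ∈ B, ∀ g : G, MemLocalIdeal M
    (inducedCentralChar (Subgroup.centralizer ({z} : Set G))
      (ψ : Subgroup.centralizer ({z} : Set G) → ℂ) g - centralChar (χ₁ : G → ℂ) g)}

variable [Fintype G] {p : ℕ} [Fact p.Prime] {M : Ideal AlgInt}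

omit [Fintype G] [Fact p.Prime] in
theorem indSet_union (hM : IsPModular p M) (z : G) (B : Set (IrrCharacter G))
    [Fintype (Subgroup.centralizer ({z} : Set G))] :
    ∀ ψ ∈ indSet M z B, blockOf M (ψ : Subgroup.centralizer ({z} : Set G) → ℂ) ⊆ indSet M z B := by
  have hMm : M.IsMaximal := hM.2.1
  have hMp : M.IsPrime := hMm.isPrime
  intro ψ hψ ψ' hψ'
  obtain ⟨χ₁, hχ₁, hcong⟩ := hψ
  refine ⟨χ₁, hχ₁, fun g => ?_⟩
  have h1 := inducedCentralChar_congr (M := M) (isClassFunction_of_irr ψ'.2)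
    (isClassFunction_of_irr ψ.2) (sameBlock_symm hψ') g
  have h2 := memLocalIdeal_add h1 (hcong g)
  rw [sub_add_sub_cancel] at h2
  exact h2

omit [Fintype G] [Fact p.Prime] in
theorem indSet_compl_union (hM : IsPModular p M) (z : G) (B : Set (IrrCharacter G))
    [Fintype (Subgroup.centralizer ({z} : Set G))] :
    ∀ ψ ∈ (indSet M z B)ᶜ,
      blockOf M (ψ : Subgroup.centralizer ({z} : Set G) → ℂ) ⊆ (indSet M z B)ᶜ := by
  have hMm : M.IsMaximal := hM.2.1
  have hMp : M.IsPrime := hMm.isPrime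
  intro ψ hψ ψ' hψ' hmem
  apply hψ
  exact indSet_union hM z B ψ' hmem (sameBlock_symm hψ')

/-- The idempotents of a set and of its complement add up to the identity. -/
theorem blockCoeff_add_compl {K : Type u} [Group K] [Fintype K] (A : Set (IrrCharacter K))
    (k : K) : blockCoeff A k + blockCoeff Aᶜ k = cpow (fun _ : K => (0 : ℂ)) 0 k := by
  have hz : IsClassFunction K (fun _ : K => (0 : ℂ)) := fun _ _ => rfl
  have h1 : (fun k => blockCoeff A k + blockCoeff Aᶜ k) = cpow (fun _ : K => (0 : ℂ)) 0 := by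
    apply om_ext
    · intro g k'
      show blockCoeff A (k' * g * k'⁻¹) + blockCoeff Aᶜ (k' * g * k'⁻¹) =
        blockCoeff A g + blockCoeff Aᶜ g
      rw [isClassFunction_blockCoeff A g k', isClassFunction_blockCoeff Aᶜ g k']
    · exact isClassFunction_cpow hz 0
    · intro χ
      have h2 : (fun k => blockCoeff A k + blockCoeff Aᶜ k) = blockCoeff A + blockCoeff Aᶜ := rfl
      rw [h2, om_add, om_cpow χ.2 hz 0, pow_zero]
      by_cases hχ : χ ∈ A
      · rw [om_blockCoeff_of_mem hχ, om_blockCoeff_of_not_mem (fun h : χ ∈ Aᶜ => h hχ), add_zero]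
      · rw [om_blockCoeff_of_not_mem hχ, om_blockCoeff_of_mem (show χ ∈ Aᶜ from hχ), zero_add]
  exact congrFun h1 k

open Classical in
/-- The local form of the second main theorem: the idempotent of the blocks of `C_G(z)`
inducing `B` cuts out the `B`-part on the `p`-section of `z`. -/
theorem sum_indSet (hM : IsPModular p M) (z : G) (hz : ∃ k : ℕ, orderOf z = p ^ k)
    (B : Set (IrrCharacter G)) (hB : IsPBlock M B)
    [Fintype (Subgroup.centralizer ({z} : Set G))] (χ : IrrCharacter G)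
    (h : Subgroup.centralizer ({z} : Set G)) (hh : IsPPart p (h : G) z) :
    ∑ k : Subgroup.centralizer ({z} : Set G),
      blockCoeff (indSet M z B) k * (χ : G → ℂ) ((k : G) * (h : G)) =
      if χ ∈ B then (χ : G → ℂ) (h : G) else 0 := by
  classical
  have hMm : M.IsMaximal := hM.2.1
  have hMp : M.IsPrime := hMm.isPrime
  have hMtop : M ≠ ⊤ := hMp.ne_top
  obtain ⟨χB, hχB⟩ := hB
  by_cases hχ : χ ∈ B
  · rw [if_pos hχ]
    have hBχ : blockOf M (χ : G → ℂ) = B := by
      rw [hχB]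
      exact blockOf_eq_of_mem (by rw [← hχB]; exact hχ)
    have h1 := second_main_idem_set hM (Subgroup.centralizer ({z} : Set G)) (indSet M z B)ᶜ
      (osima_union (indSet_compl_union hM z B)) χ (by
        intro ξ hξ
        obtain ⟨χ₁, hχ₁⟩ := exists_irr_induced_cent hM z hz ξ
        refine ⟨χ₁, ?_, hχ₁⟩
        intro hmem
        apply hξ
        refine ⟨χ₁, ?_, hχ₁⟩
        rw [← hBχ]
        exact hmem) h z hh le_rfl
    have h2 : ∀ k : Subgroup.centralizer ({z} : Set G),
        blockCoeff (indSet M z B) k * (χ : G → ℂ) ((k : G) * (h : G)) =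
        cpow (fun _ : Subgroup.centralizer ({z} : Set G) => (0 : ℂ)) 0 k *
          (χ : G → ℂ) ((k : G) * (h : G)) -
        blockCoeff (indSet M z B)ᶜ k * (χ : G → ℂ) ((k : G) * (h : G)) := by
      intro k
      rw [← blockCoeff_add_compl (indSet M z B) k]
      ring
    rw [Finset.sum_congr rfl (fun k _ => h2 k), Finset.sum_sub_distrib, h1, sub_zero]
    rw [Finset.sum_eq_single (1 : Subgroup.centralizer ({z} : Set G))]
    · unfold cpow
      rw [if_pos rfl, one_mul, Subgroup.coe_one, one_mul]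
    · intro k _ hk
      unfold cpow
      rw [if_neg hk, zero_mul]
    · intro h'
      exact absurd (Finset.mem_univ _) h'
  · rw [if_neg hχ]
    apply second_main_idem_set hM (Subgroup.centralizer ({z} : Set G)) (indSet M z B)
      (osima_union (indSet_union hM z B)) χ _ h z hh le_rfl
    intro ξ hξ
    obtain ⟨χ₁, hχ₁, hcong⟩ := hξ
    refine ⟨χ₁, ?_, hcong⟩
    intro hmem
    apply hχ
    have h3 : blockOf M (χ₁ : G → ℂ) = B := by
      rw [hχB]
      exact blockOf_eq_of_mem (by rw [← hχB]; exact hχ₁)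
    rw [← h3, blockOf_eq_of_mem hmem]
    exact mem_blockOf_self hMtop χ

end IndSet

section Orth

variable {K : Type u} [Group K] [Fintype K] {p : ℕ} {M : Ideal AlgInt}

/-- A central idempotent with local-integer coefficients kills, at `p`-regular elements, every
class function vanishing on the `p`-regular elements. -/
theorem sum_idem_mul_eq_zero (hM : IsPModular p M) {a : K → ℂ} (hacl : IsClassFunction K a)
    (haa : conv a a = a) (haR : ∀ k, MemLocalRing M (a k)) {η : K → ℂ}
    (hη : IsClassFunction K η) (hηreg : ∀ c : K, ¬ p ∣ orderOf c → η c = 0) (y : K)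
    (hy : ¬ p ∣ orderOf y) : ∑ k : K, a k * η (k * y) = 0 := by
  classical
  have h1 : ∑ k : K, a k * η (k * y) = ∑ c : K, a (c * y⁻¹) * η c := by
    apply Fintype.sum_equiv (Equiv.mulRight y)
    intro k
    simp only [Equiv.coe_mulRight]
    rw [mul_inv_cancel_right]
  have h2 : ∀ s : K, ∑ c : K, a (c * y⁻¹) * η c =
      ∑ c : K, a (s⁻¹ * c * s * y⁻¹) * η c := by
    intro s
    symm
    apply Fintype.sum_equiv (MulAut.conj s⁻¹).toEquiv
    intro c
    simp only [MulEquiv.toEquiv_eq_coe, EquivLike.coe_coe, MulAut.conj_apply, inv_inv]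
    congr 1
    have h5 := hη c s⁻¹
    rw [inv_inv] at h5
    exact h5.symm
  have h3 : (Fintype.card K : ℂ) * ∑ c : K, a (c * y⁻¹) * η c = 0 := by
    have h4 : (Fintype.card K : ℂ) * ∑ c : K, a (c * y⁻¹) * η c =
        ∑ s : K, ∑ c : K, a (s⁻¹ * c * s * y⁻¹) * η c := by
      rw [← Finset.sum_congr rfl (fun s _ => h2 s), Finset.sum_const, Finset.card_univ,
        nsmul_eq_mul]
    rw [h4, Finset.sum_comm]
    apply Finset.sum_eq_zero
    intro c _
    rw [← Finset.sum_mul]
    by_cases hc : p ∣ orderOf c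
    · rw [sum_conj_mul_eq_zero hM hacl haa haR y⁻¹ c (by rwa [orderOf_inv]) hc, zero_mul]
    · rw [hηreg c hc, mul_zero]
  rcases mul_eq_zero.mp h3 with h | h
  · exact absurd h (by exact_mod_cast Fintype.card_ne_zero)
  · rw [h1]
    exact h

end Orth

section PPart2

variable {G : Type u} [Group G]

theorem isPPart_conj {p : ℕ} {h y : G} (s : G) (hy : IsPPart p h y) :
    IsPPart p (s * h * s⁻¹) (s * y * s⁻¹) := by
  obtain ⟨w, hyw, hcomm, ⟨k, hk⟩, hw⟩ := hy
  refine ⟨s * w * s⁻¹, ?_, ?_, ⟨k, ?_⟩, ?_⟩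
  · rw [← hyw]
    group
  · show s * y * s⁻¹ * (s * w * s⁻¹) = s * w * s⁻¹ * (s * y * s⁻¹)
    have h1 := hcomm.eq
    calc s * y * s⁻¹ * (s * w * s⁻¹) = s * (y * w) * s⁻¹ := by group
      _ = s * (w * y) * s⁻¹ := by rw [h1]
      _ = s * w * s⁻¹ * (s * y * s⁻¹) := by group
  · rw [← hk]
    exact Cfsg.Agent.Lib_helper3_PReg.orderOf_conj_eq s y
  · rw [Cfsg.Agent.Lib_helper3_PReg.orderOf_conj_eq s w]
    exact hw

/-- The `p`-part of an element is unique. -/
theorem isPPart_unique {p : ℕ} (hp : p.Prime) {u z z' : G} (h : IsPPart p u z)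
    (h' : IsPPart p u z') : z = z' := by
  obtain ⟨w, hzw, hc, ⟨k, hk⟩, hw⟩ := h
  obtain ⟨w', hzw', hc', ⟨k', hk'⟩, hw'⟩ := h'
  obtain ⟨n, hndef⟩ : ∃ n : ℕ, n = orderOf w * orderOf w' := ⟨_, rfl⟩
  have hpn : ¬ p ∣ n := by
    rw [hndef]
    intro h1
    rcases (Nat.Prime.dvd_mul hp).mp h1 with h2 | h2
    · exact hw h2
    · exact hw' h2
  have h1 : u ^ n = z ^ n := by
    rw [← hzw, hc.mul_pow]
    have h2 : w ^ n = 1 := by
      rw [hndef, pow_mul, pow_orderOf_eq_one, one_pow]
    rw [h2, mul_one]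
  have h1' : u ^ n = z' ^ n := by
    rw [← hzw', hc'.mul_pow]
    have h2 : w' ^ n = 1 := by
      rw [hndef, mul_comm, pow_mul, pow_orderOf_eq_one, one_pow]
    rw [h2, mul_one]
  have hzz : z ^ n = z' ^ n := by rw [← h1, ← h1']
  have hcop : IsCoprime (n : ℤ) ((p ^ (k + k') : ℕ) : ℤ) := by
    apply Nat.isCoprime_iff_coprime.mpr
    exact ((Nat.Prime.coprime_iff_not_dvd hp).mpr hpn).symm.pow_right _
  obtain ⟨a, c, hac⟩ := hcop
  have hzN : z ^ ((p ^ (k + k') : ℕ) : ℤ) = 1 := by
    rw [zpow_natCast, pow_add, pow_mul, ← hk, pow_orderOf_eq_one, one_pow]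
  have hzN' : z' ^ ((p ^ (k + k') : ℕ) : ℤ) = 1 := by
    rw [zpow_natCast, pow_add, mul_comm, pow_mul, ← hk', pow_orderOf_eq_one, one_pow]
  have e1 : z = (z ^ n) ^ a := by
    have h3 : z = z ^ ((n : ℤ) * a + ((p ^ (k + k') : ℕ) : ℤ) * c) := by
      have h4 : (n : ℤ) * a + ((p ^ (k + k') : ℕ) : ℤ) * c = 1 := by linarith
      rw [h4, zpow_one]
    rw [zpow_add, zpow_mul, zpow_mul, hzN, one_zpow, mul_one, zpow_natCast] at h3
    exact h3
  have e2 : z' = (z' ^ n) ^ a := by
    have h3 : z' = z' ^ ((n : ℤ) * a + ((p ^ (k + k') : ℕ) : ℤ) * c) := by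
      have h4 : (n : ℤ) * a + ((p ^ (k + k') : ℕ) : ℤ) * c = 1 := by linarith
      rw [h4, zpow_one]
    rw [zpow_add, zpow_mul, zpow_mul, hzN', one_zpow, mul_one, zpow_natCast] at h3
    exact h3
  rw [e1, e2, hzz]

end PPart2

section Section

variable {G : Type u} [Group G] [Finite G] {p : ℕ} [Fact p.Prime] {M : Ideal AlgInt}

/-- The `B`-part of a class function on the `p`-section of `z`, in terms of the idempotent of
the blocks of `C_G(z)` inducing `B`. -/
theorem blockPart_eq_cent (hM : IsPModular p M) (z : G) (hz : ∃ k : ℕ, orderOf z = p ^ k)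
    (B : Set (IrrCharacter G)) (hB : IsPBlock M B) (ϑ : G → ℂ) (hϑ : IsClassFunction G ϑ)
    (h : Subgroup.centralizer ({z} : Set G)) (hh : IsPPart p (h : G) z) :
    blockPart B ϑ (h : G) = ∑ᶠ k : Subgroup.centralizer ({z} : Set G),
      blockCoeff (indSet M z B) k * ϑ ((k : G) * (h : G)) := by
  classical
  let inst : Fintype G := Fintype.ofFinite G
  have hfin := irr_finite (G := G)
  let inst2 : Fintype (IrrCharacter G) := Fintype.ofFinite (IrrCharacter G)
  have h0 : blockPart B ϑ (h : G) =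
      ∑ᶠ χ ∈ B, classInner ϑ (χ : G → ℂ) * (χ : G → ℂ) (h : G) := rfl
  rw [h0, finsum_mem_def, finsum_eq_sum_of_fintype, finsum_eq_sum_of_fintype]
  have h1 : ∀ k : Subgroup.centralizer ({z} : Set G),
      blockCoeff (indSet M z B) k * ϑ ((k : G) * (h : G)) = ∑ χ : IrrCharacter G,
        classInner ϑ (χ : G → ℂ) *
          (blockCoeff (indSet M z B) k * (χ : G → ℂ) ((k : G) * (h : G))) := by
    intro k
    rw [classFunction_eq_sum_apply ϑ hϑ ((k : G) * (h : G)), Finset.mul_sum]
    apply Finset.sum_congr rfl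
    intro χ _
    ring
  rw [Finset.sum_congr rfl (fun k _ => h1 k), Finset.sum_comm]
  apply Finset.sum_congr rfl
  intro χ _
  rw [← Finset.mul_sum, sum_indSet hM z hz B hB χ h hh]
  by_cases hχ : χ ∈ B
  · rw [Set.indicator_of_mem hχ, if_pos hχ]
  · rw [Set.indicator_of_notMem hχ, if_neg hχ, mul_zero]

/-- If a class function vanishes on the `p`-section of `x`, so does its `B`-part. -/
theorem blockPart_section (hM : IsPModular p M) (ϑ : G → ℂ) (hϑ : IsClassFunction G ϑ) (x : G)
    (hvan : ∀ u z : G, IsPPart p u z → IsConj x z → ϑ u = 0) (B : Set (IrrCharacter G))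
    (hB : IsPBlock M B) (u z : G) (huz : IsPPart p u z) (hxz : IsConj x z) :
    blockPart B ϑ u = 0 := by
  classical
  let inst : Fintype G := Fintype.ofFinite G
  have hMm : M.IsMaximal := hM.2.1
  have hMp : M.IsPrime := hMm.isPrime
  have huz' := huz
  obtain ⟨y, hzy, hcomm, hz, hy⟩ := huz'
  have huC : u ∈ Subgroup.centralizer ({z} : Set G) := by
    rw [Subgroup.mem_centralizer_singleton_iff, ← hzy, mul_assoc, ← hcomm.eq]
  have hyC : y ∈ Subgroup.centralizer ({z} : Set G) := by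
    rw [Subgroup.mem_centralizer_singleton_iff]
    exact hcomm.eq.symm
  have key : blockPart B ϑ u = ∑ᶠ k : Subgroup.centralizer ({z} : Set G),
      blockCoeff (indSet M z B) k * ϑ ((k : G) * u) :=
    blockPart_eq_cent hM z hz B hB ϑ hϑ ⟨u, huC⟩ huz
  rw [key, finsum_eq_sum_of_fintype]
  obtain ⟨η, hηdef⟩ : ∃ η : Subgroup.centralizer ({z} : Set G) → ℂ,
      η = fun c : Subgroup.centralizer ({z} : Set G) => ϑ (z * (c : G)) := ⟨_, rfl⟩
  have hηcl : IsClassFunction (Subgroup.centralizer ({z} : Set G)) η := by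
    intro c k
    rw [hηdef]
    show ϑ (z * ((k * c * k⁻¹ : Subgroup.centralizer ({z} : Set G)) : G)) = ϑ (z * (c : G))
    have hk : (k : G) * z = z * (k : G) := Subgroup.mem_centralizer_singleton_iff.mp k.2
    have h1 : z * ((k * c * k⁻¹ : Subgroup.centralizer ({z} : Set G)) : G) =
        (k : G) * (z * (c : G)) * (k : G)⁻¹ := by
      simp only [Subgroup.coe_mul, Subgroup.coe_inv]
      rw [← mul_assoc, ← mul_assoc, ← hk]
      simp only [mul_assoc]
    rw [h1]
    exact hϑ _ _
  have hηreg : ∀ c : Subgroup.centralizer ({z} : Set G), ¬ p ∣ orderOf c → η c = 0 := by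
    intro c hc
    rw [hηdef]
    refine hvan (z * (c : G)) z ⟨(c : G), rfl, ?_, hz, ?_⟩ hxz
    · exact (Subgroup.mem_centralizer_singleton_iff.mp c.2).symm
    · rwa [Subgroup.orderOf_coe]
  have h5 := sum_idem_mul_eq_zero hM (isClassFunction_blockCoeff (indSet M z B))
    (conv_blockCoeff _) (osima_union (indSet_union hM z B)) hηcl hηreg ⟨y, hyC⟩
    (by rwa [Subgroup.orderOf_mk])
  rw [← h5]
  apply Finset.sum_congr rfl
  intro k _
  refine congrArg _ ?_
  rw [hηdef]
  show ϑ ((k : G) * u) = ϑ (z * ((k : G) * y))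
  refine congrArg _ ?_
  have hk : (k : G) * z = z * (k : G) := Subgroup.mem_centralizer_singleton_iff.mp k.2
  rw [← hzy, ← mul_assoc, ← mul_assoc, hk]

/-- Block orthogonality for elements with non-conjugate `p`-parts. -/
theorem block_orth_section (hM : IsPModular p M) (g h x y : G) (hgx : IsPPart p g x)
    (hhy : IsPPart p h y) (hxy : ¬ IsConj x y) (B : Set (IrrCharacter G)) (hB : IsPBlock M B) :
    ∑ᶠ χ ∈ B, (χ : G → ℂ) g * (χ : G → ℂ) h⁻¹ = 0 := by
  classical
  let inst : Fintype G := Fintype.ofFinite G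
  have hfin := irr_finite (G := G)
  let inst2 : Fintype (IrrCharacter G) := Fintype.ofFinite (IrrCharacter G)
  have hp : p.Prime := Fact.out
  have hvan : ∀ u z : G, IsPPart p u z → IsConj x z → classInd h u = 0 := by
    intro u z huz hxz
    unfold classInd
    rw [if_neg]
    intro hconj
    obtain ⟨s, hs⟩ := isConj_iff.mp hconj
    have h1 := isPPart_conj s hhy
    rw [hs] at h1
    have h2 := isPPart_unique hp huz h1
    apply hxy
    refine hxz.trans ?_
    rw [h2]
    exact (isConj_iff.mpr ⟨s, rfl⟩).symm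
  have key := blockPart_section hM (classInd h) (isClassFunction_classInd h) x hvan B hB g x hgx
    (IsConj.refl x)
  have h0 : blockPart B (classInd h) g =
      ∑ᶠ χ ∈ B, classInner (classInd h) (χ : G → ℂ) * (χ : G → ℂ) g := rfl
  rw [h0, finsum_mem_def, finsum_eq_sum_of_fintype] at key
  rw [finsum_mem_def, finsum_eq_sum_of_fintype]
  obtain ⟨c, hcdef⟩ : ∃ c : ℂ, c = (Nat.card G : ℂ)⁻¹ *
      ((Subgroup.centralizer ({h} : Set G)).index : ℂ) := ⟨_, rfl⟩
  have hc0 : c ≠ 0 := by
    rw [hcdef]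
    apply mul_ne_zero
    · exact inv_ne_zero card_ne_zero
    · have h1 : (Subgroup.centralizer ({h} : Set G)).index ≠ 0 := Subgroup.index_ne_zero_of_finite
      exact_mod_cast h1
  have h3 : ∑ χ : IrrCharacter G, B.indicator
      (fun χ : IrrCharacter G => classInner (classInd h) (χ : G → ℂ) * (χ : G → ℂ) g) χ =
      c * ∑ χ : IrrCharacter G, B.indicator
        (fun χ : IrrCharacter G => (χ : G → ℂ) g * (χ : G → ℂ) h⁻¹) χ := by
    rw [Finset.mul_sum]
    apply Finset.sum_congr rfl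
    intro χ _
    by_cases hχ : χ ∈ B
    · rw [Set.indicator_of_mem hχ, Set.indicator_of_mem hχ,
        classInner_classInd h (isClassFunction_of_irr χ.2),
        isCharacter_inv (isCharacter_of_irr χ.2) h, hcdef]
      ring
    · rw [Set.indicator_of_notMem hχ, Set.indicator_of_notMem hχ, mul_zero]
  rw [h3] at key
  rcases mul_eq_zero.mp key with h4 | h4
  · exact absurd h4 hc0
  · exact h4

end Section

end Cfsg.Agent.Lib_helper3_SecondMain3
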