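import Mathlib
import Cfsg.Prelude.Def_Characters
import Cfsg.Prelude.Def_Blocks
import Cfsg.Agent.Lib_helper3_SecondMain3
import Cfsg.Agent.Lib_helper3_FirstMain2

set_option autoImplicit false
open Cfsg
open Cfsg.Agent.Lib_helper3_CharBasic Cfsg.Agent.Lib_helper3_CharMore
  Cfsg.Agent.Lib_helper3_Local Cfsg.Agent.Lib_helper3_Local2 Cfsg.Agent.Lib_helper3_BlockAlg
  Cfsg.Agent.Lib_helper3_BlockInd Cfsg.Agent.Lib_helper3_DefectLoc
  Cfsg.Agent.Lib_helper3_IdemSupp Cfsg.Agent.Lib_helper3_AugNil Cfsg.Agent.Lib_helper3_Residue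
  Cfsg.Agent.Lib_helper3_IdemCent Cfsg.Agent.Lib_helper3_DefectLoc2
  Cfsg.Agent.Lib_helper3_BrauerHom Cfsg.Agent.Lib_helper3_BrauerHom2
  Cfsg.Agent.Lib_helper3_BrauerHom3
  Cfsg.Agent.Lib_helper3_BlockCover Cfsg.Agent.Lib_helper3_TraceZero
  Cfsg.Agent.Lib_helper3_CharInd Cfsg.Agent.Lib_helper3_BrauerTrunc
  Cfsg.Agent.Lib_helper3_CharIntegral Cfsg.Agent.Lib_helper3_SecondMain
  Cfsg.Agent.Lib_helper3_ExtFirstMain Cfsg.Agent.Lib_helper3_SecondMain2
  Cfsg.Agent.Lib_helper3_SecondMain3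
open scoped ComplexConjugate

namespace Cfsg.Agent.Lib_helper3_SecondMain4

attribute [local instance] Ideal.Quotient.field

universe u

variable {G : Type u} [Group G] [Finite G] {p : ℕ} [Fact p.Prime] {M : Ideal AlgInt}

/-- If a block of `C_G(x)`, `x` a `p`-element, induces the block `B`, then `x` lies in a defect
group of `B`. -/
theorem mem_defect_of_induced (hM : IsPModular p M) (x : G) (hxp : ∃ k : ℕ, orderOf x = p ^ k)
    (B : Set (IrrCharacter G)) (hB : IsPBlock M B)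
    (b : Set (IrrCharacter (Subgroup.centralizer ({x} : Set G))))
    (hind : IsInducedBlock M (Subgroup.centralizer ({x} : Set G)) b B) :
    ∃ E : Subgroup G, IsDefectGroup p M B E ∧ x ∈ E := by
  classical
  have hxC : x ∈ Subgroup.centralizer ({x} : Set G) :=
    Subgroup.mem_centralizer_singleton_iff.mpr rfl
  have hb := hind.1
  obtain ⟨h₀, hh₀⟩ := Cfsg.Agent.S0906.result p M hM b hb
  obtain ⟨Pb⟩ : Nonempty (Sylow p (Subgroup.centralizer
    ({h₀} : Set (Subgroup.centralizer ({x} : Set G))))) := inferInstance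
  have hDb : IsDefectGroup p M b
      ((Pb : Subgroup (Subgroup.centralizer ({h₀} : Set (Subgroup.centralizer ({x} : Set G))))).map
        (Subgroup.centralizer ({h₀} : Set (Subgroup.centralizer ({x} : Set G)))).subtype) :=
    ⟨h₀, hh₀, Pb, rfl⟩
  have hcore := Cfsg.Agent.S0912.result p M hM b hb _ hDb
  obtain ⟨E, hE, hDE⟩ := Cfsg.Agent.S0917.result p M hM (Subgroup.centralizer ({x} : Set G))
    b hb B hB hind _ hDb
  refine ⟨E, hE, ?_⟩
  apply hDE
  refine Subgroup.mem_map.mpr ⟨⟨x, hxC⟩, hcore ?_, rfl⟩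
  have hN : (Subgroup.zpowers (⟨x, hxC⟩ : Subgroup.centralizer ({x} : Set G))).Normal := by
    constructor
    intro n hn c
    obtain ⟨i, rfl⟩ := Subgroup.mem_zpowers_iff.mp hn
    have hc : Commute c (⟨x, hxC⟩ : Subgroup.centralizer ({x} : Set G)) := by
      apply Subtype.ext
      exact Subgroup.mem_centralizer_singleton_iff.mp c.2
    rw [(hc.zpow_right i).eq, mul_inv_cancel_right]
    exact Subgroup.zpow_mem_zpowers _ i
  have hNp : IsPGroup p (Subgroup.zpowers (⟨x, hxC⟩ : Subgroup.centralizer ({x} : Set G))) := by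
    obtain ⟨kx, hkx⟩ := hxp
    apply IsPGroup.of_card (n := kx)
    rw [Nat.card_zpowers, Subgroup.orderOf_mk, hkx]
  have hle : Subgroup.zpowers (⟨x, hxC⟩ : Subgroup.centralizer ({x} : Set G)) ≤
      pCore p (Subgroup.centralizer ({x} : Set G)) := le_sSup ⟨hN, hNp⟩
  exact hle (Subgroup.mem_zpowers _)

/-- An irreducible character vanishes at the elements whose `p`-part lies in no defect group
of its block. -/
theorem vanish_off_defect (hM : IsPModular p M) (χ : IrrCharacter G) (g x : G)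
    (hx : IsPPart p g x)
    (hD : ∀ D : Subgroup G, IsDefectGroup p M (blockOf M (χ : G → ℂ)) D → x ∉ D) :
    (χ : G → ℂ) g = 0 := by
  classical
  have := Fintype.ofFinite G
  have hMm : M.IsMaximal := hM.2.1
  have hMp : M.IsPrime := hMm.isPrime
  have hMtop : M ≠ ⊤ := hMp.ne_top
  have hx' := hx
  obtain ⟨y, hxy, hcomm, hxp, hy⟩ := hx'
  have hgC : g ∈ Subgroup.centralizer ({x} : Set G) := by
    rw [Subgroup.mem_centralizer_singleton_iff, ← hxy, mul_assoc, ← hcomm.eq]
  have hB : IsPBlock M (blockOf M (χ : G → ℂ)) := ⟨χ, rfl⟩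
  have hempty : indSet M x (blockOf M (χ : G → ℂ)) = ∅ := by
    apply Set.eq_empty_of_forall_notMem
    intro ψ hψ
    obtain ⟨χ₁, hχ₁, hcong⟩ := hψ
    have hind := isInducedBlock_of_rep (Subgroup.centralizer ({x} : Set G)) ψ χ₁ hcong
    rw [blockOf_eq_of_mem hχ₁] at hind
    obtain ⟨E, hE, hxE⟩ := mem_defect_of_induced hM x hxp _ hB _ hind
    exact hD E hE hxE
  have key := sum_indSet hM x hxp (blockOf M (χ : G → ℂ)) hB χ ⟨g, hgC⟩ hx
  rw [if_pos (mem_blockOf_self hMtop χ), hempty] at key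
  rw [← key]
  apply Finset.sum_eq_zero
  intro k _
  have h1 : blockCoeff (∅ : Set (IrrCharacter (Subgroup.centralizer ({x} : Set G)))) k = 0 := by
    unfold blockCoeff
    simp
  rw [h1, zero_mul]

end Cfsg.Agent.Lib_helper3_SecondMain4
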