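import Mathlib
import Cfsg.Prelude.Def_Characters
import Cfsg.Prelude.Def_Blocks
import Cfsg.Agent.Lib_helper3_SecondMain4
import Cfsg.Agent.Lib_helper3_DefectCard2
import Cfsg.Agent.Lib_helper3_SylCard
import Cfsg.Agent.S0911

set_option autoImplicit false
open Cfsg
open Cfsg.Agent.Lib_helper3_CharBasic Cfsg.Agent.Lib_helper3_CharMore
  Cfsg.Agent.Lib_helper3_Local Cfsg.Agent.Lib_helper3_Local2 Cfsg.Agent.Lib_helper3_BlockAlg
  Cfsg.Agent.Lib_helper3_SecondMain4 Cfsg.Agent.Lib_helper3_DefectCard2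
  Cfsg.Agent.Lib_helper3_SylCard
open scoped ComplexConjugate

namespace Cfsg.Agent.Lib_helper3_SecondMain5

universe u

variable {G : Type u} [Group G] [Finite G] {p : ℕ} [Fact p.Prime] {M : Ideal AlgInt}

/-- Any two defect groups of a block are conjugate (one-sided containment form). -/
theorem defect_le_conj (hM : IsPModular p M) (B : Set (IrrCharacter G)) (hB : IsPBlock M B)
    {D D' : Subgroup G} (hD : IsDefectGroup p M B D) (hD' : IsDefectGroup p M B D') :
    ∃ w : G, ∀ v ∈ D', w⁻¹ * v * w ∈ D := by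
  classical
  obtain ⟨g, hg, S, rfl⟩ := hD
  obtain ⟨g', hg', S', rfl⟩ := hD'
  obtain ⟨x, Q, hQ⟩ := (Cfsg.Agent.S0911.result p M hM B hB g hg S g').1 hg'.1 hg'.2.1
  have h₁ : (Q : Subgroup (Subgroup.centralizer ({g'} : Set G))).map
      (Subgroup.centralizer ({g'} : Set G)).subtype ≤ Subgroup.centralizer ({g'} : Set G) :=
    Subgroup.map_subtype_le _
  have h₂ : (S' : Subgroup (Subgroup.centralizer ({g'} : Set G))).map
      (Subgroup.centralizer ({g'} : Set G)).subtype ≤ Subgroup.centralizer ({g'} : Set G) :=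
    Subgroup.map_subtype_le _
  have c₁ : Nat.card ((Q : Subgroup (Subgroup.centralizer ({g'} : Set G))).map
      (Subgroup.centralizer ({g'} : Set G)).subtype) =
      p ^ (Nat.card (Subgroup.centralizer ({g'} : Set G))).factorization p := by
    rw [Subgroup.card_map_of_injective (Subgroup.subtype_injective _)]
    exact Sylow.card_eq_multiplicity Q
  have c₂ : Nat.card ((S' : Subgroup (Subgroup.centralizer ({g'} : Set G))).map
      (Subgroup.centralizer ({g'} : Set G)).subtype) =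
      p ^ (Nat.card (Subgroup.centralizer ({g'} : Set G))).factorization p := by
    rw [Subgroup.card_map_of_injective (Subgroup.subtype_injective _)]
    exact Sylow.card_eq_multiplicity S'
  obtain ⟨c, -, hc⟩ := exists_conj_eq_of_card (Subgroup.centralizer ({g'} : Set G)) h₁ h₂ c₁ c₂
  refine ⟨c * x, ?_⟩
  intro v hv
  rw [← hc] at hv
  obtain ⟨q, hq, rfl⟩ := Subgroup.mem_map.mp hv
  obtain ⟨d, hd, rfl⟩ := Subgroup.mem_map.mp (hQ hq)
  have h3 : (c * x)⁻¹ * ((MulAut.conj c).toMonoidHom ((MulAut.conj x).toMonoidHom d)) * (c * x) =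
      d := by
    simp only [MulEquiv.toMonoidHom_eq_coe, MonoidHom.coe_coe, MulAut.conj_apply]
    group
  rw [h3]
  exact hd

/-- A height-zero character detects the defect group through its `p`-sections. -/
theorem height_zero_section (hM : IsPModular p M) (B : Set (IrrCharacter G)) (hB : IsPBlock M B)
    (D : Subgroup G) (hD : IsDefectGroup p M B D) (χ : IrrCharacter G) (hχ : χ ∈ B)
    (h0 : blockHeight p B (χ : G → ℂ) = 0) (x : G) (hx : ∃ k : ℕ, orderOf x = p ^ k) :
    (∃ g : G, g * x * g⁻¹ ∈ D) ↔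
      ∃ u : G, (∃ z : G, IsPPart p u z ∧ IsConj x z) ∧ (χ : G → ℂ) u ≠ 0 := by
  classical
  have := Fintype.ofFinite G
  have hMm : M.IsMaximal := hM.2.1
  have hMp : M.IsPrime := hMm.isPrime
  constructor
  · rintro ⟨g, hg⟩
    obtain ⟨g₀, hg₀, S, hS⟩ := hD
    have hcomm : (g * x * g⁻¹) * g₀ = g₀ * (g * x * g⁻¹) := by
      rw [hS] at hg
      obtain ⟨s, hs, hs'⟩ := Subgroup.mem_map.mp hg
      have h1 := Subgroup.mem_centralizer_singleton_iff.mp s.2
      rw [← hs']
      exact h1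
    have hord : ∃ k : ℕ, orderOf (g * x * g⁻¹) = p ^ k := by
      obtain ⟨k, hk⟩ := hx
      exact ⟨k, by rw [Cfsg.Agent.Lib_helper3_PReg.orderOf_conj_eq, hk]⟩
    have hnot := height_zero_not_mem hM hB hg₀ (g * x * g⁻¹) hcomm hord χ hχ h0
    refine ⟨g * x * g⁻¹ * g₀, ⟨g * x * g⁻¹, ⟨g₀, rfl, hcomm, hord,
      not_dvd_orderOf_of_defectClass hM hB hg₀⟩, isConj_iff.mpr ⟨g, rfl⟩⟩, ?_⟩
    intro h
    apply hnot
    rw [h]
    exact memLocalIdeal_zero hMp.ne_top
  · rintro ⟨u, ⟨z, huz, hxz⟩, hne⟩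
    by_contra hcon
    apply hne
    have hBχ : blockOf M (χ : G → ℂ) = B := by
      obtain ⟨χB, hχB⟩ := hB
      rw [hχB]
      exact blockOf_eq_of_mem (by rw [← hχB]; exact hχ)
    apply vanish_off_defect hM χ u z huz
    intro D' hD' hzD'
    rw [hBχ] at hD'
    obtain ⟨w, hw⟩ := defect_le_conj hM B hB hD hD'
    obtain ⟨s, hs⟩ := isConj_iff.mp hxz
    apply hcon
    refine ⟨w⁻¹ * s, ?_⟩
    have h1 := hw z hzD'
    rw [← hs] at h1
    have h2 : w⁻¹ * s * x * (w⁻¹ * s)⁻¹ = w⁻¹ * (s * x * s⁻¹) * w := by group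
    rw [h2]
    exact h1

end Cfsg.Agent.Lib_helper3_SecondMain5
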