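import Mathlib
import Cfsg.Prelude.Def_Characters
import Cfsg.Prelude.Def_Blocks
import Cfsg.Prelude.Def_BlockRank
import Cfsg.Agent.Lib_helper3_DefectOne
import Cfsg.Agent.Lib_helper3_SecondMain5
import Cfsg.Agent.Lib_helper3_FirstMain2

set_option autoImplicit false
open Cfsg
open Cfsg.Agent.Lib_helper3_CharBasic Cfsg.Agent.Lib_helper3_CharMore
  Cfsg.Agent.Lib_helper3_Local Cfsg.Agent.Lib_helper3_Local2 Cfsg.Agent.Lib_helper3_BlockAlg
  Cfsg.Agent.Lib_helper3_Residue Cfsg.Agent.Lib_helper3_BrauerHom2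
  Cfsg.Agent.Lib_helper3_RegSpan Cfsg.Agent.Lib_helper3_RegSpan2
  Cfsg.Agent.Lib_helper3_HeightZero Cfsg.Agent.Lib_helper3_BrauerFeit
  Cfsg.Agent.Lib_helper3_BrauerFeit2 Cfsg.Agent.Lib_helper3_DefectOne
  Cfsg.Agent.Lib_helper3_SecondMain Cfsg.Agent.Lib_helper3_SecondMain2
  Cfsg.Agent.Lib_helper3_SecondMain3 Cfsg.Agent.Lib_helper3_SecondMain4
  Cfsg.Agent.Lib_helper3_SecondMain5 Cfsg.Agent.Lib_helper3_FirstMain
  Cfsg.Agent.Lib_helper3_FirstMain2
open scoped ComplexConjugate

namespace Cfsg.Agent.Lib_helper3_CentralDefect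

universe u

variable {G : Type u} [Group G] [Fintype G] {M : Ideal AlgInt} {p : ℕ}

/-- Translation by a central element preserves the absolute values of an irreducible
character. -/
theorem normSq_central_translate {χ : G → ℂ} (hχ : IsIrrCharacter G χ) (z : G)
    (hz : ∀ k : G, k * z = z * k) (t : G) :
    Complex.normSq (χ (z * t)) = Complex.normSq (χ t) := by
  classical
  have hF : IsClassFunction G (fun g => if g = z then (1 : ℂ) else 0) := by
    intro g k
    have h1 : k * g * k⁻¹ = z ↔ g = z := by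
      constructor
      · intro h
        have h2 : g = k⁻¹ * (k * g * k⁻¹) * k := by group
        rw [h2, h, mul_assoc, ← hz k, ← mul_assoc, inv_mul_cancel, one_mul]
      · rintro rfl
        rw [hz k, mul_inv_cancel_right]
    simp only [h1]
  have h1 : ∀ t : G, χ (z * t) = Om χ (fun g => if g = z then (1 : ℂ) else 0) * χ t := by
    intro t
    have h2 := sum_mul_char_mul hχ hF t
    have h3 : ∑ g : G, (if g = z then (1 : ℂ) else 0) * χ (g * t) = χ (z * t) := by simp
    rw [h3] at h2
    exact h2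
  have hS : ∑ t : G, Complex.normSq (χ (z * t)) = ∑ t : G, Complex.normSq (χ t) :=
    Equiv.sum_comp (Equiv.mulLeft z) (fun t => Complex.normSq (χ t))
  have hS2 : ∑ t : G, Complex.normSq (χ (z * t)) =
      Complex.normSq (Om χ (fun g => if g = z then (1 : ℂ) else 0)) *
        ∑ t : G, Complex.normSq (χ t) := by
    rw [Finset.mul_sum]
    apply Finset.sum_congr rfl
    intro t _
    rw [h1 t, Complex.normSq_mul]
  have hpos : 0 < ∑ t : G, Complex.normSq (χ t) := by
    have h4 : Complex.normSq (χ 1) ≤ ∑ t : G, Complex.normSq (χ t) :=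
      Finset.single_le_sum (f := fun t => Complex.normSq (χ t))
        (fun t _ => Complex.normSq_nonneg _) (Finset.mem_univ 1)
    have h5 : 0 < Complex.normSq (χ 1) := Complex.normSq_pos.mpr (irr_apply_one_ne_zero hχ)
    linarith
  have hω : Complex.normSq (Om χ (fun g => if g = z then (1 : ℂ) else 0)) = 1 := by
    have h6 := hS2.symm.trans hS
    have h7 : (Complex.normSq (Om χ (fun g => if g = z then (1 : ℂ) else 0)) - 1) *
        ∑ t : G, Complex.normSq (χ t) = 0 := by linarith
    rcases mul_eq_zero.mp h7 with h8 | h8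
    · linarith
    · linarith
  rw [h1 t, Complex.normSq_mul, hω, one_mul]

/-- For a block with a central defect group, the squared absolute values of a member summed
over the `p`-regular elements. -/
theorem sum_regular_of_central_defect [Fact p.Prime] (hM : IsPModular p M)
    {B : Set (IrrCharacter G)} (hB : IsPBlock M B) {P : Subgroup G}
    (hD : IsDefectGroup p M B P) (hPZ : P ≤ Subgroup.center G) {χ : IrrCharacter G}
    (hχ : χ ∈ B) :
    (Nat.card P : ℝ) * ∑ g : G, (if p ∣ orderOf g then 0 else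
      Complex.normSq ((χ : G → ℂ) g)) = (Nat.card G : ℝ) := by
  classical
  have hp : p.Prime := Fact.out
  have hMp : M.IsPrime := isPrime_of_modular hM
  have hBχ : blockOf M (χ : G → ℂ) = B := by
    obtain ⟨χB, hχB⟩ := hB
    rw [hχB]
    exact blockOf_eq_of_mem (by rw [← hχB]; exact hχ)
  have hPp : IsPGroup p P := isPGroup_of_isDefectGroup hD
  have hvan : ∀ g z : G, IsPPart p g z → z ∉ P → (χ : G → ℂ) g = 0 := by
    intro g z hgz hzP
    apply vanish_off_defect hM χ g z hgz
    intro D' hD' hzD'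
    rw [hBχ] at hD'
    obtain ⟨w, hw⟩ := defect_le_conj hM B hB hD hD'
    have h1 := hw z hzD'
    have hc := hPZ h1
    have h2 := Subgroup.mem_center_iff.mp hc w
    have h3 : w * (w⁻¹ * z * w) = z * w := by group
    rw [h3] at h2
    have h4 : z = w⁻¹ * z * w := mul_right_cancel h2
    rw [h4] at hzP
    exact hzP h1
  have hpart : ∀ (z : P) (y : G), ¬ p ∣ orderOf y → IsPPart p ((z : G) * y) (z : G) := by
    intro z y hy
    refine ⟨y, rfl, ?_, ?_, hy⟩
    · exact (Subgroup.mem_center_iff.mp (hPZ z.2) y).symm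
    · obtain ⟨k, hk⟩ := (IsPGroup.iff_orderOf.mp hPp) z
      exact ⟨k, by rw [Subgroup.orderOf_coe]; exact hk⟩
  have hinj : Set.InjOn (fun zy : P × G => (zy.1 : G) * zy.2)
      ((Finset.univ ×ˢ Finset.univ.filter (fun y : G => ¬ p ∣ orderOf y) :
        Finset (P × G)) : Set (P × G)) := by
    rintro ⟨z₁, y₁⟩ h₁ ⟨z₂, y₂⟩ h₂ h
    have hy₁ : ¬ p ∣ orderOf y₁ := by
      have := Finset.mem_coe.mp h₁
      simpa using this
    have hy₂ : ¬ p ∣ orderOf y₂ := by
      have := Finset.mem_coe.mp h₂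
      simpa using this
    have h' : (z₁ : G) * y₁ = (z₂ : G) * y₂ := h
    have e1 := hpart z₁ y₁ hy₁
    have e2 := hpart z₂ y₂ hy₂
    rw [h'] at e1
    have hzz : (z₁ : G) = (z₂ : G) := isPPart_unique hp e1 e2
    rw [hzz] at h'
    have hyy : y₁ = y₂ := mul_left_cancel h'
    rw [Prod.mk.injEq]
    exact ⟨Subtype.ext hzz, hyy⟩
  have hsum : ∑ g : G, Complex.normSq ((χ : G → ℂ) g) =
      ∑ zy ∈ (Finset.univ ×ˢ Finset.univ.filter (fun y : G => ¬ p ∣ orderOf y) :
        Finset (P × G)), Complex.normSq ((χ : G → ℂ) ((zy.1 : G) * zy.2)) := by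
    rw [← Finset.sum_image (f := fun g => Complex.normSq ((χ : G → ℂ) g)) hinj]
    symm
    apply Finset.sum_subset (Finset.subset_univ _)
    intro g _ hg
    obtain ⟨z, hz⟩ := exists_isPPart hp g
    have hzP : z ∉ P := by
      intro hzP
      apply hg
      obtain ⟨y, hzy, hc, hzk, hy⟩ := hz
      exact Finset.mem_image.mpr ⟨(⟨z, hzP⟩, y), by simp [hy], hzy⟩
    rw [hvan g z hz hzP]
    simp
  rw [Finset.sum_product] at hsum
  have hinner : ∀ z : P, ∑ y ∈ Finset.univ.filter (fun y : G => ¬ p ∣ orderOf y),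
      Complex.normSq ((χ : G → ℂ) ((z : G) * y)) =
      ∑ g : G, (if p ∣ orderOf g then 0 else Complex.normSq ((χ : G → ℂ) g)) := by
    intro z
    rw [Finset.sum_filter]
    apply Finset.sum_congr rfl
    intro y _
    by_cases hy : p ∣ orderOf y
    · simp [hy]
    · rw [if_neg hy, if_pos hy, normSq_central_translate χ.2 (z : G)
        (fun k => Subgroup.mem_center_iff.mp (hPZ z.2) k)]
  rw [Finset.sum_congr rfl (fun z _ => hinner z), Finset.sum_const, Finset.card_univ,
    nsmul_eq_mul, ← Nat.card_eq_fintype_card] at hsum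
  have h2 : classInner (χ : G → ℂ) (χ : G → ℂ) = 1 := by
    rw [irr_orthonormal χ.2 χ.2, if_pos rfl]
  unfold classInner at h2
  have h3 : ∑ g : G, (χ : G → ℂ) g * conj ((χ : G → ℂ) g) =
      ((∑ g : G, Complex.normSq ((χ : G → ℂ) g) : ℝ) : ℂ) := by
    push_cast
    apply Finset.sum_congr rfl
    intro g _
    rw [Complex.mul_conj]
  rw [h3] at h2
  have hG : (Nat.card G : ℂ) ≠ 0 := by
    exact_mod_cast (Nat.card_pos (α := G)).ne'
  have h4 : ((∑ g : G, Complex.normSq ((χ : G → ℂ) g) : ℝ) : ℂ) = ((Nat.card G : ℝ) : ℂ) := by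
    push_cast
    push_cast at h2
    field_simp at h2
    linear_combination h2
  have h5 := Complex.ofReal_injective h4
  rw [← hsum, h5]

/-- The inner product of `p`-regular parts in terms of the normalized regular inner
product. -/
theorem cc_eq_regInner (B : Set (IrrCharacter G)) (χ ψ : IrrCharacter G) :
    cc p B χ ψ = (p : ℂ) ^ blockDefect p B *
      classInner (pRegularPart p (χ : G → ℂ)) (pRegularPart p (ψ : G → ℂ)) := by
  classical
  unfold cc
  rw [classInner_def, classInner_def]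
  have h1 : ∑ g : G, (p : ℂ) ^ blockDefect p B * pRegularPart p (χ : G → ℂ) g *
      conj ((ψ : G → ℂ) g) = (p : ℂ) ^ blockDefect p B *
      ∑ g : G, pRegularPart p (χ : G → ℂ) g * conj (pRegularPart p (ψ : G → ℂ) g) := by
    rw [Finset.mul_sum]
    apply Finset.sum_congr rfl
    intro g _
    rw [pRegularPart_apply, pRegularPart_apply]
    by_cases hg : p ∣ orderOf g
    · simp [hg]
    · rw [if_neg hg, if_neg hg]
      ring
  rw [h1]
  ring

/-- A block with a central defect group has `p`-regular rank one. -/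
theorem central_defect_rank_one [Fact p.Prime] (hM : IsPModular p M)
    (B : Set (IrrCharacter G)) (hB : IsPBlock M B) (P : Subgroup G)
    (hD : IsDefectGroup p M B P) (hPZ : P ≤ Subgroup.center G) : blockRank p B = 1 := by
  classical
  have hp : p.Prime := Fact.out
  have hMp : M.IsPrime := isPrime_of_modular hM
  obtain ⟨χB, hχB⟩ := id hB
  have hχBmem : χB ∈ B := by
    rw [hχB]
    exact mem_blockOf_self hMp.ne_top χB
  obtain ⟨χ₀, hχ₀, h0⟩ := exists_height_zero p hχBmem
  have hcardP : (Nat.card P : ℂ) = (p : ℂ) ^ blockDefect p B := by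
    exact_mod_cast card_defectGroup hM hB hD
  have hPpos : (0 : ℝ) < (Nat.card P : ℝ) := by exact_mod_cast Nat.card_pos
  have hP0 : (Nat.card P : ℂ) ≠ 0 := by exact_mod_cast (Nat.card_pos (α := P)).ne'
  have hG0 := card_ne_zero (G := G)
  have hnorm : ∀ ψ ∈ B, classInner (pRegularPart p (ψ : G → ℂ))
      (pRegularPart p (ψ : G → ℂ)) = (Nat.card P : ℂ)⁻¹ := by
    intro ψ hψ
    have h1 := sum_regular_of_central_defect hM hB hD hPZ hψ
    rw [classInner_def]
    have h2 : ∑ g : G, pRegularPart p (ψ : G → ℂ) g * conj (pRegularPart p (ψ : G → ℂ) g) =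
        ((∑ g : G, (if p ∣ orderOf g then 0 else Complex.normSq ((ψ : G → ℂ) g)) : ℝ) : ℂ) := by
      push_cast
      apply Finset.sum_congr rfl
      intro g _
      rw [pRegularPart_apply]
      by_cases hg : p ∣ orderOf g
      · simp [hg]
      · rw [if_neg hg, if_neg hg, Complex.mul_conj]
    rw [h2]
    have h3 : ((Nat.card P : ℝ) : ℂ) * ((∑ g : G, (if p ∣ orderOf g then 0 else
        Complex.normSq ((ψ : G → ℂ) g)) : ℝ) : ℂ) = ((Nat.card G : ℝ) : ℂ) := by
      exact_mod_cast h1
    push_cast at h3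
    push_cast
    field_simp
    linear_combination h3
  have hkey : ∀ ψ ∈ B, ∃ m : ℂ, pRegularPart p (ψ : G → ℂ) =
      m • pRegularPart p (χ₀ : G → ℂ) := by
    intro ψ hψ
    obtain ⟨m, hm, -⟩ := cc_int hM hB hχ₀ ψ
    have hm0 : m ≠ 0 := by
      intro h
      apply cc_ne_zero hM hB hχ₀ h0 hψ
      rw [hm, h]
      simp
    have hBc : classInner (pRegularPart p (χ₀ : G → ℂ)) (pRegularPart p (ψ : G → ℂ)) =
        (m : ℂ) * (Nat.card P : ℂ)⁻¹ := by
      have h1 := cc_eq_regInner (p := p) B χ₀ ψ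
      rw [hm, ← hcardP] at h1
      field_simp
      linear_combination -h1
    have hBc' : classInner (pRegularPart p (ψ : G → ℂ)) (pRegularPart p (χ₀ : G → ℂ)) =
        (m : ℂ) * (Nat.card P : ℂ)⁻¹ := by
      rw [← classInner_conj_symm, hBc]
      simp
    have hδ : classInner (pRegularPart p (ψ : G → ℂ) - (m : ℂ) • pRegularPart p (χ₀ : G → ℂ))
        (pRegularPart p (ψ : G → ℂ) - (m : ℂ) • pRegularPart p (χ₀ : G → ℂ)) =
        (1 - (m : ℂ) ^ 2) * (Nat.card P : ℂ)⁻¹ := by
      rw [classInner_sub_left, classInner_sub_right, classInner_sub_right,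
        classInner_smul_left, classInner_smul_left, classInner_smul_right,
        classInner_smul_right, hnorm ψ hψ, hnorm χ₀ hχ₀, hBc, hBc']
      simp only [map_intCast]
      ring
    have hδ2 := hδ
    rw [classInner_self_eq] at hδ2
    have hreal : (Nat.card G : ℝ)⁻¹ * ∑ g : G,
        ‖(pRegularPart p (ψ : G → ℂ) - (m : ℂ) • pRegularPart p (χ₀ : G → ℂ)) g‖ ^ 2 =
        (1 - (m : ℝ) ^ 2) * (Nat.card P : ℝ)⁻¹ := by
      apply Complex.ofReal_injective
      push_cast
      push_cast at hδ2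
      exact hδ2
    have hnn : 0 ≤ (1 - (m : ℝ) ^ 2) * (Nat.card P : ℝ)⁻¹ := by
      rw [← hreal]
      positivity
    have hm2 : (m : ℝ) ^ 2 ≤ 1 := by
      by_contra hc
      push Not at hc
      have h7 : (1 - (m : ℝ) ^ 2) * (Nat.card P : ℝ)⁻¹ < 0 :=
        mul_neg_of_neg_of_pos (by linarith) (inv_pos.mpr hPpos)
      linarith
    have hm2' : m ^ 2 ≤ 1 := by exact_mod_cast hm2
    have hm1 : m ^ 2 = 1 := by
      have h8 : 0 < m ^ 2 := by positivity
      omega
    have hzero : classInner (pRegularPart p (ψ : G → ℂ) -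
        (m : ℂ) • pRegularPart p (χ₀ : G → ℂ))
        (pRegularPart p (ψ : G → ℂ) - (m : ℂ) • pRegularPart p (χ₀ : G → ℂ)) = 0 := by
      rw [hδ]
      have h9 : (m : ℂ) ^ 2 = 1 := by exact_mod_cast hm1
      rw [h9, sub_self, zero_mul]
    exact ⟨(m : ℂ), sub_eq_zero.mp (classInner_self_eq_zero hzero)⟩
  unfold blockRank
  have hspan : Submodule.span ℂ ((fun χ : IrrCharacter G => pRegularPart p (χ : G → ℂ)) '' B) =
      Submodule.span ℂ {pRegularPart p (χ₀ : G → ℂ)} := by
    apply le_antisymm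
    · rw [Submodule.span_le]
      rintro _ ⟨ψ, hψ, rfl⟩
      obtain ⟨m, hm⟩ := hkey ψ hψ
      show pRegularPart p (ψ : G → ℂ) ∈ Submodule.span ℂ {pRegularPart p (χ₀ : G → ℂ)}
      rw [hm]
      exact Submodule.smul_mem _ _ (Submodule.mem_span_singleton_self _)
    · rw [Submodule.span_le]
      intro f hf
      rw [Set.mem_singleton_iff] at hf
      rw [hf]
      exact Submodule.subset_span ⟨χ₀, hχ₀, rfl⟩
  rw [hspan]
  apply finrank_span_singleton
  intro h
  have h10 := congrFun h 1
  have hone : ¬ p ∣ orderOf (1 : G) := by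
    rw [orderOf_one]
    exact hp.one_lt.ne' ∘ Nat.dvd_one.mp
  rw [pRegularPart_apply, if_neg hone] at h10
  exact irr_apply_one_ne_zero χ₀.2 h10

end Cfsg.Agent.Lib_helper3_CentralDefect
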