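import Mathlib
import Cfsg.Prelude.Def_Characters
import Cfsg.Prelude.Def_Blocks
import Cfsg.Prelude.Def_BlockRank
import Cfsg.Agent.Lib_helper3_DefectOne
import Cfsg.Agent.Lib_helper3_SecondMain5
import Cfsg.Agent.Lib_helper3_FirstMain2
import Cfsg.Agent.Lib_helper3_ExtFirstMain
import Cfsg.Agent.Lib_helper3_CharInd

set_option autoImplicit false
open Cfsg
open Cfsg.Agent.Lib_helper3_CharBasic Cfsg.Agent.Lib_helper3_CharMore
  Cfsg.Agent.Lib_helper3_Local Cfsg.Agent.Lib_helper3_Local2 Cfsg.Agent.Lib_helper3_BlockAlg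
  Cfsg.Agent.Lib_helper3_Residue Cfsg.Agent.Lib_helper3_BrauerHom2
  Cfsg.Agent.Lib_helper3_RegSpan Cfsg.Agent.Lib_helper3_RegSpan2
  Cfsg.Agent.Lib_helper3_HeightZero Cfsg.Agent.Lib_helper3_BrauerFeit
  Cfsg.Agent.Lib_helper3_BrauerFeit2 Cfsg.Agent.Lib_helper3_DefectOne
  Cfsg.Agent.Lib_helper3_SecondMain Cfsg.Agent.Lib_helper3_SecondMain2
  Cfsg.Agent.Lib_helper3_SecondMain3 Cfsg.Agent.Lib_helper3_SecondMain4
  Cfsg.Agent.Lib_helper3_SecondMain5 Cfsg.Agent.Lib_helper3_FirstMain
  Cfsg.Agent.Lib_helper3_FirstMain2 Cfsg.Agent.Lib_helper3_ExtFirstMain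
  Cfsg.Agent.Lib_helper3_CharInd
open scoped ComplexConjugate

namespace Cfsg.Agent.Lib_helper3_DefectOne2

universe u

variable {G : Type u} [Group G] [Fintype G]

/-- Counting the conjugates of the `p`-regular part of the section of a `p`-element `x`:
a nonnegative class function summed over `x` times the `p`-regular elements of the centralizer
of `x` is bounded by its sum over the `p`-singular elements. -/
theorem section_count {p : ℕ} (hp : p.Prime) (x : G) (hx : ∃ k : ℕ, orderOf x = p ^ k)
    (hxp : p ∣ orderOf x) [Fintype (Subgroup.centralizer ({x} : Set G))]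
    (S : G → ℝ) (hS : ∀ g t : G, S (t * g * t⁻¹) = S g) (hS0 : ∀ g, 0 ≤ S g) :
    (Nat.card G : ℝ) * ∑ y : Subgroup.centralizer ({x} : Set G),
        (if p ∣ orderOf y then 0 else S (x * (y : G))) ≤
      (Nat.card (Subgroup.centralizer ({x} : Set G)) : ℝ) *
        ∑ g : G, (if p ∣ orderOf g then S g else 0) := by
  classical
  let P : G → G → Prop := fun t g => ∃ y : Subgroup.centralizer ({x} : Set G),
    ¬ p ∣ orderOf y ∧ t * (x * (y : G)) * t⁻¹ = g
  have hpart : ∀ t g : G, P t g → IsPPart p g (t * x * t⁻¹) := by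
    rintro t g ⟨y, hy, rfl⟩
    apply isPPart_conj
    refine ⟨(y : G), rfl, (Subgroup.mem_centralizer_singleton_iff.mp y.2).symm, hx, ?_⟩
    rw [Subgroup.orderOf_coe]
    exact hy
  have hsing : ∀ t g : G, P t g → p ∣ orderOf g := by
    rintro t g ⟨y, hy, rfl⟩
    rw [Cfsg.Agent.Lib_helper3_PReg.orderOf_conj_eq]
    obtain ⟨k, hk⟩ := hx
    have hcop : (orderOf x).Coprime (orderOf (y : G)) := by
      rw [hk, Subgroup.orderOf_coe]
      exact Nat.Coprime.pow_left k ((Nat.Prime.coprime_iff_not_dvd hp).mpr hy)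
    rw [Commute.orderOf_mul_eq_mul_orderOf_of_coprime
      (Subgroup.mem_centralizer_singleton_iff.mp y.2).symm hcop]
    exact Dvd.dvd.mul_right hxp _
  have h1 : ∀ t : G, ∑ y : Subgroup.centralizer ({x} : Set G),
      (if p ∣ orderOf y then 0 else S (x * (y : G))) = ∑ g : G, (if P t g then S g else 0) := by
    intro t
    have hinj : Set.InjOn (fun y : Subgroup.centralizer ({x} : Set G) => t * (x * (y : G)) * t⁻¹)
        ((Finset.univ.filter (fun y : Subgroup.centralizer ({x} : Set G) => ¬ p ∣ orderOf y) :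
          Finset _) : Set _) := by
      intro y₁ _ y₂ _ h
      have h' : (y₁ : G) = y₂ := by simpa using h
      exact Subtype.ext h'
    have h2 : ∑ y : Subgroup.centralizer ({x} : Set G),
        (if p ∣ orderOf y then 0 else S (x * (y : G))) =
        ∑ y ∈ Finset.univ.filter (fun y : Subgroup.centralizer ({x} : Set G) => ¬ p ∣ orderOf y),
          S (t * (x * (y : G)) * t⁻¹) := by
      rw [Finset.sum_filter]
      apply Finset.sum_congr rfl
      intro y _
      by_cases hy : p ∣ orderOf y
      · simp [hy]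
      · simp [hy, hS]
    have h3 : (Finset.univ.filter (fun g : G => P t g)) =
        (Finset.univ.filter (fun y : Subgroup.centralizer ({x} : Set G) => ¬ p ∣ orderOf y)).image
          (fun y : Subgroup.centralizer ({x} : Set G) => t * (x * (y : G)) * t⁻¹) := by
      ext g
      simp only [Finset.mem_filter, Finset.mem_univ, true_and, Finset.mem_image]
      rfl
    rw [h2, ← Finset.sum_image hinj, ← h3, Finset.sum_filter]
  have hN : ∀ g : G, (Finset.univ.filter (fun t : G => P t g)).card ≤
      Nat.card (Subgroup.centralizer ({x} : Set G)) := by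
    intro g
    by_cases hne : ∃ t₀, P t₀ g
    · obtain ⟨t₀, ht₀⟩ := hne
      have hcard : Nat.card (Subgroup.centralizer ({x} : Set G)) =
          (Finset.univ.filter (fun g : G => g ∈ Subgroup.centralizer ({x} : Set G))).card := by
        rw [Nat.card_eq_fintype_card, Fintype.card_subtype]
      rw [hcard]
      apply Finset.card_le_card_of_injOn (fun t => t₀⁻¹ * t)
      · intro t ht
        have ht' : P t g := by simpa using ht
        have h4 := isPPart_unique hp (hpart t g ht') (hpart t₀ g ht₀)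
        simp only [Finset.coe_filter, Finset.mem_univ, true_and, Set.mem_ofPred_eq]
        rw [Subgroup.mem_centralizer_singleton_iff]
        have h5 : t₀⁻¹ * t * x = t₀⁻¹ * (t * x * t⁻¹) * t := by group
        rw [h5, h4]
        group
      · intro t₁ _ t₂ _ h
        exact mul_left_cancel h
    · have : (Finset.univ.filter (fun t : G => P t g)) = ∅ := by
        ext t
        simp only [Finset.mem_filter, Finset.mem_univ, true_and, Finset.notMem_empty, iff_false]
        intro h
        exact hne ⟨t, h⟩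
      rw [this]
      simp
  have hsum : (Nat.card G : ℝ) * ∑ y : Subgroup.centralizer ({x} : Set G),
      (if p ∣ orderOf y then 0 else S (x * (y : G))) =
      ∑ g : G, S g * ((Finset.univ.filter (fun t : G => P t g)).card : ℝ) := by
    have h4 : (Nat.card G : ℝ) * ∑ y : Subgroup.centralizer ({x} : Set G),
        (if p ∣ orderOf y then 0 else S (x * (y : G))) =
        ∑ t : G, ∑ g : G, (if P t g then S g else 0) := by
      rw [Finset.sum_congr rfl (fun t _ => (h1 t).symm), Finset.sum_const, Finset.card_univ,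
        nsmul_eq_mul, Nat.card_eq_fintype_card]
    rw [h4, Finset.sum_comm]
    apply Finset.sum_congr rfl
    intro g _
    rw [← Finset.sum_filter, Finset.sum_const, nsmul_eq_mul, mul_comm]
  rw [hsum, Finset.mul_sum]
  apply Finset.sum_le_sum
  intro g _
  by_cases hg : p ∣ orderOf g
  · rw [if_pos hg, mul_comm]
    apply mul_le_mul_of_nonneg_right _ (hS0 g)
    exact_mod_cast hN g
  · rw [if_neg hg, mul_zero]
    have : (Finset.univ.filter (fun t : G => P t g)) = ∅ := by
      ext t
      simp only [Finset.mem_filter, Finset.mem_univ, true_and, Finset.notMem_empty, iff_false]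
      intro h
      exact hg (hsing t g h)
    rw [this]
    simp

/-- The sum of the squared absolute values of a character of a `2`-block of defect one over
the elements of odd order. -/
theorem sum_regular_of_cc {B : Set (IrrCharacter G)} {χ : IrrCharacter G}
    (hd : blockDefect 2 B = 1) (hcc : cc 2 B χ χ = 1) :
    ∑ g : G, (if 2 ∣ orderOf g then 0 else Complex.normSq ((χ : G → ℂ) g)) =
      (Nat.card G : ℝ) / 2 := by
  classical
  unfold cc classInner at hcc
  rw [hd, pow_one] at hcc
  have h1 : ∑ g : G, ((2 : ℕ) : ℂ) * pRegularPart 2 (χ : G → ℂ) g * conj ((χ : G → ℂ) g) =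
      ((2 * ∑ g : G, (if 2 ∣ orderOf g then 0 else Complex.normSq ((χ : G → ℂ) g)) : ℝ) : ℂ) := by
    push_cast
    rw [Finset.mul_sum]
    apply Finset.sum_congr rfl
    intro g _
    rw [pRegularPart_apply]
    by_cases hg : 2 ∣ orderOf g
    · simp [hg]
    · rw [if_neg hg, if_neg hg, mul_assoc, Complex.mul_conj]
  rw [h1] at hcc
  have hG : (Nat.card G : ℂ) ≠ 0 := by
    exact_mod_cast (Nat.card_pos (α := G)).ne'
  have h2 : ((2 * ∑ g : G, (if 2 ∣ orderOf g then 0 else Complex.normSq ((χ : G → ℂ) g)) : ℝ) : ℂ)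
      = ((Nat.card G : ℝ) : ℂ) := by
    push_cast
    push_cast at hcc
    field_simp at hcc
    linear_combination hcc
  have h3 := Complex.ofReal_injective h2
  linarith

/-- The sum of the squared absolute values of a character of a `2`-block of defect one over
the elements of even order. -/
theorem sum_singular_of_cc {B : Set (IrrCharacter G)} {χ : IrrCharacter G}
    (hd : blockDefect 2 B = 1) (hcc : cc 2 B χ χ = 1) :
    ∑ g : G, (if 2 ∣ orderOf g then Complex.normSq ((χ : G → ℂ) g) else 0) =
      (Nat.card G : ℝ) / 2 := by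
  classical
  have h1 := sum_regular_of_cc hd hcc
  have h2 : classInner (χ : G → ℂ) (χ : G → ℂ) = 1 := by
    rw [irr_orthonormal χ.2 χ.2, if_pos rfl]
  unfold classInner at h2
  have h3 : ∑ g : G, (χ : G → ℂ) g * conj ((χ : G → ℂ) g) =
      ((∑ g : G, Complex.normSq ((χ : G → ℂ) g) : ℝ) : ℂ) := by
    push_cast
    apply Finset.sum_congr rfl
    intro g _
    rw [Complex.mul_conj]
  rw [h3] at h2
  have hG : (Nat.card G : ℂ) ≠ 0 := by
    exact_mod_cast (Nat.card_pos (α := G)).ne'
  have h4 : ((∑ g : G, Complex.normSq ((χ : G → ℂ) g) : ℝ) : ℂ) = ((Nat.card G : ℝ) : ℂ) := by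
    push_cast
    push_cast at h2
    field_simp at h2
    linear_combination h2
  have h5 := Complex.ofReal_injective h4
  have h6 : ∑ g : G, Complex.normSq ((χ : G → ℂ) g) =
      ∑ g : G, (if 2 ∣ orderOf g then Complex.normSq ((χ : G → ℂ) g) else 0) +
      ∑ g : G, (if 2 ∣ orderOf g then 0 else Complex.normSq ((χ : G → ℂ) g)) := by
    rw [← Finset.sum_add_distrib]
    apply Finset.sum_congr rfl
    intro g _
    by_cases hg : 2 ∣ orderOf g
    · simp [hg]
    · simp [hg]
  linarith

/-- An irreducible character taking at a central element the same value as at the identity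
is invariant under translation by that element. -/
theorem central_translate {K : Type u} [Group K] [Fintype K] {θ : K → ℂ}
    (hθ : IsIrrCharacter K θ) (z : K) (hz : ∀ k : K, k * z = z * k) (hθz : θ z = θ 1) (t : K) :
    θ (z * t) = θ t := by
  classical
  have hF : IsClassFunction K (fun g => if g = z then (1 : ℂ) else 0) := by
    intro g k
    have h1 : k * g * k⁻¹ = z ↔ g = z := by
      constructor
      · intro h
        have h2 : g = k⁻¹ * (k * g * k⁻¹) * k := by group
        rw [h2, h, mul_assoc, ← hz k, ← mul_assoc, inv_mul_cancel, one_mul]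
      · rintro rfl
        rw [hz k, mul_inv_cancel_right]
    simp only [h1]
  have h1 := sum_mul_char_mul hθ hF t
  have h2 : ∑ g : K, (if g = z then (1 : ℂ) else 0) * θ (g * t) = θ (z * t) := by
    simp
  have h3 : Om θ (fun g => if g = z then (1 : ℂ) else 0) = 1 := by
    unfold Om
    have h4 : ∑ g : K, (if g = z then (1 : ℂ) else 0) * θ g = θ z := by simp
    rw [h4, hθz, div_self (irr_apply_one_ne_zero hθ)]
  rw [h2, h3, one_mul] at h1
  exact h1

omit [Fintype G] in
/-- The centralizer of an involution is the normalizer of the subgroup it generates. -/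
theorem centralizer_eq_normalizer_of_involution (x : G) (hx : orderOf x = 2) :
    Subgroup.centralizer ({x} : Set G) =
      Subgroup.normalizer ((Subgroup.zpowers x : Subgroup G) : Set G) := by
  apply le_antisymm (centralizer_le_normalizer_zpowers x)
  intro g hg
  rw [Subgroup.mem_normalizer_iff] at hg
  have h1 : g * x * g⁻¹ ∈ Subgroup.zpowers x := (hg x).mp (Subgroup.mem_zpowers x)
  obtain ⟨k, hk⟩ := Subgroup.mem_zpowers_iff.mp h1
  have h2 : x ^ (k % ((orderOf x : ℕ) : ℤ)) = x ^ k := zpow_mod_orderOf x k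
  rw [hx] at h2
  have hx1 : x ≠ 1 := by
    rintro rfl
    rw [orderOf_one] at hx
    norm_num at hx
  rw [Subgroup.mem_centralizer_singleton_iff]
  rcases Int.emod_two_eq_zero_or_one k with h0 | h0
  · exfalso
    have h0' : k % ((2 : ℕ) : ℤ) = 0 := by exact_mod_cast h0
    rw [h0', zpow_zero] at h2
    rw [← h2] at hk
    apply hx1
    have h3 : x = g⁻¹ * (g * x * g⁻¹) * g := by group
    rw [h3, ← hk]
    group
  · have h0' : k % ((2 : ℕ) : ℤ) = 1 := by exact_mod_cast h0
    rw [h0', zpow_one] at h2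
    rw [← h2] at hk
    have h3 : g * x = g * x * g⁻¹ * g := by group
    rw [h3, ← hk]

/-- Uniqueness in the first main theorem, for a subgroup equal to the normalizer. -/
theorem first_main_unique_of_eq {p : ℕ} [Fact p.Prime] {M : Ideal AlgInt}
    (hM : IsPModular p M) (D H : Subgroup G)
    (hH : H = Subgroup.normalizer (D : Set G)) (hD : IsPGroup p D)
    (B : Set (IrrCharacter G)) (b b' : Set (IrrCharacter H))
    (hDb : IsDefectGroup p M b (D.subgroupOf H))
    (hind : IsInducedBlock M H b B) (hind' : IsInducedBlock M H b' B) : b' = b := by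
  subst hH
  exact first_main_unique hM D hD B b b' hDb hind hind'

/-- The block part of a class function in terms of the block idempotent, for an arbitrary
finiteness instance. -/
theorem sum_blockCoeff_eq {K : Type u} [Group K] [Fintype K] (b : Set (IrrCharacter K))
    (ϑ : K → ℂ) (hϑ : IsClassFunction K ϑ) (y : K) :
    ∑ k : K, blockCoeff b k * ϑ (k * y) =
      ∑ᶠ ψ ∈ b, classInner ϑ (ψ : K → ℂ) * (ψ : K → ℂ) y := by
  classical
  have hfin := irr_finite (G := K)
  let inst2 : Fintype (IrrCharacter K) := Fintype.ofFinite (IrrCharacter K)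
  rw [finsum_mem_def, finsum_eq_sum_of_fintype]
  have h1 : ∀ k : K, blockCoeff b k * ϑ (k * y) = ∑ ψ : IrrCharacter K,
      classInner ϑ (ψ : K → ℂ) * (blockCoeff b k * (ψ : K → ℂ) (k * y)) := by
    intro k
    rw [classFunction_eq_sum_apply ϑ hϑ (k * y), Finset.mul_sum]
    apply Finset.sum_congr rfl
    intro ψ _
    ring
  rw [Finset.sum_congr rfl (fun k _ => h1 k), Finset.sum_comm]
  apply Finset.sum_congr rfl
  intro ψ _
  rw [← Finset.mul_sum, sum_mul_char_mul ψ.2 (isClassFunction_blockCoeff b) y]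
  by_cases hψ : ψ ∈ b
  · rw [Set.indicator_of_mem hψ, om_blockCoeff_of_mem hψ, one_mul]
  · rw [Set.indicator_of_notMem hψ, om_blockCoeff_of_not_mem hψ, zero_mul, mul_zero]

/-- For a `2`-block whose defect group is generated by an involution `x`, the blocks of the
centralizer of `x` inducing it form a single block, with defect group generated by `x`. -/
theorem indSet_eq_of_involution {M : Ideal AlgInt} (hM : IsPModular 2 M) (x : G)
    (hx : orderOf x = 2) (B : Set (IrrCharacter G)) (hB : IsPBlock M B)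
    (hBD : IsDefectGroup 2 M B (Subgroup.zpowers x))
    [Fintype (Subgroup.centralizer ({x} : Set G))]
    (b : Set (IrrCharacter (Subgroup.centralizer ({x} : Set G))))
    (hb : IsInducedBlock M (Subgroup.centralizer ({x} : Set G)) b B) :
    indSet M x B = b ∧ IsDefectGroup 2 M b
      ((Subgroup.zpowers x).subgroupOf (Subgroup.centralizer ({x} : Set G))) := by
  have h2 : Fact (Nat.Prime 2) := ⟨Nat.prime_two⟩
  have hMp : M.IsPrime := isPrime_of_modular hM
  have hP : IsPGroup 2 (Subgroup.zpowers x) := isPGroup_of_isDefectGroup hBD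
  have hPH : Subgroup.zpowers x ≤ Subgroup.centralizer ({x} : Set G) := by
    rw [Subgroup.zpowers_le]
    exact Subgroup.mem_centralizer_singleton_iff.mpr rfl
  have hbD := defect_of_induced hM (Subgroup.zpowers x) (Subgroup.centralizer ({x} : Set G)) hP
    hPH (centralizer_le_normalizer_zpowers x) B hB hBD b hb
  refine ⟨?_, hbD⟩
  obtain ⟨χ₀, hχ₀⟩ := hB
  have hχ₀B : χ₀ ∈ B := by
    rw [hχ₀]
    exact mem_blockOf_self hMp.ne_top χ₀
  ext ψ
  constructor
  · rintro ⟨χ₁, hχ₁, h⟩
    have h3 := isInducedBlock_of_rep (Subgroup.centralizer ({x} : Set G)) ψ χ₁ h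
    have h4 : blockOf M (χ₁ : G → ℂ) = B := by
      rw [hχ₀]
      exact blockOf_eq_of_mem (by rw [← hχ₀]; exact hχ₁)
    rw [h4] at h3
    have h5 := first_main_unique_of_eq hM (Subgroup.zpowers x) _
      (centralizer_eq_normalizer_of_involution x hx) hP B b _ hbD hb h3
    rw [← h5]
    exact mem_blockOf_self hMp.ne_top ψ
  · intro hψ
    exact ⟨χ₀, hχ₀B, hb.2.2 ψ hψ χ₀ hχ₀B⟩

/-- Blocks of defect one for the prime `2`: the values of a character of the block on the
section of the involution generating the defect group. -/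
theorem defect_one_involution {M : Ideal AlgInt} (hM : IsPModular 2 M) (x : G)
    (hx : orderOf x = 2) (B : Set (IrrCharacter G)) (hB : IsPBlock M B)
    (hBD : IsDefectGroup 2 M B (Subgroup.zpowers x))
    [Fintype (Subgroup.centralizer ({x} : Set G))]
    (b : Set (IrrCharacter (Subgroup.centralizer ({x} : Set G))))
    (hb : IsInducedBlock M (Subgroup.centralizer ({x} : Set G)) b B)
    (θ : IrrCharacter (Subgroup.centralizer ({x} : Set G))) (hθ : θ ∈ b)
    (hθx : ∀ z : Subgroup.centralizer ({x} : Set G), (z : G) = x →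
      (θ : Subgroup.centralizer ({x} : Set G) → ℂ) z =
        (θ : Subgroup.centralizer ({x} : Set G) → ℂ) 1)
    (χ : IrrCharacter G) (hχ : χ ∈ B) :
    ∃ ε : ℤ, (ε = 1 ∨ ε = -1) ∧ ∀ y : Subgroup.centralizer ({x} : Set G), ¬ 2 ∣ orderOf y →
      (χ : G → ℂ) (x * (y : G)) =
        (ε : ℂ) * (θ : Subgroup.centralizer ({x} : Set G) → ℂ) y := by
  classical
  have h2 : Fact (Nat.Prime 2) := ⟨Nat.prime_two⟩
  have hMp : M.IsPrime := isPrime_of_modular hM
  obtain ⟨hind, hbD⟩ := indSet_eq_of_involution hM x hx B hB hBD b hb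
  have hxpow : ∃ k : ℕ, orderOf x = 2 ^ k := ⟨1, by rw [hx, pow_one]⟩
  have hPH : Subgroup.zpowers x ≤ Subgroup.centralizer ({x} : Set G) := by
    rw [Subgroup.zpowers_le]
    exact Subgroup.mem_centralizer_singleton_iff.mpr rfl
  have hd : blockDefect 2 B = 1 := by
    have h1 := card_defectGroup hM hB hBD
    rw [Nat.card_zpowers, hx] at h1
    have h3 : 2 ^ 1 = 2 ^ blockDefect 2 B := by simpa using h1
    exact (Nat.pow_right_injective (le_refl 2) h3).symm
  have hdb : blockDefect 2 b = 1 := by
    have h1 := card_defectGroup hM hb.1 hbD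
    have h3 : Nat.card ((Subgroup.zpowers x).subgroupOf (Subgroup.centralizer ({x} : Set G))) =
        2 := by
      rw [← hx, ← Nat.card_zpowers x]
      exact Nat.card_congr (Subgroup.subgroupOfEquivOfLe hPH).toEquiv
    rw [h3] at h1
    have h4 : 2 ^ 1 = 2 ^ blockDefect 2 b := by simpa using h1
    exact (Nat.pow_right_injective (le_refl 2) h4).symm
  obtain ⟨χ', hχ'B, hχ'ne, hcov, hreg, hsing, hcc⟩ := defect_one_structure hM hB hd hχ
  obtain ⟨θ', hθ'b, hθ'ne, hcovb, hregb, hsingb, hccb⟩ := defect_one_structure hM hb.1 hdb hθ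
  have hheight : blockHeight 2 B (χ : G → ℂ) = 0 := by
    by_contra h0
    have h1 : 1 ≤ blockHeight 2 B (χ : G → ℂ) := by omega
    have := height_bound hM hB hχ h1
    omega
  have hxmem : x ∈ Subgroup.centralizer ({x} : Set G) :=
    Subgroup.mem_centralizer_singleton_iff.mpr rfl
  have hxC : ∀ k : Subgroup.centralizer ({x} : Set G),
      k * (⟨x, hxmem⟩ : Subgroup.centralizer ({x} : Set G)) = ⟨x, hxmem⟩ * k := by
    intro k
    apply Subtype.ext
    exact Subgroup.mem_centralizer_singleton_iff.mp k.2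
  have hcl : IsClassFunction (Subgroup.centralizer ({x} : Set G))
      (fun c : Subgroup.centralizer ({x} : Set G) => (χ : G → ℂ) c) :=
    isClassFunction_resH (Subgroup.centralizer ({x} : Set G)) (isClassFunction_of_irr χ.2)
  obtain ⟨n₁, hn₁⟩ := classInner_nat
    (isCharacter_restrict (Subgroup.centralizer ({x} : Set G)) (isCharacter_of_irr χ.2))
    (isCharacter_of_irr θ.2)
  obtain ⟨n₂, hn₂⟩ := classInner_nat
    (isCharacter_restrict (Subgroup.centralizer ({x} : Set G)) (isCharacter_of_irr χ.2))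
    (isCharacter_of_irr θ'.2)
  have hb_eq : b = {θ, θ'} := by
    ext ψ
    constructor
    · intro hψ
      rcases hcovb ψ hψ with rfl | rfl
      · simp
      · simp
    · rintro (rfl | rfl)
      · exact hθ
      · exact hθ'b
  have hval : ∀ y : Subgroup.centralizer ({x} : Set G), ¬ 2 ∣ orderOf y →
      (χ : G → ℂ) (x * (y : G)) =
        (((n₁ : ℤ) - n₂ : ℤ) : ℂ) * (θ : Subgroup.centralizer ({x} : Set G) → ℂ) y := by
    intro y hy
    have hcomm : Commute x (y : G) := (Subgroup.mem_centralizer_singleton_iff.mp y.2).symm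
    have hh : IsPPart 2 (((⟨x, hxmem⟩ : Subgroup.centralizer ({x} : Set G)) * y :
        Subgroup.centralizer ({x} : Set G)) : G) x :=
      ⟨(y : G), rfl, hcomm, hxpow, by rw [Subgroup.orderOf_coe]; exact hy⟩
    have h1 := sum_indSet hM x hxpow B hB χ
      ((⟨x, hxmem⟩ : Subgroup.centralizer ({x} : Set G)) * y) hh
    rw [if_pos hχ, hind] at h1
    have h3 : ∑ k : Subgroup.centralizer ({x} : Set G), blockCoeff b k *
        (χ : G → ℂ) ((k : G) * (((⟨x, hxmem⟩ : Subgroup.centralizer ({x} : Set G)) * y :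
          Subgroup.centralizer ({x} : Set G)) : G)) =
        ∑ᶠ ψ ∈ ({θ, θ'} : Set (IrrCharacter (Subgroup.centralizer ({x} : Set G)))),
          classInner (fun c : Subgroup.centralizer ({x} : Set G) => (χ : G → ℂ) c)
            (ψ : Subgroup.centralizer ({x} : Set G) → ℂ) *
          (ψ : Subgroup.centralizer ({x} : Set G) → ℂ) (⟨x, hxmem⟩ * y) := by
      have h4 := sum_blockCoeff_eq b (fun c : Subgroup.centralizer ({x} : Set G) =>
        (χ : G → ℂ) c) hcl (⟨x, hxmem⟩ * y)
      rw [← hb_eq]
      exact h4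
    rw [h3, finsum_mem_pair hθ'ne.symm, hn₁, hn₂] at h1
    have hsingular : 2 ∣ orderOf ((⟨x, hxmem⟩ : Subgroup.centralizer ({x} : Set G)) * y) := by
      rw [← Subgroup.orderOf_coe]
      show 2 ∣ orderOf (x * (y : G))
      have hcop : (orderOf x).Coprime (orderOf (y : G)) := by
        rw [hx, Subgroup.orderOf_coe]
        exact (Nat.Prime.coprime_iff_not_dvd Nat.prime_two).mpr hy
      rw [Commute.orderOf_mul_eq_mul_orderOf_of_coprime hcomm hcop, hx]
      exact Dvd.intro _ rfl
    rw [hsingb _ hsingular, central_translate θ.2 ⟨x, hxmem⟩ hxC (hθx ⟨x, hxmem⟩ rfl) y] at h1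
    have h5 : (χ : G → ℂ) (x * (y : G)) = (χ : G → ℂ)
        (((⟨x, hxmem⟩ : Subgroup.centralizer ({x} : Set G)) * y :
          Subgroup.centralizer ({x} : Set G)) : G) := rfl
    rw [h5, ← h1]
    push_cast
    ring
  have hne : ((n₁ : ℤ) - n₂) ≠ 0 := by
    intro h0
    have h1 := (height_zero_section hM B hB (Subgroup.zpowers x) hBD χ hχ hheight x hxpow).mp
      ⟨1, by simp⟩
    obtain ⟨u, ⟨z, ⟨y', hy'1, hy'2, hy'3, hy'4⟩, hxz⟩, hu⟩ := h1
    obtain ⟨c, hc⟩ := isConj_iff.mp hxz
    apply hu
    have hyC : c⁻¹ * y' * c ∈ Subgroup.centralizer ({x} : Set G) := by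
      rw [Subgroup.mem_centralizer_singleton_iff]
      have h3 := hy'2.eq
      rw [← hc] at h3
      calc c⁻¹ * y' * c * x = c⁻¹ * (y' * (c * x * c⁻¹)) * c := by group
        _ = c⁻¹ * ((c * x * c⁻¹) * y') * c := by rw [h3]
        _ = x * (c⁻¹ * y' * c) := by group
    have hu' : u = c * (x * (c⁻¹ * y' * c)) * c⁻¹ := by
      rw [← hy'1, ← hc]
      group
    rw [hu', isClassFunction_of_irr χ.2 _ c]
    have hord : ¬ 2 ∣ orderOf (⟨c⁻¹ * y' * c, hyC⟩ : Subgroup.centralizer ({x} : Set G)) := by
      rw [← Subgroup.orderOf_coe]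
      show ¬ 2 ∣ orderOf (c⁻¹ * y' * c)
      have h4 : orderOf (c⁻¹ * y' * c) = orderOf y' := by
        have h5 := Cfsg.Agent.Lib_helper3_PReg.orderOf_conj_eq c⁻¹ y'
        rwa [inv_inv] at h5
      rw [h4]
      exact hy'4
    have h6 := hval ⟨c⁻¹ * y' * c, hyC⟩ hord
    rw [h6, h0]
    simp
  have hle : (((n₁ : ℤ) - n₂ : ℤ) : ℝ) ^ 2 ≤ 1 := by
    have h1 := section_count Nat.prime_two x hxpow (by rw [hx])
      (fun g => Complex.normSq ((χ : G → ℂ) g))
      (fun g t => by rw [isClassFunction_of_irr χ.2 g t]) (fun g => Complex.normSq_nonneg _)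
    rw [sum_singular_of_cc hd hcc] at h1
    have h3 : ∑ y : Subgroup.centralizer ({x} : Set G),
        (if 2 ∣ orderOf y then 0 else Complex.normSq ((χ : G → ℂ) (x * (y : G)))) =
        (((n₁ : ℤ) - n₂ : ℤ) : ℝ) ^ 2 *
          ((Nat.card (Subgroup.centralizer ({x} : Set G)) : ℝ) / 2) := by
      rw [← sum_regular_of_cc hdb hccb, Finset.mul_sum]
      apply Finset.sum_congr rfl
      intro y _
      by_cases hy : 2 ∣ orderOf y
      · simp [hy]
      · rw [if_neg hy, if_neg hy, hval y hy, Complex.normSq_mul]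
        congr 1
        rw [← Complex.ofReal_intCast, Complex.normSq_ofReal]
        ring
    rw [h3] at h1
    have hGpos : (0 : ℝ) < Nat.card G := by exact_mod_cast Nat.card_pos
    have hCpos : (0 : ℝ) < Nat.card (Subgroup.centralizer ({x} : Set G)) := by
      exact_mod_cast Nat.card_pos
    by_contra hcon
    push Not at hcon
    nlinarith [mul_pos hGpos hCpos]
  have hle' : ((n₁ : ℤ) - n₂) ^ 2 ≤ 1 := by exact_mod_cast hle
  refine ⟨(n₁ : ℤ) - n₂, ?_, hval⟩
  have h7 : ((n₁ : ℤ) - n₂) ≤ 1 ∧ -1 ≤ ((n₁ : ℤ) - n₂) := by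
    constructor <;> nlinarith
  omega

end Cfsg.Agent.Lib_helper3_DefectOne2
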