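import Cfsg.Statements.S4667
import Cfsg.Agent.Lib_helper3_RegSpan

set_option autoImplicit false
open Cfsg

namespace Cfsg.Agent.S4667
open Cfsg.Agent.Lib_helper3_CharBasic Cfsg.Agent.Lib_helper3_CharMore
  Cfsg.Agent.Lib_helper3_Local Cfsg.Agent.Lib_helper3_Local2 Cfsg.Agent.Lib_helper3_BlockAlg
  Cfsg.Agent.Lib_helper3_RegSpan Cfsg.Agent.Lib_helper3_BlockOrth
open scoped ComplexConjugate


/-- Fix a prime p and a maximal ideal M of the algebraic integers containing p, and a p-block B of the finite group G. The p-regular rank of B (the number of irreducible Brauer characters in B) times the order of G equals the sum over the p-regular elements x of G of Σ_{χ ∈ B} χ(x) χ(x⁻¹) (written with the restriction of χ to p-regular elements, which vanishes at p-singular x). -/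
theorem result {G : Type*} [Group G] [Fintype G] (p : ℕ) [Fact p.Prime] (M : Ideal Cfsg.AlgInt) (hM : Cfsg.IsPModular p M) (B : Set (Cfsg.IrrCharacter G)) (hB : Cfsg.IsPBlock M B) : (Nat.card G : ℂ) * (Cfsg.blockRank p B : ℂ) = ∑ x : G, ∑ᶠ χ ∈ B, Cfsg.pRegularPart p (χ : G → ℂ) x * (χ : G → ℂ) x⁻¹ := by
  classical
  have hfin := irr_finite (G := G)
  let inst2 : Fintype (IrrCharacter G) := Fintype.ofFinite _
  have hMp : M.IsPrime := isPrime_of_modular hM
  have hG0 := card_ne_zero (G := G)
  obtain ⟨A, hA⟩ : ∃ A : Matrix G G ℂ, A = Matrix.of (fun x y => (Nat.card G : ℂ)⁻¹ *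
      ∑ χ : IrrCharacter G, if χ ∈ B then pRegularPart p (χ : G → ℂ) x * conj ((χ : G → ℂ) y)
        else 0) := ⟨_, rfl⟩
  obtain ⟨V, hV⟩ : ∃ V : Submodule ℂ (G → ℂ), V = Submodule.span ℂ
      ((fun χ : IrrCharacter G => pRegularPart p (χ : G → ℂ)) '' B) := ⟨_, rfl⟩
  have hAapp : ∀ (h : G → ℂ) (x : G), Matrix.toLin' A h x =
      ∑ χ : IrrCharacter G, if χ ∈ B then classInner h (χ : G → ℂ) *
        pRegularPart p (χ : G → ℂ) x else 0 := by
    intro h x
    rw [Matrix.toLin'_apply, Matrix.mulVec, dotProduct]
    have h1 : ∀ y : G, A x y * h y = ∑ χ : IrrCharacter G, if χ ∈ B then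
        pRegularPart p (χ : G → ℂ) x * ((Nat.card G : ℂ)⁻¹ * (h y * conj ((χ : G → ℂ) y)))
          else 0 := by
      intro y
      rw [hA, Matrix.of_apply, Finset.mul_sum, Finset.sum_mul]
      apply Finset.sum_congr rfl
      intro χ _
      split_ifs
      · ring
      · ring
    rw [Finset.sum_congr rfl (fun y _ => h1 y), Finset.sum_comm]
    apply Finset.sum_congr rfl
    intro χ _
    by_cases hχ : χ ∈ B
    · simp only [if_pos hχ]
      rw [← Finset.mul_sum, ← Finset.mul_sum, classInner_def]
      ring
    · simp only [if_neg hχ]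
      simp
  have hproj : LinearMap.IsProj V (Matrix.toLin' A) := by
    constructor
    · intro h
      have h1 : Matrix.toLin' A h = ∑ χ : IrrCharacter G, if χ ∈ B then
          classInner h (χ : G → ℂ) • pRegularPart p (χ : G → ℂ) else 0 := by
        funext x
        rw [hAapp, Finset.sum_apply]
        apply Finset.sum_congr rfl
        intro χ _
        split_ifs
        · rfl
        · rfl
      rw [h1]
      apply Submodule.sum_mem
      intro χ _
      split_ifs with hχ
      · apply Submodule.smul_mem
        rw [hV]
        exact Submodule.subset_span ⟨χ, hχ, rfl⟩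
      · exact Submodule.zero_mem _
    · have hle : V ≤ LinearMap.eqLocus (Matrix.toLin' A) LinearMap.id := by
        rw [hV]
        apply Submodule.span_le.mpr
        rintro _ ⟨ψ, hψ, rfl⟩
        show Matrix.toLin' A (pRegularPart p (ψ : G → ℂ)) = LinearMap.id (pRegularPart p (ψ : G → ℂ))
        rw [LinearMap.id_apply]
        funext x
        rw [hAapp]
        have hcl : IsClassFunction G (pRegularPart p (ψ : G → ℂ)) := by
          intro g k
          have h1 : orderOf (k * g * k⁻¹) = orderOf g := by
            have := orderOf_injective (MulAut.conj k).toMonoidHom (MulAut.conj k).injective g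
            simpa using this
          rw [pRegularPart_apply, pRegularPart_apply, h1, isClassFunction_of_irr ψ.2 g k]
        have hzero : ∀ χ : IrrCharacter G, χ ∉ B →
            classInner (pRegularPart p (ψ : G → ℂ)) (χ : G → ℂ) = 0 := by
          intro χ hχ
          rw [classInner_def]
          have key := orth_regular hM (A := B) (fun g => osima hB g) hψ hχ
          have h1 : ∑ g : G, pRegularPart p (ψ : G → ℂ) g * conj ((χ : G → ℂ) g) =
              ∑ x : G, (if p ∣ orderOf x then 0 else (ψ : G → ℂ) x * conj ((χ : G → ℂ) x)) := by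
            apply Finset.sum_congr rfl
            intro g _
            rw [pRegularPart_apply]
            split_ifs <;> ring
          rw [h1, key, mul_zero]
        by_cases hx : p ∣ orderOf x
        · rw [pRegularPart_apply, if_pos hx]
          apply Finset.sum_eq_zero
          intro χ _
          rw [pRegularPart_apply, if_pos hx]
          simp
        · conv_rhs => rw [classFunction_eq_sum_apply _ hcl x]
          apply Finset.sum_congr rfl
          intro χ _
          by_cases hχ : χ ∈ B
          · rw [if_pos hχ, pRegularPart_apply, if_neg hx]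
          · rw [if_neg hχ, hzero χ hχ, zero_mul]
      intro h hh
      exact hle hh
  have htr := hproj.trace
  rw [Matrix.trace_toLin'_eq] at htr
  have hrank : blockRank p B = Module.finrank ℂ V := by
    rw [hV]
    rfl
  rw [hrank, ← htr, Matrix.trace, Finset.mul_sum]
  apply Finset.sum_congr rfl
  intro x _
  rw [Matrix.diag_apply, hA, Matrix.of_apply, ← mul_assoc, mul_inv_cancel₀ hG0, one_mul,
    finsum_mem_def, finsum_eq_sum_of_fintype]
  apply Finset.sum_congr rfl
  intro χ _
  rw [Set.indicator_apply]
  by_cases hχ : χ ∈ B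
  · rw [if_pos hχ, if_pos hχ, isCharacter_inv (isCharacter_of_irr χ.2)]
  · rw [if_neg hχ, if_neg hχ]
end Cfsg.Agent.S4667
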