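import Mathlib
import Cfsg.Prelude.Def_Characters
import Cfsg.Prelude.Def_Blocks
import Cfsg.Prelude.Def_BlockRank
import Cfsg.Agent.Lib_helper3_CentralDefect
import Cfsg.Agent.Lib_helper3_DefectOne2
import Cfsg.Agent.S4667

set_option autoImplicit false
open Cfsg
open Cfsg.Agent.Lib_helper3_CharBasic Cfsg.Agent.Lib_helper3_CharMore
  Cfsg.Agent.Lib_helper3_Local Cfsg.Agent.Lib_helper3_Local2 Cfsg.Agent.Lib_helper3_BlockAlg
  Cfsg.Agent.Lib_helper3_Residue Cfsg.Agent.Lib_helper3_BrauerHom2
  Cfsg.Agent.Lib_helper3_RegSpan Cfsg.Agent.Lib_helper3_RegSpan2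
  Cfsg.Agent.Lib_helper3_SecondMain Cfsg.Agent.Lib_helper3_SecondMain2
  Cfsg.Agent.Lib_helper3_SecondMain3 Cfsg.Agent.Lib_helper3_SecondMain4
  Cfsg.Agent.Lib_helper3_SecondMain5 Cfsg.Agent.Lib_helper3_FirstMain
  Cfsg.Agent.Lib_helper3_FirstMain2 Cfsg.Agent.Lib_helper3_ExtFirstMain
  Cfsg.Agent.Lib_helper3_CentralDefect Cfsg.Agent.Lib_helper3_DefectOne2
  Cfsg.Agent.Lib_helper3_IdemSupp
open scoped ComplexConjugate

namespace Cfsg.Agent.Lib_helper3_BrauerCount

universe u

variable {G : Type u} [Group G] [Fintype G]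

open Classical in
/-- Exact counting on the `p`-section of a `p`-element `x`: a class function summed over the
section equals its sum over `x` times the `p`-regular elements of the centralizer of `x`,
weighted by the index of the centralizer. -/
theorem section_sum {p : ℕ} (hp : p.Prime) (x : G) (hx : ∃ k : ℕ, orderOf x = p ^ k)
    [Fintype (Subgroup.centralizer ({x} : Set G))]
    (K : G → ℂ) (hK : ∀ g t : G, K (t * g * t⁻¹) = K g) :
    (Nat.card G : ℂ) * ∑ y : Subgroup.centralizer ({x} : Set G),
        (if p ∣ orderOf y then 0 else K (x * (y : G))) =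
      (Nat.card (Subgroup.centralizer ({x} : Set G)) : ℂ) *
        ∑ g : G, (if (∃ z : G, IsPPart p g z ∧ IsConj z x) then K g else 0) := by
  classical
  let P : G → G → Prop := fun t g => ∃ y : Subgroup.centralizer ({x} : Set G),
    ¬ p ∣ orderOf y ∧ t * (x * (y : G)) * t⁻¹ = g
  have hpart : ∀ t g : G, P t g → IsPPart p g (t * x * t⁻¹) := by
    rintro t g ⟨y, hy, rfl⟩
    apply isPPart_conj
    refine ⟨(y : G), rfl, (Subgroup.mem_centralizer_singleton_iff.mp y.2).symm, hx, ?_⟩
    rw [Subgroup.orderOf_coe]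
    exact hy
  have h1 : ∀ t : G, ∑ y : Subgroup.centralizer ({x} : Set G),
      (if p ∣ orderOf y then 0 else K (x * (y : G))) = ∑ g : G, (if P t g then K g else 0) := by
    intro t
    have hinj : Set.InjOn (fun y : Subgroup.centralizer ({x} : Set G) => t * (x * (y : G)) * t⁻¹)
        ((Finset.univ.filter (fun y : Subgroup.centralizer ({x} : Set G) => ¬ p ∣ orderOf y) :
          Finset _) : Set _) := by
      intro y₁ _ y₂ _ h
      have h' : (y₁ : G) = y₂ := by simpa using h
      exact Subtype.ext h'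
    have h2 : ∑ y : Subgroup.centralizer ({x} : Set G),
        (if p ∣ orderOf y then 0 else K (x * (y : G))) =
        ∑ y ∈ Finset.univ.filter (fun y : Subgroup.centralizer ({x} : Set G) => ¬ p ∣ orderOf y),
          K (t * (x * (y : G)) * t⁻¹) := by
      rw [Finset.sum_filter]
      apply Finset.sum_congr rfl
      intro y _
      by_cases hy : p ∣ orderOf y
      · simp [hy]
      · simp [hy, hK]
    have h3 : (Finset.univ.filter (fun g : G => P t g)) =
        (Finset.univ.filter (fun y : Subgroup.centralizer ({x} : Set G) => ¬ p ∣ orderOf y)).image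
          (fun y : Subgroup.centralizer ({x} : Set G) => t * (x * (y : G)) * t⁻¹) := by
      ext g
      simp only [Finset.mem_filter, Finset.mem_univ, true_and, Finset.mem_image]
      rfl
    rw [h2, ← Finset.sum_image hinj, ← h3, Finset.sum_filter]
  have hN : ∀ g : G, ((Finset.univ.filter (fun t : G => P t g)).card : ℂ) =
      if (∃ z : G, IsPPart p g z ∧ IsConj z x) then
        (Nat.card (Subgroup.centralizer ({x} : Set G)) : ℂ) else 0 := by
    intro g
    by_cases hsec : ∃ z : G, IsPPart p g z ∧ IsConj z x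
    · rw [if_pos hsec]
      obtain ⟨z, hgz, hzx⟩ := hsec
      obtain ⟨s, hs⟩ := isConj_iff.mp hzx
      have hset : (Finset.univ.filter (fun t : G => P t g)) =
          (Finset.univ : Finset (Subgroup.centralizer ({x} : Set G))).image
            (fun c : Subgroup.centralizer ({x} : Set G) => s⁻¹ * (c : G)) := by
        ext t
        simp only [Finset.mem_filter, Finset.mem_univ, true_and, Finset.mem_image]
        constructor
        · intro ht
          have h4 := isPPart_unique hp (hpart t g ht) hgz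
          refine ⟨⟨s * t, ?_⟩, ?_⟩
          · rw [Subgroup.mem_centralizer_singleton_iff]
            have h5 : s * t * x = s * (t * x * t⁻¹) * s⁻¹ * (s * t) := by group
            rw [h5, h4, hs]
          · show s⁻¹ * (s * t) = t
            group
        · rintro ⟨c, rfl⟩
          have hc : (c : G) * x = x * (c : G) := Subgroup.mem_centralizer_singleton_iff.mp c.2
          have h6 := isPPart_conj (s⁻¹ * (c : G))⁻¹ hgz
          have h7 : (s⁻¹ * (c : G))⁻¹ * z * ((s⁻¹ * (c : G))⁻¹)⁻¹ = x := by
            have h8 : (s⁻¹ * (c : G))⁻¹ * z * ((s⁻¹ * (c : G))⁻¹)⁻¹ =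
                (c : G)⁻¹ * (s * z * s⁻¹) * (c : G) := by group
            rw [h8, hs]
            have h9 : (c : G)⁻¹ * x * (c : G) = (c : G)⁻¹ * (x * (c : G)) := by group
            rw [h9, ← hc]
            group
          rw [h7] at h6
          obtain ⟨y, hxy, hcomm, -, hy⟩ := h6
          have hyC : y ∈ Subgroup.centralizer ({x} : Set G) := by
            rw [Subgroup.mem_centralizer_singleton_iff]
            exact hcomm.eq.symm
          refine ⟨⟨y, hyC⟩, ?_, ?_⟩
          · rw [← Subgroup.orderOf_coe]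
            exact hy
          · show s⁻¹ * (c : G) * (x * y) * (s⁻¹ * (c : G))⁻¹ = g
            rw [hxy]
            group
      rw [hset, Finset.card_image_of_injective, Finset.card_univ, Nat.card_eq_fintype_card]
      intro c₁ c₂ h
      exact Subtype.ext (mul_left_cancel h)
    · rw [if_neg hsec]
      have : (Finset.univ.filter (fun t : G => P t g)) = ∅ := by
        ext t
        simp only [Finset.mem_filter, Finset.mem_univ, true_and, Finset.notMem_empty, iff_false]
        intro h
        exact hsec ⟨t * x * t⁻¹, hpart t g h, isConj_iff.mpr ⟨t⁻¹, by group⟩⟩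
      rw [this]
      simp
  have hsum : (Nat.card G : ℂ) * ∑ y : Subgroup.centralizer ({x} : Set G),
      (if p ∣ orderOf y then 0 else K (x * (y : G))) =
      ∑ g : G, K g * ((Finset.univ.filter (fun t : G => P t g)).card : ℂ) := by
    have h4 : (Nat.card G : ℂ) * ∑ y : Subgroup.centralizer ({x} : Set G),
        (if p ∣ orderOf y then 0 else K (x * (y : G))) =
        ∑ t : G, ∑ g : G, (if P t g then K g else 0) := by
      rw [Finset.sum_congr rfl (fun t _ => (h1 t).symm), Finset.sum_const, Finset.card_univ,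
        nsmul_eq_mul, Nat.card_eq_fintype_card]
    rw [h4, Finset.sum_comm]
    apply Finset.sum_congr rfl
    intro g _
    rw [← Finset.sum_filter, Finset.sum_const, nsmul_eq_mul, mul_comm]
  rw [hsum, Finset.mul_sum]
  apply Finset.sum_congr rfl
  intro g _
  rw [hN g]
  split_ifs
  · ring
  · ring

open Classical in
/-- Every element lies in the `p`-section of exactly one representative. -/
theorem sum_sections {p : ℕ} (hp : p.Prime) (X : Finset G)
    (hXrep : ∀ g : G, (∃ k : ℕ, orderOf g = p ^ k) → ∃! x, x ∈ X ∧ IsConj g x) (K : G → ℂ) :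
    ∑ g : G, K g =
      ∑ x ∈ X, ∑ g : G, (if (∃ z : G, IsPPart p g z ∧ IsConj z x) then K g else 0) := by
  rw [Finset.sum_comm]
  apply Finset.sum_congr rfl
  intro g _
  obtain ⟨z, hz⟩ := exists_isPPart hp g
  have hzp : ∃ k : ℕ, orderOf z = p ^ k := by
    obtain ⟨y, _, _, hk, _⟩ := hz
    exact hk
  obtain ⟨x₀, ⟨hx₀X, hx₀⟩, huniq⟩ := hXrep z hzp
  rw [Finset.sum_eq_single x₀]
  · rw [if_pos ⟨z, hz, hx₀⟩]
  · intro x hxX hne
    rw [if_neg]
    rintro ⟨z', hz', hz'x⟩
    have h1 := isPPart_unique hp hz' hz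
    rw [h1] at hz'x
    exact hne (huniq x ⟨hxX, hz'x⟩)
  · intro h
    exact absurd hx₀X h

/-- The normalized index of a centralizer. -/
theorem inv_card_mul_index (g : G) :
    (Nat.card G : ℂ)⁻¹ * ((Subgroup.centralizer ({g} : Set G)).index : ℂ) =
      (Nat.card (Subgroup.centralizer ({g} : Set G)) : ℂ)⁻¹ := by
  have h1 : (Nat.card G : ℂ) = (Nat.card (Subgroup.centralizer ({g} : Set G)) : ℂ) *
      ((Subgroup.centralizer ({g} : Set G)).index : ℂ) := by
    exact_mod_cast (Subgroup.card_mul_index (Subgroup.centralizer ({g} : Set G))).symm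
  have h2 : (Nat.card (Subgroup.centralizer ({g} : Set G)) : ℂ) ≠ 0 := by
    exact_mod_cast (Nat.card_pos (α := Subgroup.centralizer ({g} : Set G))).ne'
  have h3 : ((Subgroup.centralizer ({g} : Set G)).index : ℂ) ≠ 0 := by
    have h4 : (Subgroup.centralizer ({g} : Set G)).index ≠ 0 := Subgroup.index_ne_zero_of_finite
    exact_mod_cast h4
  rw [h1]
  field_simp

variable {M : Ideal AlgInt} {p : ℕ}

/-- Block orthogonality on a `p`-section: the sum over a block of `G` of the squared absolute
values at `x y` equals the sum over the characters of the centralizer of `x` in blocks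
inducing it of the squared absolute values at `y`. -/
theorem section_orth [Fact p.Prime] (hM : IsPModular p M) (x : G)
    (hx : ∃ k : ℕ, orderOf x = p ^ k) (B : Set (IrrCharacter G)) (hB : IsPBlock M B)
    [Fintype (Subgroup.centralizer ({x} : Set G))]
    (y : Subgroup.centralizer ({x} : Set G)) (hy : ¬ p ∣ orderOf y) :
    ∑ᶠ χ ∈ B, (χ : G → ℂ) (x * (y : G)) * (χ : G → ℂ) (x * (y : G))⁻¹ =
      ∑ᶠ ψ ∈ indSet M x B, (ψ : Subgroup.centralizer ({x} : Set G) → ℂ) y *
        (ψ : Subgroup.centralizer ({x} : Set G) → ℂ) y⁻¹ := by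
  classical
  have hp : p.Prime := Fact.out
  have hMp : M.IsPrime := isPrime_of_modular hM
  have hfin := irr_finite (G := G)
  let inst2 : Fintype (IrrCharacter G) := Fintype.ofFinite (IrrCharacter G)
  have hfinC := irr_finite (G := Subgroup.centralizer ({x} : Set G))
  let inst2C : Fintype (IrrCharacter (Subgroup.centralizer ({x} : Set G))) := Fintype.ofFinite _
  have hxmem : x ∈ Subgroup.centralizer ({x} : Set G) :=
    Subgroup.mem_centralizer_singleton_iff.mpr rfl
  have hcommx : ∀ k : Subgroup.centralizer ({x} : Set G), (k : G) * x = x * (k : G) :=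
    fun k => Subgroup.mem_centralizer_singleton_iff.mp k.2
  have hxC : ∀ k : Subgroup.centralizer ({x} : Set G),
      k * (⟨x, hxmem⟩ : Subgroup.centralizer ({x} : Set G)) = ⟨x, hxmem⟩ * k := by
    intro k
    apply Subtype.ext
    exact hcommx k
  have hpartreg : ∀ c : Subgroup.centralizer ({x} : Set G), ¬ p ∣ orderOf c →
      IsPPart p (x * (c : G)) x := by
    intro c hc
    exact ⟨(c : G), rfl, (hcommx c).symm, hx, by rw [Subgroup.orderOf_coe]; exact hc⟩
  have hh : IsPPart p (((⟨x, hxmem⟩ : Subgroup.centralizer ({x} : Set G)) * y :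
      Subgroup.centralizer ({x} : Set G)) : G) x := hpartreg y hy
  -- the `G`-side
  have eG : ∑ k : Subgroup.centralizer ({x} : Set G), blockCoeff (indSet M x B) k *
      classInd (x * (y : G)) ((k : G) * (x * (y : G))) =
      (Nat.card (Subgroup.centralizer ({x * (y : G)} : Set G)) : ℂ)⁻¹ *
        ∑ χ : IrrCharacter G, (if χ ∈ B then (χ : G → ℂ) (x * (y : G)) *
          (χ : G → ℂ) (x * (y : G))⁻¹ else 0) := by
    have h1 : ∀ k : Subgroup.centralizer ({x} : Set G),
        blockCoeff (indSet M x B) k * classInd (x * (y : G)) ((k : G) * (x * (y : G))) =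
        ∑ χ : IrrCharacter G, classInner (classInd (x * (y : G))) (χ : G → ℂ) *
          (blockCoeff (indSet M x B) k * (χ : G → ℂ) ((k : G) * (x * (y : G)))) := by
      intro k
      rw [classFunction_eq_sum_apply _ (isClassFunction_classInd (x * (y : G)))
        ((k : G) * (x * (y : G))), Finset.mul_sum]
      apply Finset.sum_congr rfl
      intro χ _
      ring
    rw [Finset.sum_congr rfl (fun k _ => h1 k), Finset.sum_comm, Finset.mul_sum]
    apply Finset.sum_congr rfl
    intro χ _
    rw [← Finset.mul_sum]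
    have h2 := sum_indSet hM x hx B hB χ
      ((⟨x, hxmem⟩ : Subgroup.centralizer ({x} : Set G)) * y) hh
    have h3 : ∑ k : Subgroup.centralizer ({x} : Set G), blockCoeff (indSet M x B) k *
        (χ : G → ℂ) ((k : G) * (x * (y : G))) =
        if χ ∈ B then (χ : G → ℂ) (x * (y : G)) else 0 := h2
    rw [h3, classInner_classInd _ (isClassFunction_of_irr χ.2), inv_card_mul_index,
      ← isCharacter_inv (isCharacter_of_irr χ.2)]
    split_ifs
    · ring
    · ring
  -- the `C`-side
  have eC : ∑ k : Subgroup.centralizer ({x} : Set G), blockCoeff (indSet M x B) k *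
      classInd ((⟨x, hxmem⟩ : Subgroup.centralizer ({x} : Set G)) * y)
        (k * ((⟨x, hxmem⟩ : Subgroup.centralizer ({x} : Set G)) * y)) =
      (Nat.card (Subgroup.centralizer ({(⟨x, hxmem⟩ : Subgroup.centralizer ({x} : Set G)) * y} :
        Set (Subgroup.centralizer ({x} : Set G)))) : ℂ)⁻¹ *
        ∑ ψ : IrrCharacter (Subgroup.centralizer ({x} : Set G)),
          (if ψ ∈ indSet M x B then (ψ : Subgroup.centralizer ({x} : Set G) → ℂ) y *
            (ψ : Subgroup.centralizer ({x} : Set G) → ℂ) y⁻¹ else 0) := by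
    rw [sum_blockCoeff_eq (indSet M x B) _ (isClassFunction_classInd _) _, finsum_mem_def,
      finsum_eq_sum_of_fintype, Finset.mul_sum]
    apply Finset.sum_congr rfl
    intro ψ _
    by_cases hψ : ψ ∈ indSet M x B
    · rw [Set.indicator_of_mem hψ, if_pos hψ, classInner_classInd _ (isClassFunction_of_irr ψ.2),
        inv_card_mul_index, mul_assoc]
      congr 1
      rw [mul_comm, Complex.mul_conj,
        normSq_central_translate ψ.2 ⟨x, hxmem⟩ hxC y, isCharacter_inv (isCharacter_of_irr ψ.2),
        Complex.mul_conj]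
    · rw [Set.indicator_of_notMem hψ, if_neg hψ, mul_zero]
  -- comparison
  obtain ⟨η, hη⟩ : ∃ η : Subgroup.centralizer ({x} : Set G) → ℂ,
      η = fun c : Subgroup.centralizer ({x} : Set G) => classInd (x * (y : G)) (x * (c : G)) -
        classInd ((⟨x, hxmem⟩ : Subgroup.centralizer ({x} : Set G)) * y)
          ((⟨x, hxmem⟩ : Subgroup.centralizer ({x} : Set G)) * c) := ⟨_, rfl⟩
  have hηapp : ∀ c : Subgroup.centralizer ({x} : Set G), η c =
      classInd (x * (y : G)) (x * (c : G)) -
        classInd ((⟨x, hxmem⟩ : Subgroup.centralizer ({x} : Set G)) * y)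
          ((⟨x, hxmem⟩ : Subgroup.centralizer ({x} : Set G)) * c) := by
    intro c
    rw [hη]
  have hηcl : IsClassFunction (Subgroup.centralizer ({x} : Set G)) η := by
    intro c k
    rw [hηapp, hηapp]
    have h1 : x * ((k * c * k⁻¹ : Subgroup.centralizer ({x} : Set G)) : G) =
        (k : G) * (x * (c : G)) * (k : G)⁻¹ := by
      push_cast
      rw [← mul_assoc, ← mul_assoc, ← hcommx k]
      group
    have h2 : (⟨x, hxmem⟩ : Subgroup.centralizer ({x} : Set G)) * (k * c * k⁻¹) =
        k * (⟨x, hxmem⟩ * c) * k⁻¹ := by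
      rw [← mul_assoc, ← mul_assoc, ← hxC k]
      group
    rw [h1, h2, isClassFunction_classInd (x * (y : G)) _ (k : G),
      isClassFunction_classInd ((⟨x, hxmem⟩ : Subgroup.centralizer ({x} : Set G)) * y) _ k]
  have hηreg : ∀ c : Subgroup.centralizer ({x} : Set G), ¬ p ∣ orderOf c → η c = 0 := by
    intro c hc
    rw [hηapp]
    have hiff : IsConj (x * (y : G)) (x * (c : G)) ↔
        IsConj ((⟨x, hxmem⟩ : Subgroup.centralizer ({x} : Set G)) * y)
          ((⟨x, hxmem⟩ : Subgroup.centralizer ({x} : Set G)) * c) := by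
      constructor
      · intro h
        obtain ⟨t, ht⟩ := isConj_iff.mp h
        have h1 := isPPart_conj t (hpartreg y hy)
        rw [ht] at h1
        have h2 := isPPart_unique hp h1 (hpartreg c hc)
        have htC : t ∈ Subgroup.centralizer ({x} : Set G) := by
          rw [Subgroup.mem_centralizer_singleton_iff]
          have h3 : t * x = t * x * t⁻¹ * t := by group
          rw [h3, h2]
        exact isConj_iff.mpr ⟨⟨t, htC⟩, Subtype.ext ht⟩
      · intro h
        obtain ⟨k, hk⟩ := isConj_iff.mp h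
        exact isConj_iff.mpr ⟨(k : G), congrArg Subtype.val hk⟩
    unfold classInd
    by_cases hcj : IsConj (x * (y : G)) (x * (c : G))
    · rw [if_pos hcj, if_pos (hiff.mp hcj), sub_self]
    · rw [if_neg hcj, if_neg (fun h => hcj (hiff.mpr h)), sub_self]
  have hdiff : ∑ k : Subgroup.centralizer ({x} : Set G), blockCoeff (indSet M x B) k *
      η (k * y) = 0 :=
    sum_idem_mul_eq_zero hM (isClassFunction_blockCoeff (indSet M x B))
      (conv_blockCoeff _) (osima_union (indSet_union hM x B)) hηcl hηreg y hy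
  have hEq : ∑ k : Subgroup.centralizer ({x} : Set G), blockCoeff (indSet M x B) k *
      classInd (x * (y : G)) ((k : G) * (x * (y : G))) =
      ∑ k : Subgroup.centralizer ({x} : Set G), blockCoeff (indSet M x B) k *
      classInd ((⟨x, hxmem⟩ : Subgroup.centralizer ({x} : Set G)) * y)
        (k * ((⟨x, hxmem⟩ : Subgroup.centralizer ({x} : Set G)) * y)) := by
    rw [← sub_eq_zero, ← Finset.sum_sub_distrib]
    refine Eq.trans ?_ hdiff
    apply Finset.sum_congr rfl
    intro k _
    rw [← mul_sub, hηapp]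
    have h1 : (k : G) * (x * (y : G)) =
        x * ((k * y : Subgroup.centralizer ({x} : Set G)) : G) := by
      push_cast
      rw [← mul_assoc, hcommx k, mul_assoc]
    have h2 : k * ((⟨x, hxmem⟩ : Subgroup.centralizer ({x} : Set G)) * y) =
        (⟨x, hxmem⟩ : Subgroup.centralizer ({x} : Set G)) * (k * y) := by
      rw [← mul_assoc, hxC k, mul_assoc]
    rw [h1, h2]
  -- the centralizer orders agree
  have hcard : Nat.card (Subgroup.centralizer
      ({(⟨x, hxmem⟩ : Subgroup.centralizer ({x} : Set G)) * y} :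
        Set (Subgroup.centralizer ({x} : Set G)))) =
      Nat.card (Subgroup.centralizer ({x * (y : G)} : Set G)) := by
    rw [card_centralizer_subtype]
    have hle : Subgroup.centralizer ({x * (y : G)} : Set G) ≤
        Subgroup.centralizer ({x} : Set G) := by
      intro t ht
      rw [Subgroup.mem_centralizer_singleton_iff] at ht ⊢
      have h1 : Commute ((x * (y : G)) ^ (1 : ℤ)) t := by
        rw [zpow_one]
        exact ht.symm
      have h2 := commute_ppart hp (hpartreg y hy) h1 (by
        intro hdvd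
        have h3 := Int.natCast_dvd_natCast.mp (by simpa using hdvd : ((p : ℕ) : ℤ) ∣ ((1 : ℕ) : ℤ))
        exact hp.one_lt.ne' (Nat.dvd_one.mp h3))
      exact h2.eq.symm
    have hinf : Subgroup.centralizer ({(((⟨x, hxmem⟩ : Subgroup.centralizer ({x} : Set G)) * y :
        Subgroup.centralizer ({x} : Set G)) : G)} : Set G) ⊓ Subgroup.centralizer ({x} : Set G) =
        Subgroup.centralizer ({x * (y : G)} : Set G) := inf_eq_left.mpr hle
    rw [hinf]
  rw [eG, eC, hcard] at hEq
  have hc0 : (Nat.card (Subgroup.centralizer ({x * (y : G)} : Set G)) : ℂ)⁻¹ ≠ 0 := by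
    apply inv_ne_zero
    exact_mod_cast (Nat.card_pos (α := Subgroup.centralizer ({x * (y : G)} : Set G))).ne'
  have hfinal := mul_left_cancel₀ hc0 hEq
  rw [finsum_mem_def, finsum_eq_sum_of_fintype, finsum_mem_def, finsum_eq_sum_of_fintype]
  refine Eq.trans ?_ (hfinal.trans ?_)
  · apply Finset.sum_congr rfl
    intro χ _
    by_cases hχ : χ ∈ B
    · rw [Set.indicator_of_mem hχ, if_pos hχ]
    · rw [Set.indicator_of_notMem hχ, if_neg hχ]
  · apply Finset.sum_congr rfl
    intro ψ _
    by_cases hψ : ψ ∈ indSet M x B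
    · rw [Set.indicator_of_mem hψ, if_pos hψ]
    · rw [Set.indicator_of_notMem hψ, if_neg hψ]

/-- The sum over the `p`-regular elements of the centralizer of `x` of the squared absolute
values of the characters in blocks inducing `B` counts the block ranks. -/
theorem sum_indSet_rank [Fact p.Prime] (hM : IsPModular p M) (x : G)
    (B : Set (IrrCharacter G)) (hB : IsPBlock M B)
    [Fintype (Subgroup.centralizer ({x} : Set G))] :
    ∑ y : Subgroup.centralizer ({x} : Set G), (if p ∣ orderOf y then 0 else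
        ∑ᶠ ψ ∈ indSet M x B, (ψ : Subgroup.centralizer ({x} : Set G) → ℂ) y *
          (ψ : Subgroup.centralizer ({x} : Set G) → ℂ) y⁻¹) =
      (Nat.card (Subgroup.centralizer ({x} : Set G)) : ℂ) *
        ((∑ᶠ b ∈ {b : Set (IrrCharacter (Subgroup.centralizer ({x} : Set G))) |
          IsInducedBlock M (Subgroup.centralizer ({x} : Set G)) b B}, blockRank p b : ℕ) : ℂ) := by
  classical
  have hMp : M.IsPrime := isPrime_of_modular hM
  have hMtop : M ≠ ⊤ := hMp.ne_top
  have hfinC := irr_finite (G := Subgroup.centralizer ({x} : Set G))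
  obtain ⟨S, hSdef⟩ : ∃ S : Set (Set (IrrCharacter (Subgroup.centralizer ({x} : Set G)))),
      S = {b | IsInducedBlock M (Subgroup.centralizer ({x} : Set G)) b B} := ⟨_, rfl⟩
  have hmemS : ∀ b, b ∈ S ↔ IsInducedBlock M (Subgroup.centralizer ({x} : Set G)) b B := by
    intro b
    rw [hSdef]
    rfl
  rw [← hSdef]
  have hS : S.Finite := Set.toFinite S
  obtain ⟨χ₀, hχ₀⟩ := hB
  have hχ₀B : χ₀ ∈ B := by
    rw [hχ₀]
    exact mem_blockOf_self hMtop χ₀
  have hblock : ∀ b ∈ S, ∀ ψ ∈ b, b = blockOf M (ψ : Subgroup.centralizer ({x} : Set G) → ℂ) := by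
    intro b hb ψ hψ
    obtain ⟨ξ, hξ⟩ := ((hmemS b).mp hb).1
    rw [hξ] at hψ ⊢
    exact (blockOf_eq_of_mem hψ).symm
  have hunion : indSet M x B = ⋃ b ∈ S, b := by
    ext ψ
    simp only [Set.mem_iUnion, exists_prop]
    constructor
    · rintro ⟨χ₁, hχ₁, h⟩
      refine ⟨blockOf M (ψ : Subgroup.centralizer ({x} : Set G) → ℂ), ?_, mem_blockOf_self hMtop ψ⟩
      rw [hmemS]
      have h1 := isInducedBlock_of_rep (M := M) (Subgroup.centralizer ({x} : Set G)) ψ χ₁ h
      have h2 : blockOf M (χ₁ : G → ℂ) = B := by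
        rw [hχ₀] at hχ₁ ⊢
        exact blockOf_eq_of_mem hχ₁
      rw [h2] at h1
      exact h1
    · rintro ⟨b, hb, hψ⟩
      exact ⟨χ₀, hχ₀B, ((hmemS b).mp hb).2.2 ψ hψ χ₀ hχ₀B⟩
  have hdisj : S.PairwiseDisjoint id := by
    intro b hb b' hb' hne
    rw [Function.onFun, Set.disjoint_left]
    intro ψ hψ hψ'
    exact hne ((hblock b hb ψ hψ).trans (hblock b' hb' ψ hψ').symm)
  have h1 : ∀ y : Subgroup.centralizer ({x} : Set G), (if p ∣ orderOf y then 0 else
        ∑ᶠ ψ ∈ indSet M x B, (ψ : Subgroup.centralizer ({x} : Set G) → ℂ) y *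
          (ψ : Subgroup.centralizer ({x} : Set G) → ℂ) y⁻¹) =
      ∑ b ∈ hS.toFinset, ∑ᶠ ψ ∈ b,
        pRegularPart p (ψ : Subgroup.centralizer ({x} : Set G) → ℂ) y *
          (ψ : Subgroup.centralizer ({x} : Set G) → ℂ) y⁻¹ := by
    intro y
    have h2 : (if p ∣ orderOf y then (0 : ℂ) else
        ∑ᶠ ψ ∈ indSet M x B, (ψ : Subgroup.centralizer ({x} : Set G) → ℂ) y *
          (ψ : Subgroup.centralizer ({x} : Set G) → ℂ) y⁻¹) =
        ∑ᶠ ψ ∈ indSet M x B, pRegularPart p (ψ : Subgroup.centralizer ({x} : Set G) → ℂ) y *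
          (ψ : Subgroup.centralizer ({x} : Set G) → ℂ) y⁻¹ := by
      by_cases hy : p ∣ orderOf y
      · rw [if_pos hy]
        symm
        apply finsum_mem_eq_zero_of_forall_eq_zero
        intro ψ _
        rw [pRegularPart_apply, if_pos hy, zero_mul]
      · rw [if_neg hy]
        apply finsum_mem_congr rfl
        intro ψ _
        rw [pRegularPart_apply, if_neg hy]
    rw [h2, hunion]
    refine (finsum_mem_biUnion hdisj hS (fun b _ => Set.toFinite b)).trans ?_
    exact finsum_mem_eq_finite_toFinset_sum _ hS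
  rw [Finset.sum_congr rfl (fun y _ => h1 y), Finset.sum_comm,
    finsum_mem_eq_finite_toFinset_sum _ hS, Nat.cast_sum, Finset.mul_sum]
  apply Finset.sum_congr rfl
  intro b hb
  have hbS : b ∈ S := hS.mem_toFinset.mp hb
  exact (Cfsg.Agent.S4667.result p M hM b ((hmemS b).mp hbS).1).symm

/-- Brauer's count of the irreducible characters in a block by subsections. -/
theorem brauer_count [Fact p.Prime] (hM : IsPModular p M) (B : Set (IrrCharacter G))
    (hB : IsPBlock M B) (X : Finset G) (hX : ∀ x ∈ X, ∃ k : ℕ, orderOf x = p ^ k)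
    (hXrep : ∀ g : G, (∃ k : ℕ, orderOf g = p ^ k) → ∃! x, x ∈ X ∧ IsConj g x) :
    Nat.card B = ∑ x ∈ X,
      ∑ᶠ b ∈ {b : Set (IrrCharacter (Subgroup.centralizer ({x} : Set G))) |
        IsInducedBlock M (Subgroup.centralizer ({x} : Set G)) b B}, blockRank p b := by
  classical
  have hp : p.Prime := Fact.out
  have hfin := irr_finite (G := G)
  let inst2 : Fintype (IrrCharacter G) := Fintype.ofFinite (IrrCharacter G)
  let instC : ∀ x : G, Fintype (Subgroup.centralizer ({x} : Set G)) := fun x => Fintype.ofFinite _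
  have hG0 := card_ne_zero (G := G)
  obtain ⟨K, hK⟩ : ∃ K : G → ℂ, K = fun g => ∑ᶠ χ ∈ B, (χ : G → ℂ) g * (χ : G → ℂ) g⁻¹ :=
    ⟨_, rfl⟩
  have hKapp : ∀ g : G, K g = ∑ᶠ χ ∈ B, (χ : G → ℂ) g * (χ : G → ℂ) g⁻¹ := by
    intro g
    rw [hK]
  have hKcl : ∀ g t : G, K (t * g * t⁻¹) = K g := by
    intro g t
    rw [hKapp, hKapp]
    apply finsum_mem_congr rfl
    intro χ _
    have h1 : (t * g * t⁻¹)⁻¹ = t * g⁻¹ * t⁻¹ := by group
    rw [h1, isClassFunction_of_irr χ.2 g t, isClassFunction_of_irr χ.2 g⁻¹ t]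
  -- total sum
  have htot : ∑ g : G, K g = (Nat.card G : ℂ) * (Nat.card B : ℂ) := by
    have h1 : ∀ g : G, K g = ∑ χ : IrrCharacter G,
        (if χ ∈ B then (χ : G → ℂ) g * (χ : G → ℂ) g⁻¹ else 0) := by
      intro g
      rw [hKapp, finsum_mem_def, finsum_eq_sum_of_fintype]
      apply Finset.sum_congr rfl
      intro χ _
      by_cases hχ : χ ∈ B
      · rw [Set.indicator_of_mem hχ, if_pos hχ]
      · rw [Set.indicator_of_notMem hχ, if_neg hχ]
    rw [Finset.sum_congr rfl (fun g _ => h1 g), Finset.sum_comm]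
    have h2 : ∀ χ : IrrCharacter G, ∑ g : G,
        (if χ ∈ B then (χ : G → ℂ) g * (χ : G → ℂ) g⁻¹ else 0) =
        if χ ∈ B then (Nat.card G : ℂ) else 0 := by
      intro χ
      by_cases hχ : χ ∈ B
      · simp only [if_pos hχ]
        have h3 := irr_orthonormal χ.2 χ.2
        rw [if_pos rfl, classInner_def] at h3
        have h4 : ∑ g : G, (χ : G → ℂ) g * (χ : G → ℂ) g⁻¹ =
            ∑ g : G, (χ : G → ℂ) g * conj ((χ : G → ℂ) g) := by
          apply Finset.sum_congr rfl
          intro g _
          rw [isCharacter_inv (isCharacter_of_irr χ.2)]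
        rw [h4]
        field_simp at h3
        exact h3
      · simp only [if_neg hχ]
        exact Finset.sum_const_zero
    rw [Finset.sum_congr rfl (fun χ _ => h2 χ), ← Finset.sum_filter, Finset.sum_const,
      nsmul_eq_mul, mul_comm]
    congr 2
    rw [Nat.card_eq_fintype_card, Fintype.card_subtype]
  -- each section
  have hsec : ∀ x ∈ X, ∑ g : G, (if (∃ z : G, IsPPart p g z ∧ IsConj z x) then K g else 0) =
      (Nat.card G : ℂ) * ((∑ᶠ b ∈ {b : Set (IrrCharacter (Subgroup.centralizer ({x} : Set G))) |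
        IsInducedBlock M (Subgroup.centralizer ({x} : Set G)) b B}, blockRank p b : ℕ) : ℂ) := by
    intro x hxX
    have h1 := section_sum hp x (hX x hxX) K hKcl
    have h2 : ∑ y : Subgroup.centralizer ({x} : Set G),
        (if p ∣ orderOf y then 0 else K (x * (y : G))) =
        ∑ y : Subgroup.centralizer ({x} : Set G), (if p ∣ orderOf y then 0 else
        ∑ᶠ ψ ∈ indSet M x B, (ψ : Subgroup.centralizer ({x} : Set G) → ℂ) y *
          (ψ : Subgroup.centralizer ({x} : Set G) → ℂ) y⁻¹) := by
      apply Finset.sum_congr rfl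
      intro y _
      by_cases hy : p ∣ orderOf y
      · rw [if_pos hy, if_pos hy]
      · rw [if_neg hy, if_neg hy, hKapp]
        exact section_orth hM x (hX x hxX) B hB y hy
    rw [h2, sum_indSet_rank hM x B hB] at h1
    have hC0 : (Nat.card (Subgroup.centralizer ({x} : Set G)) : ℂ) ≠ 0 := by
      exact_mod_cast (Nat.card_pos (α := Subgroup.centralizer ({x} : Set G))).ne'
    apply mul_left_cancel₀ hC0
    rw [← h1]
    ring
  have hfinal : (Nat.card G : ℂ) * (Nat.card B : ℂ) = (Nat.card G : ℂ) *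
      ((∑ x ∈ X, ∑ᶠ b ∈ {b : Set (IrrCharacter (Subgroup.centralizer ({x} : Set G))) |
        IsInducedBlock M (Subgroup.centralizer ({x} : Set G)) b B}, blockRank p b : ℕ) : ℂ) := by
    rw [← htot, sum_sections hp X hXrep K, Finset.sum_congr rfl hsec, ← Finset.mul_sum,
      Nat.cast_sum]
  exact_mod_cast mul_left_cancel₀ hG0 hfinal

end Cfsg.Agent.Lib_helper3_BrauerCount
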