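import Mathlib
import Cfsg.Prelude.Def_Characters
import Cfsg.Prelude.Def_Blocks
import Cfsg.Agent.Lib_helper3_Residue
import Cfsg.Agent.Lib_helper3_BlockAlg

set_option autoImplicit false
open Cfsg
open Cfsg.Agent.Lib_helper3_CharBasic Cfsg.Agent.Lib_helper3_BlockAlg
  Cfsg.Agent.Lib_helper3_Residue

namespace Cfsg.Agent.Lib_helper3_Kuls1

universe u

variable {G : Type u} [Group G] [Fintype G]

/-- Head and tail of a vector. -/
def consEquiv (N : ℕ) : List.Vector G (N + 1) ≃ G × List.Vector G N where
  toFun v := (v.head, v.tail)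
  invFun q := q.1 ::ᵥ q.2
  left_inv v := List.Vector.cons_head_tail v
  right_inv q := by simp

/-- The vectors of length `N` with entries in `S` and product `h`. -/
def tuples (S : Set G) (N : ℕ) (h : G) : Set (List.Vector G N) :=
  {v | v.toList.prod = h ∧ ∀ x ∈ v.toList, x ∈ S}

omit [Fintype G] in
theorem cons_mem_tuples (S : Set G) (N : ℕ) (h k : G) (v : List.Vector G N) :
    (k ::ᵥ v) ∈ tuples S (N + 1) h ↔ k ∈ S ∧ v ∈ tuples S N (k⁻¹ * h) := by
  unfold tuples
  simp only [Set.mem_ofPred_eq, List.Vector.toList_cons, List.prod_cons, List.forall_mem_cons]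
  constructor
  · rintro ⟨h1, h2, h3⟩
    exact ⟨h2, by rw [← h1]; group, h3⟩
  · rintro ⟨h2, h1, h3⟩
    exact ⟨by rw [h1]; group, h2, h3⟩

open Classical in
theorem card_tuples_eq_sum (S : Set G) (N : ℕ) (h : G) :
    (Nat.card (tuples S N h) : ℂ) =
      ∑ v : List.Vector G N, if v ∈ tuples S N h then (1 : ℂ) else 0 := by
  rw [Nat.card_eq_fintype_card, Fintype.card_subtype, Finset.card_filter]
  push_cast
  rfl

open Classical in
/-- The convolution power of an indicator function counts vectors. -/
theorem cpow_ind (S : Set G) (N : ℕ) : ∀ h : G,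
    cpow (fun g => if g ∈ S then (1 : ℂ) else 0) N h = (Nat.card (tuples S N h) : ℂ) := by
  induction N with
  | zero =>
    intro h
    show (if h = 1 then (1 : ℂ) else 0) = _
    by_cases hh : h = 1
    · rw [if_pos hh]
      have h1 : Nat.card (tuples S 0 h) = 1 := by
        rw [Nat.card_eq_one_iff_unique]
        refine ⟨⟨fun a b => Subtype.ext (by rw [a.1.eq_nil, b.1.eq_nil])⟩,
          ⟨⟨List.Vector.nil, ?_, ?_⟩⟩⟩
        · rw [hh]
          rfl
        · intro x hx
          simp at hx
      rw [h1, Nat.cast_one]
    · rw [if_neg hh]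
      have h1 : Nat.card (tuples S 0 h) = 0 := by
        rw [Nat.card_eq_zero]
        left
        constructor
        rintro ⟨v, hv, -⟩
        apply hh
        rw [← hv, v.eq_nil]
        rfl
      rw [h1, Nat.cast_zero]
  | succ N ih =>
    intro h
    show conv _ (cpow _ N) h = _
    unfold conv
    rw [card_tuples_eq_sum, ← (consEquiv N).symm.sum_comp, Fintype.sum_prod_type]
    apply Finset.sum_congr rfl
    intro k _
    rw [ih, card_tuples_eq_sum, Finset.mul_sum]
    apply Finset.sum_congr rfl
    intro v _
    have h1 : (consEquiv N).symm (k, v) ∈ tuples S (N + 1) h ↔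
        k ∈ S ∧ v ∈ tuples S N (k⁻¹ * h) := cons_mem_tuples S N h k v
    beta_reduce
    by_cases hk : k ∈ S
    · by_cases hv : v ∈ tuples S N (k⁻¹ * h)
      · rw [if_pos hk, if_pos hv, if_pos (h1.mpr ⟨hk, hv⟩), mul_one]
      · rw [if_pos hk, if_neg hv, if_neg (fun hc => hv (h1.mp hc).2), mul_zero]
    · rw [if_neg hk, if_neg (fun hc => hk (h1.mp hc).1), zero_mul]

/-- Counting modulo `p` the vectors of `p`-power length with product one: only the constant
vectors matter. -/
theorem card_tuples_one_modEq (S : Set G) (p a : ℕ) [Fact p.Prime] :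
    Nat.card (tuples S (p ^ a) 1) ≡ Nat.card {k : G // k ∈ S ∧ k ^ (p ^ a) = 1} [MOD p] := by
  classical
  obtain ⟨N, hN⟩ : ∃ N : ℕ, N = p ^ a := ⟨_, rfl⟩
  rw [← hN]
  have hNpos : 0 < N := by
    rw [hN]
    exact pow_pos (Fact.out : p.Prime).pos a
  let σ : Function.End (tuples S N 1) := fun v =>
    ⟨⟨v.1.toList.rotate 1, by rw [List.length_rotate, v.1.toList_length]⟩,
      List.prod_rotate_eq_one_of_prod_eq_one v.2.1 1,
      fun x hx => v.2.2 x (List.mem_rotate.mp hx)⟩
  have hσ1 : ∀ v : tuples S N 1, (σ v).1.toList = v.1.toList.rotate 1 := fun v => rfl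
  have hσk : ∀ (k : ℕ) (v : tuples S N 1), ((σ ^ k) v).1.toList = v.1.toList.rotate k := by
    intro k
    induction k with
    | zero =>
      intro v
      rw [pow_zero, List.rotate_zero]
      rfl
    | succ k ih =>
      intro v
      rw [pow_succ]
      show ((σ ^ k) (σ v)).1.toList = _
      rw [ih, hσ1, List.rotate_rotate, add_comm]
  have hσ : σ ^ p ^ a = 1 := by
    funext v
    apply Subtype.ext
    apply List.Vector.toList_injective
    rw [hσk, ← hN]
    show v.1.toList.rotate N = v.1.toList
    have h1 : v.1.toList.length = N := v.1.toList_length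
    have h2 := List.rotate_length v.1.toList
    rw [h1] at h2
    exact h2
  have key := Equiv.Perm.card_fixedPoints_modEq (f := σ) hσ
  rw [← Nat.card_eq_fintype_card, ← Nat.card_eq_fintype_card] at key
  have e : Nat.card (Function.fixedPoints σ) = Nat.card {k : G // k ∈ S ∧ k ^ N = 1} := by
    apply Nat.card_congr
    symm
    refine Equiv.ofBijective (fun k => ⟨⟨⟨List.replicate N k.1, List.length_replicate⟩, ?_, ?_⟩, ?_⟩)
      ⟨?_, ?_⟩
    · show (List.replicate N k.1).prod = 1
      rw [List.prod_replicate]
      exact k.2.2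
    · intro x hx
      have hx' : x ∈ List.replicate N k.1 := hx
      rw [List.eq_of_mem_replicate hx']
      exact k.2.1
    · apply Subtype.ext
      apply List.Vector.toList_injective
      show (List.replicate N k.1).rotate 1 = List.replicate N k.1
      exact List.rotate_replicate _ _ _
    · intro k k' hkk
      have h1 := congrArg (fun w : Function.fixedPoints σ => w.1.1.toList) hkk
      have h2 : List.replicate N k.1 = List.replicate N k'.1 := h1
      apply Subtype.ext
      have h3 : k.1 ∈ List.replicate N k.1 := by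
        rw [List.mem_replicate]
        exact ⟨hNpos.ne', rfl⟩
      rw [h2] at h3
      exact List.eq_of_mem_replicate h3
    · rintro ⟨v, hv⟩
      have hv' : σ v = v := hv
      have h1 : v.1.toList.rotate 1 = v.1.toList := by
        rw [← hσ1, hv']
      have : Nonempty G := ⟨1⟩
      obtain ⟨b, hb⟩ := List.rotate_one_eq_self_iff_eq_replicate.mp h1
      have hlen : v.1.toList.length = N := v.1.toList_length
      rw [hlen] at hb
      have hbS : b ∈ S := by
        apply v.2.2
        rw [hb, List.mem_replicate]
        exact ⟨hNpos.ne', rfl⟩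
      have hbN : b ^ N = 1 := by
        have h2 := v.2.1
        rw [hb, List.prod_replicate] at h2
        exact h2
      refine ⟨⟨b, hbS, hbN⟩, ?_⟩
      apply Subtype.ext
      apply Subtype.ext
      apply List.Vector.toList_injective
      exact hb.symm
  rw [e] at key
  exact key

/-- Shifting a class function by a group element before taking convolution powers. -/
theorem cpow_shift {z : G → ℂ} (hz : IsClassFunction G z) (g : G) (N : ℕ) : ∀ h : G,
    cpow (fun k => z (k * g)) N h = cpow z N (h * g ^ N) := by
  classical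
  induction N with
  | zero =>
    intro h
    rw [pow_zero, mul_one]
    rfl
  | succ N ih =>
    intro h
    show conv _ (cpow _ N) h = conv z (cpow z N) (h * g ^ (N + 1))
    unfold conv
    apply Fintype.sum_equiv (Equiv.mulRight g)
    intro k
    show z (k * g) * cpow (fun k => z (k * g)) N (k⁻¹ * h) =
      z (k * g) * cpow z N ((k * g)⁻¹ * (h * g ^ (N + 1)))
    rw [ih]
    congr 1
    have h1 := isClassFunction_cpow hz N (k⁻¹ * h * g ^ N) g⁻¹
    rw [← h1]
    congr 1
    rw [pow_succ]
    group

end Cfsg.Agent.Lib_helper3_Kuls1
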