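import Mathlib
import Cfsg.Prelude.Def_Characters
import Cfsg.Prelude.Def_Blocks
import Cfsg.Agent.Lib_helper3_ThirdMain

set_option autoImplicit false
open Cfsg
open Cfsg.Agent.Lib_helper3_CharBasic Cfsg.Agent.Lib_helper3_CharMore
  Cfsg.Agent.Lib_helper3_Local Cfsg.Agent.Lib_helper3_Local2 Cfsg.Agent.Lib_helper3_BlockAlg
  Cfsg.Agent.Lib_helper3_IdemSupp Cfsg.Agent.Lib_helper3_CharInd
  Cfsg.Agent.Lib_helper3_DefectZero Cfsg.Agent.Lib_helper3_DefectCard
  Cfsg.Agent.Lib_helper3_DefectCard2 Cfsg.Agent.Lib_helper3_BlockOrth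
  Cfsg.Agent.Lib_helper3_BrauerHom2 Cfsg.Agent.Lib_helper3_BrauerHom3
  Cfsg.Agent.Lib_helper3_ThirdMain
open scoped ComplexConjugate

namespace Cfsg.Agent.Lib_helper3_ThirdMain2

universe u

variable {G : Type u} [Group G] [Fintype G] {M : Ideal AlgInt} {p : ℕ} [Fact p.Prime]

/-- Blau's theorem: a height-zero character of an induced block has a height-zero constituent
of multiplicity prime to `p` in the inducing block. -/
theorem blau (hM : IsPModular p M) (H : Subgroup G) [Fintype H] (b : Set (IrrCharacter H))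
    (B : Set (IrrCharacter G)) (hind : IsInducedBlock M H b B) (χ : IrrCharacter G) (hχ : χ ∈ B)
    (h0 : blockHeight p B (χ : G → ℂ) = 0) :
    ∃ ξ ∈ b, blockHeight p b (ξ : H → ℂ) = 0 ∧ ∃ n : ℕ,
      classInner (fun h : H => (χ : G → ℂ) h) (ξ : H → ℂ) = (n : ℂ) ∧ ¬ p ∣ n := by
  classical
  have hMp : M.IsPrime := isPrime_of_modular hM
  obtain ⟨hb, hB, hcong⟩ := hind
  have hfin := irr_finite (G := H)
  have := Fintype.ofFinite (IrrCharacter H)
  have hc := om_testFun_not_mem hM hB χ hχ h0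
  obtain ⟨y', hy'⟩ := Cfsg.Agent.S0906.result p M hM b hb
  obtain ⟨⟨ξ₀, hξ₀b, hξ₀0⟩, -⟩ := index_factorization_eq hM hb hy'
  have hFcl : IsClassFunction G (testFun p (χ : G → ℂ)) :=
    isClassFunction_testFun p (isClassFunction_of_irr χ.2)
  have hFR : ∀ g, MemLocalRing M (testFun p (χ : G → ℂ) g) :=
    memLocalRing_testFun hMp.ne_top p (isCharacter_of_irr χ.2)
  have h1 := om_resH_sub_om H (ξ₀ : H → ℂ) (isClassFunction_of_irr χ.2)
    (hcong ξ₀ hξ₀b χ hχ) hFcl hFR
  have h2 : ¬ MemLocalIdeal M (Om (ξ₀ : H → ℂ) (resH H (testFun p (χ : G → ℂ)))) := by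
    intro h
    apply hc
    have h3 := memLocalIdeal_sub h h1
    rwa [sub_sub_cancel] at h3
  by_contra hcon
  apply h2
  have hχH : IsClassFunction H (fun h : H => (χ : G → ℂ) h) :=
    isClassFunction_resH H (isClassFunction_of_irr χ.2)
  rw [resH_testFun, om_testFun_expand p hχH (ξ₀ : H → ℂ)]
  apply memLocalIdeal_sum
  intro ξ _
  obtain ⟨n, hn⟩ := classInner_nat (isCharacter_restrict H (isCharacter_of_irr χ.2))
    (isCharacter_of_irr ξ.2)
  have hR : MemLocalRing M (Om (ξ₀ : H → ℂ) (testFun p (ξ : H → ℂ))) :=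
    memLocalRing_om ξ₀.2 (isClassFunction_testFun p (isClassFunction_of_irr ξ.2))
      (memLocalRing_testFun hMp.ne_top p (isCharacter_of_irr ξ.2))
  rw [hn]
  by_cases hξb : ξ ∈ b
  · by_cases hξ0 : blockHeight p b (ξ : H → ℂ) = 0
    · have hpn : p ∣ n := by
        by_contra hpn
        exact hcon ⟨ξ, hξb, hξ0, n, hn, hpn⟩
      rw [mul_comm]
      exact memLocalIdeal_mul_left hR (memLocalIdeal_natCast hM hpn)
    · exact memLocalIdeal_mul_left (memLocalRing_natCast hMp.ne_top n)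
        (om_testFun_mem_of_height hM ξ₀ ξ hξ₀0 hξ0)
  · have hns : ¬ SameBlock M (ξ : H → ℂ) (ξ₀ : H → ℂ) := by
      intro hs
      exact hξb (mem_of_sameBlock hb hξ₀b (sameBlock_symm hs))
    rw [om_testFun_eq_zero hM ξ ξ₀ hns, mul_zero]
    exact memLocalIdeal_zero hMp.ne_top

/-- Okuyama's criterion: for a height-zero character restricting irreducibly to a height-zero
character of `H`, a block of `H` (with induced block defined) induces the block of the
character exactly when it is the block of the restriction. -/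
theorem okuyama (hM : IsPModular p M) (H : Subgroup G) [Fintype H] (χ : IrrCharacter G)
    (hres : IsIrrCharacter H (fun h : H => (χ : G → ℂ) h))
    (hχ0 : blockHeight p (blockOf M (χ : G → ℂ)) (χ : G → ℂ) = 0)
    (hψ0 : blockHeight p (blockOf M (fun h : H => (χ : G → ℂ) h))
      (fun h : H => (χ : G → ℂ) h) = 0)
    (e : Set (IrrCharacter H)) (he : InducedBlockDefined M H e) :
    IsInducedBlock M H e (blockOf M (χ : G → ℂ)) ↔
      e = blockOf M (fun h : H => (χ : G → ℂ) h) := by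
  classical
  have hMp : M.IsPrime := isPrime_of_modular hM
  obtain ⟨ψ, hψ⟩ : ∃ ψ : IrrCharacter H, (ψ : H → ℂ) = fun h : H => (χ : G → ℂ) h :=
    ⟨⟨_, hres⟩, rfl⟩
  rw [← hψ] at hψ0 ⊢
  have hFcl : IsClassFunction G (testFun p (χ : G → ℂ)) :=
    isClassFunction_testFun p (isClassFunction_of_irr χ.2)
  have hFR : ∀ g, MemLocalRing M (testFun p (χ : G → ℂ) g) :=
    memLocalRing_testFun hMp.ne_top p (isCharacter_of_irr χ.2)
  have hresF : resH H (testFun p (χ : G → ℂ)) = testFun p (ψ : H → ℂ) := by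
    rw [resH_testFun, hψ]
  constructor
  · intro hind
    obtain ⟨hb, hB, hcong⟩ := hind
    obtain ⟨ξ₁, hξ₁⟩ := hb
    have hξ₁e : ξ₁ ∈ e := by
      rw [hξ₁]
      exact mem_blockOf_self hMp.ne_top ξ₁
    have hc := om_testFun_not_mem hM ⟨χ, rfl⟩ χ (mem_blockOf_self hMp.ne_top χ) hχ0
    have h1 := om_resH_sub_om H (ξ₁ : H → ℂ) (isClassFunction_of_irr χ.2)
      (hcong ξ₁ hξ₁e χ (mem_blockOf_self hMp.ne_top χ)) hFcl hFR
    have h2 : Om (ξ₁ : H → ℂ) (testFun p (ψ : H → ℂ)) ≠ 0 := by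
      intro h0
      apply hc
      rw [hresF, h0, zero_sub] at h1
      have h3 := memLocalIdeal_neg h1
      rwa [neg_neg] at h3
    have h3 : SameBlock M (ψ : H → ℂ) (ξ₁ : H → ℂ) := by
      by_contra hns
      exact h2 (om_testFun_eq_zero hM ψ ξ₁ hns)
    rw [hξ₁]
    exact blockOf_eq_of_mem h3
  · intro heq
    obtain ⟨B'', hb, hB, hcong⟩ := he
    obtain ⟨χ'', hχ''⟩ := hB
    have hχ''mem : χ'' ∈ B'' := by
      rw [hχ'']
      exact mem_blockOf_self hMp.ne_top χ''
    have hψe : ψ ∈ e := by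
      rw [heq]
      exact mem_blockOf_self hMp.ne_top ψ
    have hcψ := om_testFun_not_mem hM ⟨ψ, rfl⟩ ψ (mem_blockOf_self hMp.ne_top ψ) hψ0
    have h1 := om_resH_sub_om H (ψ : H → ℂ) (isClassFunction_of_irr χ''.2)
      (hcong ψ hψe χ'' hχ''mem) hFcl hFR
    have h2 : Om (χ'' : G → ℂ) (testFun p (χ : G → ℂ)) ≠ 0 := by
      intro h0
      apply hcψ
      rw [hresF, h0, sub_zero] at h1
      exact h1
    have h3 : SameBlock M (χ : G → ℂ) (χ'' : G → ℂ) := by
      by_contra hns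
      exact h2 (om_testFun_eq_zero hM χ χ'' hns)
    have h4 : B'' = blockOf M (χ : G → ℂ) := by
      rw [hχ'']
      exact blockOf_eq_of_mem h3
    rw [← h4]
    exact ⟨hb, ⟨χ'', hχ''⟩, hcong⟩

omit [Fintype G] [Fact p.Prime] in
theorem blockHeight_one (B : Set (IrrCharacter G)) :
    blockHeight p B (fun _ : G => (1 : ℂ)) = 0 := by
  have h1 : charDegree (fun _ : G => (1 : ℂ)) = 1 := charDegree_eq (by simp)
  unfold blockHeight
  rw [h1]
  simp

/-- Brauer's third main theorem. -/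
theorem third_main (hM : IsPModular p M) (H : Subgroup G) [Fintype H]
    (b : Set (IrrCharacter H)) (hdef : InducedBlockDefined M H b) :
    IsInducedBlock M H b (principalBlock M G) ↔ b = principalBlock M H :=
  okuyama hM H ⟨fun _ => 1, isIrrCharacter_one⟩ isIrrCharacter_one (blockHeight_one _)
    (blockHeight_one _) b hdef

end Cfsg.Agent.Lib_helper3_ThirdMain2
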