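import Mathlib
import Cfsg.Prelude.Def_Characters
import Cfsg.Prelude.Def_Blocks
import Cfsg.Agent.Lib_helper3_ThirdMain2
import Cfsg.Agent.Lib_helper3_SecondMain3
import Cfsg.Agent.Lib_helper3_Kuls1

set_option autoImplicit false
open Cfsg
open Cfsg.Agent.Lib_helper3_CharBasic Cfsg.Agent.Lib_helper3_CharMore
  Cfsg.Agent.Lib_helper3_Local Cfsg.Agent.Lib_helper3_Local2 Cfsg.Agent.Lib_helper3_BlockAlg
  Cfsg.Agent.Lib_helper3_IdemSupp Cfsg.Agent.Lib_helper3_Residue
  Cfsg.Agent.Lib_helper3_ThirdMain Cfsg.Agent.Lib_helper3_ThirdMain2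
  Cfsg.Agent.Lib_helper3_SecondMain2 Cfsg.Agent.Lib_helper3_SecondMain3
  Cfsg.Agent.Lib_helper3_BrauerTrunc Cfsg.Agent.Lib_helper3_Kuls1
open scoped ComplexConjugate

namespace Cfsg.Agent.Lib_helper3_Kuls2

universe u

attribute [local instance] Ideal.Quotient.field

section Res

variable {M : Ideal AlgInt} [hMm : M.IsMaximal]

theorem res_pow {z : ℂ} (hz : MemLocalRing M z) (n : ℕ) : res M (z ^ n) = res M z ^ n := by
  have hMp : M.IsPrime := hMm.isPrime
  induction n with
  | zero => rw [pow_zero, pow_zero, res_one]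
  | succ n ih =>
    have h1 : MemLocalRing M (z ^ n) := by
      have := memLocalRing_prod (M := M) (Finset.range n) (fun _ => z) (fun _ _ => hz)
      simpa using this
    rw [pow_succ, pow_succ, res_mul h1 hz, ih]

theorem memLocalIdeal_sub_of_res_eq {x y : ℂ} (hx : MemLocalRing M x) (hy : MemLocalRing M y)
    (h : res M x = res M y) : MemLocalIdeal M (x - y) := by
  have hMp : M.IsPrime := hMm.isPrime
  have hxy : MemLocalRing M (x - y) := memLocalRing_sub hx hy
  rw [← res_eq_zero_iff hxy]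
  have h1 : res M x = res M (x - y) + res M y := by
    rw [← res_add hxy hy, sub_add_cancel]
  rw [h] at h1
  exact (add_eq_right.mp h1.symm)

variable {G : Type u} [Group G] [Fintype G]

theorem red_add {a b : G → ℂ} (ha : ∀ g, MemLocalRing M (a g))
    (hb : ∀ g, MemLocalRing M (b g)) :
    red M (fun g => a g + b g) = red M a + red M b := by
  unfold red
  rw [ofFun_add]
  congr 1
  funext g
  exact res_add (ha g) (hb g)

theorem coeff_red (a : G → ℂ) (g : G) : (red M a).coeff g = res M (a g) := by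
  unfold red
  rw [coeff_ofFun]

omit hMm in
theorem conv_smul_left (c : ℂ) (a b : G → ℂ) :
    conv (fun g => c * a g) b = fun g => c * conv a b g := by
  funext g
  unfold conv
  rw [Finset.mul_sum]
  apply Finset.sum_congr rfl
  intro h _
  ring

omit hMm in
theorem conv_smul_right (c : ℂ) (a b : G → ℂ) :
    conv a (fun g => c * b g) = fun g => c * conv a b g := by
  funext g
  unfold conv
  rw [Finset.mul_sum]
  apply Finset.sum_congr rfl
  intro h _
  ring

omit hMm in
/-- Convolution powers of a scalar multiple of an idempotent. -/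
theorem cpow_smul_idem (c : ℂ) {e : G → ℂ} (he : conv e e = e) (n : ℕ) :
    cpow (fun g => c * e g) (n + 1) = fun g => c ^ (n + 1) * e g := by
  induction n with
  | zero =>
    show conv (fun g => c * e g) (cpow (fun g => c * e g) 0) = _
    funext g
    unfold conv cpow
    rw [Finset.sum_eq_single g]
    · simp
    · intro h _ hh
      have : ¬ (h⁻¹ * g = 1) := by
        intro h1
        apply hh
        rw [inv_mul_eq_one] at h1
        exact h1
      rw [if_neg this, mul_zero]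
    · intro h
      exact absurd (Finset.mem_univ g) h
  | succ n ih =>
    show conv (fun g => c * e g) (cpow (fun g => c * e g) (n + 1)) = _
    rw [ih, conv_smul_left, conv_smul_right, he]
    funext g
    ring

end Res

section Main

variable {G : Type u} [Group G] [Fintype G] {M : Ideal AlgInt} {p : ℕ} [Fact p.Prime]

/-- Külshammer's formula for the principal block idempotent. -/
theorem kuls_main (hM : IsPModular p M) (g : G) (hg : ¬ p ∣ orderOf g) :
    MemLocalIdeal M (blockCoeff (principalBlock M G) g -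
      (Nat.card {xy : G × G // (∃ k : ℕ, orderOf xy.1 = p ^ k) ∧ ¬ p ∣ orderOf xy.2 ∧
        xy.1 * xy.2 = g} : ℂ) / (Nat.card {y : G // ¬ p ∣ orderOf y} : ℂ)) := by
  classical
  have hp : p.Prime := Fact.out
  have hMm : M.IsMaximal := hM.2.1
  have hMp : M.IsPrime := hMm.isPrime
  have hfin := irr_finite (G := G)
  have := Fintype.ofFinite (IrrCharacter G)
  obtain ⟨oG, hoG⟩ : ∃ o : IrrCharacter G, (o : G → ℂ) = fun _ => 1 :=
    ⟨⟨_, isIrrCharacter_one⟩, rfl⟩
  have hPG : principalBlock M G = blockOf M (oG : G → ℂ) := by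
    rw [hoG]
    rfl
  have hB : IsPBlock M (principalBlock M G) := ⟨oG, hPG⟩
  have honeB : oG ∈ principalBlock M G := by
    rw [hPG]
    exact mem_blockOf_self hMp.ne_top oG
  -- the indicator of the p-regular elements
  obtain ⟨z₀, hz₀⟩ : ∃ z₀ : G → ℂ, z₀ = fun g => if p ∣ orderOf g then (0 : ℂ) else 1 :=
    ⟨_, rfl⟩
  have hz₀t : z₀ = testFun p (oG : G → ℂ) := by
    rw [hz₀, hoG]
    rfl
  have hz₀cl : IsClassFunction G z₀ := by
    rw [hz₀t]
    exact isClassFunction_testFun p (isClassFunction_of_irr oG.2)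
  have hz₀R : ∀ g, MemLocalRing M (z₀ g) := by
    intro g
    rw [hz₀]
    beta_reduce
    split_ifs
    · exact memLocalRing_zero hMp.ne_top
    · exact memLocalRing_one hMp.ne_top
  obtain ⟨R, hR⟩ : ∃ R : ℕ, R = Nat.card {y : G // ¬ p ∣ orderOf y} := ⟨_, rfl⟩
  have hOm1 : Om (oG : G → ℂ) z₀ = (R : ℂ) := by
    unfold Om
    rw [hoG]
    simp only [mul_one, div_one]
    rw [hz₀, hR, Nat.card_eq_fintype_card, Fintype.card_subtype, Finset.card_filter]
    push_cast
    apply Finset.sum_congr rfl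
    intro x _
    by_cases hx : p ∣ orderOf x
    · rw [if_pos hx, if_neg (not_not.mpr hx)]
    · rw [if_neg hx, if_pos hx]
  have hRnot : ¬ MemLocalIdeal M (R : ℂ) := by
    rw [← hOm1, hz₀t]
    exact om_testFun_not_mem hM hB oG honeB (by rw [hoG]; exact blockHeight_one _)
  have hRdvd : ¬ p ∣ R := fun h => hRnot (memLocalIdeal_natCast hM h)
  have hR0 : (R : ℂ) ≠ 0 := by
    intro h
    apply hRnot
    rw [h]
    exact memLocalIdeal_zero hMp.ne_top
  have hOmB : ∀ χ : IrrCharacter G, χ ∈ principalBlock M G →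
      MemLocalIdeal M (Om (χ : G → ℂ) z₀ - R) := by
    intro χ hχ
    rw [← hOm1]
    rw [hPG] at hχ
    have hsb : SameBlock M (oG : G → ℂ) (χ : G → ℂ) := hχ
    have h1 := om_congr (isClassFunction_of_irr oG.2) (isClassFunction_of_irr χ.2) hsb hz₀cl hz₀R
    have h2 := memLocalIdeal_neg h1
    rwa [neg_sub] at h2
  have hOmN : ∀ χ : IrrCharacter G, χ ∉ principalBlock M G → Om (χ : G → ℂ) z₀ = 0 := by
    intro χ hχ
    rw [hz₀t]
    rw [hPG] at hχ
    exact om_testFun_eq_zero hM oG χ (fun h => hχ h)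
  -- the idempotent and the nilpotent part
  obtain ⟨e₀, he₀⟩ : ∃ e₀ : G → ℂ, e₀ = blockCoeff (principalBlock M G) := ⟨_, rfl⟩
  have he₀cl : IsClassFunction G e₀ := by
    rw [he₀]
    exact isClassFunction_blockCoeff _
  have he₀R : ∀ g, MemLocalRing M (e₀ g) := by
    intro g
    rw [he₀]
    exact osima hB g
  have he₀idem : conv e₀ e₀ = e₀ := by
    rw [he₀]
    exact conv_blockCoeff _
  have hRR : MemLocalRing M (R : ℂ) := memLocalRing_natCast hMp.ne_top R
  obtain ⟨Re, hRe⟩ : ∃ Re : G → ℂ, Re = fun g => (R : ℂ) * e₀ g := ⟨_, rfl⟩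
  have hRecl : IsClassFunction G Re := by
    intro x k
    rw [hRe]
    show (R : ℂ) * e₀ (k * x * k⁻¹) = (R : ℂ) * e₀ x
    rw [he₀cl x k]
  have hReR : ∀ g, MemLocalRing M (Re g) := by
    intro g
    rw [hRe]
    exact memLocalRing_mul hRR (he₀R g)
  obtain ⟨r, hr⟩ : ∃ r : G → ℂ, r = fun g => z₀ g - Re g := ⟨_, rfl⟩
  have hrcl : IsClassFunction G r := by
    intro x k
    rw [hr]
    show z₀ (k * x * k⁻¹) - Re (k * x * k⁻¹) = z₀ x - Re x
    rw [hz₀cl x k, hRecl x k]
  have hrR : ∀ g, MemLocalRing M (r g) := by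
    intro g
    rw [hr]
    exact memLocalRing_sub (hz₀R g) (hReR g)
  have hOmr : ∀ χ : IrrCharacter G, χ ∈ (Set.univ : Set (IrrCharacter G)) →
      MemLocalIdeal M (Om (χ : G → ℂ) r) := by
    intro χ _
    have h1 : Om (χ : G → ℂ) r = Om (χ : G → ℂ) z₀ - R * Om (χ : G → ℂ) e₀ := by
      rw [hr, hRe]
      unfold Om
      simp only [sub_mul, Finset.sum_sub_distrib, mul_assoc, ← Finset.mul_sum]
      ring
    rw [h1]
    by_cases hχ : χ ∈ principalBlock M G
    · rw [he₀, om_blockCoeff_of_mem hχ, mul_one]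
      exact hOmB χ hχ
    · rw [he₀, om_blockCoeff_of_not_mem hχ, mul_zero, sub_zero, hOmN χ hχ]
      exact memLocalIdeal_zero hMp.ne_top
  have hz0 : ∀ g : G, MemLocalRing M ((fun _ : G => (0 : ℂ)) g) :=
    fun _ => memLocalRing_zero hMp.ne_top
  have huniv : blockCoeff (Set.univ : Set (IrrCharacter G)) = cpow (fun _ : G => (0 : ℂ)) 0 := by
    funext k
    have h1 := blockCoeff_add_compl (Set.univ : Set (IrrCharacter G)) k
    have h2 : blockCoeff ((Set.univ : Set (IrrCharacter G))ᶜ) k = 0 := by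
      rw [Set.compl_univ]
      unfold blockCoeff
      simp
    rw [h2, add_zero] at h1
    exact h1
  have hunivR : ∀ g, MemLocalRing M (blockCoeff (Set.univ : Set (IrrCharacter G)) g) := by
    intro g
    rw [huniv]
    exact memLocalRing_cpow hz0 0 g
  obtain ⟨n₁, hn₁⟩ := conv_cpow_blockCoeff_memLocalIdeal' (Set.univ : Set (IrrCharacter G))
    hunivR hrcl hrR hOmr
  have hρ : red M r ^ n₁ = 0 := by
    have h1 := (red_eq_zero_iff
      (fun g => memLocalRing_conv (memLocalRing_cpow hrR n₁) hunivR g)).mpr hn₁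
    rw [red_conv (memLocalRing_cpow hrR n₁) hunivR, red_cpow hrR, huniv, red_cpow hz0,
      pow_zero, mul_one] at h1
    exact h1
  have hch : CharP (MonoidAlgebra (AlgInt ⧸ M) G) p := by
    have := charP_quot hM
    exact charP_of_injective_algebraMap
      (algebraMap (AlgInt ⧸ M) (MonoidAlgebra (AlgInt ⧸ M) G)).injective p
  have hZ : red M z₀ = red M r + red M Re := by
    rw [← red_add hrR hReR]
    congr 1
    funext g
    rw [hr]
    ring
  have hcomm : Commute (red M r) (red M Re) := by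
    show red M r * red M Re = red M Re * red M r
    rw [← red_conv hrR hReR, ← red_conv hReR hrR, conv_comm_of_class hRecl r]
  -- the exponent
  obtain ⟨a, ha⟩ : ∃ a : ℕ, a = Nat.totient (orderOf g) * (n₁ + Fintype.card G) := ⟨_, rfl⟩
  obtain ⟨N, hN⟩ : ∃ N : ℕ, N = p ^ a := ⟨_, rfl⟩
  have hφ : 0 < Nat.totient (orderOf g) := Nat.totient_pos.mpr (orderOf_pos g)
  have ha1 : n₁ + Fintype.card G ≤ a := by
    rw [ha]
    exact Nat.le_mul_of_pos_left _ hφ
  have hNa : a < N := by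
    rw [hN]
    exact Nat.lt_pow_self hp.one_lt
  obtain ⟨N', hN'⟩ : ∃ N' : ℕ, N = N' + 1 := ⟨N - 1, by omega⟩
  have hZN : red M z₀ ^ N = red M (fun g => (R : ℂ) ^ N * e₀ g) := by
    rw [hZ, hN, add_pow_char_pow_of_commute (p := p) (n := a) hcomm, ← hN]
    have h1 : red M r ^ N = 0 := pow_eq_zero_of_le (by omega) hρ
    rw [h1, zero_add, ← red_cpow hReR, hN', hRe, cpow_smul_idem (R : ℂ) he₀idem N']
  have hI : MemLocalIdeal M (cpow z₀ N g - (R : ℂ) ^ N * e₀ g) := by
    have hRN : MemLocalRing M ((R : ℂ) ^ N) := by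
      rw [← Nat.cast_pow]
      exact memLocalRing_natCast hMp.ne_top _
    apply memLocalIdeal_sub_of_res_eq (memLocalRing_cpow hz₀R N g)
      (memLocalRing_mul hRN (he₀R g))
    rw [← red_cpow hz₀R] at hZN
    have h1 := congrArg (fun x => x.coeff g) hZN
    simp only [coeff_red] at h1
    exact h1
  -- the count
  obtain ⟨S, hS⟩ : ∃ S : Set G, S = {k : G | ¬ p ∣ orderOf (k * g)} := ⟨_, rfl⟩
  have hgN : g ^ N = g := by
    have h1 : N ≡ 1 [MOD orderOf g] := by
      rw [hN, ha, pow_mul]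
      have h2 : p ^ Nat.totient (orderOf g) ≡ 1 [MOD orderOf g] :=
        Nat.ModEq.pow_totient ((Nat.Prime.coprime_iff_not_dvd hp).mpr hg)
      have h3 := h2.pow (n₁ + Fintype.card G)
      rwa [one_pow] at h3
    have h4 : g ^ N = g ^ 1 := pow_eq_pow_iff_modEq.mpr h1
    rwa [pow_one] at h4
  have hcount : cpow z₀ N g = (Nat.card (tuples S N 1) : ℂ) := by
    rw [← cpow_ind S N 1]
    have h1 := cpow_shift hz₀cl g N 1
    rw [one_mul, hgN] at h1
    rw [← h1]
    congr 1
    funext k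
    rw [hz₀, hS]
    beta_reduce
    by_cases hk : p ∣ orderOf (k * g)
    · have hk' : k ∉ {k : G | ¬ p ∣ orderOf (k * g)} := fun h => h hk
      rw [if_pos hk, if_neg hk']
    · have hk' : k ∈ {k : G | ¬ p ∣ orderOf (k * g)} := hk
      rw [if_neg hk, if_pos hk']
  have hmod := card_tuples_one_modEq S p a
  rw [← hN] at hmod
  obtain ⟨Ng, hNg⟩ : ∃ Ng : ℕ, Ng = Nat.card {xy : G × G //
      (∃ k : ℕ, orderOf xy.1 = p ^ k) ∧ ¬ p ∣ orderOf xy.2 ∧ xy.1 * xy.2 = g} := ⟨_, rfl⟩
  have hbij : Nat.card {k : G // k ∈ S ∧ k ^ N = 1} = Ng := by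
    rw [hNg]
    apply Nat.card_congr
    refine ⟨fun k => ⟨(k.1⁻¹, k.1 * g), ?_, ?_, ?_⟩, fun xy => ⟨xy.1.1⁻¹, ?_, ?_⟩, ?_, ?_⟩
    · show ∃ j : ℕ, orderOf k.1⁻¹ = p ^ j
      rw [orderOf_inv]
      have h1 : orderOf k.1 ∣ p ^ a := by
        rw [← hN]
        exact orderOf_dvd_of_pow_eq_one k.2.2
      obtain ⟨j, -, hj⟩ := (Nat.dvd_prime_pow hp).mp h1
      exact ⟨j, hj⟩
    · exact (Set.ext_iff.mp hS k.1).mp k.2.1
    · show k.1⁻¹ * (k.1 * g) = g
      group
    · rw [hS]
      show ¬ p ∣ orderOf (xy.1.1⁻¹ * g)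
      have h1 : xy.1.1⁻¹ * g = xy.1.2 := by
        rw [inv_mul_eq_iff_eq_mul]
        exact xy.2.2.2.symm
      rw [h1]
      exact xy.2.2.1
    · obtain ⟨j, hj⟩ := xy.2.1
      rw [inv_pow, inv_eq_one]
      apply orderOf_dvd_iff_pow_eq_one.mp
      rw [hj, hN]
      apply pow_dvd_pow
      have h1 : p ^ j ∣ Fintype.card G := by
        rw [← hj]
        exact orderOf_dvd_card
      have h2 : p ^ j ≤ Fintype.card G := Nat.le_of_dvd Fintype.card_pos h1
      have h3 : j < p ^ j := Nat.lt_pow_self hp.one_lt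
      omega
    · intro k
      apply Subtype.ext
      show (k.1⁻¹)⁻¹ = k.1
      rw [inv_inv]
    · intro xy
      apply Subtype.ext
      apply Prod.ext
      · show (xy.1.1⁻¹)⁻¹ = xy.1.1
        rw [inv_inv]
      · show xy.1.1⁻¹ * g = xy.1.2
        rw [inv_mul_eq_iff_eq_mul]
        exact xy.2.2.2.symm
  rw [hbij] at hmod
  obtain ⟨K, hK⟩ : ∃ K : ℕ, K = Nat.card (tuples S N 1) := ⟨_, rfl⟩
  rw [← hK] at hmod hcount
  have hpM : MemLocalIdeal M (p : ℂ) := memLocalIdeal_natCast hM (dvd_refl p)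
  have hKN : MemLocalIdeal M ((Ng : ℂ) - (K : ℂ)) := by
    obtain ⟨m, hm⟩ := Nat.modEq_iff_dvd.mp hmod
    have h1 : (Ng : ℂ) - (K : ℂ) = (m : ℂ) * (p : ℂ) := by
      have h2 : (((Ng : ℤ) - (K : ℤ) : ℤ) : ℂ) = (((p : ℤ) * m : ℤ) : ℂ) := by rw [hm]
      push_cast at h2
      rw [h2]
      ring
    rw [h1]
    exact memLocalIdeal_algInt_mul (intCast_mem AlgInt m) hpM
  have hRN : MemLocalIdeal M ((R : ℂ) ^ N - (R : ℂ)) := by
    have h1 : R ≡ R ^ N [MOD p] := by
      rw [← ZMod.natCast_eq_natCast_iff, Nat.cast_pow, hN]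
      exact (ZMod.pow_card_pow _).symm
    obtain ⟨m, hm⟩ := Nat.modEq_iff_dvd.mp h1
    have h3 : (R : ℂ) ^ N - (R : ℂ) = (m : ℂ) * (p : ℂ) := by
      have h2 : ((((R ^ N : ℕ) : ℤ) - (R : ℤ) : ℤ) : ℂ) = (((p : ℤ) * m : ℤ) : ℂ) := by rw [hm]
      push_cast at h2
      rw [h2]
      ring
    rw [h3]
    exact memLocalIdeal_algInt_mul (intCast_mem AlgInt m) hpM
  have hT : MemLocalIdeal M ((Ng : ℂ) - (R : ℂ) * e₀ g) := by
    have h1 := memLocalIdeal_add hKN
      (memLocalIdeal_add hI (memLocalIdeal_mul_left (he₀R g) hRN))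
    rw [hcount] at h1
    have h2 : (Ng : ℂ) - (K : ℂ) + ((K : ℂ) - (R : ℂ) ^ N * e₀ g +
        e₀ g * ((R : ℂ) ^ N - (R : ℂ))) = (Ng : ℂ) - (R : ℂ) * e₀ g := by ring
    rw [h2] at h1
    exact h1
  rw [← he₀, ← hNg, ← hR]
  have h2 : e₀ g - (Ng : ℂ) / (R : ℂ) = (R : ℂ)⁻¹ * -((Ng : ℂ) - (R : ℂ) * e₀ g) := by
    field_simp
    ring
  rw [h2]
  exact memLocalIdeal_mul_left (memLocalRing_inv hRR hRnot) (memLocalIdeal_neg hT)

end Main

end Cfsg.Agent.Lib_helper3_Kuls2
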