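import Mathlib
import Cfsg.Prelude.Def_Characters
import Cfsg.Prelude.Def_Blocks
import Cfsg.Agent.Lib_helper3_BrauerCount
import Cfsg.Agent.Lib_helper3_BrauerHom3
import Cfsg.Agent.Lib_helper3_BrauerTrunc
import Cfsg.Agent.Lib_helper3_ThirdMain2
import Cfsg.Agent.Lib_helper3_Kuls2
import Cfsg.Agent.S0906
import Cfsg.Agent.S0908
import Cfsg.Agent.S0911
import Cfsg.Agent.S0917

set_option autoImplicit false
open Cfsg
open Cfsg.Agent.Lib_helper3_CharBasic Cfsg.Agent.Lib_helper3_CharMore
  Cfsg.Agent.Lib_helper3_Local Cfsg.Agent.Lib_helper3_Local2 Cfsg.Agent.Lib_helper3_BlockAlg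
  Cfsg.Agent.Lib_helper3_Residue Cfsg.Agent.Lib_helper3_BrauerHom2
  Cfsg.Agent.Lib_helper3_BrauerHom3 Cfsg.Agent.Lib_helper3_BrauerTrunc
  Cfsg.Agent.Lib_helper3_SecondMain Cfsg.Agent.Lib_helper3_SecondMain2
  Cfsg.Agent.Lib_helper3_SecondMain3 Cfsg.Agent.Lib_helper3_FirstMain
  Cfsg.Agent.Lib_helper3_ExtFirstMain Cfsg.Agent.Lib_helper3_ThirdMain2
  Cfsg.Agent.Lib_helper3_IdemSupp
open scoped ComplexConjugate

namespace Cfsg.Agent.Lib_helper3_Deficiency

attribute [local instance] Ideal.Quotient.field

universe u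

variable {G : Type u} [Group G] [Fintype G] {M : Ideal AlgInt} {p : ℕ} [Fact p.Prime]

omit [Fintype G] [Fact p.Prime] in
theorem idem_mul_idem {R : Type*} [Semigroup R] (a f : R) (ha : a * a = a) (hf : f * f = f)
    (hc : a * f = f * a) : (a * f) * (a * f) = a * f := by
  calc (a * f) * (a * f) = a * (f * a) * f := by simp only [mul_assoc]
    _ = a * (a * f) * f := by rw [← hc]
    _ = (a * a) * (f * f) := by simp only [mul_assoc]
    _ = a * f := by rw [ha, hf]

omit [Fintype G] [Fact p.Prime] in
theorem coe_mem_centralizer_zpowers (y : G) (c : Subgroup.centralizer ({y} : Set G)) :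
    (c : G) ∈ Subgroup.centralizer ((Subgroup.zpowers y : Subgroup G) : Set G) := by
  rw [Subgroup.mem_centralizer_iff]
  intro v hv
  obtain ⟨i, rfl⟩ := Subgroup.mem_zpowers_iff.mp hv
  have h := Subgroup.mem_centralizer_singleton_iff.mp c.2
  have hc : Commute y (c : G) := h.symm
  exact (hc.zpow_left i).eq

section A

variable [hMm : M.IsMaximal]

/-- The centralizer part of an idempotent of `G` is orthogonal, modulo the local ideal, to the
idempotent of a set of characters of the centralizer of a `p`-element none of which induces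
into the support of the idempotent. -/
theorem red_cenFun_mul_eq_zero (hM : IsPModular p M) (y : G) (hy : ∃ k : ℕ, orderOf y = p ^ k)
    [Fintype (Subgroup.centralizer ({y} : Set G))]
    (A : Set (IrrCharacter G)) (hA : ∀ g, MemLocalRing M (blockCoeff A g))
    (J : Set (IrrCharacter (Subgroup.centralizer ({y} : Set G))))
    (hJ : ∀ h, MemLocalRing M (blockCoeff J h))
    (hAJ : ∀ ξ ∈ J, ∃ χ₁ : IrrCharacter G, χ₁ ∉ A ∧ ∀ g : G, MemLocalIdeal M
      (inducedCentralChar (Subgroup.centralizer ({y} : Set G))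
        (ξ : Subgroup.centralizer ({y} : Set G) → ℂ) g - centralChar (χ₁ : G → ℂ) g)) :
    red M (cenFun (Subgroup.zpowers y) (Subgroup.centralizer ({y} : Set G)) (blockCoeff A)) *
      red M (blockCoeff J) = 0 := by
  classical
  have hMp : M.IsPrime := hMm.isPrime
  obtain ⟨kx, hkx⟩ := hy
  have hP : IsPGroup p (Subgroup.zpowers y) := by
    apply IsPGroup.of_card (n := kx)
    rw [Nat.card_zpowers, hkx]
  have hyH : y ∈ Subgroup.centralizer ({y} : Set G) :=
    Subgroup.mem_centralizer_singleton_iff.mpr rfl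
  have hPH : Subgroup.zpowers y ≤ Subgroup.centralizer ({y} : Set G) :=
    (Subgroup.zpowers_le).mpr hyH
  have hCH : Subgroup.centralizer ((Subgroup.zpowers y : Subgroup G) : Set G) ≤
      Subgroup.centralizer ({y} : Set G) := by
    apply Subgroup.centralizer_le
    intro v hv
    rw [Set.mem_singleton_iff] at hv
    rw [hv]
    exact Subgroup.mem_zpowers y
  have hHN := centralizer_le_normalizer_zpowers y
  have hecl := isClassFunction_blockCoeff A
  have hacl := isClassFunction_cenFun (Subgroup.zpowers y) (Subgroup.centralizer ({y} : Set G))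
    hHN hecl
  have haR := memLocalRing_cenFun (M := M) (Subgroup.zpowers y)
    (Subgroup.centralizer ({y} : Set G)) hA
  have hfcl := isClassFunction_blockCoeff J
  have hidem_a := red_cenFun_idem hM (Subgroup.zpowers y) (Subgroup.centralizer ({y} : Set G))
    hP hCH hecl hA (conv_blockCoeff A)
  have hidem_f : red M (blockCoeff J) * red M (blockCoeff J) = red M (blockCoeff J) := by
    rw [← red_conv hJ hJ, conv_blockCoeff]
  have hcomm : red M (cenFun (Subgroup.zpowers y) (Subgroup.centralizer ({y} : Set G))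
      (blockCoeff A)) * red M (blockCoeff J) = red M (blockCoeff J) *
      red M (cenFun (Subgroup.zpowers y) (Subgroup.centralizer ({y} : Set G))
      (blockCoeff A)) := by
    rw [← red_conv haR hJ, ← red_conv hJ haR, conv_comm_of_class hfcl]
  rw [← red_conv haR hJ]
  apply red_eq_zero_of_om (isClassFunction_conv hacl hfcl) (memLocalRing_conv haR hJ)
  · rw [red_conv haR hJ]
    exact idem_mul_idem _ _ hidem_a hidem_f hcomm
  · intro ξ
    rw [om_conv ξ.2 hacl hfcl]
    by_cases hξ : ξ ∈ J
    · obtain ⟨χ₁, hχ₁A, hχ₁⟩ := hAJ ξ hξ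
      have h1 := om_resH_sub_om (Subgroup.centralizer ({y} : Set G))
        (ξ : Subgroup.centralizer ({y} : Set G) → ℂ) (isClassFunction_of_irr χ₁.2) hχ₁ hecl hA
      rw [om_blockCoeff_of_not_mem hχ₁A, sub_zero] at h1
      have h2 := om_resH_sub_cenFun hM (Subgroup.zpowers y) (Subgroup.centralizer ({y} : Set G))
        hP hPH hHN ξ hecl hA
      have h3 := memLocalIdeal_sub h1 h2
      rw [sub_sub_cancel] at h3
      rw [om_blockCoeff_of_mem hξ, mul_one]
      exact h3
    · rw [om_blockCoeff_of_not_mem hξ, mul_zero]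
      exact memLocalIdeal_zero hMp.ne_top

end A

/-- Brauer's homomorphism on block idempotents: on the centralizer of a `p`-element `y`, the
idempotent of a block `B` of `G` agrees modulo the local ideal with the idempotent of the
blocks of the centralizer inducing `B`. -/
theorem brauer_idem_cent (hM : IsPModular p M) (y : G) (hy : ∃ k : ℕ, orderOf y = p ^ k)
    (B : Set (IrrCharacter G)) (hB : IsPBlock M B)
    [Fintype (Subgroup.centralizer ({y} : Set G))] (c : Subgroup.centralizer ({y} : Set G)) :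
    MemLocalIdeal M (blockCoeff B (c : G) - blockCoeff (indSet M y B) c) := by
  classical
  have hMm : M.IsMaximal := hM.2.1
  have hMp : M.IsPrime := hMm.isPrime
  have hMtop := hMp.ne_top
  have hBR : ∀ g, MemLocalRing M (blockCoeff B g) := fun g => osima hB g
  have hBcR : ∀ g, MemLocalRing M (blockCoeff Bᶜ g) := by
    apply osima_union
    intro χ hχ χ' hχ' hmem
    obtain ⟨χB, hχB⟩ := hB
    apply hχ
    rw [hχB] at hmem ⊢
    have h1 : blockOf M (χ' : G → ℂ) = blockOf M (χB : G → ℂ) := blockOf_eq_of_mem hmem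
    have h2 : blockOf M (χ' : G → ℂ) = blockOf M (χ : G → ℂ) := blockOf_eq_of_mem hχ'
    rw [← h1, h2]
    exact mem_blockOf_self hMtop χ
  have hIR := osima_union (indSet_union hM y B)
  have hIcR := osima_union (indSet_compl_union hM y B)
  have hmemC := coe_mem_centralizer_zpowers y
  have haR := memLocalRing_cenFun (M := M) (Subgroup.zpowers y)
    (Subgroup.centralizer ({y} : Set G)) hBR
  have ha'R := memLocalRing_cenFun (M := M) (Subgroup.zpowers y)
    (Subgroup.centralizer ({y} : Set G)) hBcR
  have h1 := red_cenFun_mul_eq_zero hM y hy B hBR (indSet M y B)ᶜ hIcR (by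
    intro ξ hξ
    obtain ⟨χ₁, hχ₁⟩ := exists_irr_induced_cent hM y hy ξ
    exact ⟨χ₁, fun hmem => hξ ⟨χ₁, hmem, hχ₁⟩, hχ₁⟩)
  have h2 := red_cenFun_mul_eq_zero hM y hy Bᶜ hBcR (indSet M y B) hIR (by
    intro ξ hξ
    obtain ⟨χ₁, hχ₁B, hχ₁⟩ := hξ
    exact ⟨χ₁, fun hmem => hmem hχ₁B, hχ₁⟩)
  have h3 : red M (cenFun (Subgroup.zpowers y) (Subgroup.centralizer ({y} : Set G))
      (blockCoeff B)) + red M (cenFun (Subgroup.zpowers y)
      (Subgroup.centralizer ({y} : Set G)) (blockCoeff Bᶜ)) = 1 := by
    rw [← Cfsg.Agent.Lib_helper3_Kuls2.red_add haR ha'R]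
    have h : (fun g => cenFun (Subgroup.zpowers y) (Subgroup.centralizer ({y} : Set G))
        (blockCoeff B) g + cenFun (Subgroup.zpowers y) (Subgroup.centralizer ({y} : Set G))
        (blockCoeff Bᶜ) g) =
        cpow (fun _ : Subgroup.centralizer ({y} : Set G) => (0 : ℂ)) 0 := by
      funext c
      unfold cenFun
      rw [if_pos (hmemC c), if_pos (hmemC c), blockCoeff_add_compl]
      unfold cpow
      by_cases hc : c = 1
      · rw [if_pos hc, if_pos (by rw [hc]; rfl)]
      · have hc' : ¬ ((c : G) = 1) := fun h => hc (Subtype.ext h)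
        rw [if_neg hc, if_neg hc']
    rw [h, red_cpow (fun _ => memLocalRing_zero hMtop) 0, pow_zero]
  have h4 : red M (blockCoeff (indSet M y B)) + red M (blockCoeff (indSet M y B)ᶜ) = 1 := by
    rw [← Cfsg.Agent.Lib_helper3_Kuls2.red_add hIR hIcR]
    have h : (fun g => blockCoeff (indSet M y B) g + blockCoeff (indSet M y B)ᶜ g) =
        cpow (fun _ : Subgroup.centralizer ({y} : Set G) => (0 : ℂ)) 0 := by
      funext c
      rw [blockCoeff_add_compl]
    rw [h, red_cpow (fun _ => memLocalRing_zero hMtop) 0, pow_zero]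
  have h5 : red M (cenFun (Subgroup.zpowers y) (Subgroup.centralizer ({y} : Set G))
      (blockCoeff B)) = red M (blockCoeff (indSet M y B)) := by
    calc red M (cenFun (Subgroup.zpowers y) (Subgroup.centralizer ({y} : Set G))
          (blockCoeff B))
        = red M (cenFun (Subgroup.zpowers y) (Subgroup.centralizer ({y} : Set G))
          (blockCoeff B)) * (red M (blockCoeff (indSet M y B)) +
            red M (blockCoeff (indSet M y B)ᶜ)) := by rw [h4, mul_one]
      _ = red M (cenFun (Subgroup.zpowers y) (Subgroup.centralizer ({y} : Set G))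
          (blockCoeff B)) * red M (blockCoeff (indSet M y B)) := by rw [mul_add, h1, add_zero]
      _ = (red M (cenFun (Subgroup.zpowers y) (Subgroup.centralizer ({y} : Set G))
          (blockCoeff B)) + red M (cenFun (Subgroup.zpowers y)
          (Subgroup.centralizer ({y} : Set G)) (blockCoeff Bᶜ))) *
          red M (blockCoeff (indSet M y B)) := by rw [add_mul, h2, add_zero]
      _ = red M (blockCoeff (indSet M y B)) := by rw [h3, one_mul]
  have h6 : (red M (cenFun (Subgroup.zpowers y) (Subgroup.centralizer ({y} : Set G))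
      (blockCoeff B))).coeff c = (red M (blockCoeff (indSet M y B))).coeff c := by rw [h5]
  rw [Cfsg.Agent.Lib_helper3_Kuls2.coeff_red, Cfsg.Agent.Lib_helper3_Kuls2.coeff_red] at h6
  have h7 := Cfsg.Agent.Lib_helper3_Kuls2.memLocalIdeal_sub_of_res_eq (haR c) (hIR c) h6
  unfold cenFun at h7
  rw [if_pos (hmemC c)] at h7
  exact h7

omit [Fact p.Prime] in
/-- Where the idempotent of the blocks inducing `B` does not vanish modulo the local ideal,
the idempotent of one of these blocks does not. -/
theorem exists_block_of_indSet (hM : IsPModular p M) (y : G)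
    (B : Set (IrrCharacter G)) (hB : IsPBlock M B)
    [Fintype (Subgroup.centralizer ({y} : Set G))] (c : Subgroup.centralizer ({y} : Set G))
    (h : ¬ MemLocalIdeal M (blockCoeff (indSet M y B) c)) :
    ∃ b : Set (IrrCharacter (Subgroup.centralizer ({y} : Set G))),
      IsInducedBlock M (Subgroup.centralizer ({y} : Set G)) b B ∧
        ¬ MemLocalIdeal M (blockCoeff b c) := by
  classical
  have hMp : M.IsPrime := isPrime_of_modular hM
  have hMtop : M ≠ ⊤ := hMp.ne_top
  have hfinC := irr_finite (G := Subgroup.centralizer ({y} : Set G))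
  by_contra hno
  push Not at hno
  apply h
  obtain ⟨S, hSdef⟩ : ∃ S : Set (Set (IrrCharacter (Subgroup.centralizer ({y} : Set G)))),
      S = {b | IsInducedBlock M (Subgroup.centralizer ({y} : Set G)) b B} := ⟨_, rfl⟩
  have hmemS : ∀ b, b ∈ S ↔ IsInducedBlock M (Subgroup.centralizer ({y} : Set G)) b B := by
    intro b
    rw [hSdef]
    rfl
  have hS : S.Finite := Set.toFinite S
  obtain ⟨χ₀, hχ₀⟩ := hB
  have hχ₀B : χ₀ ∈ B := by
    rw [hχ₀]
    exact mem_blockOf_self hMtop χ₀
  have hblock : ∀ b ∈ S, ∀ ψ ∈ b, b = blockOf M (ψ : Subgroup.centralizer ({y} : Set G) → ℂ) := by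
    intro b hb ψ hψ
    obtain ⟨ξ, hξ⟩ := ((hmemS b).mp hb).1
    rw [hξ] at hψ ⊢
    exact (blockOf_eq_of_mem hψ).symm
  have hunion : indSet M y B = ⋃ b ∈ S, b := by
    ext ψ
    simp only [Set.mem_iUnion, exists_prop]
    constructor
    · rintro ⟨χ₁, hχ₁, h⟩
      refine ⟨blockOf M (ψ : Subgroup.centralizer ({y} : Set G) → ℂ), ?_, mem_blockOf_self hMtop ψ⟩
      rw [hmemS]
      have h1 := isInducedBlock_of_rep (M := M) (Subgroup.centralizer ({y} : Set G)) ψ χ₁ h
      have h2 : blockOf M (χ₁ : G → ℂ) = B := by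
        rw [hχ₀] at hχ₁ ⊢
        exact blockOf_eq_of_mem hχ₁
      rw [h2] at h1
      exact h1
    · rintro ⟨b, hb, hψ⟩
      exact ⟨χ₀, hχ₀B, ((hmemS b).mp hb).2.2 ψ hψ χ₀ hχ₀B⟩
  have hdisj : S.PairwiseDisjoint id := by
    intro b hb b' hb' hne
    rw [Function.onFun, Set.disjoint_left]
    intro ψ hψ hψ'
    exact hne ((hblock b hb ψ hψ).trans (hblock b' hb' ψ hψ').symm)
  have h1 : blockCoeff (indSet M y B) c = ∑ b ∈ hS.toFinset, blockCoeff b c := by
    unfold blockCoeff
    rw [hunion, ← Finset.mul_sum]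
    congr 1
    refine (finsum_mem_biUnion hdisj hS (fun b _ => Set.toFinite b)).trans ?_
    exact finsum_mem_eq_finite_toFinset_sum _ hS
  rw [h1]
  apply memLocalIdeal_sum
  intro b hb
  exact hno b ((hmemS b).mp (hS.mem_toFinset.mp hb))

omit [Fintype G] [Fact p.Prime] in
/-- The block induced by a block is unique. -/
theorem isInducedBlock_unique [hMp : M.IsPrime] (H : Subgroup G)
    (b : Set (IrrCharacter H)) (B B' : Set (IrrCharacter G)) (h1 : IsInducedBlock M H b B)
    (h2 : IsInducedBlock M H b B') : B = B' := by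
  have hMtop : M ≠ ⊤ := hMp.ne_top
  obtain ⟨ξ, hξ⟩ := h1.1
  obtain ⟨χ, hχ⟩ := h1.2.1
  obtain ⟨χ', hχ'⟩ := h2.2.1
  have hξb : ξ ∈ b := by
    rw [hξ]
    exact mem_blockOf_self hMtop ξ
  have hχB : χ ∈ B := by
    rw [hχ]
    exact mem_blockOf_self hMtop χ
  have hχB' : χ' ∈ B' := by
    rw [hχ']
    exact mem_blockOf_self hMtop χ'
  have h3 : χ' ∈ blockOf M (χ : G → ℂ) := by
    intro g
    have h4 := memLocalIdeal_sub (h2.2.2 ξ hξb χ' hχB' g) (h1.2.2 ξ hξb χ hχB g)
    rwa [sub_sub_sub_cancel_left] at h4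
  rw [hχ, hχ']
  exact (blockOf_eq_of_mem h3).symm

omit [Fintype G] in
/-- The defect of an induced block is at least the defect of the inducing block. -/
theorem defect_le_of_induced [Finite G] (hM : IsPModular p M) (H : Subgroup G)
    (b : Set (IrrCharacter H)) (B : Set (IrrCharacter G)) (hind : IsInducedBlock M H b B) :
    blockDefect p b ≤ blockDefect p B := by
  have hp : p.Prime := Fact.out
  obtain ⟨g, hg⟩ := Cfsg.Agent.S0906.result p M hM b hind.1
  obtain ⟨P⟩ : Nonempty (Sylow p (Subgroup.centralizer ({g} : Set H))) := inferInstance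
  have hD : IsDefectGroup p M b
      ((P : Subgroup (Subgroup.centralizer ({g} : Set H))).map
        (Subgroup.centralizer ({g} : Set H)).subtype) := ⟨g, hg, P, rfl⟩
  obtain ⟨E, hE, hDE⟩ := Cfsg.Agent.S0917.result p M hM H b hind.1 B hind.2.1 hind _ hD
  have h1 := Cfsg.Agent.S0908.result p M hM b hind.1 _ hD
  have h2 := Cfsg.Agent.S0908.result p M hM B hind.2.1 E hE
  have h4 := Subgroup.card_le_of_le hDE
  rw [Subgroup.card_map_of_injective H.subtype_injective, h1, h2] at h4
  exact (Nat.pow_le_pow_iff_right hp.one_lt).mp h4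

/-- If `G` has no non-principal block of defect at least `r`, neither has the centralizer of
a `p`-element. -/
theorem deficiency_cent (hM : IsPModular p M) (r : ℕ)
    (hG : ∀ B' : Set (IrrCharacter G), IsPBlock M B' → B' ≠ principalBlock M G →
      blockDefect p B' < r)
    (y : G) (hy : ∃ k : ℕ, orderOf y = p ^ k)
    (b : Set (IrrCharacter (Subgroup.centralizer ({y} : Set G)))) (hb : IsPBlock M b)
    (hne : b ≠ principalBlock M (Subgroup.centralizer ({y} : Set G))) : blockDefect p b < r := by
  classical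
  have hMp : M.IsPrime := isPrime_of_modular hM
  have : Fintype (Subgroup.centralizer ({y} : Set G)) := Fintype.ofFinite _
  obtain ⟨ξ, hξ⟩ := hb
  obtain ⟨χ₁, hχ₁⟩ := exists_irr_induced_cent hM y hy ξ
  have hind := isInducedBlock_of_rep (M := M) (Subgroup.centralizer ({y} : Set G)) ξ χ₁ hχ₁
  rw [← hξ] at hind
  have hB : blockOf M (χ₁ : G → ℂ) ≠ principalBlock M G := by
    intro h
    apply hne
    rw [h] at hind
    exact (third_main hM (Subgroup.centralizer ({y} : Set G)) b ⟨_, hind⟩).mp hind
  exact lt_of_le_of_lt (defect_le_of_induced hM _ b _ hind) (hG _ hind.2.1 hB)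

/-- If `r > 0` and the centralizer of no element of order `p` has a non-principal block of
defect at least `r`, neither has `G`. -/
theorem deficiency_of_cent (hM : IsPModular p M) (r : ℕ) (hr : 0 < r)
    (hC : ∀ y : G, orderOf y = p →
      ∀ B' : Set (IrrCharacter (Subgroup.centralizer ({y} : Set G))), IsPBlock M B' →
        B' ≠ principalBlock M (Subgroup.centralizer ({y} : Set G)) → blockDefect p B' < r)
    (B : Set (IrrCharacter G)) (hB : IsPBlock M B) (hne : B ≠ principalBlock M G) :
    blockDefect p B < r := by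
  classical
  have hp : p.Prime := Fact.out
  have hMp : M.IsPrime := isPrime_of_modular hM
  by_contra hge
  push Not at hge
  obtain ⟨g, hg⟩ := Cfsg.Agent.S0906.result p M hM B hB
  obtain ⟨P⟩ : Nonempty (Sylow p (Subgroup.centralizer ({g} : Set G))) := inferInstance
  have hD : IsDefectGroup p M B
      ((P : Subgroup (Subgroup.centralizer ({g} : Set G))).map
        (Subgroup.centralizer ({g} : Set G)).subtype) := ⟨g, hg, P, rfl⟩
  have hcardD := Cfsg.Agent.S0908.result p M hM B hB _ hD
  have hcardP : Nat.card P = p ^ blockDefect p B := by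
    rw [← hcardD, Subgroup.card_map_of_injective (Subgroup.subtype_injective _)]
  have hPnt : Nontrivial P := by
    rw [← Finite.one_lt_card_iff_nontrivial, hcardP]
    exact Nat.one_lt_pow (by omega) hp.one_lt
  have hPp : IsPGroup p P := P.isPGroup'
  have hZnt : Nontrivial (Subgroup.center P) := hPp.center_nontrivial
  have hZp : IsPGroup p (Subgroup.center P) := hPp.to_subgroup _
  have hdvd : p ∣ Nat.card (Subgroup.center P) := by
    obtain ⟨n, hn⟩ := IsPGroup.iff_card.mp hZp
    rw [hn]
    have hn0 : n ≠ 0 := by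
      intro h0
      rw [h0, pow_zero] at hn
      have h1 := Finite.one_lt_card_iff_nontrivial.mpr hZnt
      omega
    exact dvd_pow_self p hn0
  obtain ⟨z, hz⟩ := exists_prime_orderOf_dvd_card' p hdvd
  obtain ⟨y, hy⟩ : ∃ y : G, y = (((z : P) : Subgroup.centralizer ({g} : Set G)) : G) := ⟨_, rfl⟩
  have hyord : orderOf y = p := by
    rw [hy, Subgroup.orderOf_coe, Subgroup.orderOf_coe, Subgroup.orderOf_coe]
    exact hz
  have hgy : g ∈ Subgroup.centralizer ({y} : Set G) := by
    rw [Subgroup.mem_centralizer_singleton_iff]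
    have h1 := Subgroup.mem_centralizer_singleton_iff.mp
      ((z : P) : Subgroup.centralizer ({g} : Set G)).2
    rw [hy]
    exact h1.symm
  have hDy : (P : Subgroup (Subgroup.centralizer ({g} : Set G))).map
      (Subgroup.centralizer ({g} : Set G)).subtype ≤ Subgroup.centralizer ({y} : Set G) := by
    rintro d ⟨q, hq, rfl⟩
    rw [Subgroup.mem_centralizer_singleton_iff]
    have h1 := Subgroup.mem_center_iff.mp z.2 ⟨q, hq⟩
    have h2 := congrArg (fun w : P => ((w : Subgroup.centralizer ({g} : Set G)) : G)) h1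
    rw [hy]
    simpa using h2
  have : Fintype (Subgroup.centralizer ({y} : Set G)) := Fintype.ofFinite _
  have hε : ¬ MemLocalIdeal M (blockCoeff (indSet M y B)
      (⟨g, hgy⟩ : Subgroup.centralizer ({y} : Set G))) := by
    intro h
    apply hg.2.1
    have h1 := brauer_idem_cent hM y ⟨1, by rw [hyord, pow_one]⟩ B hB ⟨g, hgy⟩
    have h2 := memLocalIdeal_add h1 h
    rwa [sub_add_cancel] at h2
  obtain ⟨b, hind, hbε⟩ := exists_block_of_indSet hM y B hB ⟨g, hgy⟩ hε
  have hbne : b ≠ principalBlock M (Subgroup.centralizer ({y} : Set G)) := by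
    intro h
    apply hne
    have h1 := (third_main hM (Subgroup.centralizer ({y} : Set G)) b ⟨B, hind⟩).mpr h
    exact isInducedBlock_unique _ b B _ hind h1
  have hdb := hC y hyord b hind.1 hbne
  obtain ⟨gb, hgb⟩ := Cfsg.Agent.S0906.result p M hM b hind.1
  obtain ⟨Pb⟩ : Nonempty (Sylow p (Subgroup.centralizer
      ({gb} : Set (Subgroup.centralizer ({y} : Set G))))) := inferInstance
  have hDb : IsDefectGroup p M b ((Pb : Subgroup (Subgroup.centralizer
      ({gb} : Set (Subgroup.centralizer ({y} : Set G))))).map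
      (Subgroup.centralizer ({gb} : Set (Subgroup.centralizer ({y} : Set G)))).subtype) :=
    ⟨gb, hgb, Pb, rfl⟩
  have hcardDb := Cfsg.Agent.S0908.result p M hM b hind.1 _ hDb
  obtain ⟨x, Q, hQ⟩ := (Cfsg.Agent.S0911.result p M hM b hind.1 gb hgb Pb ⟨g, hgy⟩).1
    (osima hind.1 _) hbε
  have hcardQ : Nat.card Q ≤ p ^ blockDefect p b := by
    rw [← hcardDb]
    have h1 := Subgroup.card_le_of_le hQ
    rw [Subgroup.card_map_of_injective (Subgroup.subtype_injective _),
      Subgroup.card_map_of_injective (MulAut.conj x).injective] at h1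
    exact h1
  have hQcard := Q.card_eq_multiplicity
  have hcc := card_centralizer_subtype (Subgroup.centralizer ({y} : Set G)) ⟨g, hgy⟩
  have hDle : (P : Subgroup (Subgroup.centralizer ({g} : Set G))).map
      (Subgroup.centralizer ({g} : Set G)).subtype ≤
      Subgroup.centralizer ({g} : Set G) ⊓ Subgroup.centralizer ({y} : Set G) := by
    apply le_inf
    · rintro d ⟨q, hq, rfl⟩
      exact q.2
    · exact hDy
  have hdvd2 : p ^ blockDefect p B ∣ Nat.card (Subgroup.centralizer
      ({(⟨g, hgy⟩ : Subgroup.centralizer ({y} : Set G))} :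
        Set (Subgroup.centralizer ({y} : Set G)))) := by
    rw [hcc, ← hcardD]
    exact Subgroup.card_dvd_of_le hDle
  have h8 := (hp.pow_dvd_iff_le_factorization Nat.card_pos.ne').mp hdvd2
  rw [hQcard] at hcardQ
  have h9 := (Nat.pow_le_pow_iff_right hp.one_lt).mp hcardQ
  omega

end Cfsg.Agent.Lib_helper3_Deficiency
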