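import Mathlib
import Cfsg.Prelude.Def_Characters
import Cfsg.Prelude.Def_Blocks
import Cfsg.Agent.Lib_helper3_IdemCent
import Cfsg.Agent.Lib_helper3_BlockCover
import Cfsg.Agent.Lib_helper3_BlockPQuot
import Cfsg.Agent.Lib_helper3_DefectLoc

set_option autoImplicit false
open Cfsg
open Cfsg.Agent.Lib_helper3_CharBasic Cfsg.Agent.Lib_helper3_CharMore
  Cfsg.Agent.Lib_helper3_CharInd Cfsg.Agent.Lib_helper3_CharNormal
  Cfsg.Agent.Lib_helper3_Local Cfsg.Agent.Lib_helper3_Local2 Cfsg.Agent.Lib_helper3_BlockAlg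
  Cfsg.Agent.Lib_helper3_BlockInd Cfsg.Agent.Lib_helper3_BlockCover
  Cfsg.Agent.Lib_helper3_BlockPQuot Cfsg.Agent.Lib_helper3_IdemSupp
  Cfsg.Agent.Lib_helper3_Residue Cfsg.Agent.Lib_helper3_IdemCent Cfsg.Agent.Lib_helper3_DefectLoc
open scoped ComplexConjugate

namespace Cfsg.Agent.Lib_helper3_IdemCent2

universe u

variable {p : ℕ} [Fact p.Prime] {G : Type u} [Group G] [Fintype G] {M : Ideal AlgInt}

/-- The idempotent of a block is supported on the centralizer of every normal `p`-subgroup: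
its coefficients vanish outside this centralizer. -/
theorem blockCoeff_supported (hM : IsPModular p M) (P : Subgroup G) [P.Normal] (hP : IsPGroup p P)
    (B : Set (IrrCharacter G)) (hB : IsPBlock M B) (g : G)
    (hg : g ∉ Subgroup.centralizer (P : Set G)) : blockCoeff B g = 0 := by
  classical
  have hMm : M.IsMaximal := hM.2.1
  have hMp : M.IsPrime := hMm.isPrime
  obtain ⟨N, hN⟩ : ∃ N : Subgroup G, N = Subgroup.centralizer (P : Set G) := ⟨_, rfl⟩
  have hNn : N.Normal := by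
    rw [hN]
    exact Subgroup.normal_centralizer
  have instN : Fintype N := Fintype.ofFinite _
  obtain ⟨χ, rfl⟩ := hB
  have hχB : χ ∈ blockOf M (χ : G → ℂ) := mem_blockOf_self hMp.ne_top χ
  obtain ⟨e, he⟩ : ∃ e : G → ℂ, e = blockCoeff (blockOf M (χ : G → ℂ)) := ⟨_, rfl⟩
  have hecl : IsClassFunction G e := by
    rw [he]
    exact isClassFunction_blockCoeff _
  have heR : ∀ g, MemLocalRing M (e g) := by
    intro g
    rw [he]
    exact osima ⟨χ, rfl⟩ g
  have heidem : conv e e = e := by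
    rw [he]
    exact conv_blockCoeff _
  obtain ⟨θ₀, hθ₀⟩ := exists_constituent N χ
  obtain ⟨b, hb⟩ : ∃ b : Set (IrrCharacter N), b = blockOf M (θ₀ : N → ℂ) := ⟨_, rfl⟩
  have hθ₀b : θ₀ ∈ b := by
    rw [hb]
    exact mem_blockOf_self hMp.ne_top θ₀
  obtain ⟨S, hSdef⟩ : ∃ S : Set (IrrCharacter N), S = orbClosure N b := ⟨_, rfl⟩
  have hS : Invariant N S := by
    rw [hSdef]
    exact invariant_orbClosure N b
  have hSc : ∀ φ ∈ S, blockOf M (φ : N → ℂ) ⊆ S := by
    rw [hSdef]
    exact orbClosure_closed N (block_closed N ⟨θ₀, hb⟩)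
  have hSR : ∀ n : N, MemLocalRing M (blockCoeff S n) := fun n => osima_union hSc n
  obtain ⟨A, hA⟩ : ∃ A : Set (IrrCharacter G), A = {ψ : IrrCharacter G | ∃ θ ∈ S,
      classInner (fun n : N => (ψ : G → ℂ) n) (θ : N → ℂ) ≠ 0} := ⟨_, rfl⟩
  obtain ⟨w, hw⟩ : ∃ w : N → ℂ, w = fun n : N => e (n : G) := ⟨_, rfl⟩
  have hwinv : ∀ x : G, Cfsg.Agent.Lib_helper3_CharNormal.conjFun N x w = w := by
    intro x
    funext n
    rw [hw]
    show e (x * n * x⁻¹) = e n
    exact hecl n x
  have hwcl : IsClassFunction N w := by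
    intro n h
    rw [hw]
    show e ((h : G) * (n : G) * (h : G)⁻¹) = e n
    exact hecl n h
  have hwR : ∀ n, MemLocalRing M (w n) := by
    intro n
    rw [hw]
    exact heR n
  have hdiff : ∀ ψ : IrrCharacter G,
      MemLocalIdeal M (Om (ψ : G → ℂ) e - Om (ψ : G → ℂ) (extendByZero N w)) := by
    intro ψ
    rw [← om_sub]
    apply om_memLocalIdeal ψ.2
    · exact isClassFunction_sub hecl (isClassFunction_extendByZero N hwinv)
    · intro g
      show MemLocalIdeal M (e g - extendByZero N w g)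
      by_cases hgN : g ∈ N
      · rw [extendByZero_mem N _ hgN, hw]
        show MemLocalIdeal M (e g - e g)
        rw [sub_self]
        exact memLocalIdeal_zero hMp.ne_top
      · rw [extendByZero_not_mem N _ hgN, sub_zero]
        exact memLocalIdeal_of_idem_avoid hM P hP hecl heR heidem g (by rw [← hN]; exact hgN)
  have hkey : ∀ ψ ∈ A, ψ ∈ blockOf M (χ : G → ℂ) := by
    intro ψ hψ
    rw [hA] at hψ
    obtain ⟨θ, hθS, hψθ⟩ := hψ
    rw [hSdef] at hθS
    obtain ⟨x, θ₁, hθ₁b, rfl⟩ := hθS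
    by_contra hnot
    have e1 : Om (ψ : G → ℂ) (extendByZero N w) =
        Om ((conjIrr N x θ₁ : IrrCharacter N) : N → ℂ) w :=
      om_extend_eq N hwinv (isClassFunction_of_irr ψ.2) _
        (centralChar_eq_of_constituent N ψ _ hψθ)
    have e2 : Om ((conjIrr N x θ₁ : IrrCharacter N) : N → ℂ) w = Om (θ₁ : N → ℂ) w := by
      unfold Om
      rw [conjIrr_coe, sum_mul_conjFun N hwinv x, conjFun_apply_one]
    have e3 : MemLocalIdeal M (Om (θ₀ : N → ℂ) w - Om (θ₁ : N → ℂ) w) :=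
      om_congr (isClassFunction_of_irr θ₀.2) (isClassFunction_of_irr θ₁.2)
        (by rw [hb] at hθ₁b; exact hθ₁b) hwcl hwR
    have e4 : Om (χ : G → ℂ) (extendByZero N w) = Om (θ₀ : N → ℂ) w :=
      om_extend_eq N hwinv (isClassFunction_of_irr χ.2) _
        (centralChar_eq_of_constituent N χ _ hθ₀)
    have e5 := hdiff χ
    have e6 := hdiff ψ
    rw [he, om_blockCoeff_of_mem hχB, e4] at e5
    rw [he, om_blockCoeff_of_not_mem hnot, e1, e2] at e6
    have h1 : MemLocalIdeal M (1 : ℂ) := by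
      have h2 := memLocalIdeal_sub (memLocalIdeal_add e5 e3) e6
      have h3 : (1 - Om (θ₀ : N → ℂ) w + (Om (θ₀ : N → ℂ) w - Om (θ₁ : N → ℂ) w) -
          (0 - Om (θ₁ : N → ℂ) w)) = 1 := by ring
      rw [h3] at h2
      exact h2
    exact not_memLocalIdeal_one h1
  have hAB : A = blockOf M (χ : G → ℂ) := by
    apply Set.Subset.antisymm hkey
    intro ψ hψ
    rw [hA]
    exact cover_congr N hS hSR hψ
      ⟨θ₀, by rw [hSdef]; exact subset_orbClosure N b hθ₀b, hθ₀⟩
  have hcoef : blockCoeff A = extendByZero N (blockCoeff S) := by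
    apply om_ext (isClassFunction_blockCoeff A) (isClassFunction_cover N hS)
    intro ψ
    by_cases hψ : ψ ∈ A
    · rw [om_blockCoeff_of_mem hψ, om_cover_of_exists N hS ψ (by rw [hA] at hψ; exact hψ)]
    · rw [om_blockCoeff_of_not_mem hψ, om_cover_of_not_exists N S ψ (by rw [hA] at hψ; exact hψ)]
  rw [← hAB, hcoef]
  exact extendByZero_not_mem N _ (by rw [hN]; exact hg)

end Cfsg.Agent.Lib_helper3_IdemCent2
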