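import Mathlib
import Cfsg.Prelude.Def_Characters
import Cfsg.Prelude.Def_Blocks
import Cfsg.Prelude.Def_BrauerPairs
import Cfsg.Agent.Lib_helper3_BrauerHom3
import Cfsg.Agent.Lib_helper3_ThirdMain2
import Cfsg.Agent.Lib_helper3_ExtFirstMain

set_option autoImplicit false
open Cfsg
open Cfsg.Agent.Lib_helper3_CharBasic Cfsg.Agent.Lib_helper3_CharMore
  Cfsg.Agent.Lib_helper3_Local Cfsg.Agent.Lib_helper3_Local2 Cfsg.Agent.Lib_helper3_BlockAlg
  Cfsg.Agent.Lib_helper3_BlockInd Cfsg.Agent.Lib_helper3_DefectLoc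
  Cfsg.Agent.Lib_helper3_IdemSupp Cfsg.Agent.Lib_helper3_AugNil Cfsg.Agent.Lib_helper3_Residue
  Cfsg.Agent.Lib_helper3_IdemCent Cfsg.Agent.Lib_helper3_DefectLoc2
  Cfsg.Agent.Lib_helper3_BrauerHom Cfsg.Agent.Lib_helper3_BrauerHom2
  Cfsg.Agent.Lib_helper3_BrauerHom3 Cfsg.Agent.Lib_helper3_ThirdMain2
  Cfsg.Agent.Lib_helper3_ExtFirstMain
open scoped ComplexConjugate

namespace Cfsg.Agent.Lib_helper3_BrauerPair

attribute [local instance] Ideal.Quotient.field

universe u

variable {G : Type u} [Group G] [Fintype G] {M : Ideal AlgInt} {p : ℕ} [Fact p.Prime]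

/-- Modulo the local ideal, a central character of the centralizer of a `p`-subgroup composed
with restriction is multiplicative on class functions of `G` with local-integer values. -/
theorem om_resC_conv (hM : IsPModular p M) (P H : Subgroup G) [Fintype H] (hP : IsPGroup p P)
    (hH : H = Subgroup.centralizer (P : Set G)) (ξ : IrrCharacter H) {f₁ f₂ : G → ℂ}
    (h₁ : IsClassFunction G f₁) (h₂ : IsClassFunction G f₂) (hR₁ : ∀ g, MemLocalRing M (f₁ g))
    (hR₂ : ∀ g, MemLocalRing M (f₂ g)) :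
    MemLocalIdeal M (Om (ξ : H → ℂ) (resH H (conv f₁ f₂)) -
      Om (ξ : H → ℂ) (resH H f₁) * Om (ξ : H → ℂ) (resH H f₂)) := by
  classical
  have hMm : M.IsMaximal := hM.2.1
  have hMp : M.IsPrime := hMm.isPrime
  have := Fintype.ofFinite (ConjClasses H)
  have hc₁ := isClassFunction_resH H h₁
  have hc₂ := isClassFunction_resH H h₂
  rw [← om_conv ξ.2 hc₁ hc₂, ← om_sub]
  have hd : IsClassFunction H (resH H (conv f₁ f₂) - conv (resH H f₁) (resH H f₂)) :=
    isClassFunction_sub (isClassFunction_resH H (isClassFunction_conv h₁ h₂))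
      (isClassFunction_conv hc₁ hc₂)
  rw [om_eq_sum_conjClasses (isClassFunction_of_irr ξ.2) hd]
  apply memLocalIdeal_sum
  intro C _
  rw [Pi.sub_apply, conv_resH_sub]
  have hC : ((Quotient.out C : H) : G) ∈ Subgroup.centralizer (P : Set G) := by
    rw [← hH]
    exact (Quotient.out C).2
  have hstab : ∀ u ∈ P, ∀ x : G, x ∉ H → u * x * u⁻¹ ∉ H := by
    intro u hu x hx hux
    apply hx
    rw [hH] at hux ⊢
    have h3 : u * (u * x * u⁻¹) = (u * x * u⁻¹) * u := (Subgroup.mem_centralizer_iff.mp hux) u hu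
    have h4 : x = u * x * u⁻¹ := by
      calc x = u⁻¹ * ((u * x * u⁻¹) * u) := by group
        _ = u⁻¹ * (u * (u * x * u⁻¹)) := by rw [h3]
        _ = u * x * u⁻¹ := by group
    rw [h4]
    exact hux
  rw [mul_comm]
  exact memLocalIdeal_mul_left (memLocalRing_centralChar ξ.2 _)
    (diff_memLocalIdeal' hM P H hP hstab (le_of_eq hH.symm) h₁ h₂ hR₁ hR₂ _ hC)

section Lam

variable [hMm : M.IsMaximal]

theorem lamC_conv (hM : IsPModular p M) (P H : Subgroup G) [Fintype H] (hP : IsPGroup p P)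
    (hH : H = Subgroup.centralizer (P : Set G)) (ξ : IrrCharacter H) {f₁ f₂ : G → ℂ}
    (h₁ : IsClassFunction G f₁) (h₂ : IsClassFunction G f₂) (hR₁ : ∀ g, MemLocalRing M (f₁ g))
    (hR₂ : ∀ g, MemLocalRing M (f₂ g)) :
    lam M H (ξ : H → ℂ) (conv f₁ f₂) = lam M H (ξ : H → ℂ) f₁ * lam M H (ξ : H → ℂ) f₂ := by
  have hMp : M.IsPrime := hMm.isPrime
  have h := om_resC_conv hM P H hP hH ξ h₁ h₂ hR₁ hR₂
  have hR : MemLocalRing M (Om (ξ : H → ℂ) (resH H (conv f₁ f₂))) :=
    memLocalRing_om ξ.2 (isClassFunction_resH H (isClassFunction_conv h₁ h₂))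
      (fun h => memLocalRing_conv hR₁ hR₂ _)
  have hRa : MemLocalRing M (Om (ξ : H → ℂ) (resH H f₁)) :=
    memLocalRing_om ξ.2 (isClassFunction_resH H h₁) (fun h => hR₁ _)
  have hRb : MemLocalRing M (Om (ξ : H → ℂ) (resH H f₂)) :=
    memLocalRing_om ξ.2 (isClassFunction_resH H h₂) (fun h => hR₂ _)
  rw [← res_eq_zero_iff (memLocalRing_sub hR (memLocalRing_mul hRa hRb)),
    res_sub hR (memLocalRing_mul hRa hRb), res_mul hRa hRb, sub_eq_zero] at h
  exact h

theorem lamC_cpow (hM : IsPModular p M) (P H : Subgroup G) [Fintype H] (hP : IsPGroup p P)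
    (hH : H = Subgroup.centralizer (P : Set G)) (ξ : IrrCharacter H) {f : G → ℂ}
    (hf : IsClassFunction G f) (hR : ∀ g, MemLocalRing M (f g)) (n : ℕ) :
    lam M H (ξ : H → ℂ) (cpow f n) = lam M H (ξ : H → ℂ) f ^ n := by
  induction n with
  | zero =>
    unfold lam
    rw [resH_cpow_zero H f (resH H f), om_cpow ξ.2 (isClassFunction_resH H hf) 0, pow_zero,
      pow_zero, res_one]
  | succ n ih =>
    rw [pow_succ', ← ih]
    exact lamC_conv hM P H hP hH ξ hf (isClassFunction_cpow hf n) hR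
      (memLocalRing_cpow hR n)

/-- The induced central character of an irreducible character of the centralizer of a
`p`-subgroup is congruent to the central character of some irreducible character of `G`. -/
theorem exists_irr_inducedC (hM : IsPModular p M) (P H : Subgroup G) [Fintype H]
    (hP : IsPGroup p P) (hH : H = Subgroup.centralizer (P : Set G)) (ξ : IrrCharacter H) :
    ∃ χ₀ : IrrCharacter G, ∀ g : G,
      MemLocalIdeal M (inducedCentralChar H (ξ : H → ℂ) g - centralChar (χ₀ : G → ℂ) g) := by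
  classical
  have hMp : M.IsPrime := hMm.isPrime
  have hex : ∃ χ₀ : IrrCharacter G,
      lam M H (ξ : H → ℂ) (blockCoeff (blockOf M (χ₀ : G → ℂ))) ≠ 0 := by
    by_contra hno
    push Not at hno
    obtain ⟨𝔅, h𝔅, hF⟩ := exists_blocks_sum (G := G) (M := M)
    have hz : IsClassFunction G (fun _ : G => (0 : ℂ)) := fun _ _ => rfl
    have h1 : lam M H (ξ : H → ℂ) (cpow (fun _ : G => (0 : ℂ)) 0) = 1 := by
      rw [lamC_cpow hM P H hP hH ξ hz (fun _ => memLocalRing_zero hMp.ne_top) 0, pow_zero]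
    have h2 : lam M H (ξ : H → ℂ) (fun g => ∑ B ∈ 𝔅, blockCoeff B g) = 0 := by
      unfold lam
      have h3 : resH H (fun g => ∑ B ∈ 𝔅, blockCoeff B g) =
          fun h => ∑ B ∈ 𝔅, resH H (blockCoeff B) h := rfl
      rw [h3, om_sum, res_sum]
      · apply Finset.sum_eq_zero
        intro B hB
        obtain ⟨χ, rfl⟩ := h𝔅 B hB
        exact hno χ
      · intro B hB
        obtain ⟨χ, rfl⟩ := h𝔅 B hB
        exact memLocalRing_om ξ.2 (isClassFunction_resH H (isClassFunction_blockCoeff _))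
          (fun h => osima ⟨χ, rfl⟩ _)
    rw [hF, h1] at h2
    exact one_ne_zero h2
  obtain ⟨χ₀, hχ₀⟩ := hex
  refine ⟨χ₀, fun g => ?_⟩
  obtain ⟨δ, hδ⟩ : ∃ δ : G → ℂ, δ = cpow (classInd g) 0 := ⟨_, rfl⟩
  obtain ⟨c, hc⟩ : ∃ c : ℂ, c = centralChar (χ₀ : G → ℂ) g := ⟨_, rfl⟩
  obtain ⟨f', hf'⟩ : ∃ f' : G → ℂ, f' = classInd g - c • δ := ⟨_, rfl⟩
  have hcR : MemLocalRing M c := by
    rw [hc]
    exact memLocalRing_centralChar χ₀.2 g
  have hδcl : IsClassFunction G δ := by
    rw [hδ]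
    exact isClassFunction_cpow (isClassFunction_classInd g) 0
  have hδR : ∀ x, MemLocalRing M (δ x) := by
    rw [hδ]
    exact memLocalRing_cpow (fun x => memLocalRing_classInd g x) 0
  have hf'cl : IsClassFunction G f' := by
    rw [hf']
    exact isClassFunction_sub (isClassFunction_classInd g) (isClassFunction_smul c hδcl)
  have hf'R : ∀ x, MemLocalRing M (f' x) := by
    intro x
    rw [hf']
    exact memLocalRing_sub (memLocalRing_classInd g x) (memLocalRing_mul hcR (hδR x))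
  have hf'B : ∀ χ ∈ blockOf M (χ₀ : G → ℂ), MemLocalIdeal M (Om (χ : G → ℂ) f') := by
    intro χ hχ
    rw [hf', om_sub, om_smul, om_classInd (isClassFunction_of_irr χ.2), hδ,
      om_cpow χ.2 (isClassFunction_classInd g) 0, pow_zero, mul_one, hc]
    exact sameBlock_symm hχ g
  obtain ⟨n, hn⟩ := conv_cpow_blockCoeff_memLocalIdeal χ₀ hf'cl hf'R hf'B
  have h1 : lam M H (ξ : H → ℂ) (conv (cpow f' n) (blockCoeff (blockOf M (χ₀ : G → ℂ)))) = 0 :=
    lam_eq_zero H ξ (isClassFunction_conv (isClassFunction_cpow hf'cl n)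
      (isClassFunction_blockCoeff _)) hn
  rw [lamC_conv hM P H hP hH ξ (isClassFunction_cpow hf'cl n)
    (isClassFunction_blockCoeff _) (memLocalRing_cpow hf'R n) (osima ⟨χ₀, rfl⟩),
    lamC_cpow hM P H hP hH ξ hf'cl hf'R n] at h1
  have h2 : lam M H (ξ : H → ℂ) f' = 0 := by
    rcases mul_eq_zero.mp h1 with h | h
    · exact eq_zero_of_pow_eq_zero h
    · exact absurd h hχ₀
  unfold lam at h2
  rw [hf', resH_sub, resH_smul, om_sub, om_smul, resH_classInd, ← inducedCentralChar_eq_om, hδ,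
    resH_cpow_zero H _ (resH H (classInd g)),
    om_cpow ξ.2 (isClassFunction_resH H (isClassFunction_classInd g)) 0, pow_zero, mul_one,
    hc] at h2
  refine (res_eq_zero_iff (memLocalRing_sub ?_ (memLocalRing_centralChar χ₀.2 g))).mp h2
  rw [inducedCentralChar_eq_om]
  exact memLocalRing_om ξ.2 (isClassFunction_fusInd g) (memLocalRing_fusInd g)

end Lam

/-- Every block of the centralizer of a `p`-subgroup induces a block of `G`. -/
theorem inducedBlockDefinedC (hM : IsPModular p M) (P : Subgroup G)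
    [Fintype (Subgroup.centralizer (P : Set G))] (hP : IsPGroup p P)
    (e : Set (IrrCharacter (Subgroup.centralizer (P : Set G)))) (he : IsPBlock M e) :
    InducedBlockDefined M (Subgroup.centralizer (P : Set G)) e := by
  have hMm : M.IsMaximal := hM.2.1
  have hMp : M.IsPrime := hMm.isPrime
  obtain ⟨ξ, rfl⟩ := he
  obtain ⟨χ₀, hχ₀⟩ := exists_irr_inducedC hM P _ hP rfl ξ
  exact ⟨blockOf M (χ₀ : G → ℂ), isInducedBlock_of_rep _ ξ χ₀ hχ₀⟩

omit [Fintype G] [Fact p.Prime] in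
theorem brauerOmega_eq_om (P : Subgroup G) [Fintype (Subgroup.centralizer (P : Set G))]
    (β : G → ℂ) (ξ : Subgroup.centralizer (P : Set G) → ℂ) :
    brauerOmega P β ξ = Om ξ (resH (Subgroup.centralizer (P : Set G)) β) := by
  unfold brauerOmega Om resH
  rw [finsum_eq_sum_of_fintype, Finset.sum_div]

/-- A block of the centralizer of a `p`-subgroup gives a Brauer pair of `B` exactly when it
induces `B`. -/
theorem isBrauerPairOf_iff (hM : IsPModular p M) (Q : Subgroup G)
    [Fintype (Subgroup.centralizer (Q : Set G))] (hQ : IsPGroup p Q)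
    (e : Set (IrrCharacter (Subgroup.centralizer (Q : Set G)))) (he : IsPBlock M e)
    (B : Set (IrrCharacter G)) (hB : IsPBlock M B) :
    IsBrauerPairOf p M B Q e ↔ IsInducedBlock M (Subgroup.centralizer (Q : Set G)) e B := by
  have hMm : M.IsMaximal := hM.2.1
  have hMp : M.IsPrime := hMm.isPrime
  constructor
  · rintro ⟨-, -, hbr⟩
    obtain ⟨ξ, rfl⟩ := he
    have hξ : ξ ∈ blockOf M (ξ : Subgroup.centralizer (Q : Set G) → ℂ) :=
      mem_blockOf_self hMp.ne_top ξ
    obtain ⟨χ₀, hχ₀⟩ := exists_irr_inducedC hM Q _ hQ rfl ξ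
    have h1 := om_resH_sub_om _ (ξ : Subgroup.centralizer (Q : Set G) → ℂ)
      (isClassFunction_of_irr χ₀.2) hχ₀ (isClassFunction_blockCoeff B) (fun g => osima hB g)
    have h2 := hbr ξ hξ
    rw [brauerOmega_eq_om] at h2
    by_cases hχ₀B : χ₀ ∈ B
    · obtain ⟨χ₁, rfl⟩ := hB
      rw [← blockOf_eq_of_mem hχ₀B]
      exact isInducedBlock_of_rep _ ξ χ₀ hχ₀
    · exfalso
      rw [om_blockCoeff_of_not_mem hχ₀B, sub_zero] at h1
      have h3 := memLocalIdeal_sub h1 h2
      rw [sub_sub_cancel] at h3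
      exact not_memLocalIdeal_one h3
  · rintro ⟨-, -, hcong⟩
    refine ⟨⟨hQ, he⟩, hB, fun ξ hξ => ?_⟩
    obtain ⟨χ₀, rfl⟩ := hB
    have hχ₀B : χ₀ ∈ blockOf M (χ₀ : G → ℂ) := mem_blockOf_self hMp.ne_top χ₀
    rw [brauerOmega_eq_om]
    have h1 := om_resH_sub_om _ (ξ : Subgroup.centralizer (Q : Set G) → ℂ)
      (isClassFunction_of_irr χ₀.2) (hcong ξ hξ χ₀ hχ₀B)
      (isClassFunction_blockCoeff (blockOf M (χ₀ : G → ℂ))) (fun g => osima ⟨χ₀, rfl⟩ g)
    rw [om_blockCoeff_of_mem hχ₀B] at h1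
    exact h1

/-- Brauer's third main theorem for Brauer pairs. -/
theorem principal_brauerPair (hM : IsPModular p M) (Q : Subgroup G)
    [Fintype (Subgroup.centralizer (Q : Set G))] (hQ : IsPGroup p Q)
    (e : Set (IrrCharacter (Subgroup.centralizer (Q : Set G)))) (he : IsPBlock M e) :
    IsBrauerPairOf p M (principalBlock M G) Q e ↔
      e = principalBlock M (Subgroup.centralizer (Q : Set G)) := by
  have hB₀ : IsPBlock M (principalBlock M G) := ⟨⟨_, isIrrCharacter_one⟩, rfl⟩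
  rw [isBrauerPairOf_iff hM Q hQ e he _ hB₀]
  exact third_main hM _ e (inducedBlockDefinedC hM Q hQ e he)

/-- Every Brauer pair belongs to exactly one block. -/
theorem brauerPair_unique_block (hM : IsPModular p M) (P : Subgroup G)
    [Fintype (Subgroup.centralizer (P : Set G))]
    (e : Set (IrrCharacter (Subgroup.centralizer (P : Set G)))) (hPe : IsBrauerPair p M P e) :
    ∃! B : Set (IrrCharacter G), IsBrauerPairOf p M B P e := by
  have hMm : M.IsMaximal := hM.2.1
  have hMp : M.IsPrime := hMm.isPrime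
  obtain ⟨hP, he⟩ := hPe
  obtain ⟨B, hind⟩ := inducedBlockDefinedC hM P hP e he
  refine ⟨B, (isBrauerPairOf_iff hM P hP e he B hind.2.1).mpr hind, ?_⟩
  intro B' hB'
  have hind' := (isBrauerPairOf_iff hM P hP e he B' hB'.2.1).mp hB'
  obtain ⟨-, hB, hc⟩ := hind
  obtain ⟨-, hB'', hc'⟩ := hind'
  obtain ⟨ξ, rfl⟩ := he
  have hξ : ξ ∈ blockOf M (ξ : Subgroup.centralizer (P : Set G) → ℂ) :=
    mem_blockOf_self hMp.ne_top ξ
  obtain ⟨χ₁, rfl⟩ := hB
  obtain ⟨χ₂, rfl⟩ := hB''
  have h1 : χ₂ ∈ blockOf M (χ₁ : G → ℂ) := by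
    intro g
    have h2 := hc ξ hξ χ₁ (mem_blockOf_self hMp.ne_top χ₁) g
    have h3 := hc' ξ hξ χ₂ (mem_blockOf_self hMp.ne_top χ₂) g
    have h4 := memLocalIdeal_sub h3 h2
    rw [sub_sub_sub_cancel_left] at h4
    exact h4
  exact blockOf_eq_of_mem h1

end Cfsg.Agent.Lib_helper3_BrauerPair
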