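import Mathlib
import Cfsg.Prelude.Def_Characters
import Cfsg.Prelude.Def_Blocks
import Cfsg.Prelude.Def_BlockLocal
import Cfsg.Prelude.Def_BlockRank
import Cfsg.Prelude.Def_BrauerPairs
import Cfsg.Prelude.Def_Transfer
import Cfsg.Agent.Lib_helper3_BrauerPair
import Cfsg.Agent.Lib_helper3_BlockPQuot
import Cfsg.Agent.Lib_helper3_RegSpan
import Cfsg.Agent.Lib_helper1_Frobenius

set_option autoImplicit false
open Cfsg
open Cfsg.Agent.Lib_helper3_CharBasic Cfsg.Agent.Lib_helper3_CharMore
  Cfsg.Agent.Lib_helper3_Local Cfsg.Agent.Lib_helper3_Local2 Cfsg.Agent.Lib_helper3_BlockAlg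
  Cfsg.Agent.Lib_helper3_BrauerHom Cfsg.Agent.Lib_helper3_ExtFirstMain
  Cfsg.Agent.Lib_helper3_BrauerPair Cfsg.Agent.Lib_helper3_BlockPQuot
  Cfsg.Agent.Lib_helper3_RegSpan Cfsg.Agent.Lib_helper1_Frobenius
open scoped ComplexConjugate

namespace Cfsg.Agent.Lib_helper3_NilPrincipal

universe u

variable {G : Type u} [Group G]

/-- Conjugation by an element of the normalizer, as an automorphism of the subgroup. -/
def conjNorm (K : Subgroup G) (g : G) (hg : g ∈ Subgroup.normalizer (K : Set G)) : K ≃* K where
  toFun k := ⟨g⁻¹ * (k : G) * g, by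
    apply (Subgroup.mem_normalizer_iff.mp hg (g⁻¹ * (k : G) * g)).mpr
    have h1 : g * (g⁻¹ * (k : G) * g) * g⁻¹ = (k : G) := by group
    rw [h1]
    exact k.2⟩
  invFun k := ⟨g * (k : G) * g⁻¹, (Subgroup.mem_normalizer_iff.mp hg (k : G)).mp k.2⟩
  left_inv k := by
    apply Subtype.ext
    show g * (g⁻¹ * (k : G) * g) * g⁻¹ = (k : G)
    group
  right_inv k := by
    apply Subtype.ext
    show g⁻¹ * (g * (k : G) * g⁻¹) * g = (k : G)
    group
  map_mul' a b := by
    apply Subtype.ext
    show g⁻¹ * ((a : G) * (b : G)) * g = (g⁻¹ * (a : G) * g) * (g⁻¹ * (b : G) * g)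
    group

theorem conjNorm_apply (K : Subgroup G) (g : G) (hg : g ∈ Subgroup.normalizer (K : Set G))
    (k : K) : ((conjNorm K g hg k : K) : G) = g⁻¹ * (k : G) * g := rfl

/-- Every element of the normalizer of a subgroup stabilizes its principal block. -/
theorem stabilizes_principal [Finite G] (M : Ideal AlgInt) (K : Subgroup G) (g : G)
    (hg : g ∈ Subgroup.normalizer (K : Set G)) :
    StabilizesBlock K (principalBlock M K) g := by
  refine ⟨hg, fun χ hχ => ⟨⟨(χ : K → ℂ) ∘ conjNorm K g hg,
    isIrrCharacter_comp_equiv (conjNorm K g hg) χ.2⟩, ?_, ?_⟩⟩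
  · have h1 : SameBlock M (fun _ : K => (1 : ℂ)) (χ : K → ℂ) := hχ
    exact sameBlock_comp_equiv (conjNorm K g hg) h1
  · intro k k' hk
    show (χ : K → ℂ) (conjNorm K g hg k') = (χ : K → ℂ) k
    refine congrArg _ (Subtype.ext ?_)
    rw [conjNorm_apply, hk]
    group

/-- The normalizer of a subgroup normalizes its centralizer. -/
theorem mem_normalizer_centralizer (Q : Subgroup G) {g : G}
    (hg : g ∈ Subgroup.normalizer (Q : Set G)) :
    g ∈ Subgroup.normalizer ((Subgroup.centralizer (Q : Set G) : Subgroup G) : Set G) := by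
  rw [Subgroup.mem_normalizer_iff]
  intro h
  constructor
  · intro hh
    exact conj_mem_centralizer_of_mem_normalizer Q hg hh
  · intro hh
    have h1 := conj_mem_centralizer_of_mem_normalizer Q (inv_mem hg) hh
    have h2 : g⁻¹ * (g * h * g⁻¹) * g⁻¹⁻¹ = h := by group
    rwa [h2] at h1

section Main

variable [Fintype G] {p : ℕ} [Fact p.Prime] {M : Ideal AlgInt}

theorem isPBlock_principal (M : Ideal AlgInt) (K : Type u) [Group K] :
    IsPBlock M (principalBlock M K) := ⟨⟨_, isIrrCharacter_one⟩, rfl⟩

/-- A nilpotent principal block forces the hypothesis of the normal complement criterion. -/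
theorem frobHyp_of_nilpotent (hM : IsPModular p M)
    (hnil : IsNilpotentBlock p M (principalBlock M G)) : FrobHyp p G := by
  classical
  have hp : p.Prime := Fact.out
  intro Q hQ g hg hgo
  let instC : Fintype (Subgroup.centralizer (Q : Set G)) := Fintype.ofFinite _
  have hpair : IsBrauerPairOf p M (principalBlock M G) Q
      (principalBlock M (Subgroup.centralizer (Q : Set G))) :=
    (principal_brauerPair hM Q hQ _ (isPBlock_principal M _)).mpr rfl
  have hreg : IsPRegular p g := (Nat.Prime.coprime_iff_not_dvd hp).mp hgo.symm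
  exact hnil.2 Q _ hpair g hg
    (stabilizes_principal M _ g (mem_normalizer_centralizer Q hg)) hreg

/-- A group has a normal `p`-complement exactly when its principal block is nilpotent. -/
theorem npc_iff_nilpotent (hM : IsPModular p M) :
    HasNormalPComplement p G ↔ IsNilpotentBlock p M (principalBlock M G) := by
  have hp : p.Prime := Fact.out
  constructor
  · intro h
    refine ⟨isPBlock_principal M G, fun Q e hpair x hx _ hreg => ?_⟩
    have hreg' : ¬ p ∣ orderOf x := hreg
    exact frobHyp_of_npc (npc_of_hasNormalPComplement h) Q hpair.1.1 x hx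
      ((Nat.Prime.coprime_iff_not_dvd hp).mpr hreg').symm
  · intro hnil
    exact hasNormalPComplement_of_npc (frobenius (frobHyp_of_nilpotent hM hnil))

omit [Fintype G] in
/-- The `p`-regular part of the trivial character is not zero. -/
theorem pRegularPart_one_ne_zero :
    pRegularPart p (fun _ : G => (1 : ℂ)) ≠ 0 := by
  classical
  have hp : p.Prime := Fact.out
  intro h
  have h1 := congrFun h 1
  rw [pRegularPart_apply, if_neg (by rw [orderOf_one]; exact hp.one_lt.ne' ∘ Nat.dvd_one.mp)]
    at h1
  exact one_ne_zero h1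

/-- The principal block is nilpotent exactly when its `p`-regular rank is one. -/
theorem nilpotent_iff_rank_one (hM : IsPModular p M) :
    IsNilpotentBlock p M (principalBlock M G) ↔ blockRank p (principalBlock M G) = 1 := by
  classical
  have hp : p.Prime := Fact.out
  have hMp : M.IsPrime := isPrime_of_modular hM
  obtain ⟨triv, htriv⟩ : ∃ t : IrrCharacter G, (t : G → ℂ) = fun _ => (1 : ℂ) :=
    ⟨⟨fun _ => 1, isIrrCharacter_one⟩, rfl⟩
  have htrivB : triv ∈ principalBlock M G := by
    show SameBlock M (fun _ : G => (1 : ℂ)) (triv : G → ℂ)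
    rw [htriv]
    exact sameBlock_refl hMp.ne_top _
  have h1reg : ¬ p ∣ orderOf (1 : G) := by
    rw [orderOf_one]
    exact hp.one_lt.ne' ∘ Nat.dvd_one.mp
  constructor
  · intro hnil
    obtain ⟨N, hN, hc, k, hk⟩ := frobenius (frobHyp_of_nilpotent hM hnil)
    have := hN
    let instN : Fintype N := Fintype.ofFinite N
    have hpN : ¬ p ∣ Nat.card N := (Nat.Prime.coprime_iff_not_dvd hp).mp hc.symm
    have hker : ∀ χ ∈ principalBlock M G, ∀ x : G, ¬ p ∣ orderOf x →
        (χ : G → ℂ) x = (χ : G → ℂ) 1 := by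
      intro χ hχ x hx
      have hχ' : SameBlock M (triv : G → ℂ) (χ : G → ℂ) := by
        rw [htriv]
        exact hχ
      have h1 := trivial_on_of_sameBlock hM N hpN hχ' (fun n _ => by rw [htriv])
      exact h1 x (mem_of_coprime_of_index N hk x ((Nat.Prime.coprime_iff_not_dvd hp).mpr hx).symm)
    have hspan : Submodule.span ℂ ((fun χ : IrrCharacter G => pRegularPart p (χ : G → ℂ)) ''
        principalBlock M G) = Submodule.span ℂ {pRegularPart p (fun _ : G => (1 : ℂ))} := by
      apply le_antisymm
      · rw [Submodule.span_le]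
        rintro _ ⟨χ, hχ, rfl⟩
        have h2 : pRegularPart p (χ : G → ℂ) =
            (χ : G → ℂ) 1 • pRegularPart p (fun _ : G => (1 : ℂ)) := by
          funext x
          rw [Pi.smul_apply, smul_eq_mul, pRegularPart_apply, pRegularPart_apply]
          by_cases hx : p ∣ orderOf x
          · rw [if_pos hx, if_pos hx, mul_zero]
          · rw [if_neg hx, if_neg hx, mul_one, hker χ hχ x hx]
        show pRegularPart p (χ : G → ℂ) ∈ _
        rw [h2]
        exact Submodule.smul_mem _ _ (Submodule.mem_span_singleton_self _)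
      · rw [Submodule.span_le, Set.singleton_subset_iff]
        apply Submodule.subset_span
        exact ⟨triv, htrivB, by
          show pRegularPart p (triv : G → ℂ) = _
          rw [htriv]⟩
    unfold blockRank
    rw [hspan]
    exact finrank_span_singleton pRegularPart_one_ne_zero
  · intro hrank
    have hB₀ := isPBlock_principal M G
    -- every member of the block is constant on the `p`-regular elements
    have hker : ∀ χ ∈ principalBlock M G, ∀ x : G, ¬ p ∣ orderOf x →
        (χ : G → ℂ) x = (χ : G → ℂ) 1 := by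
      intro χ hχ x hx
      obtain ⟨W, hW⟩ : ∃ W : Submodule ℂ (G → ℂ), W = Submodule.span ℂ
          ((fun χ : IrrCharacter G => pRegularPart p (χ : G → ℂ)) '' principalBlock M G) :=
        ⟨_, rfl⟩
      have hrank' : Module.finrank ℂ W = 1 := by
        rw [hW]
        exact hrank
      have hvW : pRegularPart p (fun _ : G => (1 : ℂ)) ∈ W := by
        rw [hW]
        apply Submodule.subset_span
        exact ⟨triv, htrivB, by
          show pRegularPart p (triv : G → ℂ) = _
          rw [htriv]⟩
      have hχW : pRegularPart p (χ : G → ℂ) ∈ W := by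
        rw [hW]
        apply Submodule.subset_span
        exact ⟨χ, hχ, rfl⟩
      have hv0 : (⟨_, hvW⟩ : W) ≠ 0 := by
        intro h
        exact pRegularPart_one_ne_zero (congrArg Subtype.val h)
      obtain ⟨c, hc⟩ := (finrank_eq_one_iff_of_nonzero' (⟨_, hvW⟩ : W) hv0).mp hrank' ⟨_, hχW⟩
      have hc' : c • pRegularPart p (fun _ : G => (1 : ℂ)) = pRegularPart p (χ : G → ℂ) :=
        congrArg Subtype.val hc
      have h1 := congrFun hc' 1
      have h2 := congrFun hc' x
      rw [Pi.smul_apply, smul_eq_mul, pRegularPart_apply, pRegularPart_apply, if_neg h1reg,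
        if_neg h1reg, mul_one] at h1
      rw [Pi.smul_apply, smul_eq_mul, pRegularPart_apply, pRegularPart_apply, if_neg hx,
        if_neg hx, mul_one] at h2
      rw [← h2, h1]
    have hpK := not_dvd_card_kerSubgroup hM hB₀
    have hKn := kerSubgroup_normal (principalBlock M G)
    have hcK : (Nat.card (kerSubgroup (principalBlock M G))).Coprime p :=
      ((Nat.Prime.coprime_iff_not_dvd hp).mpr hpK).symm
    refine ⟨hB₀, fun Q e hpair x hx _ hreg => ?_⟩
    have hreg' : ¬ p ∣ orderOf x := hreg
    have hxK : x ∈ kerSubgroup (principalBlock M G) := fun χ hχ => hker χ hχ x hreg'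
    rw [Subgroup.mem_centralizer_iff]
    intro t ht
    have hcN : x * t * x⁻¹ * t⁻¹ ∈ kerSubgroup (principalBlock M G) := by
      have h3 : x * t * x⁻¹ * t⁻¹ = x * (t * x⁻¹ * t⁻¹) := by group
      rw [h3]
      exact mul_mem hxK (hKn.conj_mem _ (inv_mem hxK) t)
    have hcQ : x * t * x⁻¹ * t⁻¹ ∈ Q :=
      mul_mem ((Subgroup.mem_normalizer_iff.mp hx t).mp ht) (inv_mem ht)
    have h4 : x * t * x⁻¹ * t⁻¹ = 1 :=
      eq_one_of_coprime_of_pgroup _ Q hcK hpair.1.1 hcN hcQ
    calc t * x = (x * t * x⁻¹ * t⁻¹)⁻¹ * (x * t) := by group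
      _ = x * t := by rw [h4]; group

end Main

end Cfsg.Agent.Lib_helper3_NilPrincipal
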