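import Mathlib
import Cfsg.Prelude.Def_Characters
import Cfsg.Prelude.Def_Blocks
import Cfsg.Prelude.Def_BlockLocal
import Cfsg.Prelude.Def_BrauerPairs
import Cfsg.Prelude.Def_BlockFusion
import Cfsg.Agent.Lib_helper3_NilPrincipal

set_option autoImplicit false
open Cfsg
open Cfsg.Agent.Lib_helper3_CharBasic Cfsg.Agent.Lib_helper3_CharMore
  Cfsg.Agent.Lib_helper3_Local Cfsg.Agent.Lib_helper3_Local2 Cfsg.Agent.Lib_helper3_BlockAlg
  Cfsg.Agent.Lib_helper3_BlockInd Cfsg.Agent.Lib_helper3_DefectLoc
  Cfsg.Agent.Lib_helper3_IdemSupp Cfsg.Agent.Lib_helper3_Residue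
  Cfsg.Agent.Lib_helper3_IdemCent Cfsg.Agent.Lib_helper3_DefectLoc2
  Cfsg.Agent.Lib_helper3_BrauerHom Cfsg.Agent.Lib_helper3_BrauerHom2
  Cfsg.Agent.Lib_helper3_BrauerHom3 Cfsg.Agent.Lib_helper3_ExtFirstMain
  Cfsg.Agent.Lib_helper3_BrauerPair Cfsg.Agent.Lib_helper3_NilPrincipal
open scoped ComplexConjugate

namespace Cfsg.Agent.Lib_helper3_PrincipalPairs

attribute [local instance] Ideal.Quotient.field

universe u

section Aut

variable {A : Type u} [Group A] [Finite A]

/-- The idempotent coefficients of a set of irreducible characters stable under an automorphism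
are invariant under that automorphism. -/
theorem blockCoeff_comp_equiv (α : A ≃* A) (b : Set (IrrCharacter A))
    (hb : ∀ χ : IrrCharacter A, χ ∈ b →
      (⟨(χ : A → ℂ) ∘ α, isIrrCharacter_comp_equiv α χ.2⟩ : IrrCharacter A) ∈ b)
    (hb' : ∀ χ : IrrCharacter A, χ ∈ b →
      (⟨(χ : A → ℂ) ∘ α.symm, isIrrCharacter_comp_equiv α.symm χ.2⟩ : IrrCharacter A) ∈ b)
    (x : A) : blockCoeff b (α x) = blockCoeff b x := by
  unfold blockCoeff
  congr 1
  apply finsum_mem_eq_of_bijOn
    (fun χ : IrrCharacter A =>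
      (⟨(χ : A → ℂ) ∘ α, isIrrCharacter_comp_equiv α χ.2⟩ : IrrCharacter A))
  · refine ⟨fun χ hχ => hb χ hχ, ?_, ?_⟩
    · intro χ₁ _ χ₂ _ h
      apply Subtype.ext
      have h1 : (χ₁ : A → ℂ) ∘ α = (χ₂ : A → ℂ) ∘ α := congrArg Subtype.val h
      funext a
      have h2 := congrFun h1 (α.symm a)
      simpa using h2
    · intro χ hχ
      refine ⟨⟨(χ : A → ℂ) ∘ α.symm, isIrrCharacter_comp_equiv α.symm χ.2⟩, hb' χ hχ, ?_⟩
      apply Subtype.ext
      funext a
      show (χ : A → ℂ) (α.symm (α a)) = (χ : A → ℂ) a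
      rw [MulEquiv.symm_apply_apply]
  · intro χ _
    show (χ : A → ℂ) 1 * conj ((χ : A → ℂ) (α x)) =
      (χ : A → ℂ) (α 1) * conj ((χ : A → ℂ) (α x))
    rw [map_one]

/-- The principal block is stable under every automorphism. -/
theorem principal_comp_equiv (M : Ideal AlgInt) (α : A ≃* A) (χ : IrrCharacter A)
    (hχ : χ ∈ principalBlock M A) :
    (⟨(χ : A → ℂ) ∘ α, isIrrCharacter_comp_equiv α χ.2⟩ : IrrCharacter A) ∈
      principalBlock M A := by
  have h1 : SameBlock M (fun _ : A => (1 : ℂ)) (χ : A → ℂ) := hχ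
  exact sameBlock_comp_equiv α h1

theorem blockCoeff_principal_comp_equiv (M : Ideal AlgInt) (α : A ≃* A) (x : A) :
    blockCoeff (principalBlock M A) (α x) = blockCoeff (principalBlock M A) x :=
  blockCoeff_comp_equiv α _ (fun χ hχ => principal_comp_equiv M α χ hχ)
    (fun χ hχ => principal_comp_equiv M α.symm χ hχ) x

end Aut

section Pairs

variable {G : Type u} [Group G] [Fintype G] {M : Ideal AlgInt} {p : ℕ} [Fact p.Prime]

omit [Fintype G] [Fact p.Prime] in
theorem subgroupBlockCoeff_of_mem (H : Subgroup G) (e : Set (IrrCharacter H)) {g : G}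
    (hg : g ∈ H) : subgroupBlockCoeff H e g = blockCoeff e ⟨g, hg⟩ := by
  unfold subgroupBlockCoeff
  rw [dif_pos hg]

omit [Fintype G] [Fact p.Prime] in
theorem subgroupBlockCoeff_of_not_mem (H : Subgroup G) (e : Set (IrrCharacter H)) {g : G}
    (hg : g ∉ H) : subgroupBlockCoeff H e g = 0 := by
  unfold subgroupBlockCoeff
  rw [dif_neg hg]

/-- The coefficients of the principal block idempotent of a subgroup are invariant under
conjugation by the normalizer of the subgroup. -/
theorem subgroupBlockCoeff_principal_conj (M : Ideal AlgInt) (L : Subgroup G) {u : G}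
    (hu : u ∈ Subgroup.normalizer (L : Set G)) (x : G) :
    subgroupBlockCoeff L (principalBlock M L) (u * x * u⁻¹) =
      subgroupBlockCoeff L (principalBlock M L) x := by
  have hu' : u⁻¹ ∈ Subgroup.normalizer (L : Set G) := inv_mem hu
  by_cases hx : x ∈ L
  · have hx' : u * x * u⁻¹ ∈ L := (Subgroup.mem_normalizer_iff.mp hu x).mp hx
    rw [subgroupBlockCoeff_of_mem L _ hx, subgroupBlockCoeff_of_mem L _ hx']
    have h1 := blockCoeff_principal_comp_equiv M (conjNorm L u⁻¹ hu') ⟨x, hx⟩
    have h2 : conjNorm L u⁻¹ hu' ⟨x, hx⟩ = ⟨u * x * u⁻¹, hx'⟩ := by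
      apply Subtype.ext
      rw [conjNorm_apply, inv_inv]
    rw [h2] at h1
    exact h1
  · have hx' : u * x * u⁻¹ ∉ L := fun h => hx ((Subgroup.mem_normalizer_iff.mp hu x).mpr h)
    rw [subgroupBlockCoeff_of_not_mem L _ hx, subgroupBlockCoeff_of_not_mem L _ hx']

omit [Fact p.Prime] in
/-- A sum over a subgroup as a sum over the group. -/
theorem sum_subgroup_eq (H : Subgroup G) [Fintype H] [DecidablePred (· ∈ H)] (F : G → ℂ) :
    ∑ h : H, F h = ∑ g : G, (if g ∈ H then F g else 0) := by
  rw [← Finset.sum_filter]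
  exact (Finset.sum_subtype (Finset.univ.filter (fun g : G => g ∈ H))
    (fun x => by simp) F).symm

/-- Normal inclusion of the principal Brauer pairs. -/
theorem principal_normalSubpair (hM : IsPModular p M) (Q R : Subgroup G) (hQ : IsPGroup p Q)
    (hR : IsPGroup p R) (hQR : Q ≤ R) (hRN : R ≤ Subgroup.normalizer (Q : Set G)) :
    IsNormalSubpair p M Q (principalBlock M (Subgroup.centralizer (Q : Set G))) R
      (principalBlock M (Subgroup.centralizer (R : Set G))) := by
  classical
  have hMm : M.IsMaximal := hM.2.1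
  have hMp : M.IsPrime := hMm.isPrime
  have hch : CharP (AlgInt ⧸ M) p := charP_quot hM
  let instL : Fintype (Subgroup.centralizer (Q : Set G)) := Fintype.ofFinite _
  let instC : Fintype (Subgroup.centralizer (R : Set G)) := Fintype.ofFinite _
  refine ⟨⟨hQ, isPBlock_principal M _⟩, ⟨hR, isPBlock_principal M _⟩, hQR, hRN,
    fun x hx => stabilizes_principal M _ x (mem_normalizer_centralizer Q (hRN hx)), ?_⟩
  intro ξ hξ
  obtain ⟨β, hβ⟩ : ∃ β : G → ℂ, β = subgroupBlockCoeff (Subgroup.centralizer (Q : Set G))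
      (principalBlock M (Subgroup.centralizer (Q : Set G))) := ⟨_, rfl⟩
  rw [← hβ, brauerOmega_eq_om]
  have hCL : Subgroup.centralizer (R : Set G) ≤ Subgroup.centralizer (Q : Set G) :=
    Subgroup.centralizer_le (fun x hx => hQR hx)
  have hβL : ∀ (g : G) (hg : g ∈ Subgroup.centralizer (Q : Set G)),
      β g = blockCoeff (principalBlock M (Subgroup.centralizer (Q : Set G))) ⟨g, hg⟩ := by
    intro g hg
    rw [hβ]
    exact subgroupBlockCoeff_of_mem _ _ hg
  have hβ0 : ∀ g : G, g ∉ Subgroup.centralizer (Q : Set G) → β g = 0 := by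
    intro g hg
    rw [hβ]
    exact subgroupBlockCoeff_of_not_mem _ _ hg
  have hβR : ∀ g : G, MemLocalRing M (β g) := by
    intro g
    by_cases hg : g ∈ Subgroup.centralizer (Q : Set G)
    · rw [hβL g hg]
      exact osima (isPBlock_principal M _) _
    · rw [hβ0 g hg]
      exact memLocalRing_zero hMp.ne_top
  have hβinv : ∀ u ∈ R, ∀ x : G, β (u * x * u⁻¹) = β x := by
    intro u hu x
    rw [hβ]
    exact subgroupBlockCoeff_principal_conj M _ (mem_normalizer_centralizer Q (hRN hu)) x
  have hcl : IsClassFunction (Subgroup.centralizer (R : Set G))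
      (resH (Subgroup.centralizer (R : Set G)) β) := by
    intro c k
    show β ((k * c * k⁻¹ : Subgroup.centralizer (R : Set G)) : G) = β (c : G)
    rw [hβL _ (hCL (k * c * k⁻¹).2), hβL _ (hCL c.2)]
    have h1 : (⟨((k * c * k⁻¹ : Subgroup.centralizer (R : Set G)) : G),
        hCL (k * c * k⁻¹).2⟩ : Subgroup.centralizer (Q : Set G)) =
        ⟨(k : G), hCL k.2⟩ * ⟨(c : G), hCL c.2⟩ * ⟨(k : G), hCL k.2⟩⁻¹ := by
      apply Subtype.ext
      push_cast
      rfl
    rw [h1]
    exact isClassFunction_blockCoeff _ _ _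
  have hR' : ∀ c : Subgroup.centralizer (R : Set G),
      MemLocalRing M (resH (Subgroup.centralizer (R : Set G)) β c) := fun c => hβR _
  have hone : IsClassFunction (Subgroup.centralizer (R : Set G)) (fun _ => (1 : ℂ)) :=
    fun _ _ => rfl
  have h1 := om_congr hone (isClassFunction_of_irr ξ.2) hξ hcl hR'
  have h2 : Om (fun _ : Subgroup.centralizer (R : Set G) => (1 : ℂ))
      (resH (Subgroup.centralizer (R : Set G)) β) =
      ∑ c : Subgroup.centralizer (R : Set G), β c := by
    unfold Om resH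
    simp
  have h3 : ∑ g : G, β g = 1 := by
    have h4 : ∑ g : G, β g = ∑ x : Subgroup.centralizer (Q : Set G), β x := by
      rw [sum_subgroup_eq]
      apply Finset.sum_congr rfl
      intro g _
      by_cases hg : g ∈ Subgroup.centralizer (Q : Set G)
      · rw [if_pos hg]
      · rw [if_neg hg, hβ0 g hg]
    have h5 := om_blockCoeff_of_mem (A := principalBlock M (Subgroup.centralizer (Q : Set G)))
      (χ := ⟨fun _ => 1, isIrrCharacter_one⟩) (sameBlock_refl hMp.ne_top _)
    rw [h4, ← h5]
    unfold Om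
    simp only [mul_one, div_one]
    apply Finset.sum_congr rfl
    intro x _
    exact hβL x x.2
  have h4 : MemLocalIdeal M (∑ g : G, β g - ∑ c : Subgroup.centralizer (R : Set G), β c) := by
    obtain ⟨T, hT⟩ : ∃ T : Set G, T = {g : G | g ∈ Subgroup.centralizer (Q : Set G) ∧
        g ∉ Subgroup.centralizer (R : Set G)} := ⟨_, rfl⟩
    have hTmem : ∀ g : G, g ∈ T ↔ (g ∈ Subgroup.centralizer (Q : Set G) ∧
        g ∉ Subgroup.centralizer (R : Set G)) := by
      intro g
      rw [hT]
      rfl
    have h5 : ∑ g : G, β g - ∑ c : Subgroup.centralizer (R : Set G), β c =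
        ∑ g : G, (if g ∈ T then β g else 0) := by
      rw [sum_subgroup_eq, ← Finset.sum_sub_distrib]
      apply Finset.sum_congr rfl
      intro g _
      by_cases hgC : g ∈ Subgroup.centralizer (R : Set G)
      · rw [if_pos hgC, if_neg (fun h => ((hTmem g).mp h).2 hgC), sub_self]
      · rw [if_neg hgC, sub_zero]
        by_cases hgL : g ∈ Subgroup.centralizer (Q : Set G)
        · rw [if_pos ((hTmem g).mpr ⟨hgL, hgC⟩)]
        · rw [if_neg (fun h => hgL ((hTmem g).mp h).1), hβ0 g hgL]
    rw [h5]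
    have hterm : ∀ x : G, MemLocalRing M (if x ∈ T then β x else 0) := by
      intro x
      split_ifs
      · exact hβR x
      · exact memLocalRing_zero hMp.ne_top
    rw [← res_eq_zero_iff (memLocalRing_sum _ _ (fun x _ => hterm x)),
      res_sum _ _ (fun x _ => hterm x)]
    have h6 : ∀ x : G, res M (if x ∈ T then β x else 0) =
        if x ∈ T then res M (β x) else 0 := by
      intro x
      by_cases hx : x ∈ T
      · rw [if_pos hx, if_pos hx]
      · rw [if_neg hx, if_neg hx, res_zero]
    rw [Finset.sum_congr rfl (fun x _ => h6 x)]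
    apply sum_eq_zero_of_conj_stable (p := p) R hR T
    · intro u hu x hx
      rw [hTmem] at hx ⊢
      refine ⟨conj_mem_centralizer_of_mem_normalizer Q (hRN hu) hx.1, fun h => hx.2 ?_⟩
      have hu' : u⁻¹ ∈ Subgroup.normalizer (R : Set G) := inv_mem (Subgroup.le_normalizer hu)
      have h7 := conj_mem_centralizer_of_mem_normalizer R hu' h
      have h8 : u⁻¹ * (u * x * u⁻¹) * u⁻¹⁻¹ = x := by group
      rwa [h8] at h7
    · intro x hx
      exact ((hTmem x).mp hx).2
    · intro u hu x _
      rw [hβinv u hu x]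
  have h5 : Om (ξ : Subgroup.centralizer (R : Set G) → ℂ)
      (resH (Subgroup.centralizer (R : Set G)) β) - 1 =
      -(Om (fun _ : Subgroup.centralizer (R : Set G) => (1 : ℂ))
        (resH (Subgroup.centralizer (R : Set G)) β) -
        Om (ξ : Subgroup.centralizer (R : Set G) → ℂ)
          (resH (Subgroup.centralizer (R : Set G)) β)) +
      -(∑ g : G, β g - ∑ c : Subgroup.centralizer (R : Set G), β c) := by
    rw [h2, h3]
    ring
  rw [h5]
  exact memLocalIdeal_add (memLocalIdeal_neg h1) (memLocalIdeal_neg h4)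

omit [Fintype G] in
/-- In a finite `p`-group a proper subgroup is properly contained in its normalizer. -/
theorem exists_normalizer_gt [Finite G] (P Q : Subgroup G) (hP : IsPGroup p P) (hQP : Q < P) :
    ∃ Q₁ : Subgroup G, Q < Q₁ ∧ Q₁ ≤ P ∧ Q₁ ≤ Subgroup.normalizer (Q : Set G) := by
  have : Group.IsNilpotent P := hP.isNilpotent
  have hlt : Q.subgroupOf P < ⊤ := by
    rw [lt_top_iff_ne_top]
    intro h
    rw [Subgroup.subgroupOf_eq_top] at h
    exact absurd (le_antisymm hQP.le h) hQP.ne
  have h1 := Group.normalizerCondition_of_isNilpotent (Q.subgroupOf P) hlt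
  obtain ⟨y, hyN, hyH⟩ := SetLike.exists_of_lt h1
  have hyQ : (y : G) ∉ Q := fun h => hyH (Subgroup.mem_subgroupOf.mpr h)
  have hyNG : (y : G) ∈ Subgroup.normalizer (Q : Set G) := by
    rw [Subgroup.mem_normalizer_iff]
    intro g
    rw [Subgroup.mem_normalizer_iff] at hyN
    constructor
    · intro hg
      have h2 := (hyN ⟨g, hQP.le hg⟩).mp (Subgroup.mem_subgroupOf.mpr hg)
      exact Subgroup.mem_subgroupOf.mp h2
    · intro hg
      have hgP : g ∈ P := by
        have h3 : g = (y : G)⁻¹ * ((y : G) * g * (y : G)⁻¹) * (y : G) := by group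
        rw [h3]
        exact mul_mem (mul_mem (inv_mem y.2) (hQP.le hg)) y.2
      have h2 := (hyN ⟨g, hgP⟩).mpr (Subgroup.mem_subgroupOf.mpr hg)
      exact Subgroup.mem_subgroupOf.mp h2
  refine ⟨Subgroup.normalizer (Q : Set G) ⊓ P, ?_, inf_le_right, inf_le_left⟩
  refine lt_of_le_of_ne (le_inf Subgroup.le_normalizer hQP.le) ?_
  intro h
  apply hyQ
  rw [h]
  exact ⟨hyNG, y.2⟩

/-- The principal Brauer pairs of the subgroups of a `p`-subgroup lie below its principal
Brauer pair. -/
theorem principal_subpairLE (hM : IsPModular p M) (P : Subgroup G) (hP : IsPGroup p P) :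
    ∀ Q : Subgroup G, Q ≤ P → SubpairLE p M Q (principalBlock M (Subgroup.centralizer (Q : Set G)))
      P (principalBlock M (Subgroup.centralizer (P : Set G))) := by
  intro Q
  refine WellFoundedGT.induction (motive := fun Q : Subgroup G => Q ≤ P →
    SubpairLE p M Q (principalBlock M (Subgroup.centralizer (Q : Set G)))
      P (principalBlock M (Subgroup.centralizer (P : Set G)))) Q ?_
  intro Q ih hQP
  by_cases hQ : Q = P
  · subst hQ
    exact Relation.ReflTransGen.refl
  · obtain ⟨Q₁, hlt, hQ₁P, hQ₁N⟩ := exists_normalizer_gt P Q hP (lt_of_le_of_ne hQP hQ)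
    have hstep : IsNormalSubpair p M Q (principalBlock M (Subgroup.centralizer (Q : Set G))) Q₁
        (principalBlock M (Subgroup.centralizer (Q₁ : Set G))) :=
      principal_normalSubpair hM Q Q₁ (hP.to_le hQP) (hP.to_le hQ₁P) hlt.le hQ₁N
    have hstep' : NormalSubpairRel p M
        (⟨Q, principalBlock M (Subgroup.centralizer (Q : Set G))⟩ : BrauerPairIdx G)
        ⟨Q₁, principalBlock M (Subgroup.centralizer (Q₁ : Set G))⟩ := hstep
    exact Relation.ReflTransGen.head hstep' (ih Q₁ hlt hQ₁P)

omit [Fintype G] [Fact p.Prime] in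
/-- Conjugation, as an isomorphism between the centralizers of a subgroup and of its
conjugate. -/
def centConj (Q : Subgroup G) (x : G) :
    Subgroup.centralizer ((Q.map (MulAut.conj x).toMonoidHom : Subgroup G) : Set G) ≃*
      Subgroup.centralizer (Q : Set G) where
  toFun c := ⟨x⁻¹ * (c : G) * x, by
    rw [Subgroup.mem_centralizer_iff]
    intro q hq
    have hc := Subgroup.mem_centralizer_iff.mp c.2 (x * q * x⁻¹)
      (Subgroup.mem_map.mpr ⟨q, hq, rfl⟩)
    calc q * (x⁻¹ * (c : G) * x) = x⁻¹ * ((x * q * x⁻¹) * (c : G)) * x := by group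
      _ = x⁻¹ * ((c : G) * (x * q * x⁻¹)) * x := by rw [hc]
      _ = x⁻¹ * (c : G) * x * q := by group⟩
  invFun c := ⟨x * (c : G) * x⁻¹, by
    rw [Subgroup.mem_centralizer_iff]
    rintro _ ⟨q, hq, rfl⟩
    have hc := Subgroup.mem_centralizer_iff.mp c.2 q hq
    show x * q * x⁻¹ * (x * (c : G) * x⁻¹) = x * (c : G) * x⁻¹ * (x * q * x⁻¹)
    calc x * q * x⁻¹ * (x * (c : G) * x⁻¹) = x * (q * (c : G)) * x⁻¹ := by group
      _ = x * ((c : G) * q) * x⁻¹ := by rw [hc]
      _ = x * (c : G) * x⁻¹ * (x * q * x⁻¹) := by group⟩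
  left_inv c := by
    apply Subtype.ext
    show x * (x⁻¹ * (c : G) * x) * x⁻¹ = (c : G)
    group
  right_inv c := by
    apply Subtype.ext
    show x⁻¹ * (x * (c : G) * x⁻¹) * x = (c : G)
    group
  map_mul' a b := by
    apply Subtype.ext
    show x⁻¹ * ((a : G) * (b : G)) * x = (x⁻¹ * (a : G) * x) * (x⁻¹ * (b : G) * x)
    group

omit [Fact p.Prime] in
/-- The conjugate of a principal block is the principal block. -/
theorem conjBlock_principal (M : Ideal AlgInt) (Q : Subgroup G) (x : G) :
    conjBlock Q x (principalBlock M (Subgroup.centralizer (Q : Set G))) =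
      principalBlock M
        (Subgroup.centralizer ((Q.map (MulAut.conj x).toMonoidHom : Subgroup G) : Set G)) := by
  ext ξ'
  constructor
  · rintro ⟨ξ, hξ, hrel⟩
    have h1 : (ξ' : Subgroup.centralizer ((Q.map (MulAut.conj x).toMonoidHom : Subgroup G) : Set G) → ℂ) = (ξ : Subgroup.centralizer (Q : Set G) → ℂ) ∘ centConj Q x := by
      funext c'
      exact hrel (centConj Q x c') c' (by
        show (c' : G) = x * (x⁻¹ * (c' : G) * x) * x⁻¹
        group)
    show SameBlock M (fun _ : Subgroup.centralizer ((Q.map (MulAut.conj x).toMonoidHom : Subgroup G) : Set G) => (1 : ℂ)) (ξ' : Subgroup.centralizer ((Q.map (MulAut.conj x).toMonoidHom : Subgroup G) : Set G) → ℂ)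
    rw [h1]
    have h2 : SameBlock M (fun _ : Subgroup.centralizer (Q : Set G) => (1 : ℂ))
        (ξ : Subgroup.centralizer (Q : Set G) → ℂ) := hξ
    exact sameBlock_comp_equiv (centConj Q x) h2
  · intro hξ'
    have h2 : SameBlock M (fun _ : Subgroup.centralizer ((Q.map (MulAut.conj x).toMonoidHom : Subgroup G) : Set G) => (1 : ℂ)) (ξ' : Subgroup.centralizer ((Q.map (MulAut.conj x).toMonoidHom : Subgroup G) : Set G) → ℂ) := hξ'
    refine ⟨⟨(ξ' : Subgroup.centralizer ((Q.map (MulAut.conj x).toMonoidHom : Subgroup G) : Set G) → ℂ) ∘ (centConj Q x).symm,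
      isIrrCharacter_comp_equiv (centConj Q x).symm ξ'.2⟩,
      sameBlock_comp_equiv (centConj Q x).symm h2, ?_⟩
    intro c c' hcc'
    show (ξ' : Subgroup.centralizer ((Q.map (MulAut.conj x).toMonoidHom : Subgroup G) : Set G) → ℂ) c' = (ξ' : Subgroup.centralizer ((Q.map (MulAut.conj x).toMonoidHom : Subgroup G) : Set G) → ℂ) ((centConj Q x).symm c)
    refine congrArg _ (Subtype.ext ?_)
    exact hcc'

omit [Fintype G] [Fact p.Prime] in
/-- The subgroup of a Brauer pair lying below another is contained in the subgroup of the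
latter. -/
theorem le_of_subpairLE {Q P : Subgroup G}
    {f : Set (IrrCharacter (Subgroup.centralizer (Q : Set G)))}
    {e : Set (IrrCharacter (Subgroup.centralizer (P : Set G)))}
    (h : SubpairLE p M Q f P e) : Q ≤ P := by
  have key : ∀ a b : BrauerPairIdx G,
      Relation.ReflTransGen (NormalSubpairRel p M) a b → a.1 ≤ b.1 := by
    intro a b hab
    induction hab with
    | refl => exact le_refl _
    | tail _ hbc ih => exact ih.trans hbc.2.2.1
  exact key _ _ h

/-- The fusion system of the principal block is the fusion system of the group. -/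
theorem principal_fusion (hM : IsPModular p M) (S : Sylow p G) :
    IsMaximalBrauerPair p M (principalBlock M G) (S : Subgroup G)
      (principalBlock M (Subgroup.centralizer ((S : Subgroup G) : Set G))) ∧
    ∀ F : FusionSystem (S : Subgroup G),
      IsBlockFusionSystemOn p M (principalBlock M G) (S : Subgroup G)
        (principalBlock M (Subgroup.centralizer ((S : Subgroup G) : Set G))) F →
      ∀ Q : Subgroup G, F.Hom Q = (groupFusionSystem (S : Subgroup G)).Hom Q := by
  classical
  let instC : Fintype (Subgroup.centralizer ((S : Subgroup G) : Set G)) := Fintype.ofFinite _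
  refine ⟨⟨(principal_brauerPair hM (S : Subgroup G) S.2 _ (isPBlock_principal M _)).mpr rfl,
    ?_⟩, ?_⟩
  · intro R g hpair hle
    exact S.3 hpair.1.1 (le_of_subpairLE hle)
  · intro F hF Q
    ext φ
    rw [hF.2 Q φ]
    show _ ↔ (Q ≤ (S : Subgroup G) ∧ (∀ x : Q, φ x ∈ (S : Subgroup G)) ∧
      ∃ g : G, ∀ x : Q, φ x = g * (x : G) * g⁻¹)
    constructor
    · rintro ⟨hQS, g, hφ, hmap, -⟩
      refine ⟨hQS, fun x => ?_, g, hφ⟩
      apply hmap
      rw [hφ x]
      exact Subgroup.mem_map.mpr ⟨(x : G), x.2, rfl⟩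
    · rintro ⟨hQS, hφS, g, hφ⟩
      have hmap : Q.map (MulAut.conj g).toMonoidHom ≤ (S : Subgroup G) := by
        rintro _ ⟨q, hq, rfl⟩
        have h1 := hφS ⟨q, hq⟩
        rw [hφ] at h1
        exact h1
      refine ⟨hQS, g, hφ, hmap, principalBlock M _,
        principal_subpairLE hM _ S.2 Q hQS, ?_⟩
      rw [conjBlock_principal]
      exact principal_subpairLE hM _ S.2 _ hmap

end Pairs

end Cfsg.Agent.Lib_helper3_PrincipalPairs
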