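import Mathlib
import Cfsg.Prelude.Def_Characters
import Cfsg.Prelude.Def_Blocks
import Cfsg.Prelude.Def_BlockLocal
import Cfsg.Prelude.Def_BrauerPairs
import Cfsg.Agent.Lib_helper3_PrincipalPairs
import Cfsg.Agent.Lib_helper3_BrauerTrunc
import Cfsg.Agent.Lib_helper3_Kuls2
import Cfsg.Agent.Lib_helper3_SecondMain3

set_option autoImplicit false
open Cfsg
open Cfsg.Agent.Lib_helper3_CharBasic Cfsg.Agent.Lib_helper3_CharMore
  Cfsg.Agent.Lib_helper3_Local Cfsg.Agent.Lib_helper3_Local2 Cfsg.Agent.Lib_helper3_BlockAlg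
  Cfsg.Agent.Lib_helper3_IdemSupp Cfsg.Agent.Lib_helper3_Residue
  Cfsg.Agent.Lib_helper3_BrauerHom Cfsg.Agent.Lib_helper3_BrauerHom2
  Cfsg.Agent.Lib_helper3_BrauerHom3 Cfsg.Agent.Lib_helper3_ExtFirstMain
  Cfsg.Agent.Lib_helper3_BrauerPair Cfsg.Agent.Lib_helper3_NilPrincipal
  Cfsg.Agent.Lib_helper3_PrincipalPairs Cfsg.Agent.Lib_helper3_BrauerTrunc
  Cfsg.Agent.Lib_helper3_CharInd Cfsg.Agent.Lib_helper3_SecondMain3
open scoped ComplexConjugate

namespace Cfsg.Agent.Lib_helper3_SubpairBlock

attribute [local instance] Ideal.Quotient.field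

universe u

variable {G : Type u} [Group G] [Fintype G] {M : Ideal AlgInt} {p : ℕ} [Fact p.Prime]

omit [Fintype G] [Fact p.Prime] in
/-- A stabilizing element maps the members of the set to members, in composition form. -/
theorem stab_comp_mem [Finite G] (K : Subgroup G) (f : Set (IrrCharacter K)) (u : G)
    (h : StabilizesBlock K f u) (χ : IrrCharacter K) (hχ : χ ∈ f) :
    (⟨(χ : K → ℂ) ∘ conjNorm K u h.1, isIrrCharacter_comp_equiv (conjNorm K u h.1) χ.2⟩ :
      IrrCharacter K) ∈ f := by
  obtain ⟨χ', hχ', hconj⟩ := h.2 χ hχ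
  have h1 : χ' = (⟨(χ : K → ℂ) ∘ conjNorm K u h.1,
      isIrrCharacter_comp_equiv (conjNorm K u h.1) χ.2⟩ : IrrCharacter K) := by
    apply Subtype.ext
    funext k'
    exact hconj (conjNorm K u h.1 k') k' (by rw [conjNorm_apply]; group)
  rw [← h1]
  exact hχ'

omit [Fintype G] [Fact p.Prime] in
/-- The idempotent coefficients of a set of characters of a subgroup are invariant under
conjugation by elements stabilizing the set. -/
theorem subgroupBlockCoeff_conj_of_stab [Finite G] (L : Subgroup G) (f : Set (IrrCharacter L))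
    (u : G) (hu : StabilizesBlock L f u) (hu' : StabilizesBlock L f u⁻¹) (x : G) :
    subgroupBlockCoeff L f (u * x * u⁻¹) = subgroupBlockCoeff L f x := by
  by_cases hx : x ∈ L
  · have hx' : u * x * u⁻¹ ∈ L := (Subgroup.mem_normalizer_iff.mp hu.1 x).mp hx
    rw [subgroupBlockCoeff_of_mem L _ hx, subgroupBlockCoeff_of_mem L _ hx']
    have h1 := blockCoeff_comp_equiv (conjNorm L u⁻¹ hu'.1) f
      (fun χ hχ => stab_comp_mem L f u⁻¹ hu' χ hχ)
      (fun χ hχ => by
        have h2 := stab_comp_mem L f u hu χ hχ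
        have h3 : (⟨(χ : L → ℂ) ∘ (conjNorm L u⁻¹ hu'.1).symm,
            isIrrCharacter_comp_equiv (conjNorm L u⁻¹ hu'.1).symm χ.2⟩ : IrrCharacter L) =
            ⟨(χ : L → ℂ) ∘ conjNorm L u hu.1, isIrrCharacter_comp_equiv (conjNorm L u hu.1) χ.2⟩ := by
          apply Subtype.ext
          funext k
          show (χ : L → ℂ) ((conjNorm L u⁻¹ hu'.1).symm k) = (χ : L → ℂ) (conjNorm L u hu.1 k)
          refine congrArg _ (Subtype.ext ?_)
          show u⁻¹ * (k : G) * u⁻¹⁻¹ = u⁻¹ * (k : G) * u
          rw [inv_inv]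
        rw [h3]
        exact h2) ⟨x, hx⟩
    have h2 : conjNorm L u⁻¹ hu'.1 ⟨x, hx⟩ = ⟨u * x * u⁻¹, hx'⟩ := by
      apply Subtype.ext
      rw [conjNorm_apply, inv_inv]
    rw [h2] at h1
    exact h1
  · have hx' : u * x * u⁻¹ ∉ L := fun h => hx ((Subgroup.mem_normalizer_iff.mp hu.1 x).mpr h)
    rw [subgroupBlockCoeff_of_not_mem L _ hx, subgroupBlockCoeff_of_not_mem L _ hx']

omit [Fintype G] [Fact p.Prime] in
theorem trunc_eq_extend (Q : Subgroup G) (F : G → ℂ) :
    trunc Q F = extendByZero (Subgroup.centralizer (Q : Set G))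
      (resH (Subgroup.centralizer (Q : Set G)) F) := by
  funext g
  by_cases hg : g ∈ Subgroup.centralizer (Q : Set G)
  · rw [trunc_of_mem Q F hg, extendByZero_mem _ _ hg]
    rfl
  · rw [trunc_of_not_mem Q F hg, extendByZero_not_mem _ _ hg]

omit [Fintype G] [Fact p.Prime] in
theorem subgroupBlockCoeff_eq_extend (H : Subgroup G) (e : Set (IrrCharacter H)) :
    subgroupBlockCoeff H e = extendByZero H (blockCoeff e) := by
  funext g
  by_cases hg : g ∈ H
  · rw [subgroupBlockCoeff_of_mem H e hg, extendByZero_mem _ _ hg]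
  · rw [subgroupBlockCoeff_of_not_mem H e hg, extendByZero_not_mem _ _ hg]

omit [Fact p.Prime] in
/-- The idempotent of the complement of a block has local-integer coefficients. -/
theorem memLocalRing_blockCoeff_compl [hMp : M.IsPrime] {B : Set (IrrCharacter G)}
    (hB : IsPBlock M B) (g : G) : MemLocalRing M (blockCoeff Bᶜ g) := by
  have hMtop := hMp.ne_top
  apply osima_union
  intro χ hχ χ' hχ' hmem
  obtain ⟨χB, hχB⟩ := hB
  apply hχ
  rw [hχB] at hmem ⊢
  have h1 : blockOf M (χ' : G → ℂ) = blockOf M (χB : G → ℂ) := blockOf_eq_of_mem hmem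
  have h2 : blockOf M (χ' : G → ℂ) = blockOf M (χ : G → ℂ) := blockOf_eq_of_mem hχ'
  rw [← h1, h2]
  exact mem_blockOf_self hMtop χ

section A

variable [hMm : M.IsMaximal]

/-- The restriction to the centralizer of a `p`-subgroup of an idempotent of `G` is orthogonal,
modulo the local ideal, to the idempotent of a set of characters of the centralizer none of
which induces into the support of the idempotent. -/
theorem red_res_mul_eq_zero (hM : IsPModular p M) (Q : Subgroup G) (hQ : IsPGroup p Q)
    [Fintype (Subgroup.centralizer (Q : Set G))]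
    (A : Set (IrrCharacter G)) (hA : ∀ g, MemLocalRing M (blockCoeff A g))
    (J : Set (IrrCharacter (Subgroup.centralizer (Q : Set G))))
    (hJ : ∀ h, MemLocalRing M (blockCoeff J h))
    (hAJ : ∀ ξ ∈ J, ∃ χ₁ : IrrCharacter G, χ₁ ∉ A ∧ ∀ g : G, MemLocalIdeal M
      (inducedCentralChar (Subgroup.centralizer (Q : Set G))
        (ξ : Subgroup.centralizer (Q : Set G) → ℂ) g - centralChar (χ₁ : G → ℂ) g)) :
    red M (resH (Subgroup.centralizer (Q : Set G)) (blockCoeff A)) *
      red M (blockCoeff J) = 0 := by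
  classical
  have hMp : M.IsPrime := hMm.isPrime
  have hres : cenFun Q (Subgroup.centralizer (Q : Set G)) (blockCoeff A) =
      resH (Subgroup.centralizer (Q : Set G)) (blockCoeff A) := by
    funext h
    unfold cenFun resH
    rw [if_pos h.2]
  have hecl := isClassFunction_blockCoeff A
  have hacl := isClassFunction_resH (Subgroup.centralizer (Q : Set G)) hecl
  have haR : ∀ h : Subgroup.centralizer (Q : Set G),
      MemLocalRing M (resH (Subgroup.centralizer (Q : Set G)) (blockCoeff A) h) := fun h => hA _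
  have hfcl := isClassFunction_blockCoeff J
  have hidem_a : red M (resH (Subgroup.centralizer (Q : Set G)) (blockCoeff A)) *
      red M (resH (Subgroup.centralizer (Q : Set G)) (blockCoeff A)) =
      red M (resH (Subgroup.centralizer (Q : Set G)) (blockCoeff A)) := by
    rw [← hres]
    exact red_cenFun_idem hM Q (Subgroup.centralizer (Q : Set G)) hQ le_rfl hecl hA
      (conv_blockCoeff A)
  have hidem_f : red M (blockCoeff J) * red M (blockCoeff J) = red M (blockCoeff J) := by
    rw [← red_conv hJ hJ, conv_blockCoeff]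
  have hcomm : red M (resH (Subgroup.centralizer (Q : Set G)) (blockCoeff A)) *
      red M (blockCoeff J) = red M (blockCoeff J) *
      red M (resH (Subgroup.centralizer (Q : Set G)) (blockCoeff A)) := by
    rw [← red_conv haR hJ, ← red_conv hJ haR, conv_comm_of_class hfcl]
  rw [← red_conv haR hJ]
  apply red_eq_zero_of_om (isClassFunction_conv hacl hfcl) (memLocalRing_conv haR hJ)
  · rw [red_conv haR hJ]
    calc red M (resH (Subgroup.centralizer (Q : Set G)) (blockCoeff A)) * red M (blockCoeff J) *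
          (red M (resH (Subgroup.centralizer (Q : Set G)) (blockCoeff A)) * red M (blockCoeff J))
        = red M (resH (Subgroup.centralizer (Q : Set G)) (blockCoeff A)) *
          (red M (blockCoeff J) * red M (resH (Subgroup.centralizer (Q : Set G)) (blockCoeff A))) *
          red M (blockCoeff J) := by simp only [mul_assoc]
      _ = red M (resH (Subgroup.centralizer (Q : Set G)) (blockCoeff A)) *
          (red M (resH (Subgroup.centralizer (Q : Set G)) (blockCoeff A)) * red M (blockCoeff J)) *
          red M (blockCoeff J) := by rw [← hcomm]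
      _ = (red M (resH (Subgroup.centralizer (Q : Set G)) (blockCoeff A)) *
          red M (resH (Subgroup.centralizer (Q : Set G)) (blockCoeff A))) *
          (red M (blockCoeff J) * red M (blockCoeff J)) := by simp only [mul_assoc]
      _ = red M (resH (Subgroup.centralizer (Q : Set G)) (blockCoeff A)) *
          red M (blockCoeff J) := by rw [hidem_a, hidem_f]
  · intro ξ
    rw [om_conv ξ.2 hacl hfcl]
    by_cases hξ : ξ ∈ J
    · obtain ⟨χ₁, hχ₁A, hχ₁⟩ := hAJ ξ hξ
      have h1 := om_resH_sub_om (Subgroup.centralizer (Q : Set G))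
        (ξ : Subgroup.centralizer (Q : Set G) → ℂ) (isClassFunction_of_irr χ₁.2) hχ₁ hecl hA
      rw [om_blockCoeff_of_not_mem hχ₁A, sub_zero] at h1
      rw [om_blockCoeff_of_mem hξ, mul_one]
      exact h1
    · rw [om_blockCoeff_of_not_mem hξ, mul_zero]
      exact memLocalIdeal_zero hMp.ne_top

end A

/-- If the block `f` of the centralizer of the `p`-subgroup `Q` induces the block `B`, then
the restriction of the idempotent of `B` acts as the identity on the idempotent of `f`,
modulo the local ideal. -/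
theorem res_block_mul (hM : IsPModular p M) (Q : Subgroup G) (hQ : IsPGroup p Q)
    [Fintype (Subgroup.centralizer (Q : Set G))]
    (f : Set (IrrCharacter (Subgroup.centralizer (Q : Set G)))) (B : Set (IrrCharacter G))
    (hind : IsInducedBlock M (Subgroup.centralizer (Q : Set G)) f B)
    (c : Subgroup.centralizer (Q : Set G)) :
    MemLocalIdeal M (conv (resH (Subgroup.centralizer (Q : Set G)) (blockCoeff B))
      (blockCoeff f) c - blockCoeff f c) := by
  classical
  have hMm : M.IsMaximal := hM.2.1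
  have hMp : M.IsPrime := hMm.isPrime
  have hMtop := hMp.ne_top
  have hBR : ∀ g, MemLocalRing M (blockCoeff B g) := fun g => osima hind.2.1 g
  have hBcR : ∀ g, MemLocalRing M (blockCoeff Bᶜ g) :=
    fun g => memLocalRing_blockCoeff_compl hind.2.1 g
  have hfR : ∀ h, MemLocalRing M (blockCoeff f h) := fun h => osima hind.1 h
  have haR : ∀ h : Subgroup.centralizer (Q : Set G),
      MemLocalRing M (resH (Subgroup.centralizer (Q : Set G)) (blockCoeff B) h) := fun h => hBR _
  have ha'R : ∀ h : Subgroup.centralizer (Q : Set G),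
      MemLocalRing M (resH (Subgroup.centralizer (Q : Set G)) (blockCoeff Bᶜ) h) :=
    fun h => hBcR _
  obtain ⟨χ₀, hχ₀⟩ := hind.2.1
  have hχ₀B : χ₀ ∈ B := by
    rw [hχ₀]
    exact mem_blockOf_self hMtop χ₀
  have h2 := red_res_mul_eq_zero hM Q hQ Bᶜ hBcR f hfR (by
    intro ξ hξ
    exact ⟨χ₀, fun hmem => hmem hχ₀B, hind.2.2 ξ hξ χ₀ hχ₀B⟩)
  have h3 : red M (resH (Subgroup.centralizer (Q : Set G)) (blockCoeff B)) +
      red M (resH (Subgroup.centralizer (Q : Set G)) (blockCoeff Bᶜ)) = 1 := by
    rw [← Cfsg.Agent.Lib_helper3_Kuls2.red_add haR ha'R]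
    have h : (fun g => resH (Subgroup.centralizer (Q : Set G)) (blockCoeff B) g +
        resH (Subgroup.centralizer (Q : Set G)) (blockCoeff Bᶜ) g) =
        cpow (fun _ : Subgroup.centralizer (Q : Set G) => (0 : ℂ)) 0 := by
      funext c
      unfold resH
      rw [blockCoeff_add_compl]
      unfold cpow
      by_cases hc : c = 1
      · rw [if_pos hc, if_pos (by rw [hc]; rfl)]
      · have hc' : ¬ ((c : G) = 1) := fun h => hc (Subtype.ext h)
        rw [if_neg hc, if_neg hc']
    rw [h, red_cpow (fun _ => memLocalRing_zero hMtop) 0, pow_zero]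
  have h5 : red M (conv (resH (Subgroup.centralizer (Q : Set G)) (blockCoeff B))
      (blockCoeff f)) = red M (blockCoeff f) := by
    rw [red_conv haR hfR]
    calc red M (resH (Subgroup.centralizer (Q : Set G)) (blockCoeff B)) * red M (blockCoeff f)
        = (red M (resH (Subgroup.centralizer (Q : Set G)) (blockCoeff B)) +
          red M (resH (Subgroup.centralizer (Q : Set G)) (blockCoeff Bᶜ))) *
          red M (blockCoeff f) := by rw [add_mul, h2, add_zero]
      _ = red M (blockCoeff f) := by rw [h3, one_mul]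
  have h6 : (red M (conv (resH (Subgroup.centralizer (Q : Set G)) (blockCoeff B))
      (blockCoeff f))).coeff c = (red M (blockCoeff f)).coeff c := by rw [h5]
  rw [Cfsg.Agent.Lib_helper3_Kuls2.coeff_red, Cfsg.Agent.Lib_helper3_Kuls2.coeff_red] at h6
  exact Cfsg.Agent.Lib_helper3_Kuls2.memLocalIdeal_sub_of_res_eq
    (memLocalRing_conv haR hfR c) (hfR c) h6

/-- If `(Q, f)` is normally below `(P, e)` and `(Q, f)` is a Brauer pair of `B`, then so is
`(P, e)`. -/
theorem brauerPairOf_of_normalSubpair (hM : IsPModular p M) (P Q : Subgroup G)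
    (e : Set (IrrCharacter (Subgroup.centralizer (P : Set G))))
    (f : Set (IrrCharacter (Subgroup.centralizer (Q : Set G))))
    (hn : IsNormalSubpair p M Q f P e) (B : Set (IrrCharacter G))
    (hB : IsBrauerPairOf p M B Q f) : IsBrauerPairOf p M B P e := by
  classical
  have hMm : M.IsMaximal := hM.2.1
  have hMp : M.IsPrime := hMm.isPrime
  have hMtop := hMp.ne_top
  have instQ : Fintype (Subgroup.centralizer (Q : Set G)) := Fintype.ofFinite _
  have instP : Fintype (Subgroup.centralizer (P : Set G)) := Fintype.ofFinite _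
  obtain ⟨⟨hQ, hf⟩, ⟨hP, he⟩, hQP, hPN, hstab, hbr⟩ := hn
  have hBblock := hB.2.1
  have hind := (isBrauerPairOf_iff hM Q hQ f hf B hBblock).mp hB
  refine ⟨⟨hP, he⟩, hBblock, fun ξ hξ => ?_⟩
  have hCPQ : Subgroup.centralizer (P : Set G) ≤ Subgroup.centralizer (Q : Set G) :=
    Subgroup.centralizer_le (SetLike.coe_subset_coe.mpr hQP)
  obtain ⟨F₁, hF₁⟩ : ∃ F₁ : G → ℂ, F₁ = trunc Q (blockCoeff B) := ⟨_, rfl⟩
  obtain ⟨F₂, hF₂⟩ : ∃ F₂ : G → ℂ, F₂ = subgroupBlockCoeff (Subgroup.centralizer (Q : Set G)) f :=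
    ⟨_, rfl⟩
  have hconv : ∀ g, MemLocalIdeal M (conv F₁ F₂ g - F₂ g) := by
    intro g
    rw [hF₁, hF₂, trunc_eq_extend, subgroupBlockCoeff_eq_extend, conv_extendByZero]
    by_cases hg : g ∈ Subgroup.centralizer (Q : Set G)
    · rw [extendByZero_mem _ _ hg, extendByZero_mem _ _ hg]
      exact res_block_mul hM Q hQ f B hind ⟨g, hg⟩
    · rw [extendByZero_not_mem _ _ hg, extendByZero_not_mem _ _ hg, sub_zero]
      exact memLocalIdeal_zero hMtop
  have hinv₁ : ∀ u ∈ P, ∀ g, F₁ (u * g * u⁻¹) = F₁ g := by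
    intro u hu g
    have hun := mem_normalizer_centralizer Q (hPN hu)
    have hiff := Subgroup.mem_normalizer_iff.mp hun g
    rw [hF₁]
    by_cases hg : g ∈ Subgroup.centralizer (Q : Set G)
    · rw [trunc_of_mem Q _ hg, trunc_of_mem Q _ (hiff.mp hg)]
      exact isClassFunction_blockCoeff B g u
    · rw [trunc_of_not_mem Q _ hg, trunc_of_not_mem Q _ (fun h => hg (hiff.mpr h))]
  have hinv₂ : ∀ u ∈ P, ∀ g, F₂ (u * g * u⁻¹) = F₂ g := by
    intro u hu g
    rw [hF₂]
    exact subgroupBlockCoeff_conj_of_stab _ f u (hstab u hu) (hstab u⁻¹ (P.inv_mem hu)) g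
  have hR₁ : ∀ g, MemLocalRing M (F₁ g) := by
    intro g
    rw [hF₁]
    exact memLocalRing_trunc Q (fun g => osima hBblock g) g
  have hR₂ : ∀ g, MemLocalRing M (F₂ g) := by
    intro g
    rw [hF₂]
    by_cases hg : g ∈ Subgroup.centralizer (Q : Set G)
    · rw [subgroupBlockCoeff_of_mem _ _ hg]
      exact osima hf _
    · rw [subgroupBlockCoeff_of_not_mem _ _ hg]
      exact memLocalRing_zero hMtop
  have htc := trunc_conv hM P hP hinv₁ hinv₂ hR₁ hR₂
  have hres₁ : resH (Subgroup.centralizer (P : Set G)) F₁ =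
      resH (Subgroup.centralizer (P : Set G)) (blockCoeff B) := by
    funext k
    show F₁ (k : G) = blockCoeff B (k : G)
    rw [hF₁]
    exact trunc_of_mem Q _ (hCPQ k.2)
  have key : ∀ c : Subgroup.centralizer (P : Set G), MemLocalIdeal M
      ((conv (resH (Subgroup.centralizer (P : Set G)) (blockCoeff B))
        (resH (Subgroup.centralizer (P : Set G)) F₂) -
        resH (Subgroup.centralizer (P : Set G)) F₂) c) := by
    intro c
    rw [Pi.sub_apply]
    have h1 := htc (c : G)
    have h2 := hconv (c : G)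
    rw [trunc_of_mem P _ c.2, trunc_eq_extend P F₁, trunc_eq_extend P F₂, conv_extendByZero,
      extendByZero_coe, hres₁] at h1
    have h4 := memLocalIdeal_sub h2 h1
    rw [sub_sub_sub_cancel_left] at h4
    exact h4
  have hcl₁ : IsClassFunction (Subgroup.centralizer (P : Set G))
      (resH (Subgroup.centralizer (P : Set G)) (blockCoeff B)) :=
    isClassFunction_resH _ (isClassFunction_blockCoeff B)
  have hcl₂ : IsClassFunction (Subgroup.centralizer (P : Set G))
      (resH (Subgroup.centralizer (P : Set G)) F₂) := by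
    intro h k
    show F₂ ((k * h * k⁻¹ : Subgroup.centralizer (P : Set G)) : G) = F₂ (h : G)
    rw [hF₂, subgroupBlockCoeff_of_mem _ f (hCPQ (k * h * k⁻¹).2),
      subgroupBlockCoeff_of_mem _ f (hCPQ h.2)]
    exact isClassFunction_blockCoeff f ⟨(h : G), hCPQ h.2⟩ ⟨(k : G), hCPQ k.2⟩
  have h5 := om_memLocalIdeal ξ.2 (isClassFunction_sub (isClassFunction_conv hcl₁ hcl₂) hcl₂) key
  rw [om_sub, om_conv ξ.2 hcl₁ hcl₂] at h5
  have hY : MemLocalIdeal M (Om (ξ : Subgroup.centralizer (P : Set G) → ℂ)
      (resH (Subgroup.centralizer (P : Set G)) F₂) - 1) := by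
    have h := hbr ξ hξ
    rw [brauerOmega_eq_om, ← hF₂] at h
    exact h
  rw [brauerOmega_eq_om]
  have hXR : MemLocalRing M (Om (ξ : Subgroup.centralizer (P : Set G) → ℂ)
      (resH (Subgroup.centralizer (P : Set G)) (blockCoeff B))) :=
    memLocalRing_om ξ.2 hcl₁ (fun g => osima hBblock _)
  have h6 := memLocalIdeal_mul_left (memLocalRing_sub hXR (memLocalRing_one hMtop)) hY
  have h7 := memLocalIdeal_sub h5 h6
  have h8 : Om (ξ : Subgroup.centralizer (P : Set G) → ℂ)
        (resH (Subgroup.centralizer (P : Set G)) (blockCoeff B)) *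
      Om (ξ : Subgroup.centralizer (P : Set G) → ℂ)
        (resH (Subgroup.centralizer (P : Set G)) F₂) -
      Om (ξ : Subgroup.centralizer (P : Set G) → ℂ)
        (resH (Subgroup.centralizer (P : Set G)) F₂) -
      (Om (ξ : Subgroup.centralizer (P : Set G) → ℂ)
        (resH (Subgroup.centralizer (P : Set G)) (blockCoeff B)) - 1) *
      (Om (ξ : Subgroup.centralizer (P : Set G) → ℂ)
        (resH (Subgroup.centralizer (P : Set G)) F₂) - 1) =
      Om (ξ : Subgroup.centralizer (P : Set G) → ℂ)
        (resH (Subgroup.centralizer (P : Set G)) (blockCoeff B)) - 1 := by ring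
  rw [h8] at h7
  exact h7

/-- For a normal inclusion `(Q, f) ⊴ (P, e)`, the two pairs belong to the same blocks. -/
theorem brauerPairOf_iff_of_normalSubpair (hM : IsPModular p M) (P Q : Subgroup G)
    (e : Set (IrrCharacter (Subgroup.centralizer (P : Set G))))
    (f : Set (IrrCharacter (Subgroup.centralizer (Q : Set G))))
    (hn : IsNormalSubpair p M Q f P e) (B : Set (IrrCharacter G)) :
    IsBrauerPairOf p M B P e ↔ IsBrauerPairOf p M B Q f := by
  classical
  have instQ : Fintype (Subgroup.centralizer (Q : Set G)) := Fintype.ofFinite _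
  have instP : Fintype (Subgroup.centralizer (P : Set G)) := Fintype.ofFinite _
  constructor
  · intro hP
    obtain ⟨B', hB', -⟩ := brauerPair_unique_block hM Q f hn.1
    have h1 := brauerPairOf_of_normalSubpair hM P Q e f hn B' hB'
    have h2 := (brauerPair_unique_block hM P e hn.2.1).unique h1 hP
    rw [← h2]
    exact hB'
  · intro hQ
    exact brauerPairOf_of_normalSubpair hM P Q e f hn B hQ

/-- Brauer pairs related by inclusion belong to the same blocks. -/
theorem brauerPairOf_iff_of_subpairLE (hM : IsPModular p M) (P Q : Subgroup G)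
    (e : Set (IrrCharacter (Subgroup.centralizer (P : Set G))))
    (f : Set (IrrCharacter (Subgroup.centralizer (Q : Set G))))
    (hle : SubpairLE p M Q f P e) (B : Set (IrrCharacter G)) :
    IsBrauerPairOf p M B P e ↔ IsBrauerPairOf p M B Q f := by
  have key : ∀ a b : BrauerPairIdx G, Relation.ReflTransGen (NormalSubpairRel p M) a b →
      (IsBrauerPairOf p M B b.1 b.2 ↔ IsBrauerPairOf p M B a.1 a.2) := by
    intro a b hab
    induction hab with
    | refl => exact Iff.rfl
    | tail _ hstep ih =>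
      exact (brauerPairOf_iff_of_normalSubpair hM _ _ _ _ hstep B).trans ih
  exact key ⟨Q, f⟩ ⟨P, e⟩ hle

end Cfsg.Agent.Lib_helper3_SubpairBlock
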