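import Mathlib
import Cfsg.Prelude.Def_Characters
import Cfsg.Prelude.Def_Blocks
import Cfsg.Prelude.Def_BlockLocal
import Cfsg.Prelude.Def_BrauerPairs
import Cfsg.Agent.Lib_helper3_SubpairBlock

set_option autoImplicit false
open Cfsg
open Cfsg.Agent.Lib_helper3_CharBasic Cfsg.Agent.Lib_helper3_CharMore
  Cfsg.Agent.Lib_helper3_Local Cfsg.Agent.Lib_helper3_Local2 Cfsg.Agent.Lib_helper3_BlockAlg
  Cfsg.Agent.Lib_helper3_IdemSupp Cfsg.Agent.Lib_helper3_Residue
  Cfsg.Agent.Lib_helper3_BrauerHom Cfsg.Agent.Lib_helper3_BrauerHom2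
  Cfsg.Agent.Lib_helper3_BrauerHom3 Cfsg.Agent.Lib_helper3_ExtFirstMain
  Cfsg.Agent.Lib_helper3_BrauerPair Cfsg.Agent.Lib_helper3_NilPrincipal
  Cfsg.Agent.Lib_helper3_PrincipalPairs Cfsg.Agent.Lib_helper3_BrauerTrunc
  Cfsg.Agent.Lib_helper3_CharInd Cfsg.Agent.Lib_helper3_SecondMain3
  Cfsg.Agent.Lib_helper3_SubpairBlock
open scoped ComplexConjugate

namespace Cfsg.Agent.Lib_helper3_NormalSubpair

attribute [local instance] Ideal.Quotient.field

universe u v w

section Orbit

/-- Orbit sums: a function invariant under the action of a `p`-group sums to zero, in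
characteristic `p`, over a stable finite set without fixed points. -/
theorem sum_eq_zero_of_act {p : ℕ} [Fact p.Prime] {Γ : Type u} [Group Γ] [Finite Γ]
    (hΓ : IsPGroup p Γ) {X : Type v} [MulAction Γ X] {F : Type w} [Field F] [CharP F p]
    (S : Finset X) (hS : ∀ γ : Γ, ∀ x ∈ S, γ • x ∈ S)
    (hfix : ∀ x ∈ S, ∃ γ : Γ, γ • x ≠ x) (r : X → F)
    (hr : ∀ γ : Γ, ∀ x ∈ S, r (γ • x) = r x) : ∑ x ∈ S, r x = 0 := by
  classical
  rw [← Finset.sum_fiberwise_of_maps_to (g := r) (t := S.image r)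
    (fun x hx => Finset.mem_image_of_mem r hx)]
  apply Finset.sum_eq_zero
  intro c _
  have h1 : ∀ x ∈ S.filter (fun x => r x = c), r x = c :=
    fun x hx => (Finset.mem_filter.mp hx).2
  rw [Finset.sum_congr rfl h1, Finset.sum_const, nsmul_eq_mul]
  obtain ⟨T, hTdef⟩ : ∃ T : Finset X, T = S.filter (fun x => r x = c) := ⟨_, rfl⟩
  rw [← hTdef]
  have hT : ∀ γ : Γ, ∀ x ∈ T, γ • x ∈ T := by
    intro γ x hx
    rw [hTdef, Finset.mem_filter] at hx ⊢
    exact ⟨hS γ x hx.1, by rw [hr γ x hx.1]; exact hx.2⟩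
  have hTS : ∀ x ∈ T, x ∈ S := by
    intro x hx
    rw [hTdef, Finset.mem_filter] at hx
    exact hx.1
  let _ : MulAction Γ T :=
    { smul := fun γ x => ⟨γ • x.1, hT γ x.1 x.2⟩
      one_smul := fun x => Subtype.ext (one_smul Γ x.1)
      mul_smul := fun γ δ x => Subtype.ext (mul_smul γ δ x.1) }
  have h2 := hΓ.card_modEq_card_fixedPoints T
  have h3 : IsEmpty (MulAction.fixedPoints Γ T) := by
    refine ⟨fun ⟨x, hx⟩ => ?_⟩
    obtain ⟨γ, hγ⟩ := hfix x.1 (hTS x.1 x.2)
    exact hγ (congrArg Subtype.val (hx γ))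
  have h4 : Nat.card (MulAction.fixedPoints Γ T) = 0 := Nat.card_of_isEmpty
  rw [h4] at h2
  have h5 : p ∣ Nat.card T := (Nat.modEq_zero_iff_dvd).mp h2
  have h6 : Nat.card T = T.card := by
    rw [Nat.card_eq_fintype_card, Fintype.card_coe]
  rw [h6] at h5
  rw [(CharP.cast_eq_zero_iff F p _).mpr h5, zero_mul]

/-- Orbit sums: the points not fixed by a `p`-group contribute zero. -/
theorem sum_nonfixed_eq_zero {p : ℕ} [Fact p.Prime] {Γ : Type u} [Group Γ] [Finite Γ]
    (hΓ : IsPGroup p Γ) {X : Type v} [MulAction Γ X] {F : Type w} [Field F] [CharP F p]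
    (S : Finset X) (hS : ∀ γ : Γ, ∀ x ∈ S, γ • x ∈ S) (r : X → F)
    (hr : ∀ γ : Γ, ∀ x ∈ S, r (γ • x) = r x)
    [DecidablePred (fun x : X => ¬ ∀ γ : Γ, γ • x = x)] :
    ∑ x ∈ S.filter (fun x => ¬ ∀ γ : Γ, γ • x = x), r x = 0 := by
  apply sum_eq_zero_of_act hΓ
  · intro γ x hx
    rw [Finset.mem_filter] at hx ⊢
    refine ⟨hS γ x hx.1, fun hfix => hx.2 (fun δ => ?_)⟩
    calc δ • x = γ⁻¹ • ((γ * δ * γ⁻¹) • (γ • x)) := by
          rw [smul_smul, smul_smul]
          congr 1
          group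
      _ = γ⁻¹ • (γ • x) := by rw [hfix]
      _ = x := inv_smul_smul γ x
  · intro x hx
    have h := (Finset.mem_filter.mp hx).2
    push Not at h
    exact h
  · intro γ x hx
    exact hr γ x (Finset.mem_filter.mp hx).1

end Orbit

section Act

variable {G : Type u} [Group G] [Finite G] {M : Ideal AlgInt}

/-- The conjugate of a set of irreducible characters of the subgroup `K` by the element `u`. -/
def act (K : Subgroup G) (u : G) (f : Set (IrrCharacter K)) : Set (IrrCharacter K) :=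
  {χ' | ∃ χ ∈ f, IsConjCharOf K u (χ : K → ℂ) (χ' : K → ℂ)}

omit [Finite G] in
theorem isConjCharOf_conjNorm (K : Subgroup G) (u : G)
    (hu : u ∈ Subgroup.normalizer (K : Set G)) (χ : K → ℂ) :
    IsConjCharOf K u χ (χ ∘ conjNorm K u hu) := by
  intro k k' hk
  show χ (conjNorm K u hu k') = χ k
  congr 1
  apply Subtype.ext
  rw [conjNorm_apply, hk]
  group

omit [Finite G] in
theorem eq_of_isConjCharOf (K : Subgroup G) (u : G)
    (hu : u ∈ Subgroup.normalizer (K : Set G)) (χ χ' : K → ℂ) (h : IsConjCharOf K u χ χ') :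
    χ' = χ ∘ conjNorm K u hu := by
  funext k'
  exact h (conjNorm K u hu k') k' (by rw [conjNorm_apply]; group)

omit [Finite G] in
theorem mem_act_iff (K : Subgroup G) (u : G) (hu : u ∈ Subgroup.normalizer (K : Set G))
    (f : Set (IrrCharacter K)) (χ' : IrrCharacter K) :
    χ' ∈ act K u f ↔ ∃ χ ∈ f, (χ' : K → ℂ) = (χ : K → ℂ) ∘ conjNorm K u hu := by
  constructor
  · rintro ⟨χ, hχ, h⟩
    exact ⟨χ, hχ, eq_of_isConjCharOf K u hu _ _ h⟩
  · rintro ⟨χ, hχ, h⟩
    refine ⟨χ, hχ, ?_⟩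
    rw [h]
    exact isConjCharOf_conjNorm K u hu _

omit [Finite G] in
theorem act_one (K : Subgroup G) (f : Set (IrrCharacter K)) : act K 1 f = f := by
  have h1 : ∀ k : K, conjNorm K 1 (Subgroup.one_mem _) k = k := by
    intro k
    apply Subtype.ext
    rw [conjNorm_apply]
    group
  ext χ'
  rw [mem_act_iff K 1 (Subgroup.one_mem _) f χ']
  constructor
  · rintro ⟨χ, hχ, h⟩
    have h2 : χ' = χ := by
      apply Subtype.ext
      rw [h]
      funext k
      show (χ : K → ℂ) (conjNorm K 1 _ k) = (χ : K → ℂ) k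
      rw [h1]
    rw [h2]
    exact hχ
  · intro hχ
    refine ⟨χ', hχ, ?_⟩
    funext k
    show (χ' : K → ℂ) k = (χ' : K → ℂ) (conjNorm K 1 _ k)
    rw [h1]

theorem act_mul (K : Subgroup G) (u v : G) (hu : u ∈ Subgroup.normalizer (K : Set G))
    (hv : v ∈ Subgroup.normalizer (K : Set G)) (f : Set (IrrCharacter K)) :
    act K (u * v) f = act K u (act K v f) := by
  have h1 : ∀ k : K, conjNorm K (u * v) (Subgroup.mul_mem _ hu hv) k =
      conjNorm K v hv (conjNorm K u hu k) := by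
    intro k
    apply Subtype.ext
    rw [conjNorm_apply, conjNorm_apply, conjNorm_apply]
    group
  ext χ''
  rw [mem_act_iff K (u * v) (Subgroup.mul_mem _ hu hv) f χ'',
    mem_act_iff K u hu (act K v f) χ'']
  constructor
  · rintro ⟨χ, hχ, h⟩
    refine ⟨⟨(χ : K → ℂ) ∘ conjNorm K v hv, isIrrCharacter_comp_equiv _ χ.2⟩, ?_, ?_⟩
    · rw [mem_act_iff K v hv]
      exact ⟨χ, hχ, rfl⟩
    · rw [h]
      funext k
      show (χ : K → ℂ) (conjNorm K (u * v) _ k) =
        (χ : K → ℂ) (conjNorm K v hv (conjNorm K u hu k))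
      rw [h1]
  · rintro ⟨χ', hχ', h⟩
    rw [mem_act_iff K v hv] at hχ'
    obtain ⟨χ, hχ, h'⟩ := hχ'
    refine ⟨χ, hχ, ?_⟩
    rw [h, h']
    funext k
    show (χ : K → ℂ) (conjNorm K v hv (conjNorm K u hu k)) =
      (χ : K → ℂ) (conjNorm K (u * v) _ k)
    rw [h1]

theorem act_blockOf (K : Subgroup G) (u : G) (hu : u ∈ Subgroup.normalizer (K : Set G))
    (ξ : IrrCharacter K) :
    act K u (blockOf M (ξ : K → ℂ)) = blockOf M ((ξ : K → ℂ) ∘ conjNorm K u hu) := by
  ext χ'
  rw [mem_act_iff K u hu]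
  constructor
  · rintro ⟨χ, hχ, h⟩
    show SameBlock M ((ξ : K → ℂ) ∘ conjNorm K u hu) (χ' : K → ℂ)
    rw [h]
    exact sameBlock_comp_equiv (conjNorm K u hu) hχ
  · intro hχ'
    refine ⟨⟨(χ' : K → ℂ) ∘ (conjNorm K u hu).symm, isIrrCharacter_comp_equiv _ χ'.2⟩, ?_, ?_⟩
    · show SameBlock M (ξ : K → ℂ) ((χ' : K → ℂ) ∘ (conjNorm K u hu).symm)
      have h1 := sameBlock_comp_equiv (conjNorm K u hu).symm hχ'
      have h2 : ((ξ : K → ℂ) ∘ conjNorm K u hu) ∘ (conjNorm K u hu).symm = (ξ : K → ℂ) := by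
        funext k
        show (ξ : K → ℂ) (conjNorm K u hu ((conjNorm K u hu).symm k)) = _
        rw [MulEquiv.apply_symm_apply]
      rw [h2] at h1
      exact h1
    · funext k
      show (χ' : K → ℂ) k = (χ' : K → ℂ) ((conjNorm K u hu).symm (conjNorm K u hu k))
      rw [MulEquiv.symm_apply_apply]

theorem blockCoeff_act (K : Subgroup G) (u : G) (hu : u ∈ Subgroup.normalizer (K : Set G))
    (f : Set (IrrCharacter K)) (k : K) :
    blockCoeff (act K u f) k = blockCoeff f (conjNorm K u hu k) := by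
  unfold blockCoeff
  congr 1
  symm
  apply finsum_mem_eq_of_bijOn
    (fun χ : IrrCharacter K =>
      (⟨(χ : K → ℂ) ∘ conjNorm K u hu, isIrrCharacter_comp_equiv (conjNorm K u hu) χ.2⟩ :
        IrrCharacter K))
  · refine ⟨fun χ hχ => ?_, ?_, ?_⟩
    · exact (mem_act_iff K u hu f _).mpr ⟨χ, hχ, rfl⟩
    · intro χ₁ _ χ₂ _ h
      apply Subtype.ext
      have h1 : (χ₁ : K → ℂ) ∘ conjNorm K u hu = (χ₂ : K → ℂ) ∘ conjNorm K u hu :=
        congrArg Subtype.val h
      funext a
      have h2 := congrFun h1 ((conjNorm K u hu).symm a)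
      simpa using h2
    · intro χ' hχ'
      obtain ⟨χ, hχ, h⟩ := (mem_act_iff K u hu f χ').mp hχ'
      exact ⟨χ, hχ, Subtype.ext h.symm⟩
  · intro χ _
    show (χ : K → ℂ) 1 * conj ((χ : K → ℂ) (conjNorm K u hu k)) =
      (χ : K → ℂ) (conjNorm K u hu 1) * conj ((χ : K → ℂ) (conjNorm K u hu k))
    rw [map_one]

theorem stabilizes_of_act_eq (K : Subgroup G) (u : G)
    (hu : u ∈ Subgroup.normalizer (K : Set G)) (f : Set (IrrCharacter K))
    (h : act K u f = f) : StabilizesBlock K f u := by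
  refine ⟨hu, fun χ hχ => ⟨⟨(χ : K → ℂ) ∘ conjNorm K u hu,
    isIrrCharacter_comp_equiv _ χ.2⟩, ?_, isConjCharOf_conjNorm K u hu _⟩⟩
  have h1 : (⟨(χ : K → ℂ) ∘ conjNorm K u hu, isIrrCharacter_comp_equiv _ χ.2⟩ :
      IrrCharacter K) ∈ act K u f := (mem_act_iff K u hu f _).mpr ⟨χ, hχ, rfl⟩
  rw [h] at h1
  exact h1

omit [Finite G] in
theorem isClassFunction_res_extend (H L : Subgroup G) (hHL : H ≤ L) {φ : L → ℂ}
    (hφ : IsClassFunction L φ) : IsClassFunction H (resH H (extendByZero L φ)) := by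
  intro h k
  show extendByZero L φ ((k * h * k⁻¹ : H) : G) = extendByZero L φ (h : G)
  rw [extendByZero_mem L φ (hHL (k * h * k⁻¹).2), extendByZero_mem L φ (hHL h.2)]
  exact hφ ⟨(h : G), hHL h.2⟩ ⟨(k : G), hHL k.2⟩

end Act

section Main

variable {G : Type u} [Group G] [Fintype G] {M : Ideal AlgInt} {p : ℕ} [Fact p.Prime]

omit [Fact p.Prime] in
/-- The idempotents of disjoint sets of irreducible characters are orthogonal. -/
theorem conv_blockCoeff_disjoint (f f' : Set (IrrCharacter G)) (h : ∀ χ, χ ∈ f → χ ∉ f') :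
    conv (blockCoeff f) (blockCoeff f') = fun _ => 0 := by
  apply Cfsg.Agent.Lib_helper3_DefectLoc.om_ext (isClassFunction_conv (isClassFunction_blockCoeff f)
    (isClassFunction_blockCoeff f')) (fun _ _ => rfl)
  intro χ
  rw [om_conv χ.2 (isClassFunction_blockCoeff f) (isClassFunction_blockCoeff f')]
  have h0 : Om (χ : G → ℂ) (fun _ => 0) = 0 := by
    unfold Om
    simp
  rw [h0]
  by_cases hχ : χ ∈ f
  · rw [om_blockCoeff_of_not_mem (h χ hχ), mul_zero]
  · rw [om_blockCoeff_of_not_mem hχ, zero_mul]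

/-- The Brauer map at `P` is multiplicative on the idempotents of `P`-stable sets of characters
of the centralizer of a normal subgroup `Q` of `P`. -/
theorem om_res_conv (hM : IsPModular p M) (P Q : Subgroup G) (hP : IsPGroup p P) (hQP : Q ≤ P)
    (hPN : P ≤ Subgroup.normalizer (Q : Set G))
    [Fintype (Subgroup.centralizer (Q : Set G))] [Fintype (Subgroup.centralizer (P : Set G))]
    (f f' : Set (IrrCharacter (Subgroup.centralizer (Q : Set G))))
    (hf : ∀ k, MemLocalRing M (blockCoeff f k)) (hf' : ∀ k, MemLocalRing M (blockCoeff f' k))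
    (hstab : ∀ x ∈ P, StabilizesBlock (Subgroup.centralizer (Q : Set G)) f x)
    (hstab' : ∀ x ∈ P, StabilizesBlock (Subgroup.centralizer (Q : Set G)) f' x)
    (ξ : IrrCharacter (Subgroup.centralizer (P : Set G))) :
    MemLocalIdeal M
      (Om (ξ : Subgroup.centralizer (P : Set G) → ℂ)
        (resH (Subgroup.centralizer (P : Set G))
          (extendByZero (Subgroup.centralizer (Q : Set G))
            (conv (blockCoeff f) (blockCoeff f')))) -
      Om (ξ : Subgroup.centralizer (P : Set G) → ℂ)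
        (resH (Subgroup.centralizer (P : Set G))
          (subgroupBlockCoeff (Subgroup.centralizer (Q : Set G)) f)) *
      Om (ξ : Subgroup.centralizer (P : Set G) → ℂ)
        (resH (Subgroup.centralizer (P : Set G))
          (subgroupBlockCoeff (Subgroup.centralizer (Q : Set G)) f'))) := by
  classical
  have hMm : M.IsMaximal := hM.2.1
  have hMp : M.IsPrime := hMm.isPrime
  have hMtop := hMp.ne_top
  have hCPQ : Subgroup.centralizer (P : Set G) ≤ Subgroup.centralizer (Q : Set G) :=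
    Subgroup.centralizer_le (SetLike.coe_subset_coe.mpr hQP)
  obtain ⟨F₁, hF₁⟩ : ∃ F₁ : G → ℂ, F₁ = subgroupBlockCoeff (Subgroup.centralizer (Q : Set G)) f :=
    ⟨_, rfl⟩
  obtain ⟨F₂, hF₂⟩ : ∃ F₂ : G → ℂ, F₂ = subgroupBlockCoeff (Subgroup.centralizer (Q : Set G)) f' :=
    ⟨_, rfl⟩
  rw [← hF₁, ← hF₂]
  have hinv₁ : ∀ u ∈ P, ∀ g, F₁ (u * g * u⁻¹) = F₁ g := by
    intro u hu g
    rw [hF₁]
    exact subgroupBlockCoeff_conj_of_stab _ f u (hstab u hu) (hstab u⁻¹ (P.inv_mem hu)) g
  have hinv₂ : ∀ u ∈ P, ∀ g, F₂ (u * g * u⁻¹) = F₂ g := by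
    intro u hu g
    rw [hF₂]
    exact subgroupBlockCoeff_conj_of_stab _ f' u (hstab' u hu) (hstab' u⁻¹ (P.inv_mem hu)) g
  have hR₁ : ∀ g, MemLocalRing M (F₁ g) := by
    intro g
    rw [hF₁]
    by_cases hg : g ∈ Subgroup.centralizer (Q : Set G)
    · rw [subgroupBlockCoeff_of_mem _ _ hg]
      exact hf _
    · rw [subgroupBlockCoeff_of_not_mem _ _ hg]
      exact memLocalRing_zero hMtop
  have hR₂ : ∀ g, MemLocalRing M (F₂ g) := by
    intro g
    rw [hF₂]
    by_cases hg : g ∈ Subgroup.centralizer (Q : Set G)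
    · rw [subgroupBlockCoeff_of_mem _ _ hg]
      exact hf' _
    · rw [subgroupBlockCoeff_of_not_mem _ _ hg]
      exact memLocalRing_zero hMtop
  have htc := trunc_conv hM P hP hinv₁ hinv₂ hR₁ hR₂
  have hconv : conv F₁ F₂ = extendByZero (Subgroup.centralizer (Q : Set G))
      (conv (blockCoeff f) (blockCoeff f')) := by
    rw [hF₁, hF₂, subgroupBlockCoeff_eq_extend, subgroupBlockCoeff_eq_extend, conv_extendByZero]
  have hcl₁ : IsClassFunction (Subgroup.centralizer (P : Set G))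
      (resH (Subgroup.centralizer (P : Set G)) F₁) := by
    rw [hF₁, subgroupBlockCoeff_eq_extend]
    exact isClassFunction_res_extend _ _ hCPQ (isClassFunction_blockCoeff f)
  have hcl₂ : IsClassFunction (Subgroup.centralizer (P : Set G))
      (resH (Subgroup.centralizer (P : Set G)) F₂) := by
    rw [hF₂, subgroupBlockCoeff_eq_extend]
    exact isClassFunction_res_extend _ _ hCPQ (isClassFunction_blockCoeff f')
  have hcl₃ : IsClassFunction (Subgroup.centralizer (P : Set G))
      (resH (Subgroup.centralizer (P : Set G))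
        (extendByZero (Subgroup.centralizer (Q : Set G))
          (conv (blockCoeff f) (blockCoeff f')))) :=
    isClassFunction_res_extend _ _ hCPQ (isClassFunction_conv (isClassFunction_blockCoeff f)
      (isClassFunction_blockCoeff f'))
  have key : ∀ c : Subgroup.centralizer (P : Set G), MemLocalIdeal M
      ((resH (Subgroup.centralizer (P : Set G))
        (extendByZero (Subgroup.centralizer (Q : Set G))
          (conv (blockCoeff f) (blockCoeff f'))) -
        conv (resH (Subgroup.centralizer (P : Set G)) F₁)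
          (resH (Subgroup.centralizer (P : Set G)) F₂)) c) := by
    intro c
    rw [Pi.sub_apply]
    have h1 := htc (c : G)
    rw [trunc_of_mem P _ c.2, trunc_eq_extend P F₁, trunc_eq_extend P F₂, conv_extendByZero,
      extendByZero_coe, hconv] at h1
    exact h1
  have h5 := om_memLocalIdeal ξ.2 (isClassFunction_sub hcl₃ (isClassFunction_conv hcl₁ hcl₂)) key
  rw [om_sub, om_conv ξ.2 hcl₁ hcl₂] at h5
  exact h5

/-- Existence of a normal subpair below a Brauer pair. -/
theorem exists_normalSubpair (hM : IsPModular p M) (P Q : Subgroup G)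
    (e : Set (IrrCharacter (Subgroup.centralizer (P : Set G))))
    (hPe : IsBrauerPair p M P e) (hQP : Q ≤ P) (hPN : P ≤ Subgroup.normalizer (Q : Set G)) :
    ∃ f : Set (IrrCharacter (Subgroup.centralizer (Q : Set G))),
      IsNormalSubpair p M Q f P e := by
  classical
  have hMm : M.IsMaximal := hM.2.1
  have hMp : M.IsPrime := hMm.isPrime
  have hMtop := hMp.ne_top
  have hch : CharP (AlgInt ⧸ M) p := charP_quot hM
  have instQ : Fintype (Subgroup.centralizer (Q : Set G)) := Fintype.ofFinite _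
  have instP : Fintype (Subgroup.centralizer (P : Set G)) := Fintype.ofFinite _
  obtain ⟨hP, he⟩ := hPe
  have hQ : IsPGroup p Q := hP.to_le hQP
  obtain ⟨ξ₀, hξ₀⟩ := he
  have hCPQ : Subgroup.centralizer (P : Set G) ≤ Subgroup.centralizer (Q : Set G) :=
    Subgroup.centralizer_le (SetLike.coe_subset_coe.mpr hQP)
  have hnorm : ∀ u ∈ P, u ∈ Subgroup.normalizer
      ((Subgroup.centralizer (Q : Set G) : Subgroup G) : Set G) :=
    fun u hu => mem_normalizer_centralizer Q (hPN hu)
  let _ : MulAction P (Set (IrrCharacter (Subgroup.centralizer (Q : Set G)))) :=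
    { smul := fun u f => act (Subgroup.centralizer (Q : Set G)) (u : G) f
      one_smul := fun f => act_one _ f
      mul_smul := fun u v f => act_mul _ (u : G) (v : G) (hnorm u u.2) (hnorm v v.2) f }
  have hsmul : ∀ (u : P) (f : Set (IrrCharacter (Subgroup.centralizer (Q : Set G)))),
      u • f = act (Subgroup.centralizer (Q : Set G)) (u : G) f := fun _ _ => rfl
  obtain ⟨𝔅, h𝔅, hsum⟩ := exists_blocks_sum (G := Subgroup.centralizer (Q : Set G)) (M := M)
  have hall : ∀ ξ : IrrCharacter (Subgroup.centralizer (Q : Set G)),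
      blockOf M (ξ : Subgroup.centralizer (Q : Set G) → ℂ) ∈ 𝔅 := by
    intro ξ
    by_contra hnot
    have h1 := congrArg (Om (ξ : Subgroup.centralizer (Q : Set G) → ℂ)) hsum
    rw [om_sum, om_cpow ξ.2 (fun _ _ => rfl) 0, pow_zero] at h1
    have h2 : ∑ B ∈ 𝔅, Om (ξ : Subgroup.centralizer (Q : Set G) → ℂ) (blockCoeff B) = 0 := by
      apply Finset.sum_eq_zero
      intro B hB
      apply om_blockCoeff_of_not_mem
      intro hmem
      obtain ⟨χ, rfl⟩ := h𝔅 B hB
      exact hnot (by rw [blockOf_eq_of_mem hmem]; exact hB)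
    rw [h2] at h1
    exact zero_ne_one h1
  obtain ⟨Y, hYdef⟩ : ∃ Y : Set (IrrCharacter (Subgroup.centralizer (Q : Set G))) → ℂ,
      Y = fun f => Om (ξ₀ : Subgroup.centralizer (P : Set G) → ℂ)
        (resH (Subgroup.centralizer (P : Set G))
          (subgroupBlockCoeff (Subgroup.centralizer (Q : Set G)) f)) := ⟨_, rfl⟩
  have hcl : ∀ f : Set (IrrCharacter (Subgroup.centralizer (Q : Set G))),
      IsClassFunction (Subgroup.centralizer (P : Set G))
        (resH (Subgroup.centralizer (P : Set G))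
          (subgroupBlockCoeff (Subgroup.centralizer (Q : Set G)) f)) := by
    intro f
    rw [subgroupBlockCoeff_eq_extend]
    exact isClassFunction_res_extend _ _ hCPQ (isClassFunction_blockCoeff f)
  have hresR : ∀ f : Set (IrrCharacter (Subgroup.centralizer (Q : Set G))), IsPBlock M f →
      ∀ c : Subgroup.centralizer (P : Set G), MemLocalRing M
        (resH (Subgroup.centralizer (P : Set G))
          (subgroupBlockCoeff (Subgroup.centralizer (Q : Set G)) f) c) := by
    intro f hf c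
    show MemLocalRing M (subgroupBlockCoeff (Subgroup.centralizer (Q : Set G)) f (c : G))
    rw [subgroupBlockCoeff_of_mem _ _ (hCPQ c.2)]
    exact osima hf _
  have hYR : ∀ f ∈ 𝔅, MemLocalRing M (Y f) := by
    intro f hf
    rw [hYdef]
    exact memLocalRing_om ξ₀.2 (hcl f) (hresR f (h𝔅 f hf))
  have hYsum : ∑ f ∈ 𝔅, Y f = 1 := by
    have h1 : (fun c : Subgroup.centralizer (P : Set G) =>
        ∑ f ∈ 𝔅, resH (Subgroup.centralizer (P : Set G))
          (subgroupBlockCoeff (Subgroup.centralizer (Q : Set G)) f) c) =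
        cpow (fun _ : Subgroup.centralizer (P : Set G) => (0 : ℂ)) 0 := by
      funext c
      have h2 := congrFun hsum ⟨(c : G), hCPQ c.2⟩
      have h3 : ∑ f ∈ 𝔅, resH (Subgroup.centralizer (P : Set G))
          (subgroupBlockCoeff (Subgroup.centralizer (Q : Set G)) f) c =
          ∑ f ∈ 𝔅, blockCoeff f ⟨(c : G), hCPQ c.2⟩ := by
        apply Finset.sum_congr rfl
        intro f _
        show subgroupBlockCoeff (Subgroup.centralizer (Q : Set G)) f (c : G) = _
        rw [subgroupBlockCoeff_of_mem _ _ (hCPQ c.2)]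
      rw [h3, h2]
      unfold cpow
      by_cases hc : c = 1
      · rw [if_pos hc, if_pos (by rw [hc]; rfl)]
      · have hc' : ¬ ((⟨(c : G), hCPQ c.2⟩ : Subgroup.centralizer (Q : Set G)) = 1) :=
          fun h => hc (Subtype.ext (show (c : G) = 1 from congrArg Subtype.val h))
        rw [if_neg hc, if_neg hc']
    have h4 := om_sum (ξ₀ : Subgroup.centralizer (P : Set G) → ℂ) 𝔅
      (fun f => resH (Subgroup.centralizer (P : Set G))
        (subgroupBlockCoeff (Subgroup.centralizer (Q : Set G)) f))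
    rw [h1, om_cpow ξ₀.2 (fun _ _ => rfl) 0, pow_zero] at h4
    rw [hYdef]
    exact h4.symm
  have hYinv : ∀ (u : P) (f : Set (IrrCharacter (Subgroup.centralizer (Q : Set G)))),
      Y (u • f) = Y f := by
    intro u f
    rw [hYdef, hsmul]
    show Om _ _ = Om _ _
    congr 1
    funext c
    show subgroupBlockCoeff (Subgroup.centralizer (Q : Set G))
      (act (Subgroup.centralizer (Q : Set G)) (u : G) f) (c : G) =
      subgroupBlockCoeff (Subgroup.centralizer (Q : Set G)) f (c : G)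
    rw [subgroupBlockCoeff_of_mem _ _ (hCPQ c.2), subgroupBlockCoeff_of_mem _ _ (hCPQ c.2),
      blockCoeff_act _ (u : G) (hnorm u u.2)]
    congr 1
    apply Subtype.ext
    rw [conjNorm_apply]
    show (u : G)⁻¹ * (c : G) * (u : G) = (c : G)
    have h1 := (Subgroup.mem_centralizer_iff.mp c.2) (u : G) u.2
    rw [mul_assoc, ← h1, inv_mul_cancel_left]
  have hstab𝔅 : ∀ (u : P), ∀ f ∈ 𝔅, u • f ∈ 𝔅 := by
    intro u f hf
    obtain ⟨χ, rfl⟩ := h𝔅 f hf
    rw [hsmul, act_blockOf _ (u : G) (hnorm u u.2) χ]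
    exact hall ⟨_, isIrrCharacter_comp_equiv _ χ.2⟩
  have hΓ : IsPGroup p P := hP
  have horb : ∑ f ∈ 𝔅.filter (fun f => ¬ ∀ u : P, u • f = f), res M (Y f) = 0 := by
    apply sum_nonfixed_eq_zero hΓ 𝔅 hstab𝔅
    intro u f _
    rw [hYinv]
  have hres_sum : ∑ f ∈ 𝔅, res M (Y f) = 1 := by
    rw [← res_sum 𝔅 Y hYR, hYsum, res_one]
  have hsplit := Finset.sum_filter_add_sum_filter_not 𝔅 (fun f => ∀ u : P, u • f = f)
    (fun f => res M (Y f))
  rw [horb, add_zero, hres_sum] at hsplit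
  have hex : ∃ f ∈ 𝔅.filter (fun f => ∀ u : P, u • f = f), res M (Y f) ≠ 0 := by
    by_contra hno
    push Not at hno
    rw [Finset.sum_eq_zero hno] at hsplit
    exact zero_ne_one hsplit
  obtain ⟨f, hf, hfne⟩ := hex
  rw [Finset.mem_filter] at hf
  obtain ⟨hf𝔅, hfix⟩ := hf
  have hfblock : IsPBlock M f := h𝔅 f hf𝔅
  have hstab : ∀ x ∈ P, StabilizesBlock (Subgroup.centralizer (Q : Set G)) f x :=
    fun x hx => stabilizes_of_act_eq _ x (hnorm x hx) f (hfix ⟨x, hx⟩)
  have hYnot : ¬ MemLocalIdeal M (Y f) :=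
    fun h => hfne ((res_eq_zero_iff (hYR f hf𝔅)).mpr h)
  have hfR : ∀ k, MemLocalRing M (blockCoeff f k) := fun k => osima hfblock k
  have hmult := om_res_conv hM P Q hP hQP hPN f f hfR hfR hstab hstab ξ₀
  rw [conv_blockCoeff, ← subgroupBlockCoeff_eq_extend] at hmult
  have hYf : Y f = Om (ξ₀ : Subgroup.centralizer (P : Set G) → ℂ)
        (resH (Subgroup.centralizer (P : Set G))
          (subgroupBlockCoeff (Subgroup.centralizer (Q : Set G)) f)) := by
    rw [hYdef]
  rw [← hYf] at hmult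
  have hY1 : MemLocalIdeal M (Y f - 1) := by
    by_contra hnot1
    have h1 := not_memLocalIdeal_mul (hYR f hf𝔅) hYnot
      (memLocalRing_sub (hYR f hf𝔅) (memLocalRing_one hMtop)) hnot1
    apply h1
    have h2 := memLocalIdeal_neg hmult
    have h3 : -(Y f - Y f * Y f) = Y f * (Y f - 1) := by ring
    rw [h3] at h2
    exact h2
  refine ⟨f, ⟨hQ, hfblock⟩, ⟨hP, ⟨ξ₀, hξ₀⟩⟩, hQP, hPN, hstab, fun ξ hξ => ?_⟩
  rw [brauerOmega_eq_om]
  have hsb : SameBlock M (ξ : Subgroup.centralizer (P : Set G) → ℂ)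
      (ξ₀ : Subgroup.centralizer (P : Set G) → ℂ) := by
    rw [hξ₀] at hξ
    exact sameBlock_symm hξ
  have h1 := om_congr (isClassFunction_of_irr ξ.2) (isClassFunction_of_irr ξ₀.2) hsb (hcl f)
    (hresR f hfblock)
  rw [← hYf] at h1
  have h2 := memLocalIdeal_add h1 hY1
  rw [sub_add_sub_cancel] at h2
  exact h2

/-- Uniqueness of the normal subpair below a Brauer pair. -/
theorem normalSubpair_unique (hM : IsPModular p M) (P Q : Subgroup G)
    (e : Set (IrrCharacter (Subgroup.centralizer (P : Set G))))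
    (f f' : Set (IrrCharacter (Subgroup.centralizer (Q : Set G))))
    (h : IsNormalSubpair p M Q f P e) (h' : IsNormalSubpair p M Q f' P e) : f = f' := by
  classical
  have hMm : M.IsMaximal := hM.2.1
  have hMp : M.IsPrime := hMm.isPrime
  have hMtop := hMp.ne_top
  have instQ : Fintype (Subgroup.centralizer (Q : Set G)) := Fintype.ofFinite _
  have instP : Fintype (Subgroup.centralizer (P : Set G)) := Fintype.ofFinite _
  obtain ⟨⟨hQ, hf⟩, ⟨hP, he⟩, hQP, hPN, hstab, hbr⟩ := h
  obtain ⟨⟨-, hf'⟩, -, -, -, hstab', hbr'⟩ := h'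
  have hCPQ : Subgroup.centralizer (P : Set G) ≤ Subgroup.centralizer (Q : Set G) :=
    Subgroup.centralizer_le (SetLike.coe_subset_coe.mpr hQP)
  by_contra hne
  obtain ⟨ξ₀, hξ₀⟩ := he
  have hξ₀e : ξ₀ ∈ e := by
    rw [hξ₀]
    exact mem_blockOf_self hMtop ξ₀
  have hfR : ∀ k, MemLocalRing M (blockCoeff f k) := fun k => osima hf k
  have hfR' : ∀ k, MemLocalRing M (blockCoeff f' k) := fun k => osima hf' k
  have hdisj : ∀ χ, χ ∈ f → χ ∉ f' := by
    intro χ hχ hχ'
    obtain ⟨χ₁, rfl⟩ := hf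
    obtain ⟨χ₂, rfl⟩ := hf'
    exact hne ((blockOf_eq_of_mem hχ).symm.trans (blockOf_eq_of_mem hχ'))
  have hmult := om_res_conv hM P Q hP hQP hPN f f' hfR hfR' hstab hstab' ξ₀
  rw [conv_blockCoeff_disjoint f f' hdisj] at hmult
  have h0 : Om (ξ₀ : Subgroup.centralizer (P : Set G) → ℂ)
      (resH (Subgroup.centralizer (P : Set G))
        (extendByZero (Subgroup.centralizer (Q : Set G)) (fun _ => 0))) = 0 := by
    have h00 : ∀ c : Subgroup.centralizer (P : Set G),
        resH (Subgroup.centralizer (P : Set G))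
          (extendByZero (Subgroup.centralizer (Q : Set G)) (fun _ => (0 : ℂ))) c = 0 := by
      intro c
      show extendByZero (Subgroup.centralizer (Q : Set G)) (fun _ => (0 : ℂ)) (c : G) = 0
      rw [extendByZero_mem _ _ (hCPQ c.2)]
    unfold Om
    simp only [h00, zero_mul, Finset.sum_const_zero, zero_div]
  rw [h0, zero_sub] at hmult
  have h1 := hbr ξ₀ hξ₀e
  have h2 := hbr' ξ₀ hξ₀e
  rw [brauerOmega_eq_om] at h1 h2
  obtain ⟨Y, hY⟩ : ∃ Y : ℂ, Y = Om (ξ₀ : Subgroup.centralizer (P : Set G) → ℂ)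
        (resH (Subgroup.centralizer (P : Set G))
          (subgroupBlockCoeff (Subgroup.centralizer (Q : Set G)) f)) := ⟨_, rfl⟩
  obtain ⟨Y', hY'⟩ : ∃ Y' : ℂ, Y' = Om (ξ₀ : Subgroup.centralizer (P : Set G) → ℂ)
        (resH (Subgroup.centralizer (P : Set G))
          (subgroupBlockCoeff (Subgroup.centralizer (Q : Set G)) f')) := ⟨_, rfl⟩
  rw [← hY] at h1 hmult
  rw [← hY'] at h2 hmult
  have hYR' : MemLocalRing M Y' := by
    have h3 := memLocalRing_add (memLocalRing_of_memLocalIdeal h2) (memLocalRing_one hMtop)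
    rwa [sub_add_cancel] at h3
  have h4 := memLocalIdeal_mul_left hYR' h1
  have h5 := memLocalIdeal_sub (memLocalIdeal_sub (memLocalIdeal_neg hmult) h4) h2
  have h6 : -(-(Y * Y')) - Y' * (Y - 1) - (Y' - 1) = 1 := by ring
  rw [h6] at h5
  exact not_memLocalIdeal_one h5

end Main

end Cfsg.Agent.Lib_helper3_NormalSubpair
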