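import Mathlib
import Cfsg.Prelude.Def_Characters
import Cfsg.Prelude.Def_Blocks
import Cfsg.Prelude.Def_BlockLocal
import Cfsg.Prelude.Def_BrauerPairs
import Cfsg.Agent.Lib_helper3_NormalSubpair
import Cfsg.Agent.Lib_helper3_BlockCover
import Cfsg.Agent.Lib_helper3_ThirdMain

set_option autoImplicit false
open Cfsg
open Cfsg.Agent.Lib_helper3_CharBasic Cfsg.Agent.Lib_helper3_CharMore
  Cfsg.Agent.Lib_helper3_Local Cfsg.Agent.Lib_helper3_Local2 Cfsg.Agent.Lib_helper3_BlockAlg
  Cfsg.Agent.Lib_helper3_IdemSupp Cfsg.Agent.Lib_helper3_Residue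
  Cfsg.Agent.Lib_helper3_BrauerHom Cfsg.Agent.Lib_helper3_BrauerHom2
  Cfsg.Agent.Lib_helper3_BrauerHom3 Cfsg.Agent.Lib_helper3_ExtFirstMain
  Cfsg.Agent.Lib_helper3_BrauerPair Cfsg.Agent.Lib_helper3_NilPrincipal
  Cfsg.Agent.Lib_helper3_PrincipalPairs Cfsg.Agent.Lib_helper3_BrauerTrunc
  Cfsg.Agent.Lib_helper3_CharInd Cfsg.Agent.Lib_helper3_SecondMain3
  Cfsg.Agent.Lib_helper3_SubpairBlock Cfsg.Agent.Lib_helper3_NormalSubpair
  Cfsg.Agent.Lib_helper3_BlockCover Cfsg.Agent.Lib_helper3_BlockInd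
  Cfsg.Agent.Lib_helper3_ThirdMain
open scoped ComplexConjugate

namespace Cfsg.Agent.Lib_helper3_StableBlock

attribute [local instance] Ideal.Quotient.field

universe u

section Part1

variable {G : Type u} [Group G] [Fintype G] {M : Ideal AlgInt} {p : ℕ} [Fact p.Prime]

omit [Fintype G] in
/-- An element outside a normal subgroup of `p`-power index has order divisible by `p`. -/
theorem dvd_orderOf_of_not_mem (N : Subgroup G) [N.Normal] (hN : ∃ k : ℕ, N.index = p ^ k)
    (g : G) (hg : g ∉ N) : p ∣ orderOf g := by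
  by_contra hnot
  obtain ⟨k, hk⟩ := hN
  have hp : p.Prime := Fact.out
  have hcop : (p ^ k).Coprime (orderOf g) :=
    Nat.Coprime.pow_left k ((Nat.Prime.coprime_iff_not_dvd hp).mpr hnot)
  obtain ⟨m, hm⟩ := exists_pow_eq_self_of_coprime hcop
  apply hg
  rw [← hm]
  apply Subgroup.pow_mem
  rw [← hk]
  exact Subgroup.pow_index_mem N g

omit [Fact p.Prime] in
theorem om_zero_fun (χ : G → ℂ) : Om χ (fun _ => 0) = 0 := by
  unfold Om
  simp

omit [Fact p.Prime] in
/-- The central character values of an idempotent class function are `0` or `1`. -/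
theorem om_idem {β : G → ℂ} (hβcl : IsClassFunction G β) (hββ : conv β β = β)
    (χ : IrrCharacter G) : Om (χ : G → ℂ) β = 0 ∨ Om (χ : G → ℂ) β = 1 := by
  have h1 := om_conv χ.2 hβcl hβcl
  rw [hββ] at h1
  by_cases h0 : Om (χ : G → ℂ) β = 0
  · exact Or.inl h0
  · right
    have h2 : Om (χ : G → ℂ) β * 1 = Om (χ : G → ℂ) β * Om (χ : G → ℂ) β := by
      rw [mul_one]
      exact h1
    exact (mul_left_cancel₀ h0 h2).symm

/-- A stable block of a normal subgroup of `p`-power index is a block idempotent of the whole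
group. -/
theorem exists_block_of_stable (hM : IsPModular p M) (N : Subgroup G) [N.Normal]
    (hN : ∃ k : ℕ, N.index = p ^ k) (c : Set (IrrCharacter N)) (hc : IsPBlock M c)
    (hst : ∀ x : G, StabilizesBlock N c x) :
    ∃ B : Set (IrrCharacter G), IsPBlock M B ∧
      ∀ g : G, blockCoeff B g = subgroupBlockCoeff N c g := by
  classical
  have hMm : M.IsMaximal := hM.2.1
  have hMp : M.IsPrime := hMm.isPrime
  have hMtop := hMp.ne_top
  have instN : Fintype N := Fintype.ofFinite _
  obtain ⟨β, hβ⟩ : ∃ β : G → ℂ, β = subgroupBlockCoeff N c := ⟨_, rfl⟩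
  have hβext : β = extendByZero N (blockCoeff c) := by
    rw [hβ, subgroupBlockCoeff_eq_extend]
  have hβcl : IsClassFunction G β := by
    intro g h
    rw [hβ]
    exact subgroupBlockCoeff_conj_of_stab N c h (hst h) (hst h⁻¹) g
  have hββ : conv β β = β := by
    rw [hβext, conv_extendByZero, conv_blockCoeff]
  have hom01 := om_idem hβcl hββ
  have hcblock : IsPBlock M c := hc
  obtain ⟨θ₀, hθ₀⟩ := hc
  have hθ₀c : θ₀ ∈ c := by
    rw [hθ₀]
    exact mem_blockOf_self hMtop θ₀
  have hcR : ∀ n, MemLocalRing M (blockCoeff c n) := fun n => osima hcblock n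
  have hex : ∃ χ₀ : IrrCharacter G, Om (χ₀ : G → ℂ) β = 1 := by
    by_contra hno
    push Not at hno
    have hzero : β = fun _ => 0 := by
      apply Cfsg.Agent.Lib_helper3_DefectLoc.om_ext hβcl (fun _ _ => rfl)
      intro χ
      rw [om_zero_fun]
      rcases hom01 χ with h | h
      · exact h
      · exact absurd h (hno χ)
    have h1 : blockCoeff c = fun _ => 0 := by
      funext n
      have h2 := congrFun hzero (n : G)
      rw [hβext, extendByZero_coe] at h2
      exact h2
    have h3 := om_blockCoeff_of_mem hθ₀c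
    rw [h1, om_zero_fun] at h3
    exact zero_ne_one h3
  obtain ⟨χ₀, hχ₀⟩ := hex
  obtain ⟨B, hBdef⟩ : ∃ B : Set (IrrCharacter G), B = blockOf M (χ₀ : G → ℂ) := ⟨_, rfl⟩
  have hB : IsPBlock M B := ⟨χ₀, hBdef⟩
  have hχ₀B : χ₀ ∈ B := by
    rw [hBdef]
    exact mem_blockOf_self hMtop χ₀
  have hBR : ∀ g, MemLocalRing M (blockCoeff B g) := fun g => osima hB g
  have hβR : ∀ g, MemLocalRing M (β g) := by
    intro g
    rw [hβext]
    by_cases hg : g ∈ N
    · rw [extendByZero_mem _ _ hg]
      exact hcR _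
    · rw [extendByZero_not_mem _ _ hg]
      exact memLocalRing_zero hMtop
  have hBβ : ∀ χ ∈ B, Om (χ : G → ℂ) β = 1 := by
    intro χ hχ
    rcases hom01 χ with h | h
    · exfalso
      have hsb : SameBlock M (χ₀ : G → ℂ) (χ : G → ℂ) := by
        rw [hBdef] at hχ
        exact hχ
      have h1 := om_congr (isClassFunction_of_irr χ₀.2) (isClassFunction_of_irr χ.2) hsb hβcl hβR
      rw [hχ₀, h, sub_zero] at h1
      exact not_memLocalIdeal_one h1
    · exact h
  obtain ⟨φ, hφ⟩ : ∃ φ : N → ℂ, φ = resH N (blockCoeff B) := ⟨_, rfl⟩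
  have hext : blockCoeff B = extendByZero N φ := by
    funext g
    by_cases hg : g ∈ N
    · rw [extendByZero_mem _ _ hg, hφ]
      rfl
    · rw [extendByZero_not_mem _ _ hg]
      exact blockCoeff_eq_zero_of_singular hM hBR g (dvd_orderOf_of_not_mem N hN g hg)
  have hBconv : conv (blockCoeff B) β = blockCoeff B := by
    apply Cfsg.Agent.Lib_helper3_DefectLoc.om_ext
      (isClassFunction_conv (isClassFunction_blockCoeff B) hβcl) (isClassFunction_blockCoeff B)
    intro χ
    rw [om_conv χ.2 (isClassFunction_blockCoeff B) hβcl]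
    by_cases hχ : χ ∈ B
    · rw [hBβ χ hχ, mul_one]
    · rw [om_blockCoeff_of_not_mem hχ, zero_mul]
  have hφc : conv φ (blockCoeff c) = φ := by
    funext n
    have h1 := congrFun hBconv (n : G)
    rw [hext, hβext, conv_extendByZero, extendByZero_coe, extendByZero_coe] at h1
    exact h1
  have hφφ : conv φ φ = φ := by
    funext n
    have h1 := congrFun (conv_blockCoeff B) (n : G)
    rw [hext, conv_extendByZero, extendByZero_coe, extendByZero_coe] at h1
    exact h1
  have hφcl : IsClassFunction N φ := by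
    rw [hφ]
    exact isClassFunction_resH N (isClassFunction_blockCoeff B)
  have hφR : ∀ n, MemLocalRing M (φ n) := by
    intro n
    rw [hφ]
    exact hBR _
  have ha01 := om_idem hφcl hφφ
  have ha0 : ∀ θ : IrrCharacter N, θ ∉ c → Om (θ : N → ℂ) φ = 0 := by
    intro θ hθ
    have h1 := om_conv θ.2 hφcl (isClassFunction_blockCoeff c)
    rw [hφc, om_blockCoeff_of_not_mem hθ, mul_zero] at h1
    exact h1
  have hex1 : ∃ θ₁ ∈ c, Om (θ₁ : N → ℂ) φ = 1 := by
    by_contra hno
    push Not at hno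
    have hzero : φ = fun _ => 0 := by
      apply Cfsg.Agent.Lib_helper3_DefectLoc.om_ext hφcl (fun _ _ => rfl)
      intro θ
      rw [om_zero_fun]
      by_cases hθ : θ ∈ c
      · rcases ha01 θ with h | h
        · exact h
        · exact absurd h (hno θ hθ)
      · exact ha0 θ hθ
    have h1 : blockCoeff B = fun _ => 0 := by
      rw [hext, hzero]
      funext g
      by_cases hg : g ∈ N
      · rw [extendByZero_mem _ _ hg]
      · rw [extendByZero_not_mem _ _ hg]
    have h3 := om_blockCoeff_of_mem hχ₀B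
    rw [h1, om_zero_fun] at h3
    exact zero_ne_one h3
  obtain ⟨θ₁, hθ₁c, hθ₁⟩ := hex1
  have ha1 : ∀ θ : IrrCharacter N, θ ∈ c → Om (θ : N → ℂ) φ = 1 := by
    intro θ hθ
    rcases ha01 θ with h | h
    · exfalso
      have hsb : SameBlock M (θ₁ : N → ℂ) (θ : N → ℂ) := sameBlock_of_mem hcblock hθ₁c hθ
      have h1 := om_congr (isClassFunction_of_irr θ₁.2) (isClassFunction_of_irr θ.2) hsb hφcl hφR
      rw [hθ₁, h, sub_zero] at h1
      exact not_memLocalIdeal_one h1
    · exact h
  have hφeq : φ = blockCoeff c := funext (fun n => eq_blockCoeff hφcl ha1 ha0 n)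
  refine ⟨B, hB, fun g => ?_⟩
  rw [hext, hφeq, ← subgroupBlockCoeff_eq_extend]

end Part1

section GroupLemmas

variable {G : Type u} [Group G] [Finite G] {p : ℕ} [Fact p.Prime]

/-- A Sylow `p`-subgroup meets a normal subgroup in a Sylow `p`-subgroup of it (cardinality
form). -/
theorem card_sylow_inf_normal (S : Sylow p G) (N : Subgroup G) [N.Normal] :
    Nat.card ((S : Subgroup G) ⊓ N : Subgroup G) = p ^ (Nat.card N).factorization p := by
  have hp : p.Prime := Fact.out
  have h1 : (S : Subgroup G).relIndex N * N.index = ((S : Subgroup G) ⊓ N).index := by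
    have h := Subgroup.relIndex_inf_mul_relIndex (S : Subgroup G) N ⊤
    rwa [inf_top_eq, Subgroup.relIndex_top_right, Subgroup.relIndex_top_right] at h
  have h2 : N.relIndex (S : Subgroup G) * (S : Subgroup G).index =
      (N ⊓ (S : Subgroup G)).index := by
    have h := Subgroup.relIndex_inf_mul_relIndex N (S : Subgroup G) ⊤
    rwa [inf_top_eq, Subgroup.relIndex_top_right, Subgroup.relIndex_top_right] at h
  rw [inf_comm] at h2
  have h3 : (S : Subgroup G).relIndex N * N.index =
      N.relIndex (S : Subgroup G) * (S : Subgroup G).index := h1.trans h2.symm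
  have h4 : N.relIndex (S : Subgroup G) ∣ N.index := by
    rw [← Subgroup.relIndex_sup_right (S : Subgroup G) N]
    exact Subgroup.relIndex_dvd_index_of_le le_sup_right
  have hne : N.relIndex (S : Subgroup G) ≠ 0 := Subgroup.index_ne_zero_of_finite
  have hne' : (S : Subgroup G).relIndex N ≠ 0 := Subgroup.index_ne_zero_of_finite
  have h5 : ¬ p ∣ (S : Subgroup G).relIndex N := by
    intro hdvd
    obtain ⟨t, ht⟩ := h4
    rw [ht] at h3
    have h6 : (S : Subgroup G).relIndex N * t = (S : Subgroup G).index := by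
      have h7 : N.relIndex (S : Subgroup G) * ((S : Subgroup G).relIndex N * t) =
          N.relIndex (S : Subgroup G) * (S : Subgroup G).index := by
        rw [← h3]
        ring
      exact Nat.eq_of_mul_eq_mul_left (Nat.pos_of_ne_zero hne) h7
    apply S.not_dvd_index
    rw [← h6]
    exact Dvd.dvd.mul_right hdvd t
  have h7 : Nat.card ((S : Subgroup G).subgroupOf N) * (S : Subgroup G).relIndex N =
      Nat.card N := Subgroup.card_mul_index _
  have h8 : Nat.card ((S : Subgroup G).subgroupOf N) =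
      Nat.card ((S : Subgroup G) ⊓ N : Subgroup G) := by
    rw [← Subgroup.subgroupOf_map_subtype,
      Subgroup.card_map_of_injective (Subgroup.subtype_injective _)]
  have hpg : IsPGroup p ((S : Subgroup G) ⊓ N : Subgroup G) := S.2.to_le inf_le_left
  obtain ⟨n, hn⟩ := IsPGroup.iff_card.mp hpg
  rw [h8, hn] at h7
  rw [hn, ← h7, Nat.factorization_mul (pow_ne_zero _ hp.ne_zero) hne',
    Nat.Prime.factorization_pow hp, Finsupp.add_apply, Finsupp.single_eq_same,
    Nat.factorization_eq_zero_of_not_dvd h5, add_zero]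

/-- If `N` is normal of `p`-power index and `Z N = G`, a Sylow `p`-subgroup of `Z` covers
`G / N` and meets `N` in a Sylow `p`-subgroup of `Z ∩ N`. -/
theorem sylow_sup_normal (N : Subgroup G) [N.Normal] (hN : ∃ k : ℕ, N.index = p ^ k)
    (Z : Subgroup G) (hZN : Z ⊔ N = ⊤) (S' : Sylow p Z) :
    N ⊔ (S' : Subgroup Z).map Z.subtype = ⊤ ∧
    Nat.card ((S' : Subgroup Z).map Z.subtype ⊓ N : Subgroup G) =
      p ^ (Nat.card (Z ⊓ N : Subgroup G)).factorization p := by
  have hp : p.Prime := Fact.out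
  obtain ⟨k, hk⟩ := hN
  have hNZ : (N.subgroupOf Z).Normal := Subgroup.normal_subgroupOf
  have hidx : (N.subgroupOf Z).index = p ^ k := by
    have h1 : N.relIndex Z = N.relIndex (Z ⊔ N) := (Subgroup.relIndex_sup_right Z N).symm
    rw [hZN, Subgroup.relIndex_top_right, hk] at h1
    exact h1
  constructor
  · have hT : (S' : Subgroup Z) ⊔ N.subgroupOf Z = ⊤ := by
      rw [← Subgroup.index_eq_one]
      have h1 : ((S' : Subgroup Z) ⊔ N.subgroupOf Z).index ∣ p ^ k := by
        rw [← hidx]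
        exact Subgroup.index_dvd_of_le le_sup_right
      have h2 : ((S' : Subgroup Z) ⊔ N.subgroupOf Z).index ∣ (S' : Subgroup Z).index :=
        Subgroup.index_dvd_of_le le_sup_left
      obtain ⟨j, -, hj⟩ := (Nat.dvd_prime_pow hp).mp h1
      rw [hj] at h2 ⊢
      cases j with
      | zero => exact pow_zero p
      | succ j =>
        exact absurd (dvd_trans (dvd_pow_self p (Nat.succ_ne_zero j)) h2) S'.not_dvd_index
    have hZle : Z ≤ N ⊔ (S' : Subgroup Z).map Z.subtype := by
      intro z hz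
      have h1 : (⟨z, hz⟩ : Z) ∈ (S' : Subgroup Z) ⊔ N.subgroupOf Z := by
        rw [hT]
        trivial
      have h2 : z ∈ ((S' : Subgroup Z) ⊔ N.subgroupOf Z).map Z.subtype := ⟨⟨z, hz⟩, h1, rfl⟩
      rw [Subgroup.map_sup, Subgroup.subgroupOf_map_subtype] at h2
      have h3 : (S' : Subgroup Z).map Z.subtype ⊔ N ⊓ Z ≤
          N ⊔ (S' : Subgroup Z).map Z.subtype :=
        sup_le le_sup_right (inf_le_left.trans le_sup_left)
      exact h3 h2
    rw [eq_top_iff, ← hZN]
    exact sup_le hZle le_sup_left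
  · have h1 := card_sylow_inf_normal S' (N.subgroupOf Z)
    have h2 : Nat.card (N.subgroupOf Z) = Nat.card (Z ⊓ N : Subgroup G) := by
      rw [← Subgroup.card_map_of_injective (Subgroup.subtype_injective Z),
        Subgroup.subgroupOf_map_subtype, inf_comm]
    have h4 : (S' : Subgroup Z).map Z.subtype ⊓ (N ⊓ Z) = (S' : Subgroup Z).map Z.subtype ⊓ N := by
      rw [inf_comm N Z, ← inf_assoc, inf_eq_left.mpr (Subgroup.map_subtype_le _)]
    have h3 : Nat.card ((S' : Subgroup Z) ⊓ N.subgroupOf Z : Subgroup Z) =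
        Nat.card ((S' : Subgroup Z).map Z.subtype ⊓ N : Subgroup G) := by
      rw [← Subgroup.card_map_of_injective (Subgroup.subtype_injective Z),
        Subgroup.map_inf _ _ _ (Subgroup.subtype_injective Z), Subgroup.subgroupOf_map_subtype, h4]
    rw [← h3, ← h2]
    exact h1

end GroupLemmas

section Part2

variable {G : Type u} [Group G] [Fintype G] {M : Ideal AlgInt} {p : ℕ} [Fact p.Prime]

omit [Fintype G] [Fact p.Prime] in
theorem res_eq_of_sub [hMm : M.IsMaximal] {x y : ℂ} (hy : MemLocalRing M y)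
    (h : MemLocalIdeal M (x - y)) : res M x = res M y := by
  have hMp : M.IsPrime := hMm.isPrime
  have h1 := res_add (memLocalRing_of_memLocalIdeal h) hy
  rw [sub_add_cancel] at h1
  rw [h1, (res_eq_zero_iff (memLocalRing_of_memLocalIdeal h)).mpr h, zero_add]

omit [Fact p.Prime] in
theorem invariant_of_stab (N : Subgroup G) [hNn : N.Normal] (c : Set (IrrCharacter N))
    (hst : ∀ x : G, StabilizesBlock N c x) : Invariant N c := by
  intro θ hθ x
  obtain ⟨θ', hθ', hconj⟩ := (hst x⁻¹).2 θ hθ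
  have h1 : conjIrr N x θ = θ' := by
    apply Subtype.ext
    funext n
    have h2 := hconj ⟨x * (n : G) * x⁻¹, hNn.conj_mem n n.2 x⟩ n (by
      show (n : G) = x⁻¹ * (x * (n : G) * x⁻¹) * x⁻¹⁻¹
      group)
    exact h2.symm
  rw [h1]
  exact hθ'

/-- For a stable block `c` of a normal subgroup `N` of `p`-power index, an element of `N` at
which the central character of a character over `c` is a unit has its class fused only by
`N`. -/
theorem class_fusion (hM : IsPModular p M) (N : Subgroup G) [hNn : N.Normal] [Fintype N]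
    (hN : ∃ k : ℕ, N.index = p ^ k) (c : Set (IrrCharacter N)) (hc : IsPBlock M c)
    (hinv : Invariant N c) (χ : IrrCharacter G) (θ₁ : IrrCharacter N) (hθ₁ : θ₁ ∈ c)
    (hχθ : classInner (fun n : N => (χ : G → ℂ) n) (θ₁ : N → ℂ) ≠ 0)
    (g : G) (hgN : g ∈ N) (hcc : ¬ MemLocalIdeal M (centralChar (χ : G → ℂ) g)) :
    ∀ x : G, ∃ n ∈ N, x * g * x⁻¹ = n * g * n⁻¹ := by
  classical
  have hp : p.Prime := Fact.out
  have hMm : M.IsMaximal := hM.2.1
  have hMp : M.IsPrime := hMm.isPrime
  have hMtop := hMp.ne_top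
  have hch : CharP (AlgInt ⧸ M) p := charP_quot hM
  have instC : Fintype (ConjClasses N) := Fintype.ofFinite _
  obtain ⟨S⟩ : Nonempty (Sylow p G) := inferInstance
  have hNS : N ⊔ (S : Subgroup G) = ⊤ := by
    obtain ⟨k, hk⟩ := hN
    rw [← Subgroup.index_eq_one]
    have h1 : (N ⊔ (S : Subgroup G)).index ∣ p ^ k := by
      rw [← hk]
      exact Subgroup.index_dvd_of_le le_sup_left
    have h2 : (N ⊔ (S : Subgroup G)).index ∣ (S : Subgroup G).index :=
      Subgroup.index_dvd_of_le le_sup_right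
    obtain ⟨j, -, hj⟩ := (Nat.dvd_prime_pow hp).mp h1
    rw [hj] at h2 ⊢
    cases j with
    | zero => exact pow_zero p
    | succ j =>
      exact absurd (dvd_trans (dvd_pow_self p (Nat.succ_ne_zero j)) h2) S.not_dvd_index
  let _ : MulAction (S : Subgroup G) (ConjClasses N) :=
    { smul := fun s C => ConjClasses.map ((MulAut.conjNormal (s : G) : N ≃* N).toMonoidHom) C
      one_smul := fun C => by
        refine Quotient.inductionOn C (fun a => ?_)
        show ConjClasses.mk ((MulAut.conjNormal ((1 : (S : Subgroup G)) : G) : N ≃* N) a) =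
          ConjClasses.mk a
        rw [Subgroup.coe_one, map_one]
        rfl
      mul_smul := fun s t C => by
        refine Quotient.inductionOn C (fun a => ?_)
        show ConjClasses.mk ((MulAut.conjNormal ((s * t : (S : Subgroup G)) : G) : N ≃* N) a) =
          ConjClasses.mk ((MulAut.conjNormal (s : G) : N ≃* N)
            ((MulAut.conjNormal (t : G) : N ≃* N) a))
        rw [Subgroup.coe_mul, map_mul]
        rfl }
  have hsmul : ∀ (s : (S : Subgroup G)) (a : N), s • (ConjClasses.mk a : ConjClasses N) =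
      ConjClasses.mk ⟨(s : G) * (a : G) * (s : G)⁻¹, hNn.conj_mem a a.2 (s : G)⟩ := by
    intro s a
    show ConjClasses.mk ((MulAut.conjNormal (s : G) : N ≃* N) a) = _
    congr 1
  have hsmul' : ∀ (s : (S : Subgroup G)) (C : ConjClasses N), s • C =
      ConjClasses.mk ⟨(s : G) * ((Quotient.out C : N) : G) * (s : G)⁻¹,
        hNn.conj_mem _ (Quotient.out C).2 (s : G)⟩ := by
    intro s C
    have hC : C = ConjClasses.mk (Quotient.out C) := (Quotient.out_eq C).symm
    conv_lhs => rw [hC]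
    exact hsmul s _
  obtain ⟨r, hr⟩ : ∃ r : ConjClasses N → AlgInt ⧸ M,
      r = fun C => res M (centralChar (θ₁ : N → ℂ) (Quotient.out C)) := ⟨_, rfl⟩
  obtain ⟨𝓛, h𝓛⟩ : ∃ 𝓛 : Finset (ConjClasses N), 𝓛 = Finset.univ.filter
      (fun C : ConjClasses N => IsConj g ((Quotient.out C : N) : G)) := ⟨_, rfl⟩
  have hθcl := isClassFunction_of_irr θ₁.2
  have hccl : ∀ a b : N, IsConj a b →
      centralChar (θ₁ : N → ℂ) a = centralChar (θ₁ : N → ℂ) b := by
    intro a b hab
    obtain ⟨k, hk⟩ := isConj_iff.mp hab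
    rw [← hk]
    exact (Cfsg.Agent.Lib_helper3_DefectLoc2.centralChar_conj hθcl a k).symm
  have hout : ∀ a : N, IsConj (Quotient.out (ConjClasses.mk a)) a := by
    intro a
    rw [← ConjClasses.mk_eq_mk_iff_isConj]
    exact Quotient.out_eq _
  have hcoe : ∀ a b : N, IsConj a b → IsConj (a : G) (b : G) := by
    intro a b hab
    obtain ⟨k, hk⟩ := isConj_iff.mp hab
    exact isConj_iff.mpr ⟨(k : G), by rw [← hk]; rfl⟩
  have hθR : ∀ a : N, MemLocalRing M (centralChar (θ₁ : N → ℂ) a) :=
    fun a => memLocalRing_centralChar θ₁.2 a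
  have hsum : centralChar (χ : G → ℂ) g =
      ∑ C ∈ 𝓛, centralChar (θ₁ : N → ℂ) (Quotient.out C) := by
    have h1 : centralChar (χ : G → ℂ) g = inducedCentralChar N (θ₁ : N → ℂ) g :=
      centralChar_eq_of_constituent N χ θ₁ hχθ ⟨g, hgN⟩
    rw [h1, inducedCentralChar_eq_om, om_eq_sum_conjClasses hθcl (isClassFunction_fusInd g),
      h𝓛, Finset.sum_filter]
    apply Finset.sum_congr rfl
    intro C _
    by_cases hC : IsConj g ((Quotient.out C : N) : G)
    · rw [if_pos hC, fusInd_of g hC, one_mul]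
    · rw [if_neg hC, fusInd_of_not g hC, zero_mul]
  have hrinv : ∀ (s : (S : Subgroup G)) (C : ConjClasses N), r (s • C) = r C := by
    intro s C
    rw [hr]
    show res M (centralChar (θ₁ : N → ℂ) (Quotient.out (s • C))) =
      res M (centralChar (θ₁ : N → ℂ) (Quotient.out C))
    have h2 : centralChar (θ₁ : N → ℂ) (Quotient.out (s • C)) =
        centralChar (θ₁ : N → ℂ) ⟨(s : G) * ((Quotient.out C : N) : G) * (s : G)⁻¹,
          hNn.conj_mem _ (Quotient.out C).2 (s : G)⟩ := by
      rw [hsmul' s C]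
      exact hccl _ _ (hout _)
    rw [h2, ← centralChar_conjFun N (s : G) (θ₁ : N → ℂ) (Quotient.out C)]
    apply res_eq_of_sub (hθR _)
    have hmem : conjIrr N (s : G) θ₁ ∈ c := hinv θ₁ hθ₁ (s : G)
    have hsb := sameBlock_of_mem hc hmem hθ₁
    exact hsb (Quotient.out C)
  have h𝓛stab : ∀ (s : (S : Subgroup G)), ∀ C ∈ 𝓛, s • C ∈ 𝓛 := by
    intro s C hC
    rw [h𝓛, Finset.mem_filter] at hC ⊢
    refine ⟨Finset.mem_univ _, ?_⟩
    rw [hsmul' s C]
    have h2 := hcoe _ _ (hout ⟨(s : G) * ((Quotient.out C : N) : G) * (s : G)⁻¹,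
      hNn.conj_mem _ (Quotient.out C).2 (s : G)⟩)
    have h3 : IsConj ((Quotient.out C : N) : G)
        ((s : G) * ((Quotient.out C : N) : G) * (s : G)⁻¹) := isConj_iff.mpr ⟨(s : G), rfl⟩
    exact hC.2.trans (h3.trans h2.symm)
  have hΓ : IsPGroup p (S : Subgroup G) := S.2
  have horb := sum_nonfixed_eq_zero hΓ 𝓛 h𝓛stab r (fun s C _ => hrinv s C)
  have hres : res M (centralChar (χ : G → ℂ) g) = ∑ C ∈ 𝓛, r C := by
    have h := res_sum 𝓛 (fun C : ConjClasses N => centralChar (θ₁ : N → ℂ) (Quotient.out C))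
      (fun C _ => hθR (Quotient.out C))
    rw [hsum, h, hr]
  have hsplit := Finset.sum_filter_add_sum_filter_not 𝓛
    (fun C => ∀ s : (S : Subgroup G), s • C = C) r
  rw [horb, add_zero] at hsplit
  have hne : res M (centralChar (χ : G → ℂ) g) ≠ 0 :=
    fun h0 => hcc ((res_eq_zero_iff (memLocalRing_centralChar χ.2 g)).mp h0)
  have hex : ∃ C ∈ 𝓛, ∀ s : (S : Subgroup G), s • C = C := by
    by_contra hno
    push Not at hno
    apply hne
    rw [hres, ← hsplit]
    apply Finset.sum_eq_zero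
    intro C hC
    rw [Finset.mem_filter] at hC
    obtain ⟨s, hs⟩ := hno C hC.1
    exact absurd (hC.2 s) hs
  obtain ⟨C, hC𝓛, hCfix⟩ := hex
  rw [h𝓛, Finset.mem_filter] at hC𝓛
  obtain ⟨a, ha⟩ : ∃ a : N, a = Quotient.out C := ⟨_, rfl⟩
  have hga : IsConj g (a : G) := by
    rw [ha]
    exact hC𝓛.2
  have hSa : ∀ s : (S : Subgroup G),
      IsConj (⟨(s : G) * (a : G) * (s : G)⁻¹, hNn.conj_mem a a.2 (s : G)⟩ : N) a := by
    intro s
    have h1 := hsmul' s C
    rw [hCfix s, ← ha] at h1
    have h2 : ConjClasses.mk a = C := by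
      rw [ha]
      exact Quotient.out_eq C
    rw [← h2] at h1
    exact (ConjClasses.mk_eq_mk_iff_isConj.mp h1).symm
  have hGa : ∀ x : G, ∃ m ∈ N, x * (a : G) * x⁻¹ = m * (a : G) * m⁻¹ := by
    intro x
    have hx : x ∈ (↑(N ⊔ (S : Subgroup G)) : Set G) := by
      rw [hNS]
      trivial
    rw [Subgroup.normal_mul] at hx
    obtain ⟨n, hn, s, hs, rfl⟩ := Set.mem_mul.mp hx
    obtain ⟨k, hk⟩ := isConj_iff.mp (hSa ⟨s, hs⟩)
    have hk' : (k : G) * (s * (a : G) * s⁻¹) * (k : G)⁻¹ = (a : G) := congrArg Subtype.val hk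
    refine ⟨n * (k : G)⁻¹, N.mul_mem hn (N.inv_mem k.2), ?_⟩
    have h3 : s * (a : G) * s⁻¹ = (k : G)⁻¹ * (a : G) * (k : G) := by
      calc s * (a : G) * s⁻¹
          = (k : G)⁻¹ * ((k : G) * (s * (a : G) * s⁻¹) * (k : G)⁻¹) * (k : G) := by group
        _ = (k : G)⁻¹ * (a : G) * (k : G) := by rw [hk']
    calc n * s * (a : G) * (n * s)⁻¹ = n * (s * (a : G) * s⁻¹) * n⁻¹ := by group
      _ = n * ((k : G)⁻¹ * (a : G) * (k : G)) * n⁻¹ := by rw [h3]
      _ = n * (k : G)⁻¹ * (a : G) * (n * (k : G)⁻¹)⁻¹ := by group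
  obtain ⟨y, hy⟩ := isConj_iff.mp hga
  intro x
  obtain ⟨m₀, hm₀, h0⟩ := hGa y⁻¹
  obtain ⟨m, hm, h1⟩ := hGa (x * y⁻¹)
  have hg : g = m₀ * (a : G) * m₀⁻¹ := by
    rw [← h0, ← hy]
    group
  have ha' : (a : G) = m₀⁻¹ * g * m₀ := by
    rw [hg]
    group
  refine ⟨m * m₀⁻¹, N.mul_mem hm (N.inv_mem hm₀), ?_⟩
  calc x * g * x⁻¹ = x * y⁻¹ * (a : G) * (x * y⁻¹)⁻¹ := by
        rw [← hy]
        group
    _ = m * (a : G) * m⁻¹ := h1
    _ = m * (m₀⁻¹ * g * m₀) * m⁻¹ := by rw [← ha']
    _ = m * m₀⁻¹ * g * (m * m₀⁻¹)⁻¹ := by group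

/-- Defect groups of the block of `G` given by a stable block of a normal subgroup of
`p`-power index. -/
theorem defect_of_stable (hM : IsPModular p M) (N : Subgroup G) [hNn : N.Normal]
    (hN : ∃ k : ℕ, N.index = p ^ k) (c : Set (IrrCharacter N)) (hc : IsPBlock M c)
    (hst : ∀ x : G, StabilizesBlock N c x) (B : Set (IrrCharacter G)) (hB : IsPBlock M B)
    (hBc : ∀ g : G, blockCoeff B g = subgroupBlockCoeff N c g) (P : Subgroup G)
    (hPD : IsDefectGroup p M B P) :
    N ⊔ P = ⊤ ∧ IsDefectGroup p M c ((P ⊓ N).subgroupOf N) := by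
  classical
  have hp : p.Prime := Fact.out
  have hMm : M.IsMaximal := hM.2.1
  have hMp : M.IsPrime := hMm.isPrime
  have hMtop := hMp.ne_top
  have instN : Fintype N := Fintype.ofFinite _
  have hinv := invariant_of_stab N c hst
  obtain ⟨g, ⟨hgR, hgnot, hgcc⟩, S', rfl⟩ := hPD
  have hgN : g ∈ N := by
    by_contra hg
    apply hgnot
    rw [hBc, subgroupBlockCoeff_of_not_mem _ _ hg]
    exact memLocalIdeal_zero hMtop
  obtain ⟨χ, hχdef⟩ := hB
  have hχB : χ ∈ B := by
    rw [hχdef]
    exact mem_blockOf_self hMtop χ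
  have hex : ∃ θ ∈ c, classInner (fun n : N => (χ : G → ℂ) n) (θ : N → ℂ) ≠ 0 := by
    by_contra hno
    have h1 := om_cover_of_not_exists N c χ hno
    have h2 := om_blockCoeff_of_mem hχB
    have h3 : blockCoeff B = extendByZero N (blockCoeff c) := by
      funext g'
      rw [hBc, subgroupBlockCoeff_eq_extend]
    rw [h3, h1] at h2
    exact zero_ne_one h2
  obtain ⟨θ₁, hθ₁, hχθ⟩ := hex
  have hfus := class_fusion hM N hN c hc hinv χ θ₁ hθ₁ hχθ g hgN (hgcc χ hχB)
  have hZN : Subgroup.centralizer ({g} : Set G) ⊔ N = ⊤ := by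
    rw [eq_top_iff]
    intro x _
    obtain ⟨n, hn, hx⟩ := hfus x
    have h1 : n⁻¹ * x ∈ Subgroup.centralizer ({g} : Set G) := by
      rw [Subgroup.mem_centralizer_iff]
      intro h hh
      rw [Set.mem_singleton_iff] at hh
      rw [hh]
      have h3 : x * g = n * g * n⁻¹ * x := by
        rw [← hx]
        group
      have h2 : n⁻¹ * x * g = g * (n⁻¹ * x) := by
        calc n⁻¹ * x * g = n⁻¹ * (x * g) := by group
          _ = n⁻¹ * (n * g * n⁻¹ * x) := by rw [h3]
          _ = g * (n⁻¹ * x) := by group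
      exact h2.symm
    have h5 : x = n * (n⁻¹ * x) := by group
    rw [h5]
    exact Subgroup.mul_mem _ (Subgroup.mem_sup_right hn) (Subgroup.mem_sup_left h1)
  obtain ⟨hsup, hcard⟩ := sylow_sup_normal N hN (Subgroup.centralizer ({g} : Set G)) hZN S'
  refine ⟨hsup, ?_⟩
  obtain ⟨g', hg'⟩ : ∃ g' : N, g' = ⟨g, hgN⟩ := ⟨_, rfl⟩
  have hg'coe : (g' : G) = g := by rw [hg']
  have hcoef : blockCoeff c g' = blockCoeff B g := by
    rw [hBc, subgroupBlockCoeff_of_mem _ _ hgN, hg']
  have hθ₁cc : centralChar (θ₁ : N → ℂ) g' = centralChar (χ : G → ℂ) g := by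
    have h1 : centralChar (χ : G → ℂ) g = inducedCentralChar N (θ₁ : N → ℂ) g :=
      centralChar_eq_of_constituent N χ θ₁ hχθ ⟨g, hgN⟩
    rw [h1, inducedCentralChar_eq_om, ← om_classInd (isClassFunction_of_irr θ₁.2) g']
    congr 1
    funext h
    unfold classInd
    by_cases hh : IsConj g (h : G)
    · rw [fusInd_of g hh, if_pos]
      obtain ⟨x, hx⟩ := isConj_iff.mp hh
      obtain ⟨n, hn, hxn⟩ := hfus x
      refine isConj_iff.mpr ⟨⟨n, hn⟩, Subtype.ext ?_⟩
      show n * (g' : G) * n⁻¹ = (h : G)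
      rw [hg'coe, ← hxn, hx]
    · rw [fusInd_of_not g hh, if_neg]
      intro hc'
      apply hh
      obtain ⟨k, hk⟩ := isConj_iff.mp hc'
      refine isConj_iff.mpr ⟨(k : G), ?_⟩
      rw [← hk, ← hg'coe]
      rfl
  have hdc : IsDefectClass M c g' := by
    refine ⟨by rw [hcoef]; exact hgR, by rw [hcoef]; exact hgnot, fun θ hθ hmem => ?_⟩
    have hsb := sameBlock_of_mem hc hθ₁ hθ
    have h1 := memLocalIdeal_add (hsb g') hmem
    rw [sub_add_cancel, hθ₁cc] at h1
    exact hgcc χ hχB h1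
  have hZ' : Subgroup.centralizer ({g'} : Set N) =
      (Subgroup.centralizer ({g} : Set G)).subgroupOf N := by
    ext n
    rw [Subgroup.mem_centralizer_iff, Subgroup.mem_subgroupOf, Subgroup.mem_centralizer_iff]
    constructor
    · intro h y hy
      rw [Set.mem_singleton_iff] at hy
      rw [hy]
      have h1 := h g' rfl
      have h2 : (g' : G) * (n : G) = (n : G) * (g' : G) := congrArg Subtype.val h1
      rw [hg'coe] at h2
      exact h2
    · intro h y hy
      rw [Set.mem_singleton_iff] at hy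
      rw [hy]
      apply Subtype.ext
      show (g' : G) * (n : G) = (n : G) * (g' : G)
      rw [hg'coe]
      exact h g rfl
  obtain ⟨D, hD⟩ : ∃ D : Subgroup N, D = ((S' : Subgroup (Subgroup.centralizer ({g} : Set G))).map
      (Subgroup.centralizer ({g} : Set G)).subtype ⊓ N).subgroupOf N := ⟨_, rfl⟩
  have hDle : D ≤ Subgroup.centralizer ({g'} : Set N) := by
    rw [hZ', hD]
    intro d hd
    rw [Subgroup.mem_subgroupOf] at hd ⊢
    exact Subgroup.map_subtype_le _ hd.1
  have hcardD : Nat.card (D.subgroupOf (Subgroup.centralizer ({g'} : Set N))) =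
      p ^ (Nat.card (Subgroup.centralizer ({g'} : Set N))).factorization p := by
    have h1 : Nat.card (D.subgroupOf (Subgroup.centralizer ({g'} : Set N))) = Nat.card D := by
      rw [← Subgroup.card_map_of_injective (Subgroup.subtype_injective _),
        Subgroup.subgroupOf_map_subtype, inf_eq_left.mpr hDle]
    have h2 : Nat.card D = Nat.card ((S' : Subgroup (Subgroup.centralizer ({g} : Set G))).map
        (Subgroup.centralizer ({g} : Set G)).subtype ⊓ N : Subgroup G) := by
      rw [hD, ← Subgroup.card_map_of_injective (Subgroup.subtype_injective N),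
        Subgroup.subgroupOf_map_subtype, inf_assoc, inf_idem]
    have h3 : Nat.card (Subgroup.centralizer ({g'} : Set N)) =
        Nat.card (Subgroup.centralizer ({g} : Set G) ⊓ N : Subgroup G) := by
      rw [hZ', ← Subgroup.card_map_of_injective (Subgroup.subtype_injective N),
        Subgroup.subgroupOf_map_subtype]
    rw [h1, h2, h3, hcard]
  refine ⟨g', hdc, Sylow.ofCard (D.subgroupOf (Subgroup.centralizer ({g'} : Set N))) hcardD, ?_⟩
  rw [Sylow.coe_ofCard, Subgroup.subgroupOf_map_subtype, inf_eq_left.mpr hDle, hD]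

end Part2

end Cfsg.Agent.Lib_helper3_StableBlock
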