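import Mathlib
import Cfsg.Prelude.Def_Characters
import Cfsg.Prelude.Def_Blocks
import Cfsg.Prelude.Def_BlockLocal
import Cfsg.Prelude.Def_BrauerPairs
import Cfsg.Agent.Lib_helper3_StableBlock
import Cfsg.Agent.Lib_helper3_IdemCent2
import Cfsg.Agent.Lib_helper3_BlockPQuot
import Cfsg.Agent.Lib_helper3_ExtFirstMain

set_option autoImplicit false
open Cfsg
open Cfsg.Agent.Lib_helper3_CharBasic Cfsg.Agent.Lib_helper3_CharMore
  Cfsg.Agent.Lib_helper3_Local Cfsg.Agent.Lib_helper3_Local2 Cfsg.Agent.Lib_helper3_BlockAlg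
  Cfsg.Agent.Lib_helper3_IdemSupp Cfsg.Agent.Lib_helper3_Residue
  Cfsg.Agent.Lib_helper3_BrauerHom Cfsg.Agent.Lib_helper3_BrauerHom2
  Cfsg.Agent.Lib_helper3_BrauerHom3 Cfsg.Agent.Lib_helper3_ExtFirstMain
  Cfsg.Agent.Lib_helper3_BrauerPair Cfsg.Agent.Lib_helper3_NilPrincipal
  Cfsg.Agent.Lib_helper3_PrincipalPairs Cfsg.Agent.Lib_helper3_BrauerTrunc
  Cfsg.Agent.Lib_helper3_CharInd Cfsg.Agent.Lib_helper3_SecondMain3
  Cfsg.Agent.Lib_helper3_SubpairBlock Cfsg.Agent.Lib_helper3_NormalSubpair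
  Cfsg.Agent.Lib_helper3_BlockCover Cfsg.Agent.Lib_helper3_BlockInd
  Cfsg.Agent.Lib_helper3_ThirdMain Cfsg.Agent.Lib_helper3_StableBlock
open scoped ComplexConjugate

namespace Cfsg.Agent.Lib_helper3_NormalPTrace

attribute [local instance] Ideal.Quotient.field

universe u

section Abstract

variable {G : Type u} [Group G] [Fintype G] {M : Ideal AlgInt} (N : Subgroup G) [hN : N.Normal]
  [Fintype N]

omit [Fintype G] [Fintype N] in
theorem inv_conj_mem' (n : N) (x : G) : x⁻¹ * (n : G) * x ∈ N := by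
  have h := hN.conj_mem n n.2 x⁻¹
  rwa [inv_inv] at h

omit [Fintype G] [Fintype N] in
theorem mem_normalizer_of_normal (t : G) : t ∈ Subgroup.normalizer (N : Set G) := by
  rw [Subgroup.mem_normalizer_iff]
  intro m
  constructor
  · intro hm
    exact hN.conj_mem m hm t
  · intro hm
    have h := hN.conj_mem _ hm t⁻¹
    have h2 : t⁻¹ * (t * m * t⁻¹) * t⁻¹⁻¹ = m := by group
    rwa [h2] at h

omit [Fintype N] in
theorem conjIrr_mem_of_stab (e : Set (IrrCharacter N)) (t : G)
    (h : StabilizesBlock N e t⁻¹) (θ : IrrCharacter N) (hθ : θ ∈ e) : conjIrr N t θ ∈ e := by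
  obtain ⟨θ', hθ', hconj⟩ := h.2 θ hθ
  have h1 : conjIrr N t θ = θ' := by
    apply Subtype.ext
    funext n
    have h2 := hconj ⟨t * (n : G) * t⁻¹, hN.conj_mem n n.2 t⟩ n (by
      show (n : G) = t⁻¹ * (t * (n : G) * t⁻¹) * t⁻¹⁻¹
      group)
    exact h2.symm
  rw [h1]
  exact hθ'

/-- If the idempotent of the block `B` of `G` is supported on the normal subgroup `N` and the
block `e` of `N` occurs in it, then it is the sum of the idempotents of the conjugates of
`e`. -/
theorem blockCoeff_eq_cover [hMp : M.IsPrime] (B : Set (IrrCharacter G)) (hB : IsPBlock M B)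
    (e : Set (IrrCharacter N)) (he : IsPBlock M e)
    (hsupp : ∀ g : G, g ∉ N → blockCoeff B g = 0)
    (hbr : ∀ ξ ∈ e, MemLocalIdeal M (Om (ξ : N → ℂ) (resH N (blockCoeff B)) - 1)) (g : G) :
    blockCoeff B g = extendByZero N (blockCoeff (orbClosure N e)) g := by
  classical
  have hMtop := hMp.ne_top
  obtain ⟨φ, hφ⟩ : ∃ φ : N → ℂ, φ = resH N (blockCoeff B) := ⟨_, rfl⟩
  have hext : blockCoeff B = extendByZero N φ := by
    funext g
    by_cases hg : g ∈ N
    · rw [extendByZero_mem _ _ hg, hφ]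
      rfl
    · rw [extendByZero_not_mem _ _ hg]
      exact hsupp g hg
  have hφcl : IsClassFunction N φ := by
    rw [hφ]
    exact isClassFunction_resH N (isClassFunction_blockCoeff B)
  have hφinv : ∀ x : G, Lib_helper3_CharNormal.conjFun N x φ = φ := by
    intro x
    funext n
    rw [hφ]
    show blockCoeff B (x * (n : G) * x⁻¹) = blockCoeff B (n : G)
    exact isClassFunction_blockCoeff B (n : G) x
  have hφφ : conv φ φ = φ := by
    funext n
    have h1 := congrFun (conv_blockCoeff B) (n : G)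
    rw [hext, conv_extendByZero, extendByZero_coe, extendByZero_coe] at h1
    exact h1
  have h01 := om_idem hφcl hφφ
  have he1 : ∀ ξ ∈ e, Om (ξ : N → ℂ) φ = 1 := by
    intro ξ hξ
    rcases h01 ξ with h | h
    · exfalso
      have h1 := hbr ξ hξ
      rw [← hφ, h, zero_sub] at h1
      have h2 := memLocalIdeal_neg h1
      rw [neg_neg] at h2
      exact not_memLocalIdeal_one h2
    · exact h
  have hO1 : ∀ θ ∈ orbClosure N e, Om (θ : N → ℂ) φ = 1 := by
    rintro θ ⟨x, ξ, hξ, rfl⟩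
    rw [← he1 ξ hξ]
    unfold Om
    rw [conjIrr_coe, sum_mul_conjFun N hφinv x (ξ : N → ℂ), conjFun_apply_one]
  have hOinv := invariant_orbClosure N e
  have hOclosed := orbClosure_closed N (M := M) (block_closed N he)
  have hOR : ∀ n : N, MemLocalRing M (blockCoeff (orbClosure N e) n) :=
    fun n => osima_union hOclosed n
  have hover : ∀ χ : IrrCharacter G, (∃ θ ∈ orbClosure N e,
      classInner (fun n : N => (χ : G → ℂ) n) (θ : N → ℂ) ≠ 0) → χ ∈ B := by
    rintro χ ⟨θ, hθ, hχθ⟩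
    by_contra hχ
    have h1 := om_blockCoeff_of_not_mem hχ
    have h2 : Om (χ : G → ℂ) (blockCoeff B) = Om (fun n : N => (χ : G → ℂ) n) φ := by
      rw [hext]
      unfold Om
      rw [sum_extendByZero_mul]
      rfl
    rw [h2, om_restrict_eq N hφinv χ θ hχθ, hO1 θ hθ] at h1
    exact one_ne_zero h1
  obtain ⟨ξ₀, hξ₀⟩ := he
  have hξ₀e : ξ₀ ∈ e := by
    rw [hξ₀]
    exact mem_blockOf_self hMtop ξ₀
  obtain ⟨χ₁, hχ₁⟩ := Cfsg.Agent.Lib_helper3_BlockPQuot.exists_over N ξ₀
  have hχ₁O : ∃ θ ∈ orbClosure N e,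
      classInner (fun n : N => (χ₁ : G → ℂ) n) (θ : N → ℂ) ≠ 0 :=
    ⟨ξ₀, subset_orbClosure N e hξ₀e, hχ₁⟩
  have hχ₁B := hover χ₁ hχ₁O
  symm
  apply eq_blockCoeff (isClassFunction_cover N hOinv)
  · intro χ hχ
    exact om_cover_of_exists N hOinv χ
      (cover_congr N hOinv hOR (sameBlock_of_mem hB hχ₁B hχ) hχ₁O)
  · intro χ hχ
    exact om_cover_of_not_exists N (orbClosure N e) χ (fun h => hχ (hover χ h))

/-- Conjugation of irreducible characters of a normal subgroup as a permutation. -/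
noncomputable def conjIrrEquiv (x : G) : IrrCharacter N ≃ IrrCharacter N where
  toFun := conjIrr N x
  invFun := conjIrr N x⁻¹
  left_inv ψ := by rw [conjIrr_conjIrr, mul_inv_cancel, conjIrr_one]
  right_inv ψ := by rw [conjIrr_conjIrr, inv_mul_cancel, conjIrr_one]

/-- An element lies in the stabilizer of a block exactly when it maps one member into the
block. -/
theorem conjIrr_mem_iff [hMp : M.IsPrime] (e : Set (IrrCharacter N)) (he : IsPBlock M e)
    (T : Subgroup G) (hT : ∀ x : G, x ∈ T ↔ StabilizesBlock N e x) (ξ : IrrCharacter N)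
    (hξ : ξ ∈ e) (t : G) : conjIrr N t ξ ∈ e ↔ t ∈ T := by
  constructor
  · intro h
    rw [hT]
    refine ⟨mem_normalizer_of_normal N t, fun χ hχ => ⟨conjIrr N t⁻¹ χ, ?_, ?_⟩⟩
    · have h1 : SameBlock M (Lib_helper3_CharNormal.conjFun N t (ξ : N → ℂ)) (χ : N → ℂ) :=
        sameBlock_of_mem he h hχ
      have h2 := sameBlock_conjFun N t⁻¹ h1
      rw [Lib_helper3_CharNormal.conjFun_conjFun, mul_inv_cancel,
        Lib_helper3_CharNormal.conjFun_one] at h2
      exact mem_of_sameBlock he hξ h2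
    · intro k k' hk
      show (χ : N → ℂ) ⟨t⁻¹ * (k' : G) * t⁻¹⁻¹, hN.conj_mem k' k'.2 t⁻¹⟩ = (χ : N → ℂ) k
      refine congrArg (χ : N → ℂ) (Subtype.ext ?_)
      show t⁻¹ * (k' : G) * t⁻¹⁻¹ = (k : G)
      rw [hk]
      group
  · intro ht
    exact conjIrr_mem_of_stab N e t ((hT t⁻¹).mp (T.inv_mem ht)) ξ hξ

/-- The sum of the conjugates of the idempotent of a block `e` of a normal subgroup is the
order of the stabilizer times the idempotent of the union of the conjugates of `e`. -/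
theorem sum_conj_blockCoeff [hMp : M.IsPrime] (e : Set (IrrCharacter N)) (he : IsPBlock M e)
    (T : Subgroup G) (hT : ∀ x : G, x ∈ T ↔ StabilizesBlock N e x) (n : N) :
    ∑ x : G, blockCoeff e ⟨x⁻¹ * (n : G) * x, inv_conj_mem' N n x⟩ =
      (Nat.card T : ℂ) * blockCoeff (orbClosure N e) n := by
  classical
  have hfin := irr_finite (G := N)
  have instI : Fintype (IrrCharacter N) := Fintype.ofFinite _
  obtain ⟨W, hW⟩ : ∃ W : IrrCharacter N → ℂ,
      W = fun ψ : IrrCharacter N => (ψ : N → ℂ) 1 * conj ((ψ : N → ℂ) n) := ⟨_, rfl⟩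
  have hA : ∀ x : G, blockCoeff e ⟨x⁻¹ * (n : G) * x, inv_conj_mem' N n x⟩ =
      (Nat.card N : ℂ)⁻¹ * ∑ ψ : IrrCharacter N, (if conjIrr N x ψ ∈ e then W ψ else 0) := by
    intro x
    rw [blockCoeff_eq_sum]
    congr 1
    rw [← Equiv.sum_comp (conjIrrEquiv N x)]
    apply Finset.sum_congr rfl
    intro ψ _
    show e.indicator (fun ψ : IrrCharacter N => (ψ : N → ℂ) 1 *
        conj ((ψ : N → ℂ) ⟨x⁻¹ * (n : G) * x, inv_conj_mem' N n x⟩)) (conjIrr N x ψ) =
      if conjIrr N x ψ ∈ e then W ψ else 0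
    by_cases h : conjIrr N x ψ ∈ e
    · rw [Set.indicator_of_mem h, if_pos h, hW]
      show Lib_helper3_CharNormal.conjFun N x (ψ : N → ℂ) 1 *
          conj (Lib_helper3_CharNormal.conjFun N x (ψ : N → ℂ)
            ⟨x⁻¹ * (n : G) * x, inv_conj_mem' N n x⟩) =
        (ψ : N → ℂ) 1 * conj ((ψ : N → ℂ) n)
      rw [conjFun_apply_one]
      congr 2
      show (ψ : N → ℂ) ⟨x * (x⁻¹ * (n : G) * x) * x⁻¹, _⟩ = (ψ : N → ℂ) n
      refine congrArg (ψ : N → ℂ) (Subtype.ext ?_)
      show x * (x⁻¹ * (n : G) * x) * x⁻¹ = (n : G)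
      group
    · rw [Set.indicator_of_notMem h, if_neg h]
  have hcount : ∀ ψ : IrrCharacter N, ψ ∈ orbClosure N e →
      (Finset.univ.filter (fun x : G => conjIrr N x ψ ∈ e)).card = Nat.card T := by
    rintro ψ ⟨y, ξ, hξ, rfl⟩
    have key : ∀ x : G, conjIrr N x (conjIrr N y ξ) ∈ e ↔ y * x ∈ T := by
      intro x
      rw [conjIrr_conjIrr]
      exact conjIrr_mem_iff N e he T hT ξ hξ (y * x)
    rw [← Fintype.card_subtype, ← Nat.card_eq_fintype_card]
    exact Nat.card_congr
      { toFun := fun x => ⟨y * x.1, (key x.1).mp x.2⟩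
        invFun := fun t => ⟨y⁻¹ * t.1, (key _).mpr (by
          rw [mul_inv_cancel_left]
          exact t.2)⟩
        left_inv := fun x => Subtype.ext (inv_mul_cancel_left y x.1)
        right_inv := fun t => Subtype.ext (mul_inv_cancel_left y t.1) }
  have h1 : ∑ x : G, blockCoeff e ⟨x⁻¹ * (n : G) * x, inv_conj_mem' N n x⟩ =
      (Nat.card N : ℂ)⁻¹ * ∑ ψ : IrrCharacter N, ∑ x : G,
        (if conjIrr N x ψ ∈ e then W ψ else 0) := by
    rw [Finset.sum_congr rfl (fun x _ => hA x), ← Finset.mul_sum, Finset.sum_comm]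
  have h2 : ∀ ψ : IrrCharacter N, ∑ x : G, (if conjIrr N x ψ ∈ e then W ψ else 0) =
      (Nat.card T : ℂ) * (orbClosure N e).indicator W ψ := by
    intro ψ
    by_cases hψ : ψ ∈ orbClosure N e
    · rw [Set.indicator_of_mem hψ, ← Finset.sum_filter, Finset.sum_const, nsmul_eq_mul,
        hcount ψ hψ]
    · rw [Set.indicator_of_notMem hψ, mul_zero]
      apply Finset.sum_eq_zero
      intro x _
      rw [if_neg]
      intro h
      apply hψ
      exact ⟨x⁻¹, conjIrr N x ψ, h, by rw [conjIrr_conjIrr, mul_inv_cancel, conjIrr_one]⟩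
  rw [h1, Finset.sum_congr rfl (fun ψ _ => h2 ψ), ← Finset.mul_sum, blockCoeff_eq_sum, hW]
  ring

end Abstract

section Transport

variable {A B : Type u} [Group A] [Group B] [Finite A] {M : Ideal AlgInt}

/-- The transport of a set of irreducible characters along a group isomorphism. -/
def transportSet (iso : A ≃* B) (e : Set (IrrCharacter B)) : Set (IrrCharacter A) :=
  {θ' | ∃ θ ∈ e, (θ' : A → ℂ) = (θ : B → ℂ) ∘ iso}

theorem transport_blockOf (iso : A ≃* B) (ξ : IrrCharacter B) :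
    transportSet iso (blockOf M (ξ : B → ℂ)) = blockOf M ((ξ : B → ℂ) ∘ iso) := by
  have hfin : Finite B := Finite.of_equiv A iso.toEquiv
  ext χ'
  constructor
  · rintro ⟨χ, hχ, h⟩
    show SameBlock M ((ξ : B → ℂ) ∘ iso) (χ' : A → ℂ)
    rw [h]
    exact sameBlock_comp_equiv iso hχ
  · intro hχ'
    refine ⟨⟨(χ' : A → ℂ) ∘ iso.symm, isIrrCharacter_comp_equiv iso.symm χ'.2⟩, ?_, ?_⟩
    · show SameBlock M (ξ : B → ℂ) ((χ' : A → ℂ) ∘ iso.symm)
      have h1 := sameBlock_comp_equiv iso.symm hχ'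
      have h2 : ((ξ : B → ℂ) ∘ iso) ∘ iso.symm = (ξ : B → ℂ) := by
        funext k
        show (ξ : B → ℂ) (iso (iso.symm k)) = _
        rw [MulEquiv.apply_symm_apply]
      rw [h2] at h1
      exact h1
    · funext k
      show (χ' : A → ℂ) k = (χ' : A → ℂ) (iso.symm (iso k))
      rw [MulEquiv.symm_apply_apply]

theorem isPBlock_transport (iso : A ≃* B) {e : Set (IrrCharacter B)} (he : IsPBlock M e) :
    IsPBlock M (transportSet iso e) := by
  obtain ⟨ξ, rfl⟩ := he
  exact ⟨⟨(ξ : B → ℂ) ∘ iso, isIrrCharacter_comp_equiv iso ξ.2⟩, transport_blockOf iso ξ⟩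

theorem blockCoeff_transport (iso : A ≃* B) (e : Set (IrrCharacter B)) (a : A) :
    blockCoeff (transportSet iso e) a = blockCoeff e (iso a) := by
  unfold blockCoeff
  rw [Nat.card_congr iso.toEquiv]
  congr 1
  symm
  apply finsum_mem_eq_of_bijOn (fun χ : IrrCharacter B =>
    (⟨(χ : B → ℂ) ∘ iso, isIrrCharacter_comp_equiv iso χ.2⟩ : IrrCharacter A))
  · refine ⟨fun χ hχ => ⟨χ, hχ, rfl⟩, ?_, ?_⟩
    · intro χ₁ _ χ₂ _ h
      apply Subtype.ext
      have h1 : (χ₁ : B → ℂ) ∘ iso = (χ₂ : B → ℂ) ∘ iso := congrArg Subtype.val h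
      funext b
      have h2 := congrFun h1 (iso.symm b)
      simpa using h2
    · rintro χ' ⟨χ, hχ, h⟩
      exact ⟨χ, hχ, Subtype.ext h.symm⟩
  · intro χ _
    show (χ : B → ℂ) 1 * conj ((χ : B → ℂ) (iso a)) =
      (χ : B → ℂ) (iso 1) * conj ((χ : B → ℂ) (iso a))
    rw [map_one]

end Transport

section CentIso

variable {G : Type u} [Group G]

/-- The centralizer of `P` computed inside a subgroup `T` containing `P` and `C_G(P)`, identified
with `C_G(P)`. -/
def centIso (P T : Subgroup G) (hPT : P ≤ T) (hCT : Subgroup.centralizer (P : Set G) ≤ T) :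
    ↥(Subgroup.centralizer ((P.subgroupOf T : Subgroup T) : Set T)) ≃*
      ↥(Subgroup.centralizer (P : Set G)) where
  toFun a := ⟨((a : T) : G), Subgroup.mem_subgroupOf.mp
    ((SetLike.ext_iff.mp (centralizer_subgroupOf P T hPT) (a : T)).mp a.2)⟩
  invFun c := ⟨⟨(c : G), hCT c.2⟩,
    (SetLike.ext_iff.mp (centralizer_subgroupOf P T hPT) _).mpr (Subgroup.mem_subgroupOf.mpr c.2)⟩
  left_inv a := Subtype.ext (Subtype.ext rfl)
  right_inv c := Subtype.ext rfl
  map_mul' a b := Subtype.ext rfl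

theorem centIso_coe (P T : Subgroup G) (hPT : P ≤ T)
    (hCT : Subgroup.centralizer (P : Set G) ≤ T)
    (a : ↥(Subgroup.centralizer ((P.subgroupOf T : Subgroup T) : Set T))) :
    ((centIso P T hPT hCT a : Subgroup.centralizer (P : Set G)) : G) = ((a : T) : G) := rfl

end CentIso

section Final

variable {G : Type u} [Group G] [Fintype G] {M : Ideal AlgInt} {p : ℕ} [Fact p.Prime]

/-- The idempotent of a block of `G` is the trace of the idempotent of a block of the
centralizer of a normal `p`-subgroup occurring in it. -/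
theorem trace_formula (hM : IsPModular p M) (P : Subgroup G) [P.Normal]
    (B : Set (IrrCharacter G)) (e : Set (IrrCharacter (Subgroup.centralizer (P : Set G))))
    (hBe : IsBrauerPairOf p M B P e) (T : Subgroup G)
    (hT : ∀ x : G, x ∈ T ↔ StabilizesBlock (Subgroup.centralizer (P : Set G)) e x) (g : G) :
    blockCoeff B g = (Nat.card T : ℂ)⁻¹ *
      ∑ x : G, subgroupBlockCoeff (Subgroup.centralizer (P : Set G)) e (x⁻¹ * g * x) := by
  classical
  have hMm : M.IsMaximal := hM.2.1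
  have hMp : M.IsPrime := hMm.isPrime
  have instC : Fintype (Subgroup.centralizer (P : Set G)) := Fintype.ofFinite _
  have hCn : (Subgroup.centralizer (P : Set G)).Normal := inferInstance
  obtain ⟨⟨hP, he⟩, hB, hbr⟩ := hBe
  have h1 := blockCoeff_eq_cover (M := M) (Subgroup.centralizer (P : Set G)) B hB e he
    (fun g hg => Cfsg.Agent.Lib_helper3_IdemCent2.blockCoeff_supported hM P hP B hB g hg)
    (fun ξ hξ => by
      have h := hbr ξ hξ
      rwa [brauerOmega_eq_om] at h) g
  rw [h1]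
  have hTne : (Nat.card T : ℂ) ≠ 0 := by
    exact_mod_cast (Nat.card_pos (α := T)).ne'
  by_cases hg : g ∈ Subgroup.centralizer (P : Set G)
  · rw [extendByZero_mem _ _ hg]
    have h2 := sum_conj_blockCoeff (M := M) (Subgroup.centralizer (P : Set G)) e he T hT ⟨g, hg⟩
    have h3 : ∑ x : G, subgroupBlockCoeff (Subgroup.centralizer (P : Set G)) e (x⁻¹ * g * x) =
        ∑ x : G, blockCoeff e ⟨x⁻¹ * g * x,
          inv_conj_mem' (Subgroup.centralizer (P : Set G)) ⟨g, hg⟩ x⟩ :=
      Finset.sum_congr rfl (fun x _ => subgroupBlockCoeff_of_mem _ _ _)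
    rw [h3, h2, ← mul_assoc, inv_mul_cancel₀ hTne, one_mul]
  · rw [extendByZero_not_mem _ _ hg]
    have h3 : ∑ x : G, subgroupBlockCoeff (Subgroup.centralizer (P : Set G)) e (x⁻¹ * g * x) =
        0 := by
      apply Finset.sum_eq_zero
      intro x _
      apply subgroupBlockCoeff_of_not_mem
      intro h
      apply hg
      have h4 := hCn.conj_mem _ h x
      have h5 : x * (x⁻¹ * g * x) * x⁻¹ = g := by group
      rwa [h5] at h4
    rw [h3, mul_zero]

/-- The idempotent of a block of the centralizer of a normal `p`-subgroup is a block idempotent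
of its stabilizer. -/
theorem exists_block_of_stabilizer (hM : IsPModular p M) (P : Subgroup G) [P.Normal]
    (e : Set (IrrCharacter (Subgroup.centralizer (P : Set G))))
    (hPe : IsBrauerPair p M P e) (T : Subgroup G)
    (hT : ∀ x : G, x ∈ T ↔ StabilizesBlock (Subgroup.centralizer (P : Set G)) e x) :
    ∃ E : Set (IrrCharacter T), IsPBlock M E ∧ ∀ t : T, blockCoeff E t =
      subgroupBlockCoeff (Subgroup.centralizer (P : Set G)) e (t : G) := by
  classical
  have hMm : M.IsMaximal := hM.2.1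
  have hMp : M.IsPrime := hMm.isPrime
  have instC : Fintype (Subgroup.centralizer (P : Set G)) := Fintype.ofFinite _
  have hCn : (Subgroup.centralizer (P : Set G)).Normal := inferInstance
  obtain ⟨hP, he⟩ := hPe
  have hCT : Subgroup.centralizer (P : Set G) ≤ T := by
    intro c hc
    rw [hT]
    refine ⟨mem_normalizer_of_normal _ c, fun χ hχ => ⟨χ, hχ, ?_⟩⟩
    intro k k' hk
    have h1 : k' = ⟨c, hc⟩ * k * ⟨c, hc⟩⁻¹ := Subtype.ext hk
    rw [h1]
    exact isClassFunction_of_irr χ.2 k ⟨c, hc⟩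
  have hPT : P ≤ T := by
    intro u hu
    rw [hT]
    refine ⟨mem_normalizer_of_normal _ u, fun χ hχ => ⟨χ, hχ, ?_⟩⟩
    intro k k' hk
    have h1 := (Subgroup.mem_centralizer_iff.mp k.2) u hu
    have h2 : k' = k := by
      apply Subtype.ext
      rw [hk, h1, mul_inv_cancel_right]
    rw [h2]
  have instT : Fintype T := Fintype.ofFinite _
  have instCT : Fintype (Subgroup.centralizer ((P.subgroupOf T : Subgroup T) : Set T)) :=
    Fintype.ofFinite _
  obtain ⟨iso, hiso⟩ : ∃ iso : ↥(Subgroup.centralizer ((P.subgroupOf T : Subgroup T) : Set T)) ≃*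
      ↥(Subgroup.centralizer (P : Set G)),
      ∀ a, ((iso a : Subgroup.centralizer (P : Set G)) : G) = ((a : T) : G) :=
    ⟨centIso P T hPT hCT, fun a => rfl⟩
  obtain ⟨eT, heT⟩ : ∃ eT : Set (IrrCharacter
      (Subgroup.centralizer ((P.subgroupOf T : Subgroup T) : Set T))),
      eT = transportSet iso e := ⟨_, rfl⟩
  have heTb : IsPBlock M eT := by
    rw [heT]
    exact isPBlock_transport iso he
  have hPTp : IsPGroup p (P.subgroupOf T) := hP.comap_subtype
  obtain ⟨E, hE, -⟩ := brauerPair_unique_block hM (P.subgroupOf T) eT ⟨hPTp, heTb⟩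
  refine ⟨E, hE.2.1, fun t => ?_⟩
  have h1 := blockCoeff_eq_cover (M := M)
    (Subgroup.centralizer ((P.subgroupOf T : Subgroup T) : Set T)) E hE.2.1 eT heTb
    (fun g hg => Cfsg.Agent.Lib_helper3_IdemCent2.blockCoeff_supported hM (P.subgroupOf T) hPTp
      E hE.2.1 g hg)
    (fun ξ hξ => by
      have h := hE.2.2 ξ hξ
      rwa [brauerOmega_eq_om] at h) t
  have horb : orbClosure (Subgroup.centralizer ((P.subgroupOf T : Subgroup T) : Set T)) eT =
      eT := by
    apply Set.Subset.antisymm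
    · rintro θ' ⟨x, θ₀, hθ₀, rfl⟩
      rw [heT] at hθ₀ ⊢
      obtain ⟨θ, hθ, hθeq⟩ := hθ₀
      have hmem : conjIrr (Subgroup.centralizer (P : Set G)) ((x : T) : G) θ ∈ e :=
        conjIrr_mem_of_stab _ e (x : G) ((hT _).mp (T.inv_mem x.2)) θ hθ
      refine ⟨conjIrr (Subgroup.centralizer (P : Set G)) (x : G) θ, hmem, ?_⟩
      funext k
      rw [conjIrr_coe, conjIrr_coe, Lib_helper3_CharNormal.conjFun_apply, hθeq,
        Function.comp_apply, Function.comp_apply, Lib_helper3_CharNormal.conjFun_apply]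
      refine congrArg (θ : Subgroup.centralizer (P : Set G) → ℂ) (Subtype.ext ?_)
      rw [hiso]
      show ((x : T) : G) * ((k : T) : G) * ((x : T) : G)⁻¹ = _
      rw [← hiso k]
    · exact subset_orbClosure _ eT
  rw [h1, horb]
  by_cases ht : t ∈ Subgroup.centralizer ((P.subgroupOf T : Subgroup T) : Set T)
  · rw [extendByZero_mem _ _ ht, heT, blockCoeff_transport]
    have htC : (t : G) ∈ Subgroup.centralizer (P : Set G) := by
      have h := (iso ⟨t, ht⟩).2
      rwa [hiso] at h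
    rw [subgroupBlockCoeff_of_mem _ _ htC]
    refine congrArg (blockCoeff e) (Subtype.ext ?_)
    rw [hiso]
  · rw [extendByZero_not_mem _ _ ht]
    have htC : (t : G) ∉ Subgroup.centralizer (P : Set G) := by
      intro h
      apply ht
      exact (SetLike.ext_iff.mp (centralizer_subgroupOf P T hPT) t).mpr
        (Subgroup.mem_subgroupOf.mpr h)
    rw [subgroupBlockCoeff_of_not_mem _ _ htC]

end Final

end Cfsg.Agent.Lib_helper3_NormalPTrace
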