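import Mathlib
import Cfsg.Prelude.Def_Characters
import Cfsg.Prelude.Def_Blocks
import Cfsg.Prelude.Def_BlockLocal
import Cfsg.Prelude.Def_BrauerPairs
import Cfsg.Agent.Lib_helper3_NormalSubpair

set_option autoImplicit false
open Cfsg
open Cfsg.Agent.Lib_helper3_CharBasic Cfsg.Agent.Lib_helper3_CharMore
  Cfsg.Agent.Lib_helper3_Local Cfsg.Agent.Lib_helper3_Local2 Cfsg.Agent.Lib_helper3_BlockAlg
  Cfsg.Agent.Lib_helper3_IdemSupp Cfsg.Agent.Lib_helper3_Residue
  Cfsg.Agent.Lib_helper3_BrauerHom Cfsg.Agent.Lib_helper3_BrauerHom2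
  Cfsg.Agent.Lib_helper3_BrauerHom3 Cfsg.Agent.Lib_helper3_ExtFirstMain
  Cfsg.Agent.Lib_helper3_BrauerPair Cfsg.Agent.Lib_helper3_NilPrincipal
  Cfsg.Agent.Lib_helper3_PrincipalPairs Cfsg.Agent.Lib_helper3_BrauerTrunc
  Cfsg.Agent.Lib_helper3_CharInd Cfsg.Agent.Lib_helper3_SecondMain3
  Cfsg.Agent.Lib_helper3_SubpairBlock Cfsg.Agent.Lib_helper3_NormalSubpair
open scoped ComplexConjugate

namespace Cfsg.Agent.Lib_helper3_SubpairUnique

attribute [local instance] Ideal.Quotient.field

universe u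

section Red

variable {H : Type u} [Group H] [Fintype H] {M : Ideal AlgInt} [hMm : M.IsMaximal]

/-- Functions congruent modulo the local ideal have the same reduction. -/
theorem red_congr {F F' : H → ℂ} (hF' : ∀ c, MemLocalRing M (F' c))
    (h : ∀ c, MemLocalIdeal M (F c - F' c)) : red M F = red M F' := by
  have hMp : M.IsPrime := hMm.isPrime
  apply MonoidAlgebra.coeff_injective
  ext c
  rw [Cfsg.Agent.Lib_helper3_Kuls2.coeff_red, Cfsg.Agent.Lib_helper3_Kuls2.coeff_red]
  have h1 := res_add (memLocalRing_of_memLocalIdeal (h c)) (hF' c)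
  rw [sub_add_cancel] at h1
  rw [h1, (res_eq_zero_iff (memLocalRing_of_memLocalIdeal (h c))).mpr (h c), zero_add]

/-- A class function that is idempotent modulo the local ideal and is killed by the central
characters of a set `J` of irreducible characters is orthogonal to the idempotent of `J`. -/
theorem red_mul_blockCoeff_eq_zero {a : H → ℂ} (hacl : IsClassFunction H a)
    (haR : ∀ h, MemLocalRing M (a h)) (hidem : red M a * red M a = red M a)
    (J : Set (IrrCharacter H)) (hJ : ∀ h, MemLocalRing M (blockCoeff J h))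
    (hom : ∀ ξ ∈ J, MemLocalIdeal M (Om (ξ : H → ℂ) a)) :
    red M a * red M (blockCoeff J) = 0 := by
  have hMp : M.IsPrime := hMm.isPrime
  have hfcl := isClassFunction_blockCoeff J
  have hidem_f : red M (blockCoeff J) * red M (blockCoeff J) = red M (blockCoeff J) := by
    rw [← red_conv hJ hJ, conv_blockCoeff]
  have hcomm : red M a * red M (blockCoeff J) = red M (blockCoeff J) * red M a := by
    rw [← red_conv haR hJ, ← red_conv hJ haR, conv_comm_of_class hfcl]
  rw [← red_conv haR hJ]
  apply red_eq_zero_of_om (isClassFunction_conv hacl hfcl) (memLocalRing_conv haR hJ)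
  · rw [red_conv haR hJ]
    calc red M a * red M (blockCoeff J) * (red M a * red M (blockCoeff J))
        = red M a * (red M (blockCoeff J) * red M a) * red M (blockCoeff J) := by
          simp only [mul_assoc]
      _ = red M a * (red M a * red M (blockCoeff J)) * red M (blockCoeff J) := by rw [← hcomm]
      _ = (red M a * red M a) * (red M (blockCoeff J) * red M (blockCoeff J)) := by
          simp only [mul_assoc]
      _ = red M a * red M (blockCoeff J) := by rw [hidem, hidem_f]
  · intro ξ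
    rw [om_conv ξ.2 hacl hfcl]
    by_cases hξ : ξ ∈ J
    · rw [om_blockCoeff_of_mem hξ, mul_one]
      exact hom ξ hξ
    · rw [om_blockCoeff_of_not_mem hξ, mul_zero]
      exact memLocalIdeal_zero hMp.ne_top

end Red

section Main

variable {G : Type u} [Group G] [Fintype G] {M : Ideal AlgInt} {p : ℕ} [Fact p.Prime]

/-- Pointwise form of the multiplicativity of the Brauer map at `P` on the idempotents of
`P`-stable sets of characters of the centralizer of a subgroup `Q` of `P`. -/
theorem res_conv_pointwise (hM : IsPModular p M) (P Q : Subgroup G) (hP : IsPGroup p P)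
    (hQP : Q ≤ P)
    [Fintype (Subgroup.centralizer (Q : Set G))] [Fintype (Subgroup.centralizer (P : Set G))]
    (f f' : Set (IrrCharacter (Subgroup.centralizer (Q : Set G))))
    (hf : ∀ k, MemLocalRing M (blockCoeff f k)) (hf' : ∀ k, MemLocalRing M (blockCoeff f' k))
    (hstab : ∀ x ∈ P, StabilizesBlock (Subgroup.centralizer (Q : Set G)) f x)
    (hstab' : ∀ x ∈ P, StabilizesBlock (Subgroup.centralizer (Q : Set G)) f' x)
    (c : Subgroup.centralizer (P : Set G)) :
    MemLocalIdeal M
      (resH (Subgroup.centralizer (P : Set G))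
          (extendByZero (Subgroup.centralizer (Q : Set G))
            (conv (blockCoeff f) (blockCoeff f'))) c -
        conv (resH (Subgroup.centralizer (P : Set G))
            (subgroupBlockCoeff (Subgroup.centralizer (Q : Set G)) f))
          (resH (Subgroup.centralizer (P : Set G))
            (subgroupBlockCoeff (Subgroup.centralizer (Q : Set G)) f')) c) := by
  classical
  have hMm : M.IsMaximal := hM.2.1
  have hMp : M.IsPrime := hMm.isPrime
  have hMtop := hMp.ne_top
  obtain ⟨F₁, hF₁⟩ : ∃ F₁ : G → ℂ, F₁ = subgroupBlockCoeff (Subgroup.centralizer (Q : Set G)) f :=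
    ⟨_, rfl⟩
  obtain ⟨F₂, hF₂⟩ : ∃ F₂ : G → ℂ, F₂ = subgroupBlockCoeff (Subgroup.centralizer (Q : Set G)) f' :=
    ⟨_, rfl⟩
  rw [← hF₁, ← hF₂]
  have hinv₁ : ∀ u ∈ P, ∀ g, F₁ (u * g * u⁻¹) = F₁ g := by
    intro u hu g
    rw [hF₁]
    exact subgroupBlockCoeff_conj_of_stab _ f u (hstab u hu) (hstab u⁻¹ (P.inv_mem hu)) g
  have hinv₂ : ∀ u ∈ P, ∀ g, F₂ (u * g * u⁻¹) = F₂ g := by
    intro u hu g
    rw [hF₂]
    exact subgroupBlockCoeff_conj_of_stab _ f' u (hstab' u hu) (hstab' u⁻¹ (P.inv_mem hu)) g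
  have hR₁ : ∀ g, MemLocalRing M (F₁ g) := by
    intro g
    rw [hF₁]
    by_cases hg : g ∈ Subgroup.centralizer (Q : Set G)
    · rw [subgroupBlockCoeff_of_mem _ _ hg]
      exact hf _
    · rw [subgroupBlockCoeff_of_not_mem _ _ hg]
      exact memLocalRing_zero hMtop
  have hR₂ : ∀ g, MemLocalRing M (F₂ g) := by
    intro g
    rw [hF₂]
    by_cases hg : g ∈ Subgroup.centralizer (Q : Set G)
    · rw [subgroupBlockCoeff_of_mem _ _ hg]
      exact hf' _
    · rw [subgroupBlockCoeff_of_not_mem _ _ hg]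
      exact memLocalRing_zero hMtop
  have htc := trunc_conv hM P hP hinv₁ hinv₂ hR₁ hR₂
  have hconv : conv F₁ F₂ = extendByZero (Subgroup.centralizer (Q : Set G))
      (conv (blockCoeff f) (blockCoeff f')) := by
    rw [hF₁, hF₂, subgroupBlockCoeff_eq_extend, subgroupBlockCoeff_eq_extend, conv_extendByZero]
  have h1 := htc (c : G)
  rw [trunc_of_mem P _ c.2, trunc_eq_extend P F₁, trunc_eq_extend P F₂, conv_extendByZero,
    extendByZero_coe, hconv] at h1
  exact h1

/-- If `(Q, f)` and `(R, g)` are both normally below `(P, e)` and `Q ≤ R`, then `(Q, f)` is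
normally below `(R, g)`. -/
theorem normalSubpair_mid (hM : IsPModular p M) (P R Q : Subgroup G)
    (e : Set (IrrCharacter (Subgroup.centralizer (P : Set G))))
    (g : Set (IrrCharacter (Subgroup.centralizer (R : Set G))))
    (f : Set (IrrCharacter (Subgroup.centralizer (Q : Set G))))
    (hQR : Q ≤ R) (hf : IsNormalSubpair p M Q f P e) (hg : IsNormalSubpair p M R g P e) :
    IsNormalSubpair p M Q f R g := by
  classical
  have hMm : M.IsMaximal := hM.2.1
  have hMp : M.IsPrime := hMm.isPrime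
  have hMtop := hMp.ne_top
  have instQ : Fintype (Subgroup.centralizer (Q : Set G)) := Fintype.ofFinite _
  have instR : Fintype (Subgroup.centralizer (R : Set G)) := Fintype.ofFinite _
  have instP : Fintype (Subgroup.centralizer (P : Set G)) := Fintype.ofFinite _
  obtain ⟨⟨hQ, hfb⟩, ⟨hP, he⟩, hQP, hPNQ, hstabf, hbrf⟩ := hf
  obtain ⟨⟨hR, hgb⟩, -, hRP, hPNR, hstabg, hbrg⟩ := hg
  have hCRQ : Subgroup.centralizer (R : Set G) ≤ Subgroup.centralizer (Q : Set G) :=
    Subgroup.centralizer_le (SetLike.coe_subset_coe.mpr hQR)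
  have hCPR : Subgroup.centralizer (P : Set G) ≤ Subgroup.centralizer (R : Set G) :=
    Subgroup.centralizer_le (SetLike.coe_subset_coe.mpr hRP)
  have hCPQ : Subgroup.centralizer (P : Set G) ≤ Subgroup.centralizer (Q : Set G) :=
    Subgroup.centralizer_le (SetLike.coe_subset_coe.mpr hQP)
  have hRNQ : R ≤ Subgroup.normalizer (Q : Set G) := hRP.trans hPNQ
  have hstabR : ∀ x ∈ R, StabilizesBlock (Subgroup.centralizer (Q : Set G)) f x :=
    fun x hx => hstabf x (hRP hx)
  have hfR : ∀ k, MemLocalRing M (blockCoeff f k) := fun k => osima hfb k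
  have hgR : ∀ k, MemLocalRing M (blockCoeff g k) := fun k => osima hgb k
  obtain ⟨a, ha⟩ : ∃ a : Subgroup.centralizer (R : Set G) → ℂ,
      a = resH (Subgroup.centralizer (R : Set G))
        (subgroupBlockCoeff (Subgroup.centralizer (Q : Set G)) f) := ⟨_, rfl⟩
  have hacl : IsClassFunction (Subgroup.centralizer (R : Set G)) a := by
    rw [ha, subgroupBlockCoeff_eq_extend]
    exact isClassFunction_res_extend _ _ hCRQ (isClassFunction_blockCoeff f)
  have haR : ∀ c, MemLocalRing M (a c) := by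
    intro c
    rw [ha]
    show MemLocalRing M (subgroupBlockCoeff (Subgroup.centralizer (Q : Set G)) f (c : G))
    rw [subgroupBlockCoeff_of_mem _ _ (hCRQ c.2)]
    exact hfR _
  have hpt : ∀ c : Subgroup.centralizer (R : Set G), MemLocalIdeal M (a c - conv a a c) := by
    intro c
    have h1 := res_conv_pointwise hM R Q hR hQR f f hfR hfR hstabR hstabR c
    rw [conv_blockCoeff, ← subgroupBlockCoeff_eq_extend, ← ha] at h1
    exact h1
  have hidem_a : red M a * red M a = red M a := by
    rw [← red_conv haR haR]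
    exact (red_congr (memLocalRing_conv haR haR) hpt).symm
  obtain ⟨ζ₀, hζ₀⟩ := hgb
  have hζ₀g : ζ₀ ∈ g := by
    rw [hζ₀]
    exact mem_blockOf_self hMtop ζ₀
  obtain ⟨ξ₀, hξ₀⟩ := he
  have hξ₀e : ξ₀ ∈ e := by
    rw [hξ₀]
    exact mem_blockOf_self hMtop ξ₀
  have hmult := om_res_conv hM R Q hR hQR hRNQ f f hfR hfR hstabR hstabR ζ₀
  rw [conv_blockCoeff, ← subgroupBlockCoeff_eq_extend, ← ha] at hmult
  have hYR : MemLocalRing M (Om (ζ₀ : Subgroup.centralizer (R : Set G) → ℂ) a) :=
    memLocalRing_om ζ₀.2 hacl haR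
  have hmain : MemLocalIdeal M (Om (ζ₀ : Subgroup.centralizer (R : Set G) → ℂ) a - 1) := by
    by_contra hnot1
    have hY0 : MemLocalIdeal M (Om (ζ₀ : Subgroup.centralizer (R : Set G) → ℂ) a) := by
      by_contra hnot0
      apply not_memLocalIdeal_mul hYR hnot0 (memLocalRing_sub hYR (memLocalRing_one hMtop)) hnot1
      have h2 := memLocalIdeal_neg hmult
      have h3 : -(Om (ζ₀ : Subgroup.centralizer (R : Set G) → ℂ) a -
          Om (ζ₀ : Subgroup.centralizer (R : Set G) → ℂ) a *
          Om (ζ₀ : Subgroup.centralizer (R : Set G) → ℂ) a) =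
          Om (ζ₀ : Subgroup.centralizer (R : Set G) → ℂ) a *
          (Om (ζ₀ : Subgroup.centralizer (R : Set G) → ℂ) a - 1) := by ring
      rw [h3] at h2
      exact h2
    have hall : ∀ ζ ∈ g, MemLocalIdeal M (Om (ζ : Subgroup.centralizer (R : Set G) → ℂ) a) := by
      intro ζ hζ
      have hsb : SameBlock M (ζ : Subgroup.centralizer (R : Set G) → ℂ)
          (ζ₀ : Subgroup.centralizer (R : Set G) → ℂ) := by
        rw [hζ₀] at hζ
        exact sameBlock_symm hζ
      have h1 := om_congr (isClassFunction_of_irr ζ.2) (isClassFunction_of_irr ζ₀.2) hsb hacl haR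
      have h2 := memLocalIdeal_add h1 hY0
      rwa [sub_add_cancel] at h2
    have hzero := red_mul_blockCoeff_eq_zero (M := M) hacl haR hidem_a g hgR hall
    rw [← red_conv haR hgR] at hzero
    have hpt0 : ∀ c : Subgroup.centralizer (R : Set G),
        MemLocalIdeal M (conv a (blockCoeff g) c) :=
      (red_eq_zero_iff (memLocalRing_conv haR hgR)).mp hzero
    obtain ⟨F₁, hF₁⟩ : ∃ F₁ : G → ℂ,
        F₁ = trunc R (subgroupBlockCoeff (Subgroup.centralizer (Q : Set G)) f) := ⟨_, rfl⟩
    obtain ⟨F₂, hF₂⟩ : ∃ F₂ : G → ℂ,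
        F₂ = subgroupBlockCoeff (Subgroup.centralizer (R : Set G)) g := ⟨_, rfl⟩
    have hF₁' : F₁ = extendByZero (Subgroup.centralizer (R : Set G)) a := by
      rw [hF₁, trunc_eq_extend, ha]
    have hF₂' : F₂ = extendByZero (Subgroup.centralizer (R : Set G)) (blockCoeff g) := by
      rw [hF₂, subgroupBlockCoeff_eq_extend]
    have hconv0 : ∀ x, MemLocalIdeal M (conv F₁ F₂ x) := by
      intro x
      rw [hF₁', hF₂', conv_extendByZero]
      by_cases hx : x ∈ Subgroup.centralizer (R : Set G)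
      · rw [extendByZero_mem _ _ hx]
        exact hpt0 _
      · rw [extendByZero_not_mem _ _ hx]
        exact memLocalIdeal_zero hMtop
    have hinv₁ : ∀ u ∈ P, ∀ x, F₁ (u * x * u⁻¹) = F₁ x := by
      intro u hu x
      have hun := mem_normalizer_centralizer R (hPNR hu)
      have hiff := Subgroup.mem_normalizer_iff.mp hun x
      rw [hF₁]
      by_cases hx : x ∈ Subgroup.centralizer (R : Set G)
      · rw [trunc_of_mem R _ hx, trunc_of_mem R _ (hiff.mp hx)]
        exact subgroupBlockCoeff_conj_of_stab _ f u (hstabf u hu) (hstabf u⁻¹ (P.inv_mem hu)) x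
      · rw [trunc_of_not_mem R _ hx, trunc_of_not_mem R _ (fun h => hx (hiff.mpr h))]
    have hinv₂ : ∀ u ∈ P, ∀ x, F₂ (u * x * u⁻¹) = F₂ x := by
      intro u hu x
      rw [hF₂]
      exact subgroupBlockCoeff_conj_of_stab _ g u (hstabg u hu) (hstabg u⁻¹ (P.inv_mem hu)) x
    have hR₁ : ∀ x, MemLocalRing M (F₁ x) := by
      intro x
      rw [hF₁']
      by_cases hx : x ∈ Subgroup.centralizer (R : Set G)
      · rw [extendByZero_mem _ _ hx]
        exact haR _
      · rw [extendByZero_not_mem _ _ hx]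
        exact memLocalRing_zero hMtop
    have hR₂ : ∀ x, MemLocalRing M (F₂ x) := by
      intro x
      rw [hF₂']
      by_cases hx : x ∈ Subgroup.centralizer (R : Set G)
      · rw [extendByZero_mem _ _ hx]
        exact hgR _
      · rw [extendByZero_not_mem _ _ hx]
        exact memLocalRing_zero hMtop
    have htc := trunc_conv hM P hP hinv₁ hinv₂ hR₁ hR₂
    have key : ∀ c : Subgroup.centralizer (P : Set G), MemLocalIdeal M
        (conv (resH (Subgroup.centralizer (P : Set G)) F₁)
          (resH (Subgroup.centralizer (P : Set G)) F₂) c) := by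
      intro c
      have h1 := htc (c : G)
      rw [trunc_of_mem P _ c.2, trunc_eq_extend P F₁, trunc_eq_extend P F₂, conv_extendByZero,
        extendByZero_coe] at h1
      have h2 := memLocalIdeal_sub (hconv0 (c : G)) h1
      rw [sub_sub_cancel] at h2
      exact h2
    have hres₁ : resH (Subgroup.centralizer (P : Set G)) F₁ =
        resH (Subgroup.centralizer (P : Set G))
          (subgroupBlockCoeff (Subgroup.centralizer (Q : Set G)) f) := by
      funext c
      show F₁ (c : G) = subgroupBlockCoeff (Subgroup.centralizer (Q : Set G)) f (c : G)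
      rw [hF₁]
      exact trunc_of_mem R _ (hCPR c.2)
    rw [hres₁, hF₂] at key
    have hcl₁ : IsClassFunction (Subgroup.centralizer (P : Set G))
        (resH (Subgroup.centralizer (P : Set G))
          (subgroupBlockCoeff (Subgroup.centralizer (Q : Set G)) f)) := by
      rw [subgroupBlockCoeff_eq_extend]
      exact isClassFunction_res_extend _ _ hCPQ (isClassFunction_blockCoeff f)
    have hcl₂ : IsClassFunction (Subgroup.centralizer (P : Set G))
        (resH (Subgroup.centralizer (P : Set G))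
          (subgroupBlockCoeff (Subgroup.centralizer (R : Set G)) g)) := by
      rw [subgroupBlockCoeff_eq_extend]
      exact isClassFunction_res_extend _ _ hCPR (isClassFunction_blockCoeff g)
    have h5 := om_memLocalIdeal ξ₀.2 (isClassFunction_conv hcl₁ hcl₂) key
    rw [om_conv ξ₀.2 hcl₁ hcl₂] at h5
    have hX := hbrf ξ₀ hξ₀e
    have hY := hbrg ξ₀ hξ₀e
    rw [brauerOmega_eq_om] at hX hY
    obtain ⟨X, hXdef⟩ : ∃ X : ℂ, X = Om (ξ₀ : Subgroup.centralizer (P : Set G) → ℂ)
        (resH (Subgroup.centralizer (P : Set G))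
          (subgroupBlockCoeff (Subgroup.centralizer (Q : Set G)) f)) := ⟨_, rfl⟩
    obtain ⟨Y, hYdef⟩ : ∃ Y : ℂ, Y = Om (ξ₀ : Subgroup.centralizer (P : Set G) → ℂ)
        (resH (Subgroup.centralizer (P : Set G))
          (subgroupBlockCoeff (Subgroup.centralizer (R : Set G)) g)) := ⟨_, rfl⟩
    rw [← hXdef] at hX h5
    rw [← hYdef] at hY h5
    have hYR' : MemLocalRing M Y := by
      have h3 := memLocalRing_add (memLocalRing_of_memLocalIdeal hY) (memLocalRing_one hMtop)
      rwa [sub_add_cancel] at h3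
    have h4 := memLocalIdeal_mul_left hYR' hX
    have h6 := memLocalIdeal_sub (memLocalIdeal_sub h5 h4) hY
    have h7 : X * Y - Y * (X - 1) - (Y - 1) = 1 := by ring
    rw [h7] at h6
    exact not_memLocalIdeal_one h6
  refine ⟨⟨hQ, hfb⟩, ⟨hR, ⟨ζ₀, hζ₀⟩⟩, hQR, hRNQ, hstabR, fun ζ hζ => ?_⟩
  rw [brauerOmega_eq_om, ← ha]
  have hsb : SameBlock M (ζ : Subgroup.centralizer (R : Set G) → ℂ)
      (ζ₀ : Subgroup.centralizer (R : Set G) → ℂ) := by
    rw [hζ₀] at hζ
    exact sameBlock_symm hζ
  have h1 := om_congr (isClassFunction_of_irr ζ.2) (isClassFunction_of_irr ζ₀.2) hsb hacl haR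
  have h2 := memLocalIdeal_add h1 hmain
  rw [sub_add_sub_cancel] at h2
  exact h2

end Main

section Chain

variable {G : Type u} [Group G] [Fintype G] {M : Ideal AlgInt} {p : ℕ} [Fact p.Prime]

omit [Fact p.Prime] in
/-- Every Brauer pair is normally below itself. -/
theorem normalSubpair_refl (hM : IsPModular p M) (Q : Subgroup G)
    (f : Set (IrrCharacter (Subgroup.centralizer (Q : Set G))))
    (h : IsBrauerPair p M Q f) : IsNormalSubpair p M Q f Q f := by
  classical
  have hMm : M.IsMaximal := hM.2.1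
  have hMp : M.IsPrime := hMm.isPrime
  have hMtop := hMp.ne_top
  have instQ : Fintype (Subgroup.centralizer (Q : Set G)) := Fintype.ofFinite _
  refine ⟨h, h, le_rfl, Subgroup.le_normalizer, ?_, ?_⟩
  · intro x hx
    refine ⟨mem_normalizer_centralizer Q (Subgroup.le_normalizer hx), fun χ hχ => ⟨χ, hχ, ?_⟩⟩
    intro k k' hk
    have h1 := (Subgroup.mem_centralizer_iff.mp k.2) x hx
    have h2 : k' = k := by
      apply Subtype.ext
      rw [hk, h1, mul_inv_cancel_right]
    rw [h2]
  · intro ξ hξ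
    rw [brauerOmega_eq_om]
    have hres : resH (Subgroup.centralizer (Q : Set G))
        (subgroupBlockCoeff (Subgroup.centralizer (Q : Set G)) f) = blockCoeff f := by
      funext c
      show subgroupBlockCoeff (Subgroup.centralizer (Q : Set G)) f (c : G) = blockCoeff f c
      rw [subgroupBlockCoeff_of_mem _ _ c.2]
    rw [hres, om_blockCoeff_of_mem hξ, sub_self]
    exact memLocalIdeal_zero hMtop

omit [Fact p.Prime] in
/-- A normal inclusion between pairs with the same subgroup is an equality. -/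
theorem normalSubpair_eq_of_le (hM : IsPModular p M) (P Q : Subgroup G)
    (e : Set (IrrCharacter (Subgroup.centralizer (P : Set G))))
    (f : Set (IrrCharacter (Subgroup.centralizer (Q : Set G))))
    (hn : IsNormalSubpair p M Q f P e) (hPQ : P ≤ Q) :
    (⟨Q, f⟩ : BrauerPairIdx G) = ⟨P, e⟩ := by
  classical
  have hMm : M.IsMaximal := hM.2.1
  have hMp : M.IsPrime := hMm.isPrime
  have hMtop := hMp.ne_top
  obtain rfl : Q = P := le_antisymm hn.2.2.1 hPQ
  have instQ : Fintype (Subgroup.centralizer (Q : Set G)) := Fintype.ofFinite _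
  obtain ⟨⟨hQ, hfb⟩, ⟨-, he⟩, -, -, -, hbr⟩ := hn
  obtain ⟨ξ₀, hξ₀⟩ := he
  have hξ₀e : ξ₀ ∈ e := by
    rw [hξ₀]
    exact mem_blockOf_self hMtop ξ₀
  have h := hbr ξ₀ hξ₀e
  have hres : resH (Subgroup.centralizer (Q : Set G))
      (subgroupBlockCoeff (Subgroup.centralizer (Q : Set G)) f) = blockCoeff f := by
    funext c
    show subgroupBlockCoeff (Subgroup.centralizer (Q : Set G)) f (c : G) = blockCoeff f c
    rw [subgroupBlockCoeff_of_mem _ _ c.2]
  rw [brauerOmega_eq_om, hres] at h
  have hfe : f = e := by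
    by_cases hξ : ξ₀ ∈ f
    · obtain ⟨χ, rfl⟩ := hfb
      rw [hξ₀]
      exact (blockOf_eq_of_mem hξ).symm
    · rw [om_blockCoeff_of_not_mem hξ, zero_sub] at h
      have h2 := memLocalIdeal_neg h
      rw [neg_neg] at h2
      exact absurd h2 not_memLocalIdeal_one
  rw [hfe]

omit [Fintype G] [Fact p.Prime] in
theorem chain_le (a b : BrauerPairIdx G)
    (h : Relation.ReflTransGen (NormalSubpairRel p M) a b) : a.1 ≤ b.1 := by
  induction h with
  | refl => exact le_rfl
  | tail _ hstep ih =>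
    have hstep' : IsNormalSubpair p M _ _ _ _ := hstep
    exact ih.trans hstep'.2.2.1

omit [Fact p.Prime] in
theorem chain_eq_of_le (hM : IsPModular p M) (a b : BrauerPairIdx G)
    (h : Relation.ReflTransGen (NormalSubpairRel p M) a b) (hba : b.1 ≤ a.1) : a = b := by
  induction h with
  | refl => rfl
  | @tail b c hab hstep ih =>
    have hstep' : IsNormalSubpair p M b.1 b.2 c.1 c.2 := hstep
    have h1 : a.1 ≤ b.1 := chain_le a b hab
    have h2 : (⟨b.1, b.2⟩ : BrauerPairIdx G) = ⟨c.1, c.2⟩ :=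
      normalSubpair_eq_of_le hM c.1 b.1 c.2 b.2 hstep' (hba.trans h1)
    have h3 : b = c := h2
    have h4 : a = b := ih ((hstep'.2.2.1).trans hba)
    rw [h4, h3]

omit [Fact p.Prime] in
theorem chain_first_step (hM : IsPModular p M) (a b : BrauerPairIdx G)
    (h : Relation.ReflTransGen (NormalSubpairRel p M) a b) (hne : a.1 ≠ b.1) :
    ∃ c : BrauerPairIdx G, a.1 < c.1 ∧ NormalSubpairRel p M a c ∧
      Relation.ReflTransGen (NormalSubpairRel p M) c b := by
  induction h using Relation.ReflTransGen.head_induction_on with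
  | refl => exact absurd rfl hne
  | @head a c hstep hcb ih =>
    have hstep' : IsNormalSubpair p M a.1 a.2 c.1 c.2 := hstep
    by_cases hca : c.1 ≤ a.1
    · have h2 : (⟨a.1, a.2⟩ : BrauerPairIdx G) = ⟨c.1, c.2⟩ :=
        normalSubpair_eq_of_le hM c.1 a.1 c.2 a.2 hstep' hca
      have h3 : a = c := h2
      rw [h3] at hne ⊢
      exact ih hne
    · exact ⟨c, lt_of_le_not_ge hstep'.2.2.1 hca, hstep, hcb⟩

omit [Fintype G] [Fact p.Prime] in
theorem chain_brauerPair (a b : BrauerPairIdx G)
    (h : Relation.ReflTransGen (NormalSubpairRel p M) a b) (hb : IsBrauerPair p M b.1 b.2) :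
    IsBrauerPair p M a.1 a.2 := by
  rcases h.cases_head with h1 | ⟨c, hstep, -⟩
  · rw [h1]
    exact hb
  · have hstep' : IsNormalSubpair p M a.1 a.2 c.1 c.2 := hstep
    exact hstep'.1

/-- Along a chain of normal inclusions, the normal subpairs on a fixed subgroup normalized by
the top group agree. -/
theorem chain_normal_eq (hM : IsPModular p M) (a b : BrauerPairIdx G)
    (h : Relation.ReflTransGen (NormalSubpairRel p M) a b) :
    ∀ (Q : Subgroup G) (fa fb : Set (IrrCharacter (Subgroup.centralizer (Q : Set G)))),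
      IsNormalSubpair p M Q fa a.1 a.2 → IsNormalSubpair p M Q fb b.1 b.2 → fa = fb := by
  induction h with
  | refl =>
    intro Q fa fb ha hb
    exact normalSubpair_unique hM _ Q _ fa fb ha hb
  | @tail b c hab hstep ih =>
    intro Q fa fc ha hc
    have hstep' : IsNormalSubpair p M b.1 b.2 c.1 c.2 := hstep
    have hQb : Q ≤ b.1 := ha.2.2.1.trans (chain_le a b hab)
    have hmid := normalSubpair_mid hM c.1 b.1 Q c.2 b.2 fc hQb hc hstep'
    exact ih Q fa fc ha hmid

/-- A pair below `(P, e)` whose subgroup is normalized by `P` is normally below `(P, e)`. -/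
theorem normalSubpair_of_chain (hM : IsPModular p M) (P Q : Subgroup G)
    (e : Set (IrrCharacter (Subgroup.centralizer (P : Set G))))
    (f : Set (IrrCharacter (Subgroup.centralizer (Q : Set G))))
    (hle : SubpairLE p M Q f P e) (hPe : IsBrauerPair p M P e)
    (hPN : P ≤ Subgroup.normalizer (Q : Set G)) : IsNormalSubpair p M Q f P e := by
  have hQP : Q ≤ P := chain_le ⟨Q, f⟩ ⟨P, e⟩ hle
  have hQf : IsBrauerPair p M Q f := chain_brauerPair ⟨Q, f⟩ ⟨P, e⟩ hle hPe
  obtain ⟨f₀, hf₀⟩ := exists_normalSubpair hM P Q e hPe hQP hPN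
  have h1 := chain_normal_eq hM ⟨Q, f⟩ ⟨P, e⟩ hle Q f f₀ (normalSubpair_refl hM Q f hQf) hf₀
  rw [h1]
  exact hf₀

/-- Existence of a subpair on every subgroup. -/
theorem exists_subpair (hM : IsPModular p M) (P : Subgroup G)
    (e : Set (IrrCharacter (Subgroup.centralizer (P : Set G))))
    (hPe : IsBrauerPair p M P e) (Q : Subgroup G) :
    Q ≤ P → ∃ f : Set (IrrCharacter (Subgroup.centralizer (Q : Set G))),
      IsPBlock M f ∧ SubpairLE p M Q f P e := by
  induction Q using WellFoundedGT.induction with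
  | _ Q ih =>
    intro hQP
    by_cases hQeq : Q = P
    · subst hQeq
      exact ⟨e, hPe.2, Relation.ReflTransGen.refl⟩
    · have hlt : Q < P := lt_of_le_of_ne hQP hQeq
      obtain ⟨Q₁, hQQ₁, hQ₁P, hQ₁N⟩ := exists_normalizer_gt P Q hPe.1 hlt
      obtain ⟨f₁, hf₁, hle₁⟩ := ih Q₁ hQQ₁ hQ₁P
      obtain ⟨f, hf⟩ := exists_normalSubpair hM Q₁ Q f₁ ⟨hPe.1.to_le hQ₁P, hf₁⟩ hQQ₁.le hQ₁N
      exact ⟨f, hf.1.2, Relation.ReflTransGen.head
        (show NormalSubpairRel p M ⟨Q, f⟩ ⟨Q₁, f₁⟩ from hf) hle₁⟩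

/-- Uniqueness of the subpair on every subgroup. -/
theorem subpair_unique (hM : IsPModular p M) (P : Subgroup G)
    (e : Set (IrrCharacter (Subgroup.centralizer (P : Set G))))
    (hPe : IsBrauerPair p M P e) (Q : Subgroup G) :
    ∀ f f' : Set (IrrCharacter (Subgroup.centralizer (Q : Set G))),
      SubpairLE p M Q f P e → SubpairLE p M Q f' P e → f = f' := by
  induction Q using WellFoundedGT.induction with
  | _ Q ih =>
    intro f f' hle hle'
    have hQP : Q ≤ P := chain_le ⟨Q, f⟩ ⟨P, e⟩ hle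
    by_cases hQeq : Q = P
    · have h1 : (⟨Q, f⟩ : BrauerPairIdx G) = ⟨P, e⟩ :=
        chain_eq_of_le hM ⟨Q, f⟩ ⟨P, e⟩ hle (le_of_eq hQeq.symm)
      have h2 : (⟨Q, f'⟩ : BrauerPairIdx G) = ⟨P, e⟩ :=
        chain_eq_of_le hM ⟨Q, f'⟩ ⟨P, e⟩ hle' (le_of_eq hQeq.symm)
      have h3 : (⟨Q, f⟩ : BrauerPairIdx G) = ⟨Q, f'⟩ := h1.trans h2.symm
      exact eq_of_heq (Sigma.mk.inj_iff.mp h3).2
    · have hlt : Q < P := lt_of_le_of_ne hQP hQeq
      obtain ⟨Q₀, hQQ₀, hQ₀P, hQ₀N⟩ := exists_normalizer_gt P Q hPe.1 hlt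
      obtain ⟨R, hRdef⟩ : ∃ R : Subgroup G, R = P ⊓ Subgroup.normalizer (Q : Set G) := ⟨_, rfl⟩
      have hRP : R ≤ P := by
        rw [hRdef]
        exact inf_le_left
      have hRN : R ≤ Subgroup.normalizer (Q : Set G) := by
        rw [hRdef]
        exact inf_le_right
      obtain ⟨g, hg, hleg⟩ := exists_subpair hM P e hPe R hRP
      have hRg : IsBrauerPair p M R g := ⟨hPe.1.to_le hRP, hg⟩
      have key : ∀ f₂ : Set (IrrCharacter (Subgroup.centralizer (Q : Set G))),
          SubpairLE p M Q f₂ P e → IsNormalSubpair p M Q f₂ R g := by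
        intro f₂ hle₂
        obtain ⟨c, hQc, hstep, hcP⟩ := chain_first_step hM ⟨Q, f₂⟩ ⟨P, e⟩ hle₂ hQeq
        have hstep' : IsNormalSubpair p M Q f₂ c.1 c.2 := hstep
        have hcP' : c.1 ≤ P := chain_le c ⟨P, e⟩ hcP
        have hcR : c.1 ≤ R := by
          rw [hRdef]
          exact le_inf hcP' hstep'.2.2.2.1
        obtain ⟨f₁, hf₁, hle₁⟩ := exists_subpair hM R g hRg c.1 hcR
        have hle₁P : SubpairLE p M c.1 f₁ P e := Relation.ReflTransGen.trans hle₁ hleg
        have hcP'' : SubpairLE p M c.1 c.2 P e := hcP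
        have hf₁eq : f₁ = c.2 := ih c.1 hQc f₁ c.2 hle₁P hcP''
        rw [hf₁eq] at hle₁
        have hchain : SubpairLE p M Q f₂ R g := Relation.ReflTransGen.head hstep hle₁
        exact normalSubpair_of_chain hM R Q g f₂ hchain hRg hRN
      exact normalSubpair_unique hM R Q g f f' (key f hle) (key f' hle')

end Chain

end Cfsg.Agent.Lib_helper3_SubpairUnique
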