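import Mathlib
import Cfsg.Prelude.Def_Characters
import Cfsg.Prelude.Def_Blocks
import Cfsg.Prelude.Def_BlockLocal
import Cfsg.Prelude.Def_BrauerPairs
import Cfsg.Agent.Lib_helper3_NormalPTrace
import Cfsg.Agent.Lib_helper3_SubpairUnique
import Cfsg.Agent.Lib_helper3_FirstMain
import Cfsg.Agent.Lib_helper3_Deficiency
import Cfsg.Agent.S0906
import Cfsg.Agent.S0912

set_option autoImplicit false
open Cfsg
open Cfsg.Agent.Lib_helper3_CharBasic Cfsg.Agent.Lib_helper3_CharMore
  Cfsg.Agent.Lib_helper3_Local Cfsg.Agent.Lib_helper3_Local2 Cfsg.Agent.Lib_helper3_BlockAlg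
  Cfsg.Agent.Lib_helper3_IdemSupp Cfsg.Agent.Lib_helper3_Residue
  Cfsg.Agent.Lib_helper3_BrauerHom Cfsg.Agent.Lib_helper3_BrauerHom2
  Cfsg.Agent.Lib_helper3_BrauerHom3 Cfsg.Agent.Lib_helper3_ExtFirstMain
  Cfsg.Agent.Lib_helper3_BrauerPair Cfsg.Agent.Lib_helper3_NilPrincipal
  Cfsg.Agent.Lib_helper3_PrincipalPairs Cfsg.Agent.Lib_helper3_BrauerTrunc
  Cfsg.Agent.Lib_helper3_CharInd Cfsg.Agent.Lib_helper3_SecondMain3
  Cfsg.Agent.Lib_helper3_SubpairBlock Cfsg.Agent.Lib_helper3_NormalSubpair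
  Cfsg.Agent.Lib_helper3_BlockCover Cfsg.Agent.Lib_helper3_BlockInd
  Cfsg.Agent.Lib_helper3_ThirdMain Cfsg.Agent.Lib_helper3_StableBlock
  Cfsg.Agent.Lib_helper3_NormalPTrace Cfsg.Agent.Lib_helper3_SubpairUnique
open scoped ComplexConjugate

namespace Cfsg.Agent.Lib_helper3_MaxPair

attribute [local instance] Ideal.Quotient.field

universe u

section Union

variable {G : Type u} [Group G] [Finite G]

/-- The idempotent of a disjoint union of sets of characters is the sum of the idempotents. -/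
theorem blockCoeff_biUnion (𝔒 : Finset (Set (IrrCharacter G)))
    (hdis : ∀ f ∈ 𝔒, ∀ f' ∈ 𝔒, f ≠ f' → Disjoint f f') (g : G) :
    blockCoeff (⋃ f ∈ (𝔒 : Set (Set (IrrCharacter G))), f) g = ∑ f ∈ 𝔒, blockCoeff f g := by
  classical
  have hfin := irr_finite (G := G)
  unfold blockCoeff
  rw [← Finset.mul_sum]
  congr 1
  rw [finsum_mem_biUnion (fun f hf f' hf' hne => hdis f (Finset.mem_coe.mp hf) f'
    (Finset.mem_coe.mp hf') hne) 𝔒.finite_toSet (fun f _ => Set.toFinite f),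
    finsum_mem_coe_finset]

end Union

section Main

variable {G : Type u} [Group G] [Fintype G] {M : Ideal AlgInt} {p : ℕ} [Fact p.Prime]

/-- A stable block of the centralizer of `Q` whose idempotent survives the Brauer map at the
`p`-subgroup `P` lies normally below some Brauer pair at `P`. -/
theorem exists_superpair (hM : IsPModular p M) (P Q : Subgroup G)
    (f : Set (IrrCharacter (Subgroup.centralizer (Q : Set G))))
    (hQf : IsBrauerPair p M Q f) (hP : IsPGroup p P) (hQP : Q ≤ P)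
    (hPN : P ≤ Subgroup.normalizer (Q : Set G))
    (hstab : ∀ x ∈ P, StabilizesBlock (Subgroup.centralizer (Q : Set G)) f x)
    (c₀ : G) (hc₀ : c₀ ∈ Subgroup.centralizer (P : Set G))
    (hne : ¬ MemLocalIdeal M (subgroupBlockCoeff (Subgroup.centralizer (Q : Set G)) f c₀)) :
    ∃ e : Set (IrrCharacter (Subgroup.centralizer (P : Set G))),
      IsNormalSubpair p M Q f P e := by
  classical
  have hMm : M.IsMaximal := hM.2.1
  have hMp : M.IsPrime := hMm.isPrime
  have hMtop := hMp.ne_top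
  have instQ : Fintype (Subgroup.centralizer (Q : Set G)) := Fintype.ofFinite _
  have instP : Fintype (Subgroup.centralizer (P : Set G)) := Fintype.ofFinite _
  obtain ⟨hQ, hfblock⟩ := hQf
  have hCPQ : Subgroup.centralizer (P : Set G) ≤ Subgroup.centralizer (Q : Set G) :=
    Subgroup.centralizer_le (SetLike.coe_subset_coe.mpr hQP)
  obtain ⟨a, ha⟩ : ∃ a : Subgroup.centralizer (P : Set G) → ℂ,
      a = resH (Subgroup.centralizer (P : Set G))
        (subgroupBlockCoeff (Subgroup.centralizer (Q : Set G)) f) := ⟨_, rfl⟩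
  have hacl : IsClassFunction (Subgroup.centralizer (P : Set G)) a := by
    rw [ha, subgroupBlockCoeff_eq_extend]
    exact isClassFunction_res_extend _ _ hCPQ (isClassFunction_blockCoeff f)
  have haR : ∀ c, MemLocalRing M (a c) := by
    intro c
    rw [ha]
    show MemLocalRing M (subgroupBlockCoeff (Subgroup.centralizer (Q : Set G)) f (c : G))
    rw [subgroupBlockCoeff_of_mem _ _ (hCPQ c.2)]
    exact osima hfblock _
  have hfR : ∀ k, MemLocalRing M (blockCoeff f k) := fun k => osima hfblock k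
  have hidem : red M a * red M a = red M a := by
    rw [← red_conv haR haR]
    symm
    apply red_congr (memLocalRing_conv haR haR)
    intro c
    have h1 := res_conv_pointwise hM P Q hP hQP f f hfR hfR hstab hstab c
    rw [conv_blockCoeff, ← subgroupBlockCoeff_eq_extend, ← ha] at h1
    exact h1
  have hane : red M a ≠ 0 := by
    intro h0
    have h1 := (red_eq_zero_iff haR).mp h0 ⟨c₀, hc₀⟩
    rw [ha] at h1
    exact hne h1
  have hex : ∃ ξ₀ : IrrCharacter (Subgroup.centralizer (P : Set G)),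
      ¬ MemLocalIdeal M (Om (ξ₀ : Subgroup.centralizer (P : Set G) → ℂ) a) := by
    by_contra hno
    push Not at hno
    exact hane (red_eq_zero_of_om hacl haR hidem hno)
  obtain ⟨ξ₀, hξ₀⟩ := hex
  have hYR : MemLocalRing M (Om (ξ₀ : Subgroup.centralizer (P : Set G) → ℂ) a) :=
    memLocalRing_om ξ₀.2 hacl haR
  have hmult := om_res_conv hM P Q hP hQP hPN f f hfR hfR hstab hstab ξ₀
  rw [conv_blockCoeff, ← subgroupBlockCoeff_eq_extend, ← ha] at hmult
  have hY1 : MemLocalIdeal M (Om (ξ₀ : Subgroup.centralizer (P : Set G) → ℂ) a - 1) := by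
    by_contra hnot1
    have h1 := not_memLocalIdeal_mul hYR hξ₀ (memLocalRing_sub hYR (memLocalRing_one hMtop))
      hnot1
    apply h1
    have h2 := memLocalIdeal_neg hmult
    have h3 : -(Om (ξ₀ : Subgroup.centralizer (P : Set G) → ℂ) a -
        Om (ξ₀ : Subgroup.centralizer (P : Set G) → ℂ) a *
          Om (ξ₀ : Subgroup.centralizer (P : Set G) → ℂ) a) =
        Om (ξ₀ : Subgroup.centralizer (P : Set G) → ℂ) a *
          (Om (ξ₀ : Subgroup.centralizer (P : Set G) → ℂ) a - 1) := by ring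
    rw [h3] at h2
    exact h2
  refine ⟨blockOf M (ξ₀ : Subgroup.centralizer (P : Set G) → ℂ), ⟨hQ, hfblock⟩,
    ⟨hP, ⟨ξ₀, rfl⟩⟩, hQP, hPN, hstab, fun ξ hξ => ?_⟩
  rw [brauerOmega_eq_om, ← ha]
  have hsb : SameBlock M (ξ : Subgroup.centralizer (P : Set G) → ℂ)
      (ξ₀ : Subgroup.centralizer (P : Set G) → ℂ) := sameBlock_symm hξ
  have h1 := om_congr (isClassFunction_of_irr ξ.2) (isClassFunction_of_irr ξ₀.2) hsb hacl haR
  have h2 := memLocalIdeal_add h1 hY1
  rw [sub_add_sub_cancel] at h2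
  exact h2

/-- Normal case: a `p`-subgroup centralizing an element where the idempotent of `b` does not
vanish fixes a conjugate of the block `e` whose idempotent does not vanish there. -/
theorem exists_fixed_conj (hM : IsPModular p M) (P : Subgroup G) [P.Normal]
    (b : Set (IrrCharacter G)) (e : Set (IrrCharacter (Subgroup.centralizer (P : Set G))))
    (hbe : IsBrauerPairOf p M b P e) (h : G) (hh : ¬ MemLocalIdeal M (blockCoeff b h))
    (Δ : Subgroup G) (hΔ : IsPGroup p Δ) (hΔh : ∀ δ ∈ Δ, δ * h = h * δ) :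
    ∃ y : G, (∀ δ ∈ Δ, act (Subgroup.centralizer (P : Set G)) (y⁻¹ * δ * y) e = e) ∧
      ¬ MemLocalIdeal M
        (subgroupBlockCoeff (Subgroup.centralizer (P : Set G)) e (y⁻¹ * h * y)) := by
  classical
  have hMm : M.IsMaximal := hM.2.1
  have hMp : M.IsPrime := hMm.isPrime
  have hMtop := hMp.ne_top
  have hch : CharP (AlgInt ⧸ M) p := charP_quot hM
  have instC : Fintype (Subgroup.centralizer (P : Set G)) := Fintype.ofFinite _
  have hCn : (Subgroup.centralizer (P : Set G)).Normal := inferInstance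
  obtain ⟨⟨hP, he⟩, hB, hbr⟩ := hbe
  have hnorm : ∀ u : G, u ∈ Subgroup.normalizer
      ((Subgroup.centralizer (P : Set G) : Subgroup G) : Set G) :=
    fun u => mem_normalizer_of_normal _ u
  have h1 := blockCoeff_eq_cover (M := M) (Subgroup.centralizer (P : Set G)) b hB e he
    (fun g hg => Cfsg.Agent.Lib_helper3_IdemCent2.blockCoeff_supported hM P hP b hB g hg)
    (fun ξ hξ => by
      have h := hbr ξ hξ
      rwa [brauerOmega_eq_om] at h) h
  have hhC : h ∈ Subgroup.centralizer (P : Set G) := by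
    by_contra hn
    rw [extendByZero_not_mem _ _ hn] at h1
    rw [h1] at hh
    exact hh (memLocalIdeal_zero hMtop)
  rw [extendByZero_mem _ _ hhC] at h1
  obtain ⟨𝔒, h𝔒⟩ : ∃ 𝔒 : Finset (Set (IrrCharacter (Subgroup.centralizer (P : Set G)))),
      𝔒 = Finset.univ.image (fun x : G => act (Subgroup.centralizer (P : Set G)) x e) :=
    ⟨_, rfl⟩
  have hmem𝔒 : ∀ f, f ∈ 𝔒 ↔ ∃ x : G, act (Subgroup.centralizer (P : Set G)) x e = f := by
    intro f
    rw [h𝔒, Finset.mem_image]
    constructor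
    · rintro ⟨x, -, hx⟩
      exact ⟨x, hx⟩
    · rintro ⟨x, hx⟩
      exact ⟨x, Finset.mem_univ _, hx⟩
  have hblock𝔒 : ∀ f ∈ 𝔒, IsPBlock M f := by
    intro f hf
    obtain ⟨x, rfl⟩ := (hmem𝔒 f).mp hf
    obtain ⟨ξ, rfl⟩ := he
    rw [act_blockOf _ x (hnorm x) ξ]
    exact ⟨⟨_, isIrrCharacter_comp_equiv _ ξ.2⟩, rfl⟩
  have hdis : ∀ f ∈ 𝔒, ∀ f' ∈ 𝔒, f ≠ f' → Disjoint f f' := by
    intro f hf f' hf' hne
    rw [Set.disjoint_left]
    intro χ hχ hχ'
    apply hne
    obtain ⟨ξ, rfl⟩ := hblock𝔒 f hf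
    obtain ⟨ξ', rfl⟩ := hblock𝔒 f' hf'
    rw [← blockOf_eq_of_mem hχ, ← blockOf_eq_of_mem hχ']
  have hunion : orbClosure (Subgroup.centralizer (P : Set G)) e =
      ⋃ f ∈ (𝔒 : Set (Set (IrrCharacter (Subgroup.centralizer (P : Set G))))), f := by
    ext φ
    constructor
    · rintro ⟨x, θ, hθ, rfl⟩
      refine Set.mem_iUnion₂.mpr ⟨act (Subgroup.centralizer (P : Set G)) x⁻¹ e,
        Finset.mem_coe.mpr ((hmem𝔒 _).mpr ⟨x⁻¹, rfl⟩), ?_⟩
      rw [mem_act_iff _ x⁻¹ (hnorm x⁻¹)]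
      refine ⟨θ, hθ, ?_⟩
      funext k
      rw [conjIrr_coe, Lib_helper3_CharNormal.conjFun_apply]
      show (θ : Subgroup.centralizer (P : Set G) → ℂ) _ =
        (θ : Subgroup.centralizer (P : Set G) → ℂ) (conjNorm _ x⁻¹ (hnorm x⁻¹) k)
      refine congrArg (θ : Subgroup.centralizer (P : Set G) → ℂ) (Subtype.ext ?_)
      rw [conjNorm_apply, inv_inv]
    · intro hφ
      obtain ⟨f, hf, hφf⟩ := Set.mem_iUnion₂.mp hφ
      obtain ⟨x, rfl⟩ := (hmem𝔒 f).mp (Finset.mem_coe.mp hf)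
      obtain ⟨χ, hχ, hφeq⟩ := (mem_act_iff _ x (hnorm x) e φ).mp hφf
      refine ⟨x⁻¹, χ, hχ, Subtype.ext ?_⟩
      rw [hφeq, conjIrr_coe]
      funext k
      rw [Lib_helper3_CharNormal.conjFun_apply]
      show (χ : Subgroup.centralizer (P : Set G) → ℂ) (conjNorm _ x (hnorm x) k) =
        (χ : Subgroup.centralizer (P : Set G) → ℂ) _
      refine congrArg (χ : Subgroup.centralizer (P : Set G) → ℂ) (Subtype.ext ?_)
      rw [conjNorm_apply]
      show x⁻¹ * (k : G) * x = x⁻¹ * (k : G) * x⁻¹⁻¹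
      rw [inv_inv]
  have hsumO : blockCoeff (orbClosure (Subgroup.centralizer (P : Set G)) e) ⟨h, hhC⟩ =
      ∑ f ∈ 𝔒, blockCoeff f ⟨h, hhC⟩ := by
    rw [hunion]
    exact blockCoeff_biUnion 𝔒 hdis _
  let _ : MulAction Δ (Set (IrrCharacter (Subgroup.centralizer (P : Set G)))) :=
    { smul := fun u f => act (Subgroup.centralizer (P : Set G)) (u : G) f
      one_smul := fun f => act_one _ f
      mul_smul := fun u v f => act_mul _ (u : G) (v : G) (hnorm u) (hnorm v) f }
  have hsmul : ∀ (u : Δ) (f : Set (IrrCharacter (Subgroup.centralizer (P : Set G)))),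
      u • f = act (Subgroup.centralizer (P : Set G)) (u : G) f := fun _ _ => rfl
  obtain ⟨r, hr⟩ : ∃ r : Set (IrrCharacter (Subgroup.centralizer (P : Set G))) → ℂ,
      r = fun f => blockCoeff f ⟨h, hhC⟩ := ⟨_, rfl⟩
  have hrR : ∀ f ∈ 𝔒, MemLocalRing M (r f) := by
    intro f hf
    rw [hr]
    exact osima (hblock𝔒 f hf) _
  have hrinv : ∀ (u : Δ) (f : Set (IrrCharacter (Subgroup.centralizer (P : Set G)))),
      r (u • f) = r f := by
    intro u f
    rw [hr, hsmul]
    show blockCoeff (act _ (u : G) f) ⟨h, hhC⟩ = blockCoeff f ⟨h, hhC⟩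
    rw [blockCoeff_act _ (u : G) (hnorm u)]
    congr 1
    apply Subtype.ext
    rw [conjNorm_apply]
    show (u : G)⁻¹ * h * (u : G) = h
    rw [mul_assoc, ← hΔh (u : G) u.2, inv_mul_cancel_left]
  have hstab𝔒 : ∀ (u : Δ), ∀ f ∈ 𝔒, u • f ∈ 𝔒 := by
    intro u f hf
    obtain ⟨x, rfl⟩ := (hmem𝔒 f).mp hf
    rw [hsmul, ← act_mul _ (u : G) x (hnorm u) (hnorm x)]
    exact (hmem𝔒 _).mpr ⟨(u : G) * x, rfl⟩
  have horb : ∑ f ∈ 𝔒.filter (fun f => ¬ ∀ u : Δ, u • f = f), res M (r f) = 0 := by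
    apply sum_nonfixed_eq_zero hΔ 𝔒 hstab𝔒
    intro u f _
    rw [hrinv]
  have hres_sum : ∑ f ∈ 𝔒, res M (r f) = res M (blockCoeff b h) := by
    have h4 : ∑ f ∈ 𝔒, r f = blockCoeff b h := by
      rw [h1, hsumO, hr]
    rw [← res_sum 𝔒 r hrR, h4]
  have hsplit := Finset.sum_filter_add_sum_filter_not 𝔒 (fun f => ∀ u : Δ, u • f = f)
    (fun f => res M (r f))
  rw [horb, add_zero, hres_sum] at hsplit
  have hbR : MemLocalRing M (blockCoeff b h) := osima hB h
  have hex : ∃ f ∈ 𝔒.filter (fun f => ∀ u : Δ, u • f = f), res M (r f) ≠ 0 := by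
    by_contra hno
    push Not at hno
    rw [Finset.sum_eq_zero hno] at hsplit
    exact hh ((res_eq_zero_iff hbR).mp hsplit.symm)
  obtain ⟨f, hf, hfne⟩ := hex
  rw [Finset.mem_filter] at hf
  obtain ⟨hf𝔒, hfix⟩ := hf
  obtain ⟨y, rfl⟩ := (hmem𝔒 f).mp hf𝔒
  refine ⟨y, fun δ hδ => ?_, ?_⟩
  · have h2 := hfix ⟨δ, hδ⟩
    rw [hsmul] at h2
    have h3 : y⁻¹ * δ * y = y⁻¹ * (δ * y) := mul_assoc _ _ _
    rw [h3, act_mul _ y⁻¹ (δ * y) (hnorm _) (hnorm _), act_mul _ δ y (hnorm _) (hnorm _)]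
    show act _ y⁻¹ (act _ ((⟨δ, hδ⟩ : Δ) : G) (act _ y e)) = e
    rw [h2, ← act_mul _ y⁻¹ y (hnorm _) (hnorm _), inv_mul_cancel, act_one]
  · intro hmem
    apply hfne
    rw [res_eq_zero_iff (hrR _ hf𝔒), hr]
    show MemLocalIdeal M (blockCoeff (act _ y e) ⟨h, hhC⟩)
    rw [blockCoeff_act _ y (hnorm y)]
    have hyC : y⁻¹ * h * y ∈ Subgroup.centralizer (P : Set G) :=
      (conjNorm _ y (hnorm y) ⟨h, hhC⟩).2
    rw [subgroupBlockCoeff_of_mem _ _ hyC] at hmem
    exact hmem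

omit [Fact p.Prime] in
/-- An element of `T` fixing the transported block stabilizes the original block. -/
theorem stabilizes_of_act_transport (P T : Subgroup G) (hPT : P ≤ T)
    (hCT : Subgroup.centralizer (P : Set G) ≤ T) (hTN : T ≤ Subgroup.normalizer (P : Set G))
    (e : Set (IrrCharacter (Subgroup.centralizer (P : Set G)))) (t : T)
    (ht : t ∈ Subgroup.normalizer
      ((Subgroup.centralizer ((P.subgroupOf T : Subgroup T) : Set T) : Subgroup T) : Set T))
    (h : act (Subgroup.centralizer ((P.subgroupOf T : Subgroup T) : Set T)) t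
        (transportSet (centIso P T hPT hCT) e) = transportSet (centIso P T hPT hCT) e) :
    StabilizesBlock (Subgroup.centralizer (P : Set G)) e (t : G) := by
  have hn : (t : G) ∈ Subgroup.normalizer
      ((Subgroup.centralizer (P : Set G) : Subgroup G) : Set G) :=
    mem_normalizer_centralizer P (hTN t.2)
  refine ⟨hn, fun χ hχ => ?_⟩
  have h1 : (⟨(χ : Subgroup.centralizer (P : Set G) → ℂ) ∘ centIso P T hPT hCT,
      isIrrCharacter_comp_equiv _ χ.2⟩ :
      IrrCharacter (Subgroup.centralizer ((P.subgroupOf T : Subgroup T) : Set T))) ∈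
      transportSet (centIso P T hPT hCT) e := ⟨χ, hχ, rfl⟩
  have h2 : (⟨((χ : Subgroup.centralizer (P : Set G) → ℂ) ∘ centIso P T hPT hCT) ∘
      conjNorm _ t ht, isIrrCharacter_comp_equiv _ (isIrrCharacter_comp_equiv _ χ.2)⟩ :
      IrrCharacter (Subgroup.centralizer ((P.subgroupOf T : Subgroup T) : Set T))) ∈
      act _ t (transportSet (centIso P T hPT hCT) e) :=
    (mem_act_iff _ t ht _ _).mpr ⟨_, h1, rfl⟩
  rw [h] at h2
  obtain ⟨χ', hχ', heq⟩ := h2
  refine ⟨χ', hχ', ?_⟩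
  intro k k' hk
  have h3 := congrFun heq ((centIso P T hPT hCT).symm k')
  have h4 : (χ' : Subgroup.centralizer (P : Set G) → ℂ)
      ((centIso P T hPT hCT) ((centIso P T hPT hCT).symm k')) =
      (χ' : Subgroup.centralizer (P : Set G) → ℂ) k' := by
    rw [MulEquiv.apply_symm_apply]
  have h5 : (χ : Subgroup.centralizer (P : Set G) → ℂ)
      ((centIso P T hPT hCT) (conjNorm _ t ht ((centIso P T hPT hCT).symm k'))) =
      (χ : Subgroup.centralizer (P : Set G) → ℂ) k := by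
    refine congrArg (χ : Subgroup.centralizer (P : Set G) → ℂ) (Subtype.ext ?_)
    rw [centIso_coe, conjNorm_apply]
    show ((t : G))⁻¹ * ((((centIso P T hPT hCT).symm k' :
      Subgroup.centralizer ((P.subgroupOf T : Subgroup T) : Set T)) : T) : G) * (t : G) = (k : G)
    have h6 : ((((centIso P T hPT hCT).symm k' :
        Subgroup.centralizer ((P.subgroupOf T : Subgroup T) : Set T)) : T) : G) = (k' : G) := by
      rw [← centIso_coe P T hPT hCT, MulEquiv.apply_symm_apply]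
    rw [h6, hk]
    group
  exact h4.symm.trans (h3.symm.trans h5)

/-- For a maximal Brauer pair `(P, e)` of `B` and a subgroup `T` between `P C_G(P)` and
`N_G(P)`: the block of `T` containing `e` induces `B` and has defect group `P`. -/
theorem exists_block_normalizer (hM : IsPModular p M) (B : Set (IrrCharacter G))
    (P : Subgroup G) (e : Set (IrrCharacter (Subgroup.centralizer (P : Set G))))
    (hmax : IsMaximalBrauerPair p M B P e) (T : Subgroup G) (hPT : P ≤ T)
    (hCT : Subgroup.centralizer (P : Set G) ≤ T) (hTN : T ≤ Subgroup.normalizer (P : Set G)) :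
    ∃ b : Set (IrrCharacter T), IsPBlock M b ∧ IsInducedBlock M T b B ∧
      IsDefectGroup p M b (P.subgroupOf T) := by
  classical
  have hMm : M.IsMaximal := hM.2.1
  have hMp : M.IsPrime := hMm.isPrime
  have hMtop := hMp.ne_top
  obtain ⟨hBe, hmaxi⟩ := hmax
  have hP : IsPGroup p P := hBe.1.1
  have he : IsPBlock M e := hBe.1.2
  have hB : IsPBlock M B := hBe.2.1
  have instT : Fintype T := Fintype.ofFinite _
  have instC : Fintype (Subgroup.centralizer (P : Set G)) := Fintype.ofFinite _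
  have instCT : Fintype (Subgroup.centralizer ((P.subgroupOf T : Subgroup T) : Set T)) :=
    Fintype.ofFinite _
  have hPTn : (P.subgroupOf T).Normal := by
    constructor
    intro n hn g
    rw [Subgroup.mem_subgroupOf] at hn ⊢
    exact (Subgroup.mem_normalizer_iff.mp (hTN g.2) (n : G)).mp hn
  obtain ⟨eT, heT⟩ : ∃ eT : Set (IrrCharacter
      (Subgroup.centralizer ((P.subgroupOf T : Subgroup T) : Set T))),
      eT = transportSet (centIso P T hPT hCT) e := ⟨_, rfl⟩
  have heTb : IsPBlock M eT := by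
    rw [heT]
    exact isPBlock_transport _ he
  have hPTp : IsPGroup p (P.subgroupOf T) := hP.comap_subtype
  obtain ⟨b, hb, -⟩ := brauerPair_unique_block hM (P.subgroupOf T) eT ⟨hPTp, heTb⟩
  have hbblock : IsPBlock M b := hb.2.1
  have hind : IsInducedBlock M T b B := by
    have h1 := (isBrauerPairOf_iff hM (P.subgroupOf T) hPTp eT heTb b hbblock).mp hb
    have h2 := (isBrauerPairOf_iff hM P hP e he B hB).mp hBe
    obtain ⟨θ, hθ⟩ := id he
    have hθe : θ ∈ e := by
      rw [hθ]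
      exact mem_blockOf_self hMtop θ
    obtain ⟨ψ, hψ⟩ := id hbblock
    have hψb : ψ ∈ b := by
      rw [hψ]
      exact mem_blockOf_self hMtop ψ
    obtain ⟨χ, hχ⟩ := id hB
    have hχB : χ ∈ B := by
      rw [hχ]
      exact mem_blockOf_self hMtop χ
    have hθT : (⟨(θ : Subgroup.centralizer (P : Set G) → ℂ) ∘ centIso P T hPT hCT,
        isIrrCharacter_comp_equiv _ θ.2⟩ :
        IrrCharacter (Subgroup.centralizer ((P.subgroupOf T : Subgroup T) : Set T))) ∈ eT := by
      rw [heT]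
      exact ⟨θ, hθe, rfl⟩
    have key := isInducedBlock_of_rep (M := M) T ψ χ (fun g =>
      induced_trans T (Subgroup.centralizer ((P.subgroupOf T : Subgroup T) : Set T))
        (Subgroup.centralizer (P : Set G)) (centIso P T hPT hCT) (fun a => rfl)
        (θ : Subgroup.centralizer (P : Set G) → ℂ) (ψ : T → ℂ) (isClassFunction_of_irr ψ.2)
        (χ : G → ℂ) (fun k => h1.2.2 _ hθT ψ hψb k) (fun g => h2.2.2 θ hθe χ hχB g) g)
    rw [← hψ, ← hχ] at key
    exact key
  refine ⟨b, hbblock, hind, ?_⟩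
  obtain ⟨h, hdef⟩ := Cfsg.Agent.S0906.result p M hM b hbblock
  obtain ⟨S⟩ : Nonempty (Sylow p (Subgroup.centralizer ({h} : Set T))) := inferInstance
  obtain ⟨Δ, hΔdef⟩ : ∃ Δ : Subgroup T,
      Δ = (S : Subgroup (Subgroup.centralizer ({h} : Set T))).map
        (Subgroup.centralizer ({h} : Set T)).subtype := ⟨_, rfl⟩
  have hΔdg : IsDefectGroup p M b Δ := ⟨h, hdef, S, hΔdef⟩
  have hΔp : IsPGroup p Δ := by
    rw [hΔdef]
    exact S.2.map _
  have hΔh : ∀ δ ∈ Δ, δ * h = h * δ := by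
    intro δ hδ
    rw [hΔdef] at hδ
    obtain ⟨c, -, rfl⟩ := Subgroup.mem_map.mp hδ
    exact (Subgroup.mem_centralizer_iff.mp c.2 h (Set.mem_singleton h)).symm
  have hPΔ : P.subgroupOf T ≤ Δ := by
    refine le_trans ?_ (Cfsg.Agent.S0912.result p M hM b hbblock Δ hΔdg)
    exact le_sSup ⟨hPTn, hPTp⟩
  obtain ⟨y, hyfix, hyne⟩ := exists_fixed_conj hM (P.subgroupOf T) b eT hb h hdef.2.1 Δ hΔp hΔh
  obtain ⟨R, hRdef⟩ : ∃ R : Subgroup G,
      R = (Δ.map (MulAut.conj y⁻¹).toMonoidHom).map T.subtype := ⟨_, rfl⟩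
  have hmemR : ∀ r : G, r ∈ R ↔ ∃ δ ∈ Δ, r = ((y⁻¹ * δ * y : T) : G) := by
    intro r
    rw [hRdef]
    constructor
    · intro hr
      obtain ⟨t, ht, rfl⟩ := Subgroup.mem_map.mp hr
      obtain ⟨δ, hδ, rfl⟩ := Subgroup.mem_map.mp ht
      refine ⟨δ, hδ, ?_⟩
      show ((y⁻¹ * δ * y⁻¹⁻¹ : T) : G) = ((y⁻¹ * δ * y : T) : G)
      rw [inv_inv]
    · rintro ⟨δ, hδ, rfl⟩
      refine Subgroup.mem_map.mpr ⟨y⁻¹ * δ * y, Subgroup.mem_map.mpr ⟨δ, hδ, ?_⟩, rfl⟩
      show y⁻¹ * δ * y⁻¹⁻¹ = y⁻¹ * δ * y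
      rw [inv_inv]
  have hRp : IsPGroup p R := by
    rw [hRdef]
    exact (hΔp.map _).map _
  have hPR : P ≤ R := by
    intro u hu
    rw [hmemR]
    have hu' : (⟨u, hPT hu⟩ : T) ∈ P.subgroupOf T := Subgroup.mem_subgroupOf.mpr hu
    have h1 : y * ⟨u, hPT hu⟩ * y⁻¹ ∈ P.subgroupOf T := hPTn.conj_mem _ hu' y
    refine ⟨y * ⟨u, hPT hu⟩ * y⁻¹, hPΔ h1, ?_⟩
    have h2 : y⁻¹ * (y * ⟨u, hPT hu⟩ * y⁻¹) * y = (⟨u, hPT hu⟩ : T) := by group
    rw [h2]
  have hRT : R ≤ T := by
    intro r hr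
    obtain ⟨δ, -, rfl⟩ := (hmemR r).mp hr
    exact (y⁻¹ * δ * y).2
  have hRN : R ≤ Subgroup.normalizer (P : Set G) := hRT.trans hTN
  have hnormT : ∀ u : T, u ∈ Subgroup.normalizer
      ((Subgroup.centralizer ((P.subgroupOf T : Subgroup T) : Set T) : Subgroup T) : Set T) :=
    fun u => mem_normalizer_of_normal _ u
  have hstab : ∀ x ∈ R, StabilizesBlock (Subgroup.centralizer (P : Set G)) e x := by
    intro x hx
    obtain ⟨δ, hδ, rfl⟩ := (hmemR x).mp hx
    have h1 := hyfix δ hδ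
    rw [heT] at h1
    exact stabilizes_of_act_transport P T hPT hCT hTN e (y⁻¹ * δ * y) (hnormT _) h1
  have hc₀ : ((y⁻¹ * h * y : T) : G) ∈ Subgroup.centralizer (R : Set G) := by
    rw [Subgroup.mem_centralizer_iff]
    intro r hr
    obtain ⟨δ, hδ, rfl⟩ := (hmemR r).mp hr
    have h1 := hΔh δ hδ
    have h2 : (y⁻¹ * δ * y) * (y⁻¹ * h * y) = (y⁻¹ * h * y) * (y⁻¹ * δ * y) := by
      calc (y⁻¹ * δ * y) * (y⁻¹ * h * y) = y⁻¹ * (δ * h) * y := by group
        _ = y⁻¹ * (h * δ) * y := by rw [h1]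
        _ = (y⁻¹ * h * y) * (y⁻¹ * δ * y) := by group
    exact congrArg Subtype.val h2
  have hne : ¬ MemLocalIdeal M (subgroupBlockCoeff (Subgroup.centralizer (P : Set G)) e
      ((y⁻¹ * h * y : T) : G)) := by
    intro hmem
    apply hyne
    by_cases hyC : y⁻¹ * h * y ∈ Subgroup.centralizer ((P.subgroupOf T : Subgroup T) : Set T)
    · rw [subgroupBlockCoeff_of_mem _ _ hyC, heT, blockCoeff_transport]
      have hyC' : ((y⁻¹ * h * y : T) : G) ∈ Subgroup.centralizer (P : Set G) :=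
        (centIso P T hPT hCT ⟨_, hyC⟩).2
      rw [subgroupBlockCoeff_of_mem _ _ hyC'] at hmem
      exact hmem
    · rw [subgroupBlockCoeff_of_not_mem _ _ hyC]
      exact memLocalIdeal_zero hMtop
  obtain ⟨g, hg⟩ := exists_superpair hM R P e hBe.1 hRp hPR hRN hstab _ hc₀ hne
  have hgB := brauerPairOf_of_normalSubpair hM R P g e hg B hBe
  have hRP : R = P := hmaxi R g hgB (Relation.ReflTransGen.single hg)
  have hcard : Nat.card Δ = Nat.card (P.subgroupOf T) := by
    have h1 : Nat.card R = Nat.card Δ := by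
      rw [hRdef, Subgroup.card_map_of_injective T.subtype_injective,
        Subgroup.card_map_of_injective (MulEquiv.injective _)]
    have h2 : Nat.card (P.subgroupOf T) = Nat.card P :=
      Nat.card_congr (Subgroup.subgroupOfEquivOfLe hPT).toEquiv
    rw [← h1, hRP, h2]
  have hΔeq : P.subgroupOf T = Δ := Subgroup.eq_of_le_of_card_ge hPΔ (le_of_eq hcard)
  rw [hΔeq]
  exact hΔdg

/-- The subgroup of a maximal Brauer pair of `B` is a defect group of `B`. -/
theorem defect_of_maximal (hM : IsPModular p M) (B : Set (IrrCharacter G)) (P : Subgroup G)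
    (e : Set (IrrCharacter (Subgroup.centralizer (P : Set G))))
    (hmax : IsMaximalBrauerPair p M B P e) : IsDefectGroup p M B P := by
  classical
  have hMm : M.IsMaximal := hM.2.1
  have hMp : M.IsPrime := hMm.isPrime
  have hP : IsPGroup p P := hmax.1.1.1
  obtain ⟨b, hb, hind, hdg⟩ := exists_block_normalizer hM B P e hmax
    (Subgroup.normalizer (P : Set G)) Subgroup.le_normalizer
    (Cfsg.Agent.Lib_helper3_FirstMain.centralizer_le_normalizer' P) le_rfl
  obtain ⟨B', hB', hdg', hind'⟩ :=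
    Cfsg.Agent.Lib_helper3_FirstMain.first_main_induce hM P hP b hb hdg
  have hBB' : B = B' :=
    Cfsg.Agent.Lib_helper3_Deficiency.isInducedBlock_unique _ b B B' hind hind'
  rw [hBB']
  exact hdg'

end Main

end Cfsg.Agent.Lib_helper3_MaxPair
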