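import Mathlib
import Cfsg.Prelude.Def_Characters
import Cfsg.Prelude.Def_Blocks
import Cfsg.Prelude.Def_BlockLocal
import Cfsg.Prelude.Def_BrauerPairs
import Cfsg.Agent.Lib_helper3_MaxPair
import Cfsg.Agent.Lib_helper3_FirstMain2
import Cfsg.Agent.Lib_helper3_ExtFirstMain2
import Cfsg.Agent.Lib_helper3_DefectLoc
import Cfsg.Agent.S0908
import Cfsg.Agent.S0911

set_option autoImplicit false
open Cfsg
open Cfsg.Agent.Lib_helper3_CharBasic Cfsg.Agent.Lib_helper3_CharMore
  Cfsg.Agent.Lib_helper3_Local Cfsg.Agent.Lib_helper3_Local2 Cfsg.Agent.Lib_helper3_BlockAlg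
  Cfsg.Agent.Lib_helper3_IdemSupp Cfsg.Agent.Lib_helper3_Residue
  Cfsg.Agent.Lib_helper3_BrauerHom Cfsg.Agent.Lib_helper3_BrauerHom2
  Cfsg.Agent.Lib_helper3_BrauerHom3 Cfsg.Agent.Lib_helper3_ExtFirstMain
  Cfsg.Agent.Lib_helper3_BrauerPair Cfsg.Agent.Lib_helper3_NilPrincipal
  Cfsg.Agent.Lib_helper3_PrincipalPairs Cfsg.Agent.Lib_helper3_BrauerTrunc
  Cfsg.Agent.Lib_helper3_CharInd Cfsg.Agent.Lib_helper3_SecondMain3
  Cfsg.Agent.Lib_helper3_SubpairBlock Cfsg.Agent.Lib_helper3_NormalSubpair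
  Cfsg.Agent.Lib_helper3_BlockCover Cfsg.Agent.Lib_helper3_BlockInd
  Cfsg.Agent.Lib_helper3_ThirdMain Cfsg.Agent.Lib_helper3_StableBlock
  Cfsg.Agent.Lib_helper3_NormalPTrace Cfsg.Agent.Lib_helper3_SubpairUnique
  Cfsg.Agent.Lib_helper3_MaxPair
open scoped ComplexConjugate

namespace Cfsg.Agent.Lib_helper3_ConjPair

attribute [local instance] Ideal.Quotient.field

universe u

section Conj

variable {G : Type u} [Group G]

theorem conj_mul_hom (t x : G) :
    (MulAut.conj (t * x)).toMonoidHom =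
      (MulAut.conj t).toMonoidHom.comp (MulAut.conj x).toMonoidHom := by
  apply MonoidHom.ext
  intro y
  show (t * x) * y * (t * x)⁻¹ = t * (x * y * x⁻¹) * t⁻¹
  group

theorem mem_map_conj (Q : Subgroup G) (x y : G) :
    y ∈ Q.map (MulAut.conj x).toMonoidHom ↔ x⁻¹ * y * x ∈ Q := by
  constructor
  · intro hy
    obtain ⟨q, hq, rfl⟩ := Subgroup.mem_map.mp hy
    have h1 : x⁻¹ * (x * q * x⁻¹) * x = q := by group
    show x⁻¹ * (x * q * x⁻¹) * x ∈ Q
    rw [h1]
    exact hq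
  · intro hy
    refine Subgroup.mem_map.mpr ⟨x⁻¹ * y * x, hy, ?_⟩
    show x * (x⁻¹ * y * x) * x⁻¹ = y
    group

theorem map_conj_eq_of_mem_normalizer (P : Subgroup G) (n : G)
    (hn : n ∈ Subgroup.normalizer (P : Set G)) : P.map (MulAut.conj n).toMonoidHom = P := by
  ext y
  rw [mem_map_conj]
  have h1 := Subgroup.mem_normalizer_iff.mp hn (n⁻¹ * y * n)
  have h2 : n * (n⁻¹ * y * n) * n⁻¹ = y := by group
  rw [h2] at h1
  exact h1

theorem mem_centralizer_map_conj (Q : Subgroup G) (x g : G) :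
    g ∈ Subgroup.centralizer ((Q.map (MulAut.conj x).toMonoidHom : Subgroup G) : Set G) ↔
      x⁻¹ * g * x ∈ Subgroup.centralizer (Q : Set G) := by
  rw [Subgroup.mem_centralizer_iff, Subgroup.mem_centralizer_iff]
  constructor
  · intro h q hq
    have h1 : x * q * x⁻¹ * g = g * (x * q * x⁻¹) :=
      h (x * q * x⁻¹) (Subgroup.mem_map.mpr ⟨q, hq, rfl⟩)
    calc q * (x⁻¹ * g * x) = x⁻¹ * (x * q * x⁻¹ * g) * x := by group
      _ = x⁻¹ * (g * (x * q * x⁻¹)) * x := by rw [h1]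
      _ = x⁻¹ * g * x * q := by group
  · intro h q' hq'
    obtain ⟨q, hq, rfl⟩ := Subgroup.mem_map.mp hq'
    have h1 := h q hq
    show x * q * x⁻¹ * g = g * (x * q * x⁻¹)
    calc x * q * x⁻¹ * g = x * (q * (x⁻¹ * g * x)) * x⁻¹ := by group
      _ = x * (x⁻¹ * g * x * q) * x⁻¹ := by rw [h1]
      _ = g * (x * q * x⁻¹) := by group

/-- Conjugation by `x⁻¹`, from the centralizer of `x Q x⁻¹` to the centralizer of `Q`. -/
def cIso (Q : Subgroup G) (x : G) :
    ↥(Subgroup.centralizer ((Q.map (MulAut.conj x).toMonoidHom : Subgroup G) : Set G)) ≃*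
      ↥(Subgroup.centralizer (Q : Set G)) where
  toFun c := ⟨x⁻¹ * (c : G) * x, (mem_centralizer_map_conj Q x c).mp c.2⟩
  invFun c := ⟨x * (c : G) * x⁻¹, (mem_centralizer_map_conj Q x _).mpr (by
    have h : x⁻¹ * (x * (c : G) * x⁻¹) * x = (c : G) := by group
    rw [h]
    exact c.2)⟩
  left_inv c := Subtype.ext (by
    show x * (x⁻¹ * (c : G) * x) * x⁻¹ = (c : G)
    group)
  right_inv c := Subtype.ext (by
    show x⁻¹ * (x * (c : G) * x⁻¹) * x = (c : G)
    group)
  map_mul' a b := Subtype.ext (by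
    show x⁻¹ * ((a : G) * (b : G)) * x = (x⁻¹ * (a : G) * x) * (x⁻¹ * (b : G) * x)
    group)

theorem cIso_coe (Q : Subgroup G) (x : G)
    (c : ↥(Subgroup.centralizer ((Q.map (MulAut.conj x).toMonoidHom : Subgroup G) : Set G))) :
    ((cIso Q x c : Subgroup.centralizer (Q : Set G)) : G) = x⁻¹ * (c : G) * x := rfl

/-- The conjugate of a pair. -/
def cj (x : G) (a : BrauerPairIdx G) : BrauerPairIdx G :=
  ⟨a.1.map (MulAut.conj x).toMonoidHom, conjBlock a.1 x a.2⟩

theorem idx_blockOf_ext {M : Ideal AlgInt} (P P' : Subgroup G) (hP : P' = P)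
    (ξ : Subgroup.centralizer (P : Set G) → ℂ) (ξ' : Subgroup.centralizer (P' : Set G) → ℂ)
    (h : ∀ (g : G) (hg : g ∈ Subgroup.centralizer (P : Set G))
      (hg' : g ∈ Subgroup.centralizer (P' : Set G)), ξ' ⟨g, hg'⟩ = ξ ⟨g, hg⟩) :
    (⟨P', blockOf M ξ'⟩ : BrauerPairIdx G) = ⟨P, blockOf M ξ⟩ := by
  subst hP
  have h1 : ξ' = ξ := funext fun c => h c.1 c.2 c.2
  rw [h1]

theorem map_conj_le_normalizer (P Q : Subgroup G) (x : G)
    (h : P ≤ Subgroup.normalizer (Q : Set G)) :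
    P.map (MulAut.conj x).toMonoidHom ≤
      Subgroup.normalizer ((Q.map (MulAut.conj x).toMonoidHom : Subgroup G) : Set G) := by
  intro u' hu'
  obtain ⟨u, hu, rfl⟩ := Subgroup.mem_map.mp hu'
  have hn := h hu
  rw [Subgroup.mem_normalizer_iff] at hn ⊢
  intro g
  rw [mem_map_conj, mem_map_conj]
  have h1 := hn (x⁻¹ * g * x)
  have h2 : x⁻¹ * ((MulAut.conj x).toMonoidHom u * g * ((MulAut.conj x).toMonoidHom u)⁻¹) * x =
      u * (x⁻¹ * g * x) * u⁻¹ := by
    show x⁻¹ * (x * u * x⁻¹ * g * (x * u * x⁻¹)⁻¹) * x = u * (x⁻¹ * g * x) * u⁻¹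
    group
  rw [h2]
  exact h1

theorem brauerOmega_conj (P : Subgroup G) (x : G) (β β' : G → ℂ)
    (hβ : ∀ g : G, β' g = β (x⁻¹ * g * x)) (ξ : Subgroup.centralizer (P : Set G) → ℂ) :
    brauerOmega (P.map (MulAut.conj x).toMonoidHom) β' (ξ ∘ cIso P x) = brauerOmega P β ξ := by
  unfold brauerOmega
  have h1 := finsum_comp_equiv (cIso P x).toEquiv
    (f := fun c : Subgroup.centralizer (P : Set G) => β (c : G) * ξ c / ξ 1)
  rw [← h1]
  apply finsum_congr
  intro c'
  show β' (c' : G) * ξ (cIso P x c') / ξ (cIso P x 1) =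
    β ((cIso P x c' : Subgroup.centralizer (P : Set G)) : G) * ξ (cIso P x c') / ξ 1
  rw [map_one, hβ, cIso_coe]

end Conj

section Fin

variable {G : Type u} [Group G] [Fintype G] {M : Ideal AlgInt} {p : ℕ} [Fact p.Prime]

omit [Fact p.Prime] in
theorem conjBlock_eq (Q : Subgroup G) (x : G)
    (f : Set (IrrCharacter (Subgroup.centralizer (Q : Set G)))) :
    conjBlock Q x f = transportSet (cIso Q x) f := by
  ext ξ'
  constructor
  · rintro ⟨ξ, hξ, h⟩
    refine ⟨ξ, hξ, ?_⟩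
    funext c'
    exact h (cIso Q x c') c' (by
      rw [cIso_coe]
      group)
  · rintro ⟨ξ, hξ, h⟩
    refine ⟨ξ, hξ, ?_⟩
    intro c c' hc
    rw [h]
    show (ξ : Subgroup.centralizer (Q : Set G) → ℂ) (cIso Q x c') =
      (ξ : Subgroup.centralizer (Q : Set G) → ℂ) c
    refine congrArg (ξ : Subgroup.centralizer (Q : Set G) → ℂ) (Subtype.ext ?_)
    rw [cIso_coe, hc]
    group

omit [Fact p.Prime] in
theorem subgroupBlockCoeff_conj (Q : Subgroup G) (x : G)
    (f : Set (IrrCharacter (Subgroup.centralizer (Q : Set G)))) (g : G) :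
    subgroupBlockCoeff
        (Subgroup.centralizer ((Q.map (MulAut.conj x).toMonoidHom : Subgroup G) : Set G))
        (conjBlock Q x f) g =
      subgroupBlockCoeff (Subgroup.centralizer (Q : Set G)) f (x⁻¹ * g * x) := by
  by_cases hg : g ∈ Subgroup.centralizer
      ((Q.map (MulAut.conj x).toMonoidHom : Subgroup G) : Set G)
  · have hg' := (mem_centralizer_map_conj Q x g).mp hg
    rw [subgroupBlockCoeff_of_mem _ _ hg, subgroupBlockCoeff_of_mem _ _ hg', conjBlock_eq,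
      blockCoeff_transport]
    rfl
  · have hg' : x⁻¹ * g * x ∉ Subgroup.centralizer (Q : Set G) :=
      fun h => hg ((mem_centralizer_map_conj Q x g).mpr h)
    rw [subgroupBlockCoeff_of_not_mem _ _ hg, subgroupBlockCoeff_of_not_mem _ _ hg']

omit [Fact p.Prime] in
theorem stabilizes_conj (Q : Subgroup G) (x : G)
    (f : Set (IrrCharacter (Subgroup.centralizer (Q : Set G)))) (u : G)
    (h : StabilizesBlock (Subgroup.centralizer (Q : Set G)) f u) :
    StabilizesBlock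
      (Subgroup.centralizer ((Q.map (MulAut.conj x).toMonoidHom : Subgroup G) : Set G))
      (conjBlock Q x f) (x * u * x⁻¹) := by
  obtain ⟨hu, hst⟩ := h
  refine ⟨?_, ?_⟩
  · rw [Subgroup.mem_normalizer_iff]
    intro g
    rw [mem_centralizer_map_conj, mem_centralizer_map_conj]
    have h1 := Subgroup.mem_normalizer_iff.mp hu (x⁻¹ * g * x)
    have h2 : x⁻¹ * (x * u * x⁻¹ * g * (x * u * x⁻¹)⁻¹) * x = u * (x⁻¹ * g * x) * u⁻¹ := by
      group
    rw [h2]
    exact h1
  · intro χ' hχ'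
    rw [conjBlock_eq] at hχ' ⊢
    obtain ⟨χ, hχ, hχeq⟩ := hχ'
    obtain ⟨χ₂, hχ₂, hconj⟩ := hst χ hχ
    refine ⟨⟨(χ₂ : Subgroup.centralizer (Q : Set G) → ℂ) ∘ cIso Q x,
      isIrrCharacter_comp_equiv _ χ₂.2⟩, ⟨χ₂, hχ₂, rfl⟩, ?_⟩
    intro k k' hk
    show (χ₂ : Subgroup.centralizer (Q : Set G) → ℂ) (cIso Q x k') = (χ' : _ → ℂ) k
    rw [hχeq]
    show (χ₂ : Subgroup.centralizer (Q : Set G) → ℂ) (cIso Q x k') =
      (χ : Subgroup.centralizer (Q : Set G) → ℂ) (cIso Q x k)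
    exact hconj (cIso Q x k) (cIso Q x k') (by
      rw [cIso_coe, cIso_coe, hk]
      group)

omit [Fact p.Prime] in
/-- Normal inclusion of Brauer pairs is preserved by conjugation. -/
theorem normalSubpair_conj (x : G) (P Q : Subgroup G)
    (e : Set (IrrCharacter (Subgroup.centralizer (P : Set G))))
    (f : Set (IrrCharacter (Subgroup.centralizer (Q : Set G))))
    (h : IsNormalSubpair p M Q f P e) :
    IsNormalSubpair p M (Q.map (MulAut.conj x).toMonoidHom) (conjBlock Q x f)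
      (P.map (MulAut.conj x).toMonoidHom) (conjBlock P x e) := by
  obtain ⟨⟨hQ, hf⟩, ⟨hP, he⟩, hQP, hPN, hstab, hbr⟩ := h
  refine ⟨⟨hQ.map _, ?_⟩, ⟨hP.map _, ?_⟩, Subgroup.map_mono hQP,
    map_conj_le_normalizer P Q x hPN, ?_, ?_⟩
  · rw [conjBlock_eq]
    exact isPBlock_transport _ hf
  · rw [conjBlock_eq]
    exact isPBlock_transport _ he
  · intro u' hu'
    obtain ⟨u, hu, rfl⟩ := Subgroup.mem_map.mp hu'
    exact stabilizes_conj Q x f u (hstab u hu)
  · intro ξ' hξ'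
    rw [conjBlock_eq] at hξ'
    obtain ⟨ξ, hξ, hξeq⟩ := hξ'
    rw [hξeq, brauerOmega_conj P x (subgroupBlockCoeff (Subgroup.centralizer (Q : Set G)) f) _
      (fun g => subgroupBlockCoeff_conj Q x f g) (ξ : Subgroup.centralizer (P : Set G) → ℂ)]
    exact hbr ξ hξ

omit [Fact p.Prime] in
theorem subpairLE_conj (x : G) (a b : BrauerPairIdx G)
    (h : Relation.ReflTransGen (NormalSubpairRel p M) a b) :
    Relation.ReflTransGen (NormalSubpairRel p M) (cj x a) (cj x b) := by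
  induction h with
  | refl => exact Relation.ReflTransGen.refl
  | tail _ hbc ih => exact ih.tail (normalSubpair_conj x _ _ _ _ hbc)

omit [Fact p.Prime] in
theorem brauerPairOf_conj (x : G) (B : Set (IrrCharacter G)) (Q : Subgroup G)
    (f : Set (IrrCharacter (Subgroup.centralizer (Q : Set G))))
    (h : IsBrauerPairOf p M B Q f) :
    IsBrauerPairOf p M B (Q.map (MulAut.conj x).toMonoidHom) (conjBlock Q x f) := by
  obtain ⟨⟨hQ, hf⟩, hB, hbr⟩ := h
  refine ⟨⟨hQ.map _, by rw [conjBlock_eq]; exact isPBlock_transport _ hf⟩, hB, ?_⟩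
  intro ξ' hξ'
  rw [conjBlock_eq] at hξ'
  obtain ⟨ξ, hξ, hξeq⟩ := hξ'
  have hcl : ∀ g : G, blockCoeff B g = blockCoeff B (x⁻¹ * g * x) := by
    intro g
    have h1 := isClassFunction_blockCoeff B g x⁻¹
    rw [inv_inv] at h1
    exact h1.symm
  rw [hξeq, brauerOmega_conj Q x (blockCoeff B) (blockCoeff B) hcl
    (ξ : Subgroup.centralizer (Q : Set G) → ℂ)]
  exact hbr ξ hξ

omit [Fact p.Prime] in
theorem cj_cj (n x : G) (Q : Subgroup G) (ξ₀ : IrrCharacter (Subgroup.centralizer (Q : Set G))) :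
    cj n (cj x ⟨Q, blockOf M (ξ₀ : Subgroup.centralizer (Q : Set G) → ℂ)⟩) =
      cj (n * x) ⟨Q, blockOf M (ξ₀ : Subgroup.centralizer (Q : Set G) → ℂ)⟩ := by
  have h1 : conjBlock Q x (blockOf M (ξ₀ : Subgroup.centralizer (Q : Set G) → ℂ)) =
      blockOf M ((⟨(ξ₀ : Subgroup.centralizer (Q : Set G) → ℂ) ∘ cIso Q x,
        isIrrCharacter_comp_equiv _ ξ₀.2⟩ : IrrCharacter (Subgroup.centralizer
          ((Q.map (MulAut.conj x).toMonoidHom : Subgroup G) : Set G))) : _ → ℂ) := by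
    rw [conjBlock_eq, transport_blockOf]
  show (⟨(Q.map (MulAut.conj x).toMonoidHom).map (MulAut.conj n).toMonoidHom,
      conjBlock (Q.map (MulAut.conj x).toMonoidHom) n
        (conjBlock Q x (blockOf M (ξ₀ : Subgroup.centralizer (Q : Set G) → ℂ)))⟩ :
      BrauerPairIdx G) =
    ⟨Q.map (MulAut.conj (n * x)).toMonoidHom,
      conjBlock Q (n * x) (blockOf M (ξ₀ : Subgroup.centralizer (Q : Set G) → ℂ))⟩
  rw [h1, conjBlock_eq (Q.map (MulAut.conj x).toMonoidHom) n, transport_blockOf,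
    conjBlock_eq Q (n * x), transport_blockOf]
  apply idx_blockOf_ext
  · rw [Subgroup.map_map, conj_mul_hom]
  · intro g hg hg'
    show (ξ₀ : Subgroup.centralizer (Q : Set G) → ℂ) _ =
      (ξ₀ : Subgroup.centralizer (Q : Set G) → ℂ) _
    refine congrArg (ξ₀ : Subgroup.centralizer (Q : Set G) → ℂ) (Subtype.ext ?_)
    show x⁻¹ * (n⁻¹ * g * n) * x = (n * x)⁻¹ * g * (n * x)
    group

/-- Above every Brauer pair of `B` there is a maximal one. -/
theorem exists_maximal_above (B : Set (IrrCharacter G)) :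
    ∀ (k : ℕ) (a : BrauerPairIdx G), IsBrauerPairOf p M B a.1 a.2 →
      Nat.card G - Nat.card a.1 = k →
      ∃ b : BrauerPairIdx G, IsMaximalBrauerPair p M B b.1 b.2 ∧
        Relation.ReflTransGen (NormalSubpairRel p M) a b := by
  intro k
  refine Nat.strong_induction_on k ?_
  intro k ih a ha hk
  by_cases hmax : ∀ (R : Subgroup G) (g : Set (IrrCharacter (Subgroup.centralizer (R : Set G)))),
      IsBrauerPairOf p M B R g → SubpairLE p M a.1 a.2 R g → R = a.1
  · exact ⟨a, ⟨ha, hmax⟩, Relation.ReflTransGen.refl⟩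
  · push Not at hmax
    obtain ⟨R, g, hRg, hle, hne⟩ := hmax
    have hle' : a.1 ≤ R := chain_le a ⟨R, g⟩ hle
    have hcard : Nat.card a.1 < Nat.card R := by
      by_contra hnot
      push Not at hnot
      exact hne (Subgroup.eq_of_le_of_card_ge hle' hnot).symm
    have hRG : Nat.card R ≤ Nat.card G := Subgroup.card_le_card_group R
    obtain ⟨b, hb, hab⟩ := ih (Nat.card G - Nat.card R) (by omega) ⟨R, g⟩ hRg rfl
    exact ⟨b, hb, Relation.ReflTransGen.trans hle hab⟩

/-- Defect groups of a block are conjugate. -/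
theorem defect_conj (hM : IsPModular p M) (B : Set (IrrCharacter G)) (hB : IsPBlock M B)
    (D₁ D₂ : Subgroup G) (h₁ : IsDefectGroup p M B D₁) (h₂ : IsDefectGroup p M B D₂) :
    ∃ x : G, D₁.map (MulAut.conj x).toMonoidHom = D₂ := by
  obtain ⟨g₁, hg₁, S₁, hS₁⟩ := id h₁
  obtain ⟨g₂, hg₂, S₂, hS₂⟩ := id h₂
  obtain ⟨x, Q, hQ⟩ := (Cfsg.Agent.S0911.result p M hM B hB g₁ hg₁ S₁ g₂).1 hg₂.1 hg₂.2.1
  rw [← hS₁] at hQ
  have hD₂p : IsPGroup p D₂ := by
    rw [hS₂]
    exact S₂.2.map _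
  have hD₂C : D₂ ≤ Subgroup.centralizer ({g₂} : Set G) := by
    rw [hS₂]
    intro y hy
    obtain ⟨c, -, rfl⟩ := Subgroup.mem_map.mp hy
    exact c.2
  obtain ⟨t, -, ht⟩ := Cfsg.Agent.Lib_helper3_DefectLoc.le_conj_sylow
    (Subgroup.centralizer ({g₂} : Set G)) Q hD₂p hD₂C
  have h3 : D₂ ≤ (D₁.map (MulAut.conj x).toMonoidHom).map (MulAut.conj t).toMonoidHom :=
    ht.trans (Subgroup.map_mono hQ)
  have hc1 := Cfsg.Agent.S0908.result p M hM B hB D₁ h₁
  have hc2 := Cfsg.Agent.S0908.result p M hM B hB D₂ h₂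
  have hcard : Nat.card ((D₁.map (MulAut.conj x).toMonoidHom).map
      (MulAut.conj t).toMonoidHom) = Nat.card D₂ := by
    rw [Subgroup.card_map_of_injective (MulEquiv.injective _),
      Subgroup.card_map_of_injective (MulEquiv.injective _), hc1, hc2]
  have h4 := Subgroup.eq_of_le_of_card_ge h3 (le_of_eq hcard)
  refine ⟨t * x, ?_⟩
  rw [h4, Subgroup.map_map, conj_mul_hom]

/-- The block of `T` containing the transported block of a Brauer pair of `B` induces `B`. -/
theorem induced_of_pair (hM : IsPModular p M) (B : Set (IrrCharacter G)) (P : Subgroup G)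
    (e : Set (IrrCharacter (Subgroup.centralizer (P : Set G))))
    (hBe : IsBrauerPairOf p M B P e) (T : Subgroup G) (hPT : P ≤ T)
    (hCT : Subgroup.centralizer (P : Set G) ≤ T) (b : Set (IrrCharacter T))
    (hb : IsBrauerPairOf p M b (P.subgroupOf T) (transportSet (centIso P T hPT hCT) e)) :
    IsInducedBlock M T b B := by
  classical
  have hMm : M.IsMaximal := hM.2.1
  have hMp : M.IsPrime := hMm.isPrime
  have hMtop := hMp.ne_top
  have hP : IsPGroup p P := hBe.1.1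
  have he : IsPBlock M e := hBe.1.2
  have hB : IsPBlock M B := hBe.2.1
  have instT : Fintype T := Fintype.ofFinite _
  have instC : Fintype (Subgroup.centralizer (P : Set G)) := Fintype.ofFinite _
  have instCT : Fintype (Subgroup.centralizer ((P.subgroupOf T : Subgroup T) : Set T)) :=
    Fintype.ofFinite _
  have hbblock : IsPBlock M b := hb.2.1
  have h1 := (isBrauerPairOf_iff hM (P.subgroupOf T) hb.1.1 _ hb.1.2 b hbblock).mp hb
  have h2 := (isBrauerPairOf_iff hM P hP e he B hB).mp hBe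
  obtain ⟨θ, hθ⟩ := id he
  have hθe : θ ∈ e := by
    rw [hθ]
    exact mem_blockOf_self hMtop θ
  obtain ⟨ψ, hψ⟩ := id hbblock
  have hψb : ψ ∈ b := by
    rw [hψ]
    exact mem_blockOf_self hMtop ψ
  obtain ⟨χ, hχ⟩ := id hB
  have hχB : χ ∈ B := by
    rw [hχ]
    exact mem_blockOf_self hMtop χ
  have hθT : (⟨(θ : Subgroup.centralizer (P : Set G) → ℂ) ∘ centIso P T hPT hCT,
      isIrrCharacter_comp_equiv _ θ.2⟩ :
      IrrCharacter (Subgroup.centralizer ((P.subgroupOf T : Subgroup T) : Set T))) ∈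
      transportSet (centIso P T hPT hCT) e := ⟨θ, hθe, rfl⟩
  have key := isInducedBlock_of_rep (M := M) T ψ χ (fun g =>
    induced_trans T (Subgroup.centralizer ((P.subgroupOf T : Subgroup T) : Set T))
      (Subgroup.centralizer (P : Set G)) (centIso P T hPT hCT) (fun a => rfl)
      (θ : Subgroup.centralizer (P : Set G) → ℂ) (ψ : T → ℂ) (isClassFunction_of_irr ψ.2)
      (χ : G → ℂ) (fun k => h1.2.2 _ hθT ψ hψb k) (fun g => h2.2.2 θ hθe χ hχB g) g)
  rw [← hψ, ← hχ] at key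
  exact key

theorem exists_conj_pair_aux (hM : IsPModular p M) (B : Set (IrrCharacter G)) (P : Subgroup G)
    (e e₂ : Set (IrrCharacter (Subgroup.centralizer (P : Set G))))
    (hBe : IsBrauerPairOf p M B P e) (hBe₂ : IsBrauerPairOf p M B P e₂)
    (T : Subgroup G) (hPT : P ≤ T) (hCT : Subgroup.centralizer (P : Set G) ≤ T)
    (hTN : T ≤ Subgroup.normalizer (P : Set G))
    (huniq : ∀ β β' : Set (IrrCharacter T), IsInducedBlock M T β B → IsInducedBlock M T β' B →
      β' = β) :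
    ∃ n : G, cj n ⟨P, e₂⟩ = (⟨P, e⟩ : BrauerPairIdx G) := by
  classical
  have hMm : M.IsMaximal := hM.2.1
  have hMp : M.IsPrime := hMm.isPrime
  have hMtop := hMp.ne_top
  have hP : IsPGroup p P := hBe.1.1
  have he : IsPBlock M e := hBe.1.2
  have he₂ : IsPBlock M e₂ := hBe₂.1.2
  have hB : IsPBlock M B := hBe.2.1
  have instT : Fintype T := Fintype.ofFinite _
  have instC : Fintype (Subgroup.centralizer (P : Set G)) := Fintype.ofFinite _
  have instCT : Fintype (Subgroup.centralizer ((P.subgroupOf T : Subgroup T) : Set T)) :=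
    Fintype.ofFinite _
  have hPTn : (P.subgroupOf T).Normal := by
    constructor
    intro n hn g
    rw [Subgroup.mem_subgroupOf] at hn ⊢
    exact (Subgroup.mem_normalizer_iff.mp (hTN g.2) (n : G)).mp hn
  have hPTp : IsPGroup p (P.subgroupOf T) := hP.comap_subtype
  have heTb : IsPBlock M (transportSet (centIso P T hPT hCT) e) := isPBlock_transport _ he
  have heTb₂ : IsPBlock M (transportSet (centIso P T hPT hCT) e₂) := isPBlock_transport _ he₂
  obtain ⟨b, hb, -⟩ := brauerPair_unique_block hM (P.subgroupOf T) _ ⟨hPTp, heTb⟩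
  obtain ⟨b₂, hb₂, -⟩ := brauerPair_unique_block hM (P.subgroupOf T) _ ⟨hPTp, heTb₂⟩
  have hind := induced_of_pair hM B P e hBe T hPT hCT b hb
  have hind₂ := induced_of_pair hM B P e₂ hBe₂ T hPT hCT b₂ hb₂
  have hbb : b₂ = b := huniq b b₂ hind hind₂
  rw [hbb] at hb₂
  have hc := blockCoeff_eq_cover (M := M)
    (Subgroup.centralizer ((P.subgroupOf T : Subgroup T) : Set T)) b hb.2.1 _ heTb
    (fun g hg => Cfsg.Agent.Lib_helper3_IdemCent2.blockCoeff_supported hM (P.subgroupOf T) hPTp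
      b hb.2.1 g hg)
    (fun ξ hξ => by
      have h := hb.2.2 ξ hξ
      rwa [brauerOmega_eq_om] at h)
  have hc₂ := blockCoeff_eq_cover (M := M)
    (Subgroup.centralizer ((P.subgroupOf T : Subgroup T) : Set T)) b hb.2.1 _ heTb₂
    (fun g hg => Cfsg.Agent.Lib_helper3_IdemCent2.blockCoeff_supported hM (P.subgroupOf T) hPTp
      b hb.2.1 g hg)
    (fun ξ hξ => by
      have h := hb₂.2.2 ξ hξ
      rwa [brauerOmega_eq_om] at h)
  have hfun : blockCoeff (orbClosure (Subgroup.centralizer ((P.subgroupOf T : Subgroup T) : Set T))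
        (transportSet (centIso P T hPT hCT) e)) =
      blockCoeff (orbClosure (Subgroup.centralizer ((P.subgroupOf T : Subgroup T) : Set T))
        (transportSet (centIso P T hPT hCT) e₂)) := by
    funext a
    have h1 := hc (a : T)
    have h2 := hc₂ (a : T)
    rw [extendByZero_mem _ _ a.2] at h1 h2
    exact h1.symm.trans h2
  obtain ⟨ξ₂, hξ₂⟩ := id he₂
  obtain ⟨ξ₀, hξ₀⟩ := id he
  have hξ₂e : ξ₂ ∈ e₂ := by
    rw [hξ₂]
    exact mem_blockOf_self hMtop ξ₂
  have hθ₂ : (⟨(ξ₂ : Subgroup.centralizer (P : Set G) → ℂ) ∘ centIso P T hPT hCT,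
      isIrrCharacter_comp_equiv _ ξ₂.2⟩ :
      IrrCharacter (Subgroup.centralizer ((P.subgroupOf T : Subgroup T) : Set T))) ∈
      transportSet (centIso P T hPT hCT) e₂ := ⟨ξ₂, hξ₂e, rfl⟩
  have hθ₂O : (⟨(ξ₂ : Subgroup.centralizer (P : Set G) → ℂ) ∘ centIso P T hPT hCT,
      isIrrCharacter_comp_equiv _ ξ₂.2⟩ :
      IrrCharacter (Subgroup.centralizer ((P.subgroupOf T : Subgroup T) : Set T))) ∈
      orbClosure (Subgroup.centralizer ((P.subgroupOf T : Subgroup T) : Set T))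
        (transportSet (centIso P T hPT hCT) e) := by
    by_contra hnot
    have h1 := om_blockCoeff_of_not_mem hnot
    have h2 := om_blockCoeff_of_mem (subset_orbClosure
      (Subgroup.centralizer ((P.subgroupOf T : Subgroup T) : Set T)) _ hθ₂)
    rw [hfun, h2] at h1
    exact one_ne_zero h1
  obtain ⟨x, θ, hθ, hθeq⟩ := hθ₂O
  obtain ⟨ξ, hξ, hθξ⟩ := hθ
  have heq : e = blockOf M (ξ : Subgroup.centralizer (P : Set G) → ℂ) := by
    rw [hξ₀] at hξ ⊢
    exact (blockOf_eq_of_mem hξ).symm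
  refine ⟨(x : G), ?_⟩
  rw [heq, hξ₂]
  show (⟨P.map (MulAut.conj (x : G)).toMonoidHom,
      conjBlock P (x : G) (blockOf M (ξ₂ : Subgroup.centralizer (P : Set G) → ℂ))⟩ :
      BrauerPairIdx G) = ⟨P, blockOf M (ξ : Subgroup.centralizer (P : Set G) → ℂ)⟩
  rw [conjBlock_eq, transport_blockOf]
  apply idx_blockOf_ext _ _ (map_conj_eq_of_mem_normalizer P (x : G) (hTN x.2))
  intro g hg hg'
  show (ξ₂ : Subgroup.centralizer (P : Set G) → ℂ) (cIso P (x : G) ⟨g, hg'⟩) =
    (ξ : Subgroup.centralizer (P : Set G) → ℂ) ⟨g, hg⟩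
  have h3 := congrFun (congrArg Subtype.val hθeq)
    ((centIso P T hPT hCT).symm (cIso P (x : G) ⟨g, hg'⟩))
  have h4 : (ξ₂ : Subgroup.centralizer (P : Set G) → ℂ)
      ((centIso P T hPT hCT) ((centIso P T hPT hCT).symm (cIso P (x : G) ⟨g, hg'⟩))) =
      (ξ₂ : Subgroup.centralizer (P : Set G) → ℂ) (cIso P (x : G) ⟨g, hg'⟩) := by
    rw [MulEquiv.apply_symm_apply]
  rw [← h4]
  refine h3.trans ?_
  show Lib_helper3_CharNormal.conjFun
    (Subgroup.centralizer ((P.subgroupOf T : Subgroup T) : Set T)) x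
    (θ : Subgroup.centralizer ((P.subgroupOf T : Subgroup T) : Set T) → ℂ) _ = _
  rw [Lib_helper3_CharNormal.conjFun_apply, hθξ]
  show (ξ : Subgroup.centralizer (P : Set G) → ℂ) ((centIso P T hPT hCT) _) =
    (ξ : Subgroup.centralizer (P : Set G) → ℂ) ⟨g, hg⟩
  refine congrArg (ξ : Subgroup.centralizer (P : Set G) → ℂ) (Subtype.ext ?_)
  rw [centIso_coe]
  show (x : G) * ((((centIso P T hPT hCT).symm (cIso P (x : G) ⟨g, hg'⟩) :
    Subgroup.centralizer ((P.subgroupOf T : Subgroup T) : Set T)) : T) : G) * (x : G)⁻¹ = g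
  have h6 : ((((centIso P T hPT hCT).symm (cIso P (x : G) ⟨g, hg'⟩) :
      Subgroup.centralizer ((P.subgroupOf T : Subgroup T) : Set T)) : T) : G) =
      (x : G)⁻¹ * g * (x : G) := by
    rw [← centIso_coe P T hPT hCT, MulEquiv.apply_symm_apply]
    rfl
  rw [h6]
  group

/-- Two Brauer pairs of `B` on a defect group of `B` are conjugate under its normalizer. -/
theorem exists_conj_pair (hM : IsPModular p M) (B : Set (IrrCharacter G)) (P : Subgroup G)
    (e e₂ : Set (IrrCharacter (Subgroup.centralizer (P : Set G))))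
    (hPB : IsDefectGroup p M B P) (hBe : IsBrauerPairOf p M B P e)
    (hBe₂ : IsBrauerPairOf p M B P e₂) :
    ∃ n : G, cj n ⟨P, e₂⟩ = (⟨P, e⟩ : BrauerPairIdx G) := by
  have hP : IsPGroup p P := hBe.1.1
  have hB : IsPBlock M B := hBe.2.1
  exact exists_conj_pair_aux hM B P e e₂ hBe hBe₂ (Subgroup.normalizer (P : Set G))
    Subgroup.le_normalizer (Cfsg.Agent.Lib_helper3_FirstMain.centralizer_le_normalizer' P) le_rfl
    (fun β β' hβ hβ' => Cfsg.Agent.Lib_helper3_FirstMain.first_main_unique hM P hP B β β'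
      (Cfsg.Agent.Lib_helper3_FirstMain2.defect_of_induced hM P
        (Subgroup.normalizer (P : Set G)) hP Subgroup.le_normalizer le_rfl B hB hPB β hβ) hβ hβ')

/-- Every Brauer pair of `B` is conjugate to a pair below a given maximal Brauer pair. -/
theorem conj_into_maximal (hM : IsPModular p M) (B : Set (IrrCharacter G)) (P Q : Subgroup G)
    (e : Set (IrrCharacter (Subgroup.centralizer (P : Set G))))
    (f : Set (IrrCharacter (Subgroup.centralizer (Q : Set G))))
    (hmax : IsMaximalBrauerPair p M B P e) (hQf : IsBrauerPairOf p M B Q f) :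
    ∃ x : G, SubpairLE p M (Q.map (MulAut.conj x).toMonoidHom) (conjBlock Q x f) P e := by
  classical
  have hB : IsPBlock M B := hQf.2.1
  obtain ⟨⟨D, d⟩, hDmax, hle⟩ := exists_maximal_above (p := p) (M := M) B _ ⟨Q, f⟩ hQf rfl
  have hDdef : IsDefectGroup p M B D := defect_of_maximal hM B D d hDmax
  have hPdef : IsDefectGroup p M B P := defect_of_maximal hM B P e hmax
  obtain ⟨x₁, hx₁⟩ := defect_conj hM B hB D P hDdef hPdef
  have h3 := subpairLE_conj (p := p) (M := M) x₁ _ _ hle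
  have h3B : IsBrauerPairOf p M B (cj x₁ ⟨D, d⟩).1 (cj x₁ ⟨D, d⟩).2 :=
    brauerPairOf_conj x₁ B D d hDmax.1
  have key : ∀ a : BrauerPairIdx G, a.1 = P → IsBrauerPairOf p M B a.1 a.2 →
      ∃ n : G, cj n a = (⟨P, e⟩ : BrauerPairIdx G) := by
    rintro ⟨P', e'⟩ hP' ha
    have hP'' : P' = P := hP'
    subst hP''
    exact exists_conj_pair hM B _ e e' hPdef hmax.1 ha
  obtain ⟨n, hn⟩ := key (cj x₁ ⟨D, d⟩) hx₁ h3B
  have h5 := subpairLE_conj (p := p) (M := M) n _ _ h3
  rw [hn] at h5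
  obtain ⟨ξ₀, hξ₀⟩ := hQf.1.2
  subst hξ₀
  rw [cj_cj] at h5
  exact ⟨n * x₁, h5⟩

end Fin

end Cfsg.Agent.Lib_helper3_ConjPair
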