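import Mathlib
import Cfsg.Prelude.Def_Characters
import Cfsg.Prelude.Def_Blocks
import Cfsg.Prelude.Def_BlockLocal
import Cfsg.Prelude.Def_BrauerPairs
import Cfsg.Agent.Lib_helper3_ConjPair

set_option autoImplicit false
open Cfsg
open Cfsg.Agent.Lib_helper3_CharBasic Cfsg.Agent.Lib_helper3_CharMore
  Cfsg.Agent.Lib_helper3_Local Cfsg.Agent.Lib_helper3_Local2 Cfsg.Agent.Lib_helper3_BlockAlg
  Cfsg.Agent.Lib_helper3_IdemSupp Cfsg.Agent.Lib_helper3_Residue
  Cfsg.Agent.Lib_helper3_BrauerHom Cfsg.Agent.Lib_helper3_BrauerHom2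
  Cfsg.Agent.Lib_helper3_BrauerHom3 Cfsg.Agent.Lib_helper3_ExtFirstMain
  Cfsg.Agent.Lib_helper3_BrauerPair Cfsg.Agent.Lib_helper3_NilPrincipal
  Cfsg.Agent.Lib_helper3_PrincipalPairs Cfsg.Agent.Lib_helper3_BrauerTrunc
  Cfsg.Agent.Lib_helper3_CharInd Cfsg.Agent.Lib_helper3_SecondMain3
  Cfsg.Agent.Lib_helper3_SubpairBlock Cfsg.Agent.Lib_helper3_NormalSubpair
  Cfsg.Agent.Lib_helper3_BlockCover Cfsg.Agent.Lib_helper3_BlockInd
  Cfsg.Agent.Lib_helper3_ThirdMain Cfsg.Agent.Lib_helper3_StableBlock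
  Cfsg.Agent.Lib_helper3_NormalPTrace Cfsg.Agent.Lib_helper3_SubpairUnique
  Cfsg.Agent.Lib_helper3_MaxPair Cfsg.Agent.Lib_helper3_ConjPair
open scoped ComplexConjugate

namespace Cfsg.Agent.Lib_helper3_CentPair

attribute [local instance] Ideal.Quotient.field

universe u

section Grp

variable {G : Type u} [Group G]

theorem mem_centralizer_sup (Q D : Subgroup G) (g : G) :
    g ∈ Subgroup.centralizer ((Q ⊔ D : Subgroup G) : Set G) ↔
      g ∈ Subgroup.centralizer (Q : Set G) ∧ g ∈ Subgroup.centralizer (D : Set G) := by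
  constructor
  · intro h
    exact ⟨Subgroup.centralizer_le (SetLike.coe_subset_coe.mpr le_sup_left) h,
      Subgroup.centralizer_le (SetLike.coe_subset_coe.mpr le_sup_right) h⟩
  · rintro ⟨h1, h2⟩
    have h3 : Q ⊔ D ≤ Subgroup.centralizer ({g} : Set G) := by
      apply sup_le
      · intro q hq
        rw [Subgroup.mem_centralizer_iff]
        intro y hy
        rw [Set.mem_singleton_iff] at hy
        rw [hy]
        exact (Subgroup.mem_centralizer_iff.mp h1 q hq).symm
      · intro q hq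
        rw [Subgroup.mem_centralizer_iff]
        intro y hy
        rw [Set.mem_singleton_iff] at hy
        rw [hy]
        exact (Subgroup.mem_centralizer_iff.mp h2 q hq).symm
    rw [Subgroup.mem_centralizer_iff]
    intro s hs
    exact (Subgroup.mem_centralizer_iff.mp (h3 hs) g (Set.mem_singleton g)).symm

theorem mem_sup_comm (Q D : Subgroup G) (hcomm : ∀ q ∈ Q, ∀ d ∈ D, q * d = d * q) {x : G}
    (hx : x ∈ Q ⊔ D) : ∃ q ∈ Q, ∃ d ∈ D, x = q * d := by
  rw [Subgroup.sup_eq_closure] at hx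
  induction hx using Subgroup.closure_induction with
  | mem y hy =>
    rcases hy with hy | hy
    · exact ⟨y, hy, 1, D.one_mem, (mul_one y).symm⟩
    · exact ⟨1, Q.one_mem, y, hy, (one_mul y).symm⟩
  | one => exact ⟨1, Q.one_mem, 1, D.one_mem, (mul_one 1).symm⟩
  | mul y z _ _ ihy ihz =>
    obtain ⟨q₁, hq₁, d₁, hd₁, rfl⟩ := ihy
    obtain ⟨q₂, hq₂, d₂, hd₂, rfl⟩ := ihz
    refine ⟨q₁ * q₂, Q.mul_mem hq₁ hq₂, d₁ * d₂, D.mul_mem hd₁ hd₂, ?_⟩
    calc q₁ * d₁ * (q₂ * d₂) = q₁ * (d₁ * q₂) * d₂ := by group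
      _ = q₁ * (q₂ * d₁) * d₂ := by rw [hcomm q₂ hq₂ d₁ hd₁]
      _ = q₁ * q₂ * (d₁ * d₂) := by group
  | inv y _ ih =>
    obtain ⟨q, hq, d, hd, rfl⟩ := ih
    refine ⟨q⁻¹, Q.inv_mem hq, d⁻¹, D.inv_mem hd, ?_⟩
    rw [mul_inv_rev]
    exact (hcomm q⁻¹ (Q.inv_mem hq) d⁻¹ (D.inv_mem hd)).symm

/-- The centralizer of a subgroup `D'` of `C_G(Q)`, computed inside `C_G(Q)`, identified with the
centralizer in `G` of the subgroup generated by `Q` and `D'`. -/
def kIso (Q : Subgroup G) (D' : Subgroup ↥(Subgroup.centralizer (Q : Set G))) :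
    ↥(Subgroup.centralizer (D' : Set ↥(Subgroup.centralizer (Q : Set G)))) ≃*
      ↥(Subgroup.centralizer
        ((Q ⊔ D'.map (Subgroup.centralizer (Q : Set G)).subtype : Subgroup G) : Set G)) where
  toFun a := ⟨((a : Subgroup.centralizer (Q : Set G)) : G),
    (mem_centralizer_sup Q _ _).mpr ⟨(a : Subgroup.centralizer (Q : Set G)).2, by
      rw [Subgroup.mem_centralizer_iff]
      intro y hy
      obtain ⟨d, hd, rfl⟩ := Subgroup.mem_map.mp hy
      exact congrArg Subtype.val (Subgroup.mem_centralizer_iff.mp a.2 d hd)⟩⟩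
  invFun c := ⟨⟨(c : G), ((mem_centralizer_sup Q _ _).mp c.2).1⟩, by
    rw [Subgroup.mem_centralizer_iff]
    intro d hd
    apply Subtype.ext
    exact Subgroup.mem_centralizer_iff.mp ((mem_centralizer_sup Q _ _).mp c.2).2 (d : G)
      (Subgroup.mem_map.mpr ⟨d, hd, rfl⟩)⟩
  left_inv a := Subtype.ext (Subtype.ext rfl)
  right_inv c := Subtype.ext rfl
  map_mul' a b := Subtype.ext rfl

theorem kIso_coe (Q : Subgroup G) (D' : Subgroup ↥(Subgroup.centralizer (Q : Set G)))
    (a : ↥(Subgroup.centralizer (D' : Set ↥(Subgroup.centralizer (Q : Set G))))) :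
    ((kIso Q D' a : Subgroup.centralizer
        ((Q ⊔ D'.map (Subgroup.centralizer (Q : Set G)).subtype : Subgroup G) : Set G)) : G) =
      ((a : Subgroup.centralizer (Q : Set G)) : G) := rfl

theorem brauerOmega_kIso (Q : Subgroup G) (D' : Subgroup ↥(Subgroup.centralizer (Q : Set G)))
    (f : Set (IrrCharacter (Subgroup.centralizer (Q : Set G))))
    (ξ : Subgroup.centralizer
        ((Q ⊔ D'.map (Subgroup.centralizer (Q : Set G)).subtype : Subgroup G) : Set G) → ℂ) :
    brauerOmega D' (blockCoeff f) (ξ ∘ kIso Q D') =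
      brauerOmega (Q ⊔ D'.map (Subgroup.centralizer (Q : Set G)).subtype)
        (subgroupBlockCoeff (Subgroup.centralizer (Q : Set G)) f) ξ := by
  unfold brauerOmega
  have h1 := finsum_comp_equiv (kIso Q D').toEquiv
    (f := fun c : Subgroup.centralizer
        ((Q ⊔ D'.map (Subgroup.centralizer (Q : Set G)).subtype : Subgroup G) : Set G) =>
      subgroupBlockCoeff (Subgroup.centralizer (Q : Set G)) f (c : G) * ξ c / ξ 1)
  rw [← h1]
  apply finsum_congr
  intro a
  show blockCoeff f (a : Subgroup.centralizer (Q : Set G)) * ξ (kIso Q D' a) /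
      ξ (kIso Q D' 1) =
    subgroupBlockCoeff (Subgroup.centralizer (Q : Set G)) f
      ((kIso Q D' a : Subgroup.centralizer
        ((Q ⊔ D'.map (Subgroup.centralizer (Q : Set G)).subtype : Subgroup G) : Set G)) : G) *
      ξ (kIso Q D' a) / ξ 1
  rw [map_one, kIso_coe,
    subgroupBlockCoeff_of_mem _ _ (a : Subgroup.centralizer (Q : Set G)).2]

end Grp

section Transport

variable {A B : Type u} [Group A] [Group B] [Finite A] [Finite B]

theorem transport_symm_cancel (iso : A ≃* B) (h : Set (IrrCharacter A)) :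
    transportSet iso (transportSet iso.symm h) = h := by
  ext θ
  constructor
  · rintro ⟨θ₁, ⟨θ₂, hθ₂, h1⟩, h2⟩
    have h3 : θ = θ₂ := by
      apply Subtype.ext
      rw [h2, h1]
      funext a
      show (θ₂ : A → ℂ) (iso.symm (iso a)) = (θ₂ : A → ℂ) a
      rw [MulEquiv.symm_apply_apply]
    rw [h3]
    exact hθ₂
  · intro hθ
    refine ⟨⟨(θ : A → ℂ) ∘ iso.symm, isIrrCharacter_comp_equiv iso.symm θ.2⟩, ⟨θ, hθ, rfl⟩, ?_⟩
    funext a
    show (θ : A → ℂ) a = (θ : A → ℂ) (iso.symm (iso a))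
    rw [MulEquiv.symm_apply_apply]

theorem blockDefect_transport (p : ℕ) (iso : A ≃* B) (e : Set (IrrCharacter B)) :
    blockDefect p (transportSet iso e) = blockDefect p e := by
  have hset : (fun χ : IrrCharacter A => (charDegree (χ : A → ℂ)).factorization p) ''
      (transportSet iso e) =
      (fun χ : IrrCharacter B => (charDegree (χ : B → ℂ)).factorization p) '' e := by
    ext n
    constructor
    · rintro ⟨θ', ⟨θ, hθ, hθeq⟩, rfl⟩
      refine ⟨θ, hθ, ?_⟩
      show (charDegree (θ : B → ℂ)).factorization p = (charDegree (θ' : A → ℂ)).factorization p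
      rw [hθeq]
      unfold charDegree
      rw [Function.comp_apply, map_one]
    · rintro ⟨θ, hθ, rfl⟩
      refine ⟨⟨(θ : B → ℂ) ∘ iso, isIrrCharacter_comp_equiv iso θ.2⟩, ⟨θ, hθ, rfl⟩, ?_⟩
      show (charDegree ((θ : B → ℂ) ∘ iso)).factorization p =
        (charDegree (θ : B → ℂ)).factorization p
      unfold charDegree
      rw [Function.comp_apply, map_one]
  unfold blockDefect
  rw [hset, Nat.card_congr iso.toEquiv]

end Transport

section Fin

variable {G : Type u} [Group G] [Fintype G] {M : Ideal AlgInt} {p : ℕ} [Fact p.Prime]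

omit [Fact p.Prime] in
theorem stab_mul (Q : Subgroup G) (f : Set (IrrCharacter (Subgroup.centralizer (Q : Set G))))
    (q : G) (hq : q ∈ Q) (d : G) (hd : d ∈ Subgroup.centralizer (Q : Set G)) :
    StabilizesBlock (Subgroup.centralizer (Q : Set G)) f (q * d) := by
  have hqN : q ∈ Subgroup.normalizer
      ((Subgroup.centralizer (Q : Set G) : Subgroup G) : Set G) :=
    mem_normalizer_centralizer Q (Subgroup.le_normalizer hq)
  have hdN : d ∈ Subgroup.normalizer
      ((Subgroup.centralizer (Q : Set G) : Subgroup G) : Set G) := Subgroup.le_normalizer hd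
  refine ⟨Subgroup.mul_mem _ hqN hdN, fun χ hχ => ⟨χ, hχ, ?_⟩⟩
  intro k k' hk
  have h1 : (k' : G) = d * (k : G) * d⁻¹ := by
    rw [hk]
    have h2 : d * (k : G) * d⁻¹ ∈ Subgroup.centralizer (Q : Set G) :=
      Subgroup.mul_mem _ (Subgroup.mul_mem _ hd k.2) (Subgroup.inv_mem _ hd)
    have h3 := Subgroup.mem_centralizer_iff.mp h2 q hq
    calc q * d * (k : G) * (q * d)⁻¹ = q * (d * (k : G) * d⁻¹) * q⁻¹ := by group
      _ = (d * (k : G) * d⁻¹) * q * q⁻¹ := by rw [h3]
      _ = d * (k : G) * d⁻¹ := by group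
  have h4 : k' = ⟨d, hd⟩ * k * ⟨d, hd⟩⁻¹ := Subtype.ext h1
  rw [h4]
  exact isClassFunction_of_irr χ.2 k ⟨d, hd⟩

omit [Fact p.Prime] in
/-- A normal subpair `(Q, f) ⊴ (Q D, h)` with `D ≤ C_G(Q)` gives a Brauer pair of the block `f`
of the group `C_G(Q)`. -/
theorem brauerPairOf_of_normal (Q : Subgroup G)
    (D' : Subgroup ↥(Subgroup.centralizer (Q : Set G)))
    (f : Set (IrrCharacter (Subgroup.centralizer (Q : Set G))))
    (h : Set (IrrCharacter (Subgroup.centralizer
        ((Q ⊔ D'.map (Subgroup.centralizer (Q : Set G)).subtype : Subgroup G) : Set G))))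
    (hn : IsNormalSubpair p M Q f (Q ⊔ D'.map (Subgroup.centralizer (Q : Set G)).subtype) h)
    (hD' : IsPGroup p D') :
    IsBrauerPairOf p M f D' (transportSet (kIso Q D') h) := by
  obtain ⟨⟨hQ, hf⟩, ⟨hS, hh⟩, -, -, -, hbr⟩ := hn
  refine ⟨⟨hD', isPBlock_transport _ hh⟩, hf, ?_⟩
  rintro ξ' ⟨ξ, hξ, hξeq⟩
  rw [hξeq, brauerOmega_kIso]
  exact hbr ξ hξ

omit [Fact p.Prime] in
/-- A Brauer pair `(D, h)` of the block `f` of the group `C_G(Q)` gives a normal subpair
`(Q, f) ⊴ (Q D, h)` of `G`. -/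
theorem normal_of_brauerPairOf (Q : Subgroup G) (hQ : IsPGroup p Q)
    (D' : Subgroup ↥(Subgroup.centralizer (Q : Set G)))
    (f : Set (IrrCharacter (Subgroup.centralizer (Q : Set G))))
    (h : Set (IrrCharacter (Subgroup.centralizer
        ((Q ⊔ D'.map (Subgroup.centralizer (Q : Set G)).subtype : Subgroup G) : Set G))))
    (hh : IsPBlock M h)
    (hpair : IsBrauerPairOf p M f D' (transportSet (kIso Q D') h)) :
    IsNormalSubpair p M Q f (Q ⊔ D'.map (Subgroup.centralizer (Q : Set G)).subtype) h := by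
  obtain ⟨⟨hD', -⟩, hf, hbr⟩ := hpair
  have hDp : IsPGroup p (D'.map (Subgroup.centralizer (Q : Set G)).subtype) := hD'.map _
  have hDC : D'.map (Subgroup.centralizer (Q : Set G)).subtype ≤
      Subgroup.centralizer (Q : Set G) := by
    intro y hy
    obtain ⟨c, -, rfl⟩ := Subgroup.mem_map.mp hy
    exact c.2
  have hDN : D'.map (Subgroup.centralizer (Q : Set G)).subtype ≤
      Subgroup.normalizer (Q : Set G) :=
    hDC.trans (Cfsg.Agent.Lib_helper3_FirstMain.centralizer_le_normalizer' Q)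
  refine ⟨⟨hQ, hf⟩, ⟨hQ.to_sup_of_normal_left' hDp hDN, hh⟩, le_sup_left,
    sup_le Subgroup.le_normalizer hDN, ?_, ?_⟩
  · intro x hx
    obtain ⟨q, hq, d, hd, rfl⟩ := mem_sup_comm Q _ (fun q hq d hd =>
      Subgroup.mem_centralizer_iff.mp (hDC hd) q hq) hx
    exact stab_mul Q f q hq d (hDC hd)
  · intro ξ hξ
    have h1 := hbr ⟨(ξ : _ → ℂ) ∘ kIso Q D', isIrrCharacter_comp_equiv _ ξ.2⟩ ⟨ξ, hξ, rfl⟩
    rw [brauerOmega_kIso] at h1
    exact h1

/-- Below a Brauer pair `(P, e)`: for `(Q, f) ≤ (P, e)` there is a maximal Brauer pair of the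
block `f` of `C_G(Q)` whose subgroup contains `C_P(Q)`. -/
theorem exists_maximal_cent (hM : IsPModular p M) (P Q : Subgroup G)
    (e : Set (IrrCharacter (Subgroup.centralizer (P : Set G))))
    (f : Set (IrrCharacter (Subgroup.centralizer (Q : Set G))))
    (hPe : IsBrauerPair p M P e) (hle : SubpairLE p M Q f P e) :
    ∃ (D₂ : Subgroup ↥(Subgroup.centralizer (Q : Set G)))
      (h₂ : Set (IrrCharacter (Subgroup.centralizer
        (D₂ : Set ↥(Subgroup.centralizer (Q : Set G)))))),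
      IsMaximalBrauerPair p M f D₂ h₂ ∧
      (P ⊓ Subgroup.centralizer (Q : Set G)).subgroupOf (Subgroup.centralizer (Q : Set G)) ≤
        D₂ := by
  classical
  have instC : Fintype (Subgroup.centralizer (Q : Set G)) := Fintype.ofFinite _
  have hQP : Q ≤ P := chain_le ⟨Q, f⟩ ⟨P, e⟩ hle
  obtain ⟨D', hD'⟩ : ∃ D' : Subgroup ↥(Subgroup.centralizer (Q : Set G)),
      D' = (P ⊓ Subgroup.centralizer (Q : Set G)).subgroupOf
        (Subgroup.centralizer (Q : Set G)) := ⟨_, rfl⟩
  have hD'p : IsPGroup p D' := by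
    rw [hD']
    exact (hPe.1.to_le inf_le_left).comap_subtype
  have hmapP : D'.map (Subgroup.centralizer (Q : Set G)).subtype ≤ P := by
    rw [hD']
    intro y hy
    obtain ⟨c, hc, rfl⟩ := Subgroup.mem_map.mp hy
    exact (Subgroup.mem_subgroupOf.mp hc).1
  have hDC : D'.map (Subgroup.centralizer (Q : Set G)).subtype ≤
      Subgroup.centralizer (Q : Set G) := by
    intro y hy
    obtain ⟨c, -, rfl⟩ := Subgroup.mem_map.mp hy
    exact c.2
  have hSP : Q ⊔ D'.map (Subgroup.centralizer (Q : Set G)).subtype ≤ P := sup_le hQP hmapP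
  obtain ⟨g, hg, hleg⟩ := exists_subpair hM P e hPe
    (Q ⊔ D'.map (Subgroup.centralizer (Q : Set G)).subtype) hSP
  have hSg : IsBrauerPair p M (Q ⊔ D'.map (Subgroup.centralizer (Q : Set G)).subtype) g :=
    ⟨hPe.1.to_le hSP, hg⟩
  have hSN : Q ⊔ D'.map (Subgroup.centralizer (Q : Set G)).subtype ≤
      Subgroup.normalizer (Q : Set G) :=
    sup_le Subgroup.le_normalizer
      (hDC.trans (Cfsg.Agent.Lib_helper3_FirstMain.centralizer_le_normalizer' Q))
  obtain ⟨f', hf'⟩ := exists_normalSubpair hM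
    (Q ⊔ D'.map (Subgroup.centralizer (Q : Set G)).subtype) Q g hSg le_sup_left hSN
  have hle' : SubpairLE p M Q f' P e :=
    Relation.ReflTransGen.head (show NormalSubpairRel p M ⟨Q, f'⟩ ⟨_, g⟩ from hf') hleg
  have hff' : f = f' := subpair_unique hM P e hPe Q f f' hle hle'
  rw [← hff'] at hf'
  have hpair := brauerPairOf_of_normal Q D' f g hf' hD'p
  obtain ⟨⟨D₂, h₂⟩, hmax₂, hchain⟩ := exists_maximal_above (p := p) (M := M) f _
    ⟨D', transportSet (kIso Q D') g⟩ hpair rfl
  refine ⟨D₂, h₂, hmax₂, ?_⟩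
  rw [← hD']
  exact chain_le _ _ hchain

/-- Centralizers in a maximal Brauer pair and defect groups of the local blocks. -/
theorem subpair_cent (hM : IsPModular p M) (B : Set (IrrCharacter G)) (P Q : Subgroup G)
    (e : Set (IrrCharacter (Subgroup.centralizer (P : Set G))))
    (f : Set (IrrCharacter (Subgroup.centralizer (Q : Set G))))
    (hmax : IsMaximalBrauerPair p M B P e) (hf : IsPBlock M f)
    (hle : SubpairLE p M Q f P e) :
    (∃ D : Subgroup (Subgroup.centralizer (Q : Set G)), IsDefectGroup p M f D ∧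
      (P ⊓ Subgroup.centralizer (Q : Set G)).subgroupOf (Subgroup.centralizer (Q : Set G)) ≤ D) ∧
    ∃ x : G, SubpairLE p M (Q.map (MulAut.conj x).toMonoidHom) (conjBlock Q x f) P e ∧
      IsDefectGroup p M (conjBlock Q x f)
        ((P ⊓ Subgroup.centralizer ((Q.map (MulAut.conj x).toMonoidHom) : Set G)).subgroupOf
          (Subgroup.centralizer ((Q.map (MulAut.conj x).toMonoidHom) : Set G))) := by
  classical
  have hPe : IsBrauerPair p M P e := hmax.1.1
  have instC : Fintype (Subgroup.centralizer (Q : Set G)) := Fintype.ofFinite _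
  obtain ⟨D₂, h₂, hmax₂, hle₂⟩ := exists_maximal_cent hM P Q e f hPe hle
  have hD₂def : IsDefectGroup p M f D₂ := defect_of_maximal hM f D₂ h₂ hmax₂
  refine ⟨⟨D₂, hD₂def, hle₂⟩, ?_⟩
  have hQf : IsBrauerPair p M Q f := chain_brauerPair ⟨Q, f⟩ ⟨P, e⟩ hle hPe
  have hBQf : IsBrauerPairOf p M B Q f :=
    (brauerPairOf_iff_of_subpairLE hM P Q e f hle B).mp hmax.1
  obtain ⟨h₂', hh₂'⟩ : ∃ h₂' : Set (IrrCharacter (Subgroup.centralizer
      ((Q ⊔ D₂.map (Subgroup.centralizer (Q : Set G)).subtype : Subgroup G) : Set G))),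
      h₂' = transportSet (kIso Q D₂).symm h₂ := ⟨_, rfl⟩
  have hh₂'b : IsPBlock M h₂' := by
    rw [hh₂']
    exact isPBlock_transport _ hmax₂.1.1.2
  have hback : transportSet (kIso Q D₂) h₂' = h₂ := by
    rw [hh₂']
    exact transport_symm_cancel _ h₂
  have hn : IsNormalSubpair p M Q f
      (Q ⊔ D₂.map (Subgroup.centralizer (Q : Set G)).subtype) h₂' :=
    normal_of_brauerPairOf Q hQf.1 D₂ f h₂' hh₂'b (by
      rw [hback]
      exact hmax₂.1)
  have hS₂B : IsBrauerPairOf p M B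
      (Q ⊔ D₂.map (Subgroup.centralizer (Q : Set G)).subtype) h₂' :=
    brauerPairOf_of_normalSubpair hM _ Q h₂' f hn B hBQf
  obtain ⟨x, hx⟩ := conj_into_maximal hM B P
    (Q ⊔ D₂.map (Subgroup.centralizer (Q : Set G)).subtype) e h₂' hmax hS₂B
  have hnx := normalSubpair_conj (p := p) (M := M) x _ Q h₂' f hn
  have hlex : SubpairLE p M (Q.map (MulAut.conj x).toMonoidHom) (conjBlock Q x f) P e :=
    Relation.ReflTransGen.head
      (show NormalSubpairRel p M ⟨Q.map (MulAut.conj x).toMonoidHom, conjBlock Q x f⟩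
        ⟨_, conjBlock _ x h₂'⟩ from hnx) hx
  refine ⟨x, hlex, ?_⟩
  have instCx : Fintype (Subgroup.centralizer
      ((Q.map (MulAut.conj x).toMonoidHom : Subgroup G) : Set G)) := Fintype.ofFinite _
  obtain ⟨D₃, h₃, hmax₃, hle₃⟩ := exists_maximal_cent hM P (Q.map (MulAut.conj x).toMonoidHom) e
    (conjBlock Q x f) hPe hlex
  have hD₃def : IsDefectGroup p M (conjBlock Q x f) D₃ := defect_of_maximal hM _ D₃ h₃ hmax₃
  have hfx : IsPBlock M (conjBlock Q x f) := by
    rw [conjBlock_eq]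
    exact isPBlock_transport _ hf
  have hc3 := Cfsg.Agent.S0908.result p M hM (conjBlock Q x f) hfx D₃ hD₃def
  have hc2 := Cfsg.Agent.S0908.result p M hM f hf D₂ hD₂def
  have hdef : blockDefect p (conjBlock Q x f) = blockDefect p f := by
    rw [conjBlock_eq]
    exact blockDefect_transport p _ f
  have hSxP : (Q ⊔ D₂.map (Subgroup.centralizer (Q : Set G)).subtype).map
      (MulAut.conj x).toMonoidHom ≤ P := chain_le ⟨_, conjBlock _ x h₂'⟩ ⟨P, e⟩ hx
  have hsub : (D₂.map (Subgroup.centralizer (Q : Set G)).subtype).map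
      (MulAut.conj x).toMonoidHom ≤
      P ⊓ Subgroup.centralizer ((Q.map (MulAut.conj x).toMonoidHom : Subgroup G) : Set G) := by
    apply le_inf
    · exact (Subgroup.map_mono le_sup_right).trans hSxP
    · intro y hy
      obtain ⟨d, hd, rfl⟩ := Subgroup.mem_map.mp hy
      obtain ⟨c, -, rfl⟩ := Subgroup.mem_map.mp hd
      rw [mem_centralizer_map_conj]
      show x⁻¹ * (x * (c : G) * x⁻¹) * x ∈ Subgroup.centralizer (Q : Set G)
      have h1 : x⁻¹ * (x * (c : G) * x⁻¹) * x = (c : G) := by group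
      rw [h1]
      exact c.2
  have hcard1 : Nat.card D₂ ≤ Nat.card
      ((P ⊓ Subgroup.centralizer ((Q.map (MulAut.conj x).toMonoidHom) : Set G)).subgroupOf
        (Subgroup.centralizer ((Q.map (MulAut.conj x).toMonoidHom) : Set G))) := by
    have h1 := Subgroup.card_le_of_le hsub
    rw [Subgroup.card_map_of_injective (MulEquiv.injective _),
      Subgroup.card_map_of_injective (Subgroup.subtype_injective _)] at h1
    rw [Nat.card_congr (Subgroup.subgroupOfEquivOfLe inf_le_right).toEquiv]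
    exact h1
  have hcard : Nat.card D₃ ≤ Nat.card
      ((P ⊓ Subgroup.centralizer ((Q.map (MulAut.conj x).toMonoidHom) : Set G)).subgroupOf
        (Subgroup.centralizer ((Q.map (MulAut.conj x).toMonoidHom) : Set G))) := by
    rw [hc3, hdef, ← hc2]
    exact hcard1
  have heq := Subgroup.eq_of_le_of_card_ge hle₃ hcard
  rw [heq]
  exact hD₃def

end Fin

end Cfsg.Agent.Lib_helper3_CentPair
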