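import Mathlib
import Cfsg.Prelude.Def_Characters
import Cfsg.Prelude.Def_Blocks
import Cfsg.Prelude.Def_BlockLocal
import Cfsg.Prelude.Def_BrauerPairs
import Cfsg.Agent.Lib_helper3_CentPair

set_option autoImplicit false
open Cfsg
open Cfsg.Agent.Lib_helper3_CharBasic Cfsg.Agent.Lib_helper3_CharMore
  Cfsg.Agent.Lib_helper3_Local Cfsg.Agent.Lib_helper3_Local2 Cfsg.Agent.Lib_helper3_BlockAlg
  Cfsg.Agent.Lib_helper3_IdemSupp Cfsg.Agent.Lib_helper3_Residue
  Cfsg.Agent.Lib_helper3_BrauerHom Cfsg.Agent.Lib_helper3_BrauerHom2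
  Cfsg.Agent.Lib_helper3_BrauerHom3 Cfsg.Agent.Lib_helper3_ExtFirstMain
  Cfsg.Agent.Lib_helper3_BrauerPair Cfsg.Agent.Lib_helper3_NilPrincipal
  Cfsg.Agent.Lib_helper3_PrincipalPairs Cfsg.Agent.Lib_helper3_BrauerTrunc
  Cfsg.Agent.Lib_helper3_CharInd Cfsg.Agent.Lib_helper3_SecondMain3
  Cfsg.Agent.Lib_helper3_SubpairBlock Cfsg.Agent.Lib_helper3_NormalSubpair
  Cfsg.Agent.Lib_helper3_BlockCover Cfsg.Agent.Lib_helper3_BlockInd
  Cfsg.Agent.Lib_helper3_ThirdMain Cfsg.Agent.Lib_helper3_StableBlock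
  Cfsg.Agent.Lib_helper3_NormalPTrace Cfsg.Agent.Lib_helper3_SubpairUnique
  Cfsg.Agent.Lib_helper3_MaxPair Cfsg.Agent.Lib_helper3_ConjPair
  Cfsg.Agent.Lib_helper3_CentPair
open scoped ComplexConjugate

namespace Cfsg.Agent.Lib_helper3_StabPair

attribute [local instance] Ideal.Quotient.field

universe u

section Grp

variable {G : Type u} [Group G]

theorem mem_normalizer_map_conj (Q : Subgroup G) (x y : G) :
    y ∈ Subgroup.normalizer ((Q.map (MulAut.conj x).toMonoidHom : Subgroup G) : Set G) ↔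
      x⁻¹ * y * x ∈ Subgroup.normalizer (Q : Set G) := by
  rw [Subgroup.mem_normalizer_iff, Subgroup.mem_normalizer_iff]
  constructor
  · intro h g
    have h1 := h (x * g * x⁻¹)
    rw [mem_map_conj, mem_map_conj] at h1
    have h2 : x⁻¹ * (x * g * x⁻¹) * x = g := by group
    have h3 : x⁻¹ * (y * (x * g * x⁻¹) * y⁻¹) * x = x⁻¹ * y * x * g * (x⁻¹ * y * x)⁻¹ := by group
    rw [h2, h3] at h1
    exact h1
  · intro h g'
    rw [mem_map_conj, mem_map_conj]
    have h1 := h (x⁻¹ * g' * x)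
    have h2 : x⁻¹ * y * x * (x⁻¹ * g' * x) * (x⁻¹ * y * x)⁻¹ = x⁻¹ * (y * g' * y⁻¹) * x := by
      group
    rw [h2] at h1
    exact h1

theorem exists_conj_iso (T T' : Subgroup G) (x : G) (h1 : ∀ y ∈ T', x⁻¹ * y * x ∈ T)
    (h2 : ∀ t ∈ T, x * t * x⁻¹ ∈ T') :
    ∃ τ : ↥T' ≃* ↥T, ∀ t' : T', ((τ t' : T) : G) = x⁻¹ * (t' : G) * x :=
  ⟨{ toFun := fun t' => ⟨x⁻¹ * (t' : G) * x, h1 _ t'.2⟩
     invFun := fun t => ⟨x * (t : G) * x⁻¹, h2 _ t.2⟩
     left_inv := fun t' => Subtype.ext (by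
       show x * (x⁻¹ * (t' : G) * x) * x⁻¹ = (t' : G)
       group)
     right_inv := fun t => Subtype.ext (by
       show x⁻¹ * (x * (t : G) * x⁻¹) * x = (t : G)
       group)
     map_mul' := fun a b => Subtype.ext (by
       show x⁻¹ * ((a : G) * (b : G)) * x = (x⁻¹ * (a : G) * x) * (x⁻¹ * (b : G) * x)
       group) }, fun _ => rfl⟩

theorem brauerOmega_centIso (S T : Subgroup G) (hST : S ≤ T)
    (hCST : Subgroup.centralizer (S : Set G) ≤ T) (βT : T → ℂ) (β : G → ℂ)
    (hβ : ∀ t : T, βT t = β (t : G)) (ξ : Subgroup.centralizer (S : Set G) → ℂ) :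
    brauerOmega (S.subgroupOf T) βT (ξ ∘ centIso S T hST hCST) = brauerOmega S β ξ := by
  unfold brauerOmega
  have h1 := finsum_comp_equiv (centIso S T hST hCST).toEquiv
    (f := fun c : Subgroup.centralizer (S : Set G) => β (c : G) * ξ c / ξ 1)
  rw [← h1]
  apply finsum_congr
  intro a
  show βT (a : T) * ξ (centIso S T hST hCST a) / ξ (centIso S T hST hCST 1) =
    β ((centIso S T hST hCST a : Subgroup.centralizer (S : Set G)) : G) *
      ξ (centIso S T hST hCST a) / ξ 1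
  rw [map_one, hβ, centIso_coe]

end Grp

section Fin

variable {G : Type u} [Group G] [Fintype G] {M : Ideal AlgInt} {p : ℕ} [Fact p.Prime]

omit [Fact p.Prime] in
theorem eq_of_blockCoeff_eq (A A' : Set (IrrCharacter G)) (h : blockCoeff A = blockCoeff A') :
    A = A' := by
  ext χ
  constructor
  · intro hχ
    by_contra hn
    have h1 := om_blockCoeff_of_mem hχ
    have h2 := om_blockCoeff_of_not_mem hn
    rw [h, h2] at h1
    exact zero_ne_one h1
  · intro hχ
    by_contra hn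
    have h1 := om_blockCoeff_of_mem hχ
    have h2 := om_blockCoeff_of_not_mem hn
    rw [← h, h2] at h1
    exact zero_ne_one h1

omit [Fact p.Prime] in
theorem stabilizes_conj_inv (Q : Subgroup G) (x : G)
    (f : Set (IrrCharacter (Subgroup.centralizer (Q : Set G)))) (y : G)
    (h : StabilizesBlock
      (Subgroup.centralizer ((Q.map (MulAut.conj x).toMonoidHom : Subgroup G) : Set G))
      (conjBlock Q x f) y) :
    StabilizesBlock (Subgroup.centralizer (Q : Set G)) f (x⁻¹ * y * x) := by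
  obtain ⟨hy, hst⟩ := h
  refine ⟨?_, ?_⟩
  · rw [Subgroup.mem_normalizer_iff] at hy ⊢
    intro g
    have h1 := hy (x * g * x⁻¹)
    rw [mem_centralizer_map_conj, mem_centralizer_map_conj] at h1
    have h2 : x⁻¹ * (x * g * x⁻¹) * x = g := by group
    have h3 : x⁻¹ * (y * (x * g * x⁻¹) * y⁻¹) * x = x⁻¹ * y * x * g * (x⁻¹ * y * x)⁻¹ := by group
    rw [h2, h3] at h1
    exact h1
  · intro χ hχ
    have hχ' : (⟨(χ : Subgroup.centralizer (Q : Set G) → ℂ) ∘ cIso Q x,
        isIrrCharacter_comp_equiv _ χ.2⟩ : IrrCharacter (Subgroup.centralizer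
          ((Q.map (MulAut.conj x).toMonoidHom : Subgroup G) : Set G))) ∈ conjBlock Q x f := by
      rw [conjBlock_eq]
      exact ⟨χ, hχ, rfl⟩
    obtain ⟨χ'', hχ'', hconj⟩ := hst _ hχ'
    rw [conjBlock_eq] at hχ''
    obtain ⟨χ₂, hχ₂, hχ₂eq⟩ := hχ''
    refine ⟨χ₂, hχ₂, ?_⟩
    intro k k' hk
    have h1 := hconj ((cIso Q x).symm k) ((cIso Q x).symm k') (by
      show x * (k' : G) * x⁻¹ = y * (x * (k : G) * x⁻¹) * y⁻¹
      rw [hk]
      group)
    rw [hχ₂eq] at h1
    have h2 : (χ₂ : Subgroup.centralizer (Q : Set G) → ℂ) (cIso Q x ((cIso Q x).symm k')) =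
        (χ : Subgroup.centralizer (Q : Set G) → ℂ) (cIso Q x ((cIso Q x).symm k)) := h1
    rw [MulEquiv.apply_symm_apply, MulEquiv.apply_symm_apply] at h2
    exact h2

omit [Fact p.Prime] in
theorem stab_facts (Q : Subgroup G) (f : Set (IrrCharacter (Subgroup.centralizer (Q : Set G))))
    (T : Subgroup G)
    (hT : ∀ y : G, y ∈ T ↔ y ∈ Subgroup.normalizer (Q : Set G) ∧
      StabilizesBlock (Subgroup.centralizer (Q : Set G)) f y) :
    Q ≤ T ∧ Subgroup.centralizer (Q : Set G) ≤ T ∧ T ≤ Subgroup.normalizer (Q : Set G) ∧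
      ∀ t ∈ T, StabilizesBlock (Subgroup.centralizer (Q : Set G)) f t := by
  refine ⟨?_, ?_, fun t ht => ((hT t).mp ht).1, fun t ht => ((hT t).mp ht).2⟩
  · intro q hq
    rw [hT]
    refine ⟨Subgroup.le_normalizer hq, ?_⟩
    have h := stab_mul Q f q hq 1 (Subgroup.one_mem _)
    rwa [mul_one] at h
  · intro c hc
    rw [hT]
    refine ⟨Cfsg.Agent.Lib_helper3_FirstMain.centralizer_le_normalizer' Q hc, ?_⟩
    have h := stab_mul Q f 1 (Subgroup.one_mem _) c hc
    rwa [one_mul] at h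

/-- The idempotent of a block of `C_G(Q)` is a block idempotent of any subgroup between
`Q C_G(Q)` and `N_G(Q)` stabilizing it. -/
theorem exists_block_stab (hM : IsPModular p M) (Q : Subgroup G)
    (f : Set (IrrCharacter (Subgroup.centralizer (Q : Set G)))) (hQf : IsBrauerPair p M Q f)
    (T : Subgroup G) (hQT : Q ≤ T) (hCT : Subgroup.centralizer (Q : Set G) ≤ T)
    (hTN : T ≤ Subgroup.normalizer (Q : Set G))
    (hstab : ∀ t ∈ T, StabilizesBlock (Subgroup.centralizer (Q : Set G)) f t) :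
    ∃ E : Set (IrrCharacter T), IsPBlock M E ∧ ∀ t : T, blockCoeff E t =
      subgroupBlockCoeff (Subgroup.centralizer (Q : Set G)) f (t : G) := by
  classical
  have hMm : M.IsMaximal := hM.2.1
  have hMp : M.IsPrime := hMm.isPrime
  obtain ⟨hP, he⟩ := hQf
  have instT : Fintype T := Fintype.ofFinite _
  have instC : Fintype (Subgroup.centralizer (Q : Set G)) := Fintype.ofFinite _
  have instCT : Fintype (Subgroup.centralizer ((Q.subgroupOf T : Subgroup T) : Set T)) :=
    Fintype.ofFinite _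
  have hPTn : (Q.subgroupOf T).Normal := by
    constructor
    intro n hn g
    rw [Subgroup.mem_subgroupOf] at hn ⊢
    exact (Subgroup.mem_normalizer_iff.mp (hTN g.2) (n : G)).mp hn
  obtain ⟨iso, hiso⟩ : ∃ iso : ↥(Subgroup.centralizer ((Q.subgroupOf T : Subgroup T) : Set T)) ≃*
      ↥(Subgroup.centralizer (Q : Set G)),
      ∀ a, ((iso a : Subgroup.centralizer (Q : Set G)) : G) = ((a : T) : G) :=
    ⟨centIso Q T hQT hCT, fun a => rfl⟩
  obtain ⟨eT, heT⟩ : ∃ eT : Set (IrrCharacter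
      (Subgroup.centralizer ((Q.subgroupOf T : Subgroup T) : Set T))),
      eT = transportSet iso f := ⟨_, rfl⟩
  have heTb : IsPBlock M eT := by
    rw [heT]
    exact isPBlock_transport iso he
  have hPTp : IsPGroup p (Q.subgroupOf T) := hP.comap_subtype
  obtain ⟨E, hE, -⟩ := brauerPair_unique_block hM (Q.subgroupOf T) eT ⟨hPTp, heTb⟩
  refine ⟨E, hE.2.1, fun t => ?_⟩
  have h1 := blockCoeff_eq_cover (M := M)
    (Subgroup.centralizer ((Q.subgroupOf T : Subgroup T) : Set T)) E hE.2.1 eT heTb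
    (fun g hg => Cfsg.Agent.Lib_helper3_IdemCent2.blockCoeff_supported hM (Q.subgroupOf T) hPTp
      E hE.2.1 g hg)
    (fun ξ hξ => by
      have h := hE.2.2 ξ hξ
      rwa [brauerOmega_eq_om] at h) t
  have horb : orbClosure (Subgroup.centralizer ((Q.subgroupOf T : Subgroup T) : Set T)) eT =
      eT := by
    apply Set.Subset.antisymm
    · rintro θ' ⟨x, θ₀, hθ₀, rfl⟩
      rw [heT] at hθ₀ ⊢
      obtain ⟨θ, hθ, hθeq⟩ := hθ₀
      obtain ⟨θ₂, hθ₂, hconj⟩ := (hstab ((x⁻¹ : T) : G) (x⁻¹).2).2 θ hθ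
      refine ⟨θ₂, hθ₂, ?_⟩
      funext k
      rw [conjIrr_coe, Lib_helper3_CharNormal.conjFun_apply, hθeq]
      show (θ : Subgroup.centralizer (Q : Set G) → ℂ) (iso ⟨x * k * x⁻¹, _⟩) =
        (θ₂ : Subgroup.centralizer (Q : Set G) → ℂ) (iso k)
      exact (hconj (iso ⟨x * k * x⁻¹, _⟩) (iso k) (by
        rw [hiso, hiso]
        show ((k : T) : G) = (x : G)⁻¹ * ((x : G) * ((k : T) : G) * (x : G)⁻¹) * (x : G)⁻¹⁻¹
        group)).symm
    · exact subset_orbClosure _ eT
  rw [h1, horb]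
  by_cases ht : t ∈ Subgroup.centralizer ((Q.subgroupOf T : Subgroup T) : Set T)
  · rw [extendByZero_mem _ _ ht, heT, blockCoeff_transport]
    have htC : (t : G) ∈ Subgroup.centralizer (Q : Set G) := by
      have h := (iso ⟨t, ht⟩).2
      rwa [hiso] at h
    rw [subgroupBlockCoeff_of_mem _ _ htC]
    refine congrArg (blockCoeff f) (Subtype.ext ?_)
    rw [hiso]
  · rw [extendByZero_not_mem _ _ ht]
    have htC : (t : G) ∉ Subgroup.centralizer (Q : Set G) := by
      intro h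
      apply ht
      exact (SetLike.ext_iff.mp (centralizer_subgroupOf Q T hQT) t).mpr
        (Subgroup.mem_subgroupOf.mpr h)
    rw [subgroupBlockCoeff_of_not_mem _ _ htC]

omit [Fact p.Prime] in
theorem pair_of_normal_stab (Q R T : Subgroup G)
    (f : Set (IrrCharacter (Subgroup.centralizer (Q : Set G)))) (F : Set (IrrCharacter T))
    (hFb : IsPBlock M F)
    (hF : ∀ t : T, blockCoeff F t =
      subgroupBlockCoeff (Subgroup.centralizer (Q : Set G)) f (t : G))
    (hRT : R ≤ T) (hCRT : Subgroup.centralizer (R : Set G) ≤ T)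
    (g : Set (IrrCharacter (Subgroup.centralizer (R : Set G))))
    (hn : IsNormalSubpair p M Q f R g) :
    IsBrauerPairOf p M F (R.subgroupOf T) (transportSet (centIso R T hRT hCRT) g) := by
  obtain ⟨-, ⟨hR, hg⟩, -, -, -, hbr⟩ := hn
  refine ⟨⟨hR.comap_subtype, isPBlock_transport _ hg⟩, hFb, ?_⟩
  rintro ξ' ⟨ξ, hξ, hξeq⟩
  rw [hξeq, brauerOmega_centIso R T hRT hCRT (blockCoeff F)
    (subgroupBlockCoeff (Subgroup.centralizer (Q : Set G)) f) hF]
  exact hbr ξ hξ

omit [Fact p.Prime] in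
theorem normal_of_pair_stab (Q : Subgroup G)
    (f : Set (IrrCharacter (Subgroup.centralizer (Q : Set G)))) (hQf : IsBrauerPair p M Q f)
    (T : Subgroup G) (hTN : T ≤ Subgroup.normalizer (Q : Set G))
    (hstab : ∀ t ∈ T, StabilizesBlock (Subgroup.centralizer (Q : Set G)) f t)
    (F : Set (IrrCharacter T))
    (hF : ∀ t : T, blockCoeff F t =
      subgroupBlockCoeff (Subgroup.centralizer (Q : Set G)) f (t : G))
    (S : Subgroup G) (hQS : Q ≤ S) (hST : S ≤ T) (hCST : Subgroup.centralizer (S : Set G) ≤ T)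
    (h : Set (IrrCharacter (Subgroup.centralizer (S : Set G)))) (hh : IsPBlock M h)
    (hpair : IsBrauerPairOf p M F (S.subgroupOf T) (transportSet (centIso S T hST hCST) h)) :
    IsNormalSubpair p M Q f S h := by
  obtain ⟨⟨hSp, -⟩, -, hbr⟩ := hpair
  have hS : IsPGroup p S := by
    have h1 := hSp.map T.subtype
    rwa [Subgroup.map_subgroupOf_eq_of_le hST] at h1
  refine ⟨hQf, ⟨hS, hh⟩, hQS, hST.trans hTN, fun x hx => hstab x (hST hx), ?_⟩
  intro ξ hξ
  have h1 := hbr ⟨(ξ : _ → ℂ) ∘ centIso S T hST hCST, isIrrCharacter_comp_equiv _ ξ.2⟩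
    ⟨ξ, hξ, rfl⟩
  rw [brauerOmega_centIso S T hST hCST (blockCoeff F)
    (subgroupBlockCoeff (Subgroup.centralizer (Q : Set G)) f) hF] at h1
  exact h1

omit [Fact p.Prime] in
theorem exists_normal_of_pair (Q : Subgroup G)
    (f : Set (IrrCharacter (Subgroup.centralizer (Q : Set G)))) (hQf : IsBrauerPair p M Q f)
    (T : Subgroup G) (hTN : T ≤ Subgroup.normalizer (Q : Set G))
    (hstab : ∀ t ∈ T, StabilizesBlock (Subgroup.centralizer (Q : Set G)) f t)
    (F : Set (IrrCharacter T))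
    (hF : ∀ t : T, blockCoeff F t =
      subgroupBlockCoeff (Subgroup.centralizer (Q : Set G)) f (t : G))
    (D₂ : Subgroup T) (h₂ : Set (IrrCharacter (Subgroup.centralizer (D₂ : Set T))))
    (hpair : IsBrauerPairOf p M F D₂ h₂)
    (S : Subgroup G) (hQS : Q ≤ S) (hST : S ≤ T) (hCST : Subgroup.centralizer (S : Set G) ≤ T)
    (hD : D₂ = S.subgroupOf T) :
    ∃ h : Set (IrrCharacter (Subgroup.centralizer (S : Set G))),
      IsNormalSubpair p M Q f S h := by
  subst hD
  refine ⟨transportSet (centIso S T hST hCST).symm h₂,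
    normal_of_pair_stab Q f hQf T hTN hstab F hF S hQS hST hCST _
      (isPBlock_transport _ hpair.1.2) ?_⟩
  rw [transport_symm_cancel]
  exact hpair

/-- The block of the stabilizer `T` of `f` with idempotent that of `f`, and a maximal Brauer
pair of it whose subgroup contains `N_P(Q)`. -/
theorem exists_stab_block (hM : IsPModular p M) (P Q : Subgroup G)
    (e : Set (IrrCharacter (Subgroup.centralizer (P : Set G))))
    (f : Set (IrrCharacter (Subgroup.centralizer (Q : Set G))))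
    (hPe : IsBrauerPair p M P e) (hle : SubpairLE p M Q f P e) (T : Subgroup G)
    (hT : ∀ y : G, y ∈ T ↔ y ∈ Subgroup.normalizer (Q : Set G) ∧
      StabilizesBlock (Subgroup.centralizer (Q : Set G)) f y) :
    ∃ F : Set (IrrCharacter T), IsPBlock M F ∧
      (∀ t : T, blockCoeff F t =
        subgroupBlockCoeff (Subgroup.centralizer (Q : Set G)) f (t : G)) ∧
      P ⊓ Subgroup.normalizer (Q : Set G) ≤ T ∧
      ∃ (D₂ : Subgroup T) (h₂ : Set (IrrCharacter (Subgroup.centralizer (D₂ : Set T)))),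
        IsMaximalBrauerPair p M F D₂ h₂ ∧
        (P ⊓ Subgroup.normalizer (Q : Set G)).subgroupOf T ≤ D₂ := by
  classical
  have instT : Fintype T := Fintype.ofFinite _
  obtain ⟨hQT, hCT, hTN, hstab⟩ := stab_facts Q f T hT
  have hQP : Q ≤ P := chain_le ⟨Q, f⟩ ⟨P, e⟩ hle
  have hQf : IsBrauerPair p M Q f := chain_brauerPair ⟨Q, f⟩ ⟨P, e⟩ hle hPe
  obtain ⟨F, hFb, hF⟩ := exists_block_stab hM Q f hQf T hQT hCT hTN hstab
  obtain ⟨R, hRdef⟩ : ∃ R : Subgroup G, R = P ⊓ Subgroup.normalizer (Q : Set G) := ⟨_, rfl⟩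
  have hRP : R ≤ P := by
    rw [hRdef]
    exact inf_le_left
  have hRN : R ≤ Subgroup.normalizer (Q : Set G) := by
    rw [hRdef]
    exact inf_le_right
  have hQR : Q ≤ R := by
    rw [hRdef]
    exact le_inf hQP Subgroup.le_normalizer
  obtain ⟨g, hg, hleg⟩ := exists_subpair hM P e hPe R hRP
  have hRg : IsBrauerPair p M R g := ⟨hPe.1.to_le hRP, hg⟩
  obtain ⟨f', hf'⟩ := exists_normalSubpair hM R Q g hRg hQR hRN
  have hle' : SubpairLE p M Q f' P e :=
    Relation.ReflTransGen.head (show NormalSubpairRel p M ⟨Q, f'⟩ ⟨R, g⟩ from hf') hleg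
  have hff' : f = f' := subpair_unique hM P e hPe Q f f' hle hle'
  rw [← hff'] at hf'
  have hRT : R ≤ T := by
    intro r hr
    rw [hT]
    exact ⟨hRN hr, hf'.2.2.2.2.1 r hr⟩
  have hCRT : Subgroup.centralizer (R : Set G) ≤ T :=
    (Subgroup.centralizer_le (SetLike.coe_subset_coe.mpr hQR)).trans hCT
  have hpair := pair_of_normal_stab Q R T f F hFb hF hRT hCRT g hf'
  obtain ⟨⟨D₂, h₂⟩, hmax₂, hchain⟩ := exists_maximal_above (p := p) (M := M) F _
    ⟨R.subgroupOf T, transportSet (centIso R T hRT hCRT) g⟩ hpair rfl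
  refine ⟨F, hFb, hF, ?_, D₂, h₂, hmax₂, ?_⟩
  · rw [← hRdef]
    exact hRT
  · rw [← hRdef]
    exact chain_le _ _ hchain

/-- Normalizers in a maximal Brauer pair and defect groups of the blocks of the stabilizers. -/
theorem subpair_norm (hM : IsPModular p M) (B : Set (IrrCharacter G)) (P Q : Subgroup G)
    (e : Set (IrrCharacter (Subgroup.centralizer (P : Set G))))
    (f : Set (IrrCharacter (Subgroup.centralizer (Q : Set G))))
    (hmax : IsMaximalBrauerPair p M B P e) (hle : SubpairLE p M Q f P e) (T : Subgroup G)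
    (hT : ∀ y : G, y ∈ T ↔ y ∈ Subgroup.normalizer (Q : Set G) ∧
      StabilizesBlock (Subgroup.centralizer (Q : Set G)) f y) :
    (∃ F : Set (IrrCharacter T), IsPBlock M F ∧
      (∀ t : T, blockCoeff F t =
        subgroupBlockCoeff (Subgroup.centralizer (Q : Set G)) f (t : G)) ∧
      ∃ D : Subgroup T, IsDefectGroup p M F D ∧
        (P ⊓ Subgroup.normalizer (Q : Set G)).subgroupOf T ≤ D) ∧
    ∃ x : G, SubpairLE p M (Q.map (MulAut.conj x).toMonoidHom) (conjBlock Q x f) P e ∧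
      ∀ (T' : Subgroup G),
        (∀ y : G, y ∈ T' ↔
          y ∈ Subgroup.normalizer ((Q.map (MulAut.conj x).toMonoidHom) : Set G) ∧
          StabilizesBlock (Subgroup.centralizer ((Q.map (MulAut.conj x).toMonoidHom) : Set G))
            (conjBlock Q x f) y) →
        ∃ F' : Set (IrrCharacter T'), IsPBlock M F' ∧
          (∀ t : T', blockCoeff F' t = subgroupBlockCoeff
            (Subgroup.centralizer ((Q.map (MulAut.conj x).toMonoidHom) : Set G))
            (conjBlock Q x f) (t : G)) ∧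
          IsDefectGroup p M F'
            ((P ⊓ Subgroup.normalizer ((Q.map (MulAut.conj x).toMonoidHom) : Set G)).subgroupOf
              T') := by
  classical
  have hPe : IsBrauerPair p M P e := hmax.1.1
  have instT : Fintype T := Fintype.ofFinite _
  obtain ⟨hQT, hCT, hTN, hstab⟩ := stab_facts Q f T hT
  have hQf : IsBrauerPair p M Q f := chain_brauerPair ⟨Q, f⟩ ⟨P, e⟩ hle hPe
  have hQP : Q ≤ P := chain_le ⟨Q, f⟩ ⟨P, e⟩ hle
  obtain ⟨F, hFb, hF, -, D₂, h₂, hmax₂, hle₂⟩ := exists_stab_block hM P Q e f hPe hle T hT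
  have hD₂def : IsDefectGroup p M F D₂ := defect_of_maximal hM F D₂ h₂ hmax₂
  refine ⟨⟨F, hFb, hF, D₂, hD₂def, hle₂⟩, ?_⟩
  obtain ⟨S₂, hS₂def⟩ : ∃ S₂ : Subgroup G, S₂ = D₂.map T.subtype := ⟨_, rfl⟩
  have hS₂T : S₂ ≤ T := by
    rw [hS₂def]
    intro y hy
    obtain ⟨t, -, rfl⟩ := Subgroup.mem_map.mp hy
    exact t.2
  have hD : D₂ = S₂.subgroupOf T := by
    rw [hS₂def]
    exact (Subgroup.comap_map_eq_self_of_injective T.subtype_injective D₂).symm
  have hQS₂ : Q ≤ S₂ := by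
    intro q hq
    rw [hS₂def]
    refine Subgroup.mem_map.mpr ⟨⟨q, hQT hq⟩, hle₂ ?_, rfl⟩
    exact Subgroup.mem_subgroupOf.mpr ⟨hQP hq, Subgroup.le_normalizer hq⟩
  have hCS₂T : Subgroup.centralizer (S₂ : Set G) ≤ T :=
    (Subgroup.centralizer_le (SetLike.coe_subset_coe.mpr hQS₂)).trans hCT
  obtain ⟨h, hn⟩ := exists_normal_of_pair Q f hQf T hTN hstab F hF D₂ h₂ hmax₂.1 S₂ hQS₂ hS₂T
    hCS₂T hD
  have hBQf : IsBrauerPairOf p M B Q f :=
    (brauerPairOf_iff_of_subpairLE hM P Q e f hle B).mp hmax.1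
  have hS₂B : IsBrauerPairOf p M B S₂ h := brauerPairOf_of_normalSubpair hM S₂ Q h f hn B hBQf
  obtain ⟨x, hx⟩ := conj_into_maximal hM B P S₂ e h hmax hS₂B
  have hnx := normalSubpair_conj (p := p) (M := M) x S₂ Q h f hn
  have hlex : SubpairLE p M (Q.map (MulAut.conj x).toMonoidHom) (conjBlock Q x f) P e :=
    Relation.ReflTransGen.head
      (show NormalSubpairRel p M ⟨Q.map (MulAut.conj x).toMonoidHom, conjBlock Q x f⟩
        ⟨_, conjBlock S₂ x h⟩ from hnx) hx
  refine ⟨x, hlex, fun T' hT' => ?_⟩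
  have instT' : Fintype T' := Fintype.ofFinite _
  obtain ⟨F', hF'b, hF', hRT', D₃, h₃, hmax₃, hle₃⟩ := exists_stab_block hM P
    (Q.map (MulAut.conj x).toMonoidHom) e (conjBlock Q x f) hPe hlex T' hT'
  have hD₃def : IsDefectGroup p M F' D₃ := defect_of_maximal hM F' D₃ h₃ hmax₃
  refine ⟨F', hF'b, hF', ?_⟩
  obtain ⟨τ, hτ⟩ := exists_conj_iso T T' x
    (fun y hy => (hT _).mpr ⟨(mem_normalizer_map_conj Q x y).mp ((hT' y).mp hy).1,
      stabilizes_conj_inv Q x f y ((hT' y).mp hy).2⟩)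
    (fun t ht => (hT' _).mpr ⟨(mem_normalizer_map_conj Q x _).mpr (by
      have h1 : x⁻¹ * (x * t * x⁻¹) * x = t := by group
      rw [h1]
      exact ((hT t).mp ht).1), stabilizes_conj Q x f t ((hT t).mp ht).2⟩)
  have hFF' : F' = transportSet τ F := by
    apply eq_of_blockCoeff_eq
    funext t'
    rw [hF' t', blockCoeff_transport, hF (τ t'), hτ, subgroupBlockCoeff_conj]
  have hdef : blockDefect p F' = blockDefect p F := by
    rw [hFF']
    exact blockDefect_transport p τ F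
  have hc3 := Cfsg.Agent.S0908.result p M hM F' hF'b D₃ hD₃def
  have hc2 := Cfsg.Agent.S0908.result p M hM F hFb D₂ hD₂def
  have hSxP : S₂.map (MulAut.conj x).toMonoidHom ≤ P :=
    chain_le ⟨_, conjBlock S₂ x h⟩ ⟨P, e⟩ hx
  have hsub : S₂.map (MulAut.conj x).toMonoidHom ≤
      P ⊓ Subgroup.normalizer ((Q.map (MulAut.conj x).toMonoidHom : Subgroup G) : Set G) :=
    le_inf hSxP (map_conj_le_normalizer S₂ Q x (hS₂T.trans hTN))
  have hcard1 : Nat.card D₂ ≤ Nat.card
      ((P ⊓ Subgroup.normalizer ((Q.map (MulAut.conj x).toMonoidHom) : Set G)).subgroupOf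
        T') := by
    have h1 := Subgroup.card_le_of_le hsub
    rw [Subgroup.card_map_of_injective (MulEquiv.injective _), hS₂def,
      Subgroup.card_map_of_injective T.subtype_injective] at h1
    rw [Nat.card_congr (Subgroup.subgroupOfEquivOfLe hRT').toEquiv]
    exact h1
  have hcard : Nat.card D₃ ≤ Nat.card
      ((P ⊓ Subgroup.normalizer ((Q.map (MulAut.conj x).toMonoidHom) : Set G)).subgroupOf
        T') := by
    rw [hc3, hdef, ← hc2]
    exact hcard1
  have heq := Subgroup.eq_of_le_of_card_ge hle₃ hcard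
  rw [heq]
  exact hD₃def

end Fin

end Cfsg.Agent.Lib_helper3_StabPair
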