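import Mathlib
import Cfsg.Prelude.Def_Characters
import Cfsg.Prelude.Def_Blocks
import Cfsg.Prelude.Def_BlockLocal
import Cfsg.Prelude.Def_BrauerPairs
import Cfsg.Agent.Lib_helper3_StabPair

set_option autoImplicit false
open Cfsg
open Cfsg.Agent.Lib_helper3_CharBasic Cfsg.Agent.Lib_helper3_CharMore
  Cfsg.Agent.Lib_helper3_Local Cfsg.Agent.Lib_helper3_Local2 Cfsg.Agent.Lib_helper3_BlockAlg
  Cfsg.Agent.Lib_helper3_IdemSupp Cfsg.Agent.Lib_helper3_Residue
  Cfsg.Agent.Lib_helper3_BrauerHom Cfsg.Agent.Lib_helper3_BrauerHom2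
  Cfsg.Agent.Lib_helper3_BrauerHom3 Cfsg.Agent.Lib_helper3_ExtFirstMain
  Cfsg.Agent.Lib_helper3_BrauerPair Cfsg.Agent.Lib_helper3_NilPrincipal
  Cfsg.Agent.Lib_helper3_PrincipalPairs Cfsg.Agent.Lib_helper3_BrauerTrunc
  Cfsg.Agent.Lib_helper3_CharInd Cfsg.Agent.Lib_helper3_SecondMain3
  Cfsg.Agent.Lib_helper3_SubpairBlock Cfsg.Agent.Lib_helper3_NormalSubpair
  Cfsg.Agent.Lib_helper3_BlockCover Cfsg.Agent.Lib_helper3_BlockInd
  Cfsg.Agent.Lib_helper3_ThirdMain Cfsg.Agent.Lib_helper3_StableBlock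
  Cfsg.Agent.Lib_helper3_NormalPTrace Cfsg.Agent.Lib_helper3_SubpairUnique
  Cfsg.Agent.Lib_helper3_MaxPair Cfsg.Agent.Lib_helper3_ConjPair
  Cfsg.Agent.Lib_helper3_CentPair Cfsg.Agent.Lib_helper3_StabPair
open scoped ComplexConjugate

namespace Cfsg.Agent.Lib_helper3_AbPair

attribute [local instance] Ideal.Quotient.field

universe u

section Grp

variable {G : Type u} [Group G]

/-- Second isomorphism theorem counting for a factorization `TQ = (TP ∩ N) C`. -/
theorem index_eq_of_factor (TQ TP N C : Subgroup G) (hCN : C ≤ N)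
    (hNC : N ≤ Subgroup.normalizer (C : Set G))
    (hA : TP ⊓ N ≤ TQ) (hC : C ≤ TQ) (hTQN : TQ ≤ N)
    (hfac : ∀ x ∈ TQ, ∃ y ∈ TP, ∃ c ∈ C, x = y * c) :
    (C.subgroupOf TQ).index = ((TP ⊓ C).subgroupOf (TP ⊓ N)).index := by
  have hsup : (TP ⊓ N) ⊔ C = TQ := by
    apply le_antisymm (sup_le hA hC)
    intro x hx
    obtain ⟨y, hy, c, hc, rfl⟩ := hfac x hx
    have hyN : y ∈ N := by
      have h1 : y * c ∈ N := hTQN hx
      have h2 := N.mul_mem h1 (N.inv_mem (hCN hc))
      rwa [mul_inv_cancel_right] at h2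
    exact Subgroup.mul_mem_sup ⟨hy, hyN⟩ hc
  have hLE : TP ⊓ N ≤ Subgroup.normalizer (C : Set G) := inf_le_right.trans hNC
  have := Subgroup.normal_subgroupOf_of_le_normalizer hLE
  have := Subgroup.normal_subgroupOf_sup_of_le_normalizer hLE
  have h1 : (C.subgroupOf ((TP ⊓ N) ⊔ C)).index = (C.subgroupOf (TP ⊓ N)).index :=
    (Nat.card_congr
      (QuotientGroup.quotientInfEquivProdNormalizerQuotient (TP ⊓ N) C hLE).toEquiv).symm
  have h2 : (TP ⊓ C).subgroupOf (TP ⊓ N) = C.subgroupOf (TP ⊓ N) := by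
    ext z
    rw [Subgroup.mem_subgroupOf, Subgroup.mem_subgroupOf]
    exact ⟨fun h => h.2, fun h => ⟨z.2.1, h⟩⟩
  rw [h2, ← h1, hsup]

theorem idx_mem (a b : BrauerPairIdx G) (h : a = b) :
    ∀ ξ ∈ a.2, ∃ ξ' ∈ b.2, ∀ (g : G) (hg : g ∈ Subgroup.centralizer (a.1 : Set G))
      (hg' : g ∈ Subgroup.centralizer (b.1 : Set G)),
      (ξ' : Subgroup.centralizer (b.1 : Set G) → ℂ) ⟨g, hg'⟩ =
        (ξ : Subgroup.centralizer (a.1 : Set G) → ℂ) ⟨g, hg⟩ := by
  subst h
  intro ξ hξ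
  exact ⟨ξ, hξ, fun g hg hg' => rfl⟩

end Grp

section Fin

variable {G : Type u} [Group G] [Fintype G] {M : Ideal AlgInt} {p : ℕ} [Fact p.Prime]

omit [Fact p.Prime] in
theorem cj_eq_of_stab (hM : IsPModular p M) (Q : Subgroup G)
    (f : Set (IrrCharacter (Subgroup.centralizer (Q : Set G)))) (hf : IsPBlock M f) (x : G)
    (hx : x ∈ Subgroup.normalizer (Q : Set G))
    (hst : StabilizesBlock (Subgroup.centralizer (Q : Set G)) f x) :
    cj x ⟨Q, f⟩ = (⟨Q, f⟩ : BrauerPairIdx G) := by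
  have : M.IsPrime := hM.2.1.isPrime
  have hMtop : M ≠ ⊤ := hM.2.1.ne_top
  obtain ⟨ξ₀, hξ₀⟩ := hf
  subst hξ₀
  obtain ⟨χ', hχ', hconj⟩ := hst.2 ξ₀ (mem_blockOf_self hMtop ξ₀)
  have h1 : conjBlock Q x (blockOf M (ξ₀ : Subgroup.centralizer (Q : Set G) → ℂ)) =
      blockOf M ((⟨(ξ₀ : Subgroup.centralizer (Q : Set G) → ℂ) ∘ cIso Q x,
        isIrrCharacter_comp_equiv _ ξ₀.2⟩ : IrrCharacter (Subgroup.centralizer
          ((Q.map (MulAut.conj x).toMonoidHom : Subgroup G) : Set G))) : _ → ℂ) := by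
    rw [conjBlock_eq, transport_blockOf]
  show (⟨Q.map (MulAut.conj x).toMonoidHom,
      conjBlock Q x (blockOf M (ξ₀ : Subgroup.centralizer (Q : Set G) → ℂ))⟩ :
      BrauerPairIdx G) =
    ⟨Q, blockOf M (ξ₀ : Subgroup.centralizer (Q : Set G) → ℂ)⟩
  rw [h1, ← blockOf_eq_of_mem hχ']
  apply idx_blockOf_ext
  · exact map_conj_eq_of_mem_normalizer Q x hx
  · intro g hg hg'
    exact (hconj (cIso Q x ⟨g, hg'⟩) ⟨g, hg⟩ (by
      rw [cIso_coe]
      show g = x * (x⁻¹ * g * x) * x⁻¹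
      group)).symm

omit [Fact p.Prime] in
theorem stab_of_cj_eq (P : Subgroup G)
    (e : Set (IrrCharacter (Subgroup.centralizer (P : Set G)))) (y : G)
    (h : cj y ⟨P, e⟩ = (⟨P, e⟩ : BrauerPairIdx G)) :
    y ∈ Subgroup.normalizer (P : Set G) ∧
      StabilizesBlock (Subgroup.centralizer (P : Set G)) e y := by
  have hP : P.map (MulAut.conj y).toMonoidHom = P := congrArg Sigma.fst h
  have hy : y ∈ Subgroup.normalizer (P : Set G) := by
    rw [Subgroup.mem_normalizer_iff]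
    intro g
    have h1 := mem_map_conj P y (y * g * y⁻¹)
    rw [hP] at h1
    have h2 : y⁻¹ * (y * g * y⁻¹) * y = g := by group
    rw [h2] at h1
    exact h1.symm
  refine ⟨hy, mem_normalizer_centralizer P hy, ?_⟩
  intro χ hχ
  have hmem : (⟨(χ : Subgroup.centralizer (P : Set G) → ℂ) ∘ cIso P y,
      isIrrCharacter_comp_equiv _ χ.2⟩ : IrrCharacter (Subgroup.centralizer
        ((P.map (MulAut.conj y).toMonoidHom : Subgroup G) : Set G))) ∈
      (cj y ⟨P, e⟩).2 := by
    show _ ∈ conjBlock P y e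
    rw [conjBlock_eq]
    exact ⟨χ, hχ, rfl⟩
  obtain ⟨ξ', hξ', hval⟩ := idx_mem _ _ h _ hmem
  refine ⟨ξ', hξ', ?_⟩
  intro k k' hk
  have hk2 : y⁻¹ * (k' : G) * y = (k : G) := by
    rw [hk]
    group
  have hk3 : (k' : G) ∈ Subgroup.centralizer
      ((P.map (MulAut.conj y).toMonoidHom : Subgroup G) : Set G) :=
    (mem_centralizer_map_conj P y (k' : G)).mpr (by
      rw [hk2]
      exact k.2)
  have h3 := hval (k' : G) hk3 k'.2
  have h4 : (ξ' : Subgroup.centralizer (P : Set G) → ℂ) k' =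
      (χ : Subgroup.centralizer (P : Set G) → ℂ) (cIso P y ⟨(k' : G), hk3⟩) := h3
  rw [h4]
  refine congrArg (χ : Subgroup.centralizer (P : Set G) → ℂ) (Subtype.ext ?_)
  rw [cIso_coe]
  exact hk2

/-- The pair of `G` attached to a pair of the group `C_G(Q)`. -/
def lift (Q : Subgroup G) (a : BrauerPairIdx ↥(Subgroup.centralizer (Q : Set G))) :
    BrauerPairIdx G :=
  ⟨Q ⊔ a.1.map (Subgroup.centralizer (Q : Set G)).subtype, transportSet (kIso Q a.1).symm a.2⟩

omit [Fact p.Prime] in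
theorem lift_cj (Q : Subgroup G) (c : ↥(Subgroup.centralizer (Q : Set G)))
    (D : Subgroup ↥(Subgroup.centralizer (Q : Set G)))
    (θ : IrrCharacter ↥(Subgroup.centralizer (D : Set ↥(Subgroup.centralizer (Q : Set G))))) :
    lift Q (cj c ⟨D, blockOf M
        (θ : Subgroup.centralizer (D : Set ↥(Subgroup.centralizer (Q : Set G))) → ℂ)⟩) =
      cj (c : G) (lift Q ⟨D, blockOf M
        (θ : Subgroup.centralizer (D : Set ↥(Subgroup.centralizer (Q : Set G))) → ℂ)⟩) := by
  classical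
  have instC : Fintype (Subgroup.centralizer (Q : Set G)) := Fintype.ofFinite _
  have h1 : conjBlock D c (blockOf M
        (θ : Subgroup.centralizer (D : Set ↥(Subgroup.centralizer (Q : Set G))) → ℂ)) =
      blockOf M ((⟨(θ : Subgroup.centralizer
          (D : Set ↥(Subgroup.centralizer (Q : Set G))) → ℂ) ∘ cIso D c,
        isIrrCharacter_comp_equiv _ θ.2⟩ : IrrCharacter (Subgroup.centralizer
          ((D.map (MulAut.conj c).toMonoidHom : Subgroup ↥(Subgroup.centralizer (Q : Set G))) :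
            Set ↥(Subgroup.centralizer (Q : Set G))))) : _ → ℂ) := by
    rw [conjBlock_eq, transport_blockOf]
  have h2 : transportSet (kIso Q D).symm (blockOf M
        (θ : Subgroup.centralizer (D : Set ↥(Subgroup.centralizer (Q : Set G))) → ℂ)) =
      blockOf M ((⟨(θ : Subgroup.centralizer
          (D : Set ↥(Subgroup.centralizer (Q : Set G))) → ℂ) ∘ (kIso Q D).symm,
        isIrrCharacter_comp_equiv _ θ.2⟩ : IrrCharacter (Subgroup.centralizer
          ((Q ⊔ D.map (Subgroup.centralizer (Q : Set G)).subtype : Subgroup G) : Set G))) :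
            _ → ℂ) := by
    rw [transport_blockOf]
  show (⟨Q ⊔ (D.map (MulAut.conj c).toMonoidHom).map (Subgroup.centralizer (Q : Set G)).subtype,
      transportSet (kIso Q (D.map (MulAut.conj c).toMonoidHom)).symm
        (conjBlock D c (blockOf M
          (θ : Subgroup.centralizer (D : Set ↥(Subgroup.centralizer (Q : Set G))) → ℂ)))⟩ :
      BrauerPairIdx G) =
    ⟨(Q ⊔ D.map (Subgroup.centralizer (Q : Set G)).subtype).map
        (MulAut.conj (c : G)).toMonoidHom,
      conjBlock (Q ⊔ D.map (Subgroup.centralizer (Q : Set G)).subtype) (c : G)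
        (transportSet (kIso Q D).symm (blockOf M
          (θ : Subgroup.centralizer (D : Set ↥(Subgroup.centralizer (Q : Set G))) → ℂ)))⟩
  rw [h1, transport_blockOf, h2, conjBlock_eq, transport_blockOf]
  apply idx_blockOf_ext
  · rw [Subgroup.map_sup, map_conj_eq_of_mem_normalizer Q (c : G)
      (Cfsg.Agent.Lib_helper3_FirstMain.centralizer_le_normalizer' Q c.2),
      Subgroup.map_map, Subgroup.map_map]
    rfl
  · intro g hg hg'
    show (θ : Subgroup.centralizer (D : Set ↥(Subgroup.centralizer (Q : Set G))) → ℂ) _ =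
      (θ : Subgroup.centralizer (D : Set ↥(Subgroup.centralizer (Q : Set G))) → ℂ) _
    refine congrArg
      (θ : Subgroup.centralizer (D : Set ↥(Subgroup.centralizer (Q : Set G))) → ℂ)
      (Subtype.ext (Subtype.ext ?_))
    rfl

omit [Fact p.Prime] in
theorem exists_lift (Q : Subgroup G) (f : Set (IrrCharacter (Subgroup.centralizer (Q : Set G))))
    (D : Subgroup ↥(Subgroup.centralizer (Q : Set G))) (hD : IsPGroup p D) (S : Subgroup G)
    (hS : Q ⊔ D.map (Subgroup.centralizer (Q : Set G)).subtype = S)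
    (h : Set (IrrCharacter (Subgroup.centralizer (S : Set G))))
    (hn : IsNormalSubpair p M Q f S h) :
    ∃ h' : Set (IrrCharacter
        (Subgroup.centralizer (D : Set ↥(Subgroup.centralizer (Q : Set G))))),
      IsBrauerPairOf p M f D h' ∧ lift Q ⟨D, h'⟩ = (⟨S, h⟩ : BrauerPairIdx G) := by
  subst hS
  refine ⟨transportSet (kIso Q D) h, brauerPairOf_of_normal Q D f h hn hD, ?_⟩
  show (⟨Q ⊔ D.map (Subgroup.centralizer (Q : Set G)).subtype,
      transportSet (kIso Q D).symm (transportSet (kIso Q D) h)⟩ : BrauerPairIdx G) = ⟨_, h⟩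
  have h1 := transport_symm_cancel (kIso Q D).symm h
  rw [MulEquiv.symm_symm] at h1
  rw [h1]

/-- Pairs of the block `f` of `C_G(Q)` are no larger than a maximal pair of `B` above `(Q, f)`. -/
theorem card_le_of_cent_pair (hM : IsPModular p M) (B : Set (IrrCharacter G)) (P Q : Subgroup G)
    (e : Set (IrrCharacter (Subgroup.centralizer (P : Set G))))
    (f : Set (IrrCharacter (Subgroup.centralizer (Q : Set G))))
    (hmax : IsMaximalBrauerPair p M B P e) (hle : SubpairLE p M Q f P e)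
    (R : Subgroup ↥(Subgroup.centralizer (Q : Set G)))
    (g : Set (IrrCharacter (Subgroup.centralizer (R : Set ↥(Subgroup.centralizer (Q : Set G))))))
    (hRg : IsBrauerPairOf p M f R g) : Nat.card R ≤ Nat.card P := by
  classical
  have hPe : IsBrauerPair p M P e := hmax.1.1
  have hQf : IsBrauerPair p M Q f := chain_brauerPair ⟨Q, f⟩ ⟨P, e⟩ hle hPe
  have hBQf : IsBrauerPairOf p M B Q f :=
    (brauerPairOf_iff_of_subpairLE hM P Q e f hle B).mp hmax.1
  obtain ⟨g', hg'⟩ : ∃ g' : Set (IrrCharacter (Subgroup.centralizer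
      ((Q ⊔ R.map (Subgroup.centralizer (Q : Set G)).subtype : Subgroup G) : Set G))),
      g' = transportSet (kIso Q R).symm g := ⟨_, rfl⟩
  have hg'b : IsPBlock M g' := by
    rw [hg']
    exact isPBlock_transport _ hRg.1.2
  have hback : transportSet (kIso Q R) g' = g := by
    rw [hg']
    exact transport_symm_cancel _ g
  have hn : IsNormalSubpair p M Q f
      (Q ⊔ R.map (Subgroup.centralizer (Q : Set G)).subtype) g' :=
    normal_of_brauerPairOf Q hQf.1 R f g' hg'b (by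
      rw [hback]
      exact hRg)
  have hSB : IsBrauerPairOf p M B
      (Q ⊔ R.map (Subgroup.centralizer (Q : Set G)).subtype) g' :=
    brauerPairOf_of_normalSubpair hM _ Q g' f hn B hBQf
  obtain ⟨x, hx⟩ := conj_into_maximal hM B P
    (Q ⊔ R.map (Subgroup.centralizer (Q : Set G)).subtype) e g' hmax hSB
  have hSxP : (Q ⊔ R.map (Subgroup.centralizer (Q : Set G)).subtype).map
      (MulAut.conj x).toMonoidHom ≤ P := chain_le ⟨_, conjBlock _ x g'⟩ ⟨P, e⟩ hx
  have h1 := Subgroup.card_le_of_le ((Subgroup.map_mono le_sup_right).trans hSxP)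
  rw [Subgroup.card_map_of_injective (MulEquiv.injective _),
    Subgroup.card_map_of_injective (Subgroup.subtype_injective _)] at h1
  exact h1

/-- Two maximal pairs of `B` above `(Q, f)` whose subgroups centralize `Q` are conjugate under
`C_G(Q)`. -/
theorem conj_above (hM : IsPModular p M) (B : Set (IrrCharacter G)) (P Q : Subgroup G)
    (e : Set (IrrCharacter (Subgroup.centralizer (P : Set G))))
    (f : Set (IrrCharacter (Subgroup.centralizer (Q : Set G))))
    (hmax : IsMaximalBrauerPair p M B P e) (hle : SubpairLE p M Q f P e)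
    (hPC : P ≤ Subgroup.centralizer (Q : Set G)) (P₂ : Subgroup G)
    (e₂ : Set (IrrCharacter (Subgroup.centralizer (P₂ : Set G))))
    (hb : IsBrauerPair p M P₂ e₂) (hleb : SubpairLE p M Q f P₂ e₂)
    (hbC : P₂ ≤ Subgroup.centralizer (Q : Set G)) (hcard : Nat.card P₂ = Nat.card P) :
    ∃ c : G, c ∈ Subgroup.centralizer (Q : Set G) ∧
      cj c ⟨P₂, e₂⟩ = (⟨P, e⟩ : BrauerPairIdx G) := by
  classical
  have instC : Fintype (Subgroup.centralizer (Q : Set G)) := Fintype.ofFinite _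
  have hPe : IsBrauerPair p M P e := hmax.1.1
  have hCN := Cfsg.Agent.Lib_helper3_FirstMain.centralizer_le_normalizer' Q
  have hQP : Q ≤ P := chain_le ⟨Q, f⟩ ⟨P, e⟩ hle
  have hn₁ : IsNormalSubpair p M Q f P e :=
    normalSubpair_of_chain hM P Q e f hle hPe (hPC.trans hCN)
  have hS₁ : Q ⊔ (P.subgroupOf (Subgroup.centralizer (Q : Set G))).map
      (Subgroup.centralizer (Q : Set G)).subtype = P := by
    rw [Subgroup.map_subgroupOf_eq_of_le hPC]
    exact sup_eq_right.mpr hQP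
  have hD₁p : IsPGroup p (P.subgroupOf (Subgroup.centralizer (Q : Set G))) :=
    hPe.1.comap_subtype
  obtain ⟨h₁, hpair₁, hlift₁⟩ := exists_lift Q f _ hD₁p P hS₁ e hn₁
  have hcard₁ : Nat.card (P.subgroupOf (Subgroup.centralizer (Q : Set G))) = Nat.card P :=
    Nat.card_congr (Subgroup.subgroupOfEquivOfLe hPC).toEquiv
  have hmax₁ : IsMaximalBrauerPair p M f (P.subgroupOf (Subgroup.centralizer (Q : Set G)))
      h₁ := by
    refine ⟨hpair₁, ?_⟩
    intro R g hRg hleR
    have h1 : P.subgroupOf (Subgroup.centralizer (Q : Set G)) ≤ R :=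
      chain_le ⟨_, h₁⟩ ⟨R, g⟩ hleR
    have h2 := card_le_of_cent_pair hM B P Q e f hmax hle R g hRg
    exact (Subgroup.eq_of_le_of_card_ge h1 (by
      rw [hcard₁]
      exact h2)).symm
  have hQP₂ : Q ≤ P₂ := chain_le ⟨Q, f⟩ ⟨P₂, e₂⟩ hleb
  have hn₂ : IsNormalSubpair p M Q f P₂ e₂ :=
    normalSubpair_of_chain hM P₂ Q e₂ f hleb hb (hbC.trans hCN)
  have hS₂ : Q ⊔ (P₂.subgroupOf (Subgroup.centralizer (Q : Set G))).map
      (Subgroup.centralizer (Q : Set G)).subtype = P₂ := by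
    rw [Subgroup.map_subgroupOf_eq_of_le hbC]
    exact sup_eq_right.mpr hQP₂
  have hD₂p : IsPGroup p (P₂.subgroupOf (Subgroup.centralizer (Q : Set G))) :=
    hb.1.comap_subtype
  obtain ⟨h₂, hpair₂, hlift₂⟩ := exists_lift Q f _ hD₂p P₂ hS₂ e₂ hn₂
  have hcard₂ : Nat.card (P₂.subgroupOf (Subgroup.centralizer (Q : Set G))) = Nat.card P₂ :=
    Nat.card_congr (Subgroup.subgroupOfEquivOfLe hbC).toEquiv
  obtain ⟨c, hc⟩ := conj_into_maximal hM f _ _ h₁ h₂ hmax₁ hpair₂
  have hle₃ : (P₂.subgroupOf (Subgroup.centralizer (Q : Set G))).map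
      (MulAut.conj c).toMonoidHom ≤ P.subgroupOf (Subgroup.centralizer (Q : Set G)) :=
    chain_le ⟨_, conjBlock _ c h₂⟩ ⟨_, h₁⟩ hc
  have heq₃ := Subgroup.eq_of_le_of_card_ge hle₃ (by
    rw [Subgroup.card_map_of_injective (MulEquiv.injective _), hcard₁, hcard₂]
    exact hcard.symm.le)
  have hpairEq : cj c ⟨P₂.subgroupOf (Subgroup.centralizer (Q : Set G)), h₂⟩ =
      (⟨P.subgroupOf (Subgroup.centralizer (Q : Set G)), h₁⟩ :
        BrauerPairIdx ↥(Subgroup.centralizer (Q : Set G))) :=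
    chain_eq_of_le hM _ _ hc (le_of_eq heq₃.symm)
  obtain ⟨θ, hθ⟩ := hpair₂.1.2
  subst hθ
  have h5 := congrArg (lift Q) hpairEq
  rw [lift_cj, hlift₁, hlift₂] at h5
  exact ⟨(c : G), c.2, h5⟩

/-- Abelian maximal pair: the stabilizer of a subpair is covered by the stabilizer of the maximal
pair and the centralizer. -/
theorem stab_factor (hM : IsPModular p M) (B : Set (IrrCharacter G)) (P : Subgroup G)
    (e : Set (IrrCharacter (Subgroup.centralizer (P : Set G))))
    (hmax : IsMaximalBrauerPair p M B P e) (hab : ∀ x ∈ P, ∀ y ∈ P, x * y = y * x)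
    (Q : Subgroup G) (f : Set (IrrCharacter (Subgroup.centralizer (Q : Set G))))
    (hf : IsPBlock M f) (hle : SubpairLE p M Q f P e) (x : G)
    (hx : x ∈ Subgroup.normalizer (Q : Set G))
    (hst : StabilizesBlock (Subgroup.centralizer (Q : Set G)) f x) :
    ∃ y : G, (y ∈ Subgroup.normalizer (P : Set G) ∧
        StabilizesBlock (Subgroup.centralizer (P : Set G)) e y) ∧
      ∃ c ∈ Subgroup.centralizer (Q : Set G), x = y * c := by
  classical
  have hPe : IsBrauerPair p M P e := hmax.1.1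
  have hQP : Q ≤ P := chain_le ⟨Q, f⟩ ⟨P, e⟩ hle
  have hPC : P ≤ Subgroup.centralizer (Q : Set G) := by
    intro y hy
    rw [Subgroup.mem_centralizer_iff]
    intro q hq
    exact hab q (hQP hq) y hy
  have hfix := cj_eq_of_stab hM Q f hf x hx hst
  have hleb : Relation.ReflTransGen (NormalSubpairRel p M) ⟨Q, f⟩ (cj x ⟨P, e⟩) := by
    have h1 := subpairLE_conj (p := p) (M := M) x _ _ hle
    rw [hfix] at h1
    exact h1
  have hQPx : Q ≤ P.map (MulAut.conj x).toMonoidHom := chain_le _ _ hleb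
  have hPxC : P.map (MulAut.conj x).toMonoidHom ≤ Subgroup.centralizer (Q : Set G) := by
    intro y hy
    rw [Subgroup.mem_centralizer_iff]
    intro q hq
    have h1 := (mem_map_conj P x y).mp hy
    have h2 := (mem_map_conj P x q).mp (hQPx hq)
    have h3 := hab _ h2 _ h1
    calc q * y = x * ((x⁻¹ * q * x) * (x⁻¹ * y * x)) * x⁻¹ := by group
      _ = x * ((x⁻¹ * y * x) * (x⁻¹ * q * x)) * x⁻¹ := by rw [h3]
      _ = y * q := by group
  have hPx : IsBrauerPair p M (P.map (MulAut.conj x).toMonoidHom) (conjBlock P x e) :=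
    (brauerPairOf_conj x B P e hmax.1).1
  obtain ⟨c, hc, hcj⟩ := conj_above hM B P Q e f hmax hle hPC
    (P.map (MulAut.conj x).toMonoidHom) (conjBlock P x e) hPx hleb hPxC
    (Subgroup.card_map_of_injective (MulEquiv.injective _))
  obtain ⟨ξ, hξ⟩ := hPe.2
  subst hξ
  have hcj' : cj c (cj x ⟨P, blockOf M (ξ : Subgroup.centralizer (P : Set G) → ℂ)⟩) =
      ⟨P, blockOf M (ξ : Subgroup.centralizer (P : Set G) → ℂ)⟩ := hcj
  rw [cj_cj] at hcj'
  have hy := stab_of_cj_eq P _ (c * x) hcj'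
  refine ⟨c * x, hy, x⁻¹ * c⁻¹ * x, ?_, by group⟩
  rw [Subgroup.mem_centralizer_iff]
  intro q hq
  have h1 : x * q * x⁻¹ ∈ Q := (Subgroup.mem_normalizer_iff.mp hx q).mp hq
  have h2 := Subgroup.mem_centralizer_iff.mp (Subgroup.inv_mem _ hc) _ h1
  calc q * (x⁻¹ * c⁻¹ * x) = x⁻¹ * ((x * q * x⁻¹) * c⁻¹) * x := by group
    _ = x⁻¹ * (c⁻¹ * (x * q * x⁻¹)) * x := by rw [h2]
    _ = x⁻¹ * c⁻¹ * x * q := by group

theorem eq_of_le_same (hM : IsPModular p M) (P : Subgroup G)
    (e : Set (IrrCharacter (Subgroup.centralizer (P : Set G)))) (hPe : IsBrauerPair p M P e)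
    (Q : Subgroup G) (f : Set (IrrCharacter (Subgroup.centralizer (Q : Set G))))
    (hle : SubpairLE p M Q f P e) (a : BrauerPairIdx G) (ha : a.1 = Q)
    (hale : Relation.ReflTransGen (NormalSubpairRel p M) a ⟨P, e⟩) : a = ⟨Q, f⟩ := by
  obtain ⟨Q', f'⟩ := a
  have ha' : Q' = Q := ha
  subst ha'
  have h1 : f' = f := subpair_unique hM P e hPe _ f' f hale hle
  rw [h1]

/-- An element stabilizing `(P, e)` and normalizing `Q` stabilizes the subpair on `Q`. -/
theorem stab_of_stab_above (hM : IsPModular p M) (P : Subgroup G)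
    (e : Set (IrrCharacter (Subgroup.centralizer (P : Set G)))) (hPe : IsBrauerPair p M P e)
    (Q : Subgroup G) (f : Set (IrrCharacter (Subgroup.centralizer (Q : Set G))))
    (hle : SubpairLE p M Q f P e) (y : G) (hyP : y ∈ Subgroup.normalizer (P : Set G))
    (hst : StabilizesBlock (Subgroup.centralizer (P : Set G)) e y)
    (hyQ : y ∈ Subgroup.normalizer (Q : Set G)) :
    StabilizesBlock (Subgroup.centralizer (Q : Set G)) f y := by
  have h1 := cj_eq_of_stab hM P e hPe.2 y hyP hst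
  have h2 := subpairLE_conj (p := p) (M := M) y _ _ hle
  rw [h1] at h2
  have h3 := eq_of_le_same hM P e hPe Q f hle (cj y ⟨Q, f⟩)
    (map_conj_eq_of_mem_normalizer Q y hyQ) h2
  exact (stab_of_cj_eq Q f y h3).2

end Fin

end Cfsg.Agent.Lib_helper3_AbPair
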