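import Cfsg.Prelude.Def_Characters
import Cfsg.Agent.Lib_helper3_GenChar
import Cfsg.Agent.Lib_helper3_AbInd
import Cfsg.Agent.Lib_helper3_Ito2
import Cfsg.Agent.Lib_helper3_Transfer
import Cfsg.Agent.Lib_helper3_Monomial
import Mathlib.GroupTheory.SpecificGroups.Cyclic.Basic

set_option autoImplicit false
open Cfsg
open Cfsg.Agent.Lib_helper3_CharBasic Cfsg.Agent.Lib_helper3_CharInd
  Cfsg.Agent.Lib_helper3_CharMore Cfsg.Agent.Lib_helper3_GenChar
  Cfsg.Agent.Lib_helper3_AbInd Cfsg.Agent.Lib_helper3_Ito2 Cfsg.Agent.Lib_helper3_Transfer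

namespace Cfsg.Agent.Lib_helper3_Artin

universe u

open Classical in
/-- The function equal to `|A|` on the generators of `A` and `0` elsewhere. -/
noncomputable def genFun (A : Type u) [Group A] : A → ℂ :=
  fun a => if Subgroup.zpowers a = ⊤ then (Nat.card A : ℂ) else 0

section Basic

variable {G : Type u} [Group G]

theorem zpowers_coe_eq_top_iff (A : Subgroup G) (a : A) :
    Subgroup.zpowers a = ⊤ ↔ Subgroup.zpowers (a : G) = A := by
  constructor
  · intro h
    have h1 : (Subgroup.zpowers a).map A.subtype = Subgroup.zpowers (a : G) :=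
      MonoidHom.map_zpowers A.subtype a
    rw [← h1, h, ← MonoidHom.range_eq_map, Subgroup.range_subtype]
  · intro h
    rw [eq_top_iff]
    intro x _
    have hx : (x : G) ∈ Subgroup.zpowers (a : G) := by
      rw [h]
      exact x.2
    obtain ⟨i, hi⟩ := Subgroup.mem_zpowers_iff.mp hx
    exact Subgroup.mem_zpowers_iff.mpr ⟨i, Subtype.ext (by rw [Subgroup.coe_zpow]; exact hi)⟩

theorem zpowers_conj_eq_top_iff (x y : G) :
    Subgroup.zpowers (y⁻¹ * x * y) = ⊤ ↔ Subgroup.zpowers x = ⊤ := by
  have hc : ∀ i : ℤ, (y⁻¹ * x * y) ^ i = y⁻¹ * x ^ i * y := by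
    intro i
    have h := conj_zpow (i := i) (a := y⁻¹) (b := x)
    rw [inv_inv] at h
    exact h
  constructor
  · intro h
    rw [eq_top_iff]
    intro a _
    have h1 : y⁻¹ * a * y ∈ Subgroup.zpowers (y⁻¹ * x * y) := by
      rw [h]
      trivial
    obtain ⟨i, hi⟩ := Subgroup.mem_zpowers_iff.mp h1
    rw [hc] at hi
    refine Subgroup.mem_zpowers_iff.mpr ⟨i, ?_⟩
    calc x ^ i = y * (y⁻¹ * x ^ i * y) * y⁻¹ := by group
      _ = y * (y⁻¹ * a * y) * y⁻¹ := by rw [hi]
      _ = a := by group
  · intro h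
    rw [eq_top_iff]
    intro a _
    have h1 : y * a * y⁻¹ ∈ Subgroup.zpowers x := by
      rw [h]
      trivial
    obtain ⟨i, hi⟩ := Subgroup.mem_zpowers_iff.mp h1
    refine Subgroup.mem_zpowers_iff.mpr ⟨i, ?_⟩
    rw [hc, hi]
    group

theorem extend_genFun (A : Subgroup G) (g : G) [Decidable (Subgroup.zpowers g = A)] :
    extendByZero A (genFun A) g = if Subgroup.zpowers g = A then (Nat.card A : ℂ) else 0 := by
  by_cases hg : g ∈ A
  · rw [extendByZero_mem A _ hg]
    unfold genFun
    by_cases h : Subgroup.zpowers g = A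
    · rw [if_pos h, if_pos ((zpowers_coe_eq_top_iff A ⟨g, hg⟩).mpr h)]
    · rw [if_neg h, if_neg (fun h' => h ((zpowers_coe_eq_top_iff A ⟨g, hg⟩).mp h'))]
  · rw [extendByZero_not_mem A _ hg, if_neg]
    intro h
    apply hg
    rw [← h]
    exact Subgroup.mem_zpowers g

theorem sum_ind_genFun [Fintype G] [Fintype (Subgroup G)] :
    ∑ A : Subgroup G, indFun A (genFun A) = fun _ => (Nat.card G : ℂ) := by
  classical
  funext x
  rw [Finset.sum_apply]
  have h1 : ∀ A : Subgroup G, indFun A (genFun A) x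
      = ∑ y : G, if Subgroup.zpowers (y⁻¹ * x * y) = A then (1 : ℂ) else 0 := by
    intro A
    rw [indFun_apply, Finset.mul_sum]
    apply Finset.sum_congr rfl
    intro y _
    rw [extend_genFun]
    have hA := card_subgroup_ne_zero A
    split_ifs
    · field_simp
    · simp
  rw [Finset.sum_congr rfl (fun A _ => h1 A), Finset.sum_comm]
  simp [Nat.card_eq_fintype_card]

end Basic


section Gen

theorem ind_top_genFun (A : Type u) [Group A] [Fintype A] :
    indFun (⊤ : Subgroup A) (genFun (⊤ : Subgroup A)) = genFun A := by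
  classical
  funext x
  rw [indFun_apply]
  have h1 : ∀ y : A, extendByZero (⊤ : Subgroup A) (genFun (⊤ : Subgroup A)) (y⁻¹ * x * y)
      = genFun A x := by
    intro y
    rw [extend_genFun]
    unfold genFun
    by_cases h : Subgroup.zpowers x = ⊤
    · rw [if_pos h, if_pos ((zpowers_conj_eq_top_iff x y).mpr h), Subgroup.card_top]
    · rw [if_neg h, if_neg (fun h' => h ((zpowers_conj_eq_top_iff x y).mp h'))]
  rw [Finset.sum_congr rfl (fun y _ => h1 y), Finset.sum_const, Finset.card_univ,
    Subgroup.card_top, Nat.card_eq_fintype_card, nsmul_eq_mul, ← mul_assoc]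
  have h2 : (Fintype.card A : ℂ) ≠ 0 := by
    exact_mod_cast Fintype.card_ne_zero
  rw [inv_mul_cancel₀ h2, one_mul]

/-- The generator function is a generalized character. -/
theorem isGen_genFun_aux (n : ℕ) : ∀ (A : Type u) [Group A] [Fintype A], Nat.card A ≤ n →
    IsGeneralizedCharacter A (genFun A) := by
  induction n with
  | zero =>
    intro A _ _ h
    have := Nat.card_pos (α := A)
    omega
  | succ n ih =>
    intro A _ _ hcard
    classical
    have := Fintype.ofFinite (Subgroup A)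
    have h := sum_ind_genFun (G := A)
    rw [← Finset.add_sum_erase Finset.univ _ (Finset.mem_univ (⊤ : Subgroup A)),
      ind_top_genFun] at h
    have h2 : genFun A = (fun _ : A => (Nat.card A : ℂ))
        - ∑ B ∈ Finset.univ.erase (⊤ : Subgroup A), indFun B (genFun B) := by
      rw [eq_sub_iff_add_eq]
      exact h
    rw [h2]
    apply isGen_sub
    · have h3 : (fun _ : A => (Nat.card A : ℂ)) = (Nat.card A : ℂ) • (fun _ : A => (1 : ℂ)) := by
        funext a
        simp
      rw [h3]
      exact isGen_natCast_smul _ (isGen_of_char isCharacter_one)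
    · apply isGen_sum
      intro B hB
      have hB' : B ≠ ⊤ := Finset.ne_of_mem_erase hB
      have := Fintype.ofFinite B
      apply isGen_ind
      apply ih B
      have h1 : Nat.card B < Nat.card A := by
        by_contra hlt
        exact hB' (Subgroup.eq_top_of_le_card B (not_lt.1 hlt))
      omega

theorem isGen_genFun (A : Type u) [Group A] [Fintype A] : IsGeneralizedCharacter A (genFun A) :=
  isGen_genFun_aux (Nat.card A) A le_rfl

end Gen

section Abelian

variable {A : Type u} [Group A] [Finite A]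

omit [Finite A] in
theorem exists_list_hom (l : List (A → ℂ))
    (h : ∀ ψ ∈ l, ∃ μ : A →* ℂˣ, ψ = fun a => ((μ a : ℂˣ) : ℂ)) :
    ∃ l' : List (A →* ℂˣ), l.sum = (l'.map fun μ => (fun a => ((μ a : ℂˣ) : ℂ))).sum := by
  induction l with
  | nil => exact ⟨[], rfl⟩
  | cons ψ l ih =>
    obtain ⟨μ, hμ⟩ := h ψ List.mem_cons_self
    obtain ⟨l', hl'⟩ := ih (fun ψ' hψ' => h ψ' (List.mem_cons_of_mem _ hψ'))
    refine ⟨μ :: l', ?_⟩
    rw [List.sum_cons, List.map_cons, List.sum_cons, hl', hμ]

theorem exists_hom_list_of_char (hcomm : ∀ a b : A, a * b = b * a) {f : A → ℂ}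
    (hf : IsCharacter A f) :
    ∃ l' : List (A →* ℂˣ), f = (l'.map fun μ => (fun a => ((μ a : ℂˣ) : ℂ))).sum := by
  have hc : IsMulCommutative A := ⟨⟨hcomm⟩⟩
  obtain ⟨l, hl, rfl⟩ := isCharacter_iff_list.mp hf
  apply exists_list_hom
  intro ψ hψ
  have h1 := norm_irr_of_comm (hl ψ hψ)
  exact exists_hom_of_linear (isCharacter_of_irr (hl ψ hψ)) h1.1

end Abelian

section Main

variable {G : Type u} [Group G] [Fintype G]

/-- The list form of Artin's theorem. -/
def IsArtin (f : G → ℂ) : Prop :=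
  ∃ l : List ((A : Subgroup G) × ((A →* ℂˣ) × ℤ)), (∀ t ∈ l, IsCyclic t.1) ∧
    f = (l.map fun t => (t.2.2 : ℂ) • indFun t.1 (fun a => (t.2.1 a : ℂ))).sum

theorem isArtin_zero : IsArtin (0 : G → ℂ) := ⟨[], by simp, by simp⟩

theorem isArtin_add {f g : G → ℂ} (hf : IsArtin f) (hg : IsArtin g) : IsArtin (f + g) := by
  obtain ⟨l₁, h₁, rfl⟩ := hf
  obtain ⟨l₂, h₂, rfl⟩ := hg
  refine ⟨l₁ ++ l₂, ?_, ?_⟩
  · intro t ht
    rcases List.mem_append.mp ht with h | h
    · exact h₁ t h
    · exact h₂ t h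
  · rw [List.map_append, List.sum_append]

theorem isArtin_ind_list (A : Subgroup G) (hA : IsCyclic A) (z : ℤ) (l : List (A →* ℂˣ)) :
    IsArtin ((z : ℂ) • indFun A (l.map fun μ => (fun a => ((μ a : ℂˣ) : ℂ))).sum) := by
  induction l with
  | nil =>
    simp only [List.map_nil, List.sum_nil]
    rw [indFun_zero, smul_zero]
    exact isArtin_zero
  | cons μ l ih =>
    rw [List.map_cons, List.sum_cons, indFun_add, smul_add]
    apply isArtin_add _ ih
    exact ⟨[⟨A, (μ, z)⟩], by
      intro t ht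
      rw [List.mem_singleton] at ht
      rw [ht]
      exact hA, by simp⟩

theorem isArtin_ind_of_isGen (A : Subgroup G) (hA : IsCyclic A) {f : A → ℂ}
    (hf : IsGeneralizedCharacter A f) : IsArtin (indFun A f) := by
  have hcomm : ∀ a b : A, a * b = b * a := by
    intro a b
    obtain ⟨g, hg⟩ := hA.exists_generator
    obtain ⟨i, rfl⟩ := Subgroup.mem_zpowers_iff.mp (hg a)
    obtain ⟨j, rfl⟩ := Subgroup.mem_zpowers_iff.mp (hg b)
    rw [← zpow_add, ← zpow_add, add_comm]
  obtain ⟨α, β, hα, hβ, rfl⟩ := hf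
  obtain ⟨l₁, rfl⟩ := exists_hom_list_of_char hcomm hα
  obtain ⟨l₂, rfl⟩ := exists_hom_list_of_char hcomm hβ
  have h1 := isArtin_ind_list A hA 1 l₁
  have h2 := isArtin_ind_list A hA (-1) l₂
  have h3 := isArtin_add h1 h2
  have h4 : ((1 : ℤ) : ℂ) • indFun A (l₁.map fun μ => (fun a => ((μ a : ℂˣ) : ℂ))).sum
      + ((-1 : ℤ) : ℂ) • indFun A (l₂.map fun μ => (fun a => ((μ a : ℂˣ) : ℂ))).sum
      = indFun A ((l₁.map fun μ => (fun a => ((μ a : ℂˣ) : ℂ))).sum
        - (l₂.map fun μ => (fun a => ((μ a : ℂˣ) : ℂ))).sum) := by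
    rw [indFun_sub]
    push_cast
    rw [one_smul, neg_one_smul, sub_eq_add_neg]
  rw [h4] at h3
  exact h3

/-- Artin's induction theorem. -/
theorem artin {χ : G → ℂ} (hχ : IsCharacter G χ) : IsArtin ((Nat.card G : ℂ) • χ) := by
  classical
  have := Fintype.ofFinite (Subgroup G)
  have h1 : (Nat.card G : ℂ) • χ
      = ∑ A : Subgroup G, indFun A (fun a : A => genFun A a * χ a) := by
    have h2 := sum_ind_genFun (G := G)
    have h3 : (Nat.card G : ℂ) • χ = (fun _ : G => (Nat.card G : ℂ)) * χ := by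
      funext x
      simp
    rw [h3, ← h2, Finset.sum_mul]
    apply Finset.sum_congr rfl
    intro A _
    have h4 := indFun_mul_restrict A (genFun A) (isClassFunction_of_isCharacter hχ)
    rw [h4]
    rfl
  rw [h1]
  apply Finset.sum_induction _ IsArtin (fun _ _ => isArtin_add) isArtin_zero
  intro A _
  by_cases hA : IsCyclic A
  · have := Fintype.ofFinite A
    apply isArtin_ind_of_isGen A hA
    exact isGen_mul_char (isCharacter_restrict A hχ) (isGen_genFun A)
  · have h0 : (fun a : A => genFun A a * χ a) = 0 := by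
      funext a
      unfold genFun
      rw [if_neg, zero_mul]
      · rfl
      · intro h
        exact hA (isCyclic_iff_exists_zpowers_eq_top.mpr ⟨a, h⟩)
    rw [h0, indFun_zero]
    exact isArtin_zero

end Main

end Cfsg.Agent.Lib_helper3_Artin
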