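import Mathlib
import Cfsg.Prelude.Def_Characters
import Cfsg.Prelude.Def_Blocks
import Cfsg.Agent.Lib_helper3_BrauerHom2
import Cfsg.Agent.Lib_helper3_DefectCard
import Cfsg.Agent.S0906
import Cfsg.Agent.S0911

set_option autoImplicit false
open Cfsg
open Cfsg.Agent.Lib_helper3_CharBasic Cfsg.Agent.Lib_helper3_CharMore
  Cfsg.Agent.Lib_helper3_Local Cfsg.Agent.Lib_helper3_Local2 Cfsg.Agent.Lib_helper3_BlockAlg
  Cfsg.Agent.Lib_helper3_IdemSupp Cfsg.Agent.Lib_helper3_Residue
  Cfsg.Agent.Lib_helper3_BrauerHom2 Cfsg.Agent.Lib_helper3_DefectCard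
open scoped ComplexConjugate

namespace Cfsg.Agent.Lib_helper3_BlockCount2

attribute [local instance] Ideal.Quotient.field

universe u

variable {G : Type u} [Group G] [Fintype G] {M : Ideal AlgInt} {p : ℕ} [Fact p.Prime]

/-- The blocks of defect exactly `d`. -/
abbrev BlockIdxE (M : Ideal AlgInt) (p d : ℕ) (G : Type u) [Group G] : Type u :=
  {B : Set (IrrCharacter G) // IsPBlock M B ∧ blockDefect p B = d}

/-- The `p`-regular classes of defect exactly `d`. -/
abbrev ClassIdxE (p d : ℕ) (G : Type u) [Group G] : Type u :=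
  {C : ConjClasses G // ∃ g : G, ConjClasses.mk g = C ∧ ¬ p ∣ orderOf g ∧
    (Nat.card (Subgroup.centralizer ({g} : Set G))).factorization p = d}

set_option synthInstance.maxHeartbeats 400000 in
set_option maxHeartbeats 1000000 in
/-- The number of blocks of defect exactly `d` is at most the number of `p`-regular classes of
defect exactly `d`. -/
theorem card_blocks_exact_le (hM : IsPModular p M) (d : ℕ) :
    Nat.card {B : Set (IrrCharacter G) // IsPBlock M B ∧ blockDefect p B = d} ≤
      Nat.card {C : ConjClasses G // ∃ g : G, ConjClasses.mk g = C ∧ ¬ p ∣ orderOf g ∧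
        (Nat.card (Subgroup.centralizer ({g} : Set G))).factorization p = d} := by
  classical
  have hp : p.Prime := Fact.out
  have hMm : M.IsMaximal := hM.2.1
  have hMp : M.IsPrime := hMm.isPrime
  have hfin := irr_finite (G := G)
  have := Fintype.ofFinite (IrrCharacter G)
  have := Fintype.ofFinite (ConjClasses G)
  have := Fintype.ofFinite (BlockIdxE M p d G)
  have := Fintype.ofFinite (ClassIdxE p d G)
  show Nat.card (BlockIdxE M p d G) ≤ Nat.card (ClassIdxE p d G)
  rw [Nat.card_eq_fintype_card, Nat.card_eq_fintype_card]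
  by_contra hlt
  push Not at hlt
  -- the vectors of reduced idempotent coefficients
  obtain ⟨v, hv⟩ : ∃ v : BlockIdxE M p d G → (ClassIdxE p d G → AlgInt ⧸ M),
      v = fun (B : BlockIdxE M p d G) (C : ClassIdxE p d G) =>
        res M (blockCoeff (B : Set (IrrCharacter G)) (Quotient.out (C : ConjClasses G))) :=
    ⟨_, rfl⟩
  have hdep : ¬ LinearIndependent (AlgInt ⧸ M) v := by
    intro hli
    have h1 := hli.fintype_card_le_finrank
    rw [Module.finrank_fintype_fun_eq_card] at h1
    omega
  obtain ⟨c, hc, B₀, hB₀⟩ := Fintype.not_linearIndependent_iff.mp hdep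
  choose a ha using fun B => Ideal.Quotient.mk_surjective (I := M) (c B)
  obtain ⟨u, hu⟩ : ∃ u : G → ℂ, u = fun g => ∑ B : BlockIdxE M p d G, ((a B : AlgInt) : ℂ) *
        blockCoeff (B : Set (IrrCharacter G)) g := ⟨_, rfl⟩
  have haR : ∀ B, MemLocalRing M ((a B : AlgInt) : ℂ) := fun B =>
    memLocalRing_of_algInt hMp.ne_top (a B).2
  have hucl : IsClassFunction G u := by
    rw [hu]
    intro g k
    apply Finset.sum_congr rfl
    intro B _
    rw [isClassFunction_blockCoeff (B : Set (IrrCharacter G)) g k]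
  have huR : ∀ g, MemLocalRing M (u g) := by
    intro g
    rw [hu]
    apply memLocalRing_sum
    intro B _
    exact memLocalRing_mul (haR B) (osima B.2.1 g)
  obtain ⟨χ₀, hχ₀⟩ := B₀.2.1
  have hχ₀B : χ₀ ∈ (B₀ : Set (IrrCharacter G)) := by
    rw [hχ₀]
    exact mem_blockOf_self hMp.ne_top χ₀
  -- the central character of `χ₀` at `u`
  have hom : Om (χ₀ : G → ℂ) u = ((a B₀ : AlgInt) : ℂ) := by
    rw [hu, om_sum]
    rw [Finset.sum_eq_single B₀]
    · have h1 : (fun g => ((a B₀ : AlgInt) : ℂ) * blockCoeff (B₀ : Set (IrrCharacter G)) g) =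
          ((a B₀ : AlgInt) : ℂ) • blockCoeff (B₀ : Set (IrrCharacter G)) := rfl
      rw [h1, om_smul, om_blockCoeff_of_mem hχ₀B, mul_one]
    · intro B _ hne
      have h1 : (fun g => ((a B : AlgInt) : ℂ) * blockCoeff (B : Set (IrrCharacter G)) g) =
          ((a B : AlgInt) : ℂ) • blockCoeff (B : Set (IrrCharacter G)) := rfl
      rw [h1, om_smul, om_blockCoeff_of_not_mem, mul_zero]
      intro hmem
      apply hne
      apply Subtype.ext
      obtain ⟨χ₁, hχ₁⟩ := B.2.1
      rw [hχ₁] at hmem
      rw [hχ₁, hχ₀, ← blockOf_eq_of_mem hmem]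
    · intro h
      exact absurd (Finset.mem_univ _) h
  have hnot : ¬ MemLocalIdeal M (Om (χ₀ : G → ℂ) u) := by
    rw [hom, ← res_eq_zero_iff (haR B₀), res_coe, ha B₀]
    exact hB₀
  apply hnot
  rw [om_eq_sum_conjClasses (isClassFunction_of_irr χ₀.2) hucl]
  apply memLocalIdeal_sum
  intro C _
  by_cases hreg : p ∣ orderOf (Quotient.out C)
  · have h1 : u (Quotient.out C) = 0 := by
      rw [hu]
      apply Finset.sum_eq_zero
      intro B _
      rw [blockCoeff_eq_zero_of_singular hM (fun g => osima B.2.1 g) _ hreg, mul_zero]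
    rw [h1, zero_mul]
    exact memLocalIdeal_zero hMp.ne_top
  · rcases lt_trichotomy ((Nat.card (Subgroup.centralizer
        ({Quotient.out C} : Set G))).factorization p) d with hdef | hdef | hdef
    · apply memLocalIdeal_mul_left (huR _)
      by_contra hcc
      obtain ⟨g₀, hg₀⟩ := Cfsg.Agent.S0906.result p M hM (B₀ : Set (IrrCharacter G)) B₀.2.1
      obtain ⟨D₀⟩ : Nonempty (Sylow p (Subgroup.centralizer ({g₀} : Set G))) := inferInstance
      obtain ⟨x, Q, hQ⟩ := (Cfsg.Agent.S0911.result p M hM (B₀ : Set (IrrCharacter G)) B₀.2.1 g₀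
        hg₀ D₀ (Quotient.out C)).2 ⟨χ₀, hχ₀B, hcc⟩
      have h1 := Subgroup.card_le_of_le hQ
      rw [Subgroup.card_map_of_injective (MulAut.conj x).injective,
        Subgroup.card_map_of_injective (Subgroup.subtype_injective _),
        Subgroup.card_map_of_injective (Subgroup.subtype_injective _),
        Sylow.card_eq_multiplicity D₀, Sylow.card_eq_multiplicity Q,
        card_defect hM B₀.2.1 hg₀] at h1
      have h2 := (Nat.pow_le_pow_iff_right hp.one_lt).mp h1
      have h3 := B₀.2.2
      omega
    · rw [mul_comm]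
      apply memLocalIdeal_mul_left (memLocalRing_centralChar χ₀.2 _)
      rw [← res_eq_zero_iff (huR _), hu,
        res_sum _ _ (fun B _ => memLocalRing_mul (haR B) (osima B.2.1 _))]
      have h2 := congrFun hc (⟨C, Quotient.out C, Quotient.out_eq C, hreg, hdef⟩ : ClassIdxE p d G)
      rw [Finset.sum_apply, Pi.zero_apply] at h2
      rw [← h2]
      apply Finset.sum_congr rfl
      intro B _
      rw [res_mul (haR B) (osima B.2.1 _), res_coe, ha B, Pi.smul_apply, smul_eq_mul, hv]
    · rw [mul_comm]
      apply memLocalIdeal_mul_left (memLocalRing_centralChar χ₀.2 _)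
      rw [hu]
      apply memLocalIdeal_sum
      intro B _
      apply memLocalIdeal_mul_left (haR B)
      by_contra hcc
      obtain ⟨g₀, hg₀⟩ := Cfsg.Agent.S0906.result p M hM (B : Set (IrrCharacter G)) B.2.1
      obtain ⟨D₀⟩ : Nonempty (Sylow p (Subgroup.centralizer ({g₀} : Set G))) := inferInstance
      obtain ⟨x, Q, hQ⟩ := (Cfsg.Agent.S0911.result p M hM (B : Set (IrrCharacter G)) B.2.1 g₀
        hg₀ D₀ (Quotient.out C)).1 (osima B.2.1 _) hcc
      have h1 := Subgroup.card_le_of_le hQ
      rw [Subgroup.card_map_of_injective (Subgroup.subtype_injective _),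
        Subgroup.card_map_of_injective (MulAut.conj x).injective,
        Subgroup.card_map_of_injective (Subgroup.subtype_injective _),
        Sylow.card_eq_multiplicity D₀, Sylow.card_eq_multiplicity Q,
        card_defect hM B.2.1 hg₀] at h1
      have h2 := (Nat.pow_le_pow_iff_right hp.one_lt).mp h1
      have h3 := B.2.2
      omega

end Cfsg.Agent.Lib_helper3_BlockCount2
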