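import Mathlib
import Cfsg.Prelude.Def_Characters
import Cfsg.Prelude.Def_Blocks
import Cfsg.Prelude.Def_BlockLocal
import Cfsg.Prelude.Def_BrauerPairs
import Cfsg.Prelude.Def_BlockFusion
import Cfsg.Agent.Lib_helper3_StabPair

set_option autoImplicit false
open Cfsg
open Cfsg.Agent.Lib_helper3_CharBasic Cfsg.Agent.Lib_helper3_CharMore
  Cfsg.Agent.Lib_helper3_Local Cfsg.Agent.Lib_helper3_Local2 Cfsg.Agent.Lib_helper3_BlockAlg
  Cfsg.Agent.Lib_helper3_IdemSupp Cfsg.Agent.Lib_helper3_Residue
  Cfsg.Agent.Lib_helper3_BrauerHom Cfsg.Agent.Lib_helper3_BrauerHom2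
  Cfsg.Agent.Lib_helper3_BrauerHom3 Cfsg.Agent.Lib_helper3_ExtFirstMain
  Cfsg.Agent.Lib_helper3_BrauerPair Cfsg.Agent.Lib_helper3_NilPrincipal
  Cfsg.Agent.Lib_helper3_PrincipalPairs Cfsg.Agent.Lib_helper3_BrauerTrunc
  Cfsg.Agent.Lib_helper3_CharInd Cfsg.Agent.Lib_helper3_SecondMain3
  Cfsg.Agent.Lib_helper3_SubpairBlock Cfsg.Agent.Lib_helper3_NormalSubpair
  Cfsg.Agent.Lib_helper3_BlockCover Cfsg.Agent.Lib_helper3_BlockInd
  Cfsg.Agent.Lib_helper3_ThirdMain Cfsg.Agent.Lib_helper3_StableBlock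
  Cfsg.Agent.Lib_helper3_NormalPTrace Cfsg.Agent.Lib_helper3_SubpairUnique
  Cfsg.Agent.Lib_helper3_MaxPair Cfsg.Agent.Lib_helper3_ConjPair
  Cfsg.Agent.Lib_helper3_CentPair Cfsg.Agent.Lib_helper3_StabPair
open scoped ComplexConjugate

namespace Cfsg.Agent.Lib_helper3_FusPair

attribute [local instance] Ideal.Quotient.field

universe u

variable {G : Type u} [Group G] [Fintype G] {M : Ideal AlgInt} {p : ℕ} [Fact p.Prime]

/-- A subgroup conjugate to `Q` in the fusion system of a block is a conjugate `g Q g⁻¹` with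
the conjugate pair again below the maximal pair. -/
theorem conj_of_isConj (hM : IsPModular p M) (B : Set (IrrCharacter G)) (P : Subgroup G)
    (e : Set (IrrCharacter (Subgroup.centralizer (P : Set G)))) (F : FusionSystem P)
    (hF : IsBlockFusionSystemOn p M B P e F) (Q : Subgroup G)
    (f : Set (IrrCharacter (Subgroup.centralizer (Q : Set G))))
    (hle : SubpairLE p M Q f P e) (Q' : Subgroup G) (hc : F.IsConj Q Q') :
    ∃ g : G, Q' = Q.map (MulAut.conj g).toMonoidHom ∧
      SubpairLE p M (Q.map (MulAut.conj g).toMonoidHom) (conjBlock Q g f) P e := by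
  obtain ⟨φ, hφ, hrange⟩ := hc
  obtain ⟨-, g, hg, -, f₁, hle₁, hle₂⟩ := (hF.2 Q φ).mp hφ
  have hff : f = f₁ := subpair_unique hM P e hF.1.1.1 Q f f₁ hle hle₁
  rw [← hff] at hle₂
  refine ⟨g, ?_, hle₂⟩
  rw [← hrange]
  ext y
  rw [MonoidHom.mem_range, Subgroup.mem_map]
  constructor
  · rintro ⟨u, rfl⟩
    exact ⟨(u : G), u.2, (hg u).symm⟩
  · rintro ⟨u, hu, rfl⟩
    exact ⟨⟨u, hu⟩, hg ⟨u, hu⟩⟩

omit [Fintype G] [Fact p.Prime] in
theorem isConj_of_le (B : Set (IrrCharacter G)) (P : Subgroup G)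
    (e : Set (IrrCharacter (Subgroup.centralizer (P : Set G)))) (F : FusionSystem P)
    (hF : IsBlockFusionSystemOn p M B P e F) (Q : Subgroup G)
    (f : Set (IrrCharacter (Subgroup.centralizer (Q : Set G)))) (hQP : Q ≤ P)
    (hle : SubpairLE p M Q f P e) (x : G)
    (hlex : SubpairLE p M (Q.map (MulAut.conj x).toMonoidHom) (conjBlock Q x f) P e) :
    F.IsConj Q (Q.map (MulAut.conj x).toMonoidHom) := by
  refine ⟨conjHom Q x, (hF.2 Q _).mpr ⟨hQP, x, fun u => rfl,
    chain_le ⟨_, conjBlock Q x f⟩ ⟨P, e⟩ hlex, f, hle, hlex⟩, ?_⟩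
  ext y
  rw [MonoidHom.mem_range, Subgroup.mem_map]
  constructor
  · rintro ⟨u, rfl⟩
    exact ⟨(u : G), u.2, rfl⟩
  · rintro ⟨u, hu, rfl⟩
    exact ⟨⟨u, hu⟩, rfl⟩

omit [Fact p.Prime] in
theorem stab_conj_char (Q : Subgroup G)
    (f : Set (IrrCharacter (Subgroup.centralizer (Q : Set G)))) (x : G) (T : Subgroup G)
    (hT : ∀ y : G, y ∈ T ↔ y ∈ Subgroup.normalizer (Q : Set G) ∧
      StabilizesBlock (Subgroup.centralizer (Q : Set G)) f y) :
    ∀ y : G, y ∈ T.map (MulAut.conj x).toMonoidHom ↔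
      y ∈ Subgroup.normalizer ((Q.map (MulAut.conj x).toMonoidHom) : Set G) ∧
      StabilizesBlock (Subgroup.centralizer ((Q.map (MulAut.conj x).toMonoidHom) : Set G))
        (conjBlock Q x f) y := by
  intro y
  rw [mem_map_conj, hT, mem_normalizer_map_conj]
  constructor
  · rintro ⟨h1, h2⟩
    refine ⟨h1, ?_⟩
    have h3 := stabilizes_conj Q x f _ h2
    have h4 : x * (x⁻¹ * y * x) * x⁻¹ = y := by group
    rwa [h4] at h3
  · rintro ⟨h1, h2⟩
    exact ⟨h1, stabilizes_conj_inv Q x f y h2⟩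

omit [Fact p.Prime] in
/-- The blocks of the stabilizers of `f` and of its conjugate with the idempotents of `f` and of
its conjugate have the same defect. -/
theorem blockDefect_stab_conj (Q : Subgroup G)
    (f : Set (IrrCharacter (Subgroup.centralizer (Q : Set G)))) (x : G) (T T' : Subgroup G)
    (hT : ∀ y : G, y ∈ T ↔ y ∈ Subgroup.normalizer (Q : Set G) ∧
      StabilizesBlock (Subgroup.centralizer (Q : Set G)) f y)
    (hT' : ∀ y : G, y ∈ T' ↔
      y ∈ Subgroup.normalizer ((Q.map (MulAut.conj x).toMonoidHom) : Set G) ∧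
      StabilizesBlock (Subgroup.centralizer ((Q.map (MulAut.conj x).toMonoidHom) : Set G))
        (conjBlock Q x f) y)
    (F : Set (IrrCharacter T))
    (hF : ∀ t : T, blockCoeff F t =
      subgroupBlockCoeff (Subgroup.centralizer (Q : Set G)) f (t : G))
    (F' : Set (IrrCharacter T'))
    (hF' : ∀ t : T', blockCoeff F' t = subgroupBlockCoeff
      (Subgroup.centralizer ((Q.map (MulAut.conj x).toMonoidHom) : Set G))
      (conjBlock Q x f) (t : G)) :
    blockDefect p F' = blockDefect p F := by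
  have instT : Fintype T := Fintype.ofFinite _
  have instT' : Fintype T' := Fintype.ofFinite _
  obtain ⟨τ, hτ⟩ := exists_conj_iso T T' x
    (fun y hy => (hT _).mpr ⟨(mem_normalizer_map_conj Q x y).mp ((hT' y).mp hy).1,
      stabilizes_conj_inv Q x f y ((hT' y).mp hy).2⟩)
    (fun t ht => (hT' _).mpr ⟨(mem_normalizer_map_conj Q x _).mpr (by
      have h1 : x⁻¹ * (x * t * x⁻¹) * x = t := by group
      rw [h1]
      exact ((hT t).mp ht).1), stabilizes_conj Q x f t ((hT t).mp ht).2⟩)
  have hFF' : F' = transportSet τ F := by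
    apply eq_of_blockCoeff_eq
    funext t'
    rw [hF' t', blockCoeff_transport, hF (τ t'), hτ, subgroupBlockCoeff_conj]
  rw [hFF']
  exact blockDefect_transport p τ F

/-- `Q` is fully centralized in the fusion system of `B` exactly when `C_P(Q)` is a defect group
of the block `f` of `C_G(Q)`. -/
theorem fully_centralized_iff (hM : IsPModular p M) (B : Set (IrrCharacter G)) (P : Subgroup G)
    (e : Set (IrrCharacter (Subgroup.centralizer (P : Set G)))) (F : FusionSystem P)
    (hF : IsBlockFusionSystemOn p M B P e F) (Q : Subgroup G)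
    (f : Set (IrrCharacter (Subgroup.centralizer (Q : Set G)))) (hQP : Q ≤ P)
    (hf : IsPBlock M f) (hle : SubpairLE p M Q f P e) :
    F.IsFullyCentralized Q ↔ IsDefectGroup p M f
      ((P ⊓ Subgroup.centralizer (Q : Set G)).subgroupOf (Subgroup.centralizer (Q : Set G))) := by
  classical
  have hmax := hF.1
  have hPe : IsBrauerPair p M P e := hmax.1.1
  have instC : Fintype (Subgroup.centralizer (Q : Set G)) := Fintype.ofFinite _
  have hcardQ : Nat.card ((P ⊓ Subgroup.centralizer (Q : Set G)).subgroupOf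
      (Subgroup.centralizer (Q : Set G))) = Nat.card ↥(P ⊓ Subgroup.centralizer (Q : Set G)) :=
    Nat.card_congr (Subgroup.subgroupOfEquivOfLe inf_le_right).toEquiv
  obtain ⟨D₂, h₂, hmax₂, hle₂⟩ := exists_maximal_cent hM P Q e f hPe hle
  have hD₂def : IsDefectGroup p M f D₂ := defect_of_maximal hM f D₂ h₂ hmax₂
  have hc2 := Cfsg.Agent.S0908.result p M hM f hf D₂ hD₂def
  constructor
  · rintro ⟨-, hfc⟩
    obtain ⟨-, x, hlex, hdefx⟩ := subpair_cent hM B P Q e f hmax hf hle
    have hconj := isConj_of_le B P e F hF Q f hQP hle x hlex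
    have h1 : Nat.card ↥(P ⊓ Subgroup.centralizer
        ((Q.map (MulAut.conj x).toMonoidHom : Subgroup G) : Set G)) ≤
        Nat.card ↥(P ⊓ Subgroup.centralizer (Q : Set G)) := hfc _ hconj
    have instCx : Fintype (Subgroup.centralizer
        ((Q.map (MulAut.conj x).toMonoidHom : Subgroup G) : Set G)) := Fintype.ofFinite _
    have hfx : IsPBlock M (conjBlock Q x f) := by
      rw [conjBlock_eq]
      exact isPBlock_transport _ hf
    have hc3 := Cfsg.Agent.S0908.result p M hM (conjBlock Q x f) hfx _ hdefx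
    have hdef : blockDefect p (conjBlock Q x f) = blockDefect p f := by
      rw [conjBlock_eq]
      exact blockDefect_transport p _ f
    rw [Nat.card_congr (Subgroup.subgroupOfEquivOfLe inf_le_right).toEquiv, hdef] at hc3
    have h2 : Nat.card D₂ ≤ Nat.card ((P ⊓ Subgroup.centralizer (Q : Set G)).subgroupOf
        (Subgroup.centralizer (Q : Set G))) := by
      rw [hc2, hcardQ, ← hc3]
      exact h1
    have heq := Subgroup.eq_of_le_of_card_ge hle₂ h2
    rw [heq]
    exact hD₂def
  · intro hdef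
    refine ⟨hQP, fun Q' hc => ?_⟩
    obtain ⟨g, rfl, hleg⟩ := conj_of_isConj hM B P e F hF Q f hle Q' hc
    have instCg : Fintype (Subgroup.centralizer
        ((Q.map (MulAut.conj g).toMonoidHom : Subgroup G) : Set G)) := Fintype.ofFinite _
    obtain ⟨D₃, h₃, hmax₃, hle₃⟩ := exists_maximal_cent hM P (Q.map (MulAut.conj g).toMonoidHom) e
      (conjBlock Q g f) hPe hleg
    have hD₃def := defect_of_maximal hM _ D₃ h₃ hmax₃
    have hfg : IsPBlock M (conjBlock Q g f) := by
      rw [conjBlock_eq]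
      exact isPBlock_transport _ hf
    have hc3 := Cfsg.Agent.S0908.result p M hM (conjBlock Q g f) hfg D₃ hD₃def
    have hdefg : blockDefect p (conjBlock Q g f) = blockDefect p f := by
      rw [conjBlock_eq]
      exact blockDefect_transport p _ f
    have hcQ := Cfsg.Agent.S0908.result p M hM f hf _ hdef
    have h1 := Subgroup.card_le_of_le hle₃
    rw [Nat.card_congr (Subgroup.subgroupOfEquivOfLe inf_le_right).toEquiv, hc3, hdefg, ← hcQ,
      hcardQ] at h1
    exact h1

/-- `Q` is centric in the fusion system of `B` exactly when `Z(Q)` is a defect group of the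
block `f` of `C_G(Q)`. -/
theorem centric_iff (hM : IsPModular p M) (B : Set (IrrCharacter G)) (P : Subgroup G)
    (e : Set (IrrCharacter (Subgroup.centralizer (P : Set G)))) (F : FusionSystem P)
    (hF : IsBlockFusionSystemOn p M B P e F) (Q : Subgroup G)
    (f : Set (IrrCharacter (Subgroup.centralizer (Q : Set G)))) (hQP : Q ≤ P)
    (hf : IsPBlock M f) (hle : SubpairLE p M Q f P e) :
    F.IsCentric Q ↔ IsDefectGroup p M f
      ((Q ⊓ Subgroup.centralizer (Q : Set G)).subgroupOf (Subgroup.centralizer (Q : Set G))) := by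
  classical
  have hmax := hF.1
  have hPe : IsBrauerPair p M P e := hmax.1.1
  have instC : Fintype (Subgroup.centralizer (Q : Set G)) := Fintype.ofFinite _
  have hcardZ : Nat.card ((Q ⊓ Subgroup.centralizer (Q : Set G)).subgroupOf
      (Subgroup.centralizer (Q : Set G))) = Nat.card ↥(Q ⊓ Subgroup.centralizer (Q : Set G)) :=
    Nat.card_congr (Subgroup.subgroupOfEquivOfLe inf_le_right).toEquiv
  have hZle : (Q ⊓ Subgroup.centralizer (Q : Set G)).subgroupOf
      (Subgroup.centralizer (Q : Set G)) ≤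
      (P ⊓ Subgroup.centralizer (Q : Set G)).subgroupOf (Subgroup.centralizer (Q : Set G)) := by
    intro c hc
    rw [Subgroup.mem_subgroupOf] at hc ⊢
    exact ⟨hQP hc.1, hc.2⟩
  have hmapZ : ∀ g : G, (Q ⊓ Subgroup.centralizer (Q : Set G)).map (MulAut.conj g).toMonoidHom =
      Q.map (MulAut.conj g).toMonoidHom ⊓
        Subgroup.centralizer ((Q.map (MulAut.conj g).toMonoidHom : Subgroup G) : Set G) := by
    intro g
    ext y
    rw [mem_map_conj, Subgroup.mem_inf, Subgroup.mem_inf, mem_map_conj,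
      mem_centralizer_map_conj]
  have hcardZg : ∀ g : G, Nat.card ↥(Q.map (MulAut.conj g).toMonoidHom ⊓
        Subgroup.centralizer ((Q.map (MulAut.conj g).toMonoidHom : Subgroup G) : Set G)) =
      Nat.card ↥(Q ⊓ Subgroup.centralizer (Q : Set G)) := by
    intro g
    rw [← hmapZ g, Subgroup.card_map_of_injective (MulEquiv.injective _)]
  obtain ⟨D₂, h₂, hmax₂, hle₂⟩ := exists_maximal_cent hM P Q e f hPe hle
  have hD₂def : IsDefectGroup p M f D₂ := defect_of_maximal hM f D₂ h₂ hmax₂
  have hc2 := Cfsg.Agent.S0908.result p M hM f hf D₂ hD₂def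
  constructor
  · rintro ⟨-, hcen⟩
    obtain ⟨-, x, hlex, hdefx⟩ := subpair_cent hM B P Q e f hmax hf hle
    have hconj := isConj_of_le B P e F hF Q f hQP hle x hlex
    have h1 : P ⊓ Subgroup.centralizer
        ((Q.map (MulAut.conj x).toMonoidHom : Subgroup G) : Set G) ≤
        Q.map (MulAut.conj x).toMonoidHom := hcen _ hconj
    have instCx : Fintype (Subgroup.centralizer
        ((Q.map (MulAut.conj x).toMonoidHom : Subgroup G) : Set G)) := Fintype.ofFinite _
    have hfx : IsPBlock M (conjBlock Q x f) := by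
      rw [conjBlock_eq]
      exact isPBlock_transport _ hf
    have hc3 := Cfsg.Agent.S0908.result p M hM (conjBlock Q x f) hfx _ hdefx
    have hdef : blockDefect p (conjBlock Q x f) = blockDefect p f := by
      rw [conjBlock_eq]
      exact blockDefect_transport p _ f
    rw [Nat.card_congr (Subgroup.subgroupOfEquivOfLe inf_le_right).toEquiv, hdef] at hc3
    have h2 : P ⊓ Subgroup.centralizer
        ((Q.map (MulAut.conj x).toMonoidHom : Subgroup G) : Set G) ≤
        Q.map (MulAut.conj x).toMonoidHom ⊓ Subgroup.centralizer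
          ((Q.map (MulAut.conj x).toMonoidHom : Subgroup G) : Set G) := le_inf h1 inf_le_right
    have h3 := Subgroup.card_le_of_le h2
    rw [hc3, hcardZg x] at h3
    have h4 : Nat.card D₂ ≤ Nat.card ((Q ⊓ Subgroup.centralizer (Q : Set G)).subgroupOf
        (Subgroup.centralizer (Q : Set G))) := by
      rw [hc2, hcardZ]
      exact h3
    have heq := Subgroup.eq_of_le_of_card_ge (hZle.trans hle₂) h4
    rw [heq]
    exact hD₂def
  · intro hdef
    refine ⟨hQP, fun Q' hc => ?_⟩
    obtain ⟨g, rfl, hleg⟩ := conj_of_isConj hM B P e F hF Q f hle Q' hc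
    have instCg : Fintype (Subgroup.centralizer
        ((Q.map (MulAut.conj g).toMonoidHom : Subgroup G) : Set G)) := Fintype.ofFinite _
    obtain ⟨D₃, h₃, hmax₃, hle₃⟩ := exists_maximal_cent hM P (Q.map (MulAut.conj g).toMonoidHom) e
      (conjBlock Q g f) hPe hleg
    have hD₃def := defect_of_maximal hM _ D₃ h₃ hmax₃
    have hfg : IsPBlock M (conjBlock Q g f) := by
      rw [conjBlock_eq]
      exact isPBlock_transport _ hf
    have hc3 := Cfsg.Agent.S0908.result p M hM (conjBlock Q g f) hfg D₃ hD₃def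
    have hdefg : blockDefect p (conjBlock Q g f) = blockDefect p f := by
      rw [conjBlock_eq]
      exact blockDefect_transport p _ f
    have hcZ := Cfsg.Agent.S0908.result p M hM f hf _ hdef
    have hQgP : Q.map (MulAut.conj g).toMonoidHom ≤ P :=
      chain_le ⟨_, conjBlock Q g f⟩ ⟨P, e⟩ hleg
    have h1 := Subgroup.card_le_of_le hle₃
    rw [Nat.card_congr (Subgroup.subgroupOfEquivOfLe inf_le_right).toEquiv, hc3, hdefg, ← hcZ,
      hcardZ, ← hcardZg g] at h1
    have h2 : Q.map (MulAut.conj g).toMonoidHom ⊓ Subgroup.centralizer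
          ((Q.map (MulAut.conj g).toMonoidHom : Subgroup G) : Set G) ≤
        P ⊓ Subgroup.centralizer
          ((Q.map (MulAut.conj g).toMonoidHom : Subgroup G) : Set G) :=
      inf_le_inf_right _ hQgP
    have heq := Subgroup.eq_of_le_of_card_ge h2 h1
    show P ⊓ Subgroup.centralizer
        ((Q.map (MulAut.conj g).toMonoidHom : Subgroup G) : Set G) ≤
      Q.map (MulAut.conj g).toMonoidHom
    rw [← heq]
    exact inf_le_left

/-- `Q` is fully normalized in the fusion system of `B` exactly when `N_P(Q)` is a defect group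
of the block of the stabilizer of `f` with the idempotent of `f`. -/
theorem fully_normalized_iff (hM : IsPModular p M) (B : Set (IrrCharacter G)) (P : Subgroup G)
    (e : Set (IrrCharacter (Subgroup.centralizer (P : Set G)))) (F : FusionSystem P)
    (hF : IsBlockFusionSystemOn p M B P e F) (Q : Subgroup G)
    (f : Set (IrrCharacter (Subgroup.centralizer (Q : Set G)))) (hQP : Q ≤ P)
    (hle : SubpairLE p M Q f P e) (T : Subgroup G)
    (hT : ∀ y : G, y ∈ T ↔ y ∈ Subgroup.normalizer (Q : Set G) ∧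
      StabilizesBlock (Subgroup.centralizer (Q : Set G)) f y) :
    F.IsFullyNormalized Q ↔ ∃ F' : Set (IrrCharacter T), IsPBlock M F' ∧
      (∀ t : T, blockCoeff F' t =
        subgroupBlockCoeff (Subgroup.centralizer (Q : Set G)) f (t : G)) ∧
      IsDefectGroup p M F' ((P ⊓ Subgroup.normalizer (Q : Set G)).subgroupOf T) := by
  classical
  have hmax := hF.1
  have hPe : IsBrauerPair p M P e := hmax.1.1
  have instT : Fintype T := Fintype.ofFinite _
  obtain ⟨F₀, hF₀b, hF₀, hRT, D₂, h₂, hmax₂, hle₂⟩ := exists_stab_block hM P Q e f hPe hle T hT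
  have hD₂def := defect_of_maximal hM F₀ D₂ h₂ hmax₂
  have hc2 := Cfsg.Agent.S0908.result p M hM F₀ hF₀b D₂ hD₂def
  have hcardN : Nat.card ((P ⊓ Subgroup.normalizer (Q : Set G)).subgroupOf T) =
      Nat.card ↥(P ⊓ Subgroup.normalizer (Q : Set G)) :=
    Nat.card_congr (Subgroup.subgroupOfEquivOfLe hRT).toEquiv
  constructor
  · rintro ⟨-, hfn⟩
    obtain ⟨-, x, hlex, hx⟩ := subpair_norm hM B P Q e f hmax hle T hT
    have hconj := isConj_of_le B P e F hF Q f hQP hle x hlex
    have h1 : Nat.card ↥(P ⊓ Subgroup.normalizer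
        ((Q.map (MulAut.conj x).toMonoidHom : Subgroup G) : Set G)) ≤
        Nat.card ↥(P ⊓ Subgroup.normalizer (Q : Set G)) := hfn _ hconj
    have hT' := stab_conj_char Q f x T hT
    have instT' : Fintype (T.map (MulAut.conj x).toMonoidHom) := Fintype.ofFinite _
    obtain ⟨F', hF'b, hF', hdefx⟩ := hx (T.map (MulAut.conj x).toMonoidHom) hT'
    obtain ⟨F₁, -, -, hRT', -⟩ := exists_stab_block hM P (Q.map (MulAut.conj x).toMonoidHom) e
      (conjBlock Q x f) hPe hlex (T.map (MulAut.conj x).toMonoidHom) hT'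
    have hc3 := Cfsg.Agent.S0908.result p M hM F' hF'b _ hdefx
    have hdef := blockDefect_stab_conj (p := p) Q f x T (T.map (MulAut.conj x).toMonoidHom) hT hT'
      F₀ hF₀ F' hF'
    rw [Nat.card_congr (Subgroup.subgroupOfEquivOfLe hRT').toEquiv, hdef] at hc3
    have h2 : Nat.card D₂ ≤ Nat.card
        ((P ⊓ Subgroup.normalizer (Q : Set G)).subgroupOf T) := by
      rw [hc2, hcardN, ← hc3]
      exact h1
    have heq := Subgroup.eq_of_le_of_card_ge hle₂ h2
    refine ⟨F₀, hF₀b, hF₀, ?_⟩
    rw [heq]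
    exact hD₂def
  · rintro ⟨F', hF'b, hF', hdef⟩
    refine ⟨hQP, fun Q' hc => ?_⟩
    obtain ⟨g, rfl, hleg⟩ := conj_of_isConj hM B P e F hF Q f hle Q' hc
    have hTg := stab_conj_char Q f g T hT
    have instTg : Fintype (T.map (MulAut.conj g).toMonoidHom) := Fintype.ofFinite _
    obtain ⟨Fg, hFgb, hFg, hRTg, D₃, h₃, hmax₃, hle₃⟩ := exists_stab_block hM P
      (Q.map (MulAut.conj g).toMonoidHom) e (conjBlock Q g f) hPe hleg
      (T.map (MulAut.conj g).toMonoidHom) hTg
    have hD₃def := defect_of_maximal hM Fg D₃ h₃ hmax₃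
    have hc3 := Cfsg.Agent.S0908.result p M hM Fg hFgb D₃ hD₃def
    have hdefg := blockDefect_stab_conj (p := p) Q f g T (T.map (MulAut.conj g).toMonoidHom)
      hT hTg F' hF' Fg hFg
    have hcN := Cfsg.Agent.S0908.result p M hM F' hF'b _ hdef
    have h1 := Subgroup.card_le_of_le hle₃
    rw [Nat.card_congr (Subgroup.subgroupOfEquivOfLe hRTg).toEquiv, hc3, hdefg, ← hcN,
      hcardN] at h1
    exact h1

end Cfsg.Agent.Lib_helper3_FusPair
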