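import Mathlib
import Cfsg.Prelude.Def_Characters
import Cfsg.Prelude.Def_Blocks
import Cfsg.Prelude.Def_BlockLocal
import Cfsg.Prelude.Def_BrauerPairs
import Cfsg.Agent.Lib_helper3_AbPair

set_option autoImplicit false
open Cfsg
open Cfsg.Agent.Lib_helper3_CharBasic Cfsg.Agent.Lib_helper3_CharMore
  Cfsg.Agent.Lib_helper3_Local Cfsg.Agent.Lib_helper3_Local2 Cfsg.Agent.Lib_helper3_BlockAlg
  Cfsg.Agent.Lib_helper3_IdemSupp Cfsg.Agent.Lib_helper3_Residue
  Cfsg.Agent.Lib_helper3_BrauerHom Cfsg.Agent.Lib_helper3_BrauerHom2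
  Cfsg.Agent.Lib_helper3_BrauerHom3 Cfsg.Agent.Lib_helper3_ExtFirstMain
  Cfsg.Agent.Lib_helper3_BrauerPair Cfsg.Agent.Lib_helper3_NilPrincipal
  Cfsg.Agent.Lib_helper3_PrincipalPairs Cfsg.Agent.Lib_helper3_BrauerTrunc
  Cfsg.Agent.Lib_helper3_CharInd Cfsg.Agent.Lib_helper3_SecondMain3
  Cfsg.Agent.Lib_helper3_SubpairBlock Cfsg.Agent.Lib_helper3_NormalSubpair
  Cfsg.Agent.Lib_helper3_BlockCover Cfsg.Agent.Lib_helper3_BlockInd
  Cfsg.Agent.Lib_helper3_ThirdMain Cfsg.Agent.Lib_helper3_StableBlock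
  Cfsg.Agent.Lib_helper3_NormalPTrace Cfsg.Agent.Lib_helper3_SubpairUnique
  Cfsg.Agent.Lib_helper3_MaxPair Cfsg.Agent.Lib_helper3_ConjPair
  Cfsg.Agent.Lib_helper3_CentPair Cfsg.Agent.Lib_helper3_StabPair
  Cfsg.Agent.Lib_helper3_AbPair
open scoped ComplexConjugate

namespace Cfsg.Agent.Lib_helper3_NilAb

attribute [local instance] Ideal.Quotient.field

universe u

section Fin

variable {G : Type u} [Group G] [Fintype G] {M : Ideal AlgInt} {p : ℕ} [Fact p.Prime]

omit [Fact p.Prime] in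
theorem cj_one (hM : IsPModular p M) (Q : Subgroup G)
    (f : Set (IrrCharacter (Subgroup.centralizer (Q : Set G)))) (hf : IsPBlock M f) :
    cj 1 ⟨Q, f⟩ = (⟨Q, f⟩ : BrauerPairIdx G) := by
  apply cj_eq_of_stab hM Q f hf 1 (Subgroup.one_mem _)
  have h := stab_mul Q f 1 (Subgroup.one_mem _) 1 (Subgroup.one_mem _)
  rwa [mul_one] at h

/-- The stabilizer of a pair, as a subgroup. -/
def stabSub (hM : IsPModular p M) (Q : Subgroup G)
    (f : Set (IrrCharacter (Subgroup.centralizer (Q : Set G)))) (hf : IsPBlock M f) :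
    Subgroup G where
  carrier := {y | cj y ⟨Q, f⟩ = (⟨Q, f⟩ : BrauerPairIdx G)}
  mul_mem' := by
    intro a b ha hb
    obtain ⟨ξ, rfl⟩ := hf
    have ha' : cj a ⟨Q, blockOf M (ξ : Subgroup.centralizer (Q : Set G) → ℂ)⟩ =
        (⟨Q, blockOf M (ξ : Subgroup.centralizer (Q : Set G) → ℂ)⟩ : BrauerPairIdx G) := ha
    have hb' : cj b ⟨Q, blockOf M (ξ : Subgroup.centralizer (Q : Set G) → ℂ)⟩ =
        (⟨Q, blockOf M (ξ : Subgroup.centralizer (Q : Set G) → ℂ)⟩ : BrauerPairIdx G) := hb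
    show cj (a * b) ⟨Q, blockOf M (ξ : Subgroup.centralizer (Q : Set G) → ℂ)⟩ =
        (⟨Q, blockOf M (ξ : Subgroup.centralizer (Q : Set G) → ℂ)⟩ : BrauerPairIdx G)
    rw [← cj_cj, hb', ha']
  one_mem' := cj_one hM Q f hf
  inv_mem' := by
    intro a ha
    have h1 := cj_one hM Q f hf
    obtain ⟨ξ, rfl⟩ := hf
    have ha' : cj a ⟨Q, blockOf M (ξ : Subgroup.centralizer (Q : Set G) → ℂ)⟩ =
        (⟨Q, blockOf M (ξ : Subgroup.centralizer (Q : Set G) → ℂ)⟩ : BrauerPairIdx G) := ha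
    show cj a⁻¹ ⟨Q, blockOf M (ξ : Subgroup.centralizer (Q : Set G) → ℂ)⟩ =
        (⟨Q, blockOf M (ξ : Subgroup.centralizer (Q : Set G) → ℂ)⟩ : BrauerPairIdx G)
    have h2 := cj_cj (M := M) a⁻¹ a Q ξ
    rw [ha', inv_mul_cancel, h1] at h2
    exact h2

omit [Fact p.Prime] in
theorem mem_stabSub (hM : IsPModular p M) (Q : Subgroup G)
    (f : Set (IrrCharacter (Subgroup.centralizer (Q : Set G)))) (hf : IsPBlock M f) (y : G) :
    y ∈ stabSub hM Q f hf ↔ y ∈ Subgroup.normalizer (Q : Set G) ∧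
      StabilizesBlock (Subgroup.centralizer (Q : Set G)) f y :=
  ⟨fun h => stab_of_cj_eq Q f y h, fun h => cj_eq_of_stab hM Q f hf y h.1 h.2⟩

omit [Fintype G] in
theorem index_sup_zpowers [Finite G] (C : Subgroup G) (z : G)
    (hz : z ∈ Subgroup.normalizer (C : Set G)) (k : ℕ) (hk : orderOf z = p ^ k) :
    ∃ j : ℕ, (C.subgroupOf (C ⊔ Subgroup.zpowers z)).index = p ^ j := by
  have hLE : Subgroup.zpowers z ≤ Subgroup.normalizer (C : Set G) := by
    rw [Subgroup.zpowers_le]
    exact hz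
  have := Subgroup.normal_subgroupOf_of_le_normalizer hLE
  have := Subgroup.normal_subgroupOf_sup_of_le_normalizer hLE
  have h1 : (C.subgroupOf (Subgroup.zpowers z ⊔ C)).index =
      (C.subgroupOf (Subgroup.zpowers z)).index :=
    (Nat.card_congr
      (QuotientGroup.quotientInfEquivProdNormalizerQuotient (Subgroup.zpowers z) C
        hLE).toEquiv).symm
  have h2 : (C.subgroupOf (Subgroup.zpowers z)).index ∣ p ^ k := by
    have h3 := Subgroup.index_dvd_card (C.subgroupOf (Subgroup.zpowers z))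
    rw [Nat.card_zpowers, hk] at h3
    exact h3
  obtain ⟨j, -, hj⟩ := (Nat.dvd_prime_pow (Fact.out : p.Prime)).mp h2
  exact ⟨j, by rw [sup_comm, h1, hj]⟩

/-- Abelian maximal pair: a subgroup stabilizing `(P, e)` and containing `C_G(P)` with index a
power of `p` equals `C_G(P)`. -/
theorem stab_le_cent (hM : IsPModular p M) (B : Set (IrrCharacter G)) (P : Subgroup G)
    (e : Set (IrrCharacter (Subgroup.centralizer (P : Set G))))
    (hmax : IsMaximalBrauerPair p M B P e) (hPC : P ≤ Subgroup.centralizer (P : Set G))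
    (L : Subgroup G) (hCL : Subgroup.centralizer (P : Set G) ≤ L)
    (hLN : L ≤ Subgroup.normalizer (P : Set G))
    (hstab : ∀ t ∈ L, StabilizesBlock (Subgroup.centralizer (P : Set G)) e t)
    (hidx : ∃ k : ℕ, ((Subgroup.centralizer (P : Set G)).subgroupOf L).index = p ^ k) :
    L ≤ Subgroup.centralizer (P : Set G) := by
  classical
  have instL : Fintype L := Fintype.ofFinite _
  have hPe : IsBrauerPair p M P e := hmax.1.1
  have hPL : P ≤ L := hPC.trans hCL
  obtain ⟨F, hFb, hF⟩ := exists_block_stab hM P e hPe L hPL hCL hLN hstab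
  have hpair := pair_of_normal_stab P P L e F hFb hF hPL hCL e (normalSubpair_refl hM P e hPe)
  obtain ⟨⟨D₂, h₂⟩, hmax₂, hchain⟩ := exists_maximal_above (p := p) (M := M) F _
    ⟨P.subgroupOf L, transportSet (centIso P L hPL hCL) e⟩ hpair rfl
  have hPD₂ : P.subgroupOf L ≤ D₂ := chain_le _ _ hchain
  have hdef : IsDefectGroup p M F D₂ := defect_of_maximal hM F D₂ h₂ hmax₂
  obtain ⟨S, hS⟩ : ∃ S : Subgroup G, S = D₂.map L.subtype := ⟨_, rfl⟩
  have hPS : P ≤ S := by
    intro u hu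
    rw [hS]
    exact Subgroup.mem_map.mpr ⟨⟨u, hPL hu⟩, hPD₂ (Subgroup.mem_subgroupOf.mpr hu), rfl⟩
  have hSL : S ≤ L := by
    rw [hS]
    exact Subgroup.map_subtype_le D₂
  have hCSL : Subgroup.centralizer (S : Set G) ≤ L :=
    (Subgroup.centralizer_le (SetLike.coe_subset_coe.mpr hPS)).trans hCL
  have hD : D₂ = S.subgroupOf L := by
    rw [hS]
    exact (Subgroup.comap_map_eq_self_of_injective L.subtype_injective D₂).symm
  obtain ⟨h, hn⟩ := exists_normal_of_pair P e hPe L hLN hstab F hF D₂ h₂ hmax₂.1 S hPS hSL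
    hCSL hD
  have hSB := brauerPairOf_of_normalSubpair hM S P h e hn B hmax.1
  have hSP : S = P := hmax.2 S h hSB (Relation.ReflTransGen.single hn)
  have hD₂ : D₂ = P.subgroupOf L := by rw [hD, hSP]
  obtain ⟨iso, hiso⟩ : ∃ iso : ↥((Subgroup.centralizer (P : Set G)).subgroupOf L) ≃*
      ↥(Subgroup.centralizer (P : Set G)), ∀ a, ((iso a : Subgroup.centralizer (P : Set G)) : G) =
        ((a : L) : G) := ⟨Subgroup.subgroupOfEquivOfLe hCL, fun a => rfl⟩
  have hNn : ((Subgroup.centralizer (P : Set G)).subgroupOf L).Normal :=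
    Subgroup.normal_subgroupOf_of_le_normalizer
      (fun t ht => mem_normalizer_centralizer P (hLN ht))
  have hst : ∀ x : L, StabilizesBlock ((Subgroup.centralizer (P : Set G)).subgroupOf L)
      (transportSet iso e) x := by
    intro x
    refine ⟨mem_normalizer_of_normal _ x, ?_⟩
    rintro χ ⟨θ, hθ, hχ⟩
    obtain ⟨θ', hθ', hconj⟩ := (hstab (x : G) x.2).2 θ hθ
    refine ⟨⟨(θ' : Subgroup.centralizer (P : Set G) → ℂ) ∘ iso,
      isIrrCharacter_comp_equiv iso θ'.2⟩, ⟨θ', hθ', rfl⟩, ?_⟩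
    intro k k' hk
    show (θ' : Subgroup.centralizer (P : Set G) → ℂ) (iso k') = (χ : _ → ℂ) k
    rw [hχ]
    exact hconj (iso k) (iso k') (by
      rw [hiso, hiso, hk]
      rfl)
  have hBc : ∀ g : L, blockCoeff F g =
      subgroupBlockCoeff ((Subgroup.centralizer (P : Set G)).subgroupOf L)
        (transportSet iso e) g := by
    intro g
    rw [hF g]
    by_cases hg : (g : G) ∈ Subgroup.centralizer (P : Set G)
    · have hg' : g ∈ (Subgroup.centralizer (P : Set G)).subgroupOf L :=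
        Subgroup.mem_subgroupOf.mpr hg
      rw [subgroupBlockCoeff_of_mem _ _ hg, subgroupBlockCoeff_of_mem _ _ hg',
        blockCoeff_transport]
      exact congrArg (blockCoeff e) (Subtype.ext (hiso ⟨g, hg'⟩).symm)
    · have hg' : g ∉ (Subgroup.centralizer (P : Set G)).subgroupOf L :=
        fun h => hg (Subgroup.mem_subgroupOf.mp h)
      rw [subgroupBlockCoeff_of_not_mem _ _ hg, subgroupBlockCoeff_of_not_mem _ _ hg']
  have hfin := (defect_of_stable hM ((Subgroup.centralizer (P : Set G)).subgroupOf L) hidx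
    (transportSet iso e) (isPBlock_transport iso hPe.2) hst F hFb hBc D₂ hdef).1
  rw [hD₂] at hfin
  have hle : P.subgroupOf L ≤ (Subgroup.centralizer (P : Set G)).subgroupOf L :=
    fun u hu => Subgroup.mem_subgroupOf.mpr (hPC (Subgroup.mem_subgroupOf.mp hu))
  rw [sup_eq_left.mpr hle] at hfin
  intro t ht
  have h1 : (⟨t, ht⟩ : L) ∈ (Subgroup.centralizer (P : Set G)).subgroupOf L := by
    rw [hfin]
    exact Subgroup.mem_top _
  exact Subgroup.mem_subgroupOf.mp h1

/-- Abelian defect: nilpotent if and only if the inertial quotient is trivial. -/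
theorem nil_iff (hM : IsPModular p M) (B : Set (IrrCharacter G)) (P : Subgroup G)
    (e : Set (IrrCharacter (Subgroup.centralizer (P : Set G))))
    (hmax : IsMaximalBrauerPair p M B P e) (hab : ∀ x ∈ P, ∀ y ∈ P, x * y = y * x) :
    IsNilpotentBlock p M B ↔ ∀ x : G, x ∈ Subgroup.normalizer (P : Set G) →
      StabilizesBlock (Subgroup.centralizer (P : Set G)) e x →
        x ∈ Subgroup.centralizer (P : Set G) := by
  classical
  have hp : p.Prime := Fact.out
  have hPe : IsBrauerPair p M P e := hmax.1.1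
  have hPC : P ≤ Subgroup.centralizer (P : Set G) := by
    intro y hy
    rw [Subgroup.mem_centralizer_iff]
    intro q hq
    exact hab q hq y hy
  constructor
  · intro hnil x hxN hxst
    have hxT : x ∈ stabSub hM P e hPe.2 := (mem_stabSub hM P e hPe.2 x).mpr ⟨hxN, hxst⟩
    obtain ⟨k, m, hpm, hn⟩ := Nat.exists_eq_pow_mul_and_not_dvd (orderOf_pos x).ne' p hp.ne_one
    have hm0 : m ≠ 0 := by
      rintro rfl
      exact hpm (dvd_zero p)
    have h1 : x ^ (p ^ k) ∈ Subgroup.centralizer (P : Set G) := by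
      have hmem := (mem_stabSub hM P e hPe.2 _).mp (Subgroup.pow_mem _ hxT (p ^ k))
      apply hnil.2 P e hmax.1 _ hmem.1 hmem.2
      show ¬ p ∣ orderOf (x ^ (p ^ k))
      rw [orderOf_pow_of_dvd (pow_ne_zero k hp.ne_zero) (hn ▸ dvd_mul_right _ _), hn,
        Nat.mul_div_cancel_left m (pow_pos hp.pos k)]
      exact hpm
    have h2 : x ^ m ∈ Subgroup.centralizer (P : Set G) := by
      have hzT := Subgroup.pow_mem _ hxT m
      have hzmem := (mem_stabSub hM P e hPe.2 _).mp hzT
      have hzord : orderOf (x ^ m) = p ^ k := by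
        rw [orderOf_pow_of_dvd hm0 (hn ▸ dvd_mul_left _ _), hn,
          Nat.mul_div_cancel _ (Nat.pos_of_ne_zero hm0)]
      have hzN : x ^ m ∈ Subgroup.normalizer
          ((Subgroup.centralizer (P : Set G) : Subgroup G) : Set G) :=
        mem_normalizer_centralizer P hzmem.1
      have hidx := index_sup_zpowers (p := p) (Subgroup.centralizer (P : Set G)) (x ^ m) hzN k
        hzord
      have hL : Subgroup.centralizer (P : Set G) ⊔ Subgroup.zpowers (x ^ m) ≤
          stabSub hM P e hPe.2 := by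
        apply sup_le
        · intro c hc
          rw [mem_stabSub]
          refine ⟨Cfsg.Agent.Lib_helper3_FirstMain.centralizer_le_normalizer' P hc, ?_⟩
          have h := stab_mul P e 1 (Subgroup.one_mem _) c hc
          rwa [one_mul] at h
        · rw [Subgroup.zpowers_le]
          exact hzT
      have h3 := stab_le_cent hM B P e hmax hPC _ le_sup_left
        (fun t ht => ((mem_stabSub hM P e hPe.2 t).mp (hL ht)).1)
        (fun t ht => ((mem_stabSub hM P e hPe.2 t).mp (hL ht)).2) hidx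
      exact h3 (Subgroup.mem_sup_right (Subgroup.mem_zpowers _))
    have hcop : Nat.Coprime (p ^ k) m :=
      Nat.Coprime.pow_left k ((Nat.Prime.coprime_iff_not_dvd hp).mpr hpm)
    have hbez := Nat.gcd_eq_gcd_ab (p ^ k) m
    rw [hcop.gcd_eq_one] at hbez
    have hx : x = (x ^ (p ^ k)) ^ (Nat.gcdA (p ^ k) m) * (x ^ m) ^ (Nat.gcdB (p ^ k) m) := by
      rw [← zpow_natCast x (p ^ k), ← zpow_natCast x m, ← zpow_mul, ← zpow_mul, ← zpow_add,
        ← hbez]
      simp
    rw [hx]
    exact Subgroup.mul_mem _ (Subgroup.zpow_mem _ h1 _) (Subgroup.zpow_mem _ h2 _)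
  · intro hT
    refine ⟨hmax.1.2.1, ?_⟩
    intro Q f hQf x hxN hxst _
    obtain ⟨g, hg⟩ := conj_into_maximal hM B P Q e f hmax hQf
    have hf' : IsPBlock M (conjBlock Q g f) := by
      rw [conjBlock_eq]
      exact isPBlock_transport _ hQf.1.2
    have h4 : g⁻¹ * (g * x * g⁻¹) * g = x := by group
    have hx' : g * x * g⁻¹ ∈ Subgroup.normalizer
        ((Q.map (MulAut.conj g).toMonoidHom : Subgroup G) : Set G) := by
      rw [mem_normalizer_map_conj, h4]
      exact hxN
    have hst' := stabilizes_conj Q g f x hxst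
    obtain ⟨y, ⟨hyN, hyst⟩, c, hc, hxy⟩ := stab_factor hM B P e hmax hab _ _ hf' hg
      (g * x * g⁻¹) hx' hst'
    have hyC : y ∈ Subgroup.centralizer
        ((Q.map (MulAut.conj g).toMonoidHom : Subgroup G) : Set G) :=
      Subgroup.centralizer_le (SetLike.coe_subset_coe.mpr
        (chain_le ⟨_, conjBlock Q g f⟩ ⟨P, e⟩ hg)) (hT y hyN hyst)
    have h2 : g * x * g⁻¹ ∈ Subgroup.centralizer
        ((Q.map (MulAut.conj g).toMonoidHom : Subgroup G) : Set G) := by
      rw [hxy]
      exact Subgroup.mul_mem _ hyC hc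
    have h3 := (mem_centralizer_map_conj Q g _).mp h2
    rwa [h4] at h3

end Fin

end Cfsg.Agent.Lib_helper3_NilAb
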