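import Mathlib
import Cfsg.Prelude.Def_Characters
import Cfsg.Prelude.Def_Blocks
import Cfsg.Prelude.Def_BlockLocal
import Cfsg.Prelude.Def_BrauerPairs
import Cfsg.Agent.Lib_helper3_NilAb

set_option autoImplicit false
open Cfsg
open Cfsg.Agent.Lib_helper3_CharBasic Cfsg.Agent.Lib_helper3_CharMore
  Cfsg.Agent.Lib_helper3_Local Cfsg.Agent.Lib_helper3_Local2 Cfsg.Agent.Lib_helper3_BlockAlg
  Cfsg.Agent.Lib_helper3_IdemSupp Cfsg.Agent.Lib_helper3_Residue
  Cfsg.Agent.Lib_helper3_BrauerHom Cfsg.Agent.Lib_helper3_BrauerHom2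
  Cfsg.Agent.Lib_helper3_BrauerHom3 Cfsg.Agent.Lib_helper3_ExtFirstMain
  Cfsg.Agent.Lib_helper3_BrauerPair Cfsg.Agent.Lib_helper3_NilPrincipal
  Cfsg.Agent.Lib_helper3_PrincipalPairs Cfsg.Agent.Lib_helper3_BrauerTrunc
  Cfsg.Agent.Lib_helper3_CharInd Cfsg.Agent.Lib_helper3_SecondMain3
  Cfsg.Agent.Lib_helper3_SubpairBlock Cfsg.Agent.Lib_helper3_NormalSubpair
  Cfsg.Agent.Lib_helper3_BlockCover Cfsg.Agent.Lib_helper3_BlockInd
  Cfsg.Agent.Lib_helper3_ThirdMain Cfsg.Agent.Lib_helper3_StableBlock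
  Cfsg.Agent.Lib_helper3_NormalPTrace Cfsg.Agent.Lib_helper3_SubpairUnique
  Cfsg.Agent.Lib_helper3_MaxPair Cfsg.Agent.Lib_helper3_ConjPair
  Cfsg.Agent.Lib_helper3_CentPair Cfsg.Agent.Lib_helper3_StabPair
  Cfsg.Agent.Lib_helper3_AbPair Cfsg.Agent.Lib_helper3_NilAb
open scoped ComplexConjugate

namespace Cfsg.Agent.Lib_helper3_TPair

attribute [local instance] Ideal.Quotient.field

universe u

section Fin

variable {G : Type u} [Group G] [Fintype G] {M : Ideal AlgInt} {p : ℕ} [Fact p.Prime]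

omit [Fact p.Prime] in
theorem coeff_centIso (T S : Subgroup G) (hST : S ≤ T)
    (hCST : Subgroup.centralizer (S : Set G) ≤ T)
    (h : Set (IrrCharacter (Subgroup.centralizer (S : Set G)))) (t : T) :
    subgroupBlockCoeff (Subgroup.centralizer ((S.subgroupOf T : Subgroup T) : Set T))
      (transportSet (centIso S T hST hCST) h) t =
    subgroupBlockCoeff (Subgroup.centralizer (S : Set G)) h (t : G) := by
  by_cases ht : t ∈ Subgroup.centralizer ((S.subgroupOf T : Subgroup T) : Set T)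
  · have ht' : (t : G) ∈ Subgroup.centralizer (S : Set G) := (centIso S T hST hCST ⟨t, ht⟩).2
    rw [subgroupBlockCoeff_of_mem _ _ ht, subgroupBlockCoeff_of_mem _ _ ht',
      blockCoeff_transport]
    rfl
  · have ht' : (t : G) ∉ Subgroup.centralizer (S : Set G) := by
      intro h'
      exact ht ((centIso S T hST hCST).symm ⟨(t : G), h'⟩).2
    rw [subgroupBlockCoeff_of_not_mem _ _ ht, subgroupBlockCoeff_of_not_mem _ _ ht']

omit [Fact p.Prime] in
/-- A normal inclusion of pairs of the subgroup `T` gives a normal inclusion of pairs of `G`. -/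
theorem normalSubpair_of_T (T S₁ S₂ : Subgroup G) (h1T : S₁ ≤ T)
    (hC1 : Subgroup.centralizer (S₁ : Set G) ≤ T) (h2T : S₂ ≤ T)
    (hC2 : Subgroup.centralizer (S₂ : Set G) ≤ T)
    (h₁ : Set (IrrCharacter (Subgroup.centralizer (S₁ : Set G))))
    (h₂ : Set (IrrCharacter (Subgroup.centralizer (S₂ : Set G))))
    (hb₁ : IsPBlock M h₁) (hb₂ : IsPBlock M h₂)
    (hn : IsNormalSubpair p M (S₁.subgroupOf T) (transportSet (centIso S₁ T h1T hC1) h₁)
      (S₂.subgroupOf T) (transportSet (centIso S₂ T h2T hC2) h₂)) :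
    IsNormalSubpair p M S₁ h₁ S₂ h₂ := by
  obtain ⟨⟨hp1, -⟩, ⟨hp2, -⟩, hle, hnorm, hstab, hbr⟩ := hn
  have hS1 : IsPGroup p S₁ := by
    have h1 := hp1.map T.subtype
    rwa [Subgroup.map_subgroupOf_eq_of_le h1T] at h1
  have hS2 : IsPGroup p S₂ := by
    have h1 := hp2.map T.subtype
    rwa [Subgroup.map_subgroupOf_eq_of_le h2T] at h1
  have hle' : S₁ ≤ S₂ := by
    intro u hu
    have h1 : (⟨u, h1T hu⟩ : T) ∈ S₂.subgroupOf T := hle (Subgroup.mem_subgroupOf.mpr hu)
    exact Subgroup.mem_subgroupOf.mp h1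
  have hnorm' : S₂ ≤ Subgroup.normalizer (S₁ : Set G) := by
    intro x hx
    have hxn := hnorm (Subgroup.mem_subgroupOf.mpr hx : (⟨x, h2T hx⟩ : T) ∈ S₂.subgroupOf T)
    rw [Subgroup.mem_normalizer_iff] at hxn ⊢
    intro g
    constructor
    · intro hg
      have h1 := (hxn ⟨g, h1T hg⟩).mp (Subgroup.mem_subgroupOf.mpr hg)
      exact Subgroup.mem_subgroupOf.mp h1
    · intro hg
      have hgT : g ∈ T := by
        have h1 : g = x⁻¹ * (x * g * x⁻¹) * x := by group
        rw [h1]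
        exact T.mul_mem (T.mul_mem (T.inv_mem (h2T hx)) (h1T hg)) (h2T hx)
      have h1 := (hxn ⟨g, hgT⟩).mpr (Subgroup.mem_subgroupOf.mpr hg)
      exact Subgroup.mem_subgroupOf.mp h1
  refine ⟨⟨hS1, hb₁⟩, ⟨hS2, hb₂⟩, hle', hnorm', ?_, ?_⟩
  · intro x hx
    obtain ⟨-, hst⟩ := hstab ⟨x, h2T hx⟩ (Subgroup.mem_subgroupOf.mpr hx)
    refine ⟨mem_normalizer_centralizer S₁ (hnorm' hx), ?_⟩
    intro θ hθ
    obtain ⟨χ', ⟨θ', hθ', hχ'⟩, hconj⟩ := hst
      ⟨(θ : Subgroup.centralizer (S₁ : Set G) → ℂ) ∘ centIso S₁ T h1T hC1,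
        isIrrCharacter_comp_equiv _ θ.2⟩ ⟨θ, hθ, rfl⟩
    refine ⟨θ', hθ', ?_⟩
    intro k k' hk
    have h1 := hconj ((centIso S₁ T h1T hC1).symm k) ((centIso S₁ T h1T hC1).symm k')
      (Subtype.ext (show ((((centIso S₁ T h1T hC1).symm k' :
          Subgroup.centralizer ((S₁.subgroupOf T : Subgroup T) : Set T)) : T) : G) =
        x * ((((centIso S₁ T h1T hC1).symm k :
          Subgroup.centralizer ((S₁.subgroupOf T : Subgroup T) : Set T)) : T) : G) * x⁻¹
        from hk))
    rw [hχ'] at h1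
    have h2 : (θ' : Subgroup.centralizer (S₁ : Set G) → ℂ)
        (centIso S₁ T h1T hC1 ((centIso S₁ T h1T hC1).symm k')) =
        (θ : Subgroup.centralizer (S₁ : Set G) → ℂ)
          (centIso S₁ T h1T hC1 ((centIso S₁ T h1T hC1).symm k)) := h1
    rw [MulEquiv.apply_symm_apply, MulEquiv.apply_symm_apply] at h2
    exact h2
  · intro ξ hξ
    have h1 := hbr ⟨(ξ : _ → ℂ) ∘ centIso S₂ T h2T hC2, isIrrCharacter_comp_equiv _ ξ.2⟩
      ⟨ξ, hξ, rfl⟩
    rw [brauerOmega_centIso S₂ T h2T hC2 _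
      (subgroupBlockCoeff (Subgroup.centralizer (S₁ : Set G)) h₁)
      (coeff_centIso T S₁ h1T hC1 h₁)] at h1
    exact h1

/-- A pair of the subgroup `T` corresponds to the pair `(S, h)` of `G`. -/
def Corr (T : Subgroup G) (a : BrauerPairIdx T) (S : Subgroup G)
    (h : Set (IrrCharacter (Subgroup.centralizer (S : Set G)))) : Prop :=
  ∃ (hST : S ≤ T) (hCST : Subgroup.centralizer (S : Set G) ≤ T),
    a = ⟨S.subgroupOf T, transportSet (centIso S T hST hCST) h⟩

omit [Fact p.Prime] in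
theorem exists_corr_aux (T S : Subgroup G) (hST : S ≤ T)
    (hCST : Subgroup.centralizer (S : Set G) ≤ T) (D : Subgroup T) (hD : D = S.subgroupOf T)
    (k : Set (IrrCharacter (Subgroup.centralizer (D : Set T)))) (hk : IsPBlock M k) :
    ∃ h : Set (IrrCharacter (Subgroup.centralizer (S : Set G))),
      IsPBlock M h ∧ Corr T ⟨D, k⟩ S h := by
  subst hD
  refine ⟨transportSet (centIso S T hST hCST).symm k, isPBlock_transport _ hk, hST, hCST, ?_⟩
  rw [transport_symm_cancel]

omit [Fact p.Prime] in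
theorem exists_corr (T : Subgroup G) (a : BrauerPairIdx T) (ha : IsPBlock M a.2)
    (hC : Subgroup.centralizer ((a.1.map T.subtype : Subgroup G) : Set G) ≤ T) :
    ∃ (S : Subgroup G) (h : Set (IrrCharacter (Subgroup.centralizer (S : Set G)))),
      IsPBlock M h ∧ Corr T a S h := by
  obtain ⟨h, hb, hc⟩ := exists_corr_aux T (a.1.map T.subtype) (Subgroup.map_subtype_le _) hC a.1
    (Subgroup.comap_map_eq_self_of_injective T.subtype_injective a.1).symm a.2 ha
  exact ⟨_, h, hb, hc⟩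

omit [Fact p.Prime] in
theorem corr_unique (T : Subgroup G) (a : BrauerPairIdx T) (S S' : Subgroup G)
    (h : Set (IrrCharacter (Subgroup.centralizer (S : Set G))))
    (h' : Set (IrrCharacter (Subgroup.centralizer (S' : Set G))))
    (hc : Corr T a S h) (hc' : Corr T a S' h') :
    (⟨S, h⟩ : BrauerPairIdx G) = ⟨S', h'⟩ := by
  obtain ⟨hST, hCST, rfl⟩ := hc
  obtain ⟨hST', hCST', heq⟩ := hc'
  have hS : S = S' := by
    have h1 : S.subgroupOf T = S'.subgroupOf T := congrArg Sigma.fst heq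
    have h2 := congrArg (Subgroup.map T.subtype) h1
    rwa [Subgroup.map_subgroupOf_eq_of_le hST, Subgroup.map_subgroupOf_eq_of_le hST'] at h2
  subst hS
  have h3 : transportSet (centIso S T hST hCST) h = transportSet (centIso S T hST' hCST') h' :=
    eq_of_heq (Sigma.mk.inj_iff.mp heq).2
  have h4 := transport_symm_cancel (centIso S T hST hCST).symm h
  have h5 := transport_symm_cancel (centIso S T hST hCST).symm h'
  rw [MulEquiv.symm_symm] at h4 h5
  have hh : h = h' :=
    h4.symm.trans ((congrArg (transportSet (centIso S T hST hCST).symm) h3).trans h5)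
  rw [hh]

omit [Fact p.Prime] in
theorem corr_cj (T : Subgroup G) (a : BrauerPairIdx T) (S : Subgroup G)
    (θ : IrrCharacter (Subgroup.centralizer (S : Set G)))
    (hc : Corr T a S (blockOf M (θ : Subgroup.centralizer (S : Set G) → ℂ))) (t : T) :
    Corr T (cj t a) (S.map (MulAut.conj (t : G)).toMonoidHom)
      (conjBlock S (t : G) (blockOf M (θ : Subgroup.centralizer (S : Set G) → ℂ))) := by
  classical
  have instT : Fintype T := Fintype.ofFinite _
  obtain ⟨hST, hCST, rfl⟩ := hc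
  have hST' : S.map (MulAut.conj (t : G)).toMonoidHom ≤ T := by
    intro y hy
    rw [mem_map_conj] at hy
    have h1 : y = (t : G) * ((t : G)⁻¹ * y * (t : G)) * (t : G)⁻¹ := by group
    rw [h1]
    exact T.mul_mem (T.mul_mem t.2 (hST hy)) (T.inv_mem t.2)
  have hCST' : Subgroup.centralizer
      ((S.map (MulAut.conj (t : G)).toMonoidHom : Subgroup G) : Set G) ≤ T := by
    intro y hy
    rw [mem_centralizer_map_conj] at hy
    have h1 : y = (t : G) * ((t : G)⁻¹ * y * (t : G)) * (t : G)⁻¹ := by group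
    rw [h1]
    exact T.mul_mem (T.mul_mem t.2 (hCST hy)) (T.inv_mem t.2)
  refine ⟨hST', hCST', ?_⟩
  have h1 : transportSet (centIso S T hST hCST)
        (blockOf M (θ : Subgroup.centralizer (S : Set G) → ℂ)) =
      blockOf M ((⟨(θ : Subgroup.centralizer (S : Set G) → ℂ) ∘ centIso S T hST hCST,
        isIrrCharacter_comp_equiv _ θ.2⟩ : IrrCharacter
          (Subgroup.centralizer ((S.subgroupOf T : Subgroup T) : Set T))) : _ → ℂ) := by
    rw [transport_blockOf]
  have h2 : conjBlock S (t : G) (blockOf M (θ : Subgroup.centralizer (S : Set G) → ℂ)) =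
      blockOf M ((⟨(θ : Subgroup.centralizer (S : Set G) → ℂ) ∘ cIso S (t : G),
        isIrrCharacter_comp_equiv _ θ.2⟩ : IrrCharacter (Subgroup.centralizer
          ((S.map (MulAut.conj (t : G)).toMonoidHom : Subgroup G) : Set G))) : _ → ℂ) := by
    rw [conjBlock_eq, transport_blockOf]
  show (⟨(S.subgroupOf T).map (MulAut.conj t).toMonoidHom,
      conjBlock (S.subgroupOf T) t (transportSet (centIso S T hST hCST)
        (blockOf M (θ : Subgroup.centralizer (S : Set G) → ℂ)))⟩ : BrauerPairIdx T) =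
    ⟨(S.map (MulAut.conj (t : G)).toMonoidHom).subgroupOf T,
      transportSet (centIso (S.map (MulAut.conj (t : G)).toMonoidHom) T hST' hCST')
        (conjBlock S (t : G) (blockOf M (θ : Subgroup.centralizer (S : Set G) → ℂ)))⟩
  rw [h1, h2, conjBlock_eq, transport_blockOf, transport_blockOf]
  apply idx_blockOf_ext
  · ext y
    rw [mem_map_conj, Subgroup.mem_subgroupOf, Subgroup.mem_subgroupOf, mem_map_conj]
    rfl
  · intro g hg hg'
    show (θ : Subgroup.centralizer (S : Set G) → ℂ) _ =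
      (θ : Subgroup.centralizer (S : Set G) → ℂ) _
    refine congrArg (θ : Subgroup.centralizer (S : Set G) → ℂ) (Subtype.ext ?_)
    rfl

omit [Fact p.Prime] in
/-- A chain of pairs of `T` ending at a pair corresponding to a pair of `G` lifts to a chain of
pairs of `G`. -/
theorem chain_of_T (T : Subgroup G) (b : BrauerPairIdx T) (S_b : Subgroup G)
    (h_b : Set (IrrCharacter (Subgroup.centralizer (S_b : Set G))))
    (hb : IsPBlock M h_b) (hcb : Corr T b S_b h_b) (a : BrauerPairIdx T)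
    (hab : Relation.ReflTransGen (NormalSubpairRel p M) a b) :
    (∀ D : Subgroup T, a.1 ≤ D →
      Subgroup.centralizer ((D.map T.subtype : Subgroup G) : Set G) ≤ T) →
    ∃ (S_a : Subgroup G) (h_a : Set (IrrCharacter (Subgroup.centralizer (S_a : Set G)))),
      IsPBlock M h_a ∧ Corr T a S_a h_a ∧
      Relation.ReflTransGen (NormalSubpairRel p M) (⟨S_a, h_a⟩ : BrauerPairIdx G)
        ⟨S_b, h_b⟩ := by
  induction hab using Relation.ReflTransGen.head_induction_on with
  | refl =>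
    intro _
    exact ⟨S_b, h_b, hb, hcb, Relation.ReflTransGen.refl⟩
  | @head a c h' hch ih =>
    intro hcent
    have h'' : IsNormalSubpair p M a.1 a.2 c.1 c.2 := h'
    obtain ⟨S_c, h_c, hb_c, hc_c, hchain⟩ := ih (fun D hD => hcent D (h''.2.2.1.trans hD))
    obtain ⟨S_a, h_a, hb_a, hc_a⟩ := exists_corr T a h''.1.2 (hcent a.1 le_rfl)
    obtain ⟨hSTa, hCSTa, rfl⟩ := hc_a
    obtain ⟨hSTc, hCSTc, rfl⟩ := hc_c
    have hstep := normalSubpair_of_T T S_a S_c hSTa hCSTa hSTc hCSTc h_a h_c hb_a hb_c h''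
    exact ⟨S_a, h_a, hb_a, ⟨hSTa, hCSTa, rfl⟩,
      Relation.ReflTransGen.head
        (show NormalSubpairRel p M (⟨S_a, h_a⟩ : BrauerPairIdx G) ⟨S_c, h_c⟩ from hstep)
        hchain⟩

end Fin

end Cfsg.Agent.Lib_helper3_TPair
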