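import Mathlib
import Cfsg.Prelude.Def_Characters
import Cfsg.Prelude.Def_Blocks
import Cfsg.Prelude.Def_BlockLocal
import Cfsg.Prelude.Def_BrauerPairs
import Cfsg.Prelude.Def_BlockFusion
import Cfsg.Agent.Lib_helper3_TPair

set_option autoImplicit false
open Cfsg
open Cfsg.Agent.Lib_helper3_CharBasic Cfsg.Agent.Lib_helper3_CharMore
  Cfsg.Agent.Lib_helper3_Local Cfsg.Agent.Lib_helper3_Local2 Cfsg.Agent.Lib_helper3_BlockAlg
  Cfsg.Agent.Lib_helper3_IdemSupp Cfsg.Agent.Lib_helper3_Residue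
  Cfsg.Agent.Lib_helper3_BrauerHom Cfsg.Agent.Lib_helper3_BrauerHom2
  Cfsg.Agent.Lib_helper3_BrauerHom3 Cfsg.Agent.Lib_helper3_ExtFirstMain
  Cfsg.Agent.Lib_helper3_BrauerPair Cfsg.Agent.Lib_helper3_NilPrincipal
  Cfsg.Agent.Lib_helper3_PrincipalPairs Cfsg.Agent.Lib_helper3_BrauerTrunc
  Cfsg.Agent.Lib_helper3_CharInd Cfsg.Agent.Lib_helper3_SecondMain3
  Cfsg.Agent.Lib_helper3_SubpairBlock Cfsg.Agent.Lib_helper3_NormalSubpair
  Cfsg.Agent.Lib_helper3_BlockCover Cfsg.Agent.Lib_helper3_BlockInd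
  Cfsg.Agent.Lib_helper3_ThirdMain Cfsg.Agent.Lib_helper3_StableBlock
  Cfsg.Agent.Lib_helper3_NormalPTrace Cfsg.Agent.Lib_helper3_SubpairUnique
  Cfsg.Agent.Lib_helper3_MaxPair Cfsg.Agent.Lib_helper3_ConjPair
  Cfsg.Agent.Lib_helper3_CentPair Cfsg.Agent.Lib_helper3_StabPair
  Cfsg.Agent.Lib_helper3_AbPair Cfsg.Agent.Lib_helper3_NilAb
  Cfsg.Agent.Lib_helper3_TPair
open scoped ComplexConjugate

namespace Cfsg.Agent.Lib_helper3_NilFus

attribute [local instance] Ideal.Quotient.field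

universe u

section Fin

variable {G : Type u} [Group G] [Fintype G] {M : Ideal AlgInt} {p : ℕ} [Fact p.Prime]

omit [Fintype G] [Fact p.Prime] in
theorem mem_of_pow_mem_coprime (H : Subgroup G) (x : G) (a b : ℕ) (hab : Nat.Coprime a b)
    (ha : x ^ a ∈ H) (hb : x ^ b ∈ H) : x ∈ H := by
  have hbez := Nat.gcd_eq_gcd_ab a b
  rw [hab.gcd_eq_one] at hbez
  have hx : x = (x ^ a) ^ (Nat.gcdA a b) * (x ^ b) ^ (Nat.gcdB a b) := by
    rw [← zpow_natCast x a, ← zpow_natCast x b, ← zpow_mul, ← zpow_mul, ← zpow_add, ← hbez]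
    simp
  rw [hx]
  exact Subgroup.mul_mem _ (Subgroup.zpow_mem _ ha _) (Subgroup.zpow_mem _ hb _)

omit [Fintype G] in
theorem index_pow_of_regular [Finite G] (T C : Subgroup G)
    (hTN : T ≤ Subgroup.normalizer (C : Set G))
    (hreg : ∀ t ∈ T, IsPRegular p t → t ∈ C) : ∃ k : ℕ, (C.subgroupOf T).index = p ^ k := by
  have hp : p.Prime := Fact.out
  have hN : (C.subgroupOf T).Normal := Subgroup.normal_subgroupOf_of_le_normalizer hTN
  have hpg : IsPGroup p (T ⧸ C.subgroupOf T) := by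
    intro q
    induction q using QuotientGroup.induction_on with
    | H t =>
      obtain ⟨k, m, hpm, hn⟩ := Nat.exists_eq_pow_mul_and_not_dvd (orderOf_pos (t : G)).ne' p
        hp.ne_one
      refine ⟨k, ?_⟩
      rw [← QuotientGroup.mk_pow, QuotientGroup.eq_one_iff, Subgroup.mem_subgroupOf]
      apply hreg _ (t ^ p ^ k).2
      show ¬ p ∣ orderOf ((t : G) ^ (p ^ k))
      rw [orderOf_pow_of_dvd (pow_ne_zero k hp.ne_zero) (hn ▸ dvd_mul_right _ _), hn,
        Nat.mul_div_cancel_left m (pow_pos hp.pos k)]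
      exact hpm
  obtain ⟨k, hk⟩ := IsPGroup.iff_card.mp hpg
  exact ⟨k, hk⟩

omit [Fintype G] in
theorem card_lt_normalizer [Finite G] (P Q : Subgroup G) (hP : IsPGroup p P) (hQP : Q ≤ P)
    (hne : Q ≠ P) :
    Nat.card Q < Nat.card (P ⊓ Subgroup.normalizer (Q : Set G) : Subgroup G) := by
  have hnil : Group.IsNilpotent P := hP.isNilpotent
  have hnc := normalizerCondition_of_isNilpotent (G := P)
  have hlt : Q.subgroupOf P < ⊤ := by
    rw [lt_top_iff_ne_top]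
    intro h
    exact hne (le_antisymm hQP (Subgroup.subgroupOf_eq_top.mp h))
  have h2 := hnc (Q.subgroupOf P) hlt
  obtain ⟨y, hyN, hyQ⟩ := SetLike.exists_of_lt h2
  have hyN' : (y : G) ∈ Subgroup.normalizer (Q : Set G) := by
    rw [Subgroup.mem_normalizer_iff] at hyN ⊢
    intro g
    constructor
    · intro hg
      exact Subgroup.mem_subgroupOf.mp ((hyN ⟨g, hQP hg⟩).mp (Subgroup.mem_subgroupOf.mpr hg))
    · intro hg
      have hgP : g ∈ P := by
        have h1 : g = (y : G)⁻¹ * ((y : G) * g * (y : G)⁻¹) * (y : G) := by group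
        rw [h1]
        exact P.mul_mem (P.mul_mem (P.inv_mem y.2) (hQP hg)) y.2
      exact Subgroup.mem_subgroupOf.mp ((hyN ⟨g, hgP⟩).mpr (Subgroup.mem_subgroupOf.mpr hg))
  have hle : Q ≤ P ⊓ Subgroup.normalizer (Q : Set G) := le_inf hQP Subgroup.le_normalizer
  have hne' : Q ≠ P ⊓ Subgroup.normalizer (Q : Set G) := by
    intro h
    apply hyQ
    rw [Subgroup.mem_subgroupOf, h]
    exact ⟨y.2, hyN'⟩
  by_contra hcon
  push Not at hcon
  exact hne' (Subgroup.eq_of_le_of_card_ge hle hcon)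

omit [Fintype G] [Fact p.Prime] in
theorem decomp_of_sup_top (T : Subgroup G) (N D : Subgroup T) [N.Normal] (h : N ⊔ D = ⊤)
    (t : T) : ∃ d ∈ D, ∃ n ∈ N, t = d * n := by
  have ht : t ∈ ((D ⊔ N : Subgroup T) : Set T) := by
    rw [sup_comm, h]
    exact Subgroup.mem_top t
  rw [Subgroup.mul_normal] at ht
  obtain ⟨d, hd, n, hn, hdn⟩ := Set.mem_mul.mp ht
  exact ⟨d, hd, n, hn, hdn.symm⟩

/-- A block of a subgroup `L` with the idempotent of a stable block `f` of `C_G(Q)`, where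
`C_G(Q)` has `p`-power index in `L`: its defect groups cover `L` modulo `C_G(Q)`. -/
theorem sup_defect_eq_top (hM : IsPModular p M) (Q : Subgroup G)
    (f : Set (IrrCharacter (Subgroup.centralizer (Q : Set G)))) (hf : IsPBlock M f)
    (L : Subgroup G) (hCL : Subgroup.centralizer (Q : Set G) ≤ L)
    (hLN : L ≤ Subgroup.normalizer (Q : Set G))
    (hstab : ∀ t ∈ L, StabilizesBlock (Subgroup.centralizer (Q : Set G)) f t)
    (hidx : ∃ k : ℕ, ((Subgroup.centralizer (Q : Set G)).subgroupOf L).index = p ^ k)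
    (F : Set (IrrCharacter L)) (hFb : IsPBlock M F)
    (hF : ∀ t : L, blockCoeff F t =
      subgroupBlockCoeff (Subgroup.centralizer (Q : Set G)) f (t : G))
    (D : Subgroup L) (hdef : IsDefectGroup p M F D) :
    (Subgroup.centralizer (Q : Set G)).subgroupOf L ⊔ D = ⊤ := by
  classical
  have instL : Fintype L := Fintype.ofFinite _
  obtain ⟨iso, hiso⟩ : ∃ iso : ↥((Subgroup.centralizer (Q : Set G)).subgroupOf L) ≃*
      ↥(Subgroup.centralizer (Q : Set G)), ∀ a, ((iso a : Subgroup.centralizer (Q : Set G)) : G) =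
        ((a : L) : G) := ⟨Subgroup.subgroupOfEquivOfLe hCL, fun a => rfl⟩
  have hNn : ((Subgroup.centralizer (Q : Set G)).subgroupOf L).Normal :=
    Subgroup.normal_subgroupOf_of_le_normalizer
      (fun t ht => mem_normalizer_centralizer Q (hLN ht))
  have hst : ∀ x : L, StabilizesBlock ((Subgroup.centralizer (Q : Set G)).subgroupOf L)
      (transportSet iso f) x := by
    intro x
    refine ⟨mem_normalizer_of_normal _ x, ?_⟩
    rintro χ ⟨θ, hθ, hχ⟩
    obtain ⟨θ', hθ', hconj⟩ := (hstab (x : G) x.2).2 θ hθ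
    refine ⟨⟨(θ' : Subgroup.centralizer (Q : Set G) → ℂ) ∘ iso,
      isIrrCharacter_comp_equiv iso θ'.2⟩, ⟨θ', hθ', rfl⟩, ?_⟩
    intro k k' hk
    show (θ' : Subgroup.centralizer (Q : Set G) → ℂ) (iso k') = (χ : _ → ℂ) k
    rw [hχ]
    exact hconj (iso k) (iso k') (by
      rw [hiso, hiso, hk]
      rfl)
  have hBc : ∀ g : L, blockCoeff F g =
      subgroupBlockCoeff ((Subgroup.centralizer (Q : Set G)).subgroupOf L)
        (transportSet iso f) g := by
    intro g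
    rw [hF g]
    by_cases hg : (g : G) ∈ Subgroup.centralizer (Q : Set G)
    · have hg' : g ∈ (Subgroup.centralizer (Q : Set G)).subgroupOf L :=
        Subgroup.mem_subgroupOf.mpr hg
      rw [subgroupBlockCoeff_of_mem _ _ hg, subgroupBlockCoeff_of_mem _ _ hg',
        blockCoeff_transport]
      exact congrArg (blockCoeff f) (Subtype.ext (hiso ⟨g, hg'⟩).symm)
    · have hg' : g ∉ (Subgroup.centralizer (Q : Set G)).subgroupOf L :=
        fun h => hg (Subgroup.mem_subgroupOf.mp h)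
      rw [subgroupBlockCoeff_of_not_mem _ _ hg, subgroupBlockCoeff_of_not_mem _ _ hg']
  exact (defect_of_stable hM ((Subgroup.centralizer (Q : Set G)).subgroupOf L) hidx
    (transportSet iso f) (isPBlock_transport iso hf) hst F hFb hBc D hdef).1

/-- In a nilpotent block the stabilizer of a maximal pair `(P, e)` is `P C_G(P)`. -/
theorem max_stab_decomp (hM : IsPModular p M) (B : Set (IrrCharacter G)) (P : Subgroup G)
    (e : Set (IrrCharacter (Subgroup.centralizer (P : Set G))))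
    (hmax : IsMaximalBrauerPair p M B P e) (hnil : IsNilpotentBlock p M B) (x : G)
    (hxN : x ∈ Subgroup.normalizer (P : Set G))
    (hxst : StabilizesBlock (Subgroup.centralizer (P : Set G)) e x) :
    ∃ u ∈ P, ∃ c ∈ Subgroup.centralizer (P : Set G), x = u * c := by
  classical
  have hPe : IsBrauerPair p M P e := hmax.1.1
  obtain ⟨T, hT⟩ : ∃ T : Subgroup G, ∀ y : G, y ∈ T ↔ y ∈ Subgroup.normalizer (P : Set G) ∧
      StabilizesBlock (Subgroup.centralizer (P : Set G)) e y :=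
    ⟨stabSub hM P e hPe.2, mem_stabSub hM P e hPe.2⟩
  have instT : Fintype T := Fintype.ofFinite _
  obtain ⟨hPT, hCT, hTN, hstab⟩ := stab_facts P e T hT
  obtain ⟨F, hFb, hF⟩ := exists_block_stab hM P e hPe T hPT hCT hTN hstab
  have hidx : ∃ k : ℕ, ((Subgroup.centralizer (P : Set G)).subgroupOf T).index = p ^ k :=
    index_pow_of_regular T _ (fun t ht => mem_normalizer_centralizer P (hTN ht))
      (fun t ht hr => hnil.2 P e hmax.1 t (hTN ht) (hstab t ht) hr)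
  have hpair := pair_of_normal_stab P P T e F hFb hF hPT hCT e (normalSubpair_refl hM P e hPe)
  obtain ⟨⟨D₂, h₂⟩, hmax₂, hchain⟩ := exists_maximal_above (p := p) (M := M) F _
    ⟨P.subgroupOf T, transportSet (centIso P T hPT hCT) e⟩ hpair rfl
  have hPD₂ : P.subgroupOf T ≤ D₂ := chain_le _ _ hchain
  have hdef : IsDefectGroup p M F D₂ := defect_of_maximal hM F D₂ h₂ hmax₂
  obtain ⟨S, hS⟩ : ∃ S : Subgroup G, S = D₂.map T.subtype := ⟨_, rfl⟩
  have hPS : P ≤ S := by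
    intro u hu
    rw [hS]
    exact Subgroup.mem_map.mpr ⟨⟨u, hPT hu⟩, hPD₂ (Subgroup.mem_subgroupOf.mpr hu), rfl⟩
  have hSL : S ≤ T := by
    rw [hS]
    exact Subgroup.map_subtype_le D₂
  have hCSL : Subgroup.centralizer (S : Set G) ≤ T :=
    (Subgroup.centralizer_le (SetLike.coe_subset_coe.mpr hPS)).trans hCT
  have hD : D₂ = S.subgroupOf T := by
    rw [hS]
    exact (Subgroup.comap_map_eq_self_of_injective T.subtype_injective D₂).symm
  obtain ⟨h, hn⟩ := exists_normal_of_pair P e hPe T hTN hstab F hF D₂ h₂ hmax₂.1 S hPS hSL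
    hCSL hD
  have hSB := brauerPairOf_of_normalSubpair hM S P h e hn B hmax.1
  have hSP : S = P := hmax.2 S h hSB (Relation.ReflTransGen.single hn)
  have hD₂ : D₂ = P.subgroupOf T := by rw [hD, hSP]
  have hsup := sup_defect_eq_top hM P e hPe.2 T hCT hTN hstab hidx F hFb hF D₂ hdef
  have hNn : ((Subgroup.centralizer (P : Set G)).subgroupOf T).Normal :=
    Subgroup.normal_subgroupOf_of_le_normalizer
      (fun t ht => mem_normalizer_centralizer P (hTN ht))
  obtain ⟨d, hd, n, hn', hdn⟩ := decomp_of_sup_top T _ D₂ hsup ⟨x, (hT x).mpr ⟨hxN, hxst⟩⟩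
  rw [hD₂] at hd
  exact ⟨(d : G), Subgroup.mem_subgroupOf.mp hd, (n : G), Subgroup.mem_subgroupOf.mp hn',
    congrArg Subtype.val hdn⟩

theorem exists_normal_above (hM : IsPModular p M) (P : Subgroup G)
    (e : Set (IrrCharacter (Subgroup.centralizer (P : Set G)))) (hPe : IsBrauerPair p M P e)
    (Q : Subgroup G) (f : Set (IrrCharacter (Subgroup.centralizer (Q : Set G))))
    (hle : SubpairLE p M Q f P e) (hne : Q ≠ P) :
    ∃ (R : Subgroup G) (g : Set (IrrCharacter (Subgroup.centralizer (R : Set G)))),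
      SubpairLE p M R g P e ∧ IsNormalSubpair p M Q f R g ∧ Nat.card Q < Nat.card R := by
  have hQP : Q ≤ P := chain_le ⟨Q, f⟩ ⟨P, e⟩ hle
  obtain ⟨R, hRdef⟩ : ∃ R : Subgroup G, R = P ⊓ Subgroup.normalizer (Q : Set G) := ⟨_, rfl⟩
  have hRP : R ≤ P := by
    rw [hRdef]
    exact inf_le_left
  have hRN : R ≤ Subgroup.normalizer (Q : Set G) := by
    rw [hRdef]
    exact inf_le_right
  have hQR : Q ≤ R := by
    rw [hRdef]
    exact le_inf hQP Subgroup.le_normalizer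
  obtain ⟨g, hg, hleg⟩ := exists_subpair hM P e hPe R hRP
  have hRg : IsBrauerPair p M R g := ⟨hPe.1.to_le hRP, hg⟩
  obtain ⟨f', hf'⟩ := exists_normalSubpair hM R Q g hRg hQR hRN
  have hle' : SubpairLE p M Q f' P e :=
    Relation.ReflTransGen.head (show NormalSubpairRel p M ⟨Q, f'⟩ ⟨R, g⟩ from hf') hleg
  have hff' : f = f' := subpair_unique hM P e hPe Q f f' hle hle'
  rw [← hff'] at hf'
  refine ⟨R, g, hleg, hf', ?_⟩
  rw [hRdef]
  exact card_lt_normalizer P Q hPe.1 hQP hne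

/-- In a nilpotent block, conjugations between pairs below a maximal pair `(P, e)` are induced
by elements of `P`, up to centralizers. -/
theorem nil_control (hM : IsPModular p M) (B : Set (IrrCharacter G)) (P : Subgroup G)
    (e : Set (IrrCharacter (Subgroup.centralizer (P : Set G))))
    (hmax : IsMaximalBrauerPair p M B P e) (hnil : IsNilpotentBlock p M B) :
    ∀ (n : ℕ) (Q : Subgroup G) (f : Set (IrrCharacter (Subgroup.centralizer (Q : Set G)))),
      SubpairLE p M Q f P e → Nat.card P - Nat.card Q = n → ∀ x : G,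
      SubpairLE p M (Q.map (MulAut.conj x).toMonoidHom) (conjBlock Q x f) P e →
      ∃ u ∈ P, ∃ c ∈ Subgroup.centralizer (Q : Set G), x = u * c := by
  classical
  have hp : p.Prime := Fact.out
  have hPe : IsBrauerPair p M P e := hmax.1.1
  intro n
  induction n using Nat.strong_induction_on with
  | _ n ih =>
  intro Q f hle hn x hlex
  have hQP : Q ≤ P := chain_le ⟨Q, f⟩ ⟨P, e⟩ hle
  have hQf : IsBrauerPair p M Q f := chain_brauerPair ⟨Q, f⟩ ⟨P, e⟩ hle hPe
  have hBQf : IsBrauerPairOf p M B Q f :=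
    (brauerPairOf_iff_of_subpairLE hM P Q e f hle B).mp hmax.1
  have hf : IsPBlock M f := hQf.2
  have hcardQ₁ : Nat.card (Q.map (MulAut.conj x).toMonoidHom) = Nat.card Q :=
    Subgroup.card_map_of_injective (MulEquiv.injective _)
  by_cases hQeq : Q = P
  · have hfe : (⟨Q, f⟩ : BrauerPairIdx G) = ⟨P, e⟩ :=
      chain_eq_of_le hM _ _ hle (le_of_eq hQeq.symm)
    have hlex' : Relation.ReflTransGen (NormalSubpairRel p M) (cj x ⟨Q, f⟩)
        (⟨P, e⟩ : BrauerPairIdx G) := hlex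
    rw [hfe] at hlex'
    have hPx : P.map (MulAut.conj x).toMonoidHom ≤ P := chain_le _ _ hlex'
    have hPx' : P.map (MulAut.conj x).toMonoidHom = P :=
      Subgroup.eq_of_le_of_card_ge hPx
        (le_of_eq (Subgroup.card_map_of_injective (MulEquiv.injective _)).symm)
    have hfix : cj x ⟨P, e⟩ = (⟨P, e⟩ : BrauerPairIdx G) :=
      chain_eq_of_le hM _ _ hlex' (le_of_eq hPx'.symm)
    obtain ⟨hxN, hxst⟩ := stab_of_cj_eq P e x hfix
    rw [hQeq]
    exact max_stab_decomp hM B P e hmax hnil x hxN hxst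
  · have hcardlt : Nat.card Q < Nat.card P := by
      by_contra hcon
      push Not at hcon
      exact hQeq (Subgroup.eq_of_le_of_card_ge hQP hcon)
    obtain ⟨T, hT⟩ : ∃ T : Subgroup G, ∀ y : G, y ∈ T ↔ y ∈ Subgroup.normalizer (Q : Set G) ∧
        StabilizesBlock (Subgroup.centralizer (Q : Set G)) f y :=
      ⟨stabSub hM Q f hf, mem_stabSub hM Q f hf⟩
    have instT : Fintype T := Fintype.ofFinite _
    obtain ⟨hQT, hCT, hTN, hstab⟩ := stab_facts Q f T hT
    obtain ⟨F, hFb, hF⟩ := exists_block_stab hM Q f hQf T hQT hCT hTN hstab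
    have hidx : ∃ k : ℕ, ((Subgroup.centralizer (Q : Set G)).subgroupOf T).index = p ^ k :=
      index_pow_of_regular T _ (fun t ht => mem_normalizer_centralizer Q (hTN ht))
        (fun t ht hr => hnil.2 Q f hBQf t (hTN ht) (hstab t ht) hr)
    have hcentT : ∀ S : Subgroup G, Q ≤ S → Subgroup.centralizer (S : Set G) ≤ T :=
      fun S hS => (Subgroup.centralizer_le (SetLike.coe_subset_coe.mpr hS)).trans hCT
    -- the normalizer of `Q` in `P`
    obtain ⟨R₀, e₀, hle₀, hn₀, hlt₀⟩ := exists_normal_above hM P e hPe Q f hle hQeq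
    have hR₀T : R₀ ≤ T := fun r hr => (hT r).mpr ⟨hn₀.2.2.2.1 hr, hn₀.2.2.2.2.1 r hr⟩
    have hCR₀T := hcentT R₀ hn₀.2.2.1
    have hpair₀ := pair_of_normal_stab Q R₀ T f F hFb hF hR₀T hCR₀T e₀ hn₀
    obtain ⟨⟨D₂, h₂⟩, hmax₂, hchain₀⟩ := exists_maximal_above (p := p) (M := M) F _
      ⟨R₀.subgroupOf T, transportSet (centIso R₀ T hR₀T hCR₀T) e₀⟩ hpair₀ rfl
    have hdef : IsDefectGroup p M F D₂ := defect_of_maximal hM F D₂ h₂ hmax₂
    have hsup := sup_defect_eq_top hM Q f hf T hCT hTN hstab hidx F hFb hF D₂ hdef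
    have hR₀D : R₀.subgroupOf T ≤ D₂ := chain_le _ _ hchain₀
    have hQD : ∀ D : Subgroup T, R₀.subgroupOf T ≤ D → Q ≤ D.map T.subtype := by
      intro D hD q hq
      exact Subgroup.mem_map.mpr
        ⟨⟨q, hQT hq⟩, hD (Subgroup.mem_subgroupOf.mpr (hn₀.2.2.1 hq)), rfl⟩
    obtain ⟨S₂, h_S, hb_S, hc_S⟩ := exists_corr T ⟨D₂, h₂⟩ hmax₂.1.1.2
      (hcentT _ (hQD D₂ hR₀D))
    obtain ⟨S_a, h_a, -, hc_a, hchainG⟩ := chain_of_T T ⟨D₂, h₂⟩ S₂ h_S hb_S hc_S _ hchain₀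
      (fun D hD => hcentT _ (hQD D hD))
    have heq₀ := corr_unique T _ S_a R₀ h_a e₀ hc_a ⟨hR₀T, hCR₀T, rfl⟩
    rw [heq₀] at hchainG
    have hR₀B : IsBrauerPairOf p M B R₀ e₀ :=
      (brauerPairOf_iff_of_subpairLE hM P R₀ e e₀ hle₀ B).mp hmax.1
    have hS₂B : IsBrauerPairOf p M B S₂ h_S :=
      (brauerPairOf_iff_of_subpairLE hM S₂ R₀ h_S e₀ hchainG B).mpr hR₀B
    obtain ⟨v, hv⟩ := conj_into_maximal hM B P S₂ e h_S hmax hS₂B
    have hv₀ : SubpairLE p M (R₀.map (MulAut.conj v).toMonoidHom) (conjBlock R₀ v e₀) P e :=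
      (subpairLE_conj (p := p) (M := M) v _ _ hchainG).trans hv
    have hR₀P : Nat.card R₀ ≤ Nat.card P :=
      Subgroup.card_le_of_le (chain_le ⟨R₀, e₀⟩ ⟨P, e⟩ hle₀)
    obtain ⟨u₀, hu₀, c₀, hc₀, hvdec⟩ := ih (Nat.card P - Nat.card R₀) (by omega) R₀ e₀ hle₀ rfl
      v hv₀
    -- the side of `x`
    have hQ₁ne : Q.map (MulAut.conj x).toMonoidHom ≠ P := by
      intro h
      rw [h] at hcardQ₁
      omega
    obtain ⟨R₁, e₁, hle₁, hn₁, hlt₁⟩ := exists_normal_above hM P e hPe _ _ hlex hQ₁ne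
    have hrel : NormalSubpairRel p M
        (cj x⁻¹ ⟨Q.map (MulAut.conj x).toMonoidHom, conjBlock Q x f⟩) (cj x⁻¹ ⟨R₁, e₁⟩) :=
      normalSubpair_conj (p := p) (M := M) x⁻¹ R₁ _ e₁ _ hn₁
    have hback : cj x⁻¹ ⟨Q.map (MulAut.conj x).toMonoidHom, conjBlock Q x f⟩ =
        (⟨Q, f⟩ : BrauerPairIdx G) := by
      have h1 := cj_one hM Q f hf
      obtain ⟨ξ, hξ⟩ := id hf
      subst hξ
      have h2 := cj_cj (M := M) x⁻¹ x Q ξ
      rw [inv_mul_cancel, h1] at h2
      exact h2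
    rw [hback] at hrel
    obtain ⟨b₂, hb₂⟩ : ∃ b₂ : BrauerPairIdx G, b₂ = cj x⁻¹ ⟨R₁, e₁⟩ := ⟨_, rfl⟩
    rw [← hb₂] at hrel
    obtain ⟨R₂, g₂⟩ := b₂
    have hn₂ : IsNormalSubpair p M Q f R₂ g₂ := hrel
    have hR₂T : R₂ ≤ T := fun r hr => (hT r).mpr ⟨hn₂.2.2.2.1 hr, hn₂.2.2.2.2.1 r hr⟩
    have hCR₂T := hcentT R₂ hn₂.2.2.1
    have hpair₂ := pair_of_normal_stab Q R₂ T f F hFb hF hR₂T hCR₂T g₂ hn₂
    obtain ⟨t, ht⟩ := conj_into_maximal hM F D₂ (R₂.subgroupOf T) h₂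
      (transportSet (centIso R₂ T hR₂T hCR₂T) g₂) hmax₂ hpair₂
    have hNn : ((Subgroup.centralizer (Q : Set G)).subgroupOf T).Normal :=
      Subgroup.normal_subgroupOf_of_le_normalizer
        (fun t ht => mem_normalizer_centralizer Q (hTN ht))
    obtain ⟨d, hd, c, hc, htdc⟩ := decomp_of_sup_top T _ D₂ hsup t
    have hchain₂ : Relation.ReflTransGen (NormalSubpairRel p M)
        (cj c ⟨R₂.subgroupOf T, transportSet (centIso R₂ T hR₂T hCR₂T) g₂⟩)
        (⟨D₂, h₂⟩ : BrauerPairIdx T) := by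
      have h1 := subpairLE_conj (p := p) (M := M) d⁻¹ _ _ ht
      have h2 : cj d⁻¹ (⟨D₂, h₂⟩ : BrauerPairIdx T) = ⟨D₂, h₂⟩ := by
        apply cj_eq_of_stab hM D₂ h₂ hmax₂.1.1.2 d⁻¹ (Subgroup.le_normalizer (D₂.inv_mem hd))
        have h3 := stab_mul D₂ h₂ d⁻¹ (D₂.inv_mem hd) 1 (Subgroup.one_mem _)
        rwa [mul_one] at h3
      have h4 : cj d⁻¹ (cj t ⟨R₂.subgroupOf T, transportSet (centIso R₂ T hR₂T hCR₂T) g₂⟩) =
          cj c ⟨R₂.subgroupOf T, transportSet (centIso R₂ T hR₂T hCR₂T) g₂⟩ := by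
        obtain ⟨ξ, hξ⟩ := hpair₂.1.2
        rw [hξ, cj_cj, htdc, inv_mul_cancel_left]
      rw [h2] at h1
      rw [← h4]
      exact h1
    obtain ⟨θ, hθ⟩ := hn₂.2.1.2
    subst hθ
    have hc₂ := corr_cj (M := M) T _ R₂ θ ⟨hR₂T, hCR₂T, rfl⟩ c
    have hcG : (c : G) ∈ Subgroup.centralizer (Q : Set G) := Subgroup.mem_subgroupOf.mp hc
    obtain ⟨S_a', h_a', -, hc_a', hchainG'⟩ := chain_of_T T ⟨D₂, h₂⟩ S₂ h_S hb_S hc_S _ hchain₂
      (fun D hD => hcentT _ (by
        intro q hq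
        refine Subgroup.mem_map.mpr ⟨⟨q, hQT hq⟩, hD ?_, rfl⟩
        show (⟨q, hQT hq⟩ : T) ∈ (R₂.subgroupOf T).map (MulAut.conj c).toMonoidHom
        rw [mem_map_conj, Subgroup.mem_subgroupOf]
        show (c : G)⁻¹ * q * (c : G) ∈ R₂
        have h1 : (c : G)⁻¹ * q * (c : G) = q := by
          have h2 := Subgroup.mem_centralizer_iff.mp hcG q hq
          rw [mul_assoc, h2, inv_mul_cancel_left]
        rw [h1]
        exact hn₂.2.2.1 hq))
    have heq₂ := corr_unique T _ S_a' _ h_a' _ hc_a' hc₂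
    rw [heq₂] at hchainG'
    have hfin : Relation.ReflTransGen (NormalSubpairRel p M)
        (cj v (cj (c : G) ⟨R₂, blockOf M (θ : Subgroup.centralizer (R₂ : Set G) → ℂ)⟩))
        (⟨P, e⟩ : BrauerPairIdx G) :=
      (subpairLE_conj (p := p) (M := M) v _ _ hchainG').trans hv
    rw [hb₂] at hfin
    obtain ⟨ξ₁, hξ₁⟩ := hn₁.2.1.2
    subst hξ₁
    rw [cj_cj, cj_cj] at hfin
    have hR₁P : Nat.card R₁ ≤ Nat.card P :=
      Subgroup.card_le_of_le (chain_le ⟨R₁, _⟩ ⟨P, e⟩ hle₁)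
    obtain ⟨u₁, hu₁, c₁, hc₁, hdec₁⟩ := ih (Nat.card P - Nat.card R₁) (by omega) R₁ _ hle₁ rfl
      (v * ((c : G) * x⁻¹)) hfin
    have hc₁Q : c₁ ∈ Subgroup.centralizer
        ((Q.map (MulAut.conj x).toMonoidHom : Subgroup G) : Set G) :=
      Subgroup.centralizer_le (SetLike.coe_subset_coe.mpr hn₁.2.2.1) hc₁
    have hc₂' : x⁻¹ * c₁ * x ∈ Subgroup.centralizer (Q : Set G) :=
      (mem_centralizer_map_conj Q x c₁).mp hc₁Q
    have hc₀Q : c₀ ∈ Subgroup.centralizer (Q : Set G) :=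
      Subgroup.centralizer_le (SetLike.coe_subset_coe.mpr hn₀.2.2.1) hc₀
    refine ⟨u₁⁻¹ * u₀, P.mul_mem (P.inv_mem hu₁) hu₀, c₀ * (c : G) * (x⁻¹ * c₁ * x)⁻¹,
      Subgroup.mul_mem _ (Subgroup.mul_mem _ hc₀Q hcG) (Subgroup.inv_mem _ hc₂'), ?_⟩
    have h1 : u₀ * c₀ * ((c : G) * x⁻¹) = u₁ * c₁ := by
      rw [← hvdec]
      exact hdec₁
    have h2 : c₁ = u₁⁻¹ * (u₀ * c₀ * ((c : G) * x⁻¹)) := by
      rw [h1]
      group
    rw [h2]
    group

end Fin

end Cfsg.Agent.Lib_helper3_NilFus
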