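import Mathlib
import Cfsg.Prelude.Def_Characters
import Cfsg.Prelude.Def_Blocks
import Cfsg.Prelude.Def_BlockLocal
import Cfsg.Prelude.Def_BrauerPairs
import Cfsg.Prelude.Def_BlockFusion
import Cfsg.Agent.Lib_helper3_NilFus

set_option autoImplicit false
open Cfsg
open Cfsg.Agent.Lib_helper3_CharBasic Cfsg.Agent.Lib_helper3_CharMore
  Cfsg.Agent.Lib_helper3_Local Cfsg.Agent.Lib_helper3_Local2 Cfsg.Agent.Lib_helper3_BlockAlg
  Cfsg.Agent.Lib_helper3_IdemSupp Cfsg.Agent.Lib_helper3_Residue
  Cfsg.Agent.Lib_helper3_BrauerHom Cfsg.Agent.Lib_helper3_BrauerHom2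
  Cfsg.Agent.Lib_helper3_BrauerHom3 Cfsg.Agent.Lib_helper3_ExtFirstMain
  Cfsg.Agent.Lib_helper3_BrauerPair Cfsg.Agent.Lib_helper3_NilPrincipal
  Cfsg.Agent.Lib_helper3_PrincipalPairs Cfsg.Agent.Lib_helper3_BrauerTrunc
  Cfsg.Agent.Lib_helper3_CharInd Cfsg.Agent.Lib_helper3_SecondMain3
  Cfsg.Agent.Lib_helper3_SubpairBlock Cfsg.Agent.Lib_helper3_NormalSubpair
  Cfsg.Agent.Lib_helper3_BlockCover Cfsg.Agent.Lib_helper3_BlockInd
  Cfsg.Agent.Lib_helper3_ThirdMain Cfsg.Agent.Lib_helper3_StableBlock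
  Cfsg.Agent.Lib_helper3_NormalPTrace Cfsg.Agent.Lib_helper3_SubpairUnique
  Cfsg.Agent.Lib_helper3_MaxPair Cfsg.Agent.Lib_helper3_ConjPair
  Cfsg.Agent.Lib_helper3_CentPair Cfsg.Agent.Lib_helper3_StabPair
  Cfsg.Agent.Lib_helper3_AbPair Cfsg.Agent.Lib_helper3_NilAb
  Cfsg.Agent.Lib_helper3_TPair Cfsg.Agent.Lib_helper3_NilFus
open scoped ComplexConjugate

namespace Cfsg.Agent.Lib_helper3_NilFus2

attribute [local instance] Ideal.Quotient.field

universe u

section Fin

variable {G : Type u} [Group G] [Fintype G] {M : Ideal AlgInt} {p : ℕ} [Fact p.Prime]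

/-- A block is nilpotent exactly when its fusion system is the inner fusion system. -/
theorem nil_iff_inner (hM : IsPModular p M) (B : Set (IrrCharacter G)) (P : Subgroup G)
    (e : Set (IrrCharacter (Subgroup.centralizer (P : Set G))))
    (hmax : IsMaximalBrauerPair p M B P e) (F : FusionSystem P)
    (hF : IsBlockFusionSystemOn p M B P e F) :
    IsNilpotentBlock p M B ↔ ∀ Q : Subgroup G, F.Hom Q = (innerFusionSystem P).Hom Q := by
  classical
  have hp : p.Prime := Fact.out
  have hPe : IsBrauerPair p M P e := hmax.1.1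
  constructor
  · intro hnil Q
    ext φ
    constructor
    · intro hφ
      obtain ⟨hQP, g, hg, -, f, hle, hleg⟩ := (hF.2 Q φ).mp hφ
      obtain ⟨u, hu, c, hc, hguc⟩ := nil_control hM B P e hmax hnil _ Q f hle rfl g hleg
      refine ⟨hQP, u, hu, fun q => ?_⟩
      rw [hg q, hguc]
      have h1 := Subgroup.mem_centralizer_iff.mp hc (q : G) q.2
      calc u * c * (q : G) * (u * c)⁻¹ = u * (c * (q : G)) * c⁻¹ * u⁻¹ := by group
        _ = u * ((q : G) * c) * c⁻¹ * u⁻¹ := by rw [← h1]
        _ = u * (q : G) * u⁻¹ := by group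
    · rintro ⟨hQP, g, hgP, h⟩
      have h1 : φ = conjHom Q g := MonoidHom.ext (fun u => h u)
      rw [h1]
      exact F.conj_mem hQP hgP
  · intro hinner
    refine ⟨hmax.1.2.1, ?_⟩
    intro Q f hQf x hxN hxst hreg
    obtain ⟨g, hg⟩ := conj_into_maximal hM B P Q e f hmax hQf
    have hf' : IsPBlock M (conjBlock Q g f) := by
      rw [conjBlock_eq]
      exact isPBlock_transport _ hQf.1.2
    have h4 : g⁻¹ * (g * x * g⁻¹) * g = x := by group
    have hx' : g * x * g⁻¹ ∈ Subgroup.normalizer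
        ((Q.map (MulAut.conj g).toMonoidHom : Subgroup G) : Set G) := by
      rw [mem_normalizer_map_conj, h4]
      exact hxN
    have hst' := stabilizes_conj Q g f x hxst
    have hfix := cj_eq_of_stab hM _ _ hf' (g * x * g⁻¹) hx' hst'
    have hQ'P : Q.map (MulAut.conj g).toMonoidHom ≤ P :=
      chain_le ⟨_, conjBlock Q g f⟩ ⟨P, e⟩ hg
    have hleg' : Relation.ReflTransGen (NormalSubpairRel p M)
        (cj (g * x * g⁻¹) ⟨Q.map (MulAut.conj g).toMonoidHom, conjBlock Q g f⟩)
        (⟨P, e⟩ : BrauerPairIdx G) := by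
      rw [hfix]
      exact hg
    have hφ : conjHom (Q.map (MulAut.conj g).toMonoidHom) (g * x * g⁻¹) ∈
        F.Hom (Q.map (MulAut.conj g).toMonoidHom) :=
      (hF.2 _ _).mpr ⟨hQ'P, g * x * g⁻¹, fun u => rfl, chain_le _ _ hleg', conjBlock Q g f, hg,
        hleg'⟩
    rw [hinner] at hφ
    obtain ⟨-, u, hu, hφu⟩ := hφ
    obtain ⟨a, ha⟩ : ∃ a : G, a = g * x * g⁻¹ := ⟨_, rfl⟩
    rw [← ha] at hx' hφu
    have hpow : ∀ (n : ℕ) (q : G), q ∈ Q.map (MulAut.conj g).toMonoidHom →
        a ^ n * q * (a ^ n)⁻¹ = u ^ n * q * (u ^ n)⁻¹ := by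
      intro n
      induction n with
      | zero =>
        intro q _
        simp
      | succ n ih =>
        intro q hq
        have hmem : u ^ n * q * (u ^ n)⁻¹ ∈ Q.map (MulAut.conj g).toMonoidHom := by
          rw [← ih q hq]
          exact (Subgroup.mem_normalizer_iff.mp (Subgroup.pow_mem _ hx' n) q).mp hq
        have h1 := hφu ⟨u ^ n * q * (u ^ n)⁻¹, hmem⟩
        have h2 : a * (u ^ n * q * (u ^ n)⁻¹) * a⁻¹ =
            u * (u ^ n * q * (u ^ n)⁻¹) * u⁻¹ := h1
        rw [pow_succ', pow_succ']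
        calc a * a ^ n * q * (a * a ^ n)⁻¹
            = a * (a ^ n * q * (a ^ n)⁻¹) * a⁻¹ := by group
          _ = a * (u ^ n * q * (u ^ n)⁻¹) * a⁻¹ := by rw [ih q hq]
          _ = u * (u ^ n * q * (u ^ n)⁻¹) * u⁻¹ := h2
          _ = u * u ^ n * q * (u * u ^ n)⁻¹ := by group
    obtain ⟨j, hj⟩ := hPe.1 ⟨u, hu⟩
    have huj : u ^ (p ^ j) = 1 := by
      have h1 := congrArg Subtype.val hj
      simpa using h1
    have hxj : a ^ (p ^ j) ∈ Subgroup.centralizer
        ((Q.map (MulAut.conj g).toMonoidHom : Subgroup G) : Set G) := by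
      rw [Subgroup.mem_centralizer_iff]
      intro q hq
      have h1 := hpow (p ^ j) q hq
      rw [huj] at h1
      have h2 : a ^ (p ^ j) * q * (a ^ (p ^ j))⁻¹ = q := by
        rw [h1]
        group
      calc q * a ^ (p ^ j)
          = (a ^ (p ^ j) * q * (a ^ (p ^ j))⁻¹) * a ^ (p ^ j) := by rw [h2]
        _ = a ^ (p ^ j) * q := by group
    have hxm : a ^ (orderOf x) ∈ Subgroup.centralizer
        ((Q.map (MulAut.conj g).toMonoidHom : Subgroup G) : Set G) := by
      rw [ha, conj_pow, pow_orderOf_eq_one, mul_one, mul_inv_cancel]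
      exact Subgroup.one_mem _
    have hcop : Nat.Coprime (p ^ j) (orderOf x) :=
      Nat.Coprime.pow_left j ((Nat.Prime.coprime_iff_not_dvd hp).mpr hreg)
    have h2 := mem_of_pow_mem_coprime _ a _ _ hcop hxj hxm
    rw [ha] at h2
    have h3 := (mem_centralizer_map_conj Q g _).mp h2
    rwa [h4] at h3

/-- Local blocks of a nilpotent block are nilpotent, with defect groups the centralizers in the
defect group. -/
theorem nil_local (hM : IsPModular p M) (B : Set (IrrCharacter G)) (P : Subgroup G)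
    (e : Set (IrrCharacter (Subgroup.centralizer (P : Set G))))
    (hmax : IsMaximalBrauerPair p M B P e) (hnil : IsNilpotentBlock p M B) (Q : Subgroup G)
    (f : Set (IrrCharacter (Subgroup.centralizer (Q : Set G))))
    (hQf : IsBrauerPairOf p M B Q f) :
    IsNilpotentBlock p M f ∧ (SubpairLE p M Q f P e → IsDefectGroup p M f
      ((P ⊓ Subgroup.centralizer (Q : Set G)).subgroupOf
        (Subgroup.centralizer (Q : Set G)))) := by
  classical
  have instC : Fintype (Subgroup.centralizer (Q : Set G)) := Fintype.ofFinite _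
  have hf : IsPBlock M f := hQf.1.2
  constructor
  · refine ⟨hf, ?_⟩
    intro D h hDh c hcN hcst hcreg
    have hfix := cj_eq_of_stab hM D h hDh.1.2 c hcN hcst
    obtain ⟨θ, hθ⟩ := id hDh.1.2
    subst hθ
    have h1 := congrArg (lift Q) hfix
    rw [lift_cj] at h1
    have h2 := stab_of_cj_eq (Q ⊔ D.map (Subgroup.centralizer (Q : Set G)).subtype)
      (transportSet (kIso Q D).symm (blockOf M
        (θ : Subgroup.centralizer (D : Set ↥(Subgroup.centralizer (Q : Set G))) → ℂ)))
      (c : G) h1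
    have hg'b : IsPBlock M (transportSet (kIso Q D).symm (blockOf M
        (θ : Subgroup.centralizer (D : Set ↥(Subgroup.centralizer (Q : Set G))) → ℂ))) :=
      isPBlock_transport _ hDh.1.2
    have hback : transportSet (kIso Q D) (transportSet (kIso Q D).symm (blockOf M
        (θ : Subgroup.centralizer (D : Set ↥(Subgroup.centralizer (Q : Set G))) → ℂ))) =
        blockOf M (θ : Subgroup.centralizer (D : Set ↥(Subgroup.centralizer (Q : Set G))) → ℂ) :=
      transport_symm_cancel _ _
    have hn : IsNormalSubpair p M Q f (Q ⊔ D.map (Subgroup.centralizer (Q : Set G)).subtype)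
        (transportSet (kIso Q D).symm (blockOf M
          (θ : Subgroup.centralizer (D : Set ↥(Subgroup.centralizer (Q : Set G))) → ℂ))) :=
      normal_of_brauerPairOf Q hQf.1.1 D f _ hg'b (by
        rw [hback]
        exact hDh)
    have hSB := brauerPairOf_of_normalSubpair hM _ Q _ f hn B hQf
    have h3 := hnil.2 _ _ hSB (c : G) h2.1 h2.2 (by
      show ¬ p ∣ orderOf (c : G)
      rw [Subgroup.orderOf_coe]
      exact hcreg)
    rw [Subgroup.mem_centralizer_iff]
    intro d hd
    apply Subtype.ext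
    exact Subgroup.mem_centralizer_iff.mp h3 (d : G)
      (Subgroup.mem_sup_right (Subgroup.mem_map.mpr ⟨d, hd, rfl⟩))
  · intro hle
    obtain ⟨⟨D, hDdef, hDle⟩, x, hlex, hDx⟩ := subpair_cent hM B P Q e f hmax hf hle
    obtain ⟨u, hu, c, hc, hxuc⟩ := nil_control hM B P e hmax hnil _ Q f hle rfl x hlex
    have hfx : IsPBlock M (conjBlock Q x f) := by
      rw [conjBlock_eq]
      exact isPBlock_transport _ hf
    have instCx : Fintype (Subgroup.centralizer
        ((Q.map (MulAut.conj x).toMonoidHom : Subgroup G) : Set G)) := Fintype.ofFinite _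
    have hc3 := Cfsg.Agent.S0908.result p M hM (conjBlock Q x f) hfx _ hDx
    have hc2 := Cfsg.Agent.S0908.result p M hM f hf D hDdef
    have hdef : blockDefect p (conjBlock Q x f) = blockDefect p f := by
      rw [conjBlock_eq]
      exact blockDefect_transport p _ f
    have hsub : (P ⊓ Subgroup.centralizer
        ((Q.map (MulAut.conj x).toMonoidHom : Subgroup G) : Set G)).map
        (MulAut.conj u⁻¹).toMonoidHom ≤ P ⊓ Subgroup.centralizer (Q : Set G) := by
      intro y hy
      rw [mem_map_conj] at hy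
      have hyP : u⁻¹⁻¹ * y * u⁻¹ ∈ P := hy.1
      have hyC : u⁻¹⁻¹ * y * u⁻¹ ∈ Subgroup.centralizer
          ((Q.map (MulAut.conj x).toMonoidHom : Subgroup G) : Set G) := hy.2
      rw [mem_centralizer_map_conj] at hyC
      refine ⟨?_, ?_⟩
      · have h1 : y = u⁻¹ * (u⁻¹⁻¹ * y * u⁻¹) * u := by group
        rw [h1]
        exact P.mul_mem (P.mul_mem (P.inv_mem hu) hyP) hu
      · have h1 : y = c * (x⁻¹ * (u⁻¹⁻¹ * y * u⁻¹) * x) * c⁻¹ := by
          rw [hxuc]
          group
        rw [h1]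
        exact Subgroup.mul_mem _ (Subgroup.mul_mem _ hc hyC) (Subgroup.inv_mem _ hc)
    have hcard : Nat.card D ≤ Nat.card
        ((P ⊓ Subgroup.centralizer (Q : Set G)).subgroupOf
          (Subgroup.centralizer (Q : Set G))) := by
      have h1 := Subgroup.card_le_of_le hsub
      rw [Subgroup.card_map_of_injective (MulEquiv.injective _)] at h1
      rw [Nat.card_congr (Subgroup.subgroupOfEquivOfLe inf_le_right).toEquiv, hc2, ← hdef,
        ← hc3, Nat.card_congr (Subgroup.subgroupOfEquivOfLe inf_le_right).toEquiv]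
      exact h1
    have heq := Subgroup.eq_of_le_of_card_ge hDle hcard
    rw [heq]
    exact hDdef

end Fin

end Cfsg.Agent.Lib_helper3_NilFus2
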