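import Mathlib
import Cfsg.Prelude.Def_Characters
import Cfsg.Prelude.Def_Blocks
import Cfsg.Prelude.Def_BlockLocal
import Cfsg.Prelude.Def_BrauerPairs
import Cfsg.Prelude.Def_BlockFusion
import Cfsg.Agent.Lib_helper3_NilFus2
import Cfsg.Agent.Lib_helper3_FusPair
import Cfsg.Agent.S4654

set_option autoImplicit false
open Cfsg
open Cfsg.Agent.Lib_helper3_CharBasic Cfsg.Agent.Lib_helper3_CharMore
  Cfsg.Agent.Lib_helper3_Local Cfsg.Agent.Lib_helper3_Local2 Cfsg.Agent.Lib_helper3_BlockAlg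
  Cfsg.Agent.Lib_helper3_IdemSupp Cfsg.Agent.Lib_helper3_Residue
  Cfsg.Agent.Lib_helper3_BrauerHom Cfsg.Agent.Lib_helper3_BrauerHom2
  Cfsg.Agent.Lib_helper3_BrauerHom3 Cfsg.Agent.Lib_helper3_ExtFirstMain
  Cfsg.Agent.Lib_helper3_BrauerPair Cfsg.Agent.Lib_helper3_NilPrincipal
  Cfsg.Agent.Lib_helper3_PrincipalPairs Cfsg.Agent.Lib_helper3_BrauerTrunc
  Cfsg.Agent.Lib_helper3_CharInd Cfsg.Agent.Lib_helper3_SecondMain3
  Cfsg.Agent.Lib_helper3_SubpairBlock Cfsg.Agent.Lib_helper3_NormalSubpair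
  Cfsg.Agent.Lib_helper3_BlockCover Cfsg.Agent.Lib_helper3_BlockInd
  Cfsg.Agent.Lib_helper3_ThirdMain Cfsg.Agent.Lib_helper3_StableBlock
  Cfsg.Agent.Lib_helper3_NormalPTrace Cfsg.Agent.Lib_helper3_SubpairUnique
  Cfsg.Agent.Lib_helper3_MaxPair Cfsg.Agent.Lib_helper3_ConjPair
  Cfsg.Agent.Lib_helper3_CentPair Cfsg.Agent.Lib_helper3_StabPair
  Cfsg.Agent.Lib_helper3_AbPair Cfsg.Agent.Lib_helper3_NilAb
  Cfsg.Agent.Lib_helper3_TPair Cfsg.Agent.Lib_helper3_NilFus
  Cfsg.Agent.Lib_helper3_NilFus2 Cfsg.Agent.Lib_helper3_FusPair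
open scoped ComplexConjugate

namespace Cfsg.Agent.Lib_helper3_CentricNil

attribute [local instance] Ideal.Quotient.field

universe u

section Grp

variable {H : Type u} [Group H] {p : ℕ} [Fact p.Prime]

/-- An element of order prime to `p` acting on `R` like an element of `p`-power order
centralizes `R`. -/
theorem cent_of_conj_eq (R : Subgroup H) (a u : H)
    (ha : a ∈ Subgroup.normalizer (R : Set H)) (j : ℕ) (hu : u ^ (p ^ j) = 1)
    (h : ∀ r ∈ R, a * r * a⁻¹ = u * r * u⁻¹) (hreg : ¬ p ∣ orderOf a) :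
    a ∈ Subgroup.centralizer (R : Set H) := by
  have hp : p.Prime := Fact.out
  have hpow : ∀ (n : ℕ) (q : H), q ∈ R → a ^ n * q * (a ^ n)⁻¹ = u ^ n * q * (u ^ n)⁻¹ := by
    intro n
    induction n with
    | zero =>
      intro q _
      simp
    | succ n ih =>
      intro q hq
      have hmem : u ^ n * q * (u ^ n)⁻¹ ∈ R := by
        rw [← ih q hq]
        exact (Subgroup.mem_normalizer_iff.mp (Subgroup.pow_mem _ ha n) q).mp hq
      have h2 := h _ hmem
      rw [pow_succ', pow_succ']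
      calc a * a ^ n * q * (a * a ^ n)⁻¹
          = a * (a ^ n * q * (a ^ n)⁻¹) * a⁻¹ := by group
        _ = a * (u ^ n * q * (u ^ n)⁻¹) * a⁻¹ := by rw [ih q hq]
        _ = u * (u ^ n * q * (u ^ n)⁻¹) * u⁻¹ := h2
        _ = u * u ^ n * q * (u * u ^ n)⁻¹ := by group
  have hxj : a ^ (p ^ j) ∈ Subgroup.centralizer (R : Set H) := by
    rw [Subgroup.mem_centralizer_iff]
    intro q hq
    have h1 := hpow (p ^ j) q hq
    rw [hu] at h1
    have h2 : a ^ (p ^ j) * q * (a ^ (p ^ j))⁻¹ = q := by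
      rw [h1]
      group
    calc q * a ^ (p ^ j)
        = (a ^ (p ^ j) * q * (a ^ (p ^ j))⁻¹) * a ^ (p ^ j) := by rw [h2]
      _ = a ^ (p ^ j) * q := by group
  have hxm : a ^ (orderOf a) ∈ Subgroup.centralizer (R : Set H) := by
    rw [pow_orderOf_eq_one]
    exact Subgroup.one_mem _
  have hcop : Nat.Coprime (p ^ j) (orderOf a) :=
    Nat.Coprime.pow_left j ((Nat.Prime.coprime_iff_not_dvd hp).mpr hreg)
  exact mem_of_pow_mem_coprime _ a _ _ hcop hxj hxm

omit [Fact p.Prime] in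
theorem coeff_eq_of_idx_eq (a b : BrauerPairIdx H) (h : a = b) (g : H) :
    subgroupBlockCoeff (Subgroup.centralizer (a.1 : Set H)) a.2 g =
      subgroupBlockCoeff (Subgroup.centralizer (b.1 : Set H)) b.2 g := by
  subst h
  rfl

end Grp

section Fin

variable {G : Type u} [Group G] [Fintype G] {M : Ideal AlgInt} {p : ℕ} [Fact p.Prime]

theorem centric_nil (hM : IsPModular p M) (B : Set (IrrCharacter G)) (P : Subgroup G)
    (e : Set (IrrCharacter (Subgroup.centralizer (P : Set G))))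
    (hmax : IsMaximalBrauerPair p M B P e) (F : FusionSystem P)
    (hF : IsBlockFusionSystemOn p M B P e F) (Q : Subgroup G)
    (f : Set (IrrCharacter (Subgroup.centralizer (Q : Set G)))) (hQP : Q ≤ P)
    (hf : IsPBlock M f) (hle : SubpairLE p M Q f P e) (hcen : F.IsCentric Q)
    (hG : ∀ x : G, x ∈ Subgroup.normalizer (Q : Set G) ∧
      StabilizesBlock (Subgroup.centralizer (Q : Set G)) f x) :
    (∀ g : G, MemLocalIdeal M (blockCoeff B g -
      subgroupBlockCoeff (Subgroup.centralizer (Q : Set G)) f g)) ∧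
    ∃ F' : Set (IrrCharacter ↥(Q ⊔ Subgroup.centralizer (Q : Set G))), IsPBlock M F' ∧
      (∀ t : ↥(Q ⊔ Subgroup.centralizer (Q : Set G)), blockCoeff F' t =
        subgroupBlockCoeff (Subgroup.centralizer (Q : Set G)) f (t : G)) ∧
      IsNilpotentBlock p M F' := by
  classical
  have hMtop : M ≠ ⊤ := hM.2.1.ne_top
  have hPe : IsBrauerPair p M P e := hmax.1.1
  have hQf : IsBrauerPair p M Q f := chain_brauerPair ⟨Q, f⟩ ⟨P, e⟩ hle hPe
  have hBQf : IsBrauerPairOf p M B Q f :=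
    (brauerPairOf_iff_of_subpairLE hM P Q e f hle B).mp hmax.1
  constructor
  · have hQn : Q.Normal :=
      ⟨fun n hn g => (Subgroup.mem_normalizer_iff.mp (hG g).1 n).mp hn⟩
    have hT : ∀ x : G, x ∈ (⊤ : Subgroup G) ↔
        StabilizesBlock (Subgroup.centralizer (Q : Set G)) f x :=
      fun x => ⟨fun _ => (hG x).2, fun _ => Subgroup.mem_top x⟩
    have h1 := (Cfsg.Agent.S4654.result p M hM Q hQf.1 B f hBQf ⊤ hT).2
    have hinv : ∀ x g : G, subgroupBlockCoeff (Subgroup.centralizer (Q : Set G)) f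
        (x⁻¹ * g * x) = subgroupBlockCoeff (Subgroup.centralizer (Q : Set G)) f g := by
      intro x g
      rw [← subgroupBlockCoeff_conj Q x f g]
      exact coeff_eq_of_idx_eq _ _ (cj_eq_of_stab hM Q f hf x (hG x).1 (hG x).2) g
    intro g
    have h2 : blockCoeff B g = subgroupBlockCoeff (Subgroup.centralizer (Q : Set G)) f g := by
      rw [h1 g, Finset.sum_congr rfl (fun x _ => hinv x g), Finset.sum_const, Finset.card_univ,
        nsmul_eq_mul, Subgroup.card_top, Nat.card_eq_fintype_card, ← mul_assoc,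
        inv_mul_cancel₀, one_mul]
      exact Nat.cast_ne_zero.mpr Fintype.card_ne_zero
    rw [h2, sub_self]
    exact memLocalIdeal_zero hMtop
  · have hQL : Q ≤ Q ⊔ Subgroup.centralizer (Q : Set G) := le_sup_left
    have hCL : Subgroup.centralizer (Q : Set G) ≤ Q ⊔ Subgroup.centralizer (Q : Set G) :=
      le_sup_right
    have hLN : Q ⊔ Subgroup.centralizer (Q : Set G) ≤ Subgroup.normalizer (Q : Set G) :=
      sup_le Subgroup.le_normalizer (Cfsg.Agent.Lib_helper3_FirstMain.centralizer_le_normalizer' Q)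
    have hstab : ∀ t ∈ Q ⊔ Subgroup.centralizer (Q : Set G),
        StabilizesBlock (Subgroup.centralizer (Q : Set G)) f t := fun t _ => (hG t).2
    have instL : Fintype ↥(Q ⊔ Subgroup.centralizer (Q : Set G)) := Fintype.ofFinite _
    obtain ⟨F', hF'b, hF'⟩ := exists_block_stab hM Q f hQf _ hQL hCL hLN hstab
    refine ⟨F', hF'b, hF', hF'b, ?_⟩
    have hpair₀ := pair_of_normal_stab Q Q _ f F' hF'b hF' hQL hCL f (normalSubpair_refl hM Q f hQf)
    obtain ⟨⟨D', h'⟩, hmax', hchain'⟩ := exists_maximal_above (p := p) (M := M) F' _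
      ⟨Q.subgroupOf (Q ⊔ Subgroup.centralizer (Q : Set G)),
        transportSet (centIso Q _ hQL hCL) f⟩ hpair₀ rfl
    have hQD' : Q.subgroupOf (Q ⊔ Subgroup.centralizer (Q : Set G)) ≤ D' := chain_le _ _ hchain'
    obtain ⟨S, hS⟩ : ∃ S : Subgroup G,
        S = D'.map (Q ⊔ Subgroup.centralizer (Q : Set G)).subtype := ⟨_, rfl⟩
    have hQS : Q ≤ S := by
      intro u hu
      rw [hS]
      exact Subgroup.mem_map.mpr ⟨⟨u, hQL hu⟩, hQD' (Subgroup.mem_subgroupOf.mpr hu), rfl⟩
    have hSL : S ≤ Q ⊔ Subgroup.centralizer (Q : Set G) := by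
      rw [hS]
      exact Subgroup.map_subtype_le D'
    have hCSL : Subgroup.centralizer (S : Set G) ≤ Q ⊔ Subgroup.centralizer (Q : Set G) :=
      (Subgroup.centralizer_le (SetLike.coe_subset_coe.mpr hQS)).trans hCL
    have hD : D' = S.subgroupOf (Q ⊔ Subgroup.centralizer (Q : Set G)) := by
      rw [hS]
      exact (Subgroup.comap_map_eq_self_of_injective (Subgroup.subtype_injective _) D').symm
    obtain ⟨h, hn⟩ := exists_normal_of_pair Q f hQf _ hLN hstab F' hF' D' h' hmax'.1 S hQS hSL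
      hCSL hD
    have hSB := brauerPairOf_of_normalSubpair hM S Q h f hn B hBQf
    obtain ⟨v, hv⟩ := conj_into_maximal hM B P S e h hmax hSB
    have hQv : SubpairLE p M (Q.map (MulAut.conj v).toMonoidHom) (conjBlock Q v f) P e :=
      Relation.ReflTransGen.head
        (show NormalSubpairRel p M ⟨Q.map (MulAut.conj v).toMonoidHom, conjBlock Q v f⟩
          ⟨_, conjBlock S v h⟩ from normalSubpair_conj (p := p) (M := M) v S Q h f hn) hv
    have hconj := isConj_of_le B P e F hF Q f hQP hle v hQv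
    have hcv := hcen.2 _ hconj
    have hSvP : S.map (MulAut.conj v).toMonoidHom ≤ P := chain_le ⟨_, conjBlock S v h⟩ ⟨P, e⟩ hv
    have hSQ : S ≤ Q := by
      intro s hs
      obtain ⟨q, hq, c, hc, hsqc⟩ := mem_sup_comm Q (Subgroup.centralizer (Q : Set G))
        (fun q hq d hd => Subgroup.mem_centralizer_iff.mp hd q hq) (hSL hs)
      have hcS : c ∈ S := by
        have h1 : c = q⁻¹ * s := by
          rw [hsqc]
          group
        rw [h1]
        exact S.mul_mem (S.inv_mem (hQS hq)) hs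
      have h2 : v⁻¹ * (v * c * v⁻¹) * v = c := by group
      have h3 : v * c * v⁻¹ ∈ P := hSvP ((mem_map_conj S v _).mpr (by rw [h2]; exact hcS))
      have h4 : v * c * v⁻¹ ∈ Subgroup.centralizer
          ((Q.map (MulAut.conj v).toMonoidHom : Subgroup G) : Set G) :=
        (mem_centralizer_map_conj Q v _).mpr (by rw [h2]; exact hc)
      have h5 : v * c * v⁻¹ ∈ Q.map (MulAut.conj v).toMonoidHom := hcv ⟨h3, h4⟩
      have h6 := (mem_map_conj Q v _).mp h5
      rw [h2] at h6
      rw [hsqc]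
      exact Q.mul_mem hq h6
    have hSeq : S = Q := le_antisymm hSQ hQS
    have hD'eq : D' = Q.subgroupOf (Q ⊔ Subgroup.centralizer (Q : Set G)) := by rw [hD, hSeq]
    have hQdef : IsDefectGroup p M F' (Q.subgroupOf (Q ⊔ Subgroup.centralizer (Q : Set G))) := by
      rw [← hD'eq]
      exact defect_of_maximal hM F' D' h' hmax'
    have hQLn : (Q.subgroupOf (Q ⊔ Subgroup.centralizer (Q : Set G))).Normal :=
      Subgroup.normal_subgroupOf_of_le_normalizer hLN
    have hB1 : ∀ (R' : Subgroup ↥(Q ⊔ Subgroup.centralizer (Q : Set G)))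
        (g' : Set (IrrCharacter (Subgroup.centralizer (R' : Set ↥(Q ⊔ Subgroup.centralizer (Q : Set G)))))),
        IsBrauerPairOf p M F' R' g' →
        R' ≤ Q.subgroupOf (Q ⊔ Subgroup.centralizer (Q : Set G)) := by
      intro R' g' hR'
      obtain ⟨⟨D'', h''⟩, hmax'', hchain''⟩ := exists_maximal_above (p := p) (M := M) F' _
        ⟨R', g'⟩ hR' rfl
      have hdef'' : IsDefectGroup p M F' D'' := defect_of_maximal hM F' D'' h'' hmax''
      obtain ⟨l, hl⟩ := defect_conj hM F' hF'b D'' _ hdef'' hQdef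
      have hR'D : R' ≤ D'' := chain_le _ _ hchain''
      intro y hy
      have h1 : l * y * l⁻¹ ∈ D''.map (MulAut.conj l).toMonoidHom := by
        rw [mem_map_conj]
        have h2 : l⁻¹ * (l * y * l⁻¹) * l = y := by group
        rw [h2]
        exact hR'D hy
      rw [hl] at h1
      have h3 := hQLn.conj_mem _ h1 l⁻¹
      have h4 : l⁻¹ * (l * y * l⁻¹) * l⁻¹⁻¹ = y := by group
      rw [h4] at h3
      exact h3
    intro R' g' hR' x hxN hxst hxreg
    have hR'Q := hB1 R' g' hR'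
    obtain ⟨q, hq, c, hc, hxqc⟩ := mem_sup_comm Q (Subgroup.centralizer (Q : Set G))
      (fun q hq d hd => Subgroup.mem_centralizer_iff.mp hd q hq) x.2
    obtain ⟨j, hj⟩ := hQf.1 ⟨q, hq⟩
    have hqj : q ^ (p ^ j) = 1 := by
      have h1 := congrArg Subtype.val hj
      simpa using h1
    refine cent_of_conj_eq (p := p) R' x ⟨q, hQL hq⟩ hxN j (Subtype.ext (by
      show q ^ (p ^ j) = 1
      exact hqj)) ?_ hxreg
    intro r hr
    apply Subtype.ext
    show (x : G) * (r : G) * (x : G)⁻¹ = q * (r : G) * q⁻¹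
    have hrQ : (r : G) ∈ Q := Subgroup.mem_subgroupOf.mp (hR'Q hr)
    have h1 := Subgroup.mem_centralizer_iff.mp hc (r : G) hrQ
    rw [hxqc]
    calc q * c * (r : G) * (q * c)⁻¹ = q * (c * (r : G)) * c⁻¹ * q⁻¹ := by group
      _ = q * ((r : G) * c) * c⁻¹ * q⁻¹ := by rw [← h1]
      _ = q * (r : G) * q⁻¹ := by group

end Fin

end Cfsg.Agent.Lib_helper3_CentricNil
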