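import Mathlib
import Cfsg.Prelude.Def_Characters
import Cfsg.Agent.Lib_helper3_CharBasic
import Cfsg.Agent.Lib_helper3_CharMore
import Cfsg.Agent.Lib_helper3_CharDiag
import Cfsg.Agent.Lib_helper3_CharInd
import Cfsg.Agent.Lib_helper3_Galois2
import Cfsg.Agent.Lib_helper3_CharAvg

set_option autoImplicit false

namespace Cfsg.Agent.Lib_helper3_CharAvg2

open Cfsg
open Cfsg.Agent.Lib_helper3_CharBasic Cfsg.Agent.Lib_helper3_CharDiag
open Cfsg.Agent.Lib_helper3_CharMore
open Cfsg.Agent.Lib_helper3_Galois2 Cfsg.Agent.Lib_helper3_CharInd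
open Cfsg.Agent.Lib_helper3_CharAvg
open scoped ComplexConjugate

universe u v

variable {G : Type u} [Group G]

/-- A character of degree zero vanishes. -/
theorem isCharacter_eq_zero {χ : G → ℂ} (hχ : IsCharacter G χ) (h1 : χ 1 = 0) : χ = 0 := by
  obtain ⟨k, ρ, rfl⟩ := hχ
  rw [Representation.char_one] at h1
  have hk : Module.finrank ℂ (Fin k → ℂ) = 0 := by exact_mod_cast h1
  have hsub : Subsingleton (Fin k → ℂ) := Module.finrank_zero_iff.mp hk
  funext g
  have : ρ g = 0 := LinearMap.ext fun v => Subsingleton.elim _ _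
  simp [Representation.character, this]

/-- A character of degree one is irreducible. -/
theorem isIrrCharacter_of_degree_one {χ : G → ℂ} (hχ : IsCharacter G χ) (h1 : χ 1 = 1) :
    IsIrrCharacter G χ := by
  obtain ⟨k, ρ, rfl⟩ := hχ
  rw [Representation.char_one] at h1
  have hk : Module.finrank ℂ (Fin k → ℂ) = 1 := by exact_mod_cast h1
  exact ⟨k, ρ, irreducible_of_finrank_eq_one ρ hk, rfl⟩

theorem sum_avgFun [Fintype G] (N : Subgroup G) [Fintype N] (f : G → ℂ) :
    ∑ x : G, avgFun N f x = ∑ x : G, f x := by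
  simp only [avgFun_apply]
  rw [← Finset.mul_sum, Finset.sum_comm]
  have : ∀ n : N, ∑ x : G, f (x * (n : G)) = ∑ x : G, f x := by
    intro n
    exact Fintype.sum_equiv (Equiv.mulRight (n : G)) _ _ (fun x => rfl)
  rw [Finset.sum_congr rfl (fun n _ => this n), Finset.sum_const, Finset.card_univ,
    nsmul_eq_mul, ← Nat.card_eq_fintype_card]
  have hN0 : (Nat.card N : ℂ) ≠ 0 := by
    exact_mod_cast (Nat.card_pos (α := N)).ne'
  field_simp

/-- If the restriction of an irreducible character to a normal subgroup is irreducible, then the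
coset average of its squared absolute value is identically one. -/
theorem avgFun_mul_conj_eq_one [Fintype G] (N : Subgroup G) [N.Normal] [Fintype N] {χ : G → ℂ}
    (hχ : IsIrrCharacter G χ) (hχN : IsIrrCharacter N (fun n : N => χ n)) :
    avgFun N (χ * fun g => conj (χ g)) = fun _ => 1 := by
  classical
  have hχc := isCharacter_of_irr hχ
  have hψ : IsCharacter G (χ * fun g => conj (χ g)) := isCharacter_mul hχc (isCharacter_conj hχc)
  have hΦ := isCharacter_avgFun N hψ
  set Φ := avgFun N (χ * fun g => conj (χ g)) with hΦdef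
  have h1 : Φ 1 = 1 := by
    have := irr_inner_self hχN
    rw [classInner_def] at this
    rw [hΦdef, avgFun_apply]
    simpa using this
  have hirr := isIrrCharacter_of_degree_one hΦ h1
  have hinner : classInner Φ (fun _ => 1) = 1 := by
    rw [classInner_def]
    simp only [map_one, mul_one]
    rw [hΦdef, sum_avgFun]
    have := irr_inner_self hχ
    rw [classInner_def] at this
    exact this
  by_contra hne
  rw [irr_inner_ne hirr isIrrCharacter_one hne] at hinner
  exact zero_ne_one hinner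

/-- Coset average against an extension: irreducibility. -/
theorem avgFun_mul_conj_irr [Fintype G] (N : Subgroup G) [N.Normal] [Fintype N] {χ ψ : G → ℂ}
    (hχ : IsIrrCharacter G χ) (hχN : IsIrrCharacter N (fun n : N => χ n))
    (hψ : IsIrrCharacter G ψ)
    (hne : classInner (fun n : N => ψ n) (fun n : N => χ n) ≠ 0) :
    IsIrrCharacter G (avgFun N (ψ * fun g => conj (χ g))) := by
  classical
  have hχc := isCharacter_of_irr hχ
  have hψc := isCharacter_of_irr hψ
  have hη : IsCharacter G (avgFun N (ψ * fun g => conj (χ g))) :=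
    isCharacter_avgFun N (isCharacter_mul hψc (isCharacter_conj hχc))
  set η := avgFun N (ψ * fun g => conj (χ g)) with hηdef
  have hN0 : (0 : ℝ) < (Nat.card N : ℝ) := by exact_mod_cast (Nat.card_pos (α := N))
  have hG0 : (0 : ℝ) < (Nat.card G : ℝ) := by exact_mod_cast (Nat.card_pos (α := G))
  have hone := avgFun_mul_conj_eq_one N hχ hχN
  have hχavg : ∀ x : G, (Nat.card N : ℝ)⁻¹ * ∑ n : N, ‖χ (x * (n : G))‖ ^ 2 = 1 := by
    intro x
    have h := congrFun hone x
    simp only [avgFun_apply, Pi.mul_apply, Complex.mul_conj'] at h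
    have h' : (((Nat.card N : ℝ)⁻¹ * ∑ n : N, ‖χ (x * (n : G))‖ ^ 2 : ℝ) : ℂ) = 1 := by
      push_cast
      exact h
    exact_mod_cast h'
  have hbound : ∀ x : G, ‖η x‖ ^ 2 ≤ (Nat.card N : ℝ)⁻¹ * ∑ n : N, ‖ψ (x * (n : G))‖ ^ 2 := by
    intro x
    have h1 : ‖η x‖ ≤ (Nat.card N : ℝ)⁻¹ * ∑ n : N, ‖ψ (x * (n : G))‖ * ‖χ (x * (n : G))‖ := by
      rw [hηdef, avgFun_apply, norm_mul, norm_inv, Complex.norm_natCast]
      apply mul_le_mul_of_nonneg_left _ (inv_nonneg.mpr hN0.le)
      calc ‖∑ n : N, (ψ * fun g => conj (χ g)) (x * (n : G))‖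
          ≤ ∑ n : N, ‖(ψ * fun g => conj (χ g)) (x * (n : G))‖ := norm_sum_le _ _
        _ = ∑ n : N, ‖ψ (x * (n : G))‖ * ‖χ (x * (n : G))‖ := by
          apply Finset.sum_congr rfl
          intro n _
          simp [Pi.mul_apply]
    have h2 := Finset.sum_mul_sq_le_sq_mul_sq (Finset.univ : Finset N)
      (fun n => ‖ψ (x * (n : G))‖) (fun n => ‖χ (x * (n : G))‖)
    have h3 := hχavg x
    have h4 : ∑ n : N, ‖χ (x * (n : G))‖ ^ 2 = (Nat.card N : ℝ) := by
      field_simp at h3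
      linarith
    rw [h4] at h2
    have h5 : 0 ≤ ∑ n : N, ‖ψ (x * (n : G))‖ * ‖χ (x * (n : G))‖ :=
      Finset.sum_nonneg (fun n _ => by positivity)
    have h6 : ‖η x‖ ^ 2
        ≤ ((Nat.card N : ℝ)⁻¹ * ∑ n : N, ‖ψ (x * (n : G))‖ * ‖χ (x * (n : G))‖) ^ 2 :=
      pow_le_pow_left₀ (norm_nonneg _) h1 2
    calc ‖η x‖ ^ 2
        ≤ ((Nat.card N : ℝ)⁻¹ * ∑ n : N, ‖ψ (x * (n : G))‖ * ‖χ (x * (n : G))‖) ^ 2 := h6
      _ = ((Nat.card N : ℝ)⁻¹) ^ 2 * (∑ n : N, ‖ψ (x * (n : G))‖ * ‖χ (x * (n : G))‖) ^ 2 := by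
          ring
      _ ≤ ((Nat.card N : ℝ)⁻¹) ^ 2 * ((∑ n : N, ‖ψ (x * (n : G))‖ ^ 2) * (Nat.card N : ℝ)) :=
          mul_le_mul_of_nonneg_left h2 (by positivity)
      _ = (Nat.card N : ℝ)⁻¹ * ∑ n : N, ‖ψ (x * (n : G))‖ ^ 2 := by
          field_simp
  have hsum : ∑ x : G, ‖η x‖ ^ 2 ≤ (Nat.card G : ℝ) := by
    calc ∑ x : G, ‖η x‖ ^ 2
        ≤ ∑ x : G, (Nat.card N : ℝ)⁻¹ * ∑ n : N, ‖ψ (x * (n : G))‖ ^ 2 :=
          Finset.sum_le_sum (fun x _ => hbound x)
      _ = (Nat.card G : ℝ) := by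
          rw [← Finset.mul_sum, Finset.sum_comm]
          have : ∀ n : N, ∑ x : G, ‖ψ (x * (n : G))‖ ^ 2 = (Nat.card G : ℝ) := by
            intro n
            rw [← sum_norm_sq_irr hψ]
            exact Fintype.sum_equiv (Equiv.mulRight (n : G)) _ _ (fun x => rfl)
          rw [Finset.sum_congr rfl (fun n _ => this n), Finset.sum_const, Finset.card_univ,
            nsmul_eq_mul, ← Nat.card_eq_fintype_card]
          field_simp
  obtain ⟨m, hm⟩ := classInner_nat hη hη
  have hm1 : m ≤ 1 := by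
    have h1 := classInner_self_eq η
    rw [hm] at h1
    have h2 : (m : ℝ) = (Nat.card G : ℝ)⁻¹ * ∑ g : G, ‖η g‖ ^ 2 := by
      have : ((m : ℝ) : ℂ) = (((Nat.card G : ℝ)⁻¹ * ∑ g : G, ‖η g‖ ^ 2 : ℝ) : ℂ) := by
        push_cast
        push_cast at h1
        exact h1
      exact_mod_cast this
    have h3 : (m : ℝ) ≤ 1 := by
      rw [h2]
      calc (Nat.card G : ℝ)⁻¹ * ∑ g : G, ‖η g‖ ^ 2
          ≤ (Nat.card G : ℝ)⁻¹ * (Nat.card G : ℝ) :=
            mul_le_mul_of_nonneg_left hsum (inv_nonneg.mpr hG0.le)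
        _ = 1 := by field_simp
    exact_mod_cast h3
  have hm0 : m ≠ 0 := by
    intro h0
    rw [h0, Nat.cast_zero] at hm
    have h1 := classInner_self_eq_zero hm
    apply hne
    rw [classInner_def]
    have h2 : η 1 = 0 := by rw [h1]; rfl
    rw [hηdef, avgFun_apply] at h2
    simpa using h2
  apply isIrrCharacter_of_inner_self_eq_one hη
  have : m = 1 := by omega
  rw [hm, this]
  simp

end Cfsg.Agent.Lib_helper3_CharAvg2
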