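import Mathlib
import Cfsg.Prelude.Def_Characters
import Cfsg.Agent.Lib_helper3_CharBasic
import Cfsg.Agent.Lib_helper3_CharMore
import Cfsg.Agent.Lib_helper3_CharIntegral
import Cfsg.Agent.Lib_helper3_CharComm
import Cfsg.Agent.Lib_helper3_RepEquiv

set_option autoImplicit false

namespace Cfsg.Agent.Lib_helper3_CycExt

open Cfsg
open Cfsg.Agent.Lib_helper3_CharBasic Cfsg.Agent.Lib_helper3_CharMore
open Cfsg.Agent.Lib_helper3_RepEquiv
open scoped ComplexConjugate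

universe u v

section Abstract

variable {G : Type u} [Group G] {U : Type v} [Group U]

theorem conj_zpow (N : Subgroup G) [hN : N.Normal] (s : N →* U) (g : G) (M : U)
    (hconj : ∀ n : N, M * s n * M⁻¹ = s (MulAut.conjNormal g n)) :
    ∀ (k : ℤ) (n : N), M ^ k * s n * (M ^ k)⁻¹ = s (MulAut.conjNormal (g ^ k) n) := by
  let S : Subgroup (G × U) :=
    { carrier := {p | ∀ n : N, p.2 * s n * p.2⁻¹ = s (MulAut.conjNormal p.1 n)}
      mul_mem' := by
        intro a b ha hb n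
        simp only [Set.mem_ofPred_eq] at ha hb
        simp only [Prod.snd_mul, Prod.fst_mul, map_mul, MulAut.mul_apply]
        rw [← ha, ← hb]
        group
      one_mem' := by
        intro n
        simp
      inv_mem' := by
        intro a ha n
        simp only [Set.mem_ofPred_eq] at ha
        simp only [Prod.snd_inv, Prod.fst_inv, map_inv, inv_inv]
        have h1 := ha ((MulAut.conjNormal a.1)⁻¹ n)
        have h2 : (MulAut.conjNormal a.1) ((MulAut.conjNormal a.1)⁻¹ n) = n := by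
          rw [← MulAut.mul_apply, mul_inv_cancel, MulAut.one_apply]
        rw [h2] at h1
        rw [← h1]
        group }
  have hmem : (g, M) ∈ S := hconj
  intro k n
  have h := S.zpow_mem hmem k
  have h2 : ((g, M) ^ k : G × U) = (g ^ k, M ^ k) := rfl
  rw [h2] at h
  exact h n

/-- Extending a homomorphism from a normal subgroup with cyclic quotient. -/
theorem exists_hom_extension (N : Subgroup G) [hN : N.Normal] (s : N →* U) (g : G) (M : U)
    (m : ℕ) (hgen : ∀ y : G, ∃ k : ℤ, y * g ^ (-k) ∈ N)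
    (hm : ∀ j : ℤ, g ^ j ∈ N → (m : ℤ) ∣ j)
    (hgm : g ^ m ∈ N) (hMm : M ^ m = s ⟨g ^ m, hgm⟩)
    (hconj : ∀ n : N, M * s n * M⁻¹ = s (MulAut.conjNormal g n)) :
    ∃ F : G →* U, ∀ n : N, F n = s n := by
  classical
  have hconjk := conj_zpow N s g M hconj
  have hpow : ∀ (t : ℤ) (h : g ^ ((m : ℤ) * t) ∈ N),
      s ⟨g ^ ((m : ℤ) * t), h⟩ = M ^ ((m : ℤ) * t) := by
    intro t h
    have h1 : (⟨g ^ ((m : ℤ) * t), h⟩ : N) = (⟨g ^ m, hgm⟩ : N) ^ t := by
      apply Subtype.ext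
      simp [zpow_mul]
    rw [h1, map_zpow, ← hMm, zpow_mul, zpow_natCast]
  choose k hk using hgen
  let F : G → U := fun y => s ⟨y * g ^ (-k y), hk y⟩ * M ^ (k y)
  have hwd : ∀ (y : G) (j : ℤ) (h : y * g ^ (-j) ∈ N), s ⟨y * g ^ (-j), h⟩ * M ^ j = F y := by
    intro y j h
    have h1 : g ^ (j - k y) ∈ N := by
      have : g ^ (j - k y) = (y * g ^ (-j))⁻¹ * (y * g ^ (-k y)) := by
        rw [zpow_sub]
        group
      rw [this]
      exact N.mul_mem (N.inv_mem h) (hk y)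
    obtain ⟨t, ht⟩ := hm _ h1
    have h2 : g ^ ((m : ℤ) * t) ∈ N := ht ▸ h1
    have h3 : (⟨y * g ^ (-k y), hk y⟩ : N) = ⟨y * g ^ (-j), h⟩ * ⟨g ^ ((m : ℤ) * t), h2⟩ := by
      apply Subtype.ext
      simp only [Subgroup.coe_mul]
      rw [← ht, zpow_sub]
      group
    show _ = s ⟨y * g ^ (-k y), hk y⟩ * M ^ (k y)
    rw [h3, map_mul, hpow t h2, mul_assoc, ← zpow_add, ← ht]
    congr 2
    ring
  have hmul : ∀ a b, F (a * b) = F a * F b := by
    intro a b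
    have h : a * b * g ^ (-(k a + k b)) ∈ N := by
      have : a * b * g ^ (-(k a + k b))
          = (a * g ^ (-k a)) * (g ^ (k a) * (b * g ^ (-k b)) * (g ^ (k a))⁻¹) := by
        rw [neg_add, zpow_add]
        group
      rw [this]
      exact N.mul_mem (hk a) (hN.conj_mem _ (hk b) _)
    rw [← hwd (a * b) (k a + k b) h]
    have h3 : (⟨a * b * g ^ (-(k a + k b)), h⟩ : N)
        = ⟨a * g ^ (-k a), hk a⟩ * MulAut.conjNormal (g ^ (k a)) ⟨b * g ^ (-k b), hk b⟩ := by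
      apply Subtype.ext
      simp only [Subgroup.coe_mul, MulAut.conjNormal_apply]
      rw [neg_add, zpow_add]
      group
    rw [h3, map_mul, ← hconjk]
    show _ = s _ * M ^ (k a) * (s _ * M ^ (k b))
    rw [zpow_add]
    group
  refine ⟨MonoidHom.mk' F hmul, fun n => ?_⟩
  have h0 : (n : G) * g ^ (-(0 : ℤ)) ∈ N := by simp
  have h1 := hwd n 0 h0
  have h2 : (⟨(n : G) * g ^ (-(0 : ℤ)), h0⟩ : N) = n := by
    apply Subtype.ext
    simp
  rw [h2, zpow_zero, mul_one] at h1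
  exact h1.symm

end Abstract

section Rep

variable {G : Type u} [Group G]

/-- An invariant irreducible character of a normal subgroup with cyclic quotient extends. -/
theorem extends_of_cyclic [Finite G] (N : Subgroup G) [hN : N.Normal] (hcyc : IsCyclic (G ⧸ N))
    (ϑ : N → ℂ) (hϑ : IsIrrCharacter N ϑ)
    (hinv : ∀ (g : G) (n : N), ϑ ⟨g * n * g⁻¹, hN.conj_mem (n : G) n.2 g⟩ = ϑ n) :
    ∃ χ : G → ℂ, IsIrrCharacter G χ ∧ ∀ n : N, χ n = ϑ n := by
  classical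
  obtain ⟨d, σ, hσ, rfl⟩ := hϑ
  obtain ⟨q, hq⟩ := hcyc.exists_generator
  obtain ⟨g, rfl⟩ := QuotientGroup.mk_surjective q
  let s : N →* (((Fin d → ℂ) →ₗ[ℂ] (Fin d → ℂ))ˣ) := MonoidHom.toHomUnits σ
  have hs : ∀ n : N, ((s n : ((Fin d → ℂ) →ₗ[ℂ] (Fin d → ℂ))ˣ) : (Fin d → ℂ) →ₗ[ℂ] (Fin d → ℂ))
      = σ n := fun n => rfl
  let m := orderOf (QuotientGroup.mk g : G ⧸ N)
  have hm0 : 0 < m := orderOf_pos _
  have hgm : g ^ m ∈ N := by
    rw [← QuotientGroup.eq_one_iff, QuotientGroup.mk_pow]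
    exact pow_orderOf_eq_one _
  have hmdvd : ∀ j : ℤ, g ^ j ∈ N → (m : ℤ) ∣ j := by
    intro j hj
    rw [← QuotientGroup.eq_one_iff, QuotientGroup.mk_zpow] at hj
    exact orderOf_dvd_iff_zpow_eq_one.mpr hj
  have hgen : ∀ y : G, ∃ k : ℤ, y * g ^ (-k) ∈ N := by
    intro y
    obtain ⟨k, hk⟩ := Subgroup.mem_zpowers_iff.mp (hq (QuotientGroup.mk y))
    refine ⟨k, ?_⟩
    rw [← QuotientGroup.eq_one_iff, QuotientGroup.mk_mul, QuotientGroup.mk_zpow, ← hk]
    group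
  let cg : N ≃* N := MulAut.conjNormal g
  let σg : Representation ℂ N (Fin d → ℂ) := σ.comp cg.toMonoidHom
  have hchar : σ.character = σg.character := by
    funext n
    exact (hinv g n).symm
  obtain ⟨φ⟩ := equiv_of_char_eq σ σg hchar
  let M₀ : ((Fin d → ℂ) →ₗ[ℂ] (Fin d → ℂ))ˣ :=
    LinearMap.GeneralLinearGroup.ofLinearEquiv φ.toLinearEquiv
  have hM₀ : ∀ n : N, M₀ * s n * M₀⁻¹ = s (MulAut.conjNormal g n) := by
    intro n
    rw [mul_inv_eq_iff_eq_mul]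
    apply Units.ext
    apply LinearMap.ext
    intro v
    exact φ.toIntertwiningMap.isIntertwining _ _ n v
  have hM₀k := conj_zpow N s g M₀ hM₀
  let gm : N := ⟨g ^ m, hgm⟩
  let T : ((Fin d → ℂ) →ₗ[ℂ] (Fin d → ℂ))ˣ := (s gm)⁻¹ * M₀ ^ m
  have hTcomm : ∀ n : N, T * s n = s n * T := by
    intro n
    have h1 := hM₀k (m : ℤ) n
    rw [zpow_natCast] at h1
    have h2 : MulAut.conjNormal (g ^ (m : ℤ)) n = gm * n * gm⁻¹ := by
      apply Subtype.ext
      rw [MulAut.conjNormal_apply, zpow_natCast]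
      rfl
    rw [h2, map_mul, map_mul, map_inv] at h1
    have h3 : M₀ ^ m * s n = s gm * s n * (s gm)⁻¹ * M₀ ^ m := by
      rw [← h1]
      group
    show (s gm)⁻¹ * M₀ ^ m * s n = s n * ((s gm)⁻¹ * M₀ ^ m)
    rw [mul_assoc, h3]
    group
  have hTcomm' : ∀ n : N, (T : (Fin d → ℂ) →ₗ[ℂ] (Fin d → ℂ)) * σ n
      = σ n * (T : (Fin d → ℂ) →ₗ[ℂ] (Fin d → ℂ)) := by
    intro n
    have := congrArg (fun A : ((Fin d → ℂ) →ₗ[ℂ] (Fin d → ℂ))ˣ =>
      (A : (Fin d → ℂ) →ₗ[ℂ] (Fin d → ℂ))) (hTcomm n)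
    exact this
  have hT := Cfsg.Agent.Lib_helper3_CharComm.schur_trace σ
    (T : (Fin d → ℂ) →ₗ[ℂ] (Fin d → ℂ)) hTcomm'
  set c : ℂ := LinearMap.trace ℂ (Fin d → ℂ) (T : (Fin d → ℂ) →ₗ[ℂ] (Fin d → ℂ))
    / (Module.finrank ℂ (Fin d → ℂ) : ℂ) with hc
  have hnt : Nontrivial (Fin d → ℂ) := Cfsg.Agent.Lib_helper3_CharIntegral.nontrivial_of_irreducible σ
  have hc0 : c ≠ 0 := by
    intro h0
    rw [h0, zero_smul] at hT
    have h1 : (1 : (Fin d → ℂ) →ₗ[ℂ] (Fin d → ℂ)) = 0 := by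
      rw [← Units.mul_inv T, hT, zero_mul]
    obtain ⟨x, hx⟩ := exists_ne (0 : Fin d → ℂ)
    apply hx
    have := congrArg (fun A : (Fin d → ℂ) →ₗ[ℂ] (Fin d → ℂ) => A x) h1
    simpa using this
  obtain ⟨μ, hμ⟩ := IsAlgClosed.exists_pow_nat_eq c hm0
  have hμ0 : μ ≠ 0 := by
    rintro rfl
    rw [zero_pow hm0.ne'] at hμ
    exact hc0 hμ.symm
  let z : ((Fin d → ℂ) →ₗ[ℂ] (Fin d → ℂ))ˣ :=
    Units.map (algebraMap ℂ ((Fin d → ℂ) →ₗ[ℂ] (Fin d → ℂ))).toMonoidHom (Units.mk0 μ hμ0)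
  have hzc : ∀ A : ((Fin d → ℂ) →ₗ[ℂ] (Fin d → ℂ))ˣ, z * A = A * z := by
    intro A
    apply Units.ext
    exact Algebra.commutes μ (A : (Fin d → ℂ) →ₗ[ℂ] (Fin d → ℂ))
  have hzm : z ^ m = T := by
    apply Units.ext
    rw [hT, ← hμ]
    simp [z, Algebra.algebraMap_eq_smul_one, smul_pow]
  let M : ((Fin d → ℂ) →ₗ[ℂ] (Fin d → ℂ))ˣ := M₀ * z⁻¹
  have hM : ∀ n : N, M * s n * M⁻¹ = s (MulAut.conjNormal g n) := by
    intro n
    rw [← hM₀ n]
    show M₀ * z⁻¹ * s n * (M₀ * z⁻¹)⁻¹ = M₀ * s n * M₀⁻¹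
    have h1 : z⁻¹ * s n = s n * z⁻¹ := by
      have := hzc (s n)
      rw [eq_mul_inv_iff_mul_eq, mul_assoc, ← this, ← mul_assoc, inv_mul_cancel, one_mul]
    rw [mul_inv_rev, inv_inv, mul_assoc M₀, h1]
    group
  have hMm : M ^ m = s ⟨g ^ m, hgm⟩ := by
    have hcomm : Commute M₀ z⁻¹ := by
      show M₀ * z⁻¹ = z⁻¹ * M₀
      have := hzc M₀
      rw [eq_inv_mul_iff_mul_eq, ← mul_assoc, this, mul_assoc, mul_inv_cancel, mul_one]
    show (M₀ * z⁻¹) ^ m = s gm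
    rw [hcomm.mul_pow, inv_pow, hzm]
    show M₀ ^ m * ((s gm)⁻¹ * M₀ ^ m)⁻¹ = s gm
    group
  obtain ⟨F, hF⟩ := exists_hom_extension N s g M m hgen hmdvd hgm hMm hM
  let ρ : Representation ℂ G (Fin d → ℂ) :=
    (Units.coeHom ((Fin d → ℂ) →ₗ[ℂ] (Fin d → ℂ))).comp F
  have hρ : ∀ n : N, ρ (n : G) = σ n := by
    intro n
    show ((F (n : G) : ((Fin d → ℂ) →ₗ[ℂ] (Fin d → ℂ))ˣ) : (Fin d → ℂ) →ₗ[ℂ] (Fin d → ℂ)) = σ n
    rw [hF n]
    rfl
  have hirr : ρ.IsIrreducible := by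
    refine { exists_pair_ne := ⟨⊥, ⊤, ?_⟩, eq_bot_or_eq_top := ?_ }
    · intro h0
      obtain ⟨x, hx⟩ := exists_ne (0 : Fin d → ℂ)
      have h1 : x ∈ (⊤ : Subrepresentation ρ).toSubmodule := Submodule.mem_top
      rw [← h0] at h1
      exact hx ((Submodule.mem_bot ℂ).mp h1)
    · intro W
      let W' : Subrepresentation σ :=
        { toSubmodule := W.toSubmodule
          apply_mem_toSubmodule := by
            intro n v hv
            rw [← hρ n]
            exact W.apply_mem_toSubmodule (n : G) hv }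
      have hI : IsSimpleOrder (Subrepresentation σ) := hσ
      rcases hI.eq_bot_or_eq_top W' with h | h
      · left
        apply Subrepresentation.toSubmodule_injective
        have h' : W'.toSubmodule = (⊥ : Subrepresentation σ).toSubmodule := by rw [h]
        exact h'
      · right
        apply Subrepresentation.toSubmodule_injective
        have h' : W'.toSubmodule = (⊤ : Subrepresentation σ).toSubmodule := by rw [h]
        exact h'
  refine ⟨ρ.character, ⟨d, ρ, hirr, rfl⟩, fun n => ?_⟩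
  simp only [Representation.character]
  rw [hρ n]

end Rep

end Cfsg.Agent.Lib_helper3_CycExt
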