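import Mathlib
import Cfsg.Prelude.Def_Characters
import Cfsg.Prelude.Def_Blocks
import Cfsg.Prelude.Def_BlockLocal
import Cfsg.Prelude.Def_BrauerPairs
import Cfsg.Agent.Lib_helper3_NilAb

set_option autoImplicit false
open Cfsg
open Cfsg.Agent.Lib_helper3_CharBasic Cfsg.Agent.Lib_helper3_CharMore
  Cfsg.Agent.Lib_helper3_Local Cfsg.Agent.Lib_helper3_Local2 Cfsg.Agent.Lib_helper3_BlockAlg
  Cfsg.Agent.Lib_helper3_IdemSupp Cfsg.Agent.Lib_helper3_Residue
  Cfsg.Agent.Lib_helper3_BrauerHom Cfsg.Agent.Lib_helper3_BrauerHom2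
  Cfsg.Agent.Lib_helper3_BrauerHom3 Cfsg.Agent.Lib_helper3_ExtFirstMain
  Cfsg.Agent.Lib_helper3_BrauerPair Cfsg.Agent.Lib_helper3_NilPrincipal
  Cfsg.Agent.Lib_helper3_PrincipalPairs Cfsg.Agent.Lib_helper3_BrauerTrunc
  Cfsg.Agent.Lib_helper3_CharInd Cfsg.Agent.Lib_helper3_SecondMain3
  Cfsg.Agent.Lib_helper3_SubpairBlock Cfsg.Agent.Lib_helper3_NormalSubpair
  Cfsg.Agent.Lib_helper3_BlockCover Cfsg.Agent.Lib_helper3_BlockInd
  Cfsg.Agent.Lib_helper3_ThirdMain Cfsg.Agent.Lib_helper3_StableBlock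
  Cfsg.Agent.Lib_helper3_NormalPTrace Cfsg.Agent.Lib_helper3_SubpairUnique
  Cfsg.Agent.Lib_helper3_MaxPair Cfsg.Agent.Lib_helper3_ConjPair
  Cfsg.Agent.Lib_helper3_CentPair Cfsg.Agent.Lib_helper3_StabPair
  Cfsg.Agent.Lib_helper3_AbPair Cfsg.Agent.Lib_helper3_NilAb
open scoped ComplexConjugate

namespace Cfsg.Agent.Lib_helper3_LocNil

attribute [local instance] Ideal.Quotient.field

universe u

variable {G : Type u} [Group G] [Finite G] {p : ℕ} [Fact p.Prime] {M : Ideal AlgInt}

omit [Finite G] [Fact p.Prime] in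
/-- The induced central character computed inside `C_G(Q)` from `C_G(Q D)` agrees with the one
computed in the group `C_G(Q)` from the centralizer of `D`. -/
theorem inducedIn_eq (Q : Subgroup G) (D : Subgroup ↥(Subgroup.centralizer (Q : Set G)))
    (ξ : ↥(Subgroup.centralizer
      ((Q ⊔ D.map (Subgroup.centralizer (Q : Set G)).subtype : Subgroup G) : Set G)) → ℂ)
    (h : ↥(Subgroup.centralizer (Q : Set G))) :
    inducedCentralChar (Subgroup.centralizer (D : Set ↥(Subgroup.centralizer (Q : Set G))))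
        (ξ ∘ kIso Q D) h =
      inducedCentralCharIn (Subgroup.centralizer (Q : Set G))
        (Subgroup.centralizer
          ((Q ⊔ D.map (Subgroup.centralizer (Q : Set G)).subtype : Subgroup G) : Set G))
        ξ (h : G) := by
  unfold inducedCentralChar inducedCentralCharIn
  refine finsum_mem_eq_of_bijOn (kIso Q D) ⟨?_, (kIso Q D).injective.injOn, ?_⟩ ?_
  · intro k hk
    have hk' : IsConj h (k : ↥(Subgroup.centralizer (Q : Set G))) := hk
    obtain ⟨x, hx⟩ := isConj_iff.mp (IsConj.symm hk')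
    refine ⟨x, ?_⟩
    rw [kIso_coe]
    exact congrArg Subtype.val hx
  · intro k hk
    obtain ⟨x, hx⟩ := hk
    refine ⟨(kIso Q D).symm k, ?_, (kIso Q D).apply_symm_apply k⟩
    show IsConj h _
    refine IsConj.symm (isConj_iff.mpr ⟨x, Subtype.ext ?_⟩)
    exact hx
  · intro k hk
    simp only [Function.comp_apply, map_one]

omit [Fact p.Prime] in
theorem induced_of_in (Q : Subgroup G) (D : Subgroup ↥(Subgroup.centralizer (Q : Set G)))
    (c : Set (IrrCharacter (Subgroup.centralizer
      ((Q ⊔ D.map (Subgroup.centralizer (Q : Set G)).subtype : Subgroup G) : Set G))))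
    (f : Set (IrrCharacter (Subgroup.centralizer (Q : Set G))))
    (hin : IsInducedBlockIn M (Subgroup.centralizer (Q : Set G))
      (Subgroup.centralizer
        ((Q ⊔ D.map (Subgroup.centralizer (Q : Set G)).subtype : Subgroup G) : Set G)) c f) :
    IsInducedBlock M (Subgroup.centralizer (D : Set ↥(Subgroup.centralizer (Q : Set G))))
      (transportSet (kIso Q D) c) f := by
  obtain ⟨hc, hf, hcong⟩ := hin
  refine ⟨isPBlock_transport _ hc, hf, ?_⟩
  rintro ξ' ⟨ξ, hξ, hξ'⟩ χ hχ h
  rw [hξ', inducedIn_eq]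
  exact hcong ξ hξ χ hχ h

omit [Fact p.Prime] in
theorem in_of_induced (Q : Subgroup G) (D : Subgroup ↥(Subgroup.centralizer (Q : Set G)))
    (c : Set (IrrCharacter (Subgroup.centralizer
      ((Q ⊔ D.map (Subgroup.centralizer (Q : Set G)).subtype : Subgroup G) : Set G))))
    (f : Set (IrrCharacter (Subgroup.centralizer (Q : Set G)))) (hc : IsPBlock M c)
    (hind : IsInducedBlock M (Subgroup.centralizer (D : Set ↥(Subgroup.centralizer (Q : Set G))))
      (transportSet (kIso Q D) c) f) :
    IsInducedBlockIn M (Subgroup.centralizer (Q : Set G))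
      (Subgroup.centralizer
        ((Q ⊔ D.map (Subgroup.centralizer (Q : Set G)).subtype : Subgroup G) : Set G)) c f := by
  obtain ⟨-, hf, hcong⟩ := hind
  refine ⟨hc, hf, ?_⟩
  intro ξ hξ χ hχ h
  have h1 := hcong ⟨(ξ : Subgroup.centralizer
      ((Q ⊔ D.map (Subgroup.centralizer (Q : Set G)).subtype : Subgroup G) : Set G) → ℂ) ∘
        kIso Q D, isIrrCharacter_comp_equiv _ ξ.2⟩ ⟨ξ, hξ, rfl⟩ χ hχ h
  have h2 := inducedIn_eq Q D (ξ : Subgroup.centralizer
      ((Q ⊔ D.map (Subgroup.centralizer (Q : Set G)).subtype : Subgroup G) : Set G) → ℂ) h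
  rw [← h2]
  exact h1

/-- A block of `C_G(Q D)` induces a block of `C_G(Q)`, the induction computed inside `C_G(Q)`. -/
theorem exists_induced_in (hM : IsPModular p M) (Q : Subgroup G)
    (D : Subgroup ↥(Subgroup.centralizer (Q : Set G))) (hD : IsPGroup p D)
    (c : Set (IrrCharacter (Subgroup.centralizer
      ((Q ⊔ D.map (Subgroup.centralizer (Q : Set G)).subtype : Subgroup G) : Set G))))
    (hc : IsPBlock M c) :
    ∃ f : Set (IrrCharacter (Subgroup.centralizer (Q : Set G))),
      IsInducedBlockIn M (Subgroup.centralizer (Q : Set G))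
        (Subgroup.centralizer
          ((Q ⊔ D.map (Subgroup.centralizer (Q : Set G)).subtype : Subgroup G) : Set G)) c f := by
  classical
  have instH : Fintype (Subgroup.centralizer (Q : Set G)) := Fintype.ofFinite _
  have inst : Fintype (Subgroup.centralizer (D : Set ↥(Subgroup.centralizer (Q : Set G)))) :=
    Fintype.ofFinite _
  obtain ⟨f, hf⟩ := inducedBlockDefinedC hM D hD (transportSet (kIso Q D) c)
    (isPBlock_transport _ hc)
  exact ⟨f, in_of_induced Q D c f hc hf⟩

omit [Fact p.Prime] in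
theorem stab_down (Q : Subgroup G) (D : Subgroup ↥(Subgroup.centralizer (Q : Set G)))
    (c : Set (IrrCharacter (Subgroup.centralizer
      ((Q ⊔ D.map (Subgroup.centralizer (Q : Set G)).subtype : Subgroup G) : Set G))))
    (y : ↥(Subgroup.centralizer (Q : Set G)))
    (hyD : y ∈ Subgroup.normalizer (D : Set ↥(Subgroup.centralizer (Q : Set G))))
    (hst : StabilizesBlock (Subgroup.centralizer
      ((Q ⊔ D.map (Subgroup.centralizer (Q : Set G)).subtype : Subgroup G) : Set G)) c (y : G)) :
    StabilizesBlock (Subgroup.centralizer (D : Set ↥(Subgroup.centralizer (Q : Set G))))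
      (transportSet (kIso Q D) c) y := by
  refine ⟨mem_normalizer_centralizer D hyD, ?_⟩
  rintro χ' ⟨χ, hχ, hχ'⟩
  obtain ⟨ψ, hψ, hconj⟩ := hst.2 χ hχ
  refine ⟨⟨(ψ : Subgroup.centralizer
      ((Q ⊔ D.map (Subgroup.centralizer (Q : Set G)).subtype : Subgroup G) : Set G) → ℂ) ∘
        kIso Q D, isIrrCharacter_comp_equiv _ ψ.2⟩, ⟨ψ, hψ, rfl⟩, ?_⟩
  intro k k' hk
  rw [hχ']
  show (ψ : Subgroup.centralizer
      ((Q ⊔ D.map (Subgroup.centralizer (Q : Set G)).subtype : Subgroup G) : Set G) → ℂ)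
        (kIso Q D k') = (χ : Subgroup.centralizer
      ((Q ⊔ D.map (Subgroup.centralizer (Q : Set G)).subtype : Subgroup G) : Set G) → ℂ)
        (kIso Q D k)
  apply hconj
  rw [kIso_coe, kIso_coe, hk]
  rfl

omit [Fact p.Prime] in
theorem stab_up (Q : Subgroup G) (D : Subgroup ↥(Subgroup.centralizer (Q : Set G)))
    (c : Set (IrrCharacter (Subgroup.centralizer
      ((Q ⊔ D.map (Subgroup.centralizer (Q : Set G)).subtype : Subgroup G) : Set G))))
    (y : ↥(Subgroup.centralizer (Q : Set G)))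
    (hyK : (y : G) ∈ Subgroup.normalizer ((Subgroup.centralizer
      ((Q ⊔ D.map (Subgroup.centralizer (Q : Set G)).subtype : Subgroup G) : Set G) :
        Subgroup G) : Set G))
    (hst : StabilizesBlock (Subgroup.centralizer (D : Set ↥(Subgroup.centralizer (Q : Set G))))
      (transportSet (kIso Q D) c) y) :
    StabilizesBlock (Subgroup.centralizer
      ((Q ⊔ D.map (Subgroup.centralizer (Q : Set G)).subtype : Subgroup G) : Set G)) c (y : G) := by
  refine ⟨hyK, ?_⟩
  intro χ hχ
  obtain ⟨ψ', ⟨ψ, hψ, hψ'⟩, hconj⟩ := hst.2 ⟨(χ : Subgroup.centralizer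
      ((Q ⊔ D.map (Subgroup.centralizer (Q : Set G)).subtype : Subgroup G) : Set G) → ℂ) ∘
        kIso Q D, isIrrCharacter_comp_equiv _ χ.2⟩ ⟨χ, hχ, rfl⟩
  refine ⟨ψ, hψ, ?_⟩
  intro k k' hk
  have h1 := hconj ((kIso Q D).symm k) ((kIso Q D).symm k') (Subtype.ext (by
    show (k' : G) = (y : G) * (k : G) * (y : G)⁻¹
    exact hk))
  rw [hψ'] at h1
  have h2 : (ψ : Subgroup.centralizer
      ((Q ⊔ D.map (Subgroup.centralizer (Q : Set G)).subtype : Subgroup G) : Set G) → ℂ)
        (kIso Q D ((kIso Q D).symm k')) = (χ : Subgroup.centralizer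
      ((Q ⊔ D.map (Subgroup.centralizer (Q : Set G)).subtype : Subgroup G) : Set G) → ℂ)
        (kIso Q D ((kIso Q D).symm k)) := h1
  rw [MulEquiv.apply_symm_apply, MulEquiv.apply_symm_apply] at h2
  exact h2

/-- A Brauer pair of `B` on a defect group of `B` is a maximal pair. -/
theorem max_of_defect (hM : IsPModular p M) (B : Set (IrrCharacter G)) (P : Subgroup G)
    (e : Set (IrrCharacter (Subgroup.centralizer (P : Set G))))
    (hBe : IsBrauerPairOf p M B P e) (hPD : IsDefectGroup p M B P) :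
    IsMaximalBrauerPair p M B P e := by
  classical
  have instG : Fintype G := Fintype.ofFinite G
  refine ⟨hBe, ?_⟩
  intro R g hRg hle
  have hB : IsPBlock M B := hBe.2.1
  obtain ⟨⟨D, d⟩, hDmax, hle2⟩ := exists_maximal_above (p := p) (M := M) B _ ⟨R, g⟩ hRg rfl
  have hDdef := defect_of_maximal hM B D d hDmax
  obtain ⟨x, hx⟩ := defect_conj hM B hB D P hDdef hPD
  have h1 : P ≤ R := chain_le ⟨P, e⟩ ⟨R, g⟩ hle
  have h2 : R ≤ D := chain_le ⟨R, g⟩ ⟨D, d⟩ hle2
  have h3 : Nat.card D = Nat.card P := by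
    rw [← hx, Subgroup.card_map_of_injective (MulEquiv.injective _)]
  exact (Subgroup.eq_of_le_of_card_ge h1 (by rw [← h3]; exact Subgroup.card_le_of_le h2)).symm

/-- The pair of `C_G(Q)` attached to a maximal pair `(Q D, c)` of `B`, for `Q ≤ D`, is a maximal
pair of the block of `C_G(Q)` it belongs to. -/
theorem local_max (hM : IsPModular p M) (B : Set (IrrCharacter G)) (Q : Subgroup G)
    (D : Subgroup ↥(Subgroup.centralizer (Q : Set G)))
    (hQD : Q ≤ D.map (Subgroup.centralizer (Q : Set G)).subtype)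
    (c : Set (IrrCharacter (Subgroup.centralizer
      ((Q ⊔ D.map (Subgroup.centralizer (Q : Set G)).subtype : Subgroup G) : Set G))))
    (hmax : IsMaximalBrauerPair p M B
      (Q ⊔ D.map (Subgroup.centralizer (Q : Set G)).subtype) c)
    (f : Set (IrrCharacter (Subgroup.centralizer (Q : Set G))))
    (hpair : IsBrauerPairOf p M f D (transportSet (kIso Q D) c)) :
    IsMaximalBrauerPair p M f D (transportSet (kIso Q D) c) := by
  classical
  have instG : Fintype G := Fintype.ofFinite G
  have instH : Fintype (Subgroup.centralizer (Q : Set G)) := Fintype.ofFinite _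
  refine ⟨hpair, ?_⟩
  intro R g hRg hle
  have hSp : IsPGroup p (Q ⊔ D.map (Subgroup.centralizer (Q : Set G)).subtype : Subgroup G) :=
    hmax.1.1.1
  have hQp : IsPGroup p Q := hSp.to_le le_sup_left
  have hn : IsNormalSubpair p M Q f (Q ⊔ D.map (Subgroup.centralizer (Q : Set G)).subtype) c :=
    normal_of_brauerPairOf Q hQp D f c hmax.1.1.2 hpair
  have hle' : SubpairLE p M Q f (Q ⊔ D.map (Subgroup.centralizer (Q : Set G)).subtype) c :=
    Relation.ReflTransGen.single hn
  have h1 : D ≤ R := chain_le ⟨D, transportSet (kIso Q D) c⟩ ⟨R, g⟩ hle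
  have h2 : Nat.card R ≤
      Nat.card (Q ⊔ D.map (Subgroup.centralizer (Q : Set G)).subtype : Subgroup G) :=
    card_le_of_cent_pair hM B _ Q c f hmax hle' R g hRg
  have h3 : (Q ⊔ D.map (Subgroup.centralizer (Q : Set G)).subtype : Subgroup G) =
      D.map (Subgroup.centralizer (Q : Set G)).subtype := sup_eq_right.mpr hQD
  rw [h3, Subgroup.card_map_of_injective (Subgroup.subtype_injective _)] at h2
  exact (Subgroup.eq_of_le_of_card_ge h1 h2).symm

/-- Abelian defect: the block of `C_G(Q)` induced from the maximal pair `(S, c)` is nilpotent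
exactly when the stabilizer of `c` in `N_G(S) ∩ C_G(Q)` centralizes `S`. -/
theorem loc_nil_iff (hM : IsPModular p M) (B : Set (IrrCharacter G)) (Q : Subgroup G)
    (D : Subgroup ↥(Subgroup.centralizer (Q : Set G))) (S : Subgroup G)
    (hS : Q ⊔ D.map (Subgroup.centralizer (Q : Set G)).subtype = S)
    (hQD : Q ≤ D.map (Subgroup.centralizer (Q : Set G)).subtype)
    (c : Set (IrrCharacter (Subgroup.centralizer (S : Set G))))
    (hmax : IsMaximalBrauerPair p M B S c)
    (hab : ∀ x ∈ D, ∀ y ∈ D, x * y = y * x)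
    (hN : ∀ y : ↥(Subgroup.centralizer (Q : Set G)),
      y ∈ Subgroup.normalizer (D : Set ↥(Subgroup.centralizer (Q : Set G))) →
        (y : G) ∈ Subgroup.normalizer (S : Set G))
    (f : Set (IrrCharacter (Subgroup.centralizer (Q : Set G))))
    (hind : IsInducedBlockIn M (Subgroup.centralizer (Q : Set G))
      (Subgroup.centralizer (S : Set G)) c f) :
    IsNilpotentBlock p M f ↔ ∀ y : ↥(Subgroup.centralizer (Q : Set G)),
      y ∈ Subgroup.normalizer (D : Set ↥(Subgroup.centralizer (Q : Set G))) →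
        StabilizesBlock (Subgroup.centralizer (S : Set G)) c (y : G) →
          y ∈ Subgroup.centralizer (D : Set ↥(Subgroup.centralizer (Q : Set G))) := by
  classical
  subst hS
  have instG : Fintype G := Fintype.ofFinite G
  have instH : Fintype (Subgroup.centralizer (Q : Set G)) := Fintype.ofFinite _
  have inst : Fintype (Subgroup.centralizer (D : Set ↥(Subgroup.centralizer (Q : Set G)))) :=
    Fintype.ofFinite _
  have hSp : IsPGroup p (Q ⊔ D.map (Subgroup.centralizer (Q : Set G)).subtype : Subgroup G) :=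
    hmax.1.1.1
  have hc : IsPBlock M c := hmax.1.1.2
  have hDp : IsPGroup p D := by
    intro d
    obtain ⟨k, hk⟩ := hSp ⟨((d : ↥(Subgroup.centralizer (Q : Set G))) : G),
      (le_sup_right : D.map (Subgroup.centralizer (Q : Set G)).subtype ≤ _)
        (Subgroup.mem_map.mpr ⟨(d : ↥(Subgroup.centralizer (Q : Set G))), d.2, rfl⟩)⟩
    refine ⟨k, Subtype.ext (Subtype.ext ?_)⟩
    have h1 := congrArg Subtype.val hk
    simpa using h1
  have hpair : IsBrauerPairOf p M f D (transportSet (kIso Q D) c) :=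
    (isBrauerPairOf_iff hM D hDp _ (isPBlock_transport _ hc) f hind.2.1).mpr
      (induced_of_in Q D c f hind)
  have hmax' := local_max hM B Q D hQD c hmax f hpair
  refine (nil_iff hM f D _ hmax' hab).trans ⟨?_, ?_⟩
  · intro h y hyD hst
    exact h y hyD (stab_down Q D c y hyD hst)
  · intro h y hyD hst
    exact h y hyD (stab_up Q D c y (mem_normalizer_centralizer _ (hN y hyD)) hst)

theorem exists_induced_in' (hM : IsPModular p M) (Q : Subgroup G)
    (D : Subgroup ↥(Subgroup.centralizer (Q : Set G))) (hD : IsPGroup p D) (S : Subgroup G)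
    (hS : Q ⊔ D.map (Subgroup.centralizer (Q : Set G)).subtype = S)
    (c : Set (IrrCharacter (Subgroup.centralizer (S : Set G)))) (hc : IsPBlock M c) :
    ∃ f : Set (IrrCharacter (Subgroup.centralizer (Q : Set G))),
      IsInducedBlockIn M (Subgroup.centralizer (Q : Set G))
        (Subgroup.centralizer (S : Set G)) c f := by
  subst hS
  exact exists_induced_in hM Q D hD c hc

end Cfsg.Agent.Lib_helper3_LocNil
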