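import Mathlib
import Cfsg.Prelude.Def_Characters
import Cfsg.Prelude.Def_Blocks
import Cfsg.Prelude.Def_BlockLocal
import Cfsg.Prelude.Def_BrauerPairs
import Cfsg.Agent.Lib_helper3_LocNil

set_option autoImplicit false
open Cfsg
open Cfsg.Agent.Lib_helper3_CharBasic Cfsg.Agent.Lib_helper3_CharMore
  Cfsg.Agent.Lib_helper3_Local Cfsg.Agent.Lib_helper3_Local2 Cfsg.Agent.Lib_helper3_BlockAlg
  Cfsg.Agent.Lib_helper3_IdemSupp Cfsg.Agent.Lib_helper3_Residue
  Cfsg.Agent.Lib_helper3_BrauerHom Cfsg.Agent.Lib_helper3_BrauerHom2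
  Cfsg.Agent.Lib_helper3_BrauerHom3 Cfsg.Agent.Lib_helper3_ExtFirstMain
  Cfsg.Agent.Lib_helper3_BrauerPair Cfsg.Agent.Lib_helper3_NilPrincipal
  Cfsg.Agent.Lib_helper3_PrincipalPairs Cfsg.Agent.Lib_helper3_BrauerTrunc
  Cfsg.Agent.Lib_helper3_CharInd Cfsg.Agent.Lib_helper3_SecondMain3
  Cfsg.Agent.Lib_helper3_SubpairBlock Cfsg.Agent.Lib_helper3_NormalSubpair
  Cfsg.Agent.Lib_helper3_BlockCover Cfsg.Agent.Lib_helper3_BlockInd
  Cfsg.Agent.Lib_helper3_ThirdMain Cfsg.Agent.Lib_helper3_StableBlock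
  Cfsg.Agent.Lib_helper3_NormalPTrace Cfsg.Agent.Lib_helper3_SubpairUnique
  Cfsg.Agent.Lib_helper3_MaxPair Cfsg.Agent.Lib_helper3_ConjPair
  Cfsg.Agent.Lib_helper3_CentPair Cfsg.Agent.Lib_helper3_StabPair
  Cfsg.Agent.Lib_helper3_AbPair Cfsg.Agent.Lib_helper3_NilAb
  Cfsg.Agent.Lib_helper3_LocNil
open scoped ComplexConjugate

namespace Cfsg.Agent.Lib_helper3_CycInert

attribute [local instance] Ideal.Quotient.field

universe u

variable {G : Type u} [Group G] [Finite G] {p : ℕ} [Fact p.Prime] {M : Ideal AlgInt}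

/-- Abelian maximal pair `(P, e)`: an element of the stabilizer of the pair some `p`-power of
which centralizes `P` centralizes `P`. -/
theorem pow_stab_cent (hM : IsPModular p M) (B : Set (IrrCharacter G)) (P : Subgroup G)
    (e : Set (IrrCharacter (Subgroup.centralizer (P : Set G))))
    (hmax : IsMaximalBrauerPair p M B P e) (hPC : P ≤ Subgroup.centralizer (P : Set G))
    (t : G) (htN : t ∈ Subgroup.normalizer (P : Set G))
    (htst : StabilizesBlock (Subgroup.centralizer (P : Set G)) e t)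
    (j : ℕ) (htj : t ^ (p ^ j) ∈ Subgroup.centralizer (P : Set G)) :
    t ∈ Subgroup.centralizer (P : Set G) := by
  classical
  have instG : Fintype G := Fintype.ofFinite G
  have hp : p.Prime := Fact.out
  have hPe : IsBrauerPair p M P e := hmax.1.1
  have hxT : t ∈ stabSub hM P e hPe.2 := (mem_stabSub hM P e hPe.2 t).mpr ⟨htN, htst⟩
  obtain ⟨k, m, hpm, hn⟩ := Nat.exists_eq_pow_mul_and_not_dvd (orderOf_pos t).ne' p hp.ne_one
  have hm0 : m ≠ 0 := by
    rintro rfl
    exact hpm (dvd_zero p)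
  have h2 : t ^ m ∈ Subgroup.centralizer (P : Set G) := by
    have hzT := Subgroup.pow_mem _ hxT m
    have hzmem := (mem_stabSub hM P e hPe.2 _).mp hzT
    have hzord : orderOf (t ^ m) = p ^ k := by
      rw [orderOf_pow_of_dvd hm0 (hn ▸ dvd_mul_left _ _), hn,
        Nat.mul_div_cancel _ (Nat.pos_of_ne_zero hm0)]
    have hzN : t ^ m ∈ Subgroup.normalizer
        ((Subgroup.centralizer (P : Set G) : Subgroup G) : Set G) :=
      mem_normalizer_centralizer P hzmem.1
    have hidx := index_sup_zpowers (p := p) (Subgroup.centralizer (P : Set G)) (t ^ m) hzN k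
      hzord
    have hL : Subgroup.centralizer (P : Set G) ⊔ Subgroup.zpowers (t ^ m) ≤
        stabSub hM P e hPe.2 := by
      apply sup_le
      · intro c hc
        rw [mem_stabSub]
        refine ⟨Cfsg.Agent.Lib_helper3_FirstMain.centralizer_le_normalizer' P hc, ?_⟩
        have h := stab_mul P e 1 (Subgroup.one_mem _) c hc
        rwa [one_mul] at h
      · rw [Subgroup.zpowers_le]
        exact hzT
    have h3 := stab_le_cent hM B P e hmax hPC _ le_sup_left
      (fun s hs => ((mem_stabSub hM P e hPe.2 s).mp (hL hs)).1)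
      (fun s hs => ((mem_stabSub hM P e hPe.2 s).mp (hL hs)).2) hidx
    exact h3 (Subgroup.mem_sup_right (Subgroup.mem_zpowers _))
  have hcop : Nat.Coprime (p ^ j) m :=
    Nat.Coprime.pow_left j ((Nat.Prime.coprime_iff_not_dvd hp).mpr hpm)
  have hbez := Nat.gcd_eq_gcd_ab (p ^ j) m
  rw [hcop.gcd_eq_one] at hbez
  have hx : t = (t ^ (p ^ j)) ^ (Nat.gcdA (p ^ j) m) * (t ^ m) ^ (Nat.gcdB (p ^ j) m) := by
    rw [← zpow_natCast t (p ^ j), ← zpow_natCast t m, ← zpow_mul, ← zpow_mul, ← zpow_add,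
      ← hbez]
    simp
  rw [hx]
  exact Subgroup.mul_mem _ (Subgroup.zpow_mem _ htj _) (Subgroup.zpow_mem _ h2 _)

omit [Finite G] in
/-- An element normalizing a cyclic group of order `p ^ (n + 1)` and fixing one of its
non-identity elements has its `p ^ n`-th power in the centralizer. -/
theorem pow_cent_of_fix (P : Subgroup G) (hcyc : IsCyclic P) (n : ℕ)
    (hn : Nat.card P = p ^ (n + 1)) (g : G) (hgN : g ∈ Subgroup.normalizer (P : Set G))
    (x : G) (hxP : x ∈ P) (hx1 : x ≠ 1) (hgx : g * x * g⁻¹ = x) :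
    g ^ (p ^ n) ∈ Subgroup.centralizer (P : Set G) := by
  have hp : p.Prime := Fact.out
  obtain ⟨m, hm⟩ := MonoidHom.map_cyclic (P.normalizerMonoidHom ⟨g, hgN⟩).toMonoidHom
  have hm' : ∀ y : P, P.normalizerMonoidHom ⟨g, hgN⟩ y = y ^ m := hm
  have hfix : P.normalizerMonoidHom ⟨g, hgN⟩ ⟨x, hxP⟩ = ⟨x, hxP⟩ := Subtype.ext hgx
  have h1 : (⟨x, hxP⟩ : P) ^ (m - 1) = 1 := by
    rw [zpow_sub, zpow_one, ← hm', hfix, mul_inv_cancel]
  have h2 : (orderOf (⟨x, hxP⟩ : P) : ℤ) ∣ m - 1 := orderOf_dvd_iff_zpow_eq_one.mpr h1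
  have h3 : p ∣ orderOf (⟨x, hxP⟩ : P) := by
    have h4 : orderOf (⟨x, hxP⟩ : P) ∣ p ^ (n + 1) := hn ▸ orderOf_dvd_natCard _
    obtain ⟨i, -, hi⟩ := (Nat.dvd_prime_pow hp).mp h4
    rcases Nat.eq_zero_or_pos i with h0 | hpos
    · rw [h0, pow_zero, orderOf_eq_one_iff] at hi
      exact absurd (congrArg Subtype.val hi) hx1
    · rw [hi]
      exact dvd_pow_self p hpos.ne'
  have h5 : ((p : ℕ) : ℤ) ∣ m - 1 := (Int.natCast_dvd_natCast.mpr h3).trans h2
  have h6 := dvd_sub_pow_of_dvd_sub h5 n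
  rw [one_pow] at h6
  have hpow : ∀ k : ℕ, ∀ y : P, (P.normalizerMonoidHom ⟨g, hgN⟩ ^ k) y = y ^ (m ^ k) := by
    intro k
    induction k with
    | zero =>
      intro y
      simp
    | succ k ih =>
      intro y
      rw [pow_succ, MulAut.mul_apply, hm', map_zpow, ih, ← zpow_mul, pow_succ]
  have hker : (⟨g, hgN⟩ : Subgroup.normalizer (P : Set G)) ^ (p ^ n) ∈
      P.normalizerMonoidHom.ker := by
    rw [MonoidHom.mem_ker, map_pow]
    ext y
    rw [hpow]
    obtain ⟨c, hc⟩ := h6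
    have h7 : m ^ p ^ n = 1 + ((p ^ (n + 1) : ℕ) : ℤ) * c := by
      have : m ^ p ^ n - 1 = ((p ^ (n + 1) : ℕ) : ℤ) * c := by
        rw [hc]
        push_cast
        ring
      linarith
    have h8 : y ^ (p ^ (n + 1)) = 1 := by
      rw [← hn]
      exact pow_card_eq_one'
    rw [h7, zpow_add, zpow_one, zpow_mul, zpow_natCast, h8, one_zpow, mul_one]
    rfl
  rw [Subgroup.normalizerMonoidHom_ker] at hker
  have h9 := Subgroup.mem_subgroupOf.mp hker
  simpa using h9

/-- The quotient of a subgroup `T` of `N_G(P)`, for `P` cyclic of order `p ^ (n + 1)`, by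
`C_G(P)` is cyclic of order dividing `p - 1` as soon as it has no element of order `p`. -/
theorem inert_cyclic (P : Subgroup G) (hcyc : IsCyclic P) (n : ℕ)
    (hn : Nat.card P = p ^ (n + 1)) (T : Subgroup G)
    (hTN : T ≤ Subgroup.normalizer (P : Set G))
    [hnorm : ((Subgroup.centralizer (P : Set G)).subgroupOf T).Normal]
    (hp' : ∀ t ∈ T, t ^ p ∈ Subgroup.centralizer (P : Set G) →
      t ∈ Subgroup.centralizer (P : Set G)) :
    IsCyclic (T ⧸ (Subgroup.centralizer (P : Set G)).subgroupOf T) ∧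
      (Subgroup.centralizer (P : Set G)).relIndex T ∣ p - 1 := by
  classical
  have hp : p.Prime := Fact.out
  have hPfin : Finite P := inferInstance
  obtain ⟨φ, hφ⟩ : ∃ φ : T →* MulAut P, φ = P.normalizerMonoidHom.comp (Subgroup.inclusion hTN) :=
    ⟨_, rfl⟩
  have hker : φ.ker = (Subgroup.centralizer (P : Set G)).subgroupOf T := by
    ext t
    rw [MonoidHom.mem_ker, hφ, MonoidHom.comp_apply, ← MonoidHom.mem_ker,
      Subgroup.normalizerMonoidHom_ker, Subgroup.mem_subgroupOf, Subgroup.mem_subgroupOf]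
    rfl
  have hnk : φ.ker.Normal := inferInstance
  obtain ⟨f, hf⟩ : ∃ f : (T ⧸ (Subgroup.centralizer (P : Set G)).subgroupOf T) →* MulAut P,
      Function.Injective f :=
    ⟨(QuotientGroup.kerLift φ).comp
      (QuotientGroup.quotientMulEquivOfEq hker.symm).toMonoidHom,
      (QuotientGroup.kerLift_injective φ).comp (MulEquiv.injective _)⟩
  have hcardA : Nat.card (MulAut P) = p ^ n * (p - 1) := by
    rw [IsCyclic.card_mulAut P, hn, Nat.totient_prime_pow_succ hp n]
  have hdvd : Nat.card (T ⧸ (Subgroup.centralizer (P : Set G)).subgroupOf T) ∣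
      p ^ n * (p - 1) := hcardA ▸ Subgroup.card_dvd_of_injective f hf
  have hnp : ¬ p ∣ Nat.card (T ⧸ (Subgroup.centralizer (P : Set G)).subgroupOf T) := by
    intro hdiv
    obtain ⟨e, he⟩ := exists_prime_orderOf_dvd_card' p hdiv
    obtain ⟨t, rfl⟩ := QuotientGroup.mk_surjective e
    have h1 : ((t ^ p : T) : T ⧸ (Subgroup.centralizer (P : Set G)).subgroupOf T) = 1 := by
      rw [QuotientGroup.mk_pow, ← he]
      exact pow_orderOf_eq_one _
    have h2 : t ^ p ∈ (Subgroup.centralizer (P : Set G)).subgroupOf T :=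
      (QuotientGroup.eq_one_iff _).mp h1
    have h3 : (t : G) ^ p ∈ Subgroup.centralizer (P : Set G) := by
      have := Subgroup.mem_subgroupOf.mp h2
      simpa using this
    have h4 : (t : G) ∈ Subgroup.centralizer (P : Set G) := hp' t t.2 h3
    have h5 : (t : T ⧸ (Subgroup.centralizer (P : Set G)).subgroupOf T) = 1 :=
      (QuotientGroup.eq_one_iff _).mpr (Subgroup.mem_subgroupOf.mpr h4)
    rw [h5, orderOf_one] at he
    exact hp.one_lt.ne he
  have hcop : Nat.Coprime (Nat.card (T ⧸ (Subgroup.centralizer (P : Set G)).subgroupOf T))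
      (p ^ n) :=
    Nat.Coprime.pow_right n ((Nat.Prime.coprime_iff_not_dvd hp).mpr hnp).symm
  have hdvd' : Nat.card (T ⧸ (Subgroup.centralizer (P : Set G)).subgroupOf T) ∣ p - 1 :=
    hcop.dvd_of_dvd_mul_left hdvd
  refine ⟨?_, ?_⟩
  · by_cases hp2 : p = 2
    · have h1 : Nat.card (T ⧸ (Subgroup.centralizer (P : Set G)).subgroupOf T) = 1 := by
        rw [hp2] at hdvd'
        exact Nat.dvd_one.mp hdvd'
      have := (Nat.card_eq_one_iff_unique.mp h1).1
      exact isCyclic_of_subsingleton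
    · have h1 : IsCyclic (ZMod (Nat.card P))ˣ := by
        rw [hn]
        exact ZMod.isCyclic_units_of_prime_pow p hp hp2 (n + 1)
      have h2 : IsCyclic (MulAut P) :=
        isCyclic_of_surjective (IsCyclic.mulAutMulEquiv P).symm (MulEquiv.surjective _)
      exact isCyclic_of_injective f hf
  · have h1 : (Subgroup.centralizer (P : Set G)).relIndex T =
        Nat.card (T ⧸ (Subgroup.centralizer (P : Set G)).subgroupOf T) := by
      rw [Subgroup.relIndex, Subgroup.index_eq_card]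
    rw [h1]
    exact hdvd'

end Cfsg.Agent.Lib_helper3_CycInert
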