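import Mathlib
import Cfsg.Prelude.Def_Characters
import Cfsg.Prelude.Def_OddOrderChar
import Cfsg.Agent.Lib_helper3_Dade
import Cfsg.Agent.Lib_helper3_CharBasic
import Cfsg.Agent.Lib_helper3_TIFN
import Cfsg.Agent.Lib_helper3_ClassMult

set_option autoImplicit false
open Cfsg
open Cfsg.Agent.Lib_helper3_Dade Cfsg.Agent.Lib_helper3_CharBasic
open scoped ComplexConjugate

namespace Cfsg.Agent.Lib_helper3_Dade2

universe u

open Classical

variable {G : Type u} [Group G]

/-- Elements of a join of two subgroups, one normalizing the other, are products. -/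
theorem mem_sup_decomp (P Q : Subgroup G) (hn : ∀ q ∈ Q, ∀ p ∈ P, q * p * q⁻¹ ∈ P) {x : G}
    (hx : x ∈ P ⊔ Q) : ∃ p ∈ P, ∃ q ∈ Q, x = p * q := by
  rw [Subgroup.sup_eq_closure] at hx
  induction hx using Subgroup.closure_induction with
  | mem y hy =>
    rcases hy with hy | hy
    · exact ⟨y, hy, 1, Q.one_mem, by simp⟩
    · exact ⟨1, P.one_mem, y, hy, by simp⟩
  | one => exact ⟨1, P.one_mem, 1, Q.one_mem, by simp⟩
  | mul y z _ _ hy hz =>
    obtain ⟨p, hp, q, hq, rfl⟩ := hy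
    obtain ⟨p', hp', q', hq', rfl⟩ := hz
    exact ⟨p * (q * p' * q⁻¹), P.mul_mem hp (hn q hq p' hp'), q * q', Q.mul_mem hq hq',
      by group⟩
  | inv y _ hy =>
    obtain ⟨p, hp, q, hq, rfl⟩ := hy
    exact ⟨q⁻¹ * p⁻¹ * q⁻¹⁻¹, hn q⁻¹ (Q.inv_mem hq) p⁻¹ (P.inv_mem hp), q⁻¹, Q.inv_mem hq,
      by group⟩

variable {A : Set G} {L : Subgroup G} {H : G → Subgroup G}

/-- Elements of the centralizer of `b` of exponent dividing the order of `H a` lie in `H b`. -/
theorem mem_H_of_pow [Finite G] (hD : DadeHypothesis A L H) {a b : G} (ha : a ∈ A) (hb : b ∈ A)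
    {x : G} (hx : x ∈ Subgroup.centralizer ({b} : Set G)) (hxn : x ^ Nat.card (H a) = 1) :
    x ∈ H b := by
  rw [← hD.sup_eq b hb] at hx
  obtain ⟨h, hh, c, hc, rfl⟩ := mem_sup_decomp (H b) (L ⊓ Subgroup.centralizer ({b} : Set G))
    (fun q hq p hp => hD.conj_mem_H b hb q (Subgroup.mem_inf.mp hq).2 p hp) hx
  have hcC : c ∈ Subgroup.centralizer ({b} : Set G) := (Subgroup.mem_inf.mp hc).2
  have hpow : ∀ k : ℕ, ∃ h' ∈ H b, (h * c) ^ k = h' * c ^ k := by
    intro k
    induction k with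
    | zero => exact ⟨1, (H b).one_mem, by simp⟩
    | succ k ih =>
      obtain ⟨h', hh', hk⟩ := ih
      refine ⟨h' * (c ^ k * h * (c ^ k)⁻¹), (H b).mul_mem hh'
        (hD.conj_mem_H b hb (c ^ k) (Subgroup.pow_mem _ hcC k) h hh), ?_⟩
      rw [pow_succ, hk, pow_succ]
      group
  obtain ⟨h', hh', hk⟩ := hpow (Nat.card (H a))
  rw [hxn] at hk
  have hcn : c ^ Nat.card (H a) ∈ H b ⊓ (L ⊓ Subgroup.centralizer ({b} : Set G)) := by
    rw [Subgroup.mem_inf]
    refine ⟨?_, Subgroup.pow_mem _ hc _⟩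
    have h1 : c ^ Nat.card (H a) = h'⁻¹ := eq_inv_of_mul_eq_one_right hk.symm
    rw [h1]
    exact (H b).inv_mem hh'
  rw [hD.inf_eq_bot b hb, Subgroup.mem_bot] at hcn
  have hcm : c ^ Nat.card ↥(L ⊓ Subgroup.centralizer ({b} : Set G)) = 1 :=
    pow_card_eq_one_of_mem _ hc
  have hc1 : c = 1 := by
    have h1 : orderOf c ∣ Nat.card (H a) := orderOf_dvd_of_pow_eq_one hcn
    have h2 : orderOf c ∣ Nat.card ↥(L ⊓ Subgroup.centralizer ({b} : Set G)) :=
      orderOf_dvd_of_pow_eq_one hcm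
    have h3 := Nat.dvd_gcd h1 h2
    have h4 : Nat.gcd (Nat.card (H a)) (Nat.card ↥(L ⊓ Subgroup.centralizer ({b} : Set G))) = 1 :=
      hD.coprime a ha b hb
    rw [h4] at h3
    exact orderOf_eq_one_iff.mp (Nat.dvd_one.mp h3)
  rw [hc1, mul_one]
  exact hh

/-- `g` is conjugate to an element of the coset `a * H a`. -/
def InD (H : G → Subgroup G) (a g : G) : Prop := ∃ x : G, ∃ u ∈ H a, x * g * x⁻¹ = a * u

theorem inD_conj [Finite G] (hD : DadeHypothesis A L H) {a : G} (ha : a ∈ A) {l : G}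
    (hl : l ∈ L) {g : G} (hg : InD H a g) : InD H (l * a * l⁻¹) g := by
  obtain ⟨x, u, hu, hx⟩ := hg
  refine ⟨l * x, l * u * l⁻¹, ?_, ?_⟩
  · apply mem_H_of_pow hD ha (hD.conj_mem l hl a ha)
    · rw [Subgroup.mem_centralizer_iff]
      intro z hz
      rw [Set.mem_singleton_iff] at hz
      rw [hz]
      have h1 := (commute_of_mem_H hD ha hu).eq
      calc l * a * l⁻¹ * (l * u * l⁻¹) = l * (a * u) * l⁻¹ := by group
        _ = l * (u * a) * l⁻¹ := by rw [h1]
        _ = l * u * l⁻¹ * (l * a * l⁻¹) := by group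
    · rw [conj_pow, pow_card_eq_one_of_mem (H a) hu]
      simp
  · calc l * x * g * (l * x)⁻¹ = l * (x * g * x⁻¹) * l⁻¹ := by group
      _ = l * (a * u) * l⁻¹ := by rw [hx]
      _ = l * a * l⁻¹ * (l * u * l⁻¹) := by group

/-- Two elements of `A` whose Dade classes share an element are conjugate in `L`. -/
theorem conj_of_inD [Finite G] (hD : DadeHypothesis A L H) {a b : G} (ha : a ∈ A) (hb : b ∈ A)
    {g : G} (hga : InD H a g) (hgb : InD H b g) : ∃ l ∈ L, l * a * l⁻¹ = b := by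
  obtain ⟨x, u, hu, hx⟩ := hga
  obtain ⟨y, v, hv, hy⟩ := hgb
  have h1 : (y * x⁻¹) * (a * u) * (y * x⁻¹)⁻¹ = b * v := by
    rw [← hx, ← hy]
    group
  obtain ⟨h2, -⟩ := conj_eq_of_conj_mul hD ha hb hu hv h1
  obtain ⟨l, hl, hla⟩ := hD.fusion a ha (y * x⁻¹) (by rw [h2]; exact hb)
  exact ⟨l, hl, by rw [hla, h2]⟩

theorem dade_eq [Finite G] (hD : DadeHypothesis A L H) {β : L → ℂ} (hβ : IsClassFunction L β)
    (g : G) (a : L) (ha : (a : G) ∈ A) (hg : InD H (a : G) g) :
    dadeIsometry A L H β g = β a := by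
  have h : ∃ a : ↥L, (a : G) ∈ A ∧ ∃ x : G, ∃ u ∈ H (a : G), x * g * x⁻¹ = (a : G) * u :=
    ⟨a, ha, hg⟩
  unfold dadeIsometry
  rw [dif_pos h]
  obtain ⟨ha', hg'⟩ := Classical.choose_spec h
  obtain ⟨l, hl, hla⟩ := conj_of_inD hD ha ha' hg hg'
  have h1 : Classical.choose h = (⟨l, hl⟩ : L) * a * (⟨l, hl⟩ : L)⁻¹ := by
    apply Subtype.ext
    exact hla.symm
  rw [h1]
  exact hβ a ⟨l, hl⟩

theorem dade_eq_zero (β : L → ℂ) (g : G)
    (hg : ¬ ∃ a : ↥L, (a : G) ∈ A ∧ InD H (a : G) g) : dadeIsometry A L H β g = 0 := by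
  have hg' : ¬ ∃ a : ↥L, (a : G) ∈ A ∧ ∃ x : G, ∃ u ∈ H (a : G), x * g * x⁻¹ = (a : G) * u := hg
  unfold dadeIsometry
  rw [dif_neg hg']

theorem isClassFunction_dade [Finite G] (hD : DadeHypothesis A L H) {β : L → ℂ}
    (hβ : IsClassFunction L β) : IsClassFunction G (dadeIsometry A L H β) := by
  intro g h
  by_cases hex : ∃ a : ↥L, (a : G) ∈ A ∧ InD H (a : G) g
  · obtain ⟨a, ha, x, u, hu, hx⟩ := hex
    rw [dade_eq hD hβ g a ha ⟨x, u, hu, hx⟩]
    apply dade_eq hD hβ _ a ha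
    exact ⟨x * h⁻¹, u, hu, by rw [← hx]; group⟩
  · rw [dade_eq_zero β g hex]
    apply dade_eq_zero
    rintro ⟨a, ha, x, u, hu, hx⟩
    exact hex ⟨a, ha, x * h, u, hu, by rw [← hx]; group⟩

/-- The centralizer of `a ∈ A` has order `|H a| * |C_L(a)|`. -/
theorem card_centralizer [Finite G] (hD : DadeHypothesis A L H) {a : G} (ha : a ∈ A) :
    Nat.card (Subgroup.centralizer ({a} : Set G)) =
      Nat.card (H a) * Nat.card ↥(L ⊓ Subgroup.centralizer ({a} : Set G)) := by
  rw [← Nat.card_prod]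
  symm
  apply Nat.card_congr
  refine Equiv.ofBijective
    (fun p : H a × ↥(L ⊓ Subgroup.centralizer ({a} : Set G)) =>
      (⟨(p.1 : G) * (p.2 : G), Subgroup.mul_mem _ (hD.le_centralizer a ha p.1.2)
        (Subgroup.mem_inf.mp p.2.2).2⟩ : Subgroup.centralizer ({a} : Set G))) ⟨?_, ?_⟩
  · rintro ⟨⟨h, hh⟩, ⟨c, hc⟩⟩ ⟨⟨h', hh'⟩, ⟨c', hc'⟩⟩ heq
    have h1 : h * c = h' * c' := congrArg Subtype.val heq
    have h2 : h'⁻¹ * h ∈ H a ⊓ (L ⊓ Subgroup.centralizer ({a} : Set G)) := by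
      rw [Subgroup.mem_inf]
      refine ⟨(H a).mul_mem ((H a).inv_mem hh') hh, ?_⟩
      have h3 : h'⁻¹ * h = c' * c⁻¹ := by
        calc h'⁻¹ * h = h'⁻¹ * (h * c) * c⁻¹ := by group
          _ = h'⁻¹ * (h' * c') * c⁻¹ := by rw [h1]
          _ = c' * c⁻¹ := by group
      rw [h3]
      exact Subgroup.mul_mem _ hc' (Subgroup.inv_mem _ hc)
    rw [hD.inf_eq_bot a ha, Subgroup.mem_bot] at h2
    have h3 : h = h' := (inv_mul_eq_one.mp h2).symm
    subst h3
    have h4 : c = c' := mul_left_cancel h1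
    subst h4
    rfl
  · rintro ⟨x, hx⟩
    have hx' := hx
    rw [← hD.sup_eq a ha] at hx'
    obtain ⟨h, hh, c, hc, hxe⟩ := mem_sup_decomp (H a) (L ⊓ Subgroup.centralizer ({a} : Set G))
      (fun q hq p hp => hD.conj_mem_H a ha q (Subgroup.mem_inf.mp hq).2 p hp) hx'
    exact ⟨(⟨h, hh⟩, ⟨c, hc⟩), Subtype.ext hxe.symm⟩

theorem card_inf_centralizer_conj (L : Subgroup G) (a l : G) (hl : l ∈ L) :
    Nat.card ↥(L ⊓ Subgroup.centralizer ({l * a * l⁻¹} : Set G)) =
      Nat.card ↥(L ⊓ Subgroup.centralizer ({a} : Set G)) := by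
  apply Nat.card_congr
  refine ⟨fun c => ⟨l⁻¹ * c * l, ?_⟩, fun c => ⟨l * c * l⁻¹, ?_⟩, ?_, ?_⟩
  · obtain ⟨c, hc⟩ := c
    rw [Subgroup.mem_inf] at hc ⊢
    refine ⟨L.mul_mem (L.mul_mem (L.inv_mem hl) hc.1) hl, ?_⟩
    have h1 := hc.2
    rw [Subgroup.mem_centralizer_iff] at h1 ⊢
    intro z hz
    rw [Set.mem_singleton_iff] at hz
    rw [hz]
    have h2 := h1 (l * a * l⁻¹) (Set.mem_singleton _)
    show a * (l⁻¹ * c * l) = l⁻¹ * c * l * a
    calc a * (l⁻¹ * c * l) = l⁻¹ * (l * a * l⁻¹ * c) * l := by group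
      _ = l⁻¹ * (c * (l * a * l⁻¹)) * l := by rw [h2]
      _ = l⁻¹ * c * l * a := by group
  · obtain ⟨c, hc⟩ := c
    rw [Subgroup.mem_inf] at hc ⊢
    refine ⟨L.mul_mem (L.mul_mem hl hc.1) (L.inv_mem hl), ?_⟩
    have h1 := hc.2
    rw [Subgroup.mem_centralizer_iff] at h1 ⊢
    intro z hz
    rw [Set.mem_singleton_iff] at hz
    rw [hz]
    have h2 := h1 a (Set.mem_singleton _)
    show l * a * l⁻¹ * (l * c * l⁻¹) = l * c * l⁻¹ * (l * a * l⁻¹)
    calc l * a * l⁻¹ * (l * c * l⁻¹) = l * (a * c) * l⁻¹ := by group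
      _ = l * (c * a) * l⁻¹ := by rw [h2]
      _ = l * c * l⁻¹ * (l * a * l⁻¹) := by group
  · intro c
    apply Subtype.ext
    show l * (l⁻¹ * (c : G) * l) * l⁻¹ = (c : G)
    group
  · intro c
    apply Subtype.ext
    show l⁻¹ * (l * (c : G) * l⁻¹) * l = (c : G)
    group

theorem card_centralizer_sub (L : Subgroup G) (a : L) :
    Nat.card (Subgroup.centralizer ({a} : Set L)) =
      Nat.card ↥(L ⊓ Subgroup.centralizer ({(a : G)} : Set G)) := by
  apply Nat.card_congr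
  refine ⟨fun c => ⟨(c : G), ?_⟩, fun c => ⟨⟨(c : G), (Subgroup.mem_inf.mp c.2).1⟩, ?_⟩, ?_, ?_⟩
  · obtain ⟨c, hc⟩ := c
    rw [Subgroup.mem_inf]
    refine ⟨c.2, ?_⟩
    rw [Subgroup.mem_centralizer_iff] at hc ⊢
    intro z hz
    rw [Set.mem_singleton_iff] at hz
    rw [hz]
    exact congrArg Subtype.val (hc a (Set.mem_singleton a))
  · obtain ⟨c, hc⟩ := c
    have h1 := (Subgroup.mem_inf.mp hc).2
    rw [Subgroup.mem_centralizer_iff] at h1 ⊢
    intro z hz
    rw [Set.mem_singleton_iff] at hz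
    rw [hz]
    apply Subtype.ext
    exact h1 (a : G) (Set.mem_singleton _)
  · intro c
    rfl
  · intro c
    rfl

section Count

variable [Fintype G]

theorem sum_indicator_conj (hD : DadeHypothesis A L H) {a : G} (ha : a ∈ A) (g : G) :
    ∑ x : G, (if a⁻¹ * (x * g * x⁻¹) ∈ H a then (1 : ℂ) else 0) =
      if InD H a g then (Nat.card (Subgroup.centralizer ({a} : Set G)) : ℂ) else 0 := by
  by_cases hg : InD H a g
  · rw [if_pos hg]
    obtain ⟨y, u₀, hu₀, hy⟩ := hg
    have h1 : ∑ x : G, (if a⁻¹ * (x * g * x⁻¹) ∈ H a then (1 : ℂ) else 0) =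
        ∑ c : G, (if c ∈ Subgroup.centralizer ({a} : Set G) then (1 : ℂ) else 0) := by
      symm
      apply Fintype.sum_equiv (Equiv.mulRight y)
      intro c
      show (if c ∈ Subgroup.centralizer ({a} : Set G) then (1 : ℂ) else 0) =
        (if a⁻¹ * (c * y * g * (c * y)⁻¹) ∈ H a then (1 : ℂ) else 0)
      have hiff : c ∈ Subgroup.centralizer ({a} : Set G) ↔
          a⁻¹ * (c * y * g * (c * y)⁻¹) ∈ H a := by
        have he : c * y * g * (c * y)⁻¹ = c * (a * u₀) * c⁻¹ := by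
          rw [← hy]
          group
        rw [he]
        constructor
        · intro hc
          have h2 : c * a * c⁻¹ = a := by
            have hc' := hc
            rw [Subgroup.mem_centralizer_iff] at hc'
            have h4 := hc' a (Set.mem_singleton a)
            calc c * a * c⁻¹ = a * c * c⁻¹ := by rw [h4]
              _ = a := by group
          have h3 : a⁻¹ * (c * (a * u₀) * c⁻¹) = c * u₀ * c⁻¹ := by
            calc a⁻¹ * (c * (a * u₀) * c⁻¹) = a⁻¹ * (c * a * c⁻¹) * (c * u₀ * c⁻¹) := by group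
              _ = a⁻¹ * a * (c * u₀ * c⁻¹) := by rw [h2]
              _ = c * u₀ * c⁻¹ := by group
          rw [h3]
          exact hD.conj_mem_H a ha c hc u₀ hu₀
        · intro hmem
          have h2 : c * (a * u₀) * c⁻¹ = a * (a⁻¹ * (c * (a * u₀) * c⁻¹)) := by group
          obtain ⟨h3, -⟩ := conj_eq_of_conj_mul hD ha ha hu₀ hmem h2
          rw [Subgroup.mem_centralizer_iff]
          intro z hz
          rw [Set.mem_singleton_iff] at hz
          rw [hz]
          calc a * c = c * a * c⁻¹ * c := by rw [h3]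
            _ = c * a := by group
      by_cases hc : c ∈ Subgroup.centralizer ({a} : Set G)
      · rw [if_pos hc, if_pos (hiff.mp hc)]
      · rw [if_neg hc, if_neg (fun h => hc (hiff.mpr h))]
    rw [h1, Cfsg.Agent.Lib_helper3_TIFN.sum_ite_mem (Subgroup.centralizer ({a} : Set G))
      (fun _ => (1 : ℂ)), Finset.sum_const, Finset.card_univ, nsmul_eq_mul, mul_one,
      Nat.card_eq_fintype_card]
  · rw [if_neg hg]
    apply Finset.sum_eq_zero
    intro x _
    rw [if_neg]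
    intro hmem
    exact hg ⟨x, a⁻¹ * (x * g * x⁻¹), hmem, by group⟩

theorem sum_inD (hD : DadeHypothesis A L H) {a : G} (ha : a ∈ A) (F : G → ℂ)
    (hF : IsClassFunction G F) :
    (Nat.card (Subgroup.centralizer ({a} : Set G)) : ℂ) *
      ∑ g : G, (if InD H a g then F g else 0) = (Nat.card G : ℂ) * ∑ u : H a, F (a * u) := by
  have h1 : ∀ x : G, ∑ u : H a, F (a * u) =
      ∑ g : G, (if a⁻¹ * (x * g * x⁻¹) ∈ H a then F g else 0) := by
    intro x
    rw [← Cfsg.Agent.Lib_helper3_TIFN.sum_ite_mem (H a) (fun h => F (a * h))]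
    symm
    apply Fintype.sum_equiv ((MulAut.conj x).toEquiv.trans (Equiv.mulLeft a⁻¹))
    intro g
    have he : ((MulAut.conj x).toEquiv.trans (Equiv.mulLeft a⁻¹)) g = a⁻¹ * (x * g * x⁻¹) := rfl
    rw [he]
    by_cases hm : a⁻¹ * (x * g * x⁻¹) ∈ H a
    · rw [if_pos hm, if_pos hm]
      have h2 : a * (a⁻¹ * (x * g * x⁻¹)) = x * g * x⁻¹ := by group
      rw [h2]
      exact (hF g x).symm
    · rw [if_neg hm, if_neg hm]
  have h2 : (Nat.card G : ℂ) * ∑ u : H a, F (a * u) =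
      ∑ x : G, ∑ g : G, (if a⁻¹ * (x * g * x⁻¹) ∈ H a then F g else 0) := by
    rw [← Finset.sum_congr rfl (fun x _ => h1 x), Finset.sum_const, Finset.card_univ,
      nsmul_eq_mul, Nat.card_eq_fintype_card]
  rw [h2, Finset.sum_comm, Finset.mul_sum]
  apply Finset.sum_congr rfl
  intro g _
  have h3 : ∑ x : G, (if a⁻¹ * (x * g * x⁻¹) ∈ H a then F g else 0) =
      F g * ∑ x : G, (if a⁻¹ * (x * g * x⁻¹) ∈ H a then (1 : ℂ) else 0) := by
    rw [Finset.mul_sum]
    apply Finset.sum_congr rfl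
    intro x _
    rw [mul_ite, mul_one, mul_zero]
  rw [h3, sum_indicator_conj hD ha g]
  by_cases hg : InD H a g
  · rw [if_pos hg, if_pos hg]
    ring
  · rw [if_neg hg, if_neg hg]
    ring

theorem dade_eq_sum [Fintype L] (hD : DadeHypothesis A L H) {α : L → ℂ}
    (hα : IsClassFunction L α) (g : G) :
    dadeIsometry A L H α g = ∑ a : L, (if (a : G) ∈ A ∧ InD H (a : G) g then
      (Nat.card ↥(L ⊓ Subgroup.centralizer ({(a : G)} : Set G)) : ℂ) / (Nat.card L : ℂ) * α a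
      else 0) := by
  by_cases hex : ∃ a : ↥L, (a : G) ∈ A ∧ InD H (a : G) g
  · obtain ⟨a₀, ha₀, hg₀⟩ := hex
    rw [dade_eq hD hα g a₀ ha₀ hg₀]
    have hiff : ∀ a : L, ((a : G) ∈ A ∧ InD H (a : G) g) ↔ IsConj a₀ a := by
      intro a
      constructor
      · rintro ⟨ha, hga⟩
        obtain ⟨l, hl, hla⟩ := conj_of_inD hD ha₀ ha hg₀ hga
        exact isConj_iff.mpr ⟨⟨l, hl⟩, Subtype.ext hla⟩
      · intro hc
        obtain ⟨c, hc⟩ := isConj_iff.mp hc
        have h1 : (a : G) = (c : G) * (a₀ : G) * (c : G)⁻¹ := by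
          rw [← hc]
          rfl
        rw [h1]
        exact ⟨hD.conj_mem c c.2 a₀ ha₀, inD_conj hD ha₀ c.2 hg₀⟩
    have hterm : ∀ a : L, (if (a : G) ∈ A ∧ InD H (a : G) g then
        (Nat.card ↥(L ⊓ Subgroup.centralizer ({(a : G)} : Set G)) : ℂ) / (Nat.card L : ℂ) * α a
        else 0) = (if IsConj a₀ a then
        (Nat.card ↥(L ⊓ Subgroup.centralizer ({(a₀ : G)} : Set G)) : ℂ) / (Nat.card L : ℂ) * α a₀
        else 0) := by
      intro a
      by_cases hc : IsConj a₀ a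
      · rw [if_pos ((hiff a).mpr hc), if_pos hc]
        obtain ⟨c, hc'⟩ := isConj_iff.mp hc
        have h1 : (a : G) = (c : G) * (a₀ : G) * (c : G)⁻¹ := by
          rw [← hc']
          rfl
        have h2 : α a = α a₀ := by
          rw [← hc']
          exact hα a₀ c
        rw [h2, h1, card_inf_centralizer_conj L (a₀ : G) (c : G) c.2]
      · rw [if_neg (fun h => hc ((hiff a).mp h)), if_neg hc]
    rw [Finset.sum_congr rfl (fun a _ => hterm a), ← Finset.sum_filter, Finset.sum_const,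
      nsmul_eq_mul]
    have hcard : (Finset.univ.filter (fun a : L => IsConj a₀ a)).card =
        (Subgroup.centralizer ({a₀} : Set L)).index := by
      rw [← card_isConj_eq_index a₀, Nat.card_eq_fintype_card, Fintype.card_subtype]
    have hL0 : (Nat.card L : ℂ) ≠ 0 := by
      exact_mod_cast (Nat.card_pos (α := L)).ne'
    have hmul : (Subgroup.centralizer ({a₀} : Set L)).index *
        Nat.card ↥(L ⊓ Subgroup.centralizer ({(a₀ : G)} : Set G)) = Nat.card L := by
      rw [← card_centralizer_sub L a₀, mul_comm]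
      exact Subgroup.card_mul_index _
    rw [hcard, ← hmul]
    push_cast
    have hi0 : ((Subgroup.centralizer ({a₀} : Set L)).index : ℂ) ≠ 0 := by
      intro h0
      apply hL0
      rw [← hmul]
      push_cast
      rw [h0, zero_mul]
    have hw0 : (Nat.card ↥(L ⊓ Subgroup.centralizer ({(a₀ : G)} : Set G)) : ℂ) ≠ 0 := by
      intro h0
      apply hL0
      rw [← hmul]
      push_cast
      rw [h0, mul_zero]
    field_simp
  · rw [dade_eq_zero α g hex]
    symm
    apply Finset.sum_eq_zero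
    intro a _
    rw [if_neg]
    intro h
    exact hex ⟨a, h⟩

/-- Frobenius reciprocity for the Dade map. -/
theorem dade_inner [Fintype L] (hD : DadeHypothesis A L H) (α : L → ℂ)
    (hα : IsClassFunction L α) (hαA : ∀ x : L, (x : G) ∉ A → α x = 0)
    (χ : G → ℂ) (ψ : L → ℂ) (hχ : IsClassFunction G χ)
    (hψ : ∀ a : L, (a : G) ∈ A →
      ψ a = (Nat.card (H a) : ℂ)⁻¹ * ∑ u : H (a : G), χ ((a : G) * u)) :
    classInner (dadeIsometry A L H α) χ = classInner α ψ := by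
  rw [classInner_def, classInner_def]
  have hG0 := card_ne_zero (G := G)
  have hL0 : (Nat.card L : ℂ) ≠ 0 := by
    exact_mod_cast (Nat.card_pos (α := L)).ne'
  have hF : IsClassFunction G (fun g => conj (χ g)) := by
    intro g h
    show conj (χ (h * g * h⁻¹)) = conj (χ g)
    rw [hχ g h]
  have h1 : ∑ g : G, dadeIsometry A L H α g * conj (χ g) =
      ∑ a : L, ∑ g : G, (if (a : G) ∈ A ∧ InD H (a : G) g then
        (Nat.card ↥(L ⊓ Subgroup.centralizer ({(a : G)} : Set G)) : ℂ) / (Nat.card L : ℂ) * α a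
        else 0) * conj (χ g) := by
    rw [Finset.sum_comm]
    apply Finset.sum_congr rfl
    intro g _
    rw [dade_eq_sum hD hα g, Finset.sum_mul]
  have h2 : ∀ a : L, ∑ g : G, (if (a : G) ∈ A ∧ InD H (a : G) g then
        (Nat.card ↥(L ⊓ Subgroup.centralizer ({(a : G)} : Set G)) : ℂ) / (Nat.card L : ℂ) * α a
        else 0) * conj (χ g) = (Nat.card G : ℂ) / (Nat.card L : ℂ) * (α a * conj (ψ a)) := by
    intro a
    by_cases ha : (a : G) ∈ A
    · have h3 : ∀ g : G, (if (a : G) ∈ A ∧ InD H (a : G) g then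
          (Nat.card ↥(L ⊓ Subgroup.centralizer ({(a : G)} : Set G)) : ℂ) / (Nat.card L : ℂ) * α a
          else 0) * conj (χ g) =
          (Nat.card ↥(L ⊓ Subgroup.centralizer ({(a : G)} : Set G)) : ℂ) / (Nat.card L : ℂ) * α a *
            (if InD H (a : G) g then conj (χ g) else 0) := by
        intro g
        by_cases hg : InD H (a : G) g
        · rw [if_pos ⟨ha, hg⟩, if_pos hg]
        · rw [if_neg (fun h => hg h.2), if_neg hg, zero_mul, mul_zero]
      rw [Finset.sum_congr rfl (fun g _ => h3 g), ← Finset.mul_sum]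
      have h4 := sum_inD hD ha (fun g => conj (χ g)) hF
      have h5 := card_centralizer hD ha
      have hC0 : (Nat.card (Subgroup.centralizer ({(a : G)} : Set G)) : ℂ) ≠ 0 := by
        exact_mod_cast (Nat.card_pos (α := Subgroup.centralizer ({(a : G)} : Set G))).ne'
      have hH0 : (Nat.card (H (a : G)) : ℂ) ≠ 0 := by
        exact_mod_cast (Nat.card_pos (α := H (a : G))).ne'
      have hw0 : (Nat.card ↥(L ⊓ Subgroup.centralizer ({(a : G)} : Set G)) : ℂ) ≠ 0 := by
        exact_mod_cast (Nat.card_pos (α := ↥(L ⊓ Subgroup.centralizer ({(a : G)} : Set G)))).ne'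
      have h6 : ∑ g : G, (if InD H (a : G) g then conj (χ g) else 0) =
          (Nat.card G : ℂ) / ((Nat.card (H (a : G)) : ℂ) *
            (Nat.card ↥(L ⊓ Subgroup.centralizer ({(a : G)} : Set G)) : ℂ)) *
            ∑ u : H (a : G), conj (χ ((a : G) * u)) := by
        rw [div_mul_eq_mul_div, eq_div_iff (mul_ne_zero hH0 hw0), ← h4, h5]
        push_cast
        ring
      have h7 : conj (ψ a) = (Nat.card (H (a : G)) : ℂ)⁻¹ *
          ∑ u : H (a : G), conj (χ ((a : G) * u)) := by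
        rw [hψ a ha, map_mul, map_inv₀, Complex.conj_natCast, map_sum]
      rw [h6, h7]
      field_simp
    · rw [hαA a ha]
      simp
  rw [h1, Finset.sum_congr rfl (fun a _ => h2 a), ← Finset.mul_sum]
  field_simp

end Count

end Cfsg.Agent.Lib_helper3_Dade2
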