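import Mathlib
import Cfsg.Prelude.Def_Characters
import Cfsg.Prelude.Def_Blocks
import Cfsg.Agent.Lib_helper3_BlockDom
import Cfsg.Agent.Lib_helper3_BlockInfl
import Cfsg.Agent.Lib_helper3_DefectZero
import Cfsg.Agent.Lib_helper3_AlgComb
import Cfsg.Agent.S0914

set_option autoImplicit false
open Cfsg
open Cfsg.Agent.Lib_helper3_CharBasic Cfsg.Agent.Lib_helper3_CharMore
  Cfsg.Agent.Lib_helper3_Local Cfsg.Agent.Lib_helper3_Local2 Cfsg.Agent.Lib_helper3_BlockAlg
  Cfsg.Agent.Lib_helper3_DefectZero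
open scoped ComplexConjugate

namespace Cfsg.Agent.Lib_helper3_DefectVanish

universe u

variable {G : Type u} [Group G] {p : ℕ}

/-- The `p`-part of an element is a power of it. -/
theorem ppart_eq_pow (hp : p.Prime) {x z : G} (h : IsPPart p x z) : ∃ t : ℕ, x ^ t = z := by
  obtain ⟨y, hzy, hcomm, ⟨k, hk⟩, hy⟩ := h
  have hcop : Nat.Coprime (orderOf y) (p ^ k) :=
    (Nat.Coprime.pow_left k ((Nat.Prime.coprime_iff_not_dvd hp).mpr hy)).symm
  obtain ⟨t, ht1, ht0⟩ := Cfsg.Agent.Lib_helper3_AlgComb.exists_exponent hcop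
  refine ⟨t, ?_⟩
  rw [← hzy, hcomm.mul_pow]
  have h1 : y ^ t = 1 := by
    obtain ⟨c, rfl⟩ := ht0
    rw [pow_mul, pow_orderOf_eq_one, one_pow]
  have h2 : z ^ t = z ^ 1 := by
    rw [pow_eq_pow_iff_modEq, hk]
    exact ht1
  rw [h1, h2, pow_one, mul_one]

variable [Fintype G] [Fact p.Prime] {M : Ideal AlgInt}

/-- In a block whose defect group is the normal `p`-subgroup `P`, a central character can only
be nonzero modulo the local ideal at elements that are `p`-regular modulo `P`. -/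
theorem not_dvd_orderOf_mk (hM : IsPModular p M) (P : Subgroup G) [P.Normal] (hP : IsPGroup p P)
    {B : Set (IrrCharacter G)} (hB : IsPBlock M B)
    (hcard : Nat.card P = p ^ blockDefect p B) (χ : IrrCharacter G) (hχ : χ ∈ B) (x : G)
    (hx : ¬ MemLocalIdeal M (centralChar (χ : G → ℂ) x)) :
    ¬ p ∣ orderOf (QuotientGroup.mk x : G ⧸ P) := by
  classical
  have hp : p.Prime := Fact.out
  have hMm : M.IsMaximal := hM.2.1
  have hMp : M.IsPrime := hMm.isPrime
  have := Fintype.ofFinite (G ⧸ P)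
  obtain ⟨θ₁, hθ₁B, hθ₁⟩ := Cfsg.Agent.Lib_helper3_BlockDom.exists_infl_mem_block hM P hP hB
  obtain ⟨θ', hθ', hinfl⟩ := Cfsg.Agent.Lib_helper3_BlockInfl.exists_descent P θ₁.2 hθ₁
  obtain ⟨d₁, hd₁⟩ := isCharacter_apply_one (isCharacter_of_irr hθ')
  have hd₁' : charDegree θ' = d₁ := charDegree_eq hd₁
  have hd₁0 : d₁ ≠ 0 := by
    rintro rfl
    exact irr_apply_one_ne_zero hθ' (by rw [hd₁]; simp)
  have hdvd : d₁ ∣ Nat.card (G ⧸ P) := Cfsg.Agent.Lib_helper3_CharOdd.irr_degree_dvd_card hθ' hd₁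
  have hθ₁1 : (θ₁ : G → ℂ) 1 = d₁ := by
    rw [hinfl, Function.comp_apply, QuotientGroup.mk_one, hd₁]
  have hdeg₁ : charDegree (θ₁ : G → ℂ) = d₁ := charDegree_eq hθ₁1
  have hle : sInf ((fun χ : IrrCharacter G => (charDegree (χ : G → ℂ)).factorization p) '' B) ≤
      d₁.factorization p := by
    apply Nat.sInf_le
    exact ⟨θ₁, hθ₁B, by show (charDegree (θ₁ : G → ℂ)).factorization p = _; rw [hdeg₁]⟩
  have hGP : Nat.card G = Nat.card (G ⧸ P) * Nat.card P :=
    Subgroup.card_eq_card_quotient_mul_card_subgroup P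
  have hfact : (Nat.card G).factorization p =
      (Nat.card (G ⧸ P)).factorization p + blockDefect p B := by
    rw [hGP, Nat.factorization_mul Nat.card_pos.ne' Nat.card_pos.ne', hcard]
    show (Nat.card (G ⧸ P)).factorization p + (p ^ blockDefect p B).factorization p = _
    rw [hp.factorization_pow]
    simp
  have hle2 : d₁.factorization p ≤ (Nat.card (G ⧸ P)).factorization p :=
    (Nat.factorization_le_iff_dvd hd₁0 Nat.card_pos.ne').mpr hdvd p
  have hdefect : ¬ p ∣ Nat.card (G ⧸ P) / charDegree θ' := by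
    rw [hd₁']
    intro hdiv
    have hq0 : Nat.card (G ⧸ P) / d₁ ≠ 0 := by
      obtain ⟨c, hc⟩ := hdvd
      rw [hc, Nat.mul_div_cancel_left c (Nat.pos_of_ne_zero hd₁0)]
      rintro rfl
      rw [mul_zero] at hc
      exact Nat.card_pos.ne' hc
    have h2 := hp.factorization_pos_of_dvd hq0 hdiv
    rw [Nat.factorization_div hdvd] at h2
    have h4 : ((Nat.card (G ⧸ P)).factorization - d₁.factorization) p =
        (Nat.card (G ⧸ P)).factorization p - d₁.factorization p := rfl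
    unfold blockDefect at hfact
    omega
  have hblk := (Cfsg.Agent.S0914.result p M hM (⟨θ', hθ'⟩ : IrrCharacter (G ⧸ P))).mp hdefect
  have hR : ∀ g, MemLocalRing M (blockCoeff
      ({(⟨θ', hθ'⟩ : IrrCharacter (G ⧸ P))} : Set (IrrCharacter (G ⧸ P))) g) := by
    rw [← hblk]
    exact fun g => osima ⟨⟨θ', hθ'⟩, rfl⟩ g
  have hvan : ∀ y : G ⧸ P, p ∣ orderOf y → θ' y = 0 :=
    fun y hy => eq_zero_of_singular hM (⟨θ', hθ'⟩ : IrrCharacter (G ⧸ P)) hR y hy
  obtain ⟨χ₀, rfl⟩ := hB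
  have hs : SameBlock M (θ₁ : G → ℂ) (χ : G → ℂ) :=
    sameBlock_trans (sameBlock_symm hθ₁B) hχ
  have hcc : ¬ MemLocalIdeal M (centralChar (θ₁ : G → ℂ) x) :=
    not_memLocalIdeal_of_sub (hs x) hx
  intro hdiv
  apply hcc
  have h1 : (θ₁ : G → ℂ) x = 0 := by
    rw [hinfl, Function.comp_apply]
    exact hvan _ hdiv
  unfold centralChar
  rw [h1, mul_zero, zero_div]
  exact memLocalIdeal_zero hMp.ne_top

end Cfsg.Agent.Lib_helper3_DefectVanish
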