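import Cfsg.Prelude.Def_Characters
import Cfsg.Prelude.Def_CharExt
import Cfsg.Agent.Lib_helper3_Det
import Cfsg.Agent.Lib_helper3_Gallagher
import Cfsg.Agent.Lib_helper3_ExtGroup
import Cfsg.Agent.Lib_helper3_Transfer

set_option autoImplicit false
open Cfsg
open Cfsg.Agent.Lib_helper3_CharBasic Cfsg.Agent.Lib_helper3_CharInd
  Cfsg.Agent.Lib_helper3_CharMore Cfsg.Agent.Lib_helper3_CharNormal
  Cfsg.Agent.Lib_helper3_Clifford Cfsg.Agent.Lib_helper3_AbInd
  Cfsg.Agent.Lib_helper3_Det Cfsg.Agent.Lib_helper3_Transfer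
  Cfsg.Agent.Lib_helper3_Gallagher Cfsg.Agent.Lib_helper3_ExtGroup

namespace Cfsg.Agent.Lib_helper3_DetExt

open scoped ComplexConjugate

universe u

variable {G : Type u} [Group G] [Finite G]

theorem norm_hom_eq_one (β : G →* ℂˣ) (g : G) : ‖(β g : ℂ)‖ = 1 := by
  have h1 : (β g : ℂ) ^ orderOf g = 1 := by
    rw [← Units.val_pow_eq_pow_val, ← map_pow, pow_orderOf_eq_one, map_one, Units.val_one]
  exact Complex.norm_eq_one_of_pow_eq_one h1 (orderOf_pos g).ne'

/-- An extendible irreducible character of a normal subgroup, of degree prime to the index,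
has a unique extension with prescribed determinant. -/
theorem exists_unique_ext_det (N : Subgroup G) [hN : N.Normal] (ϑ : N → ℂ)
    (hϑ : IsIrrCharacter N ϑ) (d : ℕ) (hd : ϑ 1 = d) (hcop : Nat.Coprime N.index d)
    (hext : ∃ η : G → ℂ, IsIrrCharacter G η ∧ ∀ n : N, η n = ϑ n) (μ : G → ℂ)
    (hμ : IsCharacter G μ ∧ μ 1 = 1) (hμN : ∀ n : N, μ n = detChar ϑ n) :
    ∃! χ : G → ℂ, IsIrrCharacter G χ ∧ (∀ n : N, χ n = ϑ n) ∧ detChar χ = μ := by
  classical
  have := Fintype.ofFinite G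
  have := Fintype.ofFinite N
  obtain ⟨η, hη, hηN⟩ := hext
  have hηc := isCharacter_of_irr hη
  obtain ⟨μh, rfl⟩ := exists_hom_of_linear hμ.1 hμ.2
  obtain ⟨δ, hδ⟩ := exists_hom_detChar hηc
  have hη1 : η 1 = d := by
    rw [← hd]
    exact hηN 1
  have hd0 : (d : ℂ) ≠ 0 := by
    rw [← hd]
    exact irr_apply_one_ne_zero hϑ
  have hresdet : ∀ n : N, detChar ϑ n = δ n := by
    have h1 := detChar_comp N.subtype hηc
    have h2 : (fun n : N => η (N.subtype n)) = ϑ := funext hηN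
    rw [h2] at h1
    intro n
    rw [h1, hδ]
    rfl
  have hγN : ∀ n : N, (μh / δ) (n : G) = 1 := by
    intro n
    rw [MonoidHom.div_apply]
    apply div_eq_one.2
    apply Units.ext
    rw [← hresdet n]
    exact hμN n
  have hγidx : ∀ g : G, (μh / δ) g ^ N.index = 1 := by
    intro g
    rw [← map_pow]
    exact hγN ⟨g ^ N.index, Subgroup.pow_index_mem N g⟩
  have hb := Int.gcd_eq_gcd_ab (d : ℤ) (N.index : ℤ)
  have hg1 : Int.gcd (d : ℤ) (N.index : ℤ) = 1 := by
    rw [Int.gcd_natCast_natCast]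
    exact hcop.symm
  rw [hg1] at hb
  have hb' : (d : ℤ) * Int.gcdA (d : ℤ) (N.index : ℤ)
      = 1 - (N.index : ℤ) * Int.gcdB (d : ℤ) (N.index : ℤ) := by
    have : ((1 : ℕ) : ℤ) = 1 := rfl
    rw [this] at hb
    linarith
  let β : G →* ℂˣ := (μh / δ) ^ (Int.gcdA (d : ℤ) (N.index : ℤ))
  have hβd : ∀ g : G, β g ^ d = (μh / δ) g := by
    intro g
    show ((μh / δ) ^ (Int.gcdA (d : ℤ) (N.index : ℤ))) g ^ d = _
    rw [MonoidHom.zpow_apply, ← zpow_natCast, ← zpow_mul, mul_comm, hb', zpow_sub, zpow_one,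
      zpow_mul, zpow_natCast, hγidx g, one_zpow]
    simp
  have hβN : ∀ n : N, β (n : G) = 1 := by
    intro n
    show ((μh / δ) ^ (Int.gcdA (d : ℤ) (N.index : ℤ))) (n : G) = 1
    rw [MonoidHom.zpow_apply, hγN n, one_zpow]
  have hϑinv : ∀ g : G, conjFun N g ϑ = ϑ := by
    intro g
    have h1 := conjFun_restrict N (isClassFunction_of_irr hη) g
    have h2 : (fun n : N => η n) = ϑ := funext hηN
    rw [h2] at h1
    exact h1
  have hχirr : IsIrrCharacter G (fun g => (β g : ℂ) * η g) := by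
    have h := isIrrCharacter_mul_of_norm_one hη (isCharacter_of_monoidHom β) (norm_hom_eq_one β)
    have h2 : (fun t => η t * (β t : ℂ)) = (fun g => (β g : ℂ) * η g) := by
      funext g
      ring
    rw [h2] at h
    exact h
  have hχN : ∀ n : N, (fun g => (β g : ℂ) * η g) n = ϑ n := by
    intro n
    show (β (n : G) : ℂ) * η n = ϑ n
    rw [hβN n, hηN n]
    simp
  have hdetform : ∀ β' : G →* ℂˣ, detChar (fun g => (β' g : ℂ) * η g)
      = fun g => ((β' g ^ d * δ g : ℂˣ) : ℂ) := by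
    intro β'
    rw [detChar_twist hηc β' d hη1, hδ]
    funext g
    simp
  have hχdet : detChar (fun g => (β g : ℂ) * η g) = fun g => (μh g : ℂ) := by
    rw [hdetform β]
    funext g
    rw [hβd g, MonoidHom.div_apply, div_mul_cancel]
  refine ⟨fun g => (β g : ℂ) * η g, ⟨hχirr, hχN, hχdet⟩, ?_⟩
  rintro χ' ⟨hχ'irr, hχ'N, hχ'det⟩
  have hone : ((fun _ => 1 : N → ℂ) * ϑ) = ϑ := by
    funext x
    simp
  obtain ⟨-, -, hsurj⟩ := gallagher_bij N (fun _ => 1) ϑ isIrrCharacter_one (fun g => rfl)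
    hϑinv (by rw [hone]; exact hϑ) η hη hηN
  have hne : classInner (indFun N ((fun _ => 1 : N → ℂ) * ϑ)) χ' ≠ 0 := by
    rw [hone, frobenius_reciprocity N ϑ χ' (isClassFunction_of_irr hχ'irr)]
    have h2 : (fun n : N => χ' n) = ϑ := funext hχ'N
    rw [h2, irr_inner_self hϑ]
    exact one_ne_zero
  obtain ⟨β', hβ', hβ'1, heq⟩ := hsurj χ' hχ'irr hne
  obtain ⟨k, σ, hσ, rfl⟩ := hβ'
  have hker := rep_eq_id_of_const_ind_one N σ hβ'1
  have hdeg : σ.character 1 = 1 := by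
    have h1 := congrFun heq 1
    simp only [Pi.mul_apply] at h1
    have h2 : χ' 1 = d := by
      rw [← hd]
      exact hχ'N 1
    rw [hη1, h2] at h1
    have h3 : σ.character 1 * (d : ℂ) = 1 * (d : ℂ) := by rw [h1, one_mul]
    exact mul_right_cancel₀ hd0 h3
  obtain ⟨β'h, hβ'h⟩ := exists_hom_of_linear (isCharacter_of_rep σ) hdeg
  have hβ'N : ∀ n : N, β'h (n : G) = 1 := by
    intro n
    apply Units.ext
    have h1 : σ.character (n : G) = (β'h (n : G) : ℂ) := congrFun hβ'h (n : G)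
    rw [← h1, Units.val_one]
    have h2 := hker n n.2
    show LinearMap.trace ℂ _ (σ n) = 1
    rw [h2]
    have h3 : LinearMap.trace ℂ (Fin k → ℂ) LinearMap.id = σ.character 1 := by
      show _ = LinearMap.trace ℂ _ (σ 1)
      rw [map_one]
      rfl
    rw [h3, hdeg]
  have hχ'eq : χ' = fun g => (β'h g : ℂ) * η g := by
    rw [← heq, hβ'h]
    rfl
  have hpow : ∀ g : G, β'h g ^ d = β g ^ d := by
    intro g
    rw [hχ'eq, hdetform β'h] at hχ'det
    have h1 : ((β'h g ^ d * δ g : ℂˣ) : ℂ) = (μh g : ℂ) := congrFun hχ'det g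
    have h2 : β'h g ^ d * δ g = μh g := Units.ext h1
    rw [hβd g, MonoidHom.div_apply, ← h2, mul_div_cancel_right]
  have hββ' : ∀ g : G, β'h g = β g := by
    intro g
    have h1 : (β'h g / β g) ^ d = 1 := by
      rw [div_pow, hpow g, div_self']
    have h2 : (β'h g / β g) ^ N.index = 1 := by
      rw [div_pow, ← map_pow, ← map_pow]
      have hmem : g ^ N.index ∈ N := Subgroup.pow_index_mem N g
      rw [hβ'N ⟨g ^ N.index, hmem⟩, hβN ⟨g ^ N.index, hmem⟩, div_one]
    have h3 : orderOf (β'h g / β g) = 1 :=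
      Nat.eq_one_of_dvd_coprimes hcop (orderOf_dvd_of_pow_eq_one h2)
        (orderOf_dvd_of_pow_eq_one h1)
    exact div_eq_one.1 (orderOf_eq_one_iff.1 h3)
  rw [hχ'eq]
  funext g
  rw [hββ' g]

end Cfsg.Agent.Lib_helper3_DetExt
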