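import Cfsg.Prelude.Def_Characters
import Cfsg.Agent.Lib_helper3_ExtGroup
import Cfsg.Agent.Lib_helper3_Transfer

set_option autoImplicit false
open Cfsg
open Cfsg.Agent.Lib_helper3_CharBasic Cfsg.Agent.Lib_helper3_CharInd
  Cfsg.Agent.Lib_helper3_CharMore Cfsg.Agent.Lib_helper3_CharNormal
  Cfsg.Agent.Lib_helper3_CharComm Cfsg.Agent.Lib_helper3_CharIntegral
  Cfsg.Agent.Lib_helper3_CharDiag Cfsg.Agent.Lib_helper3_ExtGroup
  Cfsg.Agent.Lib_helper3_Transfer

namespace Cfsg.Agent.Lib_helper3_ExtExtend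

universe u v w

section Abstract

variable {H : Type u} [Group H] {V : Type v} [AddCommGroup V] [Module ℂ V] [Nontrivial V]

theorem smul_rep_cancel (E : Representation ℂ H V) (x : H) {c c' : ℂ}
    (h : c • E x = c' • E x) : c = c' := by
  have h1 := congrArg (fun f : V →ₗ[ℂ] V => f * E x⁻¹) h
  simp only [smul_mul_assoc, ← map_mul, mul_inv_cancel, map_one] at h1
  obtain ⟨v, hv⟩ := exists_ne (0 : V)
  have h2 := congrArg (fun f : V →ₗ[ℂ] V => f v) h1
  simp only [LinearMap.smul_apply, Module.End.one_apply] at h2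
  have h3 : (c - c') • v = 0 := by rw [sub_smul, h2, sub_self]
  rcases smul_eq_zero.1 h3 with h4 | h4
  · exact sub_eq_zero.1 h4
  · exact absurd h4 hv

/-- Two representations that differ pointwise by scalars differ by a linear character. -/
theorem exists_hom_of_smul_eq (Θ E : Representation ℂ H V) (h : ∀ x, ∃ c : ℂ, Θ x = c • E x) :
    ∃ β : H →* ℂˣ, ∀ x, Θ x = (β x : ℂ) • E x := by
  choose c hc using h
  let f : H →* ℂ :=
    { toFun := c
      map_one' := by
        apply smul_rep_cancel E 1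
        rw [← hc 1, map_one, map_one, one_smul]
      map_mul' := by
        intro x y
        apply smul_rep_cancel E (x * y)
        rw [← hc, map_mul, map_mul, hc x, hc y, smul_mul_smul_comm] }
  refine ⟨f.toHomUnits, fun x => ?_⟩
  rw [MonoidHom.coe_toHomUnits]
  exact hc x

end Abstract

section Restrict

variable {G : Type u} [Group G]

/-- A representation whose restriction to a subgroup is irreducible is irreducible. -/
theorem irreducible_of_restrict {V : Type v} [AddCommGroup V] [Module ℂ V] (N : Subgroup G)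
    (E : Representation ℂ G V) (ρ : Representation ℂ N V) [hI : ρ.IsIrreducible]
    (h : ∀ n : N, E n = ρ n) : E.IsIrreducible := by
  have hI' : IsSimpleOrder (Subrepresentation ρ) := hI
  refine { exists_pair_ne := ⟨⊥, ⊤, ?_⟩, eq_bot_or_eq_top := ?_ }
  · intro h0
    have h1 : (⊥ : Subrepresentation ρ) ≠ ⊤ := bot_ne_top
    apply h1
    apply Subrepresentation.toSubmodule_injective
    have h' : (⊥ : Subrepresentation E).toSubmodule
        = (⊤ : Subrepresentation E).toSubmodule := by rw [h0]
    exact h'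
  · intro W
    let W' : Subrepresentation ρ :=
      { toSubmodule := W.toSubmodule
        apply_mem_toSubmodule := by
          intro n v hv
          rw [← h n]
          exact W.apply_mem_toSubmodule _ hv }
    rcases hI'.eq_bot_or_eq_top W' with h | h
    · left
      apply Subrepresentation.toSubmodule_injective
      have h' : W'.toSubmodule = (⊥ : Subrepresentation ρ).toSubmodule := by rw [h]
      exact h'
    · right
      apply Subrepresentation.toSubmodule_injective
      have h' : W'.toSubmodule = (⊤ : Subrepresentation ρ).toSubmodule := by rw [h]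
      exact h'

/-- A character of an overgroup restricting to the character of `ρ` is afforded by a
representation restricting to `ρ`. -/
theorem exists_rep_extending [Finite G] {V : Type v} [AddCommGroup V] [Module ℂ V]
    [FiniteDimensional ℂ V] (N P : Subgroup G) (hNP : N ≤ P) (ρ : Representation ℂ N V)
    (η : P → ℂ) (hη : IsCharacter P η) (hres : ∀ n : N, η ⟨n, hNP n.2⟩ = ρ.character n) :
    ∃ E : Representation ℂ P V, ∀ n : N, E ⟨n, hNP n.2⟩ = ρ n := by
  obtain ⟨k, E₀, rfl⟩ := hη
  let j : N →* P := Subgroup.inclusion hNP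
  let σ : Representation ℂ N (Fin k → ℂ) := E₀.comp j
  have hchar : σ.character = ρ.character := by
    funext n
    exact hres n
  obtain ⟨e⟩ := Cfsg.Agent.Lib_helper3_RepEquiv.equiv_of_char_eq σ ρ hchar
  refine ⟨conjRep E₀ e.toLinearEquiv, fun n => ?_⟩
  rw [conjRep_apply]
  apply LinearMap.ext
  intro v
  rw [LinearEquiv.conj_apply]
  have h1 := e.toIntertwiningMap.isIntertwining _ _ n (e.toLinearEquiv.symm v)
  simp only [LinearMap.comp_apply, LinearEquiv.coe_coe]
  have h2 : e.toLinearEquiv (e.toLinearEquiv.symm v) = v := LinearEquiv.apply_symm_apply _ _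
  rw [← h2]
  rw [LinearEquiv.symm_apply_apply]
  exact h1

end Restrict

section Extend

variable {G : Type u} [Group G] [Finite G] (N : Subgroup G) [hN : N.Normal] {V : Type v}
  [AddCommGroup V] [Module ℂ V] [FiniteDimensional ℂ V] (ρ : Representation ℂ N V)
  [ρ.IsIrreducible]

theorem extRep_eq_smul_of_mem (x : extGroup N ρ) (hx : extProj N ρ x ∈ N) :
    ∃ c : ℂ, extRep N ρ x = c • ρ ⟨extProj N ρ x, hx⟩ := by
  obtain ⟨n, z, hz, rfl⟩ := exists_of_mem_comap N ρ x hx
  obtain ⟨c, hc, -⟩ := ker_extProj_scalar N ρ z hz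
  refine ⟨c, ?_⟩
  have h1 : (⟨extProj N ρ (extIncl N ρ n * z), hx⟩ : N) = n := by
    apply Subtype.ext
    show extProj N ρ (extIncl N ρ n * z) = n
    rw [map_mul, hz, mul_one, extProj_extIncl]
  rw [h1, map_mul, extRep_extIncl, extRep_apply, hc]
  simp

/-- An invariant irreducible representation of a normal subgroup that extends, for every
prime `p`, to a subgroup of index prime to `p`, extends to the whole group. -/
theorem exists_extension_of_sylow
    (hinv : ∀ (g : G) (n : N), ρ.character (cj N g n) = ρ.character n)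
    (hsyl : ∀ p : ℕ, p.Prime → ∃ (P : Subgroup G) (hNP : N ≤ P) (E : Representation ℂ P V),
      Nat.Coprime P.index p ∧ ∀ n : N, E ⟨n, hNP n.2⟩ = ρ n) :
    ∃ E : Representation ℂ G V, ∀ n : N, E n = ρ n := by
  have hfin : Finite (extGroup N ρ) := finite_extGroup N ρ
  have hπ := extProj_surjective N ρ hinv
  have hnt : Nontrivial V := nontrivial_of_irreducible ρ
  let A : Subgroup (extGroup N ρ) := N.comap (extProj N ρ)
  have hAn : A.Normal := inferInstance
  let πA : A →* N := (extProj N ρ).subgroupComap N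
  have hπA : ∀ x : A, ((πA x : N) : G) = extProj N ρ x := fun x => rfl
  obtain ⟨lam, hlam⟩ := exists_hom_of_smul_eq
    ((extRep N ρ).comp A.subtype : Representation ℂ A V) (ρ.comp πA : Representation ℂ A V)
    (fun x => extRep_eq_smul_of_mem N ρ x.1 x.2)
  have hlam' : ∀ x : A, extRep N ρ x = (lam x : ℂ) • ρ (πA x) := hlam
  -- invariance of lam
  have hinvlam : ∀ (y : extGroup N ρ) (x : A),
      lam ⟨y * x * y⁻¹, hAn.conj_mem x x.2 y⟩ = lam x := by
    intro y x
    apply Units.ext
    have h2 : πA ⟨y * x * y⁻¹, hAn.conj_mem x x.2 y⟩ = cj N (extProj N ρ y) (πA x) := by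
      apply Subtype.ext
      show extProj N ρ (y * x * y⁻¹) = extProj N ρ y * extProj N ρ x * (extProj N ρ y)⁻¹
      rw [map_mul, map_mul, map_inv]
    have h1 := hlam' ⟨y * x * y⁻¹, hAn.conj_mem x x.2 y⟩
    rw [h2] at h1
    have hy := (y.2).1 (πA x)
    have h3 : extRep N ρ (y * x * y⁻¹)
        = (lam x : ℂ) • ρ (cj N (extProj N ρ y) (πA x)) := by
      rw [map_mul, map_mul, hlam' x, mul_smul_comm, smul_mul_assoc]
      congr 1
      have h4 : extRep N ρ y * ρ (πA x) = ρ (cj N (extProj N ρ y) (πA x)) * extRep N ρ y := hy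
      rw [h4, mul_assoc, ← map_mul, mul_inv_cancel, map_one, mul_one]
    exact smul_rep_cancel ρ _ (h1.symm.trans h3)
  have hpow : ∀ a : A, lam a ^ Nat.card A = 1 := by
    intro a
    rw [← map_pow, pow_card_eq_one', map_one]
  have hp : ∀ p : ℕ, p.Prime → p ∣ Nat.card A → ∃ (H : Subgroup (extGroup N ρ)) (hAH : A ≤ H)
      (β : H →* ℂˣ), Nat.Coprime H.index p ∧ ∀ a : A, β ⟨a, hAH a.2⟩ = lam a := by
    intro p hpp _
    obtain ⟨P, hNP, E, hcop, hE⟩ := hsyl p hpp
    let H : Subgroup (extGroup N ρ) := P.comap (extProj N ρ)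
    have hAH : A ≤ H := Subgroup.comap_mono hNP
    let πH : H →* P := (extProj N ρ).subgroupComap P
    have hscal : ∀ x : H, ∃ c : ℂ, extRep N ρ x = c • E (πH x) := by
      intro x
      have hcomm : ∀ n : N, (extRep N ρ x * E (πH x)⁻¹) * ρ n
          = ρ n * (extRep N ρ x * E (πH x)⁻¹) := by
        intro n
        have hx := (x.1.2).1 (cj N (extProj N ρ x)⁻¹ n)
        have hx' : extRep N ρ x * ρ (cj N (extProj N ρ x)⁻¹ n)
            = ρ (cj N (extProj N ρ x) (cj N (extProj N ρ x)⁻¹ n)) * extRep N ρ x := hx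
        rw [cj_cj_inv] at hx'
        have h5 : E (πH x)⁻¹ * ρ n = ρ (cj N (extProj N ρ x)⁻¹ n) * E (πH x)⁻¹ := by
          rw [← hE n, ← hE (cj N (extProj N ρ x)⁻¹ n), ← map_mul, ← map_mul]
          congr 1
          apply Subtype.ext
          show (extProj N ρ x)⁻¹ * (n : G)
            = (extProj N ρ x)⁻¹ * n * (extProj N ρ x)⁻¹⁻¹ * (extProj N ρ x)⁻¹
          group
        rw [mul_assoc, h5, ← mul_assoc, hx', mul_assoc]
      have hT := schur_trace ρ _ hcomm
      refine ⟨LinearMap.trace ℂ V (extRep N ρ x * E (πH x)⁻¹) / (Module.finrank ℂ V : ℂ), ?_⟩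
      have h6 : extRep N ρ x = (extRep N ρ x * E (πH x)⁻¹) * E (πH x) := by
        rw [mul_assoc, ← map_mul, inv_mul_cancel, map_one, mul_one]
      conv_lhs => rw [h6, hT]
      rw [smul_mul_assoc, one_mul]
    obtain ⟨β, hβ⟩ := exists_hom_of_smul_eq
      ((extRep N ρ).comp H.subtype : Representation ℂ H V) (E.comp πH : Representation ℂ H V)
      hscal
    refine ⟨H, hAH, β, ?_, fun a => ?_⟩
    · rw [Subgroup.index_comap_of_surjective P hπ]
      exact hcop
    · apply Units.ext
      apply smul_rep_cancel ρ (πA a)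
      have h7 : extRep N ρ a = (β ⟨a, hAH a.2⟩ : ℂ) • E (πH ⟨a, hAH a.2⟩) := hβ ⟨a, hAH a.2⟩
      have h8 : E (πH ⟨a, hAH a.2⟩) = ρ (πA a) := hE (πA a)
      rw [h8] at h7
      exact h7.symm.trans (hlam' a)
  obtain ⟨μ, hμ⟩ := exists_hom_extension_of_index A lam hinvlam (Nat.card A) Nat.card_pos hpow hp
  -- the twisted representation
  let F : extGroup N ρ →* (V →ₗ[ℂ] V) :=
    { toFun := fun x => ((μ x : ℂ)⁻¹) • extRep N ρ x
      map_one' := by simp
      map_mul' := by
        intro x y
        rw [map_mul, map_mul, smul_mul_smul_comm, Units.val_mul, mul_inv] }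
  have hFapp : ∀ x, F x = ((μ x : ℂ)⁻¹) • extRep N ρ x := fun x => rfl
  have hFker : ∀ z, extProj N ρ z = 1 → F z = 1 := by
    intro z hz
    have hzA : z ∈ A := by
      show extProj N ρ z ∈ N
      rw [hz]
      exact N.one_mem
    have h1 := hlam' ⟨z, hzA⟩
    have h2 : πA ⟨z, hzA⟩ = 1 := Subtype.ext hz
    rw [h2, map_one] at h1
    rw [hFapp, h1, hμ ⟨z, hzA⟩, smul_smul, inv_mul_cancel₀ (Units.ne_zero _), one_smul]
  have hFeq : ∀ x y, extProj N ρ x = extProj N ρ y → F x = F y := by
    intro x y h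
    have h1 : F (y⁻¹ * x) = 1 := hFker _ (by rw [map_mul, map_inv, h, inv_mul_cancel])
    calc F x = F (y * (y⁻¹ * x)) := by rw [mul_inv_cancel_left]
      _ = F y := by rw [map_mul, h1, mul_one]
  have hs : ∀ g, extProj N ρ (Function.surjInv hπ g) = g := Function.surjInv_eq hπ
  let EG : Representation ℂ G V :=
    { toFun := fun g => F (Function.surjInv hπ g)
      map_one' := (hFeq _ 1 (by rw [hs, map_one])).trans (map_one F)
      map_mul' := fun g g' =>
        (hFeq _ (Function.surjInv hπ g * Function.surjInv hπ g')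
          (by rw [hs, map_mul, hs, hs])).trans (map_mul F _ _) }
  refine ⟨EG, fun n => ?_⟩
  have h1 : F (Function.surjInv hπ (n : G)) = F (extIncl N ρ n) :=
    hFeq _ _ (by rw [hs, extProj_extIncl])
  show F (Function.surjInv hπ (n : G)) = ρ n
  rw [h1]
  have hιA : extIncl N ρ n ∈ A := by
    show extProj N ρ (extIncl N ρ n) ∈ N
    rw [extProj_extIncl]
    exact n.2
  have h2 := hlam' ⟨extIncl N ρ n, hιA⟩
  have h3 : πA ⟨extIncl N ρ n, hιA⟩ = n := Subtype.ext (extProj_extIncl N ρ n)
  rw [h3] at h2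
  have h4 : lam ⟨extIncl N ρ n, hιA⟩ = 1 := by
    apply Units.ext
    apply smul_rep_cancel ρ n
    rw [Units.val_one, one_smul, ← h2]
    exact extRep_extIncl N ρ n
  rw [hFapp, hμ ⟨extIncl N ρ n, hιA⟩, h4, extRep_extIncl]
  simp

end Extend

end Cfsg.Agent.Lib_helper3_ExtExtend
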