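import Cfsg.Statements.S0888
import Cfsg.Agent.Lib_helper3_ExtExtend

set_option autoImplicit false
open Cfsg

namespace Cfsg.Agent.S0888

/-- Let N be a normal subgroup of the finite group G and ϑ an irreducible character of N invariant under conjugation by G. Suppose that for every prime p there are a subgroup P containing N, of index prime to p and with the index of N in P a power of p, and an irreducible character of P restricting to ϑ. Then ϑ is the restriction of an irreducible character of G. -/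
theorem result {G : Type*} [Group G] [Finite G] (N : Subgroup G) [hN : N.Normal] (ϑ : N → ℂ) (hϑ : Cfsg.IsIrrCharacter N ϑ) (hinv : ∀ (g : G) (n : N), ϑ ⟨g * n * g⁻¹, hN.conj_mem (n : G) n.2 g⟩ = ϑ n) (hsyl : ∀ p : ℕ, p.Prime → ∃ (P : Subgroup G) (hNP : N ≤ P) (η : P → ℂ), Nat.Coprime P.index p ∧ (∃ k : ℕ, N.relIndex P = p ^ k) ∧ Cfsg.IsIrrCharacter P η ∧ ∀ n : N, η ⟨(n : G), hNP n.2⟩ = ϑ n) : ∃ χ : G → ℂ, Cfsg.IsIrrCharacter G χ ∧ ∀ n : N, χ n = ϑ n := by
  obtain ⟨d, ρ, hρ, rfl⟩ := hϑ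
  have hinv' : ∀ (g : G) (n : N), ρ.character (Cfsg.Agent.Lib_helper3_ExtGroup.cj N g n)
      = ρ.character n := fun g n => hinv g n
  have hsyl' : ∀ p : ℕ, p.Prime → ∃ (P : Subgroup G) (hNP : N ≤ P)
      (E : Representation ℂ P (Fin d → ℂ)), Nat.Coprime P.index p ∧
        ∀ n : N, E ⟨n, hNP n.2⟩ = ρ n := by
    intro p hp
    obtain ⟨P, hNP, η, hcop, -, hη, hηN⟩ := hsyl p hp
    obtain ⟨E, hE⟩ := Cfsg.Agent.Lib_helper3_ExtExtend.exists_rep_extending N P hNP ρ η
      (Cfsg.Agent.Lib_helper3_CharBasic.isCharacter_of_irr hη) hηN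
    exact ⟨P, hNP, E, hcop, hE⟩
  obtain ⟨E, hE⟩ := Cfsg.Agent.Lib_helper3_ExtExtend.exists_extension_of_sylow N ρ hinv' hsyl'
  have hirr := Cfsg.Agent.Lib_helper3_ExtExtend.irreducible_of_restrict N E ρ hE
  refine ⟨E.character, ⟨d, E, hirr, rfl⟩, fun n => ?_⟩
  show LinearMap.trace ℂ _ (E n) = LinearMap.trace ℂ _ (ρ n)
  rw [hE n]
end Cfsg.Agent.S0888
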