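import Cfsg.Agent.Lib_helper3_DetSolv
import Cfsg.Agent.S0888
import Mathlib.GroupTheory.Sylow
import Mathlib.GroupTheory.Nilpotent

set_option autoImplicit false
open Cfsg
open Cfsg.Agent.Lib_helper3_CharBasic Cfsg.Agent.Lib_helper3_CharMore
open Cfsg.Agent.Lib_helper3_Det Cfsg.Agent.Lib_helper3_DetExt Cfsg.Agent.Lib_helper3_Transfer
open Cfsg.Agent.Lib_helper3_CharNormal Cfsg.Agent.Lib_helper3_CycExt
open Cfsg.Agent.Lib_helper3_CliffCorr Cfsg.Agent.Lib_helper3_DetSolv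

namespace Cfsg.Agent.Lib_helper3_DetGal

universe u

/-- The solvable-quotient extension criterion, applied to an intermediate subgroup. -/
theorem extends_sub_of_det_solvable {G : Type u} [Group G] [Finite G] (N : Subgroup G)
    [hN : N.Normal] (M : Subgroup G) (hNM : N ≤ M)
    (hsolv : Group.IsSolvable (M ⧸ N.subgroupOf M)) (ϑ : N → ℂ) (hϑ : IsIrrCharacter N ϑ)
    (hinv : ∀ (g : G) (n : N), ϑ ⟨g * n * g⁻¹, hN.conj_mem (n : G) n.2 g⟩ = ϑ n) (d : ℕ)
    (hd : ϑ 1 = d) (hcop : Nat.Coprime N.index d) (μ : G →* ℂˣ)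
    (hμ : ∀ n : N, (μ n : ℂ) = detChar ϑ n) :
    ∃ η : M → ℂ, IsIrrCharacter M η ∧ ∀ n : N, η ⟨n, hNM n.2⟩ = ϑ n := by
  let N' : Subgroup M := N.subgroupOf M
  have hN' : N'.Normal := inferInstance
  let e : N' ≃* N := Subgroup.subgroupOfEquivOfLe hNM
  let ϑ' : N' → ℂ := ϑ ∘ e
  have hϑ' : IsIrrCharacter N' ϑ' := isIrrCharacter_comp_mulEquiv' e hϑ
  have hinv' : ∀ (g : M) (n : N'), ϑ' ⟨g * n * g⁻¹, hN'.conj_mem (n : M) n.2 g⟩ = ϑ' n := by
    intro g n
    have h1 := hinv (g : G) (e n)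
    show ϑ (e _) = ϑ (e n)
    rw [← h1]
    congr 1
  have hd' : ϑ' 1 = d := by
    show ϑ (e 1) = d
    rw [map_one]; exact hd
  have hcop' : Nat.Coprime N'.index d :=
    Nat.Coprime.coprime_dvd_left (Subgroup.relIndex_dvd_index_of_normal N M) hcop
  let μ' : M →* ℂˣ := μ.comp M.subtype
  have hμ' : ∀ n : N', (μ' n : ℂ) = detChar ϑ' n := by
    intro n
    have h1 : detChar ϑ' = fun x => detChar ϑ (e x) :=
      detChar_comp e.toMonoidHom (isCharacter_of_irr hϑ)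
    rw [h1]
    exact hμ (e n)
  obtain ⟨χ₀, hχ₀, hχ₀N⟩ := extends_of_det_solvable_aux (Nat.card M) M N' le_rfl hsolv ϑ' hϑ'
    hinv' d hd' hcop' μ' hμ'
  refine ⟨χ₀, hχ₀, fun n => ?_⟩
  have hmem : (⟨(n : G), hNM n.2⟩ : M) ∈ N' := n.2
  have h6 := hχ₀N ⟨⟨n, hNM n.2⟩, hmem⟩
  rw [h6]
  show ϑ (e _) = ϑ n
  congr 1

/-- Gallagher: an invariant irreducible character of degree prime to the index extends as soon
as its determinant does. -/
theorem extends_of_det {G : Type u} [Group G] [Finite G] (N : Subgroup G) [hN : N.Normal]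
    (ϑ : N → ℂ) (hϑ : IsIrrCharacter N ϑ)
    (hinv : ∀ (g : G) (n : N), ϑ ⟨g * n * g⁻¹, hN.conj_mem (n : G) n.2 g⟩ = ϑ n) (d : ℕ)
    (hd : ϑ 1 = d) (hcop : Nat.Coprime N.index d) (μ : G → ℂ) (hμ : IsCharacter G μ)
    (hμ1 : μ 1 = 1) (hμN : ∀ n : N, μ n = detChar ϑ n) :
    ∃ χ : G → ℂ, IsIrrCharacter G χ ∧ ∀ n : N, χ n = ϑ n := by
  obtain ⟨μh, rfl⟩ := exists_hom_of_linear hμ hμ1
  apply Cfsg.Agent.S0888.result N ϑ hϑ hinv
  intro p hp
  have : Fact p.Prime := ⟨hp⟩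
  obtain ⟨Q⟩ : Nonempty (Sylow p (G ⧸ N)) := inferInstance
  let P : Subgroup G := (Q : Subgroup (G ⧸ N)).comap (QuotientGroup.mk' N)
  have hNP : N ≤ P := by
    intro n hn
    show QuotientGroup.mk' N n ∈ (Q : Subgroup (G ⧸ N))
    have h1 : QuotientGroup.mk' N n = 1 := (QuotientGroup.eq_one_iff n).mpr hn
    rw [h1]
    exact one_mem _
  have hidx : P.index = (Q : Subgroup (G ⧸ N)).index :=
    Subgroup.index_comap_of_surjective _ (QuotientGroup.mk'_surjective N)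
  have hcopP : Nat.Coprime P.index p := by
    rw [hidx]
    exact ((Nat.Prime.coprime_iff_not_dvd hp).mpr Q.not_dvd_index).symm
  have hrel : ∃ k : ℕ, N.relIndex P = p ^ k := by
    obtain ⟨k, hk⟩ := (IsPGroup.iff_card (p := p) (G := Q)).mp Q.2
    refine ⟨k, ?_⟩
    have h1 := Subgroup.relIndex_mul_index hNP
    have h2 : N.index = Nat.card Q * (Q : Subgroup (G ⧸ N)).index := by
      rw [Subgroup.index_eq_card N]
      exact (Subgroup.card_mul_index _).symm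
    have h3 : (Q : Subgroup (G ⧸ N)).index ≠ 0 := Subgroup.index_ne_zero_of_finite
    rw [hidx, h2, hk] at h1
    exact Nat.eq_of_mul_eq_mul_right (Nat.pos_of_ne_zero h3) h1
  have hsolv : Group.IsSolvable (P ⧸ N.subgroupOf P) := by
    obtain ⟨k, hk⟩ := hrel
    have hpg : IsPGroup p (P ⧸ N.subgroupOf P) := by
      apply IsPGroup.of_card (n := k)
      rw [← Subgroup.index_eq_card]
      exact hk
    have := hpg.isNilpotent
    infer_instance
  obtain ⟨η, hη, hηN⟩ := extends_sub_of_det_solvable N P hNP hsolv ϑ hϑ hinv d hd hcop μh hμN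
  exact ⟨P, hNP, η, hcopP, hrel, hη, hηN⟩

end Cfsg.Agent.Lib_helper3_DetGal
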