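import Cfsg.Agent.Lib_helper3_DetExt
import Cfsg.Agent.Lib_helper3_CycExt
import Cfsg.Agent.Lib_helper3_CliffCorr
import Mathlib.GroupTheory.Solvable
import Mathlib.GroupTheory.FiniteAbelian.Duality
import Mathlib.RingTheory.IntegralDomain

set_option autoImplicit false
open Cfsg
open Cfsg.Agent.Lib_helper3_CharBasic Cfsg.Agent.Lib_helper3_CharMore
open Cfsg.Agent.Lib_helper3_Det Cfsg.Agent.Lib_helper3_DetExt Cfsg.Agent.Lib_helper3_Transfer
open Cfsg.Agent.Lib_helper3_CharNormal Cfsg.Agent.Lib_helper3_CycExt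
open Cfsg.Agent.Lib_helper3_CliffCorr

namespace Cfsg.Agent.Lib_helper3_DetSolv

universe u

/-- A proper normal subgroup with solvable quotient lies in a proper normal subgroup with
cyclic quotient. -/
theorem exists_normal_cyclic_quotient {G : Type u} [Group G] [Finite G] (N : Subgroup G)
    [hN : N.Normal] (hsolv : Group.IsSolvable (G ⧸ N)) (hne : N ≠ ⊤) :
    ∃ M : Subgroup G, ∃ _ : M.Normal, N ≤ M ∧ M ≠ ⊤ ∧ IsCyclic (G ⧸ M) := by
  have hnt : Nontrivial (G ⧸ N) := by
    by_contra h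
    rw [not_nontrivial_iff_subsingleton] at h
    exact hne (QuotientGroup.subgroup_eq_top_of_subsingleton N h)
  have hlt := Group.IsSolvable.commutator_lt_top_of_nontrivial (G ⧸ N)
  have hnt2 : Nontrivial (Abelianization (G ⧸ N)) := by
    by_contra h
    rw [not_nontrivial_iff_subsingleton] at h
    exact hlt.ne (QuotientGroup.subgroup_eq_top_of_subsingleton _ h)
  obtain ⟨a, ha⟩ := exists_ne (1 : Abelianization (G ⧸ N))
  obtain ⟨φ₀, hφ₀⟩ := CommGroup.exists_apply_ne_one_of_hasEnoughRootsOfUnity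
    (Abelianization (G ⧸ N)) ℂ ha
  let φ : G →* ℂˣ := φ₀.comp (Abelianization.of.comp (QuotientGroup.mk' N))
  refine ⟨φ.ker, inferInstance, ?_, ?_, ?_⟩
  · intro n hn
    rw [MonoidHom.mem_ker]
    show φ₀ (Abelianization.of (QuotientGroup.mk' N n)) = 1
    have h1 : QuotientGroup.mk' N n = 1 := (QuotientGroup.eq_one_iff n).mpr hn
    rw [h1, map_one, map_one]
  · intro htop
    obtain ⟨q, rfl⟩ := QuotientGroup.mk'_surjective (commutator (G ⧸ N)) a
    obtain ⟨g, rfl⟩ := QuotientGroup.mk_surjective q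
    apply hφ₀
    have h1 : g ∈ φ.ker := by rw [htop]; trivial
    exact h1
  · exact isCyclic_of_injective_ringHom ((Units.coeHom ℂ).comp (QuotientGroup.kerLift φ))
      (Units.val_injective.comp (QuotientGroup.kerLift_injective φ))


theorem extends_of_det_solvable_aux (k : ℕ) : ∀ (G : Type u) [Group G] [Finite G]
    (N : Subgroup G) [hN : N.Normal], Nat.card G ≤ k → Group.IsSolvable (G ⧸ N) →
    ∀ (ϑ : N → ℂ), IsIrrCharacter N ϑ →
    (∀ (g : G) (n : N), ϑ ⟨g * n * g⁻¹, hN.conj_mem (n : G) n.2 g⟩ = ϑ n) → ∀ d : ℕ, ϑ 1 = d →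
    Nat.Coprime N.index d → ∀ μ : G →* ℂˣ, (∀ n : N, (μ n : ℂ) = detChar ϑ n) →
    ∃ χ : G → ℂ, IsIrrCharacter G χ ∧ ∀ n : N, χ n = ϑ n := by
  induction k with
  | zero =>
    intro G _ _ N hN hcard
    have := Nat.card_pos (α := G)
    omega
  | succ k ih =>
    intro G _ _ N hN hcard hsolv ϑ hϑ hinv d hd hcop μ hμ
    by_cases htop : N = ⊤
    · have hss : Subsingleton (G ⧸ N) := by
        rw [htop]; exact QuotientGroup.subsingleton_quotient_top
      exact extends_of_cyclic N isCyclic_of_subsingleton ϑ hϑ hinv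
    obtain ⟨M, hMn, hNM, hMtop, hcyc⟩ := exists_normal_cyclic_quotient N hsolv htop
    let N' : Subgroup M := N.subgroupOf M
    have hN' : N'.Normal := inferInstance
    let e : N' ≃* N := Subgroup.subgroupOfEquivOfLe hNM
    have he : ∀ x : N', ((e x : N) : G) = ((x : M) : G) := fun x => rfl
    let ϑ' : N' → ℂ := ϑ ∘ e
    have hϑ' : IsIrrCharacter N' ϑ' := isIrrCharacter_comp_mulEquiv' e hϑ
    have hcardM : Nat.card M ≤ k := by
      have h1 : Nat.card M ≤ Nat.card G := Subgroup.card_le_card_group M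
      have h2 : Nat.card M ≠ Nat.card G := fun h => hMtop (Subgroup.eq_top_of_card_eq M h)
      omega
    have hsolv' : Group.IsSolvable (M ⧸ N') := by
      let f : M ⧸ N' →* G ⧸ N := QuotientGroup.map N' N M.subtype (le_refl _)
      apply Group.isSolvable_of_isSolvable_injective (f := f)
      rw [injective_iff_map_eq_one]
      intro q
      obtain ⟨m, rfl⟩ := QuotientGroup.mk_surjective q
      intro hq
      have h1 : (QuotientGroup.mk (m : G) : G ⧸ N) = 1 := hq
      rw [QuotientGroup.eq_one_iff] at h1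
      exact (QuotientGroup.eq_one_iff m).mpr h1
    have hinv' : ∀ (g : M) (n : N'), ϑ' ⟨g * n * g⁻¹, hN'.conj_mem (n : M) n.2 g⟩ = ϑ' n := by
      intro g n
      have h1 := hinv (g : G) (e n)
      show ϑ (e _) = ϑ (e n)
      rw [← h1]
      congr 1
    have hd' : ϑ' 1 = d := by
      show ϑ (e 1) = d
      rw [map_one]; exact hd
    have hcop' : Nat.Coprime N'.index d :=
      Nat.Coprime.coprime_dvd_left (Subgroup.relIndex_dvd_index_of_normal N M) hcop
    let μ' : M →* ℂˣ := μ.comp M.subtype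
    have hμ' : ∀ n : N', (μ' n : ℂ) = detChar ϑ' n := by
      intro n
      have h1 : detChar ϑ' = fun x => detChar ϑ (e x) :=
        detChar_comp e.toMonoidHom (isCharacter_of_irr hϑ)
      rw [h1]
      exact hμ (e n)
    obtain ⟨χ₀, hχ₀, hχ₀N⟩ := ih M N' hcardM hsolv' ϑ' hϑ' hinv' d hd' hcop' μ' hμ'
    obtain ⟨χ₁, ⟨hχ₁, hχ₁N, hχ₁det⟩, huniq⟩ := exists_unique_ext_det N' ϑ' hϑ' d hd' hcop'
      ⟨χ₀, hχ₀, hχ₀N⟩ (fun m => (μ' m : ℂ)) (linear_of_hom μ') hμ'
    have hinvχ : ∀ (g : G) (m : M), χ₁ ⟨g * m * g⁻¹, hMn.conj_mem (m : G) m.2 g⟩ = χ₁ m := by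
      intro g m
      have h2 : conjFun M g χ₁ = χ₁ := by
        apply huniq
        refine ⟨isIrrCharacter_conjFun M g hχ₁, ?_, ?_⟩
        · intro n
          rw [conjFun_apply]
          have hmem : (⟨g * ((n : M) : G) * g⁻¹, hMn.conj_mem _ (n : M).2 g⟩ : M) ∈ N' := by
            show g * ((n : M) : G) * g⁻¹ ∈ N
            exact hN.conj_mem _ (e n).2 g
          have h3 := hχ₁N ⟨_, hmem⟩
          rw [h3]
          have h4 := hinv g (e n)
          show ϑ (e _) = ϑ (e n)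
          rw [← h4]
          congr 1
        · rw [conjFun_eq_comp]
          have h4 := detChar_comp (MulAut.conjNormal g : M ≃* M).toMonoidHom
            (isCharacter_of_irr hχ₁)
          have h5 : (χ₁ ∘ (MulAut.conjNormal g : M ≃* M)) =
              fun h => χ₁ ((MulAut.conjNormal g : M ≃* M).toMonoidHom h) := rfl
          rw [h5, h4, hχ₁det]
          funext m'
          show ((μ ((MulAut.conjNormal g : M ≃* M) m' : M) : ℂˣ) : ℂ) = ((μ (m' : G) : ℂˣ) : ℂ)
          have h6 : (((MulAut.conjNormal g : M ≃* M) m' : M) : G) = g * m' * g⁻¹ := rfl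
          rw [h6, map_mul, map_mul, map_inv, mul_comm (μ g), mul_assoc, mul_inv_cancel, mul_one]
      exact congrFun h2 m
    obtain ⟨χ, hχ, hχM⟩ := extends_of_cyclic M hcyc χ₁ hχ₁ hinvχ
    refine ⟨χ, hχ, fun n => ?_⟩
    have hmem : (⟨(n : G), hNM n.2⟩ : M) ∈ N' := n.2
    have h5 := hχM ⟨n, hNM n.2⟩
    have h6 := hχ₁N ⟨⟨n, hNM n.2⟩, hmem⟩
    rw [h5, h6]
    show ϑ (e _) = ϑ n
    congr 1

/-- If `G / N` is solvable and the determinant of the invariant irreducible character `ϑ` of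
degree prime to the index extends, then `ϑ` extends. -/
theorem extends_of_det_solvable {G : Type u} [Group G] [Finite G]
    (N : Subgroup G) [hN : N.Normal] (hsolv : Group.IsSolvable (G ⧸ N))
    (ϑ : N → ℂ) (hϑ : IsIrrCharacter N ϑ)
    (hinv : ∀ (g : G) (n : N), ϑ ⟨g * n * g⁻¹, hN.conj_mem (n : G) n.2 g⟩ = ϑ n) (d : ℕ)
    (hd : ϑ 1 = d) (hcop : Nat.Coprime N.index d) (μ : G → ℂ) (hμ : IsCharacter G μ)
    (hμ1 : μ 1 = 1) (hμN : ∀ n : N, μ n = detChar ϑ n) :
    ∃ χ : G → ℂ, IsIrrCharacter G χ ∧ ∀ n : N, χ n = ϑ n := by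
  obtain ⟨μh, rfl⟩ := exists_hom_of_linear hμ hμ1
  exact extends_of_det_solvable_aux (Nat.card G) G N le_rfl hsolv ϑ hϑ hinv d hd hcop μh hμN

/-- The determinant of an extension extends the determinant. -/
theorem det_extends_of_extends {G : Type u} [Group G] [Finite G]
    (N : Subgroup G) (ϑ : N → ℂ) (χ : G → ℂ) (hχ : IsCharacter G χ)
    (hχN : ∀ n : N, χ n = ϑ n) :
    ∃ μ : G → ℂ, IsCharacter G μ ∧ μ 1 = 1 ∧ ∀ n : N, μ n = detChar ϑ n := by
  obtain ⟨δ, hδ⟩ := exists_hom_detChar hχ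
  refine ⟨fun g => (δ g : ℂ), (linear_of_hom δ).1, (linear_of_hom δ).2, fun n => ?_⟩
  have h1 : ϑ = fun n : N => χ (N.subtype n) := by
    funext n; exact (hχN n).symm
  have h2 := detChar_comp N.subtype hχ
  rw [h1, h2, hδ]
  rfl

end Cfsg.Agent.Lib_helper3_DetSolv
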