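import Cfsg.Prelude.Def_Characters
import Cfsg.Agent.Lib_helper3_CharInd
import Cfsg.Agent.Lib_helper3_CharMore
import Cfsg.Agent.Lib_helper3_Clifford

set_option autoImplicit false
open Cfsg
open Cfsg.Agent.Lib_helper3_CharBasic Cfsg.Agent.Lib_helper3_CharInd
  Cfsg.Agent.Lib_helper3_CharMore Cfsg.Agent.Lib_helper3_Clifford

namespace Cfsg.Agent.Lib_helper3_Exceptional

universe u

theorem int_sq_eq_one {x : ℤ} (h0 : x ≠ 0) (h : x ^ 2 ≤ 2) : x ^ 2 = 1 := by
  have h1 : -2 < x := by nlinarith
  have h2 : x < 2 := by nlinarith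
  interval_cases x <;> simp_all

theorem exists_two_of_sum_sq_eq_two {ι : Type*} [Fintype ι] [DecidableEq ι] (c : ι → ℤ)
    (h : ∑ i, c i ^ 2 = 2) :
    ∃ a b, a ≠ b ∧ c a ^ 2 = 1 ∧ c b ^ 2 = 1 ∧ ∀ i, i ≠ a → i ≠ b → c i = 0 := by
  have hex : ∃ a, c a ≠ 0 := by
    by_contra hne
    push Not at hne
    rw [Finset.sum_eq_zero (fun i _ => by rw [hne i]; simp)] at h
    omega
  obtain ⟨a, ha⟩ := hex
  have h1 := Finset.add_sum_erase Finset.univ (fun i => c i ^ 2) (Finset.mem_univ a)
  rw [h] at h1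
  have hnn : 0 ≤ ∑ x ∈ Finset.univ.erase a, c x ^ 2 := Finset.sum_nonneg (fun i _ => sq_nonneg _)
  have ha1 : c a ^ 2 = 1 := int_sq_eq_one ha (by linarith)
  have h2 : ∑ x ∈ Finset.univ.erase a, c x ^ 2 = 1 := by linarith
  have hex2 : ∃ b ∈ Finset.univ.erase a, c b ≠ 0 := by
    by_contra hne
    push Not at hne
    rw [Finset.sum_eq_zero (fun i hi => by rw [hne i hi]; simp)] at h2
    omega
  obtain ⟨b, hb, hb0⟩ := hex2
  have h3 := Finset.add_sum_erase (Finset.univ.erase a) (fun i => c i ^ 2) hb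
  rw [h2] at h3
  have hnn2 : 0 ≤ ∑ x ∈ (Finset.univ.erase a).erase b, c x ^ 2 :=
    Finset.sum_nonneg (fun i _ => sq_nonneg _)
  have hb1 : c b ^ 2 = 1 := int_sq_eq_one hb0 (by linarith)
  have h4 : ∑ x ∈ (Finset.univ.erase a).erase b, c x ^ 2 = 0 := by linarith
  refine ⟨a, b, (Finset.ne_of_mem_erase hb).symm, ha1, hb1, fun i hia hib => ?_⟩
  have h5 := (Finset.sum_eq_zero_iff_of_nonneg (fun i _ => sq_nonneg (c i))).mp h4 i
    (Finset.mem_erase.mpr ⟨hib, Finset.mem_erase.mpr ⟨hia, Finset.mem_univ i⟩⟩)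
  exact pow_eq_zero_iff (two_ne_zero) |>.mp h5

variable {G : Type u} [Group G] [Fintype G]

/-- A generalized character of norm two vanishing at the identity is a difference of two
distinct irreducible characters. -/
theorem norm_two_eq_sub {τ : G → ℂ} (hτ : IsGeneralizedCharacter G τ)
    (h2 : classInner τ τ = 2) (h1 : τ 1 = 0) :
    ∃ a b : G → ℂ, IsIrrCharacter G a ∧ IsIrrCharacter G b ∧ a ≠ b ∧ τ = a - b := by
  classical
  have hfin : Finite (IrrCharacter G) := irr_finite
  have := Fintype.ofFinite (IrrCharacter G)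
  obtain ⟨χ, ψ, hχ, hψ, rfl⟩ := hτ
  have hcf : IsClassFunction G (χ - ψ) :=
    isClassFunction_sub (isClassFunction_of_isCharacter hχ) (isClassFunction_of_isCharacter hψ)
  have hint : ∀ θ : IrrCharacter G, ∃ z : ℤ, classInner (χ - ψ) (θ : G → ℂ) = z := by
    intro θ
    obtain ⟨m, hm⟩ := classInner_nat hχ (isCharacter_of_irr θ.2)
    obtain ⟨k, hk⟩ := classInner_nat hψ (isCharacter_of_irr θ.2)
    exact ⟨(m : ℤ) - k, by rw [classInner_sub_left, hm, hk]; push_cast; ring⟩
  choose c hc using hint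
  have hsum : ∑ θ : IrrCharacter G, c θ ^ 2 = 2 := by
    have h3 := classInner_eq_sum_irr (χ - ψ) (χ - ψ) hcf
    rw [h2] at h3
    have h4 : ∀ θ : IrrCharacter G, classInner (χ - ψ) (θ : G → ℂ)
        * classInner (θ : G → ℂ) (χ - ψ) = ((c θ ^ 2 : ℤ) : ℂ) := by
      intro θ
      rw [← classInner_conj_symm (χ - ψ) (θ : G → ℂ), hc θ]
      simp [sq]
    rw [Finset.sum_congr rfl (fun θ _ => h4 θ)] at h3
    exact_mod_cast h3.symm
  obtain ⟨a, b, hab, ha, hb, hrest⟩ := exists_two_of_sum_sq_eq_two c hsum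
  have hexp : (χ - ψ) = (c a : ℂ) • (a : G → ℂ) + (c b : ℂ) • (b : G → ℂ) := by
    conv_lhs => rw [classFunction_eq_sum (χ - ψ) hcf]
    rw [← Finset.add_sum_erase Finset.univ _ (Finset.mem_univ a),
      ← Finset.add_sum_erase (Finset.univ.erase a) _
        (Finset.mem_erase.mpr ⟨hab.symm, Finset.mem_univ b⟩)]
    rw [Finset.sum_eq_zero, add_zero, hc a, hc b]
    intro θ hθ
    rw [Finset.mem_erase, Finset.mem_erase] at hθ
    rw [hc θ, hrest θ hθ.2.1 hθ.1]
    simp
  obtain ⟨da, hda, hda'⟩ := irr_apply_one_pos a.2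
  obtain ⟨db, hdb, hdb'⟩ := irr_apply_one_pos b.2
  have h5 : (c a : ℂ) * da + (c b : ℂ) * db = 0 := by
    have h6 := congrFun hexp 1
    rw [h1] at h6
    simp only [Pi.add_apply, Pi.smul_apply, smul_eq_mul, hda', hdb'] at h6
    exact h6.symm
  have h6 : c a * da + c b * db = 0 := by exact_mod_cast h5
  have ha' : c a = 1 ∨ c a = -1 := by
    have h7 : (c a - 1) * (c a + 1) = 0 := by ring_nf; linarith
    rcases mul_eq_zero.mp h7 with h | h
    · left; linarith
    · right; linarith
  have hb' : c b = 1 ∨ c b = -1 := by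
    have h7 : (c b - 1) * (c b + 1) = 0 := by ring_nf; linarith
    rcases mul_eq_zero.mp h7 with h | h
    · left; linarith
    · right; linarith
  have hda0 : (0 : ℤ) < da := by exact_mod_cast hda
  have hdb0 : (0 : ℤ) < db := by exact_mod_cast hdb
  have hne : (a : G → ℂ) ≠ (b : G → ℂ) := fun h => hab (Subtype.ext h)
  rcases ha' with ha' | ha' <;> rcases hb' with hb' | hb'
  · rw [ha', hb'] at h6
    omega
  · refine ⟨a, b, a.2, b.2, hne, ?_⟩
    rw [hexp, ha', hb']
    ext x
    simp
    ring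
  · refine ⟨b, a, b.2, a.2, hne.symm, ?_⟩
    rw [hexp, ha', hb']
    ext x
    simp
    ring
  · rw [ha', hb'] at h6
    omega

theorem inner_sub_sub {a b c d : G → ℂ} (ha : IsIrrCharacter G a) (hb : IsIrrCharacter G b)
    (hc : IsIrrCharacter G c) (hd : IsIrrCharacter G d) :
    classInner (a - b) (c - d) = (if a = c then 1 else 0) - (if a = d then 1 else 0)
      - (if b = c then 1 else 0) + (if b = d then 1 else 0) := by
  rw [classInner_sub_left, classInner_sub_right, classInner_sub_right, irr_orthonormal ha hc,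
    irr_orthonormal ha hd, irr_orthonormal hb hc, irr_orthonormal hb hd]
  ring

theorem share_of_inner_one {a b c d : G → ℂ} (ha : IsIrrCharacter G a) (hb : IsIrrCharacter G b)
    (hc : IsIrrCharacter G c) (hd : IsIrrCharacter G d) (hab : a ≠ b) (hcd : c ≠ d)
    (h : classInner (a - b) (c - d) = 1) : (a = c ∧ b ≠ d) ∨ (b = d ∧ a ≠ c) := by
  rw [inner_sub_sub ha hb hc hd] at h
  by_cases h1 : a = c
  · by_cases h2 : b = d
    · exfalso
      have h3 : a ≠ d := fun h3 => hcd (h1.symm.trans h3)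
      have h4 : b ≠ c := fun h4 => hab (h1.trans h4.symm)
      rw [if_pos h1, if_neg h3, if_neg h4, if_pos h2] at h
      norm_num at h
    · exact Or.inl ⟨h1, h2⟩
  · by_cases h2 : b = d
    · exact Or.inr ⟨h2, h1⟩
    · exfalso
      rw [if_neg h1, if_neg h2] at h
      split_ifs at h <;> norm_num at h


/-- The isometry lemma behind exceptional characters. -/
theorem exceptional_main (n : ℕ) (i₀ : Fin n) (τ : Fin n → (G → ℂ)) (h0 : τ i₀ = 0)
    (hgen : ∀ i, IsGeneralizedCharacter G (τ i)) (hone : ∀ i, τ i 1 = 0)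
    (hgram : ∀ i j, i ≠ i₀ → j ≠ i₀ → classInner (τ i) (τ j) = if i = j then 2 else 1) :
    ∃ ε : ℂ, (ε = 1 ∨ ε = -1) ∧ ∃ μ : Fin n → (G → ℂ), (∀ i, IsIrrCharacter G (μ i)) ∧
      Function.Injective μ ∧ ∀ i, τ i = ε • (μ i - μ i₀) := by
  classical
  have hex : ∀ i, i ≠ i₀ → ∃ a b : G → ℂ, IsIrrCharacter G a ∧ IsIrrCharacter G b ∧ a ≠ b ∧
      τ i = a - b := by
    intro i hi
    have h := hgram i i hi hi
    rw [if_pos rfl] at h
    exact norm_two_eq_sub (hgen i) h (hone i)
  choose! A B hA hB hAB hτ using hex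
  have F1 : ∀ i j, i ≠ i₀ → j ≠ i₀ → i ≠ j →
      (A i = A j ∧ B i ≠ B j) ∨ (B i = B j ∧ A i ≠ A j) := by
    intro i j hi hj hij
    have h := hgram i j hi hj
    rw [if_neg hij, hτ i hi, hτ j hj] at h
    exact share_of_inner_one (hA i hi) (hB i hi) (hA j hj) (hB j hj) (hAB i hi) (hAB j hj) h
  have F2 : ∀ i j k, i ≠ i₀ → j ≠ i₀ → k ≠ i₀ → i ≠ j → i ≠ k → j ≠ k → A i = A j →
      B i = B k → False := by
    intro i j k hi hj hk hij hik hjk h1 h2
    have hBij : B i ≠ B j := by
      rcases F1 i j hi hj hij with h | h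
      · exact h.2
      · exact absurd h1 h.2
    have hAik : A i ≠ A k := by
      rcases F1 i k hi hk hik with h | h
      · exact absurd h2 h.2
      · exact h.2
    rcases F1 j k hj hk hjk with h | h
    · exact hAik (h1.trans h.1)
    · exact hBij (h2.trans h.1.symm)
  by_cases hne : ∃ i₁, i₁ ≠ i₀
  swap
  · push Not at hne
    refine ⟨1, Or.inl rfl, fun _ => (fun _ => 1), fun _ => isIrrCharacter_one, ?_, ?_⟩
    · intro i j _
      rw [hne i, hne j]
    · intro i
      rw [hne i, h0]
      simp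
  obtain ⟨i₁, hi₁⟩ := hne
  by_cases hcase : ∃ j, j ≠ i₀ ∧ j ≠ i₁ ∧ A j = A i₁
  · obtain ⟨j, hj, hji, hAj⟩ := hcase
    have hall : ∀ k, k ≠ i₀ → A k = A i₁ := by
      intro k hk
      by_cases hk1 : k = i₁
      · rw [hk1]
      rcases F1 i₁ k hi₁ hk (Ne.symm hk1) with h | h
      · exact h.1.symm
      · exfalso
        have hjk : j ≠ k := by
          intro hjk
          rw [hjk] at hAj
          exact h.2 hAj.symm
        exact F2 i₁ j k hi₁ hj hk (Ne.symm hji) (Ne.symm hk1) hjk hAj.symm h.1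
    refine ⟨-1, Or.inr rfl, fun i => if i = i₀ then A i₁ else B i, ?_, ?_, ?_⟩
    · intro i
      by_cases hi : i = i₀
      · simp only [if_pos hi]
        exact hA i₁ hi₁
      · simp only [if_neg hi]
        exact hB i hi
    · intro i k hik
      by_cases hi : i = i₀ <;> by_cases hk : k = i₀
      · rw [hi, hk]
      · exfalso
        simp only [if_pos hi, if_neg hk] at hik
        exact hAB k hk ((hall k hk).trans hik)
      · exfalso
        simp only [if_neg hi, if_pos hk] at hik
        exact hAB i hi ((hall i hi).trans hik.symm)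
      · simp only [if_neg hi, if_neg hk] at hik
        by_contra hne'
        rcases F1 i k hi hk hne' with h | h
        · exact h.2 hik
        · exact h.2 ((hall i hi).trans (hall k hk).symm)
    · intro i
      by_cases hi : i = i₀
      · rw [hi, h0]
        simp
      · simp only [if_neg hi, if_true]
        rw [hτ i hi, hall i hi]
        ext x
        simp
  · push Not at hcase
    have hall : ∀ k, k ≠ i₀ → B k = B i₁ := by
      intro k hk
      by_cases hk1 : k = i₁
      · rw [hk1]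
      rcases F1 i₁ k hi₁ hk (Ne.symm hk1) with h | h
      · exact absurd h.1.symm (hcase k hk hk1)
      · exact h.1.symm
    refine ⟨1, Or.inl rfl, fun i => if i = i₀ then B i₁ else A i, ?_, ?_, ?_⟩
    · intro i
      by_cases hi : i = i₀
      · simp only [if_pos hi]
        exact hB i₁ hi₁
      · simp only [if_neg hi]
        exact hA i hi
    · intro i k hik
      by_cases hi : i = i₀ <;> by_cases hk : k = i₀
      · rw [hi, hk]
      · exfalso
        simp only [if_pos hi, if_neg hk] at hik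
        exact hAB k hk (hik.symm.trans (hall k hk).symm)
      · exfalso
        simp only [if_neg hi, if_pos hk] at hik
        exact hAB i hi (hik.trans (hall i hi).symm)
      · simp only [if_neg hi, if_neg hk] at hik
        by_contra hne'
        rcases F1 i k hi hk hne' with h | h
        · exact h.2 ((hall i hi).trans (hall k hk).symm)
        · exact h.2 hik
    · intro i
      by_cases hi : i = i₀
      · rw [hi, h0]
        simp
      · simp only [if_neg hi, if_true]
        rw [hτ i hi, hall i hi]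
        simp

end Cfsg.Agent.Lib_helper3_Exceptional
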