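import Cfsg.Prelude.Def_Characters
import Cfsg.Prelude.Def_Transfer
import Cfsg.Agent.Lib_helper3_CharInd
import Cfsg.Agent.Lib_helper3_CharMore
import Cfsg.Agent.Lib_helper3_Faithful
import Cfsg.Agent.Lib_helper3_Ito
import Cfsg.Agent.Lib_helper3_Transfer
import Mathlib.GroupTheory.SpecificGroups.Cyclic.Basic
import Mathlib.GroupTheory.Commutator.Basic
import Mathlib.GroupTheory.Abelianization.Defs

set_option autoImplicit false
open Cfsg
open Cfsg.Agent.Lib_helper3_CharBasic Cfsg.Agent.Lib_helper3_CharInd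
  Cfsg.Agent.Lib_helper3_CharMore Cfsg.Agent.Lib_helper3_Faithful
  Cfsg.Agent.Lib_helper3_Ito Cfsg.Agent.Lib_helper3_Transfer
  Cfsg.Agent.Lib_helper3_CharComm

namespace Cfsg.Agent.Lib_helper3_Extraspecial

open scoped commutatorElement

universe u

variable {P : Type u} [Group P]

/-- In a group whose commutator subgroup is central, a non-central element is conjugate to a
nontrivial central translate of itself. -/
theorem exists_conj_eq_mul_center (hcomm : commutator P ≤ Subgroup.center P) {x : P}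
    (hx : x ∉ Subgroup.center P) :
    ∃ (y k : P), k ∈ Subgroup.center P ∧ k ≠ 1 ∧ y * x * y⁻¹ = x * k := by
  rw [Subgroup.mem_center_iff] at hx
  push Not at hx
  obtain ⟨y, hy⟩ := hx
  refine ⟨y, x⁻¹ * y * x * y⁻¹, hcomm ?_, ?_, by group⟩
  · rw [commutator_def]
    have h1 : x⁻¹ * y * x * y⁻¹ = ⁅x⁻¹, y⁆ := by rw [commutatorElement_def, inv_inv]
    rw [h1]
    exact Subgroup.commutator_mem_commutator (Subgroup.mem_top _) (Subgroup.mem_top _)
  · intro h
    apply hy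
    have h1 : y * x = x * (x⁻¹ * y * x * y⁻¹) * y := by group
    rw [h1, h, mul_one]

/-- A class function transforming by `c` under central translation, with `c k ≠ 1` for
nontrivial central `k`, vanishes off the centre. -/
theorem vanish_off_center (hcomm : commutator P ≤ Subgroup.center P) (f : P → ℂ)
    (hf : IsClassFunction P f) (c : P → ℂ)
    (hc : ∀ x k, k ∈ Subgroup.center P → f (x * k) = c k * f x)
    (hc1 : ∀ k ∈ Subgroup.center P, k ≠ 1 → c k ≠ 1) {x : P} (hx : x ∉ Subgroup.center P) :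
    f x = 0 := by
  obtain ⟨y, k, hk, hk1, hyk⟩ := exists_conj_eq_mul_center hcomm hx
  have h1 : f x = c k * f x := by
    rw [← hc x k hk, ← hyk, hf]
  have h2 : (1 - c k) * f x = 0 := by rw [sub_mul, one_mul, ← h1, sub_self]
  rcases mul_eq_zero.mp h2 with h | h
  · exact absurd (sub_eq_zero.mp h).symm (hc1 k hk hk1)
  · exact h

theorem sum_norm_sq_of_center [Fintype P] (f : P → ℂ) (d : ℝ)
    (h0 : ∀ x, x ∉ Subgroup.center P → f x = 0) (h1 : ∀ x ∈ Subgroup.center P, ‖f x‖ = d) :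
    ∑ x : P, ‖f x‖ ^ 2 = (Nat.card (Subgroup.center P) : ℝ) * d ^ 2 := by
  classical
  have h2 : ∀ x : P, ‖f x‖ ^ 2 = if x ∈ Subgroup.center P then d ^ 2 else 0 := by
    intro x
    split_ifs with h
    · rw [h1 x h]
    · rw [h0 x h]; simp
  rw [Finset.sum_congr rfl (fun x _ => h2 x), Finset.sum_ite, Finset.sum_const_zero, add_zero,
    Finset.sum_const, nsmul_eq_mul]
  congr 1
  rw [Nat.card_eq_fintype_card, Fintype.card_subtype]

theorem exists_pow_eq_of_prime_card {Z : Subgroup P} {p : ℕ} [Fact p.Prime]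
    (hZ : Nat.card Z = p) {k : P} (hk : k ∈ Z) (hk1 : k ≠ 1) {z : P} (hz : z ∈ Z) :
    ∃ j : ℕ, k ^ j = z := by
  have hk' : (⟨k, hk⟩ : Z) ≠ 1 := fun h => hk1 (congrArg Subtype.val h)
  obtain ⟨j, hj⟩ := mem_powers_of_prime_card hZ (g' := (⟨z, hz⟩ : Z)) hk'
  exact ⟨j, congrArg Subtype.val hj⟩

/-- A nonlinear irreducible character of an extraspecial group of order `p^(2n+1)` has degree
`p^n` and vanishes off the centre. -/
theorem degree_of_nonlinear [Finite P] (p n : ℕ) [Fact p.Prime] (hP : IsExtraspecial p P)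
    (hcard : Nat.card P = p ^ (2 * n + 1)) {χ : P → ℂ} (hχ : IsIrrCharacter P χ)
    (h1 : χ 1 ≠ 1) : χ 1 = (p : ℂ) ^ n ∧ ∀ x, x ∉ Subgroup.center P → χ x = 0 := by
  classical
  have := Fintype.ofFinite P
  obtain ⟨⟨hpg, hfr, hcomm⟩, hZ⟩ := hP
  obtain ⟨d, ρ, hρ, rfl⟩ := hχ
  have hd : Module.finrank ℂ (Fin d → ℂ) = d := by simp
  have hχ1 : ρ.character 1 = d := by rw [Representation.char_one, hd]
  let c : P → ℂ := fun k => if hk : k ∈ Subgroup.center P then centralHom ρ ⟨k, hk⟩ else 0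
  have hcdef : ∀ k (hk : k ∈ Subgroup.center P), c k = centralHom ρ ⟨k, hk⟩ :=
    fun k hk => dif_pos hk
  have hc : ∀ x k, k ∈ Subgroup.center P → ρ.character (x * k) = c k * ρ.character x := by
    intro x k hk
    show LinearMap.trace ℂ _ (ρ (x * k)) = c k * LinearMap.trace ℂ _ (ρ x)
    have h2 : ρ k = centralHom ρ ⟨k, hk⟩ • (1 : (Fin d → ℂ) →ₗ[ℂ] (Fin d → ℂ)) :=
      rep_center ρ ⟨k, hk⟩
    rw [map_mul, hcdef k hk, h2, mul_smul_comm, mul_one, map_smul, smul_eq_mul]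
  have hc1 : ∀ k ∈ Subgroup.center P, k ≠ 1 → c k ≠ 1 := by
    intro k hk hk1 hck
    apply h1
    have hk' : ρ k = 1 := by
      have h2 : ρ k = centralHom ρ ⟨k, hk⟩ • (1 : (Fin d → ℂ) →ₗ[ℂ] (Fin d → ℂ)) :=
        rep_center ρ ⟨k, hk⟩
      rw [← hcdef k hk, hck, one_smul] at h2
      exact h2
    have hall : ∀ z ∈ Subgroup.center P, ρ z = 1 := by
      intro z hz
      obtain ⟨j, hj⟩ := exists_pow_eq_of_prime_card hZ hk hk1 hz
      rw [← hj, map_pow, hk', one_pow]
    have hscal : ∀ a ∈ (⊤ : Subgroup P), ∃ ω : ℂ, ρ a = ω • (1 : (Fin d → ℂ) →ₗ[ℂ] (Fin d → ℂ)) := by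
      intro a _
      refine ⟨_, schur_trace ρ (ρ a) (fun h => ?_)⟩
      have hcm : a * h = h * a * (a⁻¹ * h⁻¹ * a * h) := by group
      have hmem : a⁻¹ * h⁻¹ * a * h ∈ Subgroup.center P := by
        rw [← hcomm, commutator_def]
        have h3 : a⁻¹ * h⁻¹ * a * h = ⁅a⁻¹, h⁻¹⁆ := by
          rw [commutatorElement_def, inv_inv, inv_inv]
        rw [h3]
        exact Subgroup.commutator_mem_commutator (Subgroup.mem_top _) (Subgroup.mem_top _)
      rw [← map_mul, ← map_mul, hcm, map_mul ρ (h * a), hall _ hmem, mul_one]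
    have hdvd := finrank_dvd_index_of_scalar ρ ⊤ hscal
    rw [Subgroup.index_top, hd] at hdvd
    rw [hχ1, Nat.dvd_one.mp hdvd]
    simp
  have hvan : ∀ x, x ∉ Subgroup.center P → ρ.character x = 0 := fun x hx =>
    vanish_off_center hcomm.le ρ.character
      (isClassFunction_of_isCharacter (isCharacter_of_rep ρ)) c hc hc1 hx
  refine ⟨?_, hvan⟩
  have hnorm : ∀ x ∈ Subgroup.center P, ‖ρ.character x‖ = (d : ℝ) := by
    intro x hx
    have h2 := hc 1 x hx
    rw [one_mul, hχ1] at h2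
    have h3 : c x ^ orderOf x = 1 := by
      rw [hcdef x hx, ← map_pow]
      have h4 : (⟨x, hx⟩ : Subgroup.center P) ^ orderOf x = 1 := by
        apply Subtype.ext
        simp [pow_orderOf_eq_one]
      rw [h4, map_one]
    rw [h2, norm_mul, Complex.norm_eq_one_of_pow_eq_one h3 (orderOf_pos x).ne', one_mul]
    simp
  have hsum := sum_norm_sq_of_center ρ.character (d : ℝ) hvan hnorm
  have hinner := irr_inner_self (⟨d, ρ, hρ, rfl⟩ : IsIrrCharacter P ρ.character)
  rw [classInner_self_eq, hsum, hZ, hcard] at hinner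
  have hp0 : (p : ℝ) ≠ 0 := by
    have := (Fact.out : p.Prime).pos
    positivity
  have h5 : (p : ℝ) * (d : ℝ) ^ 2 = (p : ℝ) ^ (2 * n + 1) := by
    have h6 : ((p ^ (2 * n + 1) : ℕ) : ℂ) ≠ 0 := by
      have := (Fact.out : p.Prime).pos
      exact_mod_cast (by positivity : p ^ (2 * n + 1) ≠ 0)
    have h7 : (((p : ℝ) * (d : ℝ) ^ 2 : ℝ) : ℂ) = ((p ^ (2 * n + 1) : ℕ) : ℂ) := by
      rw [inv_mul_eq_one₀ h6] at hinner
      exact hinner.symm
    exact_mod_cast h7
  have h7 : d ^ 2 = (p ^ n) ^ 2 := by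
    have h8 : (d : ℝ) ^ 2 = ((p : ℝ) ^ n) ^ 2 := by
      have h9 : (p : ℝ) ^ (2 * n + 1) = p * ((p : ℝ) ^ n) ^ 2 := by ring
      rw [h9] at h5
      exact mul_left_cancel₀ hp0 h5
    exact_mod_cast h8
  have h8 : d = p ^ n := Nat.pow_left_injective (by norm_num : (2 : ℕ) ≠ 0) h7
  rw [hχ1, h8]
  push_cast
  rfl

end Cfsg.Agent.Lib_helper3_Extraspecial
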