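import Mathlib
import Cfsg.Prelude.Def_Characters
import Cfsg.Prelude.Def_Blocks
import Cfsg.Prelude.Def_BlockRank
import Cfsg.Agent.Lib_helper3_HeightZero
import Cfsg.Agent.Lib_helper3_BrauerHom3

set_option autoImplicit false
open Cfsg
open Cfsg.Agent.Lib_helper3_CharBasic Cfsg.Agent.Lib_helper3_CharMore
  Cfsg.Agent.Lib_helper3_Local Cfsg.Agent.Lib_helper3_Local2 Cfsg.Agent.Lib_helper3_BlockAlg
  Cfsg.Agent.Lib_helper3_Residue Cfsg.Agent.Lib_helper3_BrauerHom2
  Cfsg.Agent.Lib_helper3_BrauerHom3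
  Cfsg.Agent.Lib_helper3_RegSpan Cfsg.Agent.Lib_helper3_RegSpan2
  Cfsg.Agent.Lib_helper3_HeightZero
open scoped ComplexConjugate

namespace Cfsg.Agent.Lib_helper3_IndRestr

universe u

variable {G : Type u} [Group G] [Fintype G] {M : Ideal AlgInt} {p : ℕ}

/-- The inner product of the `p`-regular restriction of a character of `G` to a subgroup `H`
with an irreducible character of `H`, in terms of the central character. -/
theorem regInner_res_eq_om (H : Subgroup G) [Fintype H] (χ : IrrCharacter G)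
    (ψ : IrrCharacter H) (c : ℂ) :
    classInner (fun h : H => if p ∣ orderOf h then (0 : ℂ) else c * (χ : G → ℂ) h)
      (ψ : H → ℂ) / (ψ : H → ℂ) 1 =
      (c / (Nat.card H : ℂ)) * Om (ψ : H → ℂ) (resH H (regConj p (χ : G → ℂ))) := by
  classical
  rw [classInner_def]
  unfold Om
  have h1 : ∑ h : H, (if p ∣ orderOf h then (0 : ℂ) else c * (χ : G → ℂ) h) *
      conj ((ψ : H → ℂ) h) =
      c * ∑ h : H, resH H (regConj p (χ : G → ℂ)) h * (ψ : H → ℂ) h := by
    rw [← Equiv.sum_comp (Equiv.inv H), Finset.mul_sum]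
    apply Finset.sum_congr rfl
    intro h _
    show (if p ∣ orderOf h⁻¹ then (0 : ℂ) else c * (χ : G → ℂ) ((h⁻¹ : H) : G)) *
      conj ((ψ : H → ℂ) h⁻¹) = c * (regConj p (χ : G → ℂ) (h : G) * (ψ : H → ℂ) h)
    unfold regConj
    rw [pRegularPart_apply, orderOf_inv, Subgroup.orderOf_coe,
      isCharacter_inv (isCharacter_of_irr ψ.2), Complex.conj_conj]
    by_cases hx : p ∣ orderOf h
    · simp [hx]
    · rw [if_neg hx, if_neg hx]
      have h2 : (χ : G → ℂ) ((h⁻¹ : H) : G) = conj ((χ : G → ℂ) (h : G)) := by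
        rw [Subgroup.coe_inv, isCharacter_inv (isCharacter_of_irr χ.2)]
      rw [h2]
      ring
  rw [h1]
  have hH0 := card_ne_zero (G := H)
  field_simp

/-- Restriction and induced blocks: the criterion for membership in the induced block. -/
theorem induced_block_restriction [Fact p.Prime] (hM : IsPModular p M) (H : Subgroup G)
    [Fintype H] (b : Set (IrrCharacter H)) (B₀ : Set (IrrCharacter G))
    (hind : IsInducedBlock M H b B₀) (χ : IrrCharacter G) (ψ : IrrCharacter H) (hψ : ψ ∈ b) :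
    (χ ∉ B₀ → MemLocalIdeal M (classInner (fun h : H => if p ∣ orderOf h then (0 : ℂ) else
      ((p ^ (Nat.card H).factorization p : ℕ) : ℂ) * (χ : G → ℂ) h) (ψ : H → ℂ) /
        (ψ : H → ℂ) 1)) ∧
    (χ ∈ B₀ → blockHeight p B₀ (χ : G → ℂ) = 0 →
      ¬ MemLocalIdeal M (classInner (fun h : H => if p ∣ orderOf h then (0 : ℂ) else
        ((p ^ (Nat.card H).factorization p : ℕ) : ℂ) * (χ : G → ℂ) h) (ψ : H → ℂ) /
          (ψ : H → ℂ) 1)) := by
  have hMp : M.IsPrime := isPrime_of_modular hM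
  have hp : p.Prime := hM.1
  rw [regInner_res_eq_om]
  have hcoefH : MemLocalRing M (((p ^ (Nat.card H).factorization p : ℕ) : ℂ) /
      (Nat.card H : ℂ)) := by
    have h := coef_memLocalRing (G := H) hM
    have h2 : (((p ^ (Nat.card H).factorization p : ℕ) : ℂ) / (Nat.card H : ℂ)) =
        ((p : ℂ) ^ (Nat.card H).factorization p / (Nat.card H : ℂ)) := by
      push_cast
      rfl
    rw [h2]
    exact h
  have hdiff : ∀ χ₁ ∈ B₀, MemLocalIdeal M (Om (ψ : H → ℂ) (resH H (regConj p (χ : G → ℂ))) -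
      Om (χ₁ : G → ℂ) (regConj p (χ : G → ℂ))) := by
    intro χ₁ hχ₁
    exact om_resH_sub_om H (ψ : H → ℂ) (isClassFunction_of_irr χ₁.2)
      (hind.2.2 ψ hψ χ₁ hχ₁) (isClassFunction_regConj p χ) (memLocalRing_regConj p χ)
  have hG0 := card_ne_zero (G := G)
  have hp0 : (p : ℂ) ≠ 0 := by exact_mod_cast hp.ne_zero
  constructor
  · intro hχ
    obtain ⟨χ₁, hχ₁⟩ := hind.2.1
    have hχ₁B : χ₁ ∈ B₀ := by
      rw [hχ₁]
      exact mem_blockOf_self hMp.ne_top χ₁
    have h1 := tw_div hM χ χ₁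
    rw [tw_symm hM χ χ₁, tw_eq_zero hM hind.2.1 hχ₁B hχ, zero_div] at h1
    have h2 : Om (χ₁ : G → ℂ) (regConj p (χ : G → ℂ)) = 0 := by
      rcases mul_eq_zero.mp h1.symm with h3 | h3
      · exfalso
        have h4 : (p : ℂ) ^ (Nat.card G).factorization p ≠ 0 := pow_ne_zero _ hp0
        exact (div_ne_zero h4 hG0) h3
      · exact h3
    have h5 := hdiff χ₁ hχ₁B
    rw [h2, sub_zero] at h5
    exact memLocalIdeal_mul_left hcoefH h5
  · intro hχ hh hcon
    apply unit_of_height_zero hM hind.2.1 hχ hh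
    rw [tw_div hM χ χ]
    apply memLocalIdeal_mul_left (coef_memLocalRing hM)
    have hX : MemLocalIdeal M (Om (ψ : H → ℂ) (resH H (regConj p (χ : G → ℂ)))) := by
      obtain ⟨m, hm⟩ := Nat.ordProj_dvd (Nat.card H) p
      have hH0 := card_ne_zero (G := H)
      have hpk : ((p ^ (Nat.card H).factorization p : ℕ) : ℂ) ≠ 0 := by
        exact_mod_cast (pow_pos hp.pos _).ne'
      have h6 : Om (ψ : H → ℂ) (resH H (regConj p (χ : G → ℂ))) = (m : ℂ) *
          ((((p ^ (Nat.card H).factorization p : ℕ) : ℂ) / (Nat.card H : ℂ)) *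
            Om (ψ : H → ℂ) (resH H (regConj p (χ : G → ℂ)))) := by
        have h7 : (Nat.card H : ℂ) = ((p ^ (Nat.card H).factorization p : ℕ) : ℂ) * (m : ℂ) := by
          exact_mod_cast hm
        rw [h7]
        have hm0 : (m : ℂ) ≠ 0 := by
          intro h0
          rw [h0, mul_zero] at h7
          exact hH0 h7
        field_simp
      rw [h6]
      exact memLocalIdeal_mul_left (memLocalRing_natCast hMp.ne_top m) hcon
    have h8 := memLocalIdeal_sub hX (hdiff χ hχ)
    rw [sub_sub_cancel] at h8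
    exact h8

end Cfsg.Agent.Lib_helper3_IndRestr
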