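import Mathlib
import Cfsg.Prelude.Def_Characters
import Cfsg.Prelude.Def_Blocks
import Cfsg.Prelude.Def_BlockRank
import Cfsg.Agent.Lib_helper3_IndRestr
import Cfsg.Agent.Lib_helper3_SecondMain2
import Cfsg.Agent.Lib_helper3_DefectCard
import Cfsg.Agent.Lib_helper3_DefectCard2
import Cfsg.Agent.Lib_helper3_DefectZero

set_option autoImplicit false
open Cfsg
open Cfsg.Agent.Lib_helper3_CharBasic Cfsg.Agent.Lib_helper3_CharMore
  Cfsg.Agent.Lib_helper3_Local Cfsg.Agent.Lib_helper3_Local2 Cfsg.Agent.Lib_helper3_BlockAlg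
  Cfsg.Agent.Lib_helper3_Residue Cfsg.Agent.Lib_helper3_BrauerHom2
  Cfsg.Agent.Lib_helper3_BrauerHom3 Cfsg.Agent.Lib_helper3_CharInd
  Cfsg.Agent.Lib_helper3_SecondMain2 Cfsg.Agent.Lib_helper3_DefectCard
  Cfsg.Agent.Lib_helper3_DefectCard2 Cfsg.Agent.Lib_helper3_DefectZero
open scoped ComplexConjugate

namespace Cfsg.Agent.Lib_helper3_IndDegree

universe u

variable {G : Type u} [Group G] [Fintype G] {M : Ideal AlgInt} {p : ℕ}

/-- A ratio of natural numbers that is a local unit has equal `p`-adic valuations. -/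
theorem factorization_eq_of_unit (hM : IsPModular p M) {n m : ℕ} (hn : n ≠ 0) (hm : m ≠ 0)
    (hR : MemLocalRing M ((n : ℂ) / (m : ℂ)))
    (h : ¬ MemLocalIdeal M ((n : ℂ) / (m : ℂ))) : n.factorization p = m.factorization p := by
  have hMp : M.IsPrime := isPrime_of_modular hM
  by_contra hne
  rcases Nat.lt_or_gt_of_ne hne with hlt | hgt
  · have h1 : MemLocalIdeal M ((m : ℂ) * 1 / (n : ℂ)) :=
      memLocalIdeal_of_factorization_lt hM hn hlt (Subalgebra.one_mem _)
    rw [mul_one] at h1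
    have h2 := memLocalIdeal_mul_left hR h1
    have hn0 : (n : ℂ) ≠ 0 := by exact_mod_cast hn
    have hm0 : (m : ℂ) ≠ 0 := by exact_mod_cast hm
    have h3 : (n : ℂ) / (m : ℂ) * ((m : ℂ) / (n : ℂ)) = 1 := by field_simp
    rw [h3] at h2
    exact not_memLocalIdeal_one h2
  · have h1 : MemLocalIdeal M ((n : ℂ) * 1 / (m : ℂ)) :=
      memLocalIdeal_of_factorization_lt hM hm hgt (Subalgebra.one_mem _)
    rw [mul_one] at h1
    exact h h1

/-- A ratio of natural numbers in the local ideal has a numerator that vanishes or has larger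
`p`-adic valuation than the denominator. -/
theorem factorization_lt_of_mem (hM : IsPModular p M) {n m : ℕ} (hm : m ≠ 0)
    (h : MemLocalIdeal M ((n : ℂ) / (m : ℂ))) : n = 0 ∨ m.factorization p < n.factorization p := by
  have hMp : M.IsPrime := isPrime_of_modular hM
  by_cases hn : n = 0
  · exact Or.inl hn
  · right
    by_contra hle
    push Not at hle
    have h1 := memLocalRing_of_factorization_le hM (u := m) (v := n) hn hle
    have h2 := memLocalIdeal_mul_left h1 h
    have hn0 : (n : ℂ) ≠ 0 := by exact_mod_cast hn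
    have hm0 : (m : ℂ) ≠ 0 := by exact_mod_cast hm
    have h3 : (m : ℂ) / (n : ℂ) * ((n : ℂ) / (m : ℂ)) = 1 := by field_simp
    rw [h3] at h2
    exact not_memLocalIdeal_one h2

/-- The value at `1` of the block part of a character is a natural number. -/
theorem blockPart_one_nat (B : Set (IrrCharacter G)) {ϑ : G → ℂ} (hϑ : IsCharacter G ϑ) :
    ∃ n : ℕ, blockPart B ϑ 1 = n := by
  classical
  have hfin := irr_finite (G := G)
  let inst2 : Fintype (IrrCharacter G) := Fintype.ofFinite (IrrCharacter G)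
  have h0 : blockPart B ϑ 1 = ∑ᶠ χ ∈ B,
      @classInner G _ (Fintype.ofFinite G) ϑ (χ : G → ℂ) * (χ : G → ℂ) 1 := rfl
  rw [h0, finsum_mem_def, finsum_eq_sum_of_fintype]
  choose m hm using fun χ : IrrCharacter G =>
    @classInner_nat G _ (Fintype.ofFinite G) _ _ hϑ (isCharacter_of_irr χ.2)
  choose d hd using fun χ : IrrCharacter G => irr_apply_one_pos χ.2
  refine ⟨∑ χ : IrrCharacter G, (if χ ∈ B then m χ * d χ else 0), ?_⟩
  push_cast
  apply Finset.sum_congr rfl
  intro χ _
  by_cases hχ : χ ∈ B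
  · rw [Set.indicator_of_mem hχ, if_pos hχ, hm χ, (hd χ).2]
  · rw [Set.indicator_of_notMem hχ, if_neg hχ]

/-- The value at `1` of the block part of an induced character. -/
theorem blockPart_indFun_one (H : Subgroup G) [Fintype H] (B : Set (IrrCharacter G))
    (ξ : IrrCharacter H) :
    blockPart B (indFun H (ξ : H → ℂ)) 1 =
      (H.index : ℂ) * (ξ : H → ℂ) 1 * Om (ξ : H → ℂ) (resH H (blockCoeff B)) := by
  classical
  rw [blockPart_eq B _ (isClassFunction_indFun H (ξ : H → ℂ)) 1, finsum_eq_sum_of_fintype]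
  simp only [mul_one]
  have hcl : IsClassFunction G (fun g => conj (blockCoeff B g)) := by
    intro g k
    show conj (blockCoeff B (k * g * k⁻¹)) = conj (blockCoeff B g)
    rw [isClassFunction_blockCoeff B g k]
  have hfr := frobenius_reciprocity H (ξ : H → ℂ) (fun g => conj (blockCoeff B g)) hcl
  simp only [classInner_def, Complex.conj_conj] at hfr
  have hG0 := card_ne_zero (G := G)
  have hH0 := card_ne_zero (G := H)
  have hidx : (Nat.card G : ℂ) = (Nat.card H : ℂ) * (H.index : ℂ) := by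
    exact_mod_cast (Subgroup.card_mul_index H).symm
  have h1 : ∑ g : G, blockCoeff B g * indFun H (ξ : H → ℂ) g =
      (Nat.card G : ℂ) * ((Nat.card H : ℂ)⁻¹ * ∑ h : H, (ξ : H → ℂ) h * blockCoeff B h) := by
    rw [← hfr, ← mul_assoc, mul_inv_cancel₀ hG0, one_mul]
    apply Finset.sum_congr rfl
    intro g _
    ring
  rw [h1]
  unfold Om resH
  have hξ1 := irr_apply_one_ne_zero ξ.2
  have h2 : ∑ h : H, blockCoeff B (h : G) * (ξ : H → ℂ) h =
      ∑ h : H, (ξ : H → ℂ) h * blockCoeff B (h : G) := by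
    apply Finset.sum_congr rfl
    intro h _
    ring
  rw [h2, hidx]
  field_simp

/-- Degrees of the block parts of an induced character. -/
theorem induced_degree_valuation [Fact p.Prime] (hM : IsPModular p M) (H : Subgroup G)
    [Fintype H] (b : Set (IrrCharacter H)) (B₀ : Set (IrrCharacter G))
    (hind : IsInducedBlock M H b B₀) (ξ : IrrCharacter H) (hξ : ξ ∈ b) :
    (∃ n : ℕ, blockPart B₀ (indFun H (ξ : H → ℂ)) 1 = (n : ℂ) ∧ n ≠ 0 ∧
      n.factorization p = (charDegree (indFun H (ξ : H → ℂ))).factorization p) ∧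
    ∀ B : Set (IrrCharacter G), IsPBlock M B → B ≠ B₀ →
      ∃ n : ℕ, blockPart B (indFun H (ξ : H → ℂ)) 1 = (n : ℂ) ∧
        (n = 0 ∨ (charDegree (indFun H (ξ : H → ℂ))).factorization p < n.factorization p) := by
  classical
  have hMp : M.IsPrime := isPrime_of_modular hM
  obtain ⟨d, hdpos, hd⟩ := irr_apply_one_pos ξ.2
  have hidx : H.index ≠ 0 := Subgroup.index_ne_zero_of_finite
  have hm0 : H.index * d ≠ 0 := Nat.mul_ne_zero hidx hdpos.ne'
  have hdeg1 : indFun H (ξ : H → ℂ) 1 = ((H.index * d : ℕ) : ℂ) := by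
    rw [indFun_apply_one, hd]
    push_cast
    rfl
  have hdeg : charDegree (indFun H (ξ : H → ℂ)) = H.index * d := charDegree_eq hdeg1
  rw [hdeg]
  obtain ⟨χ₀, hχ₀⟩ := hind.2.1
  have hχ₀B : χ₀ ∈ B₀ := by
    rw [hχ₀]
    exact mem_blockOf_self hMp.ne_top χ₀
  have hcong : ∀ B : Set (IrrCharacter G), IsPBlock M B →
      MemLocalIdeal M (Om (ξ : H → ℂ) (resH H (blockCoeff B)) -
        Om (χ₀ : G → ℂ) (blockCoeff B)) := by
    intro B hB
    exact om_resH_sub_om H (ξ : H → ℂ) (isClassFunction_of_irr χ₀.2)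
      (hind.2.2 ξ hξ χ₀ hχ₀B) (isClassFunction_blockCoeff B) (fun g => osima hB g)
  have hchar : IsCharacter G (indFun H (ξ : H → ℂ)) :=
    isCharacter_indFun H (isCharacter_of_irr ξ.2)
  have hmc : ((H.index * d : ℕ) : ℂ) ≠ 0 := by exact_mod_cast hm0
  have hval : ∀ B : Set (IrrCharacter G), ∀ n : ℕ, blockPart B (indFun H (ξ : H → ℂ)) 1 = n →
      (n : ℂ) / ((H.index * d : ℕ) : ℂ) = Om (ξ : H → ℂ) (resH H (blockCoeff B)) := by
    intro B n hn
    rw [← hn, blockPart_indFun_one, hd]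
    have hd0 : (d : ℂ) ≠ 0 := by exact_mod_cast hdpos.ne'
    have hi0 : (H.index : ℂ) ≠ 0 := by exact_mod_cast hidx
    push_cast
    field_simp
  constructor
  · obtain ⟨n, hn⟩ := blockPart_one_nat B₀ hchar
    have h1 := hcong B₀ hind.2.1
    rw [om_blockCoeff_of_mem hχ₀B, ← hval B₀ n hn] at h1
    have h2 : ¬ MemLocalIdeal M ((n : ℂ) / ((H.index * d : ℕ) : ℂ)) :=
      not_memLocalIdeal_of_sub h1 not_memLocalIdeal_one
    have h2R : MemLocalRing M ((n : ℂ) / ((H.index * d : ℕ) : ℂ)) :=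
      memLocalRing_of_sub h1 (memLocalRing_one hMp.ne_top)
    have hn0 : n ≠ 0 := by
      rintro rfl
      apply h2
      rw [Nat.cast_zero, zero_div]
      exact memLocalIdeal_zero hMp.ne_top
    exact ⟨n, hn, hn0, factorization_eq_of_unit hM hn0 hm0 h2R h2⟩
  · intro B hB hne
    obtain ⟨n, hn⟩ := blockPart_one_nat B hchar
    have hχ₀notB : χ₀ ∉ B := by
      intro hmem
      apply hne
      obtain ⟨χB, hχB⟩ := hB
      rw [hχB, hχ₀]
      rw [hχB] at hmem
      exact (blockOf_eq_of_mem hmem).symm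
    have h1 := hcong B hB
    rw [om_blockCoeff_of_not_mem hχ₀notB, sub_zero, ← hval B n hn] at h1
    exact ⟨n, hn, factorization_lt_of_mem hM hm0 h1⟩

end Cfsg.Agent.Lib_helper3_IndDegree
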