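import Mathlib
import Cfsg.Prelude.Def_Characters
import Cfsg.Prelude.Def_Blocks
import Cfsg.Agent.Lib_helper3_InvClass
import Cfsg.Agent.Lib_helper3_CharGalois
import Cfsg.Agent.Lib_helper3_IndDegree
import Cfsg.Agent.Lib_helper3_BlockAlg

set_option autoImplicit false
open Cfsg
open Cfsg.Agent.Lib_helper3_CharBasic Cfsg.Agent.Lib_helper3_CharMore
  Cfsg.Agent.Lib_helper3_Local Cfsg.Agent.Lib_helper3_Local2 Cfsg.Agent.Lib_helper3_BlockAlg
  Cfsg.Agent.Lib_helper3_CharInd Cfsg.Agent.Lib_helper3_CharDiag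
  Cfsg.Agent.Lib_helper3_CharGalois Cfsg.Agent.Lib_helper3_DefectZero
  Cfsg.Agent.Lib_helper3_IndDegree Cfsg.Agent.Lib_helper3_InvClass
open scoped ComplexConjugate

namespace Cfsg.Agent.Lib_helper3_FaithPow

universe u

variable {G : Type u} [Group G] [Fintype G] {M : Ideal AlgInt} {p : ℕ} [Fact p.Prime]

/-- A faithful irreducible character of `p`-power degree of a group with trivial centre
vanishes at every non-identity element centralizing a Sylow `p`-subgroup. -/
theorem faithful_pow_vanish (hZ : Subgroup.center G = ⊥) (P : Sylow p G)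
    (χ : IrrCharacter G) (hfaith : ∀ g : G, (χ : G → ℂ) g = (χ : G → ℂ) 1 → g = 1) (n : ℕ)
    (hdeg : charDegree (χ : G → ℂ) = p ^ n) (z : G) (hz1 : z ≠ 1)
    (hzP : ∀ w ∈ (P : Subgroup G), w * z = z * w) : (χ : G → ℂ) z = 0 := by
  classical
  have hp : p.Prime := Fact.out
  obtain ⟨m, ρ, hirr, hρ⟩ := χ.2
  have hfr : Module.finrank ℂ (Fin m → ℂ) = m := by simp
  have hχ1 : (χ : G → ℂ) 1 = (m : ℂ) := by
    rw [← hρ, Representation.char_one]
    simp
  have hm : m = p ^ n := by rw [← hdeg, charDegree_eq hχ1]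
  have hPle : (P : Subgroup G) ≤ Subgroup.centralizer ({z} : Set G) := by
    intro w hw
    rw [Subgroup.mem_centralizer_singleton_iff]
    exact hzP w hw
  have hidx : ¬ p ∣ (Subgroup.centralizer ({z} : Set G)).index := by
    intro hdvd
    exact P.not_dvd_index (dvd_trans hdvd (Subgroup.index_dvd_of_le hPle))
  have hcop : Nat.Coprime (Module.finrank ℂ (Fin m → ℂ))
      (Subgroup.centralizer ({z} : Set G)).index := by
    rw [hfr, hm]
    exact Nat.Coprime.pow_left n ((Nat.Prime.coprime_iff_not_dvd hp).mpr hidx)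
  rcases char_zero_or_norm_of_coprime ρ z hcop with h0 | h0
  · rw [← hρ]
    exact h0
  · exfalso
    obtain ⟨ω, hω⟩ := (norm_char_eq_iff ρ z).mp h0
    apply hz1
    have hcen : z ∈ Subgroup.center G := by
      rw [Subgroup.mem_center_iff]
      intro g
      have h2 : ρ (g * z * g⁻¹ * z⁻¹) = ρ 1 := by
        have h3 : ρ g * ρ z = ρ z * ρ g := by
          rw [hω]
          ext v
          simp
        rw [map_mul, map_mul, map_mul, h3, mul_assoc (ρ z), ← map_mul, mul_inv_cancel, map_one,
          mul_one, ← map_mul, mul_inv_cancel, map_one]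
      have h4 : (χ : G → ℂ) (g * z * g⁻¹ * z⁻¹) = (χ : G → ℂ) 1 := by
        rw [← hρ]
        unfold Representation.character
        rw [h2]
      have h5 := hfaith _ h4
      calc g * z = (g * z * g⁻¹ * z⁻¹) * z * g := by group
        _ = z * g := by rw [h5, one_mul]
    rw [hZ] at hcen
    exact Subgroup.mem_bot.mp hcen

/-- The block of a faithful irreducible character of `p`-power degree of a group with trivial
centre has defect at most `a - b`, where `p ^ a` is the order of a Sylow `p`-subgroup and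
`p ^ b` the order of its centre. -/
theorem faithful_pow_defect (hM : IsPModular p M) (hZ : Subgroup.center G = ⊥) (P : Sylow p G)
    (a b : ℕ) (ha : Nat.card P = p ^ a)
    (hb : Nat.card (Subgroup.center ↥(P : Subgroup G)) = p ^ b) (χ : IrrCharacter G)
    (hfaith : ∀ g : G, (χ : G → ℂ) g = (χ : G → ℂ) 1 → g = 1) (n : ℕ)
    (hdeg : charDegree (χ : G → ℂ) = p ^ n) :
    blockDefect p (blockOf M (χ : G → ℂ)) ≤ a - b ∧
      (IsMulCommutative ↥(P : Subgroup G) → blockDefect p (blockOf M (χ : G → ℂ)) = 0) := by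
  classical
  have hp : p.Prime := Fact.out
  have hMp : M.IsPrime := isPrime_of_modular hM
  have hMtop := hMp.ne_top
  obtain ⟨Z, hZdef⟩ : ∃ Z : Subgroup G,
      Z = (Subgroup.center ↥(P : Subgroup G)).map (P : Subgroup G).subtype := ⟨_, rfl⟩
  have hZcard : Nat.card Z = p ^ b := by
    rw [hZdef, Subgroup.card_map_of_injective (Subgroup.subtype_injective _), hb]
  have hZP : ∀ z ∈ Z, ∀ w ∈ (P : Subgroup G), w * z = z * w := by
    intro z hz w hw
    rw [hZdef] at hz
    obtain ⟨c, hc, rfl⟩ := hz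
    have h := Subgroup.mem_center_iff.mp hc ⟨w, hw⟩
    exact congrArg Subtype.val h
  have h1 : ∀ z ∈ Z, z ≠ 1 → (χ : G → ℂ) z = 0 := fun z hz hz1 =>
    faithful_pow_vanish hZ P χ hfaith n hdeg z hz1 (hZP z hz)
  have hidx : ∀ z ∈ Z, ¬ p ∣ (Subgroup.centralizer ({z} : Set G)).index := by
    intro z hz hdvd
    have hPle : (P : Subgroup G) ≤ Subgroup.centralizer ({z} : Set G) := by
      intro w hw
      rw [Subgroup.mem_centralizer_singleton_iff]
      exact hZP z hz w hw
    exact P.not_dvd_index (dvd_trans hdvd (Subgroup.index_dvd_of_le hPle))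
  have h2 : ∀ ψ ∈ blockOf M (χ : G → ℂ), b ≤ (charDegree (ψ : G → ℂ)).factorization p := by
    intro ψ hψ
    obtain ⟨d, hd, hψ1⟩ := irr_apply_one_pos ψ.2
    rw [charDegree_eq hψ1]
    have hd0 : (d : ℂ) ≠ 0 := by exact_mod_cast hd.ne'
    have h3 : ∀ z ∈ Z, z ≠ 1 → MemLocalIdeal M ((ψ : G → ℂ) z / (d : ℂ)) := by
      intro z hz hz1
      have h4 : MemLocalIdeal M (centralChar (χ : G → ℂ) z - centralChar (ψ : G → ℂ) z) := hψ z
      have h5 : centralChar (χ : G → ℂ) z = 0 := by
        unfold centralChar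
        rw [h1 z hz hz1, mul_zero, zero_div]
      rw [h5, zero_sub] at h4
      have h6 := memLocalIdeal_neg h4
      rw [neg_neg] at h6
      unfold centralChar at h6
      rw [hψ1] at h6
      have hi0 : ((Subgroup.centralizer ({z} : Set G)).index : ℂ) ≠ 0 := by
        intro h0
        apply hidx z hz
        have h00 : (Subgroup.centralizer ({z} : Set G)).index = 0 := by exact_mod_cast h0
        rw [h00]
        exact dvd_zero p
      have h7 : MemLocalRing M (((Subgroup.centralizer ({z} : Set G)).index : ℂ))⁻¹ :=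
        memLocalRing_inv (memLocalRing_natCast hMtop _) (not_memLocalIdeal_natCast hM (hidx z hz))
      have h8 := memLocalIdeal_mul_left h7 h6
      have h9 : (((Subgroup.centralizer ({z} : Set G)).index : ℂ))⁻¹ *
          (((Subgroup.centralizer ({z} : Set G)).index : ℂ) * (ψ : G → ℂ) z / (d : ℂ)) =
          (ψ : G → ℂ) z / (d : ℂ) := by
        field_simp
      rwa [h9] at h8
    obtain ⟨nψ, hnψ⟩ := sum_subgroup_nat Z ψ
    rw [hZcard] at hnψ
    have h9 : ((p ^ b * nψ : ℕ) : ℂ) / (d : ℂ) =
        1 + ∑ z ∈ Finset.univ.erase (1 : Z), conj ((ψ : G → ℂ) (z : G)) / (d : ℂ) := by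
      rw [← Finset.sum_div]
      have h10 := Finset.add_sum_erase Finset.univ
        (fun z : Z => conj ((ψ : G → ℂ) (z : G))) (Finset.mem_univ (1 : Z))
      rw [hnψ] at h10
      have h11 : conj ((ψ : G → ℂ) ((1 : Z) : G)) = (d : ℂ) := by
        rw [Subgroup.coe_one, hψ1, Complex.conj_natCast]
      rw [h11] at h10
      push_cast at h10 ⊢
      rw [← h10]
      field_simp
    have h10 : MemLocalIdeal M (∑ z ∈ Finset.univ.erase (1 : Z),
        conj ((ψ : G → ℂ) (z : G)) / (d : ℂ)) := by
      apply memLocalIdeal_sum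
      intro z hz
      rw [irr_conj_eq]
      refine h3 _ (Z.inv_mem z.2) ?_
      intro h
      apply Finset.ne_of_mem_erase hz
      apply Subtype.ext
      rw [Subgroup.coe_one]
      exact inv_eq_one.mp h
    have hR : MemLocalRing M (((p ^ b * nψ : ℕ) : ℂ) / (d : ℂ)) := by
      rw [h9]
      exact memLocalRing_add (memLocalRing_one hMtop) (memLocalRing_of_memLocalIdeal h10)
    have hnI : ¬ MemLocalIdeal M (((p ^ b * nψ : ℕ) : ℂ) / (d : ℂ)) := by
      rw [h9]
      intro h
      have h12 := memLocalIdeal_sub h h10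
      rw [add_sub_cancel_right] at h12
      exact not_memLocalIdeal_one h12
    have hne0 : p ^ b * nψ ≠ 0 := by
      intro h0
      apply hnI
      rw [h0, Nat.cast_zero, zero_div]
      exact memLocalIdeal_zero hMtop
    have h11 := factorization_eq_of_unit hM hne0 hd.ne' hR hnI
    rw [← h11]
    exact (hp.pow_dvd_iff_le_factorization hne0).mp (dvd_mul_right _ _)
  have hG : (Nat.card G).factorization p = a := by
    have h := P.card_eq_multiplicity
    rw [ha] at h
    exact (Nat.pow_right_injective hp.two_le h).symm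
  have hdef : blockDefect p (blockOf M (χ : G → ℂ)) ≤ a - b := by
    unfold blockDefect
    rw [hG]
    apply Nat.sub_le_sub_left
    apply le_csInf
    · exact ⟨_, χ, mem_blockOf_self hMtop χ, rfl⟩
    · rintro s ⟨ψ, hψ, rfl⟩
      exact h2 ψ hψ
  refine ⟨hdef, fun hab => ?_⟩
  have hcen : Subgroup.center ↥(P : Subgroup G) = ⊤ := by
    ext c
    simp only [Subgroup.mem_top, iff_true]
    rw [Subgroup.mem_center_iff]
    intro g
    exact hab.is_comm.comm g c
  rw [hcen, Subgroup.card_top] at hb
  have hab' : a = b := by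
    apply Nat.pow_right_injective hp.two_le
    show p ^ a = p ^ b
    rw [← ha, ← hb]
  omega

end Cfsg.Agent.Lib_helper3_FaithPow
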