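import Mathlib
import Cfsg.Prelude.Def_Characters
import Cfsg.Prelude.Def_Blocks
import Cfsg.Prelude.Def_BlockRank
import Cfsg.Prelude.Def_BrauerPairs
import Cfsg.Agent.Lib_helper3_BrauerCount
import Cfsg.Agent.Lib_helper3_BrauerPair
import Cfsg.Agent.S4667

set_option autoImplicit false
open Cfsg
open Cfsg.Agent.Lib_helper3_CharBasic Cfsg.Agent.Lib_helper3_CharMore
  Cfsg.Agent.Lib_helper3_Local Cfsg.Agent.Lib_helper3_Local2 Cfsg.Agent.Lib_helper3_BlockAlg
  Cfsg.Agent.Lib_helper3_Residue Cfsg.Agent.Lib_helper3_BrauerHom2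
  Cfsg.Agent.Lib_helper3_RegSpan Cfsg.Agent.Lib_helper3_RegSpan2
  Cfsg.Agent.Lib_helper3_SecondMain Cfsg.Agent.Lib_helper3_SecondMain2
  Cfsg.Agent.Lib_helper3_SecondMain3 Cfsg.Agent.Lib_helper3_SecondMain4
  Cfsg.Agent.Lib_helper3_SecondMain5 Cfsg.Agent.Lib_helper3_FirstMain
  Cfsg.Agent.Lib_helper3_FirstMain2 Cfsg.Agent.Lib_helper3_ExtFirstMain
  Cfsg.Agent.Lib_helper3_CentralDefect Cfsg.Agent.Lib_helper3_DefectOne2
  Cfsg.Agent.Lib_helper3_IdemSupp Cfsg.Agent.Lib_helper3_BrauerCount
open scoped ComplexConjugate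

namespace Cfsg.Agent.Lib_helper3_SubsecRank

universe u

section General

variable {K : Type u} [Group K] [Fintype K]

/-- Expansion of a sum of products of twisted sums. -/
theorem sum_sq_eq {ι : Type*} [Fintype ι] (a : K → ℂ) (F : ι → K → ℂ) (s t : K) :
    ∑ i : ι, (∑ k : K, a k * F i (k * s)) * conj (∑ k : K, a k * F i (k * t)) =
      ∑ k : K, ∑ k' : K, a k * conj (a k') * ∑ i : ι, F i (k * s) * conj (F i (k' * t)) := by
  have h1 : ∀ i : ι, (∑ k : K, a k * F i (k * s)) * conj (∑ k : K, a k * F i (k * t)) =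
      ∑ k : K, ∑ k' : K, a k * conj (a k') * (F i (k * s) * conj (F i (k' * t))) := by
    intro i
    rw [map_sum, Finset.sum_mul_sum]
    apply Finset.sum_congr rfl
    intro k _
    apply Finset.sum_congr rfl
    intro k' _
    rw [map_mul]
    ring
  rw [Finset.sum_congr rfl (fun i _ => h1 i), Finset.sum_comm]
  apply Finset.sum_congr rfl
  intro k _
  rw [Finset.sum_comm]
  apply Finset.sum_congr rfl
  intro k' _
  rw [Finset.mul_sum]

open Classical in
/-- A central idempotent with local-integer coefficients only sees, at `p`-regular elements, the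
values of a class function on the `p`-regular elements. -/
theorem sum_idem_reg {p : ℕ} {M : Ideal AlgInt} (hM : IsPModular p M) {a : K → ℂ}
    (hacl : IsClassFunction K a) (haa : conv a a = a) (haR : ∀ k, MemLocalRing M (a k))
    {f : K → ℂ} (hf : IsClassFunction K f) (s : K) (hs : ¬ p ∣ orderOf s) :
    ∑ k : K, a k * f (k * s) =
      ∑ k : K, a k * (if p ∣ orderOf (k * s) then 0 else f (k * s)) := by
  obtain ⟨η, hη⟩ : ∃ η : K → ℂ, η = fun c => if p ∣ orderOf c then f c else 0 := ⟨_, rfl⟩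
  have hηapp : ∀ c : K, η c = if p ∣ orderOf c then f c else 0 := by
    intro c
    rw [hη]
  have hηcl : IsClassFunction K η := by
    intro c k
    rw [hηapp, hηapp, Cfsg.Agent.Lib_helper3_PReg.orderOf_conj_eq, hf c k]
  have hηreg : ∀ c : K, ¬ p ∣ orderOf c → η c = 0 := by
    intro c hc
    rw [hηapp, if_neg hc]
  have h := sum_idem_mul_eq_zero hM hacl haa haR hηcl hηreg s hs
  rw [← sub_eq_zero, ← Finset.sum_sub_distrib]
  refine Eq.trans ?_ h
  apply Finset.sum_congr rfl
  intro k _
  rw [hηapp]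
  split_ifs <;> ring

open Classical in
/-- The block part of a class function as a sum over all irreducible characters. -/
theorem blockPart_eq_sum [Fintype (IrrCharacter K)] (b : Set (IrrCharacter K)) (ϑ : K → ℂ)
    (hϑ : IsClassFunction K ϑ) (y : K) :
    blockPart b ϑ y = ∑ ψ : IrrCharacter K,
      (if ψ ∈ b then classInner ϑ (ψ : K → ℂ) * (ψ : K → ℂ) y else 0) := by
  rw [blockPart_eq b ϑ hϑ y, finsum_eq_sum_of_fintype, sum_blockCoeff_eq b ϑ hϑ y,
    finsum_mem_def, finsum_eq_sum_of_fintype]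
  apply Finset.sum_congr rfl
  intro ψ _
  by_cases hψ : ψ ∈ b
  · rw [Set.indicator_of_mem hψ, if_pos hψ]
  · rw [Set.indicator_of_notMem hψ, if_neg hψ]

/-- The block part of the conjugate-inverse of a class function. -/
theorem blockPart_star (b : Set (IrrCharacter K)) (f f' : K → ℂ) (hf : IsClassFunction K f)
    (hf' : ∀ c : K, f' c = conj (f c⁻¹)) (s : K) :
    blockPart b f' s⁻¹ = conj (blockPart b f s) := by
  classical
  have hfin := irr_finite (G := K)
  let inst2 : Fintype (IrrCharacter K) := Fintype.ofFinite (IrrCharacter K)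
  have hf'cl : IsClassFunction K f' := by
    intro c k
    rw [hf', hf']
    have h1 : (k * c * k⁻¹)⁻¹ = k * c⁻¹ * k⁻¹ := by group
    rw [h1, hf c⁻¹ k]
  rw [blockPart_eq_sum b f' hf'cl, blockPart_eq_sum b f hf, map_sum]
  apply Finset.sum_congr rfl
  intro ψ _
  by_cases hψ : ψ ∈ b
  · rw [if_pos hψ, if_pos hψ, map_mul, isCharacter_inv (isCharacter_of_irr ψ.2)]
    congr 1
    rw [classInner_def, classInner_def, map_mul, map_inv₀, map_natCast, map_sum]
    congr 1
    apply Fintype.sum_equiv (Equiv.inv K)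
    intro c
    rw [hf', map_mul, Equiv.inv_apply, isCharacter_inv (isCharacter_of_irr ψ.2),
      Complex.conj_conj]
  · rw [if_neg hψ, if_neg hψ, map_zero]

end General

section Main

variable {G : Type u} [Group G] [Fintype G] {p : ℕ} [Fact p.Prime] {M : Ideal AlgInt}

/-- Column orthogonality transported to the centralizer of a `p`-element, on the `p`-regular
elements. -/
theorem section_col_orth (u : G) (hu : ∃ k : ℕ, orderOf u = p ^ k) (H : Subgroup G) [Fintype H]
    (hH : ∀ g : G, g ∈ H ↔ g * u = u * g) [Fintype (IrrCharacter G)] [Fintype (IrrCharacter H)]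
    (c c' : H) (hc : ¬ p ∣ orderOf c) (hc' : ¬ p ∣ orderOf c') :
    ∑ χ : IrrCharacter G, (χ : G → ℂ) (u * (c : G)) * conj ((χ : G → ℂ) (u * (c' : G))) =
      ∑ ψ : IrrCharacter H, (ψ : H → ℂ) c * conj ((ψ : H → ℂ) c') := by
  classical
  have hp : p.Prime := Fact.out
  have hcomm : ∀ k : H, (k : G) * u = u * (k : G) := fun k => (hH k).mp k.2
  have hpartreg : ∀ d : H, ¬ p ∣ orderOf d → IsPPart p (u * (d : G)) u := by
    intro d hd
    exact ⟨(d : G), rfl, (hcomm d).symm, hu, by rw [Subgroup.orderOf_coe]; exact hd⟩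
  rw [second_orthogonality, second_orthogonality]
  have hiff : IsConj (u * (c' : G)) (u * (c : G)) ↔ IsConj c' c := by
    constructor
    · intro h
      obtain ⟨t, ht⟩ := isConj_iff.mp h
      have h1 := isPPart_conj t (hpartreg c' hc')
      rw [ht] at h1
      have h2 := isPPart_unique hp h1 (hpartreg c hc)
      have htH : t ∈ H := by
        rw [hH]
        have h3 : t * u = t * u * t⁻¹ * t := by group
        rw [h3, h2]
      refine isConj_iff.mpr ⟨⟨t, htH⟩, Subtype.ext ?_⟩
      have h4 : t * (u * (c' : G)) * t⁻¹ = (t * u * t⁻¹) * (t * (c' : G) * t⁻¹) := by group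
      rw [h4, h2] at ht
      exact mul_left_cancel ht
    · intro h
      obtain ⟨k, hk⟩ := isConj_iff.mp h
      refine isConj_iff.mpr ⟨(k : G), ?_⟩
      have h1 : (k : G) * (c' : G) * (k : G)⁻¹ = (c : G) := congrArg Subtype.val hk
      have h2 : (k : G) * (u * (c' : G)) * (k : G)⁻¹ =
          ((k : G) * u) * (c' : G) * (k : G)⁻¹ := by group
      rw [h2, hcomm k, ← h1]
      group
  have hcard : Nat.card (Subgroup.centralizer ({c'} : Set H)) =
      Nat.card (Subgroup.centralizer ({u * (c' : G)} : Set G)) := by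
    rw [card_centralizer_subtype]
    have heq : Subgroup.centralizer ({(c' : G)} : Set G) ⊓ H =
        Subgroup.centralizer ({u * (c' : G)} : Set G) := by
      ext t
      rw [Subgroup.mem_inf, Subgroup.mem_centralizer_singleton_iff,
        Subgroup.mem_centralizer_singleton_iff, hH]
      constructor
      · rintro ⟨h1, h2⟩
        calc t * (u * (c' : G)) = (t * u) * (c' : G) := by rw [mul_assoc]
          _ = (u * t) * (c' : G) := by rw [h2]
          _ = u * (t * (c' : G)) := by rw [mul_assoc]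
          _ = u * ((c' : G) * t) := by rw [h1]
          _ = u * (c' : G) * t := by rw [mul_assoc]
      · intro ht
        have h1 : Commute ((u * (c' : G)) ^ (1 : ℤ)) t := by
          rw [zpow_one]
          exact ht.symm
        have h2 := commute_ppart hp (hpartreg c' hc') h1 (by
          intro hdvd
          have h3 := Int.natCast_dvd_natCast.mp
            (by simpa using hdvd : ((p : ℕ) : ℤ) ∣ ((1 : ℕ) : ℤ))
          exact hp.one_lt.ne' (Nat.dvd_one.mp h3))
        have h3 : t * u = u * t := h2.eq.symm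
        refine ⟨?_, h3⟩
        calc t * (c' : G) = u⁻¹ * (u * t) * (c' : G) := by group
          _ = u⁻¹ * (t * u) * (c' : G) := by rw [h3]
          _ = u⁻¹ * (t * (u * (c' : G))) := by group
          _ = u⁻¹ * (u * (c' : G) * t) := by rw [ht]
          _ = (c' : G) * t := by group
    rw [heq]
  by_cases h : IsConj c' c
  · rw [if_pos h, if_pos (hiff.mpr h), hcard]
  · rw [if_neg h, if_neg (fun h' => h (hiff.mp h'))]

/-- The subsection norms of a block sum to the rank of a local block. -/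
theorem subsection_rank (hM : IsPModular p M) (u : G) (hu : ∃ k : ℕ, orderOf u = p ^ k)
    (H : Subgroup G) [Fintype H] (hH : ∀ g : G, g ∈ H ↔ g * u = u * g)
    (B : Set (IrrCharacter G)) (e : Set (IrrCharacter H)) (hind : IsInducedBlock M H e B) :
    ∑ᶠ χ ∈ B, ∑ᶠ s : H, pRegularPart p (blockPart e (fun c : H => (χ : G → ℂ) (u * c))) s *
        blockPart e (fun c : H => (χ : G → ℂ) (u⁻¹ * c)) s⁻¹ =
      (Nat.card H : ℂ) * (blockRank p e : ℂ) := by
  classical
  have hp : p.Prime := Fact.out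
  have hMp : M.IsPrime := isPrime_of_modular hM
  have hMtop : M ≠ ⊤ := hMp.ne_top
  have hfin := irr_finite (G := G)
  let inst2 : Fintype (IrrCharacter G) := Fintype.ofFinite (IrrCharacter G)
  have hfinH := irr_finite (G := H)
  let inst2H : Fintype (IrrCharacter H) := Fintype.ofFinite (IrrCharacter H)
  obtain ⟨he, hB, hcong⟩ := hind
  have huH : u ∈ H := (hH u).mpr rfl
  have hcomm : ∀ k : H, (k : G) * u = u * (k : G) := fun k => (hH k).mp k.2
  have hcomm' : ∀ k : H, (k : G) * u⁻¹ = u⁻¹ * (k : G) := by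
    intro k
    have h1 : (k : G) * u⁻¹ = u⁻¹ * (u * (k : G)) * u⁻¹ := by group
    rw [h1, ← hcomm k]
    group
  have hacl := isClassFunction_blockCoeff e
  have haa := conv_blockCoeff e
  have haR : ∀ k, MemLocalRing M (blockCoeff e k) := fun k => osima he k
  obtain ⟨R, hR⟩ : ∃ R : IrrCharacter G → H → ℂ,
      R = fun (χ : IrrCharacter G) (c : H) => (χ : G → ℂ) (u * (c : G)) := ⟨_, rfl⟩
  have hRapp : ∀ (χ : IrrCharacter G) (c : H), R χ c = (χ : G → ℂ) (u * (c : G)) := by
    intro χ c
    rw [hR]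
  have hRcl : ∀ χ : IrrCharacter G, IsClassFunction H (R χ) := by
    intro χ c k
    rw [hRapp, hRapp]
    have h1 : u * ((k * c * k⁻¹ : H) : G) = (k : G) * (u * (c : G)) * (k : G)⁻¹ := by
      push_cast
      rw [← mul_assoc, ← mul_assoc, ← hcomm k]
      group
    rw [h1, isClassFunction_of_irr χ.2 _ (k : G)]
  obtain ⟨A, hA⟩ : ∃ A : IrrCharacter G → H → ℂ,
      A = fun (χ : IrrCharacter G) (s : H) => ∑ k : H, blockCoeff e k * R χ (k * s) := ⟨_, rfl⟩
  have hAapp : ∀ (χ : IrrCharacter G) (s : H), A χ s = ∑ k : H, blockCoeff e k * R χ (k * s) := by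
    intro χ s
    rw [hA]
  have hRfun : ∀ χ : IrrCharacter G, (fun c : H => (χ : G → ℂ) (u * c)) = R χ := by
    intro χ
    rw [hR]
  have hA1 : ∀ (χ : IrrCharacter G) (s : H), blockPart e (fun c : H => (χ : G → ℂ) (u * c)) s = A χ s := by
    intro χ s
    rw [hRfun, blockPart_eq e (R χ) (hRcl χ) s, finsum_eq_sum_of_fintype, hAapp]
  have hA2 : ∀ (χ : IrrCharacter G) (s : H), blockPart e (fun c : H => (χ : G → ℂ) (u⁻¹ * c)) s⁻¹ = conj (A χ s) := by
    intro χ s
    rw [← hA1, hRfun]
    apply blockPart_star e (R χ) _ (hRcl χ)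
    intro c
    show (χ : G → ℂ) (u⁻¹ * (c : G)) = conj (R χ c⁻¹)
    rw [hRapp, ← isCharacter_inv (isCharacter_of_irr χ.2)]
    push_cast
    rw [mul_inv_rev, inv_inv, hcomm' c]
  have hA0 : ∀ χ : IrrCharacter G, χ ∉ B → ∀ s : H, ¬ p ∣ orderOf s → A χ s = 0 := by
    intro χ hχ s hs
    obtain ⟨χ₀, hχ₀⟩ := hB
    have hχ₀B : χ₀ ∈ B := by
      rw [hχ₀]
      exact mem_blockOf_self hMtop χ₀
    have hnot : χ₀ ∉ blockOf M (χ : G → ℂ) := by
      intro hmem
      apply hχ
      rw [hχ₀]
      exact sameBlock_symm hmem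
    have hpart : IsPPart p ((((⟨u, huH⟩ : H) * s : H)) : G) u :=
      ⟨(s : G), rfl, (hcomm s).symm, hu, by rw [Subgroup.orderOf_coe]; exact hs⟩
    have hC : Subgroup.centralizer ({u} : Set G) ≤ H :=
      fun t ht => (hH t).mpr (Subgroup.mem_centralizer_singleton_iff.mp ht)
    have h1 := second_main_idem_set hM H e haR χ
      (fun ξ hξ => ⟨χ₀, hnot, hcong ξ hξ χ₀ hχ₀B⟩) ((⟨u, huH⟩ : H) * s) u hpart hC
    rw [hAapp]
    refine Eq.trans ?_ h1
    apply Finset.sum_congr rfl
    intro k _
    rw [hRapp]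
    congr 2
    push_cast
    rw [← mul_assoc, ← mul_assoc, hcomm k]
  have hmain : ∀ s : H, ¬ p ∣ orderOf s → ∑ χ : IrrCharacter G, A χ s * conj (A χ s) =
      ∑ ψ : IrrCharacter H,
        (if ψ ∈ e then (ψ : H → ℂ) s * conj ((ψ : H → ℂ) s) else 0) := by
    intro s hs
    obtain ⟨F, hF⟩ : ∃ F : IrrCharacter G → H → ℂ,
        F = fun (χ : IrrCharacter G) (c : H) => if p ∣ orderOf c then 0 else R χ c := ⟨_, rfl⟩
    obtain ⟨F', hF'⟩ : ∃ F' : IrrCharacter H → H → ℂ,
        F' = fun (ψ : IrrCharacter H) (c : H) => if p ∣ orderOf c then 0 else (ψ : H → ℂ) c := ⟨_, rfl⟩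
    have hAF : ∀ χ : IrrCharacter G, A χ s = ∑ k : H, blockCoeff e k * F χ (k * s) := by
      intro χ
      rw [hAapp, sum_idem_reg hM hacl haa haR (hRcl χ) s hs, hF]
    have hPF : ∀ ψ : IrrCharacter H, ∑ k : H, blockCoeff e k * F' ψ (k * s) =
        if ψ ∈ e then (ψ : H → ℂ) s else 0 := by
      intro ψ
      rw [hF']
      show ∑ k : H, blockCoeff e k *
        (if p ∣ orderOf (k * s) then 0 else (ψ : H → ℂ) (k * s)) = _
      rw [← sum_idem_reg hM hacl haa haR (isClassFunction_of_irr ψ.2) s hs,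
        sum_blockCoeff_eq e _ (isClassFunction_of_irr ψ.2) s, finsum_mem_def,
        finsum_eq_sum_of_fintype, Finset.sum_eq_single ψ]
      · by_cases hψ : ψ ∈ e
        · rw [Set.indicator_of_mem hψ, if_pos hψ, irr_orthonormal ψ.2 ψ.2, if_pos rfl, one_mul]
        · rw [Set.indicator_of_notMem hψ, if_neg hψ]
      · intro ψ' _ hne
        by_cases hψ' : ψ' ∈ e
        · rw [Set.indicator_of_mem hψ', irr_orthonormal ψ.2 ψ'.2,
            if_neg (fun h => hne (Subtype.ext h).symm), zero_mul]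
        · rw [Set.indicator_of_notMem hψ']
      · intro h
        exact absurd (Finset.mem_univ ψ) h
    have hQ : ∀ c c' : H, ∑ χ : IrrCharacter G, F χ c * conj (F χ c') =
        ∑ ψ : IrrCharacter H, F' ψ c * conj (F' ψ c') := by
      intro c c'
      rw [hF, hF']
      by_cases hc : p ∣ orderOf c
      · simp only [if_pos hc, zero_mul, Finset.sum_const_zero]
      · by_cases hc' : p ∣ orderOf c'
        · simp only [if_pos hc', map_zero, mul_zero, Finset.sum_const_zero]
        · simp only [if_neg hc, if_neg hc']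
          rw [hR]
          exact section_col_orth u hu H hH c c' hc hc'
    rw [Finset.sum_congr rfl (fun χ _ => by rw [hAF χ]), sum_sq_eq (blockCoeff e) F s s,
      Finset.sum_congr rfl (fun k _ => Finset.sum_congr rfl (fun k' _ => by rw [hQ])),
      ← sum_sq_eq (blockCoeff e) F' s s]
    apply Finset.sum_congr rfl
    intro ψ _
    rw [hPF ψ]
    by_cases hψ : ψ ∈ e
    · rw [if_pos hψ, if_pos hψ]
    · rw [if_neg hψ, if_neg hψ, zero_mul]
  have hL : ∀ χ : IrrCharacter G, ∑ᶠ s : H,
      pRegularPart p (blockPart e (fun c : H => (χ : G → ℂ) (u * c))) s *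
        blockPart e (fun c : H => (χ : G → ℂ) (u⁻¹ * c)) s⁻¹ =
      ∑ s : H, (if p ∣ orderOf s then 0 else A χ s * conj (A χ s)) := by
    intro χ
    rw [finsum_eq_sum_of_fintype]
    apply Finset.sum_congr rfl
    intro s _
    rw [pRegularPart_apply, hA1, hA2]
    split_ifs
    · rw [zero_mul]
    · rfl
  rw [finsum_mem_congr rfl (fun χ _ => hL χ), finsum_mem_def, finsum_eq_sum_of_fintype]
  have h2 : ∀ χ : IrrCharacter G, Set.indicator B (fun χ : IrrCharacter G => ∑ s : H,
      (if p ∣ orderOf s then 0 else A χ s * conj (A χ s))) χ =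
      ∑ s : H, (if p ∣ orderOf s then 0 else
        (if χ ∈ B then A χ s * conj (A χ s) else 0)) := by
    intro χ
    by_cases hχ : χ ∈ B
    · rw [Set.indicator_of_mem hχ]
      simp only [if_pos hχ]
    · rw [Set.indicator_of_notMem hχ]
      simp only [if_neg hχ, ite_self, Finset.sum_const_zero]
  rw [Finset.sum_congr rfl (fun χ _ => h2 χ), Finset.sum_comm]
  have h3 : ∀ s : H, ∑ χ : IrrCharacter G, (if p ∣ orderOf s then 0 else
      (if χ ∈ B then A χ s * conj (A χ s) else 0)) =
      ∑ᶠ ψ ∈ e, pRegularPart p (ψ : H → ℂ) s * (ψ : H → ℂ) s⁻¹ := by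
    intro s
    by_cases hs : p ∣ orderOf s
    · simp only [if_pos hs, Finset.sum_const_zero]
      symm
      apply finsum_mem_eq_zero_of_forall_eq_zero
      intro ψ _
      rw [pRegularPart_apply, if_pos hs, zero_mul]
    · simp only [if_neg hs]
      have h4 : ∑ χ : IrrCharacter G, (if χ ∈ B then A χ s * conj (A χ s) else 0) =
          ∑ χ : IrrCharacter G, A χ s * conj (A χ s) := by
        apply Finset.sum_congr rfl
        intro χ _
        by_cases hχ : χ ∈ B
        · rw [if_pos hχ]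
        · rw [if_neg hχ, hA0 χ hχ s hs, zero_mul]
      rw [h4, hmain s hs, finsum_mem_def, finsum_eq_sum_of_fintype]
      apply Finset.sum_congr rfl
      intro ψ _
      by_cases hψ : ψ ∈ e
      · rw [if_pos hψ, Set.indicator_of_mem hψ, pRegularPart_apply, if_neg hs,
          isCharacter_inv (isCharacter_of_irr ψ.2)]
      · rw [if_neg hψ, Set.indicator_of_notMem hψ]
  rw [Finset.sum_congr rfl (fun s _ => h3 s)]
  exact (Cfsg.Agent.S4667.result p M hM e he).symm

end Main

end Cfsg.Agent.Lib_helper3_SubsecRank
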