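import Mathlib
import Cfsg.Prelude.Def_Characters
import Cfsg.Prelude.Def_Blocks
import Cfsg.Agent.Lib_helper3_IndDegree
import Cfsg.Agent.Lib_helper3_SubsecRank
import Cfsg.Agent.Lib_helper3_CharOdd

set_option autoImplicit false
open Cfsg
open Cfsg.Agent.Lib_helper3_CharBasic Cfsg.Agent.Lib_helper3_CharMore
  Cfsg.Agent.Lib_helper3_Local Cfsg.Agent.Lib_helper3_Local2 Cfsg.Agent.Lib_helper3_BlockAlg
  Cfsg.Agent.Lib_helper3_CharInd Cfsg.Agent.Lib_helper3_DefectZero
  Cfsg.Agent.Lib_helper3_IndDegree Cfsg.Agent.Lib_helper3_SubsecRank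
  Cfsg.Agent.Lib_helper3_CharOdd
open scoped ComplexConjugate

namespace Cfsg.Agent.Lib_helper3_IndHeight

universe u

variable {G : Type u} [Group G] [Fintype G] {M : Ideal AlgInt} {p : ℕ} [Fact p.Prime]

/-- If a block of a subgroup induces a block of the same defect, every height-zero character
of the subgroup block induces a character containing some height-zero character of the
induced block with multiplicity prime to `p`. -/
theorem induced_height_zero (hM : IsPModular p M) (H : Subgroup G) (b : Set (IrrCharacter H))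
    (B : Set (IrrCharacter G)) (hind : IsInducedBlock M H b B)
    (hdef : blockDefect p b = blockDefect p B) (ζ : IrrCharacter H) (hζ : ζ ∈ b)
    (hζ0 : blockHeight p b (ζ : H → ℂ) = 0) :
    ∃ χ ∈ B, blockHeight p B (χ : G → ℂ) = 0 ∧ ∃ a : ℕ,
      classInner (indFun H (ζ : H → ℂ)) (χ : G → ℂ) = (a : ℂ) ∧ ¬ p ∣ a := by
  classical
  have hp : p.Prime := Fact.out
  let instH : Fintype H := Fintype.ofFinite H
  have hfin := irr_finite (G := G)
  let inst2 : Fintype (IrrCharacter G) := Fintype.ofFinite (IrrCharacter G)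
  have hMp : M.IsPrime := isPrime_of_modular hM
  obtain ⟨⟨n, hn, hn0, hnfac⟩, -⟩ := induced_degree_valuation hM H b B hind ζ hζ
  obtain ⟨mB, hmB⟩ : ∃ mB : ℕ, mB = sInf ((fun ψ : IrrCharacter G =>
      (charDegree (ψ : G → ℂ)).factorization p) '' B) := ⟨_, rfl⟩
  obtain ⟨mb, hmb⟩ : ∃ mb : ℕ, mb = sInf ((fun ψ : IrrCharacter H =>
      (charDegree (ψ : H → ℂ)).factorization p) '' b) := ⟨_, rfl⟩
  choose d hdpos hd using fun χ : IrrCharacter G => irr_apply_one_pos χ.2
  have hcd : ∀ χ : IrrCharacter G, charDegree (χ : G → ℂ) = d χ := fun χ => charDegree_eq (hd χ)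
  obtain ⟨dζ, hdζpos, hdζ⟩ := irr_apply_one_pos ζ.2
  have hcdζ : charDegree (ζ : H → ℂ) = dζ := charDegree_eq hdζ
  have hmB_le : ∀ χ ∈ B, mB ≤ (d χ).factorization p := by
    intro χ hχ
    have h1 : (charDegree (χ : G → ℂ)).factorization p ∈ (fun ψ : IrrCharacter G =>
        (charDegree (ψ : G → ℂ)).factorization p) '' B := ⟨χ, hχ, rfl⟩
    rw [hcd] at h1
    rw [hmB]
    exact Nat.sInf_le h1
  have hζmb : dζ.factorization p = mb := by
    unfold blockHeight at hζ0
    rw [hcdζ, ← hmb] at hζ0
    have h1 : (charDegree (ζ : H → ℂ)).factorization p ∈ (fun ψ : IrrCharacter H =>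
        (charDegree (ψ : H → ℂ)).factorization p) '' b := ⟨ζ, hζ, rfl⟩
    rw [hcdζ] at h1
    have h2 : mb ≤ dζ.factorization p := by
      rw [hmb]
      exact Nat.sInf_le h1
    omega
  have haH : dζ.factorization p ≤ (Nat.card H).factorization p :=
    (Nat.factorization_le_iff_dvd hdζpos.ne' Nat.card_pos.ne').mpr
      (irr_degree_dvd_card ζ.2 hdζ) p
  obtain ⟨χ₀, hχ₀⟩ := hind.2.1
  have hχ₀B : χ₀ ∈ B := by
    rw [hχ₀]
    exact mem_blockOf_self hMp.ne_top χ₀
  have haG : mB ≤ (Nat.card G).factorization p :=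
    (hmB_le χ₀ hχ₀B).trans ((Nat.factorization_le_iff_dvd (hdpos χ₀).ne' Nat.card_pos.ne').mpr
      (irr_degree_dvd_card χ₀.2 (hd χ₀)) p)
  have hdef' : (Nat.card H).factorization p - mb = (Nat.card G).factorization p - mB := by
    have h1 := hdef
    unfold blockDefect at h1
    rw [← hmb, ← hmB] at h1
    exact h1
  have hidx : H.index ≠ 0 := Subgroup.index_ne_zero_of_finite
  have hdeg1 : indFun H (ζ : H → ℂ) 1 = ((H.index * dζ : ℕ) : ℂ) := by
    rw [indFun_apply_one, hdζ]
    push_cast
    rfl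
  have hdeg : charDegree (indFun H (ζ : H → ℂ)) = H.index * dζ := charDegree_eq hdeg1
  have hcard : Nat.card G = Nat.card H * H.index := (Subgroup.card_mul_index H).symm
  have hfacG : (Nat.card G).factorization p =
      (Nat.card H).factorization p + H.index.factorization p := by
    rw [hcard, Nat.factorization_mul Nat.card_pos.ne' hidx]
    rfl
  have hnfac' : n.factorization p = mB := by
    rw [hnfac, hdeg, Nat.factorization_mul hidx hdζpos.ne']
    show H.index.factorization p + dζ.factorization p = mB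
    omega
  choose a ha using fun χ : IrrCharacter G =>
    classInner_nat (isCharacter_indFun H (isCharacter_of_irr ζ.2)) (isCharacter_of_irr χ.2)
  have hnsum : n = ∑ χ : IrrCharacter G, (if χ ∈ B then a χ * d χ else 0) := by
    have h1 := blockPart_eq_sum B (indFun H (ζ : H → ℂ)) (isClassFunction_indFun H _) 1
    rw [hn] at h1
    have h2 : ((n : ℕ) : ℂ) =
        ((∑ χ : IrrCharacter G, (if χ ∈ B then a χ * d χ else 0) : ℕ) : ℂ) := by
      rw [h1]
      push_cast
      apply Finset.sum_congr rfl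
      intro χ _
      by_cases hχ : χ ∈ B
      · rw [if_pos hχ, if_pos hχ, ha χ, hd χ]
      · rw [if_neg hχ, if_neg hχ]
    exact_mod_cast h2
  by_contra hcon
  push Not at hcon
  have hdvd : p ^ (mB + 1) ∣ n := by
    rw [hnsum]
    apply Finset.dvd_sum
    intro χ _
    by_cases hχ : χ ∈ B
    · rw [if_pos hχ]
      by_cases hh : (d χ).factorization p = mB
      · have h0 : blockHeight p B (χ : G → ℂ) = 0 := by
          unfold blockHeight
          rw [hcd, ← hmB, hh]
          exact Nat.sub_self _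
        have h1 := hcon χ hχ h0 (a χ) (ha χ)
        have h2 : p ^ mB ∣ d χ := by
          rw [← hh]
          exact Nat.ordProj_dvd (d χ) p
        rw [pow_succ, mul_comm]
        exact Nat.mul_dvd_mul h1 h2
      · have h1 : mB + 1 ≤ (d χ).factorization p := by
          have := hmB_le χ hχ
          omega
        have h2 : p ^ (mB + 1) ∣ d χ := (pow_dvd_pow p h1).trans (Nat.ordProj_dvd (d χ) p)
        exact Dvd.dvd.mul_left h2 _
    · rw [if_neg hχ]
      exact dvd_zero _
  have h3 := (hp.pow_dvd_iff_le_factorization hn0).mp hdvd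
  omega

end Cfsg.Agent.Lib_helper3_IndHeight
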