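import Mathlib
import Cfsg.Prelude.Def_Solvable

set_option autoImplicit false
open Cfsg

namespace Cfsg.Agent.Lib_helper3_Klein1

universe u

section Ambient

variable {K : Type u} [Group K] [Finite K]

/-- A Sylow 2-subgroup of order four and exponent two containing a central involution is
centralized by its normalizer. -/
theorem normalizer_le_centralizer_of_klein (Q : Sylow 2 K) (hcard : Nat.card Q = 4)
    (hexp : ∀ x ∈ (Q : Subgroup K), x * x = 1) (z : K) (hzQ : z ∈ (Q : Subgroup K)) (hz1 : z ≠ 1)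
    (hzc : ∀ k : K, k * z = z * k) :
    Subgroup.normalizer (Q : Set K) ≤ Subgroup.centralizer (Q : Set K) := by
  have hinv : ∀ x ∈ (Q : Subgroup K), x⁻¹ = x :=
    fun x hx => inv_eq_of_mul_eq_one_left (hexp x hx)
  have hab : ∀ x ∈ (Q : Subgroup K), ∀ y ∈ (Q : Subgroup K), x * y = y * x := by
    intro x hx y hy
    have h1 := hinv (x * y) (mul_mem hx hy)
    rw [mul_inv_rev, hinv x hx, hinv y hy] at h1
    exact h1.symm
  have hoz : orderOf z = 2 := orderOf_eq_prime (by rw [pow_two]; exact hexp z hzQ) hz1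
  have hZle : Subgroup.zpowers z ≤ (Q : Subgroup K) := (Subgroup.zpowers_le).mpr hzQ
  have hidx : (Subgroup.zpowers z).relIndex (Q : Subgroup K) = 2 := by
    have h1 := Subgroup.relIndex_mul_relIndex ⊥ (Subgroup.zpowers z) (Q : Subgroup K)
      bot_le hZle
    rw [Subgroup.relIndex_bot_left, Subgroup.relIndex_bot_left, Nat.card_zpowers, hoz] at h1
    have h2 : Nat.card (Q : Subgroup K) = 4 := hcard
    rw [h2] at h1
    omega
  have hZmem : ∀ x ∈ Subgroup.zpowers z, x = 1 ∨ x = z := by
    intro x hx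
    obtain ⟨k, rfl⟩ := Subgroup.mem_zpowers_iff.mp hx
    have hz2 : z ^ (2 : ℤ) = 1 := by
      rw [zpow_ofNat, pow_two]
      exact hexp z hzQ
    rcases Int.even_or_odd' k with ⟨j, rfl | rfl⟩
    · left
      rw [zpow_mul, hz2, one_zpow]
    · right
      rw [zpow_add, zpow_mul, hz2, one_zpow, one_mul, zpow_one]
  intro n hn
  have hn' := Subgroup.mem_normalizer_iff.mp hn
  have hconjz : n * z * n⁻¹ = z := by
    rw [hzc n]
    group
  have hcl1 : ∀ b ∈ (Q : Subgroup K), n * b * n⁻¹ = b ∨ n * b * n⁻¹ = b * z := by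
    intro b hb
    have hc : n * b * n⁻¹ ∈ (Q : Subgroup K) := (hn' b).mp hb
    have hback : b = n⁻¹ * (n * b * n⁻¹) * n := by group
    by_cases hbZ : b ∈ Subgroup.zpowers z
    · left
      rcases hZmem b hbZ with h | h
      · rw [h]
        group
      · rw [h]
        exact hconjz
    · have hcZ : n * b * n⁻¹ ∉ Subgroup.zpowers z := by
        intro h
        apply hbZ
        rcases hZmem _ h with h1 | h1
        · have h2 : b = 1 := by
            rw [hback, h1]
            group
          rw [h2]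
          exact one_mem _
        · have h2 : b = z := by
            rw [hback, h1, mul_assoc, ← hzc n]
            group
          rw [h2]
          exact Subgroup.mem_zpowers z
      have h2 := Subgroup.mul_mem_iff_of_index_two
        (H := (Subgroup.zpowers z).subgroupOf (Q : Subgroup K)) hidx
        (a := ⟨b, hb⟩) (b := ⟨n * b * n⁻¹, hc⟩)
      rw [Subgroup.mem_subgroupOf, Subgroup.mem_subgroupOf, Subgroup.mem_subgroupOf] at h2
      have h3 : b * (n * b * n⁻¹) ∈ Subgroup.zpowers z :=
        h2.mpr ⟨fun h => absurd h hbZ, fun h => absurd h hcZ⟩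
      rcases hZmem _ h3 with h4 | h4
      · left
        have h5 := eq_inv_of_mul_eq_one_right h4
        rw [h5, hinv b hb]
      · right
        have h5 : n * b * n⁻¹ = b⁻¹ * z := by
          rw [← h4]
          group
        rw [h5, hinv b hb]
  have hpow : ∀ b ∈ (Q : Subgroup K), n * b * n⁻¹ = b * z →
      ∀ j : ℕ, n ^ j * b * (n ^ j)⁻¹ = b * z ^ j := by
    intro b hb hbz j
    induction j with
    | zero => simp
    | succ j ih =>
      have h1 : n ^ (j + 1) * b * (n ^ (j + 1))⁻¹ = n * (n ^ j * b * (n ^ j)⁻¹) * n⁻¹ := by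
        rw [pow_succ']
        group
      have h5 : n * (b * z ^ j) * n⁻¹ = (n * b * n⁻¹) * (n * z ^ j * n⁻¹) := by group
      have h6 : n * z ^ j * n⁻¹ = z ^ j := by
        have h7 : Commute n (z ^ j) := Commute.pow_right (hzc n) j
        rw [h7.eq]
        group
      rw [h1, ih, h5, h6, hbz, mul_assoc, ← pow_succ']
  rw [Subgroup.mem_centralizer_iff]
  intro b hb
  rcases hcl1 b hb with h | h
  · have h1 : n * b = b * n := by
      have h2 : n * b = (n * b * n⁻¹) * n := by group
      rw [h2, h]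
    exact h1.symm
  · exfalso
    obtain ⟨k, m, hm, ho⟩ := Nat.exists_eq_two_pow_mul_odd (orderOf_pos n).ne'
    have hord : orderOf (n ^ m) = 2 ^ k := by
      rw [orderOf_pow' n hm.pos.ne', ho, Nat.gcd_eq_right (Dvd.intro_left _ rfl),
        Nat.mul_div_cancel _ hm.pos]
    have hmem : n ^ m ∈ (Q : Subgroup K) := by
      have hPg : IsPGroup 2 (Subgroup.zpowers (n ^ m)) := by
        apply IsPGroup.of_card (n := k)
        rw [Nat.card_zpowers, hord]
      have h1 := hPg.inf_normalizer_sylow Q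
      have h2 : n ^ m ∈ Subgroup.zpowers (n ^ m) ⊓ Subgroup.normalizer (Q : Set K) :=
        ⟨Subgroup.mem_zpowers _, pow_mem hn m⟩
      rw [h1] at h2
      exact h2.2
    have h3 := hpow b hb h m
    have h4 : n ^ m * b * (n ^ m)⁻¹ = b := by
      rw [hab _ hmem b hb]
      group
    rw [h4] at h3
    have h5 : z ^ m = z := by
      obtain ⟨t, rfl⟩ := hm
      rw [pow_succ, pow_mul, pow_two, hexp z hzQ, one_pow, one_mul]
    rw [h5] at h3
    exact hz1 (by simpa using h3.symm)

/-- Such a group has a normal 2-complement. -/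
theorem pPrimeCore_index_of_klein (Q : Sylow 2 K) (hcard : Nat.card Q = 4)
    (hexp : ∀ x ∈ (Q : Subgroup K), x * x = 1) (z : K) (hzQ : z ∈ (Q : Subgroup K)) (hz1 : z ≠ 1)
    (hzc : ∀ k : K, k * z = z * k) :
    ∃ k : ℕ, (pPrimeCore 2 K).index = 2 ^ k := by
  have hNC := normalizer_le_centralizer_of_klein Q hcard hexp z hzQ hz1 hzc
  have hcompl := MonoidHom.ker_transferSylow_isComplement' Q hNC
  have hodd := MonoidHom.not_dvd_card_ker_transferSylow Q hNC
  have hle : (MonoidHom.transferSylow Q hNC).ker ≤ pPrimeCore 2 K := by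
    apply le_sSup
    exact ⟨inferInstance, ((Nat.Prime.coprime_iff_not_dvd Nat.prime_two).mpr hodd).symm⟩
  have h1 := Subgroup.index_dvd_of_le hle
  have h2 : (MonoidHom.transferSylow Q hNC).ker.index = 4 := by
    rw [← hcard]
    exact hcompl.symm.index_eq_card
  rw [h2] at h1
  have h3 : (4 : ℕ) = 2 ^ 2 := by norm_num
  rw [h3] at h1
  obtain ⟨j, -, hj⟩ := (Nat.dvd_prime_pow Nat.prime_two).mp h1
  exact ⟨j, hj⟩

end Ambient

section Cent

variable {G : Type u} [Group G] [Finite G]

/-- Elements of a Klein four Sylow 2-subgroup and its conjugates square to one; any involution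
lies in such a conjugate. -/
theorem exists_klein_sylow_mem (P : Sylow 2 G) (hP : IsKleinFour (P : Subgroup G)) (z : G)
    (hz : orderOf z = 2) :
    ∃ P₁ : Sylow 2 G, z ∈ (P₁ : Subgroup G) ∧ Nat.card P₁ = 4 ∧
      ∀ x ∈ (P₁ : Subgroup G), x * x = 1 := by
  have hZ : IsPGroup 2 (Subgroup.zpowers z) := by
    apply IsPGroup.of_card (n := 1)
    rw [Nat.card_zpowers, hz, pow_one]
  obtain ⟨P₁, hP₁⟩ := hZ.exists_le_sylow
  obtain ⟨g, hg⟩ := MulAction.exists_smul_eq G P P₁
  refine ⟨P₁, hP₁ (Subgroup.mem_zpowers z), ?_, ?_⟩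
  · have h1 := P₁.card_eq_multiplicity
    have h2 := P.card_eq_multiplicity
    have h3 : Nat.card (P : Subgroup G) = 4 := hP.card_four
    have h4 : Nat.card (P₁ : Subgroup G) = Nat.card (P : Subgroup G) := by
      rw [h1, h2]
    rw [h4, h3]
  · intro x hx
    rw [← hg, Sylow.coe_subgroup_smul, Subgroup.mem_pointwise_smul_iff_inv_smul_mem] at hx
    have hx' : g⁻¹ * x * g ∈ (P : Subgroup G) := by
      have h1 : (MulAut.conj g)⁻¹ • x = g⁻¹ * x * g := by
        rw [MulAut.smul_def, MulAut.conj_inv_apply]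
      rw [← h1]
      exact hx
    have h2 : (⟨g⁻¹ * x * g, hx'⟩ : (P : Subgroup G)) ^ Monoid.exponent (P : Subgroup G) = 1 :=
      Monoid.pow_exponent_eq_one _
    rw [hP.exponent_two] at h2
    have h3 : (g⁻¹ * x * g) ^ 2 = 1 := congrArg Subtype.val h2
    have h4 : x * x = g * (g⁻¹ * x * g) ^ 2 * g⁻¹ := by
      rw [pow_two]
      group
    rw [h4, h3]
    group

/-- The centralizer of an involution in a group with Klein four Sylow 2-subgroups has a normal
2-complement and 2-part of order four. -/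
theorem klein_centralizer (P : Sylow 2 G) (hP : IsKleinFour (P : Subgroup G)) (z : G)
    (hz : orderOf z = 2) :
    (Nat.card (Subgroup.centralizer ({z} : Set G))).factorization 2 = 2 ∧
      ∃ k : ℕ, (pPrimeCore 2 (Subgroup.centralizer ({z} : Set G))).index = 2 ^ k := by
  obtain ⟨P₁, hzP, hcard, hexp⟩ := exists_klein_sylow_mem P hP z hz
  have hz1 : z ≠ 1 := by
    intro h
    rw [h, orderOf_one] at hz
    omega
  have hinv : ∀ x ∈ (P₁ : Subgroup G), x⁻¹ = x :=
    fun x hx => inv_eq_of_mul_eq_one_left (hexp x hx)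
  have hab : ∀ x ∈ (P₁ : Subgroup G), ∀ y ∈ (P₁ : Subgroup G), x * y = y * x := by
    intro x hx y hy
    have h1 := hinv (x * y) (mul_mem hx hy)
    rw [mul_inv_rev, hinv x hx, hinv y hy] at h1
    exact h1.symm
  have hle : (P₁ : Subgroup G) ≤ Subgroup.centralizer ({z} : Set G) := by
    intro x hx
    rw [Subgroup.mem_centralizer_singleton_iff]
    exact hab x hx z hzP
  obtain ⟨Q, hQ⟩ : ∃ Q : Sylow 2 (Subgroup.centralizer ({z} : Set G)), Q = P₁.subtype hle :=
    ⟨_, rfl⟩
  have hQcoe : (Q : Subgroup (Subgroup.centralizer ({z} : Set G))) =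
      (P₁ : Subgroup G).subgroupOf (Subgroup.centralizer ({z} : Set G)) := by
    rw [hQ]
    exact Sylow.coe_subtype P₁ hle
  have hQcard : Nat.card Q = 4 := by
    have h1 : Nat.card (Q : Subgroup (Subgroup.centralizer ({z} : Set G))) =
        Nat.card (P₁ : Subgroup G) := by
      rw [hQcoe]
      exact Nat.card_congr (Subgroup.subgroupOfEquivOfLe hle).toEquiv
    rw [← hcard]
    exact h1
  have hQexp : ∀ x ∈ (Q : Subgroup (Subgroup.centralizer ({z} : Set G))), x * x = 1 := by
    intro x hx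
    rw [hQcoe, Subgroup.mem_subgroupOf] at hx
    apply Subtype.ext
    exact hexp _ hx
  have hzC : z ∈ Subgroup.centralizer ({z} : Set G) :=
    Subgroup.mem_centralizer_singleton_iff.mpr rfl
  have hzQ : (⟨z, hzC⟩ : Subgroup.centralizer ({z} : Set G)) ∈
      (Q : Subgroup (Subgroup.centralizer ({z} : Set G))) := by
    rw [hQcoe, Subgroup.mem_subgroupOf]
    exact hzP
  have hz1' : (⟨z, hzC⟩ : Subgroup.centralizer ({z} : Set G)) ≠ 1 := by
    intro h
    exact hz1 (congrArg Subtype.val h)
  have hzc : ∀ k : Subgroup.centralizer ({z} : Set G), k * ⟨z, hzC⟩ = ⟨z, hzC⟩ * k := by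
    intro k
    apply Subtype.ext
    exact Subgroup.mem_centralizer_singleton_iff.mp k.2
  refine ⟨?_, pPrimeCore_index_of_klein Q hQcard hQexp _ hzQ hz1' hzc⟩
  have h1 := Q.card_eq_multiplicity
  have h2 : Nat.card (Q : Subgroup (Subgroup.centralizer ({z} : Set G))) = 4 := hQcard
  rw [h2] at h1
  have h3 : (2 : ℕ) ^ 2 = 2 ^ (Nat.card (Subgroup.centralizer ({z} : Set G))).factorization 2 := by
    rw [← h1]
    norm_num
  exact (Nat.pow_right_injective (le_refl 2) h3).symm

end Cent

end Cfsg.Agent.Lib_helper3_Klein1
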