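import Cfsg.Statements.S0939
import Cfsg.Agent.Lib_helper3_BlockPQuot

set_option autoImplicit false
open Cfsg

namespace Cfsg.Agent.S0939

/-- Let G be a finite group with a normal p-complement (the largest normal subgroup O_p'(G) of order prime to p has p-power index). Then, relative to any maximal ideal M of the algebraic integers containing p, the principal block of G is the set of irreducible characters χ with χ n = χ 1 for every n ∈ O_p'(G). -/
theorem result {G : Type*} [Group G] [Finite G] (p : ℕ) [Fact p.Prime] (M : Ideal Cfsg.AlgInt) (hM : Cfsg.IsPModular p M) (hnc : ∃ k : ℕ, (Cfsg.pPrimeCore p G).index = p ^ k) : Cfsg.principalBlock M G = {χ : Cfsg.IrrCharacter G | ∀ n ∈ Cfsg.pPrimeCore p G, (χ : G → ℂ) n = (χ : G → ℂ) 1} := by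
  classical
  have := Fintype.ofFinite G
  have hMp : M.IsPrime := Cfsg.Agent.Lib_helper3_Local2.isPrime_of_modular hM
  haveI := Cfsg.Agent.Lib_helper3_BlockCover.pPrimeCore_normal' p G
  have := Fintype.ofFinite (Cfsg.pPrimeCore p G)
  have hp : p.Prime := Fact.out
  have hN : ¬ p ∣ Nat.card (Cfsg.pPrimeCore p G) := by
    intro hdvd
    have hc := Cfsg.Agent.Lib_helper3_BlockCover.card_pPrimeCore_coprime p G
    exact hp.one_lt.ne' (Nat.Coprime.eq_one_of_dvd hc.symm hdvd)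
  obtain ⟨e, he⟩ : ∃ e : Cfsg.IrrCharacter G, (e : G → ℂ) = fun _ => (1 : ℂ) :=
    ⟨⟨fun _ => 1, Cfsg.Agent.Lib_helper3_CharMore.isIrrCharacter_one⟩, rfl⟩
  have he1 : ∀ n ∈ Cfsg.pPrimeCore p G, (e : G → ℂ) n = (e : G → ℂ) 1 := by
    intro n _
    rw [he]
  ext χ
  show Cfsg.SameBlock M (fun _ : G => (1 : ℂ)) (χ : G → ℂ) ↔
    ∀ n ∈ Cfsg.pPrimeCore p G, (χ : G → ℂ) n = (χ : G → ℂ) 1
  rw [← he]
  constructor
  · intro h
    exact Cfsg.Agent.Lib_helper3_BlockPQuot.trivial_on_of_sameBlock hM (Cfsg.pPrimeCore p G) hN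
      h he1
  · intro h
    obtain ⟨t, ht⟩ : ∃ t : Cfsg.IrrCharacter (Cfsg.pPrimeCore p G),
        (t : Cfsg.pPrimeCore p G → ℂ) = fun _ => (1 : ℂ) :=
      ⟨⟨fun _ => 1, Cfsg.Agent.Lib_helper3_CharMore.isIrrCharacter_one⟩, rfl⟩
    have h1 : Cfsg.classInner (fun n : Cfsg.pPrimeCore p G => (χ : G → ℂ) n)
        (t : Cfsg.pPrimeCore p G → ℂ) ≠ 0 := by
      rw [ht]
      exact (Cfsg.Agent.Lib_helper3_BlockPQuot.over_trivial_iff (Cfsg.pPrimeCore p G) χ).mpr h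
    have h2 : Cfsg.classInner (fun n : Cfsg.pPrimeCore p G => (e : G → ℂ) n)
        (t : Cfsg.pPrimeCore p G → ℂ) ≠ 0 := by
      rw [ht]
      exact (Cfsg.Agent.Lib_helper3_BlockPQuot.over_trivial_iff (Cfsg.pPrimeCore p G) e).mpr he1
    have h3 := Cfsg.Agent.Lib_helper3_BlockPQuot.cover_unique hM (Cfsg.pPrimeCore p G) hnc
      (⟨e, rfl⟩ : Cfsg.IsPBlock M (Cfsg.blockOf M (e : G → ℂ)))
      (⟨χ, rfl⟩ : Cfsg.IsPBlock M (Cfsg.blockOf M (χ : G → ℂ)))
      (⟨t, rfl⟩ : Cfsg.IsPBlock M (Cfsg.blockOf M (t : Cfsg.pPrimeCore p G → ℂ)))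
      ⟨e, Cfsg.Agent.Lib_helper3_BlockAlg.mem_blockOf_self hMp.ne_top e, t,
        Cfsg.Agent.Lib_helper3_BlockAlg.mem_blockOf_self hMp.ne_top t, h2⟩
      ⟨χ, Cfsg.Agent.Lib_helper3_BlockAlg.mem_blockOf_self hMp.ne_top χ, t,
        Cfsg.Agent.Lib_helper3_BlockAlg.mem_blockOf_self hMp.ne_top t, h1⟩
    have h4 : χ ∈ Cfsg.blockOf M (e : G → ℂ) := by
      rw [h3]
      exact Cfsg.Agent.Lib_helper3_BlockAlg.mem_blockOf_self hMp.ne_top χ
    exact h4
end Cfsg.Agent.S0939
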