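import Mathlib
import Cfsg.Prelude.Def_Characters
import Cfsg.Prelude.Def_Blocks
import Cfsg.Agent.Lib_helper3_ThirdMain2
import Cfsg.Agent.Lib_helper3_SecondMain3
import Cfsg.Agent.Lib_helper3_CharAvg
import Cfsg.Agent.Lib_helper3_BlockCover
import Cfsg.Agent.S0939

set_option autoImplicit false
open Cfsg
open Cfsg.Agent.Lib_helper3_CharBasic Cfsg.Agent.Lib_helper3_CharMore
  Cfsg.Agent.Lib_helper3_Local Cfsg.Agent.Lib_helper3_Local2 Cfsg.Agent.Lib_helper3_BlockAlg
  Cfsg.Agent.Lib_helper3_IdemSupp Cfsg.Agent.Lib_helper3_DefectCard2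
  Cfsg.Agent.Lib_helper3_ThirdMain Cfsg.Agent.Lib_helper3_ThirdMain2
  Cfsg.Agent.Lib_helper3_SecondMain2 Cfsg.Agent.Lib_helper3_SecondMain3
  Cfsg.Agent.Lib_helper3_ExtFirstMain Cfsg.Agent.Lib_helper3_CharAvg
  Cfsg.Agent.Lib_helper3_BlockCover
open scoped ComplexConjugate

namespace Cfsg.Agent.Lib_helper3_ThirdMain3

universe u

section Basic

variable {G : Type u} [Group G]

/-- The centralizer of `z y` in `G` has the order of the centralizer of `y` in `C_G(z)`, for a
`p`-element `z` and a `p`-regular element `y` commuting with it. -/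
theorem card_centralizer_mul [Finite G] {p : ℕ} (hp : p.Prime) (z : G)
    (hz : ∃ k : ℕ, orderOf z = p ^ k) (y : Subgroup.centralizer ({z} : Set G))
    (hy : ¬ p ∣ orderOf y) :
    Nat.card (Subgroup.centralizer ({z * (y : G)} : Set G)) =
      Nat.card (Subgroup.centralizer ({y} : Set (Subgroup.centralizer ({z} : Set G)))) := by
  have hyz : (y : G) * z = z * (y : G) := Subgroup.mem_centralizer_singleton_iff.mp y.2
  have hy' : ¬ p ∣ orderOf (y : G) := by rwa [Subgroup.orderOf_coe]
  have key : (Subgroup.centralizer ({y} : Set (Subgroup.centralizer ({z} : Set G)))).map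
      (Subgroup.centralizer ({z} : Set G)).subtype =
      Subgroup.centralizer ({z * (y : G)} : Set G) := by
    ext g
    constructor
    · rintro ⟨c, hc, rfl⟩
      have hc1 : c * y = y * c := Subgroup.mem_centralizer_singleton_iff.mp hc
      have hc2 : (c : G) * (y : G) = (y : G) * (c : G) := congrArg Subtype.val hc1
      have hc3 : (c : G) * z = z * (c : G) := Subgroup.mem_centralizer_singleton_iff.mp c.2
      rw [Subgroup.mem_centralizer_singleton_iff]
      show (c : G) * (z * (y : G)) = z * (y : G) * (c : G)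
      rw [← mul_assoc, hc3, mul_assoc, hc2, mul_assoc]
    · intro hg
      have h1 : g ∈ Subgroup.centralizer ({(y : G)} : Set G) :=
        centralizer_mul_le hyz.symm hz hp hy' hg
      have h2 : g * (y : G) = (y : G) * g := Subgroup.mem_centralizer_singleton_iff.mp h1
      have h3 : g * (z * (y : G)) = z * (y : G) * g :=
        Subgroup.mem_centralizer_singleton_iff.mp hg
      have h4 : g * z = z * g := by
        have h5 : g * z * (y : G) = z * g * (y : G) := by
          rw [mul_assoc, h3, mul_assoc, ← h2, mul_assoc]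
        exact mul_right_cancel h5
      have hgC : g ∈ Subgroup.centralizer ({z} : Set G) :=
        Subgroup.mem_centralizer_singleton_iff.mpr h4
      refine ⟨⟨g, hgC⟩, ?_, rfl⟩
      show (⟨g, hgC⟩ : Subgroup.centralizer ({z} : Set G)) ∈
        Subgroup.centralizer ({y} : Set (Subgroup.centralizer ({z} : Set G)))
      rw [Subgroup.mem_centralizer_singleton_iff]
      exact Subtype.ext h2
  rw [← key, Subgroup.card_map_of_injective (Subgroup.subtype_injective _)]

/-- Conjugacy inside the `p`-section of `z` is conjugacy of the `p`-regular parts in the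
centralizer of `z`. -/
theorem isConj_mul_iff {p : ℕ} (hp : p.Prime) (z : G) (hz : ∃ k : ℕ, orderOf z = p ^ k)
    (y c : Subgroup.centralizer ({z} : Set G)) (hy : ¬ p ∣ orderOf y) (hc : ¬ p ∣ orderOf c) :
    IsConj (z * (y : G)) (z * (c : G)) ↔ IsConj y c := by
  have hyz : (y : G) * z = z * (y : G) := Subgroup.mem_centralizer_singleton_iff.mp y.2
  have hcz : (c : G) * z = z * (c : G) := Subgroup.mem_centralizer_singleton_iff.mp c.2
  have hy' : ¬ p ∣ orderOf (y : G) := by rwa [Subgroup.orderOf_coe]
  have hc' : ¬ p ∣ orderOf (c : G) := by rwa [Subgroup.orderOf_coe]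
  constructor
  · intro h
    obtain ⟨t, ht⟩ := isConj_iff.mp h
    have hy1 : IsPPart p (z * (y : G)) z := ⟨(y : G), rfl, hyz.symm, hz, hy'⟩
    have hc1 : IsPPart p (z * (c : G)) z := ⟨(c : G), rfl, hcz.symm, hz, hc'⟩
    have h1 := isPPart_conj t hy1
    rw [ht] at h1
    have h2 : t * z * t⁻¹ = z := isPPart_unique hp h1 hc1
    have h3 : t * z = z * t := mul_inv_eq_iff_eq_mul.mp h2
    have htC : t ∈ Subgroup.centralizer ({z} : Set G) :=
      Subgroup.mem_centralizer_singleton_iff.mpr h3
    refine isConj_iff.mpr ⟨⟨t, htC⟩, ?_⟩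
    apply Subtype.ext
    show t * (y : G) * t⁻¹ = (c : G)
    have h4 : t * (z * (y : G)) * t⁻¹ = z * (t * (y : G) * t⁻¹) := by
      rw [← mul_assoc, h3]
      group
    rw [h4] at ht
    exact mul_left_cancel ht
  · intro h
    obtain ⟨t, ht⟩ := isConj_iff.mp h
    have htz : (t : G) * z = z * (t : G) := Subgroup.mem_centralizer_singleton_iff.mp t.2
    have ht' : (t : G) * (y : G) * (t : G)⁻¹ = (c : G) := congrArg Subtype.val ht
    refine isConj_iff.mpr ⟨(t : G), ?_⟩
    rw [← ht', ← mul_assoc, htz]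
    group

end Basic

section Ker

variable {K : Type u} [Group K] [Fintype K]

open Classical in
/-- The sum of an irreducible character over a normal subgroup. -/
theorem sum_normal_irr (N : Subgroup K) [N.Normal] [Fintype N] (χ : IrrCharacter K) :
    ∑ n : N, (χ : K → ℂ) n =
      if (∀ n ∈ N, (χ : K → ℂ) n = (χ : K → ℂ) 1) then (Nat.card N : ℂ) * (χ : K → ℂ) 1
      else 0 := by
  classical
  have hN0 : (Nat.card N : ℂ) ≠ 0 := by
    exact_mod_cast (Nat.card_pos (α := N)).ne'
  by_cases hc : ∀ n ∈ N, (χ : K → ℂ) n = (χ : K → ℂ) 1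
  · rw [if_pos hc, Finset.sum_congr rfl (fun (n : N) _ => hc (n : K) n.2), Finset.sum_const, Finset.card_univ,
      nsmul_eq_mul, ← Nat.card_eq_fintype_card]
  · rw [if_neg hc]
    rcases avgFun_irr N χ.2 with h | h
    · exfalso
      apply hc
      intro n hn
      have h1 := congrFun h n
      have h2 := congrFun h 1
      rw [← h1, ← h2, avgFun_apply, avgFun_apply]
      congr 1
      apply Fintype.sum_equiv (Equiv.mulLeft (⟨n, hn⟩ : N))
      intro m
      show (χ : K → ℂ) (n * (m : K)) = (χ : K → ℂ) (1 * (((⟨n, hn⟩ : N) * m : N) : K))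
      rw [one_mul]
      rfl
    · have h2 := congrFun h 1
      rw [avgFun_apply] at h2
      have h3 : ∑ n : N, (χ : K → ℂ) (1 * (n : K)) = 0 := by
        rcases mul_eq_zero.mp h2 with h4 | h4
        · exact absurd (inv_eq_zero.mp h4) hN0
        · exact h4
      simpa using h3

open Classical in
/-- The squares of the degrees of the irreducible characters trivial on a normal subgroup add
up to its index. -/
theorem sum_sq_degree_ker [Fintype (IrrCharacter K)] (N : Subgroup K) [N.Normal] :
    ∑ χ : IrrCharacter K, (if (∀ n ∈ N, (χ : K → ℂ) n = (χ : K → ℂ) 1) then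
      conj ((χ : K → ℂ) 1) * (χ : K → ℂ) 1 else 0) = (N.index : ℂ) := by
  classical
  have := Fintype.ofFinite N
  have hN0 : (Nat.card N : ℂ) ≠ 0 := by
    exact_mod_cast (Nat.card_pos (α := N)).ne'
  have h1 : ∀ n : N, ∑ χ : IrrCharacter K, (χ : K → ℂ) 1 * conj ((χ : K → ℂ) n) =
      if n = 1 then (Nat.card K : ℂ) else 0 := by
    intro n
    rw [second_orthogonality (n : K) 1]
    by_cases hn : n = 1
    · rw [if_pos hn, if_pos (by rw [hn]; exact IsConj.refl _), hn]
      have h2 : Subgroup.centralizer ({((1 : N) : K)} : Set K) = ⊤ := by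
        ext g
        simp [Subgroup.mem_centralizer_singleton_iff]
      rw [h2, Subgroup.card_top]
    · rw [if_neg hn, if_neg]
      intro hconj
      apply hn
      have h3 : (n : K) = 1 := isConj_one_left.mp hconj
      exact Subtype.ext h3
  have h2 : ∑ n : N, ∑ χ : IrrCharacter K, (χ : K → ℂ) 1 * conj ((χ : K → ℂ) n) =
      (Nat.card K : ℂ) := by
    rw [Finset.sum_congr rfl (fun n _ => h1 n), Finset.sum_ite_eq' Finset.univ (1 : N)]
    simp
  rw [Finset.sum_comm] at h2
  have h3 : ∀ χ : IrrCharacter K, ∑ n : N, (χ : K → ℂ) 1 * conj ((χ : K → ℂ) n) =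
      (Nat.card N : ℂ) * (if (∀ n ∈ N, (χ : K → ℂ) n = (χ : K → ℂ) 1) then
        conj ((χ : K → ℂ) 1) * (χ : K → ℂ) 1 else 0) := by
    intro χ
    rw [← Finset.mul_sum, ← map_sum, sum_normal_irr N χ]
    split_ifs
    · rw [map_mul, Complex.conj_natCast]
      ring
    · simp
  rw [Finset.sum_congr rfl (fun χ _ => h3 χ), ← Finset.mul_sum] at h2
  have h4 : (Nat.card K : ℂ) = (Nat.card N : ℂ) * (N.index : ℂ) := by
    rw [← Nat.cast_mul, Subgroup.card_mul_index]
  rw [h4] at h2
  exact mul_left_cancel₀ hN0 h2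

end Ker

section Finsum

theorem finsum_mem_mul_left' {ι : Type*} [Finite ι] (S : Set ι) (c : ℂ) (f : ι → ℂ) :
    ∑ᶠ i ∈ S, c * f i = c * ∑ᶠ i ∈ S, f i := by
  classical
  have := Fintype.ofFinite ι
  rw [finsum_mem_def, finsum_mem_def, finsum_eq_sum_of_fintype, finsum_eq_sum_of_fintype,
    Finset.mul_sum]
  apply Finset.sum_congr rfl
  intro i _
  by_cases hi : i ∈ S
  · rw [Set.indicator_of_mem hi, Set.indicator_of_mem hi]
  · rw [Set.indicator_of_notMem hi, Set.indicator_of_notMem hi, mul_zero]

theorem ofReal_finsum_norm_sq {ι : Type*} [Finite ι] (S : Set ι) (f : ι → ℂ) :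
    ((∑ᶠ i ∈ S, ‖f i‖ ^ 2 : ℝ) : ℂ) = ∑ᶠ i ∈ S, conj (f i) * f i := by
  classical
  have := Fintype.ofFinite ι
  rw [finsum_mem_def, finsum_mem_def, finsum_eq_sum_of_fintype, finsum_eq_sum_of_fintype,
    Complex.ofReal_sum]
  apply Finset.sum_congr rfl
  intro i _
  by_cases hi : i ∈ S
  · rw [Set.indicator_of_mem hi, Set.indicator_of_mem hi, Complex.conj_mul']
    push_cast
    rfl
  · rw [Set.indicator_of_notMem hi, Set.indicator_of_notMem hi, Complex.ofReal_zero]

end Finsum

section Main

variable {G : Type u} [Group G] [Finite G] {M : Ideal AlgInt} {p : ℕ} [Fact p.Prime]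

/-- By the third main theorem, the blocks of `C_G(z)` inducing the principal block make up
the principal block. -/
theorem indSet_principal (hM : IsPModular p M) (z : G) (hz : ∃ k : ℕ, orderOf z = p ^ k) :
    indSet M z (principalBlock M G) = principalBlock M (Subgroup.centralizer ({z} : Set G)) := by
  classical
  let inst : Fintype G := Fintype.ofFinite G
  let inst2 : Fintype (Subgroup.centralizer ({z} : Set G)) := Fintype.ofFinite _
  have hMp : M.IsPrime := isPrime_of_modular hM
  obtain ⟨oG, hoG⟩ : ∃ o : IrrCharacter G, (o : G → ℂ) = fun _ => 1 :=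
    ⟨⟨_, isIrrCharacter_one⟩, rfl⟩
  obtain ⟨oC, hoC⟩ : ∃ o : IrrCharacter (Subgroup.centralizer ({z} : Set G)),
      (o : Subgroup.centralizer ({z} : Set G) → ℂ) = fun _ => 1 :=
    ⟨⟨_, isIrrCharacter_one⟩, rfl⟩
  have hPG : principalBlock M G = blockOf M (oG : G → ℂ) := by
    rw [hoG]
    rfl
  have hPC : principalBlock M (Subgroup.centralizer ({z} : Set G)) =
      blockOf M (oC : Subgroup.centralizer ({z} : Set G) → ℂ) := by
    rw [hoC]
    rfl
  ext ψ
  constructor
  · rintro ⟨χ₁, hχ₁, hcong⟩
    have hind := isInducedBlock_of_rep (Subgroup.centralizer ({z} : Set G)) ψ χ₁ hcong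
    rw [hPG] at hχ₁
    have hB : blockOf M (χ₁ : G → ℂ) = principalBlock M G := by
      rw [hPG]
      exact blockOf_eq_of_mem hχ₁
    rw [hB] at hind
    have h3 := (third_main hM (Subgroup.centralizer ({z} : Set G))
      (blockOf M (ψ : Subgroup.centralizer ({z} : Set G) → ℂ)) ⟨_, hind⟩).mp hind
    rw [← h3]
    exact mem_blockOf_self hMp.ne_top ψ
  · intro hψ
    obtain ⟨χ₁, hcong⟩ := exists_irr_induced_cent hM z hz ψ
    have hind := isInducedBlock_of_rep (Subgroup.centralizer ({z} : Set G)) ψ χ₁ hcong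
    have hψ' := hψ
    rw [hPC] at hψ'
    have hb : blockOf M (ψ : Subgroup.centralizer ({z} : Set G) → ℂ) =
        principalBlock M (Subgroup.centralizer ({z} : Set G)) := by
      rw [hPC]
      exact blockOf_eq_of_mem hψ'
    rw [hb] at hind
    have h3 := (third_main hM (Subgroup.centralizer ({z} : Set G))
      (principalBlock M (Subgroup.centralizer ({z} : Set G))) ⟨_, hind⟩).mpr rfl
    obtain ⟨-, -, hcg⟩ := h3
    have hone : oG ∈ principalBlock M G := by
      rw [hPG]
      exact mem_blockOf_self hMp.ne_top oG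
    exact ⟨oG, hone, hcg ψ hψ oG hone⟩

/-- The principal block column sums at `z y` and at `y` in the centralizer of `z` agree. -/
theorem sum_principal_section (hM : IsPModular p M) (z : G) (hz : ∃ k : ℕ, orderOf z = p ^ k)
    (y : Subgroup.centralizer ({z} : Set G)) (hy : ¬ p ∣ orderOf y) :
    ∑ᶠ ζ ∈ principalBlock M G, conj ((ζ : G → ℂ) (z * (y : G))) * (ζ : G → ℂ) (z * (y : G)) =
      ∑ᶠ χ ∈ principalBlock M (Subgroup.centralizer ({z} : Set G)),
        conj ((χ : Subgroup.centralizer ({z} : Set G) → ℂ) y) *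
          (χ : Subgroup.centralizer ({z} : Set G) → ℂ) y := by
  classical
  let inst : Fintype G := Fintype.ofFinite G
  let inst2 : Fintype (Subgroup.centralizer ({z} : Set G)) := Fintype.ofFinite _
  have hfin := irr_finite (G := G)
  have hfin' := irr_finite (G := Subgroup.centralizer ({z} : Set G))
  have hp : p.Prime := Fact.out
  have hMp : M.IsPrime := isPrime_of_modular hM
  have hyz : (y : G) * z = z * (y : G) := Subgroup.mem_centralizer_singleton_iff.mp y.2
  have hy' : ¬ p ∣ orderOf (y : G) := by rwa [Subgroup.orderOf_coe]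
  have hzC : z ∈ Subgroup.centralizer ({z} : Set G) :=
    Subgroup.mem_centralizer_singleton_iff.mpr rfl
  obtain ⟨g, hg⟩ : ∃ g : Subgroup.centralizer ({z} : Set G), g = ⟨z, hzC⟩ * y := ⟨_, rfl⟩
  have hgv : (g : G) = z * (y : G) := by
    rw [hg]
    rfl
  have hh : IsPPart p (g : G) z := by
    rw [hgv]
    exact ⟨(y : G), rfl, hyz.symm, hz, hy'⟩
  have hB : IsPBlock M (principalBlock M G) := ⟨⟨fun _ => 1, isIrrCharacter_one⟩, rfl⟩
  have hb : IsPBlock M (principalBlock M (Subgroup.centralizer ({z} : Set G))) :=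
    ⟨⟨fun _ => 1, isIrrCharacter_one⟩, rfl⟩
  have key1 := blockPart_eq_cent hM z hz (principalBlock M G) hB (classInd (g : G))
    (isClassFunction_classInd _) g hh
  rw [indSet_principal hM z hz] at key1
  have key2 := blockPart_eq (principalBlock M (Subgroup.centralizer ({z} : Set G))) (classInd y)
    (isClassFunction_classInd y) y
  have hsame : ∑ᶠ k : Subgroup.centralizer ({z} : Set G),
      blockCoeff (principalBlock M (Subgroup.centralizer ({z} : Set G))) k *
        classInd (g : G) ((k : G) * (g : G)) =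
      ∑ᶠ k : Subgroup.centralizer ({z} : Set G),
        blockCoeff (principalBlock M (Subgroup.centralizer ({z} : Set G))) k *
          classInd y (k * y) := by
    rw [finsum_eq_sum_of_fintype, finsum_eq_sum_of_fintype]
    obtain ⟨η, hη⟩ : ∃ η : Subgroup.centralizer ({z} : Set G) → ℂ,
        η = fun c : Subgroup.centralizer ({z} : Set G) =>
          classInd (g : G) (z * (c : G)) - classInd y c := ⟨_, rfl⟩
    have hηcl : IsClassFunction (Subgroup.centralizer ({z} : Set G)) η := by
      intro c k
      rw [hη]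
      show classInd (g : G) (z * ((k * c * k⁻¹ : Subgroup.centralizer ({z} : Set G)) : G)) -
        classInd y (k * c * k⁻¹) = classInd (g : G) (z * (c : G)) - classInd y c
      have hk : (k : G) * z = z * (k : G) := Subgroup.mem_centralizer_singleton_iff.mp k.2
      have h1 : z * ((k * c * k⁻¹ : Subgroup.centralizer ({z} : Set G)) : G) =
          (k : G) * (z * (c : G)) * (k : G)⁻¹ := by
        simp only [Subgroup.coe_mul, Subgroup.coe_inv]
        rw [← mul_assoc, ← mul_assoc, ← hk]
        simp only [mul_assoc]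
      rw [h1, isClassFunction_classInd (g : G) _ _, isClassFunction_classInd y c k]
    have hηreg : ∀ c : Subgroup.centralizer ({z} : Set G), ¬ p ∣ orderOf c → η c = 0 := by
      intro c hc
      rw [hη]
      show classInd (g : G) (z * (c : G)) - classInd y c = 0
      unfold classInd
      rw [hgv]
      by_cases hcj : IsConj y c
      · rw [if_pos hcj, if_pos ((isConj_mul_iff hp z hz y c hy hc).mpr hcj), sub_self]
      · rw [if_neg hcj, if_neg (fun h => hcj ((isConj_mul_iff hp z hz y c hy hc).mp h)),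
          sub_self]
    have h5 := sum_idem_mul_eq_zero hM
      (isClassFunction_blockCoeff (principalBlock M (Subgroup.centralizer ({z} : Set G))))
      (conv_blockCoeff _) (fun k => osima hb k) hηcl hηreg y hy
    rw [← sub_eq_zero, ← Finset.sum_sub_distrib, ← h5]
    apply Finset.sum_congr rfl
    intro k _
    rw [← mul_sub, hη]
    refine congrArg _ ?_
    show classInd (g : G) ((k : G) * (g : G)) - classInd y (k * y) =
      classInd (g : G) (z * ((k * y : Subgroup.centralizer ({z} : Set G)) : G)) -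
        classInd y (k * y)
    have hk : (k : G) * z = z * (k : G) := Subgroup.mem_centralizer_singleton_iff.mp k.2
    rw [hgv, Subgroup.coe_mul, ← mul_assoc, hk, mul_assoc]
  rw [hsame, ← key2] at key1
  have h0G : blockPart (principalBlock M G) (classInd (g : G)) (g : G) =
      ∑ᶠ ζ ∈ principalBlock M G, classInner (classInd (g : G)) (ζ : G → ℂ) *
        (ζ : G → ℂ) (g : G) := rfl
  have h0C : blockPart (principalBlock M (Subgroup.centralizer ({z} : Set G))) (classInd y) y =
      ∑ᶠ χ ∈ principalBlock M (Subgroup.centralizer ({z} : Set G)),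
        classInner (classInd y) (χ : Subgroup.centralizer ({z} : Set G) → ℂ) *
          (χ : Subgroup.centralizer ({z} : Set G) → ℂ) y := rfl
  rw [h0G, h0C] at key1
  have e1 : ∑ᶠ ζ ∈ principalBlock M G, classInner (classInd (g : G)) (ζ : G → ℂ) *
      (ζ : G → ℂ) (g : G) = ((Nat.card G : ℂ)⁻¹ *
        ((Subgroup.centralizer ({(g : G)} : Set G)).index : ℂ)) *
      ∑ᶠ ζ ∈ principalBlock M G, conj ((ζ : G → ℂ) (g : G)) * (ζ : G → ℂ) (g : G) := by
    rw [← finsum_mem_mul_left']
    apply finsum_mem_congr rfl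
    intro ζ _
    rw [classInner_classInd (g : G) (isClassFunction_of_irr ζ.2), mul_assoc]
  have e2 : ∑ᶠ χ ∈ principalBlock M (Subgroup.centralizer ({z} : Set G)),
      classInner (classInd y) (χ : Subgroup.centralizer ({z} : Set G) → ℂ) *
        (χ : Subgroup.centralizer ({z} : Set G) → ℂ) y =
      ((Nat.card (Subgroup.centralizer ({z} : Set G)) : ℂ)⁻¹ *
        ((Subgroup.centralizer ({y} : Set (Subgroup.centralizer ({z} : Set G)))).index : ℂ)) *
      ∑ᶠ χ ∈ principalBlock M (Subgroup.centralizer ({z} : Set G)),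
        conj ((χ : Subgroup.centralizer ({z} : Set G) → ℂ) y) *
          (χ : Subgroup.centralizer ({z} : Set G) → ℂ) y := by
    rw [← finsum_mem_mul_left']
    apply finsum_mem_congr rfl
    intro χ _
    rw [classInner_classInd y (isClassFunction_of_irr χ.2), mul_assoc]
  rw [e1, e2] at key1
  have hcG : (Nat.card G : ℂ)⁻¹ * ((Subgroup.centralizer ({(g : G)} : Set G)).index : ℂ) =
      (Nat.card (Subgroup.centralizer ({(g : G)} : Set G)) : ℂ)⁻¹ := by
    have h1 : (Nat.card G : ℂ) = (Nat.card (Subgroup.centralizer ({(g : G)} : Set G)) : ℂ) *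
        ((Subgroup.centralizer ({(g : G)} : Set G)).index : ℂ) := by
      rw [← Nat.cast_mul, Subgroup.card_mul_index]
    have h2 : (Nat.card (Subgroup.centralizer ({(g : G)} : Set G)) : ℂ) ≠ 0 := by
      exact_mod_cast (Nat.card_pos (α := Subgroup.centralizer ({(g : G)} : Set G))).ne'
    have h3 : ((Subgroup.centralizer ({(g : G)} : Set G)).index : ℂ) ≠ 0 := by
      exact_mod_cast Subgroup.index_ne_zero_of_finite
        (H := Subgroup.centralizer ({(g : G)} : Set G))
    rw [h1]
    field_simp
  have hcC : (Nat.card (Subgroup.centralizer ({z} : Set G)) : ℂ)⁻¹ *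
      ((Subgroup.centralizer ({y} : Set (Subgroup.centralizer ({z} : Set G)))).index : ℂ) =
      (Nat.card (Subgroup.centralizer ({y} : Set (Subgroup.centralizer ({z} : Set G)))) : ℂ)⁻¹ := by
    have h1 : (Nat.card (Subgroup.centralizer ({z} : Set G)) : ℂ) =
        (Nat.card (Subgroup.centralizer ({y} : Set (Subgroup.centralizer ({z} : Set G)))) : ℂ) *
        ((Subgroup.centralizer ({y} : Set (Subgroup.centralizer ({z} : Set G)))).index : ℂ) := by
      rw [← Nat.cast_mul, Subgroup.card_mul_index]
    have h2 : (Nat.card (Subgroup.centralizer ({y} :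
        Set (Subgroup.centralizer ({z} : Set G)))) : ℂ) ≠ 0 := by
      exact_mod_cast (Nat.card_pos (α := Subgroup.centralizer ({y} :
        Set (Subgroup.centralizer ({z} : Set G))))).ne'
    have h3 : ((Subgroup.centralizer ({y} :
        Set (Subgroup.centralizer ({z} : Set G)))).index : ℂ) ≠ 0 := by
      exact_mod_cast Subgroup.index_ne_zero_of_finite
        (H := Subgroup.centralizer ({y} : Set (Subgroup.centralizer ({z} : Set G))))
    rw [h1]
    field_simp
  rw [hcG, hcC, hgv, card_centralizer_mul hp z hz y hy] at key1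
  have h2 : (Nat.card (Subgroup.centralizer ({y} :
      Set (Subgroup.centralizer ({z} : Set G)))) : ℂ)⁻¹ ≠ 0 := by
    apply inv_ne_zero
    exact_mod_cast (Nat.card_pos (α := Subgroup.centralizer ({y} :
      Set (Subgroup.centralizer ({z} : Set G))))).ne'
  exact mul_left_cancel₀ h2 key1

/-- A `p`-regular element of a group whose `p'`-core has `p`-power index lies in the
`p'`-core. -/
theorem mem_pPrimeCore_of_regular {K : Type u} [Group K] [Finite K] {p : ℕ} (hp : p.Prime)
    {k : ℕ} (hk : (pPrimeCore p K).index = p ^ k) (y : K) (hy : ¬ p ∣ orderOf y) :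
    y ∈ pPrimeCore p K := by
  have := pPrimeCore_normal' p K
  rw [← QuotientGroup.eq_one_iff]
  have h1 : orderOf (QuotientGroup.mk' (pPrimeCore p K) y) ∣ orderOf y :=
    orderOf_map_dvd (QuotientGroup.mk' (pPrimeCore p K)) y
  have h2 : orderOf (QuotientGroup.mk' (pPrimeCore p K) y) ∣ (pPrimeCore p K).index :=
    orderOf_dvd_natCard _
  rw [hk] at h2
  obtain ⟨j, -, hj⟩ := (Nat.dvd_prime_pow hp).mp h2
  have hj0 : j = 0 := by
    by_contra hne
    apply hy
    rw [hj] at h1
    exact (dvd_pow_self p hne).trans h1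
  rw [hj0, pow_zero] at hj
  exact orderOf_eq_one_iff.mp hj

/-- The principal block norm sums on the `p`-section of `z`. -/
theorem principal_norm_sum (hM : IsPModular p M) (z : G) (hz : ∃ k : ℕ, orderOf z = p ^ k)
    (y : Subgroup.centralizer ({z} : Set G)) (hy : ¬ p ∣ orderOf y) :
    (∑ᶠ ζ ∈ principalBlock M G, ‖(ζ : G → ℂ) (z * (y : G))‖ ^ 2 =
      ∑ᶠ χ ∈ principalBlock M (Subgroup.centralizer ({z} : Set G)),
        ‖(χ : Subgroup.centralizer ({z} : Set G) → ℂ) y‖ ^ 2) ∧
    ((∃ k : ℕ, (pPrimeCore p (Subgroup.centralizer ({z} : Set G))).index = p ^ k) →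
      ∑ᶠ ζ ∈ principalBlock M G, ‖(ζ : G → ℂ) (z * (y : G))‖ ^ 2 =
        ((p ^ (Nat.card (Subgroup.centralizer ({z} : Set G))).factorization p : ℕ) : ℝ)) := by
  classical
  have hp : p.Prime := Fact.out
  have hfin := irr_finite (G := G)
  have hfin' := irr_finite (G := Subgroup.centralizer ({z} : Set G))
  have hi : ∑ᶠ ζ ∈ principalBlock M G, ‖(ζ : G → ℂ) (z * (y : G))‖ ^ 2 =
      ∑ᶠ χ ∈ principalBlock M (Subgroup.centralizer ({z} : Set G)),
        ‖(χ : Subgroup.centralizer ({z} : Set G) → ℂ) y‖ ^ 2 := by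
    apply Complex.ofReal_injective
    rw [ofReal_finsum_norm_sq (principalBlock M G)
        (fun ζ : IrrCharacter G => (ζ : G → ℂ) (z * (y : G))),
      ofReal_finsum_norm_sq (principalBlock M (Subgroup.centralizer ({z} : Set G)))
        (fun χ : IrrCharacter (Subgroup.centralizer ({z} : Set G)) =>
          (χ : Subgroup.centralizer ({z} : Set G) → ℂ) y)]
    exact sum_principal_section hM z hz y hy
  refine ⟨hi, ?_⟩
  rintro ⟨k, hk⟩
  rw [hi]
  apply Complex.ofReal_injective
  rw [ofReal_finsum_norm_sq (principalBlock M (Subgroup.centralizer ({z} : Set G)))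
    (fun χ : IrrCharacter (Subgroup.centralizer ({z} : Set G)) =>
      (χ : Subgroup.centralizer ({z} : Set G) → ℂ) y)]
  have hS := Cfsg.Agent.S0939.result (G := Subgroup.centralizer ({z} : Set G)) p M hM ⟨k, hk⟩
  have hyN := mem_pPrimeCore_of_regular hp hk y hy
  have := pPrimeCore_normal' p (Subgroup.centralizer ({z} : Set G))
  let inst : Fintype (Subgroup.centralizer ({z} : Set G)) := Fintype.ofFinite _
  let inst2 : Fintype (IrrCharacter (Subgroup.centralizer ({z} : Set G))) := Fintype.ofFinite _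
  have hsq := sum_sq_degree_ker (pPrimeCore p (Subgroup.centralizer ({z} : Set G)))
  have hcop := card_pPrimeCore_coprime p (Subgroup.centralizer ({z} : Set G))
  have hnd : ¬ p ∣ Nat.card (pPrimeCore p (Subgroup.centralizer ({z} : Set G))) := by
    intro hd
    have h1 : p ∣ Nat.gcd (Nat.card (pPrimeCore p (Subgroup.centralizer ({z} : Set G)))) p :=
      Nat.dvd_gcd hd dvd_rfl
    rw [hcop] at h1
    exact hp.one_lt.ne' (Nat.dvd_one.mp h1)
  have hfac : (Nat.card (Subgroup.centralizer ({z} : Set G))).factorization p = k := by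
    rw [← Subgroup.card_mul_index (pPrimeCore p (Subgroup.centralizer ({z} : Set G))), hk,
      Nat.factorization_mul Nat.card_pos.ne' (pow_ne_zero k hp.ne_zero), Finsupp.add_apply,
      Nat.factorization_eq_zero_of_not_dvd hnd, Nat.Prime.factorization_pow hp,
      Finsupp.single_eq_same, zero_add]
  rw [hfac, ← hk, Complex.ofReal_natCast, ← hsq, hS, finsum_mem_def, finsum_eq_sum_of_fintype]
  apply Finset.sum_congr rfl
  intro χ _
  by_cases hχ : ∀ n ∈ pPrimeCore p (Subgroup.centralizer ({z} : Set G)),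
      (χ : Subgroup.centralizer ({z} : Set G) → ℂ) n =
        (χ : Subgroup.centralizer ({z} : Set G) → ℂ) 1
  · rw [Set.indicator_of_mem (show χ ∈ {χ : IrrCharacter (Subgroup.centralizer ({z} : Set G)) |
        ∀ n ∈ pPrimeCore p (Subgroup.centralizer ({z} : Set G)),
          (χ : Subgroup.centralizer ({z} : Set G) → ℂ) n =
            (χ : Subgroup.centralizer ({z} : Set G) → ℂ) 1} from hχ), if_pos hχ, hχ y hyN]
  · rw [Set.indicator_of_notMem (show χ ∉ {χ : IrrCharacter (Subgroup.centralizer ({z} : Set G)) |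
        ∀ n ∈ pPrimeCore p (Subgroup.centralizer ({z} : Set G)),
          (χ : Subgroup.centralizer ({z} : Set G) → ℂ) n =
            (χ : Subgroup.centralizer ({z} : Set G) → ℂ) 1} from hχ), if_neg hχ]

end Main

end Cfsg.Agent.Lib_helper3_ThirdMain3
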