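import Cfsg.Statements.S0944
import Mathlib
import Cfsg.Agent.Lib_helper3_CharCongr

set_option autoImplicit false
open Cfsg

namespace Cfsg.Agent.S0944

/-- Let χ be an irreducible character of the finite group G and u an involution. Then χ u is a rational integer n with n ≡ χ 1 (mod 2). -/
theorem result {G : Type*} [Group G] [Finite G] (χ : Cfsg.IrrCharacter G) (u : G) (hu : orderOf u = 2) : ∃ n : ℤ, (χ : G → ℂ) u = (n : ℂ) ∧ (2 : ℤ) ∣ (Cfsg.charDegree (χ : G → ℂ) : ℤ) - n := by
  classical
  obtain ⟨ι, _, a, b, ha, hb, hsum⟩ := Cfsg.Agent.Lib_helper3_CharCongr.exists_eigen_pair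
    (Cfsg.Agent.Lib_helper3_CharBasic.isCharacter_of_irr χ.2) u 1 (by simp)
  rw [hu] at ha
  have h1 := hsum 1 0
  have h0 := hsum 0 0
  simp only [pow_one, pow_zero, mul_one] at h1 h0
  have hpm : ∀ i, a i = 1 ∨ a i = -1 := by
    intro i
    have h2 : (a i - 1) * (a i + 1) = 0 := by linear_combination ha i
    rcases mul_eq_zero.mp h2 with h | h
    · left; linear_combination h
    · right; linear_combination h
  have hne : (-1 : ℂ) ≠ 1 := by norm_num
  refine ⟨∑ i, if a i = 1 then 1 else -1, ?_, ?_⟩
  · rw [h1]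
    push_cast
    apply Finset.sum_congr rfl
    intro i _
    rcases hpm i with h | h
    · simp [h]
    · simp [h, hne]
  · have hdeg : Cfsg.charDegree (χ : G → ℂ) = Fintype.card ι := by
      unfold Cfsg.charDegree
      rw [h0]
      simp
    rw [hdeg]
    have h3 : (Fintype.card ι : ℤ) - ∑ i, (if a i = 1 then (1 : ℤ) else -1) =
        ∑ i, (if a i = 1 then (0 : ℤ) else 2) := by
      rw [← Finset.card_univ, Finset.cast_card, ← Finset.sum_sub_distrib]
      apply Finset.sum_congr rfl
      intro i _
      split_ifs <;> norm_num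
    rw [h3]
    apply Finset.dvd_sum
    intro i _
    split_ifs <;> simp
end Cfsg.Agent.S0944
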