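import Mathlib
import Cfsg.Prelude.Def_Characters
import Cfsg.Prelude.Def_Blocks
import Cfsg.Agent.Lib_helper3_ThirdMain3
import Cfsg.Agent.Lib_helper3_Klein1
import Cfsg.Agent.Lib_helper3_CharOdd
import Cfsg.Agent.S0944
import Cfsg.Agent.S0914

set_option autoImplicit false
open Cfsg
open Cfsg.Agent.Lib_helper3_CharBasic Cfsg.Agent.Lib_helper3_CharMore
  Cfsg.Agent.Lib_helper3_Local Cfsg.Agent.Lib_helper3_Local2 Cfsg.Agent.Lib_helper3_BlockAlg
  Cfsg.Agent.Lib_helper3_IdemSupp Cfsg.Agent.Lib_helper3_DefectZero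
  Cfsg.Agent.Lib_helper3_ThirdMain Cfsg.Agent.Lib_helper3_ThirdMain2
  Cfsg.Agent.Lib_helper3_SecondMain2 Cfsg.Agent.Lib_helper3_SecondMain3
  Cfsg.Agent.Lib_helper3_CharInd
  Cfsg.Agent.Lib_helper3_ThirdMain3 Cfsg.Agent.Lib_helper3_Klein1
open scoped ComplexConjugate

namespace Cfsg.Agent.Lib_helper3_Klein2

universe u

variable {G : Type u} [Group G] [Finite G]

/-- For a group whose Sylow 2-subgroups are Klein four groups with all involutions conjugate,
the degree of a character is congruent modulo 4 to its value at an involution. -/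
theorem degree_congr_four (P₁ : Sylow 2 G) (hcard : Nat.card P₁ = 4)
    (hexp : ∀ x ∈ (P₁ : Subgroup G), x * x = 1)
    (hone : ∀ s t : G, orderOf s = 2 → orderOf t = 2 → IsConj s t) (z : G) (hz : orderOf z = 2)
    (χ : IrrCharacter G) (n : ℤ) (hn : (χ : G → ℂ) z = (n : ℂ)) :
    (4 : ℤ) ∣ (charDegree (χ : G → ℂ) : ℤ) - n := by
  classical
  let inst : Fintype G := Fintype.ofFinite G
  let inst2 : Fintype (P₁ : Subgroup G) := Fintype.ofFinite _
  have hχc : IsCharacter G (χ : G → ℂ) := isCharacter_of_irr χ.2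
  obtain ⟨d, hd⟩ := isCharacter_apply_one hχc
  have hdeg : charDegree (χ : G → ℂ) = d := charDegree_eq hd
  obtain ⟨a₀, ha₀⟩ := classInner_nat (isCharacter_restrict (P₁ : Subgroup G) hχc)
    (isCharacter_one (G := (P₁ : Subgroup G)))
  rw [classInner_def] at ha₀
  have hc4 : (Nat.card (P₁ : Subgroup G) : ℂ) = 4 := by
    have h1 : Nat.card (P₁ : Subgroup G) = 4 := hcard
    rw [h1]
    norm_num
  rw [hc4] at ha₀
  have hsum : ∑ x : (P₁ : Subgroup G), (χ : G → ℂ) x = (d : ℂ) + 3 * (n : ℂ) := by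
    rw [← Finset.add_sum_erase Finset.univ _ (Finset.mem_univ (1 : (P₁ : Subgroup G)))]
    have h1 : ∀ x ∈ Finset.univ.erase (1 : (P₁ : Subgroup G)), (χ : G → ℂ) x = (n : ℂ) := by
      intro x hx
      have hx1 : x ≠ 1 := Finset.ne_of_mem_erase hx
      have hox : orderOf (x : G) = 2 := by
        apply orderOf_eq_prime
        · rw [pow_two]
          exact hexp _ x.2
        · intro h
          exact hx1 (Subtype.ext h)
      rw [← hn]
      exact (isClassFunction_iff_isConj.mp (isClassFunction_of_irr χ.2)) _ _ (hone _ _ hox hz)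
    rw [Finset.sum_congr rfl h1, Finset.sum_const, Finset.card_erase_of_mem (Finset.mem_univ _),
      Finset.card_univ, ← Nat.card_eq_fintype_card]
    have h2 : Nat.card (P₁ : Subgroup G) = 4 := hcard
    rw [h2]
    have h3 : ((1 : (P₁ : Subgroup G)) : G) = 1 := rfl
    rw [h3, hd]
    simp
  have h5 : (d : ℂ) + 3 * (n : ℂ) = 4 * (a₀ : ℂ) := by
    rw [← hsum, ← ha₀]
    have h6 : ∀ x : (P₁ : Subgroup G), (χ : G → ℂ) x * conj ((fun _ : (P₁ : Subgroup G) => (1 : ℂ)) x) =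
        (χ : G → ℂ) x := by
      intro x
      simp
    rw [Finset.sum_congr rfl (fun x _ => h6 x)]
    field_simp
  have h6 : (d : ℤ) + 3 * n = 4 * (a₀ : ℤ) := by exact_mod_cast h5
  rw [hdeg]
  exact ⟨(a₀ : ℤ) - n, by linarith⟩

/-- Brauer's description of the principal 2-block of a group with Klein four Sylow
2-subgroups and one class of involutions. -/
theorem klein_main (M : Ideal AlgInt) (hM : IsPModular 2 M) (P : Sylow 2 G)
    (hP : IsKleinFour (P : Subgroup G))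
    (hone : ∀ s t : G, orderOf s = 2 → orderOf t = 2 → IsConj s t) :
    ∃ ζ₂ ζ₃ ζ₄ : IrrCharacter G, ∃ ε : ℤ, (ε = 1 ∨ ε = -1) ∧ (ζ₂ : G → ℂ) ≠ (fun _ => 1) ∧
      (ζ₃ : G → ℂ) ≠ (fun _ => 1) ∧ ζ₂ ≠ ζ₃ ∧ ζ₂ ≠ ζ₄ ∧ ζ₃ ≠ ζ₄ ∧
      principalBlock M G = {χ : IrrCharacter G | (χ : G → ℂ) = (fun _ => 1) ∨ χ = ζ₂ ∨ χ = ζ₃ ∨
        χ = ζ₄} ∧
      (∀ z : G, orderOf z = 2 → (ζ₂ : G → ℂ) z = 1 ∧ (ζ₃ : G → ℂ) z = (ε : ℂ) ∧
        (ζ₄ : G → ℂ) z = -1) ∧
      (4 : ℤ) ∣ (charDegree (ζ₂ : G → ℂ) : ℤ) - 1 ∧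
      (4 : ℤ) ∣ (charDegree (ζ₃ : G → ℂ) : ℤ) - ε ∧
      (4 : ℤ) ∣ (charDegree (ζ₄ : G → ℂ) : ℤ) + 1 ∧
      ∀ y : G, Odd (orderOf y) →
        1 + (ζ₂ : G → ℂ) y + (ε : ℂ) * (ζ₃ : G → ℂ) y - (ζ₄ : G → ℂ) y = 0 := by
  classical
  let inst : Fintype G := Fintype.ofFinite G
  have hfin := irr_finite (G := G)
  let inst2 : Fintype (IrrCharacter G) := Fintype.ofFinite _
  have hMp : M.IsPrime := isPrime_of_modular hM
  -- an involution
  obtain ⟨z, hz⟩ : ∃ z : G, orderOf z = 2 := by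
    have h4 : Nat.card (P : Subgroup G) = 4 := hP.card_four
    have hnt : Nontrivial (P : Subgroup G) :=
      (Finite.one_lt_card_iff_nontrivial).mp (by rw [h4]; norm_num)
    obtain ⟨x, hx⟩ := exists_ne (1 : (P : Subgroup G))
    refine ⟨(x : G), orderOf_eq_prime ?_ (fun h => hx (Subtype.ext h))⟩
    have h2 : x ^ Monoid.exponent (P : Subgroup G) = 1 := Monoid.pow_exponent_eq_one _
    rw [hP.exponent_two] at h2
    exact congrArg Subtype.val h2
  obtain ⟨P₁, hzP, hcard, hexp⟩ := exists_klein_sylow_mem P hP z hz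
  obtain ⟨hfac, hidx⟩ := klein_centralizer P hP z hz
  have hz1 : z ≠ 1 := by
    intro h
    rw [h, orderOf_one] at hz
    omega
  obtain ⟨oG, hoG⟩ : ∃ o : IrrCharacter G, (o : G → ℂ) = fun _ => 1 :=
    ⟨⟨_, isIrrCharacter_one⟩, rfl⟩
  have hPG : principalBlock M G = blockOf M (oG : G → ℂ) := by
    rw [hoG]
    rfl
  have hB : IsPBlock M (principalBlock M G) := ⟨oG, hPG⟩
  have honeB : oG ∈ principalBlock M G := by
    rw [hPG]
    exact mem_blockOf_self hMp.ne_top oG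
  -- integer values at z
  have hint : ∀ χ : IrrCharacter G, ∃ n : ℤ, (χ : G → ℂ) z = (n : ℂ) := fun χ => by
    obtain ⟨n, hn, -⟩ := Cfsg.Agent.S0944.result χ z hz
    exact ⟨n, hn⟩
  choose nz hnz using hint
  have hnz1 : nz oG = 1 := by
    have h1 := hnz oG
    rw [hoG] at h1
    have h2 : ((nz oG : ℤ) : ℂ) = ((1 : ℤ) : ℂ) := by
      rw [← h1]
      simp
    exact_mod_cast h2
  have hcong : ∀ χ : IrrCharacter G, (4 : ℤ) ∣ (charDegree (χ : G → ℂ) : ℤ) - nz χ :=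
    fun χ => degree_congr_four P₁ hcard hexp hone z hz χ (nz χ) (hnz χ)
  have hdeg : ∀ χ : IrrCharacter G, (χ : G → ℂ) 1 = (charDegree (χ : G → ℂ) : ℂ) ∧
      0 < charDegree (χ : G → ℂ) := by
    intro χ
    obtain ⟨d, hd⟩ := isCharacter_apply_one (isCharacter_of_irr χ.2)
    have h1 : charDegree (χ : G → ℂ) = d := charDegree_eq hd
    rw [h1]
    refine ⟨hd, Nat.pos_of_ne_zero ?_⟩
    intro h0
    rw [h0] at hd
    exact irr_apply_one_ne_zero χ.2 (by simpa using hd)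
  have hG2 : (Nat.card G).factorization 2 = 2 := by
    have h1 := P.card_eq_multiplicity
    have h2 : Nat.card (P : Subgroup G) = 4 := hP.card_four
    rw [h2] at h1
    have h3 : (2 : ℕ) ^ 2 = 2 ^ (Nat.card G).factorization 2 := by
      rw [← h1]
      norm_num
    exact (Nat.pow_right_injective (le_refl 2) h3).symm
  -- characters of the principal block do not vanish at z
  have hnz0 : ∀ χ ∈ principalBlock M G, nz χ ≠ 0 := by
    intro χ hχ h0
    have h4 : (4 : ℤ) ∣ (charDegree (χ : G → ℂ) : ℤ) := by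
      have h := hcong χ
      rwa [h0, sub_zero] at h
    have h4' : 4 ∣ charDegree (χ : G → ℂ) := by exact_mod_cast h4
    have hdvd : charDegree (χ : G → ℂ) ∣ Nat.card G :=
      Cfsg.Agent.Lib_helper3_CharOdd.irr_degree_dvd_card χ.2 (hdeg χ).1
    obtain ⟨q, hq⟩ := hdvd
    have hodd : ¬ 2 ∣ Nat.card G / charDegree (χ : G → ℂ) := by
      rw [hq, Nat.mul_div_cancel_left _ (hdeg χ).2]
      intro h2
      have h8 : 2 ^ ((Nat.card G).factorization 2 + 1) ∣ Nat.card G := by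
        rw [hG2, hq]
        obtain ⟨a, ha⟩ := h4'
        obtain ⟨b, hb⟩ := h2
        rw [ha, hb]
        exact ⟨a * b, by ring⟩
      exact Nat.pow_succ_factorization_not_dvd Nat.card_pos.ne' Nat.prime_two h8
    have hsing := (Cfsg.Agent.S0914.result 2 M hM χ).mp hodd
    rw [hPG] at hχ
    have h5 := blockOf_eq_of_mem hχ
    rw [hsing] at h5
    have h6 : oG ∈ ({χ} : Set (IrrCharacter G)) := by
      rw [h5]
      exact mem_blockOf_self hMp.ne_top oG
    have h7 : oG = χ := h6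
    rw [← h7, hnz1] at h0
    exact one_ne_zero h0
  -- the sum of squares
  obtain ⟨Bf, hBf⟩ : ∃ Bf : Finset (IrrCharacter G),
      (Bf : Set (IrrCharacter G)) = principalBlock M G :=
    ⟨(principalBlock M G).toFinset, Set.coe_toFinset _⟩
  have hBfmem : ∀ χ : IrrCharacter G, χ ∈ Bf ↔ χ ∈ principalBlock M G := by
    intro χ
    rw [← hBf, Finset.mem_coe]
  have hsum4 : ∑ ζ ∈ Bf, ‖(ζ : G → ℂ) z‖ ^ 2 = 4 := by
    have h1 := (principal_norm_sum hM z ⟨1, by rw [hz, pow_one]⟩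
      (1 : Subgroup.centralizer ({z} : Set G)) (by rw [orderOf_one]; norm_num)).2 hidx
    rw [hfac, ← hBf, finsum_mem_coe_finset] at h1
    simp only [Subgroup.coe_one, mul_one] at h1
    rw [h1]
    norm_num
  have hsumZ : ∑ ζ ∈ Bf, nz ζ ^ 2 = 4 := by
    have h1 : ∀ ζ : IrrCharacter G, ‖(ζ : G → ℂ) z‖ ^ 2 = ((nz ζ ^ 2 : ℤ) : ℝ) := by
      intro ζ
      rw [hnz ζ, Complex.norm_intCast, sq_abs]
      push_cast
      ring
    rw [Finset.sum_congr rfl (fun ζ _ => h1 ζ), ← Int.cast_sum] at hsum4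
    exact_mod_cast hsum4
  have hoGBf : oG ∈ Bf := (hBfmem oG).mpr honeB
  obtain ⟨T, hT⟩ : ∃ T : Finset (IrrCharacter G), T = Bf.erase oG := ⟨_, rfl⟩
  have hTmem : ∀ χ : IrrCharacter G, χ ∈ T → χ ∈ principalBlock M G := by
    intro χ hχ
    rw [hT] at hχ
    exact (hBfmem χ).mp (Finset.mem_of_mem_erase hχ)
  have hTne1 : ∀ χ : IrrCharacter G, χ ∈ T → χ ≠ oG := by
    intro χ hχ
    rw [hT] at hχ
    exact Finset.ne_of_mem_erase hχ
  have hT3 : ∑ ζ ∈ T, nz ζ ^ 2 = 3 := by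
    have h1 := Finset.add_sum_erase Bf (fun ζ => nz ζ ^ 2) hoGBf
    rw [hnz1, ← hT, hsumZ] at h1
    linarith
  have hTsq : ∀ ζ ∈ T, nz ζ ^ 2 = 1 := by
    intro ζ hζ
    have h1 : nz ζ ^ 2 ≤ 3 := by
      rw [← hT3]
      exact Finset.single_le_sum (f := fun ζ => nz ζ ^ 2) (fun i _ => sq_nonneg _) hζ
    have h2 := hnz0 ζ (hTmem ζ hζ)
    have h3 : -2 < nz ζ := by nlinarith
    have h4 : nz ζ < 2 := by nlinarith
    have h5 : nz ζ = -1 ∨ nz ζ = 1 := by omega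
    rcases h5 with h5 | h5 <;> rw [h5] <;> norm_num
  have hTpm : ∀ ζ ∈ T, nz ζ = 1 ∨ nz ζ = -1 := by
    intro ζ hζ
    have h1 : (nz ζ - 1) * (nz ζ + 1) = 0 := by nlinarith [hTsq ζ hζ]
    rcases mul_eq_zero.mp h1 with h | h
    · left
      omega
    · right
      omega
  have hTcard : T.card = 3 := by
    have h1 : ∑ ζ ∈ T, nz ζ ^ 2 = ∑ ζ ∈ T, (1 : ℤ) := Finset.sum_congr rfl hTsq
    rw [hT3, Finset.sum_const] at h1
    simp at h1
    exact_mod_cast h1.symm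
  -- orthogonality
  have horth : ∀ y : G, Odd (orderOf y) → ∑ χ ∈ Bf, (nz χ : ℂ) * (χ : G → ℂ) y = 0 := by
    intro y hy
    have h1 := block_orth_section hM z y⁻¹ z 1
      ⟨1, mul_one z, Commute.one_right z, ⟨1, by rw [hz, pow_one]⟩, by rw [orderOf_one]; norm_num⟩
      ⟨y⁻¹, one_mul _, Commute.one_left _, ⟨0, by rw [orderOf_one, pow_zero]⟩, by
        rw [orderOf_inv]
        exact fun h => (Nat.not_even_iff_odd.mpr hy) (even_iff_two_dvd.mpr h)⟩
      (fun h => hz1 (isConj_one_left.mp h)) (principalBlock M G) hB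
    rw [inv_inv, ← hBf, finsum_mem_coe_finset] at h1
    rw [← h1]
    apply Finset.sum_congr rfl
    intro χ _
    rw [hnz χ]
  have h1sum : ∑ χ ∈ Bf, nz χ * (charDegree (χ : G → ℂ) : ℤ) = 0 := by
    have h1 := horth 1 (by rw [orderOf_one]; exact odd_one)
    have h2 : ∀ χ ∈ Bf, (nz χ : ℂ) * (χ : G → ℂ) 1 =
        ((nz χ * (charDegree (χ : G → ℂ) : ℤ) : ℤ) : ℂ) := by
      intro χ _
      rw [(hdeg χ).1]
      push_cast
      ring
    rw [Finset.sum_congr rfl h2, ← Int.cast_sum] at h1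
    exact_mod_cast h1
  have h1sumT : 1 + ∑ χ ∈ T, nz χ * (charDegree (χ : G → ℂ) : ℤ) = 0 := by
    have h1 := Finset.add_sum_erase Bf (fun χ => nz χ * (charDegree (χ : G → ℂ) : ℤ)) hoGBf
    have hd1 : charDegree (oG : G → ℂ) = 1 := charDegree_eq (by rw [hoG]; simp)
    rw [hnz1, hd1, ← hT, h1sum] at h1
    simpa using h1
  have hex2 : ∃ ζ₂ ∈ T, nz ζ₂ = 1 := by
    by_contra hcon
    push Not at hcon
    have hall : ∀ χ ∈ T, nz χ = -1 := fun χ hχ => (hTpm χ hχ).resolve_left (hcon χ hχ)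
    have h3 : ∑ χ ∈ T, nz χ * (charDegree (χ : G → ℂ) : ℤ) ≤ ∑ χ ∈ T, (-1 : ℤ) := by
      apply Finset.sum_le_sum
      intro χ hχ
      rw [hall χ hχ]
      have h4 : (1 : ℤ) ≤ (charDegree (χ : G → ℂ) : ℤ) := by exact_mod_cast (hdeg χ).2
      linarith
    rw [Finset.sum_const, hTcard] at h3
    simp at h3
    linarith
  have hex4 : ∃ ζ₄ ∈ T, nz ζ₄ = -1 := by
    by_contra hcon
    push Not at hcon
    have hall : ∀ χ ∈ T, nz χ = 1 := fun χ hχ => (hTpm χ hχ).resolve_right (hcon χ hχ)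
    have h3 : 0 ≤ ∑ χ ∈ T, nz χ * (charDegree (χ : G → ℂ) : ℤ) := by
      apply Finset.sum_nonneg
      intro χ hχ
      rw [hall χ hχ]
      positivity
    linarith
  obtain ⟨ζ₂, hζ₂T, hζ₂⟩ := hex2
  obtain ⟨ζ₄, hζ₄T, hζ₄⟩ := hex4
  have h24 : ζ₂ ≠ ζ₄ := by
    intro h
    rw [h, hζ₄] at hζ₂
    norm_num at hζ₂
  have hc1 : ((T.erase ζ₂).erase ζ₄).card = 1 := by
    rw [Finset.card_erase_of_mem (Finset.mem_erase.mpr ⟨h24.symm, hζ₄T⟩),
      Finset.card_erase_of_mem hζ₂T, hTcard]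
  obtain ⟨ζ₃, hζ₃⟩ := Finset.card_eq_one.mp hc1
  have hζ₃mem : ζ₃ ∈ (T.erase ζ₂).erase ζ₄ := by
    rw [hζ₃]
    exact Finset.mem_singleton_self _
  have h34 : ζ₃ ≠ ζ₄ := Finset.ne_of_mem_erase hζ₃mem
  have hζ₃' := Finset.mem_of_mem_erase hζ₃mem
  have h32 : ζ₃ ≠ ζ₂ := Finset.ne_of_mem_erase hζ₃'
  have hζ₃T : ζ₃ ∈ T := Finset.mem_of_mem_erase hζ₃'
  have hTeq : T = {ζ₂, ζ₃, ζ₄} := by
    ext χ
    simp only [Finset.mem_insert, Finset.mem_singleton]
    constructor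
    · intro hχ
      by_cases h2 : χ = ζ₂
      · left
        exact h2
      by_cases h4 : χ = ζ₄
      · right
        right
        exact h4
      right
      left
      have h5 : χ ∈ (T.erase ζ₂).erase ζ₄ :=
        Finset.mem_erase.mpr ⟨h4, Finset.mem_erase.mpr ⟨h2, hχ⟩⟩
      rw [hζ₃] at h5
      exact Finset.mem_singleton.mp h5
    · rintro (rfl | rfl | rfl) <;> assumption
  have hcoe1 : ∀ χ : IrrCharacter G, (χ : G → ℂ) = (fun _ => 1) → χ = oG := by
    intro χ h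
    apply Subtype.ext
    rw [h, hoG]
  refine ⟨ζ₂, ζ₃, ζ₄, nz ζ₃, hTpm ζ₃ hζ₃T, fun h => hTne1 ζ₂ hζ₂T (hcoe1 ζ₂ h),
    fun h => hTne1 ζ₃ hζ₃T (hcoe1 ζ₃ h), h32.symm, h24, h34, ?_, ?_, ?_, hcong ζ₃, ?_, ?_⟩
  · ext χ
    constructor
    · intro hχ
      by_cases h : χ = oG
      · left
        rw [h, hoG]
      · right
        have h5 : χ ∈ T := by
          rw [hT]
          exact Finset.mem_erase.mpr ⟨h, (hBfmem χ).mpr hχ⟩
        rw [hTeq] at h5
        simpa using h5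
    · rintro (h | h | h | h)
      · rw [hcoe1 χ h]
        exact honeB
      · rw [h]
        exact hTmem ζ₂ hζ₂T
      · rw [h]
        exact hTmem ζ₃ hζ₃T
      · rw [h]
        exact hTmem ζ₄ hζ₄T
  · intro z' hz'
    have hv : ∀ χ : IrrCharacter G, (χ : G → ℂ) z' = (nz χ : ℂ) := by
      intro χ
      rw [← hnz χ]
      exact (isClassFunction_iff_isConj.mp (isClassFunction_of_irr χ.2)) _ _ (hone _ _ hz' hz)
    refine ⟨?_, hv ζ₃, ?_⟩
    · rw [hv, hζ₂]
      simp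
    · rw [hv, hζ₄]
      simp
  · have h := hcong ζ₂
    rwa [hζ₂] at h
  · have h := hcong ζ₄
    rw [hζ₄] at h
    simpa using h
  · intro y hy
    have h := horth y hy
    rw [← Finset.insert_erase hoGBf, Finset.sum_insert (Finset.notMem_erase _ _), ← hT, hTeq,
      Finset.sum_insert (by simp [h32.symm, h24]), Finset.sum_insert (by simp [h34]),
      Finset.sum_singleton, hnz1, hζ₂, hζ₄, hoG] at h
    push_cast at h
    linear_combination h

end Cfsg.Agent.Lib_helper3_Klein2
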