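import Cfsg.Statements.S0942
import Cfsg.Agent.Lib_helper3_ThirdMain3
import Cfsg.Agent.S0938
import Cfsg.Agent.Lib_helper3_BlockInfl

set_option autoImplicit false
open Cfsg

namespace Cfsg.Agent.S0942
open Cfsg.Agent.Lib_helper3_CharBasic Cfsg.Agent.Lib_helper3_CharMore
  Cfsg.Agent.Lib_helper3_Local Cfsg.Agent.Lib_helper3_Local2 Cfsg.Agent.Lib_helper3_BlockAlg
  Cfsg.Agent.Lib_helper3_IdemSupp Cfsg.Agent.Lib_helper3_DefectCard2
  Cfsg.Agent.Lib_helper3_ThirdMain Cfsg.Agent.Lib_helper3_ThirdMain2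
  Cfsg.Agent.Lib_helper3_SecondMain2 Cfsg.Agent.Lib_helper3_SecondMain3
  Cfsg.Agent.Lib_helper3_ExtFirstMain Cfsg.Agent.Lib_helper3_CharAvg
  Cfsg.Agent.Lib_helper3_BlockCover Cfsg.Agent.Lib_helper3_ThirdMain3
  Cfsg.Agent.Lib_helper3_BlockInfl


/-- Let u be a p-element of the finite group G, let v lie in the largest normal subgroup of C_G(u) of order prime to p, and let χ belong to the principal block (relative to a maximal ideal M of the algebraic integers containing p). Then χ (u * v) = χ u. -/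
theorem result {G : Type*} [Group G] [Finite G] (p : ℕ) [Fact p.Prime] (M : Ideal Cfsg.AlgInt) (hM : Cfsg.IsPModular p M) (u : G) (hu : ∃ k : ℕ, orderOf u = p ^ k) (v : G) (hv : v ∈ Cfsg.centralizerPPrimeCore p u) (χ : Cfsg.IrrCharacter G) (hχ : χ ∈ Cfsg.principalBlock M G) : (χ : G → ℂ) (u * v) = (χ : G → ℂ) u := by
  classical
  let inst : Fintype G := Fintype.ofFinite G
  let inst2 : Fintype (Subgroup.centralizer ({u} : Set G)) := Fintype.ofFinite _
  have hp : p.Prime := Fact.out
  have hMp : M.IsPrime := isPrime_of_modular hM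
  obtain ⟨w, hw, rfl⟩ := hv
  have hB : IsPBlock M (principalBlock M G) := ⟨⟨fun _ => 1, isIrrCharacter_one⟩, rfl⟩
  have hb : IsPBlock M (principalBlock M (Subgroup.centralizer ({u} : Set G))) :=
    ⟨⟨fun _ => 1, isIrrCharacter_one⟩, rfl⟩
  obtain ⟨oC, hoC⟩ : ∃ o : IrrCharacter (Subgroup.centralizer ({u} : Set G)),
      (o : Subgroup.centralizer ({u} : Set G) → ℂ) = fun _ => 1 :=
    ⟨⟨_, isIrrCharacter_one⟩, rfl⟩
  have hPC : principalBlock M (Subgroup.centralizer ({u} : Set G)) =
      blockOf M (oC : Subgroup.centralizer ({u} : Set G) → ℂ) := by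
    rw [hoC]
    rfl
  have hoCmem : oC ∈ principalBlock M (Subgroup.centralizer ({u} : Set G)) := by
    rw [hPC]
    exact mem_blockOf_self hMp.ne_top oC
  obtain ⟨K, hKn, hKeq, -, -, hKmax⟩ := Cfsg.Agent.S0938.result p M hM
    (principalBlock M (Subgroup.centralizer ({u} : Set G))) hb oC hoCmem
  have hcop := card_pPrimeCore_coprime p (Subgroup.centralizer ({u} : Set G))
  have hwK : w ∈ K := by
    refine hKmax (pPrimeCore p (Subgroup.centralizer ({u} : Set G)))
      (pPrimeCore_normal' p _) ?_ (fun g _ => by rw [hoC]) hw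
    intro hdvd
    exact (hp.coprime_iff_not_dvd.mp hcop.symm) hdvd
  -- the order of w is prime to p
  have hwreg : ¬ p ∣ orderOf w := by
    intro hdvd
    have h1 : orderOf (⟨w, hw⟩ : pPrimeCore p (Subgroup.centralizer ({u} : Set G))) ∣
        Nat.card (pPrimeCore p (Subgroup.centralizer ({u} : Set G))) := orderOf_dvd_natCard _
    rw [Subgroup.orderOf_mk] at h1
    exact (hp.coprime_iff_not_dvd.mp hcop.symm) (hdvd.trans h1)
  have hwu : (w : G) * u = u * (w : G) := Subgroup.mem_centralizer_singleton_iff.mp w.2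
  have huC : u ∈ Subgroup.centralizer ({u} : Set G) :=
    Subgroup.mem_centralizer_singleton_iff.mpr rfl
  -- characters in the principal block of the centralizer are constant on cosets of K
  have hconst : ∀ ξ ∈ principalBlock M (Subgroup.centralizer ({u} : Set G)),
      (ξ : Subgroup.centralizer ({u} : Set G) → ℂ) (⟨u, huC⟩ * w) =
        (ξ : Subgroup.centralizer ({u} : Set G) → ℂ) ⟨u, huC⟩ := by
    intro ξ hξ
    have hker : ∀ n ∈ K, (ξ : Subgroup.centralizer ({u} : Set G) → ℂ) n =
        (ξ : Subgroup.centralizer ({u} : Set G) → ℂ) 1 := by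
      intro n hn
      have hn' : n ∈ (K : Set (Subgroup.centralizer ({u} : Set G))) := hn
      rw [hKeq] at hn'
      exact hn' ξ hξ
    obtain ⟨ξ', -, hξ'⟩ := exists_descent K ξ.2 hker
    rw [hξ']
    show ξ' (QuotientGroup.mk (⟨u, huC⟩ * w)) = ξ' (QuotientGroup.mk ⟨u, huC⟩)
    congr 1
    rw [QuotientGroup.eq]
    simpa using K.inv_mem hwK
  -- the key formula
  have key : ∀ h : Subgroup.centralizer ({u} : Set G), IsPPart p (h : G) u →
      (χ : G → ℂ) (h : G) = blockPart (principalBlock M (Subgroup.centralizer ({u} : Set G)))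
        (fun c : Subgroup.centralizer ({u} : Set G) => (χ : G → ℂ) (c : G)) h := by
    intro h hh
    have h1 := sum_indSet hM u hu (principalBlock M G) hB χ h hh
    rw [if_pos hχ, indSet_principal hM u hu] at h1
    have hcl : IsClassFunction (Subgroup.centralizer ({u} : Set G))
        (fun c : Subgroup.centralizer ({u} : Set G) => (χ : G → ℂ) (c : G)) := by
      intro c k
      exact isClassFunction_of_irr χ.2 (c : G) (k : G)
    rw [blockPart_eq _ _ hcl h, finsum_eq_sum_of_fintype, ← h1]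
    rfl
  have e1 := key (⟨u, huC⟩ * w) ⟨(w : G), rfl, hwu.symm, hu, by rwa [Subgroup.orderOf_coe]⟩
  have e2 := key ⟨u, huC⟩ ⟨1, mul_one u, Commute.one_right u, hu, by
    rw [orderOf_one]; exact hp.one_lt.ne' ∘ Nat.dvd_one.mp⟩
  have h0 : ∀ h : Subgroup.centralizer ({u} : Set G),
      blockPart (principalBlock M (Subgroup.centralizer ({u} : Set G)))
        (fun c : Subgroup.centralizer ({u} : Set G) => (χ : G → ℂ) (c : G)) h =
      ∑ᶠ ξ ∈ principalBlock M (Subgroup.centralizer ({u} : Set G)),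
        classInner (fun c : Subgroup.centralizer ({u} : Set G) => (χ : G → ℂ) (c : G))
          (ξ : Subgroup.centralizer ({u} : Set G) → ℂ) *
          (ξ : Subgroup.centralizer ({u} : Set G) → ℂ) h := fun h => rfl
  rw [h0] at e1 e2
  have e3 : (χ : G → ℂ) (u * (w : G)) = (χ : G → ℂ) u := by
    have e1' : (χ : G → ℂ) (u * (w : G)) = _ := e1
    have e2' : (χ : G → ℂ) u = _ := e2
    rw [e1', e2']
    apply finsum_mem_congr rfl
    intro ξ hξ
    rw [hconst ξ hξ]
  exact e3
end Cfsg.Agent.S0942
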