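import Mathlib
import Cfsg.Prelude.Def_Characters
import Cfsg.Prelude.Def_Blocks
import Cfsg.Prelude.Def_BlockRank
import Cfsg.Agent.Lib_helper3_Klein2
import Cfsg.Agent.S0942

set_option autoImplicit false
open Cfsg
open Cfsg.Agent.Lib_helper3_CharBasic Cfsg.Agent.Lib_helper3_CharMore
  Cfsg.Agent.Lib_helper3_Local Cfsg.Agent.Lib_helper3_Local2 Cfsg.Agent.Lib_helper3_BlockAlg
  Cfsg.Agent.Lib_helper3_SecondMain Cfsg.Agent.Lib_helper3_SecondMain3
  Cfsg.Agent.Lib_helper3_ThirdMain3 Cfsg.Agent.Lib_helper3_Klein1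
  Cfsg.Agent.Lib_helper3_Klein2
open scoped ComplexConjugate

namespace Cfsg.Agent.Lib_helper3_Klein3

universe u

variable {G : Type u} [Group G] [Finite G]

/-- In a group with Klein four Sylow 2-subgroups and one class of involutions, the characters of
the principal 2-block are constant on the elements of even order. -/
theorem klein_singular_value (M : Ideal AlgInt) (hM : IsPModular 2 M) (P : Sylow 2 G)
    (hP : IsKleinFour (P : Subgroup G))
    (hone : ∀ s t : G, orderOf s = 2 → orderOf t = 2 → IsConj s t) (z : G) (hz : orderOf z = 2)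
    (g : G) (hg : 2 ∣ orderOf g) (χ : IrrCharacter G) (hχ : χ ∈ principalBlock M G) :
    (χ : G → ℂ) g = (χ : G → ℂ) z := by
  have : Fact (Nat.Prime 2) := ⟨Nat.prime_two⟩
  obtain ⟨u, y, huy, hcomm, ⟨k, hk⟩, hy⟩ := exists_isPPart Nat.prime_two g
  have hu1 : u ≠ 1 := by
    intro h
    rw [h, one_mul] at huy
    rw [huy] at hy
    exact hy hg
  -- u is an involution
  have hu2 : orderOf u = 2 := by
    have hZ : IsPGroup 2 (Subgroup.zpowers u) := by
      apply IsPGroup.of_card (n := k)
      rw [Nat.card_zpowers, hk]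
    obtain ⟨P₁, hP₁⟩ := hZ.exists_le_sylow
    obtain ⟨a, ha⟩ := MulAction.exists_smul_eq G P P₁
    have hx : u ∈ (P₁ : Subgroup G) := hP₁ (Subgroup.mem_zpowers u)
    rw [← ha, Sylow.coe_subgroup_smul, Subgroup.mem_pointwise_smul_iff_inv_smul_mem] at hx
    have hx' : a⁻¹ * u * a ∈ (P : Subgroup G) := by
      have h1 : (MulAut.conj a)⁻¹ • u = a⁻¹ * u * a := by
        rw [MulAut.smul_def, MulAut.conj_inv_apply]
      rw [← h1]
      exact hx
    have h2 : (⟨a⁻¹ * u * a, hx'⟩ : (P : Subgroup G)) ^ Monoid.exponent (P : Subgroup G) = 1 :=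
      Monoid.pow_exponent_eq_one _
    rw [hP.exponent_two] at h2
    have h3 : (a⁻¹ * u * a) ^ 2 = 1 := congrArg Subtype.val h2
    have h4 : u ^ 2 = a * (a⁻¹ * u * a) ^ 2 * a⁻¹ := by
      rw [pow_two, pow_two]
      group
    apply orderOf_eq_prime
    · rw [h4, h3]
      group
    · exact hu1
  obtain ⟨-, k', hk'⟩ := klein_centralizer P hP u hu2
  have hyC : y ∈ Subgroup.centralizer ({u} : Set G) := by
    rw [Subgroup.mem_centralizer_singleton_iff]
    exact hcomm.eq.symm
  have hyo : ¬ 2 ∣ orderOf (⟨y, hyC⟩ : Subgroup.centralizer ({u} : Set G)) := by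
    rw [← Subgroup.orderOf_coe]
    exact hy
  have hyc := mem_pPrimeCore_of_regular Nat.prime_two hk' ⟨y, hyC⟩ hyo
  have hv : y ∈ centralizerPPrimeCore 2 u := by
    unfold centralizerPPrimeCore
    exact Subgroup.mem_map.mpr ⟨⟨y, hyC⟩, hyc, rfl⟩
  have h1 := Cfsg.Agent.S0942.result 2 M hM u ⟨1, by rw [hu2, pow_one]⟩ y hv χ hχ
  rw [← huy, h1]
  exact (isClassFunction_iff_isConj.mp (isClassFunction_of_irr χ.2)) _ _ (hone _ _ hu2 hz)

/-- The principal 2-block of a group with Klein four Sylow 2-subgroups and one class of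
involutions has 2-regular rank three. -/
theorem klein_rank (M : Ideal AlgInt) (hM : IsPModular 2 M) (P : Sylow 2 G)
    (hP : Nat.card P = 4) (hexp : ∀ x : P, x * x = 1)
    (hone : ∀ s t : G, orderOf s = 2 → orderOf t = 2 → IsConj s t) :
    blockRank 2 (principalBlock M G) = 3 := by
  classical
  let inst : Fintype G := Fintype.ofFinite G
  have hK : IsKleinFour (P : Subgroup G) := by
    refine ⟨hP, ?_⟩
    have h1 : Monoid.exponent (P : Subgroup G) ∣ 2 := by
      apply Monoid.exponent_dvd_of_forall_pow_eq_one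
      intro x
      rw [pow_two]
      exact hexp x
    rcases (Nat.dvd_prime Nat.prime_two).mp h1 with h | h
    · exfalso
      have h2 : Subsingleton (P : Subgroup G) := Monoid.exp_eq_one_iff.mp h
      have h3 : Nat.card (P : Subgroup G) = 1 := Nat.card_unique
      have h4 : Nat.card (P : Subgroup G) = 4 := hP
      omega
    · exact h
  obtain ⟨ζ₂, ζ₃, ζ₄, ε, hε, h21, h31, h23, h24, h34, hB, hval, -, -, -, hrel⟩ :=
    klein_main M hM P hK hone
  obtain ⟨z, hz⟩ : ∃ z : G, orderOf z = 2 := by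
    have hnt : Nontrivial (P : Subgroup G) :=
      (Finite.one_lt_card_iff_nontrivial).mp (by rw [hP]; norm_num)
    obtain ⟨x, hx⟩ := exists_ne (1 : (P : Subgroup G))
    refine ⟨(x : G), orderOf_eq_prime ?_ (fun h => hx (Subtype.ext h))⟩
    rw [pow_two]
    exact congrArg Subtype.val (hexp x)
  obtain ⟨hz2, hz3, hz4⟩ := hval z hz
  have h41 : (ζ₄ : G → ℂ) ≠ (fun _ => 1) := by
    intro h
    rw [h] at hz4
    norm_num at hz4
  obtain ⟨r, hr⟩ : ∃ r : IrrCharacter G → G → ℂ,
      r = fun χ : IrrCharacter G => pRegularPart 2 (χ : G → ℂ) :=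
    ⟨_, rfl⟩
  have hr_reg : ∀ (χ : IrrCharacter G) (g : G), ¬ 2 ∣ orderOf g → r χ g = (χ : G → ℂ) g := by
    intro χ g hg
    rw [hr]
    unfold pRegularPart
    exact if_pos hg
  have hr_sing : ∀ (χ : IrrCharacter G) (g : G), 2 ∣ orderOf g → r χ g = 0 := by
    intro χ g hg
    rw [hr]
    unfold pRegularPart
    exact if_neg (fun h : IsPRegular 2 g => h hg)
  have hm2 : ζ₂ ∈ principalBlock M G := by
    rw [hB]
    exact Or.inr (Or.inl rfl)
  have hm3 : ζ₃ ∈ principalBlock M G := by
    rw [hB]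
    exact Or.inr (Or.inr (Or.inl rfl))
  have hm4 : ζ₄ ∈ principalBlock M G := by
    rw [hB]
    exact Or.inr (Or.inr (Or.inr rfl))
  have hrel' : ∀ χ : IrrCharacter G, (χ : G → ℂ) = (fun _ => 1) →
      r χ = r ζ₄ - r ζ₂ - (ε : ℂ) • r ζ₃ := by
    intro χ hχ
    funext g
    by_cases hg : 2 ∣ orderOf g
    · simp [hr_sing _ g hg]
    · simp only [Pi.sub_apply, Pi.smul_apply, smul_eq_mul]
      rw [hr_reg _ g hg, hr_reg _ g hg, hr_reg _ g hg, hr_reg _ g hg, hχ]
      have h1 := hrel g (Nat.not_even_iff_odd.mp (fun h => hg (even_iff_two_dvd.mp h)))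
      linear_combination h1
  have hspan : Submodule.span ℂ
      ((fun χ : IrrCharacter G => pRegularPart 2 (χ : G → ℂ)) '' principalBlock M G) =
      Submodule.span ℂ (Set.range ![r ζ₂, r ζ₃, r ζ₄]) := by
    apply le_antisymm
    · apply Submodule.span_le.mpr
      rintro _ ⟨χ, hχ, rfl⟩
      have hrχ : pRegularPart 2 (χ : G → ℂ) = r χ := by rw [hr]
      show pRegularPart 2 (χ : G → ℂ) ∈ _
      rw [hrχ]
      rw [hB] at hχ
      rcases hχ with h | h | h | h
      · rw [hrel' χ h]
        exact Submodule.sub_mem _ (Submodule.sub_mem _ (Submodule.subset_span ⟨2, rfl⟩)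
          (Submodule.subset_span ⟨0, rfl⟩))
          (Submodule.smul_mem _ _ (Submodule.subset_span ⟨1, rfl⟩))
      · rw [h]
        exact Submodule.subset_span ⟨0, rfl⟩
      · rw [h]
        exact Submodule.subset_span ⟨1, rfl⟩
      · rw [h]
        exact Submodule.subset_span ⟨2, rfl⟩
    · apply Submodule.span_mono
      rintro _ ⟨i, rfl⟩
      fin_cases i
      · exact ⟨ζ₂, hm2, by rw [hr]; rfl⟩
      · exact ⟨ζ₃, hm3, by rw [hr]; rfl⟩
      · exact ⟨ζ₄, hm4, by rw [hr]; rfl⟩
  have hli : LinearIndependent ℂ ![r ζ₂, r ζ₃, r ζ₄] := by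
    rw [Fintype.linearIndependent_iff]
    intro c hc
    rw [Fin.sum_univ_three] at hc
    simp only [Matrix.cons_val_zero, Matrix.cons_val_one, Matrix.cons_val_two,
      Matrix.head_cons, Matrix.tail_cons] at hc
    obtain ⟨Θ, hΘ⟩ : ∃ Θ : G → ℂ, Θ = c 0 • (ζ₂ : G → ℂ) + c 1 • (ζ₃ : G → ℂ) +
      c 2 • (ζ₄ : G → ℂ) := ⟨_, rfl⟩
    have hΘreg : ∀ g : G, ¬ 2 ∣ orderOf g → Θ g = 0 := by
      intro g hg
      have h1 := congrFun hc g
      simp only [Pi.add_apply, Pi.smul_apply, smul_eq_mul, Pi.zero_apply] at h1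
      rw [hr_reg _ g hg, hr_reg _ g hg, hr_reg _ g hg] at h1
      rw [hΘ]
      simp only [Pi.add_apply, Pi.smul_apply, smul_eq_mul]
      exact h1
    have hΘsing : ∀ g : G, 2 ∣ orderOf g → Θ g = c 0 + c 1 * (ε : ℂ) - c 2 := by
      intro g hg
      rw [hΘ]
      simp only [Pi.add_apply, Pi.smul_apply, smul_eq_mul]
      rw [klein_singular_value M hM P hK hone z hz g hg ζ₂ hm2,
        klein_singular_value M hM P hK hone z hz g hg ζ₃ hm3,
        klein_singular_value M hM P hK hone z hz g hg ζ₄ hm4, hz2, hz3, hz4]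
      ring
    have hin1 : classInner Θ (fun _ => 1) = 0 := by
      rw [hΘ, classInner_add_left, classInner_add_left, classInner_smul_left,
        classInner_smul_left, classInner_smul_left, irr_inner_ne ζ₂.2 isIrrCharacter_one h21,
        irr_inner_ne ζ₃.2 isIrrCharacter_one h31, irr_inner_ne ζ₄.2 isIrrCharacter_one h41]
      ring
    have hκ : c 0 + c 1 * (ε : ℂ) - c 2 = 0 := by
      rw [classInner_def] at hin1
      have h1 : ∑ g : G, Θ g * conj ((fun _ : G => (1 : ℂ)) g) =
          ∑ g : G, if 2 ∣ orderOf g then (c 0 + c 1 * (ε : ℂ) - c 2) else 0 := by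
        apply Finset.sum_congr rfl
        intro g _
        by_cases hg : 2 ∣ orderOf g
        · rw [if_pos hg, hΘsing g hg]
          simp
        · rw [if_neg hg, hΘreg g hg]
          simp
      rw [h1, ← Finset.sum_filter, Finset.sum_const, nsmul_eq_mul] at hin1
      rcases mul_eq_zero.mp hin1 with h | h
      · exact absurd h (inv_ne_zero card_ne_zero)
      · rcases mul_eq_zero.mp h with h | h
        · exfalso
          have h2 : (Finset.univ.filter (fun g : G => 2 ∣ orderOf g)).card ≠ 0 :=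
            Finset.card_ne_zero.mpr ⟨z, by simp [hz]⟩
          exact h2 (by exact_mod_cast h)
        · exact h
    have hΘ0 : Θ = 0 := by
      funext g
      by_cases hg : 2 ∣ orderOf g
      · rw [hΘsing g hg, hκ]
        rfl
      · rw [hΘreg g hg]
        rfl
    have e2 : classInner Θ (ζ₂ : G → ℂ) = c 0 := by
      rw [hΘ, classInner_add_left, classInner_add_left, classInner_smul_left,
        classInner_smul_left, classInner_smul_left, irr_inner_self ζ₂.2,
        irr_inner_ne ζ₃.2 ζ₂.2 (fun h => h23 (Subtype.ext h.symm)),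
        irr_inner_ne ζ₄.2 ζ₂.2 (fun h => h24 (Subtype.ext h.symm))]
      ring
    have e3 : classInner Θ (ζ₃ : G → ℂ) = c 1 := by
      rw [hΘ, classInner_add_left, classInner_add_left, classInner_smul_left,
        classInner_smul_left, classInner_smul_left, irr_inner_self ζ₃.2,
        irr_inner_ne ζ₂.2 ζ₃.2 (fun h => h23 (Subtype.ext h)),
        irr_inner_ne ζ₄.2 ζ₃.2 (fun h => h34 (Subtype.ext h.symm))]
      ring
    have e4 : classInner Θ (ζ₄ : G → ℂ) = c 2 := by
      rw [hΘ, classInner_add_left, classInner_add_left, classInner_smul_left,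
        classInner_smul_left, classInner_smul_left, irr_inner_self ζ₄.2,
        irr_inner_ne ζ₂.2 ζ₄.2 (fun h => h24 (Subtype.ext h)),
        irr_inner_ne ζ₃.2 ζ₄.2 (fun h => h34 (Subtype.ext h))]
      ring
    intro i
    fin_cases i
    · show c 0 = 0
      rw [← e2, hΘ0, classInner_zero_left]
    · show c 1 = 0
      rw [← e3, hΘ0, classInner_zero_left]
    · show c 2 = 0
      rw [← e4, hΘ0, classInner_zero_left]
  unfold blockRank
  rw [hspan, finrank_span_eq_card hli]
  rfl

end Cfsg.Agent.Lib_helper3_Klein3
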