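import Mathlib
import Cfsg.Prelude.Def_Characters
import Cfsg.Prelude.Def_Blocks
import Cfsg.Agent.Lib_helper3_BrauerHom2
import Cfsg.Agent.Lib_helper3_DefectCard
import Cfsg.Agent.S0906
import Cfsg.Agent.S0911

set_option autoImplicit false
open Cfsg
open Cfsg.Agent.Lib_helper3_CharBasic Cfsg.Agent.Lib_helper3_CharMore
  Cfsg.Agent.Lib_helper3_Local Cfsg.Agent.Lib_helper3_Local2 Cfsg.Agent.Lib_helper3_BlockAlg
  Cfsg.Agent.Lib_helper3_IdemSupp Cfsg.Agent.Lib_helper3_Residue
  Cfsg.Agent.Lib_helper3_BrauerHom2 Cfsg.Agent.Lib_helper3_DefectCard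
open scoped ComplexConjugate

namespace Cfsg.Agent.Lib_helper3_MinMax

universe u

variable {G : Type u} [Group G] [Fintype G] {M : Ideal AlgInt} {p : ℕ} [Fact p.Prime]

/-- The idempotent coefficient of a block lies in the local ideal at classes of defect larger
than the defect of the block. -/
theorem blockCoeff_memLocalIdeal_of_defect_gt (hM : IsPModular p M) {B : Set (IrrCharacter G)}
    (hB : IsPBlock M B) (x : G)
    (hx : blockDefect p B < (Nat.card (Subgroup.centralizer ({x} : Set G))).factorization p) :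
    MemLocalIdeal M (blockCoeff B x) := by
  classical
  have hp : p.Prime := Fact.out
  have hMm : M.IsMaximal := hM.2.1
  have hMp : M.IsPrime := hMm.isPrime
  by_contra hcc
  obtain ⟨g₀, hg₀⟩ := Cfsg.Agent.S0906.result p M hM B hB
  obtain ⟨D₀⟩ : Nonempty (Sylow p (Subgroup.centralizer ({g₀} : Set G))) := inferInstance
  obtain ⟨y, Q, hQ⟩ := (Cfsg.Agent.S0911.result p M hM B hB g₀ hg₀ D₀ x).1 (osima hB _) hcc
  have h1 := Subgroup.card_le_of_le hQ
  rw [Subgroup.card_map_of_injective (Subgroup.subtype_injective _),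
    Subgroup.card_map_of_injective (MulAut.conj y).injective,
    Subgroup.card_map_of_injective (Subgroup.subtype_injective _),
    Sylow.card_eq_multiplicity D₀, Sylow.card_eq_multiplicity Q,
    card_defect hM hB hg₀] at h1
  have h2 := (Nat.pow_le_pow_iff_right hp.one_lt).mp h1
  omega

/-- The central characters of a block lie in the local ideal at classes of defect smaller
than the defect of the block. -/
theorem centralChar_memLocalIdeal_of_defect_lt (hM : IsPModular p M) {B : Set (IrrCharacter G)}
    (hB : IsPBlock M B) (χ : IrrCharacter G) (hχ : χ ∈ B) (x : G)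
    (hx : (Nat.card (Subgroup.centralizer ({x} : Set G))).factorization p < blockDefect p B) :
    MemLocalIdeal M (centralChar (χ : G → ℂ) x) := by
  classical
  have hp : p.Prime := Fact.out
  have hMm : M.IsMaximal := hM.2.1
  have hMp : M.IsPrime := hMm.isPrime
  by_contra hcc
  obtain ⟨g₀, hg₀⟩ := Cfsg.Agent.S0906.result p M hM B hB
  obtain ⟨D₀⟩ : Nonempty (Sylow p (Subgroup.centralizer ({g₀} : Set G))) := inferInstance
  obtain ⟨y, Q, hQ⟩ := (Cfsg.Agent.S0911.result p M hM B hB g₀ hg₀ D₀ x).2 ⟨χ, hχ, hcc⟩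
  have h1 := Subgroup.card_le_of_le hQ
  rw [Subgroup.card_map_of_injective (MulAut.conj y).injective,
    Subgroup.card_map_of_injective (Subgroup.subtype_injective _),
    Subgroup.card_map_of_injective (Subgroup.subtype_injective _),
    Sylow.card_eq_multiplicity D₀, Sylow.card_eq_multiplicity Q,
    card_defect hM hB hg₀] at h1
  have h2 := (Nat.pow_le_pow_iff_right hp.one_lt).mp h1
  omega

/-- Characters in blocks of the same defect `d` whose central characters agree on the
`p`-regular classes of defect `d` lie in the same block. -/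
theorem sameBlock_of_agree_on_defect (hM : IsPModular p M) (d : ℕ) (χ ψ : IrrCharacter G)
    (hχ : blockDefect p (blockOf M (χ : G → ℂ)) = d)
    (hψ : blockDefect p (blockOf M (ψ : G → ℂ)) = d)
    (h : ∀ x : G, ¬ p ∣ orderOf x →
      (Nat.card (Subgroup.centralizer ({x} : Set G))).factorization p = d →
      MemLocalIdeal M (centralChar (χ : G → ℂ) x - centralChar (ψ : G → ℂ) x)) :
    SameBlock M (χ : G → ℂ) (ψ : G → ℂ) := by
  classical
  have hp : p.Prime := Fact.out
  have hMm : M.IsMaximal := hM.2.1
  have hMp : M.IsPrime := hMm.isPrime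
  have := Fintype.ofFinite (ConjClasses G)
  have hBχ : IsPBlock M (blockOf M (χ : G → ℂ)) := ⟨χ, rfl⟩
  have hBψ : IsPBlock M (blockOf M (ψ : G → ℂ)) := ⟨ψ, rfl⟩
  have hχB : χ ∈ blockOf M (χ : G → ℂ) := mem_blockOf_self hMp.ne_top χ
  have hψB : ψ ∈ blockOf M (ψ : G → ℂ) := mem_blockOf_self hMp.ne_top ψ
  have hecl := isClassFunction_blockCoeff (blockOf M (χ : G → ℂ))
  have key : MemLocalIdeal M (Om (χ : G → ℂ) (blockCoeff (blockOf M (χ : G → ℂ))) -
      Om (ψ : G → ℂ) (blockCoeff (blockOf M (χ : G → ℂ)))) := by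
    rw [om_eq_sum_conjClasses (isClassFunction_of_irr χ.2) hecl,
      om_eq_sum_conjClasses (isClassFunction_of_irr ψ.2) hecl, ← Finset.sum_sub_distrib]
    apply memLocalIdeal_sum
    intro C _
    rw [← mul_sub]
    by_cases hreg : p ∣ orderOf (Quotient.out C)
    · rw [blockCoeff_eq_zero_of_singular hM (fun g => osima hBχ g) _ hreg, zero_mul]
      exact memLocalIdeal_zero hMp.ne_top
    · rcases lt_trichotomy ((Nat.card (Subgroup.centralizer
          ({Quotient.out C} : Set G))).factorization p) d with hdef | hdef | hdef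
      · apply memLocalIdeal_mul_left (osima hBχ _)
        exact memLocalIdeal_sub
          (centralChar_memLocalIdeal_of_defect_lt hM hBχ χ hχB _ (by rw [hχ]; exact hdef))
          (centralChar_memLocalIdeal_of_defect_lt hM hBψ ψ hψB _ (by rw [hψ]; exact hdef))
      · exact memLocalIdeal_mul_left (osima hBχ _) (h _ hreg hdef)
      · rw [mul_comm]
        apply memLocalIdeal_mul_left
        · exact memLocalRing_sub (memLocalRing_centralChar χ.2 _) (memLocalRing_centralChar ψ.2 _)
        · exact blockCoeff_memLocalIdeal_of_defect_gt hM hBχ _ (by rw [hχ]; exact hdef)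
  rw [om_blockCoeff_of_mem hχB] at key
  by_contra hnot
  have hψnot : ψ ∉ blockOf M (χ : G → ℂ) := hnot
  rw [om_blockCoeff_of_not_mem hψnot, sub_zero] at key
  exact not_memLocalIdeal_one key

end Cfsg.Agent.Lib_helper3_MinMax
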