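import Mathlib
import Cfsg.Prelude.Def_Characters
import Cfsg.Prelude.Def_Blocks
import Cfsg.Agent.Lib_helper3_BlockDom
import Cfsg.Agent.Lib_helper3_DefectLoc2
import Cfsg.Agent.Lib_helper3_ConjPair

set_option autoImplicit false
open Cfsg
open Cfsg.Agent.Lib_helper3_CharBasic Cfsg.Agent.Lib_helper3_CharMore
  Cfsg.Agent.Lib_helper3_Local Cfsg.Agent.Lib_helper3_Local2 Cfsg.Agent.Lib_helper3_BlockAlg
  Cfsg.Agent.Lib_helper3_BlockInfl Cfsg.Agent.Lib_helper3_BlockDom
open scoped ComplexConjugate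

namespace Cfsg.Agent.Lib_helper3_QuotDefect

universe u

variable {G : Type u} [Group G] [Finite G] {p : ℕ} [Fact p.Prime] {M : Ideal AlgInt}

omit [Finite G] [Fact p.Prime] in
/-- The central character of an inflated function, with the explicit index factor. -/
theorem centralChar_infl' (N : Subgroup G) [N.Normal] (g : G) (χ : G ⧸ N → ℂ) :
    centralChar (χ ∘ QuotientGroup.mk : G → ℂ) g =
      (((Subgroup.centralizer ({g} : Set G)).relIndex ((Subgroup.centralizer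
        ({(QuotientGroup.mk g : G ⧸ N)} : Set (G ⧸ N))).comap (QuotientGroup.mk' N)) : ℕ) : ℂ) *
        centralChar χ (QuotientGroup.mk g) := by
  obtain ⟨H, hH⟩ : ∃ H : Subgroup G, H = (Subgroup.centralizer
      ({(QuotientGroup.mk g : G ⧸ N)} : Set (G ⧸ N))).comap (QuotientGroup.mk' N) := ⟨_, rfl⟩
  have hle : Subgroup.centralizer ({g} : Set G) ≤ H := by
    intro k hk
    rw [hH, Subgroup.mem_comap, Subgroup.mem_centralizer_singleton_iff]
    rw [Subgroup.mem_centralizer_singleton_iff] at hk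
    show (QuotientGroup.mk k : G ⧸ N) * QuotientGroup.mk g = QuotientGroup.mk g * QuotientGroup.mk k
    rw [← QuotientGroup.mk_mul, ← QuotientGroup.mk_mul, hk]
  have hidx : H.index = (Subgroup.centralizer
      ({(QuotientGroup.mk g : G ⧸ N)} : Set (G ⧸ N))).index := by
    rw [hH]
    exact Subgroup.index_comap_of_surjective _ (QuotientGroup.mk'_surjective N)
  have h1 := Subgroup.relIndex_mul_index hle
  rw [← hH]
  unfold centralChar
  rw [← h1, hidx]
  push_cast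
  show _ * _ * χ (QuotientGroup.mk g) / χ (QuotientGroup.mk (1 : G)) = _
  rw [QuotientGroup.mk_one]
  ring

/-- A conjugate of a defect group is a defect group. -/
theorem defect_map_conj (B : Set (IrrCharacter G)) (D : Subgroup G)
    (hD : IsDefectGroup p M B D) (y : G) :
    IsDefectGroup p M B (D.map (MulAut.conj y).toMonoidHom) := by
  classical
  have instG : Fintype G := Fintype.ofFinite G
  obtain ⟨g, hg, S, rfl⟩ := hD
  refine ⟨y * g * y⁻¹, Cfsg.Agent.Lib_helper3_DefectLoc2.isDefectClass_conj hg y, ?_⟩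
  have hmem : ∀ c : Subgroup.centralizer ({g} : Set G),
      ((MulAut.conj y).toMonoidHom.comp (Subgroup.centralizer ({g} : Set G)).subtype) c ∈
        Subgroup.centralizer ({y * g * y⁻¹} : Set G) := by
    intro c
    rw [Subgroup.mem_centralizer_singleton_iff]
    have hc := Subgroup.mem_centralizer_singleton_iff.mp c.2
    show y * (c : G) * y⁻¹ * (y * g * y⁻¹) = y * g * y⁻¹ * (y * (c : G) * y⁻¹)
    calc y * (c : G) * y⁻¹ * (y * g * y⁻¹) = y * ((c : G) * g) * y⁻¹ := by group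
      _ = y * (g * (c : G)) * y⁻¹ := by rw [hc]
      _ = y * g * y⁻¹ * (y * (c : G) * y⁻¹) := by group
  obtain ⟨φ, hφ⟩ : ∃ φ : Subgroup.centralizer ({g} : Set G) →*
      Subgroup.centralizer ({y * g * y⁻¹} : Set G), ∀ c, ((φ c : _) : G) = y * (c : G) * y⁻¹ :=
    ⟨((MulAut.conj y).toMonoidHom.comp (Subgroup.centralizer ({g} : Set G)).subtype).codRestrict
      _ hmem, fun c => rfl⟩
  have hsurj : Function.Surjective φ := by
    intro c'
    have hc' := Subgroup.mem_centralizer_singleton_iff.mp c'.2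
    refine ⟨⟨y⁻¹ * (c' : G) * y, ?_⟩, Subtype.ext ?_⟩
    · rw [Subgroup.mem_centralizer_singleton_iff]
      calc y⁻¹ * (c' : G) * y * g = y⁻¹ * ((c' : G) * (y * g * y⁻¹)) * y := by group
        _ = y⁻¹ * ((y * g * y⁻¹) * (c' : G)) * y := by rw [hc']
        _ = g * (y⁻¹ * (c' : G) * y) := by group
    · rw [hφ]
      show y * (y⁻¹ * (c' : G) * y) * y⁻¹ = (c' : G)
      group
  refine ⟨S.mapSurjective hsurj, ?_⟩
  rw [Sylow.coe_mapSurjective, Subgroup.map_map, Subgroup.map_map]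
  congr 1
  exact MonoidHom.ext fun c => (hφ c).symm

omit [Finite G] [Fact p.Prime] in
theorem conj_cancel_aux {H : Type*} [Group H] (t x d : H) :
    (t * x)⁻¹ * (t * (x * d * x⁻¹) * t⁻¹) * ((t * x)⁻¹)⁻¹ = d := by
  group

/-- A `p`-subgroup of the preimage of `Y` whose index there is prime to `p` has image containing
a conjugate of any Sylow `p`-subgroup of `Y`. -/
theorem image_conj_le (N : Subgroup G) [N.Normal] (Y : Subgroup (G ⧸ N)) (P₀ : Subgroup G)
    (hP₀p : IsPGroup p P₀) (hP₀L : P₀ ≤ Y.comap (QuotientGroup.mk' N))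
    (hidx : ¬ p ∣ P₀.relIndex (Y.comap (QuotientGroup.mk' N))) (Q : Sylow p Y) :
    ∃ t : G ⧸ N, ((Q : Subgroup Y).map Y.subtype).map (MulAut.conj t).toMonoidHom ≤
      P₀.map (QuotientGroup.mk' N) := by
  classical
  have hp : p.Prime := Fact.out
  have instQ : Fintype (G ⧸ N) := Fintype.ofFinite _
  have hPbY : P₀.map (QuotientGroup.mk' N) ≤ Y := by
    intro z hz
    obtain ⟨a, ha, rfl⟩ := Subgroup.mem_map.mp hz
    exact Subgroup.mem_comap.mp (hP₀L ha)
  have h3 : ¬ p ∣ (P₀.map (QuotientGroup.mk' N)).relIndex Y := by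
    have e1 : ((P₀.map (QuotientGroup.mk' N)).comap (QuotientGroup.mk' N)).relIndex
        (Y.comap (QuotientGroup.mk' N)) = (P₀.map (QuotientGroup.mk' N)).relIndex Y := by
      rw [Subgroup.relIndex_comap,
        Subgroup.map_comap_eq_self_of_surjective (QuotientGroup.mk'_surjective N)]
    have e2 := Subgroup.relIndex_dvd_of_le_left (Y.comap (QuotientGroup.mk' N))
      (Subgroup.le_comap_map (QuotientGroup.mk' N) P₀)
    rw [e1] at e2
    exact fun h => hidx (h.trans e2)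
  obtain ⟨t, htY, ht⟩ := Cfsg.Agent.Lib_helper3_DefectLoc.le_conj_sylow Y Q (hP₀p.map _) hPbY
  refine ⟨t, ?_⟩
  have hRY : ((Q : Subgroup Y).map Y.subtype).map (MulAut.conj t).toMonoidHom ≤ Y := by
    intro z hz
    obtain ⟨w, hw, rfl⟩ := Subgroup.mem_map.mp hz
    obtain ⟨v, -, rfl⟩ := Subgroup.mem_map.mp hw
    exact Y.mul_mem (Y.mul_mem htY v.2) (Y.inv_mem htY)
  have hRp : IsPGroup p (((Q : Subgroup Y).map Y.subtype).map (MulAut.conj t).toMonoidHom :
      Subgroup (G ⧸ N)) := (Q.2.map _).map _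
  have h4 := Subgroup.relIndex_mul_relIndex (P₀.map (QuotientGroup.mk' N)) _ Y ht hRY
  have h5 : ¬ p ∣ (P₀.map (QuotientGroup.mk' N)).relIndex
      (((Q : Subgroup Y).map Y.subtype).map (MulAut.conj t).toMonoidHom) := by
    intro h
    apply h3
    rw [← h4]
    exact h.mul_right _
  obtain ⟨n, hn⟩ := IsPGroup.iff_card.mp hRp
  have h6 := Subgroup.relIndex_dvd_card (P₀.map (QuotientGroup.mk' N))
    (((Q : Subgroup Y).map Y.subtype).map (MulAut.conj t).toMonoidHom)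
  rw [hn] at h6
  obtain ⟨j, -, hj⟩ := (Nat.dvd_prime_pow hp).mp h6
  have hj0 : j = 0 := by
    by_contra hne
    apply h5
    rw [hj]
    exact dvd_pow_self p hne
  rw [hj0, pow_zero] at hj
  exact Subgroup.relIndex_eq_one.mp hj

/-- Defect groups of a block of a quotient contained in a block of the group lift. -/
theorem quot_defect_lift (hM : IsPModular p M) (N : Subgroup G) [N.Normal]
    (Bbar : Set (IrrCharacter (G ⧸ N))) (hBbar : IsPBlock M Bbar) (B : Set (IrrCharacter G))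
    (hB : IsPBlock M B)
    (hsub : ∀ χ ∈ Bbar, ∀ ψ : IrrCharacter G,
      (ψ : G → ℂ) = (χ : G ⧸ N → ℂ) ∘ QuotientGroup.mk → ψ ∈ B)
    (Dbar : Subgroup (G ⧸ N)) (hDbar : IsDefectGroup p M Bbar Dbar) :
    ∃ P : Subgroup G, IsDefectGroup p M B P ∧ Dbar ≤ P.map (QuotientGroup.mk' N) := by
  classical
  have hp : p.Prime := Fact.out
  have hMp : M.IsPrime := hM.2.1.isPrime
  have instG : Fintype G := Fintype.ofFinite G
  have instQ : Fintype (G ⧸ N) := Fintype.ofFinite _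
  obtain ⟨ξ, hξ⟩ := id hBbar
  have hξmem : ξ ∈ Bbar := by
    rw [hξ]
    exact mem_blockOf_self hMp.ne_top ξ
  have hψmem : (⟨(ξ : G ⧸ N → ℂ) ∘ QuotientGroup.mk, isIrrCharacter_infl N ξ.2⟩ :
      IrrCharacter G) ∈ B := hsub ξ hξmem _ rfl
  obtain ⟨g₀, hg₀⟩ := Cfsg.Agent.S0906.result p M hM B hB
  obtain ⟨S₀, -⟩ : ∃ S₀ : Sylow p (Subgroup.centralizer ({g₀} : Set G)), True :=
    ⟨default, trivial⟩
  have hcc : ¬ MemLocalIdeal M (centralChar ((ξ : G ⧸ N → ℂ) ∘ QuotientGroup.mk : G → ℂ) g₀) :=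
    hg₀.2.2 _ hψmem
  have hform := centralChar_infl' N g₀ (ξ : G ⧸ N → ℂ)
  have hCL : Subgroup.centralizer ({g₀} : Set G) ≤ (Subgroup.centralizer
      ({(QuotientGroup.mk g₀ : G ⧸ N)} : Set (G ⧸ N))).comap (QuotientGroup.mk' N) := by
    intro k hk
    rw [Subgroup.mem_comap, Subgroup.mem_centralizer_singleton_iff]
    rw [Subgroup.mem_centralizer_singleton_iff] at hk
    show (QuotientGroup.mk k : G ⧸ N) * QuotientGroup.mk g₀ =
      QuotientGroup.mk g₀ * QuotientGroup.mk k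
    rw [← QuotientGroup.mk_mul, ← QuotientGroup.mk_mul, hk]
  have hm : ¬ p ∣ (Subgroup.centralizer ({g₀} : Set G)).relIndex ((Subgroup.centralizer
      ({(QuotientGroup.mk g₀ : G ⧸ N)} : Set (G ⧸ N))).comap (QuotientGroup.mk' N)) := by
    intro hdiv
    apply hcc
    rw [hform, mul_comm]
    exact memLocalIdeal_mul_left (memLocalRing_centralChar ξ.2 _) (memLocalIdeal_natCast hM hdiv)
  have hω : ¬ MemLocalIdeal M (centralChar (ξ : G ⧸ N → ℂ) (QuotientGroup.mk g₀)) := by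
    intro h
    apply hcc
    rw [hform]
    exact memLocalIdeal_mul_left (memLocalRing_natCast hMp.ne_top _) h
  obtain ⟨g₁, hg₁, D₁, rfl⟩ := hDbar
  obtain ⟨x, Q, hQ⟩ := (Cfsg.Agent.S0911.result p M hM Bbar hBbar g₁ hg₁ D₁
    (QuotientGroup.mk g₀)).2 ⟨ξ, hξmem, hω⟩
  obtain ⟨P₀, hP₀⟩ : ∃ P₀ : Subgroup G, P₀ = (S₀ : Subgroup _).map
      (Subgroup.centralizer ({g₀} : Set G)).subtype := ⟨_, rfl⟩
  have hP₀def : IsDefectGroup p M B P₀ := ⟨g₀, hg₀, S₀, hP₀⟩
  have hP₀C : P₀ ≤ Subgroup.centralizer ({g₀} : Set G) := by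
    rw [hP₀]
    intro z hz
    obtain ⟨c, -, rfl⟩ := Subgroup.mem_map.mp hz
    exact c.2
  have hP₀p : IsPGroup p P₀ := by
    rw [hP₀]
    exact S₀.2.map _
  have h1 : ¬ p ∣ P₀.relIndex (Subgroup.centralizer ({g₀} : Set G)) := by
    have e : P₀.subgroupOf (Subgroup.centralizer ({g₀} : Set G)) = (S₀ : Subgroup _) := by
      rw [hP₀]
      exact Subgroup.comap_map_eq_self_of_injective (Subgroup.subtype_injective _) _
    rw [Subgroup.relIndex, e]
    exact S₀.not_dvd_index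
  have h2 : ¬ p ∣ P₀.relIndex ((Subgroup.centralizer
      ({(QuotientGroup.mk g₀ : G ⧸ N)} : Set (G ⧸ N))).comap (QuotientGroup.mk' N)) := by
    rw [← Subgroup.relIndex_mul_relIndex P₀ _ _ hP₀C hCL]
    exact fun h => (hp.dvd_mul.mp h).elim h1 hm
  obtain ⟨t, ht⟩ := image_conj_le (p := p) N _ P₀ hP₀p (hP₀C.trans hCL) h2 Q
  obtain ⟨y, hy⟩ := QuotientGroup.mk_surjective ((t * x)⁻¹ : G ⧸ N)
  refine ⟨P₀.map (MulAut.conj y).toMonoidHom, defect_map_conj B P₀ hP₀def y, ?_⟩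
  intro d hd
  have hd1 : x * d * x⁻¹ ∈ ((D₁ : Subgroup _).map
      (Subgroup.centralizer ({g₁} : Set (G ⧸ N))).subtype).map (MulAut.conj x).toMonoidHom :=
    Subgroup.mem_map.mpr ⟨d, hd, rfl⟩
  have hd2 : t * (x * d * x⁻¹) * t⁻¹ ∈ P₀.map (QuotientGroup.mk' N) :=
    ht (Subgroup.mem_map.mpr ⟨_, hQ hd1, rfl⟩)
  obtain ⟨a, ha, haeq⟩ := Subgroup.mem_map.mp hd2
  refine Subgroup.mem_map.mpr ⟨y * a * y⁻¹, Subgroup.mem_map.mpr ⟨a, ha, rfl⟩, ?_⟩
  show (QuotientGroup.mk (y * a * y⁻¹) : G ⧸ N) = d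
  rw [QuotientGroup.mk_mul, QuotientGroup.mk_mul, QuotientGroup.mk_inv, hy]
  have haeq' : (QuotientGroup.mk a : G ⧸ N) = t * (x * d * x⁻¹) * t⁻¹ := haeq
  rw [haeq']
  exact conj_cancel_aux t x d

end Cfsg.Agent.Lib_helper3_QuotDefect
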