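import Mathlib
import Cfsg.Prelude.Def_Characters
import Cfsg.Prelude.Def_Blocks
import Cfsg.Agent.Lib_helper3_QuotDefect
import Cfsg.Agent.Lib_helper3_BlockPQuot
import Cfsg.Agent.Lib_helper3_MaxPair
import Cfsg.Agent.Lib_helper3_ThirdMain

set_option autoImplicit false
open Cfsg
open Cfsg.Agent.Lib_helper3_CharBasic Cfsg.Agent.Lib_helper3_CharMore
  Cfsg.Agent.Lib_helper3_Local Cfsg.Agent.Lib_helper3_Local2 Cfsg.Agent.Lib_helper3_BlockAlg
  Cfsg.Agent.Lib_helper3_BlockInfl Cfsg.Agent.Lib_helper3_BlockDom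
  Cfsg.Agent.Lib_helper3_IdemSupp Cfsg.Agent.Lib_helper3_IdemCent
  Cfsg.Agent.Lib_helper3_MaxPair Cfsg.Agent.Lib_helper3_ThirdMain
  Cfsg.Agent.Lib_helper3_ConjPair Cfsg.Agent.Lib_helper3_QuotDefect
open scoped ComplexConjugate

namespace Cfsg.Agent.Lib_helper3_QuotDefect2

universe u

section Fin

variable {G : Type u} [Group G] [Fintype G] {M : Ideal AlgInt}

/-- Inflation of an irreducible character of a quotient. -/
noncomputable def inflIrr (N : Subgroup G) [N.Normal] (χ : IrrCharacter (G ⧸ N)) :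
    IrrCharacter G :=
  ⟨(χ : G ⧸ N → ℂ) ∘ QuotientGroup.mk, isIrrCharacter_infl N χ.2⟩

theorem inflIrr_injective (N : Subgroup G) [N.Normal] : Function.Injective (inflIrr N) := by
  intro χ₁ χ₂ h
  apply Subtype.ext
  funext q
  obtain ⟨g, rfl⟩ := QuotientGroup.mk_surjective q
  exact congrFun (congrArg Subtype.val h) g

/-- The coset sums of the idempotent of a set of characters of `G` give the idempotent of the set
of characters of the quotient inflating into it. -/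
theorem sum_coset_blockCoeff (N : Subgroup G) [N.Normal] [Fintype N]
    (B : Set (IrrCharacter G)) (y : G) :
    ∑ n : N, blockCoeff B (y * (n : G)) =
      blockCoeff {χ : IrrCharacter (G ⧸ N) | inflIrr N χ ∈ B} (QuotientGroup.mk y) := by
  classical
  have hfin := irr_finite (G := G)
  have instI : Fintype (IrrCharacter G) := Fintype.ofFinite _
  have instQ : Fintype (G ⧸ N) := Fintype.ofFinite _
  have hfinQ := irr_finite (G := G ⧸ N)
  have instIQ : Fintype (IrrCharacter (G ⧸ N)) := Fintype.ofFinite _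
  have h1 : ∀ ψ : IrrCharacter G, ψ ∉ Set.range (inflIrr N) →
      ∑ n : N, B.indicator
        (fun ψ : IrrCharacter G => (ψ : G → ℂ) 1 * conj ((ψ : G → ℂ) (y * (n : G)))) ψ = 0 := by
    intro ψ hψr
    by_cases hψ : ψ ∈ B
    · have hnot : ¬ ∀ n ∈ N, (ψ : G → ℂ) n = (ψ : G → ℂ) 1 := by
        intro hker
        obtain ⟨ψ', hψ', heq⟩ := exists_descent N ψ.2 hker
        exact hψr ⟨⟨ψ', hψ'⟩, Subtype.ext heq.symm⟩
      simp only [Set.indicator_of_mem hψ]
      rw [← Finset.mul_sum, ← map_sum, sum_coset_eq_zero N hnot y, map_zero, mul_zero]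
    · simp only [Set.indicator_of_notMem hψ]
      exact Finset.sum_const_zero
  have h2 : ∀ χ : IrrCharacter (G ⧸ N),
      ∑ n : N, B.indicator
        (fun ψ : IrrCharacter G => (ψ : G → ℂ) 1 * conj ((ψ : G → ℂ) (y * (n : G))))
          (inflIrr N χ) =
      (Nat.card N : ℂ) * {χ : IrrCharacter (G ⧸ N) | inflIrr N χ ∈ B}.indicator
        (fun ψ : IrrCharacter (G ⧸ N) => (ψ : G ⧸ N → ℂ) 1 *
          conj ((ψ : G ⧸ N → ℂ) (QuotientGroup.mk y))) χ := by
    intro χ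
    by_cases hχ : inflIrr N χ ∈ B
    · rw [Set.indicator_of_mem (show χ ∈ {χ : IrrCharacter (G ⧸ N) | inflIrr N χ ∈ B} from hχ)]
      simp only [Set.indicator_of_mem hχ]
      have h3 : ∀ n : N, ((inflIrr N χ : IrrCharacter G) : G → ℂ) 1 *
          conj (((inflIrr N χ : IrrCharacter G) : G → ℂ) (y * (n : G))) =
          (χ : G ⧸ N → ℂ) 1 * conj ((χ : G ⧸ N → ℂ) (QuotientGroup.mk y)) := by
        intro n
        show (χ : G ⧸ N → ℂ) (QuotientGroup.mk (1 : G)) *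
          conj ((χ : G ⧸ N → ℂ) (QuotientGroup.mk (y * (n : G)))) = _
        have h5 : (QuotientGroup.mk (y * (n : G)) : G ⧸ N) = QuotientGroup.mk y := by
          rw [QuotientGroup.mk_mul, (QuotientGroup.eq_one_iff (n : G)).mpr n.2, mul_one]
        rw [h5, QuotientGroup.mk_one]
      rw [Finset.sum_congr rfl (fun n _ => h3 n), Finset.sum_const, Finset.card_univ,
        nsmul_eq_mul, Nat.card_eq_fintype_card]
    · rw [Set.indicator_of_notMem
        (show χ ∉ {χ : IrrCharacter (G ⧸ N) | inflIrr N χ ∈ B} from hχ), mul_zero]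
      simp only [Set.indicator_of_notMem hχ]
      exact Finset.sum_const_zero
  have key : ∑ ψ : IrrCharacter G, ∑ n : N, B.indicator
        (fun ψ : IrrCharacter G => (ψ : G → ℂ) 1 * conj ((ψ : G → ℂ) (y * (n : G)))) ψ =
      (Nat.card N : ℂ) * ∑ χ : IrrCharacter (G ⧸ N),
        {χ : IrrCharacter (G ⧸ N) | inflIrr N χ ∈ B}.indicator
          (fun ψ : IrrCharacter (G ⧸ N) => (ψ : G ⧸ N → ℂ) 1 *
            conj ((ψ : G ⧸ N → ℂ) (QuotientGroup.mk y))) χ := by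
    rw [Finset.mul_sum, ← Finset.sum_congr rfl (fun χ _ => h2 χ)]
    refine (Finset.sum_of_injOn (inflIrr N) (inflIrr_injective N).injOn ?_ ?_ ?_).symm
    · intro χ _
      exact Finset.mem_coe.mpr (Finset.mem_univ _)
    · intro ψ _ hψ
      apply h1 ψ
      rintro ⟨χ, rfl⟩
      exact hψ ⟨χ, Finset.mem_coe.mpr (Finset.mem_univ _), rfl⟩
    · intro χ _
      rfl
  simp only [blockCoeff_eq_sum]
  rw [← Finset.mul_sum, Finset.sum_comm, key]
  have hcard : (Nat.card G : ℂ) = (Nat.card (G ⧸ N) : ℂ) * (Nat.card N : ℂ) := by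
    rw [← Nat.cast_mul, ← Subgroup.card_eq_card_quotient_mul_card_subgroup]
  have hN0 : (Nat.card N : ℂ) ≠ 0 := by exact_mod_cast (Nat.card_pos (α := N)).ne'
  rw [hcard, mul_inv, mul_assoc, inv_mul_cancel_left₀ hN0]

end Fin

variable {G : Type u} [Group G] [Finite G] {p : ℕ} [Fact p.Prime] {M : Ideal AlgInt}

omit [Finite G] [Fact p.Prime] in
theorem map_conj_mk (N : Subgroup G) [N.Normal] (P : Subgroup G) (y : G) :
    (P.map (MulAut.conj y).toMonoidHom).map (QuotientGroup.mk' N) =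
      (P.map (QuotientGroup.mk' N)).map
        (MulAut.conj (QuotientGroup.mk y : G ⧸ N)).toMonoidHom := by
  rw [Subgroup.map_map, Subgroup.map_map]
  congr 1

/-- Quotient by a normal `p`-subgroup: every block contains a block of the quotient whose defect
groups are the images of its defect groups. -/
theorem quot_pgroup_defect (hM : IsPModular p M) (N : Subgroup G) [N.Normal]
    (hN : IsPGroup p N) (B : Set (IrrCharacter G)) (hB : IsPBlock M B) :
    ∃ Bbar : Set (IrrCharacter (G ⧸ N)), IsPBlock M Bbar ∧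
      (∀ χ ∈ Bbar, ∀ ψ : IrrCharacter G,
        (ψ : G → ℂ) = (χ : G ⧸ N → ℂ) ∘ QuotientGroup.mk → ψ ∈ B) ∧
      ∀ Dbar : Subgroup (G ⧸ N), IsDefectGroup p M Bbar Dbar ↔
        ∃ P : Subgroup G, IsDefectGroup p M B P ∧ Dbar = P.map (QuotientGroup.mk' N) := by
  classical
  have hp : p.Prime := Fact.out
  have hMp : M.IsPrime := hM.2.1.isPrime
  have instG : Fintype G := Fintype.ofFinite G
  have instQ : Fintype (G ⧸ N) := Fintype.ofFinite _
  have instN : Fintype N := Fintype.ofFinite _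
  have hfinQ := irr_finite (G := G ⧸ N)
  have instIQ : Fintype (IrrCharacter (G ⧸ N)) := Fintype.ofFinite _
  obtain ⟨x, hx⟩ := Cfsg.Agent.S0906.result p M hM B hB
  obtain ⟨S₀, -⟩ : ∃ S₀ : Sylow p (Subgroup.centralizer ({x} : Set G)), True :=
    ⟨default, trivial⟩
  obtain ⟨P₀, hP₀⟩ : ∃ P₀ : Subgroup G, P₀ = (S₀ : Subgroup _).map
      (Subgroup.centralizer ({x} : Set G)).subtype := ⟨_, rfl⟩
  have hP₀def : IsDefectGroup p M B P₀ := ⟨x, hx, S₀, hP₀⟩
  have hP₀C : P₀ ≤ Subgroup.centralizer ({x} : Set G) := by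
    rw [hP₀]
    intro z hz
    obtain ⟨c, -, rfl⟩ := Subgroup.mem_map.mp hz
    exact c.2
  have hP₀p : IsPGroup p P₀ := by
    rw [hP₀]
    exact S₀.2.map _
  have hR : ∀ g, MemLocalRing M (blockCoeff B g) := fun g => osima hB g
  have hxC : x ∈ Subgroup.centralizer (N : Set G) := by
    by_contra h
    exact hx.2.1 (memLocalIdeal_of_idem_avoid hM N hN (isClassFunction_blockCoeff B) hR
      (conv_blockCoeff B) x h)
  have hxreg : ¬ p ∣ orderOf x := by
    intro h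
    apply hx.2.1
    rw [blockCoeff_eq_zero_of_singular hM hR x h]
    exact memLocalIdeal_zero hMp.ne_top
  have hsing : ∀ n : N, n ≠ 1 → p ∣ orderOf (x * (n : G)) := by
    intro n hn
    have hcomm : Commute x (n : G) := by
      show x * (n : G) = (n : G) * x
      exact (Subgroup.mem_centralizer_iff.mp hxC (n : G) n.2).symm
    obtain ⟨k, hk⟩ := hN n
    have h1 : orderOf n ∣ p ^ k := orderOf_dvd_of_pow_eq_one hk
    obtain ⟨j, -, hj⟩ := (Nat.dvd_prime_pow hp).mp h1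
    have hj0 : j ≠ 0 := by
      rintro rfl
      rw [pow_zero, orderOf_eq_one_iff] at hj
      exact hn hj
    have hord : orderOf (n : G) = p ^ j := by rw [Subgroup.orderOf_coe, hj]
    have hco : (orderOf x).Coprime (orderOf (n : G)) := by
      rw [hord]
      exact Nat.Coprime.pow_right j ((Nat.Prime.coprime_iff_not_dvd hp).mpr hxreg).symm
    rw [hcomm.orderOf_mul_eq_mul_orderOf_of_coprime hco, hord]
    exact Dvd.dvd.mul_left (dvd_pow_self p hj0) _
  have hsum : ∑ n : N, blockCoeff B (x * (n : G)) = blockCoeff B x := by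
    rw [Finset.sum_eq_single (1 : N)]
    · rw [Subgroup.coe_one, mul_one]
    · intro n _ hn
      exact blockCoeff_eq_zero_of_singular hM hR _ (hsing n hn)
    · intro h
      exact absurd (Finset.mem_univ _) h
  obtain ⟨Sb, hSb⟩ : ∃ Sb : Set (IrrCharacter (G ⧸ N)),
      Sb = {χ : IrrCharacter (G ⧸ N) | inflIrr N χ ∈ B} := ⟨_, rfl⟩
  have hSbval : blockCoeff Sb (QuotientGroup.mk x) = blockCoeff B x := by
    rw [hSb, ← sum_coset_blockCoeff N B x, hsum]
  have hSbclosed : ∀ χ ∈ Sb, blockOf M (χ : G ⧸ N → ℂ) ⊆ Sb := by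
    intro χ hχ χ' hχ'
    rw [hSb] at hχ ⊢
    have h1 : SameBlock M ((χ : G ⧸ N → ℂ) ∘ QuotientGroup.mk : G → ℂ)
        ((χ' : G ⧸ N → ℂ) ∘ QuotientGroup.mk) := sameBlock_infl N hχ'
    exact mem_of_sameBlock hB hχ h1
  obtain ⟨𝔒, h𝔒⟩ : ∃ 𝔒 : Finset (Set (IrrCharacter (G ⧸ N))),
      𝔒 = (Finset.univ.filter (fun χ : IrrCharacter (G ⧸ N) => χ ∈ Sb)).image
        (fun χ : IrrCharacter (G ⧸ N) => blockOf M (χ : G ⧸ N → ℂ)) := ⟨_, rfl⟩
  have h𝔒mem : ∀ f ∈ 𝔒, ∃ χ : IrrCharacter (G ⧸ N), χ ∈ Sb ∧ f = blockOf M (χ : G ⧸ N → ℂ) := by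
    intro f hf
    rw [h𝔒] at hf
    obtain ⟨χ, hχ, rfl⟩ := Finset.mem_image.mp hf
    exact ⟨χ, (Finset.mem_filter.mp hχ).2, rfl⟩
  have hU : (⋃ f ∈ (𝔒 : Set (Set (IrrCharacter (G ⧸ N)))), f) = Sb := by
    ext χ
    simp only [Set.mem_iUnion]
    constructor
    · rintro ⟨f, hf, hχf⟩
      obtain ⟨χ₁, hχ₁, rfl⟩ := h𝔒mem f (Finset.mem_coe.mp hf)
      exact hSbclosed χ₁ hχ₁ hχf
    · intro hχ
      refine ⟨blockOf M (χ : G ⧸ N → ℂ), ?_, mem_blockOf_self hMp.ne_top χ⟩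
      rw [h𝔒]
      exact Finset.mem_coe.mpr (Finset.mem_image.mpr
        ⟨χ, Finset.mem_filter.mpr ⟨Finset.mem_univ _, hχ⟩, rfl⟩)
  have hdis : ∀ f ∈ 𝔒, ∀ f' ∈ 𝔒, f ≠ f' → Disjoint f f' := by
    intro f hf f' hf' hne
    obtain ⟨χ₁, -, rfl⟩ := h𝔒mem f hf
    obtain ⟨χ₂, -, rfl⟩ := h𝔒mem f' hf'
    rw [Set.disjoint_left]
    intro ψ h1 h2
    exact hne ((blockOf_eq_of_mem h1).symm.trans (blockOf_eq_of_mem h2))
  have hsplit := blockCoeff_biUnion 𝔒 hdis (QuotientGroup.mk x : G ⧸ N)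
  rw [hU, hSbval] at hsplit
  obtain ⟨f, hf𝔒, hfnot⟩ : ∃ f ∈ 𝔒, ¬ MemLocalIdeal M (blockCoeff f (QuotientGroup.mk x)) := by
    by_contra hcon
    have hcon' : ∀ f ∈ 𝔒, MemLocalIdeal M (blockCoeff f (QuotientGroup.mk x : G ⧸ N)) := by
      intro f hf
      by_contra h
      exact hcon ⟨f, hf, h⟩
    apply hx.2.1
    rw [hsplit]
    exact memLocalIdeal_sum 𝔒 _ hcon'
  obtain ⟨χ₁, hχ₁, rfl⟩ := h𝔒mem f hf𝔒
  have hf : IsPBlock M (blockOf M (χ₁ : G ⧸ N → ℂ)) := ⟨χ₁, rfl⟩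
  have hdom : ∀ χ ∈ blockOf M (χ₁ : G ⧸ N → ℂ), ∀ ψ : IrrCharacter G,
      (ψ : G → ℂ) = (χ : G ⧸ N → ℂ) ∘ QuotientGroup.mk → ψ ∈ B := by
    intro χ hχ ψ hψ
    have h1 : inflIrr N χ ∈ B := by
      have := hSbclosed χ₁ hχ₁ hχ
      rw [hSb] at this
      exact this
    have h2 : ψ = inflIrr N χ := Subtype.ext hψ
    rw [h2]
    exact h1
  obtain ⟨g₁, hg₁⟩ := Cfsg.Agent.S0906.result p M hM _ hf
  obtain ⟨D₁, -⟩ : ∃ D₁ : Sylow p (Subgroup.centralizer ({g₁} : Set (G ⧸ N))), True :=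
    ⟨default, trivial⟩
  obtain ⟨Db, hDb⟩ : ∃ Db : Subgroup (G ⧸ N), Db = (D₁ : Subgroup _).map
      (Subgroup.centralizer ({g₁} : Set (G ⧸ N))).subtype := ⟨_, rfl⟩
  have hDbdef : IsDefectGroup p M (blockOf M (χ₁ : G ⧸ N → ℂ)) Db := ⟨g₁, hg₁, D₁, hDb⟩
  obtain ⟨x', Q, hQ⟩ := (Cfsg.Agent.S0911.result p M hM _ hf g₁ hg₁ D₁
    (QuotientGroup.mk x)).1 (osima hf _) hfnot
  rw [← hDb] at hQ
  have hPbC : P₀.map (QuotientGroup.mk' N) ≤
      Subgroup.centralizer ({(QuotientGroup.mk x : G ⧸ N)} : Set (G ⧸ N)) := by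
    intro z hz
    obtain ⟨a, ha, rfl⟩ := Subgroup.mem_map.mp hz
    have ha' := Subgroup.mem_centralizer_singleton_iff.mp (hP₀C ha)
    rw [Subgroup.mem_centralizer_singleton_iff]
    show (QuotientGroup.mk a : G ⧸ N) * QuotientGroup.mk x = QuotientGroup.mk x * QuotientGroup.mk a
    rw [← QuotientGroup.mk_mul, ← QuotientGroup.mk_mul, ha']
  obtain ⟨t, -, ht⟩ := Cfsg.Agent.Lib_helper3_DefectLoc.le_conj_sylow _ Q (hP₀p.map _) hPbC
  have hc1 : Nat.card (P₀.map (QuotientGroup.mk' N)) ≤ Nat.card Db := by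
    have c1 := Subgroup.card_le_of_le ht
    rw [Subgroup.card_map_of_injective (f := (MulAut.conj t).toMonoidHom)
      (MulEquiv.injective _)] at c1
    have c3 := Subgroup.card_le_of_le hQ
    rw [Subgroup.card_map_of_injective (f := (MulAut.conj x').toMonoidHom)
      (MulEquiv.injective _)] at c3
    exact c1.trans c3
  obtain ⟨P, hPdef, hPle⟩ := quot_defect_lift hM N _ hf B hB hdom Db hDbdef
  obtain ⟨y, hy⟩ := defect_conj hM B hB P₀ P hP₀def hPdef
  have hc2 : Nat.card (P.map (QuotientGroup.mk' N)) = Nat.card (P₀.map (QuotientGroup.mk' N)) := by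
    rw [← hy, map_conj_mk, Subgroup.card_map_of_injective (MulEquiv.injective _)]
  have hDbeq : Db = P.map (QuotientGroup.mk' N) :=
    Subgroup.eq_of_le_of_card_ge hPle (by rw [hc2]; exact hc1)
  refine ⟨blockOf M (χ₁ : G ⧸ N → ℂ), hf, hdom, ?_⟩
  intro Dbar
  constructor
  · intro hDbar
    obtain ⟨z, hz⟩ := defect_conj hM _ hf Db Dbar hDbdef hDbar
    obtain ⟨y', rfl⟩ := QuotientGroup.mk_surjective z
    refine ⟨P.map (MulAut.conj y').toMonoidHom, defect_map_conj B P hPdef y', ?_⟩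
    rw [map_conj_mk, ← hDbeq, hz]
  · rintro ⟨P', hP', rfl⟩
    obtain ⟨y', hy'⟩ := defect_conj hM B hB P P' hPdef hP'
    rw [← hy', map_conj_mk, ← hDbeq]
    exact defect_map_conj _ Db hDbdef _

end Cfsg.Agent.Lib_helper3_QuotDefect2
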