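import Mathlib
import Cfsg.Prelude.Def_Characters
import Cfsg.Prelude.Def_Blocks
import Cfsg.Prelude.Def_BlockRank
import Cfsg.Agent.Lib_helper3_CentralDefect

set_option autoImplicit false
open Cfsg
open Cfsg.Agent.Lib_helper3_CharBasic Cfsg.Agent.Lib_helper3_CharMore
  Cfsg.Agent.Lib_helper3_Local Cfsg.Agent.Lib_helper3_Local2 Cfsg.Agent.Lib_helper3_BlockAlg
  Cfsg.Agent.Lib_helper3_Residue Cfsg.Agent.Lib_helper3_BrauerHom2
  Cfsg.Agent.Lib_helper3_RegSpan Cfsg.Agent.Lib_helper3_RegSpan2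
  Cfsg.Agent.Lib_helper3_HeightZero Cfsg.Agent.Lib_helper3_BrauerFeit
  Cfsg.Agent.Lib_helper3_BrauerFeit2 Cfsg.Agent.Lib_helper3_DefectOne
  Cfsg.Agent.Lib_helper3_CentralDefect Cfsg.Agent.Lib_helper3_DefectZero
open scoped ComplexConjugate

namespace Cfsg.Agent.Lib_helper3_RankOne

universe u

variable {G : Type u} [Group G] [Fintype G] {M : Ideal AlgInt} {p : ℕ}

/-- The diagonal number `cc χ χ` of a character of height zero is prime to `p`. -/
theorem not_dvd_cc_self [Fact p.Prime] (hM : IsPModular p M) {B : Set (IrrCharacter G)}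
    (hB : IsPBlock M B) {χ : IrrCharacter G} (hχ : χ ∈ B)
    (h0 : blockHeight p B (χ : G → ℂ) = 0) (m : ℤ) (hm : cc p B χ χ = m) : ¬ (p : ℤ) ∣ m := by
  have hp : p.Prime := hM.1
  have hMp : M.IsPrime := isPrime_of_modular hM
  have hp0 : (p : ℂ) ≠ 0 := by exact_mod_cast hp.ne_zero
  rintro ⟨c, rfl⟩
  apply unit_of_height_zero hM hB hχ h0
  obtain ⟨k, hkpos, hk⟩ := irr_apply_one_pos χ.2
  have hdeg : charDegree (χ : G → ℂ) = k := charDegree_eq hk
  have hfac := factorization_degree_eq (p := p) hχ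
  rw [hdeg, h0] at hfac
  have hdle := blockDefect_le (G := G) p B
  obtain ⟨k', hk'⟩ : ∃ k' : ℕ, k' = k / p ^ k.factorization p := ⟨_, rfl⟩
  have hkk : p ^ k.factorization p * k' = k := by
    rw [hk']
    exact Nat.ordProj_mul_ordCompl_eq_self k p
  have hk'p : ¬ p ∣ k' := by
    rw [hk']
    exact Nat.not_dvd_ordCompl hp hkpos.ne'
  have hk'0 : (k' : ℂ) ≠ 0 := by
    intro h
    have h00 : k' = 0 := by exact_mod_cast h
    rw [h00, mul_zero] at hkk
    omega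
  have hν : k.factorization p = (Nat.card G).factorization p - blockDefect p B := by omega
  rw [tw_eq_cc p B, hm, hk]
  have h3 : (p : ℂ) ^ ((Nat.card G).factorization p - blockDefect p B) * (((p : ℤ) * c : ℤ) : ℂ) /
      (k : ℂ) = ((c : ℂ) * (k' : ℂ)⁻¹) * ((p : ℕ) : ℂ) := by
    rw [← hkk, hν]
    push_cast
    field_simp
  rw [h3]
  apply memLocalIdeal_mul_left _ (memLocalIdeal_natCast hM (dvd_refl p))
  exact memLocalRing_mul (memLocalRing_intCast hMp.ne_top c)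
    (memLocalRing_inv (memLocalRing_natCast hMp.ne_top k') (not_memLocalIdeal_natCast hM hk'p))

/-- A double sum of products. -/
theorem double_sum {ι : Type*} [Fintype ι] (a : ι → ℂ) (T : ℂ) :
    ∑ χ : ι, ∑ ψ : ι, T * (a χ * a ψ) = T * ((∑ χ : ι, a χ) * ∑ ψ : ι, a ψ) := by
  rw [Finset.sum_mul_sum, Finset.mul_sum]
  apply Finset.sum_congr rfl
  intro χ _
  rw [Finset.mul_sum]

/-- A block of `p`-regular rank one: its decomposition numbers and its Cartan invariant. -/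
theorem rank_one_cartan [Fact p.Prime] (hM : IsPModular p M) (B : Set (IrrCharacter G))
    (hB : IsPBlock M B) (P : Subgroup G) (hP : IsDefectGroup p M B P)
    (hl : blockRank p B = 1) :
    ∃ φ : G → ℂ, ∃ d : IrrCharacter G → ℕ,
      (∃ n : IrrCharacter G → ℤ, ∀ x : G, IsPRegular p x →
        φ x = ∑ᶠ ψ ∈ B, (n ψ : ℂ) * (ψ : G → ℂ) x) ∧
      (∀ χ ∈ B, ∀ x : G, IsPRegular p x → (χ : G → ℂ) x = (d χ : ℂ) * φ x) ∧
      ∑ᶠ χ ∈ B, d χ ^ 2 = Nat.card P := by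
  classical
  have hp : p.Prime := Fact.out
  have hMp : M.IsPrime := isPrime_of_modular hM
  have hfin := irr_finite (G := G)
  let inst2 : Fintype (IrrCharacter G) := Fintype.ofFinite _
  obtain ⟨χB, hχB⟩ := id hB
  have hχBmem : χB ∈ B := by
    rw [hχB]
    exact mem_blockOf_self hMp.ne_top χB
  obtain ⟨χ₀, hχ₀, h0⟩ := exists_height_zero p hχBmem
  have hone : ¬ p ∣ orderOf (1 : G) := by
    rw [orderOf_one]
    exact hp.one_lt.ne' ∘ Nat.dvd_one.mp
  -- Step 1: proportionality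
  unfold blockRank at hl
  obtain ⟨v, hv0, hv⟩ := finrank_eq_one_iff'.mp hl
  have hprop : ∀ χ ∈ B, ∃ c : ℂ, ∀ x : G,
      pRegularPart p (χ : G → ℂ) x = c * (v : G → ℂ) x := by
    intro χ hχ
    obtain ⟨c, hc⟩ := hv ⟨pRegularPart p (χ : G → ℂ), Submodule.subset_span ⟨χ, hχ, rfl⟩⟩
    refine ⟨c, fun x => ?_⟩
    have h1 := congrArg (fun w : ↥(Submodule.span ℂ
      ((fun χ : IrrCharacter G => pRegularPart p (χ : G → ℂ)) '' B)) => (w : G → ℂ) x) hc
    simpa using h1.symm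
  have hv1 : (v : G → ℂ) 1 ≠ 0 := by
    intro h
    obtain ⟨c, hc⟩ := hprop χ₀ hχ₀
    have h1 := hc 1
    rw [pRegularPart_apply, if_neg hone, h, mul_zero] at h1
    exact irr_apply_one_ne_zero χ₀.2 h1
  obtain ⟨θ, hθ⟩ : ∃ θ : G → ℂ, θ = fun x => (v : G → ℂ) x / (v : G → ℂ) 1 := ⟨_, rfl⟩
  have hθprop : ∀ χ ∈ B, ∀ x : G,
      pRegularPart p (χ : G → ℂ) x = (χ : G → ℂ) 1 * θ x := by
    intro χ hχ x
    obtain ⟨c, hc⟩ := hprop χ hχ
    have h1 := hc 1
    rw [pRegularPart_apply, if_neg hone] at h1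
    rw [hc x, hθ, h1]
    field_simp
  -- Step 2: the degrees and their greatest common divisor
  choose deg hdeg using fun χ : IrrCharacter G => irr_apply_one_pos χ.2
  obtain ⟨w, hw⟩ : ∃ w : IrrCharacter G → ℤ,
      w = fun ψ => if ψ ∈ B then (deg ψ : ℤ) else 0 := ⟨_, rfl⟩
  obtain ⟨gen, hgen⟩ : ∃ gen : ℤ,
      gen = Submodule.IsPrincipal.generator (Ideal.span (Set.range w)) := ⟨_, rfl⟩
  have hgen_mem : gen ∈ Ideal.span (Set.range w) := by
    rw [hgen]
    exact Submodule.IsPrincipal.generator_mem _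
  obtain ⟨c, hc⟩ := (Submodule.mem_span_range_iff_exists_fun ℤ).mp hgen_mem
  have hgen_dvd : ∀ ψ, gen ∣ w ψ := by
    intro ψ
    rw [hgen]
    exact (Submodule.IsPrincipal.mem_iff_generator_dvd _).mp
      (Ideal.subset_span (Set.mem_range_self ψ))
  have hwB : ∀ ψ ∈ B, w ψ = (deg ψ : ℤ) := by
    intro ψ hψ
    rw [hw]
    simp only [if_pos hψ]
  have hwnB : ∀ ψ, ψ ∉ B → w ψ = 0 := by
    intro ψ hψ
    rw [hw]
    simp only [if_neg hψ]
  have hgen0 : gen ≠ 0 := by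
    intro h
    have h1 := hgen_dvd χ₀
    rw [h, hwB χ₀ hχ₀] at h1
    have h2 : (deg χ₀ : ℤ) = 0 := zero_dvd_iff.mp h1
    have h3 := (hdeg χ₀).1
    omega
  obtain ⟨g, hg⟩ : ∃ g : ℕ, g = gen.natAbs := ⟨_, rfl⟩
  have hg0 : g ≠ 0 := by
    rw [hg]
    exact Int.natAbs_ne_zero.mpr hgen0
  have hgdvd : ∀ ψ ∈ B, g ∣ deg ψ := by
    intro ψ hψ
    have h1 := hgen_dvd ψ
    rw [hwB ψ hψ] at h1
    rw [hg]
    exact Int.natCast_dvd_natCast.mp (Int.natAbs_dvd.mpr h1)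
  obtain ⟨n, hn⟩ : ∃ n : IrrCharacter G → ℤ, ∑ ψ, n ψ * w ψ = (g : ℤ) := by
    rcases Int.natAbs_eq gen with h | h
    · refine ⟨c, ?_⟩
      rw [hg, ← h, ← hc]
      apply Finset.sum_congr rfl
      intro ψ _
      rw [smul_eq_mul]
    · refine ⟨fun ψ => - c ψ, ?_⟩
      have h1 : (g : ℤ) = - gen := by
        rw [hg]
        omega
      rw [h1, ← hc, ← Finset.sum_neg_distrib]
      apply Finset.sum_congr rfl
      intro ψ _
      rw [smul_eq_mul]
      ring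
  obtain ⟨d, hd⟩ : ∃ d : IrrCharacter G → ℕ, d = fun χ => deg χ / g := ⟨_, rfl⟩
  have hdg : ∀ χ ∈ B, deg χ = g * d χ := by
    intro χ hχ
    rw [hd]
    exact (Nat.mul_div_cancel' (hgdvd χ hχ)).symm
  have hdpos : ∀ χ ∈ B, 0 < d χ := by
    intro χ hχ
    have h1 := hdg χ hχ
    have h2 := (hdeg χ).1
    by_contra h
    have h3 : d χ = 0 := by omega
    rw [h3, mul_zero] at h1
    omega
  have hgc : (g : ℂ) ≠ 0 := by exact_mod_cast hg0
  have hnC : ∑ ψ : IrrCharacter G, (n ψ : ℂ) * (w ψ : ℂ) = (g : ℂ) := by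
    have h1 := congrArg (fun z : ℤ => (z : ℂ)) hn
    simp only [Int.cast_sum, Int.cast_mul, Int.cast_natCast] at h1
    exact h1
  -- Step 3
  refine ⟨fun x => ∑ᶠ ψ ∈ B, (n ψ : ℂ) * (ψ : G → ℂ) x, d, ⟨n, fun x _ => rfl⟩, ?_, ?_⟩
  · intro χ hχ x hx
    have hx' : ¬ p ∣ orderOf x := hx
    have hφ : ∑ᶠ ψ ∈ B, (n ψ : ℂ) * (ψ : G → ℂ) x = (g : ℂ) * θ x := by
      rw [finsum_mem_def, finsum_eq_sum_of_fintype, ← hnC, Finset.sum_mul]
      apply Finset.sum_congr rfl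
      intro ψ _
      by_cases hψ : ψ ∈ B
      · rw [Set.indicator_of_mem hψ, hwB ψ hψ]
        have h2 := hθprop ψ hψ x
        rw [pRegularPart_apply, if_neg hx', (hdeg ψ).2] at h2
        rw [h2]
        push_cast
        ring
      · rw [Set.indicator_of_notMem hψ, hwnB ψ hψ]
        simp
    show (χ : G → ℂ) x = (d χ : ℂ) * ∑ᶠ ψ ∈ B, (n ψ : ℂ) * (ψ : G → ℂ) x
    rw [hφ]
    have h2 := hθprop χ hχ x
    rw [pRegularPart_apply, if_neg hx', (hdeg χ).2, hdg χ hχ] at h2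
    rw [h2]
    push_cast
    ring
  · -- Step 4
    have hdefect : Nat.card P = p ^ blockDefect p B := card_defectGroup hM hB hP
    rw [hdefect]
    have hreg : ∀ χ ∈ B, pRegularPart p (χ : G → ℂ) = (deg χ : ℂ) • θ := by
      intro χ hχ
      funext x
      rw [hθprop χ hχ x, (hdeg χ).2]
      rfl
    obtain ⟨T, hT⟩ : ∃ T : ℂ,
        T = (p : ℂ) ^ blockDefect p B * classInner θ θ * (g : ℂ) ^ 2 := ⟨_, rfl⟩
    have hcc : ∀ χ ∈ B, ∀ ψ ∈ B, cc p B χ ψ = T * (d χ : ℂ) * (d ψ : ℂ) := by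
      intro χ hχ ψ hψ
      rw [cc_eq_regInner, hreg χ hχ, hreg ψ hψ, classInner_smul_left, classInner_smul_right,
        hT, hdg χ hχ, hdg ψ hψ]
      simp only [map_natCast]
      push_cast
      ring
    have hsum1 : ∑ χ : IrrCharacter G, (if χ ∈ B then (n χ : ℂ) * (d χ : ℂ) else 0) = 1 := by
      have h1 : (g : ℂ) * ∑ χ : IrrCharacter G,
          (if χ ∈ B then (n χ : ℂ) * (d χ : ℂ) else 0) = (g : ℂ) * 1 := by
        rw [Finset.mul_sum, mul_one]
        refine Eq.trans ?_ hnC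
        apply Finset.sum_congr rfl
        intro χ _
        by_cases hχ : χ ∈ B
        · rw [if_pos hχ, hwB χ hχ, hdg χ hχ]
          push_cast
          ring
        · rw [if_neg hχ, hwnB χ hχ]
          simp
      exact mul_left_cancel₀ hgc h1
    have hTint : ∃ t : ℤ, T = t := by
      have h1 : ∀ χ ψ : IrrCharacter G, ∃ k : ℤ, (if χ ∈ B then (n χ : ℂ) else 0) *
          (if ψ ∈ B then (n ψ : ℂ) else 0) * cc p B χ ψ = k := by
        intro χ ψ
        by_cases hχ : χ ∈ B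
        · obtain ⟨k, hk, -⟩ := cc_int hM hB hχ ψ
          by_cases hψ : ψ ∈ B
          · exact ⟨n χ * n ψ * k, by rw [if_pos hχ, if_pos hψ, hk]; push_cast; ring⟩
          · exact ⟨0, by rw [if_neg hψ]; simp⟩
        · exact ⟨0, by rw [if_neg hχ]; simp⟩
      choose k hk using h1
      refine ⟨∑ χ, ∑ ψ, k χ ψ, ?_⟩
      have h2 : ∀ χ ψ : IrrCharacter G, (k χ ψ : ℂ) =
          T * ((if χ ∈ B then (n χ : ℂ) * (d χ : ℂ) else 0) *
            (if ψ ∈ B then (n ψ : ℂ) * (d ψ : ℂ) else 0)) := by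
        intro χ ψ
        rw [← hk χ ψ]
        by_cases hχ : χ ∈ B
        · by_cases hψ : ψ ∈ B
          · rw [if_pos hχ, if_pos hψ, if_pos hχ, if_pos hψ, hcc χ hχ ψ hψ]
            ring
          · rw [if_neg hψ, if_neg hψ]
            ring
        · rw [if_neg hχ, if_neg hχ]
          ring
      push_cast
      rw [Finset.sum_congr rfl (fun χ _ => Finset.sum_congr rfl (fun ψ _ => h2 χ ψ)),
        double_sum, hsum1]
      ring
    obtain ⟨t, ht⟩ := hTint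
    have hnormeq : (t : ℂ) * ∑ ψ : IrrCharacter G, (if ψ ∈ B then ((d ψ : ℂ)) ^ 2 else 0) =
        (p : ℂ) ^ blockDefect p B := by
      have h1 := cc_norm p B χ₀
      have h2 : ∀ ψ : IrrCharacter G, cc p B χ₀ ψ * conj (cc p B χ₀ ψ) =
          (t : ℂ) ^ 2 * (d χ₀ : ℂ) ^ 2 * (if ψ ∈ B then ((d ψ : ℂ)) ^ 2 else 0) := by
        intro ψ
        by_cases hψ : ψ ∈ B
        · rw [if_pos hψ, hcc χ₀ hχ₀ ψ hψ, ht]
          simp only [map_mul, map_intCast, map_natCast]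
          ring
        · obtain ⟨k, hk, hk0⟩ := cc_int hM hB hχ₀ ψ
          rw [if_neg hψ, hk, hk0 hψ]
          simp
      rw [Finset.sum_congr rfl (fun ψ _ => h2 ψ), ← Finset.mul_sum, hcc χ₀ hχ₀ χ₀ hχ₀, ht] at h1
      have ht0 : (t : ℂ) ≠ 0 := by
        intro h
        have h3 := cc_ne_zero hM hB hχ₀ h0 hχ₀
        rw [hcc χ₀ hχ₀ χ₀ hχ₀, ht, h] at h3
        simp at h3
      have hd0 : (d χ₀ : ℂ) ≠ 0 := by exact_mod_cast (hdpos χ₀ hχ₀).ne'
      have h4 : (t : ℂ) * (d χ₀ : ℂ) ^ 2 * ((t : ℂ) * ∑ ψ : IrrCharacter G,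
          (if ψ ∈ B then ((d ψ : ℂ)) ^ 2 else 0)) =
          (t : ℂ) * (d χ₀ : ℂ) ^ 2 * (p : ℂ) ^ blockDefect p B := by
        linear_combination h1
      exact mul_left_cancel₀ (mul_ne_zero ht0 (pow_ne_zero 2 hd0)) h4
    obtain ⟨S, hS⟩ : ∃ S : ℕ, S = ∑ ψ : IrrCharacter G,
        (if ψ ∈ B then (d ψ) ^ 2 else 0) := ⟨_, rfl⟩
    have hSeq : ∑ᶠ χ ∈ B, d χ ^ 2 = S := by
      rw [hS, finsum_mem_def, finsum_eq_sum_of_fintype]
      apply Finset.sum_congr rfl
      intro ψ _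
      by_cases hψ : ψ ∈ B
      · rw [Set.indicator_of_mem hψ, if_pos hψ]
      · rw [Set.indicator_of_notMem hψ, if_neg hψ]
    rw [hSeq]
    have hint : t * (S : ℤ) = (p : ℤ) ^ blockDefect p B := by
      have h1 : ((t * (S : ℤ) : ℤ) : ℂ) = (((p : ℤ) ^ blockDefect p B : ℤ) : ℂ) := by
        rw [hS]
        push_cast
        rw [← hnormeq]
      exact_mod_cast h1
    have hpt : ¬ (p : ℤ) ∣ t := by
      intro hdvd
      apply not_dvd_cc_self hM hB hχ₀ h0 (t * d χ₀ * d χ₀)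
        (by rw [hcc χ₀ hχ₀ χ₀ hχ₀, ht]; push_cast; ring)
      exact Dvd.dvd.mul_right (Dvd.dvd.mul_right hdvd _) _
    have hSpos : 0 < S := by
      rw [hS]
      apply Finset.sum_pos' (fun _ _ => Nat.zero_le _)
      refine ⟨χ₀, Finset.mem_univ _, ?_⟩
      rw [if_pos hχ₀]
      have h5 := hdpos χ₀ hχ₀
      positivity
    have hppos : (0 : ℤ) < (p : ℤ) ^ blockDefect p B := by
      have h6 : (0 : ℤ) < (p : ℤ) := by exact_mod_cast hp.pos
      positivity
    have htpos : 0 < t := by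
      by_contra h
      push Not at h
      have h7 : t * (S : ℤ) ≤ 0 := mul_nonpos_of_nonpos_of_nonneg h (by positivity)
      omega
    have ht1 : t = 1 := by
      have h1 : t.natAbs ∣ p ^ blockDefect p B := by
        have h2 : t ∣ (p : ℤ) ^ blockDefect p B := ⟨S, hint.symm⟩
        have h3 := Int.natAbs_dvd_natAbs.mpr h2
        simpa [Int.natAbs_pow] using h3
      obtain ⟨j, -, hj⟩ := (Nat.dvd_prime_pow hp).mp h1
      rcases Nat.eq_zero_or_pos j with rfl | hjpos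
      · rw [pow_zero] at hj
        omega
      · exfalso
        apply hpt
        have h4 : (p : ℤ) ∣ (t.natAbs : ℤ) := by
          rw [hj]
          exact_mod_cast dvd_pow_self p hjpos.ne'
        exact Int.dvd_natAbs.mp h4
    rw [ht1, one_mul] at hint
    exact_mod_cast hint

end Cfsg.Agent.Lib_helper3_RankOne
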