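import Mathlib
import Cfsg.Prelude.Def_Characters
import Cfsg.Agent.Lib_helper3_CharBasic
import Cfsg.Agent.Lib_helper3_CharDiag
import Cfsg.Agent.Lib_helper3_CharCount
import Cfsg.Agent.Lib_helper3_Galois

set_option autoImplicit false

namespace Cfsg.Agent.Lib_helper3_Rational

open Cfsg
open Cfsg.Agent.Lib_helper3_CharBasic Cfsg.Agent.Lib_helper3_CharDiag
open Cfsg.Agent.Lib_helper3_CharCount Cfsg.Agent.Lib_helper3_Galois
open scoped ComplexConjugate
open Polynomial

universe u v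

/-- If a sum of powers of a primitive root of unity is rational, then raising the root to a
coprime power does not change it. -/
theorem sum_pow_coprime_of_rat {N : ℕ} (hN : 0 < N) {ζ : ℂ} (hζ : IsPrimitiveRoot ζ N)
    {ι : Type*} [Fintype ι] (e : ι → ℕ) (q : ℚ) (h : ∑ i, ζ ^ e i = (q : ℂ)) (m : ℕ)
    (hm : Nat.Coprime m N) : ∑ i, (ζ ^ m) ^ e i = (q : ℂ) := by
  let P : ℚ[X] := ∑ i, X ^ e i - C q
  have hP : aeval ζ P = 0 := by
    simp only [P, map_sub, map_sum, map_pow, aeval_X, aeval_C]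
    rw [h]
    simp
  have hdvd : minpoly ℚ ζ ∣ P := minpoly.dvd ℚ ζ hP
  have hζm : IsPrimitiveRoot (ζ ^ m) N := hζ.pow_of_coprime m hm
  have hmin : minpoly ℚ ζ = minpoly ℚ (ζ ^ m) := by
    rw [← cyclotomic_eq_minpoly_rat hζ hN, ← cyclotomic_eq_minpoly_rat hζm hN]
  rw [hmin] at hdvd
  obtain ⟨Q, hQ⟩ := hdvd
  have hP' : aeval (ζ ^ m) P = 0 := by
    rw [hQ, map_mul, minpoly.aeval, zero_mul]
  simp only [P, map_sub, map_sum, map_pow, aeval_X, aeval_C] at hP'
  have h2 : ∑ i, (ζ ^ m) ^ e i = algebraMap ℚ ℂ q := sub_eq_zero.mp hP'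
  rw [h2]
  simp

variable {G : Type u} [Group G]

/-- If a character value is rational, then it is unchanged by coprime powers. -/
theorem char_pow_coprime_of_rat [Finite G] {V : Type v} [AddCommGroup V] [Module ℂ V]
    [FiniteDimensional ℂ V] (ρ : Representation ℂ G V) (g : G) (q : ℚ)
    (h : ρ.character g = (q : ℂ)) (m : ℕ) (hm : Nat.Coprime m (Nat.card G)) :
    ρ.character (g ^ m) = ρ.character g := by
  classical
  have hN : Nat.card G ≠ 0 := Nat.card_pos.ne'
  have : NeZero (Nat.card G) := ⟨hN⟩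
  obtain ⟨ι, _, b, ε, h1, h2, h3, h4, h5⟩ := exists_eigen ρ g
  have hε : ∀ i, ε i ^ Nat.card G = 1 := by
    intro i
    obtain ⟨c, hc⟩ := orderOf_dvd_natCard g
    rw [hc, pow_mul, h2 i, one_pow]
  have hζ := zetaN_prim (Nat.card G) hN
  choose e he1 he2 using fun i => hζ.eq_pow_of_pow_eq_one (hε i)
  have hg1 := h4 1
  rw [pow_one] at hg1
  have hsum : ∑ i, zetaN (Nat.card G) ^ e i = (q : ℂ) := by
    rw [← h, hg1]
    apply Finset.sum_congr rfl
    intro i _
    rw [he2 i, pow_one]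
  have key := sum_pow_coprime_of_rat (Nat.pos_of_ne_zero hN) hζ e q hsum m hm
  rw [h4 m, h, ← key]
  apply Finset.sum_congr rfl
  intro i _
  rw [← he2 i, ← pow_mul, ← pow_mul, mul_comm]

/-- A character value fixed by all coprime power maps is rational. -/
theorem rat_of_char_pow_coprime [Finite G] {χ : G → ℂ} (hχ : IsCharacter G χ) (g : G)
    (h : ∀ k : ℕ, Nat.Coprime k (Nat.card G) → χ (g ^ k) = χ g) : ∃ q : ℚ, χ g = (q : ℂ) := by
  classical
  have hN : Nat.card G ≠ 0 := Nat.card_pos.ne'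
  have hfd := finiteDimensional_KN hN
  obtain ⟨a, ha1, -, ha3⟩ := exists_val hχ g
  have hfix : ∀ φ : KN (Nat.card G) →ₐ[ℚ] ℂ, φ a = χ g := by
    intro φ
    obtain ⟨k, hk1, hk2⟩ := exists_pow_of_algHom hN φ
    rw [ha3 φ k hk2, h k hk1]
  have htr := trace_eq_sum_embeddings (K := ℚ) (L := KN (Nat.card G)) ℂ (x := a)
  rw [Finset.sum_congr rfl (fun φ _ => hfix φ), Finset.sum_const, Finset.card_univ,
    nsmul_eq_mul] at htr
  have hne : Nonempty (KN (Nat.card G) →ₐ[ℚ] ℂ) := ⟨(KN (Nat.card G)).val⟩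
  have hcard : (Fintype.card (KN (Nat.card G) →ₐ[ℚ] ℂ) : ℂ) ≠ 0 := by
    exact_mod_cast Fintype.card_pos.ne'
  refine ⟨Algebra.trace ℚ (KN (Nat.card G)) a / Fintype.card (KN (Nat.card G) →ₐ[ℚ] ℂ), ?_⟩
  push_cast
  rw [eq_div_iff hcard, mul_comm, ← htr]
  simp

/-- All irreducible characters are rational-valued iff every element is conjugate to its coprime
powers. -/
theorem rational_iff [Finite G] :
    (∀ χ : IrrCharacter G, ∀ g : G, ∃ q : ℚ, (χ : G → ℂ) g = (q : ℂ)) ↔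
      ∀ m : ℕ, m.Coprime (Nat.card G) → ∀ g : G, IsConj g (g ^ m) := by
  constructor
  · intro h m hm g
    rw [isConj_iff_forall_irr]
    intro χ
    obtain ⟨q, hq⟩ := h χ g
    obtain ⟨n, ρ, hirr, hρ⟩ := χ.2
    rw [← hρ] at hq ⊢
    exact (char_pow_coprime_of_rat ρ g q hq m hm).symm
  · intro h χ g
    apply rat_of_char_pow_coprime (isCharacter_of_irr χ.2) g
    intro k hk
    exact ((isConj_iff_forall_irr g (g ^ k)).mp (h k hk g) χ).symm

end Cfsg.Agent.Lib_helper3_Rational
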