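import Mathlib
import Cfsg.Prelude.Def_Characters
import Cfsg.Prelude.Def_Blocks
import Cfsg.Agent.Lib_helper3_BrauerHom2
import Cfsg.Agent.Lib_helper3_DefectLoc2
import Cfsg.Agent.Lib_helper3_DefectCard
import Cfsg.Agent.Lib_helper3_IdemSupp
import Cfsg.Agent.Lib_helper3_CharDiag
import Cfsg.Agent.Lib_helper3_PReg
import Cfsg.Agent.Lib_helper3_CharOdd
import Cfsg.Agent.Lib_helper3_ThirdMain
import Cfsg.Agent.Lib_helper3_DefectZero

set_option autoImplicit false
open Cfsg
open Cfsg.Agent.Lib_helper3_CharBasic Cfsg.Agent.Lib_helper3_CharMore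
  Cfsg.Agent.Lib_helper3_Local Cfsg.Agent.Lib_helper3_Local2 Cfsg.Agent.Lib_helper3_BlockAlg
  Cfsg.Agent.Lib_helper3_Residue Cfsg.Agent.Lib_helper3_BrauerHom2
  Cfsg.Agent.Lib_helper3_DefectLoc Cfsg.Agent.Lib_helper3_DefectLoc2
  Cfsg.Agent.Lib_helper3_CharDiag
open scoped ComplexConjugate

namespace Cfsg.Agent.Lib_helper3_RealBlock

universe u

/-- A sum in characteristic two over a finite type with an involution fixing a base point
reduces to the value at the base point when the summand is invariant and vanishes at the other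
fixed points. -/
theorem sum_eq_of_involution {k : Type*} [CommRing k] [CharP k 2] {ι : Type*} [Fintype ι]
    [DecidableEq ι] (σ : ι → ι) (hσ : ∀ i, σ (σ i) = i) (i₀ : ι) (hσ0 : σ i₀ = i₀) (f : ι → k)
    (h1 : ∀ i, f (σ i) = f i) (h2 : ∀ i, i ≠ i₀ → σ i = i → f i = 0) :
    ∑ i, f i = f i₀ := by
  rw [← Finset.add_sum_erase Finset.univ f (Finset.mem_univ i₀)]
  have h3 : ∑ i ∈ Finset.univ.erase i₀, f i = 0 := by
    apply Finset.sum_involution (fun i _ => σ i)
    · intro i _
      rw [h1]
      exact CharTwo.add_self_eq_zero _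
    · intro i hi hne hfix
      exact hne (h2 i (Finset.ne_of_mem_erase hi) hfix)
    · intro i hi
      apply Finset.mem_erase.mpr
      refine ⟨?_, Finset.mem_univ _⟩
      intro h4
      apply Finset.ne_of_mem_erase hi
      rw [← hσ i, h4, hσ0]
    · intro i _
      exact hσ i
  rw [h3, add_zero]

variable {G : Type u} [Group G] [Fintype G] {M : Ideal AlgInt}

omit [Fintype G] in
theorem isConj_inv {a b : G} (h : IsConj a b) : IsConj a⁻¹ b⁻¹ := by
  obtain ⟨c, hc⟩ := isConj_iff.mp h
  exact isConj_iff.mpr ⟨c, by rw [← hc]; group⟩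

/-- A nontrivial real element of odd order has a conjugacy class of even size. -/
theorem even_index_of_real (x : G) (hx : x ≠ 1) (hodd : ¬ 2 ∣ orderOf x)
    (hreal : IsConj x x⁻¹) : 2 ∣ (Subgroup.centralizer ({x} : Set G)).index := by
  classical
  rw [← card_isConj_eq_index x]
  let instS : Fintype {y : G // IsConj x y} := Fintype.ofFinite _
  rw [Nat.card_eq_fintype_card]
  have hmem : ∀ y : {y : G // IsConj x y}, IsConj x ((y : G)⁻¹) :=
    fun y => hreal.trans (isConj_inv y.2)
  have hsum : ∑ _y : {y : G // IsConj x y}, (1 : ZMod 2) = 0 := by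
    apply Finset.sum_involution (fun (y : {y : G // IsConj x y}) _ =>
      (⟨(y : G)⁻¹, hmem y⟩ : {y : G // IsConj x y}))
    · intro y _
      decide
    · intro y _ _ hfix
      have h1 : (y : G)⁻¹ = y := congrArg Subtype.val hfix
      have h2 : (y : G) ^ 2 = 1 := by
        rw [pow_two]
        nth_rewrite 1 [← h1]
        exact inv_mul_cancel _
      have h3 : orderOf (y : G) = orderOf x := by
        obtain ⟨c, hc⟩ := isConj_iff.mp y.2
        rw [← hc]
        exact Cfsg.Agent.Lib_helper3_PReg.orderOf_conj_eq c x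
      have h4 : orderOf (y : G) ∣ 2 := orderOf_dvd_of_pow_eq_one h2
      have h5 : orderOf (y : G) = 1 := by
        rcases (Nat.dvd_prime Nat.prime_two).mp h4 with h | h
        · exact h
        · exfalso
          apply hodd
          rw [← h3, h]
      have h6 : (y : G) = 1 := orderOf_eq_one_iff.mp h5
      have h7 := y.2
      rw [h6] at h7
      exact hx (isConj_one_left.mp h7)
    · intro y _
      exact Finset.mem_univ _
    · intro y _
      apply Subtype.ext
      simp
  rw [Finset.sum_const, Finset.card_univ, nsmul_eq_mul, mul_one] at hsum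
  exact (ZMod.natCast_eq_zero_iff _ 2).mp hsum

/-- The key congruence for real blocks at the prime two: the central character of an
odd-degree character whose conjugate lies in the same block, evaluated at a real idempotent
supported on the elements of odd order, is congruent to the coefficient at the identity. -/
theorem real_key (hM : IsPModular 2 M) (θ θ' : IrrCharacter G)
    (hodd : ¬ 2 ∣ charDegree (θ : G → ℂ))
    (hθ' : ∀ g, (θ' : G → ℂ) g = conj ((θ : G → ℂ) g))
    (hsame : SameBlock M (θ : G → ℂ) (θ' : G → ℂ)) (e : G → ℂ) (hecl : IsClassFunction G e)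
    (heR : ∀ g, MemLocalRing M (e g)) (hesing : ∀ g, 2 ∣ orderOf g → e g = 0)
    (hereal : ∀ g, e g⁻¹ = e g) : MemLocalIdeal M (Om (θ : G → ℂ) e - e 1) := by
  classical
  have hMm : M.IsMaximal := hM.2.1
  have hMp : M.IsPrime := hMm.isPrime
  have hch : CharP (AlgInt ⧸ M) 2 := charP_quot hM
  let instC : Fintype (ConjClasses G) := Fintype.ofFinite _
  obtain ⟨k, hkpos, hk⟩ := irr_apply_one_pos θ.2
  have hdeg : charDegree (θ : G → ℂ) = k := Cfsg.Agent.Lib_helper3_DefectZero.charDegree_eq hk
  rw [hdeg] at hodd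
  have hθcl := isClassFunction_of_irr θ.2
  have hθ'cl := isClassFunction_of_irr θ'.2
  have hkinv : MemLocalRing M ((k : ℂ)⁻¹) :=
    memLocalRing_inv (memLocalRing_natCast hMp.ne_top k) (not_memLocalIdeal_natCast hM hodd)
  have hωR : ∀ g, MemLocalRing M (centralChar (θ : G → ℂ) g) := fun g =>
    memLocalRing_centralChar θ.2 g
  have hω'R : ∀ g, MemLocalRing M (centralChar (θ' : G → ℂ) g) := fun g =>
    memLocalRing_centralChar θ'.2 g
  obtain ⟨t, ht⟩ : ∃ t : ConjClasses G → ℂ, t = fun C =>
      e (Quotient.out C) * centralChar (θ : G → ℂ) (Quotient.out C) := ⟨_, rfl⟩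
  have htR : ∀ C, MemLocalRing M (t C) := by
    intro C
    rw [ht]
    exact memLocalRing_mul (heR _) (hωR _)
  obtain ⟨σ, hσdef⟩ : ∃ σ : ConjClasses G → ConjClasses G, σ = fun C =>
      ConjClasses.mk (Quotient.out C)⁻¹ := ⟨_, rfl⟩
  have hout : ∀ x : G, IsConj (Quotient.out (ConjClasses.mk x)) x := by
    intro x
    apply ConjClasses.mk_eq_mk_iff_isConj.mp
    exact Quotient.out_eq _
  have hσσ : ∀ C, σ (σ C) = C := by
    intro C
    rw [hσdef]
    show ConjClasses.mk (Quotient.out (ConjClasses.mk (Quotient.out C)⁻¹))⁻¹ = C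
    have h1 := isConj_inv (hout (Quotient.out C)⁻¹)
    rw [inv_inv] at h1
    rw [ConjClasses.mk_eq_mk_iff_isConj.mpr h1]
    exact Quotient.out_eq C
  have hone : Quotient.out (ConjClasses.mk (1 : G)) = 1 := isConj_one_left.mp (hout 1)
  have hσ0 : σ (ConjClasses.mk (1 : G)) = ConjClasses.mk 1 := by
    rw [hσdef]
    show ConjClasses.mk (Quotient.out (ConjClasses.mk (1 : G)))⁻¹ = ConjClasses.mk 1
    rw [hone, inv_one]
  have hcc : ∀ (f : G → ℂ), IsClassFunction G f → ∀ x y : G, IsConj x y → f x = f y :=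
    fun f hf => isClassFunction_iff_isConj.mp hf
  have hcentral : ∀ x y : G, IsConj x y →
      centralChar (θ : G → ℂ) x = centralChar (θ : G → ℂ) y := by
    intro x y hxy
    obtain ⟨c, hc⟩ := isConj_iff.mp hxy
    rw [← hc, centralChar_conj hθcl]
  have hinv : ∀ x : G, centralChar (θ : G → ℂ) x⁻¹ = centralChar (θ' : G → ℂ) x := by
    intro x
    unfold centralChar
    have h1 : Subgroup.centralizer ({x⁻¹} : Set G) = Subgroup.centralizer ({x} : Set G) := by
      ext y
      simp only [Subgroup.mem_centralizer_iff, Set.mem_singleton_iff, forall_eq]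
      constructor
      · intro h
        have h2 : y * x⁻¹ = x⁻¹ * y := h.symm
        calc x * y = x * (y * x⁻¹) * x := by group
          _ = x * (x⁻¹ * y) * x := by rw [h2]
          _ = y * x := by group
      · intro h
        have h2 : y * x = x * y := h.symm
        calc x⁻¹ * y = x⁻¹ * (y * x) * x⁻¹ := by group
          _ = x⁻¹ * (x * y) * x⁻¹ := by rw [h2]
          _ = y * x⁻¹ := by group
    rw [h1, hθ' x, hθ' 1, isCharacter_inv (isCharacter_of_irr θ.2), hk]
    simp
  have h1 : ∀ C, res M (t (σ C)) = res M (t C) := by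
    intro C
    have hconj : IsConj (Quotient.out (σ C)) (Quotient.out C)⁻¹ := by
      rw [hσdef]
      exact hout _
    have he : e (Quotient.out (σ C)) = e (Quotient.out C) := by
      rw [hcc e hecl _ _ hconj, hereal]
    have hω : centralChar (θ : G → ℂ) (Quotient.out (σ C)) =
        centralChar (θ' : G → ℂ) (Quotient.out C) := by
      rw [hcentral _ _ hconj, hinv]
    rw [ht]
    show res M (e (Quotient.out (σ C)) * centralChar (θ : G → ℂ) (Quotient.out (σ C))) =
      res M (e (Quotient.out C) * centralChar (θ : G → ℂ) (Quotient.out C))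
    rw [he, hω, res_mul (heR _) (hω'R _), res_mul (heR _) (hωR _)]
    congr 1
    have h2 := (res_eq_zero_iff (memLocalRing_sub (hωR (Quotient.out C))
      (hω'R (Quotient.out C)))).mpr (hsame (Quotient.out C))
    rw [res_sub (hωR _) (hω'R _)] at h2
    exact (sub_eq_zero.mp h2).symm
  have h2 : ∀ C, C ≠ ConjClasses.mk (1 : G) → σ C = C → res M (t C) = 0 := by
    intro C hC hfix
    obtain ⟨x, hx⟩ : ∃ x : G, x = Quotient.out C := ⟨_, rfl⟩
    have hxC : ConjClasses.mk x = C := by
      rw [hx]
      exact Quotient.out_eq C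
    have hx1 : x ≠ 1 := by
      rintro rfl
      exact hC hxC.symm
    have hreal : IsConj x x⁻¹ := by
      apply ConjClasses.mk_eq_mk_iff_isConj.mp
      rw [hxC]
      rw [hσdef] at hfix
      rw [hx]
      exact hfix.symm
    rw [ht]
    show res M (e (Quotient.out C) * centralChar (θ : G → ℂ) (Quotient.out C)) = 0
    rw [← hx]
    by_cases hsing : 2 ∣ orderOf x
    · rw [hesing x hsing, zero_mul]
      exact res_zero
    · apply (res_eq_zero_iff (memLocalRing_mul (heR _) (hωR _))).mpr
      apply memLocalIdeal_mul_left (heR _)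
      unfold centralChar
      rw [hk]
      have h3 : ((Subgroup.centralizer ({x} : Set G)).index : ℂ) * (θ : G → ℂ) x / (k : ℂ) =
          ((θ : G → ℂ) x * (k : ℂ)⁻¹) * ((Subgroup.centralizer ({x} : Set G)).index : ℂ) := by
        field_simp
      rw [h3]
      apply memLocalIdeal_mul_left
      · exact memLocalRing_mul (memLocalRing_of_algInt hMp.ne_top
          (isCharacter_isIntegral (isCharacter_of_irr θ.2) x)) hkinv
      · exact memLocalIdeal_natCast hM (even_index_of_real x hx1 hsing hreal)
  have hsum := sum_eq_of_involution σ hσσ (ConjClasses.mk (1 : G)) hσ0 (fun C => res M (t C)) h1 h2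
  have hOm : Om (θ : G → ℂ) e = ∑ C : ConjClasses G, t C := by
    rw [om_eq_sum_conjClasses hθcl hecl, ht]
  have ht1 : t (ConjClasses.mk (1 : G)) = e 1 := by
    rw [ht]
    show e (Quotient.out (ConjClasses.mk (1 : G))) *
      centralChar (θ : G → ℂ) (Quotient.out (ConjClasses.mk (1 : G))) = e 1
    rw [hone, centralChar_one (irr_apply_one_ne_zero θ.2), mul_one]
  have hOmR : MemLocalRing M (Om (θ : G → ℂ) e) := memLocalRing_om θ.2 hecl heR
  apply (res_eq_zero_iff (memLocalRing_sub hOmR (heR 1))).mp
  rw [res_sub hOmR (heR 1), hOm, res_sum _ _ (fun C _ => htR C), hsum, ht1, sub_self]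

/-- The complex conjugate of an irreducible character. -/
noncomputable def barIrr (χ : IrrCharacter G) : IrrCharacter G :=
  ⟨fun g => conj ((χ : G → ℂ) g), Cfsg.Agent.Lib_helper3_CharOdd.isIrrCharacter_conj χ.2⟩

theorem barIrr_apply (χ : IrrCharacter G) (g : G) :
    (barIrr χ : G → ℂ) g = conj ((χ : G → ℂ) g) := rfl

theorem barIrr_barIrr (χ : IrrCharacter G) : barIrr (barIrr χ) = χ := by
  apply Subtype.ext
  funext g
  rw [barIrr_apply, barIrr_apply, Complex.conj_conj]

/-- The central character at an inverse is the central character of the conjugate. -/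
theorem centralChar_inv (θ : IrrCharacter G) (x : G) :
    centralChar (θ : G → ℂ) x⁻¹ = centralChar (barIrr θ : G → ℂ) x := by
  obtain ⟨k, hkpos, hk⟩ := irr_apply_one_pos θ.2
  unfold centralChar
  have h1 : Subgroup.centralizer ({x⁻¹} : Set G) = Subgroup.centralizer ({x} : Set G) := by
    ext y
    simp only [Subgroup.mem_centralizer_iff, Set.mem_singleton_iff, forall_eq]
    constructor
    · intro h
      have h2 : y * x⁻¹ = x⁻¹ * y := h.symm
      calc x * y = x * (y * x⁻¹) * x := by group
        _ = x * (x⁻¹ * y) * x := by rw [h2]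
        _ = y * x := by group
    · intro h
      have h2 : y * x = x * y := h.symm
      calc x⁻¹ * y = x⁻¹ * (y * x) * x⁻¹ := by group
        _ = x⁻¹ * (x * y) * x⁻¹ := by rw [h2]
        _ = y * x⁻¹ := by group
  rw [h1, barIrr_apply, barIrr_apply, isCharacter_inv (isCharacter_of_irr θ.2), hk]
  simp

/-- The idempotent coefficients of a set of characters closed under complex conjugation are
invariant under inversion. -/
theorem blockCoeff_inv_of_real {B : Set (IrrCharacter G)} (hreal : ∀ χ ∈ B, barIrr χ ∈ B)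
    (g : G) : blockCoeff B g⁻¹ = blockCoeff B g := by
  classical
  have hfin := irr_finite (G := G)
  let inst2 : Fintype (IrrCharacter G) := Fintype.ofFinite _
  rw [blockCoeff_eq_sum, blockCoeff_eq_sum]
  congr 1
  have hinv : Function.Involutive (barIrr (G := G)) := barIrr_barIrr
  rw [← Equiv.sum_comp hinv.toPerm]
  apply Finset.sum_congr rfl
  intro ψ _
  show B.indicator (fun ψ : IrrCharacter G => (ψ : G → ℂ) 1 * conj ((ψ : G → ℂ) g⁻¹))
    (barIrr ψ) = B.indicator (fun ψ : IrrCharacter G => (ψ : G → ℂ) 1 * conj ((ψ : G → ℂ) g)) ψ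
  obtain ⟨k, hkpos, hk⟩ := irr_apply_one_pos ψ.2
  by_cases hψ : ψ ∈ B
  · rw [Set.indicator_of_mem (hreal ψ hψ), Set.indicator_of_mem hψ, barIrr_apply, barIrr_apply,
      Complex.conj_conj, isCharacter_inv (isCharacter_of_irr ψ.2), hk]
    simp
  · have hψ' : barIrr ψ ∉ B := by
      intro h
      apply hψ
      have := hreal _ h
      rwa [barIrr_barIrr] at this
    rw [Set.indicator_of_notMem hψ', Set.indicator_of_notMem hψ]

/-- A block closed under complex conjugation and containing a character of odd degree is the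
principal `2`-block. -/
theorem real_block_principal (hM : IsPModular 2 M) {B : Set (IrrCharacter G)}
    (hB : IsPBlock M B) (hreal : ∀ χ ∈ B, barIrr χ ∈ B) {χ : IrrCharacter G} (hχ : χ ∈ B)
    (hodd : ¬ 2 ∣ charDegree (χ : G → ℂ)) : B = principalBlock M G := by
  classical
  have hMm : M.IsMaximal := hM.2.1
  have hMp : M.IsPrime := hMm.isPrime
  have h2 : Fact (Nat.Prime 2) := ⟨Nat.prime_two⟩
  have heR : ∀ g, MemLocalRing M (blockCoeff B g) := fun g => osima hB g
  have hesing : ∀ g, 2 ∣ orderOf g → blockCoeff B g = 0 := fun g hg =>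
    Cfsg.Agent.Lib_helper3_IdemSupp.blockCoeff_eq_zero_of_singular hM heR g hg
  have key1 := real_key hM χ (barIrr χ) hodd (fun g => rfl)
    (Cfsg.Agent.Lib_helper3_ThirdMain.sameBlock_of_mem hB hχ (hreal χ hχ)) (blockCoeff B)
    (isClassFunction_blockCoeff B) heR hesing (blockCoeff_inv_of_real hreal)
  rw [om_blockCoeff_of_mem hχ] at key1
  obtain ⟨o, ho⟩ : ∃ o : IrrCharacter G, (o : G → ℂ) = fun _ => 1 :=
    ⟨⟨_, isIrrCharacter_one⟩, rfl⟩
  by_cases hoB : o ∈ B
  · obtain ⟨χ₀, rfl⟩ := hB
    have h3 := blockOf_eq_of_mem hoB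
    rw [← h3, ho]
    rfl
  · exfalso
    have hdeg : charDegree (o : G → ℂ) = 1 := by
      apply Cfsg.Agent.Lib_helper3_DefectZero.charDegree_eq
      rw [ho]
      simp
    have key2 := real_key hM o o (by rw [hdeg]; norm_num) (fun g => by rw [ho]; simp)
      (sameBlock_refl hMp.ne_top _) (blockCoeff B)
      (isClassFunction_blockCoeff B) heR hesing (blockCoeff_inv_of_real hreal)
    rw [om_blockCoeff_of_not_mem hoB] at key2
    have h4 := memLocalIdeal_sub key1 key2
    have h5 : (1 - blockCoeff B 1) - (0 - blockCoeff B 1) = 1 := by ring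
    rw [h5] at h4
    exact not_memLocalIdeal_one h4

end Cfsg.Agent.Lib_helper3_RealBlock
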