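import Mathlib
import Cfsg.Prelude.Def_Blocks
import Cfsg.Agent.Lib_helper3_Local2

set_option autoImplicit false
open Cfsg
open Cfsg.Agent.Lib_helper3_Local Cfsg.Agent.Lib_helper3_Local2

namespace Cfsg.Agent.Lib_helper3_RootLift

/-- Roots of unity of order prime to `p` that are congruent modulo `M` are equal. -/
theorem root_inj {p : ℕ} {M : Ideal AlgInt} (hM : IsPModular p M) {ε₁ ε₂ : AlgInt} {m₁ m₂ : ℕ}
    (hm₁ : ¬ p ∣ m₁) (h₁ : (ε₁ : ℂ) ^ m₁ = 1) (hm₂ : ¬ p ∣ m₂) (h₂ : (ε₂ : ℂ) ^ m₂ = 1)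
    (h : ε₁ - ε₂ ∈ M) : ε₁ = ε₂ := by
  have hp : p.Prime := hM.1
  have hMp : M.IsPrime := isPrime_of_modular hM
  by_contra hne
  set m := m₁ * m₂ with hm
  have hpm : ¬ p ∣ m := by
    intro hd
    rcases (Nat.Prime.dvd_mul hp).mp hd with h' | h'
    · exact hm₁ h'
    · exact hm₂ h'
  have hm0 : m ≠ 0 := by
    intro h0
    apply hpm
    rw [h0]
    exact dvd_zero p
  have e1 : ε₁ ^ m = 1 := by
    apply Subtype.ext
    push_cast
    rw [hm, pow_mul, h₁, one_pow]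
  have e2 : ε₂ ^ m = 1 := by
    apply Subtype.ext
    push_cast
    rw [hm, mul_comm, pow_mul, h₂, one_pow]
  obtain ⟨k, hk⟩ : ∃ k, m = k + 1 := Nat.exists_eq_succ_of_ne_zero hm0
  set ζ : AlgInt := ε₁ * ε₂ ^ k with hζ
  have hζm : ζ ^ m = 1 := by
    rw [hζ, mul_pow, e1, one_mul, ← pow_mul, mul_comm, pow_mul, e2, one_pow]
  have hζ1 : ζ ≠ 1 := by
    intro h1
    apply hne
    have h3 : ε₁ * ε₂ ^ k * ε₂ = ε₂ := by
      rw [← hζ, h1, one_mul]
    rw [mul_assoc, ← pow_succ, ← hk, e2, mul_one] at h3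
    exact h3
  have hζM : ζ - 1 ∈ M := by
    have h3 : ζ - 1 = (ε₁ - ε₂) * ε₂ ^ k := by
      rw [sub_mul, ← pow_succ', ← hk, e2]
    rw [h3]
    exact Ideal.mul_mem_right _ _ h
  have hsum : ∑ i ∈ Finset.range m, ζ ^ i = 0 := by
    have h3 := mul_geom_sum ζ m
    rw [hζm, sub_self] at h3
    rcases mul_eq_zero.mp h3 with h4 | h4
    · exact absurd (sub_eq_zero.mp h4) hζ1
    · exact h4
  have hpow : ∀ i : ℕ, ζ ^ i - 1 ∈ M := by
    intro i
    rw [← mul_geom_sum ζ i]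
    exact Ideal.mul_mem_right _ _ hζM
  have hmM : (m : AlgInt) ∈ M := by
    have h3 : (m : AlgInt) = - ∑ i ∈ Finset.range m, (ζ ^ i - 1) := by
      rw [Finset.sum_sub_distrib, hsum]
      simp
    rw [h3]
    exact M.neg_mem (Ideal.sum_mem _ (fun i _ => hpow i))
  have h5 := memLocalIdeal_of_mem hMp.ne_top hmM
  have h6 : ((m : AlgInt) : ℂ) = (m : ℂ) := by push_cast; rfl
  rw [h6] at h5
  exact not_memLocalIdeal_natCast hM hpm h5

/-- Every algebraic integer outside `M` is congruent modulo `M` to a root of unity of order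
prime to `p`. -/
theorem exists_root {p : ℕ} [hpf : Fact p.Prime] {M : Ideal AlgInt} (hM : IsPModular p M)
    {a : AlgInt} (ha : a ∉ M) :
    ∃ ε : AlgInt, (∃ m : ℕ, ¬ p ∣ m ∧ (ε : ℂ) ^ m = 1) ∧ a - ε ∈ M := by
  classical
  have hp : p.Prime := hM.1
  have hmax : M.IsMaximal := hM.2.1
  have hMp : M.IsPrime := hmax.isPrime
  let _ : Field (AlgInt ⧸ M) := Ideal.Quotient.field M
  have hp0 : ((p : ℕ) : AlgInt ⧸ M) = 0 := by
    have h1 : (Ideal.Quotient.mk M) ((p : ℕ) : AlgInt) = 0 :=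
      Ideal.Quotient.eq_zero_iff_mem.mpr hM.2.2
    rwa [map_natCast] at h1
  have : CharP (AlgInt ⧸ M) p := (CharP.charP_iff_prime_eq_zero hp).mpr hp0
  let _ : Algebra (ZMod p) (AlgInt ⧸ M) := ZMod.algebra _ p
  obtain ⟨b, hb⟩ : ∃ b : AlgInt ⧸ M, b = Ideal.Quotient.mk M a := ⟨_, rfl⟩
  have hb0 : b ≠ 0 := by
    rw [hb]
    exact fun h => ha (Ideal.Quotient.eq_zero_iff_mem.mp h)
  have hint : IsIntegral ℤ b := by
    rw [hb]
    exact map_isIntegral_int (Ideal.Quotient.mk M) (integralClosure.isIntegral a)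
  have hint' : IsIntegral (ZMod p) b := hint.tower_top
  have : Module.Finite (ZMod p) (Algebra.adjoin (ZMod p) {b}) :=
    Module.Finite.iff_fg.mpr hint'.fg_adjoin_singleton
  have : Finite (Algebra.adjoin (ZMod p) {b}) := Module.finite_of_finite (ZMod p)
  obtain ⟨i, j, hij, heq⟩ := Finite.exists_ne_map_eq_of_infinite
    (fun j : ℕ => (⟨b ^ j, pow_mem (Algebra.self_mem_adjoin_singleton (ZMod p) b) j⟩ :
      Algebra.adjoin (ZMod p) {b}))
  have heq' : b ^ i = b ^ j := congrArg Subtype.val heq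
  have hfin : IsOfFinOrder b := by
    rw [isOfFinOrder_iff_pow_eq_one]
    rcases Nat.lt_or_gt_of_ne hij with hlt | hlt
    · refine ⟨j - i, Nat.sub_pos_of_lt hlt, ?_⟩
      have h1 : b ^ i * b ^ (j - i) = b ^ i * 1 := by
        rw [← pow_add, Nat.add_sub_cancel' hlt.le, mul_one, heq']
      exact mul_left_cancel₀ (pow_ne_zero i hb0) h1
    · refine ⟨i - j, Nat.sub_pos_of_lt hlt, ?_⟩
      have h1 : b ^ j * b ^ (i - j) = b ^ j * 1 := by
        rw [← pow_add, Nat.add_sub_cancel' hlt.le, mul_one, heq']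
      exact mul_left_cancel₀ (pow_ne_zero j hb0) h1
  have hn : 0 < orderOf b := hfin.orderOf_pos
  have hpn : ¬ p ∣ orderOf b := by
    rintro ⟨n', hn'⟩
    have h1 : (b ^ n') ^ p = 1 := by
      rw [← pow_mul, mul_comm, ← hn', pow_orderOf_eq_one]
    have h2 : (b ^ n' - 1) ^ p = 0 := by
      rw [sub_pow_char, h1, one_pow, sub_self]
    have h3 : b ^ n' = 1 := sub_eq_zero.mp (pow_eq_zero_iff hp.ne_zero |>.mp h2)
    have h4 : orderOf b ∣ n' := orderOf_dvd_of_pow_eq_one h3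
    have hn'0 : 0 < n' := by
      rcases Nat.eq_zero_or_pos n' with h0 | h0
      · rw [h0, mul_zero] at hn'
        omega
      · exact h0
    have h5 := Nat.le_of_dvd hn'0 h4
    rw [hn'] at h5
    have h6 := hp.two_le
    nlinarith
  obtain ⟨n, hndef⟩ : ∃ n : ℕ, n = orderOf b := ⟨_, rfl⟩
  rw [← hndef] at hn hpn
  have hbn : b ^ n = 1 := by
    rw [hndef]
    exact pow_orderOf_eq_one b
  have hprim := Complex.isPrimitiveRoot_exp n hn.ne'
  let ω : AlgInt := ⟨Complex.exp (2 * Real.pi * Complex.I / n), hprim.isIntegral hn⟩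
  have hω : IsPrimitiveRoot ω n := IsPrimitiveRoot.coe_submonoidClass_iff.mp hprim
  have hfac := Polynomial.X_pow_sub_one_eq_prod hn hω
  have hev := congrArg (Polynomial.eval a) hfac
  rw [Polynomial.eval_sub, Polynomial.eval_pow, Polynomial.eval_X, Polynomial.eval_one,
    Polynomial.eval_prod] at hev
  have hmem : a ^ n - 1 ∈ M := by
    rw [← Ideal.Quotient.eq_zero_iff_mem, map_sub, map_pow, map_one, ← hb, hbn, sub_self]
  rw [hev] at hmem
  obtain ⟨ζ, hζ, hζM⟩ := (Ideal.IsPrime.prod_mem_iff).mp hmem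
  rw [Polynomial.eval_sub, Polynomial.eval_X, Polynomial.eval_C] at hζM
  have hζn : ζ ^ n = 1 := (Polynomial.mem_nthRootsFinset hn 1).mp hζ
  refine ⟨ζ, ⟨n, hpn, ?_⟩, hζM⟩
  have h7 := congrArg (Subtype.val) hζn
  simpa using h7

end Cfsg.Agent.Lib_helper3_RootLift
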