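import Mathlib
import Cfsg.Prelude.Def_Characters
import Cfsg.Prelude.Def_Blocks
import Cfsg.Prelude.Def_Solvable
import Cfsg.Agent.Lib_helper3_Residue
import Cfsg.Agent.Lib_helper3_BlockDom

set_option autoImplicit false
open Cfsg
open Cfsg.Agent.Lib_helper3_Local Cfsg.Agent.Lib_helper3_Local2 Cfsg.Agent.Lib_helper3_BlockAlg
open Cfsg.Agent.Lib_helper3_CharBasic Cfsg.Agent.Lib_helper3_CharMore
open Cfsg.Agent.Lib_helper3_AugNil Cfsg.Agent.Lib_helper3_Residue Cfsg.Agent.Lib_helper3_BlockDom

namespace Cfsg.Agent.Lib_helper3_SingleBlock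

attribute [local instance] Ideal.Quotient.field

universe u

/-- Elements of the kernel of the map of group algebras modulo a normal `p`-subgroup are
nilpotent, in characteristic `p`. -/
theorem pow_eq_zero_of_mem_kerSub {G : Type u} [Group G] [Finite G] {p : ℕ} [Fact p.Prime]
    {F : Type*} [Field F] [CharP F p] (P : Subgroup G) [P.Normal] (hP : IsPGroup p P)
    {a : MonoidAlgebra F G} (hk : a ∈ kerSub F (QuotientGroup.mk' P)) : ∃ N : ℕ, a ^ N = 0 := by
  have hker : IsPGroup p (QuotientGroup.mk' P).ker := by
    rw [QuotientGroup.ker_mk']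
    exact hP
  obtain ⟨N, hN⟩ := kerSub_nilpotent F p (QuotientGroup.mk' P) hker
  refine ⟨N, ?_⟩
  have h7 := Submodule.pow_mem_pow _ hk N
  rw [hN] at h7
  exact (Submodule.mem_bot F).mp h7

variable {G : Type u} [Group G] [Fintype G] {M : Ideal AlgInt} [hMm : M.IsMaximal]

/-- The central character of an irreducible character at an element of a normal `p`-subgroup is
congruent to the class size modulo the local ideal. -/
theorem centralChar_sub_index_memLocalIdeal {p : ℕ} [Fact p.Prime] (hM : IsPModular p M)
    (P : Subgroup G) [P.Normal] (hP : IsPGroup p P) {χ : G → ℂ} (hχ : IsIrrCharacter G χ) (g : G)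
    (hg : g ∈ P) :
    MemLocalIdeal M (centralChar χ g - ((Subgroup.centralizer ({g} : Set G)).index : ℂ)) := by
  classical
  have hMp : M.IsPrime := hMm.isPrime
  have hch : CharP (AlgInt ⧸ M) p := charP_quot hM
  have instP : Fintype P := Fintype.ofFinite _
  obtain ⟨c, hc⟩ : ∃ c : ℕ, c = (Subgroup.centralizer ({g} : Set G)).index := ⟨_, rfl⟩
  rw [← hc]
  obtain ⟨f, hf⟩ : ∃ f : G → ℂ, f = classInd g - (c : ℂ) • cpow (classInd g) 0 := ⟨_, rfl⟩
  have hfx : ∀ x : G, f x = classInd g x - (c : ℂ) * (if x = 1 then 1 else 0) := by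
    intro x
    rw [hf]
    rfl
  have hfc : IsClassFunction G f := by
    rw [hf]
    exact isClassFunction_sub (isClassFunction_classInd g)
      (isClassFunction_smul _ (isClassFunction_cpow (isClassFunction_classInd g) 0))
  have hfR : ∀ x, MemLocalRing M (f x) := by
    intro x
    rw [hfx]
    refine memLocalRing_sub (memLocalRing_classInd g x)
      (memLocalRing_mul (memLocalRing_natCast hMp.ne_top c) ?_)
    split_ifs
    · exact memLocalRing_one hMp.ne_top
    · exact memLocalRing_zero hMp.ne_top
  have hOm : Om χ f = centralChar χ g - (c : ℂ) := by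
    rw [hf, om_sub, om_smul, om_classInd (isClassFunction_of_irr hχ),
      om_cpow hχ (isClassFunction_classInd g), pow_zero, mul_one]
  -- support
  have hsupp : ∀ x : G, x ∉ P → f x = 0 := by
    intro x hx
    rw [hfx]
    have h1 : classInd g x = 0 := by
      unfold classInd
      rw [if_neg]
      intro hconj
      obtain ⟨k, hk⟩ := isConj_iff.mp hconj
      apply hx
      rw [← hk]
      exact ‹P.Normal›.conj_mem g hg k
    have h2 : x ≠ 1 := by
      rintro rfl
      exact hx P.one_mem
    rw [h1, if_neg h2]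
    ring
  -- total sum
  have htot : ∑ x : G, f x = 0 := by
    have h1 : ∑ x : G, classInd g x = (c : ℂ) := by
      have h2 := om_classInd (χ := fun _ : G => (1 : ℂ)) (fun _ _ => rfl) g
      unfold Om centralChar at h2
      rw [hc]
      simpa using h2
    have h3 : ∑ x : G, f x = ∑ x : G, classInd g x - (c : ℂ) * ∑ x : G, (if x = 1 then 1 else 0) := by
      rw [Finset.mul_sum, ← Finset.sum_sub_distrib]
      exact Finset.sum_congr rfl (fun x _ => hfx x)
    rw [h3, h1]
    simp
  have hker : red M f ∈ kerSub (AlgInt ⧸ M) (QuotientGroup.mk' P) := by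
    unfold red
    apply ofFun_mem_kerSub P
    intro y
    rw [← res_sum _ _ (fun n _ => hfR _)]
    have h0 : ∑ n : P, f (y * n) = 0 := by
      by_cases hy : y ∈ P
      · have e1 : ∑ n : P, f (y * n) = ∑ m : P, f (m : G) :=
          Equiv.sum_comp (Equiv.mulLeft (⟨y, hy⟩ : P)) (fun m : P => f (m : G))
        rw [e1, ← htot]
        have e2 : ∑ x ∈ Finset.univ.filter (fun x : G => x ∈ P), f x = ∑ x : G, f x := by
          apply Finset.sum_filter_of_ne
          intro x _ hx
          by_contra hxP
          exact hx (hsupp x hxP)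
        rw [← e2]
        symm
        apply Finset.sum_subtype
        intro x
        simp
      · apply Finset.sum_eq_zero
        intro n _
        apply hsupp
        intro h
        apply hy
        have h2 : y = y * n * (n : G)⁻¹ := by group
        rw [h2]
        exact P.mul_mem h (P.inv_mem n.2)
    rw [h0, res_zero]
  obtain ⟨N, h1⟩ := pow_eq_zero_of_mem_kerSub (p := p) P hP hker
  rw [← red_cpow hfR] at h1
  have h3 := (red_eq_zero_iff (memLocalRing_cpow hfR N)).mp h1
  have h4 := om_memLocalIdeal hχ (isClassFunction_cpow hfc N) h3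
  rw [om_cpow hχ hfc, hOm] at h4
  by_contra hcon
  exact pow_not_memLocalIdeal (memLocalRing_sub (memLocalRing_centralChar hχ g)
    (memLocalRing_natCast hMp.ne_top c)) hcon N h4

/-- A group whose `p`-core contains its own centralizer has a single `p`-block. -/
theorem single_block {p : ℕ} [Fact p.Prime] (hM : IsPModular p M)
    (hconstr : Subgroup.centralizer ((Cfsg.pCore p G) : Set G) ≤ Cfsg.pCore p G)
    (χ ψ : IrrCharacter G) : SameBlock M (χ : G → ℂ) (ψ : G → ℂ) := by
  have hMp : M.IsPrime := hMm.isPrime
  have hn : (Cfsg.pCore p G).Normal := pCore_normal p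
  have hP : IsPGroup p (Cfsg.pCore p G) := isPGroup_pCore p
  intro g
  by_cases hg : g ∈ Subgroup.centralizer ((Cfsg.pCore p G) : Set G)
  · have h1 := centralChar_sub_index_memLocalIdeal hM (Cfsg.pCore p G) hP χ.2 g (hconstr hg)
    have h2 := centralChar_sub_index_memLocalIdeal hM (Cfsg.pCore p G) hP ψ.2 g (hconstr hg)
    have h3 := memLocalIdeal_sub h1 h2
    have h4 : centralChar (χ : G → ℂ) g - ((Subgroup.centralizer ({g} : Set G)).index : ℂ) -
        (centralChar (ψ : G → ℂ) g - ((Subgroup.centralizer ({g} : Set G)).index : ℂ)) =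
        centralChar (χ : G → ℂ) g - centralChar (ψ : G → ℂ) g := by ring
    rw [h4] at h3
    exact h3
  · have hav : ∀ x : G, IsConj g x → x ∉ Subgroup.centralizer ((Cfsg.pCore p G) : Set G) := by
      intro x hx hxc
      obtain ⟨k, hk⟩ := isConj_iff.mp hx
      apply hg
      have hnc : (Subgroup.centralizer ((Cfsg.pCore p G) : Set G)).Normal :=
        Subgroup.normal_centralizer
      have h5 : g = k⁻¹ * x * k⁻¹⁻¹ := by
        rw [← hk]
        group
      rw [h5]
      exact hnc.conj_mem x hxc k⁻¹
    exact memLocalIdeal_sub (centralChar_memLocalIdeal_of_avoid hM (Cfsg.pCore p G) hP χ.2 g hav)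
      (centralChar_memLocalIdeal_of_avoid hM (Cfsg.pCore p G) hP ψ.2 g hav)

end Cfsg.Agent.Lib_helper3_SingleBlock
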