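import Mathlib
import Cfsg.Prelude.Def_Characters
import Cfsg.Prelude.Def_Blocks
import Cfsg.Prelude.Def_BlockRank
import Cfsg.Agent.Lib_helper3_IndRestr

set_option autoImplicit false
open Cfsg
open Cfsg.Agent.Lib_helper3_CharBasic Cfsg.Agent.Lib_helper3_CharMore
  Cfsg.Agent.Lib_helper3_Local Cfsg.Agent.Lib_helper3_Local2 Cfsg.Agent.Lib_helper3_BlockAlg
  Cfsg.Agent.Lib_helper3_Residue Cfsg.Agent.Lib_helper3_BrauerHom2
  Cfsg.Agent.Lib_helper3_BrauerHom3
  Cfsg.Agent.Lib_helper3_RegSpan Cfsg.Agent.Lib_helper3_RegSpan2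
  Cfsg.Agent.Lib_helper3_HeightZero Cfsg.Agent.Lib_helper3_IndRestr
open scoped ComplexConjugate

namespace Cfsg.Agent.Lib_helper3_SubsecNonvanish

universe u

variable {G : Type u} [Group G] [Fintype G] {M : Ideal AlgInt} {p : ℕ}

/-- The inner product of the `p`-regular part of a function with an irreducible character, in
terms of the central character and the inverted function. -/
theorem regInner_eq_om_inv (f : G → ℂ) (ψ : IrrCharacter G) (c : ℂ) :
    classInner (fun h : G => if p ∣ orderOf h then (0 : ℂ) else c * f h) (ψ : G → ℂ) /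
      (ψ : G → ℂ) 1 =
      (c / (Nat.card G : ℂ)) * Om (ψ : G → ℂ) (fun h => if p ∣ orderOf h then 0 else f h⁻¹) := by
  classical
  rw [classInner_def]
  unfold Om
  have h1 : ∑ h : G, (if p ∣ orderOf h then (0 : ℂ) else c * f h) * conj ((ψ : G → ℂ) h) =
      c * ∑ h : G, (if p ∣ orderOf h then 0 else f h⁻¹) * (ψ : G → ℂ) h := by
    rw [← Equiv.sum_comp (Equiv.inv G), Finset.mul_sum]
    apply Finset.sum_congr rfl
    intro h _
    show (if p ∣ orderOf h⁻¹ then (0 : ℂ) else c * f h⁻¹) * conj ((ψ : G → ℂ) h⁻¹) =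
      c * ((if p ∣ orderOf h then 0 else f h⁻¹) * (ψ : G → ℂ) h)
    rw [orderOf_inv, isCharacter_inv (isCharacter_of_irr ψ.2), Complex.conj_conj]
    by_cases hx : p ∣ orderOf h
    · simp [hx]
    · rw [if_neg hx, if_neg hx]
      ring
  rw [h1]
  have hH0 := card_ne_zero (G := G)
  field_simp

/-- Linearity of the inner product on `p`-regular elements in a combination of irreducible
characters. -/
theorem regInner_sum [Fintype (IrrCharacter G)] (a : IrrCharacter G → ℂ) (ψ' : G → ℂ) (c : ℂ) :
    classInner (fun h : G => if p ∣ orderOf h then (0 : ℂ) else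
      c * ∑ ψ : IrrCharacter G, a ψ * (ψ : G → ℂ) h) ψ' =
      ∑ ψ : IrrCharacter G, a ψ * classInner (fun h => c * pRegularPart p (ψ : G → ℂ) h) ψ' := by
  classical
  simp only [classInner_def]
  have h1 : ∀ ψ : IrrCharacter G, a ψ * ((Nat.card G : ℂ)⁻¹ *
      ∑ g : G, c * pRegularPart p (ψ : G → ℂ) g * conj (ψ' g)) = (Nat.card G : ℂ)⁻¹ *
      ∑ g : G, a ψ * (c * pRegularPart p (ψ : G → ℂ) g * conj (ψ' g)) := by
    intro ψ
    rw [Finset.mul_sum, Finset.mul_sum, Finset.mul_sum]
    apply Finset.sum_congr rfl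
    intro g _
    ring
  rw [Finset.sum_congr rfl (fun ψ _ => h1 ψ), ← Finset.mul_sum, Finset.sum_comm]
  congr 1
  apply Finset.sum_congr rfl
  intro g _
  by_cases hx : p ∣ orderOf g
  · rw [if_pos hx, zero_mul]
    symm
    apply Finset.sum_eq_zero
    intro ψ _
    rw [pRegularPart_apply, if_pos hx]
    ring
  · rw [if_neg hx, Finset.mul_sum, Finset.sum_mul]
    apply Finset.sum_congr rfl
    intro ψ _
    rw [pRegularPart_apply, if_neg hx]
    ring

/-- Nonvanishing of the block part of a subsection of a height-zero character. -/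
theorem subsection_nonvanishing [Fact p.Prime] (hM : IsPModular p M) (B : Set (IrrCharacter G))
    (χ : IrrCharacter G) (hχ : χ ∈ B) (h0 : blockHeight p B (χ : G → ℂ) = 0) (x : G)
    (hx : ∃ k : ℕ, orderOf x = p ^ k) [Fintype (Subgroup.centralizer ({x} : Set G))]
    (b : Set (IrrCharacter (Subgroup.centralizer ({x} : Set G))))
    (hb : IsInducedBlock M (Subgroup.centralizer ({x} : Set G)) b B) :
    ∃ y : Subgroup.centralizer ({x} : Set G), ¬ p ∣ orderOf y ∧
      ∑ᶠ ψ ∈ b, classInner (fun c : Subgroup.centralizer ({x} : Set G) =>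
        (χ : G → ℂ) (x * (c : G))) (ψ : Subgroup.centralizer ({x} : Set G) → ℂ) *
          (ψ : Subgroup.centralizer ({x} : Set G) → ℂ) y ≠ 0 := by
  classical
  by_contra hcon
  push Not at hcon
  have hMp : M.IsPrime := isPrime_of_modular hM
  have hMm : M.IsMaximal := hM.2.1
  have hfin := irr_finite (G := Subgroup.centralizer ({x} : Set G))
  let inst2 : Fintype (IrrCharacter (Subgroup.centralizer ({x} : Set G))) := Fintype.ofFinite _
  obtain ⟨ψ', hψ'⟩ := hb.1
  have hψ'b : ψ' ∈ b := by
    rw [hψ']
    exact mem_blockOf_self hMp.ne_top ψ'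
  have hcommx : ∀ k : Subgroup.centralizer ({x} : Set G), (k : G) * x = x * (k : G) :=
    fun k => Subgroup.mem_centralizer_singleton_iff.mp k.2
  have hϑ : IsClassFunction (Subgroup.centralizer ({x} : Set G))
      (fun c : Subgroup.centralizer ({x} : Set G) => (χ : G → ℂ) (x * (c : G))) := by
    intro c k
    show (χ : G → ℂ) (x * ((k * c * k⁻¹ : Subgroup.centralizer ({x} : Set G)) : G)) =
      (χ : G → ℂ) (x * (c : G))
    have h1 : x * ((k * c * k⁻¹ : Subgroup.centralizer ({x} : Set G)) : G) =
        (k : G) * (x * (c : G)) * (k : G)⁻¹ := by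
      push_cast
      rw [← mul_assoc, ← mul_assoc, ← hcommx k]
      group
    rw [h1, isClassFunction_of_irr χ.2 _ (k : G)]
  -- (i) the regular inner product vanishes
  have hT : classInner (fun c : Subgroup.centralizer ({x} : Set G) =>
      if p ∣ orderOf c then (0 : ℂ) else
        ((p ^ (Nat.card (Subgroup.centralizer ({x} : Set G))).factorization p : ℕ) : ℂ) *
          (χ : G → ℂ) (x * (c : G))) (ψ' : Subgroup.centralizer ({x} : Set G) → ℂ) = 0 := by
    have e1 : (fun c : Subgroup.centralizer ({x} : Set G) =>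
        if p ∣ orderOf c then (0 : ℂ) else
          ((p ^ (Nat.card (Subgroup.centralizer ({x} : Set G))).factorization p : ℕ) : ℂ) *
            (χ : G → ℂ) (x * (c : G))) =
        (fun c : Subgroup.centralizer ({x} : Set G) =>
        if p ∣ orderOf c then (0 : ℂ) else
          ((p ^ (Nat.card (Subgroup.centralizer ({x} : Set G))).factorization p : ℕ) : ℂ) *
            ∑ ψ : IrrCharacter (Subgroup.centralizer ({x} : Set G)),
              classInner (fun c : Subgroup.centralizer ({x} : Set G) =>
                (χ : G → ℂ) (x * (c : G))) (ψ : Subgroup.centralizer ({x} : Set G) → ℂ) *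
              (ψ : Subgroup.centralizer ({x} : Set G) → ℂ) c) := by
      funext c
      rw [← classFunction_eq_sum_apply _ hϑ c]
    rw [e1, regInner_sum]
    have e2 : ∑ ψ : IrrCharacter (Subgroup.centralizer ({x} : Set G)),
        classInner (fun c : Subgroup.centralizer ({x} : Set G) =>
          (χ : G → ℂ) (x * (c : G))) (ψ : Subgroup.centralizer ({x} : Set G) → ℂ) *
        classInner (fun h =>
          ((p ^ (Nat.card (Subgroup.centralizer ({x} : Set G))).factorization p : ℕ) : ℂ) *
            pRegularPart p (ψ : Subgroup.centralizer ({x} : Set G) → ℂ) h)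
          (ψ' : Subgroup.centralizer ({x} : Set G) → ℂ) =
        ∑ ψ : IrrCharacter (Subgroup.centralizer ({x} : Set G)),
        (if ψ ∈ b then classInner (fun c : Subgroup.centralizer ({x} : Set G) =>
          (χ : G → ℂ) (x * (c : G))) (ψ : Subgroup.centralizer ({x} : Set G) → ℂ) else 0) *
        classInner (fun h =>
          ((p ^ (Nat.card (Subgroup.centralizer ({x} : Set G))).factorization p : ℕ) : ℂ) *
            pRegularPart p (ψ : Subgroup.centralizer ({x} : Set G) → ℂ) h)
          (ψ' : Subgroup.centralizer ({x} : Set G) → ℂ) := by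
      apply Finset.sum_congr rfl
      intro ψ _
      by_cases hψ : ψ ∈ b
      · rw [if_pos hψ]
      · rw [if_neg hψ, zero_mul]
        have h3 : classInner (fun h =>
            ((p ^ (Nat.card (Subgroup.centralizer ({x} : Set G))).factorization p : ℕ) : ℂ) *
              pRegularPart p (ψ : Subgroup.centralizer ({x} : Set G) → ℂ) h)
            (ψ' : Subgroup.centralizer ({x} : Set G) → ℂ) = tw p ψ ψ' := by
          unfold tw
          push_cast
          rfl
        rw [h3, tw_symm hM ψ ψ', tw_eq_zero hM hb.1 hψ'b hψ, mul_zero]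
    rw [e2, ← regInner_sum]
    have e3 : (fun c : Subgroup.centralizer ({x} : Set G) =>
        if p ∣ orderOf c then (0 : ℂ) else
          ((p ^ (Nat.card (Subgroup.centralizer ({x} : Set G))).factorization p : ℕ) : ℂ) *
            ∑ ψ : IrrCharacter (Subgroup.centralizer ({x} : Set G)),
              (if ψ ∈ b then classInner (fun c : Subgroup.centralizer ({x} : Set G) =>
                (χ : G → ℂ) (x * (c : G))) (ψ : Subgroup.centralizer ({x} : Set G) → ℂ) else 0) *
              (ψ : Subgroup.centralizer ({x} : Set G) → ℂ) c) = 0 := by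
      funext c
      by_cases hc : p ∣ orderOf c
      · simp [hc]
      · rw [if_neg hc]
        have h4 := hcon c hc
        rw [finsum_mem_def, finsum_eq_sum_of_fintype] at h4
        have h5 : ∑ ψ : IrrCharacter (Subgroup.centralizer ({x} : Set G)),
            (if ψ ∈ b then classInner (fun c : Subgroup.centralizer ({x} : Set G) =>
              (χ : G → ℂ) (x * (c : G))) (ψ : Subgroup.centralizer ({x} : Set G) → ℂ) else 0) *
            (ψ : Subgroup.centralizer ({x} : Set G) → ℂ) c = 0 := by
          refine Eq.trans ?_ h4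
          apply Finset.sum_congr rfl
          intro ψ _
          by_cases hψ : ψ ∈ b
          · rw [if_pos hψ, Set.indicator_of_mem hψ]
          · rw [if_neg hψ, Set.indicator_of_notMem hψ, zero_mul]
        rw [h5, mul_zero]
        rfl
    rw [e3, classInner_zero_left]
  -- (ii) congruence with the restriction of `χ`
  have hcoefC : MemLocalRing M
      (((p ^ (Nat.card (Subgroup.centralizer ({x} : Set G))).factorization p : ℕ) : ℂ) /
      (Nat.card (Subgroup.centralizer ({x} : Set G)) : ℂ)) := by
    have h := coef_memLocalRing (G := Subgroup.centralizer ({x} : Set G)) hM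
    have h2 : (((p ^ (Nat.card (Subgroup.centralizer ({x} : Set G))).factorization p : ℕ) : ℂ) /
        (Nat.card (Subgroup.centralizer ({x} : Set G)) : ℂ)) =
        ((p : ℂ) ^ (Nat.card (Subgroup.centralizer ({x} : Set G))).factorization p /
          (Nat.card (Subgroup.centralizer ({x} : Set G)) : ℂ)) := by
      push_cast
      rfl
    rw [h2]
    exact h
  have hdiff : MemLocalIdeal M (classInner (fun c : Subgroup.centralizer ({x} : Set G) =>
      if p ∣ orderOf c then (0 : ℂ) else
        ((p ^ (Nat.card (Subgroup.centralizer ({x} : Set G))).factorization p : ℕ) : ℂ) *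
          (χ : G → ℂ) (x * (c : G))) (ψ' : Subgroup.centralizer ({x} : Set G) → ℂ) /
        (ψ' : Subgroup.centralizer ({x} : Set G) → ℂ) 1 -
      classInner (fun c : Subgroup.centralizer ({x} : Set G) =>
      if p ∣ orderOf c then (0 : ℂ) else
        ((p ^ (Nat.card (Subgroup.centralizer ({x} : Set G))).factorization p : ℕ) : ℂ) *
          (χ : G → ℂ) (c : G)) (ψ' : Subgroup.centralizer ({x} : Set G) → ℂ) /
        (ψ' : Subgroup.centralizer ({x} : Set G) → ℂ) 1) := by
    rw [← sub_div, ← classInner_sub_left]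
    have e4 : ((fun c : Subgroup.centralizer ({x} : Set G) =>
        if p ∣ orderOf c then (0 : ℂ) else
          ((p ^ (Nat.card (Subgroup.centralizer ({x} : Set G))).factorization p : ℕ) : ℂ) *
            (χ : G → ℂ) (x * (c : G))) -
        (fun c : Subgroup.centralizer ({x} : Set G) =>
        if p ∣ orderOf c then (0 : ℂ) else
          ((p ^ (Nat.card (Subgroup.centralizer ({x} : Set G))).factorization p : ℕ) : ℂ) *
            (χ : G → ℂ) (c : G))) =
        (fun c : Subgroup.centralizer ({x} : Set G) =>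
        if p ∣ orderOf c then (0 : ℂ) else
          ((p ^ (Nat.card (Subgroup.centralizer ({x} : Set G))).factorization p : ℕ) : ℂ) *
            ((χ : G → ℂ) (x * (c : G)) - (χ : G → ℂ) (c : G))) := by
      funext c
      show (if p ∣ orderOf c then (0 : ℂ) else _) - (if p ∣ orderOf c then (0 : ℂ) else _) = _
      by_cases hc : p ∣ orderOf c
      · simp [hc]
      · rw [if_neg hc, if_neg hc, if_neg hc]
        ring
    rw [e4, regInner_eq_om_inv]
    apply memLocalIdeal_mul_left hcoefC
    apply om_memLocalIdeal ψ'.2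
    · intro c k
      show (if p ∣ orderOf (k * c * k⁻¹) then (0 : ℂ) else
        ((χ : G → ℂ) (x * (((k * c * k⁻¹)⁻¹ : Subgroup.centralizer ({x} : Set G)) : G)) -
          (χ : G → ℂ) (((k * c * k⁻¹)⁻¹ : Subgroup.centralizer ({x} : Set G)) : G))) =
        (if p ∣ orderOf c then (0 : ℂ) else
        ((χ : G → ℂ) (x * ((c⁻¹ : Subgroup.centralizer ({x} : Set G)) : G)) -
          (χ : G → ℂ) ((c⁻¹ : Subgroup.centralizer ({x} : Set G)) : G)))
      rw [Cfsg.Agent.Lib_helper3_PReg.orderOf_conj_eq]
      have h1 : x * (((k * c * k⁻¹)⁻¹ : Subgroup.centralizer ({x} : Set G)) : G) =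
          (k : G) * (x * ((c⁻¹ : Subgroup.centralizer ({x} : Set G)) : G)) * (k : G)⁻¹ := by
        push_cast
        calc x * ((k : G) * (c : G) * (k : G)⁻¹)⁻¹ = (x * (k : G)) * (c : G)⁻¹ * (k : G)⁻¹ := by
              group
          _ = ((k : G) * x) * (c : G)⁻¹ * (k : G)⁻¹ := by rw [hcommx k]
          _ = (k : G) * (x * (c : G)⁻¹) * (k : G)⁻¹ := by group
      have h2 : (((k * c * k⁻¹)⁻¹ : Subgroup.centralizer ({x} : Set G)) : G) =
          (k : G) * ((c⁻¹ : Subgroup.centralizer ({x} : Set G)) : G) * (k : G)⁻¹ := by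
        push_cast
        group
      rw [h1, h2, isClassFunction_of_irr χ.2 _ (k : G), isClassFunction_of_irr χ.2 _ (k : G)]
    · intro c
      show MemLocalIdeal M (if p ∣ orderOf c then (0 : ℂ) else
        ((χ : G → ℂ) (x * ((c⁻¹ : Subgroup.centralizer ({x} : Set G)) : G)) -
          (χ : G → ℂ) ((c⁻¹ : Subgroup.centralizer ({x} : Set G)) : G)))
      by_cases hc : p ∣ orderOf c
      · rw [if_pos hc]
        exact memLocalIdeal_zero hMp.ne_top
      · rw [if_neg hc]
        have hpart : IsPPart p (x * ((c⁻¹ : Subgroup.centralizer ({x} : Set G)) : G)) x := by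
          refine ⟨((c⁻¹ : Subgroup.centralizer ({x} : Set G)) : G), rfl,
            (hcommx c⁻¹).symm, hx, ?_⟩
          rw [Subgroup.orderOf_coe, orderOf_inv]
          exact hc
        obtain ⟨w, hwM, hw⟩ := char_sub_reg_mem hM (isCharacter_of_irr χ.2) hpart
        rw [inv_mul_cancel_left] at hw
        rw [← hw]
        exact memLocalIdeal_of_mem hMp.ne_top hwM
  have hunit := (induced_block_restriction hM (Subgroup.centralizer ({x} : Set G)) b B hb χ ψ'
    hψ'b).2 hχ h0
  apply hunit
  rw [hT, zero_div, zero_sub] at hdiff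
  have h9 := memLocalIdeal_neg hdiff
  rw [neg_neg] at h9
  exact h9

end Cfsg.Agent.Lib_helper3_SubsecNonvanish
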