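import Cfsg.Prelude.Def_Characters
import Cfsg.Agent.Lib_helper3_Transfer

set_option autoImplicit false
open Cfsg
open Cfsg.Agent.Lib_helper3_CharBasic Cfsg.Agent.Lib_helper3_CharMore
open Cfsg.Agent.Lib_helper3_Transfer

namespace Cfsg.Agent.Lib_helper3_Transfer2

universe u

variable {Γ : Type u} [Group Γ] [Finite Γ]

theorem transfer_pow_eq_one (H : Subgroup Γ) (β : H →* ℂˣ) (m : ℕ) (hβ : ∀ h : H, β h ^ m = 1)
    (g : Γ) : MonoidHom.transfer β g ^ m = 1 := by
  classical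
  have : Fintype (Quotient (MulAction.orbitRel (Subgroup.zpowers g) (Γ ⧸ H))) :=
    Fintype.ofFinite _
  rw [MonoidHom.transfer_eq_prod_quotient_orbitRel_zpowers_quot, ← Finset.prod_pow]
  exact Finset.prod_eq_one (fun q _ => hβ _)

/-- An invariant linear character of a normal subgroup whose exponent is prime to the index
extends to a linear character with the same exponent. -/
theorem exists_extension_coprime (N : Subgroup Γ) [hN : N.Normal] (lam : N →* ℂˣ)
    (hinv : ∀ (g : Γ) (a : N), lam ⟨g * a * g⁻¹, hN.conj_mem a a.2 g⟩ = lam a)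
    (m : ℕ) (hlam : ∀ a : N, lam a ^ m = 1) (hcop : Nat.Coprime N.index m) :
    ∃ μ : Γ →* ℂˣ, (∀ a : N, μ a = lam a) ∧ ∀ g : Γ, μ g ^ m = 1 := by
  have hV : ∀ a : N, MonoidHom.transfer lam (a : Γ) = lam a ^ N.index :=
    fun a => transfer_eq_pow_of_invariant N N le_rfl lam lam (fun a => rfl) hinv a
  have hVm : ∀ g : Γ, MonoidHom.transfer lam g ^ m = 1 := transfer_pow_eq_one N lam m hlam
  have hb := Int.gcd_eq_gcd_ab (N.index : ℤ) (m : ℤ)
  have hg : Int.gcd (N.index : ℤ) (m : ℤ) = 1 := by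
    rw [Int.gcd_natCast_natCast]
    exact hcop
  rw [hg] at hb
  refine ⟨MonoidHom.transfer lam ^ (Int.gcdA (N.index : ℤ) (m : ℤ)), fun a => ?_, fun g => ?_⟩
  · rw [MonoidHom.zpow_apply, hV a, ← zpow_natCast, ← zpow_mul]
    have h1 : (N.index : ℤ) * Int.gcdA (N.index : ℤ) (m : ℤ)
        = 1 - (m : ℤ) * Int.gcdB (N.index : ℤ) (m : ℤ) := by
      have : ((1 : ℕ) : ℤ) = 1 := rfl
      rw [this] at hb
      linarith
    rw [h1, zpow_sub, zpow_one, zpow_mul, zpow_natCast, hlam a, one_zpow]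
    simp
  · rw [MonoidHom.zpow_apply, ← zpow_natCast, ← zpow_mul, mul_comm, zpow_mul, zpow_natCast,
      hVm g, one_zpow]

/-- Two linear characters agreeing on a normal subgroup and with exponents prime to its index
coincide. -/
theorem hom_eq_of_coprime (N : Subgroup Γ) [hN : N.Normal] (μ μ' : Γ →* ℂˣ)
    (hres : ∀ a : N, μ a = μ' a) (m₁ m₂ : ℕ) (h₁ : ∀ g : Γ, μ g ^ m₁ = 1)
    (h₂ : ∀ g : Γ, μ' g ^ m₂ = 1) (hc₁ : Nat.Coprime N.index m₁)
    (hc₂ : Nat.Coprime N.index m₂) : μ = μ' := by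
  ext g
  congr 1
  have hγ1 : (μ g / μ' g) ^ (m₁ * m₂) = 1 := by
    rw [div_pow, pow_mul, h₁ g, one_pow, mul_comm, pow_mul, h₂ g, one_pow, div_one]
  have hγ2 : (μ g / μ' g) ^ N.index = 1 := by
    have hmem : g ^ N.index ∈ N := Subgroup.pow_index_mem N g
    have := hres ⟨g ^ N.index, hmem⟩
    rw [div_pow, ← map_pow, ← map_pow]
    exact div_eq_one.2 this
  have hd1 := orderOf_dvd_of_pow_eq_one hγ1
  have hd2 := orderOf_dvd_of_pow_eq_one hγ2
  have hcop : Nat.Coprime N.index (m₁ * m₂) := Nat.Coprime.mul_right hc₁ hc₂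
  have h1 : orderOf (μ g / μ' g) = 1 :=
    Nat.eq_one_of_dvd_coprimes hcop hd2 hd1
  exact div_eq_one.1 (orderOf_eq_one_iff.1 h1)

end Cfsg.Agent.Lib_helper3_Transfer2
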