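import Mathlib
import Cfsg.Prelude.Def_Characters
import Cfsg.Agent.Lib_helper3_Brauer2
import Cfsg.Agent.Lib_helper3_TIFN2
import Cfsg.Agent.Lib_helper3_GenChar

set_option autoImplicit false
open Cfsg
open Cfsg.Agent.Lib_helper3_CharBasic Cfsg.Agent.Lib_helper3_CharInd
  Cfsg.Agent.Lib_helper3_CharMore Cfsg.Agent.Lib_helper3_GenChar
  Cfsg.Agent.Lib_helper3_Brauer2 Cfsg.Agent.Lib_helper3_TIFN2
open scoped ComplexConjugate

namespace Cfsg.Agent.Lib_helper3_Twist

universe u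

variable {G : Type u} [Group G]

/-- Composing a function with the `k`-th power map. -/
def tw (k : ℕ) (f : G → ℂ) : G → ℂ := fun g => f (g ^ k)

theorem tw_list_sum (k : ℕ) (l : List (G → ℂ)) : tw k l.sum = (l.map (tw k)).sum := by
  induction l with
  | nil => rfl
  | cons a l ih =>
    rw [List.sum_cons, List.map_cons, List.sum_cons, ← ih]
    rfl

theorem mem_of_pow_mem [Finite G] (E : Subgroup G) {k : ℕ} (hk : Nat.Coprime k (Nat.card G))
    {y : G} (h : y ^ k ∈ E) : y ∈ E := by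
  have h1 : y = (powCoprime hk.symm).symm (y ^ k) := by
    rw [Equiv.eq_symm_apply]
    rfl
  rw [h1]
  exact zpow_mem h _

variable [Fintype G]

theorem tw_indFun (E : Subgroup G) (lam : E →* ℂˣ) {k : ℕ} (hk : Nat.Coprime k (Nat.card G)) :
    tw k (indFun E (fun e => (lam e : ℂ))) =
      indFun E (fun e => (((powMonoidHom k).comp lam) e : ℂ)) := by
  funext g
  unfold tw
  rw [indFun_apply, indFun_apply]
  congr 1
  apply Finset.sum_congr rfl
  intro x _
  have h1 : x⁻¹ * g ^ k * x = (x⁻¹ * g * x) ^ k := by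
    have h2 := conj_pow (a := x⁻¹) (b := g) (i := k)
    rw [inv_inv] at h2
    exact h2.symm
  rw [h1]
  by_cases hy : x⁻¹ * g * x ∈ E
  · rw [extendByZero_mem E _ (pow_mem hy k), extendByZero_mem E _ hy]
    show ((lam ⟨(x⁻¹ * g * x) ^ k, _⟩ : ℂˣ) : ℂ) = ((lam ⟨x⁻¹ * g * x, hy⟩ ^ k : ℂˣ) : ℂ)
    rw [← map_pow]
    rfl
  · rw [extendByZero_not_mem E _ hy,
      extendByZero_not_mem E _ (fun h => hy (mem_of_pow_mem E hk h))]

theorem tw_isGen {χ : G → ℂ} (hχ : IsCharacter G χ) {k : ℕ} (hk : Nat.Coprime k (Nat.card G)) :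
    IsGeneralizedCharacter G (tw k χ) := by
  obtain ⟨l, -, rfl⟩ := brauer_induction hχ
  rw [tw_list_sum, List.map_map]
  apply isGen_list_sum
  intro f hf
  obtain ⟨t, -, rfl⟩ := List.mem_map.mp hf
  have h1 : tw k ((t.2.2 : ℂ) • indFun t.1 (fun e => (t.2.1 e : ℂ))) =
      (t.2.2 : ℂ) • tw k (indFun t.1 (fun e => (t.2.1 e : ℂ))) := rfl
  show IsGeneralizedCharacter G (tw k ((t.2.2 : ℂ) • indFun t.1 (fun e => (t.2.1 e : ℂ))))
  rw [h1, tw_indFun t.1 t.2.1 hk]
  exact isGen_intCast_smul _ (isGen_of_char (isCharacter_indFun t.1 (isCharacter_of_monoidHom _)))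

theorem tw_irr {χ : G → ℂ} (hχ : IsIrrCharacter G χ) {k : ℕ}
    (hk : Nat.Coprime k (Nat.card G)) : IsIrrCharacter G (tw k χ) := by
  have hgen := tw_isGen (isCharacter_of_irr hχ) hk
  have hnorm : classInner (tw k χ) (tw k χ) = 1 := by
    rw [classInner_def, ← irr_inner_self hχ, classInner_def]
    congr 1
    exact Equiv.sum_comp (powCoprime hk.symm) (fun g => χ g * conj (χ g))
  obtain ⟨μ, hμ, h | h⟩ := norm_one_gen hgen hnorm
  · rw [h]
    exact hμ
  · exfalso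
    obtain ⟨n, hn, hn1⟩ := irr_apply_one_pos hχ
    obtain ⟨m, hm, hm1⟩ := irr_apply_one_pos hμ
    have h1 : tw k χ 1 = (-μ) 1 := by rw [h]
    have h2 : tw k χ 1 = χ 1 := by
      unfold tw
      rw [one_pow]
    rw [h2, hn1, Pi.neg_apply, hm1] at h1
    have h3 : ((n : ℤ) : ℂ) = ((-(m : ℤ) : ℤ) : ℂ) := by
      push_cast
      exact h1
    have h4 : (n : ℤ) = -(m : ℤ) := by exact_mod_cast h3
    omega

theorem tw_char {χ : G → ℂ} (hχ : IsCharacter G χ) {k : ℕ} (hk : Nat.Coprime k (Nat.card G)) :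
    IsCharacter G (tw k χ) := by
  obtain ⟨l, hl, rfl⟩ := isCharacter_iff_list.mp hχ
  rw [tw_list_sum]
  apply isCharacter_list_sum
  intro f hf
  obtain ⟨ψ, hψ, rfl⟩ := List.mem_map.mp hf
  exact isCharacter_of_irr (tw_irr (hl ψ hψ) hk)

end Cfsg.Agent.Lib_helper3_Twist
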