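import Mathlib
import Cfsg.Prelude.Def_ClassicalGeometry
import Cfsg.Agent.Lib_helper4_Quad
import Cfsg.Agent.Lib_helper4_Quad2

/-! Witt-type transitivity of the isometry group of a quadratic form on hyperbolic pairs, via reflections and
Siegel transformations, keeping a prescribed set of vectors orthogonal to the pairs fixed. -/

namespace Cfsg.Agent.Lib_helper4_Orth
open Matrix Cfsg.Agent.Lib_helper4_Quad Cfsg.Agent.Lib_helper4_Quad2

variable {ι : Type} [Fintype ι] [DecidableEq ι] {F : Type*} [Field F]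

lemma polar_siegel_left (Q : QuadraticForm F (ι → F))
    (u v w : ι → F) (hwu : QuadraticMap.polar ⇑Q w u = 0) (hwv : QuadraticMap.polar ⇑Q w v = 0)
    (c : F) (x : ι → F) :
    QuadraticMap.polar ⇑Q w (Cfsg.siegelMatrix ⇑Q u v c *ᵥ x) = QuadraticMap.polar ⇑Q w x := by
  rw [siegel_mulVec, QuadraticMap.polar_sub_right, QuadraticMap.polar_add_right,
    QuadraticMap.polar_smul_right, QuadraticMap.polar_smul_right, hwu, hwv]
  simp

lemma siegel_preserves (Q : QuadraticForm F (ι → F)) (u v : ι → F) (hu : Q u = 0) (hv : Q v = 0)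
    (huv : QuadraticMap.polar ⇑Q u v = 0) (c : F) (x : ι → F) :
    Q (Cfsg.siegelMatrix ⇑Q u v c *ᵥ x) = Q x := by
  have hvu : QuadraticMap.polar ⇑Q v u = 0 := by
    rw [QuadraticMap.polar_comm, huv]
  rw [siegel_mulVec, sub_eq_add_neg, ← neg_smul, quad_add_smul, quad_add_smul,
    QuadraticMap.polar_add_left, QuadraticMap.polar_smul_left, hu, hv, hvu,
    QuadraticMap.polar_comm (⇑Q) x v, QuadraticMap.polar_comm (⇑Q) x u, smul_eq_mul]
  ring

lemma siegel_mul (Q : QuadraticForm F (ι → F)) (u v : ι → F) (hu : Q u = 0) (hv : Q v = 0)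
    (huv : QuadraticMap.polar ⇑Q u v = 0) (c d : F) :
    Cfsg.siegelMatrix ⇑Q u v c * Cfsg.siegelMatrix ⇑Q u v d = Cfsg.siegelMatrix ⇑Q u v (c + d) := by
  have huu : QuadraticMap.polar ⇑Q u u = 0 := by
    rw [polar_self', hu, mul_zero]
  have hvv : QuadraticMap.polar ⇑Q v v = 0 := by
    rw [polar_self', hv, mul_zero]
  have hvu : QuadraticMap.polar ⇑Q v u = 0 := by
    rw [QuadraticMap.polar_comm, huv]
  apply Matrix.ext_of_mulVec_single
  intro i
  rw [← Matrix.mulVec_mulVec, siegel_mulVec Q u v c,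
    polar_siegel_left Q u v u huu huv, polar_siegel_left Q u v v hvu hvv,
    siegel_mulVec, siegel_mulVec]
  module

lemma siegel_zero (Q : QuadraticForm F (ι → F)) (u v : ι → F) :
    Cfsg.siegelMatrix ⇑Q u v 0 = 1 := by
  unfold Cfsg.siegelMatrix
  rw [zero_smul, add_zero]

/-- The Siegel transformation as an element of the isometry group. -/
noncomputable def siegelIso (Q : QuadraticForm F (ι → F)) (u v : ι → F) (hu : Q u = 0) (hv : Q v = 0)
    (huv : QuadraticMap.polar ⇑Q u v = 0) : Cfsg.isometryGroup F ⇑Q :=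
  ⟨⟨Cfsg.siegelMatrix ⇑Q u v 1, Cfsg.siegelMatrix ⇑Q u v (-1),
    by rw [siegel_mul Q u v hu hv huv, add_neg_cancel, siegel_zero],
    by rw [siegel_mul Q u v hu hv huv, neg_add_cancel, siegel_zero]⟩,
   (mem_isometryGroup_iff _ _).mpr (fun x => siegel_preserves Q u v hu hv huv 1 x)⟩

lemma siegelIso_coe (Q : QuadraticForm F (ι → F)) (u v : ι → F) (hu : Q u = 0) (hv : Q v = 0)
    (huv : QuadraticMap.polar ⇑Q u v = 0) :
    (((siegelIso Q u v hu hv huv : Cfsg.isometryGroup F ⇑Q) : GL ι F) : Matrix ι ι F)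
      = Cfsg.siegelMatrix ⇑Q u v 1 := rfl

/-- The elements of the isometry group fixing every vector of `S`. -/
def fixer (Q : (ι → F) → F) (S : Set (ι → F)) : Subgroup (Cfsg.isometryGroup F Q) where
  carrier := {g | ∀ s ∈ S, ((g : GL ι F) : Matrix ι ι F) *ᵥ s = s}
  mul_mem' := by
    intro A C hA hC s hs
    rw [Subgroup.coe_mul, Units.val_mul, ← mulVec_mulVec, hC s hs]
    exact hA s hs
  one_mem' := by
    intro s _
    exact one_mulVec _
  inv_mem' := by
    intro A hA s hs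
    have h : (((A⁻¹ * A : Cfsg.isometryGroup F Q) : GL ι F) : Matrix ι ι F) = 1 := by
      rw [inv_mul_cancel]
      rfl
    rw [Subgroup.coe_mul, Units.val_mul] at h
    have h1 := congrArg (fun M => M *ᵥ s) h
    simp only [← mulVec_mulVec, one_mulVec] at h1
    rw [hA s hs] at h1
    exact h1

lemma mem_fixer (Q : (ι → F) → F) (S : Set (ι → F)) (g : Cfsg.isometryGroup F Q) :
    g ∈ fixer Q S ↔ ∀ s ∈ S, ((g : GL ι F) : Matrix ι ι F) *ᵥ s = s := Iff.rfl

lemma fixer_mono (Q : (ι → F) → F) {S T : Set (ι → F)} (h : S ⊆ T) : fixer Q T ≤ fixer Q S :=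
  fun _ hg s hs => hg s (h hs)

lemma coe_mul_mulVec (Q : (ι → F) → F) (g h : Cfsg.isometryGroup F Q) (x : ι → F) :
    (((g * h : Cfsg.isometryGroup F Q) : GL ι F) : Matrix ι ι F) *ᵥ x
      = ((g : GL ι F) : Matrix ι ι F) *ᵥ (((h : GL ι F) : Matrix ι ι F) *ᵥ x) := by
  rw [Subgroup.coe_mul, Units.val_mul, mulVec_mulVec]

lemma iso_apply (Q : (ι → F) → F) (g : Cfsg.isometryGroup F Q) (x : ι → F) :
    Q (((g : GL ι F) : Matrix ι ι F) *ᵥ x) = Q x :=
  (mem_isometryGroup_iff Q _).mp g.2 x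

lemma iso_polar (Q : (ι → F) → F) (g : Cfsg.isometryGroup F Q) (x y : ι → F) :
    QuadraticMap.polar Q (((g : GL ι F) : Matrix ι ι F) *ᵥ x) (((g : GL ι F) : Matrix ι ι F) *ᵥ y)
      = QuadraticMap.polar Q x y :=
  polar_isometry Q _ g.2 x y

/-- Two singular vectors with nonzero polar value are swapped by a reflection. -/
lemma exists_refl (Q : QuadraticForm F (ι → F)) (S : Set (ι → F)) (u u' : ι → F)
    (hu : Q u = 0) (hu' : Q u' = 0) (h : QuadraticMap.polar ⇑Q u u' ≠ 0)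
    (hS : ∀ s ∈ S, QuadraticMap.polar ⇑Q s u = QuadraticMap.polar ⇑Q s u') :
    ∃ g : Cfsg.isometryGroup F ⇑Q, g ∈ fixer ⇑Q S ∧
      ((g : GL ι F) : Matrix ι ι F) *ᵥ u = u' ∧ ((g : GL ι F) : Matrix ι ι F) *ᵥ u' = u := by
  have hw : Q (u - u') = -QuadraticMap.polar ⇑Q u u' := by
    have h1 := quad_add_smul Q u u' (-1)
    rw [neg_one_smul, ← sub_eq_add_neg] at h1
    rw [h1, hu, hu']
    ring
  have hw0 : Q (u - u') ≠ 0 := by
    rw [hw]
    exact neg_ne_zero.mpr h
  have huu : QuadraticMap.polar ⇑Q u u = 0 := by rw [polar_self', hu, mul_zero]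
  have hu'u' : QuadraticMap.polar ⇑Q u' u' = 0 := by rw [polar_self', hu', mul_zero]
  refine ⟨⟨refl Q (u - u') hw0, refl_mem Q (u - u') hw0⟩, ?_, ?_, ?_⟩
  · intro s hs
    show Cfsg.reflectionMatrix ⇑Q (u - u') *ᵥ s = s
    apply reflection_fix
    rw [QuadraticMap.polar_sub_left, QuadraticMap.polar_comm (⇑Q) u s,
      QuadraticMap.polar_comm (⇑Q) u' s, hS s hs, sub_self]
  · show Cfsg.reflectionMatrix ⇑Q (u - u') *ᵥ u = u'
    rw [reflection_mulVec, hw, QuadraticMap.polar_sub_left, huu,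
      QuadraticMap.polar_comm (⇑Q) u' u]
    have h1 : (-QuadraticMap.polar (⇑Q) u u')⁻¹ * (0 - QuadraticMap.polar (⇑Q) u u') = 1 := by
      field_simp
      ring
    rw [h1, one_smul]
    abel
  · show Cfsg.reflectionMatrix ⇑Q (u - u') *ᵥ u' = u
    rw [reflection_mulVec, hw, QuadraticMap.polar_sub_left, hu'u']
    have h1 : (-QuadraticMap.polar (⇑Q) u u')⁻¹ * (QuadraticMap.polar (⇑Q) u u' - 0) = -1 := by
      field_simp
      ring
    rw [h1, neg_one_smul]
    abel

/-- Two steps through an intermediate singular vector. -/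
lemma exists_two_refl (Q : QuadraticForm F (ι → F)) (S : Set (ι → F)) (e z u : ι → F)
    (he : Q e = 0) (hz : Q z = 0) (hu : Q u = 0)
    (hez : QuadraticMap.polar ⇑Q e z ≠ 0) (hzu : QuadraticMap.polar ⇑Q z u ≠ 0)
    (hSe : ∀ s ∈ S, QuadraticMap.polar ⇑Q s e = 0) (hSz : ∀ s ∈ S, QuadraticMap.polar ⇑Q s z = 0)
    (hSu : ∀ s ∈ S, QuadraticMap.polar ⇑Q s u = 0) :
    ∃ g : Cfsg.isometryGroup F ⇑Q, g ∈ fixer ⇑Q S ∧ ((g : GL ι F) : Matrix ι ι F) *ᵥ e = u := by
  obtain ⟨g₁, hg₁, h₁, -⟩ := exists_refl Q S e z he hz hez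
    (fun s hs => by rw [hSe s hs, hSz s hs])
  obtain ⟨g₂, hg₂, h₂, -⟩ := exists_refl Q S z u hz hu hzu
    (fun s hs => by rw [hSz s hs, hSu s hs])
  refine ⟨g₂ * g₁, (fixer ⇑Q S).mul_mem hg₂ hg₁, ?_⟩
  rw [coe_mul_mulVec, h₁, h₂]

/-- The isometry group (fixing `S`) is transitive on singular vectors having a singular partner. -/
lemma exists_map_singular (Q : QuadraticForm F (ι → F)) (S : Set (ι → F)) (e f u v : ι → F)
    (he : Q e = 0) (hf : Q f = 0) (hef : QuadraticMap.polar ⇑Q e f = 1)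
    (hu : Q u = 0) (hv : Q v = 0) (huv : QuadraticMap.polar ⇑Q u v = 1)
    (hSe : ∀ s ∈ S, QuadraticMap.polar ⇑Q s e = 0) (hSf : ∀ s ∈ S, QuadraticMap.polar ⇑Q s f = 0)
    (hSu : ∀ s ∈ S, QuadraticMap.polar ⇑Q s u = 0) (hSv : ∀ s ∈ S, QuadraticMap.polar ⇑Q s v = 0) :
    ∃ g : Cfsg.isometryGroup F ⇑Q, g ∈ fixer ⇑Q S ∧ ((g : GL ι F) : Matrix ι ι F) *ᵥ e = u := by
  have hee : QuadraticMap.polar ⇑Q e e = 0 := by rw [polar_self', he, mul_zero]
  by_cases h1 : QuadraticMap.polar ⇑Q e u = 0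
  · by_cases h2 : QuadraticMap.polar ⇑Q f u = 0
    · by_cases h3 : QuadraticMap.polar ⇑Q e v = 0
      · -- z = f + v - B(f, v) e
        set t := QuadraticMap.polar ⇑Q f v with ht
        have hz : Q (f + v + (-t) • e) = 0 := by
          rw [quad_add_smul, QuadraticMap.map_add (⇑Q) f v, hf, hv, he, QuadraticMap.polar_add_left,
            QuadraticMap.polar_comm (⇑Q) f e, QuadraticMap.polar_comm (⇑Q) v e, hef, h3, ← ht]
          ring
        apply exists_two_refl Q S e (f + v + (-t) • e) u he hz hu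
        · rw [QuadraticMap.polar_add_right, QuadraticMap.polar_add_right,
            QuadraticMap.polar_smul_right, hef, h3, hee]
          simp
        · rw [QuadraticMap.polar_add_left, QuadraticMap.polar_add_left,
            QuadraticMap.polar_smul_left, h2, h1, QuadraticMap.polar_comm (⇑Q) v u, huv]
          simp
        · exact hSe
        · intro s hs
          rw [QuadraticMap.polar_add_right, QuadraticMap.polar_add_right,
            QuadraticMap.polar_smul_right, hSf s hs, hSv s hs, hSe s hs]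
          simp
        · exact hSu
      · apply exists_two_refl Q S e v u he hv hu h3 ?_ hSe hSv hSu
        rw [QuadraticMap.polar_comm, huv]
        exact one_ne_zero
    · apply exists_two_refl Q S e f u he hf hu ?_ h2 hSe hSf hSu
      rw [hef]
      exact one_ne_zero
  · obtain ⟨g, hg, h, -⟩ := exists_refl Q S e u he hu h1 (fun s hs => by rw [hSe s hs, hSu s hs])
    exact ⟨g, hg, h⟩

/-- The stabiliser of a singular vector `u` (fixing `S`) is transitive on the singular partners of `u`. -/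
lemma exists_fix_map (Q : QuadraticForm F (ι → F)) (S : Set (ι → F)) (u v v' : ι → F)
    (hu : Q u = 0) (hv : Q v = 0) (hv' : Q v' = 0)
    (huv : QuadraticMap.polar ⇑Q u v = 1) (huv' : QuadraticMap.polar ⇑Q u v' = 1)
    (hSu : ∀ s ∈ S, QuadraticMap.polar ⇑Q s u = 0) (hSv : ∀ s ∈ S, QuadraticMap.polar ⇑Q s v = 0)
    (hSv' : ∀ s ∈ S, QuadraticMap.polar ⇑Q s v' = 0) :
    ∃ g : Cfsg.isometryGroup F ⇑Q, g ∈ fixer ⇑Q S ∧ ((g : GL ι F) : Matrix ι ι F) *ᵥ u = u ∧
      ((g : GL ι F) : Matrix ι ι F) *ᵥ v' = v := by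
  have huu : QuadraticMap.polar ⇑Q u u = 0 := by rw [polar_self', hu, mul_zero]
  have hv'v' : QuadraticMap.polar ⇑Q v' v' = 0 := by rw [polar_self', hv', mul_zero]
  by_cases h : QuadraticMap.polar ⇑Q v v' = 0
  · -- Siegel transformation with y = v - v'
    have hy : Q (v - v') = 0 := by
      have h1 := quad_add_smul Q v v' (-1)
      rw [neg_one_smul, ← sub_eq_add_neg] at h1
      rw [h1, hv, hv', h]
      ring
    have huy : QuadraticMap.polar ⇑Q u (v - v') = 0 := by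
      rw [QuadraticMap.polar_sub_right, huv, huv', sub_self]
    refine ⟨siegelIso Q u (v - v') hu hy huy, ?_, ?_, ?_⟩
    · intro s hs
      rw [siegelIso_coe, siegel_mulVec, QuadraticMap.polar_comm (⇑Q) u s, hSu s hs,
        QuadraticMap.polar_comm (⇑Q) (v - v') s, QuadraticMap.polar_sub_right, hSv s hs, hSv' s hs]
      simp
    · rw [siegelIso_coe, siegel_mulVec, huu, QuadraticMap.polar_comm (⇑Q) (v - v') u, huy]
      simp
    · rw [siegelIso_coe, siegel_mulVec, huv', QuadraticMap.polar_sub_left, h, hv'v']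
      simp
  · obtain ⟨g, hg, h1, -⟩ := exists_refl Q (S ∪ {u}) v' v hv' hv
      (by rw [QuadraticMap.polar_comm]; exact h)
      (by
        intro s hs
        rcases hs with hs | hs
        · rw [hSv s hs, hSv' s hs]
        · rw [Set.mem_singleton_iff] at hs
          rw [hs, huv, huv'])
    exact ⟨g, fixer_mono ⇑Q Set.subset_union_left hg, hg u (Set.mem_union_right _ rfl), h1⟩

/-- Witt's theorem for hyperbolic pairs orthogonal to `S`. -/
theorem exists_map_hyp (Q : QuadraticForm F (ι → F)) (S : Set (ι → F)) (e f u v : ι → F)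
    (he : Q e = 0) (hf : Q f = 0) (hef : QuadraticMap.polar ⇑Q e f = 1)
    (hu : Q u = 0) (hv : Q v = 0) (huv : QuadraticMap.polar ⇑Q u v = 1)
    (hSe : ∀ s ∈ S, QuadraticMap.polar ⇑Q s e = 0) (hSf : ∀ s ∈ S, QuadraticMap.polar ⇑Q s f = 0)
    (hSu : ∀ s ∈ S, QuadraticMap.polar ⇑Q s u = 0) (hSv : ∀ s ∈ S, QuadraticMap.polar ⇑Q s v = 0) :
    ∃ g : Cfsg.isometryGroup F ⇑Q, g ∈ fixer ⇑Q S ∧ ((g : GL ι F) : Matrix ι ι F) *ᵥ e = u ∧
      ((g : GL ι F) : Matrix ι ι F) *ᵥ f = v := by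
  obtain ⟨g₁, hg₁, h₁⟩ := exists_map_singular Q S e f u v he hf hef hu hv huv hSe hSf hSu hSv
  obtain ⟨g₂, hg₂, h₂, h₃⟩ := exists_fix_map Q S u v (((g₁ : GL ι F) : Matrix ι ι F) *ᵥ f) hu hv
    ((iso_apply ⇑Q g₁ f).trans hf) huv
    (by rw [← h₁, iso_polar, hef]) hSu hSv
    (by
      intro s hs
      have h4 := iso_polar ⇑Q g₁ s f
      rw [hg₁ s hs] at h4
      rw [h4, hSf s hs])
  refine ⟨g₂ * g₁, (fixer ⇑Q S).mul_mem hg₂ hg₁, ?_, ?_⟩
  · rw [coe_mul_mulVec, h₁, h₂]
  · rw [coe_mul_mulVec, h₃]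

end Cfsg.Agent.Lib_helper4_Orth
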