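import Mathlib

set_option autoImplicit false

/-! Witt's extension theorem for quadratic forms with non-degenerate polar form
(any field, any characteristic). -/

namespace Cfsg.Agent.Lib_helper4_WittQuad
open Module

variable {F V : Type*} [Field F] [AddCommGroup V] [Module F V]

/-- The polar form as a bilinear form. -/
abbrev pB (Q : QuadraticForm F V) : LinearMap.BilinForm F V := QuadraticMap.polarBilin Q

/-- `f` restricted to `X` is an injective `Q`-preserving map. -/
def Good (Q : QuadraticForm F V) (X : Submodule F V) (f : V →ₗ[F] V) : Prop :=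
  (∀ x ∈ X, Q (f x) = Q x) ∧ (∀ x ∈ X, f x = 0 → x = 0)

lemma Q_add (Q : QuadraticForm F V) (x y : V) :
    Q (x + y) = Q x + Q y + pB Q x y := by
  rw [QuadraticMap.polarBilin_apply_apply]; unfold QuadraticMap.polar; ring

lemma Q_add_smul (Q : QuadraticForm F V) (x v : V) (a : F) :
    Q (x + a • v) = Q x + a ^ 2 * Q v + a * pB Q x v := by
  rw [Q_add, QuadraticMap.map_smul, map_smul]
  simp only [smul_eq_mul]; ring

lemma B_self (Q : QuadraticForm F V) (x : V) : pB Q x x = 2 * Q x := by
  rw [QuadraticMap.polarBilin_apply_apply, QuadraticMap.polar_self]; simp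

lemma B_comm (Q : QuadraticForm F V) (x y : V) : pB Q x y = pB Q y x := by
  simp only [QuadraticMap.polarBilin_apply_apply]; exact QuadraticMap.polar_comm _ _ _

lemma B_eq (Q : QuadraticForm F V) (x y : V) : pB Q x y = Q (x + y) - Q x - Q y := by
  rw [Q_add]; ring

lemma Good.polar {Q : QuadraticForm F V} {X : Submodule F V} {f : V →ₗ[F] V} (h : Good Q X f)
    {x y : V} (hx : x ∈ X) (hy : y ∈ X) : pB Q (f x) (f y) = pB Q x y := by
  rw [B_eq, B_eq, ← map_add, h.1 _ (X.add_mem hx hy), h.1 x hx, h.1 y hy]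

lemma Good.mono {Q : QuadraticForm F V} {X Y : Submodule F V} {f : V →ₗ[F] V} (h : Good Q Y f)
    (hXY : X ≤ Y) : Good Q X f :=
  ⟨fun x hx => h.1 x (hXY hx), fun x hx => h.2 x (hXY hx)⟩

lemma exists_equiv [FiniteDimensional F V] (Q : QuadraticForm F V)
    (hQ : (pB Q).Nondegenerate) (g : V →ₗ[F] V) (hg : ∀ v, Q (g v) = Q v) :
    ∃ e : V ≃ₗ[F] V, ∀ v, e v = g v := by
  have hinj : Function.Injective g := by
    rw [← LinearMap.ker_eq_bot, LinearMap.ker_eq_bot']
    intro x hx
    apply hQ.1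
    intro y
    have : pB Q (g x) (g y) = pB Q x y := by
      rw [B_eq, B_eq, ← map_add, hg, hg, hg]
    rw [← this, hx]; simp
  exact ⟨LinearEquiv.ofInjectiveEndo g hinj, fun v => rfl⟩

lemma riesz [FiniteDimensional F V] (Q : QuadraticForm F V) (hQ : (pB Q).Nondegenerate)
    (μ : V →ₗ[F] F) : ∃ w₀ : V, ∀ y, pB Q w₀ y = μ y :=
  ⟨(LinearMap.BilinForm.toDual (pB Q) hQ).symm μ, fun y =>
    LinearMap.BilinForm.apply_toDual_symm_apply μ y⟩

lemma exists_not_mem_two (K A A' : Submodule F V) (hA : A < K) (hA' : A' < K) :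
    ∃ w ∈ K, w ∉ A ∧ w ∉ A' := by
  obtain ⟨a, haK, haA⟩ := SetLike.exists_of_lt hA
  obtain ⟨b, hbK, hbB⟩ := SetLike.exists_of_lt hA'
  by_cases h1 : a ∈ A'
  · by_cases h2 : b ∈ A
    · refine ⟨a + b, K.add_mem haK hbK, ?_, ?_⟩
      · intro h; exact haA (by simpa using A.sub_mem h h2)
      · intro h; exact hbB (by simpa using A'.sub_mem h h1)
    · exact ⟨b, hbK, h2, hbB⟩
  · exact ⟨a, haK, haA, h1⟩

lemma exists_dual_one (X : Submodule F V) (w : V) (hw : w ∉ X) :
    ∃ ℓ : V →ₗ[F] F, ℓ w = 1 ∧ ∀ x ∈ X, ℓ x = 0 := by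
  obtain ⟨f, hf, hfX⟩ := Submodule.exists_dual_map_eq_bot_of_notMem hw inferInstance
  refine ⟨(f w)⁻¹ • f, by simp [hf], ?_⟩
  intro x hx
  have : f x ∈ X.map f := ⟨x, hx, rfl⟩
  rw [hfX] at this
  simp [(Submodule.mem_bot F).1 this]

/-- Extension from the hyperplane `p^⊥` of a singular vector `p` to the whole space. -/
lemma extend_hyperplane [FiniteDimensional F V] (Q : QuadraticForm F V)
    (hQ : (pB Q).Nondegenerate) (p : V) (hp : p ≠ 0) (hQp : Q p = 0)
    (f : V →ₗ[F] V) (hf : Good Q (LinearMap.ker (pB Q p)) f) :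
    ∃ g : V ≃ₗ[F] V, (∀ v, Q (g v) = Q v) ∧ ∀ x ∈ LinearMap.ker (pB Q p), g x = f x := by
  have hKmem : ∀ x, x ∈ LinearMap.ker (pB Q p) ↔ pB Q p x = 0 := fun x => LinearMap.mem_ker
  have hpK : p ∈ LinearMap.ker (pB Q p) := by rw [hKmem, B_self, hQp, mul_zero]
  obtain ⟨v, hv⟩ : ∃ v, pB Q p v ≠ 0 := by
    by_contra h
    push Not at h
    exact hp (hQ.1 _ h)
  have hker : LinearMap.ker (f.domRestrict (LinearMap.ker (pB Q p))) = ⊥ := by
    rw [LinearMap.ker_eq_bot']
    intro x hx
    exact Subtype.ext (hf.2 x x.2 hx)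
  obtain ⟨ρ, hρ⟩ := LinearMap.exists_leftInverse_of_injective
    (f.domRestrict (LinearMap.ker (pB Q p))) hker
  let μ : V →ₗ[F] F := (pB Q v) ∘ₗ (LinearMap.ker (pB Q p)).subtype ∘ₗ ρ
  obtain ⟨v₀, hv₀⟩ := riesz Q hQ μ
  have h1 : ∀ x ∈ LinearMap.ker (pB Q p), pB Q v₀ (f x) = pB Q v x := by
    intro x hx
    rw [hv₀]
    have h2 : ρ (f x) = ⟨x, hx⟩ := by
      have := congrArg (fun g : LinearMap.ker (pB Q p) →ₗ[F] LinearMap.ker (pB Q p) =>
        g ⟨x, hx⟩) hρ
      simpa using this
    simp [μ, h2]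
  set t := (Q v - Q v₀) / pB Q p v with ht
  set v' := v₀ + t • f p with hv'
  have hQv' : Q v' = Q v := by
    rw [hv', Q_add_smul, hf.1 p hpK, hQp, h1 p hpK, B_comm Q v p, ht]
    field_simp; ring
  have h2 : ∀ x ∈ LinearMap.ker (pB Q p), pB Q v' (f x) = pB Q v x := by
    intro x hx
    rw [hv', map_add, LinearMap.add_apply, map_smul, LinearMap.smul_apply, h1 x hx,
      hf.polar hpK hx, (hKmem x).1 hx]
    simp
  let lam : V →ₗ[F] F := (pB Q p v)⁻¹ • pB Q p
  let π : V →ₗ[F] V := LinearMap.id - lam.smulRight v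
  have hπK : ∀ x, π x ∈ LinearMap.ker (pB Q p) := by
    intro x
    rw [hKmem]
    simp only [π, lam, LinearMap.sub_apply, LinearMap.id_apply, LinearMap.smulRight_apply,
      LinearMap.smul_apply, map_sub, map_smul, smul_eq_mul]
    field_simp; ring
  let g : V →ₗ[F] V := f ∘ₗ π + lam.smulRight v'
  have hg : ∀ x, Q (g x) = Q x := by
    intro x
    have e1 : g x = f (π x) + lam x • v' := by simp [g]
    have e2 : x = π x + lam x • v := by simp [π]
    rw [e1, Q_add_smul, hf.1 _ (hπK x), hQv', B_comm Q (f (π x)) v', h2 _ (hπK x),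
      B_comm Q v (π x)]
    conv_rhs => rw [e2, Q_add_smul]
  obtain ⟨e, he⟩ := exists_equiv Q hQ g hg
  refine ⟨e, fun x => by rw [he]; exact hg x, fun x hx => ?_⟩
  rw [he]
  have : lam x = 0 := by simp [lam, (hKmem x).1 hx]
  simp [g, π, this]

/-- Extension of a partial isometry inside `p^⊥` that moves vectors along `p`. -/
theorem extend_in_perp [FiniteDimensional F V] (Q : QuadraticForm F V)
    (hQ : (pB Q).Nondegenerate) (p : V) (hp : p ≠ 0) (hQp : Q p = 0) :
    ∀ (m : ℕ) (X : Submodule F V) (f : V →ₗ[F] V), X ≤ LinearMap.ker (pB Q p) →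
      finrank F (LinearMap.ker (pB Q p)) ≤ finrank F X + m → Good Q X f →
      (∀ x ∈ X, f x - x ∈ Submodule.span F {p}) →
      ∃ g : V ≃ₗ[F] V, (∀ v, Q (g v) = Q v) ∧ ∀ x ∈ X, g x = f x := by
  have hKmem : ∀ x, x ∈ LinearMap.ker (pB Q p) ↔ pB Q p x = 0 := fun x => LinearMap.mem_ker
  have hpK : p ∈ LinearMap.ker (pB Q p) := by rw [hKmem, B_self, hQp, mul_zero]
  intro m
  induction m with
  | zero =>
    intro X f hXK hfin hG _
    have hX : X = LinearMap.ker (pB Q p) := Submodule.eq_of_le_of_finrank_le hXK (by omega)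
    rw [hX] at hG ⊢
    exact extend_hyperplane Q hQ p hp hQp f hG
  | succ m ih =>
    intro X f hXK hfin hG hspan
    by_cases hX : X = LinearMap.ker (pB Q p)
    · rw [hX] at hG ⊢
      exact extend_hyperplane Q hQ p hp hQp f hG
    · have hlt : X < LinearMap.ker (pB Q p) := lt_of_le_of_ne hXK hX
      have hmapK : X.map f ≤ LinearMap.ker (pB Q p) := by
        rintro _ ⟨x, hx, rfl⟩
        have : f x = x + (f x - x) := by abel
        rw [this]
        exact Submodule.add_mem _ (hXK hx)
          ((Submodule.span_le.2 (Set.singleton_subset_iff.2 hpK)) (hspan x hx))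
      have hmaplt : X.map f < LinearMap.ker (pB Q p) := by
        refine lt_of_le_of_ne hmapK ?_
        intro h
        have h1 := Submodule.finrank_map_le f X
        rw [h] at h1
        have h2 := Submodule.finrank_lt_finrank_of_lt hlt
        omega
      obtain ⟨w, hwK, hwX, hwM⟩ := exists_not_mem_two _ X (X.map f) hlt hmaplt
      obtain ⟨ℓ, hℓw, hℓX⟩ := exists_dual_one X w hwX
      let f' : V →ₗ[F] V := f + ℓ.smulRight (w - f w)
      have hf'X : ∀ x ∈ X, f' x = f x := by
        intro x hx; simp [f', hℓX x hx]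
      have hf'w : f' w = w := by simp [f', hℓw]
      have hGood : Good Q (X ⊔ Submodule.span F {w}) f' := by
        constructor
        · intro y hy
          obtain ⟨x, hx, z, hz, rfl⟩ := Submodule.mem_sup.1 hy
          obtain ⟨c, rfl⟩ := Submodule.mem_span_singleton.1 hz
          rw [map_add, map_smul, hf'X x hx, hf'w, Q_add_smul, Q_add_smul, hG.1 x hx]
          have : pB Q (f x) w = pB Q x w := by
            obtain ⟨a, ha⟩ := Submodule.mem_span_singleton.1 (hspan x hx)
            have e : f x = x + a • p := by rw [ha]; abel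
            rw [e, map_add, LinearMap.add_apply, map_smul, LinearMap.smul_apply,
              (hKmem w).1 hwK]
            simp
          rw [this]
        · intro y hy h0
          obtain ⟨x, hx, z, hz, rfl⟩ := Submodule.mem_sup.1 hy
          obtain ⟨c, rfl⟩ := Submodule.mem_span_singleton.1 hz
          rw [map_add, map_smul, hf'X x hx, hf'w] at h0
          by_cases hc : c = 0
          · subst hc
            simp only [zero_smul, add_zero] at h0 ⊢
            exact hG.2 x hx h0
          · exfalso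
            apply hwM
            refine ⟨-(c⁻¹ • x), X.neg_mem (X.smul_mem _ hx), ?_⟩
            have h1 : c • w = -f x := by
              rw [eq_neg_iff_add_eq_zero, add_comm]; exact h0
            have h2 : w = c⁻¹ • (c • w) := by rw [smul_smul, inv_mul_cancel₀ hc, one_smul]
            rw [h2, h1, map_neg, map_smul, smul_neg]
      have hspan' : ∀ y ∈ X ⊔ Submodule.span F {w}, f' y - y ∈ Submodule.span F {p} := by
        intro y hy
        obtain ⟨x, hx, z, hz, rfl⟩ := Submodule.mem_sup.1 hy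
        obtain ⟨c, rfl⟩ := Submodule.mem_span_singleton.1 hz
        rw [map_add, map_smul, hf'X x hx, hf'w]
        have : f x + c • w - (x + c • w) = f x - x := by abel
        rw [this]; exact hspan x hx
      have hle' : X ⊔ Submodule.span F {w} ≤ LinearMap.ker (pB Q p) :=
        sup_le hXK (Submodule.span_le.2 (Set.singleton_subset_iff.2 hwK))
      have hlt' : X < X ⊔ Submodule.span F {w} := by
        refine lt_of_le_of_ne le_sup_left ?_
        intro h
        apply hwX
        rw [h]
        exact Submodule.mem_sup_right (Submodule.mem_span_singleton_self w)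
      have hfl := Submodule.finrank_lt_finrank_of_lt hlt'
      obtain ⟨g, hg1, hg2⟩ := ih _ f' hle' (by omega) hGood hspan'
      exact ⟨g, hg1, fun x hx => (hg2 x (Submodule.mem_sup_left hx)).trans (hf'X x hx)⟩

theorem witt_aux [FiniteDimensional F V] (Q : QuadraticForm F V) (hQ : (pB Q).Nondegenerate) :
    ∀ (n : ℕ) (X : Submodule F V) (f : V →ₗ[F] V), finrank F X ≤ n → Good Q X f →
      ∃ g : V ≃ₗ[F] V, (∀ v, Q (g v) = Q v) ∧ ∀ x ∈ X, g x = f x := by
  have hbot : ∀ (X : Submodule F V) (f : V →ₗ[F] V), X = ⊥ →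
      ∃ g : V ≃ₗ[F] V, (∀ v, Q (g v) = Q v) ∧ ∀ x ∈ X, g x = f x := by
    intro X f hX
    refine ⟨LinearEquiv.refl F V, fun v => rfl, fun x hx => ?_⟩
    rw [hX, Submodule.mem_bot] at hx
    subst hx; simp
  intro n
  induction n with
  | zero =>
    intro X f hfin _
    exact hbot X f (Submodule.finrank_eq_zero.1 (by omega))
  | succ n ih =>
    intro X f hfin hG
    by_cases hX : X = ⊥
    · exact hbot X f hX
    · obtain ⟨u, huX, hu0⟩ := Submodule.exists_mem_ne_zero_of_ne_bot hX
      obtain ⟨ℓ, hℓu, -⟩ := exists_dual_one (⊥ : Submodule F V) u (by simpa using hu0)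
      let H : Submodule F V := X ⊓ LinearMap.ker ℓ
      have hHX : H ≤ X := inf_le_left
      have huH : u ∉ H := by
        intro h
        have := LinearMap.mem_ker.1 (Submodule.mem_inf.1 h).2
        rw [hℓu] at this; exact one_ne_zero this
      have hlt : H < X := lt_of_le_of_ne hHX (fun h => huH (h ▸ huX))
      have hfl := Submodule.finrank_lt_finrank_of_lt hlt
      have hdec : ∀ x ∈ X, x - ℓ x • u ∈ H := by
        intro x hx
        refine Submodule.mem_inf.2 ⟨X.sub_mem hx (X.smul_mem _ huX), ?_⟩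
        simp [LinearMap.mem_ker, hℓu]
      obtain ⟨g₁, hg₁Q, hg₁⟩ := ih H f (by omega) (hG.mono hHX)
      have hg₁symm : ∀ v, Q (g₁.symm v) = Q v := by
        intro v
        have := hg₁Q (g₁.symm v)
        rw [LinearEquiv.apply_symm_apply] at this
        exact this.symm
      let f₂ : V →ₗ[F] V := g₁.symm.toLinearMap ∘ₗ f
      have hf₂ : ∀ x, f₂ x = g₁.symm (f x) := fun x => rfl
      have hG₂ : Good Q X f₂ := by
        constructor
        · intro x hx; rw [hf₂, hg₁symm, hG.1 x hx]
        · intro x hx h0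
          rw [hf₂] at h0
          have : f x = 0 := by simpa using congrArg g₁ h0
          exact hG.2 x hx this
      have hf₂H : ∀ h ∈ H, f₂ h = h := by
        intro h hh
        rw [hf₂, ← hg₁ h hh, LinearEquiv.symm_apply_apply]
      suffices hsuff : ∃ g₂ : V ≃ₗ[F] V, (∀ v, Q (g₂ v) = Q v) ∧ ∀ x ∈ X, g₂ x = f₂ x by
        obtain ⟨g₂, hg₂Q, hg₂⟩ := hsuff
        refine ⟨g₂.trans g₁, fun v => ?_, fun x hx => ?_⟩
        · rw [LinearEquiv.trans_apply, hg₁Q, hg₂Q]
        · rw [LinearEquiv.trans_apply, hg₂ x hx, hf₂, LinearEquiv.apply_symm_apply]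
      set p := u - f₂ u with hp
      have hHp : ∀ h ∈ H, pB Q h p = 0 := by
        intro h hh
        have := hG₂.polar (hHX hh) huX
        rw [hf₂H h hh] at this
        rw [hp, map_sub, this, sub_self]
      have hQp : Q p = pB Q u p := by
        have e : p = u + (-1 : F) • f₂ u := by rw [hp]; simp [sub_eq_add_neg]
        rw [e, Q_add_smul, hG₂.1 u huX, map_add, map_smul, B_self]
        simp only [smul_eq_mul]; ring
      have hXdec : ∀ x ∈ X, f₂ x - x = (-(ℓ x)) • p := by
        intro x hx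
        have h1 := hf₂H _ (hdec x hx)
        rw [map_sub, map_smul] at h1
        have h2 : f₂ x = x - ℓ x • u + ℓ x • f₂ u := by rw [← h1]; abel
        rw [h2, hp, smul_sub, neg_smul, neg_smul]; abel
      have hBpx : ∀ x ∈ X, pB Q p x = ℓ x * pB Q u p := by
        intro x hx
        have e2 : pB Q p x = pB Q p (x - ℓ x • u) + ℓ x * pB Q p u := by
          rw [← smul_eq_mul, ← map_smul, ← map_add]; congr 1; abel
        rw [e2, B_comm Q p (x - ℓ x • u), hHp _ (hdec x hx), zero_add, B_comm Q p u]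
      by_cases hp0 : p = 0
      · refine ⟨LinearEquiv.refl F V, fun v => rfl, fun x hx => ?_⟩
        have := hXdec x hx
        rw [hp0, smul_zero, sub_eq_zero] at this
        rw [this]; rfl
      by_cases hup : pB Q u p = 0
      · have hXK : X ≤ LinearMap.ker (pB Q p) := by
          intro x hx
          rw [LinearMap.mem_ker, hBpx x hx, hup, mul_zero]
        exact extend_in_perp Q hQ p hp0 (by rw [hQp, hup]) _ X f₂ hXK (Nat.le_add_left _ _) hG₂
          (fun x hx => by
            rw [hXdec x hx]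
            exact Submodule.smul_mem _ _ (Submodule.mem_span_singleton_self p))
      · have hQp0 : Q p ≠ 0 := by rw [hQp]; exact hup
        let r : V →ₗ[F] V := LinearMap.id - ((Q p)⁻¹ • pB Q p).smulRight p
        have hr : ∀ x, r x = x + (-((Q p)⁻¹ * pB Q p x)) • p := by
          intro x; simp [r, sub_eq_add_neg]
        have hrQ : ∀ x, Q (r x) = Q x := by
          intro x
          rw [hr, Q_add_smul, B_comm Q x p]
          field_simp; ring
        obtain ⟨e, he⟩ := exists_equiv Q hQ r hrQ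
        refine ⟨e, fun v => by rw [he]; exact hrQ v, fun x hx => ?_⟩
        rw [he, hr, hBpx x hx, ← hQp]
        have h3 := hXdec x hx
        have h4 : f₂ x = x + (-(ℓ x)) • p := by rw [← h3]; abel
        rw [h4]
        congr 2
        field_simp

/-- **Witt's lemma** for quadratic forms with non-degenerate polar form. -/
theorem witt [FiniteDimensional F V] (Q : QuadraticForm F V)
    (hQ : (QuadraticMap.polarBilin Q).Nondegenerate)
    (X Y : Submodule F V) (φ : X ≃ₗ[F] Y) (hφ : ∀ x : X, Q (φ x : V) = Q (x : V)) :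
    ∃ g : V ≃ₗ[F] V, (∀ v : V, Q (g v) = Q v) ∧ ∀ x : X, g (x : V) = (φ x : V) := by
  obtain ⟨Φ, hΦ⟩ := LinearMap.exists_extend (Y.subtype ∘ₗ φ.toLinearMap)
  have hΦ' : ∀ x : X, Φ (x : V) = (φ x : V) := by
    intro x
    have := congrArg (fun f : X →ₗ[F] V => f x) hΦ
    simpa using this
  have hG : Good Q X Φ := by
    constructor
    · intro x hx
      rw [hΦ' ⟨x, hx⟩, hφ]
    · intro x hx h0
      rw [hΦ' ⟨x, hx⟩] at h0
      have : φ ⟨x, hx⟩ = 0 := Subtype.ext h0
      have h2 := φ.map_eq_zero_iff.1 this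
      exact congrArg Subtype.val h2
  obtain ⟨g, hg1, hg2⟩ := witt_aux Q hQ _ X Φ le_rfl hG
  exact ⟨g, hg1, fun x => (hg2 x x.2).trans (hΦ' x)⟩

end Cfsg.Agent.Lib_helper4_WittQuad
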