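import Mathlib
import Cfsg.Agent.Lib_helper4_WittQuad

set_option autoImplicit false

/-! A totally singular subspace of dimension `m - 1` in a `2m`-dimensional quadratic space of
Witt index `m` lies in exactly two totally singular `m`-subspaces. -/

namespace Cfsg.Agent.Lib_helper4_TwoMax
open Module Cfsg.Agent.Lib_helper4_WittQuad

variable {F V : Type*} [Field F] [AddCommGroup V] [Module F V]

lemma finrank_sup_span_singleton [FiniteDimensional F V] (X : Submodule F V) (v : V)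
    (hv : v ∉ X) : finrank F ↥(X ⊔ Submodule.span F {v}) = finrank F X + 1 := by
  have hv0 : v ≠ 0 := fun h => hv (h ▸ X.zero_mem)
  have h1 := Submodule.finrank_sup_add_finrank_inf_eq X (Submodule.span F {v})
  have h2 : X ⊓ Submodule.span F {v} = ⊥ := by
    rw [← disjoint_iff]; exact (Submodule.disjoint_span_singleton' hv0).2 hv
  rw [h2, finrank_bot, finrank_span_singleton hv0] at h1
  omega

lemma polar_zero_of_sing (Q : QuadraticForm F V) (X : Submodule F V) (hX : ∀ x ∈ X, Q x = 0)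
    {x y : V} (hx : x ∈ X) (hy : y ∈ X) : pB Q x y = 0 := by
  rw [B_eq, hX _ (X.add_mem hx hy), hX x hx, hX y hy]; ring

theorem card_two [FiniteDimensional F V] (Q : QuadraticForm F V) (hQ : (pB Q).Nondegenerate)
    (m : ℕ) (hV : finrank F V = 2 * m)
    (U : Submodule F V) (hUm : finrank F U + 1 = m) (hU : ∀ u ∈ U, Q u = 0)
    (W₁ : Submodule F V) (hW₁m : finrank F W₁ = m) (hW₁ : ∀ w ∈ W₁, Q w = 0) (hUW₁ : U ≤ W₁) :
    Nat.card {W : Submodule F V // finrank F W = m ∧ (∀ w ∈ W, Q w = 0) ∧ U ≤ W} = 2 := by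
  classical
  have hrefl : (pB Q).IsRefl := fun x y h => by rw [B_comm]; exact h
  set Up := (pB Q).orthogonal U with hUp
  have hUpmem : ∀ v, v ∈ Up ↔ ∀ u ∈ U, pB Q u v = 0 := fun v =>
    LinearMap.BilinForm.mem_orthogonal_iff
  have hUpfin : finrank F Up = m + 1 := by
    rw [hUp, LinearMap.BilinForm.finrank_orthogonal hQ, hV]; omega
  have hperp : ∀ W : Submodule F V, (∀ w ∈ W, Q w = 0) → U ≤ W → W ≤ Up := by
    intro W hW hUW w hw
    rw [hUpmem]
    intro u hu
    exact polar_zero_of_sing Q W hW (hUW hu) hw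
  have hW₁p : ∀ v, (∀ w ∈ W₁, pB Q w v = 0) → v ∈ W₁ := by
    intro v hv
    have h1 : W₁ ≤ (pB Q).orthogonal W₁ := by
      intro w hw
      rw [LinearMap.BilinForm.mem_orthogonal_iff]
      intro w' hw'
      exact polar_zero_of_sing Q W₁ hW₁ hw' hw
    have h2 : finrank F ((pB Q).orthogonal W₁) = m := by
      rw [LinearMap.BilinForm.finrank_orthogonal hQ, hV, hW₁m]; omega
    have h3 : W₁ = (pB Q).orthogonal W₁ := Submodule.eq_of_le_of_finrank_le h1 (by omega)
    rw [h3, LinearMap.BilinForm.mem_orthogonal_iff]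
    exact hv
  obtain ⟨w₁, hw₁W, hw₁U⟩ : ∃ w₁ ∈ W₁, w₁ ∉ U := by
    by_contra h
    push Not at h
    have h' : W₁ ≤ U := h
    have := Submodule.finrank_mono h'
    omega
  have hW₁eq : U ⊔ Submodule.span F {w₁} = W₁ := by
    apply Submodule.eq_of_le_of_finrank_le
      (sup_le hUW₁ (by rw [Submodule.span_singleton_le_iff_mem]; exact hw₁W))
    rw [finrank_sup_span_singleton U w₁ hw₁U]; omega
  have hW₁Up : W₁ ≤ Up := hperp W₁ hW₁ hUW₁
  obtain ⟨z, hzUp, hzW₁⟩ : ∃ z ∈ Up, z ∉ W₁ := by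
    by_contra h
    push Not at h
    have h' : Up ≤ W₁ := h
    have := Submodule.finrank_mono h'
    omega
  have hUpeq : W₁ ⊔ Submodule.span F {z} = Up := by
    apply Submodule.eq_of_le_of_finrank_le
      (sup_le hW₁Up (by rw [Submodule.span_singleton_le_iff_mem]; exact hzUp))
    rw [finrank_sup_span_singleton W₁ z hzW₁]; omega
  have hBz : pB Q w₁ z ≠ 0 := by
    intro h0
    apply hzW₁
    apply hW₁p
    intro w hw
    rw [← hW₁eq] at hw
    obtain ⟨u, hu, y, hy, rfl⟩ := Submodule.mem_sup.1 hw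
    obtain ⟨a, rfl⟩ := Submodule.mem_span_singleton.1 hy
    rw [map_add, LinearMap.add_apply, map_smul, LinearMap.smul_apply, h0,
      (hUpmem z).1 hzUp u hu]
    simp
  set c := Q z / pB Q w₁ z with hc
  set w₂ := z + (-c) • w₁ with hw₂
  have hQw₂ : Q w₂ = 0 := by
    rw [hw₂, Q_add_smul, hW₁ w₁ hw₁W, B_comm Q z w₁, hc]; field_simp; ring
  have hw₂Up : w₂ ∈ Up := Up.add_mem hzUp (Up.smul_mem _ (hW₁Up hw₁W))
  have hw₂W₁ : w₂ ∉ W₁ := by
    intro h
    apply hzW₁
    have : z = w₂ + c • w₁ := by rw [hw₂]; simp [add_assoc]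
    rw [this]; exact W₁.add_mem h (W₁.smul_mem _ hw₁W)
  have hw₂U : w₂ ∉ U := fun h => hw₂W₁ (hUW₁ h)
  set W₂ := U ⊔ Submodule.span F {w₂} with hW₂
  have hW₂m : finrank F W₂ = m := by
    rw [hW₂, finrank_sup_span_singleton U w₂ hw₂U]; omega
  have hW₂s : ∀ w ∈ W₂, Q w = 0 := by
    intro w hw
    obtain ⟨u, hu, y, hy, rfl⟩ := Submodule.mem_sup.1 hw
    obtain ⟨a, rfl⟩ := Submodule.mem_span_singleton.1 hy
    rw [Q_add_smul, hU u hu, hQw₂, (hUpmem w₂).1 hw₂Up u hu]; ring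
  have hUW₂ : U ≤ W₂ := le_sup_left
  have hne : W₁ ≠ W₂ := by
    intro h
    apply hw₂W₁
    rw [h]
    exact Submodule.mem_sup_right (Submodule.mem_span_singleton_self w₂)
  rw [Nat.card_eq_two_iff]
  refine ⟨⟨W₁, hW₁m, hW₁, hUW₁⟩, ⟨W₂, hW₂m, hW₂s, hUW₂⟩,
    fun h => hne (congrArg Subtype.val h), ?_⟩
  rw [Set.eq_univ_iff_forall]
  rintro ⟨W, hWm, hWs, hUW⟩
  rw [Set.mem_insert_iff, Set.mem_singleton_iff]
  by_cases hWW₁ : W ≤ W₁
  · left
    apply Subtype.ext
    show W = W₁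
    exact Submodule.eq_of_le_of_finrank_le hWW₁ (le_of_eq (hW₁m.trans hWm.symm))
  · right
    obtain ⟨w, hwW, hwW₁⟩ := SetLike.not_le_iff_exists.1 hWW₁
    have hwUp : w ∈ Up := hperp W hWs hUW hwW
    rw [← hUpeq] at hwUp
    obtain ⟨x, hx, y, hy, hxy⟩ := Submodule.mem_sup.1 hwUp
    obtain ⟨b, rfl⟩ := Submodule.mem_span_singleton.1 hy
    have hxW₁ := hx
    rw [← hW₁eq] at hx
    obtain ⟨u, hu, y', hy', rfl⟩ := Submodule.mem_sup.1 hx
    obtain ⟨a, rfl⟩ := Submodule.mem_span_singleton.1 hy'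
    have hb : b ≠ 0 := by
      rintro rfl
      apply hwW₁
      rw [← hxy, zero_smul, add_zero]
      exact hxW₁
    have hQw : Q w = 0 := hWs w hwW
    rw [← hxy, Q_add_smul] at hQw
    have e1 : Q (u + a • w₁) = 0 := hW₁ _ hxW₁
    have e2 : pB Q (u + a • w₁) z = a * pB Q w₁ z := by
      rw [map_add, LinearMap.add_apply, map_smul, LinearMap.smul_apply,
        (hUpmem z).1 hzUp u hu]
      simp
    rw [e1, e2] at hQw
    have ha : a = -(b * c) := by
      have h1 : b * (b * Q z + a * pB Q w₁ z) = 0 := by linear_combination hQw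
      have h2 : b * Q z + a * pB Q w₁ z = 0 := (mul_eq_zero.1 h1).resolve_left hb
      rw [hc]
      field_simp
      linear_combination h2
    have hw_eq : w = u + b • w₂ := by
      rw [← hxy, ha, hw₂, smul_add, smul_smul, neg_smul, mul_neg, neg_smul]
      abel
    have hw₂W : w₂ ∈ W := by
      have : w₂ = b⁻¹ • (w - u) := by
        rw [hw_eq, add_sub_cancel_left, smul_smul, inv_mul_cancel₀ hb, one_smul]
      rw [this]; exact W.smul_mem _ (W.sub_mem hwW (hUW hu))
    apply Subtype.ext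
    have hle : W₂ ≤ W :=
      sup_le hUW (by rw [Submodule.span_singleton_le_iff_mem]; exact hw₂W)
    show W = W₂
    exact (Submodule.eq_of_le_of_finrank_le hle (le_of_eq (hWm.trans hW₂m.symm))).symm

end Cfsg.Agent.Lib_helper4_TwoMax
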