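import Mathlib
import Cfsg.Prelude.Def_ClassicalGeometry
import Cfsg.Agent.Lib_helper4_Quad
import Cfsg.Agent.Lib_helper4_Quad2
import Cfsg.Agent.Lib_helper4_Orth
import Cfsg.Agent.Lib_helper4_WittQuad
import Cfsg.Agent.Lib_helper4_TwoMax

set_option autoImplicit false

/-! Cartan–Dieudonné (weak form), odd characteristic: every isometry of a quadratic form with
non-degenerate polar form is a product of reflections. -/

namespace Cfsg.Agent.Lib_helper4_CD
open Matrix Module Cfsg.Agent.Lib_helper4_Quad Cfsg.Agent.Lib_helper4_Quad2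
  Cfsg.Agent.Lib_helper4_Orth Cfsg.Agent.Lib_helper4_WittQuad Cfsg.Agent.Lib_helper4_TwoMax

variable {ι : Type} [Fintype ι] [DecidableEq ι] {F : Type*} [Field F]

/-- `g` is a reflection. -/
def IsRefl (Q : QuadraticForm F (ι → F)) (g : Cfsg.isometryGroup F ⇑Q) : Prop :=
  ∃ v : ι → F, Q v ≠ 0 ∧ ((g : GL ι F) : Matrix ι ι F) = Cfsg.reflectionMatrix ⇑Q v

/-- `g` is a product of reflections. -/
def IsReflProd (Q : QuadraticForm F (ι → F)) (g : Cfsg.isometryGroup F ⇑Q) : Prop :=
  ∃ l : List (Cfsg.isometryGroup F ⇑Q), (∀ x ∈ l, IsRefl Q x) ∧ l.prod = g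

lemma IsReflProd.mul_refl {Q : QuadraticForm F (ι → F)} (r g : Cfsg.isometryGroup F ⇑Q)
    (hr : IsRefl Q r) (hg : IsReflProd Q g) : IsReflProd Q (r * g) := by
  obtain ⟨l, hl, rfl⟩ := hg
  refine ⟨r :: l, ?_, by simp⟩
  intro x hx
  rcases List.mem_cons.1 hx with rfl | h
  · exact hr
  · exact hl x h

lemma eq_one_of_fix (Q : QuadraticForm F (ι → F)) (g : Cfsg.isometryGroup F ⇑Q)
    (h : ∀ x, ((g : GL ι F) : Matrix ι ι F) *ᵥ x = x) : g = 1 := by
  apply Subtype.ext
  apply Units.ext
  show ((g : GL ι F) : Matrix ι ι F) = 1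
  ext i j
  have := congrFun (h (Pi.single j 1)) i
  rw [Matrix.mulVec_single_one] at this
  rw [Matrix.one_apply]
  simpa [Pi.single_apply] using this

lemma reflection_mulVec_mulVec (Q : QuadraticForm F (ι → F)) (u : ι → F) (hu : Q u ≠ 0)
    (x : ι → F) :
    Cfsg.reflectionMatrix ⇑Q u *ᵥ (Cfsg.reflectionMatrix ⇑Q u *ᵥ x) = x := by
  rw [reflection_mulVec, reflection_mulVec, QuadraticMap.polar_sub_right,
    QuadraticMap.polar_smul_right, polar_self', smul_eq_mul]
  have : (Q u)⁻¹ * (QuadraticMap.polar ⇑Q u x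
      - (Q u)⁻¹ * QuadraticMap.polar ⇑Q u x * (2 * Q u))
      = -((Q u)⁻¹ * QuadraticMap.polar ⇑Q u x) := by
    field_simp; ring
  rw [this, neg_smul]; abel

lemma refl_mul_self (Q : QuadraticForm F (ι → F)) (r : Cfsg.isometryGroup F ⇑Q)
    (hr : IsRefl Q r) : r * r = 1 := by
  obtain ⟨u, hu, hru⟩ := hr
  apply eq_one_of_fix
  intro x
  rw [coe_mul_mulVec, hru, reflection_mulVec_mulVec Q u hu]

theorem cd (h2 : (2 : F) ≠ 0) (Q : QuadraticForm F (ι → F)) (hQ : (pB Q).Nondegenerate) :
    ∀ (k : ℕ) (Z : Submodule F (ι → F)), (∀ z ∈ Z, (∀ z' ∈ Z, pB Q z z' = 0) → z = 0) →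
      finrank F (ι → F) ≤ finrank F Z + k →
      ∀ g : Cfsg.isometryGroup F ⇑Q, (∀ z ∈ Z, ((g : GL ι F) : Matrix ι ι F) *ᵥ z = z) →
        IsReflProd Q g := by
  have htop : ∀ (Z : Submodule F (ι → F)), Z = ⊤ → ∀ g : Cfsg.isometryGroup F ⇑Q,
      (∀ z ∈ Z, ((g : GL ι F) : Matrix ι ι F) *ᵥ z = z) → IsReflProd Q g := by
    intro Z hZ g hg
    have : g = 1 := eq_one_of_fix Q g (fun x => hg x (by rw [hZ]; trivial))
    exact ⟨[], by simp, by simp [this]⟩
  intro k
  induction k with
  | zero =>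
    intro Z _ hfin g hg
    exact htop Z (Submodule.eq_top_of_finrank_eq
      (le_antisymm (Submodule.finrank_le Z) (by omega))) g hg
  | succ k ih =>
    intro Z hZnd hfin g hg
    by_cases hZ : Z = ⊤
    · exact htop Z hZ g hg
    · have hrefl : (pB Q).IsRefl := fun x y h => by rw [B_comm]; exact h
      have hZpmem : ∀ v, v ∈ (pB Q).orthogonal Z ↔ ∀ z ∈ Z, pB Q z v = 0 := fun v =>
        LinearMap.BilinForm.mem_orthogonal_iff
      have hdisj : ∀ v, v ∈ Z → v ∈ (pB Q).orthogonal Z → v = 0 := by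
        intro v hvZ hvZp
        apply hZnd v hvZ
        intro z' hz'
        rw [B_comm]; exact (hZpmem v).1 hvZp z' hz'
      obtain ⟨v, hvZp, hQv⟩ : ∃ v ∈ (pB Q).orthogonal Z, Q v ≠ 0 := by
        by_contra hcon
        push Not at hcon
        have h1 : (pB Q).orthogonal Z ≤ (pB Q).orthogonal ((pB Q).orthogonal Z) := by
          intro y hy
          rw [LinearMap.BilinForm.mem_orthogonal_iff]
          intro x hx
          exact polar_zero_of_sing Q _ hcon hx hy
        rw [LinearMap.BilinForm.orthogonal_orthogonal hQ hrefl] at h1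
        have h2' : (pB Q).orthogonal Z = ⊥ := by
          rw [Submodule.eq_bot_iff]
          intro y hy
          exact hdisj y (h1 hy) hy
        have h3 := LinearMap.BilinForm.finrank_orthogonal hQ Z
        rw [h2', finrank_bot] at h3
        apply hZ
        apply Submodule.eq_top_of_finrank_eq
        have := Submodule.finrank_le Z
        omega
      obtain ⟨w, hw⟩ : ∃ w, ((g : GL ι F) : Matrix ι ι F) *ᵥ v = w := ⟨_, rfl⟩
      have hQw : Q w = Q v := by rw [← hw]; exact iso_apply (⇑Q) g v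
      have hwZp : w ∈ (pB Q).orthogonal Z := by
        rw [hZpmem]
        intro z hz
        have := iso_polar (⇑Q) g z v
        rw [hg z hz, hw] at this
        rw [QuadraticMap.polarBilin_apply_apply, this, ← QuadraticMap.polarBilin_apply_apply]
        exact (hZpmem v).1 hvZp z hz
      have hvZ : v ∉ Z := fun h => hQv (by rw [hdisj v h hvZp]; simp)
      have hZ'nd : ∀ z ∈ Z ⊔ Submodule.span F {v},
          (∀ z' ∈ Z ⊔ Submodule.span F {v}, pB Q z z' = 0) → z = 0 := by
        intro y hy hperp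
        obtain ⟨z, hz, t, ht, rfl⟩ := Submodule.mem_sup.1 hy
        obtain ⟨a, rfl⟩ := Submodule.mem_span_singleton.1 ht
        have h1 := hperp v (Submodule.mem_sup_right (Submodule.mem_span_singleton_self v))
        rw [map_add, LinearMap.add_apply, map_smul, LinearMap.smul_apply,
          (hZpmem v).1 hvZp z hz, B_self, zero_add, smul_eq_mul] at h1
        have ha : a = 0 := by
          rcases mul_eq_zero.1 h1 with h | h
          · exact h
          · exact absurd h (mul_ne_zero h2 hQv)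
        subst ha
        rw [zero_smul, add_zero]
        apply hZnd z hz
        intro z' hz'
        have := hperp z' (Submodule.mem_sup_left hz')
        rwa [zero_smul, add_zero] at this
      have hZ'fin : finrank F (ι → F) ≤ finrank F ↥(Z ⊔ Submodule.span F {v}) + k := by
        rw [finrank_sup_span_singleton Z v hvZ]; omega
      have hstep : ∀ g' : Cfsg.isometryGroup F ⇑Q,
          (∀ z ∈ Z, ((g' : GL ι F) : Matrix ι ι F) *ᵥ z = z) →
          ((g' : GL ι F) : Matrix ι ι F) *ᵥ v = v → IsReflProd Q g' := by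
        intro g' hg'Z hg'v
        apply ih _ hZ'nd hZ'fin g'
        intro y hy
        obtain ⟨z, hz, t, ht, rfl⟩ := Submodule.mem_sup.1 hy
        obtain ⟨a, rfl⟩ := Submodule.mem_span_singleton.1 ht
        rw [Matrix.mulVec_add, Matrix.mulVec_smul, hg'Z z hz, hg'v]
      have hfixZ : ∀ (u : ι → F) (hu : Q u ≠ 0), u ∈ (pB Q).orthogonal Z → ∀ z ∈ Z,
          Cfsg.reflectionMatrix ⇑Q u *ᵥ z = z := by
        intro u hu huZp z hz
        apply reflection_fix
        rw [← QuadraticMap.polarBilin_apply_apply, B_comm]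
        exact (hZpmem _).1 huZp z hz
      have em : v - w = v + (-1 : F) • w := by simp [sub_eq_add_neg]
      have ep : v + w = v + (1 : F) • w := by simp
      have hQm : Q (v - w) = 2 * Q v - pB Q v w := by
        rw [em, Q_add_smul, hQw]; ring
      have hQp : Q (v + w) = 2 * Q v + pB Q v w := by
        rw [ep, Q_add_smul, hQw]; ring
      by_cases hcase : Q (v - w) ≠ 0
      · let r : Cfsg.isometryGroup F ⇑Q := ⟨refl Q (v - w) hcase, refl_mem Q (v - w) hcase⟩
        have hr : IsRefl Q r := ⟨v - w, hcase, rfl⟩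
        have hrZ : ∀ z ∈ Z, ((r : GL ι F) : Matrix ι ι F) *ᵥ z = z :=
          hfixZ (v - w) hcase (Submodule.sub_mem _ hvZp hwZp)
        have hrw : ((r : GL ι F) : Matrix ι ι F) *ᵥ w = v := by
          show Cfsg.reflectionMatrix ⇑Q (v - w) *ᵥ w = v
          rw [reflection_mulVec]
          have e1 : QuadraticMap.polar ⇑Q (v - w) w = - Q (v - w) := by
            rw [QuadraticMap.polar_sub_left, polar_self', hQm, hQw,
              QuadraticMap.polarBilin_apply_apply]
            ring
          rw [e1]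
          have e2 : (Q (v - w))⁻¹ * -Q (v - w) = -1 := by field_simp
          rw [e2, neg_one_smul]; abel
        have hg' := hstep (r * g) (by
          intro z hz; rw [coe_mul_mulVec, hg z hz, hrZ z hz]) (by
          rw [coe_mul_mulVec, hw, hrw])
        have hgeq : g = r * (r * g) := by
          rw [← mul_assoc, refl_mul_self Q r hr, one_mul]
        rw [hgeq]
        exact IsReflProd.mul_refl r _ hr hg'
      · push Not at hcase
        have hcase' : Q (v + w) ≠ 0 := by
          have h4 : Q (v - w) + Q (v + w) = 2 * (2 * Q v) := by rw [hQm, hQp]; ring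
          rw [hcase, zero_add] at h4
          rw [h4]
          exact mul_ne_zero h2 (mul_ne_zero h2 hQv)
        let r₁ : Cfsg.isometryGroup F ⇑Q := ⟨refl Q (v + w) hcase', refl_mem Q (v + w) hcase'⟩
        have hr₁ : IsRefl Q r₁ := ⟨v + w, hcase', rfl⟩
        let r₂ : Cfsg.isometryGroup F ⇑Q := ⟨refl Q v hQv, refl_mem Q v hQv⟩
        have hr₂ : IsRefl Q r₂ := ⟨v, hQv, rfl⟩
        have hr₁Z : ∀ z ∈ Z, ((r₁ : GL ι F) : Matrix ι ι F) *ᵥ z = z :=
          hfixZ (v + w) hcase' (Submodule.add_mem _ hvZp hwZp)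
        have hr₂Z : ∀ z ∈ Z, ((r₂ : GL ι F) : Matrix ι ι F) *ᵥ z = z :=
          hfixZ v hQv hvZp
        have hr₁w : ((r₁ : GL ι F) : Matrix ι ι F) *ᵥ w = -v := by
          show Cfsg.reflectionMatrix ⇑Q (v + w) *ᵥ w = -v
          rw [reflection_mulVec]
          have e1 : QuadraticMap.polar ⇑Q (v + w) w = Q (v + w) := by
            rw [QuadraticMap.polar_add_left, polar_self', hQp, hQw,
              QuadraticMap.polarBilin_apply_apply]
            ring
          rw [e1]
          have e2 : (Q (v + w))⁻¹ * Q (v + w) = 1 := by field_simp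
          rw [e2, one_smul]; abel
        have hr₂v : ((r₂ : GL ι F) : Matrix ι ι F) *ᵥ (-v) = v := by
          show Cfsg.reflectionMatrix ⇑Q v *ᵥ (-v) = v
          rw [Matrix.mulVec_neg, reflection_self Q v hQv, neg_neg]
        have hg' := hstep (r₂ * (r₁ * g)) (by
          intro z hz
          rw [coe_mul_mulVec, coe_mul_mulVec, hg z hz, hr₁Z z hz, hr₂Z z hz]) (by
          rw [coe_mul_mulVec, coe_mul_mulVec, hw, hr₁w, hr₂v])
        have hgeq : g = r₁ * (r₂ * (r₂ * (r₁ * g))) := by
          rw [← mul_assoc r₂ r₂, refl_mul_self Q r₂ hr₂, one_mul, ← mul_assoc,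
            refl_mul_self Q r₁ hr₁, one_mul]
        rw [hgeq]
        exact IsReflProd.mul_refl r₁ _ hr₁ (IsReflProd.mul_refl r₂ _ hr₂ hg')

theorem isReflProd_all (h2 : (2 : F) ≠ 0) (Q : QuadraticForm F (ι → F))
    (hQ : (pB Q).Nondegenerate) (g : Cfsg.isometryGroup F ⇑Q) : IsReflProd Q g := by
  refine cd h2 Q hQ (finrank F (ι → F)) ⊥ ?_ (by simp) g ?_
  · intro z hz _
    exact (Submodule.mem_bot F).1 hz
  · intro z hz
    rw [(Submodule.mem_bot F).1 hz, Matrix.mulVec_zero]

lemma det_prod (Q : QuadraticForm F (ι → F)) (l : List (Cfsg.isometryGroup F ⇑Q))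
    (hl : ∀ x ∈ l, IsRefl Q x) :
    (((l.prod : Cfsg.isometryGroup F ⇑Q) : GL ι F) : Matrix ι ι F).det = (-1) ^ l.length := by
  induction l with
  | nil => simp
  | cons a l ih =>
    obtain ⟨u, hu, hau⟩ := hl a (by simp)
    rw [List.prod_cons, Subgroup.coe_mul, Units.val_mul, Matrix.det_mul, hau,
      reflection_det Q u hu, ih (fun x hx => hl x (by simp [hx])), List.length_cons, pow_succ]
    ring

lemma even_prod_mem (Q : QuadraticForm F (ι → F)) :
    ∀ (n : ℕ) (l : List (Cfsg.isometryGroup F ⇑Q)), l.length = 2 * n → (∀ x ∈ l, IsRefl Q x) →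
      l.prod ∈ Subgroup.closure {g : Cfsg.isometryGroup F ⇑Q | ∃ u v : ι → F, Q u ≠ 0 ∧
        Q v ≠ 0 ∧ ((g : GL ι F) : Matrix ι ι F)
          = Cfsg.reflectionMatrix ⇑Q u * Cfsg.reflectionMatrix ⇑Q v} := by
  intro n
  induction n with
  | zero =>
    intro l hl _
    have : l = [] := List.length_eq_zero_iff.1 (by omega)
    subst this
    simp [Subgroup.one_mem]
  | succ n ih =>
    intro l hl hr
    match l, hl, hr with
    | [], hl, _ => simp at hl
    | [a], hl, _ => simp at hl; omega
    | a :: b :: l', hl, hr =>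
      rw [List.prod_cons, List.prod_cons, ← mul_assoc]
      apply Subgroup.mul_mem
      · apply Subgroup.subset_closure
        obtain ⟨u, hu, hau⟩ := hr a (by simp)
        obtain ⟨v, hv, hbv⟩ := hr b (by simp)
        exact ⟨u, v, hu, hv, by rw [Subgroup.coe_mul, Units.val_mul, hau, hbv]⟩
      · exact ih l' (by simp at hl; omega) (fun x hx => hr x (by simp [hx]))

end Cfsg.Agent.Lib_helper4_CD
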