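import Mathlib

set_option autoImplicit false

/-! Counting by fibres; the size of a conjugacy class. -/

namespace Cfsg.Agent.Lib_helper4_ConjCount

/-- A map all of whose fibres have `k` elements. -/
lemma card_eq_mul_of_fibers {α β : Type*} [Finite α] [Finite β] (f : α → β) (k : ℕ)
    (h : ∀ b, Nat.card {a // f a = b} = k) : Nat.card α = Nat.card β * k := by
  classical
  haveI : Fintype β := Fintype.ofFinite β
  rw [← Nat.card_congr (Equiv.sigmaFiberEquiv f), Nat.card_sigma]
  simp only [h, Finset.sum_const, Finset.card_univ, smul_eq_mul, Nat.card_eq_fintype_card]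

variable {G : Type*} [Group G]

/-- Orbit-stabiliser for conjugation. -/
lemma card_isConj_mul_card_centralizer [Finite G] (g : G) :
    Nat.card {x : G // IsConj g x} * Nat.card (Subgroup.centralizer ({g} : Set G)) = Nat.card G := by
  let ψ : G → {x : G // IsConj g x} := fun h => ⟨h * g * h⁻¹, isConj_iff.mpr ⟨h, rfl⟩⟩
  refine (card_eq_mul_of_fibers ψ _ ?_).symm
  intro x
  obtain ⟨c, hc⟩ := isConj_iff.mp x.2
  have hto : ∀ h : {h // ψ h = x}, c⁻¹ * h.1 ∈ Subgroup.centralizer ({g} : Set G) := by
    intro h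
    have h1 : h.1 * g * h.1⁻¹ = x.1 := congrArg Subtype.val h.2
    rw [Subgroup.mem_centralizer_singleton_iff]
    have h2 : h.1 * g = c * g * c⁻¹ * h.1 := by rw [hc, ← h1]; group
    rw [mul_assoc, h2]; group
  have hinv : ∀ z : ↥(Subgroup.centralizer ({g} : Set G)), ψ (c * z.1) = x := by
    intro z
    have hz := Subgroup.mem_centralizer_singleton_iff.mp z.2
    apply Subtype.ext
    show c * z.1 * g * (c * z.1)⁻¹ = x.1
    rw [← hc, mul_assoc c z.1 g, hz]; group
  refine Nat.card_congr
    { toFun := fun h => ⟨c⁻¹ * h.1, hto h⟩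
      invFun := fun z => ⟨c * z.1, hinv z⟩
      left_inv := ?_
      right_inv := ?_ }
  · intro h
    apply Subtype.ext
    show c * (c⁻¹ * h.1) = h.1
    group
  · intro z
    apply Subtype.ext
    show c⁻¹ * (c * z.1) = z.1
    group

end Cfsg.Agent.Lib_helper4_ConjCount
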