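import Mathlib

/-! A finite cyclic group modulo its `n`-th powers is cyclic of order `gcd(n, |C|)`. -/

namespace Cfsg.Agent.Lib_helper4_CycQuot

/-- For a finite cyclic group `C` there is a surjection onto `ZMod (gcd n |C|)` whose kernel is the
subgroup of `n`-th powers. -/
theorem exists_hom_ker_pow (C : Type*) [CommGroup C] [IsCyclic C] [Finite C] (n : ℕ) :
    ∃ ψ : C →* Multiplicative (ZMod (Nat.gcd n (Nat.card C))), Function.Surjective ψ ∧
      ψ.ker = (powMonoidHom n : C →* C).range := by
  have hidx : (powMonoidHom n : C →* C).range.index = Nat.gcd n (Nat.card C) := by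
    rw [IsCyclic.index_powMonoidHom_range, Nat.gcd_comm]
  have hcard : Nat.card (C ⧸ (powMonoidHom n : C →* C).range) = Nat.gcd n (Nat.card C) := by
    rw [← hidx]
    rfl
  have hcyc : IsCyclic (C ⧸ (powMonoidHom n : C →* C).range) :=
    isCyclic_of_surjective (QuotientGroup.mk' (powMonoidHom n : C →* C).range)
      (QuotientGroup.mk'_surjective _)
  obtain ⟨e⟩ : Nonempty (C ⧸ (powMonoidHom n : C →* C).range
      ≃* Multiplicative (ZMod (Nat.gcd n (Nat.card C)))) := by
    rw [← hcard]
    exact ⟨(zmodCyclicMulEquiv hcyc).symm⟩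
  refine ⟨e.toMonoidHom.comp (QuotientGroup.mk' (powMonoidHom n : C →* C).range), ?_, ?_⟩
  · exact e.surjective.comp (QuotientGroup.mk'_surjective _)
  · ext x
    rw [MonoidHom.mem_ker, MonoidHom.comp_apply]
    constructor
    · intro h
      have h1 : (QuotientGroup.mk' (powMonoidHom n : C →* C).range) x = 1 := by
        apply e.injective
        rw [map_one]
        exact h
      exact (QuotientGroup.eq_one_iff x).mp h1
    · intro h
      have h1 : (QuotientGroup.mk' (powMonoidHom n : C →* C).range) x = 1 :=
        (QuotientGroup.eq_one_iff x).mpr h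
      rw [h1]
      exact map_one _

end Cfsg.Agent.Lib_helper4_CycQuot
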