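import Mathlib

set_option autoImplicit false

/-! Blocks for the action of a pointwise stabiliser on the complement. -/

namespace Cfsg.Agent.Lib_helper4_FixBlock

/-- If the pointwise stabiliser of `s` is primitive on the complement of `s`, then every
subset `B` of the complement which is a block (in elementary terms) is trivial. -/
theorem trivial_of_block {G X : Type*} [Group G] [MulAction G X] (s : Set X)
    (hprim : MulAction.IsPreprimitive (fixingSubgroup G s) (SubMulAction.ofFixingSubgroup G s))
    (B : Set X) (hBs : ∀ x ∈ B, x ∉ s)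
    (hB : ∀ g : G, (∀ y ∈ s, g • y = y) → ∀ x ∈ B, g • x ∈ B → ∀ z ∈ B, g • z ∈ B) :
    B.Subsingleton ∨ ∀ x, x ∉ s → x ∈ B := by
  let B' : Set (SubMulAction.ofFixingSubgroup G s) := Subtype.val ⁻¹' B
  have hblock : MulAction.IsBlock (fixingSubgroup G s) B' := by
    rw [MulAction.isBlock_iff_smul_eq_of_mem]
    intro g x hx hgx
    have hg := (mem_fixingSubgroup_iff G).mp g.2
    apply Set.Subset.antisymm
    · rintro _ ⟨z, hz, rfl⟩
      exact hB g.1 hg x.1 hx hgx z.1 hz
    · intro z hz
      refine ⟨g⁻¹ • z, ?_, smul_inv_smul g z⟩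
      have hg' : ∀ y ∈ s, (g.1)⁻¹ • y = y := fun y hy => by
        rw [inv_smul_eq_iff]; exact (hg y hy).symm
      have h1 := hB (g.1)⁻¹ hg' (g.1 • x.1) hgx (by rw [inv_smul_smul]; exact hx) z.1 hz
      exact h1
  rcases hprim.isTrivialBlock_of_isBlock hblock with h | h
  · left
    intro x hx y hy
    have h1 := @h ⟨x, hBs x hx⟩ hx ⟨y, hBs y hy⟩ hy
    exact congrArg Subtype.val h1
  · right
    intro x hx
    have h1 : (⟨x, hx⟩ : SubMulAction.ofFixingSubgroup G s) ∈ B' := by rw [h]; trivial
    exact h1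

end Cfsg.Agent.Lib_helper4_FixBlock
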