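import Mathlib
import Cfsg.Prelude.Def_Solvable

set_option autoImplicit false

/-! Frobenius complements from fixed-point-free actions, via semidirect products; the case of a
two-dimensional matrix representation over `ZMod p`. -/

namespace Cfsg.Agent.Lib_helper4_FrobSemi
open scoped Pointwise

theorem frob_of_fpf {N K : Type*} [Group N] [Group K] (φ : K →* MulAut N) [Nontrivial N]
    [Nontrivial K] (hfpf : ∀ (h : K) (a : N), φ h a = a → h = 1 ∨ a = 1) :
    Cfsg.IsFrobeniusComplement (SemidirectProduct.inr : K →* N ⋊[φ] K).range := by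
  refine ⟨?_, ?_, ?_⟩
  · obtain ⟨k, hk⟩ := exists_ne (1 : K)
    intro hbot
    have h1 : (SemidirectProduct.inr k : N ⋊[φ] K) ∈ (⊥ : Subgroup (N ⋊[φ] K)) := by
      rw [← hbot]; exact ⟨k, rfl⟩
    rw [Subgroup.mem_bot] at h1
    exact hk (SemidirectProduct.inr_injective (h1.trans (map_one _).symm))
  · obtain ⟨a, ha⟩ := exists_ne (1 : N)
    intro htop
    have h1 : (SemidirectProduct.inl a : N ⋊[φ] K)
        ∈ (SemidirectProduct.inr : K →* N ⋊[φ] K).range := by
      rw [htop]; exact Subgroup.mem_top _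
    obtain ⟨k, hk⟩ := h1
    have h2 := congrArg SemidirectProduct.left hk
    rw [SemidirectProduct.left_inr, SemidirectProduct.left_inl] at h2
    exact ha h2.symm
  · intro g hg
    rw [eq_bot_iff]
    rintro x ⟨⟨h, rfl⟩, hx2⟩
    rw [Subgroup.mem_bot]
    have hx3 : (SemidirectProduct.inr h : N ⋊[φ] K)
        ∈ MulAut.conj g • (SemidirectProduct.inr : K →* N ⋊[φ] K).range := hx2
    rw [Subgroup.mem_pointwise_smul_iff_inv_smul_mem] at hx3
    obtain ⟨h', hh'⟩ := hx3
    have e1 : g * SemidirectProduct.inr h' = SemidirectProduct.inr h * g := by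
      rw [hh', MulAut.smul_def, MulAut.inv_apply, MulAut.conj_symm_apply]
      simp only [mul_assoc, mul_inv_cancel_left]
    have ha : g.left ≠ 1 := by
      intro h1
      apply hg
      refine ⟨g.right, ?_⟩
      ext
      · rw [SemidirectProduct.left_inr, h1]
      · rw [SemidirectProduct.right_inr]
    have e2 := congrArg SemidirectProduct.left e1
    rw [SemidirectProduct.mul_left, SemidirectProduct.mul_left, SemidirectProduct.left_inr,
      SemidirectProduct.left_inr, map_one, mul_one, one_mul, SemidirectProduct.right_inr] at e2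
    rcases hfpf h g.left e2.symm with h1 | h1
    · rw [h1, map_one]
    · exact absurd h1 ha

section Rep
variable {G : Type} [Group G] {p : ℕ} [Fact p.Prime]

/-- The automorphisms of `Multiplicative (Fin 2 → ZMod p)` given by a matrix representation. -/
def repAut (ρ : G → Matrix (Fin 2) (Fin 2) (ZMod p)) (h1 : ρ 1 = 1)
    (hmul : ∀ g h, ρ (g * h) = ρ g * ρ h) : G →* MulAut (Multiplicative (Fin 2 → ZMod p)) where
  toFun g :=
    { toFun := fun v => Multiplicative.ofAdd (Matrix.mulVec (ρ g) (Multiplicative.toAdd v))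
      invFun := fun v => Multiplicative.ofAdd (Matrix.mulVec (ρ g⁻¹) (Multiplicative.toAdd v))
      left_inv := fun v => by
        show Multiplicative.ofAdd (Matrix.mulVec (ρ g⁻¹)
          (Matrix.mulVec (ρ g) (Multiplicative.toAdd v))) = v
        rw [Matrix.mulVec_mulVec, ← hmul, inv_mul_cancel, h1, Matrix.one_mulVec]; rfl
      right_inv := fun v => by
        show Multiplicative.ofAdd (Matrix.mulVec (ρ g)
          (Matrix.mulVec (ρ g⁻¹) (Multiplicative.toAdd v))) = v
        rw [Matrix.mulVec_mulVec, ← hmul, mul_inv_cancel, h1, Matrix.one_mulVec]; rfl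
      map_mul' := fun v w => by
        show Multiplicative.ofAdd (Matrix.mulVec (ρ g)
          (Multiplicative.toAdd v + Multiplicative.toAdd w)) = _
        rw [Matrix.mulVec_add]; rfl }
  map_one' := by
    apply MulEquiv.ext
    intro v
    show Multiplicative.ofAdd (Matrix.mulVec (ρ 1) (Multiplicative.toAdd v)) = v
    rw [h1, Matrix.one_mulVec]; rfl
  map_mul' := fun g h => by
    apply MulEquiv.ext
    intro v
    show Multiplicative.ofAdd (Matrix.mulVec (ρ (g * h)) (Multiplicative.toAdd v))
      = Multiplicative.ofAdd (Matrix.mulVec (ρ g) (Matrix.mulVec (ρ h) (Multiplicative.toAdd v)))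
    rw [hmul, Matrix.mulVec_mulVec]

lemma repAut_apply (ρ : G → Matrix (Fin 2) (Fin 2) (ZMod p)) (h1 : ρ 1 = 1)
    (hmul : ∀ g h, ρ (g * h) = ρ g * ρ h) (g : G) (v : Multiplicative (Fin 2 → ZMod p)) :
    repAut ρ h1 hmul g v = Multiplicative.ofAdd (Matrix.mulVec (ρ g) (Multiplicative.toAdd v)) :=
  rfl

/-- A finite nontrivial group with a fixed-point-free two-dimensional representation over
`ZMod p` is a Frobenius complement. -/
theorem exists_frob [Finite G] [Nontrivial G] (ρ : G → Matrix (Fin 2) (Fin 2) (ZMod p))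
    (h1 : ρ 1 = 1) (hmul : ∀ g h, ρ (g * h) = ρ g * ρ h)
    (hfpf : ∀ g, g ≠ 1 → (ρ g - 1).det ≠ 0) :
    ∃ (L : Type) (_ : Group L) (_ : Finite L) (H : Subgroup L),
      Cfsg.IsFrobeniusComplement H ∧ Nonempty (H ≃* G) := by
  refine ⟨Multiplicative (Fin 2 → ZMod p) ⋊[repAut ρ h1 hmul] G, inferInstance, ?_,
    (SemidirectProduct.inr).range, ?_, ?_⟩
  · exact Finite.of_equiv _ SemidirectProduct.equivProd.symm
  · apply frob_of_fpf
    intro h a ha
    by_cases hh : h = 1
    · exact Or.inl hh
    · right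
      rw [repAut_apply] at ha
      have h2 : Matrix.mulVec (ρ h) (Multiplicative.toAdd a) = Multiplicative.toAdd a :=
        congrArg Multiplicative.toAdd ha
      have h3 : Matrix.mulVec (ρ h - 1) (Multiplicative.toAdd a) = 0 := by
        rw [Matrix.sub_mulVec, Matrix.one_mulVec, h2, sub_self]
      have h4 := Matrix.eq_zero_of_mulVec_eq_zero (hfpf h hh) h3
      exact congrArg Multiplicative.ofAdd h4
  · exact ⟨(MonoidHom.ofInjective SemidirectProduct.inr_injective).symm⟩

end Rep

end Cfsg.Agent.Lib_helper4_FrobSemi
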