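import Cfsg.Statements.S0769
import Mathlib

set_option autoImplicit false
open Cfsg

namespace Cfsg.Agent.S0769

open Matrix

/-- Entry condition for an invertible lower triangular matrix. -/
def EntryOK {F : Type*} [Field F] {n : ℕ} (i j : Fin n) (x : F) : Prop :=
  (i < j → x = 0) ∧ (i = j → x ≠ 0)

lemma lower_det {F : Type*} [Field F] {n : ℕ} (M : Matrix (Fin n) (Fin n) F)
    (h : ∀ i j : Fin n, i < j → M i j = 0) : M.det = ∏ i, M i i := by
  apply Matrix.det_of_isLowerTriangular
  intro i j hij
  exact h i j (OrderDual.toDual_lt_toDual.mp hij)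

noncomputable def borelEquiv {F : Type*} [Field F] {n : ℕ} :
    {g : Matrix.GeneralLinearGroup (Fin n) F //
        ∀ i j : Fin n, i < j → (g : Matrix (Fin n) (Fin n) F) i j = 0}
      ≃ ((p : Fin n × Fin n) → {x : F // EntryOK p.1 p.2 x}) where
  toFun g := fun p => ⟨(g.1 : Matrix (Fin n) (Fin n) F) p.1 p.2, fun h => g.2 _ _ h, fun h => by
    have h1 : IsUnit (g.1 : Matrix (Fin n) (Fin n) F).det :=
      (Matrix.isUnit_iff_isUnit_det _).mp g.1.isUnit
    rw [lower_det _ g.2] at h1
    have h2 := h1.ne_zero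
    rw [Finset.prod_ne_zero_iff] at h2
    rw [← h]
    exact h2 p.1 (Finset.mem_univ _)⟩
  invFun f := ⟨Matrix.GeneralLinearGroup.mk'' (Matrix.of fun i j => (f (i, j)).1) (by
      rw [lower_det (Matrix.of fun i j => (f (i, j)).1) (fun i j h => (f (i, j)).2.1 h)]
      apply IsUnit.mk0
      rw [Finset.prod_ne_zero_iff]
      intro i _
      exact (f (i, i)).2.2 rfl), fun i j h => (f (i, j)).2.1 h⟩
  left_inv g := by
    apply Subtype.ext
    apply Units.ext
    rfl
  right_inv f := by
    funext p
    rfl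

lemma card_entry {F : Type*} [Field F] [Fintype F] {q : ℕ} (hF : Fintype.card F = q) {n : ℕ}
    (i j : Fin n) :
    Nat.card {x : F // EntryOK i j x} = (if i = j then q - 1 else 1) * (if j < i then q else 1) := by
  rcases lt_trichotomy i j with h | h | h
  · rw [if_neg (ne_of_lt h), if_neg (not_lt_of_gt h), one_mul]
    have e : {x : F // EntryOK i j x} ≃ {x : F // x = 0} :=
      Equiv.subtypeEquivRight (fun x => ⟨fun hx => hx.1 h, fun hx => ⟨fun _ => hx, fun h' => absurd h' (ne_of_lt h)⟩⟩)
    rw [Nat.card_congr e]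
    exact Nat.card_unique
  · rw [if_pos h, if_neg (by rw [h]; exact lt_irrefl _), mul_one]
    have e : {x : F // EntryOK i j x} ≃ {x : F // x ≠ 0} :=
      Equiv.subtypeEquivRight (fun x => ⟨fun hx => hx.2 h, fun hx => ⟨fun h' => absurd h' (by rw [h]; exact lt_irrefl _), fun _ => hx⟩⟩)
    rw [Nat.card_congr e, ← Nat.card_congr (unitsEquivNeZero (G₀ := F)), Nat.card_units, Nat.card_eq_fintype_card, hF]
  · rw [if_neg (ne_of_gt h), if_pos h, one_mul]
    have e : {x : F // EntryOK i j x} ≃ F :=
      (Equiv.subtypeEquivRight (fun x => ⟨fun _ => trivial, fun _ => ⟨fun h' => absurd h' (not_lt_of_gt h), fun h' => absurd h' (ne_of_gt h)⟩⟩)).trans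
        (Equiv.subtypeUnivEquiv (fun _ => trivial))
    rw [Nat.card_congr e, Nat.card_eq_fintype_card, hF]

/-- Order of the Borel subgroup of GL_n(q): the invertible lower-triangular n × n matrices over a field with q elements number q^(n(n-1)/2) (q-1)^n (unitriangular part times the diagonal torus). -/
theorem result {F : Type*} [Field F] [Fintype F] {q : ℕ} (hF : Fintype.card F = q) (n : ℕ) : Nat.card {g : Matrix.GeneralLinearGroup (Fin n) F // ∀ i j : Fin n, i < j → (g : Matrix (Fin n) (Fin n) F) i j = 0} = q ^ (n * (n - 1) / 2) * (q - 1) ^ n := by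
  classical
  rw [Nat.card_congr borelEquiv, Nat.card_pi]
  have h1 : ∀ p : Fin n × Fin n, Nat.card {x : F // EntryOK p.1 p.2 x}
      = (if p.1 = p.2 then q - 1 else 1) * (if p.2 < p.1 then q else 1) := fun p => card_entry hF p.1 p.2
  rw [Finset.prod_congr rfl (fun p _ => h1 p), Fintype.prod_prod_type]
  have h2 : ∀ i : Fin n, ∏ j : Fin n, ((if i = j then q - 1 else 1) * (if j < i then q else 1))
      = (q - 1) * q ^ (i : ℕ) := by
    intro i
    rw [Finset.prod_mul_distrib, Finset.prod_ite_eq Finset.univ i (fun _ => q - 1),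
      if_pos (Finset.mem_univ _), Finset.prod_ite, Finset.prod_const, Finset.prod_const_one, mul_one]
    congr 2
    rw [← Fin.card_Iio i]
    congr 1
    ext j
    simp
  rw [Finset.prod_congr rfl (fun i _ => h2 i), Finset.prod_mul_distrib, Finset.prod_const,
    Finset.prod_pow_eq_pow_sum, Finset.card_univ, Fintype.card_fin, Fin.sum_univ_eq_sum_range (fun i => i) n,
    Finset.sum_range_id, mul_comm]

end Cfsg.Agent.S0769
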