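import Mathlib
import Cfsg.Agent.Lib_helper4_Card
import Cfsg.Agent.S0769

set_option autoImplicit false

/-! Sylow `p`-subgroups of `GL_2(q)` in the defining characteristic: the lower unitriangular group `U`,
its normaliser (the lower triangular matrices), centralisers of its non-trivial elements. -/

namespace Cfsg.Agent.Lib_helper4_GL2Syl
open Matrix

variable {F : Type*} [Field F]

lemma mul_entries (g h : GL (Fin 2) F) (i j : Fin 2) :
    ((g * h : GL (Fin 2) F) : Matrix (Fin 2) (Fin 2) F) i j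
      = (g : Matrix (Fin 2) (Fin 2) F) i 0 * (h : Matrix (Fin 2) (Fin 2) F) 0 j
        + (g : Matrix (Fin 2) (Fin 2) F) i 1 * (h : Matrix (Fin 2) (Fin 2) F) 1 j := by
  rw [Units.val_mul, Matrix.mul_apply, Fin.sum_univ_two]

lemma ext2 (g h : GL (Fin 2) F)
    (h00 : (g : Matrix (Fin 2) (Fin 2) F) 0 0 = (h : Matrix (Fin 2) (Fin 2) F) 0 0)
    (h01 : (g : Matrix (Fin 2) (Fin 2) F) 0 1 = (h : Matrix (Fin 2) (Fin 2) F) 0 1)
    (h10 : (g : Matrix (Fin 2) (Fin 2) F) 1 0 = (h : Matrix (Fin 2) (Fin 2) F) 1 0)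
    (h11 : (g : Matrix (Fin 2) (Fin 2) F) 1 1 = (h : Matrix (Fin 2) (Fin 2) F) 1 1) : g = h := by
  apply Units.ext
  ext i j
  fin_cases i <;> fin_cases j
  · exact h00
  · exact h01
  · exact h10
  · exact h11

/-- The lower unitriangular element with entry `b`. -/
def u (b : F) : GL (Fin 2) F :=
  ⟨!![1, 0; b, 1], !![1, 0; -b, 1],
    by simp [Matrix.mul_fin_two, Matrix.one_fin_two],
    by simp [Matrix.mul_fin_two, Matrix.one_fin_two]⟩

lemma u_00 (b : F) : ((u b : GL (Fin 2) F) : Matrix (Fin 2) (Fin 2) F) 0 0 = 1 := rfl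
lemma u_01 (b : F) : ((u b : GL (Fin 2) F) : Matrix (Fin 2) (Fin 2) F) 0 1 = 0 := rfl
lemma u_10 (b : F) : ((u b : GL (Fin 2) F) : Matrix (Fin 2) (Fin 2) F) 1 0 = b := rfl
lemma u_11 (b : F) : ((u b : GL (Fin 2) F) : Matrix (Fin 2) (Fin 2) F) 1 1 = 1 := rfl

lemma u_add (a b : F) : u a * u b = u (a + b) := by
  apply ext2 <;> rw [mul_entries] <;> simp only [u_00, u_01, u_10, u_11] <;> ring

lemma u_zero : u (0 : F) = 1 := by
  apply ext2 <;> simp [u_00, u_01, u_10, u_11]

lemma u_inv (a : F) : (u a)⁻¹ = u (-a) := by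
  rw [inv_eq_iff_mul_eq_one, u_add, add_neg_cancel, u_zero]

lemma u_injective : Function.Injective (u : F → GL (Fin 2) F) := by
  intro a b h
  have := congrArg (fun g : GL (Fin 2) F => (g : Matrix (Fin 2) (Fin 2) F) 1 0) h
  simpa [u_10] using this

/-- The lower unitriangular subgroup. -/
def U : Subgroup (GL (Fin 2) F) where
  carrier := Set.range u
  mul_mem' := by
    rintro _ _ ⟨a, rfl⟩ ⟨b, rfl⟩
    exact ⟨a + b, (u_add a b).symm⟩
  one_mem' := ⟨0, u_zero⟩
  inv_mem' := by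
    rintro _ ⟨a, rfl⟩
    exact ⟨-a, (u_inv a).symm⟩

lemma u_mem (b : F) : u b ∈ (U : Subgroup (GL (Fin 2) F)) := ⟨b, rfl⟩

lemma mem_U_iff (g : GL (Fin 2) F) :
    g ∈ (U : Subgroup (GL (Fin 2) F)) ↔ (g : Matrix (Fin 2) (Fin 2) F) 0 0 = 1 ∧
      (g : Matrix (Fin 2) (Fin 2) F) 0 1 = 0 ∧ (g : Matrix (Fin 2) (Fin 2) F) 1 1 = 1 := by
  constructor
  · rintro ⟨b, rfl⟩
    exact ⟨u_00 b, u_01 b, u_11 b⟩
  · rintro ⟨h1, h2, h3⟩
    refine ⟨(g : Matrix (Fin 2) (Fin 2) F) 1 0, ?_⟩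
    apply ext2
    · rw [u_00, h1]
    · rw [u_01, h2]
    · rw [u_10]
    · rw [u_11, h3]

lemma card_U [Fintype F] : Nat.card (U : Subgroup (GL (Fin 2) F)) = Fintype.card F := by
  rw [← Nat.card_eq_fintype_card]
  exact (Nat.card_congr (Equiv.ofInjective u u_injective)).symm

lemma det_ne_zero (g : GL (Fin 2) F) : (g : Matrix (Fin 2) (Fin 2) F).det ≠ 0 :=
  ((Matrix.isUnit_iff_isUnit_det _).mp g.isUnit).ne_zero

lemma diag_ne_zero (g : GL (Fin 2) F) (h : (g : Matrix (Fin 2) (Fin 2) F) 0 1 = 0) :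
    (g : Matrix (Fin 2) (Fin 2) F) 0 0 ≠ 0 ∧ (g : Matrix (Fin 2) (Fin 2) F) 1 1 ≠ 0 := by
  have hd := det_ne_zero g
  rw [Matrix.det_fin_two, h, zero_mul, sub_zero] at hd
  exact ⟨left_ne_zero_of_mul hd, right_ne_zero_of_mul hd⟩

lemma inv_01 (g : GL (Fin 2) F) (h : (g : Matrix (Fin 2) (Fin 2) F) 0 1 = 0) :
    ((g⁻¹ : GL (Fin 2) F) : Matrix (Fin 2) (Fin 2) F) 0 1 = 0 := by
  have h1 : ((g⁻¹ * g : GL (Fin 2) F) : Matrix (Fin 2) (Fin 2) F) 0 1 = 0 := by
    rw [inv_mul_cancel]; simp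
  rw [mul_entries, h, mul_zero, zero_add] at h1
  rcases mul_eq_zero.mp h1 with h2 | h2
  · exact h2
  · exact absurd h2 (diag_ne_zero g h).2

/-- Conjugating `U` by a lower triangular matrix. -/
lemma conj_mem_U (g : GL (Fin 2) F) (h : (g : Matrix (Fin 2) (Fin 2) F) 0 1 = 0)
    (x : GL (Fin 2) F) (hx : x ∈ (U : Subgroup (GL (Fin 2) F))) :
    g * x * g⁻¹ ∈ (U : Subgroup (GL (Fin 2) F)) := by
  obtain ⟨b, rfl⟩ := hx
  obtain ⟨h0, h1⟩ := diag_ne_zero g h
  have key : g * u b = u (b * (g : Matrix (Fin 2) (Fin 2) F) 1 1 / (g : Matrix (Fin 2) (Fin 2) F) 0 0) * g := by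
    apply ext2 <;> rw [mul_entries, mul_entries] <;> simp only [u_00, u_01, u_10, u_11, h]
    · ring
    · ring
    · field_simp
      ring
    · ring
  rw [key, mul_inv_cancel_right]
  exact u_mem _

lemma mem_normalizer_U_iff (g : GL (Fin 2) F) :
    g ∈ Subgroup.normalizer ((U : Subgroup (GL (Fin 2) F)) : Set (GL (Fin 2) F))
      ↔ (g : Matrix (Fin 2) (Fin 2) F) 0 1 = 0 := by
  rw [Subgroup.mem_normalizer_iff]
  constructor
  · intro hg
    obtain ⟨c, hc⟩ := (hg (u 1)).mp (u_mem 1)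
    have h1 : u c * g = g * u 1 := by
      rw [hc, inv_mul_cancel_right]
    have h2 := congrArg (fun k : GL (Fin 2) F => (k : Matrix (Fin 2) (Fin 2) F) 0 0) h1
    simp only [mul_entries, u_00, u_01, u_10, u_11] at h2
    have h3 : (g : Matrix (Fin 2) (Fin 2) F) 0 1 = 0 := by
      have : (g : Matrix (Fin 2) (Fin 2) F) 0 0 + 0 = (g : Matrix (Fin 2) (Fin 2) F) 0 0
          + (g : Matrix (Fin 2) (Fin 2) F) 0 1 := by
        rw [add_zero]
        simpa using h2
      exact (add_left_cancel this).symm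
    exact h3
  · intro hg x
    constructor
    · exact conj_mem_U g hg x
    · intro hx
      have := conj_mem_U g⁻¹ (inv_01 g hg) _ hx
      rw [inv_inv] at this
      have e : g⁻¹ * (g * x * g⁻¹) * g = x := by group
      rwa [e] at this

lemma card_normalizer_U [Fintype F] {q : ℕ} (hF : Fintype.card F = q) :
    Nat.card (Subgroup.normalizer ((U : Subgroup (GL (Fin 2) F)) : Set (GL (Fin 2) F)))
      = q * (q - 1) ^ 2 := by
  have e : {g : GL (Fin 2) F // g ∈ Subgroup.normalizer ((U : Subgroup (GL (Fin 2) F)) : Set (GL (Fin 2) F))}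
      ≃ {g : GL (Fin 2) F // ∀ i j : Fin 2, i < j → (g : Matrix (Fin 2) (Fin 2) F) i j = 0} := by
    apply Equiv.subtypeEquivRight
    intro g
    rw [mem_normalizer_U_iff]
    constructor
    · intro h i j hij
      fin_cases i <;> fin_cases j
      · exact absurd hij (lt_irrefl _)
      · exact h
      · exact absurd hij (by decide)
      · exact absurd hij (lt_irrefl _)
    · intro h
      exact h 0 1 (by decide)
  have h1 := Cfsg.Agent.S0769.result hF 2
  have h2 : Nat.card (Subgroup.normalizer ((U : Subgroup (GL (Fin 2) F)) : Set (GL (Fin 2) F)))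
      = Nat.card {g : GL (Fin 2) F // ∀ i j : Fin 2, i < j → (g : Matrix (Fin 2) (Fin 2) F) i j = 0} :=
    Nat.card_congr e
  rw [h2, h1]
  norm_num

/-- `U` is (the carrier of) a Sylow `p`-subgroup. -/
lemma exists_sylow_eq_U [Fintype F] (p : ℕ) [Fact p.Prime] [CharP F p] :
    ∃ Q : Sylow p (GL (Fin 2) F), (Q : Subgroup (GL (Fin 2) F)) = U := by
  obtain ⟨k, -, hk⟩ := FiniteField.card F p
  have hU : IsPGroup p (U : Subgroup (GL (Fin 2) F)) := IsPGroup.of_card (n := k) (by rw [card_U, hk])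
  obtain ⟨Q, hQ⟩ := hU.exists_le_sylow
  refine ⟨Q, (Subgroup.eq_of_le_of_card_ge hQ ?_).symm⟩
  rw [Cfsg.Agent.Lib_helper4_Card.card_sylow_GL rfl p 2 Q, card_U]
  norm_num

/-- Every Sylow `p`-subgroup is a conjugate of `U`. -/
lemma exists_conj [Fintype F] (p : ℕ) [Fact p.Prime] [CharP F p] (P : Sylow p (GL (Fin 2) F)) :
    ∃ g : GL (Fin 2) F, (P : Subgroup (GL (Fin 2) F))
      = (U : Subgroup (GL (Fin 2) F)).map (MulAut.conj g).toMonoidHom := by
  obtain ⟨Q, hQ⟩ := exists_sylow_eq_U (F := F) p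
  obtain ⟨g, hg⟩ := MulAction.exists_smul_eq (GL (Fin 2) F) Q P
  refine ⟨g, ?_⟩
  rw [← hg, ← hQ]
  rfl

lemma mem_map_conj (g x : GL (Fin 2) F) (H : Subgroup (GL (Fin 2) F)) :
    x ∈ H.map (MulAut.conj g).toMonoidHom ↔ g⁻¹ * x * g ∈ H := by
  constructor
  · rintro ⟨y, hy, rfl⟩
    have : g⁻¹ * ((MulAut.conj g).toMonoidHom y) * g = y := by
      simp [MulAut.conj_apply]
      group
    rwa [this]
  · intro h
    refine ⟨g⁻¹ * x * g, h, ?_⟩
    simp [MulAut.conj_apply]
    group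

/-- A non-trivial element of `U` conjugated into `U` forces the conjugator to be lower triangular. -/
lemma lower_of_conj_mem (k y : GL (Fin 2) F) (hy : y ∈ (U : Subgroup (GL (Fin 2) F))) (hy1 : y ≠ 1)
    (h : k⁻¹ * y * k ∈ (U : Subgroup (GL (Fin 2) F))) :
    (k : Matrix (Fin 2) (Fin 2) F) 0 1 = 0 := by
  obtain ⟨b, rfl⟩ := hy
  obtain ⟨c, hc⟩ := h
  have hb : b ≠ 0 := by
    rintro rfl
    exact hy1 u_zero
  have h1 : k * u c = u b * k := by
    rw [hc]; group
  have h2 := congrArg (fun g : GL (Fin 2) F => (g : Matrix (Fin 2) (Fin 2) F) 1 1) h1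
  simp only [mul_entries, u_00, u_01, u_10, u_11] at h2
  have h3 : b * (k : Matrix (Fin 2) (Fin 2) F) 0 1 = 0 := by
    have : (k : Matrix (Fin 2) (Fin 2) F) 1 1 + 0 = b * (k : Matrix (Fin 2) (Fin 2) F) 0 1
        + (k : Matrix (Fin 2) (Fin 2) F) 1 1 := by
      rw [add_zero]
      simpa using h2
    rw [add_comm (b * _)] at this
    exact (add_left_cancel this).symm
  rcases mul_eq_zero.mp h3 with h | h
  · exact absurd h hb
  · exact h

/-- The centraliser of a non-trivial element of `U`. -/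
lemma mem_centralizer_u_iff (b : F) (hb : b ≠ 0) (k : GL (Fin 2) F) :
    k ∈ Subgroup.centralizer ({u b} : Set (GL (Fin 2) F)) ↔
      (k : Matrix (Fin 2) (Fin 2) F) 0 1 = 0 ∧
        (k : Matrix (Fin 2) (Fin 2) F) 0 0 = (k : Matrix (Fin 2) (Fin 2) F) 1 1 := by
  rw [Subgroup.mem_centralizer_singleton_iff]
  constructor
  · intro h
    have h2 := congrArg (fun g : GL (Fin 2) F => (g : Matrix (Fin 2) (Fin 2) F) 0 0) h
    have h3 := congrArg (fun g : GL (Fin 2) F => (g : Matrix (Fin 2) (Fin 2) F) 1 0) h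
    simp only [mul_entries, u_00, u_01, u_10, u_11] at h2 h3
    have h4 : (k : Matrix (Fin 2) (Fin 2) F) 0 1 = 0 := by
      have : (k : Matrix (Fin 2) (Fin 2) F) 0 1 * b = 0 := by
        have e : (k : Matrix (Fin 2) (Fin 2) F) 0 0 + (k : Matrix (Fin 2) (Fin 2) F) 0 1 * b
            = (k : Matrix (Fin 2) (Fin 2) F) 0 0 + 0 := by
          rw [add_zero]
          simpa using h2
        exact add_left_cancel e
      rcases mul_eq_zero.mp this with h | h
      · exact h
      · exact absurd h hb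
    refine ⟨h4, ?_⟩
    have h5 : b * (k : Matrix (Fin 2) (Fin 2) F) 0 0 = b * (k : Matrix (Fin 2) (Fin 2) F) 1 1 := by
      have e : (k : Matrix (Fin 2) (Fin 2) F) 1 0 + (k : Matrix (Fin 2) (Fin 2) F) 1 1 * b
          = b * (k : Matrix (Fin 2) (Fin 2) F) 0 0 + (k : Matrix (Fin 2) (Fin 2) F) 1 0 := by
        simpa using h3
      have e2 : (k : Matrix (Fin 2) (Fin 2) F) 1 0 + b * (k : Matrix (Fin 2) (Fin 2) F) 1 1
          = (k : Matrix (Fin 2) (Fin 2) F) 1 0 + b * (k : Matrix (Fin 2) (Fin 2) F) 0 0 := by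
        rw [mul_comm b, e]; ring
      exact (add_left_cancel e2).symm
    exact mul_left_cancel₀ hb h5
  · rintro ⟨h1, h2⟩
    apply ext2 <;> rw [mul_entries, mul_entries] <;> simp only [u_00, u_01, u_10, u_11, h1, h2] <;> ring

/-- The element `[[a, 0], [c, a]]`. -/
def cent (a : Fˣ) (c : F) : GL (Fin 2) F :=
  ⟨!![(a : F), 0; c, (a : F)], !![((a⁻¹ : Fˣ) : F), 0; -c * ((a⁻¹ : Fˣ) : F) * ((a⁻¹ : Fˣ) : F), ((a⁻¹ : Fˣ) : F)],
    by
      have := a.mul_inv
      simp [Matrix.mul_fin_two, Matrix.one_fin_two]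
      field_simp
      ring,
    by
      have := a.inv_mul
      simp [Matrix.mul_fin_two, Matrix.one_fin_two]
      field_simp
      ring⟩

lemma card_centralizer_u [Fintype F] {q : ℕ} (hF : Fintype.card F = q) (b : F) (hb : b ≠ 0) :
    Nat.card (Subgroup.centralizer ({u b} : Set (GL (Fin 2) F))) = q * (q - 1) := by
  have e : Fˣ × F ≃ {k : GL (Fin 2) F // k ∈ Subgroup.centralizer ({u b} : Set (GL (Fin 2) F))} :=
    { toFun := fun x => ⟨cent x.1 x.2, (mem_centralizer_u_iff b hb _).mpr ⟨rfl, rfl⟩⟩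
      invFun := fun k => ⟨Units.mk0 ((k.1 : Matrix (Fin 2) (Fin 2) F) 0 0)
        (diag_ne_zero k.1 ((mem_centralizer_u_iff b hb _).mp k.2).1).1,
        (k.1 : Matrix (Fin 2) (Fin 2) F) 1 0⟩
      left_inv := by
        rintro ⟨a, c⟩
        apply Prod.ext
        · apply Units.ext
          rfl
        · rfl
      right_inv := by
        rintro ⟨k, hk⟩
        obtain ⟨h1, h2⟩ := (mem_centralizer_u_iff b hb _).mp hk
        apply Subtype.ext
        apply ext2
        · rfl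
        · exact h1.symm
        · rfl
        · exact h2 }
  have h1 : Nat.card (Subgroup.centralizer ({u b} : Set (GL (Fin 2) F))) = Nat.card (Fˣ × F) :=
    (Nat.card_congr e).symm
  rw [h1, Nat.card_prod, Nat.card_units, Nat.card_eq_fintype_card, hF, mul_comm]

lemma card_normalizer_sylow [Fintype F] {q : ℕ} (hF : Fintype.card F = q) (p : ℕ) [Fact p.Prime]
    [CharP F p] (P : Sylow p (GL (Fin 2) F)) :
    Nat.card (Subgroup.normalizer ((P : Subgroup (GL (Fin 2) F)) : Set (GL (Fin 2) F)))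
      = q * (q - 1) ^ 2 := by
  obtain ⟨g, hg⟩ := exists_conj p P
  rw [hg, ← Subgroup.map_normalizer_eq_of_bijective U (MulEquiv.bijective (MulAut.conj g)),
    Subgroup.card_map_of_injective (MulEquiv.injective (MulAut.conj g))]
  exact card_normalizer_U hF

lemma card_centralizer_conj {G : Type*} [Group G] (g a : G) :
    Nat.card (Subgroup.centralizer ({g⁻¹ * a * g} : Set G))
      = Nat.card (Subgroup.centralizer ({a} : Set G)) := by
  have e : {k : G // k ∈ Subgroup.centralizer ({g⁻¹ * a * g} : Set G)}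
      ≃ {k : G // k ∈ Subgroup.centralizer ({a} : Set G)} :=
    { toFun := fun k => ⟨g * k.1 * g⁻¹, by
        have h := Subgroup.mem_centralizer_singleton_iff.mp k.2
        rw [Subgroup.mem_centralizer_singleton_iff]
        have e1 : g * k.1 * g⁻¹ * a = g * (k.1 * (g⁻¹ * a * g)) * g⁻¹ := by group
        have e2 : a * (g * k.1 * g⁻¹) = g * ((g⁻¹ * a * g) * k.1) * g⁻¹ := by group
        rw [e1, e2, h]⟩
      invFun := fun k => ⟨g⁻¹ * k.1 * g, by
        have h := Subgroup.mem_centralizer_singleton_iff.mp k.2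
        rw [Subgroup.mem_centralizer_singleton_iff]
        have e1 : g⁻¹ * k.1 * g * (g⁻¹ * a * g) = g⁻¹ * (k.1 * a) * g := by group
        have e2 : g⁻¹ * a * g * (g⁻¹ * k.1 * g) = g⁻¹ * (a * k.1) * g := by group
        rw [e1, e2, h]⟩
      left_inv := by
        intro k
        apply Subtype.ext
        show g⁻¹ * (g * k.1 * g⁻¹) * g = k.1
        group
      right_inv := by
        intro k
        apply Subtype.ext
        show g * (g⁻¹ * k.1 * g) * g⁻¹ = k.1
        group }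
  exact Nat.card_congr e

end Cfsg.Agent.Lib_helper4_GL2Syl
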