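import Mathlib
import Cfsg.Prelude.Def_ClassicalGeometry

set_option autoImplicit false

namespace Cfsg.Agent.Lib_helper4_GLPar

open Matrix

variable {F : Type*} [Field F]

/-- the index equivalence `Fin k ⊕ Fin (n - k) ≃ Fin n`. -/
def idx (n k : ℕ) (hk : k ≤ n) : Fin k ⊕ Fin (n - k) ≃ Fin n :=
  finSumFinEquiv.trans (finCongr (by omega))

theorem idx_inl (n k : ℕ) (hk : k ≤ n) (a : Fin k) :
    ((idx n k hk (Sum.inl a) : Fin n) : ℕ) = a := by simp [idx]

theorem idx_inr (n k : ℕ) (hk : k ≤ n) (b : Fin (n - k)) :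
    ((idx n k hk (Sum.inr b) : Fin n) : ℕ) = k + b := by simp [idx]

theorem mem_S_iff (n k : ℕ) (hk : k ≤ n) (v : Fin n → F) :
    (∀ i : Fin n, k ≤ (i : ℕ) → v i = 0) ↔ ∀ b, v (idx n k hk (Sum.inr b)) = 0 := by
  constructor
  · intro h b; apply h; rw [idx_inr]; omega
  · intro h i hi
    obtain ⟨x, rfl⟩ := (idx n k hk).surjective i
    cases x with
    | inl a => rw [idx_inl] at hi; exact absurd hi (by have := a.2; omega)
    | inr b => exact h b

theorem det_blocks (n k : ℕ) (hk : k ≤ n) (M : Matrix (Fin n) (Fin n) F)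
    (hC : (M.submatrix (idx n k hk) (idx n k hk)).toBlocks₂₁ = 0) :
    M.det = (M.submatrix (idx n k hk) (idx n k hk)).toBlocks₁₁.det *
      (M.submatrix (idx n k hk) (idx n k hk)).toBlocks₂₂.det := by
  rw [← Matrix.det_fromBlocks_zero₂₁ _ (M.submatrix (idx n k hk) (idx n k hk)).toBlocks₁₂, ← hC,
    Matrix.fromBlocks_toBlocks, Matrix.det_submatrix_equiv_self]

theorem mulVec_idx_inr (n k : ℕ) (hk : k ≤ n) (M : Matrix (Fin n) (Fin n) F)
    (hC : (M.submatrix (idx n k hk) (idx n k hk)).toBlocks₂₁ = 0) (v : Fin n → F) (b : Fin (n - k)) :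
    (M *ᵥ v) (idx n k hk (Sum.inr b)) =
      ((M.submatrix (idx n k hk) (idx n k hk)).toBlocks₂₂ *ᵥ
        (fun b' => v (idx n k hk (Sum.inr b')))) b := by
  have h1 : (M.submatrix (idx n k hk) (idx n k hk)) *ᵥ (v ∘ idx n k hk) =
      (M *ᵥ v) ∘ idx n k hk := by
    rw [Matrix.submatrix_mulVec_equiv]
    congr 2
    funext i
    simp
  have h2 := congrFun h1 (Sum.inr b)
  rw [Function.comp_apply] at h2
  rw [← h2, ← Matrix.fromBlocks_toBlocks (M.submatrix (idx n k hk) (idx n k hk)),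
    Matrix.fromBlocks_mulVec, hC]
  simp
  rfl

theorem mem_stab_iff (n k : ℕ) (hk : k ≤ n) (g : GL (Fin n) F) :
    g ∈ Cfsg.stabilizing (Cfsg.glToMat (Fin n) F)
      {v : Fin n → F | ∀ i : Fin n, k ≤ (i : ℕ) → v i = 0} ↔
    ((g : Matrix (Fin n) (Fin n) F).submatrix (idx n k hk) (idx n k hk)).toBlocks₂₁ = 0 := by
  constructor
  · intro hg
    ext b a
    have h1 := (hg (Pi.single (idx n k hk (Sum.inl a)) 1)).mp (by
      show ∀ i : Fin n, k ≤ (i : ℕ) → _
      rw [mem_S_iff n k hk]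
      intro b'
      rw [Pi.single_eq_of_ne]
      intro h
      exact Sum.inr_ne_inl ((idx n k hk).injective h))
    have h2 := (mem_S_iff n k hk _).mp h1 b
    simp only [Cfsg.glToMat, Units.coeHom_apply, Matrix.mulVec_single_one, Matrix.col_apply] at h2
    simpa [Matrix.toBlocks₂₁] using h2
  · intro hC v
    have hdet : ((g : Matrix (Fin n) (Fin n) F).submatrix (idx n k hk) (idx n k hk)).toBlocks₂₂.det ≠ 0 := by
      intro h0
      have h1 := det_blocks n k hk _ hC
      rw [h0, mul_zero] at h1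
      exact ((Matrix.isUnit_iff_isUnit_det _).mp g.isUnit).ne_zero h1
    show (∀ i : Fin n, k ≤ (i : ℕ) → v i = 0) ↔
      (∀ i : Fin n, k ≤ (i : ℕ) → ((g : Matrix (Fin n) (Fin n) F) *ᵥ v) i = 0)
    rw [mem_S_iff n k hk, mem_S_iff n k hk]
    constructor
    · intro hv b
      rw [mulVec_idx_inr n k hk _ hC]
      have : (fun b' => v (idx n k hk (Sum.inr b'))) = 0 := funext hv
      rw [this, Matrix.mulVec_zero]; rfl
    · intro hv
      have h0 : ((g : Matrix (Fin n) (Fin n) F).submatrix (idx n k hk) (idx n k hk)).toBlocks₂₂ *ᵥ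
          (fun b' => v (idx n k hk (Sum.inr b'))) = 0 := by
        funext b
        rw [← mulVec_idx_inr n k hk _ hC]
        exact hv b
      have := Matrix.eq_zero_of_mulVec_eq_zero hdet h0
      intro b
      exact congrFun this b

/-- the parametrisation of the parabolic -/
noncomputable def par (n k : ℕ) (hk : k ≤ n) :
    (GL (Fin k) F × GL (Fin (n - k)) F) × Matrix (Fin k) (Fin (n - k)) F → GL (Fin n) F :=
  fun x => Matrix.GeneralLinearGroup.mkOfDetNeZero
    ((Matrix.fromBlocks (x.1.1 : Matrix (Fin k) (Fin k) F) x.2 0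
      (x.1.2 : Matrix (Fin (n - k)) (Fin (n - k)) F)).submatrix (idx n k hk).symm (idx n k hk).symm)
    (by
      rw [Matrix.det_submatrix_equiv_self, Matrix.det_fromBlocks_zero₂₁]
      exact mul_ne_zero ((Matrix.isUnit_iff_isUnit_det _).mp x.1.1.isUnit).ne_zero
        ((Matrix.isUnit_iff_isUnit_det _).mp x.1.2.isUnit).ne_zero)

theorem par_val (n k : ℕ) (hk : k ≤ n)
    (x : (GL (Fin k) F × GL (Fin (n - k)) F) × Matrix (Fin k) (Fin (n - k)) F) :
    ((par n k hk x : GL (Fin n) F) : Matrix (Fin n) (Fin n) F) =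
      (Matrix.fromBlocks (x.1.1 : Matrix (Fin k) (Fin k) F) x.2 0
      (x.1.2 : Matrix (Fin (n - k)) (Fin (n - k)) F)).submatrix (idx n k hk).symm (idx n k hk).symm :=
  rfl

theorem par_injective (n k : ℕ) (hk : k ≤ n) : Function.Injective (par (F := F) n k hk) := by
  intro x y hxy
  have h1 := congrArg (fun g : GL (Fin n) F => (g : Matrix (Fin n) (Fin n) F).submatrix (idx n k hk) (idx n k hk)) hxy
  simp only [par_val, Matrix.submatrix_submatrix, Equiv.symm_comp_self, Matrix.submatrix_id_id] at h1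
  rw [Matrix.fromBlocks_inj] at h1
  obtain ⟨ha, hb, -, hd⟩ := h1
  exact Prod.ext (Prod.ext (Units.ext ha) (Units.ext hd)) hb

theorem range_par (n k : ℕ) (hk : k ≤ n) :
    Set.range (par (F := F) n k hk) = (Cfsg.stabilizing (Cfsg.glToMat (Fin n) F)
      {v : Fin n → F | ∀ i : Fin n, k ≤ (i : ℕ) → v i = 0} : Set (GL (Fin n) F)) := by
  ext g
  rw [SetLike.mem_coe, mem_stab_iff n k hk]
  constructor
  · rintro ⟨x, rfl⟩
    rw [par_val]
    simp
  · intro hC
    have hd := det_blocks n k hk _ hC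
    have hne : (g : Matrix (Fin n) (Fin n) F).det ≠ 0 :=
      ((Matrix.isUnit_iff_isUnit_det _).mp g.isUnit).ne_zero
    rw [hd] at hne
    refine ⟨((Matrix.GeneralLinearGroup.mkOfDetNeZero _ (left_ne_zero_of_mul hne),
      Matrix.GeneralLinearGroup.mkOfDetNeZero _ (right_ne_zero_of_mul hne)),
      ((g : Matrix (Fin n) (Fin n) F).submatrix (idx n k hk) (idx n k hk)).toBlocks₁₂), ?_⟩
    apply Units.ext
    rw [par_val]
    show (Matrix.fromBlocks ((g : Matrix (Fin n) (Fin n) F).submatrix (idx n k hk) (idx n k hk)).toBlocks₁₁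
      ((g : Matrix (Fin n) (Fin n) F).submatrix (idx n k hk) (idx n k hk)).toBlocks₁₂ 0
      ((g : Matrix (Fin n) (Fin n) F).submatrix (idx n k hk) (idx n k hk)).toBlocks₂₂).submatrix
        (idx n k hk).symm (idx n k hk).symm = _
    rw [← hC, Matrix.fromBlocks_toBlocks]
    simp

theorem card_stab [Fintype F] {q : ℕ} (hF : Fintype.card F = q) (n k : ℕ) (hk : k ≤ n) :
    Nat.card ↥(Cfsg.stabilizing (Cfsg.glToMat (Fin n) F)
      {v : Fin n → F | ∀ i : Fin n, k ≤ (i : ℕ) → v i = 0}) =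
    q ^ (k * (n - k)) * (∏ i : Fin k, (q ^ k - q ^ (i : ℕ))) *
      ∏ i : Fin (n - k), (q ^ (n - k) - q ^ (i : ℕ)) := by
  have h1 : Nat.card ↥(Cfsg.stabilizing (Cfsg.glToMat (Fin n) F)
      {v : Fin n → F | ∀ i : Fin n, k ≤ (i : ℕ) → v i = 0}) =
      Nat.card (Set.range (par (F := F) n k hk)) := by
    rw [range_par]; rfl
  rw [h1, Nat.card_congr (Equiv.ofInjective _ (par_injective n k hk)).symm, Nat.card_prod,
    Nat.card_prod, Matrix.card_GL_field, Matrix.card_GL_field, hF]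
  have h2 : Nat.card (Matrix (Fin k) (Fin (n - k)) F) = q ^ (k * (n - k)) := by
    rw [Nat.card_eq_fintype_card]
    show Fintype.card (Fin k → Fin (n - k) → F) = _
    rw [Fintype.card_fun, Fintype.card_fun, hF, Fintype.card_fin, Fintype.card_fin, ← pow_mul, mul_comm]
  rw [h2]
  ring

end Cfsg.Agent.Lib_helper4_GLPar
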