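import Mathlib
import Cfsg.Prelude.Def_ClassicalGeometry
import Cfsg.Agent.Lib_helper4_GLPar

set_option autoImplicit false

namespace Cfsg.Agent.Lib_helper4_GLPar2

open Matrix Cfsg.Agent.Lib_helper4_GLPar

variable {F : Type*} [Field F]

/-- the stabiliser of the first `k` coordinates -/
abbrev P (F : Type*) [Field F] (n k : ℕ) : Subgroup (GL (Fin n) F) :=
  Cfsg.stabilizing (Cfsg.glToMat (Fin n) F) {v : Fin n → F | ∀ i : Fin n, k ≤ (i : ℕ) → v i = 0}

theorem mem_P_iff (n k : ℕ) (hk : k ≤ n) (g : GL (Fin n) F) :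
    g ∈ P F n k ↔
    ∀ i j : Fin n, k ≤ (i : ℕ) → (j : ℕ) < k → (g : Matrix (Fin n) (Fin n) F) i j = 0 := by
  rw [mem_stab_iff n k hk]
  constructor
  · intro h i j hi hj
    obtain ⟨x, rfl⟩ := (idx n k hk).surjective i
    obtain ⟨y, rfl⟩ := (idx n k hk).surjective j
    cases x with
    | inl a => rw [idx_inl] at hi; exact absurd hi (by have := a.2; omega)
    | inr b =>
      cases y with
      | inr b' => rw [idx_inr] at hj; exact absurd hj (by omega)
      | inl a => exact congrFun (congrFun h b) a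
  · intro h
    ext b a
    exact h _ _ (by rw [idx_inr]; omega) (by rw [idx_inl]; exact a.2)

/-- transpose-inverse followed by reversal of the coordinates -/
def theta {n : ℕ} (g : GL (Fin n) F) : GL (Fin n) F :=
  ⟨(((g⁻¹ : GL (Fin n) F) : Matrix (Fin n) (Fin n) F)ᵀ).submatrix Fin.rev Fin.rev,
   ((g : Matrix (Fin n) (Fin n) F)ᵀ).submatrix Fin.rev Fin.rev, by
    have h : ((g : Matrix (Fin n) (Fin n) F) * ((g⁻¹ : GL (Fin n) F) : Matrix (Fin n) (Fin n) F)) = 1 := by
      rw [← Units.val_mul, mul_inv_cancel]; rfl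
    have e : (((g⁻¹ : GL (Fin n) F) : Matrix (Fin n) (Fin n) F)ᵀ * (g : Matrix (Fin n) (Fin n) F)ᵀ) = 1 := by
      rw [← Matrix.transpose_mul, h, Matrix.transpose_one]
    have e2 := Matrix.submatrix_mul_equiv (((g⁻¹ : GL (Fin n) F) : Matrix (Fin n) (Fin n) F)ᵀ)
      ((g : Matrix (Fin n) (Fin n) F)ᵀ) Fin.rev Fin.revPerm Fin.rev
    rw [e] at e2
    exact e2.trans (Matrix.submatrix_one_equiv Fin.revPerm), by
    have h : (((g⁻¹ : GL (Fin n) F) : Matrix (Fin n) (Fin n) F) * (g : Matrix (Fin n) (Fin n) F)) = 1 := by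
      rw [← Units.val_mul, inv_mul_cancel]; rfl
    have e : ((g : Matrix (Fin n) (Fin n) F)ᵀ * ((g⁻¹ : GL (Fin n) F) : Matrix (Fin n) (Fin n) F)ᵀ) = 1 := by
      rw [← Matrix.transpose_mul, h, Matrix.transpose_one]
    have e2 := Matrix.submatrix_mul_equiv ((g : Matrix (Fin n) (Fin n) F)ᵀ)
      (((g⁻¹ : GL (Fin n) F) : Matrix (Fin n) (Fin n) F)ᵀ) Fin.rev Fin.revPerm Fin.rev
    rw [e] at e2
    exact e2.trans (Matrix.submatrix_one_equiv Fin.revPerm)⟩

theorem theta_apply {n : ℕ} (g : GL (Fin n) F) (i j : Fin n) :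
    (theta g : Matrix (Fin n) (Fin n) F) i j =
      ((g⁻¹ : GL (Fin n) F) : Matrix (Fin n) (Fin n) F) (Fin.rev j) (Fin.rev i) := rfl

theorem theta_inv_apply {n : ℕ} (g : GL (Fin n) F) (i j : Fin n) :
    (((theta g)⁻¹ : GL (Fin n) F) : Matrix (Fin n) (Fin n) F) i j =
      (g : Matrix (Fin n) (Fin n) F) (Fin.rev j) (Fin.rev i) := rfl

theorem theta_theta {n : ℕ} (g : GL (Fin n) F) : theta (theta g) = g := by
  apply Units.ext
  ext i j
  rw [theta_apply, theta_inv_apply, Fin.rev_rev, Fin.rev_rev]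

theorem theta_mul {n : ℕ} (g h : GL (Fin n) F) : theta (g * h) = theta g * theta h := by
  apply Units.ext
  ext i j
  rw [Units.val_mul, Matrix.mul_apply, theta_apply, _root_.mul_inv_rev, Units.val_mul, Matrix.mul_apply]
  rw [← Equiv.sum_comp Fin.revPerm]
  apply Finset.sum_congr rfl
  intro l _
  rw [theta_apply, theta_apply, mul_comm]
  rfl

theorem theta_mem_iff (n k : ℕ) (hk : k ≤ n) (g : GL (Fin n) F) :
    theta g ∈ P F n (n - k) ↔ g ∈ P F n k := by
  rw [← inv_mem_iff (x := g), mem_P_iff n k hk, mem_P_iff n (n - k) (Nat.sub_le n k)]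
  constructor
  · intro h i j hi hj
    have := h (Fin.rev j) (Fin.rev i) (by rw [Fin.val_rev]; omega)
      (by rw [Fin.val_rev]; have := i.2; omega)
    rw [theta_apply, Fin.rev_rev, Fin.rev_rev] at this
    exact this
  · intro h i j hi hj
    rw [theta_apply]
    exact h _ _ (by rw [Fin.val_rev]; omega) (by rw [Fin.val_rev]; have := i.2; omega)

/-- the two parabolics are isomorphic -/
def parEquiv (n k : ℕ) (hk : k ≤ n) : ↥(P F n k) ≃* ↥(P F n (n - k)) where
  toFun g := ⟨theta g.1, (theta_mem_iff n k hk g.1).mpr g.2⟩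
  invFun g := ⟨theta g.1, by
    have := (theta_mem_iff (F := F) n (n - k) (Nat.sub_le n k) g.1).mpr g.2
    rwa [Nat.sub_sub_self hk] at this⟩
  left_inv g := Subtype.ext (theta_theta _)
  right_inv g := Subtype.ext (theta_theta _)
  map_mul' g h := Subtype.ext (theta_mul _ _)

/-- elementary transvections -/
noncomputable def E {n : ℕ} (a b : Fin n) (hab : a ≠ b) : GL (Fin n) F :=
  Matrix.GeneralLinearGroup.mkOfDetNeZero (Matrix.transvection a b (1 : F))
    (by rw [Matrix.det_transvection_of_ne a b hab]; exact one_ne_zero)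

theorem E_val {n : ℕ} (a b : Fin n) (hab : a ≠ b) :
    ((E a b hab : GL (Fin n) F) : Matrix (Fin n) (Fin n) F) = 1 + Matrix.single a b (1 : F) := rfl

theorem E_mem (n j : ℕ) (hj : j ≤ n) (a b : Fin n) (hab : a ≠ b)
    (h : (a : ℕ) < j ∨ j ≤ (b : ℕ)) : (E a b hab : GL (Fin n) F) ∈ P F n j := by
  rw [mem_P_iff n j hj]
  intro i l hi hl
  rw [E_val, Matrix.add_apply, Matrix.one_apply_ne (by intro h'; rw [h'] at hi; omega),
    Matrix.single_apply, zero_add, if_neg]
  rintro ⟨rfl, rfl⟩
  omega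

theorem E_mulVec {n : ℕ} (a b : Fin n) (hab : a ≠ b) (v : Fin n → F) :
    ((E a b hab : GL (Fin n) F) : Matrix (Fin n) (Fin n) F) *ᵥ v = v + v b • Pi.single a (1 : F) := by
  rw [E_val, Matrix.add_mulVec, Matrix.one_mulVec, Matrix.single_mulVec]
  congr 1
  funext i
  by_cases hi : i = a
  · subst hi; simp
  · simp [hi]

theorem mem_of_basis {n : ℕ} (W : Submodule F (Fin n → F)) (v : Fin n → F)
    (h : ∀ a, v a = 0 ∨ Pi.single a (1 : F) ∈ W) : v ∈ W := by
  rw [pi_eq_sum_univ' v]
  apply Submodule.sum_mem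
  intro a _
  rcases h a with h0 | h1
  · rw [h0, zero_smul]; exact W.zero_mem
  · exact W.smul_mem _ h1

/-- the only subspaces invariant under the parabolic `P_j` are `0`, the `j`-th coordinate
subspace, and everything. -/
theorem trichotomy (n j : ℕ) (hj : j ≤ n) (W : Submodule F (Fin n → F))
    (hW : ∀ p ∈ P F n j, ∀ v ∈ W, (p : Matrix (Fin n) (Fin n) F) *ᵥ v ∈ W) :
    W = ⊥ ∨ (∀ v, v ∈ W ↔ ∀ i : Fin n, j ≤ (i : ℕ) → v i = 0) ∨ W = ⊤ := by
  classical
  -- key step
  have key : ∀ w ∈ W, ∀ a b : Fin n, a ≠ b → ((a : ℕ) < j ∨ j ≤ (b : ℕ)) → w b ≠ 0 →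
      Pi.single a (1 : F) ∈ W := by
    intro w hw a b hab hc hwb
    have h1 := hW _ (E_mem n j hj a b hab hc) w hw
    rw [E_mulVec] at h1
    have h2 := W.sub_mem h1 hw
    rw [add_sub_cancel_left] at h2
    have h3 := W.smul_mem (w b)⁻¹ h2
    rwa [smul_smul, inv_mul_cancel₀ hwb, one_smul] at h3
  have key2 : ∀ w ∈ W, ∀ b : Fin n, w b ≠ 0 →
      (∀ a, a ≠ b → (w a = 0 ∨ Pi.single a (1 : F) ∈ W)) → Pi.single b (1 : F) ∈ W := by
    intro w hw b hwb hall
    have h1 : w - w b • Pi.single b (1 : F) ∈ W := by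
      apply mem_of_basis
      intro a
      by_cases hab : a = b
      · left; subst hab; simp
      · rcases hall a hab with h0 | h1
        · left; simp [h0, hab]
        · right; exact h1
    have h2 := W.sub_mem hw h1
    rw [sub_sub_cancel] at h2
    have h3 := W.smul_mem (w b)⁻¹ h2
    rwa [smul_smul, inv_mul_cancel₀ hwb, one_smul] at h3
  by_cases hcase : ∃ w ∈ W, ∃ b : Fin n, j ≤ (b : ℕ) ∧ w b ≠ 0
  · right; right
    obtain ⟨w, hw, b, hb, hwb⟩ := hcase
    have hall : ∀ a, a ≠ b → Pi.single a (1 : F) ∈ W :=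
      fun a hab => key w hw a b hab (Or.inr hb) hwb
    have hb' : Pi.single b (1 : F) ∈ W := key2 w hw b hwb (fun a hab => Or.inr (hall a hab))
    rw [eq_top_iff]
    intro v _
    apply mem_of_basis
    intro a
    right
    by_cases hab : a = b
    · subst hab; exact hb'
    · exact hall a hab
  · push Not at hcase
    by_cases hbot : W = ⊥
    · left; exact hbot
    · right; left
      obtain ⟨w, hw, hw0⟩ := (Submodule.ne_bot_iff W).mp hbot
      obtain ⟨b, hwb⟩ : ∃ b, w b ≠ 0 := by
        by_contra hcon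
        push Not at hcon
        exact hw0 (funext hcon)
      have hbj : (b : ℕ) < j := by
        by_contra hbj
        exact hwb (hcase w hw b (by omega))
      have hall : ∀ a : Fin n, (a : ℕ) < j → a ≠ b → Pi.single a (1 : F) ∈ W :=
        fun a ha hab => key w hw a b hab (Or.inl ha) hwb
      have hb' : Pi.single b (1 : F) ∈ W := by
        apply key2 w hw b hwb
        intro a hab
        by_cases ha : (a : ℕ) < j
        · right; exact hall a ha hab
        · left; exact hcase w hw a (by omega)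
      intro v
      constructor
      · intro hv i hi
        exact hcase v hv i hi
      · intro hv
        apply mem_of_basis
        intro a
        by_cases ha : (a : ℕ) < j
        · right
          by_cases hab : a = b
          · subst hab; exact hb'
          · exact hall a ha hab
        · left; exact hv a (by omega)

/-- the coordinate subspace is in bijection with `Fin j → F`. -/
def SEquiv (n j : ℕ) (hj : j ≤ n) :
    {v : Fin n → F // ∀ i : Fin n, j ≤ (i : ℕ) → v i = 0} ≃ (Fin j → F) where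
  toFun v := fun a => v.1 (idx n j hj (Sum.inl a))
  invFun w := ⟨fun i => Sum.elim w (fun _ => 0) ((idx n j hj).symm i), by
      rw [mem_S_iff n j hj]; intro b; simp⟩
  left_inv v := by
    apply Subtype.ext; funext i
    obtain ⟨x, rfl⟩ := (idx n j hj).surjective i
    cases x with
    | inl a => simp
    | inr b => simp; exact ((mem_S_iff n j hj v.1).mp v.2 b).symm
  right_inv w := by funext a; simp

theorem card_S [Finite F] (n j : ℕ) (hj : j ≤ n) :
    Nat.card {v : Fin n → F // ∀ i : Fin n, j ≤ (i : ℕ) → v i = 0} = Nat.card F ^ j := by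
  rw [Nat.card_congr (SEquiv n j hj), Nat.card_fun, Nat.card_fin]

end Cfsg.Agent.Lib_helper4_GLPar2
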