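import Mathlib
import Cfsg.Agent.Lib_helper4_DihHom
import Cfsg.Agent.Lib_helper4_GL2Syl
import Cfsg.Agent.Lib_helper4_SL2Quat

set_option autoImplicit false

/-! The isometry group of the hyperbolic plane over a finite field is dihedral of order `2(q-1)`. -/

namespace Cfsg.Agent.Lib_helper4_GO2Plus
open Matrix Cfsg.Agent.Lib_helper4_GL2Syl Cfsg.Agent.Lib_helper4_DihHom Cfsg.Agent.Lib_helper4_QuatHom

variable {F : Type*} [Field F]

/-- The hyperbolic form on `F^2`. -/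
def Qp (w : Fin 2 → F) : F := w 0 * w 1

lemma mulVec_entries (g : GL (Fin 2) F) (v : Fin 2 → F) (i : Fin 2) :
    ((g : Matrix (Fin 2) (Fin 2) F) *ᵥ v) i
      = (g : Matrix (Fin 2) (Fin 2) F) i 0 * v 0 + (g : Matrix (Fin 2) (Fin 2) F) i 1 * v 1 := by
  simp [Matrix.mulVec, dotProduct, Fin.sum_univ_two]

lemma mem_iff (g : GL (Fin 2) F) :
    g ∈ Cfsg.isometryGroup F (Qp : (Fin 2 → F) → F) ↔
      ∀ v : Fin 2 → F, ((g : Matrix (Fin 2) (Fin 2) F) 0 0 * v 0 + (g : Matrix (Fin 2) (Fin 2) F) 0 1 * v 1)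
        * ((g : Matrix (Fin 2) (Fin 2) F) 1 0 * v 0 + (g : Matrix (Fin 2) (Fin 2) F) 1 1 * v 1)
          = v 0 * v 1 := by
  rw [Cfsg.Agent.Lib_helper4_Quad2.mem_isometryGroup_iff]
  constructor
  · intro h v
    have := h v
    unfold Qp at this
    rwa [mulVec_entries, mulVec_entries] at this
  · intro h v
    unfold Qp
    rw [mulVec_entries, mulVec_entries]
    exact h v

/-- The diagonal element. -/
def dgl (t : Fˣ) : GL (Fin 2) F :=
  ⟨!![(t : F), 0; 0, ((t⁻¹ : Fˣ) : F)], !![((t⁻¹ : Fˣ) : F), 0; 0, (t : F)],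
    by simp [Matrix.mul_fin_two, Matrix.one_fin_two],
    by simp [Matrix.mul_fin_two, Matrix.one_fin_two]⟩

lemma dgl_00 (t : Fˣ) : ((dgl t : GL (Fin 2) F) : Matrix (Fin 2) (Fin 2) F) 0 0 = (t : F) := rfl
lemma dgl_01 (t : Fˣ) : ((dgl t : GL (Fin 2) F) : Matrix (Fin 2) (Fin 2) F) 0 1 = 0 := rfl
lemma dgl_10 (t : Fˣ) : ((dgl t : GL (Fin 2) F) : Matrix (Fin 2) (Fin 2) F) 1 0 = 0 := rfl
lemma dgl_11 (t : Fˣ) : ((dgl t : GL (Fin 2) F) : Matrix (Fin 2) (Fin 2) F) 1 1 = ((t⁻¹ : Fˣ) : F) := rfl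

/-- The swap. -/
def swl : GL (Fin 2) F :=
  ⟨!![0, 1; 1, 0], !![0, 1; 1, 0],
    by simp [Matrix.mul_fin_two, Matrix.one_fin_two],
    by simp [Matrix.mul_fin_two, Matrix.one_fin_two]⟩

lemma swl_00 : ((swl : GL (Fin 2) F) : Matrix (Fin 2) (Fin 2) F) 0 0 = 0 := rfl
lemma swl_01 : ((swl : GL (Fin 2) F) : Matrix (Fin 2) (Fin 2) F) 0 1 = 1 := rfl
lemma swl_10 : ((swl : GL (Fin 2) F) : Matrix (Fin 2) (Fin 2) F) 1 0 = 1 := rfl
lemma swl_11 : ((swl : GL (Fin 2) F) : Matrix (Fin 2) (Fin 2) F) 1 1 = 0 := rfl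

lemma one_entries : ((1 : GL (Fin 2) F) : Matrix (Fin 2) (Fin 2) F) 0 0 = 1 ∧
    ((1 : GL (Fin 2) F) : Matrix (Fin 2) (Fin 2) F) 0 1 = 0 ∧
    ((1 : GL (Fin 2) F) : Matrix (Fin 2) (Fin 2) F) 1 0 = 0 ∧
    ((1 : GL (Fin 2) F) : Matrix (Fin 2) (Fin 2) F) 1 1 = 1 := by
  simp

lemma dgl_mem (t : Fˣ) : dgl t ∈ Cfsg.isometryGroup F (Qp : (Fin 2 → F) → F) := by
  rw [mem_iff]
  intro v
  rw [dgl_00, dgl_01, dgl_10, dgl_11]
  have := t.mul_inv
  linear_combination (v 0 * v 1) * this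

lemma swl_mem : swl ∈ Cfsg.isometryGroup F (Qp : (Fin 2 → F) → F) := by
  rw [mem_iff]
  intro v
  rw [swl_00, swl_01, swl_10, swl_11]
  ring

/-- The diagonal torus as a homomorphism into the isometry group. -/
def Dhom : Fˣ →* Cfsg.isometryGroup F (Qp : (Fin 2 → F) → F) where
  toFun t := ⟨dgl t, dgl_mem t⟩
  map_one' := by
    obtain ⟨o1, o2, o3, o4⟩ := one_entries (F := F)
    apply Subtype.ext
    apply ext2
    · rw [dgl_00]; simp
    · rw [dgl_01]; simp
    · rw [dgl_10]; simp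
    · rw [dgl_11]; simp
  map_mul' := by
    intro s t
    apply Subtype.ext
    show dgl (s * t) = dgl s * dgl t
    apply ext2 <;> rw [mul_entries] <;> simp only [dgl_00, dgl_01, dgl_10, dgl_11] <;> simp [mul_comm]

lemma Dhom_injective : Function.Injective (Dhom : Fˣ →* Cfsg.isometryGroup F (Qp : (Fin 2 → F) → F)) := by
  intro s t h
  have h1 := congrArg (fun g : Cfsg.isometryGroup F (Qp : (Fin 2 → F) → F) =>
    ((g : GL (Fin 2) F) : Matrix (Fin 2) (Fin 2) F) 0 0) h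
  apply Units.ext
  exact h1

/-- Structure of the isometries. -/
lemma structure_iso (g : GL (Fin 2) F) (hg : g ∈ Cfsg.isometryGroup F (Qp : (Fin 2 → F) → F)) :
    ∃ t : Fˣ, g = dgl t ∨ g = swl * dgl t := by
  rw [mem_iff] at hg
  have h1 := hg ![1, 0]
  have h2 := hg ![0, 1]
  have h3 := hg ![1, 1]
  simp only [Matrix.cons_val_zero, Matrix.cons_val_one, mul_one, mul_zero, add_zero, zero_add] at h1 h2 h3
  set a := (g : Matrix (Fin 2) (Fin 2) F) 0 0 with ha
  set b := (g : Matrix (Fin 2) (Fin 2) F) 0 1 with hb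
  set c := (g : Matrix (Fin 2) (Fin 2) F) 1 0 with hc
  set d := (g : Matrix (Fin 2) (Fin 2) F) 1 1 with hd
  have h4 : a * d + b * c = 1 := by linear_combination h3 - h1 - h2
  by_cases hc0 : c = 0
  · have had : a * d = 1 := by rw [hc0] at h4; linear_combination h4
    have hd0 : d ≠ 0 := right_ne_zero_of_mul_eq_one had
    have ha0 : a ≠ 0 := left_ne_zero_of_mul_eq_one had
    have hb0 : b = 0 := by
      rcases mul_eq_zero.mp h2 with h | h
      · exact h
      · exact absurd h hd0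
    refine ⟨Units.mk0 a ha0, Or.inl ?_⟩
    apply ext2
    · rw [dgl_00]; rfl
    · rw [dgl_01]; exact hb0
    · rw [dgl_10]; exact hc0
    · rw [dgl_11]
      show d = ((Units.mk0 a ha0)⁻¹ : Fˣ)
      rw [Units.val_inv_eq_inv_val, Units.val_mk0]
      exact eq_inv_of_mul_eq_one_right had
  · have ha0 : a = 0 := by
      rcases mul_eq_zero.mp h1 with h | h
      · exact h
      · exact absurd h hc0
    have hbc : b * c = 1 := by rw [ha0] at h4; linear_combination h4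
    have hb0 : b ≠ 0 := left_ne_zero_of_mul_eq_one hbc
    have hd0 : d = 0 := by
      rcases mul_eq_zero.mp h2 with h | h
      · exact absurd h hb0
      · exact h
    refine ⟨Units.mk0 c hc0, Or.inr ?_⟩
    apply ext2 <;> rw [mul_entries] <;> simp only [dgl_00, dgl_01, dgl_10, dgl_11, swl_00, swl_01, swl_10, swl_11]
    · rw [← ha, ha0]; ring
    · rw [← hb, Units.val_inv_eq_inv_val, Units.val_mk0]
      rw [zero_mul, zero_add, one_mul]
      exact eq_inv_of_mul_eq_one_left hbc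
    · rw [← hc, Units.val_mk0]; ring
    · rw [← hd, hd0]; ring

/-- `GO⁺_2(q)` (in coordinates `Fin 2`) is dihedral of order `2(q-1)`. -/
theorem dihedral [Fintype F] {q : ℕ} (hF : Fintype.card F = q) :
    Nonempty (Cfsg.isometryGroup F (Qp : (Fin 2 → F) → F) ≃* DihedralGroup (q - 1)) := by
  have hq : 1 < q := by rw [← hF]; exact Fintype.one_lt_card
  haveI : NeZero (q - 1) := ⟨by omega⟩
  have hcard : Nat.card Fˣ = q - 1 := by rw [Nat.card_units, Nat.card_eq_fintype_card, hF]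
  obtain ⟨ζ, hζ⟩ := exists_orderOf_eq (C := Fˣ) (q - 1) (by rw [hcard])
  have hpow : ∀ t : Fˣ, ∃ k : ℕ, ζ ^ k = t := by
    intro t
    have htop : Subgroup.zpowers ζ = ⊤ := by
      apply Subgroup.eq_top_of_card_eq
      rw [Nat.card_zpowers, hζ, hcard]
    have ht : t ∈ Subgroup.zpowers ζ := by rw [htop]; exact Subgroup.mem_top t
    rw [← mem_powers_iff_mem_zpowers] at ht
    exact ht
  set x : Cfsg.isometryGroup F (Qp : (Fin 2 → F) → F) := Dhom ζ with hx
  set y : Cfsg.isometryGroup F (Qp : (Fin 2 → F) → F) := ⟨swl, swl_mem⟩ with hy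
  have hxk : ∀ k : ℕ, x ^ k = Dhom (ζ ^ k) := fun k => (map_pow Dhom ζ k).symm
  apply dih_equiv (q - 1) x y
  · rw [hx, orderOf_injective Dhom Dhom_injective, hζ]
  · apply Cfsg.Agent.Lib_helper4_SL2Quat.conj_of_mul
    apply Subtype.ext
    show dgl ζ * swl * dgl ζ = swl
    have h1 := ζ.mul_inv
    have h2 := ζ.inv_mul
    apply ext2 <;> simp only [mul_entries, dgl_00, dgl_01, dgl_10, dgl_11, swl_00, swl_01, swl_10, swl_11]
    · ring
    · linear_combination h1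
    · linear_combination h2
    · ring
  · apply Subtype.ext
    show swl * swl = 1
    obtain ⟨o1, o2, o3, o4⟩ := one_entries (F := F)
    apply ext2 <;> simp only [mul_entries, swl_00, swl_01, swl_10, swl_11, o1, o2, o3, o4] <;> ring
  · intro k hk
    rw [hxk] at hk
    have h1 := congrArg (fun g : Cfsg.isometryGroup F (Qp : (Fin 2 → F) → F) =>
      ((g : GL (Fin 2) F) : Matrix (Fin 2) (Fin 2) F) 0 1) hk
    have h2 : (1 : F) = 0 := h1
    exact one_ne_zero h2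
  · rintro ⟨g, hg⟩
    obtain ⟨t, ht | ht⟩ := structure_iso g hg
    · obtain ⟨k, hk⟩ := hpow t
      refine ⟨k, Or.inl ?_⟩
      rw [hxk, hk]
      exact Subtype.ext ht
    · obtain ⟨k, hk⟩ := hpow t
      refine ⟨k, Or.inr ?_⟩
      rw [hxk, hk]
      exact Subtype.ext ht

end Cfsg.Agent.Lib_helper4_GO2Plus
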