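import Mathlib
import Cfsg.Agent.Lib_helper4_DihHom
import Cfsg.Agent.Lib_helper4_GL2Syl
import Cfsg.Agent.Lib_helper4_SL2Quat
import Cfsg.Agent.Lib_helper4_SL2Cyc
import Cfsg.Agent.Lib_helper4_SymBasis
import Cfsg.Agent.Lib_helper4_GO2Plus

set_option autoImplicit false

/-! The isometry group of an anisotropic binary quadratic form over a finite field is dihedral of
order `2(q+1)`. -/

namespace Cfsg.Agent.Lib_helper4_GO2Minus
open Matrix Cfsg.Agent.Lib_helper4_GL2Syl Cfsg.Agent.Lib_helper4_DihHom Cfsg.Agent.Lib_helper4_QuatHom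
  Cfsg.Agent.Lib_helper4_SL2Cyc

variable {F : Type*} [Field F]

/-- The binary form `u² + a u v + b v²`. -/
def qf (a b u v : F) : F := u ^ 2 + a * u * v + b * v ^ 2

lemma qf_mul (a b x y u v : F) :
    qf a b (x * u - b * y * v) (y * u + (x + a * y) * v) = qf a b x y * qf a b u v := by
  unfold qf; ring

/-- Non-vanishing of the discriminant of an anisotropic form. -/
lemma disc_ne_zero [Finite F] (a b : F)
    (hab : ∀ z₁ z₂ : F, z₁ ^ 2 + a * z₁ * z₂ + b * z₂ ^ 2 = 0 → z₁ = 0 ∧ z₂ = 0) :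
    a ^ 2 - 4 * b ≠ 0 := by
  intro h
  by_cases h2 : (2 : F) = 0
  · haveI : Fintype F := Fintype.ofFinite F
    have h4 : (4 : F) = 0 := by
      have : (4 : F) = 2 * 2 := by norm_num
      rw [this, h2, mul_zero]
    rw [h4, zero_mul, sub_zero] at h
    have ha : a = 0 := pow_eq_zero_iff (by norm_num) |>.mp h
    have hch : ringChar F = 2 := CharP.ringChar_of_prime_eq_zero Nat.prime_two (by exact_mod_cast h2)
    obtain ⟨c, hc⟩ := FiniteField.isSquare_of_char_two hch b
    have h5 := hab c 1 (by rw [ha, hc]; linear_combination (c * c) * h2)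
    exact one_ne_zero h5.2
  · have h5 := hab (-a) 2 (by linear_combination -h)
    exact h2 h5.2

/-- A non-degenerate binary form over a finite field represents every element. -/
lemma universal [Finite F] (a b : F)
    (hab : ∀ z₁ z₂ : F, z₁ ^ 2 + a * z₁ * z₂ + b * z₂ ^ 2 = 0 → z₁ = 0 ∧ z₂ = 0) (c : F) (hc : c ≠ 0) :
    ∃ x y : F, qf a b x y = c := by
  have hd := disc_ne_zero a b hab
  by_cases h2 : (2 : F) = 0
  · haveI : Fintype F := Fintype.ofFinite F
    have hch : ringChar F = 2 := CharP.ringChar_of_prime_eq_zero Nat.prime_two (by exact_mod_cast h2)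
    obtain ⟨r, hr⟩ := FiniteField.isSquare_of_char_two hch c
    exact ⟨r, 0, by unfold qf; rw [hr]; ring⟩
  · have h4 : (4 : F) ≠ 0 := by
      have : (4 : F) = 2 * 2 := by norm_num
      rw [this]
      exact mul_ne_zero h2 h2
    have hb' : (b - a ^ 2 / 4) / c ≠ 0 := by
      apply div_ne_zero _ hc
      intro h
      apply hd
      field_simp at h
      linear_combination -h
    obtain ⟨X, Y, hXY⟩ := Cfsg.Agent.Lib_helper4_SymBasis.exists_sq_sum h2 (1 / c) ((b - a ^ 2 / 4) / c)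
      (one_div_ne_zero hc) hb'
    refine ⟨X - a / 2 * Y, Y, ?_⟩
    unfold qf
    field_simp at hXY
    field_simp
    linear_combination hXY

/-- The number of solutions of `qf = 1` is `q + 1`. -/
lemma card_circle [Fintype F] (a b : F)
    (hab : ∀ z₁ z₂ : F, z₁ ^ 2 + a * z₁ * z₂ + b * z₂ ^ 2 = 0 → z₁ = 0 ∧ z₂ = 0) :
    Nat.card {p : F × F // qf a b p.1 p.2 = 1} = Fintype.card F + 1 := by
  classical
  set q := Fintype.card F with hq
  have hq1 : 1 < q := Fintype.one_lt_card
  -- fibres over nonzero values are equinumerous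
  have hfib : ∀ c : F, c ≠ 0 → Nat.card {p : F × F // qf a b p.1 p.2 = c}
      = Nat.card {p : F × F // qf a b p.1 p.2 = 1} := by
    intro c hc
    obtain ⟨x, y, hxy⟩ := universal a b hab c hc
    symm
    apply Nat.card_congr
    refine
      { toFun := fun p => ⟨(x * p.1.1 - b * y * p.1.2, y * p.1.1 + (x + a * y) * p.1.2), by
          show qf a b (x * p.1.1 - b * y * p.1.2) (y * p.1.1 + (x + a * y) * p.1.2) = c
          rw [qf_mul, hxy, p.2, mul_one]⟩
        invFun := fun p => ⟨(c⁻¹ * ((x + a * y) * p.1.1 + b * y * p.1.2), c⁻¹ * (-y * p.1.1 + x * p.1.2)), by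
          show qf a b (c⁻¹ * ((x + a * y) * p.1.1 + b * y * p.1.2)) (c⁻¹ * (-y * p.1.1 + x * p.1.2)) = 1
          have h1 : qf a b (c⁻¹ * ((x + a * y) * p.1.1 + b * y * p.1.2)) (c⁻¹ * (-y * p.1.1 + x * p.1.2))
              = c⁻¹ ^ 2 * (qf a b x y * qf a b p.1.1 p.1.2) := by
            unfold qf; ring
          rw [h1, hxy, p.2]
          field_simp⟩
        left_inv := ?_
        right_inv := ?_ }
    · rintro ⟨⟨u, v⟩, hp⟩
      apply Subtype.ext
      have hxy' : x ^ 2 + a * x * y + b * y ^ 2 = c := hxy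
      apply Prod.ext
      · show c⁻¹ * ((x + a * y) * (x * u - b * y * v) + b * y * (y * u + (x + a * y) * v)) = u
        field_simp
        linear_combination u * hxy'
      · show c⁻¹ * (-y * (x * u - b * y * v) + x * (y * u + (x + a * y) * v)) = v
        field_simp
        linear_combination v * hxy'
    · rintro ⟨⟨u, v⟩, hp⟩
      apply Subtype.ext
      have hxy' : x ^ 2 + a * x * y + b * y ^ 2 = c := hxy
      apply Prod.ext
      · show x * (c⁻¹ * ((x + a * y) * u + b * y * v)) - b * y * (c⁻¹ * (-y * u + x * v)) = u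
        field_simp
        linear_combination u * hxy'
      · show y * (c⁻¹ * ((x + a * y) * u + b * y * v)) + (x + a * y) * (c⁻¹ * (-y * u + x * v)) = v
        field_simp
        linear_combination v * hxy'
  have h0 : Nat.card {p : F × F // qf a b p.1 p.2 = 0} = 1 := by
    rw [Nat.card_eq_one_iff_unique]
    refine ⟨⟨?_⟩, ⟨⟨(0, 0), by unfold qf; ring⟩⟩⟩
    rintro ⟨⟨u, v⟩, hu⟩ ⟨⟨u', v'⟩, hu'⟩
    obtain ⟨h1, h2⟩ := hab u v hu
    obtain ⟨h3, h4⟩ := hab u' v' hu'
    apply Subtype.ext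
    simp only [Prod.mk.injEq]
    exact ⟨h1.trans h3.symm, h2.trans h4.symm⟩
  have htot : Fintype.card (F × F) = ∑ c : F, Fintype.card {p : F × F // qf a b p.1 p.2 = c} := by
    rw [← Fintype.card_sigma]
    exact Fintype.card_congr (Equiv.sigmaFiberEquiv (fun p : F × F => qf a b p.1 p.2)).symm
  rw [Fintype.card_prod, ← Finset.add_sum_erase Finset.univ _ (Finset.mem_univ (0 : F))] at htot
  have hsum : ∑ c ∈ Finset.univ.erase (0 : F), Fintype.card {p : F × F // qf a b p.1 p.2 = c}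
      = (q - 1) * Nat.card {p : F × F // qf a b p.1 p.2 = 1} := by
    rw [Finset.sum_congr rfl (fun c hc => by
      rw [← Nat.card_eq_fintype_card, hfib c (Finset.ne_of_mem_erase hc)]),
      Finset.sum_const, Finset.card_erase_of_mem (Finset.mem_univ _), Finset.card_univ, smul_eq_mul]
  have h0' : Fintype.card {p : F × F // qf a b p.1 p.2 = 0} = 1 := by
    rw [← Nat.card_eq_fintype_card]; exact h0
  rw [hsum, h0'] at htot
  have htot' : q * q = 1 + (q - 1) * Nat.card {p : F × F // qf a b p.1 p.2 = 1} := htot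
  obtain ⟨r, hr⟩ : ∃ r, q = r + 1 := ⟨q - 1, by omega⟩
  have hr1 : 1 ≤ r := by omega
  have e3 : q - 1 = r := by omega
  rw [e3, hr] at htot'
  rw [hr]
  have : r * Nat.card {p : F × F // qf a b p.1 p.2 = 1} = r * (r + 1 + 1) := by
    have e : (r + 1) * (r + 1) = 1 + r * (r + 1 + 1) := by ring
    omega
  exact Nat.eq_of_mul_eq_mul_left (by omega) this

/-! ### Matrices -/

/-- The anisotropic form on `F^2`. -/
def Qm (a b : F) (w : Fin 2 → F) : F := w 0 ^ 2 + a * w 0 * w 1 + b * w 1 ^ 2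

lemma mem_iff (a b : F) (g : GL (Fin 2) F) :
    g ∈ Cfsg.isometryGroup F (Qm a b) ↔
      ∀ v : Fin 2 → F, qf a b ((g : Matrix (Fin 2) (Fin 2) F) 0 0 * v 0 + (g : Matrix (Fin 2) (Fin 2) F) 0 1 * v 1)
        ((g : Matrix (Fin 2) (Fin 2) F) 1 0 * v 0 + (g : Matrix (Fin 2) (Fin 2) F) 1 1 * v 1)
          = qf a b (v 0) (v 1) := by
  rw [Cfsg.Agent.Lib_helper4_Quad2.mem_isometryGroup_iff]
  constructor
  · intro h v
    have := h v
    unfold Qm at this
    rwa [Cfsg.Agent.Lib_helper4_GO2Plus.mulVec_entries, Cfsg.Agent.Lib_helper4_GO2Plus.mulVec_entries] at this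
  · intro h v
    unfold Qm
    rw [Cfsg.Agent.Lib_helper4_GO2Plus.mulVec_entries, Cfsg.Agent.Lib_helper4_GO2Plus.mulVec_entries]
    exact h v

/-- The matrix of multiplication by `u + v Z`. -/
def Ml (a b u v : F) (h : qf a b u v = 1) : GL (Fin 2) F :=
  ⟨!![u, -(b * v); v, u + a * v], !![u + a * v, b * v; -v, u],
    by
      have h' : u ^ 2 + a * u * v + b * v ^ 2 = 1 := h
      ext i j
      fin_cases i <;> fin_cases j <;> simp [Matrix.mul_apply, Fin.sum_univ_two]
      · linear_combination h'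
      · ring
      · ring
      · linear_combination h',
    by
      have h' : u ^ 2 + a * u * v + b * v ^ 2 = 1 := h
      ext i j
      fin_cases i <;> fin_cases j <;> simp [Matrix.mul_apply, Fin.sum_univ_two]
      · linear_combination h'
      · ring
      · ring
      · linear_combination h'⟩

lemma Ml_00 (a b u v : F) (h : qf a b u v = 1) :
    ((Ml a b u v h : GL (Fin 2) F) : Matrix (Fin 2) (Fin 2) F) 0 0 = u := rfl
lemma Ml_01 (a b u v : F) (h : qf a b u v = 1) :
    ((Ml a b u v h : GL (Fin 2) F) : Matrix (Fin 2) (Fin 2) F) 0 1 = -(b * v) := rfl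
lemma Ml_10 (a b u v : F) (h : qf a b u v = 1) :
    ((Ml a b u v h : GL (Fin 2) F) : Matrix (Fin 2) (Fin 2) F) 1 0 = v := rfl
lemma Ml_11 (a b u v : F) (h : qf a b u v = 1) :
    ((Ml a b u v h : GL (Fin 2) F) : Matrix (Fin 2) (Fin 2) F) 1 1 = u + a * v := rfl

/-- The reflection. -/
def sl (a : F) : GL (Fin 2) F :=
  ⟨!![1, a; 0, -1], !![1, a; 0, -1],
    by simp [Matrix.mul_fin_two, Matrix.one_fin_two],
    by simp [Matrix.mul_fin_two, Matrix.one_fin_two]⟩

lemma sl_00 (a : F) : ((sl a : GL (Fin 2) F) : Matrix (Fin 2) (Fin 2) F) 0 0 = 1 := rfl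
lemma sl_01 (a : F) : ((sl a : GL (Fin 2) F) : Matrix (Fin 2) (Fin 2) F) 0 1 = a := rfl
lemma sl_10 (a : F) : ((sl a : GL (Fin 2) F) : Matrix (Fin 2) (Fin 2) F) 1 0 = 0 := rfl
lemma sl_11 (a : F) : ((sl a : GL (Fin 2) F) : Matrix (Fin 2) (Fin 2) F) 1 1 = -1 := rfl

lemma Ml_mem (a b u v : F) (h : qf a b u v = 1) : Ml a b u v h ∈ Cfsg.isometryGroup F (Qm a b) := by
  rw [mem_iff]
  intro w
  rw [Ml_00, Ml_01, Ml_10, Ml_11]
  have := qf_mul a b u v (w 0) (w 1)
  rw [h, one_mul] at this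
  rw [← this]
  congr 1
  ring

lemma sl_mem (a b : F) : sl a ∈ Cfsg.isometryGroup F (Qm a b) := by
  rw [mem_iff]
  intro w
  rw [sl_00, sl_01, sl_10, sl_11]
  unfold qf
  ring

/-- Structure of the isometries. -/
lemma structure_iso [Finite F] (a b : F)
    (hab : ∀ z₁ z₂ : F, z₁ ^ 2 + a * z₁ * z₂ + b * z₂ ^ 2 = 0 → z₁ = 0 ∧ z₂ = 0)
    (g : GL (Fin 2) F) (hg : g ∈ Cfsg.isometryGroup F (Qm a b)) :
    ∃ (u v : F) (h : qf a b u v = 1), g = Ml a b u v h ∨ g = sl a * Ml a b u v h := by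
  have hdisc := disc_ne_zero a b hab
  rw [mem_iff] at hg
  have E1 := hg ![1, 0]
  have E2 := hg ![0, 1]
  have E3 := hg ![1, 1]
  simp only [Matrix.cons_val_zero, Matrix.cons_val_one, mul_one, mul_zero, add_zero, zero_add] at E1 E2 E3
  set x := (g : Matrix (Fin 2) (Fin 2) F) 0 0 with hx
  set β := (g : Matrix (Fin 2) (Fin 2) F) 0 1 with hβ
  set y := (g : Matrix (Fin 2) (Fin 2) F) 1 0 with hy
  set δ' := (g : Matrix (Fin 2) (Fin 2) F) 1 1 with hδ'
  have E1' : qf a b x y = 1 := by rw [E1]; unfold qf; ring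
  unfold qf at E1 E2 E3
  have E1s : x ^ 2 + a * x * y + b * y ^ 2 = 1 := by linear_combination E1
  have E2s : β ^ 2 + a * β * δ' + b * δ' ^ 2 = b := by linear_combination E2
  have E3s : (x + β) ^ 2 + a * (x + β) * (y + δ') + b * (y + δ') ^ 2 = 1 + a + b := by
    linear_combination E3
  set α := (x + a * y) * β + b * y * δ' with hα
  set δ := -y * β + x * δ' with hδ
  have N1 : α ^ 2 + a * α * δ + b * δ ^ 2 = b := by
    linear_combination (β ^ 2 + a * β * δ' + b * δ' ^ 2) * E1s + E2s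
  have N2 : 2 * α + a * δ = a := by linear_combination E3s - E1s - E2s
  have hδ2 : (1 - δ ^ 2) * (a ^ 2 - 4 * b) = 0 := by
    linear_combination 4 * N1 - (2 * α + a + a * δ) * N2
  have hδ3 : (δ - 1) * (δ + 1) = 0 := by
    rcases mul_eq_zero.mp hδ2 with h | h
    · linear_combination -h
    · exact absurd h hdisc
  have hβe : β = x * α - b * y * δ := by linear_combination (-β) * E1s
  have hδe : δ' = y * α + (x + a * y) * δ := by linear_combination (-δ') * E1s
  have hcases : (α = 0 ∧ δ = 1) ∨ (α = a ∧ δ = -1) := by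
    rcases mul_eq_zero.mp hδ3 with h | h
    · have hd1 : δ = 1 := by linear_combination h
      have h2α : 2 * α = 0 := by rw [hd1] at N2; linear_combination N2
      have hαa : α * (α + a) = 0 := by rw [hd1] at N1; linear_combination N1
      rcases mul_eq_zero.mp hαa with h0 | h0
      · exact Or.inl ⟨h0, hd1⟩
      · have hα' : α = -a := by linear_combination h0
        have h2a : 2 * a = 0 := by rw [hα'] at h2α; linear_combination -h2α
        rcases mul_eq_zero.mp h2a with h2 | ha0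
        · right
          refine ⟨by rw [hα']; linear_combination (-a) * h2, by rw [hd1]; linear_combination h2⟩
        · left
          exact ⟨by rw [hα', ha0, neg_zero], hd1⟩
    · have hd1 : δ = -1 := by linear_combination h
      have h2α : 2 * (α - a) = 0 := by rw [hd1] at N2; linear_combination N2
      have hαa : α * (α - a) = 0 := by rw [hd1] at N1; linear_combination N1
      rcases mul_eq_zero.mp hαa with h0 | h0
      · rcases mul_eq_zero.mp h2α with h2 | h3
        · left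
          exact ⟨h0, by rw [hd1]; linear_combination -h2⟩
        · right
          exact ⟨by linear_combination h3, hd1⟩
      · right
        exact ⟨by linear_combination h0, hd1⟩
  rcases hcases with ⟨hα0, hδ1⟩ | ⟨hαa, hδ1⟩
  · refine ⟨x, y, E1', Or.inl ?_⟩
    apply ext2
    · rw [Ml_00]
    · rw [Ml_01, ← hβ, hβe, hα0, hδ1]; ring
    · rw [Ml_10]
    · rw [Ml_11, ← hδ', hδe, hα0, hδ1]; ring
  · have h' : qf a b (x + a * y) (-y) = 1 := by
      unfold qf
      linear_combination E1s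
    refine ⟨x + a * y, -y, h', Or.inr ?_⟩
    apply ext2 <;> rw [mul_entries] <;> simp only [Ml_00, Ml_01, Ml_10, Ml_11, sl_00, sl_01, sl_10, sl_11]
    · rw [← hx]; ring
    · rw [← hβ, hβe, hαa, hδ1]; ring
    · rw [← hy]; ring
    · rw [← hδ', hδe, hαa, hδ1]; ring

/-! ### The rotation subgroup -/

/-- The matrix `Z` with characteristic polynomial `X² - a X + b`. -/
def Zm (a b : F) : Matrix (Fin 2) (Fin 2) F := !![0, -b; 1, a]

lemma Zm_NE (a b : F)
    (hab : ∀ z₁ z₂ : F, z₁ ^ 2 + a * z₁ * z₂ + b * z₂ ^ 2 = 0 → z₁ = 0 ∧ z₂ = 0) :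
    ∀ l : F, l ^ 2 - (Zm a b).trace * l + (Zm a b).det ≠ 0 := by
  intro l hl
  have htr : (Zm a b).trace = a := by simp [Zm, Matrix.trace_fin_two]
  have hdet : (Zm a b).det = b := by simp [Zm, Matrix.det_fin_two]
  rw [htr, hdet] at hl
  have := hab l (-1) (by linear_combination hl)
  have h1 : (1 : F) = 0 := by linear_combination -this.2
  exact one_ne_zero h1

lemma Ml_eq (a b u v : F) (h : qf a b u v = 1) :
    ((Ml a b u v h : GL (Fin 2) F) : Matrix (Fin 2) (Fin 2) F)
      = u • (1 : Matrix (Fin 2) (Fin 2) F) + v • Zm a b := by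
  ext i j
  fin_cases i <;> fin_cases j
  · show u = _
    simp [Zm]
  · show -(b * v) = _
    simp [Zm]
    ring
  · show v = _
    simp [Zm]
  · show u + a * v = _
    simp [Zm]
    ring

lemma D_entries (a b u v : F) :
    (u • (1 : Matrix (Fin 2) (Fin 2) F) + v • Zm a b) 0 0 = u ∧
    (u • (1 : Matrix (Fin 2) (Fin 2) F) + v • Zm a b) 0 1 = -(b * v) ∧
    (u • (1 : Matrix (Fin 2) (Fin 2) F) + v • Zm a b) 1 0 = v ∧
    (u • (1 : Matrix (Fin 2) (Fin 2) F) + v • Zm a b) 1 1 = u + a * v := by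
  refine ⟨?_, ?_, ?_, ?_⟩
  · simp [Zm]
  · simp [Zm]
    ring
  · simp [Zm]
  · simp [Zm]
    ring

/-- A finite group mapping injectively into `F[z]`, `z` without eigenvalues, is cyclic. -/
lemma cyclic_of_hom {H : Type*} [Group H] [Finite H]
    (z : Matrix (Fin 2) (Fin 2) F) (hNE : ∀ l : F, l ^ 2 - z.trace * l + z.det ≠ 0)
    (f : H →* Matrix (Fin 2) (Fin 2) F) (hf : Function.Injective f)
    (hR : ∀ g : H, f g ∈ D z) : IsCyclic H := by
  letI : CommRing (D z) :=
    { (inferInstance : Ring (D z)) with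
      mul_comm := by
        rintro ⟨_, a, b, rfl⟩ ⟨_, c, d, rfl⟩
        apply Subtype.ext
        show (a • (1 : Matrix (Fin 2) (Fin 2) F) + b • z) * (c • (1 : Matrix (Fin 2) (Fin 2) F) + d • z)
          = (c • (1 : Matrix (Fin 2) (Fin 2) F) + d • z) * (a • (1 : Matrix (Fin 2) (Fin 2) F) + b • z)
        simp only [add_mul, mul_add, smul_mul_assoc, mul_smul_comm, one_mul, mul_one]
        module }
  haveI : IsDomain (D z) := by
    haveI : NoZeroDivisors (D z) := by
      constructor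
      intro x y hxy
      by_cases hx : x = 0
      · exact Or.inl hx
      · right
        have hx' : (x : Matrix (Fin 2) (Fin 2) F) ≠ 0 := fun h => hx (Subtype.ext h)
        have hdet := det_ne_zero_of_mem_D z hNE _ x.2 hx'
        have h1 : (x : Matrix (Fin 2) (Fin 2) F) * (y : Matrix (Fin 2) (Fin 2) F) = 0 :=
          congrArg Subtype.val hxy
        have h2 : (y : Matrix (Fin 2) (Fin 2) F) = 0 := by
          have h3 := congrArg (fun M => (x : Matrix (Fin 2) (Fin 2) F)⁻¹ * M) h1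
          simp only [mul_zero] at h3
          rwa [← Matrix.mul_assoc, Matrix.nonsing_inv_mul _ (isUnit_iff_ne_zero.mpr hdet),
            Matrix.one_mul] at h3
        exact Subtype.ext h2
    exact NoZeroDivisors.to_isDomain _
  let f' : H →* D z :=
    { toFun := fun g => ⟨f g, hR g⟩
      map_one' := by
        apply Subtype.ext
        exact map_one f
      map_mul' := by
        intro g h
        apply Subtype.ext
        exact map_mul f g h }
  have hf' : Function.Injective f' := by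
    intro g h hgh
    apply hf
    have h3 : ((f' g : D z) : Matrix (Fin 2) (Fin 2) F) = ((f' h : D z) : Matrix (Fin 2) (Fin 2) F) :=
      congrArg Subtype.val hgh
    exact h3
  exact isCyclic_of_injective_ringHom f' hf'

/-- The rotations: isometries lying in `F[Z]`. -/
def Rsub [Finite F] (a b : F) : Subgroup (Cfsg.isometryGroup F (Qm a b)) where
  carrier := {g | ((g : GL (Fin 2) F) : Matrix (Fin 2) (Fin 2) F) ∈ D (Zm a b)}
  mul_mem' := by
    intro g h hg hh
    show ((g : GL (Fin 2) F) : Matrix (Fin 2) (Fin 2) F) * ((h : GL (Fin 2) F) : Matrix (Fin 2) (Fin 2) F)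
      ∈ D (Zm a b)
    exact (D (Zm a b)).mul_mem hg hh
  one_mem' := (D (Zm a b)).one_mem
  inv_mem' := by
    intro g hg
    have hpos := orderOf_pos g
    have hinv : g⁻¹ = g ^ (orderOf g - 1) := by
      rw [inv_eq_iff_mul_eq_one, ← pow_succ', Nat.sub_add_cancel hpos, pow_orderOf_eq_one]
    show ((g⁻¹ : Cfsg.isometryGroup F (Qm a b)) : GL (Fin 2) F).val ∈ D (Zm a b)
    rw [hinv, Subgroup.coe_pow, Units.val_pow_eq_pow_val]
    exact (D (Zm a b)).pow_mem hg _

lemma mem_Rsub [Finite F] (a b : F) (g : Cfsg.isometryGroup F (Qm a b)) :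
    g ∈ Rsub a b ↔ ((g : GL (Fin 2) F) : Matrix (Fin 2) (Fin 2) F) ∈ D (Zm a b) := Iff.rfl

lemma Ml_mem_Rsub [Finite F] (a b u v : F) (h : qf a b u v = 1) :
    (⟨Ml a b u v h, Ml_mem a b u v h⟩ : Cfsg.isometryGroup F (Qm a b)) ∈ Rsub a b := by
  rw [mem_Rsub]
  exact ⟨u, v, Ml_eq a b u v h⟩

/-- Elements of the rotation subgroup are of the form `Ml`. -/
lemma eq_Ml_of_mem [Finite F] (a b : F) (g : Cfsg.isometryGroup F (Qm a b)) (hg : g ∈ Rsub a b) :
    ∃ (u v : F) (h : qf a b u v = 1), (g : GL (Fin 2) F) = Ml a b u v h := by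
  obtain ⟨u, v, huv⟩ := (mem_Rsub a b g).mp hg
  have hiso := (mem_iff a b _).mp g.2 ![1, 0]
  simp only [Matrix.cons_val_zero, Matrix.cons_val_one, mul_one, mul_zero, add_zero] at hiso
  have e00 : ((g : GL (Fin 2) F) : Matrix (Fin 2) (Fin 2) F) 0 0 = u := by
    rw [huv]; simp [Zm]
  have e10 : ((g : GL (Fin 2) F) : Matrix (Fin 2) (Fin 2) F) 1 0 = v := by
    rw [huv]; simp [Zm]
  have h : qf a b u v = 1 := by
    rw [e00, e10] at hiso
    rw [hiso]; unfold qf; ring
  refine ⟨u, v, h, ?_⟩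
  apply Units.ext
  rw [huv, Ml_eq]

lemma card_Rsub [Fintype F] (a b : F)
    (hab : ∀ z₁ z₂ : F, z₁ ^ 2 + a * z₁ * z₂ + b * z₂ ^ 2 = 0 → z₁ = 0 ∧ z₂ = 0) :
    Nat.card (Rsub a b) = Fintype.card F + 1 := by
  rw [← card_circle a b hab]
  apply Nat.card_congr
  refine
    { toFun := fun g => ⟨(((g : Cfsg.isometryGroup F (Qm a b)) : GL (Fin 2) F).val 0 0,
          ((g : Cfsg.isometryGroup F (Qm a b)) : GL (Fin 2) F).val 1 0), by
        obtain ⟨u, v, h, e⟩ := eq_Ml_of_mem a b g.1 g.2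
        show qf a b (((g : Cfsg.isometryGroup F (Qm a b)) : GL (Fin 2) F).val 0 0)
          (((g : Cfsg.isometryGroup F (Qm a b)) : GL (Fin 2) F).val 1 0) = 1
        rw [e]
        exact h⟩
      invFun := fun p => ⟨⟨Ml a b p.1.1 p.1.2 p.2, Ml_mem a b _ _ p.2⟩, Ml_mem_Rsub a b _ _ p.2⟩
      left_inv := ?_
      right_inv := ?_ }
  · rintro ⟨g, hg⟩
    obtain ⟨u, v, h, e⟩ := eq_Ml_of_mem a b g hg
    apply Subtype.ext
    apply Subtype.ext
    apply ext2
    · rfl
    · show -(b * (g : GL (Fin 2) F).val 1 0) = (g : GL (Fin 2) F).val 0 1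
      rw [e]
      rfl
    · rfl
    · show (g : GL (Fin 2) F).val 0 0 + a * (g : GL (Fin 2) F).val 1 0 = (g : GL (Fin 2) F).val 1 1
      rw [e]
      rfl
  · rintro ⟨⟨u, v⟩, h⟩
    rfl

/-- `GO⁻_2(q)` (in coordinates `Fin 2`) is dihedral of order `2(q+1)`. -/
theorem dihedral [Fintype F] {q : ℕ} (hF : Fintype.card F = q) (a b : F)
    (hab : ∀ z₁ z₂ : F, z₁ ^ 2 + a * z₁ * z₂ + b * z₂ ^ 2 = 0 → z₁ = 0 ∧ z₂ = 0) :
    Nonempty (Cfsg.isometryGroup F (Qm a b) ≃* DihedralGroup (q + 1)) := by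
  have hNE := Zm_NE a b hab
  have hdisc := disc_ne_zero a b hab
  haveI : IsCyclic (Rsub a b) := by
    apply cyclic_of_hom (Zm a b) hNE
      ((Units.coeHom (Matrix (Fin 2) (Fin 2) F)).comp
        ((Cfsg.isometryGroup F (Qm a b)).subtype.comp (Rsub a b).subtype))
    · intro g h hgh
      apply Subtype.ext
      apply Subtype.ext
      apply Units.ext
      exact hgh
    · intro g
      exact g.2
  have hcard : Nat.card (Rsub a b) = q + 1 := by rw [card_Rsub a b hab, hF]
  obtain ⟨x₀, hx₀⟩ := exists_orderOf_eq (C := Rsub a b) (q + 1) (by rw [hcard])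
  have hpow : ∀ t : Rsub a b, ∃ k : ℕ, x₀ ^ k = t := by
    intro t
    have htop : Subgroup.zpowers x₀ = ⊤ := by
      apply Subgroup.eq_top_of_card_eq
      rw [Nat.card_zpowers, hx₀, hcard]
    have ht : t ∈ Subgroup.zpowers x₀ := by rw [htop]; exact Subgroup.mem_top t
    rw [← mem_powers_iff_mem_zpowers] at ht
    exact ht
  set x : Cfsg.isometryGroup F (Qm a b) := (x₀ : Cfsg.isometryGroup F (Qm a b)) with hx
  set y : Cfsg.isometryGroup F (Qm a b) := ⟨sl a, sl_mem a b⟩ with hy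
  have hxk : ∀ k : ℕ, x ^ k ∈ Rsub a b := fun k => (Rsub a b).pow_mem x₀.2 k
  have hMl : ∀ (u v : F) (h : qf a b u v = 1), ∃ k : ℕ,
      (⟨Ml a b u v h, Ml_mem a b u v h⟩ : Cfsg.isometryGroup F (Qm a b)) = x ^ k := by
    intro u v h
    obtain ⟨k, hk⟩ := hpow ⟨_, Ml_mem_Rsub a b u v h⟩
    refine ⟨k, ?_⟩
    have := congrArg (fun t : Rsub a b => (t : Cfsg.isometryGroup F (Qm a b))) hk
    simpa using this.symm
  haveI : NeZero (q + 1) := ⟨by omega⟩
  apply dih_equiv (q + 1) x y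
  · rw [hx, Subgroup.orderOf_coe, hx₀]
  · apply Cfsg.Agent.Lib_helper4_SL2Quat.conj_of_mul
    obtain ⟨u, v, h, e⟩ := eq_Ml_of_mem a b x x₀.2
    have h' : u ^ 2 + a * u * v + b * v ^ 2 = 1 := h
    apply Subtype.ext
    show (x : GL (Fin 2) F) * sl a * (x : GL (Fin 2) F) = sl a
    rw [e]
    apply ext2 <;> simp only [mul_entries, Ml_00, Ml_01, Ml_10, Ml_11, sl_00, sl_01, sl_10, sl_11]
    · linear_combination h'
    · linear_combination a * h'
    · ring
    · linear_combination -h'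
  · apply Subtype.ext
    show sl a * sl a = 1
    obtain ⟨o1, o2, o3, o4⟩ := Cfsg.Agent.Lib_helper4_GO2Plus.one_entries (F := F)
    apply ext2 <;> simp only [mul_entries, sl_00, sl_01, sl_10, sl_11, o1, o2, o3, o4] <;> ring
  · intro k hk
    have h1 := hxk k
    rw [← hk, mem_Rsub] at h1
    obtain ⟨u, v, huv⟩ := h1
    have e00 := congrFun (congrFun huv 0) 0
    have e01 := congrFun (congrFun huv 0) 1
    have e10 := congrFun (congrFun huv 1) 0
    have e11 := congrFun (congrFun huv 1) 1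
    have s00 : ((y : GL (Fin 2) F) : Matrix (Fin 2) (Fin 2) F) 0 0 = 1 := rfl
    have s01 : ((y : GL (Fin 2) F) : Matrix (Fin 2) (Fin 2) F) 0 1 = a := rfl
    have s10 : ((y : GL (Fin 2) F) : Matrix (Fin 2) (Fin 2) F) 1 0 = 0 := rfl
    have s11 : ((y : GL (Fin 2) F) : Matrix (Fin 2) (Fin 2) F) 1 1 = -1 := rfl
    obtain ⟨d00, d01, d10, d11⟩ := D_entries a b u v
    rw [s00, d00] at e00
    rw [s01, d01] at e01
    rw [s10, d10] at e10
    rw [s11, d11] at e11
    rw [← e10] at e01 e11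
    apply hdisc
    have h2 : (2 : F) = 0 := by linear_combination e00 - e11
    have ha0 : a = 0 := by linear_combination e01
    rw [ha0]
    linear_combination (-2 * b) * h2
  · rintro ⟨g, hg⟩
    obtain ⟨u, v, h, hg' | hg'⟩ := structure_iso a b hab g hg
    · obtain ⟨k, hk⟩ := hMl u v h
      exact ⟨k, Or.inl (by rw [← hk]; exact Subtype.ext hg')⟩
    · obtain ⟨k, hk⟩ := hMl u v h
      refine ⟨k, Or.inr ?_⟩
      rw [← hk]
      exact Subtype.ext hg'

end Cfsg.Agent.Lib_helper4_GO2Minus
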