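import Mathlib

set_option autoImplicit false

/-! Transitive minimal normal subgroups of permutation groups. -/

namespace Cfsg.Agent.Lib_helper4_MinNormal
open Equiv MulAction

variable {α : Type*} (G : Subgroup (Perm α))

lemma smul_eq (M : Subgroup G) (m : M) (a : α) : m • a = ((m : G) : Perm α) a := rfl

/-- an element centralising a transitive group and fixing a point is trivial. -/
lemma eq_one_of_mem_centralizer_of_fix (M : Subgroup G) [IsPretransitive M α] (c : Perm α)
    (hc : c ∈ Subgroup.centralizer ((M.map G.subtype : Subgroup (Perm α)) : Set (Perm α)))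
    (a : α) (hca : c a = a) : c = 1 := by
  ext b
  obtain ⟨m, hm⟩ := MulAction.exists_smul_eq M a b
  have hcomm := Subgroup.mem_centralizer_iff.mp hc ((m : G) : Perm α) ⟨(m : G), m.2, rfl⟩
  have h1 : c (((m : G) : Perm α) a) = ((m : G) : Perm α) (c a) := by
    have := congrArg (fun f : Perm α => f a) hcomm
    simpa [Perm.mul_apply] using this.symm
  rw [smul_eq] at hm
  rw [← hm, h1, hca]
  rfl

/-- a transitive group commuting with a transitive group `M` is the full centraliser of `M`. -/
lemma centralizer_eq (M N : Subgroup G) [IsPretransitive M α] [IsPretransitive N α]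
    (hNM : (N.map G.subtype : Subgroup (Perm α)) ≤
      Subgroup.centralizer ((M.map G.subtype : Subgroup (Perm α)) : Set (Perm α))) :
    Subgroup.centralizer ((M.map G.subtype : Subgroup (Perm α)) : Set (Perm α)) =
      N.map G.subtype := by
  apply le_antisymm _ hNM
  intro c hc
  rcases isEmpty_or_nonempty α with he | ⟨⟨a⟩⟩
  · have : c = 1 := by
      ext b; exact (he.false b).elim
    rw [this]; exact Subgroup.one_mem _
  · obtain ⟨n, hn⟩ := MulAction.exists_smul_eq N a (c a)
    rw [smul_eq] at hn
    have hn' : ((n : G) : Perm α) ∈ (N.map G.subtype : Subgroup (Perm α)) := ⟨(n : G), n.2, rfl⟩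
    have h1 : ((n : G) : Perm α)⁻¹ * c ∈
        Subgroup.centralizer ((M.map G.subtype : Subgroup (Perm α)) : Set (Perm α)) :=
      Subgroup.mul_mem _ (Subgroup.inv_mem _ (hNM hn')) hc
    have h2 : (((n : G) : Perm α)⁻¹ * c) a = a := by
      rw [Perm.mul_apply, ← hn]
      simp
    have h3 := eq_one_of_mem_centralizer_of_fix G M _ h1 a h2
    have h4 : c = ((n : G) : Perm α) := by
      rw [inv_mul_eq_one] at h3
      exact h3.symm
    rw [h4]; exact hn'

/-- a group commuting with a transitive group is semiregular. -/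
lemma stabilizer_eq_bot (M N : Subgroup G) [IsPretransitive M α]
    (hNM : (N.map G.subtype : Subgroup (Perm α)) ≤
      Subgroup.centralizer ((M.map G.subtype : Subgroup (Perm α)) : Set (Perm α))) (a : α) :
    MulAction.stabilizer N a = ⊥ := by
  rw [eq_bot_iff]
  intro n hn
  rw [MulAction.mem_stabilizer_iff, smul_eq] at hn
  have h1 := eq_one_of_mem_centralizer_of_fix G M ((n : G) : Perm α)
    (hNM ⟨(n : G), n.2, rfl⟩) a hn
  rw [Subgroup.mem_bot]
  apply Subtype.ext
  apply Subtype.ext
  exact h1

/-- disjoint normal subgroups centralise each other (in the symmetric group). -/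
lemma map_le_centralizer_of_disjoint (M N : Subgroup G) [hM : M.Normal] [hN : N.Normal]
    (hdis : Disjoint M N) :
    (N.map G.subtype : Subgroup (Perm α)) ≤
      Subgroup.centralizer ((M.map G.subtype : Subgroup (Perm α)) : Set (Perm α)) := by
  rintro _ ⟨n, hn, rfl⟩
  rw [Subgroup.mem_centralizer_iff]
  rintro _ ⟨m, hm, rfl⟩
  have h := Subgroup.commute_of_normal_of_disjoint M N hM hN hdis m n hm hn
  have h' : m * n = n * m := h
  have := congrArg (G.subtype) h'
  simpa using this

/-- a commutative subgroup centralises itself. -/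
lemma map_le_centralizer_self (M : Subgroup G) (hab : IsMulCommutative M) :
    (M.map G.subtype : Subgroup (Perm α)) ≤
      Subgroup.centralizer ((M.map G.subtype : Subgroup (Perm α)) : Set (Perm α)) := by
  rintro _ ⟨n, hn, rfl⟩
  rw [Subgroup.mem_centralizer_iff]
  rintro _ ⟨m, hm, rfl⟩
  have h : (⟨m, hm⟩ : M) * ⟨n, hn⟩ = ⟨n, hn⟩ * ⟨m, hm⟩ := hab.is_comm.comm _ _
  have h' : m * n = n * m := congrArg Subtype.val h
  have := congrArg (G.subtype) h'
  simpa using this

/-- a minimal normal subgroup meeting another one trivially, or equal to it. -/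
lemma disjoint_or_eq (M L : Subgroup G) [hM : M.Normal] [hL : L.Normal] (hM0 : M ≠ ⊥)
    (hMmin : ∀ L' : Subgroup G, L'.Normal → L' ≤ M → L' = ⊥ ∨ L' = M)
    (hLmin : ∀ L' : Subgroup G, L'.Normal → L' ≤ L → L' = ⊥ ∨ L' = L) :
    Disjoint L M ∨ L = M := by
  rcases hMmin (L ⊓ M) inferInstance inf_le_right with h | h
  · left; exact disjoint_iff.mpr h
  · right
    have hML : M ≤ L := by rw [← h]; exact inf_le_left
    rcases hLmin M hM hML with h' | h'
    · exact absurd h' hM0
    · exact h'.symm

end Cfsg.Agent.Lib_helper4_MinNormal
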