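import Mathlib

set_option autoImplicit false

namespace Cfsg.Agent.Lib_helper4_MultTrans

open MulAction

/-- `j`-transitive, and pointwise stabilisers of `j`-tuples are transitive on the remaining points:
then `(j+1)`-transitive. -/
theorem succ_of_fixing {G α : Type*} [Group G] [MulAction G α] (j : ℕ)
    (hj : IsMultiplyPretransitive G α j)
    (h : ∀ x : Fin j ↪ α, ∀ a b : α, a ∉ Set.range x → b ∉ Set.range x → a ≠ b →
      ∃ g : G, (∀ i, g • x i = x i) ∧ g • a = b) :
    IsMultiplyPretransitive G α (j + 1) := by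
  rw [isMultiplyPretransitive_iff]
  intro x y
  let x₁ : Fin j ↪ α := Fin.castSuccEmb.trans x
  let y₁ : Fin j ↪ α := Fin.castSuccEmb.trans y
  obtain ⟨g₁, hg₁⟩ := hj.exists_smul_eq x₁ y₁
  have h1 : ∀ i : Fin j, g₁ • x (Fin.castSucc i) = y (Fin.castSucc i) := fun i => by
    have := congrArg (fun e : Fin j ↪ α => e i) hg₁
    exact this
  have ha : g₁ • x (Fin.last j) ∉ Set.range y₁ := by
    rintro ⟨i, hi⟩
    have h2 : y (Fin.castSucc i) = g₁ • x (Fin.last j) := hi
    rw [← h1 i] at h2
    have h3 := x.injective (MulAction.injective g₁ h2)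
    exact (Fin.castSucc_lt_last i).ne h3
  have hb : y (Fin.last j) ∉ Set.range y₁ := by
    rintro ⟨i, hi⟩
    have h2 : y (Fin.castSucc i) = y (Fin.last j) := hi
    exact (Fin.castSucc_lt_last i).ne (y.injective h2)
  obtain ⟨g₂, hg₂, hg₂'⟩ : ∃ g : G, (∀ i, g • y₁ i = y₁ i) ∧
      g • (g₁ • x (Fin.last j)) = y (Fin.last j) := by
    by_cases hab : g₁ • x (Fin.last j) = y (Fin.last j)
    · exact ⟨1, fun i => one_smul _ _, by rw [one_smul]; exact hab⟩
    · exact h y₁ _ _ ha hb hab
  refine ⟨g₂ * g₁, ?_⟩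
  ext i
  rw [Function.Embedding.smul_apply, mul_smul]
  rcases Fin.eq_castSucc_or_eq_last i with ⟨i, rfl⟩ | rfl
  · rw [h1]; exact hg₂ i
  · exact hg₂'

/-- If for every `(k-1)`-subset `t` the pointwise stabiliser of `t` is transitive on the complement
of `t`, and `k` is less than the degree, then the group is `k`-transitive. -/
theorem of_finset_fixing {α : Type*} [Fintype α] [DecidableEq α] (G : Subgroup (Equiv.Perm α))
    {k : ℕ} (hk : k < Fintype.card α)
    (h : ∀ t : Finset α, t.card + 1 = k → ∀ a b : α, a ∉ t → b ∉ t → a ≠ b →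
      ∃ g ∈ G, (∀ x ∈ t, g x = x) ∧ g a = b) :
    IsMultiplyPretransitive G α k := by
  suffices H : ∀ j, j ≤ k → IsMultiplyPretransitive G α j from H k le_rfl
  intro j
  induction j with
  | zero => intro _; exact is_zero_pretransitive'
  | succ j ih =>
    intro hj
    apply succ_of_fixing j (ih (by omega))
    intro x a b ha hb hab
    let r : Finset α := Finset.univ.map x
    have hr : r.card = j := by simp [r]
    have hsub : r ⊆ (Finset.univ \ {a, b} : Finset α) := by
      intro y hy
      obtain ⟨i, -, rfl⟩ := Finset.mem_map.mp hy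
      rw [Finset.mem_sdiff, Finset.mem_insert, Finset.mem_singleton]
      refine ⟨Finset.mem_univ _, ?_⟩
      rintro (h1 | h1)
      · exact ha ⟨i, h1⟩
      · exact hb ⟨i, h1⟩
    have hcard2 : (Finset.univ \ {a, b} : Finset α).card = Fintype.card α - 2 := by
      rw [Finset.card_sdiff_of_subset (Finset.subset_univ _), Finset.card_univ,
        Finset.card_pair hab]
    obtain ⟨t, hrt, htu, htc⟩ := Finset.exists_subsuperset_card_eq hsub
      (by omega : r.card ≤ k - 1) (by omega)
    have hat : a ∉ t := fun h1 => by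
      have := htu h1
      simp at this
    have hbt : b ∉ t := fun h1 => by
      have := htu h1
      simp at this
    obtain ⟨g, hgG, hgt, hga⟩ := h t (by omega) a b hat hbt hab
    exact ⟨⟨g, hgG⟩, fun i => hgt _ (hrt (Finset.mem_map.mpr ⟨i, Finset.mem_univ _, rfl⟩)), hga⟩

end Cfsg.Agent.Lib_helper4_MultTrans
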