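import Mathlib
import Cfsg.Prelude.Def_Perm

set_option autoImplicit false

/-! Building a near-field from a family of translations and a family of dilations. -/

namespace Cfsg.Agent.Lib_helper4_NearFieldMk

theorem exists_nearField {α : Type*} [DecidableEq α] (e₀ e₁ : α) (h01 : e₀ ≠ e₁)
    (τ μ : α → Equiv.Perm α)
    (hτ0 : ∀ b, τ b e₀ = b)
    (hτadd : ∀ y z, τ z * τ y = τ (τ z y))
    (hμ0 : ∀ a, a ≠ e₀ → μ a e₀ = e₀)
    (hμ1 : ∀ a, a ≠ e₀ → μ a e₁ = a)
    (hμmul : ∀ a b, a ≠ e₀ → b ≠ e₀ → μ b * μ a = μ (μ b a))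
    (hdist : ∀ c y, c ≠ e₀ → μ c * τ y = τ (μ c y) * μ c) :
    ∃ inst : Cfsg.NearField α, (∀ x b : α, x + b = τ b x) ∧
      (∀ x a : α, a ≠ 0 → x * a = μ a x) ∧ (0 : α) = e₀ ∧ (1 : α) = e₁ := by
  have hτe : τ e₀ = 1 := by
    have h1 := hτadd e₀ e₀
    rw [hτ0] at h1
    exact mul_eq_left.mp h1
  have hμe : μ e₁ = 1 := by
    have h1 := hμmul e₁ e₁ (Ne.symm h01) (Ne.symm h01)
    rw [hμ1 e₁ (Ne.symm h01)] at h1
    exact mul_eq_left.mp h1
  have hμne : ∀ a b, a ≠ e₀ → b ≠ e₀ → μ b a ≠ e₀ := by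
    intro a b ha hb h
    apply ha
    apply (μ b).injective
    rw [h, hμ0 b hb]
  letI iAdd : Add α := ⟨fun x b => τ b x⟩
  letI iZero : Zero α := ⟨e₀⟩
  letI iNeg : Neg α := ⟨fun b => (τ b)⁻¹ e₀⟩
  letI iMul : Mul α := ⟨fun x a => if a = e₀ then e₀ else μ a x⟩
  letI iOne : One α := ⟨e₁⟩
  have hadd_assoc : ∀ x y z : α, x + y + z = x + (y + z) := by
    intro x y z
    show τ z (τ y x) = τ (τ z y) x
    rw [← hτadd]; rfl
  have hzero_add : ∀ b : α, 0 + b = b := fun b => hτ0 b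
  have hneg_add : ∀ b : α, -b + b = 0 := by
    intro b
    show τ b ((τ b)⁻¹ e₀) = e₀
    rw [Equiv.Perm.inv_def, Equiv.apply_symm_apply]
  have hmul_assoc : ∀ x a b : α, x * a * b = x * (a * b) := by
    intro x a b
    show (if b = e₀ then e₀ else μ b (if a = e₀ then e₀ else μ a x)) =
      if (if b = e₀ then e₀ else μ b a) = e₀ then e₀ else μ (if b = e₀ then e₀ else μ b a) x
    by_cases hb : b = e₀
    · simp [hb]
    · by_cases ha : a = e₀
      · simp [hb, ha, hμ0 b hb]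
      · rw [if_neg hb, if_neg ha, if_neg hb, if_neg (hμne a b ha hb), ← hμmul a b ha hb]
        rfl
  have hone_mul : ∀ a : α, 1 * a = a := by
    intro a
    show (if a = e₀ then e₀ else μ a e₁) = a
    by_cases ha : a = e₀
    · rw [if_pos ha, ha]
    · rw [if_neg ha, hμ1 a ha]
  have hmul_one : ∀ x : α, x * 1 = x := by
    intro x
    show (if e₁ = e₀ then e₀ else μ e₁ x) = x
    rw [if_neg (Ne.symm h01), hμe]; rfl
  let G1 : AddGroup α := AddGroup.ofLeftAxioms hadd_assoc hzero_add hneg_add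
  let M1 : Monoid α := { mul_assoc := hmul_assoc, one_mul := hone_mul, mul_one := hmul_one }
  refine ⟨{ toAddGroup := G1
            toMonoid := M1
            right_distrib := ?_
            mul_zero := ?_
            zero_ne_one := h01
            exists_inv := ?_ }, ?_, ?_, rfl, rfl⟩
  · intro x y c
    show (if c = e₀ then e₀ else μ c (τ y x)) =
      τ (if c = e₀ then e₀ else μ c y) (if c = e₀ then e₀ else μ c x)
    by_cases hc : c = e₀
    · rw [if_pos hc, if_pos hc, if_pos hc, hτ0]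
    · rw [if_neg hc, if_neg hc, if_neg hc]
      have h1 := congrArg (fun f : Equiv.Perm α => f x) (hdist c y hc)
      exact h1
  · intro a
    show (if e₀ = e₀ then e₀ else μ e₀ a) = e₀
    rw [if_pos rfl]
  · intro a ha
    have ha' : a ≠ e₀ := ha
    have hb : (μ a)⁻¹ e₁ ≠ e₀ := by
      intro h
      apply h01
      have h1 : e₁ = μ a e₀ := Equiv.Perm.inv_eq_iff_eq.mp h
      rw [h1, hμ0 a ha']
    have h2 : μ a ((μ a)⁻¹ e₁) = e₁ := by
      rw [Equiv.Perm.inv_def, Equiv.apply_symm_apply]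
    have h3 : μ a * μ ((μ a)⁻¹ e₁) = 1 := by
      rw [hμmul _ _ hb ha', h2, hμe]
    have h4 : μ ((μ a)⁻¹ e₁) = (μ a)⁻¹ := eq_inv_of_mul_eq_one_right h3
    refine ⟨(μ a)⁻¹ e₁, ?_, ?_⟩
    · show (if (μ a)⁻¹ e₁ = e₀ then e₀ else μ ((μ a)⁻¹ e₁) a) = e₁
      rw [if_neg hb, h4, Equiv.Perm.inv_eq_iff_eq, hμ1 a ha']
    · show (if a = e₀ then e₀ else μ a ((μ a)⁻¹ e₁)) = e₁
      rw [if_neg ha', h2]
  · intro x b
    rfl
  · intro x a ha
    have ha' : a ≠ e₀ := ha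
    show (if a = e₀ then e₀ else μ a x) = μ a x
    rw [if_neg ha']

end Cfsg.Agent.Lib_helper4_NearFieldMk
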