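import Mathlib

/-! Counting zeros of functions `f v + x * y` and of hyperbolic extensions over a finite field. -/

namespace Cfsg.Agent.Lib_helper4_QCount

variable {F : Type*} [Field F] [Fintype F]

/-- Zeros of `f v + x * y` on `V × F × F`: `x = 0` forces `f v = 0` with `y` free; `x ≠ 0` determines `y`. -/
noncomputable def hypExtEquiv {V : Type*} (f : V → F) :
    {p : V × F × F // f p.1 + p.2.1 * p.2.2 = 0} ≃ ({v : V // f v = 0} × F) ⊕ (V × {x : F // x ≠ 0}) := by
  classical
  exact
  { toFun := fun p =>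
      if h : p.1.2.1 = 0 then Sum.inl (⟨p.1.1, by
        have h1 := p.2
        rw [h, zero_mul, add_zero] at h1
        exact h1⟩, p.1.2.2)
      else Sum.inr (p.1.1, ⟨p.1.2.1, h⟩)
    invFun := fun s =>
      match s with
      | Sum.inl (v, y) => ⟨(v.1, 0, y), by
          show f v.1 + 0 * y = 0
          rw [zero_mul, add_zero]
          exact v.2⟩
      | Sum.inr (v, x) => ⟨(v, x.1, -f v / x.1), by
          show f v + x.1 * (-f v / x.1) = 0
          have hx := x.2
          field_simp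
          ring⟩
    left_inv := by
      rintro ⟨⟨v, x, y⟩, hp⟩
      by_cases h : x = 0
      · subst h
        simp
      · simp only [h, dite_false]
        apply Subtype.ext
        simp only [Prod.mk.injEq, true_and]
        change f v + x * y = 0 at hp
        field_simp
        linear_combination -hp
    right_inv := by
      rintro (⟨v, y⟩ | ⟨v, x⟩)
      · simp
      · have hx := x.2
        simp [hx] }

lemma card_ne_zero {q : ℕ} (hF : Fintype.card F = q) : Nat.card {x : F // x ≠ 0} = q - 1 := by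
  rw [← Nat.card_congr (unitsEquivNeZero (G₀ := F)), Nat.card_units, Nat.card_eq_fintype_card, hF]

lemma card_hypExt {q : ℕ} (hF : Fintype.card F = q) {V : Type*} [Fintype V] (f : V → F) :
    Nat.card {p : V × F × F // f p.1 + p.2.1 * p.2.2 = 0}
      = Nat.card {v : V // f v = 0} * q + Fintype.card V * (q - 1) := by
  rw [Nat.card_congr (hypExtEquiv f), Nat.card_sum, Nat.card_prod, Nat.card_prod, card_ne_zero hF,
    Nat.card_eq_fintype_card (α := F), hF, Nat.card_eq_fintype_card (α := V)]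

/-- The form `Σ_{i<m} x_i y_i + g(rest)` on `(Fin m ⊕ Fin m) ⊕ κ → F`. -/
def hypForm (m : ℕ) {κ : Type*} (g : (κ → F) → F) (v : (Fin m ⊕ Fin m) ⊕ κ → F) : F :=
  (∑ i : Fin m, v (Sum.inl (Sum.inl i)) * v (Sum.inl (Sum.inr i))) + g (fun k => v (Sum.inr k))

/-- Peeling off the first hyperbolic pair. -/
def peelEquiv (m : ℕ) (κ : Type*) :
    ((Fin (m + 1) ⊕ Fin (m + 1)) ⊕ κ → F) ≃ ((Fin m ⊕ Fin m) ⊕ κ → F) × F × F where
  toFun v := (fun k => v (Sum.map (Sum.map Fin.succ Fin.succ) id k), v (Sum.inl (Sum.inl 0)),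
    v (Sum.inl (Sum.inr 0)))
  invFun p := fun k =>
    match k with
    | Sum.inl (Sum.inl i) => Fin.cases p.2.1 (fun j => p.1 (Sum.inl (Sum.inl j))) i
    | Sum.inl (Sum.inr i) => Fin.cases p.2.2 (fun j => p.1 (Sum.inl (Sum.inr j))) i
    | Sum.inr k => p.1 (Sum.inr k)
  left_inv v := by
    funext k
    rcases k with (i | i) | k
    · refine Fin.cases ?_ (fun j => ?_) i
      · rfl
      · rfl
    · refine Fin.cases ?_ (fun j => ?_) i
      · rfl
      · rfl
    · rfl
  right_inv p := by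
    obtain ⟨w, x, y⟩ := p
    refine Prod.ext ?_ (Prod.ext rfl rfl)
    funext k
    rcases k with (i | i) | k
    · rfl
    · rfl
    · rfl

omit [Fintype F] in
lemma hypForm_peel (m : ℕ) {κ : Type*} (g : (κ → F) → F) (v : (Fin (m + 1) ⊕ Fin (m + 1)) ⊕ κ → F) :
    hypForm (m + 1) g v
      = hypForm m g (peelEquiv m κ v).1 + (peelEquiv m κ v).2.1 * (peelEquiv m κ v).2.2 := by
  unfold hypForm
  rw [Fin.sum_univ_succ]
  simp only [peelEquiv, Equiv.coe_fn_mk, Sum.map_inl, Sum.map_inr, id]
  ring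

lemma card_hypForm_succ {q : ℕ} (hF : Fintype.card F = q) (m : ℕ) {κ : Type*} [Fintype κ]
    (g : (κ → F) → F) :
    Nat.card {v : (Fin (m + 1) ⊕ Fin (m + 1)) ⊕ κ → F // hypForm (m + 1) g v = 0}
      = Nat.card {v : (Fin m ⊕ Fin m) ⊕ κ → F // hypForm m g v = 0} * q
        + q ^ (m + m + Fintype.card κ) * (q - 1) := by
  classical
  have e : {v : (Fin (m + 1) ⊕ Fin (m + 1)) ⊕ κ → F // hypForm (m + 1) g v = 0}
      ≃ {p : ((Fin m ⊕ Fin m) ⊕ κ → F) × F × F // hypForm m g p.1 + p.2.1 * p.2.2 = 0} :=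
    (peelEquiv m κ).subtypeEquiv (fun v => by rw [hypForm_peel])
  rw [Nat.card_congr e, card_hypExt hF]
  congr 2
  rw [Fintype.card_fun, hF, Fintype.card_sum, Fintype.card_sum, Fintype.card_fin]

/-- With no hyperbolic pairs only the remaining coordinates matter. -/
def zeroEquiv (κ : Type*) : ((Fin 0 ⊕ Fin 0) ⊕ κ → F) ≃ (κ → F) where
  toFun v k := v (Sum.inr k)
  invFun w k :=
    match k with
    | Sum.inl (Sum.inl i) => i.elim0
    | Sum.inl (Sum.inr i) => i.elim0
    | Sum.inr k => w k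
  left_inv v := by
    funext k
    rcases k with (i | i) | k
    · exact i.elim0
    · exact i.elim0
    · rfl
  right_inv w := rfl

omit [Fintype F] in
lemma card_hypForm_zero {κ : Type*} (g : (κ → F) → F) :
    Nat.card {v : (Fin 0 ⊕ Fin 0) ⊕ κ → F // hypForm 0 g v = 0} = Nat.card {w : κ → F // g w = 0} := by
  apply Nat.card_congr
  refine (zeroEquiv κ).subtypeEquiv (fun v => ?_)
  unfold hypForm
  rw [Finset.univ_eq_empty, Finset.sum_empty, zero_add]
  rfl

end Cfsg.Agent.Lib_helper4_QCount
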