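import Mathlib
import Cfsg.Prelude.Def_ClassicalGeometry
import Cfsg.Agent.Lib_helper4_Quad
import Cfsg.Agent.Lib_helper4_Quad2
import Cfsg.Agent.Lib_helper4_Orth
import Cfsg.Agent.Lib_helper4_QCount

/-! Order of the isometry group of a quadratic form with `m` standard hyperbolic pairs of coordinates and an
anisotropic remainder: the chain of fixers of the last hyperbolic pairs, and orbit–stabiliser. -/

namespace Cfsg.Agent.Lib_helper4_OrthCard
open Matrix Cfsg.Agent.Lib_helper4_Quad Cfsg.Agent.Lib_helper4_Quad2 Cfsg.Agent.Lib_helper4_Orth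

variable {ι : Type} [Fintype ι] [DecidableEq ι] {F : Type*} [Field F]

/-- `a i, b i` are coordinates of `m` standard hyperbolic pairs for `Q`, and `Q` is anisotropic on the
vectors vanishing at all these coordinates. -/
structure HypData (Q : QuadraticForm F (ι → F)) {m : ℕ} (a b : Fin m → ι) : Prop where
  inj : Function.Injective (Sum.elim a b)
  polar_a : ∀ (i : Fin m) (x : ι → F), QuadraticMap.polar ⇑Q (Pi.single (a i) 1) x = x (b i)
  polar_b : ∀ (i : Fin m) (x : ι → F), QuadraticMap.polar ⇑Q (Pi.single (b i) 1) x = x (a i)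
  Qa : ∀ i : Fin m, Q (Pi.single (a i) 1) = 0
  Qb : ∀ i : Fin m, Q (Pi.single (b i) 1) = 0
  aniso : ∀ x : ι → F, (∀ i : Fin m, x (a i) = 0 ∧ x (b i) = 0) → Q x = 0 → x = 0

variable {Q : QuadraticForm F (ι → F)} {m : ℕ} {a b : Fin m → ι}

namespace HypData

lemma a_inj (hd : HypData Q a b) {i j : Fin m} (h : a i = a j) : i = j :=
  Sum.inl.inj (hd.inj (a₁ := Sum.inl i) (a₂ := Sum.inl j) h)

lemma b_inj (hd : HypData Q a b) {i j : Fin m} (h : b i = b j) : i = j :=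
  Sum.inr.inj (hd.inj (a₁ := Sum.inr i) (a₂ := Sum.inr j) h)

lemma a_ne_b (hd : HypData Q a b) (i j : Fin m) : a i ≠ b j := fun h =>
  Sum.inl_ne_inr (hd.inj (a₁ := Sum.inl i) (a₂ := Sum.inr j) h)

lemma ea_a (hd : HypData Q a b) {i j : Fin m} (h : j ≠ i) :
    (Pi.single (a i) (1 : F) : ι → F) (a j) = 0 :=
  Pi.single_eq_of_ne (fun h' => h (hd.a_inj h')) _

lemma ea_b (hd : HypData Q a b) (i j : Fin m) : (Pi.single (a i) (1 : F) : ι → F) (b j) = 0 :=
  Pi.single_eq_of_ne (fun h' => hd.a_ne_b i j h'.symm) _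

lemma eb_a (hd : HypData Q a b) (i j : Fin m) : (Pi.single (b i) (1 : F) : ι → F) (a j) = 0 :=
  Pi.single_eq_of_ne (fun h' => hd.a_ne_b j i h') _

lemma eb_b (hd : HypData Q a b) {i j : Fin m} (h : j ≠ i) :
    (Pi.single (b i) (1 : F) : ι → F) (b j) = 0 :=
  Pi.single_eq_of_ne (fun h' => h (hd.b_inj h')) _

end HypData

/-- Vectors vanishing at the hyperbolic coordinates of index `≥ k`. -/
def W (a b : Fin m → ι) (F : Type*) [Field F] (k : ℕ) : Set (ι → F) :=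
  {x | ∀ i : Fin m, k ≤ i.val → x (a i) = 0 ∧ x (b i) = 0}

/-- The hyperbolic basis vectors of index `≥ k`. -/
def S (a b : Fin m → ι) (F : Type*) [Field F] (k : ℕ) : Set (ι → F) :=
  {s | ∃ i : Fin m, k ≤ i.val ∧ (s = Pi.single (a i) 1 ∨ s = Pi.single (b i) 1)}

lemma mem_W_iff (hd : HypData Q a b) (k : ℕ) (x : ι → F) :
    x ∈ W a b F k ↔ ∀ s ∈ S a b F k, QuadraticMap.polar ⇑Q s x = 0 := by
  constructor
  · rintro hx s ⟨i, hi, rfl | rfl⟩
    · rw [hd.polar_a]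
      exact (hx i hi).2
    · rw [hd.polar_b]
      exact (hx i hi).1
  · intro h i hi
    constructor
    · have := h _ ⟨i, hi, Or.inr rfl⟩
      rw [hd.polar_b] at this
      exact this
    · have := h _ ⟨i, hi, Or.inl rfl⟩
      rw [hd.polar_a] at this
      exact this

lemma ea_mem_W (hd : HypData Q a b) {k : ℕ} (i : Fin m) (hi : i.val < k) :
    (Pi.single (a i) (1 : F) : ι → F) ∈ W a b F k := by
  intro j hj
  have hne : j ≠ i := fun h => by rw [h] at hj; omega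
  exact ⟨hd.ea_a hne, hd.ea_b i j⟩

lemma eb_mem_W (hd : HypData Q a b) {k : ℕ} (i : Fin m) (hi : i.val < k) :
    (Pi.single (b i) (1 : F) : ι → F) ∈ W a b F k := by
  intro j hj
  have hne : j ≠ i := fun h => by rw [h] at hj; omega
  exact ⟨hd.eb_a i j, hd.eb_b hne⟩

/-- The image of a vector of `W k` under an isometry fixing `S k` is in `W k`. -/
lemma mulVec_mem_W (hd : HypData Q a b) (k : ℕ) (g : Cfsg.isometryGroup F ⇑Q)
    (hg : g ∈ fixer ⇑Q (S a b F k)) (x : ι → F) (hx : x ∈ W a b F k) :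
    ((g : GL ι F) : Matrix ι ι F) *ᵥ x ∈ W a b F k := by
  rw [mem_W_iff hd] at hx ⊢
  intro s hs
  have h := iso_polar ⇑Q g s x
  rw [hg s hs] at h
  rw [h]
  exact hx s hs

/-- The chain of subgroups. -/
def H (Q : QuadraticForm F (ι → F)) (a b : Fin m → ι) (k : ℕ) : Subgroup (Cfsg.isometryGroup F ⇑Q) :=
  fixer ⇑Q (S a b F k)

/-- The intermediate subgroup: also fixing `e_k`. -/
def K (Q : QuadraticForm F (ι → F)) (a b : Fin m → ι) (k : ℕ) (hk : k < m) :
    Subgroup (Cfsg.isometryGroup F ⇑Q) :=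
  fixer ⇑Q (S a b F (k + 1) ∪ {Pi.single (a ⟨k, hk⟩) 1})

lemma K_le (k : ℕ) (hk : k < m) : K Q a b k hk ≤ H Q a b (k + 1) :=
  fixer_mono _ Set.subset_union_left

lemma H_le (k : ℕ) (hk : k < m) : H Q a b k ≤ K Q a b k hk := by
  apply fixer_mono
  rintro s (⟨i, hi, h⟩ | h)
  · exact ⟨i, by omega, h⟩
  · rw [Set.mem_singleton_iff] at h
    exact ⟨⟨k, hk⟩, le_rfl, Or.inl h⟩

lemma H_top : H Q a b m = ⊤ := by
  rw [eq_top_iff]
  rintro g - s ⟨i, hi, -⟩
  exact absurd i.2 (not_lt.mpr hi)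

/-- The action of the isometry group on vectors. -/
@[reducible] def vecAction (Q : (ι → F) → F) : MulAction (Cfsg.isometryGroup F Q) (ι → F) where
  smul g v := ((g : GL ι F) : Matrix ι ι F) *ᵥ v
  one_smul v := by
    show (1 : Matrix ι ι F) *ᵥ v = v
    rw [one_mulVec]
  mul_smul g h v := coe_mul_mulVec Q g h v

attribute [local instance] vecAction

lemma orbit_e (hd : HypData Q a b) (k : ℕ) (hk : k < m) :
    MulAction.orbit (H Q a b (k + 1)) (Pi.single (a ⟨k, hk⟩) (1 : F) : ι → F)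
      = {u | u ∈ W a b F (k + 1) ∧ Q u = 0 ∧ u ≠ 0} := by
  have hek := ea_mem_W (F := F) hd ⟨k, hk⟩ (Nat.lt_succ_self k)
  have hfk := eb_mem_W (F := F) hd ⟨k, hk⟩ (Nat.lt_succ_self k)
  have hef : QuadraticMap.polar ⇑Q (Pi.single (a ⟨k, hk⟩) (1 : F)) (Pi.single (b ⟨k, hk⟩) (1 : F)) = 1 := by
    rw [hd.polar_a, Pi.single_eq_same]
  ext u
  constructor
  · rintro ⟨g, rfl⟩
    refine ⟨mulVec_mem_W hd (k + 1) g.1 g.2 _ hek, ?_, ?_⟩
    · show Q (((g.1 : GL ι F) : Matrix ι ι F) *ᵥ _) = 0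
      rw [iso_apply ⇑Q g.1, hd.Qa]
    · intro h0
      have h1 := iso_polar ⇑Q g.1 (Pi.single (a ⟨k, hk⟩) (1 : F)) (Pi.single (b ⟨k, hk⟩) (1 : F))
      have h2 : ((g.1 : GL ι F) : Matrix ι ι F) *ᵥ (Pi.single (a ⟨k, hk⟩) (1 : F)) = 0 := h0
      rw [h2, hef] at h1
      simp [QuadraticMap.polar] at h1
  · rintro ⟨hu, hQu, hu0⟩
    -- a singular partner of `u` inside `W (k+1)`
    have hex : ∃ i : Fin m, u (a i) ≠ 0 ∨ u (b i) ≠ 0 := by
      by_contra hcon
      apply hu0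
      apply hd.aniso u _ hQu
      intro i
      constructor
      · by_contra h
        exact hcon ⟨i, Or.inl h⟩
      · by_contra h
        exact hcon ⟨i, Or.inr h⟩
    obtain ⟨i, hi⟩ := hex
    have hik : i.val < k + 1 := by
      by_contra hlt
      rw [not_lt] at hlt
      rcases hi with h | h
      · exact h (hu i hlt).1
      · exact h (hu i hlt).2
    have hpart : ∃ v : ι → F, v ∈ W a b F (k + 1) ∧ Q v = 0 ∧ QuadraticMap.polar ⇑Q u v = 1 := by
      rcases hi with h | h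
      · refine ⟨(u (a i))⁻¹ • Pi.single (b i) 1, ?_, ?_, ?_⟩
        · intro j hj
          have := eb_mem_W (F := F) hd i hik j hj
          rw [Pi.smul_apply, Pi.smul_apply, this.1, this.2, smul_zero]
          exact ⟨rfl, rfl⟩
        · rw [QuadraticMap.map_smul, hd.Qb, smul_zero]
        · rw [QuadraticMap.polar_smul_right, QuadraticMap.polar_comm, hd.polar_b, smul_eq_mul,
            inv_mul_cancel₀ h]
      · refine ⟨(u (b i))⁻¹ • Pi.single (a i) 1, ?_, ?_, ?_⟩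
        · intro j hj
          have := ea_mem_W (F := F) hd i hik j hj
          rw [Pi.smul_apply, Pi.smul_apply, this.1, this.2, smul_zero]
          exact ⟨rfl, rfl⟩
        · rw [QuadraticMap.map_smul, hd.Qa, smul_zero]
        · rw [QuadraticMap.polar_smul_right, QuadraticMap.polar_comm, hd.polar_a, smul_eq_mul,
            inv_mul_cancel₀ h]
    obtain ⟨v, hv, hQv, huv⟩ := hpart
    obtain ⟨g, hg, hge⟩ := exists_map_singular Q (S a b F (k + 1)) _ _ u v (hd.Qa _) (hd.Qb _) hef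
      hQu hQv huv ((mem_W_iff hd _ _).mp hek) ((mem_W_iff hd _ _).mp hfk)
      ((mem_W_iff hd _ _).mp hu) ((mem_W_iff hd _ _).mp hv)
    exact ⟨⟨g, hg⟩, hge⟩

lemma stabilizer_e (k : ℕ) (hk : k < m) :
    MulAction.stabilizer (H Q a b (k + 1)) (Pi.single (a ⟨k, hk⟩) (1 : F) : ι → F)
      = (K Q a b k hk).subgroupOf (H Q a b (k + 1)) := by
  ext g
  rw [MulAction.mem_stabilizer_iff, Subgroup.mem_subgroupOf]
  constructor
  · rintro h s (hs | hs)
    · exact g.2 s hs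
    · rw [Set.mem_singleton_iff] at hs
      rw [hs]
      exact h
  · intro h
    exact h _ (Set.mem_union_right _ rfl)

lemma orbit_f (hd : HypData Q a b) (k : ℕ) (hk : k < m) :
    MulAction.orbit (K Q a b k hk) (Pi.single (b ⟨k, hk⟩) (1 : F) : ι → F)
      = {v | v ∈ W a b F (k + 1) ∧ Q v = 0 ∧ v (b ⟨k, hk⟩) = 1} := by
  have hek := ea_mem_W (F := F) hd ⟨k, hk⟩ (Nat.lt_succ_self k)
  have hfk := eb_mem_W (F := F) hd ⟨k, hk⟩ (Nat.lt_succ_self k)
  have hef : QuadraticMap.polar ⇑Q (Pi.single (a ⟨k, hk⟩) (1 : F)) (Pi.single (b ⟨k, hk⟩) (1 : F)) = 1 := by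
    rw [hd.polar_a, Pi.single_eq_same]
  ext v
  constructor
  · rintro ⟨g, rfl⟩
    refine ⟨mulVec_mem_W hd (k + 1) g.1 (K_le k hk g.2) _ hfk, ?_, ?_⟩
    · show Q (((g.1 : GL ι F) : Matrix ι ι F) *ᵥ _) = 0
      rw [iso_apply ⇑Q g.1, hd.Qb]
    · have h1 := iso_polar ⇑Q g.1 (Pi.single (a ⟨k, hk⟩) (1 : F)) (Pi.single (b ⟨k, hk⟩) (1 : F))
      rw [g.2 _ (Set.mem_union_right _ rfl), hef, hd.polar_a] at h1
      exact h1
  · rintro ⟨hv, hQv, hv1⟩
    obtain ⟨g, hg, hge, hgf⟩ := exists_fix_map Q (S a b F (k + 1)) (Pi.single (a ⟨k, hk⟩) 1) v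
      (Pi.single (b ⟨k, hk⟩) 1) (hd.Qa _) hQv (hd.Qb _) (by rw [hd.polar_a, hv1]) hef
      ((mem_W_iff hd _ _).mp hek) ((mem_W_iff hd _ _).mp hv) ((mem_W_iff hd _ _).mp hfk)
    refine ⟨⟨g, ?_⟩, hgf⟩
    rintro s (hs | hs)
    · exact hg s hs
    · rw [Set.mem_singleton_iff] at hs
      rw [hs]
      exact hge

lemma stabilizer_f (k : ℕ) (hk : k < m) :
    MulAction.stabilizer (K Q a b k hk) (Pi.single (b ⟨k, hk⟩) (1 : F) : ι → F)
      = (H Q a b k).subgroupOf (K Q a b k hk) := by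
  ext g
  rw [MulAction.mem_stabilizer_iff, Subgroup.mem_subgroupOf]
  constructor
  · rintro h s ⟨i, hi, hs⟩
    rcases Nat.eq_or_lt_of_le hi with h3 | h3
    · have hi' : i = ⟨k, hk⟩ := Fin.ext h3.symm
      rcases hs with hs | hs
      · rw [hs, hi']
        exact g.2 _ (Set.mem_union_right _ rfl)
      · rw [hs, hi']
        exact h
    · exact g.2 s (Set.mem_union_left _ ⟨i, h3, hs⟩)
  · intro h
    exact h _ ⟨⟨k, hk⟩, le_rfl, Or.inr rfl⟩

/-- Orbit–stabiliser along the chain. -/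
lemma card_H_succ (hd : HypData Q a b) (k : ℕ) (hk : k < m) :
    Nat.card (H Q a b (k + 1)) = Nat.card (H Q a b k)
      * (Set.ncard {v : ι → F | v ∈ W a b F (k + 1) ∧ Q v = 0 ∧ v (b ⟨k, hk⟩) = 1}
        * Set.ncard {u : ι → F | u ∈ W a b F (k + 1) ∧ Q u = 0 ∧ u ≠ 0}) := by
  have h1 := Subgroup.card_mul_index (MulAction.stabilizer (H Q a b (k + 1))
    (Pi.single (a ⟨k, hk⟩) (1 : F) : ι → F))
  rw [MulAction.index_stabilizer, orbit_e hd k hk, stabilizer_e k hk,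
    Nat.card_congr (Subgroup.subgroupOfEquivOfLe (K_le k hk)).toEquiv] at h1
  have h2 := Subgroup.card_mul_index (MulAction.stabilizer (K Q a b k hk)
    (Pi.single (b ⟨k, hk⟩) (1 : F) : ι → F))
  rw [MulAction.index_stabilizer, orbit_f hd k hk, stabilizer_f k hk,
    Nat.card_congr (Subgroup.subgroupOfEquivOfLe (H_le k hk)).toEquiv] at h2
  rw [← h1, ← h2, mul_assoc]

end Cfsg.Agent.Lib_helper4_OrthCard
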