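import Mathlib
import Cfsg.Prelude.Def_ClassicalGeometry
import Cfsg.Agent.Lib_helper4_Quad
import Cfsg.Agent.Lib_helper4_Quad2
import Cfsg.Agent.Lib_helper4_Orth
import Cfsg.Agent.Lib_helper4_OrthCard
import Cfsg.Agent.Lib_helper4_QCount

/-! Counting for the chain of `Lib_helper4_OrthCard`: the spaces `W k`, their singular vectors, and the
partners of a hyperbolic basis vector. -/

namespace Cfsg.Agent.Lib_helper4_OrthCount
open Matrix Cfsg.Agent.Lib_helper4_Quad Cfsg.Agent.Lib_helper4_Quad2 Cfsg.Agent.Lib_helper4_Orth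
  Cfsg.Agent.Lib_helper4_OrthCard

variable {ι : Type} [Fintype ι] [DecidableEq ι] {F : Type*} [Field F]
variable {Q : QuadraticForm F (ι → F)} {m : ℕ} {a b : Fin m → ι}

lemma coord_a (hd : HypData Q a b) (k : ℕ) (hk : k < m) (x : ι → F) (hx : x ∈ W a b F k) (s t : F) :
    (x + s • (Pi.single (a ⟨k, hk⟩) (1 : F) : ι → F) + t • (Pi.single (b ⟨k, hk⟩) (1 : F) : ι → F))
      (a ⟨k, hk⟩) = s := by
  rw [Pi.add_apply, Pi.add_apply, Pi.smul_apply, Pi.smul_apply, (hx ⟨k, hk⟩ le_rfl).1,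
    Pi.single_eq_same, hd.eb_a, smul_eq_mul, smul_eq_mul]
  ring

lemma coord_b (hd : HypData Q a b) (k : ℕ) (hk : k < m) (x : ι → F) (hx : x ∈ W a b F k) (s t : F) :
    (x + s • (Pi.single (a ⟨k, hk⟩) (1 : F) : ι → F) + t • (Pi.single (b ⟨k, hk⟩) (1 : F) : ι → F))
      (b ⟨k, hk⟩) = t := by
  rw [Pi.add_apply, Pi.add_apply, Pi.smul_apply, Pi.smul_apply, (hx ⟨k, hk⟩ le_rfl).2,
    Pi.single_eq_same, hd.ea_b, smul_eq_mul, smul_eq_mul]
  ring

lemma Q_decomp (hd : HypData Q a b) (k : ℕ) (hk : k < m) (x : ι → F) (hx : x ∈ W a b F k) (s t : F) :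
    Q (x + s • (Pi.single (a ⟨k, hk⟩) (1 : F) : ι → F) + t • (Pi.single (b ⟨k, hk⟩) (1 : F) : ι → F))
      = Q x + s * t := by
  rw [quad_add_smul, quad_add_smul, hd.Qa, hd.Qb, QuadraticMap.polar_add_left,
    QuadraticMap.polar_smul_left, QuadraticMap.polar_comm (⇑Q) x (Pi.single (a ⟨k, hk⟩) 1),
    QuadraticMap.polar_comm (⇑Q) x (Pi.single (b ⟨k, hk⟩) 1), hd.polar_a, hd.polar_b, hd.polar_a,
    (hx ⟨k, hk⟩ le_rfl).1, (hx ⟨k, hk⟩ le_rfl).2, Pi.single_eq_same, smul_eq_mul]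
  ring

lemma mem_W_sub (hd : HypData Q a b) (k : ℕ) (hk : k < m) (x : ι → F) (hx : x ∈ W a b F (k + 1)) :
    x - x (a ⟨k, hk⟩) • (Pi.single (a ⟨k, hk⟩) (1 : F) : ι → F)
      - x (b ⟨k, hk⟩) • (Pi.single (b ⟨k, hk⟩) (1 : F) : ι → F) ∈ W a b F k := by
  intro i hi
  rw [Pi.sub_apply, Pi.sub_apply, Pi.sub_apply, Pi.sub_apply, Pi.smul_apply, Pi.smul_apply,
    Pi.smul_apply, Pi.smul_apply, smul_eq_mul, smul_eq_mul, smul_eq_mul, smul_eq_mul]
  rcases Nat.eq_or_lt_of_le hi with h | h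
  · have hi' : i = ⟨k, hk⟩ := Fin.ext h.symm
    rw [hi', Pi.single_eq_same, Pi.single_eq_same, hd.ea_b, hd.eb_a]
    constructor
    · ring
    · ring
  · have hne : i ≠ ⟨k, hk⟩ := fun h' => by rw [h'] at h; exact lt_irrefl _ h
    rw [(hx i h).1, (hx i h).2, hd.ea_a hne, hd.ea_b, hd.eb_a, hd.eb_b hne]
    constructor
    · ring
    · ring

lemma mem_W_add (hd : HypData Q a b) (k : ℕ) (hk : k < m) (x : ι → F) (hx : x ∈ W a b F k) (s t : F) :
    x + s • (Pi.single (a ⟨k, hk⟩) (1 : F) : ι → F) + t • (Pi.single (b ⟨k, hk⟩) (1 : F) : ι → F)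
      ∈ W a b F (k + 1) := by
  intro i hi
  have hne : i ≠ ⟨k, hk⟩ := fun h' => by rw [h'] at hi; exact absurd hi (Nat.not_succ_le_self k)
  rw [Pi.add_apply, Pi.add_apply, Pi.add_apply, Pi.add_apply, Pi.smul_apply, Pi.smul_apply,
    Pi.smul_apply, Pi.smul_apply, (hx i (Nat.le_of_succ_le hi)).1, (hx i (Nat.le_of_succ_le hi)).2,
    hd.ea_a hne, hd.ea_b, hd.eb_a, hd.eb_b hne]
  simp

/-- Splitting off the `k`-th hyperbolic pair. -/
def decomp (hd : HypData Q a b) (k : ℕ) (hk : k < m) :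
    ↥(W a b F (k + 1)) ≃ ↥(W a b F k) × F × F where
  toFun x := (⟨x.1 - x.1 (a ⟨k, hk⟩) • (Pi.single (a ⟨k, hk⟩) (1 : F) : ι → F)
      - x.1 (b ⟨k, hk⟩) • (Pi.single (b ⟨k, hk⟩) (1 : F) : ι → F), mem_W_sub hd k hk x.1 x.2⟩,
    x.1 (a ⟨k, hk⟩), x.1 (b ⟨k, hk⟩))
  invFun p := ⟨p.1.1 + p.2.1 • (Pi.single (a ⟨k, hk⟩) (1 : F) : ι → F)
      + p.2.2 • (Pi.single (b ⟨k, hk⟩) (1 : F) : ι → F), mem_W_add hd k hk p.1.1 p.1.2 _ _⟩
  left_inv x := by
    apply Subtype.ext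
    show x.1 - x.1 (a ⟨k, hk⟩) • (Pi.single (a ⟨k, hk⟩) (1 : F) : ι → F)
      - x.1 (b ⟨k, hk⟩) • (Pi.single (b ⟨k, hk⟩) (1 : F) : ι → F)
      + x.1 (a ⟨k, hk⟩) • (Pi.single (a ⟨k, hk⟩) (1 : F) : ι → F)
      + x.1 (b ⟨k, hk⟩) • (Pi.single (b ⟨k, hk⟩) (1 : F) : ι → F) = x.1
    abel
  right_inv p := by
    obtain ⟨x, s, t⟩ := p
    have h1 := coord_a hd k hk x.1 x.2 s t
    have h2 := coord_b hd k hk x.1 x.2 s t
    refine Prod.ext (Subtype.ext ?_) (Prod.ext h1 h2)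
    show x.1 + s • (Pi.single (a ⟨k, hk⟩) (1 : F) : ι → F) + t • (Pi.single (b ⟨k, hk⟩) (1 : F) : ι → F)
      - (x.1 + s • (Pi.single (a ⟨k, hk⟩) (1 : F) : ι → F)
          + t • (Pi.single (b ⟨k, hk⟩) (1 : F) : ι → F)) (a ⟨k, hk⟩)
        • (Pi.single (a ⟨k, hk⟩) (1 : F) : ι → F)
      - (x.1 + s • (Pi.single (a ⟨k, hk⟩) (1 : F) : ι → F)
          + t • (Pi.single (b ⟨k, hk⟩) (1 : F) : ι → F)) (b ⟨k, hk⟩)
        • (Pi.single (b ⟨k, hk⟩) (1 : F) : ι → F) = x.1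
    rw [h1, h2]
    abel

lemma decomp_symm_val (hd : HypData Q a b) (k : ℕ) (hk : k < m) (p : ↥(W a b F k) × F × F) :
    ((decomp hd k hk).symm p).1 = p.1.1 + p.2.1 • (Pi.single (a ⟨k, hk⟩) (1 : F) : ι → F)
      + p.2.2 • (Pi.single (b ⟨k, hk⟩) (1 : F) : ι → F) := rfl

lemma Q_decomp' (hd : HypData Q a b) (k : ℕ) (hk : k < m) (x : ↥(W a b F (k + 1))) :
    Q x.1 = Q (decomp hd k hk x).1.1 + (decomp hd k hk x).2.1 * (decomp hd k hk x).2.2 := by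
  have h := Q_decomp hd k hk (decomp hd k hk x).1.1 (decomp hd k hk x).1.2
    (decomp hd k hk x).2.1 (decomp hd k hk x).2.2
  rw [← decomp_symm_val hd k hk (decomp hd k hk x), Equiv.symm_apply_apply] at h
  exact h

variable [Fintype F] {q : ℕ}

lemma card_W_succ (hd : HypData Q a b) (hF : Fintype.card F = q) (k : ℕ) (hk : k < m) :
    Nat.card ↥(W a b F (k + 1)) = Nat.card ↥(W a b F k) * q ^ 2 := by
  rw [Nat.card_congr (decomp hd k hk), Nat.card_prod, Nat.card_prod,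
    Nat.card_eq_fintype_card (α := F), hF, sq]

theorem card_W (hd : HypData Q a b) (hF : Fintype.card F = q) (k : ℕ) (hk : k ≤ m) :
    Nat.card ↥(W a b F k) = Nat.card ↥(W a b F 0) * q ^ (2 * k) := by
  induction k with
  | zero => simp
  | succ k ih =>
    rw [card_W_succ hd hF k hk, ih (Nat.le_of_succ_le hk)]
    ring

theorem card_sing_zero (hd : HypData Q a b) :
    Nat.card {x : ι → F // x ∈ W a b F 0 ∧ Q x = 0} = 1 := by
  rw [Nat.card_eq_one_iff_unique]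
  constructor
  · constructor
    rintro ⟨x, hx, hQx⟩ ⟨y, hy, hQy⟩
    apply Subtype.ext
    show x = y
    rw [hd.aniso x (fun i => hx i (Nat.zero_le _)) hQx, hd.aniso y (fun i => hy i (Nat.zero_le _)) hQy]
  · refine ⟨⟨0, ?_, ?_⟩⟩
    · intro i _
      exact ⟨rfl, rfl⟩
    · exact QuadraticMap.map_zero Q

theorem card_sing_succ (hd : HypData Q a b) (hF : Fintype.card F = q) (k : ℕ) (hk : k < m) :
    Nat.card {x : ι → F // x ∈ W a b F (k + 1) ∧ Q x = 0}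
      = Nat.card {x : ι → F // x ∈ W a b F k ∧ Q x = 0} * q + Nat.card ↥(W a b F k) * (q - 1) := by
  classical
  have : Fintype ↥(W a b F k) := Fintype.ofFinite _
  have e1 : {x : ι → F // x ∈ W a b F (k + 1) ∧ Q x = 0}
      ≃ {x : ↥(W a b F (k + 1)) // Q x.1 = 0} :=
    (Equiv.subtypeSubtypeEquivSubtypeInter (fun x : ι → F => x ∈ W a b F (k + 1))
      (fun x => Q x = 0)).symm
  have e2 : {x : ↥(W a b F (k + 1)) // Q x.1 = 0}
      ≃ {p : ↥(W a b F k) × F × F // Q p.1.1 + p.2.1 * p.2.2 = 0} :=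
    (decomp hd k hk).subtypeEquiv (fun x => by rw [Q_decomp' hd k hk x])
  have e3 : {x : ι → F // x ∈ W a b F k ∧ Q x = 0} ≃ {x : ↥(W a b F k) // Q x.1 = 0} :=
    (Equiv.subtypeSubtypeEquivSubtypeInter (fun x : ι → F => x ∈ W a b F k)
      (fun x => Q x = 0)).symm
  rw [Nat.card_congr (e1.trans e2),
    Cfsg.Agent.Lib_helper4_QCount.card_hypExt hF (fun x : ↥(W a b F k) => Q x.1),
    Nat.card_congr e3, Nat.card_eq_fintype_card (α := ↥(W a b F k))]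

theorem card_part (hd : HypData Q a b) (k : ℕ) (hk : k < m) :
    Nat.card {v : ι → F // v ∈ W a b F (k + 1) ∧ Q v = 0 ∧ v (b ⟨k, hk⟩) = 1}
      = Nat.card ↥(W a b F k) := by
  apply Nat.card_congr
  refine
    { toFun := fun v => (decomp hd k hk ⟨v.1, v.2.1⟩).1
      invFun := fun x => ⟨((decomp hd k hk).symm (x, -Q x.1, 1)).1,
        ((decomp hd k hk).symm (x, -Q x.1, 1)).2, ?_, ?_⟩
      left_inv := ?_
      right_inv := ?_ }
  · rw [decomp_symm_val, Q_decomp hd k hk x.1 x.2]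
    ring
  · rw [decomp_symm_val, coord_b hd k hk x.1 x.2]
  · intro v
    apply Subtype.ext
    have h1 := Q_decomp' hd k hk ⟨v.1, v.2.1⟩
    have h2 : (decomp hd k hk ⟨v.1, v.2.1⟩).2.2 = 1 := v.2.2.2
    have h3 : (decomp hd k hk ⟨v.1, v.2.1⟩).2.1 = -Q (decomp hd k hk ⟨v.1, v.2.1⟩).1.1 := by
      rw [h2, mul_one] at h1
      have h4 : Q v.1 = 0 := v.2.2.1
      have h1' := h4.symm.trans h1
      linear_combination -h1'
    have h5 : ((decomp hd k hk ⟨v.1, v.2.1⟩).1, -Q (decomp hd k hk ⟨v.1, v.2.1⟩).1.1, (1 : F))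
        = decomp hd k hk ⟨v.1, v.2.1⟩ := by
      refine Prod.ext rfl (Prod.ext h3.symm h2.symm)
    show ((decomp hd k hk).symm ((decomp hd k hk ⟨v.1, v.2.1⟩).1,
      -Q (decomp hd k hk ⟨v.1, v.2.1⟩).1.1, (1 : F))).1 = v.1
    rw [h5, Equiv.symm_apply_apply]
  · intro x
    show (decomp hd k hk ⟨((decomp hd k hk).symm (x, -Q x.1, 1)).1, _⟩).1 = x
    have h : (⟨((decomp hd k hk).symm (x, -Q x.1, 1)).1, ((decomp hd k hk).symm (x, -Q x.1, 1)).2⟩ :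
        ↥(W a b F (k + 1))) = (decomp hd k hk).symm (x, -Q x.1, 1) := rfl
    rw [h, Equiv.apply_symm_apply]

/-- Orbit–stabiliser along the chain, in terms of the counts of `W k` and of singular vectors. -/
theorem card_H_succ' (hd : HypData Q a b) (k : ℕ) (hk : k < m) :
    Nat.card (H Q a b (k + 1)) = Nat.card (H Q a b k)
      * (Nat.card ↥(W a b F k) * (Nat.card {x : ι → F // x ∈ W a b F (k + 1) ∧ Q x = 0} - 1)) := by
  rw [card_H_succ hd k hk]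
  congr 2
  · rw [← card_part hd k hk]
    exact (Nat.card_coe_set_eq _).symm
  · have h0 : (0 : ι → F) ∈ {x : ι → F | x ∈ W a b F (k + 1) ∧ Q x = 0} :=
      ⟨fun i _ => ⟨rfl, rfl⟩, QuadraticMap.map_zero Q⟩
    have h1 : {u : ι → F | u ∈ W a b F (k + 1) ∧ Q u = 0 ∧ u ≠ 0}
        = {x : ι → F | x ∈ W a b F (k + 1) ∧ Q x = 0} \ {0} := by
      ext u
      simp only [Set.mem_setOf_eq, Set.mem_diff, Set.mem_singleton_iff, and_assoc]
    rw [h1, Set.ncard_diff_singleton_of_mem h0, ← Nat.card_coe_set_eq]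
    rfl

theorem card_isometryGroup (Q : QuadraticForm F (ι → F)) (a b : Fin m → ι) :
    Nat.card (Cfsg.isometryGroup F ⇑Q) = Nat.card (H Q a b m) := by
  rw [H_top]
  exact (Nat.card_congr Subgroup.topEquiv.toEquiv).symm

end Cfsg.Agent.Lib_helper4_OrthCount
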