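import Mathlib
import Cfsg.Prelude.Def_ClassicalGeometry
import Cfsg.Agent.Lib_helper4_Quad
import Cfsg.Agent.Lib_helper4_Quad2
import Cfsg.Agent.Lib_helper4_Orth
import Cfsg.Agent.Lib_helper4_OrthCard
import Cfsg.Agent.Lib_helper4_OrthCount
import Cfsg.Agent.Lib_helper4_Conic

/-! The order of the orthogonal group of minus type. -/

namespace Cfsg.Agent.Lib_helper4_OMinus
open Matrix Cfsg.Agent.Lib_helper4_Orth Cfsg.Agent.Lib_helper4_OrthCard Cfsg.Agent.Lib_helper4_OrthCount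
  Cfsg.Agent.Lib_helper4_Quad Cfsg.Agent.Lib_helper4_Quad2 Cfsg.Agent.Lib_helper4_Conic

variable {F : Type*} [Field F] {n : ℕ}

/-- The index type. -/
abbrev I (n : ℕ) : Type := (Fin n ⊕ Fin n) ⊕ Fin 2

/-- The minus-type form as a `QuadraticForm`. -/
noncomputable def QM (n : ℕ) (F : Type*) [Field F] (a b : F) :
    QuadraticForm F ((Fin n ⊕ Fin n) ⊕ Fin 2 → F) :=
  (∑ i : Fin n, QuadraticMap.proj (R := F) (Sum.inl (Sum.inl i)) (Sum.inl (Sum.inr i)))
    + (QuadraticMap.proj (R := F) (Sum.inr 0) (Sum.inr 0)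
      + a • QuadraticMap.proj (R := F) (Sum.inr 0) (Sum.inr 1)
      + b • QuadraticMap.proj (R := F) (Sum.inr 1) (Sum.inr 1))

lemma QM_apply (a b : F) (v : (Fin n ⊕ Fin n) ⊕ Fin 2 → F) :
    QM n F a b v = Cfsg.quadFormMinus n F a b v := by
  unfold QM Cfsg.quadFormMinus
  simp only [QuadraticMap.add_apply, QuadraticMap.sum_apply, QuadraticMap.smul_apply,
    QuadraticMap.proj_apply, smul_eq_mul]
  ring

lemma coe_QM (a b : F) : ⇑(QM n F a b) = Cfsg.quadFormMinus n F a b := funext (QM_apply a b)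

/-- The first coordinates of the hyperbolic pairs. -/
def aM (n : ℕ) : Fin n → (Fin n ⊕ Fin n) ⊕ Fin 2 := fun i => Sum.inl (Sum.inl i)

/-- The second coordinates of the hyperbolic pairs. -/
def bM (n : ℕ) : Fin n → (Fin n ⊕ Fin n) ⊕ Fin 2 := fun i => Sum.inl (Sum.inr i)

lemma hypData (a b : F)
    (hab : ∀ z₁ z₂ : F, z₁ ^ 2 + a * z₁ * z₂ + b * z₂ ^ 2 = 0 → z₁ = 0 ∧ z₂ = 0) :
    HypData (QM n F a b) (aM n) (bM n) where
  inj := by
    intro x y h
    rcases x with x | x <;> rcases y with y | y <;> simpa [aM, bM] using h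
  polar_a := by
    intro i x
    unfold QuadraticMap.polar
    rw [QM_apply, QM_apply, QM_apply]
    unfold Cfsg.quadFormMinus
    simp [aM, bM, Pi.single_apply, add_mul, Finset.sum_add_distrib]
  polar_b := by
    intro i x
    unfold QuadraticMap.polar
    rw [QM_apply, QM_apply, QM_apply]
    unfold Cfsg.quadFormMinus
    simp [aM, bM, Pi.single_apply, mul_add, Finset.sum_add_distrib]
  Qa := by
    intro i
    rw [QM_apply]
    unfold Cfsg.quadFormMinus
    simp [aM, Pi.single_apply]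
  Qb := by
    intro i
    rw [QM_apply]
    unfold Cfsg.quadFormMinus
    simp [bM, Pi.single_apply]
  aniso := by
    intro x hx hQ
    rw [QM_apply] at hQ
    unfold Cfsg.quadFormMinus at hQ
    have h1 : ∑ i : Fin n, x (Sum.inl (Sum.inl i)) * x (Sum.inl (Sum.inr i)) = 0 := by
      apply Finset.sum_eq_zero
      intro i _
      have := (hx i).1
      unfold aM at this
      rw [this, zero_mul]
    rw [h1, zero_add] at hQ
    have h2 := hab _ _ hQ
    funext c
    rcases c with (i | i) | j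
    · exact (hx i).1
    · exact (hx i).2
    · revert j
      rw [Fin.forall_fin_two]
      exact h2

/-- The two anisotropic basis vectors. -/
def z₀ (n : ℕ) (F : Type*) [Field F] : (Fin n ⊕ Fin n) ⊕ Fin 2 → F := Pi.single (Sum.inr 0) 1

/-- The two anisotropic basis vectors. -/
def z₁ (n : ℕ) (F : Type*) [Field F] : (Fin n ⊕ Fin n) ⊕ Fin 2 → F := Pi.single (Sum.inr 1) 1

lemma polar_z₀ (a b : F) (x : (Fin n ⊕ Fin n) ⊕ Fin 2 → F) :
    QuadraticMap.polar ⇑(QM n F a b) (z₀ n F) x = 2 * x (Sum.inr 0) + a * x (Sum.inr 1) := by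
  unfold QuadraticMap.polar z₀
  rw [QM_apply, QM_apply, QM_apply]
  unfold Cfsg.quadFormMinus
  simp [Pi.single_apply]
  ring

lemma polar_z₁ (a b : F) (x : (Fin n ⊕ Fin n) ⊕ Fin 2 → F) :
    QuadraticMap.polar ⇑(QM n F a b) (z₁ n F) x = a * x (Sum.inr 0) + 2 * b * x (Sum.inr 1) := by
  unfold QuadraticMap.polar z₁
  rw [QM_apply, QM_apply, QM_apply]
  unfold Cfsg.quadFormMinus
  simp [Pi.single_apply]
  ring

lemma Q_comb (a b : F) (s t : F) :
    QM n F a b (s • z₀ n F + t • z₁ n F) = s ^ 2 + a * s * t + b * t ^ 2 := by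
  rw [QM_apply]
  unfold Cfsg.quadFormMinus z₀ z₁
  simp [Pi.single_apply]

lemma comb_apply_zero (s t : F) : (s • z₀ n F + t • z₁ n F) (Sum.inr 0) = s := by
  unfold z₀ z₁
  simp [Pi.single_apply]

lemma comb_apply_one (s t : F) : (s • z₀ n F + t • z₁ n F) (Sum.inr 1) = t := by
  unfold z₀ z₁
  simp [Pi.single_apply]

lemma comb_mem_W_zero (s t : F) : s • z₀ n F + t • z₁ n F ∈ W (aM n) (bM n) F 0 := by
  intro i _
  unfold z₀ z₁ aM bM
  simp [Pi.single_apply]

lemma eq_comb_of_mem_W_zero (x : (Fin n ⊕ Fin n) ⊕ Fin 2 → F) (hx : x ∈ W (aM n) (bM n) F 0) :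
    x = x (Sum.inr 0) • z₀ n F + x (Sum.inr 1) • z₁ n F := by
  funext c
  rcases c with (i | i) | j
  · have h := comb_mem_W_zero (n := n) (x (Sum.inr 0)) (x (Sum.inr 1)) i (Nat.zero_le _)
    exact ((hx i (Nat.zero_le _)).1).trans h.1.symm
  · have h := comb_mem_W_zero (n := n) (x (Sum.inr 0)) (x (Sum.inr 1)) i (Nat.zero_le _)
    exact ((hx i (Nat.zero_le _)).2).trans h.2.symm
  · revert j
    rw [Fin.forall_fin_two]
    exact ⟨(comb_apply_zero _ _).symm, (comb_apply_one _ _).symm⟩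

/-- `W 0` is the plane spanned by `z₀, z₁`. -/
def planeEquiv (n : ℕ) (F : Type*) [Field F] : ↥(W (aM n) (bM n) F 0) ≃ F × F where
  toFun x := (x.1 (Sum.inr 0), x.1 (Sum.inr 1))
  invFun p := ⟨p.1 • z₀ n F + p.2 • z₁ n F, comb_mem_W_zero _ _⟩
  left_inv x := Subtype.ext (eq_comb_of_mem_W_zero x.1 x.2).symm
  right_inv p := Prod.ext (comb_apply_zero _ _) (comb_apply_one _ _)

lemma Q_of_mem_W_zero (a b : F) (x : (Fin n ⊕ Fin n) ⊕ Fin 2 → F) (hx : x ∈ W (aM n) (bM n) F 0) :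
    QM n F a b x = g₂ a b (x (Sum.inr 0), x (Sum.inr 1)) := by
  conv_lhs => rw [eq_comb_of_mem_W_zero x hx]
  rw [Q_comb]
  rfl

/-- A reflection taking `u` to `u'` when `Q u = Q u'` and `Q (u - u') ≠ 0`. -/
lemma exists_refl_of_eq {ι : Type} [Fintype ι] [DecidableEq ι] (Q : QuadraticForm F (ι → F))
    (S : Set (ι → F)) (u u' : ι → F) (h : Q u = Q u') (hne : Q (u - u') ≠ 0)
    (hS : ∀ s ∈ S, QuadraticMap.polar ⇑Q s u = QuadraticMap.polar ⇑Q s u') :
    ∃ g : Cfsg.isometryGroup F ⇑Q, g ∈ fixer ⇑Q S ∧ ((g : GL ι F) : Matrix ι ι F) *ᵥ u = u' := by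
  have hw : Q (u - u') = 2 * Q u - QuadraticMap.polar ⇑Q u u' := by
    have h1 := quad_add_smul Q u u' (-1)
    rw [neg_one_smul, ← sub_eq_add_neg] at h1
    rw [h1, ← h]
    ring
  refine ⟨⟨refl Q (u - u') hne, refl_mem Q (u - u') hne⟩, ?_, ?_⟩
  · intro s hs
    show Cfsg.reflectionMatrix ⇑Q (u - u') *ᵥ s = s
    apply reflection_fix
    rw [QuadraticMap.polar_sub_left, QuadraticMap.polar_comm (⇑Q) u s,
      QuadraticMap.polar_comm (⇑Q) u' s, hS s hs, sub_self]
  · show Cfsg.reflectionMatrix ⇑Q (u - u') *ᵥ u = u'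
    rw [reflection_mulVec]
    have h2 : QuadraticMap.polar ⇑Q (u - u') u = Q (u - u') := by
      rw [hw, QuadraticMap.polar_sub_left, polar_self', QuadraticMap.polar_comm (⇑Q) u' u]
    rw [h2, inv_mul_cancel₀ hne, one_smul]
    abel

attribute [local instance] vecAction

section base

variable [Fintype F] {q : ℕ}

lemma orbit_z₀ (a b : F)
    (hab : ∀ z₁ z₂ : F, z₁ ^ 2 + a * z₁ * z₂ + b * z₂ ^ 2 = 0 → z₁ = 0 ∧ z₂ = 0) :
    MulAction.orbit (H (QM n F a b) (aM n) (bM n) 0) (z₀ n F)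
      = {x | x ∈ W (aM n) (bM n) F 0 ∧ QM n F a b x = 1} := by
  have hd := hypData (n := n) a b hab
  have hz₀ : z₀ n F ∈ W (aM n) (bM n) F 0 := by
    have := comb_mem_W_zero (n := n) (1 : F) 0
    rw [one_smul, zero_smul, add_zero] at this
    exact this
  have hQz₀ : QM n F a b (z₀ n F) = 1 := by
    have := Q_comb (n := n) a b 1 0
    rw [one_smul, zero_smul, add_zero] at this
    rw [this]
    ring
  ext x
  constructor
  · rintro ⟨g, rfl⟩
    refine ⟨mulVec_mem_W hd 0 g.1 g.2 _ hz₀, ?_⟩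
    show QM n F a b (((g.1 : GL (I n) F) : Matrix (I n) (I n) F) *ᵥ _) = 1
    rw [iso_apply ⇑(QM n F a b) g.1, hQz₀]
  · rintro ⟨hx, hQx⟩
    by_cases hxz : z₀ n F = x
    · rw [← hxz]
      exact MulAction.mem_orbit_self _
    · have hne : QM n F a b (z₀ n F - x) ≠ 0 := by
        intro h0
        apply hxz
        have h1 : z₀ n F - x ∈ W (aM n) (bM n) F 0 := by
          intro i hi
          rw [Pi.sub_apply, Pi.sub_apply, (hz₀ i hi).1, (hz₀ i hi).2, (hx i hi).1, (hx i hi).2,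
            sub_zero]
          exact ⟨rfl, rfl⟩
        exact sub_eq_zero.mp (hd.aniso _ (fun i => h1 i (Nat.zero_le _)) h0)
      obtain ⟨g, hg, hgz⟩ := exists_refl_of_eq (QM n F a b) (S (aM n) (bM n) F 0) (z₀ n F) x
        (hQz₀.trans hQx.symm) hne
        (fun s hs => by rw [(mem_W_iff hd 0 _).mp hz₀ s hs, (mem_W_iff hd 0 _).mp hx s hs])
      exact ⟨⟨g, hg⟩, hgz⟩

lemma card_orbit_z₀ (hF : Fintype.card F = q) (a b : F)
    (hab : ∀ z₁ z₂ : F, z₁ ^ 2 + a * z₁ * z₂ + b * z₂ ^ 2 = 0 → z₁ = 0 ∧ z₂ = 0) :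
    Set.ncard (MulAction.orbit (H (QM n F a b) (aM n) (bM n) 0) (z₀ n F)) = q + 1 := by
  rw [orbit_z₀ a b hab, ← Nat.card_coe_set_eq, ← card_conic hF a b hab 1 one_ne_zero]
  apply Nat.card_congr
  have e1 : ↥{x | x ∈ W (aM n) (bM n) F 0 ∧ QM n F a b x = 1}
      ≃ {x : ↥(W (aM n) (bM n) F 0) // QM n F a b x.1 = 1} :=
    (Equiv.subtypeSubtypeEquivSubtypeInter (fun x => x ∈ W (aM n) (bM n) F 0)
      (fun x => QM n F a b x = 1)).symm
  refine e1.trans ((planeEquiv n F).subtypeEquiv (fun x => ?_))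
  rw [Q_of_mem_W_zero a b x.1 x.2]
  rfl

/-- The nontrivial element of the stabiliser of `z₀`: the reflection in `a z₀ - 2 z₁`. -/
lemma exists_rho (a b : F) (hD : 4 * b - a ^ 2 ≠ 0)
    (hab : ∀ z₁ z₂ : F, z₁ ^ 2 + a * z₁ * z₂ + b * z₂ ^ 2 = 0 → z₁ = 0 ∧ z₂ = 0) :
    ∃ g : H (QM n F a b) (aM n) (bM n) 0,
      ((g.1 : GL (I n) F) : Matrix (I n) (I n) F) *ᵥ z₀ n F = z₀ n F ∧
      ((g.1 : GL (I n) F) : Matrix (I n) (I n) F) *ᵥ z₁ n F = a • z₀ n F + (-1 : F) • z₁ n F := by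
  have hd := hypData (n := n) a b hab
  have hQw : QM n F a b (a • z₀ n F + (-2 : F) • z₁ n F) = 4 * b - a ^ 2 := by
    rw [Q_comb]
    ring
  have hne : QM n F a b (a • z₀ n F + (-2 : F) • z₁ n F) ≠ 0 := by
    rw [hQw]
    exact hD
  refine ⟨⟨⟨refl (QM n F a b) _ hne, refl_mem (QM n F a b) _ hne⟩, ?_⟩, ?_, ?_⟩
  · intro s hs
    show Cfsg.reflectionMatrix ⇑(QM n F a b) _ *ᵥ s = s
    apply reflection_fix
    rw [QuadraticMap.polar_comm]
    exact (mem_W_iff hd 0 _).mp (comb_mem_W_zero a (-2)) s hs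
  · show Cfsg.reflectionMatrix ⇑(QM n F a b) _ *ᵥ z₀ n F = z₀ n F
    apply reflection_fix
    rw [QuadraticMap.polar_comm, polar_z₀, comb_apply_zero, comb_apply_one]
    ring
  · show Cfsg.reflectionMatrix ⇑(QM n F a b) _ *ᵥ z₁ n F = _
    rw [reflection_mulVec, QuadraticMap.polar_comm, polar_z₁, comb_apply_zero, comb_apply_one, hQw]
    have h1 : (4 * b - a ^ 2)⁻¹ * (a * a + 2 * b * -2) = -1 := by
      field_simp
      ring
    rw [h1]
    module

lemma card_stabilizer_z₀ (a b : F)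
    (hab : ∀ z₁ z₂ : F, z₁ ^ 2 + a * z₁ * z₂ + b * z₂ ^ 2 = 0 → z₁ = 0 ∧ z₂ = 0) :
    Nat.card (MulAction.stabilizer (H (QM n F a b) (aM n) (bM n) 0) (z₀ n F)) = 2 := by
  have hd := hypData (n := n) a b hab
  have hD := disc_ne_zero a b hab
  obtain ⟨ρ, hρ0, hρ1⟩ := exists_rho (n := n) a b hD hab
  have hz₁ : z₁ n F ∈ W (aM n) (bM n) F 0 := by
    have := comb_mem_W_zero (n := n) (0 : F) 1
    rw [one_smul, zero_smul, zero_add] at this
    exact this
  have hQz₁ : QM n F a b (z₁ n F) = b := by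
    have := Q_comb (n := n) a b 0 1
    rw [one_smul, zero_smul, zero_add] at this
    rw [this]
    ring
  -- equality of elements of `H 0` from their values on `z₁`, given they fix `z₀`
  have hext : ∀ g h : H (QM n F a b) (aM n) (bM n) 0,
      ((g.1 : GL (I n) F) : Matrix (I n) (I n) F) *ᵥ z₀ n F = ((h.1 : GL (I n) F) : Matrix (I n) (I n) F) *ᵥ z₀ n F →
      ((g.1 : GL (I n) F) : Matrix (I n) (I n) F) *ᵥ z₁ n F = ((h.1 : GL (I n) F) : Matrix (I n) (I n) F) *ᵥ z₁ n F →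
      g = h := by
    intro g h h0 h1
    apply Subtype.ext
    apply Subtype.ext
    apply Units.ext
    apply Matrix.ext_of_mulVec_single
    intro c
    rcases c with (i | i) | j
    · exact (g.2 _ ⟨i, Nat.zero_le _, Or.inl rfl⟩).trans (h.2 _ ⟨i, Nat.zero_le _, Or.inl rfl⟩).symm
    · exact (g.2 _ ⟨i, Nat.zero_le _, Or.inr rfl⟩).trans (h.2 _ ⟨i, Nat.zero_le _, Or.inr rfl⟩).symm
    · revert j
      rw [Fin.forall_fin_two]
      exact ⟨h0, h1⟩
  have hρmem : ρ ∈ MulAction.stabilizer (H (QM n F a b) (aM n) (bM n) 0) (z₀ n F) := hρ0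
  rw [Nat.card_eq_two_iff]
  refine ⟨1, ⟨ρ, hρmem⟩, ?_, ?_⟩
  · intro h
    have h1 : ρ = 1 := (congrArg Subtype.val h).symm
    rw [h1] at hρ1
    have h2 : z₁ n F = a • z₀ n F + (-1 : F) • z₁ n F :=
      (one_mulVec (z₁ n F)).symm.trans hρ1
    have h3 := congrFun h2 (Sum.inr 0)
    have h4 := congrFun h2 (Sum.inr 1)
    rw [comb_apply_zero] at h3
    rw [comb_apply_one] at h4
    have h5 : (z₁ n F) (Sum.inr 0) = 0 := by
      unfold z₁
      simp [Pi.single_apply]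
    have h6 : (z₁ n F) (Sum.inr 1) = 1 := by
      unfold z₁
      simp [Pi.single_apply]
    rw [h5] at h3
    rw [h6] at h4
    apply hD
    have h7 : (2 : F) = 0 := by linear_combination h4
    have h8 : (4 : F) = 0 := by linear_combination 2 * h7
    rw [← h3, h8]
    ring
  · rw [Set.eq_univ_iff_forall]
    intro g
    have hg0 : ((g.1.1 : GL (I n) F) : Matrix (I n) (I n) F) *ᵥ z₀ n F = z₀ n F := g.2
    set y := ((g.1.1 : GL (I n) F) : Matrix (I n) (I n) F) *ᵥ z₁ n F with hy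
    have hyW : y ∈ W (aM n) (bM n) F 0 := mulVec_mem_W hd 0 g.1.1 g.1.2 _ hz₁
    have hyc := eq_comb_of_mem_W_zero y hyW
    have hQy : QM n F a b y = b := by
      rw [hy, iso_apply ⇑(QM n F a b) g.1.1, hQz₁]
    have hBy : QuadraticMap.polar ⇑(QM n F a b) (z₀ n F) y = a := by
      have h1 := iso_polar ⇑(QM n F a b) g.1.1 (z₀ n F) (z₁ n F)
      rw [hg0, polar_z₀ a b (z₁ n F)] at h1
      rw [hy, h1]
      unfold z₁
      simp [Pi.single_apply]
    rw [Q_of_mem_W_zero a b y hyW] at hQy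
    unfold g₂ at hQy
    simp only at hQy
    rw [polar_z₀] at hBy
    set α := y (Sum.inr 0) with hα
    set β := y (Sum.inr 1) with hβ
    have hsol : (α = 0 ∧ β = 1) ∨ (α = a ∧ β = -1) := by
      by_cases h2 : (2 : F) = 0
      · have h4 : (4 : F) = 0 := by linear_combination 2 * h2
        have ha : a ≠ 0 := by
          rintro rfl
          apply hD
          rw [h4]
          ring
        have hβ1 : β = 1 := by
          have : a * (β - 1) = 0 := by linear_combination hBy - α * h2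
          rcases mul_eq_zero.mp this with h | h
          · exact absurd h ha
          · exact sub_eq_zero.mp h
        have hα1 : α * (α + a) = 0 := by
          rw [hβ1] at hQy
          linear_combination hQy
        rcases mul_eq_zero.mp hα1 with h | h
        · exact Or.inl ⟨h, hβ1⟩
        · right
          refine ⟨?_, ?_⟩
          · linear_combination h - a * h2
          · rw [hβ1]
            linear_combination h2
      · have h5 : (1 - β) * (1 + β) * (4 * b - a ^ 2) = 0 := by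
          linear_combination (-4 : F) * hQy + (2 * α + a * β + a) * hBy
        rcases mul_eq_zero.mp h5 with h | h
        · rcases mul_eq_zero.mp h with h | h
          · left
            have hβ1 : β = 1 := by linear_combination -h
            refine ⟨?_, hβ1⟩
            rw [hβ1] at hBy
            have : 2 * α = 0 := by linear_combination hBy
            exact (mul_eq_zero.mp this).resolve_left h2
          · right
            have hβ1 : β = -1 := by linear_combination h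
            refine ⟨?_, hβ1⟩
            rw [hβ1] at hBy
            have : 2 * (α - a) = 0 := by linear_combination hBy
            exact sub_eq_zero.mp ((mul_eq_zero.mp this).resolve_left h2)
        · exact absurd h hD
    rcases hsol with ⟨h1, h2⟩ | ⟨h1, h2⟩
    · left
      apply Subtype.ext
      apply hext
      · rw [hg0]
        exact (one_mulVec _).symm
      · rw [← hy, hyc, h1, h2, zero_smul, one_smul, zero_add]
        exact (one_mulVec _).symm
    · right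
      rw [Set.mem_singleton_iff]
      apply Subtype.ext
      apply hext
      · rw [hg0, hρ0]
      · rw [← hy, hyc, h1, h2, hρ1]

lemma card_H_zero (hF : Fintype.card F = q) (a b : F)
    (hab : ∀ z₁ z₂ : F, z₁ ^ 2 + a * z₁ * z₂ + b * z₂ ^ 2 = 0 → z₁ = 0 ∧ z₂ = 0) :
    Nat.card (H (QM n F a b) (aM n) (bM n) 0) = 2 * (q + 1) := by
  have h1 := Subgroup.card_mul_index (MulAction.stabilizer (H (QM n F a b) (aM n) (bM n) 0) (z₀ n F))
  rw [MulAction.index_stabilizer, card_orbit_z₀ hF a b hab, card_stabilizer_z₀ a b hab] at h1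
  exact h1.symm

end base


section count

variable [Fintype F] {q : ℕ}

lemma card_W_zero (hF : Fintype.card F = q) : Nat.card ↥(W (aM n) (bM n) F 0) = q ^ 2 := by
  rw [Nat.card_congr (planeEquiv n F), Nat.card_prod, Nat.card_eq_fintype_card, hF, sq]

lemma card_W' (hF : Fintype.card F = q) (k : ℕ) (hk : k ≤ n) (a b : F)
    (hab : ∀ z₁ z₂ : F, z₁ ^ 2 + a * z₁ * z₂ + b * z₂ ^ 2 = 0 → z₁ = 0 ∧ z₂ = 0) :
    Nat.card ↥(W (aM n) (bM n) F k) = q ^ (2 * k + 2) := by
  rw [card_W (hypData a b hab) hF k hk, card_W_zero hF]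
  ring

lemma card_sing (hF : Fintype.card F = q) (a b : F)
    (hab : ∀ z₁ z₂ : F, z₁ ^ 2 + a * z₁ * z₂ + b * z₂ ^ 2 = 0 → z₁ = 0 ∧ z₂ = 0) (k : ℕ) (hk : k ≤ n) :
    Nat.card {x : I n → F // x ∈ W (aM n) (bM n) F k ∧ QM n F a b x = 0} + q ^ (k + 1)
      = q ^ (2 * k + 1) + q ^ k := by
  have hq : 1 ≤ q := by
    rw [← hF]
    exact Fintype.card_pos
  induction k with
  | zero =>
    rw [card_sing_zero (hypData a b hab)]
    ring
  | succ k ih =>
    rw [card_sing_succ (hypData a b hab) hF k hk, card_W' hF k (Nat.le_of_succ_le hk) a b hab]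
    have ih' := ih (Nat.le_of_succ_le hk)
    obtain ⟨r, rfl⟩ : ∃ r, q = r + 1 := ⟨q - 1, by omega⟩
    simp only [Nat.add_sub_cancel]
    linear_combination (r + 1) * ih'

lemma card_sing_sub (hF : Fintype.card F = q) (a b : F)
    (hab : ∀ z₁ z₂ : F, z₁ ^ 2 + a * z₁ * z₂ + b * z₂ ^ 2 = 0 → z₁ = 0 ∧ z₂ = 0) (k : ℕ)
    (hk : k + 1 ≤ n) :
    Nat.card {x : I n → F // x ∈ W (aM n) (bM n) F (k + 1) ∧ QM n F a b x = 0} - 1
      = (q ^ (k + 1) - 1) * (q ^ (k + 2) + 1) := by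
  have hq : 1 ≤ q := by
    rw [← hF]
    exact Fintype.card_pos
  have h := card_sing hF a b hab (k + 1) hk
  have h1 : 1 ≤ q ^ (k + 1) := Nat.one_le_pow _ _ hq
  obtain ⟨r, hr⟩ : ∃ r, q ^ (k + 1) = r + 1 := ⟨q ^ (k + 1) - 1, by omega⟩
  have h2 : q ^ (2 * (k + 1) + 1) = q ^ (k + 2) * (r + 1) := by
    rw [← hr, ← pow_add]
    congr 1
    ring
  have h2' : q ^ (k + 1 + 1) = q ^ (k + 2) := rfl
  rw [hr, h2, h2'] at h
  rw [hr, Nat.add_sub_cancel]
  have h3 : Nat.card {x : I n → F // x ∈ W (aM n) (bM n) F (k + 1) ∧ QM n F a b x = 0}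
      = r * (q ^ (k + 2) + 1) + 1 := by
    have h4 : q ^ (k + 2) * (r + 1) + (r + 1) = (r * (q ^ (k + 2) + 1) + 1) + q ^ (k + 2) := by ring
    rw [h4] at h
    exact Nat.add_right_cancel h
  rw [h3, Nat.add_sub_cancel]

lemma card_H (hF : Fintype.card F = q) (a b : F)
    (hab : ∀ z₁ z₂ : F, z₁ ^ 2 + a * z₁ * z₂ + b * z₂ ^ 2 = 0 → z₁ = 0 ∧ z₂ = 0) (k : ℕ) (hk : k ≤ n) :
    Nat.card (H (QM n F a b) (aM n) (bM n) k)
      = 2 * (q + 1) * ∏ j ∈ Finset.range k,
          (q ^ (2 * j + 2) * ((q ^ (j + 1) - 1) * (q ^ (j + 2) + 1))) := by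
  induction k with
  | zero =>
    rw [card_H_zero hF a b hab]
    simp
  | succ k ih =>
    rw [card_H_succ' (hypData a b hab) k hk, ih (Nat.le_of_succ_le hk), Finset.prod_range_succ,
      card_W' hF k (Nat.le_of_succ_le hk) a b hab, card_sing_sub hF a b hab k hk]
    ring

lemma prod_formula (q : ℕ) (hq : 1 ≤ q) (n : ℕ) :
    2 * (q + 1) * ∏ j ∈ Finset.range n, (q ^ (2 * j + 2) * ((q ^ (j + 1) - 1) * (q ^ (j + 2) + 1)))
      = 2 * q ^ ((n + 1) * n) * (q ^ (n + 1) + 1) * ∏ i ∈ Finset.range n, (q ^ (2 * (i + 1)) - 1) := by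
  induction n with
  | zero => simp
  | succ n ih =>
    rw [Finset.prod_range_succ, ← mul_assoc, ih, Finset.prod_range_succ]
    have h1 : 1 ≤ q ^ (n + 1) := Nat.one_le_pow _ _ hq
    have h2 : q ^ (2 * (n + 1)) - 1 = (q ^ (n + 1) - 1) * (q ^ (n + 1) + 1) := by
      obtain ⟨r, hr⟩ : ∃ r, q ^ (n + 1) = r + 1 := ⟨q ^ (n + 1) - 1, by omega⟩
      have h3 : q ^ (2 * (n + 1)) = (r + 1) * (r + 1) := by
        rw [← hr]
        ring
      rw [h3, hr, Nat.add_sub_cancel]
      have h4 : (r + 1) * (r + 1) = r * (r + 1 + 1) + 1 := by ring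
      rw [h4, Nat.add_sub_cancel]
    rw [h2]
    have h5 : q ^ ((n + 1 + 1) * (n + 1)) = q ^ ((n + 1) * n) * q ^ (2 * n + 2) := by
      rw [← pow_add]
      congr 1
      ring
    rw [h5]
    ring

/-- The order of the orthogonal group of minus type. -/
theorem card_OMinus (hF : Fintype.card F = q) (m : ℕ) (hm : 1 ≤ m) (a b : F)
    (hab : ∀ z₁ z₂ : F, z₁ ^ 2 + a * z₁ * z₂ + b * z₂ ^ 2 = 0 → z₁ = 0 ∧ z₂ = 0) :
    Nat.card (Cfsg.isometryGroup F (Cfsg.quadFormMinus (m - 1) F a b))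
      = 2 * q ^ (m * (m - 1)) * (q ^ m + 1) * ∏ i ∈ Finset.range (m - 1), (q ^ (2 * (i + 1)) - 1) := by
  have hq : 1 ≤ q := by
    rw [← hF]
    exact Fintype.card_pos
  obtain ⟨n, rfl⟩ : ∃ n, m = n + 1 := ⟨m - 1, by omega⟩
  show Nat.card (Cfsg.isometryGroup F (Cfsg.quadFormMinus n F a b))
    = 2 * q ^ ((n + 1) * n) * (q ^ (n + 1) + 1) * ∏ i ∈ Finset.range n, (q ^ (2 * (i + 1)) - 1)
  rw [← coe_QM, card_isometryGroup (QM n F a b) (aM n) (bM n), card_H hF a b hab n le_rfl,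
    prod_formula q hq n]

end count

end Cfsg.Agent.Lib_helper4_OMinus
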