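import Mathlib
import Cfsg.Prelude.Def_ClassicalGeometry
import Cfsg.Agent.Lib_helper4_Orth
import Cfsg.Agent.Lib_helper4_OrthCard
import Cfsg.Agent.Lib_helper4_OrthCount
import Cfsg.Agent.Lib_helper4_SUCenter

/-! The order of the orthogonal group in odd dimension (odd characteristic). -/

namespace Cfsg.Agent.Lib_helper4_OOdd
open Matrix Cfsg.Agent.Lib_helper4_Orth Cfsg.Agent.Lib_helper4_OrthCard Cfsg.Agent.Lib_helper4_OrthCount
  Cfsg.Agent.Lib_helper4_Quad2

variable {F : Type*} [Field F] {m : ℕ}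

/-- The odd-dimensional form as a `QuadraticForm`. -/
noncomputable def QO (m : ℕ) (F : Type*) [Field F] : QuadraticForm F (Unit ⊕ (Fin m ⊕ Fin m) → F) :=
  QuadraticMap.proj (R := F) (Sum.inl ()) (Sum.inl ())
    + ∑ i : Fin m, QuadraticMap.proj (R := F) (Sum.inr (Sum.inl i)) (Sum.inr (Sum.inr i))

lemma QO_apply (v : Unit ⊕ (Fin m ⊕ Fin m) → F) : QO m F v = Cfsg.quadFormOdd m F v := by
  unfold QO Cfsg.quadFormOdd
  rw [QuadraticMap.add_apply, QuadraticMap.sum_apply, sq]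
  rfl

lemma coe_QO : ⇑(QO m F) = Cfsg.quadFormOdd m F := funext QO_apply

/-- The first coordinates of the hyperbolic pairs. -/
def aO (m : ℕ) : Fin m → Unit ⊕ (Fin m ⊕ Fin m) := fun i => Sum.inr (Sum.inl i)

/-- The second coordinates of the hyperbolic pairs. -/
def bO (m : ℕ) : Fin m → Unit ⊕ (Fin m ⊕ Fin m) := fun i => Sum.inr (Sum.inr i)

lemma hypData : HypData (QO m F) (aO m) (bO m) where
  inj := by
    intro x y h
    rcases x with x | x <;> rcases y with y | y <;> simpa [aO, bO] using h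
  polar_a := by
    intro i x
    unfold QuadraticMap.polar
    rw [QO_apply, QO_apply, QO_apply]
    unfold Cfsg.quadFormOdd
    simp [aO, bO, Pi.single_apply, add_mul, Finset.sum_add_distrib]
  polar_b := by
    intro i x
    unfold QuadraticMap.polar
    rw [QO_apply, QO_apply, QO_apply]
    unfold Cfsg.quadFormOdd
    simp [aO, bO, Pi.single_apply, mul_add, Finset.sum_add_distrib]
  Qa := by
    intro i
    rw [QO_apply]
    unfold Cfsg.quadFormOdd
    simp [aO, Pi.single_apply]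
  Qb := by
    intro i
    rw [QO_apply]
    unfold Cfsg.quadFormOdd
    simp [bO, Pi.single_apply]
  aniso := by
    intro x hx hQ
    rw [QO_apply] at hQ
    unfold Cfsg.quadFormOdd at hQ
    have h1 : ∑ i : Fin m, x (Sum.inr (Sum.inl i)) * x (Sum.inr (Sum.inr i)) = 0 := by
      apply Finset.sum_eq_zero
      intro i _
      have := (hx i).1
      unfold aO at this
      rw [this, zero_mul]
    rw [h1, add_zero] at hQ
    funext c
    rcases c with u | i | i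
    · exact pow_eq_zero_iff (two_ne_zero) |>.mp hQ
    · exact (hx i).1
    · exact (hx i).2

lemma eq_smul_of_mem_W_zero (x : Unit ⊕ (Fin m ⊕ Fin m) → F) (hx : x ∈ W (aO m) (bO m) F 0) :
    x = x (Sum.inl ()) • (Pi.single (Sum.inl ()) (1 : F) : Unit ⊕ (Fin m ⊕ Fin m) → F) := by
  funext c
  rcases c with u | i | i
  · rw [Pi.smul_apply, Pi.single_eq_same, smul_eq_mul, mul_one]
  · rw [Pi.smul_apply, Pi.single_eq_of_ne (by simp), smul_zero]
    exact (hx i (Nat.zero_le _)).1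
  · rw [Pi.smul_apply, Pi.single_eq_of_ne (by simp), smul_zero]
    exact (hx i (Nat.zero_le _)).2

lemma e0_mem_W_zero :
    (Pi.single (Sum.inl ()) (1 : F) : Unit ⊕ (Fin m ⊕ Fin m) → F) ∈ W (aO m) (bO m) F 0 := by
  intro i _
  exact ⟨Pi.single_eq_of_ne (by simp [aO]) _, Pi.single_eq_of_ne (by simp [bO]) _⟩

lemma Q_e0 : QO m F (Pi.single (Sum.inl ()) (1 : F)) = 1 := by
  rw [QO_apply]
  unfold Cfsg.quadFormOdd
  simp [Pi.single_apply]

/-- The diagonal matrix `diag(c, 1, …, 1)`. -/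
def D (m : ℕ) (c : F) : Matrix (Unit ⊕ (Fin m ⊕ Fin m)) (Unit ⊕ (Fin m ⊕ Fin m)) F :=
  Matrix.diagonal (fun j => if j = Sum.inl () then c else 1)

lemma D_mul (c : F) (hc : c ^ 2 = 1) : D m c * D m c = 1 := by
  unfold D
  rw [Matrix.diagonal_mul_diagonal, ← Matrix.diagonal_one]
  congr 1
  funext j
  by_cases hj : j = Sum.inl ()
  · rw [if_pos hj, ← sq, hc]
  · rw [if_neg hj, mul_one]

lemma D_iso (c : F) (hc : c ^ 2 = 1) (x : Unit ⊕ (Fin m ⊕ Fin m) → F) :
    QO m F (D m c *ᵥ x) = QO m F x := by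
  rw [QO_apply, QO_apply]
  unfold Cfsg.quadFormOdd D
  simp only [Matrix.mulVec_diagonal]
  simp [mul_pow, hc]

lemma D_e0 (c : F) : D m c *ᵥ (Pi.single (Sum.inl ()) (1 : F) : Unit ⊕ (Fin m ⊕ Fin m) → F)
    = c • Pi.single (Sum.inl ()) (1 : F) := by
  unfold D
  funext j
  rw [Matrix.mulVec_diagonal, Pi.smul_apply, smul_eq_mul]
  by_cases hj : j = Sum.inl ()
  · rw [if_pos hj]
  · rw [if_neg hj, Pi.single_eq_of_ne hj, mul_zero, mul_zero]

lemma D_fix (c : F) (j : Fin m ⊕ Fin m) :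
    D m c *ᵥ (Pi.single (Sum.inr j) (1 : F) : Unit ⊕ (Fin m ⊕ Fin m) → F)
      = Pi.single (Sum.inr j) (1 : F) := by
  unfold D
  funext l
  rw [Matrix.mulVec_diagonal]
  by_cases hl : l = Sum.inl ()
  · rw [if_pos hl, hl, Pi.single_eq_of_ne (by simp), mul_zero]
  · rw [if_neg hl, one_mul]

/-- `diag(c, 1, …, 1)` as an element of `H 0`. -/
def DH (m : ℕ) (c : F) (hc : c ^ 2 = 1) : H (QO m F) (aO m) (bO m) 0 :=
  ⟨⟨⟨D m c, D m c, D_mul c hc, D_mul c hc⟩,
    (mem_isometryGroup_iff _ _).mpr (fun x => D_iso c hc x)⟩, by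
    rintro s ⟨i, -, rfl | rfl⟩
    · exact D_fix c (Sum.inl i)
    · exact D_fix c (Sum.inr i)⟩

lemma H_zero_apply (g : H (QO m F) (aO m) (bO m) 0) :
    (((g : Cfsg.isometryGroup F ⇑(QO m F)) : GL (Unit ⊕ (Fin m ⊕ Fin m)) F) :
        Matrix (Unit ⊕ (Fin m ⊕ Fin m)) (Unit ⊕ (Fin m ⊕ Fin m)) F)
      *ᵥ (Pi.single (Sum.inl ()) (1 : F) : Unit ⊕ (Fin m ⊕ Fin m) → F)
    = ((((g : Cfsg.isometryGroup F ⇑(QO m F)) : GL (Unit ⊕ (Fin m ⊕ Fin m)) F) :
        Matrix (Unit ⊕ (Fin m ⊕ Fin m)) (Unit ⊕ (Fin m ⊕ Fin m)) F)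
      *ᵥ (Pi.single (Sum.inl ()) (1 : F) : Unit ⊕ (Fin m ⊕ Fin m) → F)) (Sum.inl ())
      • (Pi.single (Sum.inl ()) (1 : F) : Unit ⊕ (Fin m ⊕ Fin m) → F) :=
  eq_smul_of_mem_W_zero _ (mulVec_mem_W hypData 0 g.1 g.2 _ e0_mem_W_zero)

lemma card_H_zero [Fintype F] {q : ℕ} (hF : Fintype.card F = q) (hodd : Odd q) :
    Nat.card (H (QO m F) (aO m) (bO m) 0) = 2 := by
  have h2 : (2 : ℕ) ∣ q - 1 := by
    obtain ⟨r, hr⟩ := hodd
    exact ⟨r, by omega⟩
  rw [← Cfsg.Agent.Lib_helper4_SUCenter.card_pow_eq_one hF 2 h2 (by norm_num)]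
  apply Nat.card_congr
  refine
    { toFun := fun g => ⟨((((g : Cfsg.isometryGroup F ⇑(QO m F)) : GL (Unit ⊕ (Fin m ⊕ Fin m)) F) :
        Matrix (Unit ⊕ (Fin m ⊕ Fin m)) (Unit ⊕ (Fin m ⊕ Fin m)) F)
          *ᵥ (Pi.single (Sum.inl ()) (1 : F) : Unit ⊕ (Fin m ⊕ Fin m) → F)) (Sum.inl ()), ?_⟩
      invFun := fun c => DH m c.1 c.2
      left_inv := ?_
      right_inv := ?_ }
  · have h1 := iso_apply ⇑(QO m F) g.1 (Pi.single (Sum.inl ()) (1 : F))
    rw [H_zero_apply g, QuadraticMap.map_smul, Q_e0, smul_eq_mul, mul_one, ← sq] at h1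
    exact h1
  · intro g
    apply Subtype.ext
    apply Subtype.ext
    apply Units.ext
    apply Matrix.ext_of_mulVec_single
    intro j
    rcases j with u | j
    · show D m _ *ᵥ (Pi.single (Sum.inl ()) (1 : F) : Unit ⊕ (Fin m ⊕ Fin m) → F) = _
      rw [D_e0]
      exact (H_zero_apply g).symm
    · show D m _ *ᵥ (Pi.single (Sum.inr j) (1 : F) : Unit ⊕ (Fin m ⊕ Fin m) → F) = _
      rw [D_fix]
      rcases j with i | i
      · exact (g.2 _ ⟨i, Nat.zero_le _, Or.inl rfl⟩).symm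
      · exact (g.2 _ ⟨i, Nat.zero_le _, Or.inr rfl⟩).symm
  · intro c
    apply Subtype.ext
    show (D m c.1 *ᵥ (Pi.single (Sum.inl ()) (1 : F) : Unit ⊕ (Fin m ⊕ Fin m) → F)) (Sum.inl ()) = c.1
    rw [D_e0, Pi.smul_apply, Pi.single_eq_same, smul_eq_mul, mul_one]

variable [Fintype F] {q : ℕ}

lemma card_W_zero (hF : Fintype.card F = q) : Nat.card ↥(W (aO m) (bO m) F 0) = q := by
  rw [← hF, ← Nat.card_eq_fintype_card]
  apply Nat.card_congr
  refine
    { toFun := fun x => x.1 (Sum.inl ())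
      invFun := fun t => ⟨t • Pi.single (Sum.inl ()) (1 : F), ?_⟩
      left_inv := ?_
      right_inv := ?_ }
  · intro i _
    have h := e0_mem_W_zero (F := F) (m := m) i (Nat.zero_le _)
    rw [Pi.smul_apply, Pi.smul_apply, h.1, h.2, smul_zero]
    exact ⟨rfl, rfl⟩
  · intro x
    apply Subtype.ext
    exact (eq_smul_of_mem_W_zero x.1 x.2).symm
  · intro t
    show (t • (Pi.single (Sum.inl ()) (1 : F) : Unit ⊕ (Fin m ⊕ Fin m) → F)) (Sum.inl ()) = t
    rw [Pi.smul_apply, Pi.single_eq_same, smul_eq_mul, mul_one]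

lemma card_W' (hF : Fintype.card F = q) (k : ℕ) (hk : k ≤ m) :
    Nat.card ↥(W (aO m) (bO m) F k) = q ^ (2 * k + 1) := by
  rw [card_W hypData hF k hk, card_W_zero hF]
  ring

lemma card_sing (hF : Fintype.card F = q) (k : ℕ) (hk : k ≤ m) :
    Nat.card {x : Unit ⊕ (Fin m ⊕ Fin m) → F // x ∈ W (aO m) (bO m) F k ∧ QO m F x = 0}
      = q ^ (2 * k) := by
  have hq : 1 ≤ q := by
    rw [← hF]
    exact Fintype.card_pos
  induction k with
  | zero =>
    rw [card_sing_zero hypData]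
    simp
  | succ k ih =>
    rw [card_sing_succ hypData hF k hk, card_W' hF k (Nat.le_of_succ_le hk), ih (Nat.le_of_succ_le hk)]
    obtain ⟨r, rfl⟩ : ∃ r, q = r + 1 := ⟨q - 1, by omega⟩
    simp only [Nat.add_sub_cancel]
    ring

lemma card_H (hF : Fintype.card F = q) (hodd : Odd q) (k : ℕ) (hk : k ≤ m) :
    Nat.card (H (QO m F) (aO m) (bO m) k)
      = 2 * q ^ (k ^ 2) * ∏ j ∈ Finset.range k, (q ^ (2 * (j + 1)) - 1) := by
  induction k with
  | zero =>
    rw [card_H_zero hF hodd]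
    simp
  | succ k ih =>
    rw [card_H_succ' hypData k hk, ih (Nat.le_of_succ_le hk), Finset.prod_range_succ,
      card_W' hF k (Nat.le_of_succ_le hk), card_sing hF (k + 1) hk]
    have h5 : q ^ ((k + 1) ^ 2) = q ^ (k ^ 2) * q ^ (2 * k + 1) := by
      rw [← pow_add]
      congr 1
      ring
    rw [h5]
    ring

/-- The order of the orthogonal group in odd dimension. -/
theorem card_OOdd (hF : Fintype.card F = q) (hodd : Odd q) (m : ℕ) :
    Nat.card (Cfsg.isometryGroup F (Cfsg.quadFormOdd m F))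
      = 2 * q ^ (m ^ 2) * ∏ i ∈ Finset.range m, (q ^ (2 * (i + 1)) - 1) := by
  rw [← coe_QO, card_isometryGroup (QO m F) (aO m) (bO m), card_H hF hodd m le_rfl]

end Cfsg.Agent.Lib_helper4_OOdd
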