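import Mathlib
import Cfsg.Prelude.Def_ClassicalGeometry
import Cfsg.Agent.Lib_helper4_Orth
import Cfsg.Agent.Lib_helper4_OrthCard
import Cfsg.Agent.Lib_helper4_OrthCount

/-! The order of the orthogonal group of plus type. -/

namespace Cfsg.Agent.Lib_helper4_OPlus
open Matrix Cfsg.Agent.Lib_helper4_Orth Cfsg.Agent.Lib_helper4_OrthCard Cfsg.Agent.Lib_helper4_OrthCount

variable {F : Type*} [Field F] {m : ℕ}

/-- The plus-type form as a `QuadraticForm`. -/
noncomputable def QP (m : ℕ) (F : Type*) [Field F] : QuadraticForm F (Fin m ⊕ Fin m → F) :=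
  ∑ i : Fin m, QuadraticMap.proj (R := F) (Sum.inl i) (Sum.inr i)

lemma QP_apply (v : Fin m ⊕ Fin m → F) : QP m F v = Cfsg.quadFormPlus m F v := by
  unfold QP Cfsg.quadFormPlus
  rw [QuadraticMap.sum_apply]
  rfl

lemma coe_QP : ⇑(QP m F) = Cfsg.quadFormPlus m F := funext QP_apply

lemma hypData : HypData (QP m F) (Sum.inl : Fin m → Fin m ⊕ Fin m) Sum.inr where
  inj := by
    intro x y h
    rcases x with x | x <;> rcases y with y | y <;> simpa using h
  polar_a := by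
    intro i x
    unfold QuadraticMap.polar
    rw [QP_apply, QP_apply, QP_apply]
    unfold Cfsg.quadFormPlus
    simp [Pi.single_apply, add_mul, Finset.sum_add_distrib]
  polar_b := by
    intro i x
    unfold QuadraticMap.polar
    rw [QP_apply, QP_apply, QP_apply]
    unfold Cfsg.quadFormPlus
    simp [Pi.single_apply, mul_add, Finset.sum_add_distrib]
  Qa := by
    intro i
    rw [QP_apply]
    unfold Cfsg.quadFormPlus
    simp [Pi.single_apply]
  Qb := by
    intro i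
    rw [QP_apply]
    unfold Cfsg.quadFormPlus
    simp [Pi.single_apply]
  aniso := by
    intro x hx _
    funext c
    rcases c with i | i
    · exact (hx i).1
    · exact (hx i).2

lemma card_W_zero : Nat.card ↥(W (Sum.inl : Fin m → Fin m ⊕ Fin m) Sum.inr F 0) = 1 := by
  rw [Nat.card_eq_one_iff_unique]
  constructor
  · constructor
    rintro ⟨x, hx⟩ ⟨y, hy⟩
    apply Subtype.ext
    funext c
    rcases c with i | i
    · exact ((hx i (Nat.zero_le _)).1).trans ((hy i (Nat.zero_le _)).1).symm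
    · exact ((hx i (Nat.zero_le _)).2).trans ((hy i (Nat.zero_le _)).2).symm
  · exact ⟨⟨0, fun i _ => ⟨rfl, rfl⟩⟩⟩

lemma H_zero : H (QP m F) (Sum.inl : Fin m → Fin m ⊕ Fin m) Sum.inr 0 = ⊥ := by
  rw [Subgroup.eq_bot_iff_forall]
  intro g hg
  apply Subtype.ext
  apply Units.ext
  apply Matrix.ext_of_mulVec_single
  intro c
  show ((g : GL (Fin m ⊕ Fin m) F) : Matrix (Fin m ⊕ Fin m) (Fin m ⊕ Fin m) F) *ᵥ Pi.single c 1
    = (1 : Matrix (Fin m ⊕ Fin m) (Fin m ⊕ Fin m) F) *ᵥ Pi.single c 1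
  rw [one_mulVec]
  rcases c with i | i
  · exact hg _ ⟨i, Nat.zero_le _, Or.inl rfl⟩
  · exact hg _ ⟨i, Nat.zero_le _, Or.inr rfl⟩

variable [Fintype F] {q : ℕ}

lemma card_W' (hF : Fintype.card F = q) (k : ℕ) (hk : k ≤ m) :
    Nat.card ↥(W (Sum.inl : Fin m → Fin m ⊕ Fin m) Sum.inr F k) = q ^ (2 * k) := by
  rw [card_W hypData hF k hk, card_W_zero, one_mul]

lemma card_sing (hF : Fintype.card F = q) (k : ℕ) (hk : k + 1 ≤ m) :
    Nat.card {x : Fin m ⊕ Fin m → F // x ∈ W (Sum.inl : Fin m → Fin m ⊕ Fin m) Sum.inr F (k + 1)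
      ∧ QP m F x = 0} + q ^ k = q ^ (2 * k + 1) + q ^ (k + 1) := by
  have hq : 1 ≤ q := by
    rw [← hF]
    exact Fintype.card_pos
  induction k with
  | zero =>
    rw [card_sing_succ hypData hF 0 hk, card_sing_zero hypData, card_W' hF 0 (Nat.zero_le _)]
    obtain ⟨r, rfl⟩ : ∃ r, q = r + 1 := ⟨q - 1, by omega⟩
    simp only [Nat.add_sub_cancel]
    ring
  | succ k ih =>
    rw [card_sing_succ hypData hF (k + 1) hk, card_W' hF (k + 1) (Nat.le_of_succ_le hk)]
    have ih' := ih (Nat.le_of_succ_le hk)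
    obtain ⟨r, rfl⟩ : ∃ r, q = r + 1 := ⟨q - 1, by omega⟩
    simp only [Nat.add_sub_cancel]
    linear_combination (r + 1) * ih'

lemma card_sing_sub (hF : Fintype.card F = q) (k : ℕ) (hk : k + 1 ≤ m) :
    Nat.card {x : Fin m ⊕ Fin m → F // x ∈ W (Sum.inl : Fin m → Fin m ⊕ Fin m) Sum.inr F (k + 1)
      ∧ QP m F x = 0} - 1 = (q ^ (k + 1) - 1) * (q ^ k + 1) := by
  have hq : 1 ≤ q := by
    rw [← hF]
    exact Fintype.card_pos
  have h := card_sing hF k hk
  have h1 : 1 ≤ q ^ (k + 1) := Nat.one_le_pow _ _ hq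
  obtain ⟨r, hr⟩ : ∃ r, q ^ (k + 1) = r + 1 := ⟨q ^ (k + 1) - 1, by omega⟩
  have h2 : q ^ (2 * k + 1) = (r + 1) * q ^ k := by
    rw [← hr]
    ring
  rw [hr, h2] at h
  rw [hr, Nat.add_sub_cancel]
  have h3 : Nat.card {x : Fin m ⊕ Fin m → F // x ∈ W (Sum.inl : Fin m → Fin m ⊕ Fin m) Sum.inr F (k + 1)
      ∧ QP m F x = 0} = r * (q ^ k + 1) + 1 := by
    have h4 : (r + 1) * q ^ k + (r + 1) = (r * (q ^ k + 1) + 1) + q ^ k := by ring
    rw [h4] at h
    exact Nat.add_right_cancel h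
  rw [h3, Nat.add_sub_cancel]

lemma card_H (hF : Fintype.card F = q) (k : ℕ) (hk : k ≤ m) :
    Nat.card (H (QP m F) (Sum.inl : Fin m → Fin m ⊕ Fin m) Sum.inr k)
      = ∏ j ∈ Finset.range k, (q ^ (2 * j) * ((q ^ (j + 1) - 1) * (q ^ j + 1))) := by
  induction k with
  | zero =>
    rw [H_zero]
    simp
  | succ k ih =>
    rw [card_H_succ' hypData k hk, ih (Nat.le_of_succ_le hk), Finset.prod_range_succ,
      card_W' hF k (Nat.le_of_succ_le hk), card_sing_sub hF k hk]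

lemma prod_formula (q : ℕ) (hq : 1 ≤ q) (n : ℕ) :
    ∏ j ∈ Finset.range (n + 1), (q ^ (2 * j) * ((q ^ (j + 1) - 1) * (q ^ j + 1)))
      = 2 * q ^ ((n + 1) * n) * (q ^ (n + 1) - 1) * ∏ i ∈ Finset.range n, (q ^ (2 * (i + 1)) - 1) := by
  induction n with
  | zero => simp; ring
  | succ n ih =>
    rw [Finset.prod_range_succ, ih, Finset.prod_range_succ]
    have h1 : 1 ≤ q ^ (n + 1) := Nat.one_le_pow _ _ hq
    have h2 : q ^ (2 * (n + 1)) - 1 = (q ^ (n + 1) - 1) * (q ^ (n + 1) + 1) := by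
      obtain ⟨r, hr⟩ : ∃ r, q ^ (n + 1) = r + 1 := ⟨q ^ (n + 1) - 1, by omega⟩
      have h3 : q ^ (2 * (n + 1)) = (r + 1) * (r + 1) := by
        rw [← hr]
        ring
      rw [h3, hr, Nat.add_sub_cancel]
      have h4 : (r + 1) * (r + 1) = r * (r + 1 + 1) + 1 := by ring
      rw [h4, Nat.add_sub_cancel]
    rw [h2]
    have h5 : q ^ ((n + 1 + 1) * (n + 1)) = q ^ ((n + 1) * n) * q ^ (2 * (n + 1)) := by
      rw [← pow_add]
      congr 1
      ring
    rw [h5]
    ring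

/-- The order of the orthogonal group of plus type. -/
theorem card_OPlus (hF : Fintype.card F = q) (m : ℕ) (hm : 1 ≤ m) :
    Nat.card (Cfsg.isometryGroup F (Cfsg.quadFormPlus m F))
      = 2 * q ^ (m * (m - 1)) * (q ^ m - 1) * ∏ i ∈ Finset.range (m - 1), (q ^ (2 * (i + 1)) - 1) := by
  have hq : 1 ≤ q := by
    rw [← hF]
    exact Fintype.card_pos
  rw [← coe_QP, card_isometryGroup (QP m F) Sum.inl Sum.inr, card_H hF m le_rfl]
  obtain ⟨n, rfl⟩ : ∃ n, m = n + 1 := ⟨m - 1, by omega⟩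
  rw [prod_formula q hq n]
  simp only [Nat.add_sub_cancel]

end Cfsg.Agent.Lib_helper4_OPlus
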