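import Mathlib
import Cfsg.Agent.Lib_helper4_Simple
import Cfsg.Agent.Lib_helper4_Count

set_option autoImplicit false

namespace Cfsg.Agent.Lib_helper4_Order60

open Cfsg.Agent.Lib_helper4_Simple Cfsg.Agent.Lib_helper4_Count

/-- A simple group of order 60 has a subgroup of index 5. -/
theorem exists_index_five {G : Type*} [Group G] [Finite G] [IsSimpleGroup G]
    (h : Nat.card G = 60) : ∃ H : Subgroup G, H.index = 5 := by
  have hG : ¬ IsMulCommutative G := not_isMulCommutative_of_not_prime (by rw [h]; norm_num)
  have : Fact (Nat.Prime 2) := ⟨Nat.prime_two⟩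
  have : Fact (Nat.Prime 5) := ⟨by norm_num⟩
  have h2 : Nat.card G = 2 ^ 2 * 15 := h.trans (by norm_num)
  have h5 : Nat.card G = 5 ^ 1 * 12 := h.trans (by norm_num)
  have hc2 : ∀ P : Sylow 2 G, Nat.card P = 4 := fun P =>
    sylow_card_eq_pow P h2 (by norm_num)
  have hc5 : ∀ P : Sylow 5 G, Nat.card P = 5 := fun P =>
    sylow_card_eq_pow P h5 (by norm_num)
  have hne2 : ∀ P : Sylow 2 G, (P : Subgroup G) ≠ ⊥ ∧ (P : Subgroup G) ≠ ⊤ := by
    intro P
    constructor
    · intro hb
      have := hc2 P
      rw [hb, Subgroup.card_bot] at this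
      omega
    · intro hb
      have := hc2 P
      rw [hb, Subgroup.card_top, h] at this
      omega
  have hne5 : ∀ P : Sylow 5 G, (P : Subgroup G) ≠ ⊥ ∧ (P : Subgroup G) ≠ ⊤ := by
    intro P
    constructor
    · intro hb
      have := hc5 P
      rw [hb, Subgroup.card_bot] at this
      omega
    · intro hb
      have := hc5 P
      rw [hb, Subgroup.card_top, h] at this
      omega
  obtain ⟨P2⟩ : Nonempty (Sylow 2 G) := inferInstance
  obtain ⟨P5⟩ : Nonempty (Sylow 5 G) := inferInstance
  -- n_5 = 6
  have hn5 : Nat.card (Sylow 5 G) = 6 := by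
    have hmod : Nat.card (Sylow 5 G) % 5 = 1 % 5 := card_sylow_modEq_one 5 G
    have hdvd : Nat.card (Sylow 5 G) ∣ 12 := by
      have := P5.card_dvd_index
      rwa [sylow_index_eq P5 h5 (by norm_num)] at this
    have hne1 := card_sylow_ne_one P5 (hne5 P5).1 (hne5 P5).2
    have hle : Nat.card (Sylow 5 G) ≤ 12 := Nat.le_of_dvd (by norm_num) hdvd
    obtain ⟨c, hc⟩ := hdvd
    generalize Nat.card (Sylow 5 G) = n at *
    interval_cases n <;> omega
  -- n_2 ∈ {5, 15}
  have hn2 : Nat.card (Sylow 2 G) = 5 ∨ Nat.card (Sylow 2 G) = 15 := by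
    have hmod : Nat.card (Sylow 2 G) % 2 = 1 % 2 := card_sylow_modEq_one 2 G
    have hdvd : Nat.card (Sylow 2 G) ∣ 15 := by
      have := P2.card_dvd_index
      rwa [sylow_index_eq P2 h2 (by norm_num)] at this
    have hne1 := card_sylow_ne_one P2 (hne2 P2).1 (hne2 P2).2
    have hfac := two_mul_card_dvd_factorial_card_sylow hG P2 (hne2 P2).1 (hne2 P2).2
    rw [h] at hfac
    have hle : Nat.card (Sylow 2 G) ≤ 15 := Nat.le_of_dvd (by norm_num) hdvd
    obtain ⟨c, hc⟩ := hdvd
    generalize Nat.card (Sylow 2 G) = n at *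
    interval_cases n <;> first | omega | (exfalso; revert hfac; decide)
  rcases hn2 with hn2 | hn2
  · exact ⟨Subgroup.normalizer ((P2 : Subgroup G) : Set G),
      P2.card_eq_index_normalizer.symm.trans hn2⟩
  · -- n_2 = 15 : two Sylow 2-subgroups intersect non-trivially
    have hex : ∃ P Q : Sylow 2 G, P ≠ Q ∧ (P : Subgroup G) ⊓ (Q : Subgroup G) ≠ ⊥ := by
      by_contra hcon
      have hall : ∀ P Q : Sylow 2 G, P ≠ Q → (P : Subgroup G) ⊓ (Q : Subgroup G) = ⊥ := by
        intro P Q hPQ
        by_contra hb
        exact hcon ⟨P, Q, hPQ, hb⟩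
      have := card_sylow_elements_two (G := G) (p := 2) (q := 5) (by norm_num) 4 5 hc2 hc5 hall
        (sylow_inf_eq_bot_of_card_prime hc5)
      rw [hn2, hn5, h] at this
      omega
    obtain ⟨P, Q, hPQ, hb⟩ := hex
    obtain ⟨t, ht, ht1⟩ : ∃ t : G, t ∈ (P : Subgroup G) ⊓ (Q : Subgroup G) ∧ t ≠ 1 := by
      by_contra hcon
      apply hb
      rw [Subgroup.eq_bot_iff_forall]
      intro x hx
      by_contra hx1
      exact hcon ⟨x, hx, hx1⟩
    have hle : ∀ R : Sylow 2 G, t ∈ (R : Subgroup G) →
        (R : Subgroup G) ≤ Subgroup.centralizer ({t} : Set G) := by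
      intro R htR x hx
      rw [Subgroup.mem_centralizer_iff]
      intro y hy
      rw [Set.mem_singleton_iff] at hy
      subst hy
      have hcommI := IsPGroup.isMulCommutative_of_card_eq_prime_sq (p := 2) (G := (R : Subgroup G))
        (by rw [hc2 R]; norm_num)
      have hcomm := mul_comm' (⟨y, htR⟩ : (R : Subgroup G)) ⟨x, hx⟩
      exact congrArg Subtype.val hcomm
    have hPC := hle P ht.1
    have hQC := hle Q ht.2
    have hd4 : 4 ∣ Nat.card (Subgroup.centralizer ({t} : Set G)) := by
      have := Subgroup.card_dvd_of_le hPC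
      rwa [hc2 P] at this
    have hd60 : Nat.card (Subgroup.centralizer ({t} : Set G)) ∣ 60 :=
      h ▸ Subgroup.card_subgroup_dvd_card _
    have hne4 : Nat.card (Subgroup.centralizer ({t} : Set G)) ≠ 4 := by
      intro h4
      apply hPQ
      have e1 : (P : Subgroup G) = Subgroup.centralizer ({t} : Set G) :=
        Subgroup.eq_of_le_of_card_ge hPC (by rw [h4, hc2 P])
      have e2 : (Q : Subgroup G) = Subgroup.centralizer ({t} : Set G) :=
        Subgroup.eq_of_le_of_card_ge hQC (by rw [h4, hc2 Q])
      exact Sylow.ext (e1.trans e2.symm)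
    have hidx := Subgroup.card_mul_index (Subgroup.centralizer ({t} : Set G))
    rw [h] at hidx
    have hCtop : Subgroup.centralizer ({t} : Set G) ≠ ⊤ := by
      intro htop
      apply hG
      have hcen : t ∈ Subgroup.center G := by
        rw [Subgroup.mem_center_iff]
        intro g
        have : g ∈ Subgroup.centralizer ({t} : Set G) := htop ▸ Subgroup.mem_top g
        rw [Subgroup.mem_centralizer_iff] at this
        exact (this t rfl).symm
      have hctop : Subgroup.center G = ⊤ := by
        rcases (inferInstance : (Subgroup.center G).Normal).eq_bot_or_eq_top with h0 | h0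
        · rw [h0, Subgroup.mem_bot] at hcen
          exact absurd hcen ht1
        · exact h0
      refine isMulCommutative_iff.mpr (fun a b => ?_)
      have ha : a ∈ Subgroup.center G := hctop ▸ Subgroup.mem_top a
      rw [Subgroup.mem_center_iff] at ha
      exact (ha b).symm
    have hfac := two_mul_card_dvd_factorial_index hG _ hCtop
    rw [h] at hfac
    refine ⟨Subgroup.centralizer ({t} : Set G), ?_⟩
    have hle60 : Nat.card (Subgroup.centralizer ({t} : Set G)) ≤ 60 :=
      Nat.le_of_dvd (by norm_num) hd60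
    obtain ⟨c, hc⟩ := hd4
    generalize Nat.card (Subgroup.centralizer ({t} : Set G)) = n at *
    generalize (Subgroup.centralizer ({t} : Set G)).index = i at *
    subst hc
    have hi15 : i ≤ 15 := by
      rcases Nat.eq_zero_or_pos c with rfl | hcpos
      · omega
      · nlinarith
    interval_cases i <;> first | rfl | omega | (exfalso; revert hfac; decide)

/-- A simple group of order 60 is isomorphic to `A_5`. -/
theorem nonempty_mulEquiv_alternatingGroup_five {G : Type*} [Group G] [Finite G] [IsSimpleGroup G]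
    (h : Nat.card G = 60) : Nonempty (G ≃* alternatingGroup (Fin 5)) := by
  have hG : ¬ IsMulCommutative G := not_isMulCommutative_of_not_prime (by rw [h]; norm_num)
  obtain ⟨H, hH⟩ := exists_index_five h
  have hHtop : H ≠ ⊤ := by
    intro ht
    rw [ht, Subgroup.index_top] at hH
    omega
  obtain ⟨f, hf⟩ : ∃ f : G →* alternatingGroup (Fin 5), Function.Injective f := by
    have := exists_injective_hom_alternatingGroup hG H hHtop
    rwa [hH] at this
  have hbij : Function.Bijective f := by
    rw [Nat.bijective_iff_injective_and_card]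
    refine ⟨hf, ?_⟩
    have := two_mul_card_alternatingGroup_fin (k := 5) (by norm_num)
    rw [h]
    have h5 : Nat.factorial 5 = 120 := by decide
    omega
  exact ⟨MulEquiv.ofBijective f hbij⟩

end Cfsg.Agent.Lib_helper4_Order60
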