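import Mathlib
import Cfsg.Prelude.Def_ClassicalGeometry
import Cfsg.Agent.Lib_helper4_Sp

/-! The centre of the symplectic group consists of `1` and `-1`. -/

namespace Cfsg.Agent.Lib_helper4_SpCenter
open Matrix Cfsg.Agent.Lib_helper4_Sp

variable {F : Type*} [Field F] {m : ℕ}

/-- A matrix commuting with all symplectic transvections maps every vector to a multiple of itself. -/
lemma exists_smul_of_commute (A : Matrix (Fin m ⊕ Fin m) (Fin m ⊕ Fin m) F)
    (hA : ∀ v : Fin m ⊕ Fin m → F, Cfsg.sympTransvection m v 1 * A = A * Cfsg.sympTransvection m v 1)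
    (v : Fin m ⊕ Fin m → F) : ∃ a : F, A *ᵥ v = a • v := by
  by_cases hv : v = 0
  · exact ⟨0, by rw [hv, mulVec_zero, smul_zero]⟩
  · obtain ⟨z, hz⟩ := exists_form_ne_zero v hv
    have hz' : Cfsg.sympForm m F z v ≠ 0 := by
      rw [form_swap]
      exact neg_ne_zero.mpr hz
    have h1 := congrArg (fun M => M *ᵥ z) (hA v)
    simp only [← mulVec_mulVec, tv_mulVec, mulVec_add, mulVec_smul, one_mul] at h1
    have h2 : Cfsg.sympForm m F (A *ᵥ z) v • v = Cfsg.sympForm m F z v • A *ᵥ v := add_left_cancel h1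
    refine ⟨(Cfsg.sympForm m F z v)⁻¹ * Cfsg.sympForm m F (A *ᵥ z) v, ?_⟩
    rw [← smul_smul, h2, smul_smul, inv_mul_cancel₀ hz', one_smul]

/-- A matrix mapping every vector to a multiple of itself is scalar. -/
lemma eq_smul_one_of_forall_smul (hm : 1 ≤ m) (A : Matrix (Fin m ⊕ Fin m) (Fin m ⊕ Fin m) F)
    (hA : ∀ v : Fin m ⊕ Fin m → F, ∃ a : F, A *ᵥ v = a • v) : ∃ a : F, A = a • 1 := by
  obtain ⟨a0, ha0⟩ := hA (Pi.single (Sum.inl ⟨0, hm⟩) 1)
  refine ⟨a0, ?_⟩
  have key : ∀ j : Fin m ⊕ Fin m, A *ᵥ Pi.single j 1 = a0 • Pi.single j 1 := by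
    intro j
    by_cases hj : j = Sum.inl ⟨0, hm⟩
    · rw [hj]
      exact ha0
    · obtain ⟨aj, haj⟩ := hA (Pi.single j 1)
      obtain ⟨b, hb⟩ := hA (Pi.single j 1 + Pi.single (Sum.inl ⟨0, hm⟩) 1)
      rw [mulVec_add, haj, ha0] at hb
      have e1 := congrFun hb j
      have e2 := congrFun hb (Sum.inl ⟨0, hm⟩)
      simp only [Pi.add_apply, Pi.smul_apply, Pi.single_eq_same, smul_eq_mul, mul_one,
        Pi.single_eq_of_ne hj, Pi.single_eq_of_ne (Ne.symm hj), mul_zero, add_zero, zero_add] at e1 e2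
      rw [haj, e1, ← e2]
  ext a b
  have h2 := congrFun (key b) a
  rw [mulVec_single_one] at h2
  simpa [Matrix.one_apply, Pi.single_apply] using h2

lemma neg_one_mem : (-1 : Matrix (Fin m ⊕ Fin m) (Fin m ⊕ Fin m) F) ∈ symplecticGroup (Fin m) F :=
  SymplecticGroup.neg_mem (one_mem _)

/-- The centre of the symplectic group consists of `1` and `-1`. -/
theorem mem_center_iff (hm : 1 ≤ m) (A : symplecticGroup (Fin m) F) :
    A ∈ Subgroup.center (symplecticGroup (Fin m) F) ↔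
      (A : Matrix (Fin m ⊕ Fin m) (Fin m ⊕ Fin m) F) = 1 ∨
      (A : Matrix (Fin m ⊕ Fin m) (Fin m ⊕ Fin m) F) = -1 := by
  constructor
  · intro hA
    rw [Subgroup.mem_center_iff] at hA
    have h1 : ∀ v : Fin m ⊕ Fin m → F,
        Cfsg.sympTransvection m v 1 * (A : Matrix (Fin m ⊕ Fin m) (Fin m ⊕ Fin m) F) =
          (A : Matrix (Fin m ⊕ Fin m) (Fin m ⊕ Fin m) F) * Cfsg.sympTransvection m v 1 := by
      intro v
      have := congrArg (fun B : symplecticGroup (Fin m) F => (B : Matrix (Fin m ⊕ Fin m) (Fin m ⊕ Fin m) F))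
        (hA (tv v 1))
      exact this
    obtain ⟨a, ha⟩ := eq_smul_one_of_forall_smul hm _ (exists_smul_of_commute _ h1)
    have h2 := form_mulVec_of_mem A.2 (fb ⟨0, hm⟩) (eb ⟨0, hm⟩)
    rw [ha, smul_mulVec, smul_mulVec, one_mulVec, one_mulVec, form_smul_left, form_smul_right,
      form_fb_eb, mul_one] at h2
    rcases mul_self_eq_one_iff.mp h2 with h | h
    · left
      rw [ha, h, one_smul]
    · right
      rw [ha, h, neg_smul, one_smul]
  · intro hA
    rw [Subgroup.mem_center_iff]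
    intro B
    apply Subtype.ext
    rw [Submonoid.coe_mul, Submonoid.coe_mul]
    rcases hA with h | h
    · rw [h, mul_one, one_mul]
    · rw [h, mul_neg, neg_mul, mul_one, one_mul]

end Cfsg.Agent.Lib_helper4_SpCenter
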