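import Mathlib
import Cfsg.Prelude.Def_ClassicalGeometry
import Cfsg.Agent.Lib_helper4_Sp

/-! The symplectic group is perfect (apart from three small cases). -/

namespace Cfsg.Agent.Lib_helper4_SpPerfect
open Matrix Cfsg.Agent.Lib_helper4_Sp
open scoped commutatorElement

variable {F : Type*} [Field F] {m : ℕ}

lemma conj_tv {A : Matrix (Fin m ⊕ Fin m) (Fin m ⊕ Fin m) F} (hA : A ∈ symplecticGroup (Fin m) F)
    (w : Fin m ⊕ Fin m → F) (c : F) :
    A * Cfsg.sympTransvection m w c = Cfsg.sympTransvection m (A *ᵥ w) c * A := by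
  apply matrix_ext_mulVec
  intro x
  rw [← mulVec_mulVec, ← mulVec_mulVec, tv_mulVec, tv_mulVec, mulVec_add, mulVec_smul,
    form_mulVec_of_mem hA]

/-- The matrix of `x ↦ x + c (f(x, w₁) w₂ + f(x, w₂) w₁)`. -/
def rMat (w1 w2 : Fin m ⊕ Fin m → F) (c : F) : Matrix (Fin m ⊕ Fin m) (Fin m ⊕ Fin m) F :=
  1 + c • (vecMulVec w2 (J (Fin m) F *ᵥ w1) + vecMulVec w1 (J (Fin m) F *ᵥ w2))

lemma rMat_mulVec (w1 w2 : Fin m ⊕ Fin m → F) (c : F) (x : Fin m ⊕ Fin m → F) :
    rMat w1 w2 c *ᵥ x =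
      x + c • (Cfsg.sympForm m F x w1 • w2 + Cfsg.sympForm m F x w2 • w1) := by
  unfold rMat Cfsg.sympForm
  rw [add_mulVec, one_mulVec, smul_mulVec, add_mulVec, vecMulVec_mulVec, vecMulVec_mulVec,
    dotProduct_comm x, dotProduct_comm x]
  simp

lemma rMat_mem {w1 w2 : Fin m ⊕ Fin m → F} (h : Cfsg.sympForm m F w1 w2 = 0) (c : F) :
    rMat w1 w2 c ∈ symplecticGroup (Fin m) F := by
  apply mem_of_form_mulVec
  intro x y
  have h' : Cfsg.sympForm m F w2 w1 = 0 := by rw [form_swap, h, neg_zero]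
  simp only [rMat_mulVec, form_add_left, form_add_right, form_smul_left, form_smul_right, form_self,
    h, h']
  rw [form_swap w1 y, form_swap w2 y]
  ring

lemma conj_rMat {A : Matrix (Fin m ⊕ Fin m) (Fin m ⊕ Fin m) F}
    (hA : A ∈ symplecticGroup (Fin m) F) (w1 w2 : Fin m ⊕ Fin m → F) (c : F) :
    A * rMat w1 w2 c = rMat (A *ᵥ w1) (A *ᵥ w2) c * A := by
  apply matrix_ext_mulVec
  intro x
  rw [← mulVec_mulVec, ← mulVec_mulVec, rMat_mulVec, rMat_mulVec, form_mulVec_of_mem hA,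
    form_mulVec_of_mem hA]
  simp only [mulVec_add, mulVec_smul]

lemma mem_commutator_of_mul_eq {G : Type*} [Group G] (A U T : G) (h : A * U = T * U * A) :
    T ∈ commutator G := by
  have h1 : T = ⁅A, U⁆ := by
    rw [commutatorElement_def, h]
    group
  rw [h1, commutator_def]
  exact Subgroup.commutator_mem_commutator (Subgroup.mem_top A) (Subgroup.mem_top U)

/-- The torus argument: if some `a ≠ 0` has `a² ≠ 1`, every transvection along `eb i0` is a
commutator. -/
lemma tv_mem_commutator_torus (i0 : Fin m) (a : F) (ha0 : a ≠ 0) (ha1 : a * a ≠ 1) (d : F) :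
    tv (eb i0) d ∈ commutator (symplecticGroup (Fin m) F) := by
  have h1 : Cfsg.sympForm m F (a⁻¹ • fb i0) (a • eb i0) = 1 := by
    rw [form_smul_left, form_smul_right, form_fb_eb, mul_one, inv_mul_cancel₀ ha0]
  obtain ⟨A, -, -, hA2⟩ := exists_closure_map_hyp (k := m) (fb i0) (eb i0) _ _ (supp_top _)
    (supp_top _) (supp_top _) (supp_top _) (form_fb_eb i0) h1
  have hne : a * a - 1 ≠ 0 := sub_ne_zero.mpr ha1
  obtain ⟨t, rfl⟩ : ∃ t, d = t * (a * a - 1) := ⟨d / (a * a - 1), (div_mul_cancel₀ d hne).symm⟩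
  apply mem_commutator_of_mul_eq A (tv (eb i0) t) (tv (eb i0) (t * (a * a - 1)))
  apply Subtype.ext
  show (A : Matrix (Fin m ⊕ Fin m) (Fin m ⊕ Fin m) F) * Cfsg.sympTransvection m (eb i0) t
    = Cfsg.sympTransvection m (eb i0) (t * (a * a - 1)) * Cfsg.sympTransvection m (eb i0) t * A
  rw [conj_tv A.2, hA2, tv_mul]
  congr 1
  apply matrix_ext_mulVec
  intro x
  rw [tv_mulVec, tv_mulVec, form_smul_right, smul_smul]
  congr 2
  ring

/-- With two hyperbolic pairs and `2 ≠ 0`. -/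
lemma tv_mem_commutator_two (e e' z : Fin m ⊕ Fin m → F) (hee' : Cfsg.sympForm m F e e' = 0)
    (hez : Cfsg.sympForm m F e z = 0) (he'z : Cfsg.sympForm m F e' z = 1) (c : F) :
    tv e (2 * c) ∈ commutator (symplecticGroup (Fin m) F) := by
  have he'e : Cfsg.sympForm m F e' e = 0 := by rw [form_swap, hee', neg_zero]
  apply mem_commutator_of_mul_eq (⟨rMat e z 1, rMat_mem hez 1⟩ : symplecticGroup (Fin m) F)
    (⟨rMat e e' c, rMat_mem hee' c⟩ : symplecticGroup (Fin m) F) (tv e (2 * c))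
  apply Subtype.ext
  show rMat e z 1 * rMat e e' c = Cfsg.sympTransvection m e (2 * c) * rMat e e' c * rMat e z 1
  have h1 : rMat e z 1 *ᵥ e = e := by
    rw [rMat_mulVec, form_self, hez]
    simp
  have h2 : rMat e z 1 *ᵥ e' = e' + e := by
    rw [rMat_mulVec, he'e, he'z]
    simp
  rw [conj_rMat (rMat_mem hez 1), h1, h2]
  congr 1
  apply matrix_ext_mulVec
  intro x
  rw [← mulVec_mulVec]
  simp only [rMat_mulVec, tv_mulVec, form_add_left, form_add_right, form_smul_left, form_self,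
    hee', he'e]
  module

/-- With three hyperbolic pairs. -/
lemma tv_mem_commutator_three (e1 e2 e3 z2 z3 : Fin m ⊕ Fin m → F)
    (h12 : Cfsg.sympForm m F e1 e2 = 0) (h13 : Cfsg.sympForm m F e1 e3 = 0)
    (h23 : Cfsg.sympForm m F e2 e3 = 0)
    (h1z2 : Cfsg.sympForm m F e1 z2 = 0) (h2z2 : Cfsg.sympForm m F e2 z2 = 1)
    (h3z2 : Cfsg.sympForm m F e3 z2 = 0)
    (h1z3 : Cfsg.sympForm m F e1 z3 = 0) (h2z3 : Cfsg.sympForm m F e2 z3 = 0)
    (h3z3 : Cfsg.sympForm m F e3 z3 = 1) (c : F) :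
    tv e1 c ∈ commutator (symplecticGroup (Fin m) F) := by
  have h21 : Cfsg.sympForm m F e2 e1 = 0 := by rw [form_swap, h12, neg_zero]
  have h31 : Cfsg.sympForm m F e3 e1 = 0 := by rw [form_swap, h13, neg_zero]
  have h32 : Cfsg.sympForm m F e3 e2 = 0 := by rw [form_swap, h23, neg_zero]
  have hA1 : rMat e1 z3 1 ∈ symplecticGroup (Fin m) F := rMat_mem h1z3 1
  have hA2 : rMat e3 z2 (-1) ∈ symplecticGroup (Fin m) F := rMat_mem h3z2 (-1)
  have hA : rMat e3 z2 (-1) * rMat e1 z3 1 ∈ symplecticGroup (Fin m) F := mul_mem hA2 hA1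
  have i1 : rMat e1 z3 1 *ᵥ e1 = e1 := by
    rw [rMat_mulVec, form_self, h1z3]
    simp
  have i2 : rMat e1 z3 1 *ᵥ e2 = e2 := by
    rw [rMat_mulVec, h21, h2z3]
    simp
  have i3 : rMat e1 z3 1 *ᵥ e3 = e3 + e1 := by
    rw [rMat_mulVec, h31, h3z3]
    simp
  have hAe1 : (rMat e3 z2 (-1) * rMat e1 z3 1) *ᵥ e1 = e1 := by
    rw [← mulVec_mulVec, i1, rMat_mulVec, h13, h1z2]
    simp
  have hAe2 : (rMat e3 z2 (-1) * rMat e1 z3 1) *ᵥ e2 = e2 - e3 := by
    rw [← mulVec_mulVec, i2, rMat_mulVec, h23, h2z2]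
    simp only [zero_smul, zero_add, one_smul, neg_smul]
    abel
  have hAe3 : (rMat e3 z2 (-1) * rMat e1 z3 1) *ᵥ e3 = e3 + e1 := by
    rw [← mulVec_mulVec, i3, rMat_mulVec, form_add_left, form_add_left, form_self, h13, h3z2, h1z2]
    simp
  apply mem_commutator_of_mul_eq
    (⟨rMat e3 z2 (-1) * rMat e1 z3 1, hA⟩ : symplecticGroup (Fin m) F)
    ((⟨rMat e1 e2 c, rMat_mem h12 c⟩ : symplecticGroup (Fin m) F) * tv e3 c) (tv e1 c)
  apply Subtype.ext
  show (rMat e3 z2 (-1) * rMat e1 z3 1) * (rMat e1 e2 c * Cfsg.sympTransvection m e3 c) =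
    Cfsg.sympTransvection m e1 c * (rMat e1 e2 c * Cfsg.sympTransvection m e3 c) *
      (rMat e3 z2 (-1) * rMat e1 z3 1)
  rw [← Matrix.mul_assoc, conj_rMat hA, Matrix.mul_assoc _ (rMat e3 z2 (-1) * rMat e1 z3 1),
    conj_tv hA, hAe1, hAe2, hAe3, ← Matrix.mul_assoc]
  congr 1
  apply matrix_ext_mulVec
  intro x
  rw [← mulVec_mulVec, ← mulVec_mulVec, ← mulVec_mulVec]
  simp only [rMat_mulVec, tv_mulVec, form_add_left, form_add_right, form_sub_right, form_smul_left,
    form_self, h12, h13, h23, h21, h31, h32]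
  module

lemma eb_ne_zero (i : Fin m) : (eb i : Fin m ⊕ Fin m → F) ≠ 0 := by
  intro h
  have := congrFun h (Sum.inl i)
  simp [eb] at this

lemma form_eb_eb (i j : Fin m) : Cfsg.sympForm m F (eb i) (eb j) = 0 := by
  rw [form_eb]
  simp [eb]

lemma form_eb_negfb (i j : Fin m) :
    Cfsg.sympForm m F (eb i) ((-1 : F) • fb j) = if j = i then 1 else 0 := by
  rw [form_smul_right, form_fb]
  by_cases h : j = i
  · simp [eb, h]
  · simp [eb, h]

/-- The symplectic group is perfect, apart from `Sp_2(2)`, `Sp_2(3)` and `Sp_4(2)`. -/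
theorem commutator_eq_top [Fintype F]
    (h : 3 ≤ m ∨ (m = 2 ∧ 3 ≤ Fintype.card F) ∨ 4 ≤ Fintype.card F) :
    commutator (symplecticGroup (Fin m) F) = ⊤ := by
  classical
  have key : ∀ (i0 : Fin m) (d : F), tv (eb i0) d ∈ commutator (symplecticGroup (Fin m) F) := by
    intro i0 d
    by_cases hq : 4 ≤ Fintype.card F
    · obtain ⟨a, ha0, ha1⟩ : ∃ a : F, a ≠ 0 ∧ a * a ≠ 1 := by
        by_contra hcon
        have hcon' : ∀ a : F, a ≠ 0 → a * a = 1 := by
          intro a ha
          by_contra h1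
          exact hcon ⟨a, ha, h1⟩
        have hsub : (Finset.univ : Finset F) ⊆ {0, 1, -1} := by
          intro a _
          by_cases ha : a = 0
          · simp [ha]
          · rcases mul_self_eq_one_iff.mp (hcon' a ha) with h1 | h1 <;> simp [h1]
        have h3 := Finset.card_le_card hsub
        have h4 := Finset.card_le_three (a := (0 : F)) (b := 1) (c := -1)
        rw [Finset.card_univ] at h3
        omega
      exact tv_mem_commutator_torus i0 a ha0 ha1 d
    · by_cases h2 : (2 : F) = 0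
      · have hm3 : 3 ≤ m := by
          rcases h with h | ⟨-, h3⟩ | h
          · exact h
          · exfalso
            have hc : Fintype.card F = 3 := by omega
            have h5 : ((Fintype.card F : ℕ) : F) = 0 := Nat.cast_card_eq_zero F
            rw [hc] at h5
            have h6 : (1 : F) = 0 := by
              have : ((3 : ℕ) : F) = 2 + 1 := by norm_num
              rw [this, h2, zero_add] at h5
              exact h5
            exact one_ne_zero h6
          · omega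
        obtain ⟨i2, i3, h02, h03, h23⟩ : ∃ i2 i3 : Fin m, i0 ≠ i2 ∧ i0 ≠ i3 ∧ i2 ≠ i3 := by
          by_cases c0 : i0.val = 0
          · exact ⟨⟨1, by omega⟩, ⟨2, by omega⟩, Fin.ne_of_val_ne (by simp; omega),
              Fin.ne_of_val_ne (by simp; omega), Fin.ne_of_val_ne (by simp)⟩
          · by_cases c1 : i0.val = 1
            · exact ⟨⟨0, by omega⟩, ⟨2, by omega⟩, Fin.ne_of_val_ne (by simp; omega),
                Fin.ne_of_val_ne (by simp; omega), Fin.ne_of_val_ne (by simp)⟩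
            · exact ⟨⟨0, by omega⟩, ⟨1, by omega⟩, Fin.ne_of_val_ne (by simp; omega),
                Fin.ne_of_val_ne (by simp; omega), Fin.ne_of_val_ne (by simp)⟩
        exact tv_mem_commutator_three (eb i0) (eb i2) (eb i3) ((-1 : F) • fb i2) ((-1 : F) • fb i3)
          (form_eb_eb _ _) (form_eb_eb _ _) (form_eb_eb _ _)
          (by rw [form_eb_negfb, if_neg h02.symm]) (by rw [form_eb_negfb, if_pos rfl])
          (by rw [form_eb_negfb, if_neg h23])
          (by rw [form_eb_negfb, if_neg h03.symm]) (by rw [form_eb_negfb, if_neg h23.symm])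
          (by rw [form_eb_negfb, if_pos rfl]) d
      · have hm2 : 2 ≤ m := by omega
        obtain ⟨i1, h01⟩ : ∃ i1 : Fin m, i0 ≠ i1 := by
          by_cases c0 : i0.val = 0
          · exact ⟨⟨1, by omega⟩, Fin.ne_of_val_ne (by simp; omega)⟩
          · exact ⟨⟨0, by omega⟩, Fin.ne_of_val_ne (by simp; omega)⟩
        have h5 := tv_mem_commutator_two (eb i0) (eb i1) ((-1 : F) • fb i1) (form_eb_eb _ _)
          (by rw [form_eb_negfb, if_neg h01.symm]) (by rw [form_eb_negfb, if_pos rfl]) (d / 2)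
        have h6 : 2 * (d / 2) = d := by field_simp
        rw [h6] at h5
        exact h5
  rw [eq_top_iff, ← closure_TS_eq_top, Subgroup.closure_le]
  rintro T ⟨w, c, hT⟩
  have hT' : T = tv w c := Subtype.ext hT
  rw [hT']
  by_cases hw : w = 0
  · have h1 : tv (0 : Fin m ⊕ Fin m → F) c = 1 := by
      apply Subtype.ext
      show Cfsg.sympTransvection m 0 c = 1
      unfold Cfsg.sympTransvection
      simp
    rw [hw, h1]
    exact one_mem _
  · have hm : 0 < m := by
      by_contra h0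
      apply hw
      funext j
      have hm0 : m = 0 := by omega
      subst hm0
      rcases j with j | j <;> exact j.elim0
    obtain ⟨A, -, hA⟩ := exists_closure_map (k := m) (eb ⟨0, hm⟩) w (supp_top _) (supp_top _)
      (eb_ne_zero _) hw
    have h1 : tv w c = A * tv (eb ⟨0, hm⟩) c * A⁻¹ := by
      rw [eq_mul_inv_iff_mul_eq]
      apply Subtype.ext
      show Cfsg.sympTransvection m w c * (A : Matrix (Fin m ⊕ Fin m) (Fin m ⊕ Fin m) F) =
        (A : Matrix (Fin m ⊕ Fin m) (Fin m ⊕ Fin m) F) * Cfsg.sympTransvection m (eb ⟨0, hm⟩) c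
      rw [conj_tv A.2, hA]
    rw [h1]
    have hn : (commutator (symplecticGroup (Fin m) F)).Normal := inferInstance
    exact hn.conj_mem _ (key _ c) A

end Cfsg.Agent.Lib_helper4_SpPerfect
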