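import Mathlib
import Cfsg.Prelude.Def_ClassicalGeometry
import Cfsg.Agent.Lib_helper4_Sp

/-! Primitivity of the symplectic group on the points of projective space. -/

namespace Cfsg.Agent.Lib_helper4_SpPrim
open Matrix Cfsg.Agent.Lib_helper4_Sp
open scoped LinearAlgebra.Projectivization Pointwise

variable {F : Type*} [Field F] {m : ℕ}

/-- A symplectic matrix as an element of the subgroup `spGL` of the general linear group. -/
noncomputable def toSpGL (A : symplecticGroup (Fin m) F) : Cfsg.spGL m F :=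
  ⟨Matrix.GeneralLinearGroup.mk'' (A : Matrix (Fin m ⊕ Fin m) (Fin m ⊕ Fin m) F)
    (SymplecticGroup.symplectic_det A.2), fun u v => form_mulVec_of_mem A.2 u v⟩

lemma toSpGL_smul (A : symplecticGroup (Fin m) F) (x : Fin m ⊕ Fin m → F) :
    toSpGL A • x = (A : Matrix (Fin m ⊕ Fin m) (Fin m ⊕ Fin m) F) *ᵥ x := rfl

lemma mulVec_ne_zero (A : symplecticGroup (Fin m) F) (x : Fin m ⊕ Fin m → F) (hx : x ≠ 0) :
    (A : Matrix (Fin m ⊕ Fin m) (Fin m ⊕ Fin m) F) *ᵥ x ≠ 0 := by
  obtain ⟨z, hz⟩ := exists_form_ne_zero x hx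
  intro h0
  apply hz
  rw [← form_mulVec_of_mem A.2 x z, h0, form_zero_left]

lemma toSpGL_smul_mk (A : symplecticGroup (Fin m) F) (x : Fin m ⊕ Fin m → F) (hx : x ≠ 0)
    (hAx : (A : Matrix (Fin m ⊕ Fin m) (Fin m ⊕ Fin m) F) *ᵥ x ≠ 0) :
    toSpGL A • Projectivization.mk F x hx =
      Projectivization.mk F ((A : Matrix (Fin m ⊕ Fin m) (Fin m ⊕ Fin m) F) *ᵥ x) hAx := by
  rw [Subgroup.smul_def, Projectivization.smul_mk, Projectivization.mk_eq_mk_iff']
  exact ⟨1, by rw [one_smul]; rfl⟩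

lemma mem_of_fix {B : Set (ℙ F (Fin m ⊕ Fin m → F))} (hB : MulAction.IsBlock (Cfsg.spGL m F) B)
    (A : symplecticGroup (Fin m) F) (v : Fin m ⊕ Fin m → F) (hv : v ≠ 0)
    (hvB : Projectivization.mk F v hv ∈ B)
    (hAv : (A : Matrix (Fin m ⊕ Fin m) (Fin m ⊕ Fin m) F) *ᵥ v = v)
    (w : Fin m ⊕ Fin m → F) (hw : w ≠ 0) (hwB : Projectivization.mk F w hw ∈ B)
    (hAw : (A : Matrix (Fin m ⊕ Fin m) (Fin m ⊕ Fin m) F) *ᵥ w ≠ 0) :
    Projectivization.mk F ((A : Matrix (Fin m ⊕ Fin m) (Fin m ⊕ Fin m) F) *ᵥ w) hAw ∈ B := by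
  have h1 : toSpGL A • Projectivization.mk F v hv = Projectivization.mk F v hv := by
    rw [toSpGL_smul_mk A v hv (mulVec_ne_zero A v hv), Projectivization.mk_eq_mk_iff']
    exact ⟨1, by rw [one_smul, hAv]⟩
  have h2 : toSpGL A • B = B := (MulAction.isBlock_iff_smul_eq_of_mem.mp hB) hvB (by rw [h1]; exact hvB)
  have h3 : toSpGL A • Projectivization.mk F w hw ∈ toSpGL A • B := Set.smul_mem_smul_set hwB
  rw [h2, toSpGL_smul_mk A w hw hAw] at h3
  exact h3

lemma claimA {B : Set (ℙ F (Fin m ⊕ Fin m → F))} (hB : MulAction.IsBlock (Cfsg.spGL m F) B)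
    (v w : Fin m ⊕ Fin m → F) (hv : v ≠ 0) (hw : w ≠ 0)
    (hvB : Projectivization.mk F v hv ∈ B) (hwB : Projectivization.mk F w hw ∈ B)
    (hvw : Cfsg.sympForm m F v w ≠ 0) (x : Fin m ⊕ Fin m → F) (hx : x ≠ 0)
    (hvx : Cfsg.sympForm m F v x ≠ 0) : Projectivization.mk F x hx ∈ B := by
  have h1 : Cfsg.sympForm m F v ((Cfsg.sympForm m F v w)⁻¹ • w) = 1 := by
    rw [form_smul_right, inv_mul_cancel₀ hvw]
  have h2 : Cfsg.sympForm m F v ((Cfsg.sympForm m F v x)⁻¹ • x) = 1 := by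
    rw [form_smul_right, inv_mul_cancel₀ hvx]
  obtain ⟨A, -, hAv, hAw⟩ := exists_closure_map_pair (k := m) v _ _ (supp_top _) (supp_top _)
    (supp_top _) h1 h2
  have h3 : (A : Matrix (Fin m ⊕ Fin m) (Fin m ⊕ Fin m) F) *ᵥ w =
      (Cfsg.sympForm m F v w * (Cfsg.sympForm m F v x)⁻¹) • x := by
    calc (A : Matrix (Fin m ⊕ Fin m) (Fin m ⊕ Fin m) F) *ᵥ w
        = (A : Matrix (Fin m ⊕ Fin m) (Fin m ⊕ Fin m) F) *ᵥ
            (Cfsg.sympForm m F v w • ((Cfsg.sympForm m F v w)⁻¹ • w)) := by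
          rw [smul_smul, mul_inv_cancel₀ hvw, one_smul]
      _ = (Cfsg.sympForm m F v w * (Cfsg.sympForm m F v x)⁻¹) • x := by
          rw [mulVec_smul, hAw, smul_smul]
  have h5 := mem_of_fix hB A v hv hvB hAv w hw hwB (mulVec_ne_zero A w hw)
  have h6 : Projectivization.mk F ((A : Matrix (Fin m ⊕ Fin m) (Fin m ⊕ Fin m) F) *ᵥ w)
      (mulVec_ne_zero A w hw) = Projectivization.mk F x hx := by
    rw [Projectivization.mk_eq_mk_iff']
    exact ⟨_, h3.symm⟩
  rw [h6] at h5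
  exact h5

lemma eq_univ_of_nonorth {B : Set (ℙ F (Fin m ⊕ Fin m → F))}
    (hB : MulAction.IsBlock (Cfsg.spGL m F) B)
    (v w : Fin m ⊕ Fin m → F) (hv : v ≠ 0) (hw : w ≠ 0)
    (hvB : Projectivization.mk F v hv ∈ B) (hwB : Projectivization.mk F w hw ∈ B)
    (hvw : Cfsg.sympForm m F v w ≠ 0) : B = Set.univ := by
  rw [Set.eq_univ_iff_forall]
  intro p
  induction p using Projectivization.ind with
  | h y hy =>
    by_cases h : Cfsg.sympForm m F v y = 0
    · obtain ⟨x, -, hx1, hx2⟩ := exists_form_ne_zero_both (k := m) v y (supp_top _) (supp_top _) hv hy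
      have hx : x ≠ 0 := by
        rintro rfl
        exact hx1 (form_zero_right _)
      have hxB := claimA hB v w hv hw hvB hwB hvw x hx hx1
      have hxv : Cfsg.sympForm m F x v ≠ 0 := by
        rw [form_swap]
        exact neg_ne_zero.mpr hx1
      have hxy : Cfsg.sympForm m F x y ≠ 0 := by
        rw [form_swap]
        exact neg_ne_zero.mpr hx2
      exact claimA hB x v hx hv hxB hvB hxv y hy hxy
    · exact claimA hB v w hv hw hvB hwB hvw y hy h

lemma exists_orth_not_orth (v w : Fin m ⊕ Fin m → F) (hv : v ≠ 0) (hw : w ≠ 0)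
    (hne : Projectivization.mk F v hv ≠ Projectivization.mk F w hw) :
    ∃ x, Cfsg.sympForm m F v x = 0 ∧ Cfsg.sympForm m F w x ≠ 0 := by
  by_contra hcon
  have hcon' : ∀ x, Cfsg.sympForm m F v x = 0 → Cfsg.sympForm m F w x = 0 := by
    intro x hx
    by_contra h
    exact hcon ⟨x, hx, h⟩
  obtain ⟨x0, hx0⟩ := exists_form_ne_zero v hv
  apply hne.symm
  rw [Projectivization.mk_eq_mk_iff']
  refine ⟨Cfsg.sympForm m F w x0 * (Cfsg.sympForm m F v x0)⁻¹, ?_⟩
  by_contra hne0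
  have hne1 : w - (Cfsg.sympForm m F w x0 * (Cfsg.sympForm m F v x0)⁻¹) • v ≠ 0 := by
    intro h
    exact hne0 (sub_eq_zero.mp h).symm
  obtain ⟨z, hz⟩ := exists_form_ne_zero _ hne1
  apply hz
  have h1 : Cfsg.sympForm m F v (z - (Cfsg.sympForm m F v z * (Cfsg.sympForm m F v x0)⁻¹) • x0) = 0 := by
    rw [form_sub_right, form_smul_right, mul_assoc, inv_mul_cancel₀ hx0, mul_one, sub_self]
  have h2 := hcon' _ h1
  rw [form_sub_right, form_smul_right, sub_eq_zero] at h2
  rw [form_sub_left, form_smul_left, h2]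
  ring

lemma eq_univ_of_orth {B : Set (ℙ F (Fin m ⊕ Fin m → F))}
    (hB : MulAction.IsBlock (Cfsg.spGL m F) B)
    (v w : Fin m ⊕ Fin m → F) (hv : v ≠ 0) (hw : w ≠ 0)
    (hvB : Projectivization.mk F v hv ∈ B) (hwB : Projectivization.mk F w hw ∈ B)
    (hne : Projectivization.mk F v hv ≠ Projectivization.mk F w hw) : B = Set.univ := by
  obtain ⟨x, hx1, hx2⟩ := exists_orth_not_orth v w hv hw hne
  have hTv : ((tv x 1 : symplecticGroup (Fin m) F) : Matrix (Fin m ⊕ Fin m) (Fin m ⊕ Fin m) F) *ᵥ v = v := by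
    show Cfsg.sympTransvection m x 1 *ᵥ v = v
    rw [tv_mulVec, hx1, mul_zero, zero_smul, add_zero]
  have hTw : ((tv x 1 : symplecticGroup (Fin m) F) : Matrix (Fin m ⊕ Fin m) (Fin m ⊕ Fin m) F) *ᵥ w =
      w + Cfsg.sympForm m F w x • x := by
    show Cfsg.sympTransvection m x 1 *ᵥ w = _
    rw [tv_mulVec, one_mul]
  have h1 := mem_of_fix hB (tv x 1) v hv hvB hTv w hw hwB (mulVec_ne_zero _ w hw)
  have h2 : Cfsg.sympForm m F w
      (((tv x 1 : symplecticGroup (Fin m) F) : Matrix (Fin m ⊕ Fin m) (Fin m ⊕ Fin m) F) *ᵥ w) ≠ 0 := by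
    rw [hTw, form_add_right, form_self, zero_add, form_smul_right]
    exact mul_ne_zero hx2 hx2
  exact eq_univ_of_nonorth hB w _ hw (mulVec_ne_zero _ w hw) hwB h1 h2

/-- The symplectic group acts primitively on the points of projective space. -/
theorem isPreprimitive : MulAction.IsPreprimitive (Cfsg.spGL m F) (ℙ F (Fin m ⊕ Fin m → F)) := by
  have hpre : MulAction.IsPretransitive (Cfsg.spGL m F) (ℙ F (Fin m ⊕ Fin m → F)) := by
    refine ⟨fun p p' => ?_⟩
    induction p using Projectivization.ind with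
    | h v hv =>
      induction p' using Projectivization.ind with
      | h w hw =>
        obtain ⟨A, -, hA⟩ := exists_closure_map (k := m) v w (supp_top _) (supp_top _) hv hw
        refine ⟨toSpGL A, ?_⟩
        rw [toSpGL_smul_mk A v hv (mulVec_ne_zero A v hv), Projectivization.mk_eq_mk_iff']
        exact ⟨1, by rw [one_smul, hA]⟩
  refine { toIsPretransitive := hpre, isTrivialBlock_of_isBlock := fun {B} hB => ?_ }
  by_cases hsub : B.Subsingleton
  · exact Or.inl hsub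
  · right
    rw [Set.not_subsingleton_iff] at hsub
    obtain ⟨p, hp, p', hp', hne⟩ := hsub
    induction p using Projectivization.ind with
    | h v hv =>
      induction p' using Projectivization.ind with
      | h w hw =>
        by_cases hvw : Cfsg.sympForm m F v w = 0
        · exact eq_univ_of_orth hB v w hv hw hp hp' hne
        · exact eq_univ_of_nonorth hB v w hv hw hp hp' hvw

end Cfsg.Agent.Lib_helper4_SpPrim
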