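import Mathlib
import Cfsg.Prelude.Def_ClassicalGeometry
import Cfsg.Agent.Lib_helper4_Sp
import Cfsg.Agent.Lib_helper4_SpCenter
import Cfsg.Agent.Lib_helper4_SpPrim
import Cfsg.Agent.Lib_helper4_SpPerfect

/-! Simplicity of the projective symplectic groups via Iwasawa's criterion. -/

namespace Cfsg.Agent.Lib_helper4_PSp
open Matrix Cfsg.Agent.Lib_helper4_Sp Cfsg.Agent.Lib_helper4_SpPrim Cfsg.Agent.Lib_helper4_SpPerfect
open scoped LinearAlgebra.Projectivization Pointwise

variable {F : Type*} [Field F] {m : ℕ}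

/-- The map from the symplectic group to `spGL`, as a homomorphism. -/
noncomputable def toSpGLHom : symplecticGroup (Fin m) F →* Cfsg.spGL m F where
  toFun := toSpGL
  map_one' := by
    apply Subtype.ext
    apply Units.ext
    rfl
  map_mul' A B := by
    apply Subtype.ext
    apply Units.ext
    rfl

lemma toSpGLHom_surjective : Function.Surjective (toSpGLHom (m := m) (F := F)) := by
  intro g
  have hg : ((g : GL (Fin m ⊕ Fin m) F) : Matrix (Fin m ⊕ Fin m) (Fin m ⊕ Fin m) F) ∈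
      symplecticGroup (Fin m) F := mem_of_form_mulVec (fun u v => g.2 u v)
  refine ⟨⟨_, hg⟩, ?_⟩
  apply Subtype.ext
  apply Units.ext
  rfl

/-- The action of the symplectic group on the points of projective space. -/
noncomputable def spAction :
    MulAction (symplecticGroup (Fin m) F) (ℙ F (Fin m ⊕ Fin m → F)) :=
  MulAction.compHom _ toSpGLHom

attribute [local instance] spAction

lemma sp_smul_mk (A : symplecticGroup (Fin m) F) (x : Fin m ⊕ Fin m → F) (hx : x ≠ 0) :
    A • Projectivization.mk F x hx =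
      Projectivization.mk F ((A : Matrix (Fin m ⊕ Fin m) (Fin m ⊕ Fin m) F) *ᵥ x)
        (mulVec_ne_zero A x hx) :=
  toSpGL_smul_mk A x hx _

lemma isPreprimitive_sp :
    MulAction.IsPreprimitive (symplecticGroup (Fin m) F) (ℙ F (Fin m ⊕ Fin m → F)) := by
  let f : ℙ F (Fin m ⊕ Fin m → F) →ₑ[⇑(toSpGLHom (m := m) (F := F))] ℙ F (Fin m ⊕ Fin m → F) :=
    { toFun := id, map_smul' := fun A p => rfl }
  exact (MulAction.isPreprimitive_congr (f := f) toSpGLHom_surjective Function.bijective_id).mpr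
    isPreprimitive

lemma tv_zero_vec (c : F) : tv (0 : Fin m ⊕ Fin m → F) c = 1 := by
  apply Subtype.ext
  show Cfsg.sympTransvection m 0 c = 1
  unfold Cfsg.sympTransvection
  simp

lemma tv_smul (a : F) (v : Fin m ⊕ Fin m → F) (c : F) : tv (a • v) c = tv v (a * a * c) := by
  apply Subtype.ext
  show Cfsg.sympTransvection m (a • v) c = Cfsg.sympTransvection m v (a * a * c)
  apply matrix_ext_mulVec
  intro x
  rw [tv_mulVec, tv_mulVec, form_smul_right, smul_smul]
  congr 2
  ring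

lemma tv_conj (A : symplecticGroup (Fin m) F) (v : Fin m ⊕ Fin m → F) (c : F) :
    A * tv v c * A⁻¹ = tv ((A : Matrix (Fin m ⊕ Fin m) (Fin m ⊕ Fin m) F) *ᵥ v) c := by
  rw [mul_inv_eq_iff_eq_mul]
  apply Subtype.ext
  show (A : Matrix (Fin m ⊕ Fin m) (Fin m ⊕ Fin m) F) * Cfsg.sympTransvection m v c =
    Cfsg.sympTransvection m ((A : Matrix (Fin m ⊕ Fin m) (Fin m ⊕ Fin m) F) *ᵥ v) c *
      (A : Matrix (Fin m ⊕ Fin m) (Fin m ⊕ Fin m) F)
  exact conj_tv A.2 v c

/-- The root group of a vector. -/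
def rootGroup (v : Fin m ⊕ Fin m → F) : Subgroup (symplecticGroup (Fin m) F) where
  carrier := {A | ∃ c : F, A = tv v c}
  one_mem' := ⟨0, (Subtype.ext (tv_zero v)).symm⟩
  mul_mem' := by
    rintro _ _ ⟨c, rfl⟩ ⟨d, rfl⟩
    exact ⟨c + d, Subtype.ext (tv_mul v c d)⟩
  inv_mem' := by
    rintro _ ⟨c, rfl⟩
    exact ⟨-c, tv_inv v c⟩

lemma rootGroup_smul (a : F) (ha : a ≠ 0) (v : Fin m ⊕ Fin m → F) :
    rootGroup (a • v) = rootGroup v := by
  ext A
  constructor
  · rintro ⟨c, rfl⟩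
    exact ⟨a * a * c, tv_smul a v c⟩
  · rintro ⟨c, rfl⟩
    refine ⟨c / (a * a), ?_⟩
    rw [tv_smul]
    congr 1
    field_simp

lemma rootGroup_conj (A : symplecticGroup (Fin m) F) (v : Fin m ⊕ Fin m → F) :
    rootGroup ((A : Matrix (Fin m ⊕ Fin m) (Fin m ⊕ Fin m) F) *ᵥ v) = MulAut.conj A • rootGroup v := by
  ext B
  rw [Subgroup.mem_smul_pointwise_iff_exists]
  constructor
  · rintro ⟨c, rfl⟩
    exact ⟨tv v c, ⟨c, rfl⟩, by rw [MulAut.smul_def, MulAut.conj_apply, tv_conj]⟩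
  · rintro ⟨_, ⟨c, rfl⟩, rfl⟩
    exact ⟨c, by rw [MulAut.smul_def, MulAut.conj_apply, tv_conj]⟩

/-- The Iwasawa structure given by the root groups. -/
noncomputable def iwasawa :
    MulAction.IwasawaStructure (symplecticGroup (Fin m) F) (ℙ F (Fin m ⊕ Fin m → F)) where
  T p := rootGroup p.rep
  is_comm p := ⟨⟨fun a b => by
    obtain ⟨a, c, rfl⟩ := a
    obtain ⟨b, d, rfl⟩ := b
    apply Subtype.ext
    apply Subtype.ext
    show Cfsg.sympTransvection m p.rep c * Cfsg.sympTransvection m p.rep d =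
      Cfsg.sympTransvection m p.rep d * Cfsg.sympTransvection m p.rep c
    rw [tv_mul, tv_mul, add_comm]⟩⟩
  is_conj A p := by
    have h1 : A • p = Projectivization.mk F
        ((A : Matrix (Fin m ⊕ Fin m) (Fin m ⊕ Fin m) F) *ᵥ p.rep)
        (mulVec_ne_zero A _ p.rep_nonzero) := by
      conv_lhs => rw [← Projectivization.mk_rep p]
      exact sp_smul_mk A _ _
    obtain ⟨a, ha⟩ := Projectivization.exists_smul_eq_mk_rep F
      ((A : Matrix (Fin m ⊕ Fin m) (Fin m ⊕ Fin m) F) *ᵥ p.rep) (mulVec_ne_zero A _ p.rep_nonzero)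
    show rootGroup (A • p).rep = MulAut.conj A • rootGroup p.rep
    rw [h1, ← ha, Units.smul_def, rootGroup_smul _ a.ne_zero, rootGroup_conj]
  is_generator := by
    rw [eq_top_iff, ← closure_TS_eq_top, Subgroup.closure_le]
    rintro T ⟨w, c, hT⟩
    have hT' : T = tv w c := Subtype.ext hT
    rw [hT']
    by_cases hw : w = 0
    · rw [hw, tv_zero_vec]
      exact one_mem _
    · apply Subgroup.mem_iSup_of_mem (Projectivization.mk F w hw)
      obtain ⟨a, ha⟩ := Projectivization.exists_smul_eq_mk_rep F w hw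
      show tv w c ∈ rootGroup (Projectivization.mk F w hw).rep
      rw [← ha, Units.smul_def, rootGroup_smul _ a.ne_zero]
      exact ⟨c, rfl⟩

lemma le_center_of_fixedPoints (hm : 1 ≤ m) (N : Subgroup (symplecticGroup (Fin m) F))
    (h : MulAction.fixedPoints N (ℙ F (Fin m ⊕ Fin m → F)) = Set.univ) :
    N ≤ Subgroup.center (symplecticGroup (Fin m) F) := by
  intro n hn
  have h1 : ∀ v : Fin m ⊕ Fin m → F, ∃ a : F,
      (n : Matrix (Fin m ⊕ Fin m) (Fin m ⊕ Fin m) F) *ᵥ v = a • v := by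
    intro v
    by_cases hv : v = 0
    · exact ⟨0, by rw [hv, mulVec_zero, smul_zero]⟩
    · have h2 : Projectivization.mk F v hv ∈ MulAction.fixedPoints N (ℙ F (Fin m ⊕ Fin m → F)) := by
        rw [h]
        trivial
      have h4 : n • Projectivization.mk F v hv = Projectivization.mk F v hv := h2 ⟨n, hn⟩
      rw [sp_smul_mk, Projectivization.mk_eq_mk_iff'] at h4
      obtain ⟨a, ha⟩ := h4
      exact ⟨a, ha.symm⟩
  obtain ⟨a, ha⟩ := Cfsg.Agent.Lib_helper4_SpCenter.eq_smul_one_of_forall_smul hm _ h1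
  rw [Subgroup.mem_center_iff]
  intro B
  apply Subtype.ext
  rw [Submonoid.coe_mul, Submonoid.coe_mul, ha]
  simp

lemma center_ne_top (hm : 1 ≤ m) : Subgroup.center (symplecticGroup (Fin m) F) ≠ ⊤ := by
  intro htop
  have hmem : tv (eb ⟨0, hm⟩) (1 : F) ∈ Subgroup.center (symplecticGroup (Fin m) F) := by
    rw [htop]
    trivial
  have e1 : ((tv (eb ⟨0, hm⟩) (1 : F) : symplecticGroup (Fin m) F) :
      Matrix (Fin m ⊕ Fin m) (Fin m ⊕ Fin m) F) *ᵥ fb ⟨0, hm⟩ = fb ⟨0, hm⟩ + eb ⟨0, hm⟩ := by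
    show Cfsg.sympTransvection m (eb ⟨0, hm⟩) 1 *ᵥ fb ⟨0, hm⟩ = _
    rw [tv_mulVec, form_fb_eb, mul_one, one_smul]
  rcases (Cfsg.Agent.Lib_helper4_SpCenter.mem_center_iff hm _).mp hmem with h1 | h1
  · rw [h1] at e1
    have e2 := congrFun e1 (Sum.inl ⟨0, hm⟩)
    simp [eb, fb] at e2
  · rw [h1] at e1
    have e2 := congrFun e1 (Sum.inl ⟨0, hm⟩)
    simp [eb, fb] at e2

/-- `PSp_{2m}(q)` is simple for `m ≥ 2`, `(m, q) ≠ (2, 2)`. -/
theorem psp_isSimpleGroup [Fintype F] (hm : 2 ≤ m) (h : m = 2 → 3 ≤ Fintype.card F) :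
    IsSimpleGroup (Cfsg.PSp m F) := by
  have hperf : commutator (symplecticGroup (Fin m) F) = ⊤ := commutator_eq_top (by
    by_cases h2 : m = 2
    · exact Or.inr (Or.inl ⟨h2, h h2⟩)
    · exact Or.inl (by omega))
  haveI : MulAction.IsPreprimitive (symplecticGroup (Fin m) F) (ℙ F (Fin m ⊕ Fin m → F)) :=
    isPreprimitive_sp
  haveI : Nontrivial (Cfsg.PSp m F) := QuotientGroup.nontrivial_iff.mpr (center_ne_top (by omega))
  refine ⟨fun Nbar hN => ?_⟩
  have hsurj := QuotientGroup.mk'_surjective (Subgroup.center (symplecticGroup (Fin m) F))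
  haveI : (Nbar.comap (QuotientGroup.mk' (Subgroup.center (symplecticGroup (Fin m) F)))).Normal :=
    hN.comap _
  by_cases hfix : MulAction.fixedPoints
      (Nbar.comap (QuotientGroup.mk' (Subgroup.center (symplecticGroup (Fin m) F))))
      (ℙ F (Fin m ⊕ Fin m → F)) = Set.univ
  · left
    have hle := le_center_of_fixedPoints (by omega) _ hfix
    rw [eq_bot_iff, ← Subgroup.map_comap_eq_self_of_surjective hsurj Nbar]
    calc (Nbar.comap (QuotientGroup.mk' (Subgroup.center (symplecticGroup (Fin m) F)))).map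
          (QuotientGroup.mk' (Subgroup.center (symplecticGroup (Fin m) F)))
        ≤ (Subgroup.center (symplecticGroup (Fin m) F)).map
          (QuotientGroup.mk' (Subgroup.center (symplecticGroup (Fin m) F))) := Subgroup.map_mono hle
      _ = ⊥ := QuotientGroup.map_mk'_self _
  · right
    have hcomm := (iwasawa (m := m) (F := F)).commutator_le _ hfix
    rw [hperf, top_le_iff] at hcomm
    rw [← Subgroup.map_comap_eq_self_of_surjective hsurj Nbar, hcomm,
      Subgroup.map_top_of_surjective _ hsurj]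

end Cfsg.Agent.Lib_helper4_PSp
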