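import Mathlib

set_option autoImplicit false

/-! Subgroups of `GL(2, p)` acting regularly on the non-zero vectors, certified by a table:
for every non-zero vector `v` the unique group element with first column `v`. -/

namespace Cfsg.Agent.Lib_helper4_RegMat
open Matrix

variable {p : ℕ} [Fact p.Prime]

/-- the first basis vector -/
def e1 (p : ℕ) : Fin 2 → ZMod p := ![1, 0]

lemma e1_ne_zero : e1 p ≠ 0 := by
  intro h
  have := congrFun h 0
  simp [e1] at this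

lemma mulVec_ne_zero (h : GL (Fin 2) (ZMod p)) (v : Fin 2 → ZMod p) (hv : v ≠ 0) :
    (h : Matrix (Fin 2) (Fin 2) (ZMod p)) *ᵥ v ≠ 0 := by
  intro h0
  apply hv
  have : ((h⁻¹ : GL (Fin 2) (ZMod p)) : Matrix (Fin 2) (Fin 2) (ZMod p)) *ᵥ
      ((h : Matrix (Fin 2) (Fin 2) (ZMod p)) *ᵥ v) = v := by
    rw [Matrix.mulVec_mulVec, ← Units.val_mul, inv_mul_cancel, Units.val_one, Matrix.one_mulVec]
  rw [← this, h0, Matrix.mulVec_zero]

theorem regular_of_table (gens : Set (GL (Fin 2) (ZMod p)))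
    (M : (Fin 2 → ZMod p) → Matrix (Fin 2) (Fin 2) (ZMod p))
    (hcol : ∀ v, M v *ᵥ e1 p = v)
    (hone : M (e1 p) = 1)
    (hgen : ∀ g ∈ gens, ∀ v, v ≠ 0 → (g : Matrix (Fin 2) (Fin 2) (ZMod p)) * M v
      = M ((g : Matrix (Fin 2) (Fin 2) (ZMod p)) *ᵥ v))
    (rk : (Fin 2 → ZMod p) → ℕ)
    (hbfs : ∀ v, v ≠ 0 → v ≠ e1 p → ∃ g ∈ gens, ∃ v', v' ≠ 0 ∧ rk v' < rk v ∧
      (g : Matrix (Fin 2) (Fin 2) (ZMod p)) *ᵥ v' = v) :
    Nat.card (Subgroup.closure gens) = p ^ 2 - 1 ∧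
    ∀ v w : Fin 2 → ZMod p, v ≠ 0 → w ≠ 0 → ∃! h : Subgroup.closure gens,
      ((h : GL (Fin 2) (ZMod p)) : Matrix (Fin 2) (Fin 2) (ZMod p)) *ᵥ v = w := by
  have h1 : ∀ h ∈ Subgroup.closure gens, ∀ v, v ≠ 0 →
      (h : Matrix (Fin 2) (Fin 2) (ZMod p)) * M v = M ((h : Matrix (Fin 2) (Fin 2) (ZMod p)) *ᵥ v) := by
    intro h hh
    induction hh using Subgroup.closure_induction with
    | mem g hg => exact hgen g hg
    | one => intro v _; simp
    | mul x y _ _ hx hy =>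
      intro v hv
      rw [Units.val_mul, Matrix.mul_assoc, hy v hv, hx _ (mulVec_ne_zero y v hv), Matrix.mulVec_mulVec]
    | inv x _ hx =>
      intro v hv
      have h2 := hx _ (mulVec_ne_zero x⁻¹ v hv)
      rw [Matrix.mulVec_mulVec, ← Units.val_mul, mul_inv_cancel, Units.val_one, Matrix.one_mulVec] at h2
      rw [← h2, ← Matrix.mul_assoc, ← Units.val_mul, inv_mul_cancel, Units.val_one, Matrix.one_mul]
  have h2 : ∀ h ∈ Subgroup.closure gens,
      (h : Matrix (Fin 2) (Fin 2) (ZMod p)) = M ((h : Matrix (Fin 2) (Fin 2) (ZMod p)) *ᵥ e1 p) := by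
    intro h hh
    have := h1 h hh (e1 p) e1_ne_zero
    rw [hone, Matrix.mul_one] at this
    exact this
  have hreach : ∀ n, ∀ v, v ≠ 0 → rk v = n → ∃ h ∈ Subgroup.closure gens,
      (h : Matrix (Fin 2) (Fin 2) (ZMod p)) = M v := by
    intro n
    induction n using Nat.strong_induction_on with
    | _ n ih =>
      intro v hv hn
      by_cases hve : v = e1 p
      · exact ⟨1, Subgroup.one_mem _, by rw [hve, hone]; rfl⟩
      · obtain ⟨g, hg, v', hv', hrk, hgv⟩ := hbfs v hv hve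
        obtain ⟨h', hh', hM⟩ := ih (rk v') (hn ▸ hrk) v' hv' rfl
        refine ⟨g * h', Subgroup.mul_mem _ (Subgroup.subset_closure hg) hh', ?_⟩
        rw [Units.val_mul, hM, hgen g hg v' hv', hgv]
  have hex : ∀ v, v ≠ 0 → ∃ h ∈ Subgroup.closure gens,
      (h : Matrix (Fin 2) (Fin 2) (ZMod p)) *ᵥ e1 p = v := by
    intro v hv
    obtain ⟨h, hh, hM⟩ := hreach _ v hv rfl
    exact ⟨h, hh, by rw [hM, hcol]⟩
  have hinj : ∀ h ∈ Subgroup.closure gens, ∀ h' ∈ Subgroup.closure gens,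
      (h : Matrix (Fin 2) (Fin 2) (ZMod p)) *ᵥ e1 p = (h' : Matrix (Fin 2) (Fin 2) (ZMod p)) *ᵥ e1 p →
      h = h' := by
    intro h hh h' hh' heq
    apply Units.ext
    rw [h2 h hh, h2 h' hh', heq]
  constructor
  · have hbij : Function.Bijective (fun h : Subgroup.closure gens =>
        (⟨((h : GL (Fin 2) (ZMod p)) : Matrix (Fin 2) (Fin 2) (ZMod p)) *ᵥ e1 p,
          mulVec_ne_zero _ _ e1_ne_zero⟩ : {v : Fin 2 → ZMod p // v ≠ 0})) := by
      constructor
      · intro a b hab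
        exact Subtype.ext (hinj a.1 a.2 b.1 b.2 (congrArg Subtype.val hab))
      · intro v
        obtain ⟨h, hh, hv⟩ := hex v.1 v.2
        exact ⟨⟨h, hh⟩, Subtype.ext hv⟩
    rw [Nat.card_congr (Equiv.ofBijective _ hbij)]
    have h3 : Nat.card {v : Fin 2 → ZMod p // v ≠ 0}
        = ((Set.univ : Set (Fin 2 → ZMod p)) \ {0}).ncard := by
      rw [← Nat.card_coe_set_eq]
      apply Nat.card_congr
      exact Equiv.subtypeEquivRight (fun v => by simp)
    rw [h3, Set.ncard_diff_singleton_of_mem (Set.mem_univ _), Set.ncard_univ, Nat.card_eq_fintype_card,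
      Fintype.card_fun, ZMod.card, Fintype.card_fin]
  · intro v w hv hw
    obtain ⟨hv', hhv, hv1⟩ := hex v hv
    obtain ⟨hw', hhw, hw1⟩ := hex w hw
    have hvinv : ((hv'⁻¹ : GL (Fin 2) (ZMod p)) : Matrix (Fin 2) (Fin 2) (ZMod p)) *ᵥ v = e1 p := by
      rw [← hv1, Matrix.mulVec_mulVec, ← Units.val_mul, inv_mul_cancel, Units.val_one, Matrix.one_mulVec]
    refine ⟨⟨hw' * hv'⁻¹, Subgroup.mul_mem _ hhw (Subgroup.inv_mem _ hhv)⟩, ?_, ?_⟩
    · show ((hw' * hv'⁻¹ : GL (Fin 2) (ZMod p)) : Matrix (Fin 2) (Fin 2) (ZMod p)) *ᵥ v = w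
      rw [Units.val_mul, ← Matrix.mulVec_mulVec, hvinv, hw1]
    · intro h hh
      apply Subtype.ext
      show (h : GL (Fin 2) (ZMod p)) = hw' * hv'⁻¹
      have hk : (h : GL (Fin 2) (ZMod p)) * hv' = hw' := by
        apply hinj _ (Subgroup.mul_mem _ h.2 hhv) _ hhw
        rw [Units.val_mul, ← Matrix.mulVec_mulVec, hv1, hh, hw1]
      rw [← hk, mul_inv_cancel_right]

/-- index of a vector -/
def idx (p : ℕ) (v : Fin 2 → ZMod p) : ℕ := (v 0).val * p + (v 1).val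

/-- the vector of an index -/
def vec (p : ℕ) (i : ℕ) : Fin 2 → ZMod p := ![((i / p : ℕ) : ZMod p), ((i % p : ℕ) : ZMod p)]

/-- the matrix with given natural entries -/
def mat (p : ℕ) (t : ℕ × ℕ × ℕ × ℕ) : Matrix (Fin 2) (Fin 2) (ZMod p) :=
  !![(t.1 : ZMod p), (t.2.1 : ZMod p); (t.2.2.1 : ZMod p), (t.2.2.2 : ZMod p)]

/-- the matrix with first column `v` and second column read off the table -/
def Mt (p : ℕ) (T : ℕ → ℕ) (v : Fin 2 → ZMod p) : Matrix (Fin 2) (Fin 2) (ZMod p) :=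
  !![v 0, ((T (idx p v) / p : ℕ) : ZMod p); v 1, ((T (idx p v) % p : ℕ) : ZMod p)]

lemma idx_div (v : Fin 2 → ZMod p) : idx p v / p = (v 0).val := by
  unfold idx
  have hp : 0 < p := (Fact.out : p.Prime).pos
  rw [add_comm, Nat.add_mul_div_right _ _ hp, Nat.div_eq_of_lt (ZMod.val_lt _), zero_add]

lemma idx_mod (v : Fin 2 → ZMod p) : idx p v % p = (v 1).val := by
  unfold idx
  rw [add_comm, Nat.add_mul_mod_self_right, Nat.mod_eq_of_lt (ZMod.val_lt _)]

lemma idx_lt (v : Fin 2 → ZMod p) : idx p v < p * p := by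
  unfold idx
  have h0 := ZMod.val_lt (v 0)
  have h1 := ZMod.val_lt (v 1)
  nlinarith

lemma vec_idx (v : Fin 2 → ZMod p) : vec p (idx p v) = v := by
  unfold vec
  rw [idx_div, idx_mod]
  ext i
  fin_cases i <;> simp

lemma idx_vec (j : ℕ) (hj : j < p * p) : idx p (vec p j) = j := by
  have hp : 0 < p := (Fact.out : p.Prime).pos
  unfold idx vec
  simp only [Matrix.cons_val_zero, Matrix.cons_val_one, ZMod.val_natCast]
  rw [Nat.mod_eq_of_lt (Nat.div_lt_of_lt_mul hj), Nat.mod_mod, Nat.div_add_mod']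

lemma idx_zero : idx p (0 : Fin 2 → ZMod p) = 0 := by
  unfold idx
  simp

lemma idx_pos (v : Fin 2 → ZMod p) (hv : v ≠ 0) : 1 ≤ idx p v := by
  by_contra h
  have h0 : idx p v = 0 := by omega
  apply hv
  rw [← vec_idx v, h0, ← idx_zero (p := p), vec_idx]

lemma vec_ne_zero (j : ℕ) (hj1 : 1 ≤ j) (hj : j < p * p) : vec p j ≠ 0 := by
  intro h
  have := idx_vec j hj
  rw [h, idx_zero] at this
  omega

lemma idx_e1 : idx p (e1 p) = p := by
  unfold idx e1
  haveI : Fact (1 < p) := ⟨(Fact.out : p.Prime).one_lt⟩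
  simp [ZMod.val_one]

lemma mat_mulVec_zero (t : ℕ × ℕ × ℕ × ℕ) (v : Fin 2 → ZMod p) :
    (mat p t *ᵥ v) 0 = ((t.1 * (v 0).val + t.2.1 * (v 1).val : ℕ) : ZMod p) := by
  simp [mat, Matrix.mulVec, dotProduct, Fin.sum_univ_two]

lemma mat_mulVec_one (t : ℕ × ℕ × ℕ × ℕ) (v : Fin 2 → ZMod p) :
    (mat p t *ᵥ v) 1 = ((t.2.2.1 * (v 0).val + t.2.2.2 * (v 1).val : ℕ) : ZMod p) := by
  simp [mat, Matrix.mulVec, dotProduct, Fin.sum_univ_two]

lemma idx_mat_mulVec (t : ℕ × ℕ × ℕ × ℕ) (v : Fin 2 → ZMod p) :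
    idx p (mat p t *ᵥ v) = ((t.1 * (idx p v / p) + t.2.1 * (idx p v % p)) % p) * p
      + (t.2.2.1 * (idx p v / p) + t.2.2.2 * (idx p v % p)) % p := by
  rw [idx_div, idx_mod]
  unfold idx
  rw [mat_mulVec_zero, mat_mulVec_one, ZMod.val_natCast, ZMod.val_natCast]

/-- the table is compatible with left multiplication by the matrix `t` at index `i` -/
def genCheckB (p : ℕ) (T : ℕ → ℕ) (t : ℕ × ℕ × ℕ × ℕ) (i : ℕ) : Bool :=
  T (((t.1 * (i / p) + t.2.1 * (i % p)) % p) * p + (t.2.2.1 * (i / p) + t.2.2.2 * (i % p)) % p)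
    == ((t.1 * (T i / p) + t.2.1 * (T i % p)) % p) * p
      + (t.2.2.1 * (T i / p) + t.2.2.2 * (T i % p)) % p

/-- index `i` is the image under one of the matrices of an index of smaller rank -/
def bfsCheckB (p : ℕ) (R Par : ℕ → ℕ) (L : List (ℕ × ℕ × ℕ × ℕ)) (i : ℕ) : Bool :=
  decide (1 ≤ Par i) && decide (Par i < p * p) && decide (R (Par i) < R i) &&
    L.any (fun t => (t.1 * (Par i / p) + t.2.1 * (Par i % p)) % p == i / p &&
      (t.2.2.1 * (Par i / p) + t.2.2.2 * (Par i % p)) % p == i % p)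

/-- all the checks of the certificate -/
def allChecks (p : ℕ) (T R Par : ℕ → ℕ) (L : List (ℕ × ℕ × ℕ × ℕ)) : Bool :=
  T p == 1 && (List.range (p * p)).all (fun i => i == 0 ||
    (L.all (fun t => genCheckB p T t i) && (i == p || bfsCheckB p R Par L i)))

theorem regular_of_checks (gens : Set (GL (Fin 2) (ZMod p))) (L : List (ℕ × ℕ × ℕ × ℕ))
    (hL1 : ∀ g ∈ gens, ∃ t ∈ L, (g : Matrix (Fin 2) (Fin 2) (ZMod p)) = mat p t)
    (hL2 : ∀ t ∈ L, ∃ g ∈ gens, (g : Matrix (Fin 2) (Fin 2) (ZMod p)) = mat p t)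
    (T R Par : ℕ → ℕ) (hchk : allChecks p T R Par L = true) :
    Nat.card (Subgroup.closure gens) = p ^ 2 - 1 ∧
    ∀ v w : Fin 2 → ZMod p, v ≠ 0 → w ≠ 0 → ∃! h : Subgroup.closure gens,
      ((h : GL (Fin 2) (ZMod p)) : Matrix (Fin 2) (Fin 2) (ZMod p)) *ᵥ v = w := by
  have hp : p.Prime := Fact.out
  unfold allChecks at hchk
  rw [Bool.and_eq_true, beq_iff_eq, List.all_eq_true] at hchk
  obtain ⟨hT1, hall⟩ := hchk
  have hall' : ∀ i, 1 ≤ i → i < p * p → (∀ t ∈ L, genCheckB p T t i = true) ∧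
      (i ≠ p → bfsCheckB p R Par L i = true) := by
    intro i hi1 hi2
    have := hall i (List.mem_range.mpr hi2)
    rw [Bool.or_eq_true, beq_iff_eq] at this
    rcases this with h | h
    · omega
    · rw [Bool.and_eq_true, List.all_eq_true, Bool.or_eq_true, beq_iff_eq] at h
      exact ⟨h.1, fun hne => h.2.resolve_left hne⟩
  apply regular_of_table gens (Mt p T) ?_ ?_ ?_ (fun v => R (idx p v)) ?_
  · intro v
    ext i
    fin_cases i <;> simp [Mt, e1, Matrix.mulVec, dotProduct, Fin.sum_univ_two]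
  · have h1 : (1 : ℕ) / p = 0 := Nat.div_eq_of_lt hp.one_lt
    have h2 : (1 : ℕ) % p = 1 := Nat.mod_eq_of_lt hp.one_lt
    have hM : Mt p T (e1 p) = !![1, ((T p / p : ℕ) : ZMod p); 0, ((T p % p : ℕ) : ZMod p)] := by
      unfold Mt
      rw [idx_e1]
      simp [e1]
    rw [hM, hT1, h1, h2]
    simp [Matrix.one_fin_two]
  · intro g hg v hv
    obtain ⟨t, ht, hgt⟩ := hL1 g hg
    rw [hgt]
    have hc := (hall' (idx p v) (idx_pos v hv) (idx_lt v)).1 t ht
    unfold genCheckB at hc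
    rw [beq_iff_eq, ← idx_mat_mulVec] at hc
    have hd : (t.2.2.1 * (T (idx p v) / p) + t.2.2.2 * (T (idx p v) % p)) % p < p :=
      Nat.mod_lt _ hp.pos
    have hdiv : T (idx p (mat p t *ᵥ v)) / p
        = (t.1 * (T (idx p v) / p) + t.2.1 * (T (idx p v) % p)) % p := by
      rw [hc, add_comm, Nat.add_mul_div_right _ _ hp.pos, Nat.div_eq_of_lt hd, zero_add]
    have hmod : T (idx p (mat p t *ᵥ v)) % p
        = (t.2.2.1 * (T (idx p v) / p) + t.2.2.2 * (T (idx p v) % p)) % p := by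
      rw [hc, add_comm, Nat.add_mul_mod_self_right, Nat.mod_eq_of_lt hd]
    ext i j
    fin_cases i <;> fin_cases j
    · simp [Mt, mat, Matrix.mul_apply, Fin.sum_univ_two, Matrix.mulVec, dotProduct]
    · show (mat p t * Mt p T v) 0 1 = ((T (idx p (mat p t *ᵥ v)) / p : ℕ) : ZMod p)
      rw [hdiv, ZMod.natCast_mod]
      simp [Mt, mat, Matrix.mul_apply, Fin.sum_univ_two]
    · simp [Mt, mat, Matrix.mul_apply, Fin.sum_univ_two, Matrix.mulVec, dotProduct]
    · show (mat p t * Mt p T v) 1 1 = ((T (idx p (mat p t *ᵥ v)) % p : ℕ) : ZMod p)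
      rw [hmod, ZMod.natCast_mod]
      simp [Mt, mat, Matrix.mul_apply, Fin.sum_univ_two]
  · intro v hv hve
    have hi : idx p v ≠ p := by
      intro h
      apply hve
      have h3 := congrArg (vec p) (h.trans (idx_e1 (p := p)).symm)
      rw [vec_idx, vec_idx] at h3
      exact h3
    obtain ⟨-, hb⟩ := hall' (idx p v) (idx_pos v hv) (idx_lt v)
    have hb' := hb hi
    unfold bfsCheckB at hb'
    simp only [Bool.and_eq_true, decide_eq_true_eq, List.any_eq_true, beq_iff_eq] at hb'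
    obtain ⟨⟨⟨hj1, hj2⟩, hrk⟩, t, ht, ht1, ht2⟩ := hb'
    obtain ⟨g, hg, hgt⟩ := hL2 t ht
    refine ⟨g, hg, vec p (Par (idx p v)), vec_ne_zero _ hj1 hj2, ?_, ?_⟩
    · show R (idx p (vec p (Par (idx p v)))) < R (idx p v)
      rw [idx_vec _ hj2]
      exact hrk
    · rw [hgt]
      have e0 : ((vec p (Par (idx p v))) 0).val = Par (idx p v) / p := by
        rw [← idx_div, idx_vec _ hj2]
      have e1' : ((vec p (Par (idx p v))) 1).val = Par (idx p v) % p := by
        rw [← idx_mod, idx_vec _ hj2]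
      ext i
      fin_cases i
      · show (mat p t *ᵥ vec p (Par (idx p v))) 0 = v 0
        rw [mat_mulVec_zero, e0, e1', ← ZMod.natCast_mod, ht1, idx_div, ZMod.natCast_zmod_val]
      · show (mat p t *ᵥ vec p (Par (idx p v))) 1 = v 1
        rw [mat_mulVec_one, e0, e1', ← ZMod.natCast_mod, ht2, idx_mod, ZMod.natCast_zmod_val]

end Cfsg.Agent.Lib_helper4_RegMat
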