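import Mathlib

set_option autoImplicit false

namespace Cfsg.Agent.Lib_helper4_SL

open Matrix Matrix.SpecialLinearGroup

variable {ι F : Type*} [Fintype ι] [DecidableEq ι] [Field F]

lemma diag2n_decompose {i j : ι} (hij : i ≠ j) (a : F) (ha : a ≠ 0) :
    diag2n hij a ha = transvection hij a * transvection hij.symm (-a⁻¹) * transvection hij a *
      transvection hij (-1) * transvection hij.symm 1 * transvection hij (-1) := by
  have hji : j ≠ i := hij.symm
  apply Subtype.ext
  simp only [coe_mul, transvection_coe, diag2n_coe]
  simp only [mul_add, add_mul, mul_one, one_mul, single_mul_single_same,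
    single_mul_single_of_ne _ _ _ _ hij, single_mul_single_of_ne _ _ _ _ hij.symm]
  ext k l
  simp only [Matrix.add_apply, Matrix.single_apply, Matrix.one_apply, Matrix.diagonal_apply,
    @eq_comm _ i k, @eq_comm _ j k, @eq_comm _ i l, @eq_comm _ j l]
  by_cases hki : k = i <;> by_cases hkj : k = j <;> by_cases hli : l = i <;> by_cases hlj : l = j <;>
    simp_all <;> first | done | (field_simp; ring1) | grind

/-- Transvection induction in `SL ι F` for an arbitrary (nontrivial) index type. -/
theorem transvection_induction [Nontrivial ι] (P : SpecialLinearGroup ι F → Prop)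
    (htransvec : ∀ (i j : ι) (hij : i ≠ j) (c : F), P (transvection hij c))
    (hmul : ∀ A B, P A → P B → P (A * B)) (A : SpecialLinearGroup ι F) : P A := by
  refine diagonal_transvection_induction' P A (fun i j hij c hc => ?_) htransvec hmul
  rw [diag2n_decompose hij c hc]
  refine hmul _ _ (hmul _ _ (hmul _ _ (hmul _ _ (hmul _ _ ?_ ?_) ?_) ?_) ?_) ?_
  all_goals exact htransvec _ _ _ _

open scoped commutatorElement

lemma transvection_eq_commutator {i j k : ι} (hij : i ≠ j) (hik : i ≠ k) (hkj : k ≠ j) (c : F) :
    transvection hij c = ⁅transvection hik c, transvection hkj (1 : F)⁆ := by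
  rw [commutatorElement_def, transvection_inv, transvection_inv]
  apply Subtype.ext
  simp only [coe_mul, transvection_coe]
  simp only [mul_add, add_mul, mul_one, one_mul, single_mul_single_same,
    single_mul_single_of_ne _ _ _ _ hij, single_mul_single_of_ne _ _ _ _ hij.symm,
    single_mul_single_of_ne _ _ _ _ hik, single_mul_single_of_ne _ _ _ _ hik.symm,
    single_mul_single_of_ne _ _ _ _ hkj, single_mul_single_of_ne _ _ _ _ hkj.symm]
  ext a b
  simp only [Matrix.add_apply, Matrix.single_apply, Matrix.one_apply, Matrix.zero_apply,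
    @eq_comm _ i a, @eq_comm _ j a, @eq_comm _ k a, @eq_comm _ i b, @eq_comm _ j b, @eq_comm _ k b]
  by_cases hai : a = i <;> by_cases haj : a = j <;> by_cases hak : a = k <;>
  by_cases hbi : b = i <;> by_cases hbj : b = j <;> by_cases hbk : b = k <;>
    simp_all <;> first | done | ring1 | grind

lemma exists_third (h : 3 ≤ Fintype.card ι) (i j : ι) : ∃ k : ι, i ≠ k ∧ k ≠ j := by
  have : ({i, j} : Finset ι).card < (Finset.univ : Finset ι).card := by
    have := Finset.card_le_two (a := i) (b := j)
    rw [Finset.card_univ]; omega
  obtain ⟨k, -, hk⟩ := Finset.exists_mem_notMem_of_card_lt_card this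
  simp only [Finset.mem_insert, Finset.mem_singleton, not_or] at hk
  exact ⟨k, fun h => hk.1 h.symm, hk.2⟩

lemma transvection_mem_commutatorSet (h : 3 ≤ Fintype.card ι) {i j : ι} (hij : i ≠ j) (c : F) :
    transvection hij c ∈ commutatorSet (SpecialLinearGroup ι F) := by
  obtain ⟨k, hik, hkj⟩ := exists_third h i j
  exact ⟨_, _, (transvection_eq_commutator hij hik hkj c).symm⟩

theorem commutator_eq_top (h : 3 ≤ Fintype.card ι) :
    commutator (SpecialLinearGroup ι F) = ⊤ := by
  have : Nontrivial ι := Fintype.one_lt_card_iff_nontrivial.mp (by omega)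
  refine le_antisymm le_top (fun A _ => ?_)
  refine transvection_induction (fun A => A ∈ commutator (SpecialLinearGroup ι F)) ?_ ?_ A
  · intro i j hij c
    rw [commutator_eq_closure]
    exact Subgroup.subset_closure (transvection_mem_commutatorSet h hij c)
  · intro A B hA hB
    exact mul_mem hA hB

end Cfsg.Agent.Lib_helper4_SL
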