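import Mathlib
import Cfsg.Agent.Lib_helper4_ConjCount

set_option autoImplicit false

/-! Sharply doubly transitive permutation groups: counting. -/

namespace Cfsg.Agent.Lib_helper4_Sharp2

open MulAction

variable {α : Type*} [Fintype α] [DecidableEq α] (G : Subgroup (Equiv.Perm α))

/-- the set of fixed-point-free elements together with the identity -/
def kset : Set G := {g | g = 1 ∨ ∀ a : α, g • a ≠ a}

variable {G}

lemma eq_one_of_fix_two (hsharp : ∀ x : Fin 2 ↪ α, stabilizer G x = ⊥) (g : G) {a b : α}
    (hab : a ≠ b) (ha : g • a = a) (hb : g • b = b) : g = 1 := by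
  have h1 : g ∈ stabilizer G (Function.Embedding.embFinTwo hab) := by
    rw [mem_stabilizer_iff]
    apply Function.Embedding.ext
    intro i
    fin_cases i
    · exact ha
    · exact hb
  rw [hsharp] at h1
  exact Subgroup.mem_bot.mp h1

lemma card_eq [IsMultiplyPretransitive G α 2] (hsharp : ∀ x : Fin 2 ↪ α, stabilizer G x = ⊥)
    (h2 : 2 ≤ Fintype.card α) : Nat.card G = Fintype.card α * (Fintype.card α - 1) := by
  obtain ⟨a, b, hab⟩ := Fintype.exists_pair_of_one_lt_card (by omega : 1 < Fintype.card α)
  have hinj : Function.Injective (fun g : G => g • Function.Embedding.embFinTwo hab) := by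
    intro g g' h
    have ha : g • a = g' • a := congrArg (fun f : Fin 2 ↪ α => f 0) h
    have hb : g • b = g' • b := congrArg (fun f : Fin 2 ↪ α => f 1) h
    have h4 : g'⁻¹ * g = 1 := eq_one_of_fix_two hsharp _ hab
      (by rw [mul_smul, ha, inv_smul_smul]) (by rw [mul_smul, hb, inv_smul_smul])
    exact (inv_mul_eq_one.mp h4).symm
  have hsurj : Function.Surjective (fun g : G => g • Function.Embedding.embFinTwo hab) :=
    fun y => exists_smul_eq G _ y
  have e : Nat.card G = Nat.card (Fin 2 ↪ α) :=
    Nat.card_congr (Equiv.ofBijective _ ⟨hinj, hsurj⟩)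
  rw [Nat.card_eq_fintype_card (α := Fin 2 ↪ α), Fintype.card_embedding_eq, Fintype.card_fin] at e
  rw [e]
  simp [Nat.descFactorial]
  ring

lemma card_stabilizer [IsMultiplyPretransitive G α 2]
    (hsharp : ∀ x : Fin 2 ↪ α, stabilizer G x = ⊥) (h2 : 2 ≤ Fintype.card α) (a : α) :
    Nat.card (stabilizer G a) = Fintype.card α - 1 := by
  haveI : IsPretransitive G α := isPretransitive_of_is_two_pretransitive
  have e := Nat.card_congr (orbitProdStabilizerEquivGroup G a)
  rw [Nat.card_prod, orbit_eq_univ, Nat.card_coe_set_eq, Set.ncard_univ, Nat.card_eq_fintype_card,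
    card_eq hsharp h2] at e
  exact Nat.eq_of_mul_eq_mul_left (by omega) e

lemma ncard_kset [IsMultiplyPretransitive G α 2]
    (hsharp : ∀ x : Fin 2 ↪ α, stabilizer G x = ⊥) (h2 : 2 ≤ Fintype.card α) :
    (kset G).ncard = Fintype.card α := by
  classical
  haveI : Fintype G := Fintype.ofFinite G
  let Ea : α → Finset G := fun a => Finset.univ.filter (fun g => g ≠ 1 ∧ g • a = a)
  have hEa : ∀ a, (Ea a).card = Fintype.card α - 2 := by
    intro a
    have h1 : Ea a = (Finset.univ.filter (fun g : G => g ∈ stabilizer G a)).erase 1 := by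
      ext g
      simp only [Ea, Finset.mem_filter, Finset.mem_univ, true_and, Finset.mem_erase,
        mem_stabilizer_iff]
    rw [h1, Finset.card_erase_of_mem (by simp), ← Fintype.card_subtype,
      ← Nat.card_eq_fintype_card, card_stabilizer hsharp h2 a]
    omega
  have hdisj : ∀ a b : α, a ≠ b → Disjoint (Ea a) (Ea b) := by
    intro a b hab
    rw [Finset.disjoint_left]
    intro g hga hgb
    simp only [Ea, Finset.mem_filter, Finset.mem_univ, true_and] at hga hgb
    exact hga.1 (eq_one_of_fix_two hsharp g hab hga.2 hgb.2)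
  have hE : (Finset.univ.biUnion Ea).card = Fintype.card α * (Fintype.card α - 2) := by
    rw [Finset.card_biUnion (fun a _ b _ hab => hdisj a b hab)]
    simp [hEa]
  have hset : kset G = ↑(Finset.univ.filter (fun g : G => g = 1 ∨ ∀ a : α, g • a ≠ a)) := by
    ext g; simp [kset]
  have hK : Finset.univ.filter (fun g : G => g = 1 ∨ ∀ a : α, g • a ≠ a) =
      Finset.univ \ Finset.univ.biUnion Ea := by
    ext g
    simp only [Finset.mem_sdiff, Finset.mem_univ,
      true_and, Finset.mem_biUnion, Finset.mem_filter, Ea, not_exists, not_and]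
    constructor
    · rintro (rfl | h) a h1
      · exact absurd rfl h1
      · exact h a
    · intro h
      by_cases hg : g = 1
      · left; exact hg
      · right; intro a; exact h a hg
  rw [hset, Set.ncard_coe_finset, hK, Finset.card_univ_diff, hE, ← Nat.card_eq_fintype_card,
    card_eq hsharp h2]
  obtain ⟨m, hm⟩ : ∃ m, Fintype.card α = m + 2 := ⟨Fintype.card α - 2, by omega⟩
  rw [hm]
  simp only [Nat.add_sub_cancel]
  have : (m + 2) * (m + 2 - 1) = (m + 2) * m + (m + 2) := by
    have : m + 2 - 1 = m + 1 := by omega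
    rw [this]; ring
  omega

lemma one_mem_kset : (1 : G) ∈ kset G := Or.inl rfl

/-- For a fixed-point-free element `x`, the centraliser of `x` is the set `kset`, and the
conjugacy class of `x` is `kset ∖ {1}`. -/
theorem key [IsMultiplyPretransitive G α 2] (hsharp : ∀ x : Fin 2 ↪ α, stabilizer G x = ⊥)
    (h2 : 2 ≤ Fintype.card α) (x : G) (hx1 : x ≠ 1) (hxf : ∀ a : α, x • a ≠ a) :
    ((Subgroup.centralizer ({x} : Set G) : Subgroup G) : Set G) = kset G ∧
      {y : G | IsConj x y} = kset G \ {1} := by
  classical
  have hC : ((Subgroup.centralizer ({x} : Set G) : Subgroup G) : Set G) ⊆ kset G := by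
    intro y hy
    have hy' : y * x = x * y := Subgroup.mem_centralizer_singleton_iff.mp hy
    by_cases hy1 : y = 1
    · left; exact hy1
    · right
      intro a hya
      apply hy1
      refine eq_one_of_fix_two hsharp y (Ne.symm (hxf a)) hya ?_
      rw [← mul_smul, hy', mul_smul, hya]
  have hcl : {y : G | IsConj x y} ⊆ kset G \ {1} := by
    intro y hy
    obtain ⟨c, hc⟩ := isConj_iff.mp hy
    refine ⟨Or.inr ?_, ?_⟩
    · intro a hya
      apply hxf (c⁻¹ • a)
      rw [← hc, mul_smul, mul_smul] at hya
      have h6 := congrArg (fun z => c⁻¹ • z) hya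
      simp only [inv_smul_smul] at h6
      exact h6
    · intro hy1
      apply hx1
      rw [Set.mem_singleton_iff] at hy1
      rw [hy1] at hc
      exact conj_eq_one_iff.mp hc
  have hcount := Cfsg.Agent.Lib_helper4_ConjCount.card_isConj_mul_card_centralizer x
  rw [card_eq hsharp h2] at hcount
  have hA : ((Subgroup.centralizer ({x} : Set G) : Subgroup G) : Set G).ncard ≤ Fintype.card α := by
    rw [← ncard_kset hsharp h2]
    exact Set.ncard_le_ncard hC (Set.toFinite _)
  have hB : {y : G | IsConj x y}.ncard ≤ Fintype.card α - 1 := by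
    have h3 : (kset G \ {1}).ncard = Fintype.card α - 1 := by
      rw [Set.ncard_diff_singleton_of_mem one_mem_kset, ncard_kset hsharp h2]
    rw [← h3]
    exact Set.ncard_le_ncard hcl (Set.toFinite _)
  have hcount' : {y : G | IsConj x y}.ncard *
      ((Subgroup.centralizer ({x} : Set G) : Subgroup G) : Set G).ncard =
      Fintype.card α * (Fintype.card α - 1) := hcount
  obtain ⟨m, hm⟩ : ∃ m, Fintype.card α = m + 2 := ⟨Fintype.card α - 2, by omega⟩
  rw [hm] at hA hB hcount'
  have hm1 : m + 2 - 1 = m + 1 := by omega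
  rw [hm1] at hB hcount'
  have hA' : ((Subgroup.centralizer ({x} : Set G) : Subgroup G) : Set G).ncard = m + 2 := by
    by_contra hne
    have hlt : ((Subgroup.centralizer ({x} : Set G) : Subgroup G) : Set G).ncard ≤ m + 1 := by omega
    have h4 := Nat.mul_le_mul hB hlt
    rw [hcount'] at h4
    nlinarith
  have hB' : {y : G | IsConj x y}.ncard = m + 1 := by
    rw [hA'] at hcount'
    have h5 : {y : G | IsConj x y}.ncard * (m + 2) = (m + 1) * (m + 2) := by rw [hcount']; ring
    exact Nat.eq_of_mul_eq_mul_right (by omega) h5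
  constructor
  · apply Set.eq_of_subset_of_ncard_le hC _ (Set.toFinite _)
    rw [ncard_kset hsharp h2, hA', hm]
  · apply Set.eq_of_subset_of_ncard_le hcl _ (Set.toFinite _)
    rw [Set.ncard_diff_singleton_of_mem one_mem_kset, ncard_kset hsharp h2, hB', hm]
    omega

end Cfsg.Agent.Lib_helper4_Sharp2
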