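import Mathlib
import Cfsg.Prelude.Def_ClassicalGeometry
import Cfsg.Agent.Lib_helper4_Sp

/-! The order of the symplectic group, through the chain of stabilisers of hyperbolic pairs. -/

namespace Cfsg.Agent.Lib_helper4_SpCard
open Matrix Cfsg.Agent.Lib_helper4_Sp

variable {F : Type*} [Field F] {m : ℕ}

/-- Index of a coordinate. -/
def idx (m : ℕ) : Fin m ⊕ Fin m → ℕ := Sum.elim Fin.val Fin.val

lemma supp_iff (j : ℕ) (x : Fin m ⊕ Fin m → F) :
    Supp j x ↔ ∀ c : Fin m ⊕ Fin m, j ≤ idx m c → x c = 0 := by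
  constructor
  · intro h c hc
    rcases c with i | i
    · exact (h i hc).1
    · exact (h i hc).2
  · intro h i hi
    exact ⟨h (Sum.inl i) hi, h (Sum.inr i) hi⟩

lemma card_entry [Fintype F] {q : ℕ} (hF : Fintype.card F = q) (j k : ℕ) :
    Nat.card {y : F // j ≤ k → y = 0} = if k < j then q else 1 := by
  by_cases h : k < j
  · rw [if_pos h]
    have e : {y : F // j ≤ k → y = 0} ≃ F :=
      (Equiv.subtypeEquivRight (fun y => ⟨fun _ => trivial, fun _ h' => absurd h' (not_le.mpr h)⟩)).trans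
        (Equiv.subtypeUnivEquiv (fun _ => trivial))
    rw [Nat.card_congr e, Nat.card_eq_fintype_card, hF]
  · rw [if_neg h]
    have e : {y : F // j ≤ k → y = 0} ≃ {y : F // y = 0} :=
      Equiv.subtypeEquivRight (fun y => ⟨fun hy => hy (not_lt.mp h), fun hy _ => hy⟩)
    rw [Nat.card_congr e]
    exact Nat.card_unique

lemma card_supp [Fintype F] {q : ℕ} (hF : Fintype.card F = q) (j : ℕ) (hj : j ≤ m) :
    Nat.card {x : Fin m ⊕ Fin m → F // Supp j x} = q ^ (2 * j) := by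
  classical
  have e : {x : Fin m ⊕ Fin m → F // Supp j x}
      ≃ ((c : Fin m ⊕ Fin m) → {y : F // j ≤ idx m c → y = 0}) :=
    (Equiv.subtypeEquivRight (fun x => supp_iff j x)).trans
      (Equiv.subtypePiEquivPi (β := fun _ : Fin m ⊕ Fin m => F)
        (p := fun c y => j ≤ idx m c → y = 0))
  rw [Nat.card_congr e, Nat.card_pi]
  have h1 : ∀ c : Fin m ⊕ Fin m, Nat.card {y : F // j ≤ idx m c → y = 0}
      = if idx m c < j then q else 1 := fun c => card_entry hF j (idx m c)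
  rw [Finset.prod_congr rfl (fun c _ => h1 c), Fintype.prod_sum_type]
  have h2 : ∏ i : Fin m, (if (i : ℕ) < j then q else 1) = q ^ j := by
    rw [Finset.prod_ite, Finset.prod_const, Finset.prod_const_one, mul_one, Fin.card_filter_val_lt,
      Nat.min_eq_right hj]
  show (∏ i : Fin m, (if (i : ℕ) < j then q else 1)) * (∏ i : Fin m, (if (i : ℕ) < j then q else 1))
    = q ^ (2 * j)
  rw [h2]
  ring

lemma card_supp_ne_zero [Fintype F] {q : ℕ} (hF : Fintype.card F = q) (j : ℕ) (hj : j ≤ m) :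
    Nat.card {x : Fin m ⊕ Fin m → F // Supp j x ∧ x ≠ 0} = q ^ (2 * j) - 1 := by
  classical
  have h0 : Supp j (0 : Fin m ⊕ Fin m → F) := fun i _ => ⟨rfl, rfl⟩
  have e1 : {x : Fin m ⊕ Fin m → F // Supp j x ∧ x ≠ 0}
      ≃ {y : {x : Fin m ⊕ Fin m → F // Supp j x} // y ≠ ⟨0, h0⟩} :=
    { toFun := fun x => ⟨⟨x.1, x.2.1⟩, fun h => x.2.2 (congrArg Subtype.val h)⟩
      invFun := fun y => ⟨y.1.1, y.1.2, fun h => y.2 (Subtype.ext h)⟩
      left_inv := fun x => rfl
      right_inv := fun y => rfl }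
  have e2 := Nat.card_congr (Equiv.optionSubtypeNe (⟨0, h0⟩ : {x : Fin m ⊕ Fin m → F // Supp j x}))
  rw [Finite.card_option, card_supp hF j hj] at e2
  rw [Nat.card_congr e1]
  omega

/-- For non-zero `u` supported on the first `j` pairs, the solutions `v` of `f(u, v) = 1` supported
there form one of `q` equal-sized classes. -/
lemma card_fiber [Fintype F] {q : ℕ} (hF : Fintype.card F = q) (j : ℕ) (hj : j ≤ m)
    (u : Fin m ⊕ Fin m → F) (hu : Supp j u) (hu0 : u ≠ 0) :
    Nat.card {v : Fin m ⊕ Fin m → F // Supp j v ∧ Cfsg.sympForm m F u v = 1} * q = q ^ (2 * j) := by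
  obtain ⟨z, hz, hfz⟩ := exists_form_ne_zero_supp u hu hu0
  have hz0 : Supp j ((Cfsg.sympForm m F u z)⁻¹ • z) := hz.smul _
  have hf0 : Cfsg.sympForm m F u ((Cfsg.sympForm m F u z)⁻¹ • z) = 1 := by
    rw [form_smul_right, inv_mul_cancel₀ hfz]
  have e : {x : Fin m ⊕ Fin m → F // Supp j x}
      ≃ {v : Fin m ⊕ Fin m → F // Supp j v ∧ Cfsg.sympForm m F u v = 1} × F :=
    { toFun := fun x => (⟨x.1 - (Cfsg.sympForm m F u x.1 - 1) • ((Cfsg.sympForm m F u z)⁻¹ • z),
          x.2.sub (hz0.smul _), by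
            rw [form_sub_right, form_smul_right, hf0]
            ring⟩, Cfsg.sympForm m F u x.1)
      invFun := fun p => ⟨p.1.1 + (p.2 - 1) • ((Cfsg.sympForm m F u z)⁻¹ • z),
          p.1.2.1.add (hz0.smul _)⟩
      left_inv := fun x => by
        apply Subtype.ext
        show x.1 - (Cfsg.sympForm m F u x.1 - 1) • ((Cfsg.sympForm m F u z)⁻¹ • z)
          + (Cfsg.sympForm m F u x.1 - 1) • ((Cfsg.sympForm m F u z)⁻¹ • z) = x.1
        abel
      right_inv := fun p => by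
        have h1 : Cfsg.sympForm m F u (p.1.1 + (p.2 - 1) • ((Cfsg.sympForm m F u z)⁻¹ • z)) = p.2 := by
          rw [form_add_right, form_smul_right, hf0, p.1.2.2]
          ring
        refine Prod.ext (Subtype.ext ?_) h1
        show p.1.1 + (p.2 - 1) • ((Cfsg.sympForm m F u z)⁻¹ • z)
          - (Cfsg.sympForm m F u (p.1.1 + (p.2 - 1) • ((Cfsg.sympForm m F u z)⁻¹ • z)) - 1)
            • ((Cfsg.sympForm m F u z)⁻¹ • z) = p.1.1
        rw [h1]
        abel }
  have h2 := Nat.card_congr e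
  rw [card_supp hF j hj, Nat.card_prod, Nat.card_eq_fintype_card (α := F), hF] at h2
  exact h2.symm

/-- Hyperbolic pairs supported on the first `j` pairs of coordinates. -/
def HP (m : ℕ) (F : Type*) [Field F] (j : ℕ) : Set ((Fin m ⊕ Fin m → F) × (Fin m ⊕ Fin m → F)) :=
  {p | Supp j p.1 ∧ Supp j p.2 ∧ Cfsg.sympForm m F p.1 p.2 = 1}

lemma card_HP [Fintype F] {q : ℕ} (hF : Fintype.card F = q) (j : ℕ) (hj : j + 1 ≤ m) :
    Nat.card (HP m F (j + 1)) = (q ^ (2 * (j + 1)) - 1) * q ^ (2 * j + 1) := by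
  classical
  have hq : 0 < q := by
    rw [← hF]
    exact Fintype.card_pos
  have e : HP m F (j + 1) ≃ Σ u : {x : Fin m ⊕ Fin m → F // Supp (j + 1) x ∧ x ≠ 0},
      {v : Fin m ⊕ Fin m → F // Supp (j + 1) v ∧ Cfsg.sympForm m F u.1 v = 1} :=
    { toFun := fun p => ⟨⟨p.1.1, p.2.1, by
          intro h
          have h1 := p.2.2.2
          rw [h, form_zero_left] at h1
          exact zero_ne_one h1⟩, ⟨p.1.2, p.2.2.1, p.2.2.2⟩⟩
      invFun := fun s => ⟨(s.1.1, s.2.1), s.1.2.1, s.2.2.1, s.2.2.2⟩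
      left_inv := fun p => rfl
      right_inv := fun s => rfl }
  have hfib : ∀ u : {x : Fin m ⊕ Fin m → F // Supp (j + 1) x ∧ x ≠ 0},
      Nat.card {v : Fin m ⊕ Fin m → F // Supp (j + 1) v ∧ Cfsg.sympForm m F u.1 v = 1}
        = q ^ (2 * j + 1) := by
    intro u
    have h1 := card_fiber hF (j + 1) hj u.1 u.2.1 u.2.2
    have h2 : q ^ (2 * (j + 1)) = q ^ (2 * j + 1) * q := by ring
    rw [h2] at h1
    exact Nat.eq_of_mul_eq_mul_right hq h1
  haveI : Fintype {x : Fin m ⊕ Fin m → F // Supp (j + 1) x ∧ x ≠ 0} := Fintype.ofFinite _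
  rw [Nat.card_congr e, Nat.card_sigma, Finset.sum_congr rfl (fun u _ => hfib u), Finset.sum_const,
    Finset.card_univ, ← Nat.card_eq_fintype_card, card_supp_ne_zero hF (j + 1) hj, smul_eq_mul]

end Cfsg.Agent.Lib_helper4_SpCard
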