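import Mathlib
import Cfsg.Prelude.Def_ClassicalGeometry
import Cfsg.Agent.Lib_helper4_Sp
import Cfsg.Agent.Lib_helper4_SpCard

/-! The order of the symplectic group: the chain of stabilisers `H k` and orbit–stabiliser. -/

namespace Cfsg.Agent.Lib_helper4_SpCard2
open Matrix Cfsg.Agent.Lib_helper4_Sp Cfsg.Agent.Lib_helper4_SpCard

variable {F : Type*} [Field F] {m : ℕ}

/-- The elements of `Sp` fixing `e_i, f_i` for `i ≥ k`. -/
def H (m : ℕ) (F : Type*) [Field F] (k : ℕ) : Subgroup (symplecticGroup (Fin m) F) where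
  carrier := {A | ∀ i : Fin m, k ≤ i.val →
    (A : Matrix (Fin m ⊕ Fin m) (Fin m ⊕ Fin m) F) *ᵥ eb i = eb i ∧
    (A : Matrix (Fin m ⊕ Fin m) (Fin m ⊕ Fin m) F) *ᵥ fb i = fb i}
  mul_mem' := by
    intro A B hA hB i hi
    rw [Submonoid.coe_mul, ← mulVec_mulVec, ← mulVec_mulVec, (hB i hi).1, (hB i hi).2]
    exact hA i hi
  one_mem' := by
    intro i _
    exact ⟨one_mulVec _, one_mulVec _⟩
  inv_mem' := by
    intro A hA i hi
    have h : ((A⁻¹ * A : symplecticGroup (Fin m) F) : Matrix (Fin m ⊕ Fin m) (Fin m ⊕ Fin m) F) = 1 := by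
      rw [inv_mul_cancel]
      rfl
    rw [Submonoid.coe_mul] at h
    constructor
    · have h1 := congrArg (fun M => M *ᵥ (eb i : Fin m ⊕ Fin m → F)) h
      simp only [← mulVec_mulVec, one_mulVec] at h1
      rw [(hA i hi).1] at h1
      exact h1
    · have h1 := congrArg (fun M => M *ᵥ (fb i : Fin m ⊕ Fin m → F)) h
      simp only [← mulVec_mulVec, one_mulVec] at h1
      rw [(hA i hi).2] at h1
      exact h1

lemma mem_H (k : ℕ) (A : symplecticGroup (Fin m) F) :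
    A ∈ H m F k ↔ ∀ i : Fin m, k ≤ i.val →
      (A : Matrix (Fin m ⊕ Fin m) (Fin m ⊕ Fin m) F) *ᵥ eb i = eb i ∧
      (A : Matrix (Fin m ⊕ Fin m) (Fin m ⊕ Fin m) F) *ᵥ fb i = fb i := Iff.rfl

lemma H_mono {k l : ℕ} (h : k ≤ l) : H m F k ≤ H m F l := fun _ hA i hi => hA i (le_trans h hi)

lemma H_top : H m F m = ⊤ := by
  rw [eq_top_iff]
  intro A _ i hi
  exact absurd i.2 (not_lt.mpr hi)

lemma H_zero : H m F 0 = ⊥ := by
  rw [Subgroup.eq_bot_iff_forall]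
  intro A hA
  apply Subtype.ext
  apply Matrix.ext_of_mulVec_single
  intro c
  rcases c with i | i
  · have := (hA i (Nat.zero_le _)).1
    show (A : Matrix (Fin m ⊕ Fin m) (Fin m ⊕ Fin m) F) *ᵥ eb i = (1 : Matrix _ _ F) *ᵥ eb i
    rw [this, one_mulVec]
  · have := (hA i (Nat.zero_le _)).2
    show (A : Matrix (Fin m ⊕ Fin m) (Fin m ⊕ Fin m) F) *ᵥ fb i = (1 : Matrix _ _ F) *ᵥ fb i
    rw [this, one_mulVec]

/-- The action of `Sp` on pairs of vectors. -/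
@[reducible] def pairAction (m : ℕ) (F : Type*) [Field F] :
    MulAction (symplecticGroup (Fin m) F) ((Fin m ⊕ Fin m → F) × (Fin m ⊕ Fin m → F)) where
  smul A p := ((A : Matrix (Fin m ⊕ Fin m) (Fin m ⊕ Fin m) F) *ᵥ p.1,
    (A : Matrix (Fin m ⊕ Fin m) (Fin m ⊕ Fin m) F) *ᵥ p.2)
  one_smul p := by
    show (((1 : Matrix (Fin m ⊕ Fin m) (Fin m ⊕ Fin m) F)) *ᵥ p.1,
      ((1 : Matrix (Fin m ⊕ Fin m) (Fin m ⊕ Fin m) F)) *ᵥ p.2) = p
    rw [one_mulVec, one_mulVec]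
  mul_smul A B p := by
    show (((A * B : symplecticGroup (Fin m) F) : Matrix (Fin m ⊕ Fin m) (Fin m ⊕ Fin m) F) *ᵥ p.1,
      ((A * B : symplecticGroup (Fin m) F) : Matrix (Fin m ⊕ Fin m) (Fin m ⊕ Fin m) F) *ᵥ p.2)
      = ((A : Matrix (Fin m ⊕ Fin m) (Fin m ⊕ Fin m) F) *ᵥ
          ((B : Matrix (Fin m ⊕ Fin m) (Fin m ⊕ Fin m) F) *ᵥ p.1),
        (A : Matrix (Fin m ⊕ Fin m) (Fin m ⊕ Fin m) F) *ᵥ
          ((B : Matrix (Fin m ⊕ Fin m) (Fin m ⊕ Fin m) F) *ᵥ p.2))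
    rw [Submonoid.coe_mul, mulVec_mulVec, mulVec_mulVec]

attribute [local instance] pairAction

lemma smul_pair (A : symplecticGroup (Fin m) F) (p : (Fin m ⊕ Fin m → F) × (Fin m ⊕ Fin m → F)) :
    A • p = ((A : Matrix (Fin m ⊕ Fin m) (Fin m ⊕ Fin m) F) *ᵥ p.1,
      (A : Matrix (Fin m ⊕ Fin m) (Fin m ⊕ Fin m) F) *ᵥ p.2) := rfl

lemma supp_of_mem_H {k : ℕ} {A : symplecticGroup (Fin m) F} (hA : A ∈ H m F k)
    (x : Fin m ⊕ Fin m → F) (hx : Supp k x) :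
    Supp k ((A : Matrix (Fin m ⊕ Fin m) (Fin m ⊕ Fin m) F) *ᵥ x) := by
  intro i hi
  have h1 := coord_of_fix A.2 i (hA i hi).1 (hA i hi).2 x
  rw [h1.1, h1.2]
  exact hx i hi

lemma orbit_eq (k : ℕ) (hk : k < m) :
    MulAction.orbit (H m F (k + 1)) ((fb ⟨k, hk⟩, eb ⟨k, hk⟩) :
      (Fin m ⊕ Fin m → F) × (Fin m ⊕ Fin m → F)) = HP m F (k + 1) := by
  ext p
  constructor
  · rintro ⟨A, rfl⟩
    refine ⟨supp_of_mem_H A.2 _ (supp_fb _ (Nat.lt_succ_self k)),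
      supp_of_mem_H A.2 _ (supp_eb _ (Nat.lt_succ_self k)), ?_⟩
    show Cfsg.sympForm m F ((A.1 : Matrix (Fin m ⊕ Fin m) (Fin m ⊕ Fin m) F) *ᵥ fb ⟨k, hk⟩)
      ((A.1 : Matrix (Fin m ⊕ Fin m) (Fin m ⊕ Fin m) F) *ᵥ eb ⟨k, hk⟩) = 1
    rw [form_mulVec_of_mem A.1.2, form_fb_eb]
  · rintro ⟨h1, h2, h3⟩
    obtain ⟨A, hA, hA1, hA2⟩ := exists_closure_map_hyp (k := k + 1) (fb ⟨k, hk⟩) (eb ⟨k, hk⟩) p.1 p.2
      (supp_fb _ (Nat.lt_succ_self k)) (supp_eb _ (Nat.lt_succ_self k)) h1 h2 (form_fb_eb _) h3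
    refine ⟨⟨A, (good_of_mem_closure hA).2⟩, ?_⟩
    show ((A : Matrix (Fin m ⊕ Fin m) (Fin m ⊕ Fin m) F) *ᵥ fb ⟨k, hk⟩,
      (A : Matrix (Fin m ⊕ Fin m) (Fin m ⊕ Fin m) F) *ᵥ eb ⟨k, hk⟩) = p
    rw [hA1, hA2]

lemma stabilizer_eq (k : ℕ) (hk : k < m) :
    MulAction.stabilizer (H m F (k + 1)) ((fb ⟨k, hk⟩, eb ⟨k, hk⟩) :
      (Fin m ⊕ Fin m → F) × (Fin m ⊕ Fin m → F)) = (H m F k).subgroupOf (H m F (k + 1)) := by
  ext A
  rw [MulAction.mem_stabilizer_iff, Subgroup.mem_subgroupOf]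
  constructor
  · intro h
    have h1 : (A.1 : Matrix (Fin m ⊕ Fin m) (Fin m ⊕ Fin m) F) *ᵥ fb ⟨k, hk⟩ = fb ⟨k, hk⟩ :=
      congrArg Prod.fst h
    have h2 : (A.1 : Matrix (Fin m ⊕ Fin m) (Fin m ⊕ Fin m) F) *ᵥ eb ⟨k, hk⟩ = eb ⟨k, hk⟩ :=
      congrArg Prod.snd h
    intro i hi
    rcases Nat.eq_or_lt_of_le hi with h3 | h3
    · have hi' : i = ⟨k, hk⟩ := Fin.ext h3.symm
      rw [hi']
      exact ⟨h2, h1⟩
    · exact A.2 i h3
  · intro h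
    have h1 := h ⟨k, hk⟩ le_rfl
    show ((A.1 : Matrix (Fin m ⊕ Fin m) (Fin m ⊕ Fin m) F) *ᵥ fb ⟨k, hk⟩,
      (A.1 : Matrix (Fin m ⊕ Fin m) (Fin m ⊕ Fin m) F) *ᵥ eb ⟨k, hk⟩) = _
    rw [h1.1, h1.2]

lemma card_H_succ [Fintype F] {q : ℕ} (hF : Fintype.card F = q) (k : ℕ) (hk : k < m) :
    Nat.card (H m F (k + 1)) = Nat.card (H m F k) * ((q ^ (2 * (k + 1)) - 1) * q ^ (2 * k + 1)) := by
  have h1 := Subgroup.card_mul_index (MulAction.stabilizer (H m F (k + 1))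
    ((fb ⟨k, hk⟩, eb ⟨k, hk⟩) : (Fin m ⊕ Fin m → F) × (Fin m ⊕ Fin m → F)))
  rw [MulAction.index_stabilizer] at h1
  rw [orbit_eq (F := F) k hk] at h1
  rw [stabilizer_eq (F := F) k hk,
    Nat.card_congr (Subgroup.subgroupOfEquivOfLe (H_mono (Nat.le_succ k))).toEquiv,
    ← Nat.card_coe_set_eq, card_HP hF k hk] at h1
  exact h1.symm

theorem card_H [Fintype F] {q : ℕ} (hF : Fintype.card F = q) (k : ℕ) (hk : k ≤ m) :
    Nat.card (H m F k) = q ^ (k ^ 2) * ∏ i ∈ Finset.range k, (q ^ (2 * (i + 1)) - 1) := by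
  induction k with
  | zero =>
    rw [H_zero]
    simp
  | succ k ih =>
    rw [card_H_succ hF k hk, ih (Nat.le_of_succ_le hk), Finset.prod_range_succ]
    ring

theorem card_symplecticGroup [Fintype F] {q : ℕ} (hF : Fintype.card F = q) (m : ℕ) :
    Nat.card (symplecticGroup (Fin m) F) = q ^ (m ^ 2) * ∏ i ∈ Finset.range m, (q ^ (2 * (i + 1)) - 1) := by
  rw [← card_H hF m le_rfl, H_top]
  exact (Nat.card_congr Subgroup.topEquiv.toEquiv).symm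

end Cfsg.Agent.Lib_helper4_SpCard2
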