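import Mathlib
import Cfsg.Prelude.Def_GeometricClasses
import Cfsg.Agent.Lib_helper4_Transv
import Cfsg.Agent.Lib_helper4_SL

set_option autoImplicit false

/-! The stabiliser of a proper nonzero subspace is maximal in `SL`. -/

namespace Cfsg.Agent.Lib_helper4_StabMax
open Matrix Cfsg.Agent.Lib_helper4_Transv

variable {ι : Type} [Fintype ι] [DecidableEq ι] {F : Type*} [Field F]

lemma exists_functional (W : Submodule F (ι → F)) (x : ι → F) (hx : x ∉ W) :
    ∃ φ : ι → F, (∀ w ∈ W, φ ⬝ᵥ w = 0) ∧ φ ⬝ᵥ x ≠ 0 := by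
  obtain ⟨f, hfx, hf⟩ := Submodule.exists_dual_map_eq_bot_of_notMem hx inferInstance
  have hφ : ∀ v : ι → F, (fun i => f (fun j => if i = j then 1 else 0)) ⬝ᵥ v = f v := by
    intro v
    rw [LinearMap.pi_apply_eq_sum_univ f v]
    simp only [dotProduct, smul_eq_mul]
    apply Finset.sum_congr rfl
    intro i _
    ring
  refine ⟨fun i => f (fun j => if i = j then 1 else 0), ?_, ?_⟩
  · intro w hw
    rw [hφ]
    have h1 : f w ∈ W.map f := Submodule.mem_map_of_mem hw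
    rw [hf] at h1
    simpa using h1
  · rw [hφ]; exact hfx

lemma exists_functional₂ (W : Submodule F (ι → F)) (x u : ι → F) (hx : x ∉ W) (hu : u ∉ W) :
    ∃ φ : ι → F, (∀ w ∈ W, φ ⬝ᵥ w = 0) ∧ φ ⬝ᵥ x ≠ 0 ∧ φ ⬝ᵥ u ≠ 0 := by
  obtain ⟨φ₁, h1W, h1x⟩ := exists_functional W x hx
  obtain ⟨φ₂, h2W, h2u⟩ := exists_functional W u hu
  by_cases h1u : φ₁ ⬝ᵥ u = 0
  · by_cases h2x : φ₂ ⬝ᵥ x = 0
    · refine ⟨φ₁ + φ₂, ?_, ?_, ?_⟩
      · intro w hw; rw [add_dotProduct, h1W w hw, h2W w hw, add_zero]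
      · rw [add_dotProduct, h2x, add_zero]; exact h1x
      · rw [add_dotProduct, h1u, zero_add]; exact h2u
    · exact ⟨φ₂, h2W, h2x, h2u⟩
  · exact ⟨φ₁, h1W, h1x, h1u⟩

lemma exists_move (W : Submodule F (ι → F)) (x u : ι → F) (hx : x ∉ W) (hu : u ∉ W) :
    ∃ h : GL ι F, h ∈ Cfsg.Geo.subspaceStabilizer W ⊓ Cfsg.Geo.specialLinear ι F ∧
      ∃ c : F, c ≠ 0 ∧ (h : Matrix ι ι F) *ᵥ x = c • u := by
  obtain ⟨φ, hW, hφx, hφu⟩ := exists_functional₂ W x u hx hu
  have hy : ((φ ⬝ᵥ x)⁻¹ • φ) ⬝ᵥ (((φ ⬝ᵥ x) / (φ ⬝ᵥ u)) • u - x) = 0 := by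
    rw [smul_dotProduct, dotProduct_sub, dotProduct_smul, smul_eq_mul, smul_eq_mul]
    field_simp
    ring
  refine ⟨tv _ _ hy, ⟨mem_subspaceStabilizer_of_fix _ _ ?_, tv_mem_specialLinear _ _ hy⟩,
    (φ ⬝ᵥ x) / (φ ⬝ᵥ u), div_ne_zero hφx hφu, ?_⟩
  · intro w hw
    rw [tv_coe, one_add_vecMulVec_mulVec, smul_dotProduct, hW w hw, smul_zero, zero_smul, add_zero]
  · rw [tv_coe, one_add_vecMulVec_mulVec, smul_dotProduct, smul_eq_mul, inv_mul_cancel₀ hφx,
      one_smul]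
    abel

/-- A subgroup containing the `SL`-stabiliser of `W` but not stabilising `W` contains every
transvection. -/
theorem tv_mem_of (W : Submodule F (ι → F)) (K : Subgroup (GL ι F))
    (hK : Cfsg.Geo.subspaceStabilizer W ⊓ Cfsg.Geo.specialLinear ι F ≤ K)
    (hne : ¬ K ≤ Cfsg.Geo.subspaceStabilizer W) (u φ : ι → F) (h : φ ⬝ᵥ u = 0) :
    tv u φ h ∈ K := by
  have hXW : ∀ u ∈ W, ∀ (φ : ι → F) (h : φ ⬝ᵥ u = 0), tv u φ h ∈ K := by
    intro u hu φ h
    apply hK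
    refine ⟨?_, tv_mem_specialLinear u φ h⟩
    show tv u φ h ∈ Cfsg.Geo.subspaceStabilizer W
    rw [mem_subspaceStabilizer_iff]
    intro v
    rw [tv_coe, one_add_vecMulVec_mulVec]
    exact (W.add_mem_iff_left (W.smul_mem _ hu)).symm
  have hXK : ∀ k ∈ K, ∀ u : ι → F, (∀ (φ : ι → F) (h : φ ⬝ᵥ u = 0), tv u φ h ∈ K) →
      ∀ (φ : ι → F) (h : φ ⬝ᵥ ((k : Matrix ι ι F) *ᵥ u) = 0),
        tv ((k : Matrix ι ι F) *ᵥ u) φ h ∈ K := by
    intro k hk u hu φ h
    have h' : (φ ᵥ* (k : Matrix ι ι F)) ⬝ᵥ u = 0 := by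
      rw [← Matrix.dotProduct_mulVec]; exact h
    have e : tv ((k : Matrix ι ι F) *ᵥ u) φ h = k * tv u (φ ᵥ* (k : Matrix ι ι F)) h' * k⁻¹ := by
      apply Units.ext
      rw [Units.val_mul, Units.val_mul, tv_coe, tv_coe, Matrix.mul_add, Matrix.add_mul,
        Matrix.mul_one, Matrix.mul_vecMulVec, Matrix.vecMulVec_mul, Matrix.vecMul_vecMul,
        ← Units.val_mul, mul_inv_cancel, Units.val_one, Matrix.vecMul_one]
    rw [e]
    exact K.mul_mem (K.mul_mem hk (hu _ h')) (K.inv_mem hk)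
  have hXs : ∀ (c : F) (_ : c ≠ 0) (u : ι → F),
      (∀ (φ : ι → F) (h : φ ⬝ᵥ (c • u) = 0), tv (c • u) φ h ∈ K) →
      ∀ (φ : ι → F) (h : φ ⬝ᵥ u = 0), tv u φ h ∈ K := by
    intro c hc u hu φ h
    have h' : (c⁻¹ • φ) ⬝ᵥ (c • u) = 0 := by
      rw [smul_dotProduct, dotProduct_smul, h]; simp
    have e : tv u φ h = tv (c • u) (c⁻¹ • φ) h' := by
      apply Units.ext
      rw [tv_coe, tv_coe, Matrix.smul_vecMulVec, Matrix.vecMulVec_smul, smul_smul,
        mul_inv_cancel₀ hc, one_smul]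
    rw [e]; exact hu _ h'
  obtain ⟨k, hk, w, hw, hkw⟩ : ∃ k ∈ K, ∃ w ∈ W, (k : Matrix ι ι F) *ᵥ w ∉ W := by
    by_contra hcon
    push Not at hcon
    apply hne
    intro g hg
    rw [mem_subspaceStabilizer_iff]
    intro v
    constructor
    · exact hcon g hg v
    · intro hv
      have h1 := hcon g⁻¹ (K.inv_mem hg) _ hv
      rwa [Matrix.mulVec_mulVec, ← Units.val_mul, inv_mul_cancel, Units.val_one,
        Matrix.one_mulVec] at h1
  by_cases huW : u ∈ W
  · exact hXW u huW φ h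
  · obtain ⟨p, hp, c, hc, hpc⟩ := exists_move W _ u hkw huW
    have h1 := hXK k hk w (hXW w hw)
    have h2 := hXK p (hK hp) _ h1
    rw [hpc] at h2
    exact hXs c hc u h2 φ h

theorem nontrivial_of (W : Submodule F (ι → F)) (hW0 : W ≠ ⊥) (hW1 : W ≠ ⊤) : Nontrivial ι := by
  by_contra hnt
  rw [not_nontrivial_iff_subsingleton] at hnt
  obtain ⟨w, hw, hw0⟩ := (Submodule.ne_bot_iff W).mp hW0
  apply hW1
  rw [eq_top_iff]
  intro x _
  obtain ⟨i₀, hi₀⟩ : ∃ i, w i ≠ 0 := by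
    by_contra hcon
    push Not at hcon
    exact hw0 (funext hcon)
  have : x = (x i₀ / w i₀) • w := by
    funext i
    rw [Subsingleton.elim i i₀]
    simp [hi₀]
  rw [this]
  exact W.smul_mem _ hw

/-- A subgroup containing the `SL`-stabiliser of `W` but not stabilising `W` contains `SL`. -/
theorem specialLinear_le (W : Submodule F (ι → F)) (hW0 : W ≠ ⊥) (hW1 : W ≠ ⊤)
    (K : Subgroup (GL ι F))
    (hK : Cfsg.Geo.subspaceStabilizer W ⊓ Cfsg.Geo.specialLinear ι F ≤ K)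
    (hne : ¬ K ≤ Cfsg.Geo.subspaceStabilizer W) : Cfsg.Geo.specialLinear ι F ≤ K := by
  have hnt : Nontrivial ι := nontrivial_of W hW0 hW1
  have key : ∀ A : SpecialLinearGroup ι F, Matrix.SpecialLinearGroup.toGL A ∈ K := by
    intro A
    refine Cfsg.Agent.Lib_helper4_SL.transvection_induction
      (fun A => Matrix.SpecialLinearGroup.toGL A ∈ K) ?_ ?_ A
    · intro i j hij c
      have h0 : (Pi.single j (1 : F)) ⬝ᵥ (Pi.single i c) = 0 := by
        simp [hij]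
      have e : Matrix.SpecialLinearGroup.toGL (Matrix.SpecialLinearGroup.transvection hij c) =
          tv (Pi.single i c) (Pi.single j 1) h0 := by
        apply Units.ext
        rw [tv_coe]
        show (1 : Matrix ι ι F) + Matrix.single i j c = _
        congr 1
        ext a b
        simp [Matrix.single_apply, Matrix.vecMulVec_apply, Pi.single_apply, eq_comm]
        grind
      rw [e]; exact tv_mem_of W K hK hne _ _ h0
    · intro A B hA hB
      show Matrix.SpecialLinearGroup.toGL (A * B) ∈ K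
      rw [map_mul]; exact K.mul_mem hA hB
  intro g hg
  have hdet : (g : Matrix ι ι F).det = 1 := by
    have h1 := MonoidHom.mem_ker.mp hg
    have h2 := congrArg Units.val h1
    rwa [Matrix.GeneralLinearGroup.val_det_apply] at h2
  have : g = Matrix.SpecialLinearGroup.toGL ⟨(g : Matrix ι ι F), hdet⟩ := by
    apply Units.ext; rfl
  rw [this]; exact key _

/-- the stabiliser of a proper non-zero subspace is maximal in `SL`. -/
theorem isMaximalIn (W : Submodule F (ι → F)) (hW0 : W ≠ ⊥) (hW1 : W ≠ ⊤) :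
    Cfsg.Geo.IsMaximalIn (Cfsg.Geo.specialLinear ι F)
      (Cfsg.Geo.subspaceStabilizer W ⊓ Cfsg.Geo.specialLinear ι F) := by
  refine ⟨lt_of_le_of_ne inf_le_right ?_, ?_⟩
  · intro heq
    obtain ⟨g, hg, hgW⟩ := exists_not_mem_subspaceStabilizer W hW0 hW1
    rw [← heq] at hg
    exact hgW hg.1
  · intro M hM1 hM2
    by_cases hMW : M ≤ Cfsg.Geo.subspaceStabilizer W
    · left
      exact le_antisymm (le_inf hMW hM2) hM1
    · right
      exact le_antisymm hM2 (specialLinear_le W hW0 hW1 M hM1 hMW)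

end Cfsg.Agent.Lib_helper4_StabMax
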