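import Mathlib
import Cfsg.Prelude.Def_GeometricClasses
import Cfsg.Agent.Lib_helper4_Transv
import Cfsg.Agent.Lib_helper4_StabMax
import Cfsg.Agent.Lib_helper4_Sp
import Cfsg.Agent.Lib_helper4_SpPrim
import Cfsg.Agent.Lib_helper4_SpPerfect

set_option autoImplicit false

/-! Maximality of subspace stabilisers in the symplectic group. -/

namespace Cfsg.Agent.Lib_helper4_SpMax
open Matrix Cfsg.Agent.Lib_helper4_Sp Cfsg.Agent.Lib_helper4_SpPrim Cfsg.Agent.Lib_helper4_SpPerfect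
  Cfsg.Agent.Lib_helper4_Transv

variable {F : Type*} [Field F] {m : ℕ}

/-- symplectic matrices as elements of `GL`. -/
noncomputable def toGLhom : symplecticGroup (Fin m) F →* GL (Fin m ⊕ Fin m) F where
  toFun A := (toSpGL A).1
  map_one' := Units.ext rfl
  map_mul' _ _ := Units.ext rfl

lemma toGLhom_coe (A : symplecticGroup (Fin m) F) :
    ((toGLhom A : GL (Fin m ⊕ Fin m) F) : Matrix (Fin m ⊕ Fin m) (Fin m ⊕ Fin m) F) =
      (A : Matrix (Fin m ⊕ Fin m) (Fin m ⊕ Fin m) F) := rfl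

lemma toGLhom_mem (A : symplecticGroup (Fin m) F) : toGLhom A ∈ Cfsg.spGL m F := (toSpGL A).2

lemma mem_symplectic_of_mem_spGL (g : GL (Fin m ⊕ Fin m) F) (hg : g ∈ Cfsg.spGL m F) :
    (g : Matrix (Fin m ⊕ Fin m) (Fin m ⊕ Fin m) F) ∈ symplecticGroup (Fin m) F :=
  mem_of_form_mulVec hg

/-- transvections in `GL`. -/
noncomputable def tvGL (v : Fin m ⊕ Fin m → F) (c : F) : GL (Fin m ⊕ Fin m) F := toGLhom (tv v c)

lemma tvGL_coe (v : Fin m ⊕ Fin m → F) (c : F) :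
    ((tvGL v c : GL (Fin m ⊕ Fin m) F) : Matrix (Fin m ⊕ Fin m) (Fin m ⊕ Fin m) F) =
      Cfsg.sympTransvection m v c := rfl

lemma tvGL_mem (v : Fin m ⊕ Fin m → F) (c : F) : tvGL v c ∈ Cfsg.spGL m F := toGLhom_mem _

theorem spGL_le_of_tv (K : Subgroup (GL (Fin m ⊕ Fin m) F))
    (h : ∀ (v : Fin m ⊕ Fin m → F) (c : F), tvGL v c ∈ K) : Cfsg.spGL m F ≤ K := by
  intro g hg
  have hA := mem_symplectic_of_mem_spGL g hg
  have h1 : Subgroup.closure (TS m F) ≤ K.comap toGLhom := by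
    rw [Subgroup.closure_le]
    rintro A ⟨w, c, hA⟩
    have : A = tv w c := Subtype.ext hA
    rw [this]
    exact h w c
  have h2 : (⟨(g : Matrix (Fin m ⊕ Fin m) (Fin m ⊕ Fin m) F), hA⟩ : symplecticGroup (Fin m) F) ∈
      K.comap toGLhom := h1 (by rw [closure_TS_eq_top]; trivial)
  have h3 : toGLhom ⟨(g : Matrix (Fin m ⊕ Fin m) (Fin m ⊕ Fin m) F), hA⟩ = g := Units.ext rfl
  rw [Subgroup.mem_comap, h3] at h2
  exact h2

/-- the set of directions of transvections in `K`. -/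
def X (K : Subgroup (GL (Fin m ⊕ Fin m) F)) : Set (Fin m ⊕ Fin m → F) := {u | ∀ c, tvGL u c ∈ K}

lemma X_smul_mem (K : Subgroup (GL (Fin m ⊕ Fin m) F)) (hK : K ≤ Cfsg.spGL m F)
    {k : GL (Fin m ⊕ Fin m) F} (hk : k ∈ K) {u : Fin m ⊕ Fin m → F} (hu : u ∈ X K) :
    (k : Matrix (Fin m ⊕ Fin m) (Fin m ⊕ Fin m) F) *ᵥ u ∈ X K := by
  intro c
  have hkS := mem_symplectic_of_mem_spGL k (hK hk)
  have e : tvGL ((k : Matrix (Fin m ⊕ Fin m) (Fin m ⊕ Fin m) F) *ᵥ u) c = k * tvGL u c * k⁻¹ := by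
    rw [eq_mul_inv_iff_mul_eq]
    apply Units.ext
    rw [Units.val_mul, Units.val_mul, tvGL_coe, tvGL_coe]
    exact (conj_tv hkS u c).symm
  rw [e]
  exact K.mul_mem (K.mul_mem hk (hu c)) (K.inv_mem hk)

lemma X_scalar (K : Subgroup (GL (Fin m ⊕ Fin m) F)) (a : F) {u : Fin m ⊕ Fin m → F}
    (hu : u ∈ X K) : a • u ∈ X K := by
  intro c
  have e : tvGL (a • u) c = tvGL u (a * a * c) := by
    apply Units.ext
    rw [tvGL_coe, tvGL_coe]
    unfold Cfsg.sympTransvection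
    rw [Matrix.mulVec_smul, Matrix.smul_vecMulVec, Matrix.vecMulVec_smul, smul_smul, smul_smul]
    congr 2
    ring
  rw [e]; exact hu _

lemma X_add (K : Subgroup (GL (Fin m ⊕ Fin m) F)) (hK : K ≤ Cfsg.spGL m F)
    {x y : Fin m ⊕ Fin m → F} (hx : x ∈ X K) (hy : y ∈ X K)
    (hxy : Cfsg.sympForm m F x y ≠ 0) : x + y ∈ X K := by
  have h1 := X_smul_mem K hK (hy (Cfsg.sympForm m F x y)⁻¹) hx
  rw [tvGL_coe, tv_mulVec, inv_mul_cancel₀ hxy, one_smul] at h1
  exact h1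

/-- the orthogonal complement for the symplectic form. -/
def perp (W : Submodule F (Fin m ⊕ Fin m → F)) : Submodule F (Fin m ⊕ Fin m → F) where
  carrier := {y | ∀ w ∈ W, Cfsg.sympForm m F y w = 0}
  add_mem' := by
    intro a b ha hb w hw
    rw [form_add_left, ha w hw, hb w hw, add_zero]
  zero_mem' := by intro w _; exact form_zero_left w
  smul_mem' := by
    intro c a ha w hw
    rw [form_smul_left, ha w hw, mul_zero]

lemma mem_perp (W : Submodule F (Fin m ⊕ Fin m → F)) (y : Fin m ⊕ Fin m → F) :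
    y ∈ perp W ↔ ∀ w ∈ W, Cfsg.sympForm m F y w = 0 := Iff.rfl

lemma exists_perp_ne (W : Submodule F (Fin m ⊕ Fin m → F)) (x : Fin m ⊕ Fin m → F) (hx : x ∉ W) :
    ∃ y ∈ perp W, Cfsg.sympForm m F y x ≠ 0 := by
  obtain ⟨φ, hφW, hφx⟩ := Cfsg.Agent.Lib_helper4_StabMax.exists_functional W x hx
  have key : ∀ z, Cfsg.sympForm m F (-(φ ᵥ* J (Fin m) F)) z = φ ⬝ᵥ z := by
    intro z
    unfold Cfsg.sympForm
    rw [Matrix.dotProduct_mulVec, Matrix.neg_vecMul, Matrix.vecMul_vecMul, Matrix.J_squared,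
      Matrix.vecMul_neg, Matrix.vecMul_one, neg_neg]
  exact ⟨_, fun w hw => by rw [key, hφW w hw], by rw [key]; exact hφx⟩

lemma exists_perp_ne₂ (W : Submodule F (Fin m ⊕ Fin m → F)) (x x' : Fin m ⊕ Fin m → F)
    (hx : x ∉ W) (hx' : x' ∉ W) :
    ∃ y ∈ perp W, Cfsg.sympForm m F y x ≠ 0 ∧ Cfsg.sympForm m F y x' ≠ 0 := by
  obtain ⟨y₁, h1, h1x⟩ := exists_perp_ne W x hx
  obtain ⟨y₂, h2, h2x⟩ := exists_perp_ne W x' hx'
  by_cases h1' : Cfsg.sympForm m F y₁ x' = 0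
  · by_cases h2' : Cfsg.sympForm m F y₂ x = 0
    · refine ⟨y₁ + y₂, (perp W).add_mem h1 h2, ?_, ?_⟩
      · rw [form_add_left, h2', add_zero]; exact h1x
      · rw [form_add_left, h1', zero_add]; exact h2x
    · exact ⟨y₂, h2, h2', h2x⟩
  · exact ⟨y₁, h1, h1x, h1'⟩

lemma mem_stab_of_map_le {ι : Type} [Fintype ι] [DecidableEq ι] (g : GL ι F)
    (W : Submodule F (ι → F)) (h : ∀ w ∈ W, (g : Matrix ι ι F) *ᵥ w ∈ W) :
    g ∈ Cfsg.Geo.subspaceStabilizer W := by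
  rw [mem_subspaceStabilizer_iff]
  intro v
  refine ⟨h v, fun hv => ?_⟩
  have hinj : Function.Injective ((Matrix.mulVecLin (g : Matrix ι ι F)).restrict h) := by
    intro a b hab
    have h1 : (g : Matrix ι ι F) *ᵥ (a : ι → F) = (g : Matrix ι ι F) *ᵥ (b : ι → F) :=
      congrArg Subtype.val hab
    have h2 := congrArg (fun z => ((g⁻¹ : GL ι F) : Matrix ι ι F) *ᵥ z) h1
    simp only [Matrix.mulVec_mulVec, ← Units.val_mul, inv_mul_cancel, Units.val_one,
      Matrix.one_mulVec] at h2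
    exact Subtype.ext h2
  obtain ⟨w, hw⟩ := (LinearMap.injective_iff_surjective.mp hinj) ⟨_, hv⟩
  have h1 : (g : Matrix ι ι F) *ᵥ (w : ι → F) = (g : Matrix ι ι F) *ᵥ v :=
    congrArg Subtype.val hw
  have h2 := congrArg (fun z => ((g⁻¹ : GL ι F) : Matrix ι ι F) *ᵥ z) h1
  simp only [Matrix.mulVec_mulVec, ← Units.val_mul, inv_mul_cancel, Units.val_one,
    Matrix.one_mulVec] at h2
  rw [← h2]; exact w.2

lemma exists_moved (W : Submodule F (Fin m ⊕ Fin m → F)) (K : Subgroup (GL (Fin m ⊕ Fin m) F))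
    (hne : ¬ K ≤ Cfsg.Geo.subspaceStabilizer W) :
    ∃ k ∈ K, ∃ w ∈ W, (k : Matrix (Fin m ⊕ Fin m) (Fin m ⊕ Fin m) F) *ᵥ w ∉ W := by
  by_contra hcon
  push Not at hcon
  apply hne
  intro g hg
  rw [mem_subspaceStabilizer_iff]
  intro v
  constructor
  · exact hcon g hg v
  · intro hv
    have h1 := hcon g⁻¹ (K.inv_mem hg) _ hv
    rwa [Matrix.mulVec_mulVec, ← Units.val_mul, inv_mul_cancel, Units.val_one,
      Matrix.one_mulVec] at h1

/-- A subgroup of `Sp` containing the stabiliser of a totally isotropic subspace `W`, and not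
stabilising `W`, is all of `Sp`. -/
theorem spGL_le_of_totallySingular (W : Submodule F (Fin m ⊕ Fin m → F))
    (hW : Cfsg.Geo.IsTotallySingularFor (Cfsg.sympForm m F) W)
    (K : Subgroup (GL (Fin m ⊕ Fin m) F)) (hKS : K ≤ Cfsg.spGL m F)
    (hK : Cfsg.Geo.subspaceStabilizer W ⊓ Cfsg.spGL m F ≤ K)
    (hne : ¬ K ≤ Cfsg.Geo.subspaceStabilizer W) : Cfsg.spGL m F ≤ K := by
  classical
  have hWp : W ≤ perp W := fun w hw w' hw' => hW w hw w' hw'
  have hpX : ∀ u ∈ perp W, u ∈ X K := by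
    intro u hu c
    apply hK
    refine ⟨mem_subspaceStabilizer_of_fix _ _ ?_, tvGL_mem u c⟩
    intro w hw
    rw [tvGL_coe, tv_mulVec, form_swap, hu w hw, neg_zero, mul_zero, zero_smul, add_zero]
  -- Step A
  obtain ⟨x₀, hx₀X, hx₀⟩ : ∃ x₀ ∈ X K, x₀ ∉ perp W := by
    obtain ⟨k, hk, w, hw, hkw⟩ := exists_moved W K hne
    obtain ⟨y, hy, hyk⟩ := exists_perp_ne W _ hkw
    refine ⟨((k⁻¹ : GL (Fin m ⊕ Fin m) F) : Matrix (Fin m ⊕ Fin m) (Fin m ⊕ Fin m) F) *ᵥ y,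
      X_smul_mem K hKS (K.inv_mem hk) (hpX y hy), ?_⟩
    intro hmem
    have h1 := hmem w hw
    have hkS := mem_symplectic_of_mem_spGL k (hKS hk)
    rw [← form_mulVec_of_mem hkS, Matrix.mulVec_mulVec, ← Units.val_mul, mul_inv_cancel,
      Units.val_one, Matrix.one_mulVec] at h1
    exact hyk h1
  -- Lemma L
  have hL : ∀ U : Submodule F (Fin m ⊕ Fin m → F), perp W ≤ U → (∀ u ∈ U, u ∈ X K) →
      ∀ x ∈ X K, x ∉ U → ∀ z ∈ U ⊔ Submodule.span F {x}, z ∈ X K := by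
    intro U hpU hUX x hxX hxU z hz
    have claim : ∀ y ∈ U, x + y ∈ X K := by
      intro y hy
      by_cases hxy : Cfsg.sympForm m F x y = 0
      · have hx1 : x ∉ W := fun h => hxU (hpU (hWp h))
        have hx2 : x + y ∉ W := fun h => hxU ((U.add_mem_iff_left hy).mp (hpU (hWp h)))
        obtain ⟨y', hy', h1, h2⟩ := exists_perp_ne₂ W x (x + y) hx1 hx2
        have hx₁ : x + y' ∈ X K := X_add K hKS hxX (hpX y' hy')
          (by rw [form_swap]; exact neg_ne_zero.mpr h1)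
        have h3 : Cfsg.sympForm m F (x + y') (y - y') ≠ 0 := by
          have : Cfsg.sympForm m F (x + y') (y - y') = Cfsg.sympForm m F y' (x + y) := by
            rw [form_add_left, form_sub_right, form_sub_right, form_self, form_add_right, hxy,
              form_swap x y']
            ring
          rw [this]; exact h2
        have h4 := X_add K hKS hx₁ (hUX _ (U.sub_mem hy (hpU hy'))) h3
        have : x + y' + (y - y') = x + y := by abel
        rwa [this] at h4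
      · exact X_add K hKS hxX (hUX y hy) hxy
    obtain ⟨y, hy, s, hs, rfl⟩ := Submodule.mem_sup.mp hz
    obtain ⟨a, rfl⟩ := Submodule.mem_span_singleton.mp hs
    by_cases ha : a = 0
    · subst ha; rw [zero_smul, add_zero]; exact hUX y hy
    · have h1 := X_scalar K a (claim (a⁻¹ • y) (U.smul_mem _ hy))
      rw [smul_add, smul_smul, mul_inv_cancel₀ ha, one_smul, add_comm] at h1
      exact h1
  -- Step C
  obtain ⟨U, ⟨hpU, hUX⟩, hmax⟩ := WellFounded.has_min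
    (wellFounded_gt (α := Submodule F (Fin m ⊕ Fin m → F)))
    {U | perp W ≤ U ∧ ∀ u ∈ U, u ∈ X K} ⟨perp W, le_refl _, hpX⟩
  have hXU : ∀ x ∈ X K, x ∈ U := by
    intro x hx
    by_contra hxU
    refine hmax (U ⊔ Submodule.span F {x}) ⟨hpU.trans le_sup_left, hL U hpU hUX x hx hxU⟩ ?_
    exact lt_of_le_of_ne le_sup_left (fun h => hxU (by
      rw [h]; exact Submodule.mem_sup_right (Submodule.mem_span_singleton_self x)))
  -- Step D
  by_cases hU : U = ⊤
  · apply spGL_le_of_tv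
    intro v c
    exact hUX v (by rw [hU]; trivial) c
  · exfalso
    obtain ⟨u₀, hu₀⟩ : ∃ u₀, u₀ ∉ U := by
      by_contra hcon
      push Not at hcon
      exact hU (eq_top_iff.mpr fun x _ => hcon x)
    have hx₀U := hXU x₀ hx₀X
    obtain ⟨v₀, hv₀, hxv⟩ : ∃ v₀ ∈ W, Cfsg.sympForm m F x₀ v₀ ≠ 0 := by
      by_contra hcon
      push Not at hcon
      exact hx₀ hcon
    have huv : Cfsg.sympForm m F
        (u₀ - (Cfsg.sympForm m F u₀ v₀ / Cfsg.sympForm m F x₀ v₀) • x₀) v₀ = 0 := by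
      rw [form_sub_left, form_smul_left]
      field_simp
      ring
    have huU : (u₀ - (Cfsg.sympForm m F u₀ v₀ / Cfsg.sympForm m F x₀ v₀) • x₀) ∉ U := by
      intro h
      apply hu₀
      have := U.add_mem h (U.smul_mem (Cfsg.sympForm m F u₀ v₀ / Cfsg.sympForm m F x₀ v₀) hx₀U)
      rwa [sub_add_cancel] at this
    have hSK : toGLhom (⟨rMat (u₀ - (Cfsg.sympForm m F u₀ v₀ / Cfsg.sympForm m F x₀ v₀) • x₀) v₀ 1,
        rMat_mem huv 1⟩ : symplecticGroup (Fin m) F) ∈ K := by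
      apply hK
      refine ⟨mem_stab_of_map_le _ _ ?_, toGLhom_mem _⟩
      intro w hw
      rw [toGLhom_coe]
      show rMat _ v₀ 1 *ᵥ w ∈ W
      rw [rMat_mulVec, one_smul, hW w hw v₀ hv₀, zero_smul, add_zero]
      exact W.add_mem hw (W.smul_mem _ hv₀)
    have h1 := hXU _ (X_smul_mem K hKS hSK hx₀X)
    rw [toGLhom_coe] at h1
    change rMat _ v₀ 1 *ᵥ x₀ ∈ U at h1
    rw [rMat_mulVec, one_smul] at h1
    have hv₀U : v₀ ∈ U := hpU (hWp hv₀)
    have h2 := (U.add_mem_iff_right hx₀U).mp h1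
    have h3 := (U.add_mem_iff_right (U.smul_mem _ hv₀U)).mp h2
    have h4 := U.smul_mem (Cfsg.sympForm m F x₀ v₀)⁻¹ h3
    rw [smul_smul, inv_mul_cancel₀ hxv, one_smul] at h4
    exact huU h4

/-- maximality of the stabiliser of a non-zero totally isotropic subspace in `Sp`. -/
theorem isMaximalIn_totallySingular (W : Submodule F (Fin m ⊕ Fin m → F)) (hW0 : W ≠ ⊥)
    (hW : Cfsg.Geo.IsTotallySingularFor (Cfsg.sympForm m F) W) :
    Cfsg.Geo.IsMaximalIn (Cfsg.spGL m F) (Cfsg.Geo.subspaceStabilizer W ⊓ Cfsg.spGL m F) := by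
  refine ⟨lt_of_le_of_ne inf_le_right ?_, ?_⟩
  · intro heq
    obtain ⟨w, hw, hw0⟩ := (Submodule.ne_bot_iff W).mp hW0
    obtain ⟨z, hz⟩ := exists_form_ne_zero w hw0
    have h1 : tvGL z 1 ∈ Cfsg.Geo.subspaceStabilizer W ⊓ Cfsg.spGL m F := by
      rw [heq]; exact tvGL_mem z 1
    have h2 := (mem_subspaceStabilizer_iff _ _).mp h1.1 w
    rw [tvGL_coe, tv_mulVec, one_mul] at h2
    have h3 := (W.add_mem_iff_right hw).mp (h2.mp hw)
    have h4 := W.smul_mem (Cfsg.sympForm m F w z)⁻¹ h3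
    rw [smul_smul, inv_mul_cancel₀ hz, one_smul] at h4
    exact hz (hW w hw z h4)
  · intro M hM1 hM2
    by_cases hMW : M ≤ Cfsg.Geo.subspaceStabilizer W
    · left
      exact le_antisymm (le_inf hMW hM2) hM1
    · right
      exact le_antisymm hM2 (spGL_le_of_totallySingular W hW M hM2 hM1 hMW)

end Cfsg.Agent.Lib_helper4_SpMax
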