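import Mathlib
import Cfsg.Prelude.Def_GeometricClasses
import Cfsg.Agent.Lib_helper4_SpMax

set_option autoImplicit false

/-! Maximality of the stabiliser of a nondegenerate subspace in the symplectic group. -/

namespace Cfsg.Agent.Lib_helper4_SpMax2
open Matrix Cfsg.Agent.Lib_helper4_Sp Cfsg.Agent.Lib_helper4_SpPrim Cfsg.Agent.Lib_helper4_SpPerfect
  Cfsg.Agent.Lib_helper4_Transv Cfsg.Agent.Lib_helper4_SpMax

variable {F : Type*} [Field F] {m : ℕ}

/-- the form as a linear functional in the second variable. -/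
def formLin (v : Fin m ⊕ Fin m → F) : (Fin m ⊕ Fin m → F) →ₗ[F] F where
  toFun w := Cfsg.sympForm m F v w
  map_add' := form_add_right v
  map_smul' := by
    intro c w
    simp [form_smul_right]

/-- the map `W → W*`. -/
def Phi (W : Submodule F (Fin m ⊕ Fin m → F)) : W →ₗ[F] Module.Dual F W where
  toFun a := (formLin a.1).comp W.subtype
  map_add' := by
    intro a b
    ext w
    simp [formLin, form_add_left]
  map_smul' := by
    intro c a
    ext w
    simp [formLin, form_smul_left]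

lemma Phi_apply (W : Submodule F (Fin m ⊕ Fin m → F)) (a w : W) :
    Phi W a w = Cfsg.sympForm m F a.1 w.1 := rfl

/-- orthogonal decomposition with respect to a nondegenerate subspace. -/
lemma exists_decomp (W : Submodule F (Fin m ⊕ Fin m → F))
    (hW : Cfsg.Geo.IsNondegenerateOn (Cfsg.sympForm m F) W) (v : Fin m ⊕ Fin m → F) :
    ∃ a ∈ W, ∃ b ∈ perp W, v = a + b := by
  have hinj : Function.Injective (Phi W) := by
    rw [← LinearMap.ker_eq_bot, LinearMap.ker_eq_bot']
    intro a ha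
    by_contra hne
    have hne' : a.1 ≠ 0 := fun h => hne (Subtype.ext h)
    obtain ⟨-, x, hx, hax⟩ := hW a.1 a.2 hne'
    apply hax
    have := congrArg (fun f : Module.Dual F W => f ⟨x, hx⟩) ha
    simpa [Phi_apply] using this
  have hsurj : Function.Surjective (Phi W) :=
    (LinearMap.injective_iff_surjective_of_finrank_eq_finrank
      (Subspace.dual_finrank_eq (K := F) (V := W)).symm).mp hinj
  obtain ⟨a, ha⟩ := hsurj ((formLin v).comp W.subtype)
  refine ⟨a.1, a.2, v - a.1, ?_, by abel⟩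
  intro w hw
  have := congrArg (fun f : Module.Dual F W => f ⟨w, hw⟩) ha
  simp only [Phi_apply] at this
  rw [form_sub_left, this]
  simp [formLin]

lemma move (K : Subgroup (GL (Fin m ⊕ Fin m) F)) (hKS : K ≤ Cfsg.spGL m F)
    (A : Submodule F (Fin m ⊕ Fin m → F))
    (hA : ∀ a ∈ A, a ≠ 0 → ∃ z ∈ A, Cfsg.sympForm m F a z ≠ 0)
    (hAX : ∀ a ∈ A, a ∈ X K) (b : Fin m ⊕ Fin m → F)
    (hb : ∀ a ∈ A, Cfsg.sympForm m F b a = 0)
    (a : Fin m ⊕ Fin m → F) (ha : a ∈ A) (ha0 : a ≠ 0) (hab : a + b ∈ X K)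
    (a' : Fin m ⊕ Fin m → F) (ha' : a' ∈ A) (ha'0 : a' ≠ 0) : a' + b ∈ X K := by
  have step : ∀ a₁ ∈ A, ∀ a₂ ∈ A, Cfsg.sympForm m F a₁ a₂ ≠ 0 → a₁ + b ∈ X K → a₂ + b ∈ X K := by
    intro a₁ h1 a₂ h2 h12 h1X
    have h3 : Cfsg.sympForm m F (a₁ + b) (a₂ - a₁) ≠ 0 := by
      rw [form_add_left, form_sub_right, form_sub_right, form_self, hb a₂ h2, hb a₁ h1]
      simpa using h12
    have h4 := X_add K hKS h1X (hAX _ (A.sub_mem h2 h1)) h3
    have : a₁ + b + (a₂ - a₁) = a₂ + b := by abel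
    rwa [this] at h4
  by_cases haa : Cfsg.sympForm m F a a' = 0
  · obtain ⟨z₁, hz₁, h1⟩ := hA a ha ha0
    obtain ⟨z₂, hz₂, h2⟩ := hA a' ha' ha'0
    have h2' : Cfsg.sympForm m F z₂ a' ≠ 0 := by
      rw [form_swap]; exact neg_ne_zero.mpr h2
    obtain ⟨z, hz, hz1, hz2⟩ : ∃ z ∈ A, Cfsg.sympForm m F a z ≠ 0 ∧ Cfsg.sympForm m F z a' ≠ 0 := by
      by_cases h3 : Cfsg.sympForm m F z₁ a' = 0
      · by_cases h4 : Cfsg.sympForm m F a z₂ = 0
        · refine ⟨z₁ + z₂, A.add_mem hz₁ hz₂, ?_, ?_⟩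
          · rw [form_add_right, h4, add_zero]; exact h1
          · rw [form_add_left, h3, zero_add]; exact h2'
        · exact ⟨z₂, hz₂, h4, h2'⟩
      · exact ⟨z₁, hz₁, h1, h3⟩
    exact step z hz a' ha' hz2 (step a ha z hz hz1 hab)
  · exact step a ha a' ha' haa hab

/-- A subgroup of `Sp` containing the stabiliser of a nondegenerate subspace `W` of dimension less
than `m`, and not stabilising `W`, is all of `Sp`. -/
theorem spGL_le_of_nondegenerate (W : Submodule F (Fin m ⊕ Fin m → F))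
    (hW : Cfsg.Geo.IsNondegenerateOn (Cfsg.sympForm m F) W) (hdim : Module.finrank F W < m)
    (K : Subgroup (GL (Fin m ⊕ Fin m) F)) (hKS : K ≤ Cfsg.spGL m F)
    (hK : Cfsg.Geo.subspaceStabilizer W ⊓ Cfsg.spGL m F ≤ K)
    (hne : ¬ K ≤ Cfsg.Geo.subspaceStabilizer W) : Cfsg.spGL m F ≤ K := by
  classical
  have hWX : ∀ u ∈ W, u ∈ X K := by
    intro u hu c
    apply hK
    refine ⟨?_, tvGL_mem u c⟩
    show tvGL u c ∈ Cfsg.Geo.subspaceStabilizer W
    rw [mem_subspaceStabilizer_iff]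
    intro v
    rw [tvGL_coe, tv_mulVec]
    exact (W.add_mem_iff_left (W.smul_mem _ hu)).symm
  have hpX : ∀ u ∈ perp W, u ∈ X K := by
    intro u hu c
    apply hK
    refine ⟨mem_subspaceStabilizer_of_fix _ _ ?_, tvGL_mem u c⟩
    intro w hw
    rw [tvGL_coe, tv_mulVec, form_swap, hu w hw, neg_zero, mul_zero, zero_smul, add_zero]
  have hWnd : ∀ a ∈ W, a ≠ 0 → ∃ z ∈ W, Cfsg.sympForm m F a z ≠ 0 :=
    fun a ha ha0 => (hW a ha ha0).2
  have hpnd : ∀ b ∈ perp W, b ≠ 0 → ∃ z ∈ perp W, Cfsg.sympForm m F b z ≠ 0 := by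
    intro b hb hb0
    obtain ⟨z, hz⟩ := exists_form_ne_zero b hb0
    obtain ⟨a, ha, y, hy, rfl⟩ := exists_decomp W hW z
    refine ⟨y, hy, ?_⟩
    rwa [form_add_right, hb a ha, zero_add] at hz
  have hperp' : ∀ a ∈ W, ∀ b ∈ perp W, Cfsg.sympForm m F a b = 0 := by
    intro a ha b hb
    rw [form_swap, hb a ha, neg_zero]
  -- one mixed vector gives everything
  have hall : (∃ a ∈ W, ∃ b ∈ perp W, a ≠ 0 ∧ b ≠ 0 ∧ a + b ∈ X K) → ∀ v, v ∈ X K := by
    rintro ⟨a, ha, b, hb, ha0, hb0, hab⟩ v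
    obtain ⟨a', ha', b', hb', rfl⟩ := exists_decomp W hW v
    by_cases ha'0 : a' = 0
    · subst ha'0; rw [zero_add]; exact hpX b' hb'
    · by_cases hb'0 : b' = 0
      · subst hb'0; rw [add_zero]; exact hWX a' ha'
      · have h1 := move K hKS W hWnd hWX b (fun x hx => hb x hx) a ha ha0 hab a' ha' ha'0
        rw [add_comm] at h1
        have h2 := move K hKS (perp W) hpnd hpX a' (fun x hx => hperp' a' ha' x hx) b hb hb0 h1
          b' hb' hb'0
        rwa [add_comm] at h2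
  by_cases hmixed : ∃ a ∈ W, ∃ b ∈ perp W, a ≠ 0 ∧ b ≠ 0 ∧ a + b ∈ X K
  · apply spGL_le_of_tv
    intro v c
    exact hall hmixed v c
  · exfalso
    -- every element of `X` lies in `W` or in `perp W`
    have hH : ∀ x ∈ X K, x ∈ W ∨ x ∈ perp W := by
      intro x hx
      obtain ⟨a, ha, b, hb, rfl⟩ := exists_decomp W hW x
      by_cases ha0 : a = 0
      · right; subst ha0; rw [zero_add]; exact hb
      · by_cases hb0 : b = 0
        · left; subst hb0; rw [add_zero]; exact ha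
        · exact absurd ⟨a, ha, b, hb, ha0, hb0, hx⟩ hmixed
    obtain ⟨k, hk, w, hw, hkw⟩ := exists_moved W K hne
    have hkX : ∀ x ∈ X K, (k : Matrix (Fin m ⊕ Fin m) (Fin m ⊕ Fin m) F) *ᵥ x ∈ X K :=
      fun x hx => X_smul_mem K hKS hk hx
    have hkwp : (k : Matrix (Fin m ⊕ Fin m) (Fin m ⊕ Fin m) F) *ᵥ w ∈ perp W :=
      (hH _ (hkX w (hWX w hw))).resolve_left hkw
    have hw0 : w ≠ 0 := by
      rintro rfl
      rw [Matrix.mulVec_zero] at hkw
      exact hkw W.zero_mem
    -- `k` maps `perp W` into `W`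
    have hkp : ∀ y ∈ perp W, (k : Matrix (Fin m ⊕ Fin m) (Fin m ⊕ Fin m) F) *ᵥ y ∈ W := by
      by_contra hcon
      push Not at hcon
      obtain ⟨y₀, hy₀, hky₀⟩ := hcon
      have hky₀p := (hH _ (hkX y₀ (hpX y₀ hy₀))).resolve_left hky₀
      have hkpp : ∀ y ∈ perp W, (k : Matrix (Fin m ⊕ Fin m) (Fin m ⊕ Fin m) F) *ᵥ y ∈ perp W := by
        intro y hy
        by_contra hyp
        have hyW := (hH _ (hkX y (hpX y hy))).resolve_right hyp
        rcases hH _ (hkX (y + y₀) (hpX _ ((perp W).add_mem hy hy₀))) with h | h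
        · rw [Matrix.mulVec_add] at h
          exact hky₀ ((W.add_mem_iff_right hyW).mp h)
        · rw [Matrix.mulVec_add] at h
          exact hyp (((perp W).add_mem_iff_left hky₀p).mp h)
      have hkWp : ∀ w' ∈ W, (k : Matrix (Fin m ⊕ Fin m) (Fin m ⊕ Fin m) F) *ᵥ w' ∈ perp W := by
        intro w' hw'
        by_contra hwp
        have hwW := (hH _ (hkX w' (hWX w' hw'))).resolve_right hwp
        rcases hH _ (hkX (w' + w) (hWX _ (W.add_mem hw' hw))) with h | h
        · rw [Matrix.mulVec_add] at h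
          exact hkw ((W.add_mem_iff_right hwW).mp h)
        · rw [Matrix.mulVec_add] at h
          exact hwp (((perp W).add_mem_iff_left hkwp).mp h)
      -- then `perp W` is everything
      have htop : ∀ v, v ∈ perp W := by
        intro v
        obtain ⟨a, ha, b, hb, hab⟩ := exists_decomp W hW
          (((k⁻¹ : GL (Fin m ⊕ Fin m) F) : Matrix (Fin m ⊕ Fin m) (Fin m ⊕ Fin m) F) *ᵥ v)
        have h1 := congrArg (fun z => (k : Matrix (Fin m ⊕ Fin m) (Fin m ⊕ Fin m) F) *ᵥ z) hab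
        simp only [Matrix.mulVec_mulVec, ← Units.val_mul, mul_inv_cancel, Units.val_one,
          Matrix.one_mulVec, Matrix.mulVec_add] at h1
        rw [h1]
        exact (perp W).add_mem (hkWp a ha) (hkpp b hb)
      obtain ⟨z, hz, hwz⟩ := hWnd w hw hw0
      exact hwz (hperp' w hw z (htop z))
    -- dimension count
    have h1 : Module.finrank F (perp W) ≤ Module.finrank F W := by
      apply LinearMap.finrank_le_finrank_of_injective
        (f := (Matrix.mulVecLin (k : Matrix (Fin m ⊕ Fin m) (Fin m ⊕ Fin m) F)).restrict hkp)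
      intro a b hab
      have h1 : (k : Matrix (Fin m ⊕ Fin m) (Fin m ⊕ Fin m) F) *ᵥ (a : Fin m ⊕ Fin m → F) =
          (k : Matrix (Fin m ⊕ Fin m) (Fin m ⊕ Fin m) F) *ᵥ (b : Fin m ⊕ Fin m → F) :=
        congrArg Subtype.val hab
      have h2 := congrArg (fun z => ((k⁻¹ : GL (Fin m ⊕ Fin m) F) :
        Matrix (Fin m ⊕ Fin m) (Fin m ⊕ Fin m) F) *ᵥ z) h1
      simp only [Matrix.mulVec_mulVec, ← Units.val_mul, inv_mul_cancel, Units.val_one,
        Matrix.one_mulVec] at h2
      exact Subtype.ext h2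
    have h2 : W ⊔ perp W = ⊤ := by
      rw [eq_top_iff]
      intro v _
      obtain ⟨a, ha, b, hb, rfl⟩ := exists_decomp W hW v
      exact Submodule.add_mem_sup ha hb
    have h3 := Submodule.finrank_sup_add_finrank_inf_eq W (perp W)
    rw [h2, finrank_top, Module.finrank_fintype_fun_eq_card, Fintype.card_sum, Fintype.card_fin] at h3
    omega

/-- maximality of the stabiliser of a non-zero nondegenerate subspace of dimension `< m` in `Sp`. -/
theorem isMaximalIn_nondegenerate (W : Submodule F (Fin m ⊕ Fin m → F)) (hW0 : W ≠ ⊥)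
    (hW : Cfsg.Geo.IsNondegenerateOn (Cfsg.sympForm m F) W) (hdim : Module.finrank F W < m) :
    Cfsg.Geo.IsMaximalIn (Cfsg.spGL m F) (Cfsg.Geo.subspaceStabilizer W ⊓ Cfsg.spGL m F) := by
  refine ⟨lt_of_le_of_ne inf_le_right ?_, ?_⟩
  · intro heq
    -- a transvection along a mixed vector does not stabilise `W`
    obtain ⟨w, hw, hw0⟩ := (Submodule.ne_bot_iff W).mp hW0
    have hpne : ∃ b ∈ perp W, b ≠ 0 := by
      by_contra hcon
      push Not at hcon
      have h2 : W = ⊤ := by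
        rw [eq_top_iff]
        intro v _
        obtain ⟨a, ha, b, hb, rfl⟩ := exists_decomp W hW v
        rw [hcon b hb, add_zero]; exact ha
      have h3 : Module.finrank F W = m + m := by
        rw [h2, finrank_top, Module.finrank_fintype_fun_eq_card, Fintype.card_sum, Fintype.card_fin]
      omega
    obtain ⟨b, hb, hb0⟩ := hpne
    obtain ⟨z, hz, hwz⟩ := (hW w hw hw0).2
    have h1 : tvGL (z + b) 1 ∈ Cfsg.Geo.subspaceStabilizer W ⊓ Cfsg.spGL m F := by
      rw [heq]; exact tvGL_mem _ 1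
    have h2 := (mem_subspaceStabilizer_iff _ _).mp h1.1 w
    rw [tvGL_coe, tv_mulVec, one_mul] at h2
    have h3 := (W.add_mem_iff_right hw).mp (h2.mp hw)
    have hne : Cfsg.sympForm m F w (z + b) ≠ 0 := by
      rw [form_add_right, form_swap w b, hb w hw, neg_zero, add_zero]; exact hwz
    have h4 := W.smul_mem (Cfsg.sympForm m F w (z + b))⁻¹ h3
    rw [smul_smul, inv_mul_cancel₀ hne, one_smul] at h4
    have h5 : b ∈ W := (W.add_mem_iff_right hz).mp h4
    obtain ⟨z', hz', hbz'⟩ := (hW b h5 hb0).2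
    exact hbz' (hb z' hz')
  · intro M hM1 hM2
    by_cases hMW : M ≤ Cfsg.Geo.subspaceStabilizer W
    · left
      exact le_antisymm (le_inf hMW hM2) hM1
    · right
      exact le_antisymm hM2 (spGL_le_of_nondegenerate W hW hdim M hM2 hM1 hMW)

end Cfsg.Agent.Lib_helper4_SpMax2
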