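import Mathlib
import Cfsg.Agent.Lib_helper4_SymBasis

set_option autoImplicit false

/-! Totally singular half-dimensional subspaces of the sum-of-squares form. -/

namespace Cfsg.Agent.Lib_helper4_SumSq
open Module Matrix

section Det
variable {n : Type*} [Fintype n] [DecidableEq n] {R : Type*} [CommRing R]

lemma det_antidiag :
    (fromBlocks (0 : Matrix n n R) (1 : Matrix n n R) (1 : Matrix n n R)
      (0 : Matrix n n R)).det = (-1) ^ Fintype.card n := by
  have h1 : fromBlocks (1 : Matrix n n R) (1 : Matrix n n R) (0 : Matrix n n R)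
      (1 : Matrix n n R) * fromBlocks (0 : Matrix n n R) (1 : Matrix n n R) (1 : Matrix n n R)
      (0 : Matrix n n R) = fromBlocks (1 : Matrix n n R) (1 : Matrix n n R) (1 : Matrix n n R)
      (0 : Matrix n n R) := by
    rw [fromBlocks_multiply]; simp
  have h2 := congrArg det h1
  rw [det_mul, det_fromBlocks_zero₂₁, det_one, one_mul, one_mul, det_fromBlocks_one₁₁] at h2
  rw [h2]
  simp [det_neg]

lemma det_fromBlocks_zero_one_one (A B C : Matrix n n R) :
    (fromBlocks 0 A B C).det = (-1) ^ Fintype.card n * (A.det * B.det) := by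
  have h1 : fromBlocks 0 A B C * fromBlocks (0 : Matrix n n R) (1 : Matrix n n R)
      (1 : Matrix n n R) (0 : Matrix n n R) = fromBlocks A 0 C B := by
    rw [fromBlocks_multiply]; simp
  have h2 := congrArg det h1
  rw [det_mul, det_antidiag, det_fromBlocks_zero₁₂] at h2
  have h3 : ((-1 : R) ^ Fintype.card n) * (-1) ^ Fintype.card n = 1 := by
    rw [← mul_pow]; simp
  calc (fromBlocks 0 A B C).det
      = (fromBlocks 0 A B C).det * ((-1) ^ Fintype.card n * (-1) ^ Fintype.card n) := by
        rw [h3, mul_one]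
    _ = _ := by rw [← mul_assoc, h2]; ring

end Det

section Main
variable {F : Type*} [Field F]

theorem neg_one_pow_isSquare (h2 : (2 : F) ≠ 0) (m : ℕ) (W : Submodule F (Fin (2 * m) → F))
    (hW : finrank F W = m) (h0 : ∀ w ∈ W, ∑ i, w i ^ 2 = 0) : IsSquare ((-1 : F) ^ m) := by
  classical
  have hpol : ∀ w ∈ W, ∀ w' ∈ W, ∑ i, w i * w' i = 0 := by
    intro w hw w' hw'
    have h := h0 (w + w') (W.add_mem hw hw')
    have e : ∑ i, (w + w') i ^ 2 = ∑ i, w i ^ 2 + 2 * ∑ i, w i * w' i + ∑ i, w' i ^ 2 := by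
      rw [Finset.mul_sum, ← Finset.sum_add_distrib, ← Finset.sum_add_distrib]
      apply Finset.sum_congr rfl
      intro i _
      simp only [Pi.add_apply]; ring
    rw [e, h0 w hw, h0 w' hw'] at h
    simpa [h2] using h
  obtain ⟨W', hcompl⟩ := Submodule.exists_isCompl W
  have hfin := Submodule.finrank_add_eq_of_isCompl hcompl
  rw [hW, Module.finrank_fin_fun] at hfin
  have hW' : finrank F W' = m := by omega
  let bW : Basis (Fin m) F W := finBasisOfFinrankEq F W hW
  let bW' : Basis (Fin m) F W' := finBasisOfFinrankEq F W' hW'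
  let b : Basis (Fin m ⊕ Fin m) F (Fin (2 * m) → F) :=
    (bW.prod bW').map (Submodule.prodEquivOfIsCompl W W' hcompl)
  have hbl : ∀ j, b (Sum.inl j) ∈ W := by
    intro j
    have : b (Sum.inl j) = (bW j : Fin (2 * m) → F) := by
      simp [b, Submodule.coe_prodEquivOfIsCompl']
    rw [this]; exact (bW j).2
  have hcard : Fintype.card (Fin m ⊕ Fin m) = Fintype.card (Fin (2 * m)) := by
    simp; ring
  let e : Fin m ⊕ Fin m ≃ Fin (2 * m) := Fintype.equivOfCardEq hcard
  let c : Basis (Fin m ⊕ Fin m) F (Fin (2 * m) → F) :=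
    (Pi.basisFun F (Fin (2 * m))).reindex e.symm
  let P : Matrix (Fin m ⊕ Fin m) (Fin m ⊕ Fin m) F := c.toMatrix b
  have hP : ∀ s s', P s s' = b s' (e s) := by
    intro s s'
    simp [P, c, Basis.toMatrix_apply]
  have hPdet : P.det ≠ 0 := by
    have := Basis.toMatrix_mul_toMatrix_flip c b
    have h := congrArg det this
    rw [det_mul, det_one] at h
    exact left_ne_zero_of_mul_eq_one h
  let G : Matrix (Fin m ⊕ Fin m) (Fin m ⊕ Fin m) F := Pᵀ * P
  have hG : ∀ s s', G s s' = ∑ i, b s i * b s' i := by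
    intro s s'
    simp only [G, Matrix.mul_apply, Matrix.transpose_apply, hP]
    exact Fintype.sum_equiv e _ _ (fun _ => rfl)
  have hGdet : G.det = P.det ^ 2 := by
    simp only [G, det_mul, det_transpose]; ring
  have hGblock : G = fromBlocks 0 G.toBlocks₁₂ G.toBlocks₁₂ᵀ G.toBlocks₂₂ := by
    conv_lhs => rw [← fromBlocks_toBlocks G]
    congr 1
    · ext i j
      simp only [toBlocks₁₁, of_apply, hG, Matrix.zero_apply]
      exact hpol _ (hbl i) _ (hbl j)
    · ext i j
      simp only [toBlocks₂₁, toBlocks₁₂, of_apply, transpose_apply, hG]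
      apply Finset.sum_congr rfl; intros; ring
  rw [hGblock, det_fromBlocks_zero_one_one, det_transpose] at hGdet
  simp only [Fintype.card_fin] at hGdet
  set A := G.toBlocks₁₂ with hA
  have hA0 : A.det ≠ 0 := by
    intro h
    rw [h] at hGdet
    simp only [mul_zero] at hGdet
    exact hPdet (pow_eq_zero_iff (two_ne_zero) |>.1 hGdet.symm)
  refine ⟨P.det / A.det, ?_⟩
  field_simp
  linear_combination hGdet

theorem exists_of_antiisometry (m : ℕ) (T : (Fin m → F) →ₗ[F] (Fin m → F))
    (hT : ∀ x, ∑ j, T x j ^ 2 = - ∑ j, x j ^ 2) :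
    ∃ W : Submodule F (Fin (2 * m) → F), finrank F W = m ∧ ∀ w ∈ W, ∑ i, w i ^ 2 = 0 := by
  classical
  have hcard : Fintype.card (Fin m ⊕ Fin m) = Fintype.card (Fin (2 * m)) := by
    simp; ring
  let e : Fin m ⊕ Fin m ≃ Fin (2 * m) := Fintype.equivOfCardEq hcard
  let φ : (Fin m → F) →ₗ[F] (Fin (2 * m) → F) :=
    { toFun := fun x k => Sum.elim x (T x) (e.symm k)
      map_add' := by
        intro x y; ext k
        simp only [Pi.add_apply, map_add]
        rcases e.symm k with s | s <;> simp
      map_smul' := by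
        intro a x; ext k
        simp only [Pi.smul_apply, map_smul, RingHom.id_apply]
        rcases e.symm k with s | s <;> simp }
  have hφ : Function.Injective φ := by
    intro x y hxy
    ext j
    have := congrFun hxy (e (Sum.inl j))
    simpa [φ] using this
  refine ⟨LinearMap.range φ, ?_, ?_⟩
  · rw [LinearMap.finrank_range_of_inj hφ, Module.finrank_fin_fun]
  · rintro _ ⟨x, rfl⟩
    rw [← Equiv.sum_comp e, Fintype.sum_sum_type]
    simp only [φ, LinearMap.coe_mk, AddHom.coe_mk, Equiv.symm_apply_apply, Sum.elim_inl,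
      Sum.elim_inr]
    rw [hT x]; ring

theorem exists_antiisometry_of_sq (m : ℕ) (i : F) (hi : i * i = -1) :
    ∃ T : (Fin m → F) →ₗ[F] (Fin m → F), ∀ x, ∑ j, T x j ^ 2 = - ∑ j, x j ^ 2 := by
  refine ⟨i • LinearMap.id, fun x => ?_⟩
  simp only [LinearMap.smul_apply, LinearMap.id_coe, id_eq, Pi.smul_apply, smul_eq_mul]
  rw [← Finset.sum_neg_distrib]
  apply Finset.sum_congr rfl
  intro j _
  linear_combination (x j ^ 2) * hi

theorem exists_antiisometry_of_even (t : ℕ) (a b : F) (hab : a ^ 2 + b ^ 2 = -1) :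
    ∃ T : (Fin (2 * t) → F) →ₗ[F] (Fin (2 * t) → F),
      ∀ x, ∑ j, T x j ^ 2 = - ∑ j, x j ^ 2 := by
  classical
  have hcard : Fintype.card (Fin t ⊕ Fin t) = Fintype.card (Fin (2 * t)) := by
    simp; ring
  let e : Fin t ⊕ Fin t ≃ Fin (2 * t) := Fintype.equivOfCardEq hcard
  let T : (Fin (2 * t) → F) →ₗ[F] (Fin (2 * t) → F) :=
    { toFun := fun x j => Sum.elim (fun s => a * x (e (Sum.inl s)) - b * x (e (Sum.inr s)))
        (fun s => b * x (e (Sum.inl s)) + a * x (e (Sum.inr s))) (e.symm j)
      map_add' := by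
        intro x y; ext k
        simp only [Pi.add_apply]
        rcases e.symm k with s | s <;> simp <;> ring
      map_smul' := by
        intro r x; ext k
        simp only [Pi.smul_apply, RingHom.id_apply]
        rcases e.symm k with s | s <;> simp <;> ring }
  refine ⟨T, fun x => ?_⟩
  rw [← Equiv.sum_comp e, ← Equiv.sum_comp e (fun j => x j ^ 2), Fintype.sum_sum_type,
    Fintype.sum_sum_type]
  simp only [T, LinearMap.coe_mk, AddHom.coe_mk, Equiv.symm_apply_apply, Sum.elim_inl,
    Sum.elim_inr]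
  rw [← Finset.sum_add_distrib, ← Finset.sum_add_distrib, ← Finset.sum_neg_distrib]
  apply Finset.sum_congr rfl
  intro s _
  linear_combination (x (e (Sum.inl s)) ^ 2 + x (e (Sum.inr s)) ^ 2) * hab

end Main

end Cfsg.Agent.Lib_helper4_SumSq
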