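import Mathlib
import Cfsg.Agent.Lib_helper4_SymBasis

set_option autoImplicit false

/-! Non-degenerate symmetric bilinear forms on an odd-dimensional space over a finite field
of odd characteristic are similar. -/

namespace Cfsg.Agent.Lib_helper4_SymSimilar
open Module

section
variable {F V : Type*} [Field F] [AddCommGroup V] [Module F V]

lemma det_gram {n : ℕ} (B : LinearMap.BilinForm F V) (b : Module.Basis (Fin (n + 1)) F V)
    (h1 : ∀ i j, i ≠ j → B (b i) (b j) = 0) (h2 : ∀ i, i ≠ Fin.last n → B (b i) (b i) = 1) :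
    (LinearMap.BilinForm.toMatrix b B).det = B (b (Fin.last n)) (b (Fin.last n)) := by
  have : LinearMap.BilinForm.toMatrix b B = Matrix.diagonal (fun i => B (b i) (b i)) := by
    ext i j
    rw [LinearMap.BilinForm.toMatrix_apply]
    by_cases hij : i = j
    · subst hij; simp
    · simp [Matrix.diagonal_apply_ne _ hij, h1 i j hij]
  rw [this, Matrix.det_diagonal, Fin.prod_univ_castSucc, Finset.prod_eq_one, one_mul]
  intro i _
  exact h2 _ (Fin.castSucc_lt_last i).ne

lemma det_gram_change {ι : Type*} [Fintype ι] [DecidableEq ι] (B : LinearMap.BilinForm F V)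
    (b c : Module.Basis ι F V) :
    (LinearMap.BilinForm.toMatrix c B).det = (b.toMatrix c).det ^ 2 * (LinearMap.BilinForm.toMatrix b B).det := by
  rw [← LinearMap.BilinForm.toMatrix_mul_basis_toMatrix b c B, Matrix.det_mul, Matrix.det_mul,
    Matrix.det_transpose]
  ring

lemma isometry_of_bases {ι : Type*} (B B' : LinearMap.BilinForm F V) (b b' : Module.Basis ι F V)
    (ho : ∀ i j, i ≠ j → B (b i) (b j) = 0) (ho' : ∀ i j, i ≠ j → B' (b' i) (b' j) = 0)
    (hn : ∀ i, B' (b' i) (b' i) = B (b i) (b i)) (x y : V) :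
    B' (b.equiv b' (Equiv.refl _) x) (b.equiv b' (Equiv.refl _) y) = B x y := by
  have h : B'.compl₁₂ (b.equiv b' (Equiv.refl _)).toLinearMap
      (b.equiv b' (Equiv.refl _)).toLinearMap = B := by
    apply LinearMap.BilinForm.ext_basis b
    intro i j
    simp only [LinearMap.compl₁₂_apply, LinearEquiv.coe_coe, Module.Basis.equiv_apply,
      Equiv.refl_apply]
    by_cases hij : i = j
    · subst hij; exact hn i
    · rw [ho i j hij, ho' i j hij]
  rw [← h]
  rfl

end

section
variable {F : Type*} [Field F] [Finite F]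

theorem similar_of_odd (h2 : (2 : F) ≠ 0) {V : Type*} [AddCommGroup V] [Module F V]
    [FiniteDimensional F V] (B₁ B₂ : LinearMap.BilinForm F V) (hS₁ : B₁.IsSymm)
    (hS₂ : B₂.IsSymm) (hB₁ : B₁.Nondegenerate) (hB₂ : B₂.Nondegenerate)
    (hodd : Odd (finrank F V)) :
    ∃ (g : V ≃ₗ[F] V) (c : F), c ≠ 0 ∧ ∀ x y, B₂ (g x) (g y) = c * B₁ x y := by
  classical
  haveI := Fintype.ofFinite F
  obtain ⟨α, hα⟩ := FiniteField.exists_nonsquare (Lib_helper4_SymBasis.ringChar_ne_two h2)
  have hα0 : α ≠ 0 := by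
    rintro rfl
    exact hα IsSquare.zero
  obtain ⟨m, hm⟩ := hodd
  have hk : finrank F V = 2 * m + 1 := hm
  obtain ⟨b₁, h11, h12, h13⟩ := Lib_helper4_SymBasis.exists_basis h2 B₁ hS₁ hB₁ hk α hα
  obtain ⟨b₂, h21, h22, h23⟩ := Lib_helper4_SymBasis.exists_basis h2 B₂ hS₂ hB₂ hk α hα
  by_cases hd : B₂ (b₂ (Fin.last _)) (b₂ (Fin.last _)) = B₁ (b₁ (Fin.last _)) (b₁ (Fin.last _))
  · refine ⟨b₁.equiv b₂ (Equiv.refl _), 1, one_ne_zero, fun x y => ?_⟩
    rw [one_mul]
    apply isometry_of_bases B₁ B₂ b₁ b₂ h11 h21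
    intro i
    by_cases hi : i = Fin.last _
    · subst hi; exact hd
    · rw [h12 i hi, h22 i hi]
  · -- the scaled form
    set B₃ : LinearMap.BilinForm F V := α • B₁ with hB₃
    have hS₃ : B₃.IsSymm := ⟨fun x y => by
      simp only [hB₃, LinearMap.smul_apply, smul_eq_mul, RingHom.id_apply]
      have := hS₁.eq x y
      rw [this]⟩
    have hsep : B₃.SeparatingLeft := by
      intro x hx
      apply hB₁.1
      intro y
      have := hx y
      simp only [hB₃, LinearMap.smul_apply, smul_eq_mul] at this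
      exact (mul_eq_zero.1 this).resolve_left hα0
    have hN₃ : B₃.Nondegenerate := by
      refine ⟨hsep, ?_⟩
      intro y hy
      apply hsep
      intro x
      exact (hS₃.eq_iff).1 (hy x)
    obtain ⟨b₃, h31, h32, h33⟩ := Lib_helper4_SymBasis.exists_basis h2 B₃ hS₃ hN₃ hk α hα
    have hne : B₃ (b₃ (Fin.last _)) (b₃ (Fin.last _)) ≠ B₁ (b₁ (Fin.last _)) (b₁ (Fin.last _)) := by
      intro heq
      have e1 := det_gram B₃ b₃ h31 h32
      have e2 := det_gram B₁ b₁ h11 h12
      have e3 := det_gram_change B₃ b₁ b₃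
      have e4 : LinearMap.BilinForm.toMatrix b₁ B₃ = α • LinearMap.BilinForm.toMatrix b₁ B₁ := by
        rw [hB₃, map_smul]
      rw [e4, Matrix.det_smul, e1, e2, heq, Fintype.card_fin] at e3
      have hd0 : B₁ (b₁ (Fin.last _)) (b₁ (Fin.last _)) ≠ 0 := by
        rcases h13 with h | h
        · rw [h]; exact one_ne_zero
        · rw [h]; exact hα0
      set d := B₁ (b₁ (Fin.last _)) (b₁ (Fin.last _)) with hd_def
      set p := (b₁.toMatrix b₃).det with hp
      have e5 : α * (α ^ m * p) ^ 2 = 1 := by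
        have : d * (α * (α ^ m * p) ^ 2) = d * 1 := by
          rw [mul_one]
          calc d * (α * (α ^ m * p) ^ 2) = p ^ 2 * (α ^ (2 * m + 1) * d) := by ring
            _ = d := e3.symm
        exact mul_left_cancel₀ hd0 this
      apply hα
      have hne0 : α ^ m * p ≠ 0 := by
        intro h0
        rw [h0] at e5
        simp at e5
      refine ⟨(α ^ m * p)⁻¹, ?_⟩
      generalize α ^ m * p = r at e5 hne0
      calc α = α * r ^ 2 * (r⁻¹ * r⁻¹) := by field_simp
        _ = _ := by rw [e5, one_mul]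
    have hd3 : B₂ (b₂ (Fin.last _)) (b₂ (Fin.last _)) = B₃ (b₃ (Fin.last _)) (b₃ (Fin.last _)) := by
      rcases h13 with h | h <;> rcases h23 with h' | h' <;> rcases h33 with h'' | h'' <;>
        simp_all
    refine ⟨b₃.equiv b₂ (Equiv.refl _), α, hα0, fun x y => ?_⟩
    have := isometry_of_bases B₃ B₂ b₃ b₂ h31 h21 (fun i => by
      by_cases hi : i = Fin.last _
      · subst hi; exact hd3
      · rw [h32 i hi, h22 i hi]) x y
    rw [this, hB₃]
    rfl

end

end Cfsg.Agent.Lib_helper4_SymSimilar
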