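import Mathlib
import Cfsg.Agent.Lib_helper4_SymBasis
import Cfsg.Agent.Lib_helper4_SymSimilar
import Cfsg.Agent.Lib_helper4_SumSq

set_option autoImplicit false

/-! Discriminants of symmetric bilinear forms over finite fields of odd characteristic:
classification by the discriminant, and the type (plus/minus) of an even-dimensional form. -/

namespace Cfsg.Agent.Lib_helper4_SymDisc
open Module Matrix

section General
variable {F V V' : Type*} [Field F] [AddCommGroup V] [Module F V] [AddCommGroup V'] [Module F V']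

lemma det_gram_reindex {ι κ : Type*} [Fintype ι] [DecidableEq ι] [Fintype κ] [DecidableEq κ]
    (B : LinearMap.BilinForm F V) (b : Basis ι F V) (e : ι ≃ κ) :
    (LinearMap.BilinForm.toMatrix (b.reindex e) B).det
      = (LinearMap.BilinForm.toMatrix b B).det := by
  have : LinearMap.BilinForm.toMatrix (b.reindex e) B
      = (LinearMap.BilinForm.toMatrix b B).submatrix e.symm e.symm := by
    ext i j
    simp [LinearMap.BilinForm.toMatrix_apply]
  rw [this, Matrix.det_submatrix_equiv_self]

lemma det_gram_change_general {ι κ : Type*} [Fintype ι] [DecidableEq ι] [Fintype κ]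
    [DecidableEq κ] (B : LinearMap.BilinForm F V) (b : Basis ι F V) (c : Basis κ F V) :
    ∃ p : F, p ≠ 0 ∧ (LinearMap.BilinForm.toMatrix c B).det
      = p ^ 2 * (LinearMap.BilinForm.toMatrix b B).det := by
  have hcard : Fintype.card ι = Fintype.card κ := by
    rw [← finrank_eq_card_basis b, ← finrank_eq_card_basis c]
  let e : ι ≃ κ := Fintype.equivOfCardEq hcard
  refine ⟨((b.reindex e).toMatrix c).det, ?_, ?_⟩
  · have := Basis.toMatrix_mul_toMatrix_flip (b.reindex e) c
    have h := congrArg det this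
    rw [det_mul, det_one] at h
    exact left_ne_zero_of_mul_eq_one h
  · rw [Lib_helper4_SymSimilar.det_gram_change B (b.reindex e) c, det_gram_reindex]

lemma isometry_of_bases {ι : Type*} (B : LinearMap.BilinForm F V) (B' : LinearMap.BilinForm F V')
    (b : Basis ι F V) (b' : Basis ι F V')
    (ho : ∀ i j, i ≠ j → B (b i) (b j) = 0) (ho' : ∀ i j, i ≠ j → B' (b' i) (b' j) = 0)
    (hn : ∀ i, B' (b' i) (b' i) = B (b i) (b i)) (x y : V) :
    B' (b.equiv b' (Equiv.refl _) x) (b.equiv b' (Equiv.refl _) y) = B x y := by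
  have h : B'.compl₁₂ (b.equiv b' (Equiv.refl _)).toLinearMap
      (b.equiv b' (Equiv.refl _)).toLinearMap = B := by
    apply LinearMap.BilinForm.ext_basis b
    intro i j
    simp only [LinearMap.compl₁₂_apply, LinearEquiv.coe_coe, Module.Basis.equiv_apply,
      Equiv.refl_apply]
    by_cases hij : i = j
    · subst hij; exact hn i
    · rw [ho i j hij, ho' i j hij]
  rw [← h]
  rfl

/-- A totally isotropic half-dimensional subspace forces `(-1)^k disc` to be a square. -/
theorem isSquare_of_isotropic [FiniteDimensional F V] (B : LinearMap.BilinForm F V)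
    (hS : B.IsSymm) {ι : Type*} [Fintype ι] [DecidableEq ι] (b : Basis ι F V) (k : ℕ)
    (hV : finrank F V = 2 * k) (X : Submodule F V) (hX : finrank F X = k)
    (h0 : ∀ x ∈ X, ∀ y ∈ X, B x y = 0) :
    IsSquare ((-1 : F) ^ k * (LinearMap.BilinForm.toMatrix b B).det) := by
  classical
  obtain ⟨X', hcompl⟩ := Submodule.exists_isCompl X
  have hfin := Submodule.finrank_add_eq_of_isCompl hcompl
  rw [hX, hV] at hfin
  have hX' : finrank F X' = k := by omega
  let bX : Basis (Fin k) F X := finBasisOfFinrankEq F X hX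
  let bX' : Basis (Fin k) F X' := finBasisOfFinrankEq F X' hX'
  let c : Basis (Fin k ⊕ Fin k) F V :=
    (bX.prod bX').map (Submodule.prodEquivOfIsCompl X X' hcompl)
  have hcl : ∀ j, c (Sum.inl j) ∈ X := by
    intro j
    have : c (Sum.inl j) = (bX j : V) := by
      simp [c, Submodule.coe_prodEquivOfIsCompl']
    rw [this]; exact (bX j).2
  obtain ⟨p, hp, e1⟩ := det_gram_change_general B b c
  set G := LinearMap.BilinForm.toMatrix c B with hG
  have hGblock : G = fromBlocks 0 G.toBlocks₁₂ G.toBlocks₁₂ᵀ G.toBlocks₂₂ := by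
    conv_lhs => rw [← fromBlocks_toBlocks G]
    congr 1
    · ext i j
      simp only [toBlocks₁₁, of_apply, hG, LinearMap.BilinForm.toMatrix_apply,
        Matrix.zero_apply]
      exact h0 _ (hcl i) _ (hcl j)
    · ext i j
      simp only [toBlocks₂₁, toBlocks₁₂, of_apply, transpose_apply, hG,
        LinearMap.BilinForm.toMatrix_apply]
      exact (hS.eq _ _).symm
  rw [hGblock, Lib_helper4_SumSq.det_fromBlocks_zero_one_one, det_transpose,
    Fintype.card_fin] at e1
  set A := G.toBlocks₁₂
  refine ⟨A.det / p, ?_⟩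
  have h1 : (-1 : F) ^ k * (-1) ^ k = 1 := by rw [← mul_pow]; simp
  have h2 : (LinearMap.BilinForm.toMatrix b B).det = (-1) ^ k * (A.det * A.det) / p ^ 2 := by
    rw [e1]; field_simp
  rw [h2]
  calc (-1 : F) ^ k * ((-1) ^ k * (A.det * A.det) / p ^ 2)
      = ((-1 : F) ^ k * (-1) ^ k) * (A.det * A.det) / p ^ 2 := by ring
    _ = A.det / p * (A.det / p) := by rw [h1]; field_simp

end General

section Finite
variable {F V V' : Type*} [Field F] [Finite F] [AddCommGroup V] [Module F V] [AddCommGroup V']
  [Module F V']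

/-- Non-degenerate symmetric forms of the same dimension whose discriminants agree modulo
squares are isometric. -/
theorem exists_isometry (h2 : (2 : F) ≠ 0) [FiniteDimensional F V] [FiniteDimensional F V']
    (B : LinearMap.BilinForm F V) (B' : LinearMap.BilinForm F V') (hS : B.IsSymm)
    (hS' : B'.IsSymm) (hB : B.Nondegenerate) (hB' : B'.Nondegenerate)
    {ι ι' : Type*} [Fintype ι] [DecidableEq ι] [Fintype ι'] [DecidableEq ι']
    (b : Basis ι F V) (b' : Basis ι' F V') (hcard : Fintype.card ι = Fintype.card ι')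
    (hsq : IsSquare ((LinearMap.BilinForm.toMatrix b B).det
      * (LinearMap.BilinForm.toMatrix b' B').det)) :
    ∃ g : V ≃ₗ[F] V', ∀ x y, B' (g x) (g y) = B x y := by
  classical
  haveI := Fintype.ofFinite F
  obtain ⟨α, hα⟩ := FiniteField.exists_nonsquare (Lib_helper4_SymBasis.ringChar_ne_two h2)
  rcases Nat.eq_zero_or_pos (Fintype.card ι) with h0 | hpos
  · have hV : finrank F V = 0 := by rw [finrank_eq_card_basis b, h0]
    have hV' : finrank F V' = 0 := by rw [finrank_eq_card_basis b', ← hcard, h0]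
    haveI : Subsingleton V := finrank_zero_iff.1 hV
    haveI : Subsingleton V' := finrank_zero_iff.1 hV'
    refine ⟨LinearEquiv.ofSubsingleton V V', fun x y => ?_⟩
    rw [Subsingleton.elim x 0]; simp
  · obtain ⟨n, hn⟩ : ∃ n, Fintype.card ι = n + 1 := ⟨_, (Nat.succ_pred_eq_of_pos hpos).symm⟩
    have hV : finrank F V = n + 1 := by rw [finrank_eq_card_basis b, hn]
    have hV' : finrank F V' = n + 1 := by rw [finrank_eq_card_basis b', ← hcard, hn]
    obtain ⟨c, h11, h12, h13⟩ := Lib_helper4_SymBasis.exists_basis h2 B hS hB hV α hα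
    obtain ⟨c', h21, h22, h23⟩ := Lib_helper4_SymBasis.exists_basis h2 B' hS' hB' hV' α hα
    obtain ⟨p, hp, e1⟩ := det_gram_change_general B b c
    obtain ⟨p', hp', e2⟩ := det_gram_change_general B' b' c'
    rw [Lib_helper4_SymSimilar.det_gram B c h11 h12] at e1
    rw [Lib_helper4_SymSimilar.det_gram B' c' h21 h22] at e2
    have hd : B' (c' (Fin.last n)) (c' (Fin.last n)) = B (c (Fin.last n)) (c (Fin.last n)) := by
      by_contra hne
      have hprod : B (c (Fin.last n)) (c (Fin.last n))
          * B' (c' (Fin.last n)) (c' (Fin.last n)) = α := by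
        rcases h13 with h | h <;> rcases h23 with h' | h'
        · exact absurd (h'.trans h.symm) hne
        · rw [h, h', one_mul]
        · rw [h, h', mul_one]
        · exact absurd (h'.trans h.symm) hne
      obtain ⟨r, hr⟩ := hsq
      apply hα
      refine ⟨p * p' * r, ?_⟩
      rw [← hprod, e1, e2]
      linear_combination (p ^ 2 * p' ^ 2) * hr
    refine ⟨c.equiv c' (Equiv.refl _), fun x y => ?_⟩
    apply isometry_of_bases B B' c c' h11 h21
    intro i
    by_cases hi : i = Fin.last _
    · subst hi; exact hd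
    · rw [h12 i hi, h22 i hi]

/-- If `(-1)^k disc` is a square, there is a totally isotropic subspace of half the dimension. -/
theorem exists_isotropic_of_isSquare (h2 : (2 : F) ≠ 0) [FiniteDimensional F V]
    (B : LinearMap.BilinForm F V) (hS : B.IsSymm) (hB : B.Nondegenerate)
    {ι : Type*} [Fintype ι] [DecidableEq ι] (b : Basis ι F V) (k : ℕ)
    (hV : finrank F V = 2 * k)
    (hsq : IsSquare ((-1 : F) ^ k * (LinearMap.BilinForm.toMatrix b B).det)) :
    ∃ X : Submodule F V, finrank F X = k ∧ ∀ x ∈ X, ∀ y ∈ X, B x y = 0 := by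
  classical
  let M : Matrix (Fin k ⊕ Fin k) (Fin k ⊕ Fin k) F :=
    fromBlocks (0 : Matrix (Fin k) (Fin k) F) (1 : Matrix (Fin k) (Fin k) F)
      (1 : Matrix (Fin k) (Fin k) F) (0 : Matrix (Fin k) (Fin k) F)
  let B' : LinearMap.BilinForm F (Fin k ⊕ Fin k → F) := Matrix.toBilin' M
  have hM : M.det = (-1) ^ k := by
    rw [Lib_helper4_SumSq.det_antidiag, Fintype.card_fin]
  have hGram : LinearMap.BilinForm.toMatrix (Pi.basisFun F (Fin k ⊕ Fin k)) B' = M := by
    rw [LinearMap.BilinForm.toMatrix_basisFun, LinearMap.BilinForm.toMatrix'_toBilin']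
  have hS' : B'.IsSymm := by
    rw [Matrix.isSymm_toBilin'_iff_isSymm]
    simp only [M, Matrix.IsSymm, fromBlocks_transpose, transpose_zero, transpose_one]
  have hB' : B'.Nondegenerate := by
    rw [LinearMap.BilinForm.nondegenerate_iff_det_ne_zero (Pi.basisFun F _)]
    rw [hGram, hM]; exact pow_ne_zero _ (neg_ne_zero.2 one_ne_zero)
  have hcard : Fintype.card ι = Fintype.card (Fin k ⊕ Fin k) := by
    rw [← finrank_eq_card_basis b, hV]; simp; ring
  obtain ⟨g, hg⟩ := exists_isometry h2 B B' hS hS' hB hB' b (Pi.basisFun F _) hcard (by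
    rw [hGram, hM, mul_comm]; exact hsq)
  let φ : (Fin k → F) →ₗ[F] (Fin k ⊕ Fin k → F) :=
    { toFun := fun x => Sum.elim x 0
      map_add' := by
        intro x y; ext s
        rcases s with s | s <;> simp
      map_smul' := by
        intro a x; ext s
        rcases s with s | s <;> simp }
  have hφ : Function.Injective φ := by
    intro x y hxy
    ext j
    exact congrFun hxy (Sum.inl j)
  have hφ0 : ∀ x y, B' (φ x) (φ y) = 0 := by
    intro x y
    simp [B', M, φ, Matrix.toBilin'_apply', fromBlocks_mulVec]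
  refine ⟨(LinearMap.range φ).map g.symm.toLinearMap, ?_, ?_⟩
  · rw [LinearEquiv.finrank_map_eq, LinearMap.finrank_range_of_inj hφ, Module.finrank_fin_fun]
  · rintro _ ⟨_, ⟨x, rfl⟩, rfl⟩ _ ⟨_, ⟨y, rfl⟩, rfl⟩
    have := hg (g.symm (φ x)) (g.symm (φ y))
    simp only [LinearEquiv.apply_symm_apply] at this
    simp only [LinearEquiv.coe_coe]
    rw [← this, hφ0]

end Finite

section Tensor
variable {F U W : Type*} [Field F] [AddCommGroup U] [Module F U] [AddCommGroup W] [Module F W]

lemma toMatrix_tmul {ι κ : Type*} [Fintype ι] [DecidableEq ι] [Fintype κ] [DecidableEq κ]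
    (B₁ : LinearMap.BilinForm F U) (B₂ : LinearMap.BilinForm F W) (b₁ : Basis ι F U)
    (b₂ : Basis κ F W) :
    LinearMap.BilinForm.toMatrix (b₁.tensorProduct b₂) (B₁.tmul B₂)
      = Matrix.kroneckerMap (· * ·) (LinearMap.BilinForm.toMatrix b₁ B₁)
        (LinearMap.BilinForm.toMatrix b₂ B₂) := by
  ext ⟨i, j⟩ ⟨i', j'⟩
  simp [LinearMap.BilinForm.toMatrix_apply, Basis.tensorProduct_apply,
    LinearMap.BilinForm.tensorDistrib_tmul, mul_comm]

lemma det_toMatrix_tmul {ι κ : Type*} [Fintype ι] [DecidableEq ι] [Fintype κ] [DecidableEq κ]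
    (B₁ : LinearMap.BilinForm F U) (B₂ : LinearMap.BilinForm F W) (b₁ : Basis ι F U)
    (b₂ : Basis κ F W) :
    (LinearMap.BilinForm.toMatrix (b₁.tensorProduct b₂) (B₁.tmul B₂)).det
      = (LinearMap.BilinForm.toMatrix b₁ B₁).det ^ Fintype.card κ
        * (LinearMap.BilinForm.toMatrix b₂ B₂).det ^ Fintype.card ι := by
  rw [toMatrix_tmul]
  exact Matrix.det_kronecker _ _

end Tensor

end Cfsg.Agent.Lib_helper4_SymDisc
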