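import Mathlib
import Cfsg.Agent.Lib_helper4_AltBasis

set_option autoImplicit false

/-! Tensor products of bilinear forms. -/

namespace Cfsg.Agent.Lib_helper4_TensorForm
open Module TensorProduct

variable {F U W : Type*} [Field F] [AddCommGroup U] [Module F U] [AddCommGroup W] [Module F W]

theorem separatingLeft_tmul [FiniteDimensional F U] [FiniteDimensional F W]
    (B₁ : LinearMap.BilinForm F U) (B₂ : LinearMap.BilinForm F W)
    (h₁ : B₁.Nondegenerate) (h₂ : B₂.Nondegenerate) : (B₁.tmul B₂).SeparatingLeft := by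
  rw [LinearMap.separatingLeft_iff_ker_eq_bot]
  have key : (B₁.tmul B₂ : (U ⊗[F] W) →ₗ[F] (U ⊗[F] W) →ₗ[F] F)
      = (TensorProduct.dualDistrib F U W) ∘ₗ (TensorProduct.map B₁ B₂) := by
    apply TensorProduct.ext'
    intro x₁ x₂
    apply TensorProduct.ext'
    intro y₁ y₂
    simp [mul_comm]
  rw [key, LinearMap.ker_eq_bot]
  have hi₁ : Function.Injective B₁ :=
    LinearMap.ker_eq_bot.1 (LinearMap.separatingLeft_iff_ker_eq_bot.1 h₁.1)
  have hi₂ : Function.Injective B₂ :=
    LinearMap.ker_eq_bot.1 (LinearMap.separatingLeft_iff_ker_eq_bot.1 h₂.1)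
  have hmap := TensorProduct.map_injective_of_flat_flat B₁ B₂ hi₁ hi₂
  have hdd : Function.Injective (TensorProduct.dualDistrib F U W) :=
    (TensorProduct.dualDistribEquiv F U W).injective
  exact hdd.comp hmap

theorem isSymm_tmul_of_isAlt (B₁ : LinearMap.BilinForm F U) (B₂ : LinearMap.BilinForm F W)
    (hA₁ : B₁.IsAlt) (hA₂ : B₂.IsAlt) : (B₁.tmul B₂).IsSymm := by
  rw [LinearMap.isSymm_iff_eq_flip]
  apply TensorProduct.ext'
  intro x₁ x₂
  apply TensorProduct.ext'
  intro y₁ y₂
  simp only [LinearMap.BilinForm.tensorDistrib_tmul, LinearMap.flip_apply, smul_eq_mul]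
  rw [← hA₁.neg_eq y₁ x₁, ← hA₂.neg_eq y₂ x₂]
  ring

theorem exists_lagrangian [FiniteDimensional F U] (B : LinearMap.BilinForm F U)
    (hB : B.Nondegenerate) (hA : B.IsAlt) (k : ℕ) (hk : finrank F U = 2 * k) :
    ∃ L : Submodule F U, finrank F L = k ∧ ∀ x ∈ L, ∀ y ∈ L, B x y = 0 := by
  obtain ⟨m, r, b, h1, h2, h3, h4⟩ := Cfsg.Agent.Lib_helper4_AltBasis.exists_basis B hA
  have hr : r = 0 := by
    by_contra hne
    have hpos : 0 < r := Nat.pos_of_ne_zero hne
    exact b.ne_zero (Sum.inr ⟨0, hpos⟩) (hB.1 _ (h4 ⟨0, hpos⟩))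
  have hcard : finrank F U = 2 * m + r := by
    rw [finrank_eq_card_basis b]
    simp only [Fintype.card_sum, Fintype.card_fin]
    ring
  have hm : m = k := by omega
  subst hm
  let e : Fin m → U := fun i => b (Sum.inl (Sum.inl i))
  have hli : LinearIndependent F e :=
    b.linearIndependent.comp _ (fun i j h => by simpa using h)
  refine ⟨Submodule.span F (Set.range e), by rw [finrank_span_eq_card hli]; simp, ?_⟩
  intro x hx y hy
  refine Submodule.span_induction ?_ ?_ ?_ ?_ hx
  · rintro _ ⟨i, rfl⟩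
    refine Submodule.span_induction ?_ ?_ ?_ ?_ hy
    · rintro _ ⟨j, rfl⟩; exact h2 i j
    · simp
    · intro a c _ _ ha hc; rw [map_add, ha, hc, add_zero]
    · intro t a _ ha; rw [map_smul, ha, smul_zero]
  · simp
  · intro a c _ _ ha hc; rw [map_add, LinearMap.add_apply, ha, hc, add_zero]
  · intro t a _ ha; rw [map_smul, LinearMap.smul_apply, ha, smul_zero]

theorem exists_isotropic_tmul [FiniteDimensional F U] [FiniteDimensional F W]
    (B₁ : LinearMap.BilinForm F U) (B₂ : LinearMap.BilinForm F W) (L : Submodule F U)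
    (hL : ∀ x ∈ L, ∀ y ∈ L, B₁ x y = 0) :
    ∃ X : Submodule F (U ⊗[F] W), finrank F X = finrank F L * finrank F W ∧
      ∀ x ∈ X, ∀ y ∈ X, (B₁.tmul B₂) x y = 0 := by
  let f : L ⊗[F] W →ₗ[F] U ⊗[F] W := TensorProduct.map L.subtype LinearMap.id
  have hf : Function.Injective f :=
    TensorProduct.map_injective_of_flat_flat _ _ L.injective_subtype Function.injective_id
  refine ⟨LinearMap.range f, ?_, ?_⟩
  · rw [LinearMap.finrank_range_of_inj hf, Module.finrank_tensorProduct]
  · rintro _ ⟨x, rfl⟩ _ ⟨y, rfl⟩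
    induction x using TensorProduct.induction_on with
    | zero => simp
    | tmul a w =>
      induction y using TensorProduct.induction_on with
      | zero => simp
      | tmul a' w' => simp [f, hL a a.2 a' a'.2]
      | add y₁ y₂ h₁ h₂ => rw [map_add, map_add, h₁, h₂, add_zero]
    | add x₁ x₂ h₁ h₂ => rw [map_add, map_add, LinearMap.add_apply, h₁, h₂, add_zero]

end Cfsg.Agent.Lib_helper4_TensorForm
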