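import Mathlib
import Cfsg.Agent.Lib_helper4_WittQuad
import Cfsg.Agent.Lib_helper4_TwoMax
import Cfsg.Agent.Lib_helper4_OPlus

set_option autoImplicit false

/-! The two families of maximal totally singular subspaces of a hyperbolic quadric. -/

namespace Cfsg.Agent.Lib_helper4_TwoFam
open Module Cfsg.Agent.Lib_helper4_WittQuad Cfsg.Agent.Lib_helper4_TwoMax

section General
variable {F V : Type*} [Field F] [AddCommGroup V] [Module F V] [FiniteDimensional F V]

/-- Totally singular of dimension `m`. -/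
def MaxTS (Q : QuadraticForm F V) (m : ℕ) (X : Submodule F V) : Prop :=
  finrank F X = m ∧ ∀ x ∈ X, Q x = 0

omit [FiniteDimensional F V] in
lemma le_orth (Q : QuadraticForm F V) {X Y : Submodule F V} (hY : ∀ y ∈ Y, Q y = 0)
    (hXY : X ≤ Y) : Y ≤ (pB Q).orthogonal X := by
  intro y hy
  rw [LinearMap.BilinForm.mem_orthogonal_iff]
  intro x hx
  exact polar_zero_of_sing Q Y hY (hXY hx) hy

lemma ts_finrank_le (Q : QuadraticForm F V) (hQ : (pB Q).Nondegenerate) (m : ℕ)
    (hV : finrank F V = 2 * m) (X : Submodule F V) (hX : ∀ x ∈ X, Q x = 0) :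
    finrank F X ≤ m := by
  have h1 : X ≤ (pB Q).orthogonal X := le_orth Q hX le_rfl
  have h2 := LinearMap.BilinForm.finrank_orthogonal hQ X
  have h3 := Submodule.finrank_mono h1
  omega

lemma orth_eq_self (Q : QuadraticForm F V) (hQ : (pB Q).Nondegenerate) (m : ℕ)
    (hV : finrank F V = 2 * m) (X : Submodule F V) (hX : MaxTS Q m X) :
    (pB Q).orthogonal X = X := by
  symm
  apply Submodule.eq_of_le_of_finrank_le (le_orth Q hX.2 le_rfl)
  rw [LinearMap.BilinForm.finrank_orthogonal hQ, hV, hX.1]; omega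

lemma eq_or_eq (Q : QuadraticForm F V) (hQ : (pB Q).Nondegenerate) (m : ℕ)
    (hV : finrank F V = 2 * m) (H : Submodule F V) (hHm : finrank F H + 1 = m)
    (hH : ∀ h ∈ H, Q h = 0) (U U' : Submodule F V) (hU : MaxTS Q m U) (hU' : MaxTS Q m U')
    (hHU : H ≤ U) (hHU' : H ≤ U') (hne : U ≠ U') (Y : Submodule F V) (hY : MaxTS Q m Y)
    (hHY : H ≤ Y) : Y = U ∨ Y = U' := by
  have hc := card_two Q hQ m hV H hHm hH U hU.1 hU.2 hHU
  rw [Nat.card_eq_two_iff] at hc
  obtain ⟨x, y, hxy, huniv⟩ := hc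
  have mem : ∀ z : {W : Submodule F V // finrank F W = m ∧ (∀ w ∈ W, Q w = 0) ∧ H ≤ W},
      z = x ∨ z = y := by
    intro z
    have : z ∈ ({x, y} : Set _) := by rw [huniv]; trivial
    simpa using this
  have hu := mem ⟨U, hU.1, hU.2, hHU⟩
  have hu' := mem ⟨U', hU'.1, hU'.2, hHU'⟩
  have hy := mem ⟨Y, hY.1, hY.2, hHY⟩
  have hne' : (⟨U, hU.1, hU.2, hHU⟩ : {W : Submodule F V // finrank F W = m ∧
      (∀ w ∈ W, Q w = 0) ∧ H ≤ W}) ≠ ⟨U', hU'.1, hU'.2, hHU'⟩ :=
    fun h => hne (congrArg Subtype.val h)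
  rcases hu with hu | hu <;> rcases hu' with hu' | hu' <;> rcases hy with hy | hy
  · exact absurd (hu.trans hu'.symm) hne'
  · exact absurd (hu.trans hu'.symm) hne'
  · exact Or.inl (congrArg Subtype.val (hy.trans hu.symm))
  · exact Or.inr (congrArg Subtype.val (hy.trans hu'.symm))
  · exact Or.inr (congrArg Subtype.val (hy.trans hu'.symm))
  · exact Or.inl (congrArg Subtype.val (hy.trans hu.symm))
  · exact absurd (hu.trans hu'.symm) hne'
  · exact absurd (hu.trans hu'.symm) hne'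

lemma inter_dim (Q : QuadraticForm F V) (hQ : (pB Q).Nondegenerate) (m : ℕ)
    (hV : finrank F V = 2 * m) (U U' X : Submodule F V) (hU : MaxTS Q m U)
    (hU' : MaxTS Q m U') (hX : MaxTS Q m X) (hH : finrank F ↥(U ⊓ U') + 1 = m) :
    finrank F ↥(X ⊓ U) = finrank F ↥(X ⊓ U') + 1 ∨
      finrank F ↥(X ⊓ U') = finrank F ↥(X ⊓ U) + 1 := by
  have hne : U ≠ U' := by
    intro h
    rw [← h, inf_idem, hU.1] at hH; omega
  have hHs : ∀ h ∈ U ⊓ U', Q h = 0 := fun h hh => hU.2 h hh.1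
  have e1 : X ⊓ (pB Q).orthogonal (U ⊓ U') = (pB Q).orthogonal (X ⊔ (U ⊓ U')) := by
    ext v
    constructor
    · rintro ⟨hvX, hvH⟩
      rw [LinearMap.BilinForm.mem_orthogonal_iff]
      intro n hn
      obtain ⟨x, hx, h, hh, rfl⟩ := Submodule.mem_sup.1 hn
      rw [map_add, LinearMap.add_apply, polar_zero_of_sing Q X hX.2 hx hvX, hvH h hh, add_zero]
    · intro hv
      refine ⟨?_, fun h hh => hv h (Submodule.mem_sup_right hh)⟩
      rw [← orth_eq_self Q hQ m hV X hX]
      intro x hx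
      exact hv x (Submodule.mem_sup_left hx)
  have e2 : finrank F ↥(X ⊓ (pB Q).orthogonal (U ⊓ U')) = finrank F ↥(X ⊓ (U ⊓ U')) + 1 := by
    rw [e1, LinearMap.BilinForm.finrank_orthogonal hQ, hV]
    have h1 := Submodule.finrank_sup_add_finrank_inf_eq X (U ⊓ U')
    rw [hX.1] at h1
    have h3 : finrank F ↥(X ⊔ (U ⊓ U')) ≤ 2 * m := by rw [← hV]; exact Submodule.finrank_le _
    omega
  have hYs : ∀ y ∈ (U ⊓ U') ⊔ (X ⊓ (pB Q).orthogonal (U ⊓ U')), Q y = 0 := by
    intro y hy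
    obtain ⟨h, hh, x, hx, rfl⟩ := Submodule.mem_sup.1 hy
    rw [Q_add, hHs h hh, hX.2 x hx.1, hx.2 h hh]; ring
  have hHY : U ⊓ U' ≤ (U ⊓ U') ⊔ (X ⊓ (pB Q).orthogonal (U ⊓ U')) := le_sup_left
  have hYm : finrank F ↥((U ⊓ U') ⊔ (X ⊓ (pB Q).orthogonal (U ⊓ U'))) = m := by
    have hle := ts_finrank_le Q hQ m hV _ hYs
    have hlt : U ⊓ U' < (U ⊓ U') ⊔ (X ⊓ (pB Q).orthogonal (U ⊓ U')) := by
      refine lt_of_le_of_ne hHY ?_
      intro h
      have h1 : X ⊓ (pB Q).orthogonal (U ⊓ U') ≤ X ⊓ (U ⊓ U') := fun v hv =>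
        ⟨hv.1, by rw [h]; exact Submodule.mem_sup_right hv⟩
      have := Submodule.finrank_mono h1
      omega
    have := Submodule.finrank_lt_finrank_of_lt hlt
    omega
  have hYU := eq_or_eq Q hQ m hV (U ⊓ U') hH hHs U U' hU hU' inf_le_left inf_le_right hne _
    ⟨hYm, hYs⟩ hHY
  have key : ∀ (A A' : Submodule F V), MaxTS Q m A → MaxTS Q m A' → A ⊓ A' = U ⊓ U' →
      (U ⊓ U') ⊔ (X ⊓ (pB Q).orthogonal (U ⊓ U')) = A →
      finrank F ↥(X ⊓ A) = finrank F ↥(X ⊓ A') + 1 := by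
    intro A A' hA hA' hAA' hYA
    have hHA : U ⊓ U' ≤ A := by rw [← hAA']; exact inf_le_left
    have hHA' : U ⊓ U' ≤ A' := by rw [← hAA']; exact inf_le_right
    have h1 : X ⊓ A = X ⊓ (pB Q).orthogonal (U ⊓ U') := by
      apply le_antisymm
      · exact inf_le_inf_left X (le_orth Q hA.2 hHA)
      · refine le_inf inf_le_left ?_
        rw [← hYA]; exact le_sup_right
    have h2 : X ⊓ A' = X ⊓ (U ⊓ U') := by
      apply le_antisymm
      · intro v hv
        refine ⟨hv.1, ?_⟩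
        rw [← hAA']
        refine ⟨?_, hv.2⟩
        have hv' : v ∈ X ⊓ (pB Q).orthogonal (U ⊓ U') := ⟨hv.1, le_orth Q hA'.2 hHA' hv.2⟩
        rw [← h1] at hv'
        exact hv'.2
      · exact inf_le_inf_left X hHA'
    rw [h1, h2, e2]
  rcases hYU with h | h
  · left; exact key U U' hU hU' rfl h
  · right; exact key U' U hU' hU (inf_comm _ _) h

theorem parity (Q : QuadraticForm F V) (hQ : (pB Q).Nondegenerate) (m : ℕ)
    (hV : finrank F V = 2 * m) :
    ∀ (n : ℕ) (U W X : Submodule F V), MaxTS Q m U → MaxTS Q m W → MaxTS Q m X →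
      m - finrank F ↥(U ⊓ W) = n →
      Even ((m - finrank F ↥(U ⊓ W)) + (m - finrank F ↥(W ⊓ X)) + (m - finrank F ↥(U ⊓ X))) := by
  intro n
  induction n with
  | zero =>
    intro U W X hU hW hX hn
    have h1 : finrank F ↥(U ⊓ W) ≤ m := by
      rw [← hU.1]; exact Submodule.finrank_mono inf_le_left
    have hUW : U ⊓ W = U := Submodule.eq_of_le_of_finrank_le inf_le_left (by rw [hU.1]; omega)
    have hUW' : U ⊓ W = W := Submodule.eq_of_le_of_finrank_le inf_le_right (by rw [hW.1]; omega)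
    have hUeqW : U = W := hUW.symm.trans hUW'
    subst hUeqW
    rw [inf_idem, hU.1]
    exact ⟨m - finrank F ↥(U ⊓ X), by omega⟩
  | succ n ih =>
    intro U W X hU hW hX hn
    have hb0 : finrank F ↥(U ⊓ W) ≤ m := by
      rw [← hU.1]; exact Submodule.finrank_mono inf_le_left
    obtain ⟨w, hwW, hwU⟩ : ∃ w ∈ W, w ∉ U := by
      by_contra h
      push Not at h
      have hWU : W ≤ U := h
      have h2 : U ⊓ W = W := inf_eq_right.2 hWU
      rw [h2, hW.1] at hn; omega
    obtain ⟨u₀, hu₀U, hu₀⟩ : ∃ u₀ ∈ U, pB Q w u₀ ≠ 0 := by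
      by_contra h
      push Not at h
      apply hwU
      rw [← orth_eq_self Q hQ m hV U hU]
      intro u hu
      rw [B_comm]; exact h u hu
    have hHmem : ∀ v, v ∈ U ⊓ LinearMap.ker (pB Q w) ↔ v ∈ U ∧ pB Q w v = 0 := fun v => by
      rw [Submodule.mem_inf, LinearMap.mem_ker]
    have hHU : U ⊓ LinearMap.ker (pB Q w) ≤ U := inf_le_left
    have hu₀H : u₀ ∉ U ⊓ LinearMap.ker (pB Q w) := fun h => hu₀ ((hHmem _).1 h).2
    have hHsup : (U ⊓ LinearMap.ker (pB Q w)) ⊔ Submodule.span F {u₀} = U := by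
      apply le_antisymm
      · exact sup_le hHU (by rw [Submodule.span_singleton_le_iff_mem]; exact hu₀U)
      · intro u hu
        have e : u = (u - (pB Q w u / pB Q w u₀) • u₀) + (pB Q w u / pB Q w u₀) • u₀ := by abel
        rw [e]
        refine Submodule.add_mem_sup ?_
          (Submodule.smul_mem _ _ (Submodule.mem_span_singleton_self _))
        rw [hHmem]
        refine ⟨U.sub_mem hu (U.smul_mem _ hu₀U), ?_⟩
        rw [map_sub, map_smul, smul_eq_mul]; field_simp; ring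
    have hHm : finrank F ↥(U ⊓ LinearMap.ker (pB Q w)) + 1 = m := by
      have := finrank_sup_span_singleton _ u₀ hu₀H
      rw [hHsup, hU.1] at this; omega
    have hwH : w ∉ U ⊓ LinearMap.ker (pB Q w) := fun h => hwU (hHU h)
    have hU' : MaxTS Q m ((U ⊓ LinearMap.ker (pB Q w)) ⊔ Submodule.span F {w}) := by
      constructor
      · rw [finrank_sup_span_singleton _ w hwH]; exact hHm
      · intro y hy
        obtain ⟨h, hh, z, hz, rfl⟩ := Submodule.mem_sup.1 hy
        obtain ⟨a, rfl⟩ := Submodule.mem_span_singleton.1 hz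
        rw [Q_add_smul, hU.2 h (hHU hh), hW.2 w hwW, B_comm, ((hHmem h).1 hh).2]; ring
    have hwU' : w ∈ (U ⊓ LinearMap.ker (pB Q w)) ⊔ Submodule.span F {w} :=
      Submodule.mem_sup_right (Submodule.mem_span_singleton_self w)
    have hHU' : U ⊓ LinearMap.ker (pB Q w) ≤
        (U ⊓ LinearMap.ker (pB Q w)) ⊔ Submodule.span F {w} := le_sup_left
    have hUU' : U ⊓ ((U ⊓ LinearMap.ker (pB Q w)) ⊔ Submodule.span F {w})
        = U ⊓ LinearMap.ker (pB Q w) := by
      symm
      apply Submodule.eq_of_le_of_finrank_le (le_inf hHU hHU')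
      have hlt : U ⊓ ((U ⊓ LinearMap.ker (pB Q w)) ⊔ Submodule.span F {w})
          < (U ⊓ LinearMap.ker (pB Q w)) ⊔ Submodule.span F {w} := by
        refine lt_of_le_of_ne inf_le_right ?_
        intro h
        apply hwU
        have : w ∈ U ⊓ ((U ⊓ LinearMap.ker (pB Q w)) ⊔ Submodule.span F {w}) := by
          rw [h]; exact hwU'
        exact this.1
      have := Submodule.finrank_lt_finrank_of_lt hlt
      rw [hU'.1] at this; omega
    generalize hU'def : (U ⊓ LinearMap.ker (pB Q w)) ⊔ Submodule.span F {w} = U' at *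
    have hA1 := inter_dim Q hQ m hV U U' W hU hU' hW (by rw [hUU']; exact hHm)
    have hlt : finrank F ↥(W ⊓ U) < finrank F ↥(W ⊓ U') := by
      apply Submodule.finrank_lt_finrank_of_lt
      have hle : W ⊓ U ≤ W ⊓ U' := by
        intro v hv
        refine ⟨hv.1, hHU' ((hHmem v).2 ⟨hv.2, ?_⟩)⟩
        exact polar_zero_of_sing Q W hW.2 hwW hv.1
      refine lt_of_le_of_ne hle ?_
      intro h
      apply hwU
      have : w ∈ W ⊓ U := by rw [h]; exact ⟨hwW, hwU'⟩
      exact this.2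
    have hA1' : finrank F ↥(W ⊓ U') = finrank F ↥(W ⊓ U) + 1 := by
      rcases hA1 with h | h <;> omega
    have hA2 := inter_dim Q hQ m hV U U' X hU hU' hX (by rw [hUU']; exact hHm)
    have c1 : U ⊓ W = W ⊓ U := inf_comm _ _
    have c2 : U' ⊓ W = W ⊓ U' := inf_comm _ _
    have c3 : U ⊓ X = X ⊓ U := inf_comm _ _
    have c4 : U' ⊓ X = X ⊓ U' := inf_comm _ _
    have hIH := ih U' W X hU' hW hX (by rw [c2, hA1']; rw [c1] at hn; omega)
    rw [c2, c4] at hIH
    rw [c1, c3]
    rw [c1] at hn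
    have b1 : finrank F ↥(W ⊓ U') ≤ m := by
      rw [← hW.1]; exact Submodule.finrank_mono inf_le_left
    have b2 : finrank F ↥(W ⊓ X) ≤ m := by
      rw [← hW.1]; exact Submodule.finrank_mono inf_le_left
    have b3 : finrank F ↥(X ⊓ U) ≤ m := by
      rw [← hX.1]; exact Submodule.finrank_mono inf_le_left
    have b4 : finrank F ↥(X ⊓ U') ≤ m := by
      rw [← hX.1]; exact Submodule.finrank_mono inf_le_left
    rcases hA2 with h | h
    · rw [Nat.even_iff] at hIH ⊢; omega
    · rw [Nat.even_iff] at hIH ⊢; omega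

/-- Two maximal totally singular subspaces meeting in codimension one, given a totally singular
subspace of dimension `m - 1` inside one of dimension `m`. -/
theorem exists_adjacent (Q : QuadraticForm F V) (hQ : (pB Q).Nondegenerate) (m : ℕ)
    (hV : finrank F V = 2 * m) (H W₁ : Submodule F V) (hHm : finrank F H + 1 = m)
    (hW₁ : MaxTS Q m W₁) (hHW₁ : H ≤ W₁) :
    ∃ U W : Submodule F V, MaxTS Q m U ∧ MaxTS Q m W ∧ finrank F ↥(U ⊓ W) + 1 = m := by
  have hH : ∀ h ∈ H, Q h = 0 := fun h hh => hW₁.2 h (hHW₁ hh)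
  have hc := card_two Q hQ m hV H hHm hH W₁ hW₁.1 hW₁.2 hHW₁
  rw [Nat.card_eq_two_iff] at hc
  obtain ⟨⟨U, hUm, hUs, hHU⟩, ⟨W, hWm, hWs, hHW⟩, hne, -⟩ := hc
  refine ⟨U, W, ⟨hUm, hUs⟩, ⟨hWm, hWs⟩, ?_⟩
  have h1 : finrank F H ≤ finrank F ↥(U ⊓ W) := Submodule.finrank_mono (le_inf hHU hHW)
  have hlt : U ⊓ W < U := by
    refine lt_of_le_of_ne inf_le_left ?_
    intro h
    apply hne
    apply Subtype.ext
    show U = W
    have hUW : U ≤ W := inf_eq_left.1 h
    exact Submodule.eq_of_le_of_finrank_le hUW (le_of_eq (hWm.trans hUm.symm))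
  have := Submodule.finrank_lt_finrank_of_lt hlt
  omega

end General

section Plus
variable {F : Type*} [Field F] (m : ℕ)

lemma QP_nondeg : (pB (Cfsg.Agent.Lib_helper4_OPlus.QP m F)).Nondegenerate := by
  have hd := Cfsg.Agent.Lib_helper4_OPlus.hypData (F := F) (m := m)
  have hL : (pB (Cfsg.Agent.Lib_helper4_OPlus.QP m F)).SeparatingLeft := by
    intro x hx
    funext s
    rcases s with i | i
    · have := hx (Pi.single (Sum.inr i) 1)
      rw [B_comm, QuadraticMap.polarBilin_apply_apply, hd.polar_b] at this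
      exact this
    · have := hx (Pi.single (Sum.inl i) 1)
      rw [B_comm, QuadraticMap.polarBilin_apply_apply, hd.polar_a] at this
      exact this
  refine ⟨hL, ?_⟩
  intro y hy
  apply hL
  intro x
  rw [B_comm]; exact hy x

lemma finrank_plus : finrank F (Fin m ⊕ Fin m → F) = 2 * m := by
  simp [Module.finrank_fintype_fun_eq_card]; ring

/-- The standard maximal totally singular subspace and a hyperplane of it. -/
lemma exists_std (hm : 1 ≤ m) : ∃ H W₀ : Submodule F (Fin m ⊕ Fin m → F),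
    finrank F H + 1 = m ∧ MaxTS (Cfsg.Agent.Lib_helper4_OPlus.QP m F) m W₀ ∧ H ≤ W₀ := by
  classical
  let φ : (Fin m → F) →ₗ[F] (Fin m ⊕ Fin m → F) :=
    { toFun := fun x => Sum.elim x 0
      map_add' := by
        intro x y; ext s
        rcases s with s | s <;> simp
      map_smul' := by
        intro a x; ext s
        rcases s with s | s <;> simp }
  have hφ : Function.Injective φ := by
    intro x y hxy
    ext j
    exact congrFun hxy (Sum.inl j)
  have hφQ : ∀ x, Cfsg.Agent.Lib_helper4_OPlus.QP m F (φ x) = 0 := by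
    intro x; rw [Cfsg.Agent.Lib_helper4_OPlus.QP_apply]; simp [Cfsg.quadFormPlus, φ]
  have hle : finrank F (Fin (m - 1) → F) ≤ finrank F (Fin m → F) := by
    rw [Module.finrank_fin_fun, Module.finrank_fin_fun]; omega
  obtain ⟨j, hj⟩ := (finrank_le_iff_exists_linearMap (R := F) (M := (Fin (m - 1) → F))
    (M' := (Fin m → F))).1 hle
  have hinj : Function.Injective (φ ∘ₗ j) := by
    rw [LinearMap.coe_comp]; exact hφ.comp hj
  refine ⟨LinearMap.range (φ ∘ₗ j), LinearMap.range φ, ?_, ⟨?_, ?_⟩, ?_⟩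
  · rw [LinearMap.finrank_range_of_inj hinj, Module.finrank_fin_fun]; omega
  · rw [LinearMap.finrank_range_of_inj hφ, Module.finrank_fin_fun]
  · rintro _ ⟨x, rfl⟩; exact hφQ x
  · rintro _ ⟨x, rfl⟩; exact ⟨j x, rfl⟩

end Plus

end Cfsg.Agent.Lib_helper4_TwoFam
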