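import Mathlib

set_option autoImplicit false

/-! Witt's extension lemma for nondegenerate alternating forms. -/

namespace Cfsg.Agent.Lib_helper4_WittAlt
open Module

variable {F V : Type*} [Field F] [AddCommGroup V] [Module F V] [FiniteDimensional F V]

/-- `Φ` restricted to `X` is an injective isometry. -/
def Good (B : LinearMap.BilinForm F V) (X : Submodule F V) (Φ : V →ₗ[F] V) : Prop :=
  (∀ x ∈ X, ∀ x' ∈ X, B (Φ x) (Φ x') = B x x') ∧ (∀ x ∈ X, Φ x = 0 → x = 0)

lemma finrank_map_of_good (B : LinearMap.BilinForm F V) (X : Submodule F V) (Φ : V →ₗ[F] V)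
    (hG : Good B X Φ) : finrank F (X.map Φ) = finrank F X := by
  have hinj : Function.Injective (Φ.domRestrict X) := by
    rw [← LinearMap.ker_eq_bot, LinearMap.ker_eq_bot']
    intro x hx
    exact Subtype.ext (hG.2 x x.2 hx)
  have := LinearMap.finrank_range_of_inj hinj
  rw [LinearMap.range_domRestrict] at this
  exact this

lemma exists_w (B : LinearMap.BilinForm F V) (hB : B.Nondegenerate) (hA : B.IsAlt)
    (X : Submodule F V) (Φ : V →ₗ[F] V) (hG : Good B X Φ) (v : V) (hv : v ∉ X) :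
    ∃ w, (∀ x ∈ X, B w (Φ x) = B v x) ∧ w ∉ X.map Φ := by
  have hiso := hG.1
  have hinj := hG.2
  have hker : LinearMap.ker (Φ.domRestrict X) = ⊥ := by
    rw [LinearMap.ker_eq_bot']
    intro x hx
    exact Subtype.ext (hinj x x.2 hx)
  obtain ⟨g, hg⟩ := LinearMap.exists_leftInverse_of_injective (Φ.domRestrict X) hker
  let μ : V →ₗ[F] F := (B v) ∘ₗ X.subtype ∘ₗ g
  let w₀ : V := (B.toDual hB).symm μ
  have hw₀ : ∀ y, B w₀ y = μ y := fun y =>
    LinearMap.BilinForm.apply_toDual_symm_apply (hB := hB) μ y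
  have h1 : ∀ x ∈ X, B w₀ (Φ x) = B v x := by
    intro x hx
    rw [hw₀]
    have h2 : g (Φ x) = ⟨x, hx⟩ := by
      have := congrArg (fun f : X →ₗ[F] X => f ⟨x, hx⟩) hg
      simpa using this
    simp [μ, h2]
  by_cases hw : w₀ ∈ X.map Φ
  · obtain ⟨x₀, hx₀, hx₀'⟩ := hw
    have hz : ∃ z, (∀ x ∈ X, B z (Φ x) = 0) ∧ z ∉ X.map Φ := by
      by_contra hcon
      push Not at hcon
      have hMp : B.orthogonal (X.map Φ) ≤ (X ⊓ B.orthogonal X).map Φ := by
        intro z hz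
        have hzM : z ∈ X.map Φ := by
          apply hcon
          intro x hx
          rw [← hA.neg_eq, hz (Φ x) ⟨x, hx, rfl⟩, neg_zero]
        obtain ⟨x, hx, rfl⟩ := hzM
        refine ⟨x, ⟨hx, ?_⟩, rfl⟩
        intro x' hx'
        rw [← hiso x' hx' x hx]
        exact hz (Φ x') ⟨x', hx', rfl⟩
      have hf1 : finrank F (B.orthogonal (X.map Φ)) = finrank F V - finrank F X := by
        rw [LinearMap.BilinForm.finrank_orthogonal hB, finrank_map_of_good B X Φ hG]
      have hf2 : finrank F (B.orthogonal X) = finrank F V - finrank F X :=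
        LinearMap.BilinForm.finrank_orthogonal hB X
      have hf3 : finrank F (B.orthogonal (X.map Φ)) ≤ finrank F ↥(X ⊓ B.orthogonal X) :=
        (Submodule.finrank_mono hMp).trans (Submodule.finrank_map_le _ _)
      have hEq : X ⊓ B.orthogonal X = B.orthogonal X :=
        Submodule.eq_of_le_of_finrank_le inf_le_right (by omega)
      have hu : v - x₀ ∈ B.orthogonal X := by
        intro x hx
        change B x (v - x₀) = 0
        rw [map_sub, ← hiso x hx x₀ hx₀, hx₀', ← hA.neg_eq w₀ (Φ x), h1 x hx, hA.neg_eq]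
        exact sub_self _
      rw [← hEq] at hu
      exact hv (by simpa using X.add_mem hu.1 hx₀)
    obtain ⟨z, hz1, hz2⟩ := hz
    refine ⟨w₀ + z, ?_, ?_⟩
    · intro x hx
      rw [map_add, LinearMap.add_apply, h1 x hx, hz1 x hx, add_zero]
    · intro h
      apply hz2
      have := Submodule.sub_mem _ h (⟨x₀, hx₀, hx₀'⟩ : w₀ ∈ X.map Φ)
      simpa using this
  · exact ⟨w₀, h1, hw⟩

theorem step (B : LinearMap.BilinForm F V) (hB : B.Nondegenerate) (hA : B.IsAlt)
    (X : Submodule F V) (Φ : V →ₗ[F] V) (hG : Good B X Φ) (v : V) (hv : v ∉ X) :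
    ∃ Φ' : V →ₗ[F] V, (∀ x ∈ X, Φ' x = Φ x) ∧ Good B (X ⊔ Submodule.span F {v}) Φ' := by
  obtain ⟨w, hw1, hw2⟩ := exists_w B hB hA X Φ hG v hv
  obtain ⟨ℓ, hℓv, hℓX⟩ : ∃ ℓ : V →ₗ[F] F, ℓ v = 1 ∧ ∀ x ∈ X, ℓ x = 0 := by
    obtain ⟨f, hf, hfX⟩ := Submodule.exists_dual_map_eq_bot_of_notMem hv inferInstance
    refine ⟨(f v)⁻¹ • f, by simp [hf], ?_⟩
    intro x hx
    have : f x ∈ X.map f := ⟨x, hx, rfl⟩
    rw [hfX] at this
    simp [(Submodule.mem_bot F).1 this]
  let Φ' : V →ₗ[F] V := Φ + ℓ.smulRight (w - Φ v)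
  have hΦ'X : ∀ x ∈ X, Φ' x = Φ x := by
    intro x hx; simp [Φ', hℓX x hx]
  have hΦ'v : Φ' v = w := by simp [Φ', hℓv]
  refine ⟨Φ', hΦ'X, ?_, ?_⟩
  · intro y hy y' hy'
    obtain ⟨x, hx, z, hz, rfl⟩ := Submodule.mem_sup.1 hy
    obtain ⟨c, rfl⟩ := Submodule.mem_span_singleton.1 hz
    obtain ⟨x', hx', z', hz', rfl⟩ := Submodule.mem_sup.1 hy'
    obtain ⟨c', rfl⟩ := Submodule.mem_span_singleton.1 hz'
    have e1 : B (Φ x) w = B x v := by rw [← hA.neg_eq, hw1 x hx, hA.neg_eq]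
    simp only [map_add, map_smul, hΦ'X x hx, hΦ'X x' hx', hΦ'v, LinearMap.add_apply,
      LinearMap.smul_apply, smul_eq_mul]
    rw [hG.1 x hx x' hx', hw1 x' hx', hA.self_eq_zero w, hA.self_eq_zero v, e1]
  · intro y hy h0
    obtain ⟨x, hx, z, hz, rfl⟩ := Submodule.mem_sup.1 hy
    obtain ⟨c, rfl⟩ := Submodule.mem_span_singleton.1 hz
    rw [map_add, map_smul, hΦ'X x hx, hΦ'v] at h0
    by_cases hc : c = 0
    · subst hc
      simp only [zero_smul, add_zero] at h0 ⊢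
      exact hG.2 x hx h0
    · exfalso
      apply hw2
      refine ⟨-(c⁻¹ • x), X.neg_mem (X.smul_mem _ hx), ?_⟩
      have h1 : c • w = -Φ x := by
        rw [eq_neg_iff_add_eq_zero, add_comm]; exact h0
      have h2 : w = c⁻¹ • (c • w) := by rw [smul_smul, inv_mul_cancel₀ hc, one_smul]
      rw [h2, h1, map_neg, map_smul, smul_neg]

lemma of_top (B : LinearMap.BilinForm F V) (Φ : V →ₗ[F] V) (hG : Good B ⊤ Φ) :
    ∃ g : V ≃ₗ[F] V, (∀ u v : V, B (g u) (g v) = B u v) ∧ ∀ x : V, g x = Φ x := by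
  have hinj : Function.Injective Φ := by
    rw [← LinearMap.ker_eq_bot, LinearMap.ker_eq_bot']
    intro x hx
    exact hG.2 x trivial hx
  exact ⟨LinearEquiv.ofInjectiveEndo Φ hinj, fun u v => hG.1 u trivial v trivial, fun x => rfl⟩

theorem extend (B : LinearMap.BilinForm F V) (hB : B.Nondegenerate) (hA : B.IsAlt) :
    ∀ (n : ℕ) (X : Submodule F V) (Φ : V →ₗ[F] V), Good B X Φ →
      finrank F V - finrank F X ≤ n →
      ∃ g : V ≃ₗ[F] V, (∀ u v : V, B (g u) (g v) = B u v) ∧ ∀ x ∈ X, g x = Φ x := by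
  intro n
  induction n with
  | zero =>
    intro X Φ hG hfin
    have hle := Submodule.finrank_le X
    have hX : X = ⊤ := Submodule.eq_top_of_finrank_eq (by omega)
    subst hX
    obtain ⟨g, hg1, hg2⟩ := of_top B Φ hG
    exact ⟨g, hg1, fun x _ => hg2 x⟩
  | succ n ih =>
    intro X Φ hG hfin
    by_cases hX : X = ⊤
    · subst hX
      obtain ⟨g, hg1, hg2⟩ := of_top B Φ hG
      exact ⟨g, hg1, fun x _ => hg2 x⟩
    · obtain ⟨v, hv⟩ : ∃ v, v ∉ X := by
        by_contra h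
        push Not at h
        exact hX (Submodule.eq_top_iff'.2 h)
      obtain ⟨Φ', hΦ', hG'⟩ := step B hB hA X Φ hG v hv
      have hlt : X < X ⊔ Submodule.span F {v} := by
        refine lt_of_le_of_ne le_sup_left ?_
        intro h
        apply hv
        rw [h]
        exact Submodule.mem_sup_right (Submodule.mem_span_singleton_self v)
      have hfl := Submodule.finrank_lt_finrank_of_lt hlt
      obtain ⟨g, hg1, hg2⟩ := ih _ Φ' hG' (by omega)
      exact ⟨g, hg1, fun x hx => (hg2 x (Submodule.mem_sup_left hx)).trans (hΦ' x hx)⟩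

/-- **Witt's lemma** for nondegenerate alternating forms. -/
theorem witt (B : LinearMap.BilinForm F V) (hB : B.Nondegenerate) (hA : B.IsAlt)
    (X Y : Submodule F V) (φ : X ≃ₗ[F] Y)
    (hφ : ∀ x x' : X, B (φ x : V) (φ x' : V) = B (x : V) (x' : V)) :
    ∃ g : V ≃ₗ[F] V, (∀ u v : V, B (g u) (g v) = B u v) ∧ ∀ x : X, g (x : V) = (φ x : V) := by
  obtain ⟨Φ, hΦ⟩ := LinearMap.exists_extend (Y.subtype ∘ₗ φ.toLinearMap)
  have hΦ' : ∀ x : X, Φ (x : V) = (φ x : V) := by
    intro x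
    have := congrArg (fun f : X →ₗ[F] V => f x) hΦ
    simpa using this
  have hG : Good B X Φ := by
    constructor
    · intro x hx x' hx'
      rw [hΦ' ⟨x, hx⟩, hΦ' ⟨x', hx'⟩, hφ]
    · intro x hx h0
      rw [hΦ' ⟨x, hx⟩] at h0
      have : φ ⟨x, hx⟩ = 0 := Subtype.ext h0
      have h2 := φ.map_eq_zero_iff.1 this
      exact congrArg Subtype.val h2
  obtain ⟨g, hg1, hg2⟩ := extend B hB hA _ X Φ hG le_rfl
  exact ⟨g, hg1, fun x => (hg2 x x.2).trans (hΦ' x)⟩

end Cfsg.Agent.Lib_helper4_WittAlt
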