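import Mathlib
import Cfsg.Agent.Lib_helper5_AutP
import Cfsg.Agent.Lib_helper5_AutP2
import Cfsg.Agent.Lib_helper5_Class
import Cfsg.Agent.Lib_helper1_Coprime

set_option autoImplicit false

namespace Cfsg.Agent.Lib_helper5_CubeFree

open Cfsg.Agent.Lib_helper1_Coprime

universe u

/-- the hypothesis on the Sylow subgroups: abelian of rank at most two, except for the
largest prime -/
def Hyp (G : Type u) [Group G] [Finite G] : Prop :=
  ∀ p : ℕ, p.Prime → p ∣ Nat.card G → (∃ q : ℕ, q.Prime ∧ q ∣ Nat.card G ∧ p < q) →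
    ∀ P : Sylow p G, IsMulCommutative (P : Subgroup G) ∧ Group.rank (P : Subgroup G) ≤ 2

/-- For the least prime `p`, an abelian Sylow `p`-subgroup of rank at most two is central in
its normalizer, if `12` does not divide the group order. -/
theorem normalizer_le_centralizer {G : Type u} [Group G] [Finite G] {p : ℕ} [Fact p.Prime]
    (hmin : ∀ r : ℕ, r.Prime → r ∣ Nat.card G → p ≤ r) (h12 : ¬ 12 ∣ Nat.card G)
    (P : Sylow p G) (hab : IsMulCommutative (P : Subgroup G))
    (hrank : Group.rank (P : Subgroup G) ≤ 2) :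
    Subgroup.normalizer ((P : Subgroup G) : Set G) ≤
      Subgroup.centralizer ((P : Subgroup G) : Set G) := by
  have hp := Fact.out (p := p.Prime)
  have hPC : (P : Subgroup G) ≤ Subgroup.centralizer ((P : Subgroup G) : Set G) := by
    intro a ha
    rw [Subgroup.mem_centralizer_iff]
    intro x hx
    have := hab.is_comm.comm (⟨x, hx⟩ : (P : Subgroup G)) ⟨a, ha⟩
    exact congrArg Subtype.val this
  have key : ∀ y ∈ Subgroup.normalizer ((P : Subgroup G) : Set G), (orderOf y).Coprime p →
      y ∈ Subgroup.centralizer ((P : Subgroup G) : Set G) := by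
    intro y hy hcop
    by_contra hnc
    obtain ⟨α, hα⟩ : ∃ α : MulAut (P : Subgroup G), α = conjNormalizer (P : Subgroup G) y hy :=
      ⟨_, rfl⟩
    have hαpow : ∀ (j : ℕ) (x : (P : Subgroup G)), (((α ^ j) x : (P : Subgroup G)) : G) =
        y ^ j * x * (y ^ j)⁻¹ := by
      intro j x
      rw [hα]
      exact Cfsg.Agent.Lib_helper5_AutP2.conjNormalizer_pow (P : Subgroup G) y hy j x
    have hα1 : α ≠ 1 := by
      intro h1
      apply hnc
      rw [Subgroup.mem_centralizer_iff]
      intro x hx
      have h2 := hαpow 1 ⟨x, hx⟩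
      rw [pow_one, pow_one, h1] at h2
      have h3 : x = y * x * y⁻¹ := h2
      calc x * y = y * x * y⁻¹ * y := by rw [← h3]
        _ = y * x := by group
    have hαo : α ^ orderOf y = 1 := by
      ext x
      rw [hαpow, pow_orderOf_eq_one]
      simp
    have hypos : 0 < orderOf y := orderOf_pos y
    obtain ⟨m, hm⟩ : ∃ m, m = orderOf α := ⟨_, rfl⟩
    have hm1 : m ≠ 1 := by
      rw [hm, Ne, orderOf_eq_one_iff]; exact hα1
    have hmdvd : m ∣ orderOf y := hm ▸ orderOf_dvd_of_pow_eq_one hαo
    have hmpos : 0 < m := Nat.pos_of_dvd_of_pos hmdvd hypos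
    obtain ⟨r, hr, hrm⟩ := Nat.exists_prime_and_dvd hm1
    have hrp : r ≠ p := by
      rintro rfl
      have h1 := Nat.Coprime.coprime_dvd_left (hrm.trans hmdvd) hcop
      exact hp.one_lt.ne' ((Nat.coprime_self r).mp h1)
    have hrG : r ∣ Nat.card G := (hrm.trans hmdvd).trans (orderOf_dvd_natCard y)
    have hpr : p < r := lt_of_le_of_ne (hmin r hr hrG) (Ne.symm hrp)
    have hβr : (α ^ (m / r)) ^ r = 1 := by
      rw [← pow_mul, Nat.div_mul_cancel hrm, hm, pow_orderOf_eq_one]
    have hβ1 : α ^ (m / r) ≠ 1 := by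
      intro h1
      have h2 : orderOf α ∣ m / r := orderOf_dvd_of_pow_eq_one h1
      rw [← hm] at h2
      have h3 := Nat.le_of_dvd (Nat.div_pos (Nat.le_of_dvd hmpos hrm) hr.pos) h2
      exact absurd h3 (not_le.mpr (Nat.div_lt_self hmpos hr.one_lt))
    obtain ⟨x, hx⟩ : ∃ x, (α ^ (m / r)) x ≠ x := by
      by_contra hall
      push Not at hall
      exact hβ1 (MulEquiv.ext hall)
    haveI := hab
    obtain ⟨i, hi1, hi2, hdvd⟩ := Cfsg.Agent.Lib_helper5_AutP.aut_prime_dvd hr hrp P.isPGroup'
      (α ^ (m / r)) ⟨x, hx⟩ (fun x => by rw [hβr]; rfl)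
    have hi : i = 1 ∨ i = 2 := by omega
    have hp2 := hp.two_le
    rcases hi with rfl | rfl
    · rw [pow_one] at hdvd
      have := Nat.le_of_dvd (by omega) hdvd
      omega
    · have h1 : p ^ 2 - 1 = (p - 1) * (p + 1) := by
        obtain ⟨t, rfl⟩ : ∃ t, p = t + 1 := ⟨p - 1, by omega⟩
        simp only [Nat.add_sub_cancel]
        have : (t + 1) ^ 2 = t * (t + 1 + 1) + 1 := by ring
        rw [this, Nat.add_sub_cancel]
      rw [h1] at hdvd
      rcases (Nat.Prime.dvd_mul hr).mp hdvd with h2 | h2
      · have := Nat.le_of_dvd (by omega) h2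
        omega
      · have h3 := Nat.le_of_dvd (by omega) h2
        have hrp1 : r = p + 1 := by omega
        -- `p` and `p + 1` both prime forces `p = 2`
        have hp2' : p = 2 := by
          rcases hp.eq_two_or_odd with h4 | h4
          · exact h4
          · exfalso
            have h5 : 2 ∣ r := by omega
            have h6 := (Nat.prime_dvd_prime_iff_eq Nat.prime_two hr).mp h5
            omega
        have hr3 : r = 3 := by omega
        -- the Sylow subgroup has at least three elements
        have hx1 : x ≠ 1 := by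
          rintro rfl
          exact hx (map_one _)
        have hβx1 : (α ^ (m / r)) x ≠ 1 := by
          intro h4
          apply hx1
          have h5 : (α ^ (m / r)) x = (α ^ (m / r)) 1 := by rw [h4, map_one]
          exact (α ^ (m / r)).injective h5
        obtain ⟨k, hk⟩ := (IsPGroup.iff_card).mp P.isPGroup'
        have hcard3 : 3 ≤ Nat.card (P : Subgroup G) := by
          classical
          haveI := Fintype.ofFinite (P : Subgroup G)
          rw [Nat.card_eq_fintype_card]
          have h4 : ({1, x, (α ^ (m / r)) x} : Finset (P : Subgroup G)).card = 3 := by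
            rw [Finset.card_insert_of_notMem, Finset.card_insert_of_notMem,
              Finset.card_singleton]
            · simp only [Finset.mem_singleton]
              exact fun h => hx h.symm
            · simp only [Finset.mem_insert, Finset.mem_singleton, not_or]
              exact ⟨fun h => hx1 h.symm, fun h => hβx1 h.symm⟩
          rw [← h4]
          exact Finset.card_le_univ _
        have hk2 : 2 ≤ k := by
          by_contra hlt
          have hk1 : k ≤ 1 := by omega
          have : p ^ k ≤ p ^ 1 := Nat.pow_le_pow_right hp.pos hk1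
          rw [hk, hp2'] at hcard3
          rw [hp2'] at this
          omega
        have h4 : 4 ∣ Nat.card G := by
          have h5 : (4 : ℕ) ∣ Nat.card (P : Subgroup G) := by
            rw [hk, hp2']
            exact (show (4 : ℕ) = 2 ^ 2 by norm_num) ▸ pow_dvd_pow 2 hk2
          exact h5.trans (Subgroup.card_subgroup_dvd_card _)
        have h3' : 3 ∣ Nat.card G := hr3 ▸ hrG
        exact h12 ((show (12 : ℕ) = 4 * 3 by norm_num) ▸
          Nat.Coprime.mul_dvd_of_dvd_of_dvd (by norm_num) h4 h3')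
  intro x hx
  obtain ⟨a, m', hm', hn⟩ := Nat.exists_eq_pow_mul_and_not_dvd (orderOf_pos x).ne' p hp.ne_one
  have hm'pos : 0 < m' := by
    rcases Nat.eq_zero_or_pos m' with h | h
    · exact absurd (h ▸ dvd_zero p) hm'
    · exact h
  have hcop : Nat.Coprime m' (p ^ a) :=
    Nat.Coprime.pow_right a ((Nat.Prime.coprime_iff_not_dvd hp).mpr hm').symm
  apply Cfsg.Agent.Lib_helper5_Class.mem_of_pow_mem_of_coprime' _ x hcop
  · apply hPC
    apply Cfsg.Agent.Lib_helper5_AutP2.mem_sylow_of_mem_normalizer P _ ⟨a, ?_⟩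
      (Subgroup.pow_mem _ hx _)
    rw [orderOf_pow' x hm'pos.ne', hn, Nat.gcd_mul_left_left, Nat.mul_div_cancel _ hm'pos]
  · apply key _ (Subgroup.pow_mem _ hx _)
    rw [orderOf_pow' x (pow_pos hp.pos a).ne', hn, Nat.gcd_mul_right_left,
      Nat.mul_div_cancel_left _ (pow_pos hp.pos a)]
    exact (Nat.Prime.coprime_iff_not_dvd hp).mpr hm' |>.symm

/-- the hypothesis passes to a normal subgroup of `p`-power index and order prime to `p` -/
theorem hyp_of_normal {G : Type u} [Group G] [Finite G] (h : Hyp G) {p : ℕ} [Fact p.Prime]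
    (K : Subgroup G) [K.Normal] (hidx : ∃ k, K.index = p ^ k) (hKp : ¬ p ∣ Nat.card K) :
    Hyp K := by
  have hp := Fact.out (p := p.Prime)
  intro r hr hrK hq Q
  haveI : Fact r.Prime := ⟨hr⟩
  have hrp : r ≠ p := by
    rintro rfl
    exact hKp hrK
  obtain ⟨q, hq, hqK, hrq⟩ := hq
  have hKG := Subgroup.card_subgroup_dvd_card K
  obtain ⟨R, hR⟩ := Sylow.exists_comap_subtype_eq Q
  obtain ⟨hab, hrank⟩ := h r hr (hrK.trans hKG) ⟨q, hq, hqK.trans hKG, hrq⟩ R
  have hRK : (R : Subgroup G) ≤ K := by
    rw [← Subgroup.relIndex_eq_one]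
    have h1 : K.relIndex (R : Subgroup G) ∣ K.index := Subgroup.relIndex_dvd_index_of_normal K _
    have h2 : K.relIndex (R : Subgroup G) ∣ Nat.card (R : Subgroup G) :=
      Subgroup.relIndex_dvd_card K _
    obtain ⟨k, hk⟩ := hidx
    obtain ⟨j, hj⟩ := (IsPGroup.iff_card).mp R.isPGroup'
    rw [hk] at h1
    rw [hj] at h2
    have hcop : Nat.Coprime (r ^ j) (p ^ k) :=
      Nat.Coprime.pow _ _ ((Nat.coprime_primes hr hp).mpr hrp)
    exact Nat.eq_one_of_dvd_coprimes hcop h2 h1
  have hQ : (Q : Subgroup K) = (R : Subgroup G).subgroupOf K := hR.symm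
  constructor
  · refine ⟨⟨fun a b => ?_⟩⟩
    have hmem : ∀ z : K, z ∈ (Q : Subgroup K) → (z : G) ∈ (R : Subgroup G) := by
      intro z hz
      rw [hQ] at hz
      exact hz
    have ha : (a.1 : G) ∈ (R : Subgroup G) := hmem a.1 a.2
    have hb : (b.1 : G) ∈ (R : Subgroup G) := hmem b.1 b.2
    have h1 := hab.is_comm.comm (⟨a.1.1, ha⟩ : (R : Subgroup G)) ⟨b.1.1, hb⟩
    apply Subtype.ext
    apply Subtype.ext
    show (a.1.1 * b.1.1 : G) = b.1.1 * a.1.1
    exact congrArg Subtype.val h1
  · rw [Subgroup.rank_congr hQ, Group.rank_congr (Subgroup.subgroupOfEquivOfLe hRK)]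
    exact hrank

theorem solvable_aux : ∀ (n : ℕ) (G : Type u) [Group G] [Finite G], Nat.card G = n → Hyp G →
    ¬ 12 ∣ Nat.card G → Group.IsSolvable G := by
  intro n
  induction n using Nat.strong_induction_on with
  | _ n ih =>
    intro G _ _ hn h h12
    by_cases htriv : Nat.card G = 1
    · haveI : Subsingleton G := (Nat.card_eq_one_iff_unique.mp htriv).1
      infer_instance
    obtain ⟨p, hpdef⟩ : ∃ p, p = (Nat.card G).minFac := ⟨_, rfl⟩
    have hp : p.Prime := hpdef ▸ Nat.minFac_prime htriv
    haveI : Fact p.Prime := ⟨hp⟩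
    have hpG : p ∣ Nat.card G := hpdef ▸ Nat.minFac_dvd _
    have hmin : ∀ r : ℕ, r.Prime → r ∣ Nat.card G → p ≤ r :=
      fun r hr hrG => hpdef ▸ Nat.minFac_le_of_dvd hr.two_le hrG
    by_cases hlarge : ∃ q : ℕ, q.Prime ∧ q ∣ Nat.card G ∧ p < q
    · obtain ⟨P⟩ : Nonempty (Sylow p G) := inferInstance
      obtain ⟨hab, hrank⟩ := h p hp hpG hlarge P
      have hNC := normalizer_le_centralizer hmin h12 P hab hrank
      have hcompl := MonoidHom.ker_transferSylow_isComplement' P hNC
      obtain ⟨K, hK⟩ : ∃ K : Subgroup G, K = (MonoidHom.transferSylow P hNC).ker := ⟨_, rfl⟩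
      rw [← hK] at hcompl
      haveI : K.Normal := hK ▸ MonoidHom.normal_ker _
      have hKcard : Nat.card K * Nat.card (P : Subgroup G) = Nat.card G := hcompl.card_mul_card
      have hPcard : 1 < Nat.card (P : Subgroup G) :=
        (Subgroup.one_lt_card_iff_ne_bot _).mpr (P.ne_bot_of_dvd_card hpG)
      have hKlt : Nat.card K < Nat.card G := by
        have := Nat.card_pos (α := K)
        nlinarith
      have hKp : ¬ p ∣ Nat.card K := hK ▸ MonoidHom.not_dvd_card_ker_transferSylow P hNC
      have hidx : ∃ k, K.index = p ^ k := by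
        obtain ⟨k, hk⟩ := (IsPGroup.iff_card).mp P.isPGroup'
        refine ⟨k, ?_⟩
        rw [hcompl.symm.index_eq_card, hk]
      have hypK : Hyp K := hyp_of_normal h K hidx hKp
      have h12K : ¬ 12 ∣ Nat.card K := fun h => h12 (h.trans (Subgroup.card_subgroup_dvd_card K))
      haveI : Group.IsSolvable K := ih (Nat.card K) (hn ▸ hKlt) K rfl hypK h12K
      haveI : Group.IsNilpotent (P : Subgroup G) := P.isPGroup'.isNilpotent
      exact Group.isSolvable_of_ker_le_range K.subtype (MonoidHom.transferSylow P hNC)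
        (by rw [Subgroup.range_subtype, hK])
    · have hcard : Nat.card G = p ^ (Nat.card G).primeFactorsList.length := by
        apply Nat.eq_prime_pow_of_unique_prime_dvd (Nat.card_pos).ne'
        intro d hd hdG
        by_contra hne
        exact hlarge ⟨d, hd, hdG, lt_of_le_of_ne (hmin d hd hdG) (Ne.symm hne)⟩
      have hPG : IsPGroup p G := IsPGroup.of_card hcard
      haveI := hPG.isNilpotent
      infer_instance

theorem solvable {G : Type u} [Group G] [Finite G]
    (h : ∀ p : ℕ, p.Prime → p ∣ Nat.card G → (∃ q : ℕ, q.Prime ∧ q ∣ Nat.card G ∧ p < q) →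
      ∀ P : Sylow p G, IsMulCommutative (P : Subgroup G) ∧ Group.rank (P : Subgroup G) ≤ 2)
    (h12 : ¬ 12 ∣ Nat.card G) : Group.IsSolvable G :=
  solvable_aux _ G rfl h h12

end Cfsg.Agent.Lib_helper5_CubeFree
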