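import Mathlib
import Cfsg.Prelude.Def_KGroupFacts
import Cfsg.Agent.Lib_helper5_Basic

set_option autoImplicit false

namespace Cfsg.Agent.Lib_helper5_Ext

universe u v

/-- The central extension of `G` by `C` defined by a bimultiplicative map `f`. -/
structure Ext {G : Type u} {C : Type v} [Group G] [CommGroup C] (f : G →* (G →* C)) :
    Type (max u v) where
  /-- central coordinate -/
  c : C
  /-- quotient coordinate -/
  g : G

namespace Ext

variable {G : Type u} {C : Type v} [Group G] [CommGroup C] (f : G →* (G →* C))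

instance : Mul (Ext f) := ⟨fun x y => ⟨x.c * y.c * f x.g y.g, x.g * y.g⟩⟩
instance : One (Ext f) := ⟨⟨1, 1⟩⟩
instance : Inv (Ext f) := ⟨fun x => ⟨x.c⁻¹ * f x.g x.g, x.g⁻¹⟩⟩

theorem mul_c (x y : Ext f) : (x * y).c = x.c * y.c * f x.g y.g := rfl
theorem mul_g (x y : Ext f) : (x * y).g = x.g * y.g := rfl
theorem one_c : (1 : Ext f).c = 1 := rfl
theorem one_g : (1 : Ext f).g = 1 := rfl
theorem inv_c (x : Ext f) : (x⁻¹).c = x.c⁻¹ * f x.g x.g := rfl
theorem inv_g (x : Ext f) : (x⁻¹).g = x.g⁻¹ := rfl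

theorem ext' {x y : Ext f} (hc : x.c = y.c) (hg : x.g = y.g) : x = y := by
  cases x; cases y; simp_all

instance : Group (Ext f) :=
  Group.ofLeftAxioms
    (by
      intro x y z
      apply ext'
      · simp only [mul_c, mul_g, map_mul, MonoidHom.mul_apply]
        simp only [mul_assoc, mul_comm, mul_left_comm]
      · simp only [mul_g, mul_assoc])
    (by
      intro x
      apply ext'
      · simp [mul_c, one_c, one_g]
      · simp [mul_g, one_g])
    (by
      intro x
      apply ext'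
      · simp [mul_c, inv_c, inv_g, one_c]
      · simp [mul_g, inv_g, one_g])

/-- The projection onto `G`. -/
def proj : Ext f →* G := MonoidHom.mk' (fun x => x.g) (fun _ _ => rfl)

theorem proj_apply (x : Ext f) : proj f x = x.g := rfl

theorem proj_surj : Function.Surjective (proj f) := fun g => ⟨⟨1, g⟩, rfl⟩

theorem mem_ker (x : Ext f) : x ∈ (proj f).ker ↔ x.g = 1 := by
  rw [MonoidHom.mem_ker, proj_apply]

theorem ker_central : (proj f).ker ≤ Subgroup.center (Ext f) := by
  intro x hx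
  rw [mem_ker] at hx
  rw [Subgroup.mem_center_iff]
  intro y
  apply ext'
  · simp only [mul_c, hx, map_one, MonoidHom.one_apply, mul_one]
    rw [mul_comm]
  · simp [mul_g, hx]

instance [Finite G] [Finite C] : Finite (Ext f) :=
  Finite.of_injective (fun x : Ext f => (x.c, x.g)) (by
    intro x y h
    simp only [Prod.mk.injEq] at h
    exact ext' f h.1 h.2)

theorem pow_central (z : C) (k : ℕ) : (⟨z, 1⟩ : Ext f) ^ k = ⟨z ^ k, 1⟩ := by
  induction k with
  | zero => simp; rfl
  | succ k ih =>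
    rw [pow_succ, ih]
    apply ext'
    · simp [mul_c, pow_succ]
    · simp [mul_g]

/-- The kernel of the projection is isomorphic to `C`. -/
def kerEquiv : (proj f).ker ≃* C where
  toFun x := x.1.c
  invFun c := ⟨⟨c, 1⟩, (mem_ker f _).mpr rfl⟩
  left_inv x := by
    apply Subtype.ext
    apply ext'
    · rfl
    · exact ((mem_ker f _).mp x.2).symm
  right_inv c := rfl
  map_mul' x y := by
    show (x.1 * y.1).c = x.1.c * y.1.c
    rw [mul_c, (mem_ker f _).mp x.2]
    simp

end Ext

theorem comm_ident {C : Type*} [CommGroup C] (a b u w : C) :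
    a * b⁻¹ = a * u * (u * b)⁻¹ * w * (a * w * a⁻¹)⁻¹ := by
  have e1 : a * w * a⁻¹ = w := by rw [mul_comm a w, mul_inv_cancel_right]
  have e2 : a * u * (u * b)⁻¹ = a * b⁻¹ := by
    rw [mul_inv_rev, mul_assoc, mul_comm b⁻¹ u⁻¹, mul_inv_cancel_left]
  rw [e2, e1, mul_inv_cancel_right]

open scoped commutatorElement in
/-- If `f g₀ h₀ / f h₀ g₀` generates `C`, the extension is a stem extension with kernel `C`. -/
theorem exists_stem {G : Type u} [CommGroup G] [Finite G] {C : Type v} [CommGroup C] [Finite C]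
    (f : G →* (G →* C)) (g₀ h₀ : G)
    (hgen : ∀ c : C, ∃ k : ℕ, c = (f g₀ h₀ * (f h₀ g₀)⁻¹) ^ k) :
    ∃ (Γ : Type (max u v)) (_ : Group Γ) (_ : Finite Γ) (σ : Γ →* G),
      Cfsg.IsStemExtension σ ∧ Nonempty (σ.ker ≃* C) := by
  refine ⟨Ext f, inferInstance, inferInstance, Ext.proj f,
    ⟨Ext.proj_surj f, Ext.ker_central f, ?_⟩, ⟨Ext.kerEquiv f⟩⟩
  intro x hx
  rw [Ext.mem_ker] at hx
  obtain ⟨k, hk⟩ := hgen x.c
  have hx' : x = (⟨f g₀ h₀ * (f h₀ g₀)⁻¹, 1⟩ : Ext f) ^ k := by
    rw [Ext.pow_central]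
    exact Ext.ext' f hk hx
  rw [hx']
  apply Subgroup.pow_mem
  have hcomm : (⟨f g₀ h₀ * (f h₀ g₀)⁻¹, 1⟩ : Ext f) = ⁅(⟨1, g₀⟩ : Ext f), (⟨1, h₀⟩ : Ext f)⁆ := by
    rw [commutatorElement_def]
    apply Ext.ext'
    · simp only [Ext.mul_c, Ext.mul_g, Ext.inv_c, Ext.inv_g, map_mul, map_inv, MonoidHom.mul_apply,
        MonoidHom.inv_apply, one_mul, mul_one, inv_one]
      exact comm_ident _ _ _ _
    · simp [Ext.mul_g, Ext.inv_g]
  rw [hcomm, commutator_def]
  exact Subgroup.commutator_mem_commutator (Subgroup.mem_top _) (Subgroup.mem_top _)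

/-- A group generated by powers of an element `e` with `e ^ n = 1` is a quotient of `ZMod n`. -/
theorem surj_of_cyclic {K : Type*} [Group K] (n : ℕ) [NeZero n] (e : K) (he : e ^ n = 1)
    (h : ∀ z : K, ∃ k : ℤ, z = e ^ k) :
    ∃ π : Multiplicative (ZMod n) →* K, Function.Surjective π := by
  let π : Multiplicative (ZMod n) →* K :=
    MonoidHom.mk' (fun x => e ^ (Multiplicative.toAdd x).val) (by
      intro x y
      show e ^ (Multiplicative.toAdd x + Multiplicative.toAdd y).val = _
      rw [ZMod.val_add, ← pow_eq_pow_mod _ he, pow_add])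
  refine ⟨π, ?_⟩
  intro z
  obtain ⟨k, rfl⟩ := h z
  refine ⟨Multiplicative.ofAdd ((k : ℤ) : ZMod n), ?_⟩
  show e ^ ((k : ℤ) : ZMod n).val = e ^ k
  have h1 : (((k : ℤ) : ZMod n).val : ℤ) = k % n := ZMod.val_intCast k
  have h2 : k = k % n + n * (k / n) := (Int.emod_add_mul_ediv k n).symm
  rw [← zpow_natCast, h1]
  conv_rhs => rw [h2]
  rw [zpow_add, zpow_mul, zpow_natCast, he, one_zpow, mul_one]

/-- Stem extensions of an abelian group generated by two elements `a`, `b` with `b ^ n = 1`: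
the kernel is generated by a single element `c` with `c ^ n = 1`. -/
theorem stem_two_gen {Γ : Type u} {G : Type v} [Group Γ] [CommGroup G] (σ : Γ →* G)
    (hσ : Cfsg.IsStemExtension σ) (α β : Γ)
    (hgen : Subgroup.closure {σ α, σ β} = ⊤) (n : ℕ) (hn : (σ β) ^ n = 1) :
    ∃ c ∈ σ.ker, c ^ n = 1 ∧ ∀ z ∈ σ.ker, ∃ k : ℤ, z = c ^ k := by
  obtain ⟨hsurj, hcen, hcm⟩ := hσ
  set c := α * β * α⁻¹ * β⁻¹ with hcdef
  have hc : c ∈ σ.ker := by
    rw [MonoidHom.mem_ker, hcdef]
    simp only [map_mul, map_inv]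
    rw [mul_comm (σ α) (σ β)]; simp
  have hcc : ∀ g : Γ, g * c = c * g := Subgroup.mem_center_iff.mp (hcen hc)
  set S : Set Γ := {α, β} ∪ (σ.ker : Set Γ) with hSdef
  have hS : Subgroup.closure S = ⊤ := by
    rw [hSdef, Subgroup.closure_union, Subgroup.closure_eq]
    have h1 : (Subgroup.closure {α, β}).map σ = ⊤ := by
      rw [MonoidHom.map_closure, Set.image_pair, hgen]
    have h2 := Subgroup.comap_map_eq σ (Subgroup.closure {α, β})
    rw [h1, Subgroup.comap_top] at h2
    exact h2.symm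
  set D : Subgroup Γ := Subgroup.zpowers c with hDdef
  have hcD : c ∈ D := Subgroup.mem_zpowers c
  have hDcen : D ≤ Subgroup.center Γ := by
    rw [hDdef, Subgroup.zpowers_le]
    exact hcen hc
  have hDn : D.Normal := by
    constructor
    intro d hd g
    have := Subgroup.mem_center_iff.mp (hDcen hd) g
    have e : g * d * g⁻¹ = d := by rw [this]; group
    rw [e]; exact hd
  have hker : ∀ s ∈ (σ.ker : Set Γ), ∀ t : Γ, s * t * s⁻¹ * t⁻¹ = 1 ∧ t * s * t⁻¹ * s⁻¹ = 1 := by
    intro s hs t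
    have hsc : ∀ g : Γ, g * s = s * g := Subgroup.mem_center_iff.mp (hcen hs)
    constructor
    · rw [← hsc t]; group
    · rw [hsc t]; group
  have hcomD : commutator Γ ≤ D := by
    apply Cfsg.Agent.Lib_helper5_Basic.commutator_le_of_gens S hS D
    intro s hs t ht
    rcases hs with hs | hs
    · rcases ht with ht | ht
      · rcases hs with hs | hs
        · rcases ht with ht | ht
          · rw [hs, ht]
            have : α * α * α⁻¹ * α⁻¹ = 1 := by group
            rw [this]; exact D.one_mem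
          · rw [Set.mem_singleton_iff] at ht
            rw [hs, ht]; exact hcD
        · rw [Set.mem_singleton_iff] at hs
          rcases ht with ht | ht
          · rw [hs, ht]
            have : β * α * β⁻¹ * α⁻¹ = c⁻¹ := by rw [hcdef]; group
            rw [this]; exact D.inv_mem hcD
          · rw [Set.mem_singleton_iff] at ht
            rw [hs, ht]
            have : β * β * β⁻¹ * β⁻¹ = 1 := by group
            rw [this]; exact D.one_mem
      · rw [(hker t ht s).2]; exact D.one_mem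
    · rw [(hker s hs t).1]; exact D.one_mem
  have hcn : c ^ n = 1 := by
    have hb : β ^ n ∈ σ.ker := by rw [MonoidHom.mem_ker, map_pow, hn]
    have hbc : ∀ g : Γ, g * β ^ n = β ^ n * g := Subgroup.mem_center_iff.mp (hcen hb)
    have e1 : α * β ^ n * α⁻¹ = β ^ n := by rw [hbc α]; group
    have e2 : α * β * α⁻¹ = c * β := by rw [hcdef]; group
    have e3 : α * β ^ n * α⁻¹ = c ^ n * β ^ n := by
      rw [← conj_pow, e2]
      have : Commute c β := (hcc β).symm
      exact this.mul_pow n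
    have e4 : c ^ n * β ^ n = β ^ n := e3.symm.trans e1
    exact mul_eq_right.mp e4
  refine ⟨c, hc, hcn, ?_⟩
  intro z hz
  obtain ⟨k, hk⟩ := Subgroup.mem_zpowers_iff.mp (hcomD (hcm hz))
  exact ⟨k, hk.symm⟩


end Cfsg.Agent.Lib_helper5_Ext
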