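import Mathlib
import Cfsg.Agent.Lib_helper5_FrobKer
import Cfsg.Agent.Lib_helper9_Frob

set_option autoImplicit false

namespace Cfsg.Agent.Lib_helper5_FrobQuot

open Cfsg Cfsg.Agent.Lib_helper9_Frob
open scoped Pointwise

/-- a quotient of a Frobenius group by a normal subgroup not containing the kernel is a
Frobenius group, with the image of the kernel as its kernel -/
theorem quotient_frobenius {G : Type*} [Group G] [Finite G] (R : Subgroup G)
    (hR : IsFrobeniusComplement R) (N : Subgroup G) [hNn : N.Normal]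
    (hKN : ¬ frobeniusKernel R ⊆ N) :
    IsFrobeniusComplement (R.map (QuotientGroup.mk' N)) ∧
      frobeniusKernel (R.map (QuotientGroup.mk' N)) =
        QuotientGroup.mk' N '' frobeniusKernel R := by
  obtain ⟨K, hK, hKn, hKc⟩ := Cfsg.Agent.Lib_helper5_FrobKer.frobenius_kernel R hR
  have hmemK : ∀ x : G, x ∈ K ↔ x ∈ frobeniusKernel R := fun x => by rw [← hK]; rfl
  have hNK : N ≤ K := by
    rcases kernel_comparable hR hK N hNn with h | h
    · exact absurd (fun x hx => h ((hmemK x).mpr hx)) hKN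
    · exact h
  have hKR : ∀ x : G, x ∈ K → x ∈ R → x = 1 := fun x hx hr => by
    have h1 : x ∈ K ⊓ R := ⟨hx, hr⟩
    rwa [hKc.disjoint.eq_bot, Subgroup.mem_bot] at h1
  have hdecomp : ∀ g : G, ∃ k ∈ K, ∃ r ∈ R, g = k * r := by
    intro g
    have h1 : g ∈ K ⊔ R := hKc.sup_eq_top ▸ Subgroup.mem_top g
    obtain ⟨k, hk, r, hr, h2⟩ := Subgroup.mem_sup_of_normal_left.mp h1
    exact ⟨k, hk, r, hr, h2.symm⟩
  have hfpf : ∀ r ∈ R, r ≠ 1 → ∀ k ∈ K, r⁻¹ * k * r * k⁻¹ ∈ N → k ∈ N := by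
    intro r hr hr1 k hk hfk
    have hinjK : ∀ y z : G, y ∈ K → z ∈ K → r⁻¹ * y * r * y⁻¹ = r⁻¹ * z * r * z⁻¹ → y = z := by
      intro y z hy hz h
      have h2 : y * r * y⁻¹ = z * r * z⁻¹ := by
        have h3 := congrArg (fun t => r * t) h
        simpa [mul_assoc] using h3
      have h1 : (z⁻¹ * y) * r = r * (z⁻¹ * y) := by
        calc z⁻¹ * y * r = z⁻¹ * (y * r * y⁻¹) * y := by group
          _ = z⁻¹ * (z * r * z⁻¹) * y := by rw [h2]
          _ = r * (z⁻¹ * y) := by group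
      have h3 := centralizer_kernel hR hr hr1
        ((hmemK _).mp (K.mul_mem (K.inv_mem hz) hy)) h1
      calc y = z * (z⁻¹ * y) := by group
        _ = z := by rw [h3, mul_one]
    have hmapN : ∀ y : N, r⁻¹ * (y : G) * r * (y : G)⁻¹ ∈ N := by
      intro y
      have h1 := hNn.conj_mem y y.2 r⁻¹
      rw [inv_inv] at h1
      exact N.mul_mem h1 (N.inv_mem y.2)
    have hfinj : Function.Injective (fun y : N => (⟨r⁻¹ * (y : G) * r * (y : G)⁻¹, hmapN y⟩ : N)) := by
      intro y z h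
      apply Subtype.ext
      exact hinjK y z (hNK y.2) (hNK z.2) (congrArg Subtype.val h)
    have hfsurj := Finite.injective_iff_surjective.mp hfinj
    obtain ⟨n, hn⟩ := hfsurj ⟨_, hfk⟩
    have h4 := hinjK n k (hNK n.2) hk (congrArg Subtype.val hn)
    rw [← h4]
    exact n.2
  have hcoe : ∀ x : G, QuotientGroup.mk' N x = (x : G ⧸ N) := fun _ => rfl
  refine ⟨⟨?_, ?_, ?_⟩, ?_⟩
  · -- nontrivial
    intro hbot
    apply hR.1
    rw [eq_bot_iff]
    intro r hr
    have h1 : QuotientGroup.mk' N r ∈ R.map (QuotientGroup.mk' N) := Subgroup.mem_map_of_mem _ hr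
    rw [hbot, Subgroup.mem_bot, hcoe, QuotientGroup.eq_one_iff] at h1
    rw [Subgroup.mem_bot]
    exact hKR r (hNK h1) hr
  · -- proper
    intro htop
    obtain ⟨k, hkK, hkN⟩ := Set.not_subset.mp hKN
    have h1 : QuotientGroup.mk' N k ∈ R.map (QuotientGroup.mk' N) := htop ▸ Subgroup.mem_top _
    obtain ⟨r, hr, h2⟩ := Subgroup.mem_map.mp h1
    rw [hcoe, hcoe, QuotientGroup.eq] at h2
    have h3 : r ∈ K := by
      have h4 := K.mul_mem ((hmemK k).mpr hkK) (K.inv_mem (hNK h2))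
      have h5 : k * (r⁻¹ * k)⁻¹ = r := by group
      rwa [h5] at h4
    have h6 := hKR r h3 hr
    rw [h6] at h2
    apply hkN
    simpa using h2
  · -- trivial intersection
    intro g hg
    induction g using QuotientGroup.induction_on with
    | H g0 =>
    rw [eq_bot_iff]
    rintro y ⟨hy1, hy2⟩
    rw [Subgroup.mem_bot]
    obtain ⟨r1, hr1, rfl⟩ := Subgroup.mem_map.mp hy1
    have hy2' : QuotientGroup.mk' N r1 ∈ MulAut.conj (g0 : G ⧸ N) • R.map (QuotientGroup.mk' N) := hy2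
    rw [mem_conj_smul_iff] at hy2'
    obtain ⟨r2, hr2, h2⟩ := Subgroup.mem_map.mp hy2'
    obtain ⟨k, hk, r, hr, rfl⟩ := hdecomp g0
    have hkN : k ∉ N := by
      intro hkN
      apply hg
      refine Subgroup.mem_map.mpr ⟨r, hr, ?_⟩
      rw [hcoe, QuotientGroup.eq]
      have h3 := hNn.conj_mem k hkN r⁻¹
      rw [inv_inv] at h3
      have h4 : r⁻¹ * (k * r) = r⁻¹ * k * r := by group
      rw [h4]
      exact h3
    have h3 : ((r2 : G) : G ⧸ N) = (((k * r)⁻¹ * r1 * (k * r) : G) : G ⧸ N) := h2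
    rw [QuotientGroup.eq] at h3
    -- conjugate by r
    have h4 : (r * r2 * r⁻¹)⁻¹ * (k⁻¹ * r1 * k) ∈ N := by
      have h5 := hNn.conj_mem _ h3 r
      have h6 : r * (r2⁻¹ * ((k * r)⁻¹ * r1 * (k * r))) * r⁻¹ =
          (r * r2 * r⁻¹)⁻¹ * (k⁻¹ * r1 * k) := by group
      rwa [h6] at h5
    have hr3 : r * r2 * r⁻¹ ∈ R := R.mul_mem (R.mul_mem hr hr2) (R.inv_mem hr)
    obtain ⟨r3, hr3def⟩ : ∃ r3, r3 = r * r2 * r⁻¹ := ⟨_, rfl⟩
    rw [← hr3def] at h4 hr3
    have hcK : r1⁻¹ * k⁻¹ * r1 * k ∈ K := by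
      have h5 := hKn.conj_mem k⁻¹ (K.inv_mem hk) r1⁻¹
      rw [inv_inv] at h5
      exact K.mul_mem h5 hk
    have h7 : r3⁻¹ * r1 ∈ K := by
      have h8 := K.mul_mem (hNK h4) (K.inv_mem hcK)
      have h9 : r3⁻¹ * (k⁻¹ * r1 * k) * (r1⁻¹ * k⁻¹ * r1 * k)⁻¹ = r3⁻¹ * r1 := by group
      rwa [h9] at h8
    have h10 : r3⁻¹ * r1 = 1 := hKR _ h7 (R.mul_mem (R.inv_mem hr3) hr1)
    have h11 : r3 = r1 := by
      calc r3 = r3 * (r3⁻¹ * r1) := by rw [h10, mul_one]
        _ = r1 := by group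
    rw [h11] at h4
    by_cases hr1' : r1 = 1
    · rw [hr1', map_one]
    · exfalso
      apply hkN
      have h12 : r1⁻¹ * k⁻¹ * r1 * (k⁻¹)⁻¹ ∈ N := by
        have h13 : r1⁻¹ * (k⁻¹ * r1 * k) = r1⁻¹ * k⁻¹ * r1 * (k⁻¹)⁻¹ := by group
        rwa [h13] at h4
      have h14 := hfpf r1 hr1 hr1' k⁻¹ (K.inv_mem hk) h12
      have h15 := N.inv_mem h14
      rwa [inv_inv] at h15
  · -- the kernel
    ext y
    induction y using QuotientGroup.induction_on with
    | H x =>
    constructor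
    · intro hy
      obtain ⟨k, hk, r, hr, rfl⟩ := hdecomp x
      by_cases hr1 : r = 1
      · refine ⟨k, (hmemK k).mp hk, ?_⟩
        rw [hr1, mul_one]
        rfl
      · exfalso
        have hnotK : k * r ∉ K := by
          intro h1
          have h2 : r ∈ K := by
            have h3 := K.mul_mem (K.inv_mem hk) h1
            have h4 : k⁻¹ * (k * r) = r := by group
            rwa [h4] at h3
          exact hr1 (hKR r h2 hr)
        have hnotK' : k * r ∉ frobeniusKernel R := fun h => hnotK ((hmemK _).mpr h)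
        rw [not_mem_kernel_iff] at hnotK'
        obtain ⟨-, g, hg⟩ := hnotK'
        rcases hy with hy | hy
        · have h1 : k * r ∈ N := (QuotientGroup.eq_one_iff _).mp hy
          exact hnotK (hNK h1)
        · apply hy (g : G ⧸ N)
          rw [mem_conj_smul_iff] at hg ⊢
          exact Subgroup.mem_map.mpr ⟨g⁻¹ * (k * r) * g, hg, rfl⟩
    · rintro ⟨k, hk, hky⟩
      rw [← hky]
      by_cases hk1 : (QuotientGroup.mk' N k) = 1
      · exact Or.inl hk1
      · right
        intro g hg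
        induction g using QuotientGroup.induction_on with
        | H g0 =>
        rw [mem_conj_smul_iff] at hg
        obtain ⟨r, hr, h2⟩ := Subgroup.mem_map.mp hg
        have h3 : ((r : G) : G ⧸ N) = ((g0⁻¹ * k * g0 : G) : G ⧸ N) := h2
        rw [QuotientGroup.eq] at h3
        have h4 : g0⁻¹ * k * g0 ∈ K := by
          have h5 := hKn.conj_mem k ((hmemK k).mpr hk) g0⁻¹
          rwa [inv_inv] at h5
        have h5 : r ∈ K := by
          have h6 := K.mul_mem h4 (K.inv_mem (hNK h3))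
          have h7 : g0⁻¹ * k * g0 * (r⁻¹ * (g0⁻¹ * k * g0))⁻¹ = r := by group
          rwa [h7] at h6
        have h6 := hKR r h5 hr
        apply hk1
        rw [h6, inv_one, one_mul] at h3
        rw [hcoe, QuotientGroup.eq_one_iff]
        have h8 := hNn.conj_mem _ h3 g0
        have h9 : g0 * (g0⁻¹ * k * g0) * g0⁻¹ = k := by group
        rwa [h9] at h8

end Cfsg.Agent.Lib_helper5_FrobQuot
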