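import Mathlib
import Cfsg.Agent.Lib_helper5_PiHall

set_option autoImplicit false

namespace Cfsg.Agent.Lib_helper5_PiHall2

open Cfsg
open scoped Pointwise commutatorElement
open Cfsg.Agent.Lib_helper1_Basic Cfsg.Agent.Lib_helper1_Hall Cfsg.Agent.Lib_helper1_SZConj
  Cfsg.Agent.Lib_helper1_Primitive Cfsg.Agent.Lib_helper1_Coprime Cfsg.Agent.Lib_helper5_PiHall

universe u

/-- a nontrivial solvable normal subgroup contains a nontrivial normal subgroup of the whole
group of prime power order -/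
theorem exists_normal_prime_pow {L : Type*} [Group L] [Finite L] (G : Subgroup L)
    [hGn : G.Normal] (hsolv : Group.IsSolvable G) (hG1 : G ≠ ⊥) :
    ∃ M : Subgroup L, M.Normal ∧ M ≤ G ∧ M ≠ ⊥ ∧
      ∃ r e : ℕ, r.Prime ∧ e ≠ 0 ∧ Nat.card M = r ^ e := by
  obtain ⟨M, ⟨hMn, hMG, hM1⟩, hMmin⟩ := exists_minimal_subgroup
    (fun M : Subgroup L => M.Normal ∧ M ≤ G ∧ M ≠ ⊥) ⟨G, hGn, le_rfl, hG1⟩
  haveI := hMn
  haveI := hsolv
  have hmin' : ∀ K : Subgroup L, K.Normal → K ≤ M → K = ⊥ ∨ K = M := by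
    intro K hK hKM
    by_cases hK1 : K = ⊥
    · exact Or.inl hK1
    · exact Or.inr (hMmin K ⟨hK, hKM.trans hMG, hK1⟩ hKM)
  haveI : Group.IsSolvable M := isSolvable_of_le hMG
  have hlt : ⁅M, M⁆ < M := commutator_lt_of_solvable M hM1
  have hcomm_bot : ⁅M, M⁆ = ⊥ := by
    rcases hmin' ⁅M, M⁆ inferInstance hlt.le with h | h
    · exact h
    · exact absurd h hlt.ne
  have hMc : ∀ u ∈ M, ∀ v ∈ M, u * v = v * u := by
    intro u hu v hv
    have h1 : ⁅u, v⁆ ∈ ⁅M, M⁆ := Subgroup.commutator_mem_commutator hu hv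
    rw [hcomm_bot, Subgroup.mem_bot, commutatorElement_eq_one_iff_mul_comm] at h1
    exact h1
  have hM2 : 2 ≤ Nat.card M := two_le_card_of_ne_bot M hM1
  obtain ⟨r, hr, hrM⟩ := Nat.exists_prime_and_dvd (show Nat.card M ≠ 1 by omega)
  haveI := Fact.mk hr
  obtain ⟨P⟩ : Nonempty (Sylow r M) := inferInstance
  have hPn : (P : Subgroup M).Normal := by
    constructor
    intro x hx g
    have h1 : g * x * g⁻¹ = x := by
      have h2 := hMc g g.2 x x.2
      apply Subtype.ext
      simp only [Subgroup.coe_mul, Subgroup.coe_inv]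
      rw [h2]; group
    rw [h1]; exact hx
  haveI := Sylow.characteristic_of_normal P hPn
  have hPG : ((P : Subgroup M).map M.subtype).Normal := by
    rw [← Subgroup.normalizer_eq_top_iff, eq_top_iff]
    have h1 : (⊤ : Subgroup L) ≤ Subgroup.normalizer (M : Set L) := by
      rw [Subgroup.normalizer_eq_top]
    exact h1.trans (normalizer_le_normalizer_map_characteristic M (P : Subgroup M))
  have hPcard : Nat.card ((P : Subgroup M).map M.subtype) =
      r ^ (Nat.card M).factorization r := by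
    rw [Subgroup.card_map_of_injective M.subtype_injective, Sylow.card_eq_multiplicity]
  have hf : (Nat.card M).factorization r ≠ 0 :=
    (hr.factorization_pos_of_dvd Nat.card_pos.ne' hrM).ne'
  refine ⟨M, hMn, hMG, hM1, r, (Nat.card M).factorization r, hr, hf, ?_⟩
  rcases hmin' _ hPG (Subgroup.map_subtype_le _) with h | h
  · exfalso
    rw [h, Subgroup.card_bot] at hPcard
    have : 1 < r ^ (Nat.card M).factorization r := Nat.one_lt_pow hf hr.one_lt
    omega
  · rw [← hPcard, h]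

/-- Coprime action on a normal solvable subgroup: every `A`-invariant subgroup of order prime
to `n` lies in an `A`-invariant Hall subgroup of order `m` (internal version). -/
theorem hall_dom_aux (N : ℕ) : ∀ (L : Type u) [Group L] [Finite L] (G A U : Subgroup L),
    Nat.card G = N → G.Normal → Group.IsSolvable G → (Nat.card A).Coprime (Nat.card G) → U ≤ G →
    A ≤ Subgroup.normalizer (U : Set L) → ∀ m n : ℕ, Nat.card G = m * n → m.Coprime n →
    (Nat.card U).Coprime n →
    ∃ H : Subgroup L, H ≤ G ∧ Nat.card H = m ∧ A ≤ Subgroup.normalizer (H : Set L) ∧ U ≤ H := by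
  induction N using Nat.strong_induction_on with
  | _ N ih =>
  intro L _ _ G A U hGN hGn hsolv hcop hUG hAU m n hcard hmn hUn
  haveI := hGn
  haveI := hsolv
  by_cases hG1 : G = ⊥
  · have hc1 : Nat.card G = 1 := by rw [hG1]; exact Subgroup.card_bot
    have hm1 : m = 1 := Nat.eq_one_of_mul_eq_one_right (hcard ▸ hc1)
    refine ⟨⊥, bot_le, by rw [Subgroup.card_bot, hm1], ?_, hG1 ▸ hUG⟩
    rw [Subgroup.normalizer_eq_top]; exact le_top
  · obtain ⟨M, hMn, hMG, hM1, r, e, hr, he, hMcard⟩ := exists_normal_prime_pow G hsolv hG1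
    haveI := hMn
    obtain ⟨π, hπ⟩ : ∃ π : L →* L ⧸ M, π = QuotientGroup.mk' M := ⟨_, rfl⟩
    have hπs : Function.Surjective π := hπ ▸ QuotientGroup.mk'_surjective M
    have hGbn : (G.map π).Normal := Subgroup.Normal.map hGn π hπs
    have hGbs : Group.IsSolvable (G.map π) := isSolvable_map π G
    have hGbc : Nat.card (G.map π) * Nat.card M = Nat.card G := by
      rw [hπ]; exact card_map_mk'_mul M G hMG
    have hM2 : 2 ≤ Nat.card M := two_le_card_of_ne_bot M hM1
    have hGbpos : 0 < Nat.card (G.map π) := Nat.card_pos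
    have hlt : Nat.card (G.map π) < N := by
      rw [← hGN, ← hGbc]; nlinarith
    have hAb : (Nat.card (A.map π)).Coprime (Nat.card (G.map π)) :=
      Nat.Coprime.coprime_dvd_left (Subgroup.card_map_dvd A π)
        (Nat.Coprime.coprime_dvd_right (Dvd.intro _ hGbc) hcop)
    have hUb : U.map π ≤ G.map π := Subgroup.map_mono hUG
    have hAUb : A.map π ≤
        Subgroup.normalizer ((U.map π : Subgroup (L ⧸ M)) : Set (L ⧸ M)) :=
      (Subgroup.map_mono hAU).trans (Subgroup.le_normalizer_map π)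
    have hcomapG : (G.map π).comap π = G := by
      rw [hπ]; exact comap_map_mk'_of_le M G hMG
    have pull : ∀ Hb : Subgroup (L ⧸ M), Hb ≤ G.map π →
        A.map π ≤ Subgroup.normalizer (Hb : Set (L ⧸ M)) → U.map π ≤ Hb →
        Hb.comap π ≤ G ∧ Nat.card (Hb.comap π) = Nat.card M * Nat.card Hb ∧
        A ≤ Subgroup.normalizer ((Hb.comap π : Subgroup L) : Set L) ∧ U ≤ Hb.comap π ∧
        M ≤ Hb.comap π := by
      intro Hb hHb hAHb hUHb
      refine ⟨?_, ?_, ?_, ?_, ?_⟩
      · rw [← hcomapG]; exact Subgroup.comap_mono hHb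
      · rw [hπ]; exact card_comap_mk' M Hb
      · intro a ha
        apply Subgroup.le_normalizer_comap π
        rw [Subgroup.mem_comap]
        exact hAHb ⟨a, ha, rfl⟩
      · exact (Subgroup.le_comap_map π U).trans (Subgroup.comap_mono hUHb)
      · rw [hπ]; exact le_comap_mk'_of_le M Hb
    have hMdvd : r ^ e ∣ m * n := by
      rw [← hcard, ← hMcard]; exact Subgroup.card_dvd_of_le hMG
    have hrmn : r ∣ m * n := (dvd_pow_self r he).trans hMdvd
    rcases (Nat.Prime.dvd_mul hr).mp hrmn with hrm | hrn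
    · have hrn' : ¬ r ∣ n := fun h => by
        have h1 := Nat.dvd_gcd hrm h
        rw [hmn] at h1
        exact hr.one_lt.ne' (Nat.dvd_one.mp h1)
      have hcn : (r ^ e).Coprime n :=
        Nat.Coprime.pow_left e ((Nat.Prime.coprime_iff_not_dvd hr).mpr hrn')
      obtain ⟨mb, hmb⟩ : r ^ e ∣ m := hcn.dvd_of_dvd_mul_right hMdvd
      have hGbcard : Nat.card (G.map π) = mb * n := by
        have h1 : Nat.card (G.map π) * r ^ e = (mb * n) * r ^ e := by
          rw [← hMcard, hGbc, hcard, hmb, hMcard]; ring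
        exact Nat.eq_of_mul_eq_mul_right (pow_pos hr.pos e) h1
      have hmbn : mb.Coprime n := Nat.Coprime.coprime_dvd_left (Dvd.intro_left _ hmb.symm) hmn
      have hUbn : (Nat.card (U.map π)).Coprime n :=
        Nat.Coprime.coprime_dvd_left (Subgroup.card_map_dvd U π) hUn
      obtain ⟨Hb, hHbG, hHbc, hHbA, hHbU⟩ := ih _ hlt (L ⧸ M) (G.map π) (A.map π) (U.map π) rfl
        hGbn hGbs hAb hUb hAUb mb n hGbcard hmbn hUbn
      obtain ⟨p1, p2, p3, p4, -⟩ := pull Hb hHbG hHbA hHbU
      exact ⟨Hb.comap π, p1, by rw [p2, hHbc, hMcard, hmb], p3, p4⟩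
    · have hrm' : ¬ r ∣ m := fun h => by
        have h1 := Nat.dvd_gcd h hrn
        rw [hmn] at h1
        exact hr.one_lt.ne' (Nat.dvd_one.mp h1)
      have hcm : (r ^ e).Coprime m :=
        Nat.Coprime.pow_left e ((Nat.Prime.coprime_iff_not_dvd hr).mpr hrm')
      obtain ⟨nb, hnb⟩ : r ^ e ∣ n := hcm.dvd_of_dvd_mul_left hMdvd
      have hGbcard : Nat.card (G.map π) = m * nb := by
        have h1 : Nat.card (G.map π) * r ^ e = (m * nb) * r ^ e := by
          rw [← hMcard, hGbc, hcard, hnb, hMcard]; ring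
        exact Nat.eq_of_mul_eq_mul_right (pow_pos hr.pos e) h1
      have hmnb : m.Coprime nb := Nat.Coprime.coprime_dvd_right (Dvd.intro_left _ hnb.symm) hmn
      have hUbn : (Nat.card (U.map π)).Coprime nb :=
        Nat.Coprime.coprime_dvd_left (Subgroup.card_map_dvd U π)
          (Nat.Coprime.coprime_dvd_right (Dvd.intro_left _ hnb.symm) hUn)
      obtain ⟨Hb, hHbG, hHbc, hHbA, hHbU⟩ := ih _ hlt (L ⧸ M) (G.map π) (A.map π) (U.map π) rfl
        hGbn hGbs hAb hUb hAUb m nb hGbcard hmnb hUbn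
      obtain ⟨H₁, hH₁⟩ : ∃ H₁ : Subgroup L, H₁ = Hb.comap π := ⟨_, rfl⟩
      obtain ⟨p1, p2, p3, p4, p5⟩ := pull Hb hHbG hHbA hHbU
      rw [← hH₁] at p1 p2 p3 p4 p5
      rw [hHbc, hMcard] at p2
      have hUr : (Nat.card U).Coprime (r ^ e) :=
        Nat.Coprime.coprime_dvd_right (Dvd.intro _ hnb.symm) hUn
      haveI : Group.IsSolvable H₁ := isSolvable_of_le p1
      have hH₁card' : Nat.card H₁ = m * r ^ e := by rw [p2, mul_comm]
      have hmr : m.Coprime (r ^ e) := hcm.symm
      obtain ⟨K₀', hK₀', hUK₀'⟩ := hall_dominance (G := H₁) m (r ^ e) hH₁card' hmr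
        (U.subgroupOf H₁) (by rw [card_subgroupOf_of_le p4]; exact hUr)
      obtain ⟨K₀, hK₀⟩ : ∃ K₀ : Subgroup L, K₀ = K₀'.map H₁.subtype := ⟨_, rfl⟩
      have hK₀H : K₀ ≤ H₁ := by rw [hK₀]; exact Subgroup.map_subtype_le _
      have hK₀c : Nat.card K₀ = m := by
        rw [hK₀, Subgroup.card_map_of_injective H₁.subtype_injective, hK₀']
      have hUK₀ : U ≤ K₀ := by
        intro u hu
        rw [hK₀]
        exact ⟨⟨u, p4 hu⟩, hUK₀' (Subgroup.mem_subgroupOf.mpr hu), rfl⟩
      obtain ⟨CM, hCM⟩ : ∃ CM : Subgroup L, CM = M ⊓ Subgroup.centralizer (U : Set L) :=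
        ⟨_, rfl⟩
      have hnormM : ∀ X : Subgroup L, X ≤ Subgroup.normalizer (M : Set L) := by
        intro X; rw [Subgroup.normalizer_eq_top]; exact le_top
      haveI hMsolv : Group.IsSolvable M := isSolvable_of_le hMG
      have trans : ∀ K₁ K₂ : Subgroup L, K₁ ≤ H₁ → K₂ ≤ H₁ → Nat.card K₁ = m →
          Nat.card K₂ = m → U ≤ K₁ → U ≤ K₂ → ∃ c ∈ CM, MulAut.conj c • K₁ = K₂ := by
        intro K₁ K₂ h1 h2 c1 c2 u1 u2
        have hcopMK : (Nat.card M).Coprime (Nat.card K₁) := by rw [hMcard, c1]; exact hcm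
        have hsup : M ⊔ K₁ = H₁ := by
          apply Subgroup.eq_of_le_of_card_ge (sup_le p5 h1)
          obtain ⟨-, hc⟩ := card_sup_of_normalizes K₁ M (hnormM K₁) hcopMK.symm
          rw [card_subgroupOf_of_le le_sup_left, card_subgroupOf_of_le le_sup_right] at hc
          rw [← hc, p2, hMcard, c1]
        obtain ⟨c, hc, hcK⟩ := sz_conj_rel M K₁ K₂ (hnormM K₁) (hsup ▸ h2) (c2.trans c1.symm)
          hcopMK (Or.inl hMsolv)
        refine ⟨c, ?_, hcK⟩
        rw [hCM]
        refine ⟨hc, ?_⟩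
        show c ∈ Subgroup.centralizer (U : Set L)
        rw [Subgroup.mem_centralizer_iff]
        intro u hu
        have h3 : c⁻¹ * u * c ∈ K₁ := by
          have h9 := u2 hu
          rw [← hcK, mem_conj_smul] at h9
          exact h9
        have h4 : u⁻¹ * (c⁻¹ * u * c) ∈ K₁ := K₁.mul_mem (K₁.inv_mem (u1 hu)) h3
        have h5 : u⁻¹ * (c⁻¹ * u * c) ∈ M := by
          have h6 : u⁻¹ * (c⁻¹ * u * c) = (u⁻¹ * c⁻¹ * u⁻¹⁻¹) * c := by group
          rw [h6]
          exact M.mul_mem (hMn.conj_mem _ (M.inv_mem hc) _) hc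
        have h7 : u⁻¹ * (c⁻¹ * u * c) ∈ M ⊓ K₁ := ⟨h5, h4⟩
        rw [disjoint_iff.mp (Subgroup.disjoint_of_coprime_natCard hcopMK), Subgroup.mem_bot] at h7
        have h8 : c⁻¹ * u * c = u := by
          have h10 : u * (u⁻¹ * (c⁻¹ * u * c)) = u * 1 := by rw [h7]
          rw [mul_inv_cancel_left, mul_one] at h10
          exact h10
        calc u * c = c * (c⁻¹ * u * c) := by group
          _ = c * u := by rw [h8]
      letI : MulAction L (Subgroup L) := conjSubgroups L
      have hsmul : ∀ (g : L) (H : Subgroup L), g • H = MulAut.conj g • H := fun _ _ => rfl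
      have hUconj : ∀ a ∈ A, ∀ u ∈ U, a⁻¹ * u * a ∈ U := by
        intro a ha u hu
        have h3 := conj_smul_eq_of_mem_normalizer U a (hAU ha)
        have h4 : u ∈ MulAut.conj a • U := by rw [h3]; exact hu
        rwa [mem_conj_smul] at h4
      have key : ∀ a ∈ A, ∃ k ∈ CM, a • K₀ = k • K₀ := by
        intro a ha
        have h1 : MulAut.conj a • K₀ ≤ H₁ := conj_smul_le_of_mem_normalizer a (p3 ha) hK₀H
        have h2 : U ≤ MulAut.conj a • K₀ := by
          intro u hu
          rw [mem_conj_smul]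
          exact hUK₀ (hUconj a ha u hu)
        obtain ⟨c, hc, hcK⟩ := trans K₀ (MulAut.conj a • K₀) hK₀H h1 hK₀c
          (by rw [card_conj_smul, hK₀c]) hUK₀ h2
        exact ⟨c, hc, by rw [hsmul, hsmul]; exact hcK.symm⟩
      have hACM : A ≤ Subgroup.normalizer (CM : Set L) := by
        rw [Subgroup.le_normalizer_iff]
        intro a ha z hz
        rw [hCM] at hz ⊢
        refine ⟨hMn.conj_mem z hz.1 a, ?_⟩
        show a * z * a⁻¹ ∈ Subgroup.centralizer (U : Set L)
        rw [Subgroup.mem_centralizer_iff]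
        intro u hu
        have h6 := Subgroup.mem_centralizer_iff.mp hz.2 _ (hUconj a ha u hu)
        calc u * (a * z * a⁻¹) = a * ((a⁻¹ * u * a) * z) * a⁻¹ := by group
          _ = a * (z * (a⁻¹ * u * a)) * a⁻¹ := by rw [h6]
          _ = a * z * a⁻¹ * u := by group
      have hCMG : CM ≤ G := by rw [hCM]; exact inf_le_left.trans hMG
      have hcopCM : (Nat.card A).Coprime (Nat.card CM) :=
        Nat.Coprime.coprime_dvd_right (Subgroup.card_dvd_of_le hCMG) hcop
      haveI : Group.IsSolvable CM := isSolvable_of_le hCMG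
      obtain ⟨k, hk, hfix⟩ := coprime_fixed_point (X := Subgroup L) A CM hACM hcopCM
        (Or.inr inferInstance) K₀ key
      have hkM : k ∈ M := by rw [hCM] at hk; exact hk.1
      have hkU : k ∈ Subgroup.centralizer (U : Set L) := by rw [hCM] at hk; exact hk.2
      refine ⟨MulAut.conj k • K₀, ?_, by rw [card_conj_smul, hK₀c], ?_, ?_⟩
      · exact (conj_smul_le_of_mem_normalizer k (Subgroup.le_normalizer (p5 hkM)) hK₀H).trans p1
      · intro a ha
        apply mem_normalizer_of_conj_smul_eq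
        have h5 := hfix a ha
        rw [hsmul, hsmul] at h5
        exact h5
      · intro u hu
        rw [mem_conj_smul]
        have h6 := Subgroup.mem_centralizer_iff.mp hkU u hu
        have h7 : k⁻¹ * u * k = u := by rw [mul_assoc, h6, inv_mul_cancel_left]
        rw [h7]; exact hUK₀ hu

/-- Coprime action on a solvable group: every `A`-invariant subgroup of order prime to `n` lies
in an `A`-invariant Hall subgroup of order `m`. -/
theorem invariant_hall_dominance {X : Type u} [Group X] [Finite X] (A G U : Subgroup X)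
    (hAG : A ≤ Subgroup.normalizer (G : Set X)) (hcop : (Nat.card A).Coprime (Nat.card G))
    (hsolv : Group.IsSolvable G) (hUG : U ≤ G) (hAU : A ≤ Subgroup.normalizer (U : Set X))
    (m n : ℕ) (hcard : Nat.card G = m * n) (hmn : m.Coprime n) (hUn : (Nat.card U).Coprime n) :
    ∃ H : Subgroup X, H ≤ G ∧ Nat.card H = m ∧ A ≤ Subgroup.normalizer (H : Set X) ∧ U ≤ H := by
  obtain ⟨L, hL⟩ : ∃ L : Subgroup X, L = Subgroup.normalizer (G : Set X) := ⟨_, rfl⟩
  have hGL : G ≤ L := by rw [hL]; exact Subgroup.le_normalizer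
  have hAL : A ≤ L := by rw [hL]; exact hAG
  have hGn' : (G.subgroupOf L).Normal := by rw [hL]; exact Subgroup.normal_in_normalizer
  haveI := hsolv
  have hsolv' : Group.IsSolvable (G.subgroupOf L) := isSolvable_subgroupOf hGL
  have hcop' : (Nat.card (A.subgroupOf L)).Coprime (Nat.card (G.subgroupOf L)) := by
    rw [card_subgroupOf_of_le hAL, card_subgroupOf_of_le hGL]; exact hcop
  have hUG' : U.subgroupOf L ≤ G.subgroupOf L := fun x hx => hUG hx
  have hAU' : A.subgroupOf L ≤
      Subgroup.normalizer ((U.subgroupOf L : Subgroup L) : Set L) := by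
    rw [Subgroup.le_normalizer_iff]
    intro a ha u hu
    rw [Subgroup.mem_subgroupOf] at ha hu ⊢
    exact (Subgroup.le_normalizer_iff.mp hAU) _ ha _ hu
  obtain ⟨H', hH'G, hH'c, hH'A, hH'U⟩ := hall_dom_aux _ L (G.subgroupOf L) (A.subgroupOf L)
    (U.subgroupOf L) rfl hGn' hsolv' hcop' hUG' hAU' m n
    (by rw [card_subgroupOf_of_le hGL, hcard]) hmn
    (by rw [card_subgroupOf_of_le (hUG.trans hGL)]; exact hUn)
  refine ⟨H'.map L.subtype, ?_,
    by rw [Subgroup.card_map_of_injective L.subtype_injective, hH'c], ?_, ?_⟩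
  · rintro _ ⟨h, hh, rfl⟩
    exact Subgroup.mem_subgroupOf.mp (hH'G hh)
  · rw [Subgroup.le_normalizer_iff]
    rintro a ha _ ⟨h, hh, rfl⟩
    refine ⟨⟨a, hAL ha⟩ * h * ⟨a, hAL ha⟩⁻¹, ?_, rfl⟩
    exact (Subgroup.le_normalizer_iff.mp hH'A) _ (Subgroup.mem_subgroupOf.mpr ha) _ hh
  · intro u hu
    exact ⟨⟨u, hGL (hUG hu)⟩, hH'U (Subgroup.mem_subgroupOf.mpr hu), rfl⟩

end Cfsg.Agent.Lib_helper5_PiHall2
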