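import Mathlib
import Cfsg.Prelude.Def_KGroupFacts

set_option autoImplicit false

namespace Cfsg.Agent.Lib_helper5_Schur

universe u v

/-- Criterion for a trivial Schur multiplier: every finite stem extension has trivial kernel. -/
theorem hasCyclic_one_of {G : Type u} [Group G] [Finite G]
    (h : ∀ (Γ : Type u) [Group Γ] [Finite Γ] (σ : Γ →* G), Cfsg.IsStemExtension σ → σ.ker = ⊥) :
    Cfsg.HasCyclicSchurMultiplier G 1 := by
  refine ⟨⟨G, inferInstance, inferInstance, MonoidHom.id G, ⟨Function.surjective_id, ?_, ?_⟩, ⟨?_⟩⟩, ?_⟩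
  · simp [MonoidHom.ker_id]
  · simp [MonoidHom.ker_id]
  · have h1 : ∀ x : (MonoidHom.id G).ker, x = 1 := by
      intro x
      have hx : (x : G) ∈ (MonoidHom.id G).ker := x.2
      rw [MonoidHom.mem_ker] at hx
      exact Subtype.ext hx
    have h2 : ∀ y : Multiplicative (ZMod 1), y = 1 := fun y => Subsingleton.elim _ _
    exact
      { toFun := fun _ => 1
        invFun := fun _ => 1
        left_inv := fun x => (h1 x).symm
        right_inv := fun y => (h2 y).symm
        map_mul' := fun _ _ => by simp }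
  · intro Γ _ _ σ hσ
    have hker : σ.ker = ⊥ := h Γ σ hσ
    refine ⟨1, ?_⟩
    intro x
    refine ⟨1, ?_⟩
    have : (x : Γ) ∈ (⊥ : Subgroup Γ) := hker ▸ x.2
    ext
    simpa using (Subgroup.mem_bot.mp this).symm

/-- If `s c s⁻¹` and `s⁻¹ c s` are powers of `c`, then `s` normalizes `zpowers c`. -/
theorem mem_normalizer_zpowers {Γ : Type*} [Group Γ] (c s : Γ)
    (h1 : s * c * s⁻¹ ∈ Subgroup.zpowers c) (h2 : s⁻¹ * c * s ∈ Subgroup.zpowers c) :
    s ∈ Subgroup.normalizer ((Subgroup.zpowers c : Subgroup Γ) : Set Γ) := by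
  rw [Subgroup.mem_normalizer_iff]
  intro h
  constructor
  · intro hh
    obtain ⟨k, rfl⟩ := Subgroup.mem_zpowers_iff.mp hh
    rw [← conj_zpow]
    exact Subgroup.zpow_mem _ h1 k
  · intro hh
    obtain ⟨k, hk⟩ := Subgroup.mem_zpowers_iff.mp hh
    have : h = (s⁻¹ * c * s⁻¹⁻¹) ^ k := by
      rw [conj_zpow, hk]; group
    rw [this]
    apply Subgroup.zpow_mem
    simpa using h2

/-- Stem extensions of dihedral-like groups: if `G` is generated by the images `a`, `x` of `α`, `ξ`
with `x a x⁻¹ = a⁻¹`, and `α ^ n` commutes with `ξ`, then the kernel consists of powers `c ^ k` of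
a single element `c` with `c ^ n = 1`, where moreover `a ^ (2k) = 1`. -/
theorem stem_dihedral_like {Γ : Type u} {G : Type v} [Group Γ] [Group G] (σ : Γ →* G)
    (hσ : Cfsg.IsStemExtension σ) (α ξ : Γ)
    (hgen : Subgroup.closure {σ α, σ ξ} = ⊤)
    (hrel : σ ξ * σ α * (σ ξ)⁻¹ = (σ α)⁻¹)
    (n : ℕ) (hcomm : Commute (α ^ n) ξ) :
    ∃ c : Γ, c ^ n = 1 ∧ ∀ z ∈ σ.ker, ∃ k : ℤ, z = c ^ k ∧ (σ α) ^ (2 * k) = 1 := by
  obtain ⟨hsurj, hcen, hcm⟩ := hσ
  set z₀ := α * ξ * α * ξ⁻¹ with hz₀def
  have hz₀ : z₀ ∈ σ.ker := by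
    rw [MonoidHom.mem_ker, hz₀def]
    simp only [map_mul, map_inv]
    rw [mul_assoc (σ α), mul_assoc (σ α), hrel]; simp
  have hz₀c : ∀ g : Γ, g * z₀ = z₀ * g := Subgroup.mem_center_iff.mp (hcen hz₀)
  have hz₀ic : ∀ g : Γ, g * z₀⁻¹ = z₀⁻¹ * g :=
    Subgroup.mem_center_iff.mp ((Subgroup.center Γ).inv_mem (hcen hz₀))
  set c := α * α * z₀⁻¹ with hcdef
  have F1 : ξ * α * ξ⁻¹ = α⁻¹ * z₀ := by rw [hz₀def]; group
  have F3 : α * c * α⁻¹ = c := by
    rw [hcdef]
    calc α * (α * α * z₀⁻¹) * α⁻¹ = α * α * (α * z₀⁻¹) * α⁻¹ := by group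
      _ = α * α * (z₀⁻¹ * α) * α⁻¹ := by rw [hz₀ic α]
      _ = α * α * z₀⁻¹ := by group
  have F4 : ξ * c * ξ⁻¹ = c⁻¹ := by
    rw [hcdef]
    calc ξ * (α * α * z₀⁻¹) * ξ⁻¹ = (ξ * α * ξ⁻¹) * (ξ * α * ξ⁻¹) * (ξ * z₀⁻¹) * ξ⁻¹ := by group
      _ = (α⁻¹ * z₀) * (α⁻¹ * z₀) * (z₀⁻¹ * ξ) * ξ⁻¹ := by rw [F1, hz₀ic ξ]
      _ = α⁻¹ * z₀ * α⁻¹ := by group
      _ = z₀ * α⁻¹ * α⁻¹ := by rw [hz₀c α⁻¹]
      _ = (α * α * z₀⁻¹)⁻¹ := by group
  have F4' : ξ⁻¹ * c * ξ = c⁻¹ := by
    have h : ξ * c⁻¹ * ξ⁻¹ = c := by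
      have := congrArg Inv.inv F4
      simpa [mul_assoc] using this
    calc ξ⁻¹ * c * ξ = ξ⁻¹ * (ξ * c⁻¹ * ξ⁻¹) * ξ := by rw [h]
      _ = c⁻¹ := by group
  have F3' : α⁻¹ * c * α = c := by
    calc α⁻¹ * c * α = α⁻¹ * (α * c * α⁻¹) * α := by rw [F3]
      _ = c := by group
  -- the generating set
  set S : Set Γ := {α, ξ} ∪ (σ.ker : Set Γ) with hSdef
  have hS : Subgroup.closure S = ⊤ := by
    rw [hSdef, Subgroup.closure_union, Subgroup.closure_eq]
    have h1 : (Subgroup.closure {α, ξ}).map σ = ⊤ := by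
      rw [MonoidHom.map_closure, Set.image_pair, hgen]
    have h2 := Subgroup.comap_map_eq σ (Subgroup.closure {α, ξ})
    rw [h1, Subgroup.comap_top] at h2
    exact h2.symm
  set D : Subgroup Γ := Subgroup.zpowers c with hDdef
  have hcD : c ∈ D := Subgroup.mem_zpowers c
  have hciD : c⁻¹ ∈ D := D.inv_mem hcD
  have hDn : D.Normal := by
    rw [← Subgroup.normalizer_eq_top_iff, eq_top_iff, ← hS, Subgroup.closure_le]
    intro s hs
    rcases hs with hs | hs
    · rcases hs with rfl | hs
      · exact mem_normalizer_zpowers c s (by rw [F3]; exact hcD) (by rw [F3']; exact hcD)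
      · rw [Set.mem_singleton_iff] at hs
        subst hs
        exact mem_normalizer_zpowers c s (by rw [F4]; exact hciD) (by rw [F4']; exact hciD)
    · have hsc : ∀ g : Γ, g * s = s * g := Subgroup.mem_center_iff.mp (hcen hs)
      apply mem_normalizer_zpowers c s
      · have : s * c * s⁻¹ = c := by rw [← hsc c]; group
        rw [this]; exact hcD
      · have : s⁻¹ * c * s = c := by rw [mul_assoc, hsc c]; group
        rw [this]; exact hcD
  -- the quotient by D is commutative
  have hT : ∀ s ∈ S, ∀ t ∈ S, Commute (QuotientGroup.mk' D s) (QuotientGroup.mk' D t) := by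
    have hαξ : Commute (QuotientGroup.mk' D α) (QuotientGroup.mk' D ξ) := by
      have h1 : α * ξ * α⁻¹ * ξ⁻¹ = c := by
        calc α * ξ * α⁻¹ * ξ⁻¹ = α * (ξ * α * ξ⁻¹)⁻¹ := by group
          _ = α * (α⁻¹ * z₀)⁻¹ := by rw [F1]
          _ = α * (z₀⁻¹ * α) := by group
          _ = α * (α * z₀⁻¹) := by rw [hz₀ic α]
          _ = α * α * z₀⁻¹ := by group
      have h2 : QuotientGroup.mk' D (α * ξ * α⁻¹ * ξ⁻¹) = 1 := by
        rw [h1]; exact (QuotientGroup.eq_one_iff c).mpr hcD
      simp only [map_mul, map_inv] at h2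
      show QuotientGroup.mk' D α * QuotientGroup.mk' D ξ = QuotientGroup.mk' D ξ * QuotientGroup.mk' D α
      calc QuotientGroup.mk' D α * QuotientGroup.mk' D ξ
          = (QuotientGroup.mk' D α * QuotientGroup.mk' D ξ * (QuotientGroup.mk' D α)⁻¹ * (QuotientGroup.mk' D ξ)⁻¹) * (QuotientGroup.mk' D ξ * QuotientGroup.mk' D α) := by group
        _ = QuotientGroup.mk' D ξ * QuotientGroup.mk' D α := by rw [h2, one_mul]
    have hker : ∀ s ∈ (σ.ker : Set Γ), ∀ t : Γ, Commute (QuotientGroup.mk' D s) (QuotientGroup.mk' D t) := by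
      intro s hs t
      have hsc : ∀ g : Γ, g * s = s * g := Subgroup.mem_center_iff.mp (hcen hs)
      show QuotientGroup.mk' D s * QuotientGroup.mk' D t = QuotientGroup.mk' D t * QuotientGroup.mk' D s
      rw [← map_mul, ← map_mul, hsc t]
    intro s hs t ht
    rcases hs with hs | hs
    · rcases ht with ht | ht
      · rcases hs with rfl | hs
        · rcases ht with rfl | ht
          · exact Commute.refl _
          · rw [Set.mem_singleton_iff] at ht; subst ht; exact hαξ
        · rw [Set.mem_singleton_iff] at hs; subst hs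
          rcases ht with rfl | ht
          · exact hαξ.symm
          · rw [Set.mem_singleton_iff] at ht; subst ht; exact Commute.refl _
      · exact (hker t ht s).symm
    · exact hker s hs t
  have hcl : ∀ y : Γ, y ∈ Subgroup.closure S := fun y => by rw [hS]; trivial
  have h1 : ∀ s ∈ S, ∀ y : Γ, Commute (QuotientGroup.mk' D s) (QuotientGroup.mk' D y) := by
    intro s hs y
    induction hcl y using Subgroup.closure_induction with
    | mem t ht => exact hT s hs t ht
    | one => rw [map_one]; exact Commute.one_right _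
    | mul a b _ _ iha ihb => rw [map_mul]; exact iha.mul_right ihb
    | inv a _ iha => rw [map_inv]; exact iha.inv_right
  have h2 : ∀ x y : Γ, Commute (QuotientGroup.mk' D x) (QuotientGroup.mk' D y) := by
    intro x y
    induction hcl x using Subgroup.closure_induction with
    | mem t ht => exact h1 t ht y
    | one => rw [map_one]; exact Commute.one_left _
    | mul a b _ _ iha ihb => rw [map_mul]; exact iha.mul_left ihb
    | inv a _ iha => rw [map_inv]; exact iha.inv_left
  have hcomD : commutator Γ ≤ D := by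
    rw [commutator_def, Subgroup.commutator_le]
    intro g _ h _
    rw [← QuotientGroup.eq_one_iff (N := D), commutatorElement_def]
    have := h2 g h
    show QuotientGroup.mk' D (g * h * g⁻¹ * h⁻¹) = 1
    simp only [map_mul, map_inv]
    rw [this.eq]; group
  -- c ^ n = 1
  have hcn : c ^ n = 1 := by
    have e1 : ξ * α ^ n * ξ⁻¹ = α ^ n := by
      have := hcomm.eq
      calc ξ * α ^ n * ξ⁻¹ = (α ^ n * ξ) * ξ⁻¹ := by rw [this]
        _ = α ^ n := by group
    have e2 : ξ * α ^ n * ξ⁻¹ = (α⁻¹) ^ n * z₀ ^ n := by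
      rw [← conj_pow, F1]
      have : Commute α⁻¹ z₀ := hz₀c α⁻¹
      exact this.mul_pow n
    have e3 : α ^ n * α ^ n = z₀ ^ n := by
      have : α ^ n = (α⁻¹) ^ n * z₀ ^ n := e1.symm.trans e2
      calc α ^ n * α ^ n = α ^ n * ((α⁻¹) ^ n * z₀ ^ n) := by rw [← this]
        _ = z₀ ^ n := by rw [inv_pow]; group
    have hc1 : Commute (α * α) z₀⁻¹ := by
      show α * α * z₀⁻¹ = z₀⁻¹ * (α * α)
      exact hz₀ic (α * α)
    rw [hcdef, hc1.mul_pow, (Commute.refl α).mul_pow, e3, inv_pow, mul_inv_cancel]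
  refine ⟨c, hcn, ?_⟩
  intro z hz
  obtain ⟨k, hk⟩ := Subgroup.mem_zpowers_iff.mp (hcomD (hcm hz))
  refine ⟨k, hk.symm, ?_⟩
  have hσc : σ c = σ α * σ α := by
    rw [hcdef, map_mul, map_mul, map_inv, MonoidHom.mem_ker.mp hz₀]; simp
  have : σ z = 1 := MonoidHom.mem_ker.mp hz
  rw [← hk, map_zpow, hσc, ← pow_two, ← zpow_natCast, ← zpow_mul] at this
  simpa using this

/-- The dihedral group is generated by `r 1` and `sr 0`. -/
theorem dihedral_gen (n : ℕ) :
    Subgroup.closure {(DihedralGroup.r 1 : DihedralGroup n), DihedralGroup.sr 0} = ⊤ := by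
  rw [eq_top_iff]
  intro g _
  have hr : (DihedralGroup.r 1 : DihedralGroup n) ∈
      Subgroup.closure {(DihedralGroup.r 1 : DihedralGroup n), DihedralGroup.sr 0} :=
    Subgroup.subset_closure (by simp)
  have hs : (DihedralGroup.sr 0 : DihedralGroup n) ∈
      Subgroup.closure {(DihedralGroup.r 1 : DihedralGroup n), DihedralGroup.sr 0} :=
    Subgroup.subset_closure (by simp)
  have hri : ∀ i : ZMod n, (DihedralGroup.r i : DihedralGroup n) ∈
      Subgroup.closure {(DihedralGroup.r 1 : DihedralGroup n), DihedralGroup.sr 0} := by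
    intro i
    have : (DihedralGroup.r i : DihedralGroup n) = DihedralGroup.r 1 ^ (ZMod.cast i : ℤ) := by
      rw [DihedralGroup.r_one_zpow, ZMod.intCast_zmod_cast]
    rw [this]
    exact Subgroup.zpow_mem _ hr _
  cases g with
  | r i => exact hri i
  | sr i =>
    have : (DihedralGroup.sr i : DihedralGroup n) = DihedralGroup.sr 0 * DihedralGroup.r i := by
      rw [DihedralGroup.sr_mul_r, zero_add]
    rw [this]
    exact Subgroup.mul_mem _ hs (hri i)

/-- The dicyclic group is generated by `a 1` and `xa 0`. -/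
theorem quaternion_gen (n : ℕ) :
    Subgroup.closure {(QuaternionGroup.a 1 : QuaternionGroup n), QuaternionGroup.xa 0} = ⊤ := by
  rw [eq_top_iff]
  intro g _
  have hr : (QuaternionGroup.a 1 : QuaternionGroup n) ∈
      Subgroup.closure {(QuaternionGroup.a 1 : QuaternionGroup n), QuaternionGroup.xa 0} :=
    Subgroup.subset_closure (by simp)
  have hs : (QuaternionGroup.xa 0 : QuaternionGroup n) ∈
      Subgroup.closure {(QuaternionGroup.a 1 : QuaternionGroup n), QuaternionGroup.xa 0} :=
    Subgroup.subset_closure (by simp)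
  have hri : ∀ i : ZMod (2 * n), (QuaternionGroup.a i : QuaternionGroup n) ∈
      Subgroup.closure {(QuaternionGroup.a 1 : QuaternionGroup n), QuaternionGroup.xa 0} := by
    intro i
    rcases Nat.eq_zero_or_pos n with h0 | hpos
    · subst h0
      -- ZMod 0 = ℤ
      have : (QuaternionGroup.a i : QuaternionGroup 0) = QuaternionGroup.a 1 ^ (ZMod.cast i : ℤ) := by
        have hz : ∀ k : ℤ, (QuaternionGroup.a 1 : QuaternionGroup 0) ^ k = QuaternionGroup.a (k : ZMod (2 * 0)) := by
          intro k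
          induction k using Int.induction_on with
          | zero => simp
          | succ k ih =>
            rw [zpow_add_one, ih, QuaternionGroup.a_mul_a]; push_cast; rfl
          | pred k ih =>
            rw [zpow_sub_one, ih]
            have : (QuaternionGroup.a 1 : QuaternionGroup 0)⁻¹ = QuaternionGroup.a (-1) := rfl
            rw [this, QuaternionGroup.a_mul_a]; push_cast; ring_nf
        rw [hz, ZMod.intCast_zmod_cast]
      rw [this]
      exact Subgroup.zpow_mem _ hr _
    · have : NeZero (2 * n) := ⟨by omega⟩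
      have : (QuaternionGroup.a i : QuaternionGroup n) = QuaternionGroup.a 1 ^ i.val := by
        rw [QuaternionGroup.a_one_pow, ZMod.natCast_zmod_val]
      rw [this]
      exact Subgroup.pow_mem _ hr _
  cases g with
  | a i => exact hri i
  | xa i =>
    have : (QuaternionGroup.xa i : QuaternionGroup n) = QuaternionGroup.xa 0 * QuaternionGroup.a i := by
      rw [QuaternionGroup.xa_mul_a, zero_add]
    rw [this]
    exact Subgroup.mul_mem _ hs (hri i)


/-- A group all of whose elements are `1` or an involution `e` is a quotient of `ZMod 2`. -/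
theorem surj_of_two {K : Type*} [Group K] (e : K) (he : e ^ 2 = 1) (h : ∀ z : K, z = 1 ∨ z = e) :
    ∃ π : Multiplicative (ZMod 2) →* K, Function.Surjective π := by
  let π : Multiplicative (ZMod 2) →* K :=
    MonoidHom.mk' (fun x => e ^ (Multiplicative.toAdd x).val) (by
      intro x y
      show e ^ (Multiplicative.toAdd x + Multiplicative.toAdd y).val = _
      rw [ZMod.val_add, ← pow_eq_pow_mod _ he, pow_add])
  refine ⟨π, ?_⟩
  intro z
  rcases h z with rfl | rfl
  · exact ⟨1, map_one π⟩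
  · refine ⟨Multiplicative.ofAdd (1 : ZMod 2), ?_⟩
    show z ^ (1 : ZMod 2).val = z
    rw [ZMod.val_one, pow_one]


end Cfsg.Agent.Lib_helper5_Schur
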