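import Mathlib

set_option autoImplicit false

namespace Cfsg.Agent.Lib_helper6_Comm

variable {G : Type*} [Group G]

/-- Three subgroups lemma modulo a normal subgroup. -/
theorem three_subgroups_le (N : Subgroup G) [N.Normal] {H₁ H₂ H₃ : Subgroup G}
    (h1 : ⁅⁅H₂, H₃⁆, H₁⁆ ≤ N) (h2 : ⁅⁅H₃, H₁⁆, H₂⁆ ≤ N) : ⁅⁅H₁, H₂⁆, H₃⁆ ≤ N := by
  have key : ∀ K : Subgroup G, K ≤ N ↔ K.map (QuotientGroup.mk' N) = ⊥ := by
    intro K
    rw [Subgroup.map_eq_bot_iff, QuotientGroup.ker_mk']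
  rw [key] at h1 h2 ⊢
  rw [Subgroup.map_commutator, Subgroup.map_commutator] at h1 h2 ⊢
  exact Subgroup.commutator_commutator_eq_bot_of_rotate h1 h2

end Cfsg.Agent.Lib_helper6_Comm
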