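import Mathlib

set_option autoImplicit false

namespace Cfsg.Agent.Lib_helper6_ElemAb

open scoped BigOperators

/-- Linear version: in a `ZMod p`-module of order `p ^ r` the set of linearly independent
`r`-tuples has `∏ (p ^ r - p ^ i)` elements, each generates, and the set is stable under
additive automorphisms. -/
theorem exists_basis_set_module {W : Type*} [AddCommGroup W] [Finite W] (p r : ℕ) [Fact p.Prime]
    [Module (ZMod p) W] (hcard : Nat.card W = p ^ r) :
    ∃ Ω : Set (Fin r → W), Nat.card Ω = ∏ i ∈ Finset.range r, (p ^ r - p ^ i) ∧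
      (∀ f ∈ Ω, AddSubgroup.closure (Set.range f) = ⊤) ∧
      (∀ (e : W ≃+ W), ∀ f ∈ Ω, (fun i => e (f i)) ∈ Ω) := by
  classical
  have hp : p.Prime := Fact.out
  have hrank : Module.finrank (ZMod p) W = r := by
    let _ : Fintype W := Fintype.ofFinite _
    have h1 := Module.card_eq_pow_finrank (K := ZMod p) (V := W)
    rw [← Nat.card_eq_fintype_card, hcard, ZMod.card] at h1
    exact (Nat.pow_right_injective hp.two_le h1).symm
  refine ⟨{f | LinearIndependent (ZMod p) f}, ?_, ?_, ?_⟩
  · have h1 := card_linearIndependent (K := ZMod p) (V := W) (k := r) (le_of_eq hrank.symm)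
    rw [hrank, ZMod.card] at h1
    rw [← Fin.prod_univ_eq_prod_range (fun i => p ^ r - p ^ i), ← h1]
    rfl
  · intro f hf
    have hf' : LinearIndependent (ZMod p) f := hf
    have hspan : Submodule.span (ZMod p) (Set.range f) = ⊤ :=
      LinearIndependent.span_eq_top_of_card_eq_finrank' hf' (by rw [Fintype.card_fin, hrank])
    have hle : Submodule.span (ZMod p) (Set.range f) ≤
        AddSubgroup.toZModSubmodule p (AddSubgroup.closure (Set.range f)) := by
      rw [Submodule.span_le]
      rintro _ ⟨i, rfl⟩
      show f i ∈ AddSubgroup.closure (Set.range f)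
      exact AddSubgroup.subset_closure ⟨i, rfl⟩
    rw [hspan] at hle
    rw [eq_top_iff]
    intro v _
    have := hle (Submodule.mem_top (x := v))
    exact this
  · intro e f hf
    have hf' : LinearIndependent (ZMod p) f := hf
    have h1 := hf'.map' (e.toAddMonoidHom.toZModLinearMap p)
      (LinearMap.ker_eq_bot.mpr (fun a b hab => e.injective hab))
    exact h1

/-- Commutative version of `exists_basis_set`. -/
theorem exists_basis_set_comm {V : Type*} [CommGroup V] [Finite V] (p r : ℕ) [Fact p.Prime]
    (hexp : ∀ a : V, a ^ p = 1) (hcard : Nat.card V = p ^ r) :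
    ∃ Ω : Set (Fin r → V), Nat.card Ω = ∏ i ∈ Finset.range r, (p ^ r - p ^ i) ∧
      (∀ f ∈ Ω, Subgroup.closure (Set.range f) = ⊤) ∧
      (∀ (e : V ≃* V), ∀ f ∈ Ω, (fun i => e (f i)) ∈ Ω) := by
  classical
  let instM : Module (ZMod p) (Additive V) := AddCommGroup.zmodModule (n := p) (fun x => by
    have h1 := hexp x.toMul
    exact congrArg Additive.ofMul h1)
  have hfin : Finite (Additive V) := ‹Finite V›
  obtain ⟨Ω, h1, h2, h3⟩ := exists_basis_set_module (W := Additive V) p r hcard
  refine ⟨Ω, h1, ?_, ?_⟩
  · intro f hf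
    have h4 := h2 f hf
    rw [eq_top_iff]
    intro v _
    have h5 : Additive.ofMul v ∈ AddSubgroup.closure (G := Additive V) (Set.range f) := by
      rw [h4]; trivial
    have h6 : AddSubgroup.closure (G := Additive V) (Set.range f) ≤
        Subgroup.toAddSubgroup (Subgroup.closure (Set.range f)) := by
      rw [AddSubgroup.closure_le]
      rintro _ ⟨i, rfl⟩
      show f i ∈ Subgroup.closure (Set.range f)
      exact Subgroup.subset_closure ⟨i, rfl⟩
    exact h6 h5
  · intro e f hf
    exact h3 (MulEquiv.toAdditive e) f hf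

/-- In an elementary abelian group of order `p ^ r` there is a set of `r`-tuples, of size
`∏ (p ^ r - p ^ i)`, each generating the group, stable under all automorphisms. -/
theorem exists_basis_set {V : Type*} [Group V] [Finite V] (p r : ℕ) [Fact p.Prime]
    (hcomm : ∀ a b : V, a * b = b * a) (hexp : ∀ a : V, a ^ p = 1)
    (hcard : Nat.card V = p ^ r) :
    ∃ Ω : Set (Fin r → V), Nat.card Ω = ∏ i ∈ Finset.range r, (p ^ r - p ^ i) ∧
      (∀ f ∈ Ω, Subgroup.closure (Set.range f) = ⊤) ∧
      (∀ (e : V ≃* V), ∀ f ∈ Ω, (fun i => e (f i)) ∈ Ω) := by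
  let instC : CommGroup V := { ‹Group V› with mul_comm := hcomm }
  exact exists_basis_set_comm p r hexp hcard

end Cfsg.Agent.Lib_helper6_ElemAb
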