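import Mathlib
import Cfsg.Prelude.Def_Solvable
import Cfsg.Prelude.Def_Transfer
import Cfsg.Prelude.Def_MonsterType
import Cfsg.Agent.Lib_helper6_PCore

set_option autoImplicit false

namespace Cfsg.Agent.Lib_helper6_Extra

open Cfsg.Agent.Lib_helper6_PCore

variable {G : Type*} [Group G]

/-- an element of an odd-order subgroup and of a 2-subgroup is trivial -/
theorem eq_one_of_odd_of_two [Finite G] (K T : Subgroup G) (hK : Odd (Nat.card K))
    (hT : IsPGroup 2 T) (x : G) (hxK : x ∈ K) (hxT : x ∈ T) : x = 1 := by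
  obtain ⟨j, hj⟩ := hT ⟨x, hxT⟩
  have h1 : x ^ 2 ^ j = 1 := by simpa [Subtype.ext_iff] using hj
  have h2 : orderOf x ∣ 2 ^ j := orderOf_dvd_of_pow_eq_one h1
  have h3 : orderOf x ∣ Nat.card K := by
    have := orderOf_dvd_natCard (⟨x, hxK⟩ : K)
    rwa [Subgroup.orderOf_mk] at this
  have h4 : (Nat.card K).Coprime (2 ^ j) := by
    apply Nat.Coprime.pow_right
    exact Nat.coprime_two_right.mpr hK
  have h5 : orderOf x ∣ 1 := by
    have := Nat.dvd_gcd h3 h2
    rwa [h4] at this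
  exact orderOf_eq_one_iff.mp (Nat.dvd_one.mp h5)

theorem large_of_center_le [Finite G] (Q : Subgroup G) (hL1 : Cfsg.IsExtraspecial 2 ↥Q)
    (hL2 : Subgroup.centralizer (Q : Set G) = ((Subgroup.center ↥Q).map Q.subtype))
    (hL3 : Subgroup.centralizer (((Subgroup.center ↥Q).map Q.subtype) : Set G) ≤
      Subgroup.normalizer (Q : Set G))
    (hZ : ((Subgroup.center ↥Q).map Q.subtype) ≤ Cfsg.pCore 2 G) :
    Cfsg.IsLargeExtraspecial Q := by
  refine ⟨hL1, hL2, hL3, ?_⟩
  intro K hK hQK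
  haveI : Fact (Nat.Prime 2) := ⟨Nat.prime_two⟩
  have hQ2 : IsPGroup 2 Q := hL1.1.1
  have hR2 : IsPGroup 2 (Cfsg.pCore 2 G) := pCore_isPGroup 2
  have hZQ : (Subgroup.center ↥Q).map Q.subtype ≤ Q := by
    rintro _ ⟨y, _, rfl⟩
    exact y.2
  -- K centralizes Z
  have h1 : K ≤ Subgroup.centralizer (((Subgroup.center ↥Q).map Q.subtype : Subgroup G) : Set G) := by
    intro k hk
    rw [Subgroup.mem_centralizer_iff]
    intro z hz
    have hzN := hQK (hZQ hz)
    rw [Subgroup.mem_normalizer_iff] at hzN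
    have hc1 : z * k * z⁻¹ * k⁻¹ ∈ K := K.mul_mem ((hzN k).mp hk) (K.inv_mem hk)
    have hc2 : z * k * z⁻¹ * k⁻¹ ∈ Cfsg.pCore 2 G := by
      have h0 : k * z⁻¹ * k⁻¹ ∈ Cfsg.pCore 2 G :=
        Subgroup.Normal.conj_mem inferInstance _ (Subgroup.inv_mem _ (hZ hz)) k
      have h00 := Subgroup.mul_mem _ (hZ hz) h0
      simpa [mul_assoc] using h00
    have hc3 := eq_one_of_odd_of_two K _ hK hR2 _ hc1 hc2
    have hc4 : z * k = k * z := by
      have h0 : z * k * z⁻¹ = k := by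
        rw [mul_inv_eq_one] at hc3
        exact hc3
      calc z * k = z * k * z⁻¹ * z := by group
        _ = k * z := by rw [h0]
    exact hc4
  -- so K normalizes Q, and then centralizes Q
  have h2 : K ≤ Subgroup.centralizer (Q : Set G) := by
    intro k hk
    rw [Subgroup.mem_centralizer_iff]
    intro q hq
    have hkN := hL3 (h1 hk)
    rw [Subgroup.mem_normalizer_iff] at hkN
    have hqN := hQK hq
    rw [Subgroup.mem_normalizer_iff] at hqN
    have hc1 : k * q * k⁻¹ * q⁻¹ ∈ Q := Q.mul_mem ((hkN q).mp hq) (Q.inv_mem hq)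
    have hc2 : k * q * k⁻¹ * q⁻¹ ∈ K := by
      have h0 : q * k⁻¹ * q⁻¹ ∈ K := (hqN k⁻¹).mp (K.inv_mem hk)
      have h00 := K.mul_mem hk h0
      simpa [mul_assoc] using h00
    have hc3 := eq_one_of_odd_of_two K Q hK hQ2 _ hc2 hc1
    have h0 : k * q * k⁻¹ = q := by
      rw [mul_inv_eq_one] at hc3
      exact hc3
    calc q * k = k * q * k⁻¹ * k := by rw [h0]
      _ = k * q := by group
  rw [eq_bot_iff]
  intro k hk
  rw [Subgroup.mem_bot]
  have h3 : k ∈ Q := hZQ (hL2 ▸ h2 hk)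
  exact eq_one_of_odd_of_two K Q hK hQ2 k hk h3

theorem sup_normalizer_eq_top [Finite G] (Q : Subgroup G) (hL1 : Cfsg.IsExtraspecial 2 ↥Q)
    (hL2 : Subgroup.centralizer (Q : Set G) = ((Subgroup.center ↥Q).map Q.subtype))
    (hL3 : Subgroup.centralizer (((Subgroup.center ↥Q).map Q.subtype) : Set G) ≤
      Subgroup.normalizer (Q : Set G))
    (L : Subgroup G) [L.Normal] (hQL : Q ≤ L) : L ⊔ Subgroup.normalizer (Q : Set G) = ⊤ := by
  haveI : Fact (Nat.Prime 2) := ⟨Nat.prime_two⟩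
  have hQ2 : IsPGroup 2 Q := hL1.1.1
  have hQL2 : IsPGroup 2 (Q.subgroupOf L) := hQ2.comap_subtype
  obtain ⟨T, hT⟩ := hQL2.exists_le_sylow
  have hFr := Sylow.normalizer_sup_eq_top T
  set T' : Subgroup G := (T : Subgroup ↥L).map L.subtype with hT'
  have hT'2 : IsPGroup 2 T' := T.2.map L.subtype
  have hQT' : Q ≤ T' := by
    intro q hq
    exact ⟨⟨q, hQL hq⟩, hT (by rw [Subgroup.mem_subgroupOf]; exact hq), rfl⟩
  -- the centre of Q has two elements
  have hcard : Nat.card ((Subgroup.center ↥Q).map Q.subtype : Subgroup G) = 2 := by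
    rw [← hL1.2]
    exact Nat.card_congr
      ((Subgroup.center ↥Q).equivMapOfInjective Q.subtype Q.subtype_injective).symm.toEquiv
  obtain ⟨w0, hw0, hw0u⟩ := (Nat.card_eq_two_iff' (1 : ((Subgroup.center ↥Q).map Q.subtype : Subgroup G))).mp hcard
  have hZuniq : ∀ a b : G, a ∈ (Subgroup.center ↥Q).map Q.subtype → b ∈ (Subgroup.center ↥Q).map Q.subtype →
      a ≠ 1 → b ≠ 1 → a = b := by
    intro a b ha hb ha1 hb1
    have e1 := hw0u ⟨a, ha⟩ (fun h => ha1 (congrArg Subtype.val h))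
    have e2 := hw0u ⟨b, hb⟩ (fun h => hb1 (congrArg Subtype.val h))
    exact congrArg Subtype.val (e1.trans e2.symm)
  -- a nontrivial central element of T'
  haveI : Nontrivial ↥T' := by
    refine ⟨⟨⟨(w0 : G), hQT' ?_⟩, 1, ?_⟩⟩
    · obtain ⟨y, _, hy⟩ := w0.2
      rw [← hy]
      exact y.2
    · intro h
      have h0 : (w0 : G) = 1 := congrArg Subtype.val h
      exact hw0 (Subtype.ext h0)
  have hcen := IsPGroup.center_nontrivial hT'2
  obtain ⟨⟨w, hwc⟩, hw1⟩ := exists_ne (1 : Subgroup.center ↥T')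
  have hw1' : (w : G) ≠ 1 := by
    intro h
    apply hw1
    apply Subtype.ext
    apply Subtype.ext
    exact h
  have hwcomm : ∀ t ∈ T', t * (w : G) = (w : G) * t := by
    intro t ht
    have h0 := Subgroup.mem_center_iff.mp hwc ⟨t, ht⟩
    exact congrArg Subtype.val h0
  have hZw : ∀ u : G, u ∈ T' → (∀ t ∈ T', t * u = u * t) → u ∈ (Subgroup.center ↥Q).map Q.subtype := by
    intro u _ hu
    rw [← hL2, Subgroup.mem_centralizer_iff]
    intro q hq
    exact hu q (hQT' hq)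
  have hwZ : (w : G) ∈ (Subgroup.center ↥Q).map Q.subtype := hZw w w.2 hwcomm
  have hle : Subgroup.normalizer (T' : Set G) ≤ Subgroup.normalizer (Q : Set G) := by
    intro g hg
    apply hL3
    rw [Subgroup.mem_normalizer_iff] at hg
    -- g w g⁻¹ is again central in T'
    have h1 : g * (w : G) * g⁻¹ ∈ T' := (hg w).mp w.2
    have h2 : ∀ t ∈ T', t * (g * (w : G) * g⁻¹) = (g * (w : G) * g⁻¹) * t := by
      intro t ht
      have h3 : g⁻¹ * t * g ∈ T' := by
        rw [hg (g⁻¹ * t * g)]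
        have h4 : g * (g⁻¹ * t * g) * g⁻¹ = t := by group
        rw [h4]
        exact ht
      have h5 := hwcomm _ h3
      calc t * (g * (w : G) * g⁻¹) = g * ((g⁻¹ * t * g) * (w : G)) * g⁻¹ := by group
        _ = g * ((w : G) * (g⁻¹ * t * g)) * g⁻¹ := by rw [h5]
        _ = (g * (w : G) * g⁻¹) * t := by group
    have h6 : g * (w : G) * g⁻¹ ∈ (Subgroup.center ↥Q).map Q.subtype := hZw _ h1 h2
    have h7 : g * (w : G) * g⁻¹ ≠ 1 := by
      intro h
      apply hw1'
      have h8 : (w : G) = g⁻¹ * (g * (w : G) * g⁻¹) * g := by group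
      rw [h8, h]
      group
    have h9 : g * (w : G) * g⁻¹ = (w : G) := hZuniq _ _ h6 hwZ h7 hw1'
    rw [Subgroup.mem_centralizer_iff]
    intro z hz
    by_cases hz1 : z = 1
    · rw [hz1]
      simp
    · have h10 : z = (w : G) := hZuniq _ _ hz hwZ hz1 hw1'
      rw [h10]
      calc (w : G) * g = g * (w : G) * g⁻¹ * g := by rw [h9]
        _ = g * (w : G) := by group
  rw [eq_top_iff, ← hFr, sup_comm]
  exact sup_le_sup_left hle L

end Cfsg.Agent.Lib_helper6_Extra
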