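import Cfsg.Agent.Lib_lead_Leech

set_option autoImplicit false

namespace Cfsg.Agent.Lib_helper6_LeechMod2

open Cfsg

theorem sqNorm_two_smul {α : Type*} [Fintype α] (z : α → ℤ) :
    sqNorm (2 • z) = 4 * sqNorm z := by
  unfold sqNorm
  rw [Finset.mul_sum]
  refine Finset.sum_congr rfl fun i _ => ?_
  simp only [Pi.smul_apply, smul_eq_mul]
  ring

theorem sqNorm_sub {α : Type*} [Fintype α] (x y : α → ℤ) :
    sqNorm (x - y) = sqNorm x + sqNorm y - 2 * dotInt x y := by
  unfold sqNorm dotInt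
  rw [Finset.mul_sum, ← Finset.sum_add_distrib, ← Finset.sum_sub_distrib]
  refine Finset.sum_congr rfl fun i _ => ?_
  simp only [Pi.sub_apply]
  ring

theorem sqNorm_add {α : Type*} [Fintype α] (x y : α → ℤ) :
    sqNorm (x + y) = sqNorm x + sqNorm y + 2 * dotInt x y := by
  unfold sqNorm dotInt
  rw [Finset.mul_sum, ← Finset.sum_add_distrib, ← Finset.sum_add_distrib]
  refine Finset.sum_congr rfl fun i _ => ?_
  simp only [Pi.add_apply]
  ring

theorem sqNorm_neg {α : Type*} [Fintype α] (x : α → ℤ) :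
    sqNorm (-x) = sqNorm x := by
  unfold sqNorm
  refine Finset.sum_congr rfl fun i _ => ?_
  simp only [Pi.neg_apply]
  ring

theorem key (x y : GolayPt → ℤ) (hx : x ∈ leechLattice) (hy : y ∈ leechLattice)
    (hxy : x ≠ y) (hxy' : x ≠ -y) (hxn : sqNorm x ≤ 64) (hyn : sqNorm y ≤ 64)
    (hc : ∃ z ∈ leechLattice, x - y = 2 • z) :
    sqNorm x = 64 ∧ sqNorm y = 64 ∧ dotInt x y = 0 := by
  obtain ⟨z, hz, hxz⟩ := hc
  have hz0 : z ≠ 0 := by
    rintro rfl
    apply hxy
    have : x - y = 0 := by rw [hxz]; simp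
    exact sub_eq_zero.mp this
  have h1 : 32 ≤ sqNorm z := Cfsg.Agent.Lib_lead_Leech.sqNorm_ge hz hz0
  have hzy : z + y ∈ leechLattice := leechLattice.add_mem hz hy
  have hxz' : x + y = 2 • (z + y) := by
    have : x = 2 • z + y := by rw [← hxz]; abel
    rw [this]
    simp only [smul_add, two_smul]
    abel
  have hzy0 : z + y ≠ 0 := by
    intro h0
    apply hxy'
    have : x + y = 0 := by rw [hxz', h0]; simp
    exact eq_neg_of_add_eq_zero_left this
  have h2 : 32 ≤ sqNorm (z + y) := Cfsg.Agent.Lib_lead_Leech.sqNorm_ge hzy hzy0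
  have e1 : sqNorm (x - y) = 4 * sqNorm z := by rw [hxz, sqNorm_two_smul]
  have e2 : sqNorm (x + y) = 4 * sqNorm (z + y) := by rw [hxz', sqNorm_two_smul]
  rw [sqNorm_sub] at e1
  rw [sqNorm_add] at e2
  refine ⟨by omega, by omega, by omega⟩

end Cfsg.Agent.Lib_helper6_LeechMod2
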