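import Mathlib
import Cfsg.Agent.Lib_helper5_Frob

set_option autoImplicit false

namespace Cfsg.Agent.Lib_helper6_PGen

/-- a group of order `p ^ r` is generated by `r` elements -/
theorem exists_gen {Q : Type*} [Group Q] [Finite Q] {p : ℕ} [Fact p.Prime] (r : ℕ)
    (hQ : Nat.card Q = p ^ r) : ∃ f : Fin r → Q, Subgroup.closure (Set.range f) = ⊤ := by
  classical
  have hp : p.Prime := Fact.out
  have hpow : ∀ C : Subgroup Q, ∃ a : ℕ, Nat.card C = p ^ a := by
    intro C
    have h1 : Nat.card C ∣ p ^ r := hQ ▸ Subgroup.card_subgroup_dvd_card C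
    obtain ⟨a, -, ha⟩ := (Nat.dvd_prime_pow hp).1 h1
    exact ⟨a, ha⟩
  have key : ∀ j : ℕ, j ≤ r → ∃ f : Fin j → Q, Subgroup.closure (Set.range f) = ⊤ ∨
      p ^ j ≤ Nat.card (Subgroup.closure (Set.range f)) := by
    intro j
    induction j with
    | zero =>
      intro _
      exact ⟨fun i => i.elim0, Or.inr (by rw [pow_zero]; exact Nat.card_pos)⟩
    | succ j ih =>
      intro hj
      obtain ⟨f, hf⟩ := ih (by omega)
      by_cases htop : Subgroup.closure (Set.range f) = ⊤
      · refine ⟨Fin.cons 1 f, Or.inl ?_⟩
        rw [eq_top_iff, ← htop]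
        apply Subgroup.closure_mono
        rw [Fin.range_cons]
        exact Set.subset_insert _ _
      · have hfj : p ^ j ≤ Nat.card (Subgroup.closure (Set.range f)) := hf.resolve_left htop
        obtain ⟨x, hx⟩ : ∃ x : Q, x ∉ Subgroup.closure (Set.range f) := by
          by_contra hall
          push Not at hall
          exact htop (eq_top_iff.mpr (fun y _ => hall y))
        refine ⟨Fin.cons x f, Or.inr ?_⟩
        have hle : Subgroup.closure (Set.range f) ≤
            Subgroup.closure (Set.range (Fin.cons x f : Fin (j + 1) → Q)) := by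
          apply Subgroup.closure_mono
          rw [Fin.range_cons]
          exact Set.subset_insert _ _
        have hxmem : x ∈ Subgroup.closure (Set.range (Fin.cons x f : Fin (j + 1) → Q)) := by
          apply Subgroup.subset_closure
          rw [Fin.range_cons]
          exact Set.mem_insert _ _
        have hlt : Nat.card (Subgroup.closure (Set.range f)) <
            Nat.card (Subgroup.closure (Set.range (Fin.cons x f : Fin (j + 1) → Q))) := by
          by_contra hcon
          push Not at hcon
          have := Subgroup.eq_of_le_of_card_ge hle hcon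
          rw [this] at hx
          exact hx hxmem
        obtain ⟨a, ha⟩ := hpow (Subgroup.closure (Set.range f))
        obtain ⟨k, hk⟩ := hpow (Subgroup.closure (Set.range (Fin.cons x f : Fin (j + 1) → Q)))
        rw [ha] at hfj hlt
        rw [hk] at hlt ⊢
        have h1 : j ≤ a := (Nat.pow_le_pow_iff_right hp.one_lt).mp hfj
        have h2 : a < k := (Nat.pow_lt_pow_iff_right hp.one_lt).mp hlt
        exact Nat.pow_le_pow_right hp.pos (by omega)
  obtain ⟨f, hf⟩ := key r le_rfl
  refine ⟨f, ?_⟩
  rcases hf with h | h
  · exact h
  · apply Subgroup.eq_top_of_le_card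
    rw [hQ]; exact h

/-- a free action: the order of the group divides the number of points -/
theorem card_dvd_of_free {A X : Type*} [Group A] [Finite A] [MulAction A X] [Finite X]
    (hfree : ∀ (a : A) (x : X), a • x = x → a = 1) : Nat.card A ∣ Nat.card X := by
  apply Cfsg.Agent.Lib_helper5_Frob.dvd_card_of_dvd_index (G := A)
  intro x
  have : MulAction.stabilizer A x = ⊥ := by
    rw [eq_bot_iff]
    intro a ha
    exact Subgroup.mem_bot.mpr (hfree a x ha)
  rw [this, Subgroup.index_bot]

end Cfsg.Agent.Lib_helper6_PGen
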