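import Mathlib
import Cfsg.Prelude.Def_ClassicalGeometry
import Cfsg.Agent.Lib_helper4_Quad

set_option autoImplicit false

namespace Cfsg.Agent.Lib_helper6_Refl

open Matrix Cfsg.Agent.Lib_helper4_Quad

variable {ι : Type} [Fintype ι] [DecidableEq ι] {F : Type*} [Field F]

theorem refl_refl_mulVec (Q : QuadraticForm F (ι → F)) (u v x : ι → F) (i : ι) :
    (Cfsg.reflectionMatrix ⇑Q u *ᵥ (Cfsg.reflectionMatrix ⇑Q v *ᵥ x)) i =
      x i - (Q v)⁻¹ * QuadraticMap.polar ⇑Q v x * v i -
        (Q u)⁻¹ * (QuadraticMap.polar ⇑Q u x -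
          (Q v)⁻¹ * QuadraticMap.polar ⇑Q v x * QuadraticMap.polar ⇑Q u v) * u i := by
  rw [reflection_mulVec, reflection_mulVec, QuadraticMap.polar_sub_right,
    QuadraticMap.polar_smul_right]
  simp only [Pi.sub_apply, Pi.smul_apply, smul_eq_mul]

theorem refl_commute_iff (Q : QuadraticForm F (ι → F))
    (hQ : (QuadraticMap.polarBilin Q).Nondegenerate) (u v : ι → F) (hu : Q u ≠ 0)
    (huv : Q u = Q v) (h1 : v ≠ u) (h2 : v ≠ -u) :
    Commute (Cfsg.reflectionMatrix (⇑Q) u) (Cfsg.reflectionMatrix (⇑Q) v) ↔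
      QuadraticMap.polar (⇑Q) u v = 0 := by
  have hv : Q v ≠ 0 := huv ▸ hu
  have hsymm : QuadraticMap.polar ⇑Q v u = QuadraticMap.polar ⇑Q u v :=
    QuadraticMap.polar_comm _ _ _
  constructor
  · intro hc
    by_contra hB
    have hu0 : u ≠ 0 := by
      rintro rfl
      exact hu (by simp)
    obtain ⟨x, hx⟩ : ∃ x, QuadraticMap.polar (⇑Q) u x ≠ 0 := by
      by_contra hcon
      push Not at hcon
      exact hu0 (hQ.1 u (fun y => hcon y))
    have hmul : Cfsg.reflectionMatrix ⇑Q u * Cfsg.reflectionMatrix ⇑Q v =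
        Cfsg.reflectionMatrix ⇑Q v * Cfsg.reflectionMatrix ⇑Q u := hc
    have hcoord : ∀ i, QuadraticMap.polar ⇑Q v x * u i = QuadraticMap.polar ⇑Q u x * v i := by
      intro i
      have h3 := congrFun (congrArg (fun M => M *ᵥ x) hmul) i
      simp only [← Matrix.mulVec_mulVec] at h3
      rw [refl_refl_mulVec, refl_refl_mulVec, hsymm, ← huv] at h3
      have hne : (Q u)⁻¹ * (Q u)⁻¹ * QuadraticMap.polar ⇑Q u v ≠ 0 :=
        mul_ne_zero (mul_ne_zero (inv_ne_zero hu) (inv_ne_zero hu)) hB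
      apply mul_left_cancel₀ hne
      linear_combination h3
    have hveq : v = (QuadraticMap.polar ⇑Q v x / QuadraticMap.polar ⇑Q u x) • u := by
      funext i
      rw [Pi.smul_apply, smul_eq_mul]
      field_simp
      linear_combination -(hcoord i)
    have hQv : Q v = (QuadraticMap.polar ⇑Q v x / QuadraticMap.polar ⇑Q u x) *
        (QuadraticMap.polar ⇑Q v x / QuadraticMap.polar ⇑Q u x) * Q u := by
      conv_lhs => rw [hveq]
      rw [QuadraticMap.map_smul, smul_eq_mul]
    have hl : (QuadraticMap.polar ⇑Q v x / QuadraticMap.polar ⇑Q u x - 1) *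
        (QuadraticMap.polar ⇑Q v x / QuadraticMap.polar ⇑Q u x + 1) = 0 := by
      apply mul_left_cancel₀ hu
      rw [mul_zero]
      linear_combination -hQv - huv
    rcases mul_eq_zero.mp hl with h | h
    · apply h1
      rw [hveq, sub_eq_zero.mp h, one_smul]
    · apply h2
      rw [hveq, eq_neg_of_add_eq_zero_left h, neg_smul, one_smul]
  · intro hB
    show Cfsg.reflectionMatrix ⇑Q u * Cfsg.reflectionMatrix ⇑Q v =
        Cfsg.reflectionMatrix ⇑Q v * Cfsg.reflectionMatrix ⇑Q u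
    apply Matrix.mulVec_injective
    funext x i
    simp only [← Matrix.mulVec_mulVec]
    rw [refl_refl_mulVec, refl_refl_mulVec, hsymm, hB]
    ring

end Cfsg.Agent.Lib_helper6_Refl
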