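import Mathlib
import Cfsg.Prelude.Def_PLocal
import Cfsg.Agent.Lib_helper1_PGroup

set_option autoImplicit false

namespace Cfsg.Agent.Lib_helper6_Regular

open scoped commutatorElement

variable {G : Type*} [Group G]

/-- If `Ω` is normalized by `⟨a, b⟩` and contains the commutator of `a` and `b`, it contains the
derived subgroup of `⟨a, b⟩`. -/
theorem commutator_closure_pair_le (a b : G) (Ω : Subgroup G)
    (hnorm : ∀ g ∈ Subgroup.closure ({a, b} : Set G), ∀ x ∈ Ω, g * x * g⁻¹ ∈ Ω)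
    (hab : a * b * a⁻¹ * b⁻¹ ∈ Ω) :
    ⁅Subgroup.closure ({a, b} : Set G), Subgroup.closure ({a, b} : Set G)⁆ ≤ Ω := by
  rw [Subgroup.commutator_le]
  intro x hx y hy
  have hab' : ⁅a, b⁆ ∈ Ω := by rw [commutatorElement_def]; exact hab
  refine Subgroup.closure_induction₂ (p := fun x y _ _ => ⁅x, y⁆ ∈ Ω) ?_ ?_ ?_ ?_ ?_ ?_ ?_ hx hy
  · intro x y hx' hy'
    have hx2 : x = a ∨ x = b := by simpa using hx'
    have hy2 : y = a ∨ y = b := by simpa using hy'
    rcases hx2 with h1 | h1 <;> rcases hy2 with h2 | h2 <;> rw [h1, h2]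
    · rw [commutatorElement_self]; exact Ω.one_mem
    · exact hab'
    · rw [← commutatorElement_inv]; exact Ω.inv_mem hab'
    · rw [commutatorElement_self]; exact Ω.one_mem
  · intro x _
    rw [commutatorElement_one_left]; exact Ω.one_mem
  · intro x _
    rw [commutatorElement_one_right]; exact Ω.one_mem
  · intro x y z hx _ _ h1 h2
    have h3 : ⁅x * y, z⁆ = x * ⁅y, z⁆ * x⁻¹ * ⁅x, z⁆ := by
      simp only [commutatorElement_def]; group
    rw [h3]
    exact Ω.mul_mem (hnorm x hx _ h2) h1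
  · intro y z x hy _ _ h1 h2
    have h3 : ⁅x, y * z⁆ = ⁅x, y⁆ * (y * ⁅x, z⁆ * y⁻¹) := by
      simp only [commutatorElement_def]; group
    rw [h3]
    exact Ω.mul_mem h1 (hnorm y hy _ h2)
  · intro x y hx _ h
    have h3 : ⁅x⁻¹, y⁆ = x⁻¹ * ⁅x, y⁆⁻¹ * x⁻¹⁻¹ := by
      simp only [commutatorElement_def]; group
    rw [h3]
    exact hnorm x⁻¹ (Subgroup.inv_mem _ hx) _ (Ω.inv_mem h)
  · intro x y _ hy h
    have h3 : ⁅x, y⁻¹⁆ = y⁻¹ * ⁅x, y⁆⁻¹ * y⁻¹⁻¹ := by
      simp only [commutatorElement_def]; group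
    rw [h3]
    exact hnorm y⁻¹ (Subgroup.inv_mem _ hy) _ (Ω.inv_mem h)

theorem eq_one_of_mem_powerClosure {p k : ℕ} (K : Subgroup G) (hK : ∀ x ∈ K, x ^ p ^ k = 1)
    {c : G} (hc : c ∈ Cfsg.powerClosure p k K) : c = 1 := by
  have h1 : Cfsg.powerClosure p k K ≤ ⊥ := by
    unfold Cfsg.powerClosure
    rw [Subgroup.closure_le]
    rintro y ⟨x, hx, rfl⟩
    rw [hK x hx]
    exact Subgroup.one_mem _
  exact Subgroup.mem_bot.mp (h1 hc)

/-- In a finite `p`-group, if `b ∉ ⟨a⟩` there is a proper subgroup of `⟨a, b⟩` containing `a`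
and normalized by `⟨a, b⟩`. -/
theorem exists_proper_normal [Finite G] {p : ℕ} [Fact p.Prime] (hG : IsPGroup p G) (a b : G)
    (hb : b ∉ Subgroup.zpowers a) :
    ∃ M' : Subgroup G, Nat.card M' < Nat.card (Subgroup.closure ({a, b} : Set G)) ∧ a ∈ M' ∧
      M' ≤ Subgroup.closure ({a, b} : Set G) ∧
      ∀ g ∈ Subgroup.closure ({a, b} : Set G), ∀ x ∈ M', g * x * g⁻¹ ∈ M' := by
  set H := Subgroup.closure ({a, b} : Set G) with hH
  have haH : a ∈ H := Subgroup.subset_closure (Set.mem_insert _ _)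
  have hbH : b ∈ H := Subgroup.subset_closure (Set.mem_insert_of_mem _ rfl)
  have hA : (Subgroup.zpowers a).subgroupOf H ≠ ⊤ := by
    intro h
    rw [Subgroup.subgroupOf_eq_top] at h
    exact hb (h hbH)
  rcases eq_top_or_exists_le_coatom ((Subgroup.zpowers a).subgroupOf H) with h | ⟨M, hM, hAM⟩
  · exact absurd h hA
  · have hMn : M.Normal := Cfsg.Agent.Lib_helper1_PGroup.coatom_normal (hG.to_subgroup H) M hM
    refine ⟨M.map H.subtype, ?_, ?_, ?_, ?_⟩
    · rw [Subgroup.card_map_of_injective H.subtype_injective]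
      have h1 : Nat.card M ≤ Nat.card H := Subgroup.card_le_card_group M
      have h2 : Nat.card M ≠ Nat.card H := fun h => hM.1 ((Subgroup.card_eq_iff_eq_top M).mp h)
      omega
    · exact ⟨⟨a, haH⟩, hAM (by rw [Subgroup.mem_subgroupOf]; exact Subgroup.mem_zpowers a), rfl⟩
    · rintro _ ⟨x, -, rfl⟩
      exact x.2
    · rintro g hg _ ⟨x, hx, rfl⟩
      exact ⟨⟨g, hg⟩ * x * ⟨g, hg⟩⁻¹, hMn.conj_mem x hx ⟨g, hg⟩, rfl⟩

theorem mul_pow_eq_one_aux [Finite G] {p : ℕ} [Fact p.Prime] (hG : Cfsg.IsRegularPGroup p G)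
    (k : ℕ) : ∀ N : ℕ, ∀ a b : G, a ^ p ^ k = 1 → b ^ p ^ k = 1 →
      Nat.card (Subgroup.closure ({a, b} : Set G)) ≤ N → (a * b) ^ p ^ k = 1 := by
  intro N
  induction N with
  | zero =>
    intro a b _ _ h
    have := Nat.card_pos (α := Subgroup.closure ({a, b} : Set G))
    omega
  | succ N ih =>
    intro a b ha hb hcard
    by_cases hbz : b ∈ Subgroup.zpowers a
    · obtain ⟨i, rfl⟩ := Subgroup.mem_zpowers_iff.mp hbz
      have hc : Commute a (a ^ i) := (Commute.refl a).zpow_right i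
      rw [hc.mul_pow, ha, hb, one_mul]
    · obtain ⟨M', hlt, haM, hM'le, hnorm⟩ := exists_proper_normal hG.1 a b hbz
      have hbH : b ∈ Subgroup.closure ({a, b} : Set G) :=
        Subgroup.subset_closure (Set.mem_insert_of_mem _ rfl)
      let Ω : Subgroup G :=
        { carrier := {x | x ∈ M' ∧ x ^ p ^ k = 1}
          mul_mem' := by
            rintro x y ⟨hx, hxq⟩ ⟨hy, hyq⟩
            refine ⟨M'.mul_mem hx hy, ih x y hxq hyq ?_⟩
            have h1 : Subgroup.closure ({x, y} : Set G) ≤ M' := by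
              rw [Subgroup.closure_le]
              rintro z (rfl | hz)
              · exact hx
              · rw [Set.mem_singleton_iff] at hz
                rw [hz]; exact hy
            have h2 := Subgroup.card_le_of_le h1
            omega
          one_mem' := ⟨M'.one_mem, one_pow _⟩
          inv_mem' := by
            rintro x ⟨hx, hxq⟩
            exact ⟨M'.inv_mem hx, by rw [inv_pow, hxq, inv_one]⟩ }
      have hΩnorm : ∀ g ∈ Subgroup.closure ({a, b} : Set G), ∀ x ∈ Ω, g * x * g⁻¹ ∈ Ω := by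
        intro g hg x hx
        exact ⟨hnorm g hg x hx.1, by rw [conj_pow, hx.2]; group⟩
      have haΩ : a ∈ Ω := ⟨haM, ha⟩
      have hcomm : a * b * a⁻¹ * b⁻¹ ∈ Ω := by
        have h1 : a * b * a⁻¹ * b⁻¹ = a * (b * a⁻¹ * b⁻¹) := by group
        rw [h1]
        exact Ω.mul_mem haΩ (hΩnorm b hbH _ (Ω.inv_mem haΩ))
      have hle := commutator_closure_pair_le a b Ω hΩnorm hcomm
      obtain ⟨c, hc, habc⟩ := hG.2 a b k
      have hc1 : c = 1 := eq_one_of_mem_powerClosure _ (fun x hx => (hle hx).2) hc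
      rw [habc, ha, hb, hc1]; group

/-- In a regular `p`-group the product of two elements killed by `p ^ k` is killed by `p ^ k`. -/
theorem mul_pow_eq_one [Finite G] {p : ℕ} [Fact p.Prime] (hG : Cfsg.IsRegularPGroup p G)
    (k : ℕ) (a b : G) (ha : a ^ p ^ k = 1) (hb : b ^ p ^ k = 1) : (a * b) ^ p ^ k = 1 :=
  mul_pow_eq_one_aux hG k _ a b ha hb le_rfl

/-- The subgroup of elements killed by `p ^ k` in a regular `p`-group. -/
def omegaSub [Finite G] {p : ℕ} [Fact p.Prime] (hG : Cfsg.IsRegularPGroup p G) (k : ℕ) :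
    Subgroup G where
  carrier := {x | x ^ p ^ k = 1}
  mul_mem' := fun {x y} hx hy => mul_pow_eq_one hG k x y hx hy
  one_mem' := one_pow _
  inv_mem' := fun {x} hx => by
    show x⁻¹ ^ p ^ k = 1
    rw [inv_pow, show x ^ p ^ k = 1 from hx, inv_one]

theorem mem_omegaSub [Finite G] {p : ℕ} [Fact p.Prime] (hG : Cfsg.IsRegularPGroup p G) (k : ℕ)
    (x : G) : x ∈ omegaSub hG k ↔ x ^ p ^ k = 1 := Iff.rfl

theorem omegaSub_conj [Finite G] {p : ℕ} [Fact p.Prime] (hG : Cfsg.IsRegularPGroup p G) (k : ℕ)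
    (g x : G) (hx : x ∈ omegaSub hG k) : g * x * g⁻¹ ∈ omegaSub hG k := by
  rw [mem_omegaSub] at hx ⊢
  rw [conj_pow, hx]; group

/-- if the commutator of `a` and `b` is killed by `p ^ k` then so is every `c` in the power
closure of the derived subgroup of `⟨a, b⟩` -/
theorem eq_one_of_comm [Finite G] {p : ℕ} [Fact p.Prime] (hG : Cfsg.IsRegularPGroup p G)
    (k : ℕ) (a b : G) (hab : (a * b * a⁻¹ * b⁻¹) ^ p ^ k = 1) {c : G}
    (hc : c ∈ Cfsg.powerClosure p k
      ⁅Subgroup.closure ({a, b} : Set G), Subgroup.closure ({a, b} : Set G)⁆) : c = 1 := by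
  have hle := commutator_closure_pair_le a b (omegaSub hG k)
    (fun g _ x hx => omegaSub_conj hG k g x hx) hab
  exact eq_one_of_mem_powerClosure _ (fun x hx => hle hx) hc

theorem pow_eq_of_mul_inv [Finite G] {p : ℕ} [Fact p.Prime] (hG : Cfsg.IsRegularPGroup p G)
    (k : ℕ) (a b : G) (h : (a * b⁻¹) ^ p ^ k = 1) : a ^ p ^ k = b ^ p ^ k := by
  obtain ⟨c, hc, habc⟩ := hG.2 (a * b⁻¹) b k
  have hd : (a * b⁻¹) ∈ omegaSub hG k := h
  have hcomm : ((a * b⁻¹) * b * (a * b⁻¹)⁻¹ * b⁻¹) ^ p ^ k = 1 := by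
    have h1 : (a * b⁻¹) * b * (a * b⁻¹)⁻¹ * b⁻¹ = (a * b⁻¹) * (b * (a * b⁻¹)⁻¹ * b⁻¹) := by group
    rw [h1]
    exact (omegaSub hG k).mul_mem hd (omegaSub_conj hG k b _ ((omegaSub hG k).inv_mem hd))
  have hc1 := eq_one_of_comm hG k _ _ hcomm hc
  have h2 : a * b⁻¹ * b = a := by group
  rw [h2, h, hc1] at habc
  rw [habc]; group

theorem mul_inv_pow_aux [Finite G] {p : ℕ} [Fact p.Prime] (hG : Cfsg.IsRegularPGroup p G)
    (k : ℕ) : ∀ N : ℕ, ∀ a b : G, a ^ p ^ k = b ^ p ^ k →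
      Nat.card (Subgroup.closure ({a, b} : Set G)) ≤ N → (a * b⁻¹) ^ p ^ k = 1 := by
  intro N
  induction N with
  | zero =>
    intro a b _ h
    have := Nat.card_pos (α := Subgroup.closure ({a, b} : Set G))
    omega
  | succ N ih =>
    intro a b hab hcard
    by_cases hbz : b ∈ Subgroup.zpowers a
    · obtain ⟨i, rfl⟩ := Subgroup.mem_zpowers_iff.mp hbz
      have hc : Commute a (a ^ i)⁻¹ := ((Commute.refl a).zpow_right i).inv_right
      rw [hc.mul_pow, inv_pow, hab, mul_inv_cancel]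
    · obtain ⟨M', hlt, haM, hM'le, hnorm⟩ := exists_proper_normal hG.1 a b hbz
      have hbH : b ∈ Subgroup.closure ({a, b} : Set G) :=
        Subgroup.subset_closure (Set.mem_insert_of_mem _ rfl)
      have h1 : a ^ p ^ k = (b * a * b⁻¹) ^ p ^ k := by
        rw [conj_pow, hab]; group
      have h2 : Subgroup.closure ({a, b * a * b⁻¹} : Set G) ≤ M' := by
        rw [Subgroup.closure_le]
        rintro z (rfl | hz)
        · exact haM
        · rw [Set.mem_singleton_iff] at hz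
          rw [hz]; exact hnorm b hbH _ haM
      have h3 := Subgroup.card_le_of_le h2
      have h4 := ih a (b * a * b⁻¹) h1 (by omega)
      have h5 : a * (b * a * b⁻¹)⁻¹ = a * b * a⁻¹ * b⁻¹ := by group
      rw [h5] at h4
      -- the commutator of `a` and `b⁻¹`
      have h6 : (a * b⁻¹ * a⁻¹ * b⁻¹⁻¹) ^ p ^ k = 1 := by
        have h7 : a * b⁻¹ * a⁻¹ * b⁻¹⁻¹ = b⁻¹ * (a * b * a⁻¹ * b⁻¹)⁻¹ * b⁻¹⁻¹ := by group
        rw [h7]
        exact omegaSub_conj hG k b⁻¹ _ ((omegaSub hG k).inv_mem h4)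
      obtain ⟨c, hc, habc⟩ := hG.2 a b⁻¹ k
      have hc1 := eq_one_of_comm hG k _ _ h6 hc
      rw [habc, hc1, inv_pow, hab]; group

/-- In a regular `p`-group, `a ^ (p ^ k) = b ^ (p ^ k)` iff `(a * b⁻¹) ^ (p ^ k) = 1`. -/
theorem pow_eq_iff [Finite G] {p : ℕ} [Fact p.Prime] (hG : Cfsg.IsRegularPGroup p G)
    (a b : G) (k : ℕ) : a ^ p ^ k = b ^ p ^ k ↔ (a * b⁻¹) ^ p ^ k = 1 :=
  ⟨fun h => mul_inv_pow_aux hG k _ a b h le_rfl, pow_eq_of_mul_inv hG k a b⟩

end Cfsg.Agent.Lib_helper6_Regular
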