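import Cfsg.Statements.S4224
import Cfsg.Agent.Lib_helper6_Regular

set_option autoImplicit false
open Cfsg

namespace Cfsg.Agent.S4224

/-- In a regular `p`-group, for all elements `a`, `b` and every power `q = p^k`: `a^q` commutes with `b` if and only if the commutator `a⁻¹b⁻¹ab` has `q`-th power equal to `1`. -/
theorem result {G : Type*} [Group G] [Finite G] {p : ℕ} [Fact p.Prime] (hG : Cfsg.IsRegularPGroup p G) (a b : G) (k : ℕ) : a ^ p ^ k * b = b * a ^ p ^ k ↔ (a⁻¹ * b⁻¹ * a * b) ^ p ^ k = 1 := by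
  have e1 : (b⁻¹ * a * b) ^ p ^ k = b⁻¹ * a ^ p ^ k * b := by
    have h : b⁻¹ * a * b = b⁻¹ * a * b⁻¹⁻¹ := by group
    rw [h, conj_pow, inv_inv]
  have e2 : (a⁻¹ * b⁻¹ * a * b) ^ p ^ k = a⁻¹ * ((b⁻¹ * a * b) * a⁻¹) ^ p ^ k * a := by
    have h : a⁻¹ * b⁻¹ * a * b = a⁻¹ * ((b⁻¹ * a * b) * a⁻¹) * a⁻¹⁻¹ := by group
    rw [h, conj_pow, inv_inv]
  have key := Cfsg.Agent.Lib_helper6_Regular.pow_eq_iff hG (b⁻¹ * a * b) a k
  constructor
  · intro h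
    have h1 : (b⁻¹ * a * b) ^ p ^ k = a ^ p ^ k := by
      rw [e1, mul_assoc, h, ← mul_assoc, inv_mul_cancel, one_mul]
    rw [e2, key.mp h1]; group
  · intro h
    have h1 : ((b⁻¹ * a * b) * a⁻¹) ^ p ^ k = 1 := by
      rw [e2] at h
      have h0 : ((b⁻¹ * a * b) * a⁻¹) ^ p ^ k =
          a * (a⁻¹ * ((b⁻¹ * a * b) * a⁻¹) ^ p ^ k * a) * a⁻¹ := by group
      rw [h0, h]; group
    have h2 := key.mpr h1
    rw [e1] at h2
    calc a ^ p ^ k * b = b * (b⁻¹ * a ^ p ^ k * b) := by group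
      _ = b * a ^ p ^ k := by rw [h2]

end Cfsg.Agent.S4224
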