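import Mathlib
import Cfsg.Prelude.Def_PLocal
import Cfsg.Agent.Lib_helper1_PGroup
import Cfsg.Agent.Lib_helper6_Regular
import Cfsg.Agent.Lib_helper6_Conj
import Cfsg.Agent.S4224

set_option autoImplicit false

namespace Cfsg.Agent.Lib_helper6_Regular2

open scoped commutatorElement
open Cfsg.Agent.Lib_helper6_Regular

variable {G : Type*} [Group G]

theorem powerClosure_map {G' : Type*} [Group G'] (f : G →* G') (p n : ℕ) (K : Subgroup G) :
    (Cfsg.powerClosure p n K).map f = Cfsg.powerClosure p n (K.map f) := by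
  unfold Cfsg.powerClosure
  rw [MonoidHom.map_closure]
  congr 1
  ext y
  constructor
  · rintro ⟨_, ⟨x, hx, rfl⟩, rfl⟩
    exact ⟨f x, Subgroup.mem_map_of_mem f hx, by rw [map_pow]⟩
  · rintro ⟨_, ⟨x, hx, rfl⟩, rfl⟩
    exact ⟨x ^ p ^ n, ⟨x, hx, rfl⟩, by rw [map_pow]⟩

theorem powerClosure_pair_map {G' : Type*} [Group G'] (f : G →* G') (p n : ℕ) (a b : G) :
    (Cfsg.powerClosure p n
      ⁅Subgroup.closure ({a, b} : Set G), Subgroup.closure ({a, b} : Set G)⁆).map f =
      Cfsg.powerClosure p n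
        ⁅Subgroup.closure ({f a, f b} : Set G'), Subgroup.closure ({f a, f b} : Set G')⁆ := by
  rw [powerClosure_map, Subgroup.map_commutator, MonoidHom.map_closure, Set.image_pair]

theorem powerClosure_mono (p n : ℕ) {K L : Subgroup G} (h : K ≤ L) :
    Cfsg.powerClosure p n K ≤ Cfsg.powerClosure p n L := by
  unfold Cfsg.powerClosure
  apply Subgroup.closure_mono
  rintro y ⟨x, hx, rfl⟩
  exact ⟨x, h hx, rfl⟩

/-- Regularity passes to quotients. -/
theorem regular_quotient {p : ℕ} (hG : Cfsg.IsRegularPGroup p G) (N : Subgroup G)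
    [N.Normal] : Cfsg.IsRegularPGroup p (G ⧸ N) := by
  refine ⟨hG.1.to_quotient N, ?_⟩
  intro a' b' n
  obtain ⟨a, rfl⟩ := QuotientGroup.mk_surjective a'
  obtain ⟨b, rfl⟩ := QuotientGroup.mk_surjective b'
  obtain ⟨c, hc, habc⟩ := hG.2 a b n
  refine ⟨QuotientGroup.mk' N c, ?_, ?_⟩
  · have h1 := powerClosure_pair_map (QuotientGroup.mk' N) p n a b
    have h2 : QuotientGroup.mk' N c ∈ (Cfsg.powerClosure p n
      ⁅Subgroup.closure ({a, b} : Set G), Subgroup.closure ({a, b} : Set G)⁆).map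
        (QuotientGroup.mk' N) := Subgroup.mem_map_of_mem _ hc
    rw [h1] at h2
    exact h2
  · have h3 := congrArg (QuotientGroup.mk' N) habc
    simpa using h3

/-- Regularity passes to subgroups. -/
theorem regular_subgroup {p : ℕ} (hG : Cfsg.IsRegularPGroup p G) (H : Subgroup G) :
    Cfsg.IsRegularPGroup p H := by
  refine ⟨hG.1.to_subgroup H, ?_⟩
  intro a b n
  obtain ⟨c, hc, habc⟩ := hG.2 (a : G) (b : G) n
  have h1 := powerClosure_pair_map H.subtype p n a b
  have hc' : c ∈ (Cfsg.powerClosure p n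
      ⁅Subgroup.closure ({a, b} : Set H), Subgroup.closure ({a, b} : Set H)⁆).map H.subtype := by
    rw [h1]; exact hc
  obtain ⟨c', hc'', rfl⟩ := hc'
  refine ⟨c', hc'', ?_⟩
  apply Subtype.ext
  simpa using habc

/-- In a finite `p`-group, if `b ∉ ⟨a⟩` there is a proper subgroup of `⟨a, b⟩` containing `a`,
normalized by `⟨a, b⟩`, and containing all `p`-th powers. -/
theorem exists_proper_normal_pow [Finite G] {p : ℕ} [Fact p.Prime] (hG : IsPGroup p G) (a b : G)
    (hb : b ∉ Subgroup.zpowers a) :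
    ∃ M' : Subgroup G, Nat.card M' < Nat.card (Subgroup.closure ({a, b} : Set G)) ∧ a ∈ M' ∧
      M' ≤ Subgroup.closure ({a, b} : Set G) ∧
      (∀ g ∈ Subgroup.closure ({a, b} : Set G), ∀ x ∈ M', g * x * g⁻¹ ∈ M') ∧
      (∀ g ∈ Subgroup.closure ({a, b} : Set G), g ^ p ∈ M') := by
  set H := Subgroup.closure ({a, b} : Set G) with hH
  have haH : a ∈ H := Subgroup.subset_closure (Set.mem_insert _ _)
  have hbH : b ∈ H := Subgroup.subset_closure (Set.mem_insert_of_mem _ rfl)
  have hA : (Subgroup.zpowers a).subgroupOf H ≠ ⊤ := by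
    intro h
    rw [Subgroup.subgroupOf_eq_top] at h
    exact hb (h hbH)
  rcases eq_top_or_exists_le_coatom ((Subgroup.zpowers a).subgroupOf H) with h | ⟨M, hM, hAM⟩
  · exact absurd h hA
  · have hMn : M.Normal := Cfsg.Agent.Lib_helper1_PGroup.coatom_normal (hG.to_subgroup H) M hM
    refine ⟨M.map H.subtype, ?_, ?_, ?_, ?_, ?_⟩
    · rw [Subgroup.card_map_of_injective H.subtype_injective]
      have h1 : Nat.card M ≤ Nat.card H := Subgroup.card_le_card_group M
      have h2 : Nat.card M ≠ Nat.card H := fun h => hM.1 ((Subgroup.card_eq_iff_eq_top M).mp h)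
      omega
    · exact ⟨⟨a, haH⟩, hAM (by rw [Subgroup.mem_subgroupOf]; exact Subgroup.mem_zpowers a), rfl⟩
    · rintro _ ⟨x, -, rfl⟩
      exact x.2
    · rintro g hg _ ⟨x, hx, rfl⟩
      exact ⟨⟨g, hg⟩ * x * ⟨g, hg⟩⁻¹, hMn.conj_mem x hx ⟨g, hg⟩, rfl⟩
    · intro g hg
      exact ⟨⟨g, hg⟩ ^ p,
        Cfsg.Agent.Lib_helper1_PGroup.pow_p_mem_coatom (hG.to_subgroup H) M hM ⟨g, hg⟩, rfl⟩

theorem comm_of_regular_two_aux [Finite G] (hG : Cfsg.IsRegularPGroup 2 G) :
    ∀ N : ℕ, ∀ a b : G, Nat.card (Subgroup.closure ({a, b} : Set G)) ≤ N → a * b = b * a := by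
  have : Fact (Nat.Prime 2) := ⟨Nat.prime_two⟩
  intro N
  induction N with
  | zero =>
    intro a b h
    have := Nat.card_pos (α := Subgroup.closure ({a, b} : Set G))
    omega
  | succ N ih =>
    intro a b hcard
    by_cases hbz : b ∈ Subgroup.zpowers a
    · obtain ⟨i, rfl⟩ := Subgroup.mem_zpowers_iff.mp hbz
      exact (Commute.refl a).zpow_right i
    by_cases haz : a ∈ Subgroup.zpowers b
    · obtain ⟨i, rfl⟩ := Subgroup.mem_zpowers_iff.mp haz
      exact ((Commute.refl b).zpow_right i).symm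
    obtain ⟨M₁, hlt₁, haM₁, -, hnorm₁, -⟩ := exists_proper_normal_pow hG.1 a b hbz
    obtain ⟨M₂, hlt₂, hbM₂, -, hnorm₂, hpow₂⟩ := exists_proper_normal_pow hG.1 b a haz
    rw [Set.pair_comm b a] at hlt₂ hnorm₂ hpow₂
    have haH : a ∈ Subgroup.closure ({a, b} : Set G) :=
      Subgroup.subset_closure (Set.mem_insert _ _)
    have hbH : b ∈ Subgroup.closure ({a, b} : Set G) :=
      Subgroup.subset_closure (Set.mem_insert_of_mem _ rfl)
    have hcomm₁ : ∀ x ∈ M₁, ∀ y ∈ M₁, x * y = y * x := by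
      intro x hx y hy
      apply ih
      have h1 : Subgroup.closure ({x, y} : Set G) ≤ M₁ := by
        rw [Subgroup.closure_le]
        intro z hz
        have hz2 : z = x ∨ z = y := by simpa using hz
        rcases hz2 with h | h <;> rw [h] <;> assumption
      have h2 := Subgroup.card_le_of_le h1
      omega
    have hcomm₂ : ∀ x ∈ M₂, ∀ y ∈ M₂, x * y = y * x := by
      intro x hx y hy
      apply ih
      have h1 : Subgroup.closure ({x, y} : Set G) ≤ M₂ := by
        rw [Subgroup.closure_le]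
        intro z hz
        have hz2 : z = x ∨ z = y := by simpa using hz
        rcases hz2 with h | h <;> rw [h] <;> assumption
      have h2 := Subgroup.card_le_of_le h1
      omega
    set z := a * b * a⁻¹ * b⁻¹ with hz
    have hz₁ : z ∈ M₁ := by
      have h1 : z = a * (b * a⁻¹ * b⁻¹) := by rw [hz]; group
      rw [h1]
      exact M₁.mul_mem haM₁ (hnorm₁ b hbH _ (M₁.inv_mem haM₁))
    have hz₂ : z ∈ M₂ := by
      have h1 : z = (a * b * a⁻¹) * b⁻¹ := by rw [hz]
      rw [h1]
      exact M₂.mul_mem (hnorm₂ a haH _ hbM₂) (M₂.inv_mem hbM₂)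
    have hza : z * a = a * z := hcomm₁ z hz₁ a haM₁
    have hzb : z * b = b * z := hcomm₂ z hz₂ b hbM₂
    have ha2 : a ^ 2 * b = b * a ^ 2 := hcomm₂ _ (hpow₂ a haH) b hbM₂
    have hab : a * b = z * b * a := by rw [hz]; group
    have hz2 : z ^ 2 = 1 := by
      have h1 : a ^ 2 * b = z ^ 2 * (b * a ^ 2) := by
        calc a ^ 2 * b = a * (a * b) := by rw [pow_two, mul_assoc]
          _ = a * (z * b * a) := by rw [hab]
          _ = (a * z) * b * a := by group
          _ = (z * a) * b * a := by rw [hza]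
          _ = z * (a * b) * a := by group
          _ = z * (z * b * a) * a := by rw [hab]
          _ = z ^ 2 * (b * a ^ 2) := by rw [pow_two, pow_two]; simp only [mul_assoc]
      rw [ha2] at h1
      have h2 : z ^ 2 * (b * a ^ 2) = 1 * (b * a ^ 2) := by rw [one_mul]; exact h1.symm
      exact mul_right_cancel h2
    have hnormz : ∀ g ∈ Subgroup.closure ({a, b} : Set G), ∀ x ∈ Subgroup.zpowers z,
        g * x * g⁻¹ ∈ Subgroup.zpowers z := by
      intro g hg x hx
      have hgz : g * z = z * g := by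
        have h1 : Subgroup.closure ({a, b} : Set G) ≤ Subgroup.centralizer ({z} : Set G) := by
          rw [Subgroup.closure_le]
          intro w hw
          have hw2 : w = a ∨ w = b := by simpa using hw
          rw [SetLike.mem_coe, Subgroup.mem_centralizer_iff]
          intro u hu
          rw [Set.mem_singleton_iff] at hu
          rcases hw2 with h | h <;> rw [h, hu]
          · exact hza
          · exact hzb
        exact ((Subgroup.mem_centralizer_iff.mp (h1 hg)) z (Set.mem_singleton z)).symm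
      obtain ⟨i, rfl⟩ := Subgroup.mem_zpowers_iff.mp hx
      have h2 : g * z ^ i * g⁻¹ = z ^ i := by
        have hc : Commute g (z ^ i) := (show Commute g z from hgz).zpow_right i
        rw [hc.eq]; group
      rw [h2]
      exact Subgroup.zpow_mem _ (Subgroup.mem_zpowers z) i
    have hle := commutator_closure_pair_le a b (Subgroup.zpowers z) hnormz (Subgroup.mem_zpowers z)
    obtain ⟨c, hc, habc⟩ := hG.2 a b 1
    have hc1 : c = 1 := by
      apply eq_one_of_mem_powerClosure _ _ hc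
      intro x hx
      obtain ⟨i, rfl⟩ := Subgroup.mem_zpowers_iff.mp (hle hx)
      rw [pow_one, ← zpow_natCast, ← zpow_mul, mul_comm, zpow_mul, zpow_natCast, hz2, one_zpow]
    rw [hc1, pow_one, mul_one] at habc
    have h3 : a * (b * a) * b = a * (a * b) * b := by
      have h4 : (a * b) ^ 2 = a * (b * a) * b := by rw [pow_two]; simp only [mul_assoc]
      have h5 : a ^ 2 * b ^ 2 = a * (a * b) * b := by rw [pow_two, pow_two]; simp only [mul_assoc]
      rw [← h4, ← h5]; exact habc
    exact (mul_left_cancel (mul_right_cancel h3)).symm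

/-- A finite regular `2`-group is abelian. -/
theorem comm_of_regular_two [Finite G] (hG : Cfsg.IsRegularPGroup 2 G) (a b : G) :
    a * b = b * a :=
  comm_of_regular_two_aux hG _ a b le_rfl

theorem pow_mul_pow_aux [Finite G] {p : ℕ} [Fact p.Prime] (hG : Cfsg.IsRegularPGroup p G)
    (n : ℕ) : ∀ N : ℕ, ∀ x y : G, Nat.card (Subgroup.closure ({x, y} : Set G)) ≤ N →
      ∃ w ∈ Subgroup.closure ({x, y} : Set G), x ^ p ^ n * y ^ p ^ n = w ^ p ^ n := by
  intro N
  induction N with
  | zero =>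
    intro a b h
    have := Nat.card_pos (α := Subgroup.closure ({a, b} : Set G))
    omega
  | succ N ih =>
    intro x y hcard
    have hxH : x ∈ Subgroup.closure ({x, y} : Set G) :=
      Subgroup.subset_closure (Set.mem_insert _ _)
    have hyH : y ∈ Subgroup.closure ({x, y} : Set G) :=
      Subgroup.subset_closure (Set.mem_insert_of_mem _ rfl)
    by_cases hyz : y ∈ Subgroup.zpowers (x * y)
    · have hxz : x ∈ Subgroup.zpowers (x * y) := by
        have h1 : (x * y) * y⁻¹ = x := by group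
        have h0 : (x * y) * y⁻¹ ∈ Subgroup.zpowers (x * y) :=
          Subgroup.mul_mem _ (Subgroup.mem_zpowers _) (Subgroup.inv_mem _ hyz)
        rw [h1] at h0
        exact h0
      obtain ⟨i, hi⟩ := Subgroup.mem_zpowers_iff.mp hxz
      obtain ⟨j, hj⟩ := Subgroup.mem_zpowers_iff.mp hyz
      have hc : Commute x y := by
        have hc0 : Commute ((x * y) ^ i) ((x * y) ^ j) :=
          ((Commute.refl (x * y)).zpow_right j).zpow_left i
        rw [hi, hj] at hc0
        exact hc0
      exact ⟨x * y, Subgroup.mul_mem _ hxH hyH, (hc.mul_pow _).symm⟩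
    · have hcl : Subgroup.closure ({x * y, y} : Set G) = Subgroup.closure ({x, y} : Set G) := by
        apply le_antisymm
        · rw [Subgroup.closure_le]
          intro z hz
          have hz2 : z = x * y ∨ z = y := by simpa using hz
          rcases hz2 with h | h <;> rw [h]
          · exact Subgroup.mul_mem _ hxH hyH
          · exact hyH
        · rw [Subgroup.closure_le]
          intro z hz
          have hz2 : z = x ∨ z = y := by simpa using hz
          rcases hz2 with h | h <;> rw [h]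
          · have h1 : (x * y) * y⁻¹ = x := by group
            have h0 : (x * y) * y⁻¹ ∈ Subgroup.closure ({x * y, y} : Set G) :=
              Subgroup.mul_mem _ (Subgroup.subset_closure (Set.mem_insert _ _))
                (Subgroup.inv_mem _ (Subgroup.subset_closure (Set.mem_insert_of_mem _ rfl)))
            rw [h1] at h0
            exact h0
          · exact Subgroup.subset_closure (Set.mem_insert_of_mem _ rfl)
      obtain ⟨M', hlt, hxyM, hM'le, hnorm⟩ := exists_proper_normal hG.1 (x * y) y hyz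
      have hcomm : (x * y) * y * (x * y)⁻¹ * y⁻¹ ∈ M' := by
        have h1 : (x * y) * y * (x * y)⁻¹ * y⁻¹ = (x * y) * (y * (x * y)⁻¹ * y⁻¹) := by group
        rw [h1]
        exact M'.mul_mem hxyM (hnorm y (Subgroup.subset_closure (Set.mem_insert_of_mem _ rfl)) _
          (M'.inv_mem hxyM))
      have hle := commutator_closure_pair_le (x * y) y M' hnorm hcomm
      rw [hcl] at hlt hM'le hle
      let Ω : Subgroup G :=
        { carrier := {u | ∃ w ∈ M', u = w ^ p ^ n}
          mul_mem' := by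
            rintro u₁ u₂ ⟨w₁, hw₁, rfl⟩ ⟨w₂, hw₂, rfl⟩
            have h1 : Subgroup.closure ({w₁, w₂} : Set G) ≤ M' := by
              rw [Subgroup.closure_le]
              intro z hz
              have hz2 : z = w₁ ∨ z = w₂ := by simpa using hz
              rcases hz2 with h | h <;> rw [h] <;> assumption
            have h2 := Subgroup.card_le_of_le h1
            obtain ⟨w, hw, hww⟩ := ih w₁ w₂ (by omega)
            exact ⟨w, h1 hw, hww⟩
          one_mem' := ⟨1, M'.one_mem, (one_pow _).symm⟩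
          inv_mem' := by
            rintro u ⟨w, hw, rfl⟩
            exact ⟨w⁻¹, M'.inv_mem hw, (inv_pow _ _).symm⟩ }
      have hpc : Cfsg.powerClosure p n
          ⁅Subgroup.closure ({x, y} : Set G), Subgroup.closure ({x, y} : Set G)⁆ ≤ Ω := by
        unfold Cfsg.powerClosure
        rw [Subgroup.closure_le]
        rintro u ⟨w, hw, rfl⟩
        exact ⟨w, hle hw, rfl⟩
      obtain ⟨c, hc, hxyc⟩ := hG.2 x y n
      have h3 : x ^ p ^ n * y ^ p ^ n = (x * y) ^ p ^ n * c⁻¹ := by rw [hxyc]; group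
      have h4 : x ^ p ^ n * y ^ p ^ n ∈ Ω := by
        rw [h3]
        exact Ω.mul_mem ⟨x * y, hxyM, rfl⟩ (Ω.inv_mem (hpc hc))
      obtain ⟨w, hw, hww⟩ := h4
      exact ⟨w, hM'le hw, hww⟩

/-- In a regular `p`-group the `p ^ n`-th powers of the elements of a subgroup form a
subgroup. -/
theorem pow_set_eq [Finite G] {p : ℕ} [Fact p.Prime] (hG : Cfsg.IsRegularPGroup p G)
    (H : Subgroup G) (n : ℕ) :
    {y : G | ∃ x ∈ H, y = x ^ (p ^ n)} = (Cfsg.powerClosure p n H : Set G) := by
  apply Set.Subset.antisymm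
  · intro y hy
    exact Subgroup.subset_closure hy
  · let Ω : Subgroup G :=
      { carrier := {u | ∃ w ∈ H, u = w ^ p ^ n}
        mul_mem' := by
          rintro u₁ u₂ ⟨w₁, hw₁, rfl⟩ ⟨w₂, hw₂, rfl⟩
          have h1 : Subgroup.closure ({w₁, w₂} : Set G) ≤ H := by
            rw [Subgroup.closure_le]
            intro z hz
            have hz2 : z = w₁ ∨ z = w₂ := by simpa using hz
            rcases hz2 with h | h <;> rw [h] <;> assumption
          obtain ⟨w, hw, hww⟩ := pow_mul_pow_aux hG n _ w₁ w₂ le_rfl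
          exact ⟨w, h1 hw, hww⟩
        one_mem' := ⟨1, H.one_mem, (one_pow _).symm⟩
        inv_mem' := by
          rintro u ⟨w, hw, rfl⟩
          exact ⟨w⁻¹, H.inv_mem hw, (inv_pow _ _).symm⟩ }
    have h1 : Cfsg.powerClosure p n H ≤ Ω := by
      unfold Cfsg.powerClosure
      rw [Subgroup.closure_le]
      intro u hu
      exact hu
    intro y hy
    exact h1 hy

/-- In a regular `p`-group, `[℧ₙ(H), ℧ₙ(H)] ≤ ℧ₙ(H')`. -/
theorem commutator_powerClosure_le [Finite G] {p : ℕ} [Fact p.Prime]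
    (hG : Cfsg.IsRegularPGroup p G) (H : Subgroup G) (n : ℕ) :
    ⁅Cfsg.powerClosure p n H, Cfsg.powerClosure p n H⁆ ≤ Cfsg.powerClosure p n ⁅H, H⁆ := by
  set D := Cfsg.powerClosure p n ⁅H, H⁆ with hD
  have hHH : ⁅H, H⁆ ≤ H := by
    rw [Subgroup.commutator_le]
    intro g₁ h₁ g₂ h₂
    rw [commutatorElement_def]
    exact H.mul_mem (H.mul_mem (H.mul_mem h₁ h₂) (H.inv_mem h₁)) (H.inv_mem h₂)
  have hDnorm : ∀ h ∈ H, ∀ d ∈ D, h * d * h⁻¹ ∈ D := by
    intro h hh d hd
    have h1 : D.map (MulAut.conj h).toMonoidHom = D := by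
      rw [hD, powerClosure_map, Subgroup.map_commutator,
        Cfsg.Agent.Lib_helper6_Conj.conjMap_of_mem hh]
    rw [← h1]
    exact ⟨d, hd, rfl⟩
  have hDn : (D.subgroupOf H).Normal := by
    constructor
    intro d hd g
    rw [Subgroup.mem_subgroupOf] at hd ⊢
    exact hDnorm g g.2 d hd
  have hHreg : Cfsg.IsRegularPGroup p H := regular_subgroup hG H
  have hQreg : Cfsg.IsRegularPGroup p (H ⧸ D.subgroupOf H) := regular_quotient hHreg _
  have key : ∀ u v : H ⧸ D.subgroupOf H, u ^ p ^ n * v = v * u ^ p ^ n := by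
    intro u v
    rw [Cfsg.Agent.S4224.result hQreg u v n]
    obtain ⟨x, rfl⟩ := QuotientGroup.mk_surjective u
    obtain ⟨y, rfl⟩ := QuotientGroup.mk_surjective v
    rw [← QuotientGroup.mk_inv, ← QuotientGroup.mk_inv, ← QuotientGroup.mk_mul,
      ← QuotientGroup.mk_mul, ← QuotientGroup.mk_mul, ← QuotientGroup.mk_pow,
      QuotientGroup.eq_one_iff, Subgroup.mem_subgroupOf]
    show ((x : G)⁻¹ * (y : G)⁻¹ * (x : G) * (y : G)) ^ p ^ n ∈ D
    apply Subgroup.subset_closure
    refine ⟨_, ?_, rfl⟩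
    have h1 : (x : G)⁻¹ * (y : G)⁻¹ * (x : G) * (y : G) = ⁅(x : G)⁻¹, (y : G)⁻¹⁆ := by
      rw [commutatorElement_def]; group
    rw [h1]
    exact Subgroup.commutator_mem_commutator (H.inv_mem x.2) (H.inv_mem y.2)
  rw [Subgroup.commutator_le]
  intro g₁ hg₁ g₂ hg₂
  have hs := pow_set_eq hG H n
  have hg₁' : g₁ ∈ {y : G | ∃ x ∈ H, y = x ^ (p ^ n)} := by rw [hs]; exact hg₁
  have hg₂' : g₂ ∈ {y : G | ∃ x ∈ H, y = x ^ (p ^ n)} := by rw [hs]; exact hg₂
  obtain ⟨x, hx, rfl⟩ := hg₁'
  obtain ⟨y, hy, rfl⟩ := hg₂'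
  have h2 := key (QuotientGroup.mk (⟨x, hx⟩ : H)) (QuotientGroup.mk ((⟨y, hy⟩ : H) ^ p ^ n))
  rw [← QuotientGroup.mk_pow, ← QuotientGroup.mk_mul, ← QuotientGroup.mk_mul] at h2
  have h3 := QuotientGroup.eq.mp h2
  rw [Subgroup.mem_subgroupOf] at h3
  have h4 : ((⟨y, hy⟩ : H) ^ p ^ n * (⟨x, hx⟩ : H) ^ p ^ n)⁻¹ *
      ((⟨x, hx⟩ : H) ^ p ^ n * (⟨y, hy⟩ : H) ^ p ^ n) ∈ D.subgroupOf H := by
    have h5 := QuotientGroup.eq.mp h2.symm
    exact h5
  rw [Subgroup.mem_subgroupOf] at h4
  have h6 : ⁅x ^ p ^ n, y ^ p ^ n⁆ = (y ^ p ^ n * x ^ p ^ n) *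
      ((y ^ p ^ n * x ^ p ^ n)⁻¹ * (x ^ p ^ n * y ^ p ^ n)) * (y ^ p ^ n * x ^ p ^ n)⁻¹ := by
    rw [commutatorElement_def]; group
  rw [h6]
  exact hDnorm _ (H.mul_mem (H.pow_mem hy _) (H.pow_mem hx _)) _ h4

end Cfsg.Agent.Lib_helper6_Regular2
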