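import Mathlib
import Cfsg.Prelude.Def_PLocal
import Cfsg.Agent.Lib_helper6_Regular
import Cfsg.Agent.Lib_helper6_Regular2
import Cfsg.Agent.Lib_helper6_Conj

set_option autoImplicit false

namespace Cfsg.Agent.Lib_helper6_RegLvl

open scoped commutatorElement
open Cfsg.Agent.Lib_helper6_Regular (commutator_closure_pair_le eq_one_of_mem_powerClosure
  exists_proper_normal)
open Cfsg.Agent.Lib_helper6_Regular2 (powerClosure_map powerClosure_pair_map powerClosure_mono)

variable {G : Type*} [Group G]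

/-- regularity at level `k`: the defining identity of a regular `p`-group for `p ^ k` only -/
def RegAt (p k : ℕ) (G : Type*) [Group G] : Prop :=
  IsPGroup p G ∧ ∀ a b : G,
    ∃ c ∈ Cfsg.powerClosure p k
      ⁅Subgroup.closure ({a, b} : Set G), Subgroup.closure ({a, b} : Set G)⁆,
      (a * b) ^ (p ^ k) = a ^ (p ^ k) * b ^ (p ^ k) * c

theorem mul_pow_eq_one_aux [Finite G] {p k : ℕ} [Fact p.Prime] (hG : RegAt p k G)
    : ∀ N : ℕ, ∀ a b : G, a ^ p ^ k = 1 → b ^ p ^ k = 1 →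
      Nat.card (Subgroup.closure ({a, b} : Set G)) ≤ N → (a * b) ^ p ^ k = 1 := by
  intro N
  induction N with
  | zero =>
    intro a b _ _ h
    have := Nat.card_pos (α := Subgroup.closure ({a, b} : Set G))
    omega
  | succ N ih =>
    intro a b ha hb hcard
    by_cases hbz : b ∈ Subgroup.zpowers a
    · obtain ⟨i, rfl⟩ := Subgroup.mem_zpowers_iff.mp hbz
      have hc : Commute a (a ^ i) := (Commute.refl a).zpow_right i
      rw [hc.mul_pow, ha, hb, one_mul]
    · obtain ⟨M', hlt, haM, hM'le, hnorm⟩ := exists_proper_normal hG.1 a b hbz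
      have hbH : b ∈ Subgroup.closure ({a, b} : Set G) :=
        Subgroup.subset_closure (Set.mem_insert_of_mem _ rfl)
      let Ω : Subgroup G :=
        { carrier := {x | x ∈ M' ∧ x ^ p ^ k = 1}
          mul_mem' := by
            rintro x y ⟨hx, hxq⟩ ⟨hy, hyq⟩
            refine ⟨M'.mul_mem hx hy, ih x y hxq hyq ?_⟩
            have h1 : Subgroup.closure ({x, y} : Set G) ≤ M' := by
              rw [Subgroup.closure_le]
              rintro z (rfl | hz)
              · exact hx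
              · rw [Set.mem_singleton_iff] at hz
                rw [hz]; exact hy
            have h2 := Subgroup.card_le_of_le h1
            omega
          one_mem' := ⟨M'.one_mem, one_pow _⟩
          inv_mem' := by
            rintro x ⟨hx, hxq⟩
            exact ⟨M'.inv_mem hx, by rw [inv_pow, hxq, inv_one]⟩ }
      have hΩnorm : ∀ g ∈ Subgroup.closure ({a, b} : Set G), ∀ x ∈ Ω, g * x * g⁻¹ ∈ Ω := by
        intro g hg x hx
        exact ⟨hnorm g hg x hx.1, by rw [conj_pow, hx.2]; group⟩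
      have haΩ : a ∈ Ω := ⟨haM, ha⟩
      have hcomm : a * b * a⁻¹ * b⁻¹ ∈ Ω := by
        have h1 : a * b * a⁻¹ * b⁻¹ = a * (b * a⁻¹ * b⁻¹) := by group
        rw [h1]
        exact Ω.mul_mem haΩ (hΩnorm b hbH _ (Ω.inv_mem haΩ))
      have hle := commutator_closure_pair_le a b Ω hΩnorm hcomm
      obtain ⟨c, hc, habc⟩ := hG.2 a b
      have hc1 : c = 1 := eq_one_of_mem_powerClosure _ (fun x hx => (hle hx).2) hc
      rw [habc, ha, hb, hc1]; group

/-- In a regular `p`-group the product of two elements killed by `p ^ k` is killed by `p ^ k`. -/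
theorem mul_pow_eq_one [Finite G] {p k : ℕ} [Fact p.Prime] (hG : RegAt p k G)
    (a b : G) (ha : a ^ p ^ k = 1) (hb : b ^ p ^ k = 1) : (a * b) ^ p ^ k = 1 :=
  mul_pow_eq_one_aux hG _ a b ha hb le_rfl

/-- The subgroup of elements killed by `p ^ k` in a regular `p`-group. -/
def omegaSub [Finite G] {p k : ℕ} [Fact p.Prime] (hG : RegAt p k G) :
    Subgroup G where
  carrier := {x | x ^ p ^ k = 1}
  mul_mem' := fun {x y} hx hy => mul_pow_eq_one hG x y hx hy
  one_mem' := one_pow _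
  inv_mem' := fun {x} hx => by
    show x⁻¹ ^ p ^ k = 1
    rw [inv_pow, show x ^ p ^ k = 1 from hx, inv_one]

theorem mem_omegaSub [Finite G] {p k : ℕ} [Fact p.Prime] (hG : RegAt p k G)
    (x : G) : x ∈ omegaSub hG ↔ x ^ p ^ k = 1 := Iff.rfl

theorem omegaSub_conj [Finite G] {p k : ℕ} [Fact p.Prime] (hG : RegAt p k G)
    (g x : G) (hx : x ∈ omegaSub hG) : g * x * g⁻¹ ∈ omegaSub hG := by
  rw [mem_omegaSub] at hx ⊢
  rw [conj_pow, hx]; group

/-- if the commutator of `a` and `b` is killed by `p ^ k` then so is every `c` in the power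
closure of the derived subgroup of `⟨a, b⟩` -/
theorem eq_one_of_comm [Finite G] {p k : ℕ} [Fact p.Prime] (hG : RegAt p k G)
    (a b : G) (hab : (a * b * a⁻¹ * b⁻¹) ^ p ^ k = 1) {c : G}
    (hc : c ∈ Cfsg.powerClosure p k
      ⁅Subgroup.closure ({a, b} : Set G), Subgroup.closure ({a, b} : Set G)⁆) : c = 1 := by
  have hle := commutator_closure_pair_le a b (omegaSub hG)
    (fun g _ x hx => omegaSub_conj hG g x hx) hab
  exact eq_one_of_mem_powerClosure _ (fun x hx => hle hx) hc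

theorem pow_eq_of_mul_inv [Finite G] {p k : ℕ} [Fact p.Prime] (hG : RegAt p k G)
    (a b : G) (h : (a * b⁻¹) ^ p ^ k = 1) : a ^ p ^ k = b ^ p ^ k := by
  obtain ⟨c, hc, habc⟩ := hG.2 (a * b⁻¹) b
  have hd : (a * b⁻¹) ∈ omegaSub hG := h
  have hcomm : ((a * b⁻¹) * b * (a * b⁻¹)⁻¹ * b⁻¹) ^ p ^ k = 1 := by
    have h1 : (a * b⁻¹) * b * (a * b⁻¹)⁻¹ * b⁻¹ = (a * b⁻¹) * (b * (a * b⁻¹)⁻¹ * b⁻¹) := by group
    rw [h1]
    exact (omegaSub hG).mul_mem hd (omegaSub_conj hG b _ ((omegaSub hG).inv_mem hd))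
  have hc1 := eq_one_of_comm hG _ _ hcomm hc
  have h2 : a * b⁻¹ * b = a := by group
  rw [h2, h, hc1] at habc
  rw [habc]; group

theorem mul_inv_pow_aux [Finite G] {p k : ℕ} [Fact p.Prime] (hG : RegAt p k G)
    : ∀ N : ℕ, ∀ a b : G, a ^ p ^ k = b ^ p ^ k →
      Nat.card (Subgroup.closure ({a, b} : Set G)) ≤ N → (a * b⁻¹) ^ p ^ k = 1 := by
  intro N
  induction N with
  | zero =>
    intro a b _ h
    have := Nat.card_pos (α := Subgroup.closure ({a, b} : Set G))
    omega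
  | succ N ih =>
    intro a b hab hcard
    by_cases hbz : b ∈ Subgroup.zpowers a
    · obtain ⟨i, rfl⟩ := Subgroup.mem_zpowers_iff.mp hbz
      have hc : Commute a (a ^ i)⁻¹ := ((Commute.refl a).zpow_right i).inv_right
      rw [hc.mul_pow, inv_pow, hab, mul_inv_cancel]
    · obtain ⟨M', hlt, haM, hM'le, hnorm⟩ := exists_proper_normal hG.1 a b hbz
      have hbH : b ∈ Subgroup.closure ({a, b} : Set G) :=
        Subgroup.subset_closure (Set.mem_insert_of_mem _ rfl)
      have h1 : a ^ p ^ k = (b * a * b⁻¹) ^ p ^ k := by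
        rw [conj_pow, hab]; group
      have h2 : Subgroup.closure ({a, b * a * b⁻¹} : Set G) ≤ M' := by
        rw [Subgroup.closure_le]
        rintro z (rfl | hz)
        · exact haM
        · rw [Set.mem_singleton_iff] at hz
          rw [hz]; exact hnorm b hbH _ haM
      have h3 := Subgroup.card_le_of_le h2
      have h4 := ih a (b * a * b⁻¹) h1 (by omega)
      have h5 : a * (b * a * b⁻¹)⁻¹ = a * b * a⁻¹ * b⁻¹ := by group
      rw [h5] at h4
      -- the commutator of `a` and `b⁻¹`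
      have h6 : (a * b⁻¹ * a⁻¹ * b⁻¹⁻¹) ^ p ^ k = 1 := by
        have h7 : a * b⁻¹ * a⁻¹ * b⁻¹⁻¹ = b⁻¹ * (a * b * a⁻¹ * b⁻¹)⁻¹ * b⁻¹⁻¹ := by group
        rw [h7]
        exact omegaSub_conj hG b⁻¹ _ ((omegaSub hG).inv_mem h4)
      obtain ⟨c, hc, habc⟩ := hG.2 a b⁻¹
      have hc1 := eq_one_of_comm hG _ _ h6 hc
      rw [habc, hc1, inv_pow, hab]; group

/-- In a regular `p`-group, `a ^ (p ^ k) = b ^ (p ^ k)` iff `(a * b⁻¹) ^ (p ^ k) = 1`. -/
theorem pow_eq_iff [Finite G] {p k : ℕ} [Fact p.Prime] (hG : RegAt p k G)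
    (a b : G) : a ^ p ^ k = b ^ p ^ k ↔ (a * b⁻¹) ^ p ^ k = 1 :=
  ⟨fun h => mul_inv_pow_aux hG _ a b h le_rfl, pow_eq_of_mul_inv hG a b⟩


theorem comm_pow_iff [Finite G] {p k : ℕ} [Fact p.Prime] (hG : RegAt p k G) (a b : G) : a ^ p ^ k * b = b * a ^ p ^ k ↔ (a⁻¹ * b⁻¹ * a * b) ^ p ^ k = 1 := by
  have e1 : (b⁻¹ * a * b) ^ p ^ k = b⁻¹ * a ^ p ^ k * b := by
    have h : b⁻¹ * a * b = b⁻¹ * a * b⁻¹⁻¹ := by group
    rw [h, conj_pow, inv_inv]
  have e2 : (a⁻¹ * b⁻¹ * a * b) ^ p ^ k = a⁻¹ * ((b⁻¹ * a * b) * a⁻¹) ^ p ^ k * a := by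
    have h : a⁻¹ * b⁻¹ * a * b = a⁻¹ * ((b⁻¹ * a * b) * a⁻¹) * a⁻¹⁻¹ := by group
    rw [h, conj_pow, inv_inv]
  have key := pow_eq_iff hG (b⁻¹ * a * b) a
  constructor
  · intro h
    have h1 : (b⁻¹ * a * b) ^ p ^ k = a ^ p ^ k := by
      rw [e1, mul_assoc, h, ← mul_assoc, inv_mul_cancel, one_mul]
    rw [e2, key.mp h1]; group
  · intro h
    have h1 : ((b⁻¹ * a * b) * a⁻¹) ^ p ^ k = 1 := by
      rw [e2] at h
      have h0 : ((b⁻¹ * a * b) * a⁻¹) ^ p ^ k =
          a * (a⁻¹ * ((b⁻¹ * a * b) * a⁻¹) ^ p ^ k * a) * a⁻¹ := by group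
      rw [h0, h]; group
    have h2 := key.mpr h1
    rw [e1] at h2
    calc a ^ p ^ k * b = b * (b⁻¹ * a ^ p ^ k * b) := by group
      _ = b * a ^ p ^ k := by rw [h2]


/-- Regularity passes to quotients. -/
theorem regular_quotient {p n : ℕ} (hG : RegAt p n G) (N : Subgroup G)
    [N.Normal] : RegAt p n (G ⧸ N) := by
  refine ⟨hG.1.to_quotient N, ?_⟩
  intro a' b'
  obtain ⟨a, rfl⟩ := QuotientGroup.mk_surjective a'
  obtain ⟨b, rfl⟩ := QuotientGroup.mk_surjective b'
  obtain ⟨c, hc, habc⟩ := hG.2 a b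
  refine ⟨QuotientGroup.mk' N c, ?_, ?_⟩
  · have h1 := powerClosure_pair_map (QuotientGroup.mk' N) p n a b
    have h2 : QuotientGroup.mk' N c ∈ (Cfsg.powerClosure p n
      ⁅Subgroup.closure ({a, b} : Set G), Subgroup.closure ({a, b} : Set G)⁆).map
        (QuotientGroup.mk' N) := Subgroup.mem_map_of_mem _ hc
    rw [h1] at h2
    exact h2
  · have h3 := congrArg (QuotientGroup.mk' N) habc
    simpa using h3

/-- Regularity passes to subgroups. -/
theorem regular_subgroup {p n : ℕ} (hG : RegAt p n G) (H : Subgroup G) :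
    RegAt p n H := by
  refine ⟨hG.1.to_subgroup H, ?_⟩
  intro a b
  obtain ⟨c, hc, habc⟩ := hG.2 (a : G) (b : G)
  have h1 := powerClosure_pair_map H.subtype p n a b
  have hc' : c ∈ (Cfsg.powerClosure p n
      ⁅Subgroup.closure ({a, b} : Set H), Subgroup.closure ({a, b} : Set H)⁆).map H.subtype := by
    rw [h1]; exact hc
  obtain ⟨c', hc'', rfl⟩ := hc'
  refine ⟨c', hc'', ?_⟩
  apply Subtype.ext
  simpa using habc


theorem pow_mul_pow_aux [Finite G] {p n : ℕ} [Fact p.Prime] (hG : RegAt p n G) : ∀ N : ℕ, ∀ x y : G, Nat.card (Subgroup.closure ({x, y} : Set G)) ≤ N →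
      ∃ w ∈ Subgroup.closure ({x, y} : Set G), x ^ p ^ n * y ^ p ^ n = w ^ p ^ n := by
  intro N
  induction N with
  | zero =>
    intro a b h
    have := Nat.card_pos (α := Subgroup.closure ({a, b} : Set G))
    omega
  | succ N ih =>
    intro x y hcard
    have hxH : x ∈ Subgroup.closure ({x, y} : Set G) :=
      Subgroup.subset_closure (Set.mem_insert _ _)
    have hyH : y ∈ Subgroup.closure ({x, y} : Set G) :=
      Subgroup.subset_closure (Set.mem_insert_of_mem _ rfl)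
    by_cases hyz : y ∈ Subgroup.zpowers (x * y)
    · have hxz : x ∈ Subgroup.zpowers (x * y) := by
        have h1 : (x * y) * y⁻¹ = x := by group
        have h0 : (x * y) * y⁻¹ ∈ Subgroup.zpowers (x * y) :=
          Subgroup.mul_mem _ (Subgroup.mem_zpowers _) (Subgroup.inv_mem _ hyz)
        rw [h1] at h0
        exact h0
      obtain ⟨i, hi⟩ := Subgroup.mem_zpowers_iff.mp hxz
      obtain ⟨j, hj⟩ := Subgroup.mem_zpowers_iff.mp hyz
      have hc : Commute x y := by
        have hc0 : Commute ((x * y) ^ i) ((x * y) ^ j) :=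
          ((Commute.refl (x * y)).zpow_right j).zpow_left i
        rw [hi, hj] at hc0
        exact hc0
      exact ⟨x * y, Subgroup.mul_mem _ hxH hyH, (hc.mul_pow _).symm⟩
    · have hcl : Subgroup.closure ({x * y, y} : Set G) = Subgroup.closure ({x, y} : Set G) := by
        apply le_antisymm
        · rw [Subgroup.closure_le]
          intro z hz
          have hz2 : z = x * y ∨ z = y := by simpa using hz
          rcases hz2 with h | h <;> rw [h]
          · exact Subgroup.mul_mem _ hxH hyH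
          · exact hyH
        · rw [Subgroup.closure_le]
          intro z hz
          have hz2 : z = x ∨ z = y := by simpa using hz
          rcases hz2 with h | h <;> rw [h]
          · have h1 : (x * y) * y⁻¹ = x := by group
            have h0 : (x * y) * y⁻¹ ∈ Subgroup.closure ({x * y, y} : Set G) :=
              Subgroup.mul_mem _ (Subgroup.subset_closure (Set.mem_insert _ _))
                (Subgroup.inv_mem _ (Subgroup.subset_closure (Set.mem_insert_of_mem _ rfl)))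
            rw [h1] at h0
            exact h0
          · exact Subgroup.subset_closure (Set.mem_insert_of_mem _ rfl)
      obtain ⟨M', hlt, hxyM, hM'le, hnorm⟩ := exists_proper_normal hG.1 (x * y) y hyz
      have hcomm : (x * y) * y * (x * y)⁻¹ * y⁻¹ ∈ M' := by
        have h1 : (x * y) * y * (x * y)⁻¹ * y⁻¹ = (x * y) * (y * (x * y)⁻¹ * y⁻¹) := by group
        rw [h1]
        exact M'.mul_mem hxyM (hnorm y (Subgroup.subset_closure (Set.mem_insert_of_mem _ rfl)) _
          (M'.inv_mem hxyM))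
      have hle := commutator_closure_pair_le (x * y) y M' hnorm hcomm
      rw [hcl] at hlt hM'le hle
      let Ω : Subgroup G :=
        { carrier := {u | ∃ w ∈ M', u = w ^ p ^ n}
          mul_mem' := by
            rintro u₁ u₂ ⟨w₁, hw₁, rfl⟩ ⟨w₂, hw₂, rfl⟩
            have h1 : Subgroup.closure ({w₁, w₂} : Set G) ≤ M' := by
              rw [Subgroup.closure_le]
              intro z hz
              have hz2 : z = w₁ ∨ z = w₂ := by simpa using hz
              rcases hz2 with h | h <;> rw [h] <;> assumption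
            have h2 := Subgroup.card_le_of_le h1
            obtain ⟨w, hw, hww⟩ := ih w₁ w₂ (by omega)
            exact ⟨w, h1 hw, hww⟩
          one_mem' := ⟨1, M'.one_mem, (one_pow _).symm⟩
          inv_mem' := by
            rintro u ⟨w, hw, rfl⟩
            exact ⟨w⁻¹, M'.inv_mem hw, (inv_pow _ _).symm⟩ }
      have hpc : Cfsg.powerClosure p n
          ⁅Subgroup.closure ({x, y} : Set G), Subgroup.closure ({x, y} : Set G)⁆ ≤ Ω := by
        unfold Cfsg.powerClosure
        rw [Subgroup.closure_le]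
        rintro u ⟨w, hw, rfl⟩
        exact ⟨w, hle hw, rfl⟩
      obtain ⟨c, hc, hxyc⟩ := hG.2 x y
      have h3 : x ^ p ^ n * y ^ p ^ n = (x * y) ^ p ^ n * c⁻¹ := by rw [hxyc]; group
      have h4 : x ^ p ^ n * y ^ p ^ n ∈ Ω := by
        rw [h3]
        exact Ω.mul_mem ⟨x * y, hxyM, rfl⟩ (Ω.inv_mem (hpc hc))
      obtain ⟨w, hw, hww⟩ := h4
      exact ⟨w, hM'le hw, hww⟩

/-- In a regular `p`-group the `p ^ n`-th powers of the elements of a subgroup form a
subgroup. -/
theorem pow_set_eq [Finite G] {p n : ℕ} [Fact p.Prime] (hG : RegAt p n G)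
    (H : Subgroup G) :
    {y : G | ∃ x ∈ H, y = x ^ (p ^ n)} = (Cfsg.powerClosure p n H : Set G) := by
  apply Set.Subset.antisymm
  · intro y hy
    exact Subgroup.subset_closure hy
  · let Ω : Subgroup G :=
      { carrier := {u | ∃ w ∈ H, u = w ^ p ^ n}
        mul_mem' := by
          rintro u₁ u₂ ⟨w₁, hw₁, rfl⟩ ⟨w₂, hw₂, rfl⟩
          have h1 : Subgroup.closure ({w₁, w₂} : Set G) ≤ H := by
            rw [Subgroup.closure_le]
            intro z hz
            have hz2 : z = w₁ ∨ z = w₂ := by simpa using hz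
            rcases hz2 with h | h <;> rw [h] <;> assumption
          obtain ⟨w, hw, hww⟩ := pow_mul_pow_aux hG _ w₁ w₂ le_rfl
          exact ⟨w, h1 hw, hww⟩
        one_mem' := ⟨1, H.one_mem, (one_pow _).symm⟩
        inv_mem' := by
          rintro u ⟨w, hw, rfl⟩
          exact ⟨w⁻¹, H.inv_mem hw, (inv_pow _ _).symm⟩ }
    have h1 : Cfsg.powerClosure p n H ≤ Ω := by
      unfold Cfsg.powerClosure
      rw [Subgroup.closure_le]
      intro u hu
      exact hu
    intro y hy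
    exact h1 hy

/-- In a regular `p`-group, `[℧ₙ(H), ℧ₙ(H)] ≤ ℧ₙ(H')`. -/
theorem commutator_powerClosure_le [Finite G] {p n : ℕ} [Fact p.Prime]
    (hG : RegAt p n G) (H : Subgroup G) :
    ⁅Cfsg.powerClosure p n H, Cfsg.powerClosure p n H⁆ ≤ Cfsg.powerClosure p n ⁅H, H⁆ := by
  set D := Cfsg.powerClosure p n ⁅H, H⁆ with hD
  have hHH : ⁅H, H⁆ ≤ H := by
    rw [Subgroup.commutator_le]
    intro g₁ h₁ g₂ h₂
    rw [commutatorElement_def]
    exact H.mul_mem (H.mul_mem (H.mul_mem h₁ h₂) (H.inv_mem h₁)) (H.inv_mem h₂)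
  have hDnorm : ∀ h ∈ H, ∀ d ∈ D, h * d * h⁻¹ ∈ D := by
    intro h hh d hd
    have h1 : D.map (MulAut.conj h).toMonoidHom = D := by
      rw [hD, powerClosure_map, Subgroup.map_commutator,
        Cfsg.Agent.Lib_helper6_Conj.conjMap_of_mem hh]
    rw [← h1]
    exact ⟨d, hd, rfl⟩
  have hDn : (D.subgroupOf H).Normal := by
    constructor
    intro d hd g
    rw [Subgroup.mem_subgroupOf] at hd ⊢
    exact hDnorm g g.2 d hd
  have hHreg : RegAt p n H := regular_subgroup hG H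
  have hQreg : RegAt p n (H ⧸ D.subgroupOf H) := regular_quotient hHreg _
  have key : ∀ u v : H ⧸ D.subgroupOf H, u ^ p ^ n * v = v * u ^ p ^ n := by
    intro u v
    rw [comm_pow_iff hQreg u v]
    obtain ⟨x, rfl⟩ := QuotientGroup.mk_surjective u
    obtain ⟨y, rfl⟩ := QuotientGroup.mk_surjective v
    rw [← QuotientGroup.mk_inv, ← QuotientGroup.mk_inv, ← QuotientGroup.mk_mul,
      ← QuotientGroup.mk_mul, ← QuotientGroup.mk_mul, ← QuotientGroup.mk_pow,
      QuotientGroup.eq_one_iff, Subgroup.mem_subgroupOf]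
    show ((x : G)⁻¹ * (y : G)⁻¹ * (x : G) * (y : G)) ^ p ^ n ∈ D
    apply Subgroup.subset_closure
    refine ⟨_, ?_, rfl⟩
    have h1 : (x : G)⁻¹ * (y : G)⁻¹ * (x : G) * (y : G) = ⁅(x : G)⁻¹, (y : G)⁻¹⁆ := by
      rw [commutatorElement_def]; group
    rw [h1]
    exact Subgroup.commutator_mem_commutator (H.inv_mem x.2) (H.inv_mem y.2)
  rw [Subgroup.commutator_le]
  intro g₁ hg₁ g₂ hg₂
  have hs := pow_set_eq hG H
  have hg₁' : g₁ ∈ {y : G | ∃ x ∈ H, y = x ^ (p ^ n)} := by rw [hs]; exact hg₁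
  have hg₂' : g₂ ∈ {y : G | ∃ x ∈ H, y = x ^ (p ^ n)} := by rw [hs]; exact hg₂
  obtain ⟨x, hx, rfl⟩ := hg₁'
  obtain ⟨y, hy, rfl⟩ := hg₂'
  have h2 := key (QuotientGroup.mk (⟨x, hx⟩ : H)) (QuotientGroup.mk ((⟨y, hy⟩ : H) ^ p ^ n))
  rw [← QuotientGroup.mk_pow, ← QuotientGroup.mk_mul, ← QuotientGroup.mk_mul] at h2
  have h3 := QuotientGroup.eq.mp h2
  rw [Subgroup.mem_subgroupOf] at h3
  have h4 : ((⟨y, hy⟩ : H) ^ p ^ n * (⟨x, hx⟩ : H) ^ p ^ n)⁻¹ *
      ((⟨x, hx⟩ : H) ^ p ^ n * (⟨y, hy⟩ : H) ^ p ^ n) ∈ D.subgroupOf H := by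
    have h5 := QuotientGroup.eq.mp h2.symm
    exact h5
  rw [Subgroup.mem_subgroupOf] at h4
  have h6 : ⁅x ^ p ^ n, y ^ p ^ n⁆ = (y ^ p ^ n * x ^ p ^ n) *
      ((y ^ p ^ n * x ^ p ^ n)⁻¹ * (x ^ p ^ n * y ^ p ^ n)) * (y ^ p ^ n * x ^ p ^ n)⁻¹ := by
    rw [commutatorElement_def]; group
  rw [h6]
  exact hDnorm _ (H.mul_mem (H.pow_mem hy _) (H.pow_mem hx _)) _ h4


end Cfsg.Agent.Lib_helper6_RegLvl

namespace Cfsg.Agent.Lib_helper6_RegLvl

open scoped commutatorElement
open Cfsg.Agent.Lib_helper6_Regular2 (powerClosure_mono)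

variable {G : Type*} [Group G]

/-- Kemhadze's condition implies regularity at every level. -/
theorem regAt_of_kem [Finite G] {p : ℕ} [Fact p.Prime] (hG : IsPGroup p G)
    (hK : ∀ a b : G, ∃ c ∈ ⁅Subgroup.closure ({a, b} : Set G), Subgroup.closure ({a, b} : Set G)⁆,
      (a * b) ^ p = a ^ p * b ^ p * c ^ p) : ∀ n : ℕ, RegAt p n G := by
  intro n
  induction n with
  | zero =>
    refine ⟨hG, fun a b => ⟨1, Subgroup.one_mem _, by simp⟩⟩
  | succ m ih =>
    refine ⟨hG, fun a b => ?_⟩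
    set H := Subgroup.closure ({a, b} : Set G) with hH
    have haH : a ∈ H := Subgroup.subset_closure (Set.mem_insert _ _)
    have hbH : b ∈ H := Subgroup.subset_closure (Set.mem_insert_of_mem _ rfl)
    have hHH : ⁅H, H⁆ ≤ H := by
      rw [Subgroup.commutator_le]
      intro g₁ h₁ g₂ h₂
      rw [commutatorElement_def]
      exact H.mul_mem (H.mul_mem (H.mul_mem h₁ h₂) (H.inv_mem h₁)) (H.inv_mem h₂)
    obtain ⟨d, hd, habd⟩ := ih.2 a b
    have hset := pow_set_eq ih ⁅H, H⁆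
    have hcomm := commutator_powerClosure_le ih H
    have haq : a ^ p ^ m ∈ Cfsg.powerClosure p m H := Subgroup.subset_closure ⟨a, haH, rfl⟩
    have hbq : b ^ p ^ m ∈ Cfsg.powerClosure p m H := Subgroup.subset_closure ⟨b, hbH, rfl⟩
    have hdq : d ∈ Cfsg.powerClosure p m H := powerClosure_mono p m hHH hd
    obtain ⟨e₂, he₂, h2⟩ := hK (a ^ p ^ m) (b ^ p ^ m)
    obtain ⟨e₁, he₁, h1⟩ := hK (a ^ p ^ m * b ^ p ^ m) d
    have hcl2 : Subgroup.closure ({a ^ p ^ m, b ^ p ^ m} : Set G) ≤ Cfsg.powerClosure p m H := by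
      rw [Subgroup.closure_le]
      intro z hz
      have hz2 : z = a ^ p ^ m ∨ z = b ^ p ^ m := by simpa using hz
      rcases hz2 with h | h <;> rw [h] <;> assumption
    have hcl1 : Subgroup.closure ({a ^ p ^ m * b ^ p ^ m, d} : Set G) ≤
        Cfsg.powerClosure p m H := by
      rw [Subgroup.closure_le]
      intro z hz
      have hz2 : z = a ^ p ^ m * b ^ p ^ m ∨ z = d := by simpa using hz
      rcases hz2 with h | h <;> rw [h]
      · exact Subgroup.mul_mem _ haq hbq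
      · exact hdq
    have he₂' : e₂ ∈ Cfsg.powerClosure p m ⁅H, H⁆ :=
      hcomm (Subgroup.commutator_mono hcl2 hcl2 he₂)
    have he₁' : e₁ ∈ Cfsg.powerClosure p m ⁅H, H⁆ :=
      hcomm (Subgroup.commutator_mono hcl1 hcl1 he₁)
    have key : ∀ u ∈ Cfsg.powerClosure p m ⁅H, H⁆, u ^ p ∈ Cfsg.powerClosure p (m + 1) ⁅H, H⁆ := by
      intro u hu
      have hu' : u ∈ {y : G | ∃ x ∈ ⁅H, H⁆, y = x ^ (p ^ m)} := by rw [hset]; exact hu
      obtain ⟨w, hw, rfl⟩ := hu'
      apply Subgroup.subset_closure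
      exact ⟨w, hw, by rw [← pow_mul, pow_succ]⟩
    refine ⟨e₂ ^ p * d ^ p * e₁ ^ p,
      Subgroup.mul_mem _ (Subgroup.mul_mem _ (key e₂ he₂') (key d hd)) (key e₁ he₁'), ?_⟩
    rw [pow_succ, pow_mul, habd, h1, h2, ← pow_mul, ← pow_mul]
    simp only [mul_assoc]

end Cfsg.Agent.Lib_helper6_RegLvl
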