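import Mathlib
import Cfsg.Prelude.Def_SporadicB
import Cfsg.Agent.Lib_helper6_Sylow
import Cfsg.Agent.Lib_helper6_PEltCount

set_option autoImplicit false

namespace Cfsg.Agent.Lib_helper6_TwoCentral

open Cfsg.Agent.Lib_helper6_Sylow Cfsg.Agent.Lib_helper6_PEltCount

variable {G : Type*} [Group G]

theorem orderOf_conj' (g x : G) : orderOf (g * x * g⁻¹) = orderOf x := by
  have h := (MulAut.conj g).orderOf_eq x
  rwa [MulAut.conj_apply] at h

/-- a 2-subgroup containing an element whose only fixed coset is `H` lies in `H` -/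
theorem le_of_fix [Finite G] (H : Subgroup G) (z : G) (hzH : z ∈ H)
    (hfix : ∀ g : G, g⁻¹ * z * g ∈ H → g ∈ H) (R : Subgroup G) (hR : IsPGroup 2 R)
    (hzR : z ∈ R) : R ≤ H := by
  haveI : Fact (Nat.Prime 2) := ⟨Nat.prime_two⟩
  by_contra hcon
  have hne : R ⊓ H ≠ R := by
    intro h
    apply hcon
    rw [← h]
    exact inf_le_right
  obtain ⟨x, hxR, hxN, hxD⟩ := exists_mem_normalizer_not_mem 2 R (R ⊓ H) hR inf_le_left hne
  rw [Subgroup.mem_normalizer_iff] at hxN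
  have h1 : x⁻¹ * z * x ∈ R ⊓ H := by
    rw [hxN (x⁻¹ * z * x)]
    have e : x * (x⁻¹ * z * x) * x⁻¹ = z := by group
    rw [e]
    exact ⟨hzR, hzH⟩
  exact hxD ⟨hxR, hfix x h1.2⟩

theorem two_central [Finite G] (z : G) (hz : Cfsg.IsTwoCentralInvolution z) (H : Subgroup G)
    (hzH : z ∈ H) (hfix : ∀ g : G, g⁻¹ * z * g ∈ H → g ∈ H) :
    Odd H.index ∧ ∀ x ∈ H, (∃ k : ℕ, orderOf x = 2 ^ k) → ∀ g : G, g * x * g⁻¹ ∈ H →
      ∃ h ∈ H, h * x * h⁻¹ = g * x * g⁻¹ := by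
  haveI : Fact (Nat.Prime 2) := ⟨Nat.prime_two⟩
  obtain ⟨hz2, P, hzP, hPz⟩ := hz
  have hPH : (P : Subgroup G) ≤ H := by
    intro x hx
    apply hfix
    have h1 := hPz x hx
    have e : x⁻¹ * z * x = z := by
      calc x⁻¹ * z * x = x⁻¹ * (z * x) := by group
        _ = x⁻¹ * (x * z) := by rw [h1]
        _ = z := by group
    rw [e]
    exact hzH
  constructor
  · have h1 : H.index ∣ (P : Subgroup G).index := Subgroup.index_dvd_of_le hPH
    have h2 : ¬ 2 ∣ (P : Subgroup G).index := Sylow.not_dvd_index P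
    rw [← Nat.not_even_iff_odd, even_iff_two_dvd]
    intro h3
    exact h2 (h3.trans h1)
  · -- conjugates of z in H keep the fixed point property
    have hfix' : ∀ h ∈ H, ∀ g : G, g⁻¹ * (h * z * h⁻¹) * g ∈ H → g ∈ H := by
      intro h hh g hg
      have h1 : (h⁻¹ * g)⁻¹ * z * (h⁻¹ * g) ∈ H := by
        have e : (h⁻¹ * g)⁻¹ * z * (h⁻¹ * g) = g⁻¹ * (h * z * h⁻¹) * g := by group
        rw [e]
        exact hg
      have h2 := hfix _ h1
      have h3 := H.mul_mem hh h2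
      simpa using h3
    -- every 2-element of H commutes with an H-conjugate of z
    have hcomm : ∀ x ∈ H, (∃ k : ℕ, orderOf x = 2 ^ k) →
        ∃ h ∈ H, x * (h * z * h⁻¹) = (h * z * h⁻¹) * x := by
      intro x hxH hx2
      have hx2' : ∃ k : ℕ, orderOf (⟨x, hxH⟩ : ↥H) = 2 ^ k := by
        obtain ⟨k, hk⟩ := hx2
        exact ⟨k, by rw [Subgroup.orderOf_mk]; exact hk⟩
      obtain ⟨Q, hQ⟩ := pElem_mem_sylow hx2'
      obtain ⟨h, hh⟩ := sylow_conj (P.subtype hPH) Q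
      have h1 := (hh ⟨x, hxH⟩).mp hQ
      rw [Sylow.coe_subtype, Subgroup.mem_subgroupOf] at h1
      have h2 : (h : G)⁻¹ * x * (h : G) ∈ (P : Subgroup G) := by
        simpa using h1
      have h3 := hPz _ h2
      refine ⟨h, h.2, ?_⟩
      calc x * ((h : G) * z * (h : G)⁻¹)
          = (h : G) * (((h : G)⁻¹ * x * (h : G)) * z) * (h : G)⁻¹ := by group
        _ = (h : G) * (z * ((h : G)⁻¹ * x * (h : G))) * (h : G)⁻¹ := by rw [h3]
        _ = ((h : G) * z * (h : G)⁻¹) * x := by group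
    intro x hxH hx2 g hgx
    have hy2 : ∃ k : ℕ, orderOf (g * x * g⁻¹) = 2 ^ k := by
      obtain ⟨k, hk⟩ := hx2
      exact ⟨k, by rw [orderOf_conj']; exact hk⟩
    obtain ⟨h₁, hh₁, hc₁⟩ := hcomm x hxH hx2
    obtain ⟨h₂, hh₂, hc₂⟩ := hcomm _ hgx hy2
    -- work in the centralizer of x
    have hz₁C : h₁ * z * h₁⁻¹ ∈ Subgroup.centralizer ({x} : Set G) := by
      rw [Subgroup.mem_centralizer_iff]
      intro y hy
      rw [Set.mem_singleton_iff] at hy
      rw [hy]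
      exact hc₁
    have huC : g⁻¹ * (h₂ * z * h₂⁻¹) * g ∈ Subgroup.centralizer ({x} : Set G) := by
      rw [Subgroup.mem_centralizer_iff]
      intro y hy
      rw [Set.mem_singleton_iff] at hy
      rw [hy]
      calc x * (g⁻¹ * (h₂ * z * h₂⁻¹) * g)
          = g⁻¹ * ((g * x * g⁻¹) * (h₂ * z * h₂⁻¹)) * g := by group
        _ = g⁻¹ * ((h₂ * z * h₂⁻¹) * (g * x * g⁻¹)) * g := by rw [hc₂]
        _ = g⁻¹ * (h₂ * z * h₂⁻¹) * g * x := by group
    have ho1 : ∃ k : ℕ, orderOf (⟨h₁ * z * h₁⁻¹, hz₁C⟩ : ↥(Subgroup.centralizer ({x} : Set G))) = 2 ^ k :=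
      ⟨1, by rw [Subgroup.orderOf_mk, orderOf_conj', hz2, pow_one]⟩
    have ho2 : ∃ k : ℕ, orderOf (⟨g⁻¹ * (h₂ * z * h₂⁻¹) * g, huC⟩ :
        ↥(Subgroup.centralizer ({x} : Set G))) = 2 ^ k := by
      refine ⟨1, ?_⟩
      rw [Subgroup.orderOf_mk]
      have e : g⁻¹ * (h₂ * z * h₂⁻¹) * g = g⁻¹ * (h₂ * z * h₂⁻¹) * g⁻¹⁻¹ := by rw [inv_inv]
      rw [e, orderOf_conj', orderOf_conj', hz2, pow_one]
    obtain ⟨R, hR⟩ := pElem_mem_sylow ho1
    obtain ⟨R₂, hR₂⟩ := pElem_mem_sylow ho2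
    obtain ⟨c, hc⟩ := sylow_conj R R₂
    have h4 := (hc _).mp hR₂
    -- R (as a subgroup of G) lies in H
    have hRH : (R : Subgroup ↥(Subgroup.centralizer ({x} : Set G))).map
        (Subgroup.centralizer ({x} : Set G)).subtype ≤ H := by
      apply le_of_fix H (h₁ * z * h₁⁻¹) _ (hfix' h₁ hh₁) _
        (R.2.map (Subgroup.centralizer ({x} : Set G)).subtype)
      · exact ⟨_, hR, rfl⟩
      · have h5 := H.mul_mem (H.mul_mem hh₁ hzH) (H.inv_mem hh₁)
        exact h5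
    have h5 : (c : G)⁻¹ * (g⁻¹ * (h₂ * z * h₂⁻¹) * g) * (c : G) ∈ H := by
      apply hRH
      exact ⟨_, h4, by simp⟩
    have h6 : g * (c : G) ∈ H := by
      apply hfix' h₂ hh₂
      have e : (g * (c : G))⁻¹ * (h₂ * z * h₂⁻¹) * (g * (c : G)) =
          (c : G)⁻¹ * (g⁻¹ * (h₂ * z * h₂⁻¹) * g) * (c : G) := by group
      rw [e]
      exact h5
    refine ⟨g * (c : G), h6, ?_⟩
    have hcx : (c : G) * x = x * (c : G) := by
      have h7 := c.2
      rw [Subgroup.mem_centralizer_iff] at h7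
      exact (h7 x (Set.mem_singleton x)).symm
    calc g * (c : G) * x * (g * (c : G))⁻¹ = g * ((c : G) * x) * (c : G)⁻¹ * g⁻¹ := by group
      _ = g * (x * (c : G)) * (c : G)⁻¹ * g⁻¹ := by rw [hcx]
      _ = g * x * g⁻¹ := by group

end Cfsg.Agent.Lib_helper6_TwoCentral
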