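import Mathlib
import Cfsg.Prelude.Def_SporadicB
import Cfsg.Prelude.Def_FischerSpaces
import Cfsg.Agent.Lib_helper6_Sylow
import Cfsg.Agent.Lib_helper5_PAct

set_option autoImplicit false

namespace Cfsg.Agent.Lib_helper6_Width

open Cfsg.Agent.Lib_helper6_Sylow Cfsg.Agent.Lib_helper5_PAct

variable {G : Type*} [Group G]

theorem width_eq [Finite G] {D : Set G} (hD : Cfsg.IsThreeTranspositionGroup D) (T : Sylow 2 G) :
    IsMulCommutative (Subgroup.closure {d : G | d ∈ D ∧ d ∈ T}) ∧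
      {d : G | d ∈ D ∧ d ∈ T}.ncard = Cfsg.commutingWidth D := by
  haveI : Fact (Nat.Prime 2) := ⟨Nat.prime_two⟩
  obtain ⟨⟨hord, h23⟩, hconj, _⟩ := hD
  have hsq : ∀ d ∈ D, d * d = 1 := by
    intro d hd
    have := pow_orderOf_eq_one d
    rwa [hord d hd, pow_two] at this
  have hcomm : ∀ x ∈ {d : G | d ∈ D ∧ d ∈ T}, ∀ y ∈ {d : G | d ∈ D ∧ d ∈ T},
      x * y = y * x := by
    rintro x ⟨hxD, hxT⟩ y ⟨hyD, hyT⟩
    have h2 : (x * y) ^ 2 = 1 := by
      rcases h23 x hxD y hyD with h | h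
      · exact h
      · obtain ⟨k, hk⟩ := pElem_of_mem_sylow T (Subgroup.mul_mem _ hxT hyT)
        have h3 : orderOf (x * y) ∣ 3 := orderOf_dvd_of_pow_eq_one h
        rw [hk] at h3
        have hk0 : k = 0 := by
          by_contra hk0
          have : 2 ∣ 3 := (dvd_pow_self 2 hk0).trans h3
          omega
        rw [hk0, pow_zero] at hk
        rw [orderOf_eq_one_iff.mp hk, one_pow]
    have hx2 := hsq x hxD
    have hy2 := hsq y hyD
    rw [pow_two] at h2
    calc x * y = x * y * ((x * y) * (y * x)) := by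
          have e : (x * y) * (y * x) = x * (y * y) * x := by group
          rw [e, hy2, mul_one, hx2, mul_one]
      _ = ((x * y) * (x * y)) * (y * x) := by group
      _ = y * x := by rw [h2, one_mul]
  refine ⟨Subgroup.isMulCommutative_closure hcomm, ?_⟩
  unfold Cfsg.commutingWidth
  have hmem : {d : G | d ∈ D ∧ d ∈ T}.ncard ∈ {n : ℕ | ∃ E : Set G, E ⊆ D ∧ E.Finite ∧
      (∀ a ∈ E, ∀ b ∈ E, Commute a b) ∧ E.ncard = n} :=
    ⟨_, fun d hd => hd.1, Set.toFinite _, fun a ha b hb => hcomm a ha b hb, rfl⟩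
  apply le_antisymm
  · apply le_csSup
    · refine ⟨Nat.card G, ?_⟩
      rintro n ⟨E, _, _, _, rfl⟩
      exact Set.ncard_le_card E
    · exact hmem
  · apply csSup_le ⟨_, hmem⟩
    rintro n ⟨E, hED, hEfin, hEcomm, rfl⟩
    have hP : IsPGroup 2 (Subgroup.closure E) :=
      isPGroup_closure_of_commute' E (fun x hx y hy => hEcomm x hx y hy)
        (fun x hx => ⟨1, by rw [hord x (hED hx), pow_one]⟩)
    obtain ⟨Q, hQ⟩ := hP.exists_le_sylow
    obtain ⟨g, hg⟩ := sylow_conj T Q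
    apply Set.ncard_le_ncard_of_injOn (fun y => g⁻¹ * y * g)
    · intro y hy
      refine ⟨?_, (hg y).mp (hQ (Subgroup.subset_closure hy))⟩
      have h0 := hconj g⁻¹ y (hED hy)
      simpa using h0
    · intro y _ y' _ h
      simpa using h

end Cfsg.Agent.Lib_helper6_Width
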