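import Mathlib
import Cfsg.Agent.Lib_helper1_Coprime
import Cfsg.Agent.Lib_helper7_CoprimeGen
import Cfsg.Agent.Lib_helper7_TIAb

set_option autoImplicit false

namespace Cfsg.Agent.Lib_helper7_AbGen

open Cfsg.Agent.Lib_helper1_Coprime Cfsg.Agent.Lib_helper7_CoprimeGen

universe u

/-- generation by centralizers of points, for commuting `x`, `y` whose `p`-th powers centralize `D` -/
theorem gen_mod {X : Type u} [Group X] [Finite X] {p : ℕ} [hp : Fact p.Prime] (x y : X)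
    (hxy : x * y = y * x) (D : Subgroup X) (hxD : x ∈ Subgroup.normalizer (D : Set X))
    (hyD : y ∈ Subgroup.normalizer (D : Set X)) (hxp : ∀ d ∈ D, x ^ p * d = d * x ^ p)
    (hyp : ∀ d ∈ D, y ^ p * d = d * y ^ p) (hcop : (Nat.card D).Coprime p) (K : Subgroup X)
    (hKx : D ⊓ Subgroup.centralizer {x} ≤ K)
    (hKy : ∀ k : ℕ, D ⊓ Subgroup.centralizer {y * x ^ k} ≤ K) : D ≤ K := by
  have hαβ : conjNormalizer D x hxD * conjNormalizer D y hyD =
      conjNormalizer D y hyD * conjNormalizer D x hxD := by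
    ext v
    show x * (y * v * y⁻¹) * x⁻¹ = y * (x * v * x⁻¹) * y⁻¹
    have h1 : x⁻¹ * y⁻¹ = y⁻¹ * x⁻¹ := by rw [← mul_inv_rev, ← mul_inv_rev, hxy]
    calc x * (y * v * y⁻¹) * x⁻¹ = (x * y) * v * (y⁻¹ * x⁻¹) := by group
      _ = (y * x) * v * (x⁻¹ * y⁻¹) := by rw [hxy, h1]
      _ = y * (x * v * x⁻¹) * y⁻¹ := by group
  have hα : conjNormalizer D x hxD ^ p = 1 := by
    ext v
    rw [conjNormalizer_pow D x hxD p v]
    show x ^ p * v * (x ^ p)⁻¹ = v
    rw [hxp v v.2, mul_inv_cancel_right]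
  have hβ : conjNormalizer D y hyD ^ p = 1 := by
    ext v
    rw [conjNormalizer_pow D y hyD p v]
    show y ^ p * v * (y ^ p)⁻¹ = v
    rw [hyp v v.2, mul_inv_cancel_right]
  haveI : Finite (MulAut ↥D) := inferInstance
  haveI : Finite (SemidirectProduct ↥D (MulAut ↥D) (MonoidHom.id (MulAut ↥D))) :=
    Finite.of_equiv _ (SemidirectProduct.equivProd (φ := MonoidHom.id (MulAut ↥D))).symm
  have h1 : (SemidirectProduct.inr (conjNormalizer D x hxD) :
      SemidirectProduct ↥D (MulAut ↥D) (MonoidHom.id (MulAut ↥D))) *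
      SemidirectProduct.inr (conjNormalizer D y hyD) =
      SemidirectProduct.inr (conjNormalizer D y hyD) *
        SemidirectProduct.inr (conjNormalizer D x hxD) := by
    rw [← map_mul, ← map_mul, hαβ]
  have h2 : (SemidirectProduct.inr (conjNormalizer D x hxD) :
      SemidirectProduct ↥D (MulAut ↥D) (MonoidHom.id (MulAut ↥D))) ^ p = 1 := by
    rw [← map_pow, hα, map_one]
  have h3 : (SemidirectProduct.inr (conjNormalizer D y hyD) :
      SemidirectProduct ↥D (MulAut ↥D) (MonoidHom.id (MulAut ↥D))) ^ p = 1 := by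
    rw [← map_pow, hβ, map_one]
  have hn : ((SemidirectProduct.inl : ↥D →*
      SemidirectProduct ↥D (MulAut ↥D) (MonoidHom.id (MulAut ↥D))).range).Normal := by
    rw [SemidirectProduct.range_inl_eq_ker_rightHom]; exact MonoidHom.normal_ker _
  have h4 : ∀ w : SemidirectProduct ↥D (MulAut ↥D) (MonoidHom.id (MulAut ↥D)),
      w ∈ Subgroup.normalizer (((SemidirectProduct.inl : ↥D →*
        SemidirectProduct ↥D (MulAut ↥D) (MonoidHom.id (MulAut ↥D))).range : Subgroup _) :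
        Set _) := by
    intro w
    rw [Subgroup.normalizer_eq_top_iff.mpr hn]; exact Subgroup.mem_top _
  have h6 : (Nat.card ((SemidirectProduct.inl : ↥D →*
      SemidirectProduct ↥D (MulAut ↥D) (MonoidHom.id (MulAut ↥D))).range)).Coprime p := by
    rw [Nat.card_congr (MonoidHom.ofInjective
      (SemidirectProduct.inl_injective (φ := MonoidHom.id (MulAut ↥D)))).toEquiv.symm]
    exact hcop
  have hfix : ∀ (γ : MulAut ↥D) (z : X), (∀ v : ↥D, ((γ v : ↥D) : X) = z * v * z⁻¹) →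
      D ⊓ Subgroup.centralizer {z} ≤ K →
      (SemidirectProduct.inl : ↥D →*
        SemidirectProduct ↥D (MulAut ↥D) (MonoidHom.id (MulAut ↥D))).range ⊓
        Subgroup.centralizer {SemidirectProduct.inr γ} ≤
        (K.subgroupOf D).map SemidirectProduct.inl := by
    intro γ z hγ hK
    rintro w ⟨⟨d, rfl⟩, hw2⟩
    have hc : (SemidirectProduct.inr γ :
        SemidirectProduct ↥D (MulAut ↥D) (MonoidHom.id (MulAut ↥D))) * SemidirectProduct.inl d
        = SemidirectProduct.inl d * SemidirectProduct.inr γ :=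
      Subgroup.mem_centralizer_iff.mp hw2 _ (Set.mem_singleton _)
    have h7 : (SemidirectProduct.inl (γ d) :
        SemidirectProduct ↥D (MulAut ↥D) (MonoidHom.id (MulAut ↥D))) =
        SemidirectProduct.inl d := by
      have h8 := SemidirectProduct.inl_aut (φ := MonoidHom.id (MulAut ↥D)) γ d
      rw [MonoidHom.id_apply] at h8
      rw [h8, hc, mul_assoc, ← map_mul, mul_inv_cancel, map_one, mul_one]
    have h8 : γ d = d := SemidirectProduct.inl_injective h7
    have h9 : z * (d : X) * z⁻¹ = d := by rw [← hγ d, h8]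
    have hdK : (d : X) ∈ K := by
      apply hK
      refine ⟨d.2, Subgroup.mem_centralizer_iff.mpr (fun h hh => ?_)⟩
      rw [Set.mem_singleton_iff] at hh
      rw [hh]
      exact mul_inv_eq_iff_eq_mul.mp h9
    exact ⟨d, Subgroup.mem_subgroupOf.mpr hdK, rfl⟩
  have key := le_of_centralizers_le (p := p) _ _ h1 h2 h3 _ (h4 _) (h4 _) h6
    ((K.subgroupOf D).map SemidirectProduct.inl)
    (hfix _ x (fun v => rfl) hKx)
    (fun k => by
      rw [← map_pow, ← map_mul]
      apply hfix _ (y * x ^ k) _ (hKy k)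
      intro v
      rw [MulAut.mul_apply]
      show y * ((((conjNormalizer D x hxD) ^ k) v : ↥D) : X) * y⁻¹ = _
      rw [conjNormalizer_pow D x hxD k v]
      group)
  intro d hd
  obtain ⟨k', hk', hkk⟩ := key ⟨⟨d, hd⟩, rfl⟩
  have h10 : k' = ⟨d, hd⟩ := SemidirectProduct.inl_injective hkk
  have h11 : (k' : X) ∈ K := Subgroup.mem_subgroupOf.mp hk'
  rw [h10] at h11
  exact h11

theorem card_ker_pow_le {Q : Type*} [CommGroup Q] [Finite Q]
    (h : ∀ p : ℕ, p.Prime → Nat.card (powMonoidHom p : Q →* Q).ker ≤ p) :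
    ∀ n : ℕ, 0 < n → Nat.card (powMonoidHom n : Q →* Q).ker ≤ n := by
  intro n
  induction n using Nat.strong_induction_on with
  | _ n ih =>
    intro hn
    by_cases h1 : n = 1
    · subst h1
      have h2 : (powMonoidHom 1 : Q →* Q).ker = ⊥ := by
        ext a; simp [MonoidHom.mem_ker, powMonoidHom_apply]
      rw [h2, Subgroup.card_bot]
    · obtain ⟨m, hm⟩ := Nat.minFac_dvd n
      have hp := Nat.minFac_prime h1
      have hm0 : 0 < m := by
        rcases Nat.eq_zero_or_pos m with h0 | h0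
        · rw [h0, mul_zero] at hm; omega
        · exact h0
      have hmn : m < n := by
        have h3 : 1 * m < n.minFac * m := Nat.mul_lt_mul_of_pos_right hp.one_lt hm0
        rw [one_mul, ← hm] at h3; exact h3
      have e1 := Subgroup.card_mul_index
        ((powMonoidHom m : Q →* Q).comp (powMonoidHom n : Q →* Q).ker.subtype).ker
      rw [Subgroup.index_ker] at e1
      have e2 : Nat.card ((powMonoidHom m : Q →* Q).comp
          (powMonoidHom n : Q →* Q).ker.subtype).ker ≤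
          Nat.card (powMonoidHom m : Q →* Q).ker := by
        apply Nat.card_le_card_of_injective
          (fun a : ((powMonoidHom m : Q →* Q).comp (powMonoidHom n : Q →* Q).ker.subtype).ker =>
            (⟨((a : ↥(powMonoidHom n : Q →* Q).ker) : Q), a.2⟩ : (powMonoidHom m : Q →* Q).ker))
        intro a b hab
        exact Subtype.ext (Subtype.ext
          (congrArg (fun z : (powMonoidHom m : Q →* Q).ker => (z : Q)) hab))
      have e3 : Nat.card ((powMonoidHom m : Q →* Q).comp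
          (powMonoidHom n : Q →* Q).ker.subtype).range ≤
          Nat.card (powMonoidHom n.minFac : Q →* Q).ker := by
        apply Subgroup.card_le_of_le
        rintro _ ⟨a, rfl⟩
        rw [MonoidHom.mem_ker]
        show ((a : Q) ^ m) ^ n.minFac = 1
        rw [← pow_mul, mul_comm, ← hm]
        exact a.2
      calc Nat.card (powMonoidHom n : Q →* Q).ker
          = Nat.card ((powMonoidHom m : Q →* Q).comp
              (powMonoidHom n : Q →* Q).ker.subtype).ker *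
            Nat.card ((powMonoidHom m : Q →* Q).comp
              (powMonoidHom n : Q →* Q).ker.subtype).range := e1.symm
        _ ≤ m * n.minFac := Nat.mul_le_mul (e2.trans (ih m hmn hm0)) (e3.trans (h _ hp))
        _ = n := by rw [mul_comm, ← hm]

theorem isCyclic_of_card_ker_pow_le {Q : Type*} [CommGroup Q] [Finite Q]
    (h : ∀ p : ℕ, p.Prime → Nat.card (powMonoidHom p : Q →* Q).ker ≤ p) : IsCyclic Q := by
  classical
  haveI := Fintype.ofFinite Q
  apply isCyclic_of_card_pow_eq_one_le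
  intro n hn
  have h1 := card_ker_pow_le h n hn
  have h2 : Nat.card (powMonoidHom n : Q →* Q).ker =
      (Finset.univ.filter (fun a : Q => a ^ n = 1)).card := by
    rw [← Fintype.card_subtype, ← Nat.card_eq_fintype_card]
    exact Nat.card_congr (Equiv.subtypeEquivRight (fun a => by
      rw [MonoidHom.mem_ker, powMonoidHom_apply]))
  rw [← h2]; exact h1

theorem le_normalizer_of_conj_mem {X : Type*} [Group X] (A D : Subgroup X)
    (h : ∀ a ∈ A, ∀ g ∈ D, a * g * a⁻¹ ∈ D) : A ≤ Subgroup.normalizer (D : Set X) := by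
  intro a ha
  rw [Subgroup.mem_normalizer_iff]
  intro g
  refine ⟨fun hh => h a ha g hh, fun hh => ?_⟩
  have h1 := h a⁻¹ (A.inv_mem ha) _ hh
  have e : a⁻¹ * (a * g * a⁻¹) * a⁻¹⁻¹ = g := by group
  rw [e] at h1; exact h1

theorem conj_comm {X : Type*} [Group X] {a g z : X} (h1 : z * g = g * z) (h2 : a * z = z * a) :
    z * (a * g * a⁻¹) = a * g * a⁻¹ * z := by
  have h3 : z * a⁻¹ = a⁻¹ * z := by
    calc z * a⁻¹ = a⁻¹ * (a * z) * a⁻¹ := by group
      _ = a⁻¹ * (z * a) * a⁻¹ := by rw [h2]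
      _ = a⁻¹ * z := by group
  calc z * (a * g * a⁻¹) = (z * a) * g * a⁻¹ := by group
    _ = (a * z) * g * a⁻¹ := by rw [h2]
    _ = a * (z * g) * a⁻¹ := by group
    _ = a * (g * z) * a⁻¹ := by rw [h1]
    _ = a * g * (z * a⁻¹) := by group
    _ = a * g * (a⁻¹ * z) := by rw [h3]
    _ = a * g * a⁻¹ * z := by group

theorem comm_of_isMulCommutative {X : Type*} [Group X] (A : Subgroup X)
    (hAab : IsMulCommutative A) : ∀ a ∈ A, ∀ b ∈ A, a * b = b * a := by
  intro a ha b hb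
  haveI := hAab
  have h := mul_comm' (⟨a, ha⟩ : ↥A) ⟨b, hb⟩
  exact congrArg Subtype.val h

/-- a non-"cyclic" quotient `A/A₀` of an abelian group contains a `C_p × C_p` -/
theorem exists_rank_two {X : Type u} [Group X] [Finite X] (A A₀ : Subgroup X)
    (hAab : IsMulCommutative A) (hA₀ : A₀ ≤ A)
    (hnc : ¬ ∃ a ∈ A, A₀ ⊔ Subgroup.zpowers a = A) :
    ∃ p : ℕ, p.Prime ∧ p ∣ Nat.card A ∧ ∃ x ∈ A, ∃ y ∈ A, x ^ p ∈ A₀ ∧ y ^ p ∈ A₀ ∧ x ∉ A₀ ∧
      ∀ k : ℕ, y * x ^ k ∉ A₀ := by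
  haveI := hAab
  letI : CommGroup ↥A :=
    { (inferInstance : Group ↥A) with mul_comm := fun a b => mul_comm' a b }
  have hQ : ¬ IsCyclic (↥A ⧸ A₀.subgroupOf A) := by
    intro hcyc
    obtain ⟨g, hg⟩ := hcyc.exists_generator
    obtain ⟨a, rfl⟩ := QuotientGroup.mk_surjective g
    apply hnc
    refine ⟨a, a.2, le_antisymm (sup_le hA₀ (Subgroup.zpowers_le.mpr a.2)) ?_⟩
    intro b hb
    obtain ⟨k, hk⟩ := Subgroup.mem_zpowers_iff.mp (hg (QuotientGroup.mk ⟨b, hb⟩))
    have h1 : (a ^ k)⁻¹ * ⟨b, hb⟩ ∈ A₀.subgroupOf A := by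
      rw [← QuotientGroup.eq, QuotientGroup.mk_zpow]; exact hk
    have h2 : ((a : X) ^ k)⁻¹ * b ∈ A₀ := h1
    have h3 : b = (a : X) ^ k * (((a : X) ^ k)⁻¹ * b) := by group
    rw [h3]
    exact Subgroup.mul_mem _ (Subgroup.mem_sup_right (Subgroup.zpow_mem_zpowers _ k))
      (Subgroup.mem_sup_left h2)
  have h1 : ∃ p : ℕ, p.Prime ∧
      p < Nat.card (powMonoidHom p : (↥A ⧸ A₀.subgroupOf A) →* (↥A ⧸ A₀.subgroupOf A)).ker := by
    by_contra hcon
    push_neg at hcon
    exact hQ (isCyclic_of_card_ker_pow_le hcon)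
  obtain ⟨p, hp, hlt⟩ := h1
  haveI : Fact p.Prime := ⟨hp⟩
  haveI : Nontrivial
      ↥(powMonoidHom p : (↥A ⧸ A₀.subgroupOf A) →* (↥A ⧸ A₀.subgroupOf A)).ker :=
    Finite.one_lt_card_iff_nontrivial.mp (lt_trans hp.one_lt hlt)
  obtain ⟨u, hu⟩ := exists_ne (1 :
    ↥(powMonoidHom p : (↥A ⧸ A₀.subgroupOf A) →* (↥A ⧸ A₀.subgroupOf A)).ker)
  have hup : (u : ↥A ⧸ A₀.subgroupOf A) ^ p = 1 := u.2
  have huo : orderOf (u : ↥A ⧸ A₀.subgroupOf A) = p :=
    orderOf_eq_prime hup (fun h => hu (Subtype.ext h))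
  obtain ⟨v, hv, hvz⟩ : ∃ v : ↥A ⧸ A₀.subgroupOf A, v ^ p = 1 ∧
      v ∉ Subgroup.zpowers (u : ↥A ⧸ A₀.subgroupOf A) := by
    by_contra hcon
    push_neg at hcon
    have hle : (powMonoidHom p : (↥A ⧸ A₀.subgroupOf A) →* (↥A ⧸ A₀.subgroupOf A)).ker ≤
        Subgroup.zpowers (u : ↥A ⧸ A₀.subgroupOf A) := fun v hv => hcon v hv
    have h2 := Subgroup.card_le_of_le hle
    rw [Nat.card_zpowers, huo] at h2
    omega
  obtain ⟨x, hx⟩ := QuotientGroup.mk_surjective (u : ↥A ⧸ A₀.subgroupOf A)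
  obtain ⟨y, hy⟩ := QuotientGroup.mk_surjective v
  refine ⟨p, hp, ?_, (x : X), x.2, (y : X), y.2, ?_, ?_, ?_, ?_⟩
  · have h2 : p ∣ Nat.card (↥A ⧸ A₀.subgroupOf A) := huo ▸ orderOf_dvd_natCard _
    exact dvd_trans h2 (Subgroup.index_dvd_card (A₀.subgroupOf A))
  · have h2 : x ^ p ∈ A₀.subgroupOf A := by
      rw [← QuotientGroup.eq_one_iff, QuotientGroup.mk_pow, hx]; exact hup
    exact h2
  · have h2 : y ^ p ∈ A₀.subgroupOf A := by
      rw [← QuotientGroup.eq_one_iff, QuotientGroup.mk_pow, hy]; exact hv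
    exact h2
  · intro h2
    have h3 : x ∈ A₀.subgroupOf A := h2
    rw [← QuotientGroup.eq_one_iff, hx] at h3
    exact hu (Subtype.ext h3)
  · intro k h2
    have h3 : y * x ^ k ∈ A₀.subgroupOf A := h2
    rw [← QuotientGroup.eq_one_iff, QuotientGroup.mk_mul, QuotientGroup.mk_pow, hx, hy] at h3
    apply hvz
    rw [eq_inv_of_mul_eq_one_left h3]
    exact Subgroup.inv_mem _ (Subgroup.pow_mem _ (Subgroup.mem_zpowers _) k)

theorem gen_main {X : Type u} [Group X] [Finite X] (A G : Subgroup X)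
    (hAab : IsMulCommutative A) (hcop : (Nat.card A).Coprime (Nat.card G)) (K : Subgroup X)
    (hK : ∀ B : Subgroup X, B ≤ A → (∃ a ∈ A, B ⊔ Subgroup.zpowers a = A) →
      G ⊓ Subgroup.centralizer (B : Set X) ≤ K) :
    ∀ A₀ : Subgroup X, A₀ ≤ A → ∀ G₀ : Subgroup X, G₀ ≤ G →
      (∀ a ∈ A, ∀ g ∈ G₀, a * g * a⁻¹ ∈ G₀) →
      (∀ g ∈ G₀, ∀ b ∈ A₀, b * g = g * b) → G₀ ≤ K := by
  intro A₀
  induction A₀ using WellFoundedGT.induction with
  | _ A₀ ih =>
  intro hA₀ G₀ hG₀ hinv hcent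
  by_cases hcyc : ∃ a ∈ A, A₀ ⊔ Subgroup.zpowers a = A
  · refine le_trans ?_ (hK A₀ hA₀ hcyc)
    intro g hg
    exact ⟨hG₀ hg, Subgroup.mem_centralizer_iff.mpr (fun b hb => hcent g hg b hb)⟩
  · obtain ⟨p, hp, hpA, x, hx, y, hy, hxp, hyp, hxA₀, hyx⟩ :=
      exists_rank_two A A₀ hAab hA₀ hcyc
    haveI : Fact p.Prime := ⟨hp⟩
    have hcomm := comm_of_isMulCommutative A hAab
    have hnorm := le_normalizer_of_conj_mem A G₀ hinv
    have hcopD : (Nat.card G₀).Coprime p := by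
      have h1 : (Nat.card G₀).Coprime (Nat.card A) :=
        (Nat.Coprime.coprime_dvd_right (Subgroup.card_dvd_of_le hG₀) hcop).symm
      exact Nat.Coprime.coprime_dvd_right hpA h1
    have hstep : ∀ z ∈ A, z ∉ A₀ → G₀ ⊓ Subgroup.centralizer {z} ≤ K := by
      intro z hz hzA₀
      refine ih (A₀ ⊔ Subgroup.zpowers z) ?_ (sup_le hA₀ (Subgroup.zpowers_le.mpr hz))
        (G₀ ⊓ Subgroup.centralizer {z}) (inf_le_left.trans hG₀) ?_ ?_
      · exact lt_of_le_of_ne le_sup_left (fun h => hzA₀ (by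
          rw [h]; exact Subgroup.mem_sup_right (Subgroup.mem_zpowers z)))
      · intro a ha g hg
        refine ⟨hinv a ha g hg.1, Subgroup.mem_centralizer_iff.mpr (fun h hh => ?_)⟩
        rw [Set.mem_singleton_iff] at hh
        rw [hh]
        exact conj_comm (Subgroup.mem_centralizer_iff.mp hg.2 z (Set.mem_singleton z))
          (hcomm a ha z hz)
      · intro g hg b hb
        have hle : A₀ ⊔ Subgroup.zpowers z ≤ Subgroup.centralizer {g} := by
          refine sup_le ?_ (Subgroup.zpowers_le.mpr ?_)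
          · intro b hb
            refine Subgroup.mem_centralizer_iff.mpr (fun h hh => ?_)
            rw [Set.mem_singleton_iff] at hh
            rw [hh]
            exact (hcent g hg.1 b hb).symm
          · refine Subgroup.mem_centralizer_iff.mpr (fun h hh => ?_)
            rw [Set.mem_singleton_iff] at hh
            rw [hh]
            exact (Subgroup.mem_centralizer_iff.mp hg.2 z (Set.mem_singleton z)).symm
        exact (Subgroup.mem_centralizer_iff.mp (hle hb) g (Set.mem_singleton g)).symm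
    exact gen_mod x y (hcomm x hx y hy) G₀ (hnorm hx) (hnorm hy)
      (fun d hd => hcent d hd _ hxp) (fun d hd => hcent d hd _ hyp) hcopD K
      (hstep x hx hxA₀) (fun k => hstep (y * x ^ k) (A.mul_mem hy (A.pow_mem hx k)) (hyx k))

theorem conj_mem_iSup₂ {X : Type*} [Group X] {ι : Type*} (s : Set ι) (F : ι → Subgroup X) (u : X)
    (h : ∀ i ∈ s, ∀ g ∈ F i, u * g * u⁻¹ ∈ F i) :
    ∀ g ∈ ⨆ i ∈ s, F i, u * g * u⁻¹ ∈ ⨆ i ∈ s, F i := by
  have hle : (⨆ i ∈ s, F i) ≤ (⨆ i ∈ s, F i).comap (MulAut.conj u).toMonoidHom := by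
    apply iSup₂_le
    intro i hi g hg
    rw [Subgroup.mem_comap]
    show u * g * u⁻¹ ∈ _
    exact (le_iSup₂ (f := fun i (_ : i ∈ s) => F i) i hi) (h i hi g hg)
  intro g hg
  exact hle hg

/-- **S3734** -/
theorem s3734 {X : Type u} [Group X] [Finite X] (A G : Subgroup X) (hAab : IsMulCommutative A)
    (hAG : A ≤ Subgroup.normalizer (G : Set X)) (hcop : (Nat.card A).Coprime (Nat.card G)) :
    (⨆ B ∈ {B : Subgroup X | B ≤ A ∧ ∃ a ∈ A, B ⊔ Subgroup.zpowers a = A},
      G ⊓ Subgroup.centralizer (B : Set X)) = G ∧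
    (⨆ B ∈ {B : Subgroup X | B ≤ A ∧ ∃ a ∈ A, B ⊔ Subgroup.zpowers a = A},
      ⁅G ⊓ Subgroup.centralizer (B : Set X), A⁆) = ⁅G, A⁆ := by
  haveI := hAab
  have hcomm := comm_of_isMulCommutative A hAab
  have hinvG : ∀ a ∈ A, ∀ g ∈ G, a * g * a⁻¹ ∈ G := fun a ha g hg =>
    (Subgroup.mem_normalizer_iff.mp (hAG ha) g).mp hg
  have h1 : (⨆ B ∈ {B : Subgroup X | B ≤ A ∧ ∃ a ∈ A, B ⊔ Subgroup.zpowers a = A},
      G ⊓ Subgroup.centralizer (B : Set X)) = G := by
    apply le_antisymm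
    · exact iSup₂_le (fun B _ => inf_le_left)
    · exact gen_main A G hAab hcop _
        (fun B hB hcyc => le_iSup₂
          (f := fun (B : Subgroup X)
            (_ : B ∈ {B : Subgroup X | B ≤ A ∧ ∃ a ∈ A, B ⊔ Subgroup.zpowers a = A}) =>
            G ⊓ Subgroup.centralizer (B : Set X)) B ⟨hB, hcyc⟩)
        ⊥ bot_le G le_rfl hinvG
        (by intro g _ b hb; rw [Subgroup.mem_bot.mp hb, one_mul, mul_one])
  refine ⟨h1, ?_⟩
  apply le_antisymm
  · exact iSup₂_le (fun B _ => Subgroup.commutator_mono inf_le_left le_rfl)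
  · -- invariance of `C_G(B)` under `A`
    have hinvB : ∀ B : Subgroup X, B ≤ A → ∀ a ∈ A,
        ∀ g ∈ G ⊓ Subgroup.centralizer (B : Set X),
        a * g * a⁻¹ ∈ G ⊓ Subgroup.centralizer (B : Set X) := by
      intro B hB a ha g hg
      refine ⟨hinvG a ha g hg.1, Subgroup.mem_centralizer_iff.mpr (fun b hb => ?_)⟩
      exact conj_comm (Subgroup.mem_centralizer_iff.mp hg.2 b hb) (hcomm a ha b (hB hb))
    have hAX : ∀ B : Subgroup X, B ≤ A →
        A ≤ Subgroup.normalizer ((G ⊓ Subgroup.centralizer (B : Set X) : Subgroup X) : Set X) :=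
      fun B hB => le_normalizer_of_conj_mem A _ (hinvB B hB)
    have hsolv : Group.IsSolvable ↥A := isSolvable_of_isMulCommutative A
    -- step 1
    have hstep1 : ∀ B ∈ {B : Subgroup X | B ≤ A ∧ ∃ a ∈ A, B ⊔ Subgroup.zpowers a = A},
        G ⊓ Subgroup.centralizer (B : Set X) ≤
        (G ⊓ Subgroup.centralizer (A : Set X)) ⊔
        (⨆ B ∈ {B : Subgroup X | B ≤ A ∧ ∃ a ∈ A, B ⊔ Subgroup.zpowers a = A},
          ⁅G ⊓ Subgroup.centralizer (B : Set X), A⁆) := by
      intro B hB k hk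
      obtain ⟨n, hn, c, hc, rfl⟩ := exists_commutator_mul_fixed A
        (G ⊓ Subgroup.centralizer (B : Set X)) (hAX B hB.1)
        (Nat.Coprime.coprime_dvd_right (Subgroup.card_dvd_of_le inf_le_left) hcop)
        (Or.inl hsolv) k hk
      refine Subgroup.mul_mem _ (Subgroup.mem_sup_right ?_) (Subgroup.mem_sup_left ⟨hc.1.1, hc.2⟩)
      exact (le_iSup₂ (f := fun (B : Subgroup X)
        (_ : B ∈ {B : Subgroup X | B ≤ A ∧ ∃ a ∈ A, B ⊔ Subgroup.zpowers a = A}) =>
        ⁅G ⊓ Subgroup.centralizer (B : Set X), A⁆) B hB) hn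
    have hG : G ≤ (G ⊓ Subgroup.centralizer (A : Set X)) ⊔
        (⨆ B ∈ {B : Subgroup X | B ≤ A ∧ ∃ a ∈ A, B ⊔ Subgroup.zpowers a = A},
          ⁅G ⊓ Subgroup.centralizer (B : Set X), A⁆) := by
      calc G = ⨆ B ∈ {B : Subgroup X | B ≤ A ∧ ∃ a ∈ A, B ⊔ Subgroup.zpowers a = A},
            G ⊓ Subgroup.centralizer (B : Set X) := h1.symm
        _ ≤ _ := iSup₂_le hstep1
    -- normalization
    have hnC : ∀ c ∈ G ⊓ Subgroup.centralizer (A : Set X),
        ∀ h ∈ ⨆ B ∈ {B : Subgroup X | B ≤ A ∧ ∃ a ∈ A, B ⊔ Subgroup.zpowers a = A},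
          ⁅G ⊓ Subgroup.centralizer (B : Set X), A⁆,
        c * h * c⁻¹ ∈ ⨆ B ∈ {B : Subgroup X | B ≤ A ∧ ∃ a ∈ A, B ⊔ Subgroup.zpowers a = A},
          ⁅G ⊓ Subgroup.centralizer (B : Set X), A⁆ := by
      intro c hc
      apply conj_mem_iSup₂
      intro B hB g hg
      have hcB : c ∈ G ⊓ Subgroup.centralizer (B : Set X) :=
        ⟨hc.1, Subgroup.centralizer_le (fun b hb => hB.1 hb) hc.2⟩
      exact (Subgroup.mem_normalizer_iff.mp
        (normalizer_commutator_left A (G ⊓ Subgroup.centralizer (B : Set X)) hcB) g).mp hg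
    have hnA : ∀ a ∈ A,
        ∀ h ∈ ⨆ B ∈ {B : Subgroup X | B ≤ A ∧ ∃ a ∈ A, B ⊔ Subgroup.zpowers a = A},
          ⁅G ⊓ Subgroup.centralizer (B : Set X), A⁆,
        a * h * a⁻¹ ∈ ⨆ B ∈ {B : Subgroup X | B ≤ A ∧ ∃ a ∈ A, B ⊔ Subgroup.zpowers a = A},
          ⁅G ⊓ Subgroup.centralizer (B : Set X), A⁆ := by
      intro a ha
      apply conj_mem_iSup₂
      intro B hB g hg
      exact (Subgroup.mem_normalizer_iff.mp
        (normalizer_commutator_right A (G ⊓ Subgroup.centralizer (B : Set X)) (hAX B hB.1) ha)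
        g).mp hg
    rw [Subgroup.commutator_le]
    intro g hg a ha
    obtain ⟨c, hc, h, hh, rfl⟩ := Cfsg.Agent.Lib_helper7_TIAb.exists_mul_of_mem_sup _ _ hnC g
      (hG hg)
    have hac : a * c = c * a := Subgroup.mem_centralizer_iff.mp hc.2 a ha
    have hca : a⁻¹ * c⁻¹ = c⁻¹ * a⁻¹ := by rw [← mul_inv_rev, ← mul_inv_rev, hac]
    have e : c * h * a * (c * h)⁻¹ * a⁻¹ = c * (h * (a * h⁻¹ * a⁻¹)) * c⁻¹ := by
      calc c * h * a * (c * h)⁻¹ * a⁻¹ = c * h * a * h⁻¹ * (c⁻¹ * a⁻¹) := by group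
        _ = c * h * a * h⁻¹ * (a⁻¹ * c⁻¹) := by rw [hca]
        _ = c * (h * (a * h⁻¹ * a⁻¹)) * c⁻¹ := by group
    show c * h * a * (c * h)⁻¹ * a⁻¹ ∈ _
    rw [e]
    exact hnC c hc _ (Subgroup.mul_mem _ hh (hnA a ha _ (Subgroup.inv_mem _ hh)))

end Cfsg.Agent.Lib_helper7_AbGen
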