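import Mathlib
import Cfsg.Prelude.Def_Transfer
import Cfsg.Agent.Lib_helper7_ExtraCount
import Cfsg.Agent.Lib_helper1_PGroup

set_option autoImplicit false

namespace Cfsg.Agent.Lib_helper7_ExInv

open Cfsg
open scoped commutatorElement

/-- an involutory automorphism of an extraspecial 2-group whose fixed subgroup has index 2 is
inner -/
theorem inner_of_fix_index_two {E : Type*} [Group E] [Finite E] (hE : Cfsg.IsExtraspecial 2 E)
    (α : E →* E) (hα2 : ∀ x, α (α x) = x) (M : Subgroup E) (hM : ∀ x, x ∈ M ↔ α x = x)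
    (hMi : M.index = 2) : ∃ y : E, ∀ q, α q = y * q * y⁻¹ := by
  classical
  haveI : Fact (Nat.Prime 2) := ⟨Nat.prime_two⟩
  haveI := Fintype.ofFinite E
  obtain ⟨⟨hG, hfr, hcm⟩, hΦ⟩ := hE
  have hsq : ∀ x : E, x * x ∈ Subgroup.center E := fun x => by
    have := Lib_helper1_PGroup.pow_p_mem_frattini hG x
    rwa [pow_two, hfr] at this
  have hcomm : ∀ x y : E, y * x * y⁻¹ * x⁻¹ ∈ Subgroup.center E := fun x y => by
    rw [← hcm]
    have : y * x * y⁻¹ * x⁻¹ = ⁅y, x⁆ := (commutatorElement_def y x).symm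
    rw [this]
    exact Subgroup.commutator_mem_commutator (Subgroup.mem_top _) (Subgroup.mem_top _)
  -- the unique nontrivial central element
  obtain ⟨z, hz1, hzu⟩ := (Nat.card_eq_two_iff' (1 : Subgroup.center E)).mp hΦ
  have huniq : ∀ w : E, w ∈ Subgroup.center E → w ≠ 1 → w = (z : E) := by
    intro w hw hw1
    have := hzu ⟨w, hw⟩ (fun h => hw1 (congrArg Subtype.val h))
    exact congrArg Subtype.val this
  have hzc : (z : E) ∈ Subgroup.center E := z.2
  have hz1' : (z : E) ≠ 1 := fun h => hz1 (Subtype.ext h)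
  -- α preserves the center
  have hαc : ∀ w : E, w ∈ Subgroup.center E → α w ∈ Subgroup.center E := by
    intro w hw
    rw [Subgroup.mem_center_iff]
    intro q
    have h1 : q = α (α q) := (hα2 q).symm
    rw [h1, ← map_mul, ← map_mul, (Subgroup.mem_center_iff.mp hw) (α q)]
  have hαinj : ∀ w : E, α w = 1 → w = 1 := by
    intro w hw
    have := hα2 w
    rw [hw, map_one] at this
    exact this.symm
  have hαz : α (z : E) = z := huniq _ (hαc _ hzc) (fun h => hz1' (hαinj _ h))
  have hcM : Subgroup.center E ≤ M := by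
    intro w hw
    rw [hM]
    by_cases hw1 : w = 1
    · rw [hw1, map_one]
    · rw [huniq w hw hw1]; exact hαz
  -- a coset representative
  have hMn : M.Normal := Subgroup.normal_of_index_eq_two hMi
  obtain ⟨x, hx⟩ := Subgroup.index_eq_two_iff.mp hMi
  have hxM : x ∉ M := by
    have := hx 1
    rw [one_mul] at this
    rcases this with ⟨h1, h2⟩ | ⟨h1, h2⟩
    · exact absurd M.one_mem h2
    · exact h2
  have hcos : ∀ q : E, q ∈ M ∨ q * x ∈ M := by
    intro q
    rcases hx q with ⟨h1, _⟩ | ⟨h1, _⟩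
    · exact Or.inr h1
    · exact Or.inl h1
  have hαxM : α x ∉ M := by
    intro h
    have h1 := (hM _).mp h
    rw [hα2] at h1
    exact hxM ((hM x).mpr h1.symm)
  obtain ⟨c, hcdef⟩ : ∃ c, c = α x * x⁻¹ := ⟨_, rfl⟩
  have hαx : α x = c * x := by rw [hcdef]; group
  have hcM' : c ∈ M := by
    rw [hcdef, Subgroup.mul_mem_iff_of_index_two hMi]
    constructor
    · intro h; exact absurd h hαxM
    · intro h; exact absurd (inv_mem_iff.mp h) hxM
  have hαc' : α c = c := (hM c).mp hcM'
  have hcinv : c⁻¹ = c := by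
    have h1 : α c = α (α x) * (α x)⁻¹ := by rw [hcdef, map_mul, map_inv]
    rw [hα2, hαx, hαc'] at h1
    have h2 : x * (c * x)⁻¹ = c⁻¹ := by group
    rw [h2] at h1
    exact h1.symm
  -- c centralizes M
  have hc3 : ∀ m ∈ M, c * m = m * c := by
    intro m' hm'
    have hm : x⁻¹ * m' * x ∈ M := by
      have := hMn.conj_mem m' hm' x⁻¹
      simpa using this
    have h1 : α (x * (x⁻¹ * m' * x) * x⁻¹) = x * (x⁻¹ * m' * x) * x⁻¹ := by
      have : x * (x⁻¹ * m' * x) * x⁻¹ = m' := by group
      rw [this]; exact (hM _).mp hm'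
    rw [map_mul, map_mul, map_inv, (hM _).mp hm, hαx] at h1
    have h2 : c * x * (x⁻¹ * m' * x) * (c * x)⁻¹ = c * m' * c⁻¹ := by group
    have h3 : x * (x⁻¹ * m' * x) * x⁻¹ = m' := by group
    rw [h2, h3] at h1
    calc c * m' = (c * m' * c⁻¹) * c := by group
      _ = m' * c := by rw [h1]
  -- c commutes with x
  have hc4 : c * x = x * c := by
    have h1 : α (x * x) = x * x := (hM _).mp (hcM (hsq x))
    rw [map_mul, hαx] at h1
    have h2 : c * x * c = x := by
      have : (c * x * c) * x = x * x := by rw [← h1]; group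
      exact mul_right_cancel this
    calc c * x = c * x * c * c⁻¹ := by group
      _ = x * c⁻¹ := by rw [h2]
      _ = x * c := by rw [hcinv]
  have hc5 : c ∈ Subgroup.center E := by
    rw [Subgroup.mem_center_iff]
    intro q
    rcases hcos q with hq | hq
    · exact (hc3 q hq).symm
    · have h1 := hc3 _ hq
      have h2 : q = (q * x) * x⁻¹ := by group
      have h3 : c * x⁻¹ = x⁻¹ * c := by
        calc c * x⁻¹ = x⁻¹ * (x * c) * x⁻¹ := by group
          _ = x⁻¹ * (c * x) * x⁻¹ := by rw [hc4]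
          _ = x⁻¹ * c := by group
      calc q * c = (q * x) * (x⁻¹ * c) := by group
        _ = (q * x) * (c * x⁻¹) := by rw [h3]
        _ = ((q * x) * c) * x⁻¹ := by group
        _ = (c * (q * x)) * x⁻¹ := by rw [h1]
        _ = c * q := by group
  have hc6 : c ≠ 1 := by
    intro h
    rw [h, one_mul] at hαx
    exact hxM ((hM x).mpr hαx)
  have hcz : c = (z : E) := huniq c hc5 hc6
  -- counting
  have hcount := Lib_helper7_ExtraCount.card_mul_centralizer hΦ hcomm M
  have hinf : M ⊓ Subgroup.center E = Subgroup.center E := inf_eq_right.mpr hcM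
  rw [hinf, hΦ] at hcount
  have hcardE : Nat.card M * 2 = Nat.card E := by
    have := Subgroup.card_mul_index M
    rwa [hMi] at this
  have hMpos : 0 < Nat.card M := Nat.card_pos
  have hC4 : Nat.card (Subgroup.centralizer (M : Set E)) = 4 := by
    rw [← hcardE] at hcount
    have : Nat.card M * Nat.card (Subgroup.centralizer (M : Set E)) = Nat.card M * 4 := by
      rw [hcount]; ring
    exact Nat.eq_of_mul_eq_mul_left hMpos this
  obtain ⟨y, hyC, hyZ⟩ : ∃ y, y ∈ Subgroup.centralizer (M : Set E) ∧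
      y ∉ Subgroup.center E := by
    by_contra hcon
    push Not at hcon
    have hle : Subgroup.centralizer (M : Set E) ≤ Subgroup.center E := hcon
    have := Subgroup.card_le_of_le hle
    rw [hC4, hΦ] at this
    omega
  have hyM : ∀ m ∈ M, m * y = y * m := fun m hm =>
    (Subgroup.mem_centralizer_iff.mp hyC) m hm
  have hyx : y * x * y⁻¹ * x⁻¹ ≠ 1 := by
    intro h
    apply hyZ
    have hyx' : y * x = x * y := by
      calc y * x = (y * x * y⁻¹ * x⁻¹) * x * y := by group
        _ = x * y := by rw [h, one_mul]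
    rw [Subgroup.mem_center_iff]
    intro q
    rcases hcos q with hq | hq
    · exact hyM q hq
    · have h1 := hyM _ hq
      have h3 : y * x⁻¹ = x⁻¹ * y := by
        calc y * x⁻¹ = x⁻¹ * (x * y) * x⁻¹ := by group
          _ = x⁻¹ * (y * x) * x⁻¹ := by rw [hyx']
          _ = x⁻¹ * y := by group
      calc q * y = (q * x) * (x⁻¹ * y) := by group
        _ = (q * x) * (y * x⁻¹) := by rw [h3]
        _ = ((q * x) * y) * x⁻¹ := by group
        _ = (y * (q * x)) * x⁻¹ := by rw [h1]
        _ = y * q := by group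
  have hd : y * x * y⁻¹ * x⁻¹ = c := by
    rw [hcz]
    exact huniq _ (hcomm x y) hyx
  have hyx2 : y * x * y⁻¹ = α x := by
    rw [hαx, ← hd]; group
  refine ⟨y, ?_⟩
  intro q
  rcases hcos q with hq | hq
  · rw [(hM q).mp hq]
    have := hyM q hq
    calc q = q * y * y⁻¹ := by group
      _ = y * q * y⁻¹ := by rw [this]
  · have h1 := hyM _ hq
    have h2 : q = (q * x) * x⁻¹ := by group
    have h4 : α q = (q * x) * (α x)⁻¹ := by
      conv_lhs => rw [h2]
      rw [map_mul, map_inv, (hM _).mp hq]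
    rw [h4, ← hyx2]
    calc q * x * (y * x * y⁻¹)⁻¹ = ((q * x) * y) * x⁻¹ * y⁻¹ := by group
      _ = (y * (q * x)) * x⁻¹ * y⁻¹ := by rw [h1]
      _ = y * q * y⁻¹ := by group

theorem s1756 {G : Type*} [Group G] [Finite G] (Q : Subgroup G)
    (hQ : Cfsg.IsExtraspecial 2 ↥Q) (t : G) (ht : orderOf t = 2)
    (htN : t ∈ Subgroup.normalizer (Q : Set G))
    (hi : (Subgroup.centralizer ({t} : Set G) ⊓ Q).relIndex Q ≤ 2) :
    t ∈ Q ⊔ Subgroup.centralizer (Q : Set G) := by
  have ht2 : t * t = 1 := by
    have := pow_orderOf_eq_one t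
    rwa [ht, pow_two] at this
  have htinv : t⁻¹ = t := inv_eq_of_mul_eq_one_left ht2
  have hne : (Subgroup.centralizer ({t} : Set G) ⊓ Q).relIndex Q ≠ 0 :=
    Subgroup.index_ne_zero_of_finite
  have hcases : (Subgroup.centralizer ({t} : Set G) ⊓ Q).relIndex Q = 1 ∨
      (Subgroup.centralizer ({t} : Set G) ⊓ Q).relIndex Q = 2 := by omega
  rcases hcases with h1 | h2
  · have hle : Q ≤ Subgroup.centralizer ({t} : Set G) ⊓ Q := Subgroup.relIndex_eq_one.mp h1
    apply Subgroup.mem_sup_right
    rw [Subgroup.mem_centralizer_iff]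
    intro q hq
    have hq' : q ∈ Q := hq
    have := Subgroup.mem_centralizer_iff.mp (Subgroup.mem_inf.mp (hle hq')).1
    exact (this t rfl).symm
  · have hconj : ∀ q ∈ Q, t * q * t⁻¹ ∈ Q := fun q hq =>
      (Subgroup.mem_normalizer_iff.mp htN q).mp hq
    let α : ↥Q →* ↥Q :=
      { toFun := fun q => ⟨t * q * t⁻¹, hconj q q.2⟩
        map_one' := by apply Subtype.ext; simp
        map_mul' := by
          intro a b
          apply Subtype.ext
          show t * (a * b : G) * t⁻¹ = (t * a * t⁻¹) * (t * b * t⁻¹)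
          group }
    have hαv : ∀ q : ↥Q, ((α q : ↥Q) : G) = t * q * t⁻¹ := fun q => rfl
    have hα2 : ∀ q, α (α q) = q := by
      intro q
      apply Subtype.ext
      rw [hαv, hαv, htinv]
      calc t * (t * (q : G) * t) * t = (t * t) * q * (t * t) := by group
        _ = q := by rw [ht2, one_mul, mul_one]
    have hM : ∀ q : ↥Q, q ∈ (Subgroup.centralizer ({t} : Set G) ⊓ Q).subgroupOf Q ↔
        α q = q := by
      intro q
      rw [Subgroup.mem_subgroupOf, Subgroup.mem_inf, Subgroup.mem_centralizer_iff]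
      constructor
      · rintro ⟨h, _⟩
        apply Subtype.ext
        rw [hαv]
        have := h t rfl
        calc t * (q : G) * t⁻¹ = (q : G) * t * t⁻¹ := by rw [this]
          _ = q := by group
      · intro h
        refine ⟨?_, q.2⟩
        intro s hs
        rw [Set.mem_singleton_iff] at hs
        rw [hs]
        have h' := congrArg Subtype.val h
        rw [hαv] at h'
        calc t * (q : G) = (t * q * t⁻¹) * t := by group
          _ = q * t := by rw [h']
    obtain ⟨y, hy⟩ := inner_of_fix_index_two hQ α hα2 _ hM h2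
    have hyc : (y : G)⁻¹ * t ∈ Subgroup.centralizer (Q : Set G) := by
      rw [Subgroup.mem_centralizer_iff]
      intro q hq
      have h' := congrArg Subtype.val (hy ⟨q, hq⟩)
      rw [hαv] at h'
      have h'' : t * q * t⁻¹ = (y : G) * q * (y : G)⁻¹ := h'
      calc q * ((y : G)⁻¹ * t) = (y : G)⁻¹ * ((y : G) * q * (y : G)⁻¹) * t := by group
        _ = (y : G)⁻¹ * (t * q * t⁻¹) * t := by rw [h'']
        _ = (y : G)⁻¹ * t * q := by group
    have : t = (y : G) * ((y : G)⁻¹ * t) := by group
    rw [this]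
    exact Subgroup.mul_mem_sup y.2 hyc

end Cfsg.Agent.Lib_helper7_ExInv
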