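import Mathlib

set_option autoImplicit false

namespace Cfsg.Agent.Lib_helper7_Fpf

variable {H : Type*} [Group H]

/-- An involution acting on a finite normal subgroup without nontrivial fixed points inverts it. -/
theorem inverts_of_fpf [Finite H] (N : Subgroup H) [hNn : N.Normal] (t : H) (ht : t * t = 1)
    (hfix : N ⊓ Subgroup.centralizer ({t} : Set H) = ⊥) : ∀ n ∈ N, t * n * t⁻¹ = n⁻¹ := by
  have htinv : t⁻¹ = t := inv_eq_of_mul_eq_one_left ht
  let f : N → N := fun n => ⟨(n : H)⁻¹ * (t * n * t⁻¹), N.mul_mem (N.inv_mem n.2) (hNn.conj_mem n n.2 t)⟩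
  have hinj : Function.Injective f := by
    intro n m hnm
    have h1 : (n : H)⁻¹ * (t * n * t⁻¹) = (m : H)⁻¹ * (t * m * t⁻¹) := congrArg Subtype.val hnm
    have h2 : t * ((m : H) * (n : H)⁻¹) * t⁻¹ = (m : H) * (n : H)⁻¹ := by
      have e1 : t * ((m : H) * (n : H)⁻¹) * t⁻¹ = (t * m * t⁻¹) * (t * n * t⁻¹)⁻¹ := by group
      have e2 : t * (m : H) * t⁻¹ = (m : H) * ((n : H)⁻¹ * (t * n * t⁻¹)) := by
        rw [h1]; group
      rw [e1, e2]; group
    have h3 : (m : H) * (n : H)⁻¹ ∈ N ⊓ Subgroup.centralizer ({t} : Set H) := by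
      refine Subgroup.mem_inf.mpr ⟨N.mul_mem m.2 (N.inv_mem n.2), ?_⟩
      rw [Subgroup.mem_centralizer_iff]
      intro h hh
      rw [Set.mem_singleton_iff] at hh
      subst hh
      have : h * ((m : H) * (n : H)⁻¹) = (h * ((m : H) * (n : H)⁻¹) * h⁻¹) * h := by group
      rw [this, h2]
    rw [hfix, Subgroup.mem_bot] at h3
    have h4 : (m : H) = n := by
      rw [mul_inv_eq_one] at h3
      exact h3
    exact Subtype.ext h4.symm
  have hsurj : Function.Surjective f := Finite.injective_iff_surjective.mp hinj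
  intro x hx
  obtain ⟨n, hn⟩ := hsurj ⟨x, hx⟩
  have hx' : x = (n : H)⁻¹ * (t * n * t⁻¹) := (congrArg Subtype.val hn).symm
  rw [hx']
  have e1 : t * ((n : H)⁻¹ * (t * n * t⁻¹)) * t⁻¹ = (t * (n : H)⁻¹ * t⁻¹) * (t * t) * n * (t * t)⁻¹ := by
    group
  rw [e1, ht, mul_one, inv_one, mul_one]
  group

theorem exists_third (E : Subgroup H) (hE : IsKleinFour ↥E) (z : H) :
    ∃ e ∈ E, e ≠ 1 ∧ e ≠ z := by
  classical
  by_contra hcon
  push Not at hcon
  have hfin : Finite E := Nat.finite_of_card_ne_zero (by rw [hE.card_four]; norm_num)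
  let f : E → Bool := fun e => decide ((e : H) = 1)
  have hinj : Function.Injective f := by
    intro a b hab
    by_cases ha : (a : H) = 1
    · have hb : (b : H) = 1 := by
        have h1 : f a = true := decide_eq_true ha
        rw [hab] at h1
        exact of_decide_eq_true h1
      exact Subtype.ext (ha.trans hb.symm)
    · have hb : (b : H) ≠ 1 := by
        intro hb
        have h1 : f b = true := decide_eq_true hb
        rw [← hab] at h1
        exact ha (of_decide_eq_true h1)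
      exact Subtype.ext ((hcon a a.2 ha).trans (hcon b b.2 hb).symm)
  have h1 := Nat.card_le_card_of_injective f hinj
  rw [hE.card_four] at h1
  simp at h1

/-- The main lemma behind the simplicity criterion. -/
theorem normal_eq_bot [Finite H] (z : H) (hz : orderOf z = 2)
    (hN : ∀ N : Subgroup H, N.Normal → N ≠ ⊤ → N ⊓ Subgroup.centralizer ({z} : Set H) = ⊥)
    (E : Subgroup H) (hE : IsKleinFour ↥E) (hzE : z ∈ E) (hc : ∀ e ∈ E, e ≠ 1 → IsConj z e)
    (N : Subgroup H) [hNn : N.Normal] (hNtop : N ≠ ⊤) : N = ⊥ := by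
  have hz1 : z ≠ 1 := by
    intro h
    rw [h, orderOf_one] at hz
    norm_num at hz
  have hzz : z * z = 1 := by
    have := pow_orderOf_eq_one z
    rw [hz, pow_two] at this
    exact this
  have key : ∀ e ∈ E, e ≠ 1 → (e * e = 1 ∧ N ⊓ Subgroup.centralizer ({e} : Set H) = ⊥) := by
    intro e he he1
    obtain ⟨g, hg⟩ := isConj_iff.mp (hc e he he1)
    constructor
    · rw [← hg]
      calc g * z * g⁻¹ * (g * z * g⁻¹) = g * (z * z) * g⁻¹ := by group
        _ = 1 := by rw [hzz]; group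
    · rw [eq_bot_iff]
      intro x hx
      obtain ⟨hxN, hxC⟩ := Subgroup.mem_inf.mp hx
      have h1 : g⁻¹ * x * g ∈ N ⊓ Subgroup.centralizer ({z} : Set H) := by
        refine Subgroup.mem_inf.mpr ⟨?_, ?_⟩
        · have := hNn.conj_mem x hxN g⁻¹
          simpa using this
        · rw [Subgroup.mem_centralizer_iff] at hxC ⊢
          intro h hh
          rw [Set.mem_singleton_iff] at hh
          subst hh
          have h2 := hxC e rfl
          rw [← hg] at h2
          calc h * (g⁻¹ * x * g) = g⁻¹ * ((g * h * g⁻¹) * x) * g := by group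
            _ = g⁻¹ * (x * (g * h * g⁻¹)) * g := by rw [h2]
            _ = g⁻¹ * x * g * h := by group
      rw [hN N hNn hNtop, Subgroup.mem_bot] at h1
      rw [Subgroup.mem_bot]
      have : x = g * (g⁻¹ * x * g) * g⁻¹ := by group
      rw [this, h1]; group
  obtain ⟨e₁, he₁E, he₁1, he₁z⟩ := exists_third E hE z
  have hze₁ : z * e₁ ≠ 1 := by
    intro h
    apply he₁z
    have : e₁ = z⁻¹ := eq_inv_of_mul_eq_one_right h
    rw [this]
    exact inv_eq_of_mul_eq_one_left hzz
  obtain ⟨hzsq, hzfix⟩ := key z hzE hz1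
  obtain ⟨h1sq, h1fix⟩ := key e₁ he₁E he₁1
  obtain ⟨h2sq, h2fix⟩ := key (z * e₁) (E.mul_mem hzE he₁E) hze₁
  have inv1 := inverts_of_fpf N z hzsq hzfix
  have inv2 := inverts_of_fpf N e₁ h1sq h1fix
  have inv3 := inverts_of_fpf N (z * e₁) h2sq h2fix
  rw [eq_bot_iff]
  intro n hn
  rw [Subgroup.mem_bot]
  have h3 : (z * e₁) * n * (z * e₁)⁻¹ = n := by
    calc (z * e₁) * n * (z * e₁)⁻¹ = z * (e₁ * n * e₁⁻¹) * z⁻¹ := by group
      _ = z * n⁻¹ * z⁻¹ := by rw [inv2 n hn]
      _ = n⁻¹⁻¹ := inv1 n⁻¹ (N.inv_mem hn)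
      _ = n := inv_inv n
  have h4 : n ∈ N ⊓ Subgroup.centralizer ({z * e₁} : Set H) := by
    refine Subgroup.mem_inf.mpr ⟨hn, ?_⟩
    rw [Subgroup.mem_centralizer_iff]
    intro h hh
    rw [Set.mem_singleton_iff] at hh
    rw [hh]
    have : (z * e₁) * n = ((z * e₁) * n * (z * e₁)⁻¹) * (z * e₁) := by group
    rw [this, h3]
  rw [h2fix, Subgroup.mem_bot] at h4
  exact h4

end Cfsg.Agent.Lib_helper7_Fpf
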