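import Mathlib
import Cfsg.Agent.Lib_helper1_Coprime
import Cfsg.Agent.Lib_helper1_Frobenius
import Cfsg.Agent.Lib_helper1_PGroup
import Cfsg.Agent.Lib_helper7_TIAb

set_option autoImplicit false

namespace Cfsg.Agent.Lib_helper7_HallComm

open scoped commutatorElement
open Cfsg.Agent.Lib_helper1_Coprime

universe u

theorem comm_split {G : Type*} [Group G] (h₁ h₂ k₁ k₂ : G) (c11 : Commute k₁ h₁)
    (c12 : Commute k₁ h₂) (c21 : Commute k₂ h₁) (c22 : Commute k₂ h₂) :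
    h₁ * k₁ * (h₂ * k₂) * (h₁ * k₁)⁻¹ * (h₂ * k₂)⁻¹ =
      (h₁ * h₂ * h₁⁻¹ * h₂⁻¹) * (k₁ * k₂ * k₁⁻¹ * k₂⁻¹) := by
  have cu : Commute (k₁ * k₂ * k₁⁻¹) h₁⁻¹ :=
    ((c11.mul_left c21).mul_left c11.inv_left).inv_right
  have cw : Commute (k₁ * k₂ * k₁⁻¹ * k₂⁻¹) h₂⁻¹ :=
    (((c12.mul_left c22).mul_left c12.inv_left).mul_left c22.inv_left).inv_right
  calc h₁ * k₁ * (h₂ * k₂) * (h₁ * k₁)⁻¹ * (h₂ * k₂)⁻¹
      = h₁ * (k₁ * h₂) * k₂ * k₁⁻¹ * h₁⁻¹ * k₂⁻¹ * h₂⁻¹ := by group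
    _ = h₁ * (h₂ * k₁) * k₂ * k₁⁻¹ * h₁⁻¹ * k₂⁻¹ * h₂⁻¹ := by rw [c12.eq]
    _ = h₁ * h₂ * ((k₁ * k₂ * k₁⁻¹) * h₁⁻¹) * k₂⁻¹ * h₂⁻¹ := by group
    _ = h₁ * h₂ * (h₁⁻¹ * (k₁ * k₂ * k₁⁻¹)) * k₂⁻¹ * h₂⁻¹ := by rw [cu.eq]
    _ = h₁ * h₂ * h₁⁻¹ * ((k₁ * k₂ * k₁⁻¹ * k₂⁻¹) * h₂⁻¹) := by group
    _ = h₁ * h₂ * h₁⁻¹ * (h₂⁻¹ * (k₁ * k₂ * k₁⁻¹ * k₂⁻¹)) := by rw [cw.eq]
    _ = (h₁ * h₂ * h₁⁻¹ * h₂⁻¹) * (k₁ * k₂ * k₁⁻¹ * k₂⁻¹) := by group

theorem eq_bot_of_le_commutator_self {G : Type*} [Group G] [Group.IsSolvable G] (H : Subgroup G)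
    (h : H ≤ ⁅H, H⁆) : H = ⊥ := by
  obtain ⟨n, hn⟩ := Group.IsSolvable.solvable (G := G)
  have key : ∀ m, H ≤ derivedSeries G m := by
    intro m
    induction m with
    | zero => exact le_top
    | succ m ih => exact h.trans (Subgroup.commutator_mono ih ih)
  rw [eq_bot_iff, ← hn]; exact key n

theorem commutator_eq_bot_of_index_prime {X : Type*} [Group X] [Finite X] {q : ℕ} [Fact q.Prime]
    (hX : IsPGroup q X) (hidx : (commutator X).index = q) : commutator X = ⊥ := by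
  haveI : IsCyclic (X ⧸ commutator X) :=
    isCyclic_of_prime_card (p := q) (by rw [← Subgroup.index_eq_card]; exact hidx)
  obtain ⟨g, hg⟩ := IsCyclic.exists_generator (α := X ⧸ commutator X)
  obtain ⟨x, rfl⟩ := QuotientGroup.mk_surjective g
  have htop : Subgroup.zpowers x ⊔ frattini X = ⊤ := by
    rw [eq_top_iff]
    intro y _
    obtain ⟨k, hk⟩ := Subgroup.mem_zpowers_iff.mp (hg (QuotientGroup.mk y))
    have h1 : (x ^ k)⁻¹ * y ∈ commutator X := by
      rw [← QuotientGroup.eq, QuotientGroup.mk_zpow]; exact hk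
    have h3 : y = x ^ k * ((x ^ k)⁻¹ * y) := by group
    rw [h3]
    exact Subgroup.mul_mem _ (Subgroup.mem_sup_left (Subgroup.zpow_mem_zpowers _ k))
      (Subgroup.mem_sup_right (Cfsg.Agent.Lib_helper1_PGroup.commutator_le_frattini hX h1))
  have hz := frattini_nongenerating htop
  rw [eq_bot_iff, commutator_def, Subgroup.commutator_le]
  intro a _ b _
  have ha : a ∈ Subgroup.zpowers x := by rw [hz]; exact Subgroup.mem_top a
  have hb : b ∈ Subgroup.zpowers x := by rw [hz]; exact Subgroup.mem_top b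
  obtain ⟨i, rfl⟩ := Subgroup.mem_zpowers_iff.mp ha
  obtain ⟨j, rfl⟩ := Subgroup.mem_zpowers_iff.mp hb
  rw [Subgroup.mem_bot, commutatorElement_eq_one_iff_mul_comm, ← zpow_add, ← zpow_add, add_comm]

theorem part_a {G : Type u} [Group G] [Finite G] [Group.IsSolvable G] (H K : Subgroup G)
    (hHn : H.Normal) (hcop : (Nat.card H).Coprime H.index) (hc : Subgroup.IsComplement' H K)
    (hHG : H ≤ commutator G) :
    H = ⁅H, K⁆ ∧ H ⊓ Subgroup.centralizer (K : Set G) ≤ ⁅H, H⁆ := by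
  haveI := hHn
  have hKH : K ≤ Subgroup.normalizer (H : Set G) := by
    rw [Subgroup.normalizer_eq_top_iff.mpr hHn]; exact le_top
  have hcardK : H.index = Nat.card K := hc.symm.index_eq_card
  have hcop' : (Nat.card K).Coprime (Nat.card H) := by rw [← hcardK]; exact hcop.symm
  have hNH : ⁅H, K⁆ ≤ H := commutator_le_of_normalizes K H hKH
  have hNn : (⁅H, K⁆ : Subgroup G).Normal := by
    rw [← Subgroup.normalizer_eq_top_iff, eq_top_iff, ← hc.sup_eq_top]
    exact sup_le ((normalizer_commutator_left K H)) (normalizer_commutator_right K H hKH)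
  haveI := hNn
  have hHN : H ≤ ⁅H, K⁆ := by
    have hcomm : ∀ h ∈ H, ∀ k ∈ K, Commute (QuotientGroup.mk' (⁅H, K⁆ : Subgroup G) k)
        (QuotientGroup.mk' (⁅H, K⁆ : Subgroup G) h) := by
      intro h hh k hk
      have h1 : QuotientGroup.mk' (⁅H, K⁆ : Subgroup G) ⁅h, k⁆ = 1 :=
        (QuotientGroup.eq_one_iff _).mpr (Subgroup.commutator_mem_commutator hh hk)
      rw [map_commutatorElement] at h1
      exact (commutatorElement_eq_one_iff_mul_comm.mp h1).symm
    have hcommKH : ∀ a ∈ H.map (QuotientGroup.mk' (⁅H, K⁆ : Subgroup G)),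
        ∀ b ∈ K.map (QuotientGroup.mk' (⁅H, K⁆ : Subgroup G)), Commute b a := by
      rintro _ ⟨h', hh', rfl⟩ _ ⟨k', hk', rfl⟩
      exact hcomm h' hh' k' hk'
    haveI hHbn : (H.map (QuotientGroup.mk' (⁅H, K⁆ : Subgroup G))).Normal :=
      hHn.map _ (QuotientGroup.mk'_surjective _)
    have hKK : ⁅K.map (QuotientGroup.mk' (⁅H, K⁆ : Subgroup G)),
        K.map (QuotientGroup.mk' (⁅H, K⁆ : Subgroup G))⁆ ≤
        K.map (QuotientGroup.mk' (⁅H, K⁆ : Subgroup G)) := by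
      rw [Subgroup.commutator_le]
      intro a ha b hb
      rw [commutatorElement_def]
      exact Subgroup.mul_mem _ (Subgroup.mul_mem _ (Subgroup.mul_mem _ ha hb)
        (Subgroup.inv_mem _ ha)) (Subgroup.inv_mem _ hb)
    have hinf : H.map (QuotientGroup.mk' (⁅H, K⁆ : Subgroup G)) ⊓
        K.map (QuotientGroup.mk' (⁅H, K⁆ : Subgroup G)) = ⊥ :=
      Subgroup.inf_eq_bot_of_coprime (Nat.Coprime.coprime_dvd_left (Subgroup.card_map_dvd _ _)
        (Nat.Coprime.coprime_dvd_right (Subgroup.card_map_dvd _ _) hcop'.symm))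
    have hle : ⁅H.map (QuotientGroup.mk' (⁅H, K⁆ : Subgroup G)) ⊔
        K.map (QuotientGroup.mk' (⁅H, K⁆ : Subgroup G)),
        H.map (QuotientGroup.mk' (⁅H, K⁆ : Subgroup G)) ⊔
        K.map (QuotientGroup.mk' (⁅H, K⁆ : Subgroup G))⁆ ≤
        ⁅H.map (QuotientGroup.mk' (⁅H, K⁆ : Subgroup G)),
          H.map (QuotientGroup.mk' (⁅H, K⁆ : Subgroup G))⁆ ⊔
        ⁅K.map (QuotientGroup.mk' (⁅H, K⁆ : Subgroup G)),
          K.map (QuotientGroup.mk' (⁅H, K⁆ : Subgroup G))⁆ := by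
      rw [Subgroup.commutator_le]
      intro g₁ hg₁ g₂ hg₂
      obtain ⟨a₁, ha₁, b₁, hb₁, rfl⟩ := Cfsg.Agent.Lib_helper7_TIAb.exists_mul_of_mem_sup _ _
        (fun x hx b hb => by
          rw [(hcommKH x hx b hb).symm.eq, mul_inv_cancel_right]; exact hb) g₁ hg₁
      obtain ⟨a₂, ha₂, b₂, hb₂, rfl⟩ := Cfsg.Agent.Lib_helper7_TIAb.exists_mul_of_mem_sup _ _
        (fun x hx b hb => by
          rw [(hcommKH x hx b hb).symm.eq, mul_inv_cancel_right]; exact hb) g₂ hg₂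
      rw [commutatorElement_def, comm_split a₁ a₂ b₁ b₂ (hcommKH a₁ ha₁ b₁ hb₁)
        (hcommKH a₂ ha₂ b₁ hb₁) (hcommKH a₁ ha₁ b₂ hb₂) (hcommKH a₂ ha₂ b₂ hb₂)]
      refine Subgroup.mul_mem _ (Subgroup.mem_sup_left ?_) (Subgroup.mem_sup_right ?_)
      · rw [← commutatorElement_def]; exact Subgroup.commutator_mem_commutator ha₁ ha₂
      · rw [← commutatorElement_def]; exact Subgroup.commutator_mem_commutator hb₁ hb₂
    have hperf : H.map (QuotientGroup.mk' (⁅H, K⁆ : Subgroup G)) ≤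
        ⁅H.map (QuotientGroup.mk' (⁅H, K⁆ : Subgroup G)),
          H.map (QuotientGroup.mk' (⁅H, K⁆ : Subgroup G))⁆ := by
      rintro _ ⟨h, hh, rfl⟩
      have h1 : QuotientGroup.mk' (⁅H, K⁆ : Subgroup G) h ∈
          (⁅(⊤ : Subgroup G), ⊤⁆ : Subgroup G).map (QuotientGroup.mk' (⁅H, K⁆ : Subgroup G)) :=
        ⟨h, by rw [← commutator_def]; exact hHG hh, rfl⟩
      rw [Subgroup.map_commutator, ← hc.sup_eq_top, Subgroup.map_sup] at h1
      obtain ⟨a, ha, b, hb, hab⟩ := Cfsg.Agent.Lib_helper7_TIAb.exists_mul_of_mem_sup _ _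
        (fun x hx b hb => by
          rw [(hcommKH x (Subgroup.commutator_le_left _ _ hx) b (hKK hb)).symm.eq,
            mul_inv_cancel_right]; exact hb) _ (hle h1)
      have haH := Subgroup.commutator_le_left _ _ ha
      have hbH : b ∈ H.map (QuotientGroup.mk' (⁅H, K⁆ : Subgroup G)) := by
        have e : b = a⁻¹ * QuotientGroup.mk' (⁅H, K⁆ : Subgroup G) h := by rw [hab]; group
        rw [e]; exact Subgroup.mul_mem _ (Subgroup.inv_mem _ haH) ⟨h, hh, rfl⟩
      have hb1 : b = 1 := by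
        have h2 : b ∈ H.map (QuotientGroup.mk' (⁅H, K⁆ : Subgroup G)) ⊓
            K.map (QuotientGroup.mk' (⁅H, K⁆ : Subgroup G)) := ⟨hbH, hKK hb⟩
        rw [hinf, Subgroup.mem_bot] at h2; exact h2
      rw [hab, hb1, mul_one]; exact ha
    have hbot := eq_bot_of_le_commutator_self _ hperf
    intro h hh
    have h1 : QuotientGroup.mk' (⁅H, K⁆ : Subgroup G) h ∈
        H.map (QuotientGroup.mk' (⁅H, K⁆ : Subgroup G)) := ⟨h, hh, rfl⟩
    rw [hbot, Subgroup.mem_bot] at h1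
    exact (QuotientGroup.eq_one_iff h).mp h1
  have hHeq : H = ⁅H, K⁆ := le_antisymm hHN hNH
  refine ⟨hHeq, ?_⟩
  haveI hDn : (⁅H, H⁆ : Subgroup G).Normal := Subgroup.commutator_normal H H
  intro c hc'
  haveI hVc : IsMulCommutative ↥(H.map (QuotientGroup.mk' (⁅H, H⁆ : Subgroup G))) := ⟨⟨by
    rintro ⟨_, ⟨a, ha, rfl⟩⟩ ⟨_, ⟨b, hb, rfl⟩⟩
    apply Subtype.ext
    show QuotientGroup.mk' (⁅H, H⁆ : Subgroup G) a * QuotientGroup.mk' (⁅H, H⁆ : Subgroup G) b =
      QuotientGroup.mk' (⁅H, H⁆ : Subgroup G) b * QuotientGroup.mk' (⁅H, H⁆ : Subgroup G) a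
    have h1 : QuotientGroup.mk' (⁅H, H⁆ : Subgroup G) ⁅a, b⁆ = 1 :=
      (QuotientGroup.eq_one_iff _).mpr (Subgroup.commutator_mem_commutator ha hb)
    rw [map_commutatorElement] at h1
    exact commutatorElement_eq_one_iff_mul_comm.mp h1⟩⟩
  have hVn : (H.map (QuotientGroup.mk' (⁅H, H⁆ : Subgroup G))).Normal :=
    hHn.map _ (QuotientGroup.mk'_surjective _)
  have hAV : K.map (QuotientGroup.mk' (⁅H, H⁆ : Subgroup G)) ≤
      Subgroup.normalizer ((H.map (QuotientGroup.mk' (⁅H, H⁆ : Subgroup G)) : Subgroup _) :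
        Set _) := by
    rw [Subgroup.normalizer_eq_top_iff.mpr hVn]; exact le_top
  have hcopV : (Nat.card (K.map (QuotientGroup.mk' (⁅H, H⁆ : Subgroup G)))).Coprime
      (Nat.card (H.map (QuotientGroup.mk' (⁅H, H⁆ : Subgroup G)))) :=
    Nat.Coprime.coprime_dvd_left (Subgroup.card_map_dvd _ _)
      (Nat.Coprime.coprime_dvd_right (Subgroup.card_map_dvd _ _) hcop')
  have h1 := abelian_fixed_inf_commutator _ _ hAV hcopV
  have h2 : ⁅H.map (QuotientGroup.mk' (⁅H, H⁆ : Subgroup G)),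
      K.map (QuotientGroup.mk' (⁅H, H⁆ : Subgroup G))⁆ =
      H.map (QuotientGroup.mk' (⁅H, H⁆ : Subgroup G)) := by
    rw [← Subgroup.map_commutator, ← hHeq]
  rw [h2] at h1
  have h3 : QuotientGroup.mk' (⁅H, H⁆ : Subgroup G) c ∈
      (H.map (QuotientGroup.mk' (⁅H, H⁆ : Subgroup G)) ⊓
        Subgroup.centralizer ((K.map (QuotientGroup.mk' (⁅H, H⁆ : Subgroup G)) : Subgroup _) :
          Set _)) ⊓ H.map (QuotientGroup.mk' (⁅H, H⁆ : Subgroup G)) := by
    refine ⟨⟨⟨c, hc'.1, rfl⟩, Subgroup.mem_centralizer_iff.mpr ?_⟩, ⟨c, hc'.1, rfl⟩⟩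
    rintro _ ⟨k, hk, rfl⟩
    rw [← map_mul, ← map_mul, Subgroup.mem_centralizer_iff.mp hc'.2 k hk]
  rw [h1, Subgroup.mem_bot] at h3
  exact (QuotientGroup.eq_one_iff c).mp h3

theorem commutator_quot {G : Type*} [Group G] (N : Subgroup G) [N.Normal] :
    commutator (G ⧸ N) = (commutator G).map (QuotientGroup.mk' N) := by
  rw [commutator_def, commutator_def, Subgroup.map_commutator,
    Subgroup.map_top_of_surjective _ (QuotientGroup.mk'_surjective _)]

theorem part_b {G : Type u} [Group G] [Finite G] [Group.IsSolvable G]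
    (hnil : Group.IsNilpotent ↥(commutator G)) (hpr : (commutator G).index.Prime) :
    (Nat.card ↥(commutator G)).Coprime (commutator G).index ∧
      ∀ K : Subgroup G, Subgroup.IsComplement' (commutator G) K →
        commutator G = ⁅(⊤ : Subgroup G), K⁆ := by
  obtain ⟨q, hqdef⟩ : ∃ q, q = (commutator G).index := ⟨_, rfl⟩
  rw [← hqdef] at hpr ⊢
  haveI : Fact q.Prime := ⟨hpr⟩
  have hcop : (Nat.card ↥(commutator G)).Coprime q := by
    obtain ⟨P⟩ : Nonempty (Sylow q ↥(commutator G)) := inferInstance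
    have hsyl := ((Group.isNilpotent_of_finite_tfae (G := ↥(commutator G))).out 0 3).mp hnil
    haveI hPn : (P : Subgroup ↥(commutator G)).Normal := hsyl q inferInstance P
    obtain ⟨W, hWn, hWc, k, hWk⟩ := Cfsg.Agent.Lib_helper1_Frobenius.frobenius
      (Cfsg.Agent.Lib_helper1_Frobenius.frobHyp_of_le_sylow P (fun Q₀ hQ₀ g _ hgo =>
        Subgroup.centralizer_le (fun z hz => hQ₀ hz)
          (Cfsg.Agent.Lib_helper1_Frobenius.centralizes_of_nilpotent
            (P : Subgroup ↥(commutator G)) P.2 g hgo)))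
    haveI := hWn
    have hW'n : (W.map (commutator G).subtype).Normal := by
      refine ⟨fun x hx g => ?_⟩
      obtain ⟨n, hn, rfl⟩ := hx
      have hgc : g * (n : G) * g⁻¹ ∈ commutator G :=
        (inferInstance : (commutator G).Normal).conj_mem _ n.2 g
      refine ⟨⟨g * (n : G) * g⁻¹, hgc⟩, ?_, rfl⟩
      apply Cfsg.Agent.Lib_helper1_Frobenius.mem_of_coprime_of_index W hWk
      rw [Subgroup.orderOf_mk]
      have h2 : n ^ Nat.card W = 1 := by
        have h := pow_card_eq_one' (G := ↥W) (x := ⟨n, hn⟩)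
        exact congrArg Subtype.val h
      have h3 : (n : G) ^ Nat.card W = 1 := by
        rw [← Subgroup.coe_pow, h2]; rfl
      have h1 : (g * (n : G) * g⁻¹) ^ Nat.card W = 1 := by
        rw [conj_pow, h3, mul_one, mul_inv_cancel]
      exact Nat.Coprime.coprime_dvd_left (orderOf_dvd_of_pow_eq_one h1) hWc
    haveI := hW'n
    have hW'le : W.map (commutator G).subtype ≤ commutator G := Subgroup.map_subtype_le W
    have hidxW' : (W.map (commutator G).subtype).index = q ^ (k + 1) := by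
      rw [Subgroup.index_map_subtype, hWk, ← hqdef, pow_succ]
    have hXp : IsPGroup q (G ⧸ W.map (commutator G).subtype) :=
      IsPGroup.of_card (n := k + 1) (by rw [← Subgroup.index_eq_card]; exact hidxW')
    have hcommX : commutator (G ⧸ W.map (commutator G).subtype) =
        (commutator G).map (QuotientGroup.mk' (W.map (commutator G).subtype)) :=
      commutator_quot _
    have hidxX : (commutator (G ⧸ W.map (commutator G).subtype)).index = q := by
      rw [hcommX, Subgroup.index_map_eq _ (QuotientGroup.mk'_surjective _)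
        (by rw [QuotientGroup.ker_mk']; exact hW'le), ← hqdef]
    have hbot := commutator_eq_bot_of_index_prime hXp hidxX
    rw [hcommX, Subgroup.map_eq_bot_iff, QuotientGroup.ker_mk'] at hbot
    exact Nat.Coprime.coprime_dvd_left (Subgroup.card_dvd_of_le hbot)
      (by rw [Subgroup.card_map_of_injective (Subgroup.subtype_injective _)]; exact hWc)
  refine ⟨hcop, fun K hc => ?_⟩
  have h := part_a (commutator G) K inferInstance (by rw [← hqdef]; exact hcop) hc le_rfl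
  exact le_antisymm (le_of_eq_of_le h.1 (Subgroup.commutator_mono le_top le_rfl))
    (by rw [commutator_def]; exact Subgroup.commutator_mono le_rfl le_top)

theorem s1459 {G : Type u} [Group G] [Finite G] [Group.IsSolvable G] :
    (∀ (H K : Subgroup G), H.Normal → (Nat.card H).Coprime H.index →
        Subgroup.IsComplement' H K → H ≤ commutator G →
        H = ⁅H, K⁆ ∧ H ⊓ Subgroup.centralizer (K : Set G) ≤ ⁅H, H⁆) ∧
      (Group.IsNilpotent ↥(commutator G) → (commutator G).index.Prime →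
        (Nat.card ↥(commutator G)).Coprime (commutator G).index ∧
        ∀ K : Subgroup G, Subgroup.IsComplement' (commutator G) K →
          commutator G = ⁅(⊤ : Subgroup G), K⁆) :=
  ⟨fun H K h1 h2 h3 h4 => part_a H K h1 h2 h3 h4, part_b⟩

end Cfsg.Agent.Lib_helper7_HallComm
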