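import Mathlib
import Cfsg.Prelude.Def_ConjugacyFunctors
import Cfsg.Agent.Lib_helper7_Sylow
import Cfsg.Agent.Lib_helper7_WC
import Cfsg.Agent.Lib_helper7_Tight

set_option autoImplicit false

namespace Cfsg.Agent.Lib_helper7_KInf

open Cfsg

variable {P : Type*} [Group P]

/-- In a finite `p`-group, if `C_P(B) ≰ B` there is `x ∈ C_P(B) ∖ B` central modulo `Z(B)` in
`N_P(B)`. -/
theorem exists_central_mod [Finite P] {p : ℕ} [Fact p.Prime] (hP : IsPGroup p P) (B : Subgroup P)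
    (h : ¬ Subgroup.centralizer (B : Set P) ≤ B) :
    ∃ x ∈ Subgroup.centralizer (B : Set P), x ∉ B ∧
      ∀ q ∈ Subgroup.normalizer (B : Set P),
        x * q * x⁻¹ * q⁻¹ ∈ B ⊓ Subgroup.centralizer (B : Set P) := by
  classical
  haveI : Group.IsNilpotent P := hP.isNilpotent
  obtain ⟨n, hn⟩ := Group.IsNilpotent.nilpotent P
  have hex : ∃ i : ℕ,
      ¬ Subgroup.centralizer (B : Set P) ⊓ Subgroup.upperCentralSeries P i ≤ B := by
    refine ⟨n, ?_⟩
    rw [hn, inf_top_eq]; exact h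
  have hi : ¬ Subgroup.centralizer (B : Set P) ⊓ Subgroup.upperCentralSeries P (Nat.find hex) ≤ B :=
    Nat.find_spec hex
  have hmin : ∀ j < Nat.find hex,
      Subgroup.centralizer (B : Set P) ⊓ Subgroup.upperCentralSeries P j ≤ B := by
    intro j hj
    by_contra hcon
    exact Nat.find_min hex hj hcon
  have hi0 : Nat.find hex ≠ 0 := by
    intro h0
    apply hi
    rw [h0, Subgroup.upperCentralSeries_zero, inf_bot_eq]; exact bot_le
  obtain ⟨j, hj⟩ := Nat.exists_eq_succ_of_ne_zero hi0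
  obtain ⟨x, hx, hxB⟩ := SetLike.not_le_iff_exists.mp hi
  refine ⟨x, hx.1, hxB, ?_⟩
  intro q hq
  have hxZ : x ∈ Subgroup.upperCentralSeries P (j + 1) := by
    have := hx.2
    rw [hj] at this
    exact this
  have h1 : x * q * x⁻¹ * q⁻¹ ∈ Subgroup.upperCentralSeries P j := by
    have := Subgroup.mem_upperCentralSeries_succ_iff.mp hxZ q
    rwa [commutatorElement_def] at this
  have h2 : x * q * x⁻¹ * q⁻¹ ∈ Subgroup.centralizer (B : Set P) := by
    have h3 : q * x⁻¹ * q⁻¹ ∈ Subgroup.centralizer (B : Set P) := by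
      rw [Subgroup.mem_centralizer_iff]
      intro b hb
      have hb' : q⁻¹ * b * q ∈ B := (Subgroup.mem_normalizer_iff''.mp hq b).mp hb
      have hxc := (Subgroup.mem_centralizer_iff.mp (Subgroup.inv_mem _ hx.1)) _ hb'
      calc b * (q * x⁻¹ * q⁻¹) = q * ((q⁻¹ * b * q) * x⁻¹) * q⁻¹ := by group
        _ = q * (x⁻¹ * (q⁻¹ * b * q)) * q⁻¹ := by rw [hxc]
        _ = q * x⁻¹ * q⁻¹ * b := by group
    have e : x * q * x⁻¹ * q⁻¹ = x * (q * x⁻¹ * q⁻¹) := by group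
    rw [e]
    exact Subgroup.mul_mem _ hx.1 h3
  have h4 : x * q * x⁻¹ * q⁻¹ ∈ B := hmin j (by omega) ⟨h2, h1⟩
  exact ⟨h4, h2⟩

theorem mem_centralizer_sup_zpowers (B : Subgroup P) (x c : P)
    (hc : c ∈ Subgroup.centralizer (B : Set P)) (hcx : x * c = c * x) :
    c ∈ Subgroup.centralizer ((B ⊔ Subgroup.zpowers x : Subgroup P) : Set P) := by
  have h1 : B ⊔ Subgroup.zpowers x ≤ Subgroup.centralizer ({c} : Set P) := by
    refine sup_le ?_ ?_
    · intro b hb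
      rw [Subgroup.mem_centralizer_iff]
      intro y hy
      rw [Set.mem_singleton_iff] at hy
      rw [hy]
      exact ((Subgroup.mem_centralizer_iff.mp hc) b hb).symm
    · rw [Subgroup.zpowers_le, Subgroup.mem_centralizer_iff]
      intro y hy
      rw [Set.mem_singleton_iff] at hy
      rw [hy]; exact hcx.symm
  rw [Subgroup.mem_centralizer_iff]
  intro g hg
  have := (Subgroup.mem_centralizer_iff.mp (h1 hg)) c (Set.mem_singleton _)
  exact this.symm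

theorem comm_mul_central_left {b u g : P} (h1 : u * g = g * u) :
    (b * u) * g * (b * u)⁻¹ * g⁻¹ = b * g * b⁻¹ * g⁻¹ := by
  calc (b * u) * g * (b * u)⁻¹ * g⁻¹ = b * (u * g) * u⁻¹ * b⁻¹ * g⁻¹ := by group
    _ = b * (g * u) * u⁻¹ * b⁻¹ * g⁻¹ := by rw [h1]
    _ = b * g * b⁻¹ * g⁻¹ := by group

theorem comm_mul_central_right {b g v : P} (h1 : v * b = b * v) :
    b * (g * v) * b⁻¹ * (g * v)⁻¹ = b * g * b⁻¹ * g⁻¹ := by
  have h2 : v * b⁻¹ = b⁻¹ * v := by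
    calc v * b⁻¹ = b⁻¹ * (b * v) * b⁻¹ := by group
      _ = b⁻¹ * (v * b) * b⁻¹ := by rw [h1]
      _ = b⁻¹ * v := by group
  calc b * (g * v) * b⁻¹ * (g * v)⁻¹ = b * g * (v * b⁻¹) * v⁻¹ * g⁻¹ := by group
    _ = b * g * (b⁻¹ * v) * v⁻¹ * g⁻¹ := by rw [h2]
    _ = b * g * b⁻¹ * g⁻¹ := by group

section ext

variable [Finite P] (B : Subgroup P) (x : P) (hx : x ∈ Subgroup.centralizer (B : Set P))
include hx

theorem ext_decomp {g : P} (hg : g ∈ B ⊔ Subgroup.zpowers x) :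
    ∃ b ∈ B, ∃ u ∈ Subgroup.zpowers x, g = b * u := by
  apply Lib_helper7_Tight.decomp (Subgroup.zpowers x) B _ hg
  rw [Subgroup.zpowers_le]
  exact Subgroup.centralizer_le_normalizer (B : Set P) hx

theorem zpowers_le_centralizer_ext :
    Subgroup.zpowers x ≤ Subgroup.centralizer ((B ⊔ Subgroup.zpowers x : Subgroup P) : Set P) := by
  intro u hu
  have huC : u ∈ Subgroup.centralizer (B : Set P) :=
    (Subgroup.zpowers_le.mpr hx) hu
  obtain ⟨k, rfl⟩ := Subgroup.mem_zpowers_iff.mp hu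
  exact mem_centralizer_sup_zpowers B x _ huC ((Commute.refl x).zpow_right k).eq

theorem center_le_ext :
    B ⊓ Subgroup.centralizer (B : Set P) ≤
      (B ⊔ Subgroup.zpowers x) ⊓
        Subgroup.centralizer ((B ⊔ Subgroup.zpowers x : Subgroup P) : Set P) := by
  intro z hz
  refine ⟨le_sup_left (a := B) hz.1, ?_⟩
  exact mem_centralizer_sup_zpowers B x z hz.2 ((Subgroup.mem_centralizer_iff.mp hx) z hz.1).symm

theorem classTwo_ext (hB : B ∈ Cfsg.classTwoSubgroups P) :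
    B ⊔ Subgroup.zpowers x ∈ Cfsg.classTwoSubgroups P := by
  show ⁅B ⊔ Subgroup.zpowers x, B ⊔ Subgroup.zpowers x⁆ ≤
    Subgroup.centralizer ((B ⊔ Subgroup.zpowers x : Subgroup P) : Set P)
  have hB' : ⁅B, B⁆ ≤ Subgroup.centralizer (B : Set P) := hB
  rw [Subgroup.commutator_le]
  intro g₁ hg₁ g₂ hg₂
  show g₁ * g₂ * g₁⁻¹ * g₂⁻¹ ∈ _
  obtain ⟨b₁, hb₁, u₁, hu₁, rfl⟩ := ext_decomp B x hx hg₁
  obtain ⟨b₂, hb₂, u₂, hu₂, rfl⟩ := ext_decomp B x hx hg₂
  have hu₁c := zpowers_le_centralizer_ext B x hx hu₁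
  have hu₂c := zpowers_le_centralizer_ext B x hx hu₂
  have e1 : u₁ * (b₂ * u₂) = (b₂ * u₂) * u₁ :=
    ((Subgroup.mem_centralizer_iff.mp hu₁c) _ hg₂).symm
  have e2 : u₂ * b₁ = b₁ * u₂ :=
    ((Subgroup.mem_centralizer_iff.mp hu₂c) _ (le_sup_left (a := B) hb₁)).symm
  rw [comm_mul_central_left e1, comm_mul_central_right e2]
  have h1 : b₁ * b₂ * b₁⁻¹ * b₂⁻¹ ∈ ⁅B, B⁆ := by
    have := Subgroup.commutator_mem_commutator hb₁ hb₂
    rwa [commutatorElement_def] at this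
  have h2 : b₁ * b₂ * b₁⁻¹ * b₂⁻¹ ∈ B :=
    B.mul_mem (B.mul_mem (B.mul_mem hb₁ hb₂) (B.inv_mem hb₁)) (B.inv_mem hb₂)
  exact (center_le_ext B x hx ⟨h2, hB' h1⟩).2

variable
  (hxq : ∀ q ∈ Subgroup.normalizer (B : Set P),
    x * q * x⁻¹ * q⁻¹ ∈ B ⊓ Subgroup.centralizer (B : Set P))
include hxq

theorem zpowers_comm_mem {u : P} (hu : u ∈ Subgroup.zpowers x) {q : P}
    (hq : q ∈ Subgroup.normalizer (B : Set P)) :
    u * q * u⁻¹ * q⁻¹ ∈ B ⊓ Subgroup.centralizer (B : Set P) := by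
  obtain ⟨k, rfl⟩ := (Submonoid.mem_powers_iff _ _).mp (mem_powers_iff_mem_zpowers.mpr hu)
  obtain ⟨z, hzdef⟩ : ∃ z : P, z = x * q * x⁻¹ * q⁻¹ := ⟨_, rfl⟩
  have hz : z ∈ B ⊓ Subgroup.centralizer (B : Set P) := by rw [hzdef]; exact hxq q hq
  have hxz : x * z = z * x := ((Subgroup.mem_centralizer_iff.mp hx) z hz.1).symm
  have hxq' : x * q * x⁻¹ = z * q := by rw [hzdef]; group
  have hpow : ∀ k : ℕ, x ^ k * q * (x ^ k)⁻¹ = z ^ k * q := by
    intro k
    induction k with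
    | zero => simp
    | succ k ih =>
      have hxzk : x * z ^ k * x⁻¹ = z ^ k := by
        have hc : Commute x z := hxz
        have hc2 := (hc.pow_right k).eq
        rw [hc2]; group
      calc x ^ (k + 1) * q * (x ^ (k + 1))⁻¹
          = x * (x ^ k * q * (x ^ k)⁻¹) * x⁻¹ := by rw [pow_succ']; group
        _ = x * (z ^ k * q) * x⁻¹ := by rw [ih]
        _ = (x * z ^ k * x⁻¹) * (x * q * x⁻¹) := by group
        _ = z ^ k * (z * q) := by rw [hxzk, hxq']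
        _ = z ^ (k + 1) * q := by rw [pow_succ, mul_assoc]
  have e : x ^ k * q * (x ^ k)⁻¹ * q⁻¹ = z ^ k := by rw [hpow k]; group
  rw [e]
  exact Subgroup.pow_mem _ hz k

theorem star_ext (Q : Subgroup P) (hQ : Q ≤ Subgroup.normalizer (B : Set P))
    (hBQ : ⁅B, Q⁆ ≤ B ⊓ Subgroup.centralizer (B : Set P)) :
    ⁅B ⊔ Subgroup.zpowers x, Q⁆ ≤ (B ⊔ Subgroup.zpowers x) ⊓
      Subgroup.centralizer ((B ⊔ Subgroup.zpowers x : Subgroup P) : Set P) := by
  rw [Subgroup.commutator_le]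
  intro g hg q hq
  show g * q * g⁻¹ * q⁻¹ ∈ _
  obtain ⟨b, hb, u, hu, rfl⟩ := ext_decomp B x hx hg
  apply center_le_ext B x hx
  have h1 := zpowers_comm_mem B x hx hxq hu (hQ hq)
  have h2 : b * q * b⁻¹ * q⁻¹ ∈ B ⊓ Subgroup.centralizer (B : Set P) := by
    apply hBQ
    have := Subgroup.commutator_mem_commutator hb hq
    rwa [commutatorElement_def] at this
  obtain ⟨z', hz'def⟩ : ∃ z' : P, z' = u * q * u⁻¹ * q⁻¹ := ⟨_, rfl⟩
  rw [← hz'def] at h1
  have hbz : b * z' * b⁻¹ = z' := by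
    have := (Subgroup.mem_centralizer_iff.mp h1.2) b hb
    rw [this]; group
  have e : (b * u) * q * (b * u)⁻¹ * q⁻¹ = (b * z' * b⁻¹) * (b * q * b⁻¹ * q⁻¹) := by
    rw [hz'def]; group
  rw [e, hbz]
  exact Subgroup.mul_mem _ h1 h2

theorem normalizer_ext {q : P} (hq : q ∈ Subgroup.normalizer (B : Set P)) :
    q ∈ Subgroup.normalizer ((B ⊔ Subgroup.zpowers x : Subgroup P) : Set P) := by
  apply Lib_helper7_Sylow.mem_normalizer_of_conj_le
  rw [Lib_helper7_WC.map_conj_le_iff]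
  intro g hg
  obtain ⟨b, hb, u, hu, rfl⟩ := ext_decomp B x hx hg
  have h1 : q * b * q⁻¹ ∈ B := (Subgroup.mem_normalizer_iff.mp hq b).mp hb
  have h2 := zpowers_comm_mem B x hx hxq (Subgroup.inv_mem _ hu) hq
  have e : q * (b * u) * q⁻¹ = (q * b * q⁻¹) * (u * (u⁻¹ * q * u⁻¹⁻¹ * q⁻¹)) := by group
  rw [e]
  exact Subgroup.mul_mem _ (le_sup_left (a := B) h1)
    (Subgroup.mul_mem _ (le_sup_right (b := Subgroup.zpowers x) hu) (le_sup_left (a := B) h2.1))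

end ext

/-- S1977, general form. -/
theorem self_centralizing_of_max [Finite P] {p : ℕ} [Fact p.Prime] (hP : IsPGroup p P)
    (B : Subgroup P) (𝒦 : Set (Subgroup P))
    (h𝒦 : 𝒦 = Cfsg.classTwoSubgroups P ∨ (∃ Q, 𝒦 = Cfsg.kLowerStarFamily Q) ∨
      ∃ Q, 𝒦 = Cfsg.kUpperStarFamily Q)
    (hB : B ∈ 𝒦) (hmax : ∀ C ∈ 𝒦, B ≤ C → C = B) : Subgroup.centralizer (B : Set P) ≤ B := by
  by_contra hcon
  obtain ⟨x, hx, hxB, hxq⟩ := exists_central_mod hP B hcon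
  suffices hmem : B ⊔ Subgroup.zpowers x ∈ 𝒦 by
    have := hmax _ hmem le_sup_left
    apply hxB
    rw [← this]
    exact le_sup_right (b := Subgroup.zpowers x) (Subgroup.mem_zpowers x)
  rcases h𝒦 with h | ⟨Q, h⟩ | ⟨Q, h⟩
  · rw [h] at hB ⊢
    exact classTwo_ext B x hx hB
  · rw [h] at hB ⊢
    obtain ⟨hB1, hB2, hB3⟩ := hB
    refine ⟨classTwo_ext B x hx hB1, fun q hq => normalizer_ext B x hx hxq (hB2 hq), ?_⟩
    intro A hA hAQ hBA h1 h2
    have h3 : ⁅B, ⁅A, A⁆⁆ = ⊥ :=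
      le_bot_iff.mp ((Subgroup.commutator_mono le_sup_left le_rfl).trans h1.le)
    have h4 : ⁅⁅B ⊓ Subgroup.centralizer (B : Set P), A⁆, A⁆ = ⊥ :=
      le_bot_iff.mp ((Subgroup.commutator_mono
        (Subgroup.commutator_mono (center_le_ext B x hx) le_rfl) le_rfl).trans h2.le)
    have h5 := hB3 A hA hAQ (le_sup_left.trans hBA) h3 h4
    exact star_ext B x hx hxq A (hAQ.trans hB2) h5
  · rw [h] at hB ⊢
    obtain ⟨hB1, hB2⟩ := hB
    have hQN : Q ≤ Subgroup.normalizer (B : Set P) := by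
      intro q hq
      apply Lib_helper7_Sylow.mem_normalizer_of_conj_le
      rw [Lib_helper7_WC.map_conj_le_iff]
      intro b hb
      have h1 : b⁻¹ * q * b⁻¹⁻¹ * q⁻¹ ∈ B := by
        have := Subgroup.commutator_mem_commutator (B.inv_mem hb) hq
        rw [commutatorElement_def] at this
        exact (hB2 this).1
      have e : q * b * q⁻¹ = b * (b⁻¹ * q * b⁻¹⁻¹ * q⁻¹) := by group
      rw [e]
      exact B.mul_mem hb h1
    exact ⟨classTwo_ext B x hx hB1, star_ext B x hx hxq Q hQN hB2⟩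

theorem bot_mem_classTwo : (⊥ : Subgroup P) ∈ Cfsg.classTwoSubgroups P := by
  show ⁅(⊥ : Subgroup P), (⊥ : Subgroup P)⁆ ≤ Subgroup.centralizer (((⊥ : Subgroup P)) : Set P)
  rw [Subgroup.commutator_bot_left]; exact bot_le

theorem bot_mem_lower (Q : Subgroup P) : (⊥ : Subgroup P) ∈ Cfsg.kLowerStarFamily Q := by
  refine ⟨bot_mem_classTwo, ?_, ?_⟩
  · intro q _
    rw [Subgroup.mem_normalizer_iff]
    intro h
    simp [Subgroup.mem_bot]
  · intro A _ _ _ _ _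
    rw [Subgroup.commutator_bot_left]; exact bot_le

theorem bot_mem_upper (Q : Subgroup P) : (⊥ : Subgroup P) ∈ Cfsg.kUpperStarFamily Q := by
  refine ⟨bot_mem_classTwo, ?_⟩
  rw [Subgroup.commutator_bot_left]; exact bot_le

theorem sSup_self_centralizing [Finite P] {p : ℕ} [Fact p.Prime] (hP : IsPGroup p P)
    (𝒦 : Set (Subgroup P))
    (h𝒦 : 𝒦 = Cfsg.classTwoSubgroups P ∨ (∃ Q, 𝒦 = Cfsg.kLowerStarFamily Q) ∨
      ∃ Q, 𝒦 = Cfsg.kUpperStarFamily Q) (hbot : ⊥ ∈ 𝒦) :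
    Subgroup.centralizer ((sSup 𝒦 : Subgroup P) : Set P) ≤ sSup 𝒦 := by
  obtain ⟨B, -, hB, hBmax⟩ := Set.Finite.exists_le_maximal (Set.toFinite 𝒦) hbot
  have h1 := self_centralizing_of_max hP B 𝒦 h𝒦 hB
    (fun C hC hBC => le_antisymm (hBmax hC hBC) hBC)
  have h2 : B ≤ sSup 𝒦 := le_sSup hB
  exact (Subgroup.centralizer_le h2).trans (h1.trans h2)

theorem lower_antitone {Q Q' : Subgroup P} (h : Q ≤ Q') :
    sSup (Cfsg.kLowerStarFamily Q') ≤ sSup (Cfsg.kLowerStarFamily Q) := by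
  apply sSup_le_sSup
  rintro B ⟨h1, h2, h3⟩
  exact ⟨h1, h.trans h2, fun A hA hAQ => h3 A hA (hAQ.trans h)⟩

theorem upper_antitone {Q Q' : Subgroup P} (h : Q ≤ Q') :
    sSup (Cfsg.kUpperStarFamily Q') ≤ sSup (Cfsg.kUpperStarFamily Q) := by
  apply sSup_le_sSup
  rintro B ⟨h1, h2⟩
  exact ⟨h1, (Subgroup.commutator_mono le_rfl h).trans h2⟩

theorem kSeqOdd_succ (n : ℕ) : Cfsg.kSeqOdd P (n + 1) =
    sSup (Cfsg.kUpperStarFamily (sSup (Cfsg.kLowerStarFamily (Cfsg.kSeqOdd P n)))) := rfl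

theorem kSeqOdd_antitone : Antitone (Cfsg.kSeqOdd P) := by
  apply antitone_nat_of_succ_le
  intro n
  induction n with
  | zero => show _ ≤ (⊤ : Subgroup P); exact le_top
  | succ n ih =>
    rw [kSeqOdd_succ (n + 1), kSeqOdd_succ n]
    exact upper_antitone (lower_antitone ih)

theorem s1978 [Finite P] {p : ℕ} [Fact p.Prime] (hP : IsPGroup p P) :
    Subgroup.centralizer (Cfsg.kInfLower P : Set P) ≤ Cfsg.kInfLower P ∧
    Subgroup.center P ≤ Subgroup.centralizer (Cfsg.kInfLower P : Set P) ∧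
    Subgroup.centralizer (Cfsg.kInfUpper P : Set P) ≤ Cfsg.kInfUpper P ∧
    Subgroup.center P ≤ Subgroup.centralizer (Cfsg.kInfUpper P : Set P) := by
  refine ⟨?_, Subgroup.center_le_centralizer _, ?_, Subgroup.center_le_centralizer _⟩
  · have h0 : Cfsg.kSeqEven P 0 ≤ Cfsg.kInfLower P := le_iSup (Cfsg.kSeqEven P) 0
    have h1 : Subgroup.centralizer ((Cfsg.kSeqEven P 0 : Subgroup P) : Set P) ≤ Cfsg.kSeqEven P 0 :=
      sSup_self_centralizing hP _ (Or.inr (Or.inl ⟨_, rfl⟩)) (bot_mem_lower _)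
    exact (Subgroup.centralizer_le h0).trans (h1.trans h0)
  · obtain ⟨K, ⟨N, rfl⟩, hmin⟩ := Set.Finite.exists_minimal (Set.toFinite (Set.range (Cfsg.kSeqOdd P)))
      ⟨_, ⟨0, rfl⟩⟩
    have hle : ∀ n, Cfsg.kSeqOdd P N ≤ Cfsg.kSeqOdd P n := by
      intro n
      have h1 : Cfsg.kSeqOdd P (max n N) ≤ Cfsg.kSeqOdd P N := kSeqOdd_antitone (le_max_right n N)
      have h2 : Cfsg.kSeqOdd P (max n N) ≤ Cfsg.kSeqOdd P n := kSeqOdd_antitone (le_max_left n N)
      exact (hmin ⟨_, rfl⟩ h1).trans h2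
    have heq : Cfsg.kInfUpper P = Cfsg.kSeqOdd P N :=
      le_antisymm (iInf_le (Cfsg.kSeqOdd P) N) (le_iInf hle)
    rw [heq]
    cases N with
    | zero => show _ ≤ (⊤ : Subgroup P); exact le_top
    | succ m =>
      rw [kSeqOdd_succ m]
      exact sSup_self_centralizing hP _ (Or.inr (Or.inr ⟨_, rfl⟩)) (bot_mem_upper _)

end Cfsg.Agent.Lib_helper7_KInf
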