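import Cfsg.Prelude.Def_ConjugacyFunctors
import Mathlib.Order.OrderIsoNat

set_option autoImplicit false

namespace Cfsg.Agent.Lib_helper7_KSeq

open Cfsg

variable {P : Type*} [Group P]

theorem kLowerStarFamily_anti {Q Q' : Subgroup P} (h : Q ≤ Q') :
    kLowerStarFamily Q' ⊆ kLowerStarFamily Q := by
  rintro B ⟨hB2, hN, hcond⟩
  exact ⟨hB2, h.trans hN, fun A hA hAQ => hcond A hA (hAQ.trans h)⟩

theorem kUpperStarFamily_anti {Q Q' : Subgroup P} (h : Q ≤ Q') :
    kUpperStarFamily Q' ⊆ kUpperStarFamily Q := by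
  rintro B ⟨hB2, hc⟩
  exact ⟨hB2, (Subgroup.commutator_mono le_rfl h).trans hc⟩

theorem kSeqOdd_succ (n : ℕ) :
    kSeqOdd P (n + 1) = sSup (kUpperStarFamily (kSeqEven P n)) := rfl

theorem kSeqEven_def (n : ℕ) : kSeqEven P n = sSup (kLowerStarFamily (kSeqOdd P n)) := rfl

theorem kSeqOdd_succ_le (n : ℕ) : kSeqOdd P (n + 1) ≤ kSeqOdd P n := by
  induction n with
  | zero => exact le_top
  | succ k ih =>
    rw [kSeqOdd_succ, kSeqOdd_succ]
    apply sSup_le_sSup
    apply kUpperStarFamily_anti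
    rw [kSeqEven_def, kSeqEven_def]
    apply sSup_le_sSup
    exact kLowerStarFamily_anti ih

theorem kSeqEven_le_succ (n : ℕ) : kSeqEven P n ≤ kSeqEven P (n + 1) := by
  rw [kSeqEven_def, kSeqEven_def]
  apply sSup_le_sSup
  exact kLowerStarFamily_anti (kSeqOdd_succ_le n)

theorem kSeqOdd_antitone : Antitone (kSeqOdd P) := antitone_nat_of_succ_le kSeqOdd_succ_le

theorem kSeqEven_monotone : Monotone (kSeqEven P) := monotone_nat_of_le_succ kSeqEven_le_succ

theorem abelian_normal_mem_classTwo (A : Subgroup P) (hA : IsMulCommutative ↥A) :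
    A ∈ classTwoSubgroups P := by
  show ⁅A, A⁆ ≤ Subgroup.centralizer (A : Set P)
  have h : ⁅A, A⁆ = ⊥ := by
    rw [Subgroup.commutator_eq_bot_iff_le_centralizer]
    intro a ha
    rw [Subgroup.mem_centralizer_iff]
    intro b hb
    have := hA.is_comm.comm (⟨b, hb⟩ : A) ⟨a, ha⟩
    exact congrArg Subtype.val this
  rw [h]
  exact bot_le

theorem abelian_le_centralizer (A : Subgroup P) (hA : IsMulCommutative ↥A) :
    A ≤ Subgroup.centralizer (A : Set P) := by
  intro a ha
  rw [Subgroup.mem_centralizer_iff]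
  intro b hb
  have := hA.is_comm.comm (⟨b, hb⟩ : A) ⟨a, ha⟩
  exact congrArg Subtype.val this

theorem normal_commutator_le (A Q : Subgroup P) [hn : A.Normal] : ⁅A, Q⁆ ≤ A := by
  rw [Subgroup.commutator_le]
  intro a ha q _
  have h1 := hn.conj_mem a⁻¹ (A.inv_mem ha) q
  have h2 := A.mul_mem ha h1
  show a * q * a⁻¹ * q⁻¹ ∈ A
  simpa [mul_assoc] using h2

theorem abelian_normal_mem_lower (A : Subgroup P) [hn : A.Normal] (hA : IsMulCommutative ↥A)
    (Q : Subgroup P) : A ∈ kLowerStarFamily Q := by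
  refine ⟨abelian_normal_mem_classTwo A hA, ?_, ?_⟩
  · rw [Subgroup.normalizer_eq_top_iff.mpr hn]; exact le_top
  · intro A' _ _ _ _ _
    exact le_inf (normal_commutator_le A A') ((normal_commutator_le A A').trans (abelian_le_centralizer A hA))

theorem abelian_normal_mem_upper (A : Subgroup P) [hn : A.Normal] (hA : IsMulCommutative ↥A)
    (Q : Subgroup P) : A ∈ kUpperStarFamily Q :=
  ⟨abelian_normal_mem_classTwo A hA,
    le_inf (normal_commutator_le A Q) ((normal_commutator_le A Q).trans (abelian_le_centralizer A hA))⟩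

theorem abelian_normal_le_even (A : Subgroup P) [hn : A.Normal] (hA : IsMulCommutative ↥A) (n : ℕ) :
    A ≤ kSeqEven P n :=
  le_sSup (abelian_normal_mem_lower A hA _)

theorem abelian_normal_le_odd (A : Subgroup P) [hn : A.Normal] (hA : IsMulCommutative ↥A) (n : ℕ) :
    A ≤ kSeqOdd P n := by
  cases n with
  | zero => exact le_top
  | succ k => exact le_sSup (abelian_normal_mem_upper A hA _)

end Cfsg.Agent.Lib_helper7_KSeq
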