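import Mathlib
import Cfsg.Prelude.Def_ConjugacyFunctors
import Cfsg.Agent.Lib_helper7_KInf

set_option autoImplicit false

namespace Cfsg.Agent.Lib_helper7_KSub

open Cfsg.Agent.Lib_helper7_KInf
open scoped commutatorElement

variable {G H : Type*} [Group G] [Group H]

theorem le_normalizer_iff_commutator_le (B R : Subgroup G) :
    R ≤ Subgroup.normalizer (B : Set G) ↔ ⁅B, R⁆ ≤ B := by
  constructor
  · intro h
    rw [Subgroup.commutator_le]
    intro b hb r hr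
    have h1 : r * b⁻¹ * r⁻¹ ∈ B :=
      (Subgroup.mem_normalizer_iff.mp (h hr) b⁻¹).mp (B.inv_mem hb)
    have e : ⁅b, r⁆ = b * (r * b⁻¹ * r⁻¹) := by rw [commutatorElement_def]; group
    rw [e]; exact B.mul_mem hb h1
  · intro h r hr
    have key : ∀ s ∈ R, ∀ b ∈ B, s * b * s⁻¹ ∈ B := by
      intro s hs b hb
      have h1 : ⁅b⁻¹, s⁆ ∈ B := h (Subgroup.commutator_mem_commutator (B.inv_mem hb) hs)
      have e : s * b * s⁻¹ = b * ⁅b⁻¹, s⁆ := by rw [commutatorElement_def]; group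
      rw [e]; exact B.mul_mem hb h1
    rw [Subgroup.mem_normalizer_iff]
    intro b
    constructor
    · exact key r hr b
    · intro hb
      have h2 := key r⁻¹ (R.inv_mem hr) _ hb
      have e : r⁻¹ * (r * b * r⁻¹) * r⁻¹⁻¹ = b := by group
      rw [e] at h2; exact h2

theorem commutator_eq_bot_map_iff {φ : G →* H} (hφ : Function.Injective φ) (X Y : Subgroup G) :
    ⁅X.map φ, Y.map φ⁆ = ⊥ ↔ ⁅X, Y⁆ = ⊥ := by
  rw [← Subgroup.map_commutator, Subgroup.map_eq_bot_iff_of_injective _ hφ]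

theorem commutator_le_map_iff {φ : G →* H} (hφ : Function.Injective φ) (X Y Z : Subgroup G) :
    ⁅X.map φ, Y.map φ⁆ ≤ Z.map φ ↔ ⁅X, Y⁆ ≤ Z := by
  rw [← Subgroup.map_commutator, Subgroup.map_le_map_iff_of_injective hφ]

theorem le_normalizer_map_iff {φ : G →* H} (hφ : Function.Injective φ) (B R : Subgroup G) :
    R.map φ ≤ Subgroup.normalizer ((B.map φ : Subgroup H) : Set H) ↔
      R ≤ Subgroup.normalizer (B : Set G) := by
  rw [le_normalizer_iff_commutator_le, le_normalizer_iff_commutator_le,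
    commutator_le_map_iff hφ]

theorem map_inf_centralizer {φ : G →* H} (hφ : Function.Injective φ) (B : Subgroup G) :
    (B ⊓ Subgroup.centralizer (B : Set G)).map φ =
      B.map φ ⊓ Subgroup.centralizer ((B.map φ : Subgroup H) : Set H) := by
  ext y
  constructor
  · rintro ⟨x, ⟨hxB, hxC⟩, rfl⟩
    refine ⟨⟨x, hxB, rfl⟩, Subgroup.mem_centralizer_iff.mpr ?_⟩
    rintro _ ⟨b, hb, rfl⟩
    rw [← map_mul, ← map_mul, Subgroup.mem_centralizer_iff.mp hxC b hb]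
  · rintro ⟨⟨x, hxB, rfl⟩, hC⟩
    refine ⟨x, ⟨hxB, Subgroup.mem_centralizer_iff.mpr ?_⟩, rfl⟩
    intro b hb
    apply hφ
    rw [map_mul, map_mul]
    exact Subgroup.mem_centralizer_iff.mp hC (φ b) ⟨b, hb, rfl⟩

theorem classTwo_iff (B : Subgroup G) :
    B ∈ Cfsg.classTwoSubgroups G ↔ ⁅⁅B, B⁆, B⁆ = ⊥ := by
  rw [Subgroup.commutator_eq_bot_iff_le_centralizer]; rfl

theorem classTwo_map_iff {φ : G →* H} (hφ : Function.Injective φ) (B : Subgroup G) :
    B.map φ ∈ Cfsg.classTwoSubgroups H ↔ B ∈ Cfsg.classTwoSubgroups G := by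
  rw [classTwo_iff, classTwo_iff, ← Subgroup.map_commutator, commutator_eq_bot_map_iff hφ]

theorem comm_le_center_map_iff {φ : G →* H} (hφ : Function.Injective φ) (B A : Subgroup G) :
    ⁅B.map φ, A.map φ⁆ ≤ B.map φ ⊓ Subgroup.centralizer ((B.map φ : Subgroup H) : Set H) ↔
      ⁅B, A⁆ ≤ B ⊓ Subgroup.centralizer (B : Set G) := by
  rw [← map_inf_centralizer hφ, ← Subgroup.map_commutator,
    Subgroup.map_le_map_iff_of_injective hφ]

theorem upper_map_iff {φ : G →* H} (hφ : Function.Injective φ) (B R : Subgroup G) :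
    B.map φ ∈ Cfsg.kUpperStarFamily (R.map φ) ↔ B ∈ Cfsg.kUpperStarFamily R := by
  show (B.map φ ∈ Cfsg.classTwoSubgroups H ∧ ⁅B.map φ, R.map φ⁆ ≤
      B.map φ ⊓ Subgroup.centralizer ((B.map φ : Subgroup H) : Set H)) ↔
    (B ∈ Cfsg.classTwoSubgroups G ∧ ⁅B, R⁆ ≤ B ⊓ Subgroup.centralizer (B : Set G))
  rw [classTwo_map_iff hφ, comm_le_center_map_iff hφ]

theorem lower_map_iff {φ : G →* H} (hφ : Function.Injective φ) (B R : Subgroup G) :
    B.map φ ∈ Cfsg.kLowerStarFamily (R.map φ) ↔ B ∈ Cfsg.kLowerStarFamily R := by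
  constructor
  · rintro ⟨h1, h2, h3⟩
    refine ⟨(classTwo_map_iff hφ B).mp h1, (le_normalizer_map_iff hφ B R).mp h2, ?_⟩
    intro A hA hAR hBA hc1 hc2
    rw [← comm_le_center_map_iff hφ]
    apply h3 (A.map φ) ((classTwo_map_iff hφ A).mpr hA) (Subgroup.map_mono hAR)
      ((le_normalizer_map_iff hφ A B).mpr hBA)
    · rw [← Subgroup.map_commutator, commutator_eq_bot_map_iff hφ]; exact hc1
    · rw [← map_inf_centralizer hφ, ← Subgroup.map_commutator, commutator_eq_bot_map_iff hφ]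
      exact hc2
  · rintro ⟨h1, h2, h3⟩
    refine ⟨(classTwo_map_iff hφ B).mpr h1, (le_normalizer_map_iff hφ B R).mpr h2, ?_⟩
    intro A₁ hA₁ hA₁R hBA hc1 hc2
    have hrange : A₁ ≤ φ.range := hA₁R.trans (Subgroup.map_le_range φ R)
    obtain ⟨A, rfl⟩ : ∃ A : Subgroup G, A.map φ = A₁ :=
      ⟨A₁.comap φ, Subgroup.map_comap_eq_self hrange⟩
    rw [comm_le_center_map_iff hφ]
    apply h3 A ((classTwo_map_iff hφ A).mp hA₁)
      ((Subgroup.map_le_map_iff_of_injective hφ).mp hA₁R)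
      ((le_normalizer_map_iff hφ A B).mp hBA)
    · rw [← Subgroup.map_commutator, commutator_eq_bot_map_iff hφ] at hc1; exact hc1
    · rw [← map_inf_centralizer hφ, ← Subgroup.map_commutator,
        commutator_eq_bot_map_iff hφ] at hc2
      exact hc2

theorem sSup_lower_map (Q : Subgroup G) (R : Subgroup ↥Q)
    (h : ∀ B ∈ Cfsg.kLowerStarFamily (R.map Q.subtype), B ≤ Q) :
    (sSup (Cfsg.kLowerStarFamily R)).map Q.subtype =
      sSup (Cfsg.kLowerStarFamily (R.map Q.subtype)) := by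
  apply le_antisymm
  · rw [Subgroup.map_le_iff_le_comap]
    apply sSup_le
    intro B hB
    rw [← Subgroup.map_le_iff_le_comap]
    exact le_sSup ((lower_map_iff (Subgroup.subtype_injective Q) B R).mpr hB)
  · apply sSup_le
    intro B hB
    have e : (B.subgroupOf Q).map Q.subtype = B := Subgroup.map_subgroupOf_eq_of_le (h B hB)
    have hB' : (B.subgroupOf Q).map Q.subtype ∈ Cfsg.kLowerStarFamily (R.map Q.subtype) := by
      rw [e]; exact hB
    exact le_of_eq_of_le e.symm (Subgroup.map_mono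
      (le_sSup ((lower_map_iff (Subgroup.subtype_injective Q) _ R).mp hB')))

theorem sSup_upper_map (Q : Subgroup G) (R : Subgroup ↥Q)
    (h : ∀ B ∈ Cfsg.kUpperStarFamily (R.map Q.subtype), B ≤ Q) :
    (sSup (Cfsg.kUpperStarFamily R)).map Q.subtype =
      sSup (Cfsg.kUpperStarFamily (R.map Q.subtype)) := by
  apply le_antisymm
  · rw [Subgroup.map_le_iff_le_comap]
    apply sSup_le
    intro B hB
    rw [← Subgroup.map_le_iff_le_comap]
    exact le_sSup ((upper_map_iff (Subgroup.subtype_injective Q) B R).mpr hB)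
  · apply sSup_le
    intro B hB
    have e : (B.subgroupOf Q).map Q.subtype = B := Subgroup.map_subgroupOf_eq_of_le (h B hB)
    have hB' : (B.subgroupOf Q).map Q.subtype ∈ Cfsg.kUpperStarFamily (R.map Q.subtype) := by
      rw [e]; exact hB
    exact le_of_eq_of_le e.symm (Subgroup.map_mono
      (le_sSup ((upper_map_iff (Subgroup.subtype_injective Q) _ R).mp hB')))

theorem interleave (Q : Subgroup G)
    (hQ : ∀ n : ℕ, Cfsg.kSeqEven G n ≤ Q ∧ Cfsg.kSeqOdd G (n + 1) ≤ Q) (n : ℕ) :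
    (Cfsg.kSeqOdd G (n + 1) ≤ (Cfsg.kSeqOdd ↥Q n).map Q.subtype ∧
      (Cfsg.kSeqOdd ↥Q n).map Q.subtype ≤ Cfsg.kSeqOdd G n) ∧
    (Cfsg.kSeqEven G n ≤ (Cfsg.kSeqEven ↥Q n).map Q.subtype ∧
      (Cfsg.kSeqEven ↥Q n).map Q.subtype ≤ Cfsg.kSeqEven G (n + 1)) := by
  have even_of_odd : ∀ n, (Cfsg.kSeqOdd G (n + 1) ≤ (Cfsg.kSeqOdd ↥Q n).map Q.subtype ∧
      (Cfsg.kSeqOdd ↥Q n).map Q.subtype ≤ Cfsg.kSeqOdd G n) →
      (Cfsg.kSeqEven G n ≤ (Cfsg.kSeqEven ↥Q n).map Q.subtype ∧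
      (Cfsg.kSeqEven ↥Q n).map Q.subtype ≤ Cfsg.kSeqEven G (n + 1)) := by
    rintro n ⟨h1, h2⟩
    have e : (Cfsg.kSeqEven ↥Q n).map Q.subtype =
        sSup (Cfsg.kLowerStarFamily ((Cfsg.kSeqOdd ↥Q n).map Q.subtype)) :=
      sSup_lower_map Q _
        (fun B hB => (le_sSup hB).trans ((lower_antitone h1).trans (hQ (n + 1)).1))
    rw [e]
    exact ⟨lower_antitone h2, lower_antitone h1⟩
  have odd_step : ∀ n, (Cfsg.kSeqEven G n ≤ (Cfsg.kSeqEven ↥Q n).map Q.subtype ∧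
      (Cfsg.kSeqEven ↥Q n).map Q.subtype ≤ Cfsg.kSeqEven G (n + 1)) →
      (Cfsg.kSeqOdd G (n + 2) ≤ (Cfsg.kSeqOdd ↥Q (n + 1)).map Q.subtype ∧
      (Cfsg.kSeqOdd ↥Q (n + 1)).map Q.subtype ≤ Cfsg.kSeqOdd G (n + 1)) := by
    rintro n ⟨h1, h2⟩
    have e : (Cfsg.kSeqOdd ↥Q (n + 1)).map Q.subtype =
        sSup (Cfsg.kUpperStarFamily ((Cfsg.kSeqEven ↥Q n).map Q.subtype)) :=
      sSup_upper_map Q _
        (fun B hB => (le_sSup hB).trans ((upper_antitone h1).trans (hQ n).2))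
    rw [e]
    exact ⟨upper_antitone h2, upper_antitone h1⟩
  induction n with
  | zero =>
    have h0 : (Cfsg.kSeqOdd G 1 ≤ (Cfsg.kSeqOdd ↥Q 0).map Q.subtype ∧
        (Cfsg.kSeqOdd ↥Q 0).map Q.subtype ≤ Cfsg.kSeqOdd G 0) := by
      refine ⟨?_, ?_⟩
      · intro x hx
        exact ⟨⟨x, (hQ 0).2 hx⟩, Subgroup.mem_top _, rfl⟩
      · show _ ≤ (⊤ : Subgroup G)
        exact le_top
    exact ⟨h0, even_of_odd 0 h0⟩
  | succ n ih =>
    have h1 := odd_step n ih.2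
    exact ⟨h1, even_of_odd (n + 1) h1⟩

theorem s1979 {P : Type*} [Group P] (Q : Subgroup P)
    (hQ : ∀ n : ℕ, Cfsg.kSeqEven P n ≤ Q ∧ Cfsg.kSeqOdd P (n + 1) ≤ Q) :
    (Cfsg.kInfLower ↥Q).map Q.subtype = Cfsg.kInfLower P ∧
      (Cfsg.kInfUpper ↥Q).map Q.subtype = Cfsg.kInfUpper P := by
  constructor
  · show (⨆ n, Cfsg.kSeqEven ↥Q n).map Q.subtype = ⨆ n, Cfsg.kSeqEven P n
    rw [Subgroup.map_iSup]
    apply le_antisymm
    · exact iSup_le (fun n => le_iSup_of_le (n + 1) (interleave Q hQ n).2.2)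
    · exact iSup_le (fun n => le_iSup_of_le n (interleave Q hQ n).2.1)
  · show (⨅ n, Cfsg.kSeqOdd ↥Q n).map Q.subtype = ⨅ n, Cfsg.kSeqOdd P n
    rw [Subgroup.map_iInf _ (Subgroup.subtype_injective Q)]
    apply le_antisymm
    · exact le_iInf (fun n => iInf_le_of_le n (interleave Q hQ n).1.2)
    · exact le_iInf (fun n => iInf_le_of_le (n + 1) (interleave Q hQ n).1.1)

end Cfsg.Agent.Lib_helper7_KSub
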