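import Mathlib
import Cfsg.Prelude.Def_PLocal
import Cfsg.Prelude.Def_Transfer
import Cfsg.Prelude.Def_OddOrderLocal
import Cfsg.Agent.Lib_helper7_CycSyl
import Cfsg.Agent.Lib_helper7_TIAb
import Cfsg.Agent.Lib_helper5_UniqSub

set_option autoImplicit false

namespace Cfsg.Agent.Lib_helper7_Metacyc

universe u

theorem modEq_one_of_pow (p : ℕ) [Fact p.Prime] (ρ : ℕ) (h : ρ ^ p ≡ 1 [MOD p]) :
    ρ ≡ 1 [MOD p] := by
  have h6' : ((ρ ^ p : ℕ) : ZMod p) = ((1 : ℕ) : ZMod p) :=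
    (ZMod.natCast_eq_natCast_iff _ _ _).mpr h
  push_cast at h6'
  rw [ZMod.pow_card] at h6'
  exact (ZMod.natCast_eq_natCast_iff _ _ _).mp (by push_cast; exact h6')

theorem nt (p : ℕ) [hp : Fact p.Prime] (hp2 : p ≠ 2) (ρ : ℕ) (hρ : ρ ≡ 1 [MOD p]) :
    ¬ p ^ 2 ∣ ∑ l ∈ Finset.range p, ρ ^ (l + 1) := by
  intro hdiv
  have hpp := hp.out
  have hρ1 : 1 ≤ ρ := by
    by_contra h
    have h0 : ρ = 0 := by omega
    rw [h0] at hρ
    have h1 : p ∣ 1 := (Nat.modEq_zero_iff_dvd.mp hρ.symm)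
    exact hpp.one_lt.ne' (Nat.dvd_one.mp h1)
  obtain ⟨a, ha⟩ : ∃ a, ρ = 1 + p * a := by
    have h1 : p ∣ ρ - 1 := (Nat.modEq_iff_dvd' hρ1).mp hρ.symm
    obtain ⟨a, ha⟩ := h1
    exact ⟨a, by omega⟩
  subst ha
  have hsq : ((p : ℕ) : ZMod (p ^ 2)) ^ 2 = 0 := by
    have h := ZMod.natCast_self (p ^ 2)
    push_cast at h
    exact h
  have key : ∀ l : ℕ, (((1 + p * a : ℕ)) : ZMod (p ^ 2)) ^ l =
      1 + (l : ZMod (p ^ 2)) * ((p : ZMod (p ^ 2)) * (a : ZMod (p ^ 2))) := by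
    intro l
    induction l with
    | zero => simp
    | succ l ih =>
      have e : (((1 + p * a : ℕ)) : ZMod (p ^ 2)) ^ (l + 1) =
          (((1 + p * a : ℕ)) : ZMod (p ^ 2)) ^ l * (((1 + p * a : ℕ)) : ZMod (p ^ 2)) :=
        pow_succ _ _
      rw [e, ih]
      push_cast
      linear_combination ((l : ZMod (p ^ 2)) * (a : ZMod (p ^ 2)) ^ 2) * hsq
  obtain ⟨k, hk⟩ : ∃ k, ∑ l ∈ Finset.range p, (l + 1) = p * k := by
    have h1 : (∑ i ∈ Finset.range (p + 1), i) * 2 = (p + 1) * p := by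
      have h := Finset.sum_range_id_mul_two (p + 1)
      simpa using h
    have h2 : ∑ l ∈ Finset.range p, (l + 1) = ∑ i ∈ Finset.range (p + 1), i := by
      rw [Finset.sum_range_succ' (fun i => i) p]; simp
    obtain ⟨j, hj⟩ := hpp.odd_of_ne_two hp2
    refine ⟨j + 1, ?_⟩
    rw [h2]
    have h3 : (∑ i ∈ Finset.range (p + 1), i) * 2 = (p * (j + 1)) * 2 := by
      rw [h1]
      have h4 : p + 1 = 2 * (j + 1) := by omega
      rw [h4]; ring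
    exact Nat.eq_of_mul_eq_mul_right (by norm_num) h3
  have hcast : ((∑ l ∈ Finset.range p, (1 + p * a) ^ (l + 1) : ℕ) : ZMod (p ^ 2)) =
      (p : ZMod (p ^ 2)) := by
    rw [Nat.cast_sum]
    have h1 : ∀ l ∈ Finset.range p, (((1 + p * a) ^ (l + 1) : ℕ) : ZMod (p ^ 2)) =
        1 + ((l + 1 : ℕ) : ZMod (p ^ 2)) * ((p : ZMod (p ^ 2)) * (a : ZMod (p ^ 2))) := by
      intro l _
      rw [Nat.cast_pow, key (l + 1)]
    rw [Finset.sum_congr rfl h1, Finset.sum_add_distrib, Finset.sum_const, Finset.card_range,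
      ← Finset.sum_mul, ← Nat.cast_sum, hk]
    simp only [nsmul_eq_mul, mul_one, Nat.cast_mul]
    linear_combination ((k : ZMod (p ^ 2)) * (a : ZMod (p ^ 2))) * hsq
  have h0 : ((∑ l ∈ Finset.range p, (1 + p * a) ^ (l + 1) : ℕ) : ZMod (p ^ 2)) = 0 :=
    (ZMod.natCast_eq_zero_iff _ _).mpr hdiv
  rw [hcast] at h0
  have h4 : p ^ 2 ∣ p := (ZMod.natCast_eq_zero_iff _ _).mp h0
  have h5 := Nat.le_of_dvd hpp.pos h4
  have h6 : 2 ≤ p := hpp.two_le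
  nlinarith

theorem conj_pow_of_conj {R : Type*} [Group R] {c b : R} {ρ : ℕ} (h : c * b * c⁻¹ = b ^ ρ)
    (m : ℕ) : c ^ m * b * (c ^ m)⁻¹ = b ^ (ρ ^ m) := by
  induction m with
  | zero => simp
  | succ m ih =>
    have e : c ^ (m + 1) * b * (c ^ (m + 1))⁻¹ = c * (c ^ m * b * (c ^ m)⁻¹) * c⁻¹ := by
      rw [pow_succ']; group
    rw [e, ih, ← conj_pow, h, ← pow_mul, pow_succ']

theorem conj_zpowers {R : Type*} [Group R] {c g b : R} {ρ : ℕ} (h : c * g * c⁻¹ = g ^ ρ)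
    (hb : b ∈ Subgroup.zpowers g) : c * b * c⁻¹ = b ^ ρ := by
  obtain ⟨k, rfl⟩ := Subgroup.mem_zpowers_iff.mp hb
  rw [← conj_zpow, h, ← zpow_natCast, ← zpow_natCast, ← zpow_mul, ← zpow_mul, mul_comm]

theorem mul_pow_of_conj {R : Type*} [Group R] {c b : R} {ρ : ℕ} (h : c * b * c⁻¹ = b ^ ρ)
    (m : ℕ) : (c * b) ^ m = b ^ (∑ l ∈ Finset.range m, ρ ^ (l + 1)) * c ^ m := by
  induction m with
  | zero => simp
  | succ m ih =>
    have h1 := conj_pow_of_conj h (m + 1)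
    have e : b ^ (∑ l ∈ Finset.range m, ρ ^ (l + 1)) * c ^ m * (c * b) =
        b ^ (∑ l ∈ Finset.range m, ρ ^ (l + 1)) * (c ^ (m + 1) * b * (c ^ (m + 1))⁻¹) *
          c ^ (m + 1) := by
      rw [pow_succ c m]; group
    rw [pow_succ (c * b) m, ih, e, h1, Finset.sum_range_succ, pow_add b]

theorem core {R : Type*} [Group R] [Finite R] {p : ℕ} [hp : Fact p.Prime] (hp2 : p ≠ 2)
    (hR : IsPGroup p R) {c b : R} {ρ : ℕ} (hc : c ^ p = 1) (hconj : c * b * c⁻¹ = b ^ ρ)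
    (h : (c * b) ^ p = 1) : b ^ p = 1 := by
  have hpp := hp.out
  have h1 := mul_pow_of_conj hconj p
  rw [h, hc, mul_one] at h1
  have hdvd : orderOf b ∣ ∑ l ∈ Finset.range p, ρ ^ (l + 1) :=
    orderOf_dvd_of_pow_eq_one h1.symm
  obtain ⟨e, he⟩ := hR b
  obtain ⟨j, hj, hjo⟩ := (Nat.dvd_prime_pow hpp).mp (orderOf_dvd_of_pow_eq_one he)
  by_cases hj1 : j ≤ 1
  · apply orderOf_dvd_iff_pow_eq_one.mp
    rw [hjo]
    calc p ^ j ∣ p ^ 1 := pow_dvd_pow p hj1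
      _ = p := pow_one p
  · exfalso
    have h2 : p ^ 2 ∣ orderOf b := by rw [hjo]; exact pow_dvd_pow p (by omega)
    have h3 := conj_pow_of_conj hconj p
    rw [hc] at h3
    have h4 : b ^ (ρ ^ p) = b ^ 1 := by rw [← h3]; group
    have h5 : ρ ^ p ≡ 1 [MOD orderOf b] := pow_eq_pow_iff_modEq.mp h4
    have h6 : ρ ^ p ≡ 1 [MOD p] :=
      h5.of_dvd (dvd_trans (dvd_pow_self p (by norm_num)) h2)
    exact nt p hp2 ρ (modEq_one_of_pow p ρ h6) (dvd_trans h2 hdvd)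

theorem zpow_pow_eq_one {R : Type*} [Group R] {a : R} {n : ℕ} (h : a ^ n = 1) (i : ℤ) :
    (a ^ i) ^ n = 1 := by
  rw [← zpow_natCast, ← zpow_mul, mul_comm, zpow_mul, zpow_natCast, h, one_zpow]

theorem exists_omega_gen {R : Type*} [Group R] [Finite R] {p : ℕ} [hp : Fact p.Prime]
    (N : Subgroup R) (hc : IsCyclic ↥N) :
    ∃ g₀ ∈ N, g₀ ^ p = 1 ∧ ∀ b ∈ N, b ^ p = 1 → b ∈ Subgroup.zpowers g₀ := by
  by_cases hex : ∃ b ∈ N, b ^ p = 1 ∧ b ≠ 1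
  · obtain ⟨g₀, hg₀N, hg₀p, hg₀1⟩ := hex
    have ho : orderOf g₀ = p := orderOf_eq_prime hg₀p hg₀1
    exact ⟨g₀, hg₀N, hg₀p, fun b hb hbp =>
      Cfsg.Agent.Lib_helper7_CycSyl.mem_zpowers_of_pow_eq_one hp.out N hc hg₀N ho hb hbp⟩
  · refine ⟨1, N.one_mem, one_pow p, fun b hb hbp => ?_⟩
    have hb1 : b = 1 := by
      by_contra hb1
      exact hex ⟨b, hb, hbp, hb1⟩
    rw [hb1]; exact Subgroup.one_mem _

theorem upper {R : Type u} [Group R] [Finite R] {p : ℕ} [hp : Fact p.Prime] (hp2 : p ≠ 2)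
    (hR : IsPGroup p R) (N : Subgroup R) [hN : N.Normal] (hNc : IsCyclic ↥N)
    (hQc : IsCyclic (R ⧸ N)) :
    ∃ E : Subgroup R, (∀ a ∈ E, ∀ b ∈ E, a * b = b * a) ∧ (∀ a ∈ E, a ^ p = 1) ∧
      Nat.card E ≤ p ^ 2 ∧ ∀ y : R, y ^ p = 1 → y ∈ E := by
  have hpp := hp.out
  obtain ⟨g₀, hg₀N, hg₀p, hg₀⟩ := exists_omega_gen (p := p) N hNc
  obtain ⟨x, hxp, hx⟩ : ∃ x : R, x ^ p = 1 ∧ ∀ y : R, y ^ p = 1 → ∃ i : ℤ, x ^ (-i) * y ∈ N := by
    by_cases hex : ∃ x : R, x ^ p = 1 ∧ x ∉ N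
    · obtain ⟨x, hxp, hxN⟩ := hex
      refine ⟨x, hxp, fun y hy => ?_⟩
      have hxo : orderOf (QuotientGroup.mk' N x) = p := by
        apply orderOf_eq_prime
        · rw [← map_pow, hxp, map_one]
        · intro h1
          exact hxN ((QuotientGroup.eq_one_iff x).mp h1)
      have hy' : (QuotientGroup.mk' N y) ^ p = 1 := by rw [← map_pow, hy, map_one]
      haveI := hQc
      have hmem := Cfsg.Agent.Lib_helper7_CycSyl.mem_zpowers_of_pow_eq_one hpp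
        (⊤ : Subgroup (R ⧸ N)) inferInstance (Subgroup.mem_top _) hxo (Subgroup.mem_top _) hy'
      obtain ⟨i, hi⟩ := Subgroup.mem_zpowers_iff.mp hmem
      refine ⟨i, ?_⟩
      apply (QuotientGroup.eq_one_iff _).mp
      show QuotientGroup.mk' N (x ^ (-i) * y) = 1
      rw [map_mul, map_zpow, ← hi, ← zpow_add, neg_add_cancel, zpow_zero]
    · refine ⟨1, one_pow p, fun y hy => ⟨0, ?_⟩⟩
      have hyN : y ∈ N := by
        by_contra h; exact hex ⟨y, hy, h⟩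
      simpa using hyN
  have hcomm : x * g₀ * x⁻¹ = g₀ := by
    have h1 : x * g₀ * x⁻¹ ∈ N := hN.conj_mem g₀ hg₀N x
    have h2 : (x * g₀ * x⁻¹) ^ p = 1 := by rw [conj_pow, hg₀p, mul_one, mul_inv_cancel]
    obtain ⟨ρ, hρ⟩ := (Submonoid.mem_powers_iff _ _).mp
      (mem_powers_iff_mem_zpowers.mpr (hg₀ _ h1 h2))
    by_cases hg1 : g₀ = 1
    · rw [hg1]; group
    · have ho : orderOf g₀ = p := orderOf_eq_prime hg₀p hg1
      have h3 := conj_pow_of_conj hρ.symm p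
      rw [hxp] at h3
      have h4 : g₀ ^ (ρ ^ p) = g₀ ^ 1 := by rw [← h3]; group
      have h5 : ρ ^ p ≡ 1 [MOD orderOf g₀] := pow_eq_pow_iff_modEq.mp h4
      rw [ho] at h5
      have h7 := modEq_one_of_pow p ρ h5
      have h8 : g₀ ^ ρ = g₀ ^ 1 := pow_eq_pow_iff_modEq.mpr (by rw [ho]; exact h7)
      rw [← hρ, h8, pow_one]
  have hcm : Commute g₀ x := by
    show g₀ * x = x * g₀
    calc g₀ * x = (x * g₀ * x⁻¹) * x := by rw [hcomm]
      _ = x * g₀ := by group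
  have hdecomp : ∀ w ∈ Subgroup.zpowers g₀ ⊔ Subgroup.zpowers x,
      ∃ i j : ℤ, w = g₀ ^ i * x ^ j := by
    intro w hw
    obtain ⟨a, ha, b, hb, rfl⟩ := Cfsg.Agent.Lib_helper7_TIAb.exists_mul_of_mem_sup _ _ (by
      intro a ha b hb
      obtain ⟨i, rfl⟩ := Subgroup.mem_zpowers_iff.mp ha
      obtain ⟨j, rfl⟩ := Subgroup.mem_zpowers_iff.mp hb
      rw [(hcm.zpow_zpow i j).eq, mul_inv_cancel_right]
      exact Subgroup.zpow_mem_zpowers x j) w hw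
    obtain ⟨i, rfl⟩ := Subgroup.mem_zpowers_iff.mp ha
    obtain ⟨j, rfl⟩ := Subgroup.mem_zpowers_iff.mp hb
    exact ⟨i, j, rfl⟩
  refine ⟨Subgroup.zpowers g₀ ⊔ Subgroup.zpowers x, ?_, ?_, ?_, ?_⟩
  · intro a ha b hb
    obtain ⟨i, j, rfl⟩ := hdecomp a ha
    obtain ⟨k, l, rfl⟩ := hdecomp b hb
    have c1 : Commute (g₀ ^ i) (g₀ ^ k) := (Commute.refl g₀).zpow_zpow i k
    have c2 : Commute (g₀ ^ i) (x ^ l) := hcm.zpow_zpow i l
    have c3 : Commute (x ^ j) (g₀ ^ k) := hcm.symm.zpow_zpow j k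
    have c4 : Commute (x ^ j) (x ^ l) := (Commute.refl x).zpow_zpow j l
    exact ((c1.mul_right c2).mul_left (c3.mul_right c4)).eq
  · intro a ha
    obtain ⟨i, j, rfl⟩ := hdecomp a ha
    rw [(hcm.zpow_zpow i j).mul_pow, zpow_pow_eq_one hg₀p, zpow_pow_eq_one hxp, mul_one]
  · have hsurj : Function.Surjective
        (fun ab : ↥(Subgroup.zpowers g₀) × ↥(Subgroup.zpowers x) =>
          (⟨(ab.1 : R) * (ab.2 : R), Subgroup.mul_mem _ (Subgroup.mem_sup_left ab.1.2)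
            (Subgroup.mem_sup_right ab.2.2)⟩ :
            ↥(Subgroup.zpowers g₀ ⊔ Subgroup.zpowers x))) := by
      rintro ⟨w, hw⟩
      obtain ⟨i, j, rfl⟩ := hdecomp w hw
      exact ⟨(⟨g₀ ^ i, Subgroup.zpow_mem_zpowers g₀ i⟩, ⟨x ^ j, Subgroup.zpow_mem_zpowers x j⟩),
        rfl⟩
    have h1 := Nat.card_le_card_of_surjective _ hsurj
    rw [Nat.card_prod, Nat.card_zpowers, Nat.card_zpowers] at h1
    have h2 : orderOf g₀ ≤ p := Nat.le_of_dvd hpp.pos (orderOf_dvd_of_pow_eq_one hg₀p)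
    have h3 : orderOf x ≤ p := Nat.le_of_dvd hpp.pos (orderOf_dvd_of_pow_eq_one hxp)
    calc Nat.card ↥(Subgroup.zpowers g₀ ⊔ Subgroup.zpowers x) ≤ orderOf g₀ * orderOf x := h1
      _ ≤ p * p := Nat.mul_le_mul h2 h3
      _ = p ^ 2 := (sq p).symm
  · intro y hy
    obtain ⟨i, hi⟩ := hx y hy
    have hcp : (x ^ i) ^ p = 1 := zpow_pow_eq_one hxp i
    haveI := hNc
    obtain ⟨⟨g, hgN⟩, hg⟩ := IsCyclic.exists_generator (α := ↥N)
    have hgen : ∀ b ∈ N, b ∈ Subgroup.zpowers g := by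
      intro b hb
      obtain ⟨k, hk⟩ := Subgroup.mem_zpowers_iff.mp (hg ⟨b, hb⟩)
      refine Subgroup.mem_zpowers_iff.mpr ⟨k, ?_⟩
      have h := congrArg Subtype.val hk
      simpa using h
    have h1 : x ^ i * g * (x ^ i)⁻¹ ∈ N := hN.conj_mem g hgN _
    obtain ⟨ρ, hρ⟩ := (Submonoid.mem_powers_iff _ _).mp
      (mem_powers_iff_mem_zpowers.mpr (hgen _ h1))
    have hconj := conj_zpowers hρ.symm (hgen _ hi)
    have e : x ^ i * (x ^ (-i) * y) = y := by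
      rw [← mul_assoc, ← zpow_add, add_neg_cancel, zpow_zero, one_mul]
    have hprod : (x ^ i * (x ^ (-i) * y)) ^ p = 1 := by rw [e, hy]
    have hbp := core hp2 hR hcp hconj hprod
    have hbm := hg₀ _ hi hbp
    have hmem : x ^ i * (x ^ (-i) * y) ∈ Subgroup.zpowers g₀ ⊔ Subgroup.zpowers x :=
      Subgroup.mul_mem _ (Subgroup.mem_sup_right (Subgroup.zpow_mem_zpowers x i))
        (Subgroup.mem_sup_left hbm)
    rwa [e] at hmem

theorem lower {R : Type u} [Group R] [Finite R] {p : ℕ} [hp : Fact p.Prime] (hp2 : p ≠ 2)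
    (hR : IsPGroup p R) (hnc : ¬ IsCyclic R) :
    p ^ 2 ≤ Nat.card ↥(Cfsg.omegaOne p (⊤ : Subgroup R)) := by
  have hpp := hp.out
  obtain ⟨m, hm⟩ := IsPGroup.iff_card.mp hR
  have hm2 : 1 < m := by
    by_contra h
    have h01 : m = 0 ∨ m = 1 := by omega
    rcases h01 with rfl | rfl
    · rw [pow_zero] at hm
      haveI : Subsingleton R := (Nat.card_eq_one_iff_unique.mp hm).1
      exact hnc inferInstance
    · rw [pow_one] at hm
      exact hnc (isCyclic_of_prime_card hm)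
  obtain ⟨H, K, hH, hK, hHK⟩ : ∃ H K : Subgroup R, Nat.card H = p ^ 1 ∧ Nat.card K = p ^ 1 ∧
      H ≠ K := by
    by_contra hcon
    push_neg at hcon
    exact hnc (Cfsg.Agent.Lib_helper5_UniqSub.cyclic_of_unique p m 1 hpp hm le_rfl hm2
      (Or.inl hp2) hcon)
  have hle : ∀ L : Subgroup R, Nat.card L = p ^ 1 → L ≤ Cfsg.omegaOne p (⊤ : Subgroup R) := by
    intro L hL x hx
    apply Subgroup.subset_closure
    refine ⟨Subgroup.mem_top x, ?_⟩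
    have h := pow_card_eq_one' (G := ↥L) (x := ⟨x, hx⟩)
    rw [hL, pow_one] at h
    exact congrArg Subtype.val h
  obtain ⟨e, he⟩ := IsPGroup.iff_card.mp (hR.to_subgroup (Cfsg.omegaOne p (⊤ : Subgroup R)))
  by_contra hlt
  push_neg at hlt
  have he1 : e ≤ 1 := by
    by_contra h
    have h2 : p ^ 2 ≤ p ^ e := Nat.pow_le_pow_right hpp.pos (by omega)
    rw [he] at hlt
    exact absurd (lt_of_le_of_lt h2 hlt) (lt_irrefl _)
  have hcard : Nat.card ↥(Cfsg.omegaOne p (⊤ : Subgroup R)) ≤ p ^ 1 := by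
    rw [he]; exact Nat.pow_le_pow_right hpp.pos he1
  have e1 : H = Cfsg.omegaOne p ⊤ :=
    Subgroup.eq_of_le_of_card_ge (hle H hH) (by rw [hH]; exact hcard)
  have e2 : K = Cfsg.omegaOne p ⊤ :=
    Subgroup.eq_of_le_of_card_ge (hle K hK) (by rw [hK]; exact hcard)
  exact hHK (e1.trans e2.symm)

theorem s0638 {R : Type u} [Group R] [Finite R] {p : ℕ} [Fact p.Prime] (hp : p ≠ 2)
    (hR : IsPGroup p R) (hm : Cfsg.IsMetacyclic R) (hnc : ¬ IsCyclic R) :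
    Cfsg.IsElementaryAbelian p (Cfsg.omegaOne p (⊤ : Subgroup R)) ∧
      Nat.card ↥(Cfsg.omegaOne p (⊤ : Subgroup R)) = p ^ 2 := by
  obtain ⟨N, hN, hNc, hQc⟩ := hm
  obtain ⟨E, hEc, hEe, hEcard, hE⟩ := upper (hN := hN) hp hR N hNc hQc
  have hle : Cfsg.omegaOne p (⊤ : Subgroup R) ≤ E := by
    apply (Subgroup.closure_le E).mpr
    rintro x ⟨_, hx⟩
    exact hE x hx
  refine ⟨⟨⟨⟨?_⟩⟩, fun a ha => hEe a (hle ha)⟩,
    le_antisymm ((Subgroup.card_le_of_le hle).trans hEcard) (lower hp hR hnc)⟩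
  rintro ⟨a, ha⟩ ⟨b, hb⟩
  exact Subtype.ext (hEc a (hle ha) b (hle hb))

end Cfsg.Agent.Lib_helper7_Metacyc
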