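import Mathlib
import Cfsg.Agent.Lib_helper1_Frobenius

set_option autoImplicit false

namespace Cfsg.Agent.Lib_helper7_NpcNT

open Cfsg Cfsg.Agent.Lib_helper1_Frobenius

theorem s2007 {G : Type*} [Group G] [Finite G] {p : ℕ} [Fact p.Prime] (S : Sylow p G)
    (T : Subgroup G) (hTS : T ≤ (S : Subgroup G))
    (hTn : (S : Subgroup G) ≤ Subgroup.normalizer ((T : Subgroup G) : Set G))
    (hC : (S : Subgroup G) ⊓ Subgroup.centralizer ((T : Subgroup G) : Set G) ≤ T)
    (hN : ∀ g ∈ Subgroup.normalizer ((T : Subgroup G) : Set G), (orderOf g).Coprime p →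
      g ∈ Subgroup.centralizer ((T : Subgroup G) : Set G)) :
    Cfsg.HasNormalPComplement p ↥(Subgroup.normalizer ((T : Subgroup G) : Set G)) := by
  apply hasNormalPComplement_of_npc
  apply Cfsg.Agent.Lib_helper1_Frobenius.frobenius
  apply frobHyp_of_le_sylow (S.subtype hTn)
  intro Q hQS g hg hgo
  rw [Subgroup.mem_centralizer_iff]
  intro q hq
  have hgo' : (orderOf (g : G)).Coprime p := by rw [Subgroup.orderOf_coe]; exact hgo
  have hgC : (g : G) ∈ Subgroup.centralizer (T : Set G) := hN g g.2 hgo'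
  have hconj : g * q * g⁻¹ ∈ Q := (Subgroup.mem_normalizer_iff.mp hg q).mp hq
  obtain ⟨z, hzdef⟩ : ∃ z : G, z = (q : G)⁻¹ * (g : G) * (q : G) * (g : G)⁻¹ := ⟨_, rfl⟩
  have hzS : z ∈ (S : Subgroup G) := by
    have h1 : q⁻¹ * (g * q * g⁻¹) ∈ Q := Q.mul_mem (Q.inv_mem hq) hconj
    have h2 := hQS h1
    rw [Sylow.coe_subtype, Subgroup.mem_subgroupOf] at h2
    have h3 : ((q⁻¹ * (g * q * g⁻¹) : ↥(Subgroup.normalizer (T : Set G))) : G) = z := by
      rw [hzdef]; simp [mul_assoc]
    rw [← h3]; exact h2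
  have hzC : z ∈ Subgroup.centralizer (T : Set G) := by
    rw [hzdef]
    have h1 : (q : G)⁻¹ * (g : G) * (q : G) ∈ Subgroup.centralizer (T : Set G) := by
      rw [Subgroup.mem_centralizer_iff]
      intro t ht
      have ht' : (q : G) * t * (q : G)⁻¹ ∈ T := (Subgroup.mem_normalizer_iff.mp q.2 t).mp ht
      have := (Subgroup.mem_centralizer_iff.mp hgC) _ ht'
      calc t * ((q : G)⁻¹ * (g : G) * (q : G))
          = (q : G)⁻¹ * (((q : G) * t * (q : G)⁻¹) * (g : G)) * (q : G) := by group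
        _ = (q : G)⁻¹ * ((g : G) * ((q : G) * t * (q : G)⁻¹)) * (q : G) := by rw [this]
        _ = (q : G)⁻¹ * (g : G) * (q : G) * t := by group
    exact Subgroup.mul_mem _ h1 (Subgroup.inv_mem _ hgC)
  have hzT : z ∈ T := hC ⟨hzS, hzC⟩
  have hgz : z * (g : G) = (g : G) * z := (Subgroup.mem_centralizer_iff.mp hgC) z hzT
  have hgq : (g : G) * (q : G) * (g : G)⁻¹ = (q : G) * z := by rw [hzdef]; group
  have hpow : ∀ k : ℕ, (g : G) ^ k * (q : G) * ((g : G) ^ k)⁻¹ = (q : G) * z ^ k := by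
    intro k
    induction k with
    | zero => simp
    | succ k ih =>
      have hgzk : (g : G) * z ^ k * (g : G)⁻¹ = z ^ k := by
        have hc : Commute (g : G) z := hgz.symm
        have hc2 := (hc.pow_right k).eq
        rw [hc2]; group
      calc (g : G) ^ (k + 1) * (q : G) * ((g : G) ^ (k + 1))⁻¹
          = (g : G) * ((g : G) ^ k * (q : G) * ((g : G) ^ k)⁻¹) * (g : G)⁻¹ := by
            rw [pow_succ']; group
        _ = (g : G) * ((q : G) * z ^ k) * (g : G)⁻¹ := by rw [ih]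
        _ = ((g : G) * (q : G) * (g : G)⁻¹) * ((g : G) * z ^ k * (g : G)⁻¹) := by group
        _ = (q : G) * z * z ^ k := by rw [hgq, hgzk]
        _ = (q : G) * z ^ (k + 1) := by rw [pow_succ', mul_assoc]
  have hzm : z ^ orderOf (g : G) = 1 := by
    have h5 := hpow (orderOf (g : G))
    rw [pow_orderOf_eq_one] at h5
    simpa using h5.symm
  have hz1 : z = 1 := by
    have h1 : orderOf z ∣ orderOf (g : G) := orderOf_dvd_of_pow_eq_one hzm
    obtain ⟨k, hk⟩ := S.isPGroup' ⟨z, hzS⟩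
    have h2 : z ^ p ^ k = 1 := by
      have := congrArg Subtype.val hk
      simpa using this
    have h3 : orderOf z ∣ p ^ k := orderOf_dvd_of_pow_eq_one h2
    have h4 : (orderOf z).Coprime (p ^ k) :=
      Nat.Coprime.coprime_dvd_left h1 (Nat.Coprime.pow_right k hgo')
    exact orderOf_eq_one_iff.mp (Nat.Coprime.eq_one_of_dvd h4 h3)
  apply Subtype.ext
  show (q : G) * (g : G) = (g : G) * (q : G)
  rw [hz1, mul_one] at hgq
  calc (q : G) * (g : G) = ((g : G) * (q : G) * (g : G)⁻¹) * (g : G) := by rw [hgq]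
    _ = (g : G) * (q : G) := by group

end Cfsg.Agent.Lib_helper7_NpcNT
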