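import Mathlib
import Cfsg.Prelude.Def_Local
import Cfsg.Prelude.Def_ClassificationK
import Cfsg.Agent.Lib_helper2_Comp
import Cfsg.Agent.Lib_helper7_TIFam

set_option autoImplicit false

namespace Cfsg.Agent.Lib_helper7_SympTI

open Cfsg Cfsg.Agent.Lib_helper7_TIFam

theorem cyclic_unique_involution {α : Type*} [Group α] [Finite α] [IsCyclic α] {x y : α}
    (hx : x * x = 1) (hx1 : x ≠ 1) (hy : y * y = 1) (hy1 : y ≠ 1) : x = y := by
  classical
  haveI := Fintype.ofFinite α
  by_contra hxy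
  have h := IsCyclic.card_pow_eq_one_le (α := α) (n := 2) (by norm_num)
  have hsub : ({1, x, y} : Finset α) ⊆ Finset.univ.filter (fun a => a ^ 2 = 1) := by
    intro a ha
    simp only [Finset.mem_insert, Finset.mem_singleton] at ha
    rw [Finset.mem_filter]
    refine ⟨Finset.mem_univ _, ?_⟩
    rcases ha with rfl | rfl | rfl
    · simp
    · rw [pow_two]; exact hx
    · rw [pow_two]; exact hy
  have hcard : ({1, x, y} : Finset α).card = 3 :=
    Finset.card_eq_three.mpr ⟨1, x, y, Ne.symm hx1, Ne.symm hy1, hxy, rfl⟩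
  have := Finset.card_le_card hsub
  omega

/-- an involution power of a nontrivial 2-element -/
theorem exists_pow_involution {α : Type*} [Group α] {b : α} (hb : b ≠ 1)
    (h2 : ∃ k : ℕ, b ^ 2 ^ k = 1) : ∃ m : ℕ, b ^ m * b ^ m = 1 ∧ b ^ m ≠ 1 := by
  classical
  have hfind := Nat.find_spec h2
  have hmin := fun m => Nat.find_min h2 (m := m)
  have hk0 : Nat.find h2 ≠ 0 := by
    intro h
    rw [h] at hfind
    simp only [pow_zero, pow_one] at hfind
    exact hb hfind
  obtain ⟨j, hj⟩ := Nat.exists_eq_succ_of_ne_zero hk0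
  refine ⟨2 ^ j, ?_, hmin j (by omega)⟩
  rw [hj] at hfind
  have : b ^ 2 ^ (j + 1) = b ^ 2 ^ j * b ^ 2 ^ j := by
    rw [pow_succ, pow_mul, pow_two]
  rwa [Nat.succ_eq_add_one, this] at hfind

theorem aux {G : Type*} [Group G] [Finite G] (z : G) (hz : orderOf z = 2)
    (C : Subgroup G) (hC : C = Subgroup.centralizer ({z} : Set G))
    (F : Subgroup ↥C) [F.Normal] (hcF : Subgroup.centralizer (F : Set ↥C) ≤ F)
    (hQ : Cfsg.IsOfSymplecticType ↥F)
    (B : Subgroup ↥F) (hBc : B.Characteristic) (hBa : IsMulCommutative ↥B) (g : G) :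
    ((B.map F.subtype).map C.subtype).map (MulAut.conj g).toMonoidHom =
        (B.map F.subtype).map C.subtype ∨
      ((B.map F.subtype).map C.subtype).map (MulAut.conj g).toMonoidHom ⊓
        (B.map F.subtype).map C.subtype = ⊥ := by
  classical
  have hzz : z * z = 1 := by
    have := pow_orderOf_eq_one z
    rwa [hz, pow_two] at this
  have hz1 : z ≠ 1 := by
    intro h
    rw [h, orderOf_one] at hz
    omega
  have hzC : z ∈ C := by
    rw [hC, Subgroup.mem_centralizer_iff]
    intro y hy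
    rw [Set.mem_singleton_iff.mp hy]
  have hzcent : ∀ c : ↥C, c * (⟨z, hzC⟩ : ↥C) = ⟨z, hzC⟩ * c := by
    intro c
    apply Subtype.ext
    have hc : (c : G) ∈ Subgroup.centralizer ({z} : Set G) := hC ▸ c.2
    exact (Subgroup.mem_centralizer_iff.mp hc z rfl).symm
  have hzF : (⟨z, hzC⟩ : ↥C) ∈ F := by
    apply hcF
    rw [Subgroup.mem_centralizer_iff]
    intro f _
    exact hzcent f
  obtain ⟨zF, hzFdef⟩ : ∃ zF : ↥F, zF = ⟨⟨z, hzC⟩, hzF⟩ := ⟨_, rfl⟩
  have hzFval : ((zF : ↥C) : G) = z := by rw [hzFdef]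
  have hzF2 : zF * zF = 1 := by
    apply Subtype.ext; apply Subtype.ext
    show ((zF : ↥C) : G) * ((zF : ↥C) : G) = 1
    rw [hzFval]; exact hzz
  have hzF1 : zF ≠ 1 := by
    intro h
    apply hz1
    rw [← hzFval, h]; rfl
  have hzFc : zF ∈ Subgroup.center ↥F := by
    rw [Subgroup.mem_center_iff]
    intro f
    apply Subtype.ext
    rw [hzFdef]
    exact hzcent (f : ↥C)
  haveI hcycZ : IsCyclic ↥(Subgroup.center ↥F) :=
    hQ.2 (Subgroup.center ↥F) inferInstance inferInstance
  by_cases hBbot : B = ⊥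
  · right
    rw [hBbot]
    simp
  · haveI hcycB : IsCyclic ↥B := hQ.2 B hBc hBa
    haveI hBn : B.Normal := Subgroup.normal_of_characteristic B
    -- an involution of B
    obtain ⟨⟨b, hb⟩, hbne⟩ := (Subgroup.ne_bot_iff_exists_ne_one).mp hBbot
    have hb1 : b ≠ 1 := fun h => hbne (Subtype.ext h)
    obtain ⟨m, hm2, hm1⟩ := exists_pow_involution hb1 (hQ.1 b)
    obtain ⟨u, hu⟩ : ∃ u, u = b ^ m := ⟨_, rfl⟩
    rw [← hu] at hm2 hm1
    have huB : u ∈ B := hu ▸ pow_mem hb m
    have huniqB : ∀ v ∈ B, v * v = 1 → v ≠ 1 → v = u := by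
      intro v hv hv2 hv1
      have := cyclic_unique_involution (α := ↥B) (x := ⟨v, hv⟩) (y := ⟨u, huB⟩)
        (Subtype.ext hv2) (fun h => hv1 (congrArg Subtype.val h))
        (Subtype.ext hm2) (fun h => hm1 (congrArg Subtype.val h))
      exact congrArg Subtype.val this
    have hucent : u ∈ Subgroup.center ↥F := by
      rw [Subgroup.mem_center_iff]
      intro f
      have h1 : f * u * f⁻¹ ∈ B := hBn.conj_mem u huB f
      have h2 : (f * u * f⁻¹) * (f * u * f⁻¹) = 1 := by
        calc (f * u * f⁻¹) * (f * u * f⁻¹) = f * (u * u) * f⁻¹ := by group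
          _ = 1 := by rw [hm2]; group
      have h3 : f * u * f⁻¹ ≠ 1 := by
        intro h
        apply hm1
        calc u = f⁻¹ * (f * u * f⁻¹) * f := by group
          _ = 1 := by rw [h]; group
      have h4 := huniqB _ h1 h2 h3
      calc f * u = (f * u * f⁻¹) * f := by group
        _ = u * f := by rw [h4]
    have huz : u = zF := by
      have := cyclic_unique_involution (α := ↥(Subgroup.center ↥F)) (x := ⟨u, hucent⟩)
        (y := ⟨zF, hzFc⟩) (Subtype.ext hm2) (fun h => hm1 (congrArg Subtype.val h))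
        (Subtype.ext hzF2) (fun h => hzF1 (congrArg Subtype.val h))
      exact congrArg Subtype.val this
    rw [huz] at huniqB huB
    obtain ⟨B₀, hB₀⟩ : ∃ B₀ : Subgroup G, B₀ = (B.map F.subtype).map C.subtype := ⟨_, rfl⟩
    rw [← hB₀]
    have hmemB₀ : ∀ y : G, y ∈ B₀ ↔ ∃ b' : ↥F, b' ∈ B ∧ ((b' : ↥C) : G) = y := by
      intro y
      rw [hB₀]
      constructor
      · rintro ⟨c, ⟨b', hb', rfl⟩, rfl⟩
        exact ⟨b', hb', rfl⟩
      · rintro ⟨b', hb', rfl⟩
        exact ⟨(b' : ↥C), ⟨b', hb', rfl⟩, rfl⟩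
    have hB₀inv : ∀ y ∈ B₀, y * y = 1 → y ≠ 1 → y = z := by
      intro y hy hy2 hy1
      obtain ⟨b', hb', rfl⟩ := (hmemB₀ y).mp hy
      have h1 : b' * b' = 1 := by
        apply Subtype.ext; apply Subtype.ext
        exact hy2
      have h2 : b' ≠ 1 := by
        intro h
        apply hy1
        rw [h]; rfl
      rw [huniqB b' hb' h1 h2, hzFval]
    have hB₀pow : ∀ y ∈ B₀, y ≠ 1 → ∃ m : ℕ, y ^ m = z := by
      intro y hy hy1
      have h2 : ∃ k : ℕ, y ^ 2 ^ k = 1 := by
        obtain ⟨b', hb', rfl⟩ := (hmemB₀ y).mp hy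
        obtain ⟨k, hk⟩ := hQ.1 b'
        refine ⟨k, ?_⟩
        have := congrArg (fun w : ↥F => ((w : ↥C) : G)) hk
        simpa using this
      obtain ⟨m, hm2', hm1'⟩ := exists_pow_involution hy1 h2
      exact ⟨m, hB₀inv _ (pow_mem hy m) hm2' hm1'⟩
    by_cases hint : B₀.map (MulAut.conj g).toMonoidHom ⊓ B₀ = ⊥
    · right; exact hint
    · left
      obtain ⟨x, hx, hx1⟩ : ∃ x, x ∈ B₀.map (MulAut.conj g).toMonoidHom ⊓ B₀ ∧ x ≠ 1 := by
        by_contra hcon
        push Not at hcon
        apply hint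
        rw [eq_bot_iff]
        intro x hx
        rw [Subgroup.mem_bot]
        exact hcon x hx
      obtain ⟨m', hm'⟩ := hB₀pow x hx.2 hx1
      have hgx : g⁻¹ * x * g ∈ B₀ := (mem_map_conj B₀ g x).mp hx.1
      have hgz : g⁻¹ * z * g ∈ B₀ := by
        have h1 := pow_mem hgx m'
        have h2 : (g⁻¹ * x * g) ^ m' = g⁻¹ * x ^ m' * g := by
          have := conj_pow (a := g⁻¹) (b := x) (i := m')
          rw [inv_inv] at this
          exact this
        rw [h2, hm'] at h1
        exact h1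
      have hgz2 : g⁻¹ * z * g = z := by
        apply hB₀inv _ hgz
        · calc (g⁻¹ * z * g) * (g⁻¹ * z * g) = g⁻¹ * (z * z) * g := by group
            _ = 1 := by rw [hzz]; group
        · intro h
          apply hz1
          calc z = g * (g⁻¹ * z * g) * g⁻¹ := by group
            _ = 1 := by rw [h]; group
      have hgC : g ∈ C := by
        rw [hC, Subgroup.mem_centralizer_iff]
        intro y hy
        rw [Set.mem_singleton_iff.mp hy]
        calc z * g = g * (g⁻¹ * z * g) := by group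
          _ = g * z := by rw [hgz2]
      apply Subgroup.eq_of_le_of_card_ge
      · rintro _ ⟨y, hy, rfl⟩
        obtain ⟨b', hb', rfl⟩ := (hmemB₀ y).mp hy
        have hfix := hBc.fixed (MulAut.conjNormal (⟨g, hgC⟩ : ↥C) : ↥F ≃* ↥F)
        have h1 : b' ∈ B.comap (MulAut.conjNormal (⟨g, hgC⟩ : ↥C) : ↥F ≃* ↥F).toMonoidHom := by
          rw [hfix]; exact hb'
        rw [Subgroup.mem_comap] at h1
        rw [hmemB₀]
        refine ⟨_, h1, ?_⟩
        show (((MulAut.conjNormal (⟨g, hgC⟩ : ↥C) : ↥F ≃* ↥F) b' : ↥C) : G) =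
          g * ((b' : ↥C) : G) * g⁻¹
        rw [MulAut.conjNormal_apply]
        rfl
      · rw [Subgroup.card_map_of_injective (MulAut.conj g).injective]

theorem s1755 {G : Type*} [Group G] [Finite G] (z : G) (hz : orderOf z = 2)
    (hQ : Cfsg.IsOfSymplecticType
      ↥(Cfsg.generalizedFittingSubgroup ↥(Subgroup.centralizer ({z} : Set G))))
    (B : Subgroup ↥(Cfsg.generalizedFittingSubgroup ↥(Subgroup.centralizer ({z} : Set G))))
    (hBc : B.Characteristic) (hBa : IsMulCommutative ↥B) (g : G) :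
    ((B.map (Cfsg.generalizedFittingSubgroup ↥(Subgroup.centralizer ({z} : Set G))).subtype).map
        (Subgroup.centralizer ({z} : Set G)).subtype).map (MulAut.conj g).toMonoidHom =
        (B.map (Cfsg.generalizedFittingSubgroup ↥(Subgroup.centralizer ({z} : Set G))).subtype).map
          (Subgroup.centralizer ({z} : Set G)).subtype ∨
      ((B.map (Cfsg.generalizedFittingSubgroup ↥(Subgroup.centralizer ({z} : Set G))).subtype).map
        (Subgroup.centralizer ({z} : Set G)).subtype).map (MulAut.conj g).toMonoidHom ⊓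
        (B.map (Cfsg.generalizedFittingSubgroup ↥(Subgroup.centralizer ({z} : Set G))).subtype).map
          (Subgroup.centralizer ({z} : Set G)).subtype = ⊥ :=
  aux z hz _ rfl _ Lib_helper2_Comp.centralizer_gfit_le hQ B hBc hBa g

end Cfsg.Agent.Lib_helper7_SympTI
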