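import Mathlib
import Cfsg.Prelude.Def_Transfer
import Cfsg.Agent.Lib_helper7_TIFam2
import Cfsg.Agent.Lib_helper7_HH125
import Cfsg.Agent.Lib_helper7_PCore
import Cfsg.Agent.Lib_helper2_Comp
import Cfsg.Agent.Lib_helper1_Special
import Cfsg.Agent.Lib_helper1_PGroup

set_option autoImplicit false

namespace Cfsg.Agent.Lib_helper7_TISq

open Cfsg Cfsg.Agent.Lib_helper7_TIFam Cfsg.Agent.Lib_helper7_TIFam2

theorem ti_family {X : Type*} [Group X] (A : Subgroup X)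
    (hti : ∀ h : X, A.map (MulAut.conj h).toMonoidHom = A ∨
      A.map (MulAut.conj h).toMonoidHom ⊓ A = ⊥) (h k : X) :
    A.map (MulAut.conj h).toMonoidHom = A.map (MulAut.conj k).toMonoidHom ∨
      A.map (MulAut.conj h).toMonoidHom ⊓ A.map (MulAut.conj k).toMonoidHom = ⊥ := by
  have key : ∀ x : X, (k⁻¹ * h)⁻¹ * (k⁻¹ * x * k) * (k⁻¹ * h) = h⁻¹ * x * h := by
    intro x; group
  rcases hti (k⁻¹ * h) with h1 | h1
  · left
    ext x
    rw [mem_map_conj, mem_map_conj]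
    have h2 : k⁻¹ * x * k ∈ A ↔ k⁻¹ * x * k ∈ A.map (MulAut.conj (k⁻¹ * h)).toMonoidHom := by
      rw [h1]
    rw [h2, mem_map_conj, key]
  · right
    rw [eq_bot_iff]
    intro x hx
    rw [Subgroup.mem_bot]
    have hx1 : h⁻¹ * x * h ∈ A := (mem_map_conj A h x).mp hx.1
    have hx2 : k⁻¹ * x * k ∈ A := (mem_map_conj A k x).mp hx.2
    have h3 : k⁻¹ * x * k ∈ A.map (MulAut.conj (k⁻¹ * h)).toMonoidHom ⊓ A := by
      refine ⟨?_, hx2⟩
      exact (mem_map_conj A (k⁻¹ * h) _).mpr (by rw [key]; exact hx1)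
    rw [h1, Subgroup.mem_bot] at h3
    calc x = k * (k⁻¹ * x * k) * k⁻¹ := by group
      _ = 1 := by rw [h3]; group

theorem comm_conj {X : Type*} [Group X] [Finite X] (A : Subgroup X)
    (hAc : ∀ a ∈ A, ∀ b ∈ A, a * b = b * a)
    (hti : ∀ h : X, A.map (MulAut.conj h).toMonoidHom = A ∨
      A.map (MulAut.conj h).toMonoidHom ⊓ A = ⊥)
    (J T₀ : Subgroup X) (hT₀ : IsPGroup 2 ↥T₀) (hTJ : T₀ ≤ J)
    (hsub : ∀ t ∈ J, A.map (MulAut.conj t).toMonoidHom ≤ T₀)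
    (hΦ : ∃ x ∈ A, x * x ≠ 1) :
    ∀ h ∈ J, ∀ k ∈ J, ∀ u ∈ A.map (MulAut.conj h).toMonoidHom,
      ∀ v ∈ A.map (MulAut.conj k).toMonoidHom, u * v = v * u := by
  obtain ⟨Δ, hΔ⟩ : ∃ Δ : Set (Subgroup X),
      Δ = {R | ∃ t ∈ J, R = A.map (MulAut.conj t).toMonoidHom} := ⟨_, rfl⟩
  have hsub' : ∀ R ∈ Δ, R ≤ T₀ := by
    intro R hR
    rw [hΔ] at hR
    obtain ⟨t, ht, rfl⟩ := hR
    exact hsub t ht
  have hinv : ∀ s ∈ T₀, ∀ R ∈ Δ, R.map (MulAut.conj s).toMonoidHom ∈ Δ := by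
    intro s hs R hR
    rw [hΔ] at hR ⊢
    obtain ⟨t, ht, rfl⟩ := hR
    refine ⟨s * t, mul_mem (hTJ hs) ht, ?_⟩
    ext x
    simp only [mem_map_conj]
    have : (s * t)⁻¹ * x * (s * t) = t⁻¹ * (s⁻¹ * x * s) * t := by group
    rw [this]
  have hord : ∀ R ∈ Δ, ∀ T ∈ Δ, Nat.card ↥R = Nat.card ↥T := by
    intro R hR T hT
    rw [hΔ] at hR hT
    obtain ⟨h, _, rfl⟩ := hR
    obtain ⟨k, _, rfl⟩ := hT
    rw [Subgroup.card_map_of_injective (MulAut.conj h).injective,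
      Subgroup.card_map_of_injective (MulAut.conj k).injective]
  have hti' : ∀ R ∈ Δ, ∀ T ∈ Δ, R = T ∨ R ⊓ T = ⊥ := by
    intro R hR T hT
    rw [hΔ] at hR hT
    obtain ⟨h, _, rfl⟩ := hR
    obtain ⟨k, _, rfl⟩ := hT
    exact ti_family A hti h k
  have hΦ' : ∀ R ∈ Δ, ∃ x ∈ R, x * x ≠ 1 := by
    intro R hR
    rw [hΔ] at hR
    obtain ⟨t, _, rfl⟩ := hR
    obtain ⟨x, hx, hxx⟩ := hΦ
    refine ⟨t * x * t⁻¹, conj_mem_map A t hx, ?_⟩
    intro h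
    apply hxx
    calc x * x = t⁻¹ * ((t * x * t⁻¹) * (t * x * t⁻¹)) * t := by group
      _ = 1 := by rw [h]; group
  intro h hh k hk u hu v hv
  by_cases hne : A.map (MulAut.conj h).toMonoidHom = A.map (MulAut.conj k).toMonoidHom
  · rw [← hne] at hv
    have h1 := (mem_map_conj A h u).mp hu
    have h2 := (mem_map_conj A h v).mp hv
    have h3 := hAc _ h1 _ h2
    calc u * v = h * ((h⁻¹ * u * h) * (h⁻¹ * v * h)) * h⁻¹ := by group
      _ = h * ((h⁻¹ * v * h) * (h⁻¹ * u * h)) * h⁻¹ := by rw [h3]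
      _ = v * u := by group
  · have hR : A.map (MulAut.conj h).toMonoidHom ∈ Δ := by rw [hΔ]; exact ⟨h, hh, rfl⟩
    have hT : A.map (MulAut.conj k).toMonoidHom ∈ Δ := by rw [hΔ]; exact ⟨k, hk, rfl⟩
    exact main' T₀ hT₀ Δ hsub' hinv hord hti' hΦ' _ _ hR _ hT hne le_rfl u hu v hv

theorem s1783 {X : Type*} [Group X] [Finite X]
    (hX : Cfsg.generalizedFittingSubgroup X = Cfsg.pCore 2 X) (A : Subgroup X)
    (hA2 : IsPGroup 2 ↥A) (hAa : IsMulCommutative ↥A)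
    (hti : ∀ h : X, A.map (MulAut.conj h).toMonoidHom = A ∨
      A.map (MulAut.conj h).toMonoidHom ⊓ A = ⊥) :
    Subgroup.closure ((fun a : X => a ^ 2) '' (A : Set X)) ≤ Cfsg.pCore 2 X ∧
      (¬ Cfsg.IsElementaryAbelian 2 (Subgroup.closure ((fun a : X => a ^ 2) '' (A : Set X))) →
        IsMulCommutative ↥(Subgroup.normalClosure ((fun a : X => a ^ 2) '' (A : Set X)))) := by
  haveI : Fact (Nat.Prime 2) := ⟨Nat.prime_two⟩
  haveI hQn : (Cfsg.pCore 2 X).Normal := Lib_helper7_PCore.pCore_normal 2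
  have hQ2 : IsPGroup 2 ↥(Cfsg.pCore 2 X) := Lib_helper7_PCore.pCore_isPGroup 2
  have hcent : Subgroup.centralizer (Cfsg.pCore 2 X : Set X) ≤ Cfsg.pCore 2 X := by
    rw [← hX]; exact Lib_helper2_Comp.centralizer_gfit_le
  have hAc : ∀ a ∈ A, ∀ b ∈ A, a * b = b * a := fun a ha b hb =>
    congrArg Subtype.val (hAa.is_comm.comm ⟨a, ha⟩ ⟨b, hb⟩)
  have hsq_mem : ∀ a ∈ A, a * a ∈ Cfsg.pCore 2 X := by
    by_cases hexp : ∀ a ∈ A, a * a = 1
    · intro a ha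
      rw [hexp a ha]; exact Subgroup.one_mem _
    · push Not at hexp
      obtain ⟨a₀, ha₀, ha₀2⟩ := hexp
      have hT₀ : IsPGroup 2 ↥(A ⊔ Cfsg.pCore 2 X) := IsPGroup.to_sup_of_normal_right hA2 hQ2
      have hsub : ∀ t ∈ A ⊔ Cfsg.pCore 2 X,
          A.map (MulAut.conj t).toMonoidHom ≤ A ⊔ Cfsg.pCore 2 X := by
        rintro t ht _ ⟨a, ha, rfl⟩
        show t * a * t⁻¹ ∈ _
        exact mul_mem (mul_mem ht (Subgroup.mem_sup_left ha)) (inv_mem ht)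
      have hc := comm_conj A hAc hti (A ⊔ Cfsg.pCore 2 X) (A ⊔ Cfsg.pCore 2 X) hT₀ le_rfl hsub
        ⟨a₀, ha₀, ha₀2⟩
      have hA1 : ∀ a' ∈ A, a' ∈ A.map (MulAut.conj (1 : X)).toMonoidHom := by
        intro a' ha'
        rw [mem_map_conj]
        simpa using ha'
      intro a ha
      apply Lib_helper7_HH125.mem_pCore_of_trivial_on_frattini_quotient hcent (a * a)
      intro q hq
      have hd : (q * a⁻¹ * q⁻¹) * a = a * (q * a⁻¹ * q⁻¹) :=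
        hc q (Subgroup.mem_sup_right hq) 1 (Subgroup.one_mem _) _
          (conj_mem_map A q (inv_mem ha)) a (hA1 a ha)
      have hw : a * q * a⁻¹ * q⁻¹ ∈ Cfsg.pCore 2 X :=
        mul_mem (hQn.conj_mem q hq a) (inv_mem hq)
      have heq : (a * a) * q * (a * a)⁻¹ * q⁻¹ = (a * q * a⁻¹ * q⁻¹) * (a * q * a⁻¹ * q⁻¹) := by
        calc (a * a) * q * (a * a)⁻¹ * q⁻¹
            = a * (a * (q * a⁻¹ * q⁻¹)) * (q * a⁻¹ * q⁻¹) := by group
          _ = a * ((q * a⁻¹ * q⁻¹) * a) * (q * a⁻¹ * q⁻¹) := by rw [hd]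
          _ = (a * q * a⁻¹ * q⁻¹) * (a * q * a⁻¹ * q⁻¹) := by group
      rw [heq]
      refine ⟨⟨a * q * a⁻¹ * q⁻¹, hw⟩ ^ 2, Lib_helper1_PGroup.pow_p_mem_frattini hQ2 _, ?_⟩
      simp [pow_two]
  have hB1 : Subgroup.closure ((fun a : X => a ^ 2) '' (A : Set X)) ≤ Cfsg.pCore 2 X := by
    rw [Subgroup.closure_le]
    rintro _ ⟨a, ha, rfl⟩
    show a ^ 2 ∈ Cfsg.pCore 2 X
    rw [pow_two]; exact hsq_mem a ha
  refine ⟨hB1, ?_⟩
  intro hnE
  obtain ⟨B, hB⟩ : ∃ B, B = Subgroup.closure ((fun a : X => a ^ 2) '' (A : Set X)) := ⟨_, rfl⟩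
  rw [← hB] at hnE hB1
  have hBA : B ≤ A := by
    rw [hB, Subgroup.closure_le]
    rintro _ ⟨a, ha, rfl⟩
    exact pow_mem ha 2
  have hBc : ∀ a ∈ B, ∀ b ∈ B, a * b = b * a := fun a ha b hb => hAc a (hBA ha) b (hBA hb)
  have hΦ : ∃ b ∈ B, b * b ≠ 1 := by
    by_contra hcon
    push Not at hcon
    apply hnE
    exact ⟨⟨⟨fun a b => Subtype.ext (hBc a a.2 b b.2)⟩⟩, fun b hb => by rw [pow_two]; exact hcon b hb⟩
  have hBti : ∀ h : X, B.map (MulAut.conj h).toMonoidHom = B ∨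
      B.map (MulAut.conj h).toMonoidHom ⊓ B = ⊥ := by
    intro h
    rcases hti h with h1 | h1
    · left
      apply Subgroup.eq_of_le_of_card_ge
      · rw [Subgroup.map_le_iff_le_comap, hB, Subgroup.closure_le]
        rintro _ ⟨a, ha, rfl⟩
        show h * a ^ 2 * h⁻¹ ∈ Subgroup.closure ((fun a : X => a ^ 2) '' (A : Set X))
        have h2 : h * a * h⁻¹ ∈ A := by
          have := conj_mem_map A h ha
          rwa [h1] at this
        have h3 : h * a ^ 2 * h⁻¹ = (h * a * h⁻¹) ^ 2 := (conj_pow).symm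
        rw [h3]
        exact Subgroup.subset_closure ⟨h * a * h⁻¹, h2, rfl⟩
      · rw [Subgroup.card_map_of_injective (MulAut.conj h).injective]
    · right
      exact le_bot_iff.mp ((inf_le_inf (Subgroup.map_mono hBA) hBA).trans (le_of_eq h1))
  have hsub : ∀ t ∈ (⊤ : Subgroup X), B.map (MulAut.conj t).toMonoidHom ≤ Cfsg.pCore 2 X := by
    rintro t _ _ ⟨b, hb, rfl⟩
    show t * b * t⁻¹ ∈ _
    exact hQn.conj_mem b (hB1 hb) t
  have hc := comm_conj B hBc hBti ⊤ (Cfsg.pCore 2 X) hQ2 le_top hsub hΦ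
  show IsMulCommutative ↥(Subgroup.closure (Group.conjugatesOfSet _))
  apply Lib_helper1_Special.closure_comm
  intro u hu v hv
  rw [Group.mem_conjugatesOfSet_iff] at hu hv
  obtain ⟨_, ⟨a₁, ha₁, rfl⟩, hc₁⟩ := hu
  obtain ⟨_, ⟨a₂, ha₂, rfl⟩, hc₂⟩ := hv
  obtain ⟨c₁, rfl⟩ := isConj_iff.mp hc₁
  obtain ⟨c₂, rfl⟩ := isConj_iff.mp hc₂
  have hb₁ : a₁ ^ 2 ∈ B := by rw [hB]; exact Subgroup.subset_closure ⟨a₁, ha₁, rfl⟩
  have hb₂ : a₂ ^ 2 ∈ B := by rw [hB]; exact Subgroup.subset_closure ⟨a₂, ha₂, rfl⟩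
  exact hc c₁ (Subgroup.mem_top _) c₂ (Subgroup.mem_top _) _ (conj_mem_map B c₁ hb₁) _
    (conj_mem_map B c₂ hb₂)

end Cfsg.Agent.Lib_helper7_TISq
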