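import Mathlib
import Cfsg.Prelude.Def_Transfer

set_option autoImplicit false

namespace Cfsg.Agent.Lib_helper7_TwoConn

open Cfsg

variable {X : Type*} [Group X] [Finite X]

theorem card_le_sq (E₁ : Subgroup X)
    (hcomm : ∀ a ∈ E₁, ∀ b ∈ E₁, a * b = b * a) (hexp : ∀ a ∈ E₁, a * a = 1)
    (v : X) (hv : v * v = 1) (hvn : ∀ e ∈ E₁, v * e * v⁻¹ ∈ E₁) :
    Nat.card E₁ ≤ Nat.card (E₁ ⊓ Subgroup.centralizer ({v} : Set X) : Subgroup X) ^ 2 := by
  have hvinv : v⁻¹ = v := inv_eq_of_mul_eq_one_left hv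
  let φ : ↥E₁ →* ↥E₁ :=
    { toFun := fun e => ⟨(e : X) * (v * e * v⁻¹), mul_mem e.2 (hvn e e.2)⟩
      map_one' := by apply Subtype.ext; simp
      map_mul' := by
        intro a b
        apply Subtype.ext
        show ((a : X) * b) * (v * ((a : X) * b) * v⁻¹) =
          ((a : X) * (v * a * v⁻¹)) * ((b : X) * (v * b * v⁻¹))
        have h := hcomm b b.2 (v * a * v⁻¹) (hvn a a.2)
        calc ((a : X) * b) * (v * ((a : X) * b) * v⁻¹)
            = (a : X) * ((b : X) * (v * a * v⁻¹)) * (v * b * v⁻¹) := by group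
          _ = (a : X) * ((v * a * v⁻¹) * (b : X)) * (v * b * v⁻¹) := by rw [h]
          _ = ((a : X) * (v * a * v⁻¹)) * ((b : X) * (v * b * v⁻¹)) := by group }
  have hφv : ∀ e : ↥E₁, ((φ e : ↥E₁) : X) = (e : X) * (v * e * v⁻¹) := fun e => rfl
  obtain ⟨C, hC⟩ : ∃ C : Subgroup ↥E₁,
      C = (E₁ ⊓ Subgroup.centralizer ({v} : Set X)).subgroupOf E₁ := ⟨_, rfl⟩
  have hmemC : ∀ e : ↥E₁, e ∈ C ↔ v * (e : X) = (e : X) * v := by
    intro e
    rw [hC, Subgroup.mem_subgroupOf, Subgroup.mem_inf, Subgroup.mem_centralizer_iff]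
    constructor
    · rintro ⟨_, h⟩
      exact h v rfl
    · intro h
      refine ⟨e.2, ?_⟩
      intro y hy
      rw [Set.mem_singleton_iff.mp hy]; exact h
  have hker : φ.ker ≤ C := by
    intro e he
    rw [MonoidHom.mem_ker] at he
    have h1 : (e : X) * (v * e * v⁻¹) = 1 := by
      have := congrArg Subtype.val he
      rwa [hφv] at this
    rw [hmemC]
    have h2 : v * (e : X) * v⁻¹ = (e : X)⁻¹ := by
      calc v * (e : X) * v⁻¹ = (e : X)⁻¹ * ((e : X) * (v * e * v⁻¹)) := by group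
        _ = (e : X)⁻¹ := by rw [h1, mul_one]
    have h3 : (e : X)⁻¹ = e := inv_eq_of_mul_eq_one_left (hexp e e.2)
    rw [h3] at h2
    calc v * (e : X) = (v * e * v⁻¹) * v := by group
      _ = e * v := by rw [h2]
  have hrange : φ.range ≤ C := by
    rintro _ ⟨e, rfl⟩
    rw [hmemC, hφv]
    have h := hcomm e e.2 (v * e * v⁻¹) (hvn e e.2)
    rw [hvinv] at h ⊢
    calc v * ((e : X) * (v * e * v)) = (v * e * v) * ((v * v) * e * (v * v)) * v := by
          rw [hv]; group
      _ = (v * e * v) * (e : X) * v := by rw [hv]; group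
      _ = ((e : X) * (v * e * v)) * v := by rw [h]
  have h1 : Nat.card φ.ker * Nat.card φ.range = Nat.card ↥E₁ := by
    rw [← Subgroup.index_ker]; exact Subgroup.card_mul_index _
  have h2 : Nat.card φ.ker ≤ Nat.card C := Subgroup.card_le_of_le hker
  have h3 : Nat.card φ.range ≤ Nat.card C := Subgroup.card_le_of_le hrange
  have h4 : Nat.card C = Nat.card (E₁ ⊓ Subgroup.centralizer ({v} : Set X) : Subgroup X) := by
    rw [hC]
    exact Nat.card_congr (Subgroup.subgroupOfEquivOfLe inf_le_left).toEquiv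
  rw [← h4, ← h1, pow_two]
  exact Nat.mul_le_mul h2 h3

theorem mem_centralizer_sup_zpowers (D : Subgroup X) (v x : X)
    (h1 : ∀ d ∈ D, d * x = x * d) (h2 : v * x = x * v) :
    x ∈ Subgroup.centralizer ((D ⊔ Subgroup.zpowers v : Subgroup X) : Set X) := by
  rw [Subgroup.mem_centralizer_iff]
  intro h hh
  have hle : D ⊔ Subgroup.zpowers v ≤ Subgroup.centralizer ({x} : Set X) := by
    apply sup_le
    · intro d hd
      rw [Subgroup.mem_centralizer_iff]
      intro y hy
      rw [Set.mem_singleton_iff.mp hy]; exact (h1 d hd).symm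
    · rw [Subgroup.zpowers_le, Subgroup.mem_centralizer_iff]
      intro y hy
      rw [Set.mem_singleton_iff.mp hy]; exact h2.symm
  have := Subgroup.mem_centralizer_iff.mp (hle hh) x rfl
  exact this.symm

theorem pow_card_le (E : Subgroup X) [E.Normal]
    (hEc : ∀ a ∈ E, ∀ b ∈ E, a * b = b * a) (hEe : ∀ a ∈ E, a * a = 1)
    (F : Subgroup X) (hFc : ∀ a ∈ F, ∀ b ∈ F, a * b = b * a) (hFe : ∀ a ∈ F, a * a = 1) :
    Nat.card E ^ Nat.card (F ⊓ E : Subgroup X) ≤
      Nat.card (E ⊓ Subgroup.centralizer (F : Set X) : Subgroup X) ^ Nat.card F := by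
  obtain ⟨k, hk⟩ : ∃ k, k = Nat.card (F ⊓ E : Subgroup X) := ⟨_, rfl⟩
  rw [← hk]
  have aux : ∀ n : ℕ, ∀ D : Subgroup X, D ≤ F → Nat.card F ≤ Nat.card D + n →
      Nat.card E ^ k ≤ Nat.card (E ⊓ Subgroup.centralizer (D : Set X) : Subgroup X) ^ Nat.card D →
      Nat.card E ^ k ≤
        Nat.card (E ⊓ Subgroup.centralizer (F : Set X) : Subgroup X) ^ Nat.card F := by
    intro n
    induction n with
    | zero =>
      intro D hDF hc h
      have : D = F := Subgroup.eq_of_le_of_card_ge hDF (by omega)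
      rw [this] at h; exact h
    | succ n ih =>
      intro D hDF hc h
      by_cases hD : D = F
      · rw [hD] at h; exact h
      · have hnot : ¬ F ≤ D := fun h' => hD (le_antisymm hDF h')
        obtain ⟨v, hvF, hvD⟩ := SetLike.not_le_iff_exists.mp hnot
        have hD'F : D ⊔ Subgroup.zpowers v ≤ F := sup_le hDF (Subgroup.zpowers_le.mpr hvF)
        have hvD' : v ∈ D ⊔ Subgroup.zpowers v :=
          Subgroup.mem_sup_right (Subgroup.mem_zpowers v)
        have hlt : Nat.card D < Nat.card (D ⊔ Subgroup.zpowers v : Subgroup X) := by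
          by_contra hcon
          push Not at hcon
          have := Subgroup.eq_of_le_of_card_ge (le_sup_left : D ≤ D ⊔ Subgroup.zpowers v) hcon
          exact hvD (this ▸ hvD')
        have hdvd : Nat.card D ∣ Nat.card (D ⊔ Subgroup.zpowers v : Subgroup X) :=
          Subgroup.card_dvd_of_le le_sup_left
        have h2D : 2 * Nat.card D ≤ Nat.card (D ⊔ Subgroup.zpowers v : Subgroup X) := by
          obtain ⟨q, hq⟩ := hdvd
          have hDpos : 0 < Nat.card D := Nat.card_pos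
          rw [hq] at hlt ⊢
          have hq2 : 2 ≤ q := by
            by_contra hq'
            push Not at hq'
            interval_cases q <;> omega
          calc 2 * Nat.card D = Nat.card D * 2 := by ring
            _ ≤ Nat.card D * q := Nat.mul_le_mul_left _ hq2
        -- the centralizer inequality
        have hC1 := card_le_sq (E ⊓ Subgroup.centralizer (D : Set X))
          (fun a ha b hb => hEc a ha.1 b hb.1) (fun a ha => hEe a ha.1) v (hFe v hvF)
          (by
            intro e he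
            refine ⟨‹E.Normal›.conj_mem e he.1 v, Subgroup.mem_centralizer_iff.mpr ?_⟩
            intro d hd
            have h1 : d * e = e * d := Subgroup.mem_centralizer_iff.mp he.2 d hd
            have h2 : d * v = v * d := hFc d (hDF hd) v hvF
            have h3 : d * v⁻¹ = v⁻¹ * d := by
              calc d * v⁻¹ = v⁻¹ * (v * d) * v⁻¹ := by group
                _ = v⁻¹ * (d * v) * v⁻¹ := by rw [h2]
                _ = v⁻¹ * d := by group
            calc d * (v * e * v⁻¹) = (d * v) * e * v⁻¹ := by group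
              _ = (v * d) * e * v⁻¹ := by rw [h2]
              _ = v * (d * e) * v⁻¹ := by group
              _ = v * (e * d) * v⁻¹ := by rw [h1]
              _ = v * e * (d * v⁻¹) := by group
              _ = v * e * (v⁻¹ * d) := by rw [h3]
              _ = v * e * v⁻¹ * d := by group)
        have hC2 : Nat.card ((E ⊓ Subgroup.centralizer (D : Set X)) ⊓
            Subgroup.centralizer ({v} : Set X) : Subgroup X) ≤
            Nat.card (E ⊓ Subgroup.centralizer
              ((D ⊔ Subgroup.zpowers v : Subgroup X) : Set X) : Subgroup X) := by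
          apply Subgroup.card_le_of_le
          rintro x ⟨⟨hxE, hxD⟩, hxv⟩
          refine ⟨hxE, mem_centralizer_sup_zpowers D v x ?_ ?_⟩
          · intro d hd
            exact Subgroup.mem_centralizer_iff.mp hxD d hd
          · exact Subgroup.mem_centralizer_iff.mp hxv v rfl
        apply ih (D ⊔ Subgroup.zpowers v) hD'F (by omega)
        have hpos : 0 < Nat.card (E ⊓ Subgroup.centralizer
              ((D ⊔ Subgroup.zpowers v : Subgroup X) : Set X) : Subgroup X) := Nat.card_pos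
        calc Nat.card E ^ k
            ≤ Nat.card (E ⊓ Subgroup.centralizer (D : Set X) : Subgroup X) ^ Nat.card D := h
          _ ≤ (Nat.card ((E ⊓ Subgroup.centralizer (D : Set X)) ⊓
                Subgroup.centralizer ({v} : Set X) : Subgroup X) ^ 2) ^ Nat.card D :=
              Nat.pow_le_pow_left hC1 _
          _ ≤ (Nat.card (E ⊓ Subgroup.centralizer
                ((D ⊔ Subgroup.zpowers v : Subgroup X) : Set X) : Subgroup X) ^ 2) ^ Nat.card D :=
              Nat.pow_le_pow_left (Nat.pow_le_pow_left hC2 _) _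
          _ = Nat.card (E ⊓ Subgroup.centralizer
                ((D ⊔ Subgroup.zpowers v : Subgroup X) : Set X) : Subgroup X) ^
                (2 * Nat.card D) := by rw [← pow_mul]
          _ ≤ Nat.card (E ⊓ Subgroup.centralizer
                ((D ⊔ Subgroup.zpowers v : Subgroup X) : Set X) : Subgroup X) ^
                Nat.card (D ⊔ Subgroup.zpowers v : Subgroup X) :=
              Nat.pow_le_pow_right hpos h2D
  apply aux (Nat.card F) (F ⊓ E) inf_le_left (by omega)
  rw [← hk]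
  apply Nat.pow_le_pow_left
  apply Subgroup.card_le_of_le
  intro x hx
  refine ⟨hx, Subgroup.mem_centralizer_iff.mpr ?_⟩
  intro d hd
  exact hEc d hd.2 x hx

omit [Finite X] in
theorem extend (V : Subgroup X)
    (hVc : ∀ a ∈ V, ∀ b ∈ V, a * b = b * a) (hVe : ∀ a ∈ V, a * a = 1)
    (e : X) (he2 : e * e = 1) (hec : ∀ v ∈ V, e * v = v * e) (heV : e ∉ V) :
    ∃ A : Subgroup X, V ≤ A ∧ e ∈ A ∧ (∀ a ∈ A, ∃ v ∈ V, a = v ∨ a = v * e) ∧
      (∀ a ∈ A, ∀ b ∈ A, a * b = b * a) ∧ (∀ a ∈ A, a * a = 1) ∧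
      Nat.card A = 2 * Nat.card V := by
  have heinv : e⁻¹ = e := inv_eq_of_mul_eq_one_left he2
  let A : Subgroup X :=
    { carrier := {a | ∃ v ∈ V, a = v ∨ a = v * e}
      one_mem' := ⟨1, V.one_mem, Or.inl rfl⟩
      mul_mem' := by
        rintro a b ⟨v₁, hv₁, h₁⟩ ⟨v₂, hv₂, h₂⟩
        rcases h₁ with h₁ | h₁ <;> rcases h₂ with h₂ | h₂ <;> rw [h₁, h₂]
        · exact ⟨v₁ * v₂, mul_mem hv₁ hv₂, Or.inl rfl⟩
        · exact ⟨v₁ * v₂, mul_mem hv₁ hv₂, Or.inr (by group)⟩
        · refine ⟨v₁ * v₂, mul_mem hv₁ hv₂, Or.inr ?_⟩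
          calc v₁ * e * v₂ = v₁ * (e * v₂) := by group
            _ = v₁ * (v₂ * e) := by rw [hec v₂ hv₂]
            _ = v₁ * v₂ * e := by group
        · refine ⟨v₁ * v₂, mul_mem hv₁ hv₂, Or.inl ?_⟩
          calc v₁ * e * (v₂ * e) = v₁ * (e * v₂) * e := by group
            _ = v₁ * (v₂ * e) * e := by rw [hec v₂ hv₂]
            _ = v₁ * v₂ * (e * e) := by group
            _ = v₁ * v₂ := by rw [he2, mul_one]
      inv_mem' := by
        rintro a ⟨v, hv, h⟩
        rcases h with h | h <;> rw [h]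
        · exact ⟨v⁻¹, inv_mem hv, Or.inl rfl⟩
        · refine ⟨v⁻¹, inv_mem hv, Or.inr ?_⟩
          calc (v * e)⁻¹ = e⁻¹ * v⁻¹ := by group
            _ = e * v⁻¹ := by rw [heinv]
            _ = v⁻¹ * e := hec _ (inv_mem hv) }
  have hmem : ∀ a, a ∈ A ↔ ∃ v ∈ V, a = v ∨ a = v * e := fun a => Iff.rfl
  have hVA : V ≤ A := fun v hv => ⟨v, hv, Or.inl rfl⟩
  have heA : e ∈ A := ⟨1, V.one_mem, Or.inr (by group)⟩
  refine ⟨A, hVA, heA, fun a ha => ha, ?_, ?_, ?_⟩
  · rintro a ⟨v₁, hv₁, h₁⟩ b ⟨v₂, hv₂, h₂⟩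
    have hc := hVc v₁ hv₁ v₂ hv₂
    have e1 := hec v₁ hv₁
    have e2 := hec v₂ hv₂
    rcases h₁ with h₁ | h₁ <;> rcases h₂ with h₂ | h₂ <;> rw [h₁, h₂]
    · exact hc
    · calc v₁ * (v₂ * e) = (v₁ * v₂) * e := by group
        _ = (v₂ * v₁) * e := by rw [hc]
        _ = v₂ * (v₁ * e) := by group
        _ = v₂ * (e * v₁) := by rw [e1]
        _ = v₂ * e * v₁ := by group
    · calc v₁ * e * v₂ = v₁ * (e * v₂) := by group
        _ = v₁ * (v₂ * e) := by rw [e2]
        _ = (v₁ * v₂) * e := by group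
        _ = (v₂ * v₁) * e := by rw [hc]
        _ = v₂ * (v₁ * e) := by group
    · calc v₁ * e * (v₂ * e) = v₁ * (e * v₂) * e := by group
        _ = v₁ * (v₂ * e) * e := by rw [e2]
        _ = (v₁ * v₂) * e * e := by group
        _ = (v₂ * v₁) * e * e := by rw [hc]
        _ = v₂ * (v₁ * e) * e := by group
        _ = v₂ * (e * v₁) * e := by rw [e1]
        _ = v₂ * e * (v₁ * e) := by group
  · rintro a ⟨v, hv, h⟩
    rcases h with h | h <;> rw [h]
    · exact hVe v hv
    · calc v * e * (v * e) = v * (e * v) * e := by group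
        _ = v * (v * e) * e := by rw [hec v hv]
        _ = (v * v) * (e * e) := by group
        _ = 1 := by rw [hVe v hv, he2, one_mul]
  · have hidx : (V.subgroupOf A).index = 2 := by
      rw [Subgroup.index_eq_two_iff]
      refine ⟨⟨e, heA⟩, ?_⟩
      rintro ⟨b, hb⟩
      simp only [Subgroup.mem_subgroupOf, Subgroup.coe_mul]
      obtain ⟨v, hv, h⟩ := hb
      rcases h with h | h <;> rw [h]
      · right
        refine ⟨hv, ?_⟩
        intro h'
        apply heV
        have : e = v⁻¹ * (v * e) := by group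
        rw [this]
        exact mul_mem (inv_mem hv) h'
      · left
        constructor
        · have : v * e * e = v := by
            calc v * e * e = v * (e * e) := by group
              _ = v := by rw [he2, mul_one]
          rw [this]; exact hv
        · intro h'
          apply heV
          have : e = v⁻¹ * (v * e) := by group
          rw [this]
          exact mul_mem (inv_mem hv) h'
    have h1 := Subgroup.card_mul_index (V.subgroupOf A)
    rw [hidx] at h1
    have h2 : Nat.card (V.subgroupOf A) = Nat.card V :=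
      Nat.card_congr (Subgroup.subgroupOfEquivOfLe hVA).toEquiv
    rw [h2] at h1
    omega

theorem exists_outside (E : Subgroup X) [E.Normal]
    (hEc : ∀ a ∈ E, ∀ b ∈ E, a * b = b * a) (hEe : ∀ a ∈ E, a * a = 1)
    (hE32 : 32 ≤ Nat.card ↥E)
    (F : Subgroup X) (hFc : ∀ a ∈ F, ∀ b ∈ F, a * b = b * a) (hFe : ∀ a ∈ F, a * a = 1)
    (j : ℕ) (hj : j = 2 ∨ j = 3) (hcard : Nat.card F = 2 ^ j) (hFE : ¬ F ≤ E ∨ j = 2) :
    ∃ e, e ∈ E ∧ (∀ f ∈ F, e * f = f * e) ∧ e ∉ F := by
  by_contra hcon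
  push Not at hcon
  have hle : E ⊓ Subgroup.centralizer (F : Set X) ≤ F ⊓ E := by
    intro x hx
    refine ⟨hcon x hx.1 ?_, hx.1⟩
    intro f hf
    exact (Subgroup.mem_centralizer_iff.mp hx.2 f hf).symm
  have h1 := pow_card_le E hEc hEe F hFc hFe
  have h2 : Nat.card (E ⊓ Subgroup.centralizer (F : Set X) : Subgroup X) ≤
      Nat.card (F ⊓ E : Subgroup X) := Subgroup.card_le_of_le hle
  obtain ⟨k, hk⟩ : ∃ k, k = Nat.card (F ⊓ E : Subgroup X) := ⟨_, rfl⟩
  rw [← hk] at h1 h2
  have hkd : k ∣ 2 ^ j := by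
    rw [hk, ← hcard]; exact Subgroup.card_dvd_of_le inf_le_left
  have hkpos : 0 < k := by rw [hk]; exact Nat.card_pos
  have h3 : 32 ^ k ≤ k ^ Nat.card F := by
    calc 32 ^ k ≤ Nat.card E ^ k := Nat.pow_le_pow_left hE32 k
      _ ≤ Nat.card (E ⊓ Subgroup.centralizer (F : Set X) : Subgroup X) ^ Nat.card F := h1
      _ ≤ k ^ Nat.card F := Nat.pow_le_pow_left h2 _
  rw [hcard] at h3
  rcases hj with rfl | rfl
  · have hk4 : k ≤ 4 := Nat.le_of_dvd (by norm_num) hkd
    interval_cases k <;>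
      first | (norm_num at hkd; done) | (norm_num at h3; done)
  · have hk8 : k ≤ 8 := Nat.le_of_dvd (by norm_num) hkd
    have hne8 : k ≠ 8 := by
      intro h8
      rcases hFE with h | h
      · apply h
        have : F ⊓ E = F := Subgroup.eq_of_le_of_card_ge inf_le_left (by rw [← hk, hcard, h8]; norm_num)
        rw [← this]; exact inf_le_right
      · omega
    interval_cases k <;>
      first | (norm_num at hkd; done) | (norm_num at h3; done) | (exact absurd rfl hne8)

theorem isEA_of {A : Subgroup X} (hc : ∀ a ∈ A, ∀ b ∈ A, a * b = b * a)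
    (he : ∀ a ∈ A, a * a = 1) : Cfsg.IsElementaryAbelian 2 A :=
  ⟨⟨⟨fun a b => Subtype.ext (hc a a.2 b b.2)⟩⟩, fun a ha => by rw [pow_two]; exact he a ha⟩

theorem of_isEA {A : Subgroup X} (h : Cfsg.IsElementaryAbelian 2 A) :
    (∀ a ∈ A, ∀ b ∈ A, a * b = b * a) ∧ (∀ a ∈ A, a * a = 1) := by
  refine ⟨fun a ha b hb => ?_, fun a ha => ?_⟩
  · exact congrArg Subtype.val (h.1.is_comm.comm ⟨a, ha⟩ ⟨b, hb⟩)
  · have := h.2 a ha
    rwa [pow_two] at this

theorem step (E : Subgroup X) [E.Normal]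
    (hEc : ∀ a ∈ E, ∀ b ∈ E, a * b = b * a) (hEe : ∀ a ∈ E, a * a = 1)
    (hE32 : 32 ≤ Nat.card ↥E)
    (F : Subgroup X) (hF : Cfsg.IsElementaryAbelian 2 F) (hcard : Nat.card F = 8)
    (hFE : ¬ F ≤ E) :
    ∃ F' : Subgroup X, Cfsg.IsElementaryAbelian 2 F' ∧ Nat.card F' = 8 ∧ ⁅F, F'⁆ = ⊥ ∧
      Nat.card (F ⊓ E : Subgroup X) < Nat.card (F' ⊓ E : Subgroup X) := by
  haveI : Fact (Nat.Prime 2) := ⟨Nat.prime_two⟩
  obtain ⟨hFc, hFe⟩ := of_isEA hF
  obtain ⟨e, heE, hec, heF⟩ := exists_outside E hEc hEe hE32 F hFc hFe 3 (Or.inr rfl)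
    (by rw [hcard]; norm_num) (Or.inl hFE)
  -- a four-subgroup between F ⊓ E and F
  have hkd : Nat.card (F ⊓ E : Subgroup X) ∣ 2 ^ 3 := by
    have : Nat.card (F ⊓ E : Subgroup X) ∣ Nat.card F := Subgroup.card_dvd_of_le inf_le_left
    rw [hcard] at this; exact this
  obtain ⟨n, hn3, hkn⟩ := (Nat.dvd_prime_pow Nat.prime_two).mp hkd
  have hn2 : n ≤ 2 := by
    by_contra h
    have hn : n = 3 := by omega
    rw [hn] at hkn
    apply hFE
    have : F ⊓ E = F := Subgroup.eq_of_le_of_card_ge inf_le_left (by rw [hkn, hcard]; norm_num)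
    rw [← this]; exact inf_le_right
  have hDcard : Nat.card ((F ⊓ E).subgroupOf F) = 2 ^ n := by
    rw [← hkn]
    exact Nat.card_congr (Subgroup.subgroupOfEquivOfLe inf_le_left).toEquiv
  obtain ⟨K, hK4, hDK⟩ := Sylow.exists_subgroup_card_pow_prime_le 2 (m := 2)
    (by rw [hcard]; norm_num : 2 ^ 2 ∣ Nat.card ↥F) ((F ⊓ E).subgroupOf F) hDcard hn2
  obtain ⟨F₁, hF₁⟩ : ∃ F₁ : Subgroup X, F₁ = K.map F.subtype := ⟨_, rfl⟩
  have hF₁F : F₁ ≤ F := hF₁ ▸ Subgroup.map_subtype_le K
  have hF₁card : Nat.card F₁ = 4 := by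
    rw [hF₁, Subgroup.card_map_of_injective (Subgroup.subtype_injective F), hK4]; norm_num
  have hDF₁ : F ⊓ E ≤ F₁ := by
    intro d hd
    rw [hF₁]
    exact ⟨⟨d, hd.1⟩, hDK (Subgroup.mem_subgroupOf.mpr hd), rfl⟩
  obtain ⟨A, hF₁A, heA, hdesc, hAc, hAe, hAcard⟩ := extend F₁
    (fun a ha b hb => hFc a (hF₁F ha) b (hF₁F hb)) (fun a ha => hFe a (hF₁F ha)) e
    (hEe e heE) (fun v hv => hec v (hF₁F hv)) (fun h => heF (hF₁F h))
  refine ⟨A, isEA_of hAc hAe, by rw [hAcard, hF₁card], ?_, ?_⟩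
  · rw [Subgroup.commutator_eq_bot_iff_le_centralizer]
    intro f hf
    rw [Subgroup.mem_centralizer_iff]
    intro a ha
    obtain ⟨w, hw, h⟩ := hdesc a ha
    have hwf : w * f = f * w := hFc w (hF₁F hw) f hf
    rcases h with rfl | rfl
    · exact hwf
    · calc w * e * f = w * (e * f) := by group
        _ = w * (f * e) := by rw [hec f hf]
        _ = (w * f) * e := by group
        _ = (f * w) * e := by rw [hwf]
        _ = f * (w * e) := by group
  · by_contra hcon
    push Not at hcon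
    have hle : F ⊓ E ≤ A ⊓ E := fun d hd => ⟨hF₁A (hDF₁ hd), hd.2⟩
    have := Subgroup.eq_of_le_of_card_ge hle hcon
    have heAE : e ∈ A ⊓ E := ⟨heA, heE⟩
    rw [← this] at heAE
    exact heF heAE.1

theorem s1785 {X : Type*} [Group X] [Finite X]
    (hX : IsPGroup 2 X) (E : Subgroup X) [E.Normal] (hE : Cfsg.IsElementaryAbelian 2 E)
    (hE32 : 32 ≤ Nat.card ↥E) :
    (∀ A B : Subgroup X, Cfsg.IsElementaryAbelian 2 A → Nat.card ↥A = 8 →
        Cfsg.IsElementaryAbelian 2 B → Nat.card ↥B = 8 →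
        Relation.ReflTransGen
          (fun C D : Subgroup X => Cfsg.IsElementaryAbelian 2 C ∧ Nat.card ↥C = 8 ∧
            Cfsg.IsElementaryAbelian 2 D ∧ Nat.card ↥D = 8 ∧ ⁅C, D⁆ = ⊥)
          A B) ∧
      (∀ V : Subgroup X, Cfsg.IsElementaryAbelian 2 V → Nat.card ↥V = 4 →
        ∃ A : Subgroup X, V ≤ A ∧ Cfsg.IsElementaryAbelian 2 A ∧ Nat.card ↥A = 8) := by
  obtain ⟨hEc, hEe⟩ := of_isEA hE
  constructor
  · have toE : ∀ m : ℕ, ∀ F : Subgroup X, Cfsg.IsElementaryAbelian 2 F → Nat.card ↥F = 8 →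
        8 ≤ Nat.card (F ⊓ E : Subgroup X) + m →
        ∃ F' : Subgroup X, Cfsg.IsElementaryAbelian 2 F' ∧ Nat.card ↥F' = 8 ∧ F' ≤ E ∧
          Relation.ReflTransGen
            (fun C D : Subgroup X => Cfsg.IsElementaryAbelian 2 C ∧ Nat.card ↥C = 8 ∧
              Cfsg.IsElementaryAbelian 2 D ∧ Nat.card ↥D = 8 ∧ ⁅C, D⁆ = ⊥) F F' := by
      intro m
      induction m with
      | zero =>
        intro F hF hc h
        have : F ⊓ E = F := Subgroup.eq_of_le_of_card_ge inf_le_left (by omega)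
        exact ⟨F, hF, hc, this ▸ inf_le_right, Relation.ReflTransGen.refl⟩
      | succ m ih =>
        intro F hF hc h
        by_cases hFE : F ≤ E
        · exact ⟨F, hF, hc, hFE, Relation.ReflTransGen.refl⟩
        · obtain ⟨F', hF', hc', hcomm, hlt⟩ := step E hEc hEe hE32 F hF hc hFE
          obtain ⟨F'', hF'', hc'', hle, hchain⟩ := ih F' hF' hc' (by omega)
          exact ⟨F'', hF'', hc'', hle,
            Relation.ReflTransGen.head ⟨hF, hc, hF', hc', hcomm⟩ hchain⟩
    intro A B hA hAc hB hBc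
    obtain ⟨A', hA', hAc', hAE, hchA⟩ := toE 8 A hA hAc (by omega)
    obtain ⟨B', hB', hBc', hBE, hchB⟩ := toE 8 B hB hBc (by omega)
    have hsymm : Symmetric (fun C D : Subgroup X => Cfsg.IsElementaryAbelian 2 C ∧
        Nat.card ↥C = 8 ∧ Cfsg.IsElementaryAbelian 2 D ∧ Nat.card ↥D = 8 ∧ ⁅C, D⁆ = ⊥) := by
      rintro C D ⟨h1, h2, h3, h4, h5⟩
      exact ⟨h3, h4, h1, h2, by rw [Subgroup.commutator_comm]; exact h5⟩
    have hrev : ∀ {r : Subgroup X → Subgroup X → Prop}, Symmetric r → ∀ C D,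
        Relation.ReflTransGen r C D → Relation.ReflTransGen r D C := by
      intro r hs C D h
      induction h with
      | refl => exact Relation.ReflTransGen.refl
      | tail _ hbc ih => exact Relation.ReflTransGen.head (hs hbc) ih
    have hchB' := hrev hsymm _ _ hchB
    have hmid : ⁅A', B'⁆ = ⊥ := by
      rw [Subgroup.commutator_eq_bot_iff_le_centralizer]
      intro a ha
      rw [Subgroup.mem_centralizer_iff]
      intro b hb
      exact hEc b (hBE hb) a (hAE ha)
    exact (hchA.tail ⟨hA', hAc', hB', hBc', hmid⟩).trans hchB'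
  · intro V hV hVc
    obtain ⟨hVcm, hVe⟩ := of_isEA hV
    obtain ⟨e, heE, hec, heV⟩ := exists_outside E hEc hEe hE32 V hVcm hVe 2 (Or.inl rfl)
      (by rw [hVc]; norm_num) (Or.inr rfl)
    obtain ⟨A, hVA, _, _, hAc, hAe, hAcard⟩ := extend V hVcm hVe e (hEe e heE) hec heV
    exact ⟨A, hVA, isEA_of hAc hAe, by rw [hAcard, hVc]⟩

end Cfsg.Agent.Lib_helper7_TwoConn
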