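import Cfsg.Agent.Lib_helper7_FunctorControl
import Cfsg.Prelude.Def_Transfer

set_option autoImplicit false

namespace Cfsg.Agent.Lib_helper7_WeakClosure

open Cfsg Cfsg.Agent.Lib_helper7_Sylow Cfsg.Agent.Lib_helper7_Alperin
  Cfsg.Agent.Lib_helper7_WellPlaced Cfsg.Agent.Lib_helper7_FunctorControl

variable {G : Type*} [Group G]

/-- the first step of a chain that moves `A` -/
theorem chain_first_move {𝓕 : Set (Subgroup G)} {A : Set G} {g : G} (h : Chain 𝓕 A g) :
    cj A g ≠ A → ∃ T ∈ 𝓕, A ⊆ T ∧ ∃ x ∈ Subgroup.normalizer (T : Set G), cj A x ≠ A := by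
  induction h with
  | nil A => intro hne; exact absurd (cj_one A) hne
  | cons A T x g hT hx hA _ ih =>
    intro hne
    by_cases hAx : cj A x = A
    · rw [← cj_mul, hAx] at hne
      rw [hAx] at ih
      exact ih hne
    · exact ⟨T, hT, hA, x, hx, hAx⟩

variable [Finite G] {p : ℕ} [Fact p.Prime]

theorem climb_weak {W : Subgroup G → Subgroup G} (hW : Cfsg.IsConjugacyFunctor p W)
    (hWZ : ∀ P : Subgroup G, IsPGroup p ↥P → P ⊓ Subgroup.centralizer (P : Set G) ≤ W P)
    (S : Sylow p G) (A : Subgroup G)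
    (hAZ : A ≤ (S : Subgroup G) ⊓ Subgroup.centralizer ((S : Subgroup G) : Set G))
    (hAN : Subgroup.normalizer ((W (S : Subgroup G) : Subgroup G) : Set G)
      ≤ Subgroup.normalizer ((A : Subgroup G) : Set G)) :
    ∀ (n : ℕ) (T : Subgroup G), Cfsg.IsWellPlaced p W (S : Subgroup G) T → A ≤ T →
      (∃ x ∈ Subgroup.normalizer (T : Set G), A.map (MulAut.conj x).toMonoidHom ≠ A) →
      Nat.card S ≤ Nat.card ↥((S : Subgroup G) ⊓ Subgroup.normalizer (T : Set G)) + n →
      ∃ T : Subgroup G, Cfsg.IsWellPlaced p W (S : Subgroup G) T ∧ A ≤ T ∧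
        Subgroup.normalizer ((W ((S : Subgroup G) ⊓ Subgroup.normalizer ((T : Subgroup G) : Set G))
          : Subgroup G) : Set G) ≤ Subgroup.normalizer ((A : Subgroup G) : Set G) ∧
        ¬ p ∣ ((S : Subgroup G) ⊓ Subgroup.normalizer ((T : Subgroup G) : Set G)).relIndex
          (Subgroup.normalizer ((T : Subgroup G) : Set G)) ∧
        A ≤ Subgroup.centralizer (((S : Subgroup G) ⊓ Subgroup.normalizer ((T : Subgroup G) : Set G)
          : Subgroup G) : Set G) ∧
        ∃ g ∈ Subgroup.normalizer ((T : Subgroup G) : Set G),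
          A.map (MulAut.conj g).toMonoidHom ≤ (S : Subgroup G) ⊓
            Subgroup.normalizer ((T : Subgroup G) : Set G) ∧
          A.map (MulAut.conj g).toMonoidHom ≠ A := by
  have hAcent : ∀ T : Subgroup G, A ≤ Subgroup.centralizer (((S : Subgroup G) ⊓
      Subgroup.normalizer ((T : Subgroup G) : Set G) : Subgroup G) : Set G) := by
    intro T
    exact (hAZ.trans inf_le_right).trans
      (Subgroup.centralizer_le (SetLike.coe_subset_coe.mpr inf_le_left))
  have hdone : ∀ T : Subgroup G, Cfsg.IsWellPlaced p W (S : Subgroup G) T → A ≤ T →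
      (∃ x ∈ Subgroup.normalizer (T : Set G), A.map (MulAut.conj x).toMonoidHom ≠ A) →
      Subgroup.normalizer ((W ((S : Subgroup G) ⊓ Subgroup.normalizer ((T : Subgroup G) : Set G))
          : Subgroup G) : Set G) ≤ Subgroup.normalizer ((A : Subgroup G) : Set G) →
      ∃ T : Subgroup G, Cfsg.IsWellPlaced p W (S : Subgroup G) T ∧ A ≤ T ∧
        Subgroup.normalizer ((W ((S : Subgroup G) ⊓ Subgroup.normalizer ((T : Subgroup G) : Set G))
          : Subgroup G) : Set G) ≤ Subgroup.normalizer ((A : Subgroup G) : Set G) ∧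
        ¬ p ∣ ((S : Subgroup G) ⊓ Subgroup.normalizer ((T : Subgroup G) : Set G)).relIndex
          (Subgroup.normalizer ((T : Subgroup G) : Set G)) ∧
        A ≤ Subgroup.centralizer (((S : Subgroup G) ⊓ Subgroup.normalizer ((T : Subgroup G) : Set G)
          : Subgroup G) : Set G) ∧
        ∃ g ∈ Subgroup.normalizer ((T : Subgroup G) : Set G),
          A.map (MulAut.conj g).toMonoidHom ≤ (S : Subgroup G) ⊓
            Subgroup.normalizer ((T : Subgroup G) : Set G) ∧
          A.map (MulAut.conj g).toMonoidHom ≠ A := by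
    intro T hTwp hAT ⟨x, hx, hxA⟩ hN
    refine ⟨T, hTwp, hAT, hN, hTwp.2 0, hAcent T, x, hx, ?_, hxA⟩
    have h1 : A.map (MulAut.conj x).toMonoidHom ≤ T := by
      rw [← map_conj_of_mem_normalizer T x hx]
      exact Subgroup.map_mono hAT
    exact h1.trans (le_inf hTwp.1 Subgroup.le_normalizer)
  intro n
  induction n with
  | zero =>
    intro T hTwp hAT hx hcard
    have h1 : (S : Subgroup G) ⊓ Subgroup.normalizer (T : Set G) = (S : Subgroup G) :=
      Subgroup.eq_of_le_of_card_ge inf_le_left (by omega)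
    apply hdone T hTwp hAT hx
    rw [h1]
    exact hAN
  | succ n ih =>
    intro T hTwp hAT hx hcard
    by_cases hN : Subgroup.normalizer ((W ((S : Subgroup G) ⊓ Subgroup.normalizer
        ((T : Subgroup G) : Set G)) : Subgroup G) : Set G)
        ≤ Subgroup.normalizer ((A : Subgroup G) : Set G)
    · exact hdone T hTwp hAT hx hN
    · obtain ⟨y, hy, hyA⟩ := SetLike.not_le_iff_exists.mp hN
      have hcase : (S : Subgroup G) ⊓ Subgroup.normalizer (T : Set G) ≠ (S : Subgroup G) := by
        intro h1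
        rw [h1] at hy
        exact hyA (hAN hy)
      have hN₁p : IsPGroup p ↥((S : Subgroup G) ⊓ Subgroup.normalizer (T : Set G)) :=
        S.isPGroup'.to_le inf_le_left
      have hgrow := lt_inf_normalizer S _ (inf_le_left : (S : Subgroup G) ⊓
        Subgroup.normalizer (T : Set G) ≤ _) hcase
      have hNW := normalizer_le_normalizer_functor hW _ hN₁p
      have hW₁S : W ((S : Subgroup G) ⊓ Subgroup.normalizer (T : Set G)) ≤ (S : Subgroup G) :=
        (functor_le hW _ hN₁p).trans inf_le_left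
      have hW₁wp : Cfsg.IsWellPlaced p W (S : Subgroup G)
          (W ((S : Subgroup G) ⊓ Subgroup.normalizer (T : Set G))) :=
        ⟨hW₁S, ((wellPlaced_iff W (S : Subgroup G) T).mp hTwp).2.2⟩
      have hcard₂ : Nat.card S ≤ Nat.card ↥((S : Subgroup G) ⊓ Subgroup.normalizer
          ((W ((S : Subgroup G) ⊓ Subgroup.normalizer (T : Set G)) : Subgroup G) : Set G)) + n := by
        have h1 := Subgroup.card_le_of_le (inf_le_inf_left (S : Subgroup G) hNW)
        omega
      have hAW : A ≤ W ((S : Subgroup G) ⊓ Subgroup.normalizer (T : Set G)) := by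
        refine le_trans ?_ (hWZ _ hN₁p)
        exact le_inf (le_inf (hAZ.trans inf_le_left) (hAT.trans Subgroup.le_normalizer)) (hAcent T)
      apply ih _ hW₁wp hAW ⟨y, hy, ?_⟩ hcard₂
      intro hcon
      apply hyA
      apply mem_normalizer_of_conj_le
      exact hcon.le

/-- A central subgroup that is not weakly closed is moved inside the normalizer of a well placed
subgroup. -/
theorem exists_wellPlaced_witness {W : Subgroup G → Subgroup G} (hW : Cfsg.IsConjugacyFunctor p W)
    (hWZ : ∀ P : Subgroup G, IsPGroup p ↥P → P ⊓ Subgroup.centralizer (P : Set G) ≤ W P)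
    (S : Sylow p G) (A : Subgroup G)
    (hAZ : A ≤ (S : Subgroup G) ⊓ Subgroup.centralizer ((S : Subgroup G) : Set G))
    (hAN : Subgroup.normalizer ((W (S : Subgroup G) : Subgroup G) : Set G)
      ≤ Subgroup.normalizer ((A : Subgroup G) : Set G))
    (hnwc : ¬ Cfsg.IsWeaklyClosed A (S : Subgroup G)) :
    ∃ T : Subgroup G, Cfsg.IsWellPlaced p W (S : Subgroup G) T ∧ A ≤ T ∧
        Subgroup.normalizer ((W ((S : Subgroup G) ⊓ Subgroup.normalizer ((T : Subgroup G) : Set G))
          : Subgroup G) : Set G) ≤ Subgroup.normalizer ((A : Subgroup G) : Set G) ∧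
        ¬ p ∣ ((S : Subgroup G) ⊓ Subgroup.normalizer ((T : Subgroup G) : Set G)).relIndex
          (Subgroup.normalizer ((T : Subgroup G) : Set G)) ∧
        A ≤ Subgroup.centralizer (((S : Subgroup G) ⊓ Subgroup.normalizer ((T : Subgroup G) : Set G)
          : Subgroup G) : Set G) ∧
        ∃ g ∈ Subgroup.normalizer ((T : Subgroup G) : Set G),
          A.map (MulAut.conj g).toMonoidHom ≤ (S : Subgroup G) ⊓
            Subgroup.normalizer ((T : Subgroup G) : Set G) ∧
          A.map (MulAut.conj g).toMonoidHom ≠ A := by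
  have hAS : A ≤ (S : Subgroup G) := hAZ.trans inf_le_left
  have hex : ∃ g : G, A.map (MulAut.conj g).toMonoidHom ≤ (S : Subgroup G) ∧
      A.map (MulAut.conj g).toMonoidHom ≠ A := by
    by_contra hcon
    push Not at hcon
    exact hnwc ⟨hAS, hcon⟩
  obtain ⟨g, hgS, hgA⟩ := hex
  have hwp : ∀ T : Subgroup G, T ≤ (S : Subgroup G) →
      ∃ U ∈ {T : Subgroup G | Cfsg.IsWellPlaced p W (S : Subgroup G) T},
        (∃ g : G, T.map (MulAut.conj g).toMonoidHom = U) ∧
        ¬ p ∣ ((S : Subgroup G) ⊓ Subgroup.normalizer ((U : Subgroup G) : Set G)).relIndex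
          (Subgroup.normalizer ((U : Subgroup G) : Set G)) := by
    intro T hT
    obtain ⟨g₀, -, hg₀⟩ := exists_wellPlaced_conj hW S (Nat.card S) T hT (Nat.le_add_left _ _)
    exact ⟨_, hg₀, ⟨g₀, rfl⟩, hg₀.2 0⟩
  have hcjg : cj (A : Set G) g⁻¹ = ((A.map (MulAut.conj g).toMonoidHom : Subgroup G) : Set G) := by
    rw [cj_coe, inv_inv]
  have hch := alperin_set S _ (fun U hU => hU.1) hwp (A : Set G) g⁻¹
    (SetLike.coe_subset_coe.mpr hAS) (by rw [hcjg]; exact SetLike.coe_subset_coe.mpr hgS)
  obtain ⟨T, hT, hAT, x, hx, hxA⟩ := chain_first_move hch (by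
    rw [hcjg]
    intro h
    exact hgA (SetLike.coe_injective h))
  have hTwp : Cfsg.IsWellPlaced p W (S : Subgroup G) T := hT
  apply climb_weak hW hWZ S A hAZ hAN (Nat.card S) T hTwp (SetLike.coe_subset_coe.mp hAT)
    ⟨x⁻¹, Subgroup.inv_mem _ hx, ?_⟩ (Nat.le_add_left _ _)
  intro h
  apply hxA
  rw [cj_coe, h]

end Cfsg.Agent.Lib_helper7_WeakClosure
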