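import Mathlib

set_option autoImplicit false

/-! Coset-table certificates for upper bounds on the order of a Coxeter group, and
orbit-chain certificates for lower bounds on the order of a permutation group. -/

namespace Cfsg.Agent.Lib_helper8_CoxTable

/-- Alternating walk: from `x`, apply `σ a`, `σ b`, `σ a`, … for `k` steps. -/
def walk (σ : ℕ → ℕ → ℕ) (a b : ℕ) : ℕ → ℕ → ℕ
  | 0, x => x
  | k + 1, x => σ (if k % 2 = 0 then a else b) (walk σ a b k x)

theorem walk_succ (σ : ℕ → ℕ → ℕ) (a b k x : ℕ) :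
    walk σ a b (k + 1) x = σ (if k % 2 = 0 then a else b) (walk σ a b k x) := rfl

/-- Alternating product `u v u v …` with `k` factors. -/
def altProd {W : Type*} [Group W] (u v : W) : ℕ → W
  | 0 => 1
  | k + 1 => altProd u v k * (if k % 2 = 0 then u else v)

theorem altProd_succ {W : Type*} [Group W] (u v : W) (k : ℕ) :
    altProd u v (k + 1) = altProd u v k * (if k % 2 = 0 then u else v) := rfl

theorem altProd_even {W : Type*} [Group W] (u v : W) (j : ℕ) :
    altProd u v (2 * j) = (u * v) ^ j := by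
  induction j with
  | zero =>
    rw [Nat.mul_zero, pow_zero]
    rfl
  | succ j ih =>
    have e : 2 * (j + 1) = 2 * j + 1 + 1 := by ring
    rw [e, altProd_succ, altProd_succ, ih, if_pos (by omega), if_neg (by omega), pow_succ,
      mul_assoc]

/-- Coset representatives along the tree of first descents. -/
noncomputable def rep {W : Type*} [Group W] (s : ℕ → W) (σ : ℕ → ℕ → ℕ) (ga : ℕ → ℕ) : ℕ → W
  | x => if _h : σ (ga x) x < x then rep s σ ga (σ (ga x) x) * s (ga x) else 1
termination_by x => x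
decreasing_by assumption

theorem rep_eq {W : Type*} [Group W] (s : ℕ → W) (σ : ℕ → ℕ → ℕ) (ga : ℕ → ℕ) (x : ℕ) :
    rep s σ ga x = if σ (ga x) x < x then rep s σ ga (σ (ga x) x) * s (ga x) else 1 := by
  rw [rep]
  split_ifs <;> rfl

section Upper

variable {n : ℕ}

theorem card_le_mul (M : CoxeterMatrix (Fin (n + 1))) (M' : CoxeterMatrix (Fin n))
    (hM : ∀ i j : Fin n, M' i j = M i.castSucc j.castSucc)
    (Mn : ℕ → ℕ → ℕ) (hMn : ∀ a b : Fin (n + 1), M a b = Mn a.val b.val)
    (N : ℕ) (σ : ℕ → ℕ → ℕ) [Finite M'.Group] (hN : 0 < N)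
    (hA : ∀ x < N, ∀ b < n + 1, σ b x < N ∧ σ b (σ b x) = x)
    (hB : ∀ b < n + 1, σ b 0 = 0 → b < n)
    (hC : ∀ x < N, 0 < x → ∃ a < n + 1, σ a x < x ∧ ∀ b < n + 1, b ≠ a → σ b x ≤ x →
      (2 ≤ Mn a b ∧ (∀ k < 2 * Mn a b - 1, 0 < k → walk σ a b k x < x) ∧
        walk σ a b (2 * Mn a b - 1) x ≤ x ∧ σ b (walk σ a b (2 * Mn a b - 1) x) = x)) :
    Finite M.Group ∧ Nat.card M.Group ≤ N * Nat.card M'.Group := by
  classical
  obtain ⟨cs, hcs⟩ : ∃ cs : CoxeterSystem M M.Group, cs = M.toCoxeterSystem := ⟨_, rfl⟩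
  obtain ⟨cs', hcs'⟩ : ∃ cs' : CoxeterSystem M' M'.Group, cs' = M'.toCoxeterSystem := ⟨_, rfl⟩
  have hlift : M'.IsLiftable (fun i : Fin n => cs.simple i.castSucc) := by
    intro i i'
    have h := cs.simple_mul_simple_pow i.castSucc i'.castSucc
    rw [← hM] at h
    exact h
  obtain ⟨ι, hι⟩ : ∃ ι : M'.Group →* M.Group, ∀ i : Fin n, ι (cs'.simple i) = cs.simple i.castSucc :=
    ⟨cs'.lift ⟨_, hlift⟩, fun i => cs'.lift_apply_simple hlift i⟩
  -- generators indexed by naturals
  obtain ⟨s, hs⟩ : ∃ s : ℕ → M.Group, ∀ b : Fin (n + 1), s b.val = cs.simple b :=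
    ⟨fun b => if h : b < n + 1 then cs.simple ⟨b, h⟩ else 1, fun b => by
      simp only [dif_pos b.2]⟩
  have hss : ∀ b < n + 1, s b * s b = 1 := by
    intro b hb
    have := hs ⟨b, hb⟩
    simp only at this
    rw [this]
    exact cs.simple_mul_simple_self _
  have hsinv : ∀ b < n + 1, (s b)⁻¹ = s b := fun b hb => inv_eq_of_mul_eq_one_left (hss b hb)
  have hrel : ∀ a < n + 1, ∀ b < n + 1, (s a * s b) ^ Mn a b = 1 := by
    intro a ha b hb
    have h1 := hs ⟨a, ha⟩
    have h2 := hs ⟨b, hb⟩
    simp only at h1 h2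
    rw [h1, h2]
    have h3 := hMn ⟨a, ha⟩ ⟨b, hb⟩
    simp only at h3
    rw [← h3]
    exact cs.simple_mul_simple_pow _ _
  have hH : ∀ b < n, s b ∈ ι.range := by
    intro b hb
    refine ⟨cs'.simple ⟨b, hb⟩, ?_⟩
    rw [hι]
    exact (hs (Fin.castSucc ⟨b, hb⟩)).symm
  -- parent generators
  obtain ⟨ga, hga⟩ : ∃ ga : ℕ → ℕ, ∀ x < N, 0 < x → ga x < n + 1 ∧ σ (ga x) x < x ∧
      ∀ b < n + 1, b ≠ ga x → σ b x ≤ x →
      (2 ≤ Mn (ga x) b ∧ (∀ k < 2 * Mn (ga x) b - 1, 0 < k → walk σ (ga x) b k x < x) ∧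
        walk σ (ga x) b (2 * Mn (ga x) b - 1) x ≤ x ∧
        σ b (walk σ (ga x) b (2 * Mn (ga x) b - 1) x) = x) := by
    refine ⟨fun x => if h : x < N ∧ 0 < x then Classical.choose (hC x h.1 h.2) else 0, ?_⟩
    intro x h1 h2
    have hsp := Classical.choose_spec (hC x h1 h2)
    simp only [dif_pos (And.intro h1 h2)]
    exact hsp
  obtain ⟨f, hf⟩ : ∃ f : ℕ → M.Group, ∀ x, f x = if σ (ga x) x < x then f (σ (ga x) x) * s (ga x) else 1 :=
    ⟨rep s σ ga, rep_eq s σ ga⟩
  have hf0 : f 0 = 1 := by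
    rw [hf 0, if_neg (Nat.not_lt_zero _)]
  have hfx : ∀ x < N, 0 < x → f x = f (σ (ga x) x) * s (ga x) := by
    intro x h1 h2
    rw [hf x, if_pos (hga x h1 h2).2.1]
  -- the edge invariant
  have hsymm : ∀ u g v, g < n + 1 → σ g u = v → σ g v = u →
      f u * s g * (f (σ g u))⁻¹ ∈ ι.range → f v * s g * (f (σ g v))⁻¹ ∈ ι.range := by
    intro u g v hg h1 h2 hE
    rw [h1] at hE
    rw [h2]
    have := ι.range.inv_mem hE
    rw [mul_inv_rev, mul_inv_rev, inv_inv, hsinv g hg, ← mul_assoc] at this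
    exact this
  have htree : ∀ x < N, 0 < x → f x * s (ga x) * (f (σ (ga x) x))⁻¹ ∈ ι.range := by
    intro x h1 h2
    rw [hfx x h1 h2, mul_assoc (f (σ (ga x) x)), hss _ (hga x h1 h2).1, mul_one, mul_inv_cancel]
    exact ι.range.one_mem
  have key : ∀ x, x < N → (∀ u < x, ∀ g < n + 1, σ g u < x → f u * s g * (f (σ g u))⁻¹ ∈ ι.range) →
      ∀ g < n + 1, σ g x ≤ x → f x * s g * (f (σ g x))⁻¹ ∈ ι.range := by
    intro x hxN ih g hg hle
    rcases Nat.eq_zero_or_pos x with h0 | hpos
    · subst h0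
      have hg0 : σ g 0 = 0 := by omega
      rw [hg0, hf0, one_mul, inv_one, mul_one]
      exact hH g (hB g hg hg0)
    · obtain ⟨hgalt, hdesc, hloops⟩ := hga x hxN hpos
      by_cases hga' : g = ga x
      · rw [hga']
        exact htree x hxN hpos
      · obtain ⟨hm2, hwalk, hlast, hclose⟩ := hloops g hg hga' hle
        have hedge : ∀ k < 2 * Mn (ga x) g - 1,
            f (walk σ (ga x) g k x) * s (if k % 2 = 0 then ga x else g) *
              (f (walk σ (ga x) g (k + 1) x))⁻¹ ∈ ι.range := by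
          intro k hk
          rcases Nat.eq_zero_or_pos k with hk0 | hkpos
          · subst hk0
            show f x * s (if 0 % 2 = 0 then ga x else g) *
              (f (σ (if 0 % 2 = 0 then ga x else g) x))⁻¹ ∈ ι.range
            rw [if_pos (by norm_num)]
            exact htree x hxN hpos
          · have hwk : walk σ (ga x) g k x < x := hwalk k hk hkpos
            have hglt : (if k % 2 = 0 then ga x else g) < n + 1 := by
              split_ifs
              · exact hgalt
              · exact hg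
            by_cases hk2 : k + 1 < 2 * Mn (ga x) g - 1
            · have hw1 := hwalk (k + 1) hk2 (by omega)
              rw [walk_succ] at hw1 ⊢
              exact ih _ hwk _ hglt hw1
            · have hk' : k + 1 = 2 * Mn (ga x) g - 1 := by omega
              have hkeven : k % 2 = 0 := by omega
              have hw' : walk σ (ga x) g (k + 1) x ≤ x := by
                rw [hk']
                exact hlast
              rw [walk_succ] at hw' ⊢
              rw [if_pos hkeven] at hw' ⊢
              rcases Nat.lt_or_ge (σ (ga x) (walk σ (ga x) g k x)) x with hlt | hge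
              · exact ih _ hwk _ hgalt hlt
              · have heq : σ (ga x) (walk σ (ga x) g k x) = x := by omega
                have h2 : σ (ga x) x = walk σ (ga x) g k x := by
                  have := (hA (walk σ (ga x) g k x) (by omega) (ga x) hgalt).2
                  rw [heq] at this
                  exact this
                have h3 := hsymm x (ga x) (walk σ (ga x) g k x) hgalt h2 heq (htree x hxN hpos)
                exact h3
        have hchain : ∀ K, K ≤ 2 * Mn (ga x) g - 1 →
            f x * altProd (s (ga x)) (s g) K * (f (walk σ (ga x) g K x))⁻¹ ∈ ι.range := by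
          intro K
          induction K with
          | zero =>
            intro _
            show f x * 1 * (f x)⁻¹ ∈ ι.range
            rw [mul_one, mul_inv_cancel]
            exact ι.range.one_mem
          | succ K ihK =>
            intro hK
            have h1 := ihK (by omega)
            have h2 := hedge K (by omega)
            have e : f x * altProd (s (ga x)) (s g) (K + 1) * (f (walk σ (ga x) g (K + 1) x))⁻¹ =
                (f x * altProd (s (ga x)) (s g) K * (f (walk σ (ga x) g K x))⁻¹) *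
                (f (walk σ (ga x) g K x) * s (if K % 2 = 0 then ga x else g) *
                  (f (walk σ (ga x) g (K + 1) x))⁻¹) := by
              rw [altProd_succ]
              have e2 : (if K % 2 = 0 then s (ga x) else s g) = s (if K % 2 = 0 then ga x else g) := by
                split_ifs <;> rfl
              rw [e2]
              group
            rw [e]
            exact ι.range.mul_mem h1 h2
        have hfin := hchain (2 * Mn (ga x) g - 1) le_rfl
        have halt : altProd (s (ga x)) (s g) (2 * Mn (ga x) g - 1) = s g := by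
          have h1 : altProd (s (ga x)) (s g) (2 * Mn (ga x) g) = 1 := by
            rw [altProd_even]
            exact hrel _ hgalt _ hg
          have h2 : 2 * Mn (ga x) g = (2 * Mn (ga x) g - 1) + 1 := by omega
          rw [h2, altProd_succ, if_neg (by omega)] at h1
          have h3 : altProd (s (ga x)) (s g) (2 * Mn (ga x) g - 1) = (s g)⁻¹ :=
            eq_inv_of_mul_eq_one_left h1
          rw [h3, hsinv g hg]
        rw [halt] at hfin
        have hσ : σ g x = walk σ (ga x) g (2 * Mn (ga x) g - 1) x := by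
          have := (hA (walk σ (ga x) g (2 * Mn (ga x) g - 1) x) (by omega) g hg).2
          rw [hclose] at this
          exact this
        rw [hσ]
        exact hfin
  have main : ∀ x, x ≤ N → ∀ u < x, ∀ g < n + 1, σ g u < x →
      f u * s g * (f (σ g u))⁻¹ ∈ ι.range := by
    intro x
    induction x with
    | zero =>
      intro _ u hu
      omega
    | succ x ih =>
      intro hx u hu g hg hgu
      have ih' := ih (by omega)
      have hxN : x < N := by omega
      by_cases hux : u < x
      · by_cases hgx : σ g u < x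
        · exact ih' u hux g hg hgx
        · have hgu' : σ g u = x := by omega
          have hgx' : σ g x = u := by
            have := (hA u (by omega) g hg).2
            rw [hgu'] at this
            exact this
          have hE := key x hxN ih' g hg (by omega)
          exact hsymm x g u hg hgx' hgu' hE
      · have hu' : u = x := by omega
        rw [hu'] at hgu ⊢
        exact key x hxN ih' g hg (by omega)
  have hall : ∀ x < N, ∀ g < n + 1, f x * s g * (f (σ g x))⁻¹ ∈ ι.range :=
    fun x hx g hg => main N le_rfl x hx g hg (hA x hx g hg).1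
  have hX : ∀ w : M.Group, ∃ y : M'.Group, ∃ x, x < N ∧ w = ι y * f x := by
    intro w
    refine cs.simple_induction_right
      (p := fun w => ∃ y : M'.Group, ∃ x, x < N ∧ w = ι y * f x) w
      ⟨1, 0, hN, by rw [map_one, hf0, one_mul]⟩ ?_
    rintro w g ⟨y, x, hx, rfl⟩
    obtain ⟨y', hy'⟩ := hall x hx g.val g.2
    refine ⟨y * y', σ g.val x, (hA x hx g.val g.2).1, ?_⟩
    rw [map_mul, hy', ← hs g]
    group
  let G : M'.Group × Fin N → M.Group := fun q => ι q.1 * f q.2.val
  have hG : Function.Surjective G := by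
    intro w
    obtain ⟨y, x, hx, rfl⟩ := hX w
    exact ⟨(y, ⟨x, hx⟩), rfl⟩
  have hfinW : Finite M.Group := Finite.of_surjective G hG
  refine ⟨hfinW, ?_⟩
  calc Nat.card M.Group ≤ Nat.card (M'.Group × Fin N) := Nat.card_le_card_of_surjective G hG
    _ = N * Nat.card M'.Group := by rw [Nat.card_prod, Nat.card_fin, mul_comm]

/-- The Coxeter group on no generators is trivial. -/
theorem card_zero (M : CoxeterMatrix (Fin 0)) : Finite M.Group ∧ Nat.card M.Group = 1 := by
  have hsub : ∀ w : M.Group, w = 1 := by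
    intro w
    exact M.toCoxeterSystem.simple_induction (p := fun w => w = 1) w
      (fun i => i.elim0) rfl (fun w w' h h' => by rw [h, h', one_mul])
  have hss : Subsingleton M.Group := ⟨fun a b => by rw [hsub a, hsub b]⟩
  have hfin : Finite M.Group := inferInstance
  exact ⟨hfin, Nat.card_of_subsingleton 1⟩

/-- Restriction of a Coxeter matrix to the first `n` nodes. -/
def restr (M : CoxeterMatrix (Fin (n + 1))) : CoxeterMatrix (Fin n) where
  M := Matrix.of fun i j : Fin n => M i.castSucc j.castSucc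
  isSymm := by
    ext i j
    exact M.symmetric j.castSucc i.castSucc
  diagonal := fun i => M.diagonal i.castSucc
  off_diagonal := fun i j h => M.off_diagonal i.castSucc j.castSucc
    (fun hh => h (Fin.castSucc_injective n hh))

theorem restr_apply (M : CoxeterMatrix (Fin (n + 1))) (i j : Fin n) :
    (restr M) i j = M i.castSucc j.castSucc := rfl

end Upper

section Lower

variable {D n : ℕ}

/-- Permutation of `Fin D` given by an involutive table. -/
def permOf (D : ℕ) (ρ : ℕ → ℕ) (h : ∀ y < D, ρ y < D ∧ ρ (ρ y) = y) : Equiv.Perm (Fin D) where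
  toFun z := ⟨ρ z.val, (h z.val z.2).1⟩
  invFun z := ⟨ρ z.val, (h z.val z.2).1⟩
  left_inv z := Fin.ext (h z.val z.2).2
  right_inv z := Fin.ext (h z.val z.2).2

theorem permOf_val (D : ℕ) (ρ : ℕ → ℕ) (h : ∀ y < D, ρ y < D ∧ ρ (ρ y) = y) (z : Fin D) :
    (permOf D ρ h z).val = ρ z.val := rfl

/-- The generators as permutations. -/
def gens (D n : ℕ) (ρ : ℕ → ℕ → ℕ) (h : ∀ i < n, ∀ y < D, ρ i y < D ∧ ρ i (ρ i y) = y)
    (i : Fin n) : Equiv.Perm (Fin D) :=
  permOf D (ρ i.val) (h i.val i.2)

theorem gens_val (ρ : ℕ → ℕ → ℕ) (h : ∀ i < n, ∀ y < D, ρ i y < D ∧ ρ i (ρ i y) = y)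
    (i : Fin n) (z : Fin D) : (gens D n ρ h i z).val = ρ i.val z.val := rfl

theorem pow_walk (ρ : ℕ → ℕ → ℕ) (h : ∀ i < n, ∀ y < D, ρ i y < D ∧ ρ i (ρ i y) = y)
    (i j : Fin n) (z : Fin D) (t : ℕ) :
    (((gens D n ρ h i * gens D n ρ h j) ^ t) z).val = walk ρ j.val i.val (2 * t) z.val := by
  induction t with
  | zero => rfl
  | succ t ih =>
    have e : 2 * (t + 1) = 2 * t + 1 + 1 := by ring
    rw [pow_succ', e, walk_succ, walk_succ, if_neg (by omega), if_pos (by omega), ← ih]
    rfl

theorem liftable_of_walk (M : CoxeterMatrix (Fin n)) (Mn : ℕ → ℕ → ℕ)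
    (hMn : ∀ a b : Fin n, M a b = Mn a.val b.val) (ρ : ℕ → ℕ → ℕ)
    (h : ∀ i < n, ∀ y < D, ρ i y < D ∧ ρ i (ρ i y) = y)
    (hrel : ∀ i < n, ∀ j < n, ∀ y < D, walk ρ j i (2 * Mn i j) y = y) :
    M.IsLiftable (gens D n ρ h) := by
  intro i j
  apply Equiv.ext
  intro z
  apply Fin.ext
  rw [pow_walk, hMn, hrel i.val i.2 j.val j.2 z.val z.2]
  rfl

/-- The subgroup generated by the first `k` generators. -/
def Qk (p : Fin n → Equiv.Perm (Fin D)) (k : ℕ) : Subgroup (Equiv.Perm (Fin D)) :=
  Subgroup.closure (p '' {i | i.val < k})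

theorem card_Qk_zero (p : Fin n → Equiv.Perm (Fin D)) : Nat.card (Qk p 0) = 1 := by
  have : Qk p 0 = ⊥ := by
    rw [Qk, Subgroup.closure_eq_bot_iff]
    rintro _ ⟨i, hi, rfl⟩
    exact absurd hi (Nat.not_lt_zero _)
  rw [this]
  exact Subgroup.card_bot

theorem card_ge_step (ρ : ℕ → ℕ → ℕ) (h : ∀ i < n, ∀ y < D, ρ i y < D ∧ ρ i (ρ i y) = y)
    (k N : ℕ) (pts : ℕ → ℕ)
    (h1 : ∀ t < N, pts t < D)
    (h2 : ∀ i < k, i < n → ρ i (pts 0) = pts 0)
    (h3 : ∀ t < N, 0 < t → ∃ t' < t, ∃ i < k + 1, i < n ∧ ρ i (pts t') = pts t)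
    (h4 : ∀ t < N, ∀ t' < t, pts t' ≠ pts t) :
    N * Nat.card (Qk (gens D n ρ h) k) ≤ Nat.card (Qk (gens D n ρ h) (k + 1)) := by
  classical
  rcases Nat.eq_zero_or_pos N with hN0 | hNpos
  · subst hN0
    simp
  have hD0 : pts 0 < D := h1 0 hNpos
  obtain ⟨y, hy⟩ : ∃ y : Fin D, y.val = pts 0 := ⟨⟨pts 0, hD0⟩, rfl⟩
  have hle : Qk (gens D n ρ h) k ≤ Qk (gens D n ρ h) (k + 1) :=
    Subgroup.closure_mono (Set.image_mono (fun i (hi : i.val < k) => Nat.lt_succ_of_lt hi))
  have hfix : ∀ q ∈ Qk (gens D n ρ h) k, q y = y := by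
    intro q hq
    have hsub : Qk (gens D n ρ h) k ≤ MulAction.stabilizer (Equiv.Perm (Fin D)) y := by
      rw [Qk, Subgroup.closure_le]
      rintro _ ⟨i, hi, rfl⟩
      show gens D n ρ h i y = y
      apply Fin.ext
      rw [gens_val, hy]
      exact h2 i.val hi i.2
    exact hsub hq
  have hreach : ∀ t < N, ∃ g ∈ Qk (gens D n ρ h) (k + 1), (g y).val = pts t := by
    intro t
    induction t using Nat.strong_induction_on with
    | _ t ih =>
      intro ht
      rcases Nat.eq_zero_or_pos t with h0 | hpos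
      · subst h0
        exact ⟨1, Subgroup.one_mem _, hy⟩
      · obtain ⟨t', ht', i, hi, hin, he⟩ := h3 t ht hpos
        obtain ⟨g, hg, hgy⟩ := ih t' ht' (by omega)
        refine ⟨gens D n ρ h ⟨i, hin⟩ * g,
          Subgroup.mul_mem _ (Subgroup.subset_closure ⟨⟨i, hin⟩, hi, rfl⟩) hg, ?_⟩
        show (gens D n ρ h ⟨i, hin⟩ (g y)).val = pts t
        rw [gens_val, hgy]
        exact he
  have hos := MulAction.card_orbit_mul_card_stabilizer_eq_card_group
    (Qk (gens D n ρ h) (k + 1)) y
  simp only [← Nat.card_eq_fintype_card] at hos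
  have hNle : N ≤ Nat.card (MulAction.orbit (Qk (gens D n ρ h) (k + 1)) y) := by
    have hmem : ∀ t : Fin N, (⟨pts t.val, h1 t.val t.2⟩ : Fin D) ∈
        MulAction.orbit (Qk (gens D n ρ h) (k + 1)) y := by
      intro t
      obtain ⟨g, hg, hgy⟩ := hreach t.val t.2
      exact ⟨⟨g, hg⟩, Fin.ext hgy⟩
    have hinj : Function.Injective (fun t : Fin N =>
        (⟨⟨pts t.val, h1 t.val t.2⟩, hmem t⟩ : MulAction.orbit (Qk (gens D n ρ h) (k + 1)) y)) := by
      intro t t' hh
      have h' : pts t.val = pts t'.val := by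
        have := congrArg (fun z : MulAction.orbit (Qk (gens D n ρ h) (k + 1)) y =>
          (z.1 : Fin D).val) hh
        exact this
      by_contra hne
      rcases Nat.lt_or_gt_of_ne (fun hh' => hne (Fin.ext hh')) with hlt | hgt
      · exact h4 t'.val t'.2 t.val hlt h'
      · exact h4 t.val t.2 t'.val hgt h'.symm
    have := Nat.card_le_card_of_injective _ hinj
    rwa [Nat.card_fin] at this
  have hQ : Nat.card (Qk (gens D n ρ h) k) ≤
      Nat.card (MulAction.stabilizer (Qk (gens D n ρ h) (k + 1)) y) := by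
    refine Nat.card_le_card_of_injective (fun q : Qk (gens D n ρ h) k =>
      (⟨⟨q.1, hle q.2⟩, hfix q.1 q.2⟩ :
        MulAction.stabilizer (Qk (gens D n ρ h) (k + 1)) y)) ?_
    intro q q' hh
    apply Subtype.ext
    have := congrArg (fun z : MulAction.stabilizer (Qk (gens D n ρ h) (k + 1)) y =>
      ((z.1 : Qk (gens D n ρ h) (k + 1)) : Equiv.Perm (Fin D))) hh
    exact this
  calc N * Nat.card (Qk (gens D n ρ h) k)
      ≤ Nat.card (MulAction.orbit (Qk (gens D n ρ h) (k + 1)) y) *
        Nat.card (MulAction.stabilizer (Qk (gens D n ρ h) (k + 1)) y) := Nat.mul_le_mul hNle hQ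
    _ = Nat.card (Qk (gens D n ρ h) (k + 1)) := hos

theorem card_ge_of_action (M : CoxeterMatrix (Fin n)) [Finite M.Group]
    (p : Fin n → Equiv.Perm (Fin D)) (hp : M.IsLiftable p) :
    Nat.card (Qk p n) ≤ Nat.card M.Group := by
  have hτ : ∀ i, M.toCoxeterSystem.lift ⟨p, hp⟩ (M.toCoxeterSystem.simple i) = p i :=
    fun i => M.toCoxeterSystem.lift_apply_simple hp i
  have hle : Qk p n ≤ (M.toCoxeterSystem.lift ⟨p, hp⟩).range := by
    rw [Qk, Subgroup.closure_le]
    rintro _ ⟨i, _, rfl⟩
    exact ⟨_, hτ i⟩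
  calc Nat.card (Qk p n) ≤ Nat.card (M.toCoxeterSystem.lift ⟨p, hp⟩).range :=
        Nat.card_le_card_of_injective (Subgroup.inclusion hle) (Subgroup.inclusion_injective hle)
    _ ≤ Nat.card M.Group :=
        Nat.card_le_card_of_surjective _ (M.toCoxeterSystem.lift ⟨p, hp⟩).rangeRestrict_surjective

theorem injective_of_card (M : CoxeterMatrix (Fin n)) [Finite M.Group]
    (p : Fin n → Equiv.Perm (Fin D)) (hp : M.IsLiftable p)
    (h : Nat.card M.Group ≤ Nat.card (Qk p n)) :
    Function.Injective (M.toCoxeterSystem.lift ⟨p, hp⟩) := by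
  have hτ : ∀ i, M.toCoxeterSystem.lift ⟨p, hp⟩ (M.toCoxeterSystem.simple i) = p i :=
    fun i => M.toCoxeterSystem.lift_apply_simple hp i
  have hle : Qk p n ≤ (M.toCoxeterSystem.lift ⟨p, hp⟩).range := by
    rw [Qk, Subgroup.closure_le]
    rintro _ ⟨i, _, rfl⟩
    exact ⟨_, hτ i⟩
  have h1 : Nat.card (Qk p n) ≤ Nat.card (M.toCoxeterSystem.lift ⟨p, hp⟩).range :=
    Nat.card_le_card_of_injective (Subgroup.inclusion hle) (Subgroup.inclusion_injective hle)
  have hbij := (M.toCoxeterSystem.lift ⟨p, hp⟩).rangeRestrict_surjective.bijective_of_nat_card_le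
    (h.trans h1)
  intro a b hab
  apply hbij.1
  exact Subtype.ext hab

end Lower

end Cfsg.Agent.Lib_helper8_CoxTable
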