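import Mathlib
import Cfsg.Prelude.Def_ChevStructure
import Cfsg.Agent.Lib_helper8_CoxTable

set_option autoImplicit false
set_option maxRecDepth 100000
set_option synthInstance.maxSize 100000

/-! Generated coset tables and orbit chains for the finite Coxeter groups of types
B₂, G₂, D₄, F₄, E₆, E₇, E₈: orders and faithful permutation representations. -/

namespace Cfsg.Agent.Lib_helper8_CoxData
open Cfsg.Agent.Lib_helper8_CoxTable

/-- Table lookup in a list of rows, each row a base-256 number. -/
def look (rows : List ℕ) (b x : ℕ) : ℕ := (rows.getD b 0 / 256 ^ x) % 256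

/-- Lookup in one base-256 row. -/
def look1 (row : ℕ) (t : ℕ) : ℕ := (row / 256 ^ t) % 256

/-- Lookup of Coxeter matrix entries. -/
def mlook (rows : List (List ℕ)) (a b : ℕ) : ℕ := (rows.getD a []).getD b 0

/-! ### Type B2 -/
def B2_Mn : ℕ → ℕ → ℕ := mlook [[1, 4], [4, 1]]
abbrev B2_M2 : CoxeterMatrix (Fin 2) := CoxeterMatrix.B 2
abbrev B2_M1 : CoxeterMatrix (Fin 1) := restr B2_M2
abbrev B2_M0 : CoxeterMatrix (Fin 0) := restr B2_M1
def B2_T1 : List ℕ := [1]
theorem B2_up1 : Finite B2_M1.Group ∧ Nat.card B2_M1.Group ≤ 2 := by
  have hfin := (card_zero B2_M0).1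
  have h := card_le_mul B2_M1 B2_M0 (fun i j => rfl) B2_Mn (by intro a b; fin_cases a <;> fin_cases b <;> rfl) 2 (look B2_T1)
    (by decide) (by decide +kernel) (by decide +kernel) (by decide +kernel)
  refine ⟨h.1, h.2.trans ?_⟩
  rw [(card_zero B2_M0).2]

def B2_T2 : List ℕ := [50397696, 33751041]
theorem B2_up2 : Finite B2_M2.Group ∧ Nat.card B2_M2.Group ≤ 8 := by
  have hfin := B2_up1.1
  have h := card_le_mul B2_M2 B2_M1 (fun i j => rfl) B2_Mn (by intro a b; fin_cases a <;> fin_cases b <;> rfl) 4 (look B2_T2)
    (by decide) (by decide +kernel) (by decide +kernel) (by decide +kernel)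
  refine ⟨h.1, h.2.trans ?_⟩
  calc 4 * Nat.card B2_M1.Group ≤ 4 * 2 := Nat.mul_le_mul_left _ B2_up1.2
    _ = 8 := by norm_num

def B2_R : List ℕ := [50397696, 33751041]
theorem B2_perm : ∀ i < 2, ∀ y < 4, look B2_R i y < 4 ∧ look B2_R i (look B2_R i y) = y := by
  decide +kernel
theorem B2_rel : ∀ i < 2, ∀ j < 2, ∀ y < 4, walk (look B2_R) j i (2 * B2_Mn i j) y = y := by
  decide +kernel
abbrev B2_p : Fin 2 → Equiv.Perm (Fin 4) := gens 4 2 (look B2_R) B2_perm
theorem B2_liftable : (CoxeterMatrix.B 2).IsLiftable B2_p :=
  liftable_of_walk _ B2_Mn (by intro a b; fin_cases a <;> fin_cases b <;> rfl) (look B2_R) B2_perm B2_rel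
def B2_P1 : ℕ := 513
def B2_P2 : ℕ := 50462976
theorem B2_lo : 8 ≤ Nat.card (Qk B2_p 2) := by
  have h0 := card_Qk_zero B2_p
  have h1 : 2 * Nat.card (Qk B2_p 0) ≤ Nat.card (Qk B2_p 1) :=
    card_ge_step (look B2_R) B2_perm 0 2 (look1 B2_P1)
      (by decide +kernel) (by decide +kernel) (by decide +kernel) (by decide +kernel)
  have h2 : 4 * Nat.card (Qk B2_p 1) ≤ Nat.card (Qk B2_p 2) :=
    card_ge_step (look B2_R) B2_perm 1 4 (look1 B2_P2)
      (by decide +kernel) (by decide +kernel) (by decide +kernel) (by decide +kernel)
  omega

theorem B2_card : Nat.card (CoxeterMatrix.B 2).Group = 8 := by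
  have hfin : Finite (CoxeterMatrix.B 2).Group := B2_up2.1
  have h1 := card_ge_of_action (CoxeterMatrix.B 2) B2_p B2_liftable
  have h2 := B2_lo
  have h3 : Nat.card (CoxeterMatrix.B 2).Group ≤ 8 := B2_up2.2
  omega

theorem B2_inj : Function.Injective ((CoxeterMatrix.B 2).toCoxeterSystem.lift ⟨B2_p, B2_liftable⟩) := by
  have hfin : Finite (CoxeterMatrix.B 2).Group := B2_up2.1
  apply injective_of_card
  have h2 := B2_lo
  have h3 : Nat.card (CoxeterMatrix.B 2).Group ≤ 8 := B2_up2.2
  omega


/-! ### Type G2 -/
def G2_Mn : ℕ → ℕ → ℕ := mlook [[1, 6], [6, 1]]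
abbrev G2_M2 : CoxeterMatrix (Fin 2) := CoxeterMatrix.G₂
abbrev G2_M1 : CoxeterMatrix (Fin 1) := restr G2_M2
abbrev G2_M0 : CoxeterMatrix (Fin 0) := restr G2_M1
def G2_T1 : List ℕ := [1]
theorem G2_up1 : Finite G2_M1.Group ∧ Nat.card G2_M1.Group ≤ 2 := by
  have hfin := (card_zero G2_M0).1
  have h := card_le_mul G2_M1 G2_M0 (fun i j => rfl) G2_Mn (by intro a b; fin_cases a <;> fin_cases b <;> rfl) 2 (look G2_T1)
    (by decide) (by decide +kernel) (by decide +kernel) (by decide +kernel)
  refine ⟨h.1, h.2.trans ?_⟩
  rw [(card_zero G2_M0).2]

def G2_T2 : List ℕ := [5510510215680, 4419555098625]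
theorem G2_up2 : Finite G2_M2.Group ∧ Nat.card G2_M2.Group ≤ 12 := by
  have hfin := G2_up1.1
  have h := card_le_mul G2_M2 G2_M1 (fun i j => rfl) G2_Mn (by intro a b; fin_cases a <;> fin_cases b <;> rfl) 6 (look G2_T2)
    (by decide) (by decide +kernel) (by decide +kernel) (by decide +kernel)
  refine ⟨h.1, h.2.trans ?_⟩
  calc 6 * Nat.card G2_M1.Group ≤ 6 * 2 := Nat.mul_le_mul_left _ G2_up1.2
    _ = 12 := by norm_num

def G2_R : List ℕ := [5510510215680, 4419555098625]
theorem G2_perm : ∀ i < 2, ∀ y < 6, look G2_R i y < 6 ∧ look G2_R i (look G2_R i y) = y := by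
  decide +kernel
theorem G2_rel : ∀ i < 2, ∀ j < 2, ∀ y < 6, walk (look G2_R) j i (2 * G2_Mn i j) y = y := by
  decide +kernel
abbrev G2_p : Fin 2 → Equiv.Perm (Fin 6) := gens 6 2 (look G2_R) G2_perm
theorem G2_liftable : (CoxeterMatrix.G₂).IsLiftable G2_p :=
  liftable_of_walk _ G2_Mn (by intro a b; fin_cases a <;> fin_cases b <;> rfl) (look G2_R) G2_perm G2_rel
def G2_P1 : ℕ := 513
def G2_P2 : ℕ := 5514788471040
theorem G2_lo : 12 ≤ Nat.card (Qk G2_p 2) := by
  have h0 := card_Qk_zero G2_p
  have h1 : 2 * Nat.card (Qk G2_p 0) ≤ Nat.card (Qk G2_p 1) :=
    card_ge_step (look G2_R) G2_perm 0 2 (look1 G2_P1)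
      (by decide +kernel) (by decide +kernel) (by decide +kernel) (by decide +kernel)
  have h2 : 6 * Nat.card (Qk G2_p 1) ≤ Nat.card (Qk G2_p 2) :=
    card_ge_step (look G2_R) G2_perm 1 6 (look1 G2_P2)
      (by decide +kernel) (by decide +kernel) (by decide +kernel) (by decide +kernel)
  omega

theorem G2_card : Nat.card (CoxeterMatrix.G₂).Group = 12 := by
  have hfin : Finite (CoxeterMatrix.G₂).Group := G2_up2.1
  have h1 := card_ge_of_action (CoxeterMatrix.G₂) G2_p G2_liftable
  have h2 := G2_lo
  have h3 : Nat.card (CoxeterMatrix.G₂).Group ≤ 12 := G2_up2.2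
  omega

theorem G2_inj : Function.Injective ((CoxeterMatrix.G₂).toCoxeterSystem.lift ⟨G2_p, G2_liftable⟩) := by
  have hfin : Finite (CoxeterMatrix.G₂).Group := G2_up2.1
  apply injective_of_card
  have h2 := G2_lo
  have h3 : Nat.card (CoxeterMatrix.G₂).Group ≤ 12 := G2_up2.2
  omega


/-! ### Type D4 -/
def D4_Mn : ℕ → ℕ → ℕ := mlook [[1, 3, 2, 2], [3, 1, 3, 3], [2, 3, 1, 2], [2, 3, 2, 1]]
abbrev D4_M4 : CoxeterMatrix (Fin 4) := Cfsg.Lie.coxeterD4
abbrev D4_M3 : CoxeterMatrix (Fin 3) := restr D4_M4
abbrev D4_M2 : CoxeterMatrix (Fin 2) := restr D4_M3
abbrev D4_M1 : CoxeterMatrix (Fin 1) := restr D4_M2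
abbrev D4_M0 : CoxeterMatrix (Fin 0) := restr D4_M1
def D4_T1 : List ℕ := [1]
theorem D4_up1 : Finite D4_M1.Group ∧ Nat.card D4_M1.Group ≤ 2 := by
  have hfin := (card_zero D4_M0).1
  have h := card_le_mul D4_M1 D4_M0 (fun i j => rfl) D4_Mn (by intro a b; fin_cases a <;> fin_cases b <;> rfl) 2 (look D4_T1)
    (by decide) (by decide +kernel) (by decide +kernel) (by decide +kernel)
  refine ⟨h.1, h.2.trans ?_⟩
  rw [(card_zero D4_M0).2]

def D4_T2 : List ℕ := [66048, 131073]
theorem D4_up2 : Finite D4_M2.Group ∧ Nat.card D4_M2.Group ≤ 6 := by
  have hfin := D4_up1.1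
  have h := card_le_mul D4_M2 D4_M1 (fun i j => rfl) D4_Mn (by intro a b; fin_cases a <;> fin_cases b <;> rfl) 3 (look D4_T2)
    (by decide) (by decide +kernel) (by decide +kernel) (by decide +kernel)
  refine ⟨h.1, h.2.trans ?_⟩
  calc 3 * Nat.card D4_M1.Group ≤ 3 * 2 := Nat.mul_le_mul_left _ D4_up1.2
    _ = 6 := by norm_num

def D4_T3 : List ℕ := [33751296, 50397696, 50462721]
theorem D4_up3 : Finite D4_M3.Group ∧ Nat.card D4_M3.Group ≤ 24 := by
  have hfin := D4_up2.1
  have h := card_le_mul D4_M3 D4_M2 (fun i j => rfl) D4_Mn (by intro a b; fin_cases a <;> fin_cases b <;> rfl) 4 (look D4_T3)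
    (by decide) (by decide +kernel) (by decide +kernel) (by decide +kernel)
  refine ⟨h.1, h.2.trans ?_⟩
  calc 4 * Nat.card D4_M2.Group ≤ 4 * 6 := Nat.mul_le_mul_left _ D4_up2.2
    _ = 24 := by norm_num

def D4_T4 : List ℕ := [506096427680858368, 505817147449082368, 506095315334725888, 434321403853012993]
theorem D4_up4 : Finite D4_M4.Group ∧ Nat.card D4_M4.Group ≤ 192 := by
  have hfin := D4_up3.1
  have h := card_le_mul D4_M4 D4_M3 (fun i j => rfl) D4_Mn (by intro a b; fin_cases a <;> fin_cases b <;> rfl) 8 (look D4_T4)
    (by decide) (by decide +kernel) (by decide +kernel) (by decide +kernel)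
  refine ⟨h.1, h.2.trans ?_⟩
  calc 8 * Nat.card D4_M3.Group ≤ 8 * 24 := Nat.mul_le_mul_left _ D4_up3.2
    _ = 192 := by norm_num

def D4_R : List ℕ := [20011356514782773117445615388234809600, 20006204703822354959441914592653017600, 18687341019346104589658415709259301120, 20011335995618345878194053471872876545]
theorem D4_perm : ∀ i < 4, ∀ y < 16, look D4_R i y < 16 ∧ look D4_R i (look D4_R i y) = y := by
  decide +kernel
theorem D4_rel : ∀ i < 4, ∀ j < 4, ∀ y < 16, walk (look D4_R) j i (2 * D4_Mn i j) y = y := by
  decide +kernel
abbrev D4_p : Fin 4 → Equiv.Perm (Fin 16) := gens 16 4 (look D4_R) D4_perm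
theorem D4_liftable : (Cfsg.Lie.coxeterD4).IsLiftable D4_p :=
  liftable_of_walk _ D4_Mn (by intro a b; fin_cases a <;> fin_cases b <;> rfl) (look D4_R) D4_perm D4_rel
def D4_P1 : ℕ := 770
def D4_P2 : ℕ := 197121
def D4_P3 : ℕ := 185207048
def D4_P4 : ℕ := 506097522914230528
theorem D4_lo : 192 ≤ Nat.card (Qk D4_p 4) := by
  have h0 := card_Qk_zero D4_p
  have h1 : 2 * Nat.card (Qk D4_p 0) ≤ Nat.card (Qk D4_p 1) :=
    card_ge_step (look D4_R) D4_perm 0 2 (look1 D4_P1)
      (by decide +kernel) (by decide +kernel) (by decide +kernel) (by decide +kernel)
  have h2 : 3 * Nat.card (Qk D4_p 1) ≤ Nat.card (Qk D4_p 2) :=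
    card_ge_step (look D4_R) D4_perm 1 3 (look1 D4_P2)
      (by decide +kernel) (by decide +kernel) (by decide +kernel) (by decide +kernel)
  have h3 : 4 * Nat.card (Qk D4_p 2) ≤ Nat.card (Qk D4_p 3) :=
    card_ge_step (look D4_R) D4_perm 2 4 (look1 D4_P3)
      (by decide +kernel) (by decide +kernel) (by decide +kernel) (by decide +kernel)
  have h4 : 8 * Nat.card (Qk D4_p 3) ≤ Nat.card (Qk D4_p 4) :=
    card_ge_step (look D4_R) D4_perm 3 8 (look1 D4_P4)
      (by decide +kernel) (by decide +kernel) (by decide +kernel) (by decide +kernel)
  omega

theorem D4_card : Nat.card (Cfsg.Lie.coxeterD4).Group = 192 := by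
  have hfin : Finite (Cfsg.Lie.coxeterD4).Group := D4_up4.1
  have h1 := card_ge_of_action (Cfsg.Lie.coxeterD4) D4_p D4_liftable
  have h2 := D4_lo
  have h3 : Nat.card (Cfsg.Lie.coxeterD4).Group ≤ 192 := D4_up4.2
  omega

theorem D4_inj : Function.Injective ((Cfsg.Lie.coxeterD4).toCoxeterSystem.lift ⟨D4_p, D4_liftable⟩) := by
  have hfin : Finite (Cfsg.Lie.coxeterD4).Group := D4_up4.1
  apply injective_of_card
  have h2 := D4_lo
  have h3 : Nat.card (Cfsg.Lie.coxeterD4).Group ≤ 192 := D4_up4.2
  omega


/-! ### Type F4 -/
def F4_Mn : ℕ → ℕ → ℕ := mlook [[1, 3, 2, 2], [3, 1, 4, 2], [2, 4, 1, 3], [2, 2, 3, 1]]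
abbrev F4_M4 : CoxeterMatrix (Fin 4) := CoxeterMatrix.F₄
abbrev F4_M3 : CoxeterMatrix (Fin 3) := restr F4_M4
abbrev F4_M2 : CoxeterMatrix (Fin 2) := restr F4_M3
abbrev F4_M1 : CoxeterMatrix (Fin 1) := restr F4_M2
abbrev F4_M0 : CoxeterMatrix (Fin 0) := restr F4_M1
def F4_T1 : List ℕ := [1]
theorem F4_up1 : Finite F4_M1.Group ∧ Nat.card F4_M1.Group ≤ 2 := by
  have hfin := (card_zero F4_M0).1
  have h := card_le_mul F4_M1 F4_M0 (fun i j => rfl) F4_Mn (by intro a b; fin_cases a <;> fin_cases b <;> rfl) 2 (look F4_T1)
    (by decide) (by decide +kernel) (by decide +kernel) (by decide +kernel)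
  refine ⟨h.1, h.2.trans ?_⟩
  rw [(card_zero F4_M0).2]

def F4_T2 : List ℕ := [66048, 131073]
theorem F4_up2 : Finite F4_M2.Group ∧ Nat.card F4_M2.Group ≤ 6 := by
  have hfin := F4_up1.1
  have h := card_le_mul F4_M2 F4_M1 (fun i j => rfl) F4_Mn (by intro a b; fin_cases a <;> fin_cases b <;> rfl) 3 (look F4_T2)
    (by decide) (by decide +kernel) (by decide +kernel) (by decide +kernel)
  refine ⟨h.1, h.2.trans ?_⟩
  calc 3 * Nat.card F4_M1.Group ≤ 3 * 2 := Nat.mul_le_mul_left _ F4_up1.2
    _ = 6 := by norm_num

def F4_T3 : List ℕ := [506096427680858368, 505817147449082368, 434319196273508353]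
theorem F4_up3 : Finite F4_M3.Group ∧ Nat.card F4_M3.Group ≤ 48 := by
  have hfin := F4_up2.1
  have h := card_le_mul F4_M3 F4_M2 (fun i j => rfl) F4_Mn (by intro a b; fin_cases a <;> fin_cases b <;> rfl) 8 (look F4_T3)
    (by decide) (by decide +kernel) (by decide +kernel) (by decide +kernel)
  refine ⟨h.1, h.2.trans ?_⟩
  calc 8 * Nat.card F4_M2.Group ≤ 8 * 6 := Nat.mul_le_mul_left _ F4_up2.2
    _ = 48 := by norm_num

def F4_T4 : List ℕ := [566073425323209037449052836178679762433692179935441060096, 566073054096128938977420743176299281750622240825663488256, 565978017012075853235333695275147312808566971760585540096, 541649279096474141388920584084373269935572149184986480641]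
theorem F4_up4 : Finite F4_M4.Group ∧ Nat.card F4_M4.Group ≤ 1152 := by
  have hfin := F4_up3.1
  have h := card_le_mul F4_M4 F4_M3 (fun i j => rfl) F4_Mn (by intro a b; fin_cases a <;> fin_cases b <;> rfl) 24 (look F4_T4)
    (by decide) (by decide +kernel) (by decide +kernel) (by decide +kernel)
  refine ⟨h.1, h.2.trans ?_⟩
  calc 24 * Nat.card F4_M3.Group ≤ 24 * 48 := Nat.mul_le_mul_left _ F4_up3.2
    _ = 1152 := by norm_num

def F4_R : List ℕ := [566073425323209037449052836178679762433692179935441060096, 566073054096128938977420743176299281750622240825663488256, 565978017012075853235333695275147312808566971760585540096, 541649279096474141388920584084373269935572149184986480641]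
theorem F4_perm : ∀ i < 4, ∀ y < 24, look F4_R i y < 24 ∧ look F4_R i (look F4_R i y) = y := by
  decide +kernel
theorem F4_rel : ∀ i < 4, ∀ j < 4, ∀ y < 24, walk (look F4_R) j i (2 * F4_Mn i j) y = y := by
  decide +kernel
abbrev F4_p : Fin 4 → Equiv.Perm (Fin 24) := gens 24 4 (look F4_R) F4_perm
theorem F4_liftable : (CoxeterMatrix.F₄).IsLiftable F4_p :=
  liftable_of_walk _ F4_Mn (by intro a b; fin_cases a <;> fin_cases b <;> rfl) (look F4_R) F4_perm F4_rel
def F4_P1 : ℕ := 1027
def F4_P2 : ℕ := 262914
def F4_P3 : ℕ := 722834358804873729
def F4_P4 : ℕ := 566073426779046459040877649791461066728553822781039575296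
theorem F4_lo : 1152 ≤ Nat.card (Qk F4_p 4) := by
  have h0 := card_Qk_zero F4_p
  have h1 : 2 * Nat.card (Qk F4_p 0) ≤ Nat.card (Qk F4_p 1) :=
    card_ge_step (look F4_R) F4_perm 0 2 (look1 F4_P1)
      (by decide +kernel) (by decide +kernel) (by decide +kernel) (by decide +kernel)
  have h2 : 3 * Nat.card (Qk F4_p 1) ≤ Nat.card (Qk F4_p 2) :=
    card_ge_step (look F4_R) F4_perm 1 3 (look1 F4_P2)
      (by decide +kernel) (by decide +kernel) (by decide +kernel) (by decide +kernel)
  have h3 : 8 * Nat.card (Qk F4_p 2) ≤ Nat.card (Qk F4_p 3) :=
    card_ge_step (look F4_R) F4_perm 2 8 (look1 F4_P3)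
      (by decide +kernel) (by decide +kernel) (by decide +kernel) (by decide +kernel)
  have h4 : 24 * Nat.card (Qk F4_p 3) ≤ Nat.card (Qk F4_p 4) :=
    card_ge_step (look F4_R) F4_perm 3 24 (look1 F4_P4)
      (by decide +kernel) (by decide +kernel) (by decide +kernel) (by decide +kernel)
  omega

theorem F4_card : Nat.card (CoxeterMatrix.F₄).Group = 1152 := by
  have hfin : Finite (CoxeterMatrix.F₄).Group := F4_up4.1
  have h1 := card_ge_of_action (CoxeterMatrix.F₄) F4_p F4_liftable
  have h2 := F4_lo
  have h3 : Nat.card (CoxeterMatrix.F₄).Group ≤ 1152 := F4_up4.2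
  omega

theorem F4_inj : Function.Injective ((CoxeterMatrix.F₄).toCoxeterSystem.lift ⟨F4_p, F4_liftable⟩) := by
  have hfin : Finite (CoxeterMatrix.F₄).Group := F4_up4.1
  apply injective_of_card
  have h2 := F4_lo
  have h3 : Nat.card (CoxeterMatrix.F₄).Group ≤ 1152 := F4_up4.2
  omega


/-! ### Type E6 -/
def E6_Mn : ℕ → ℕ → ℕ := mlook [[1, 2, 3, 2, 2, 2], [2, 1, 2, 3, 2, 2], [3, 2, 1, 3, 2, 2], [2, 3, 3, 1, 3, 2], [2, 2, 2, 3, 1, 3], [2, 2, 2, 2, 3, 1]]
abbrev E6_M6 : CoxeterMatrix (Fin 6) := CoxeterMatrix.E₆
abbrev E6_M5 : CoxeterMatrix (Fin 5) := restr E6_M6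
abbrev E6_M4 : CoxeterMatrix (Fin 4) := restr E6_M5
abbrev E6_M3 : CoxeterMatrix (Fin 3) := restr E6_M4
abbrev E6_M2 : CoxeterMatrix (Fin 2) := restr E6_M3
abbrev E6_M1 : CoxeterMatrix (Fin 1) := restr E6_M2
abbrev E6_M0 : CoxeterMatrix (Fin 0) := restr E6_M1
def E6_T1 : List ℕ := [1]
theorem E6_up1 : Finite E6_M1.Group ∧ Nat.card E6_M1.Group ≤ 2 := by
  have hfin := (card_zero E6_M0).1
  have h := card_le_mul E6_M1 E6_M0 (fun i j => rfl) E6_Mn (by intro a b; fin_cases a <;> fin_cases b <;> rfl) 2 (look E6_T1)
    (by decide) (by decide +kernel) (by decide +kernel) (by decide +kernel)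
  refine ⟨h.1, h.2.trans ?_⟩
  rw [(card_zero E6_M0).2]

def E6_T2 : List ℕ := [256, 1]
theorem E6_up2 : Finite E6_M2.Group ∧ Nat.card E6_M2.Group ≤ 4 := by
  have hfin := E6_up1.1
  have h := card_le_mul E6_M2 E6_M1 (fun i j => rfl) E6_Mn (by intro a b; fin_cases a <;> fin_cases b <;> rfl) 2 (look E6_T2)
    (by decide) (by decide +kernel) (by decide +kernel) (by decide +kernel)
  refine ⟨h.1, h.2.trans ?_⟩
  calc 2 * Nat.card E6_M1.Group ≤ 2 * 2 := Nat.mul_le_mul_left _ E6_up1.2
    _ = 4 := by norm_num

def E6_T3 : List ℕ := [66048, 131328, 131073]
theorem E6_up3 : Finite E6_M3.Group ∧ Nat.card E6_M3.Group ≤ 12 := by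
  have hfin := E6_up2.1
  have h := card_le_mul E6_M3 E6_M2 (fun i j => rfl) E6_Mn (by intro a b; fin_cases a <;> fin_cases b <;> rfl) 3 (look E6_T3)
    (by decide) (by decide +kernel) (by decide +kernel) (by decide +kernel)
  refine ⟨h.1, h.2.trans ?_⟩
  calc 3 * Nat.card E6_M2.Group ≤ 3 * 4 := Nat.mul_le_mul_left _ E6_up2.2
    _ = 12 := by norm_num

def E6_T4 : List ℕ := [42631003144319372755200, 42649378115559654228480, 37945458657134838547200, 42612269297972703002625]
theorem E6_up4 : Finite E6_M4.Group ∧ Nat.card E6_M4.Group ≤ 120 := by
  have hfin := E6_up3.1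
  have h := card_le_mul E6_M4 E6_M3 (fun i j => rfl) E6_Mn (by intro a b; fin_cases a <;> fin_cases b <;> rfl) 10 (look E6_T4)
    (by decide) (by decide +kernel) (by decide +kernel) (by decide +kernel)
  refine ⟨h.1, h.2.trans ?_⟩
  calc 10 * Nat.card E6_M3.Group ≤ 10 * 12 := Nat.mul_le_mul_left _ E6_up3.2
    _ = 120 := by norm_num

def E6_T5 : List ℕ := [20011376559818578457899572621635354880, 18687341019346109293506379498479878400, 20011356514472088626537620317279617280, 20006204703823549662966247253839249920, 20011335916385361864715970237046063105]
theorem E6_up5 : Finite E6_M5.Group ∧ Nat.card E6_M5.Group ≤ 1920 := by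
  have hfin := E6_up4.1
  have h := card_le_mul E6_M5 E6_M4 (fun i j => rfl) E6_Mn (by intro a b; fin_cases a <;> fin_cases b <;> rfl) 16 (look E6_T5)
    (by decide) (by decide +kernel) (by decide +kernel) (by decide +kernel)
  refine ⟨h.1, h.2.trans ?_⟩
  calc 16 * Nat.card E6_M4.Group ≤ 16 * 120 := Nat.mul_le_mul_left _ E6_up4.2
    _ = 1920 := by norm_num

def E6_T6 : List ℕ := [10326335088923347570017438824653727846901430827452235103535759616, 10736104265784869713395209461349000910092501594281738942764155136, 10734503629266866486641260899961453178359109156756131367090258176, 10736098037627580434495250343377060659631934742235231512850268416, 10736104240978722051805548344105427972191820203886876947097125376, 10736104290208637428288754049787188867119681703446044094264115201]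
theorem E6_up6 : Finite E6_M6.Group ∧ Nat.card E6_M6.Group ≤ 51840 := by
  have hfin := E6_up5.1
  have h := card_le_mul E6_M6 E6_M5 (fun i j => rfl) E6_Mn (by intro a b; fin_cases a <;> fin_cases b <;> rfl) 27 (look E6_T6)
    (by decide) (by decide +kernel) (by decide +kernel) (by decide +kernel)
  refine ⟨h.1, h.2.trans ?_⟩
  calc 27 * Nat.card E6_M5.Group ≤ 27 * 1920 := Nat.mul_le_mul_left _ E6_up5.2
    _ = 51840 := by norm_num

def E6_R : List ℕ := [10326335088923347570017438824653727846901430827452235103535759616, 10736104265784869713395209461349000910092501594281738942764155136, 10734503629266866486641260899961453178359109156756131367090258176, 10736098037627580434495250343377060659631934742235231512850268416, 10736104240978722051805548344105427972191820203886876947097125376, 10736104290208637428288754049787188867119681703446044094264115201]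
theorem E6_perm : ∀ i < 6, ∀ y < 27, look E6_R i y < 27 ∧ look E6_R i (look E6_R i y) = y := by
  decide +kernel
theorem E6_rel : ∀ i < 6, ∀ j < 6, ∀ y < 27, walk (look E6_R) j i (2 * E6_Mn i j) y = y := by
  decide +kernel
abbrev E6_p : Fin 6 → Equiv.Perm (Fin 27) := gens 27 6 (look E6_R) E6_perm
theorem E6_liftable : (CoxeterMatrix.E₆).IsLiftable E6_p :=
  liftable_of_walk _ E6_Mn (by intro a b; fin_cases a <;> fin_cases b <;> rfl) (look E6_R) E6_perm E6_rel
def E6_P1 : ℕ := 1797
def E6_P2 : ℕ := 1027
def E6_P3 : ℕ := 592396
def E6_P4 : ℕ := 56853516013041428464386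
def E6_P5 : ℕ := 25343906236345826807485965308973482497
def E6_P6 : ℕ := 10736104290209390090280639838755114122905891386547328850516377856
theorem E6_lo : 51840 ≤ Nat.card (Qk E6_p 6) := by
  have h0 := card_Qk_zero E6_p
  have h1 : 2 * Nat.card (Qk E6_p 0) ≤ Nat.card (Qk E6_p 1) :=
    card_ge_step (look E6_R) E6_perm 0 2 (look1 E6_P1)
      (by decide +kernel) (by decide +kernel) (by decide +kernel) (by decide +kernel)
  have h2 : 2 * Nat.card (Qk E6_p 1) ≤ Nat.card (Qk E6_p 2) :=
    card_ge_step (look E6_R) E6_perm 1 2 (look1 E6_P2)
      (by decide +kernel) (by decide +kernel) (by decide +kernel) (by decide +kernel)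
  have h3 : 3 * Nat.card (Qk E6_p 2) ≤ Nat.card (Qk E6_p 3) :=
    card_ge_step (look E6_R) E6_perm 2 3 (look1 E6_P3)
      (by decide +kernel) (by decide +kernel) (by decide +kernel) (by decide +kernel)
  have h4 : 10 * Nat.card (Qk E6_p 3) ≤ Nat.card (Qk E6_p 4) :=
    card_ge_step (look E6_R) E6_perm 3 10 (look1 E6_P4)
      (by decide +kernel) (by decide +kernel) (by decide +kernel) (by decide +kernel)
  have h5 : 16 * Nat.card (Qk E6_p 4) ≤ Nat.card (Qk E6_p 5) :=
    card_ge_step (look E6_R) E6_perm 4 16 (look1 E6_P5)
      (by decide +kernel) (by decide +kernel) (by decide +kernel) (by decide +kernel)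
  have h6 : 27 * Nat.card (Qk E6_p 5) ≤ Nat.card (Qk E6_p 6) :=
    card_ge_step (look E6_R) E6_perm 5 27 (look1 E6_P6)
      (by decide +kernel) (by decide +kernel) (by decide +kernel) (by decide +kernel)
  omega

theorem E6_card : Nat.card (CoxeterMatrix.E₆).Group = 51840 := by
  have hfin : Finite (CoxeterMatrix.E₆).Group := E6_up6.1
  have h1 := card_ge_of_action (CoxeterMatrix.E₆) E6_p E6_liftable
  have h2 := E6_lo
  have h3 : Nat.card (CoxeterMatrix.E₆).Group ≤ 51840 := E6_up6.2
  omega

theorem E6_inj : Function.Injective ((CoxeterMatrix.E₆).toCoxeterSystem.lift ⟨E6_p, E6_liftable⟩) := by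
  have hfin : Finite (CoxeterMatrix.E₆).Group := E6_up6.1
  apply injective_of_card
  have h2 := E6_lo
  have h3 : Nat.card (CoxeterMatrix.E₆).Group ≤ 51840 := E6_up6.2
  omega


/-! ### Type E7 -/
def E7_Mn : ℕ → ℕ → ℕ := mlook [[1, 2, 3, 2, 2, 2, 2], [2, 1, 2, 3, 2, 2, 2], [3, 2, 1, 3, 2, 2, 2], [2, 3, 3, 1, 3, 2, 2], [2, 2, 2, 3, 1, 3, 2], [2, 2, 2, 2, 3, 1, 3], [2, 2, 2, 2, 2, 3, 1]]
abbrev E7_M7 : CoxeterMatrix (Fin 7) := CoxeterMatrix.E₇
def E7_T7 : List ℕ := [156757958777725342248586040234525858982697208966234090460899535014989854513914360457446952996337465119881632778135440598148617529852160, 156757958777066858325016619504448930570409468162702395825256381784864215025797334050209484081629835722385470389316708610194685749756160, 156757958776395513783325092386428639062357540772672899429664753149515679074251070255549129539215478959046342049701216878309503005753600, 156757958609156080254428516869844831854985010455283590110195705993722679944554084013243309883467852252737319081301484682399404158746880, 156757915623991709668822391208794589200471050416353759956567079180212321849026627260706333721864899715959056420726561415250744826855680,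 156746911421912839674544802770239338518419464593851914806469971755696777004696337439003997995698020330517758946448620729317031560675840, 153929835689722121139480953046535847615324981338105964790455070652569318301601039669556045911192545003724652930488328125452732283879425]
theorem E7_up7 : Finite E7_M7.Group ∧ Nat.card E7_M7.Group ≤ 2903040 := by
  have hfin := E6_up6.1
  have h := card_le_mul E7_M7 E6_M6 (by intro i j; fin_cases i <;> fin_cases j <;> rfl) E7_Mn (by intro a b; fin_cases a <;> fin_cases b <;> rfl) 56 (look E7_T7)
    (by decide) (by decide +kernel) (by decide +kernel) (by decide +kernel)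
  refine ⟨h.1, h.2.trans ?_⟩
  calc 56 * Nat.card E6_M6.Group ≤ 56 * 51840 := Nat.mul_le_mul_left _ E6_up6.2
    _ = 2903040 := by norm_num

def E7_R : List ℕ := [156757958777725342248586040234525858982697208966234090460899535014989854513914360457446952996337465119881632778135440598148617529852160, 156757958777066858325016619504448930570409468162702395825256381784864215025797334050209484081629835722385470389316708610194685749756160, 156757958776395513783325092386428639062357540772672899429664753149515679074251070255549129539215478959046342049701216878309503005753600, 156757958609156080254428516869844831854985010455283590110195705993722679944554084013243309883467852252737319081301484682399404158746880, 156757915623991709668822391208794589200471050416353759956567079180212321849026627260706333721864899715959056420726561415250744826855680, 156746911421912839674544802770239338518419464593851914806469971755696777004696337439003997995698020330517758946448620729317031560675840, 153929835689722121139480953046535847615324981338105964790455070652569318301601039669556045911192545003724652930488328125452732283879425]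
theorem E7_perm : ∀ i < 7, ∀ y < 56, look E7_R i y < 56 ∧ look E7_R i (look E7_R i y) = y := by
  decide +kernel
theorem E7_rel : ∀ i < 7, ∀ j < 7, ∀ y < 56, walk (look E7_R) j i (2 * E7_Mn i j) y = y := by
  decide +kernel
abbrev E7_p : Fin 7 → Equiv.Perm (Fin 56) := gens 56 7 (look E7_R) E7_perm
theorem E7_liftable : (CoxeterMatrix.E₇).IsLiftable E7_p :=
  liftable_of_walk _ E7_Mn (by intro a b; fin_cases a <;> fin_cases b <;> rfl) (look E7_R) E7_perm E7_rel
def E7_P1 : ℕ := 2054
def E7_P2 : ℕ := 1284
def E7_P3 : ℕ := 658189
def E7_P4 : ℕ := 61594401580157621306371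
def E7_P5 : ℕ := 29341995179366108923915735837360521986
def E7_P6 : ℕ := 15275748327937453459292897689756455956837714492643307824634593793
def E7_P7 : ℕ := 156757958777725352296250935514361792999238238251118008110536233038205080761280930053464102963626608895411512541426787840674959680733440
theorem E7_lo : 2903040 ≤ Nat.card (Qk E7_p 7) := by
  have h0 := card_Qk_zero E7_p
  have h1 : 2 * Nat.card (Qk E7_p 0) ≤ Nat.card (Qk E7_p 1) :=
    card_ge_step (look E7_R) E7_perm 0 2 (look1 E7_P1)
      (by decide +kernel) (by decide +kernel) (by decide +kernel) (by decide +kernel)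
  have h2 : 2 * Nat.card (Qk E7_p 1) ≤ Nat.card (Qk E7_p 2) :=
    card_ge_step (look E7_R) E7_perm 1 2 (look1 E7_P2)
      (by decide +kernel) (by decide +kernel) (by decide +kernel) (by decide +kernel)
  have h3 : 3 * Nat.card (Qk E7_p 2) ≤ Nat.card (Qk E7_p 3) :=
    card_ge_step (look E7_R) E7_perm 2 3 (look1 E7_P3)
      (by decide +kernel) (by decide +kernel) (by decide +kernel) (by decide +kernel)
  have h4 : 10 * Nat.card (Qk E7_p 3) ≤ Nat.card (Qk E7_p 4) :=
    card_ge_step (look E7_R) E7_perm 3 10 (look1 E7_P4)
      (by decide +kernel) (by decide +kernel) (by decide +kernel) (by decide +kernel)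
  have h5 : 16 * Nat.card (Qk E7_p 4) ≤ Nat.card (Qk E7_p 5) :=
    card_ge_step (look E7_R) E7_perm 4 16 (look1 E7_P5)
      (by decide +kernel) (by decide +kernel) (by decide +kernel) (by decide +kernel)
  have h6 : 27 * Nat.card (Qk E7_p 5) ≤ Nat.card (Qk E7_p 6) :=
    card_ge_step (look E7_R) E7_perm 5 27 (look1 E7_P6)
      (by decide +kernel) (by decide +kernel) (by decide +kernel) (by decide +kernel)
  have h7 : 56 * Nat.card (Qk E7_p 6) ≤ Nat.card (Qk E7_p 7) :=
    card_ge_step (look E7_R) E7_perm 6 56 (look1 E7_P7)
      (by decide +kernel) (by decide +kernel) (by decide +kernel) (by decide +kernel)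
  omega

theorem E7_card : Nat.card (CoxeterMatrix.E₇).Group = 2903040 := by
  have hfin : Finite (CoxeterMatrix.E₇).Group := E7_up7.1
  have h1 := card_ge_of_action (CoxeterMatrix.E₇) E7_p E7_liftable
  have h2 := E7_lo
  have h3 : Nat.card (CoxeterMatrix.E₇).Group ≤ 2903040 := E7_up7.2
  omega

theorem E7_inj : Function.Injective ((CoxeterMatrix.E₇).toCoxeterSystem.lift ⟨E7_p, E7_liftable⟩) := by
  have hfin : Finite (CoxeterMatrix.E₇).Group := E7_up7.1
  apply injective_of_card
  have h2 := E7_lo
  have h3 : Nat.card (CoxeterMatrix.E₇).Group ≤ 2903040 := E7_up7.2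
  omega


/-! ### Type E8 -/
def E8_Mn : ℕ → ℕ → ℕ := mlook [[1, 2, 3, 2, 2, 2, 2, 2], [2, 1, 2, 3, 2, 2, 2, 2], [3, 2, 1, 3, 2, 2, 2, 2], [2, 3, 3, 1, 3, 2, 2, 2], [2, 2, 2, 3, 1, 3, 2, 2], [2, 2, 2, 2, 3, 1, 3, 2], [2, 2, 2, 2, 2, 3, 1, 3], [2, 2, 2, 2, 2, 2, 3, 1]]
abbrev E8_M8 : CoxeterMatrix (Fin 8) := CoxeterMatrix.E₈
def E8_T8 : List ℕ := [89010710832726081253079331660979927910738139348250157015067863088717757154310675761140542669472743466480479445232145984916397180312137125086278194576990777010225176562798877952564394841370768717077430002616577803182473157871405501418403216316646113033621335412408918647741328208830231309749687695145693479216804940987171889492608935744626218074809108212854393974940056278651068056524262837493532140916271246367766135725981457272311498170396228816391478719580541791010684269227076953191659608079716015082453032750201259386088963480829474875328986997461247292300729895429060296960, 89010710832725745160573664327011865655001534195172156572029841823658207043231101043802628421921106830820596304422421317916365731339148311099118156091552032768052749800936893722238863459242903602066052674649311454638870308919610737695631439850121415556421755401047893425885406630231936187911698949312903457021608009322224789828904352407647578748832712751322788583890075032190668581173632455960337638476507605507091754517361869844024683750491297439236307071527961790087919949776068437252672927273739175231361404614268020690124539330156985917535811968215798081600529533688539644160,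 89010710832725402503963370627364295535526243015298607720203138388088637365769298447309234922099636652628348390238353580383200998594676370555720707503927908793706236790573201821053711182041563541460687449652229342570526387967529471056195326576030969474378205385490726534178970814684624007031138469673240435877308467731969823307603428626509971949246185419030926345789057091119817046957404686416414072966610646446665143868118977979809090438877435855977447406062237351592367730610043421384504111996747352804511589093607623756986762479872381024853535629217352854616913376959090786560, 89010710832640042910130877206708003749349610260806860228615476707521639412999621624136243410890099550295999371546899742044953127578143394138412304511063266077750055471037771434985094932733828567853417974424534737440391081970025492170683333504004647549303129551017993181816534318053234969632442459471171472322958958151580610157650206769295376867532388729443024778298343187551267650437572991721555535106833475772311902737852580937802243341788334158493689947287813248816311912124689756212793079699244884313142787429127544085793965507334345058105239667088144767415794074021729009920,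 89010710810700264150582695879341347570602379639193712775311131494705267005467256417672972516130707027641272670499857506364556314413365910106844130183277556654555157157589973286414576495382358348751340812622970834430037622382482898841242477459535875755081285688992938906838564085580194674000720177745601772980687998638192790563005220109659726726096972908414256933601375281297676028713014200539248185622909514389545026221822017710258168673419390244577778195333212451218536174944495415726537171977727659927722687435799347653039636826786080386538862230650927073065225153698198585600, 89010705194116901706207898348262833316819273222936357638137612170049419181808009805050148501756882014052811331868236070135401196245721363126294025469182652191077678989204395424166771381287815872375665624230612170707887155723865931688857599765374110372060327379378632921180469949338753556681027974751023340537017912577617346810884890083431405196500266192333241786478468938406008034669488873095504086529266017540266949264646554445209593797113997554972443126216674526925600934368198225887169356792230052083239119209669790118298797121935275144589933084693701284667506412769201291520,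 89009267348776115946259729774853842860623865006537613671896692136821199477515671748239901582709068039123905188079288616485677621204664182690799205419704713969298316402361291377463631387307842123824816506314272786097356710457216781231765426096882799816157991450823156657925662942594748014929599516353403847839256678298476699410071340026712495865272731902373716457151706519977115725415149880507933000779461637045803973724935878245619137459719909472973709217714650128263931385754393887714013311822530463451046604827324751380106489031479666528040008012852142582034974872094430528000, 88641178941534961399528574982138238545009766446908023463409241110158317936682356471617633603174630474096410721676928762109057451723967480760488752786115614103825220803087670216954915848673154407946683689811272789384193844601854938040247186807725488887106964406024991535107448763231100192255586321037215524907197107539801416774221345695381422475744379110681344642604809461168923280172265326295488071939935737768634204425527249392605223905464488185283470819312050649868202355840080816383269232997040547004719210216720483947879020412282081345680059604537367862608213191634035277825]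
theorem E8_up8 : Finite E8_M8.Group ∧ Nat.card E8_M8.Group ≤ 696729600 := by
  have hfin := E7_up7.1
  have h := card_le_mul E8_M8 E7_M7 (by intro i j; fin_cases i <;> fin_cases j <;> rfl) E8_Mn (by intro a b; fin_cases a <;> fin_cases b <;> rfl) 240 (look E8_T8)
    (by decide) (by decide +kernel) (by decide +kernel) (by decide +kernel)
  refine ⟨h.1, h.2.trans ?_⟩
  calc 240 * Nat.card E7_M7.Group ≤ 240 * 2903040 := Nat.mul_le_mul_left _ E7_up7.2
    _ = 696729600 := by norm_num

def E8_R : List ℕ := [89010710832726081253079331660979927910738139348250157015067863088717757154310675761140542669472743466480479445232145984916397180312137125086278194576990777010225176562798877952564394841370768717077430002616577803182473157871405501418403216316646113033621335412408918647741328208830231309749687695145693479216804940987171889492608935744626218074809108212854393974940056278651068056524262837493532140916271246367766135725981457272311498170396228816391478719580541791010684269227076953191659608079716015082453032750201259386088963480829474875328986997461247292300729895429060296960, 89010710832725745160573664327011865655001534195172156572029841823658207043231101043802628421921106830820596304422421317916365731339148311099118156091552032768052749800936893722238863459242903602066052674649311454638870308919610737695631439850121415556421755401047893425885406630231936187911698949312903457021608009322224789828904352407647578748832712751322788583890075032190668581173632455960337638476507605507091754517361869844024683750491297439236307071527961790087919949776068437252672927273739175231361404614268020690124539330156985917535811968215798081600529533688539644160,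 89010710832725402503963370627364295535526243015298607720203138388088637365769298447309234922099636652628348390238353580383200998594676370555720707503927908793706236790573201821053711182041563541460687449652229342570526387967529471056195326576030969474378205385490726534178970814684624007031138469673240435877308467731969823307603428626509971949246185419030926345789057091119817046957404686416414072966610646446665143868118977979809090438877435855977447406062237351592367730610043421384504111996747352804511589093607623756986762479872381024853535629217352854616913376959090786560, 89010710832640042910130877206708003749349610260806860228615476707521639412999621624136243410890099550295999371546899742044953127578143394138412304511063266077750055471037771434985094932733828567853417974424534737440391081970025492170683333504004647549303129551017993181816534318053234969632442459471171472322958958151580610157650206769295376867532388729443024778298343187551267650437572991721555535106833475772311902737852580937802243341788334158493689947287813248816311912124689756212793079699244884313142787429127544085793965507334345058105239667088144767415794074021729009920,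 89010710810700264150582695879341347570602379639193712775311131494705267005467256417672972516130707027641272670499857506364556314413365910106844130183277556654555157157589973286414576495382358348751340812622970834430037622382482898841242477459535875755081285688992938906838564085580194674000720177745601772980687998638192790563005220109659726726096972908414256933601375281297676028713014200539248185622909514389545026221822017710258168673419390244577778195333212451218536174944495415726537171977727659927722687435799347653039636826786080386538862230650927073065225153698198585600, 89010705194116901706207898348262833316819273222936357638137612170049419181808009805050148501756882014052811331868236070135401196245721363126294025469182652191077678989204395424166771381287815872375665624230612170707887155723865931688857599765374110372060327379378632921180469949338753556681027974751023340537017912577617346810884890083431405196500266192333241786478468938406008034669488873095504086529266017540266949264646554445209593797113997554972443126216674526925600934368198225887169356792230052083239119209669790118298797121935275144589933084693701284667506412769201291520,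 89009267348776115946259729774853842860623865006537613671896692136821199477515671748239901582709068039123905188079288616485677621204664182690799205419704713969298316402361291377463631387307842123824816506314272786097356710457216781231765426096882799816157991450823156657925662942594748014929599516353403847839256678298476699410071340026712495865272731902373716457151706519977115725415149880507933000779461637045803973724935878245619137459719909472973709217714650128263931385754393887714013311822530463451046604827324751380106489031479666528040008012852142582034974872094430528000, 88641178941534961399528574982138238545009766446908023463409241110158317936682356471617633603174630474096410721676928762109057451723967480760488752786115614103825220803087670216954915848673154407946683689811272789384193844601854938040247186807725488887106964406024991535107448763231100192255586321037215524907197107539801416774221345695381422475744379110681344642604809461168923280172265326295488071939935737768634204425527249392605223905464488185283470819312050649868202355840080816383269232997040547004719210216720483947879020412282081345680059604537367862608213191634035277825]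
theorem E8_perm : ∀ i < 8, ∀ y < 240, look E8_R i y < 240 ∧ look E8_R i (look E8_R i y) = y := by
  decide +kernel
theorem E8_rel : ∀ i < 8, ∀ j < 8, ∀ y < 240, walk (look E8_R) j i (2 * E8_Mn i j) y = y := by
  decide +kernel
abbrev E8_p : Fin 8 → Equiv.Perm (Fin 240) := gens 240 8 (look E8_R) E8_perm
theorem E8_liftable : (CoxeterMatrix.E₈).IsLiftable E8_p :=
  liftable_of_walk _ E8_Mn (by intro a b; fin_cases a <;> fin_cases b <;> rfl) (look E8_R) E8_perm E8_rel
def E8_P1 : ℕ := 2311
def E8_P2 : ℕ := 1541
def E8_P3 : ℕ := 723982
def E8_P4 : ℕ := 66335287147273814148356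
def E8_P5 : ℕ := 32005663829742940339813168809137996803
def E8_P6 : ℕ := 18989413632096839816504546895976364419515117488641862188902122242
def E8_P7 : ℕ := 319160724257018624740115265289662165269101234827632112791606987785319016127703298070000443132826804709228481132876911038702897875583489
def E8_P8 : ℕ := 89010710832726081258207695087766453073629556791391768623964036641463781225319539999760816729146042662139856895288843475399930256946480439637739066162892605185881182929479613401054641107877698757969107253890245589956613359210320374917877731592014193402259949946128396956633072395924321534420469800531052439094200570155767733681287974668223750225911458588254329781695355120139947893117782091808445735451721969873827358875130945132543972207753132841710629753731791564795525546105515388187074320385850351897433657374125069562887084093570600870309738545236627213837110175471922970880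
theorem E8_lo : 696729600 ≤ Nat.card (Qk E8_p 8) := by
  have h0 := card_Qk_zero E8_p
  have h1 : 2 * Nat.card (Qk E8_p 0) ≤ Nat.card (Qk E8_p 1) :=
    card_ge_step (look E8_R) E8_perm 0 2 (look1 E8_P1)
      (by decide +kernel) (by decide +kernel) (by decide +kernel) (by decide +kernel)
  have h2 : 2 * Nat.card (Qk E8_p 1) ≤ Nat.card (Qk E8_p 2) :=
    card_ge_step (look E8_R) E8_perm 1 2 (look1 E8_P2)
      (by decide +kernel) (by decide +kernel) (by decide +kernel) (by decide +kernel)
  have h3 : 3 * Nat.card (Qk E8_p 2) ≤ Nat.card (Qk E8_p 3) :=
    card_ge_step (look E8_R) E8_perm 2 3 (look1 E8_P3)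
      (by decide +kernel) (by decide +kernel) (by decide +kernel) (by decide +kernel)
  have h4 : 10 * Nat.card (Qk E8_p 3) ≤ Nat.card (Qk E8_p 4) :=
    card_ge_step (look E8_R) E8_perm 3 10 (look1 E8_P4)
      (by decide +kernel) (by decide +kernel) (by decide +kernel) (by decide +kernel)
  have h5 : 16 * Nat.card (Qk E8_p 4) ≤ Nat.card (Qk E8_p 5) :=
    card_ge_step (look E8_R) E8_perm 4 16 (look1 E8_P5)
      (by decide +kernel) (by decide +kernel) (by decide +kernel) (by decide +kernel)
  have h6 : 27 * Nat.card (Qk E8_p 5) ≤ Nat.card (Qk E8_p 6) :=
    card_ge_step (look E8_R) E8_perm 5 27 (look1 E8_P6)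
      (by decide +kernel) (by decide +kernel) (by decide +kernel) (by decide +kernel)
  have h7 : 56 * Nat.card (Qk E8_p 6) ≤ Nat.card (Qk E8_p 7) :=
    card_ge_step (look E8_R) E8_perm 6 56 (look1 E8_P7)
      (by decide +kernel) (by decide +kernel) (by decide +kernel) (by decide +kernel)
  have h8 : 240 * Nat.card (Qk E8_p 7) ≤ Nat.card (Qk E8_p 8) :=
    card_ge_step (look E8_R) E8_perm 7 240 (look1 E8_P8)
      (by decide +kernel) (by decide +kernel) (by decide +kernel) (by decide +kernel)
  omega

theorem E8_card : Nat.card (CoxeterMatrix.E₈).Group = 696729600 := by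
  have hfin : Finite (CoxeterMatrix.E₈).Group := E8_up8.1
  have h1 := card_ge_of_action (CoxeterMatrix.E₈) E8_p E8_liftable
  have h2 := E8_lo
  have h3 : Nat.card (CoxeterMatrix.E₈).Group ≤ 696729600 := E8_up8.2
  omega

theorem E8_inj : Function.Injective ((CoxeterMatrix.E₈).toCoxeterSystem.lift ⟨E8_p, E8_liftable⟩) := by
  have hfin : Finite (CoxeterMatrix.E₈).Group := E8_up8.1
  apply injective_of_card
  have h2 := E8_lo
  have h3 : Nat.card (CoxeterMatrix.E₈).Group ≤ 696729600 := E8_up8.2
  omega


end Cfsg.Agent.Lib_helper8_CoxData
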