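import Mathlib
import Cfsg.Agent.Lib_helper8_CoxTable

set_option autoImplicit false

/-! Coxeter elements and centres of Coxeter groups through a faithful permutation
representation given by tables. -/

namespace Cfsg.Agent.Lib_helper8_CoxTable2
open Cfsg.Agent.Lib_helper8_CoxTable

variable {D n : ℕ}

/-- The action of the Coxeter element `s₀ s₁ ⋯ s_{n-1}` on points. -/
def cstep (n : ℕ) (ρ : ℕ → ℕ → ℕ) (y : ℕ) : ℕ := (List.range n).foldr (fun i acc => ρ i acc) y

theorem prod_val (ρ : ℕ → ℕ → ℕ) (h : ∀ i < n, ∀ y < D, ρ i y < D ∧ ρ i (ρ i y) = y)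
    (L : List (Fin n)) (z : Fin D) :
    (((L.map (gens D n ρ h)).prod) z).val = L.foldr (fun i acc => ρ i.val acc) z.val := by
  induction L with
  | nil => rfl
  | cons a L ih =>
    rw [List.map_cons, List.prod_cons, List.foldr_cons, ← ih]
    rfl

theorem cox_val (ρ : ℕ → ℕ → ℕ) (h : ∀ i < n, ∀ y < D, ρ i y < D ∧ ρ i (ρ i y) = y)
    (z : Fin D) :
    ((((List.finRange n).map (gens D n ρ h)).prod) z).val = cstep n ρ z.val := by
  rw [prod_val, cstep, ← List.map_coe_finRange_eq_range, List.foldr_map]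

theorem cox_pow_val (ρ : ℕ → ℕ → ℕ) (h : ∀ i < n, ∀ y < D, ρ i y < D ∧ ρ i (ρ i y) = y)
    (m : ℕ) (z : Fin D) :
    (((((List.finRange n).map (gens D n ρ h)).prod) ^ m) z).val = (cstep n ρ)^[m] z.val := by
  induction m with
  | zero => rfl
  | succ m ih =>
    rw [pow_succ', Function.iterate_succ_apply', ← ih, ← cox_val ρ h]
    rfl

theorem lift_cox (M : CoxeterMatrix (Fin n)) (p : Fin n → Equiv.Perm (Fin D))
    (hp : M.IsLiftable p) :
    M.toCoxeterSystem.lift ⟨p, hp⟩ ((List.finRange n).map M.simple).prod =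
      ((List.finRange n).map p).prod := by
  rw [map_list_prod, List.map_map]
  have e : (⇑(M.toCoxeterSystem.lift ⟨p, hp⟩) ∘ M.simple) = p :=
    funext fun i => M.toCoxeterSystem.lift_apply_simple hp i
  rw [e]

/-- Order of the Coxeter element from the tables. -/
theorem orderOf_cox (M : CoxeterMatrix (Fin n)) (ρ : ℕ → ℕ → ℕ)
    (h : ∀ i < n, ∀ y < D, ρ i y < D ∧ ρ i (ρ i y) = y)
    (hp : M.IsLiftable (gens D n ρ h))
    (hinj : Function.Injective (M.toCoxeterSystem.lift ⟨gens D n ρ h, hp⟩))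
    (e : ℕ) (he : 0 < e)
    (h1 : ∀ y < D, (cstep n ρ)^[e] y = y)
    (h2 : ∀ m < e, 0 < m → ∃ y < D, (cstep n ρ)^[m] y ≠ y) :
    orderOf ((List.finRange n).map M.simple).prod = e := by
  rw [← orderOf_injective _ hinj, lift_cox, orderOf_eq_iff he]
  constructor
  · apply Equiv.ext
    intro z
    apply Fin.ext
    rw [cox_pow_val, h1 z.val z.2]
    rfl
  · intro m hm hm0 hcon
    obtain ⟨y, hy, hne⟩ := h2 m hm hm0
    apply hne
    have := cox_pow_val ρ h m ⟨y, hy⟩
    rw [hcon] at this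
    exact this.symm

/-- Injectivity of the lift from a chain bound on possibly reordered generators. -/
theorem injective_of_card' (M : CoxeterMatrix (Fin n)) [Finite M.Group]
    (p : Fin n → Equiv.Perm (Fin D)) (hp : M.IsLiftable p) {n' : ℕ}
    (p' : Fin n' → Equiv.Perm (Fin D)) (k : ℕ) (hsub : ∀ i, ∃ j, p' i = p j)
    (h : Nat.card M.Group ≤ Nat.card (Qk p' k)) :
    Function.Injective (M.toCoxeterSystem.lift ⟨p, hp⟩) := by
  have hτ : ∀ i, M.toCoxeterSystem.lift ⟨p, hp⟩ (M.toCoxeterSystem.simple i) = p i :=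
    fun i => M.toCoxeterSystem.lift_apply_simple hp i
  have hle : Qk p' k ≤ (M.toCoxeterSystem.lift ⟨p, hp⟩).range := by
    rw [Qk, Subgroup.closure_le]
    rintro _ ⟨i, _, rfl⟩
    obtain ⟨j, hj⟩ := hsub i
    rw [hj]
    exact ⟨_, hτ j⟩
  have h1 : Nat.card (Qk p' k) ≤ Nat.card (M.toCoxeterSystem.lift ⟨p, hp⟩).range :=
    Nat.card_le_card_of_injective (Subgroup.inclusion hle) (Subgroup.inclusion_injective hle)
  have hbij := (M.toCoxeterSystem.lift ⟨p, hp⟩).rangeRestrict_surjective.bijective_of_nat_card_le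
    (h.trans h1)
  intro a b hab
  apply hbij.1
  exact Subtype.ext hab

section Center

variable (M : CoxeterMatrix (Fin n)) (ρ : ℕ → ℕ → ℕ)
  (h : ∀ i < n, ∀ y < D, ρ i y < D ∧ ρ i (ρ i y) = y)
  (hp : M.IsLiftable (gens D n ρ h))
  (hinj : Function.Injective (M.toCoxeterSystem.lift ⟨gens D n ρ h, hp⟩))
  (hD : 0 < D)
  (htrans : ∀ y < D, 0 < y → ∃ y' < y, ∃ i < n, ρ i y' = y)

include hinj htrans in
theorem eq_one_of_fix (w : M.Group) (hw : w ∈ Subgroup.center M.Group)
    (h0 : (M.toCoxeterSystem.lift ⟨gens D n ρ h, hp⟩ w ⟨0, hD⟩).val = 0) : w = 1 := by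
  have hcomm : ∀ (i : Fin n) (z : Fin D),
      M.toCoxeterSystem.lift ⟨gens D n ρ h, hp⟩ w (gens D n ρ h i z) =
        gens D n ρ h i (M.toCoxeterSystem.lift ⟨gens D n ρ h, hp⟩ w z) := by
    intro i z
    have e1 := Subgroup.mem_center_iff.1 hw (M.toCoxeterSystem.simple i)
    have e2 := congrArg (M.toCoxeterSystem.lift ⟨gens D n ρ h, hp⟩) e1
    rw [map_mul, map_mul, M.toCoxeterSystem.lift_apply_simple hp i] at e2
    exact (congrArg (fun π : Equiv.Perm (Fin D) => π z) e2).symm
  have hall : ∀ y (hy : y < D),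
      (M.toCoxeterSystem.lift ⟨gens D n ρ h, hp⟩ w ⟨y, hy⟩).val = y := by
    intro y
    induction y using Nat.strong_induction_on with
    | _ y ih =>
      intro hy
      rcases Nat.eq_zero_or_pos y with hy0 | hypos
      · subst hy0
        exact h0
      · obtain ⟨y', hy', i, hi, he⟩ := htrans y hy hypos
        have hy'D : y' < D := by omega
        have e1 : (⟨y, hy⟩ : Fin D) = gens D n ρ h ⟨i, hi⟩ ⟨y', hy'D⟩ := Fin.ext he.symm
        rw [e1, hcomm, gens_val, ih y' hy' hy'D]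
        exact he
  apply hinj
  rw [map_one]
  apply Equiv.ext
  intro z
  apply Fin.ext
  exact hall z.val z.2

include hinj htrans hD in
/-- Trivial centre: only the base point is fixed by the generators fixing the base point. -/
theorem center_trivial
    (hF : ∀ y < D, (∀ i < n, ρ i 0 = 0 → ρ i y = y) → y = 0) :
    Nat.card (Subgroup.center M.Group) = 1 ∧
      Subgroup.center M.Group ≤ Subgroup.zpowers ((List.finRange n).map M.simple).prod := by
  have hbot : Subgroup.center M.Group = ⊥ := by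
    rw [eq_bot_iff]
    intro w hw
    rw [Subgroup.mem_bot]
    apply eq_one_of_fix M ρ h hp hinj hD htrans w hw
    apply hF _ (M.toCoxeterSystem.lift ⟨gens D n ρ h, hp⟩ w ⟨0, hD⟩).2
    intro i hi hi0
    have e1 := Subgroup.mem_center_iff.1 hw (M.toCoxeterSystem.simple ⟨i, hi⟩)
    have e2 := congrArg (M.toCoxeterSystem.lift ⟨gens D n ρ h, hp⟩) e1
    rw [map_mul, map_mul, M.toCoxeterSystem.lift_apply_simple hp ⟨i, hi⟩] at e2
    have e3 := congrArg (fun π : Equiv.Perm (Fin D) => (π ⟨0, hD⟩).val) e2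
    have e4 : gens D n ρ h ⟨i, hi⟩ ⟨0, hD⟩ = ⟨0, hD⟩ := Fin.ext hi0
    simp only [Equiv.Perm.coe_mul, Function.comp_apply] at e3
    rw [e4] at e3
    rw [← gens_val ρ h ⟨i, hi⟩]
    exact e3
  rw [hbot]
  exact ⟨Subgroup.card_bot, bot_le⟩

include hinj htrans hD in
/-- Centre of order two generated by a power of the Coxeter element. -/
theorem center_two (e y₁ : ℕ) (hy₁ : y₁ ≠ 0)
    (hF : ∀ y < D, (∀ i < n, ρ i 0 = 0 → ρ i y = y) → y = 0 ∨ y = y₁)
    (hz0 : (cstep n ρ)^[e] 0 = y₁)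
    (hcomm : ∀ i < n, ∀ y < D, (cstep n ρ)^[e] (ρ i y) = ρ i ((cstep n ρ)^[e] y)) :
    Nat.card (Subgroup.center M.Group) = 2 ∧
      Subgroup.center M.Group ≤ Subgroup.zpowers ((List.finRange n).map M.simple).prod := by
  classical
  obtain ⟨τ, hτ⟩ : ∃ τ : M.Group →* Equiv.Perm (Fin D),
      τ = M.toCoxeterSystem.lift ⟨gens D n ρ h, hp⟩ := ⟨_, rfl⟩
  have hτs : ∀ i, τ (M.toCoxeterSystem.simple i) = gens D n ρ h i := by
    intro i
    rw [hτ]
    exact M.toCoxeterSystem.lift_apply_simple hp i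
  have hτinj : Function.Injective τ := hτ ▸ hinj
  obtain ⟨c, hc⟩ : ∃ c : M.Group, c = ((List.finRange n).map M.simple).prod := ⟨_, rfl⟩
  have hτc : ∀ (m : ℕ) (z : Fin D), (τ (c ^ m) z).val = (cstep n ρ)^[m] z.val := by
    intro m z
    rw [map_pow, hc, hτ, lift_cox]
    exact cox_pow_val ρ h m z
  -- z₀ is central
  have hz0c : c ^ e ∈ Subgroup.center M.Group := by
    rw [Subgroup.mem_center_iff]
    intro g
    have hgen : ∀ i : Fin n, M.toCoxeterSystem.simple i * c ^ e = c ^ e * M.toCoxeterSystem.simple i := by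
      intro i
      apply hτinj
      rw [map_mul, map_mul, hτs]
      apply Equiv.ext
      intro z
      apply Fin.ext
      show (gens D n ρ h i (τ (c ^ e) z)).val = (τ (c ^ e) (gens D n ρ h i z)).val
      rw [gens_val, hτc, hτc, gens_val]
      exact (hcomm i.val i.2 z.val z.2).symm
    exact M.toCoxeterSystem.simple_induction (p := fun g => g * c ^ e = c ^ e * g) g hgen
      (by rw [one_mul, mul_one])
      (fun a b ha hb => by rw [mul_assoc, hb, ← mul_assoc, ha, mul_assoc])
  have hz0val : (τ (c ^ e) ⟨0, hD⟩).val = y₁ := by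
    rw [hτc]
    exact hz0
  have hmem : ∀ w ∈ Subgroup.center M.Group, w = 1 ∨ w = c ^ e := by
    intro w hw
    have hfix : ∀ i < n, ρ i 0 = 0 → ρ i (τ w ⟨0, hD⟩).val = (τ w ⟨0, hD⟩).val := by
      intro i hi hi0
      have e1 := Subgroup.mem_center_iff.1 hw (M.toCoxeterSystem.simple ⟨i, hi⟩)
      have e2 := congrArg τ e1
      rw [map_mul, map_mul, hτs] at e2
      have e3 := congrArg (fun π : Equiv.Perm (Fin D) => (π ⟨0, hD⟩).val) e2
      have e4 : gens D n ρ h ⟨i, hi⟩ ⟨0, hD⟩ = ⟨0, hD⟩ := Fin.ext hi0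
      simp only [Equiv.Perm.coe_mul, Function.comp_apply] at e3
      rw [e4] at e3
      rw [← gens_val ρ h ⟨i, hi⟩]
      exact e3
    rcases hF _ (τ w ⟨0, hD⟩).2 hfix with h0 | h1
    · left
      exact eq_one_of_fix M ρ h hp hinj hD htrans w hw (hτ ▸ h0)
    · right
      have hw' : w⁻¹ * c ^ e ∈ Subgroup.center M.Group :=
        Subgroup.mul_mem _ (Subgroup.inv_mem _ hw) hz0c
      have hval : (τ (w⁻¹ * c ^ e) ⟨0, hD⟩).val = 0 := by
        rw [map_mul, map_inv]
        show ((τ w)⁻¹ (τ (c ^ e) ⟨0, hD⟩)).val = 0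
        have e5 : τ (c ^ e) ⟨0, hD⟩ = τ w ⟨0, hD⟩ := Fin.ext (by rw [hz0val, h1])
        rw [e5]
        exact congrArg Fin.val ((τ w).symm_apply_apply ⟨0, hD⟩)
      have := eq_one_of_fix M ρ h hp hinj hD htrans _ hw' (hτ ▸ hval)
      exact (inv_mul_eq_one.1 this)
  have hne : (1 : M.Group) ≠ c ^ e := by
    intro hcon
    have := hz0val
    rw [← hcon, map_one] at this
    exact hy₁ this.symm
  have hset : (Subgroup.center M.Group : Set M.Group) = {1, c ^ e} := by
    ext w
    constructor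
    · intro hw
      rcases hmem w hw with h1 | h2
      · left; exact h1
      · right; exact h2
    · rintro (h1 | h2)
      · rw [h1]; exact Subgroup.one_mem _
      · rw [h2]; exact hz0c
  constructor
  · have : Nat.card (Subgroup.center M.Group) = (Subgroup.center M.Group : Set M.Group).ncard := rfl
    rw [this, hset, Set.ncard_pair hne]
  · intro w hw
    rcases hmem w hw with h1 | h2
    · rw [h1]; exact Subgroup.one_mem _
    · rw [h2, ← hc]
      exact Subgroup.pow_mem _ (Subgroup.mem_zpowers c) e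

end Center

/-- Orbit step adding several generators at once. -/
theorem card_ge_step' (ρ : ℕ → ℕ → ℕ) (h : ∀ i < n, ∀ y < D, ρ i y < D ∧ ρ i (ρ i y) = y)
    (k k' N : ℕ) (hkk : k ≤ k') (pts : ℕ → ℕ)
    (h1 : ∀ t < N, pts t < D)
    (h2 : ∀ i < k, i < n → ρ i (pts 0) = pts 0)
    (h3 : ∀ t < N, 0 < t → ∃ t' < t, ∃ i < k', i < n ∧ ρ i (pts t') = pts t)
    (h4 : ∀ t < N, ∀ t' < t, pts t' ≠ pts t) :
    N * Nat.card (Qk (gens D n ρ h) k) ≤ Nat.card (Qk (gens D n ρ h) k') := by
  classical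
  rcases Nat.eq_zero_or_pos N with hN0 | hNpos
  · subst hN0
    simp
  have hD0 : pts 0 < D := h1 0 hNpos
  obtain ⟨y, hy⟩ : ∃ y : Fin D, y.val = pts 0 := ⟨⟨pts 0, hD0⟩, rfl⟩
  have hle : Qk (gens D n ρ h) k ≤ Qk (gens D n ρ h) k' :=
    Subgroup.closure_mono (Set.image_mono (fun i (hi : i.val < k) => lt_of_lt_of_le hi hkk))
  have hfix : ∀ q ∈ Qk (gens D n ρ h) k, q y = y := by
    intro q hq
    have hsub : Qk (gens D n ρ h) k ≤ MulAction.stabilizer (Equiv.Perm (Fin D)) y := by
      rw [Qk, Subgroup.closure_le]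
      rintro _ ⟨i, hi, rfl⟩
      show gens D n ρ h i y = y
      apply Fin.ext
      rw [gens_val, hy]
      exact h2 i.val hi i.2
    exact hsub hq
  have hreach : ∀ t < N, ∃ g ∈ Qk (gens D n ρ h) k', (g y).val = pts t := by
    intro t
    induction t using Nat.strong_induction_on with
    | _ t ih =>
      intro ht
      rcases Nat.eq_zero_or_pos t with h0 | hpos
      · subst h0
        exact ⟨1, Subgroup.one_mem _, hy⟩
      · obtain ⟨t', ht', i, hi, hin, he⟩ := h3 t ht hpos
        obtain ⟨g, hg, hgy⟩ := ih t' ht' (by omega)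
        refine ⟨gens D n ρ h ⟨i, hin⟩ * g,
          Subgroup.mul_mem _ (Subgroup.subset_closure ⟨⟨i, hin⟩, hi, rfl⟩) hg, ?_⟩
        show (gens D n ρ h ⟨i, hin⟩ (g y)).val = pts t
        rw [gens_val, hgy]
        exact he
  have hos := MulAction.card_orbit_mul_card_stabilizer_eq_card_group
    (Qk (gens D n ρ h) k') y
  simp only [← Nat.card_eq_fintype_card] at hos
  have hNle : N ≤ Nat.card (MulAction.orbit (Qk (gens D n ρ h) k') y) := by
    have hmem : ∀ t : Fin N, (⟨pts t.val, h1 t.val t.2⟩ : Fin D) ∈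
        MulAction.orbit (Qk (gens D n ρ h) k') y := by
      intro t
      obtain ⟨g, hg, hgy⟩ := hreach t.val t.2
      exact ⟨⟨g, hg⟩, Fin.ext hgy⟩
    have hinj : Function.Injective (fun t : Fin N =>
        (⟨⟨pts t.val, h1 t.val t.2⟩, hmem t⟩ : MulAction.orbit (Qk (gens D n ρ h) k') y)) := by
      intro t t' hh
      have h' : pts t.val = pts t'.val := by
        have := congrArg (fun z : MulAction.orbit (Qk (gens D n ρ h) k') y =>
          (z.1 : Fin D).val) hh
        exact this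
      by_contra hne
      rcases Nat.lt_or_gt_of_ne (fun hh' => hne (Fin.ext hh')) with hlt | hgt
      · exact h4 t'.val t'.2 t.val hlt h'
      · exact h4 t.val t.2 t'.val hgt h'.symm
    have := Nat.card_le_card_of_injective _ hinj
    rwa [Nat.card_fin] at this
  have hQ : Nat.card (Qk (gens D n ρ h) k) ≤
      Nat.card (MulAction.stabilizer (Qk (gens D n ρ h) k') y) := by
    refine Nat.card_le_card_of_injective (fun q : Qk (gens D n ρ h) k =>
      (⟨⟨q.1, hle q.2⟩, hfix q.1 q.2⟩ :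
        MulAction.stabilizer (Qk (gens D n ρ h) k') y)) ?_
    intro q q' hh
    apply Subtype.ext
    have := congrArg (fun z : MulAction.stabilizer (Qk (gens D n ρ h) k') y =>
      ((z.1 : Qk (gens D n ρ h) k') : Equiv.Perm (Fin D))) hh
    exact this
  calc N * Nat.card (Qk (gens D n ρ h) k)
      ≤ Nat.card (MulAction.orbit (Qk (gens D n ρ h) k') y) *
        Nat.card (MulAction.stabilizer (Qk (gens D n ρ h) k') y) := Nat.mul_le_mul hNle hQ
    _ = Nat.card (Qk (gens D n ρ h) k') := hos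

end Cfsg.Agent.Lib_helper8_CoxTable2
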