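import Mathlib
import Cfsg.Agent.Lib_helper8_CoxData
import Cfsg.Agent.Lib_helper8_CoxTable2

set_option autoImplicit false
set_option maxRecDepth 100000
set_option synthInstance.maxSize 100000

/-! Generated: orders of Coxeter elements and centres of the Coxeter groups of types
B₂, G₂, D₄, F₄, E₆, E₇, E₈. -/

namespace Cfsg.Agent.Lib_helper8_CoxData2
open Cfsg.Agent.Lib_helper8_CoxTable Cfsg.Agent.Lib_helper8_CoxTable2 Cfsg.Agent.Lib_helper8_CoxData

/-! ### Type B2 -/
theorem B2_trans : ∀ y < 4, 0 < y → ∃ y' < y, ∃ i < 2, look B2_R i y' = y := by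
  decide +kernel
theorem B2_order : orderOf ((List.finRange 2).map (CoxeterMatrix.B 2).simple).prod = 4 :=
  orderOf_cox (CoxeterMatrix.B 2) (look B2_R) B2_perm B2_liftable B2_inj 4 (by norm_num)
    (by decide +kernel) (by decide +kernel)

theorem B2_center : Nat.card (Subgroup.center (CoxeterMatrix.B 2).Group) = 2 ∧
    Subgroup.center (CoxeterMatrix.B 2).Group ≤ Subgroup.zpowers ((List.finRange 2).map (CoxeterMatrix.B 2).simple).prod :=
  center_two (CoxeterMatrix.B 2) (look B2_R) B2_perm B2_liftable B2_inj (by norm_num) B2_trans 2 3 (by norm_num)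
    (by decide +kernel) (by decide +kernel) (by decide +kernel)


/-! ### Type G2 -/
theorem G2_trans : ∀ y < 6, 0 < y → ∃ y' < y, ∃ i < 2, look G2_R i y' = y := by
  decide +kernel
theorem G2_order : orderOf ((List.finRange 2).map (CoxeterMatrix.G₂).simple).prod = 6 :=
  orderOf_cox (CoxeterMatrix.G₂) (look G2_R) G2_perm G2_liftable G2_inj 6 (by norm_num)
    (by decide +kernel) (by decide +kernel)

theorem G2_center : Nat.card (Subgroup.center (CoxeterMatrix.G₂).Group) = 2 ∧
    Subgroup.center (CoxeterMatrix.G₂).Group ≤ Subgroup.zpowers ((List.finRange 2).map (CoxeterMatrix.G₂).simple).prod :=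
  center_two (CoxeterMatrix.G₂) (look G2_R) G2_perm G2_liftable G2_inj (by norm_num) G2_trans 3 5 (by norm_num)
    (by decide +kernel) (by decide +kernel) (by decide +kernel)


/-! ### Type D4 -/
def D4b_R : List ℕ := [506096427680858368, 505817147449082368, 506095315334725888, 434321403853012993]
def D4c_R : List ℕ := [506096427680858368, 506095315334725888, 505817147449082368, 434321403853012993]
theorem D4b_perm : ∀ i < 4, ∀ y < 8, look D4b_R i y < 8 ∧ look D4b_R i (look D4b_R i y) = y := by
  decide +kernel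
theorem D4c_perm : ∀ i < 4, ∀ y < 8, look D4c_R i y < 8 ∧ look D4c_R i (look D4c_R i y) = y := by
  decide +kernel
theorem D4b_rel : ∀ i < 4, ∀ j < 4, ∀ y < 8, walk (look D4b_R) j i (2 * D4_Mn i j) y = y := by
  decide +kernel
theorem D4b_liftable : (Cfsg.Lie.coxeterD4).IsLiftable (gens 8 4 (look D4b_R) D4b_perm) :=
  liftable_of_walk _ D4_Mn (by intro a b; fin_cases a <;> fin_cases b <;> rfl) (look D4b_R) D4b_perm D4b_rel
def D4c_P2 : ℕ := 84148994
def D4c_P3 : ℕ := 6618611909121
def D4c_P4 : ℕ := 506097522914230528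
theorem D4c_lo : 192 ≤ Nat.card (Qk (gens 8 4 (look D4c_R) D4c_perm) 4) := by
  have h0 := card_Qk_zero (gens 8 4 (look D4c_R) D4c_perm)
  have h2 : 4 * Nat.card (Qk (gens 8 4 (look D4c_R) D4c_perm) 0) ≤ Nat.card (Qk (gens 8 4 (look D4c_R) D4c_perm) 2) :=
    card_ge_step' (look D4c_R) D4c_perm 0 2 4 (by norm_num) (look1 D4c_P2)
      (by decide +kernel) (by decide +kernel) (by decide +kernel) (by decide +kernel)
  have h3 : 6 * Nat.card (Qk (gens 8 4 (look D4c_R) D4c_perm) 2) ≤ Nat.card (Qk (gens 8 4 (look D4c_R) D4c_perm) 3) :=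
    card_ge_step' (look D4c_R) D4c_perm 2 3 6 (by norm_num) (look1 D4c_P3)
      (by decide +kernel) (by decide +kernel) (by decide +kernel) (by decide +kernel)
  have h4 : 8 * Nat.card (Qk (gens 8 4 (look D4c_R) D4c_perm) 3) ≤ Nat.card (Qk (gens 8 4 (look D4c_R) D4c_perm) 4) :=
    card_ge_step' (look D4c_R) D4c_perm 3 4 8 (by norm_num) (look1 D4c_P4)
      (by decide +kernel) (by decide +kernel) (by decide +kernel) (by decide +kernel)
  omega

theorem D4b_inj : Function.Injective ((Cfsg.Lie.coxeterD4).toCoxeterSystem.lift ⟨gens 8 4 (look D4b_R) D4b_perm, D4b_liftable⟩) := by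
  have hfin : Finite (Cfsg.Lie.coxeterD4).Group := D4_up4.1
  apply injective_of_card' (Cfsg.Lie.coxeterD4) _ D4b_liftable (gens 8 4 (look D4c_R) D4c_perm) 4
  · intro i
    fin_cases i
    · exact ⟨0, rfl⟩
    · exact ⟨2, rfl⟩
    · exact ⟨1, rfl⟩
    · exact ⟨3, rfl⟩
  · have h2 := D4c_lo
    have h3 := D4_card
    omega

theorem D4_trans : ∀ y < 8, 0 < y → ∃ y' < y, ∃ i < 4, look D4b_R i y' = y := by
  decide +kernel
theorem D4_order : orderOf ((List.finRange 4).map (Cfsg.Lie.coxeterD4).simple).prod = 6 :=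
  orderOf_cox (Cfsg.Lie.coxeterD4) (look D4b_R) D4b_perm D4b_liftable D4b_inj 6 (by norm_num)
    (by decide +kernel) (by decide +kernel)

theorem D4_center : Nat.card (Subgroup.center (Cfsg.Lie.coxeterD4).Group) = 2 ∧
    Subgroup.center (Cfsg.Lie.coxeterD4).Group ≤ Subgroup.zpowers ((List.finRange 4).map (Cfsg.Lie.coxeterD4).simple).prod :=
  center_two (Cfsg.Lie.coxeterD4) (look D4b_R) D4b_perm D4b_liftable D4b_inj (by norm_num) D4_trans 3 7 (by norm_num)
    (by decide +kernel) (by decide +kernel) (by decide +kernel)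


/-! ### Type F4 -/
theorem F4_trans : ∀ y < 24, 0 < y → ∃ y' < y, ∃ i < 4, look F4_R i y' = y := by
  decide +kernel
theorem F4_order : orderOf ((List.finRange 4).map (CoxeterMatrix.F₄).simple).prod = 12 :=
  orderOf_cox (CoxeterMatrix.F₄) (look F4_R) F4_perm F4_liftable F4_inj 12 (by norm_num)
    (by decide +kernel) (by decide +kernel)

theorem F4_center : Nat.card (Subgroup.center (CoxeterMatrix.F₄).Group) = 2 ∧
    Subgroup.center (CoxeterMatrix.F₄).Group ≤ Subgroup.zpowers ((List.finRange 4).map (CoxeterMatrix.F₄).simple).prod :=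
  center_two (CoxeterMatrix.F₄) (look F4_R) F4_perm F4_liftable F4_inj (by norm_num) F4_trans 6 23 (by norm_num)
    (by decide +kernel) (by decide +kernel) (by decide +kernel)


/-! ### Type E6 -/
theorem E6_trans : ∀ y < 27, 0 < y → ∃ y' < y, ∃ i < 6, look E6_R i y' = y := by
  decide +kernel
theorem E6_order : orderOf ((List.finRange 6).map (CoxeterMatrix.E₆).simple).prod = 12 :=
  orderOf_cox (CoxeterMatrix.E₆) (look E6_R) E6_perm E6_liftable E6_inj 12 (by norm_num)
    (by decide +kernel) (by decide +kernel)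

theorem E6_center : Nat.card (Subgroup.center (CoxeterMatrix.E₆).Group) = 1 ∧
    Subgroup.center (CoxeterMatrix.E₆).Group ≤ Subgroup.zpowers ((List.finRange 6).map (CoxeterMatrix.E₆).simple).prod :=
  center_trivial (CoxeterMatrix.E₆) (look E6_R) E6_perm E6_liftable E6_inj (by norm_num) E6_trans
    (by decide +kernel)


/-! ### Type E7 -/
theorem E7_trans : ∀ y < 56, 0 < y → ∃ y' < y, ∃ i < 7, look E7_R i y' = y := by
  decide +kernel
theorem E7_order : orderOf ((List.finRange 7).map (CoxeterMatrix.E₇).simple).prod = 18 :=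
  orderOf_cox (CoxeterMatrix.E₇) (look E7_R) E7_perm E7_liftable E7_inj 18 (by norm_num)
    (by decide +kernel) (by decide +kernel)

theorem E7_center : Nat.card (Subgroup.center (CoxeterMatrix.E₇).Group) = 2 ∧
    Subgroup.center (CoxeterMatrix.E₇).Group ≤ Subgroup.zpowers ((List.finRange 7).map (CoxeterMatrix.E₇).simple).prod :=
  center_two (CoxeterMatrix.E₇) (look E7_R) E7_perm E7_liftable E7_inj (by norm_num) E7_trans 9 55 (by norm_num)
    (by decide +kernel) (by decide +kernel) (by decide +kernel)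


/-! ### Type E8 -/
theorem E8_trans : ∀ y < 240, 0 < y → ∃ y' < y, ∃ i < 8, look E8_R i y' = y := by
  decide +kernel
theorem E8_order : orderOf ((List.finRange 8).map (CoxeterMatrix.E₈).simple).prod = 30 :=
  orderOf_cox (CoxeterMatrix.E₈) (look E8_R) E8_perm E8_liftable E8_inj 30 (by norm_num)
    (by decide +kernel) (by decide +kernel)

theorem E8_center : Nat.card (Subgroup.center (CoxeterMatrix.E₈).Group) = 2 ∧
    Subgroup.center (CoxeterMatrix.E₈).Group ≤ Subgroup.zpowers ((List.finRange 8).map (CoxeterMatrix.E₈).simple).prod :=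
  center_two (CoxeterMatrix.E₈) (look E8_R) E8_perm E8_liftable E8_inj (by norm_num) E8_trans 15 239 (by norm_num)
    (by decide +kernel) (by decide +kernel) (by decide +kernel)


end Cfsg.Agent.Lib_helper8_CoxData2
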