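import Mathlib

set_option autoImplicit false

/-! Basic word manipulations in Coxeter systems. -/

namespace Cfsg.Agent.Lib_helper8_Coxeter

variable {B W : Type*} [Group W] {M : CoxeterMatrix B} (cs : CoxeterSystem M W)

theorem comm_of_two {i j : B} (h : M i j = 2) :
    cs.simple i * cs.simple j = cs.simple j * cs.simple i := by
  have h2 := cs.simple_mul_simple_pow i j
  rw [h, pow_two] at h2
  have ha := cs.simple_mul_simple_self i
  have hb := cs.simple_mul_simple_self j
  calc cs.simple i * cs.simple j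
      = cs.simple j * (cs.simple j * (cs.simple i * cs.simple j)) := by
        rw [← mul_assoc, hb, one_mul]
    _ = cs.simple j * (cs.simple i * (cs.simple i * (cs.simple j * (cs.simple i * cs.simple j)))) := by
        rw [← mul_assoc (cs.simple i) (cs.simple i), ha, one_mul]
    _ = cs.simple j * (cs.simple i * (cs.simple i * cs.simple j * (cs.simple i * cs.simple j))) := by
        simp only [mul_assoc]
    _ = cs.simple j * cs.simple i := by rw [h2, mul_one]

theorem braid_of_three {i j : B} (h : M i j = 3) :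
    cs.simple i * cs.simple j * cs.simple i = cs.simple j * cs.simple i * cs.simple j := by
  have h3 := cs.simple_mul_simple_pow i j
  rw [h] at h3
  have ha := cs.simple_mul_simple_self i
  have hb := cs.simple_mul_simple_self j
  have ha' : ∀ z, cs.simple i * (cs.simple i * z) = z := fun z => by rw [← mul_assoc, ha, one_mul]
  have hb' : ∀ z, cs.simple j * (cs.simple j * z) = z := fun z => by rw [← mul_assoc, hb, one_mul]
  have h3' : cs.simple i * (cs.simple j * (cs.simple i * (cs.simple j *
      (cs.simple i * cs.simple j)))) = 1 := by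
    rw [← h3, pow_succ, pow_succ, pow_one]
    simp only [mul_assoc]
  calc cs.simple i * cs.simple j * cs.simple i
      = cs.simple i * cs.simple j * cs.simple i * (cs.simple j * cs.simple i * cs.simple j *
          (cs.simple j * cs.simple i * cs.simple j)) := by
        simp only [mul_assoc, ha', hb', hb, mul_one]
    _ = cs.simple i * (cs.simple j * (cs.simple i * (cs.simple j *
          (cs.simple i * cs.simple j)))) * (cs.simple j * cs.simple i * cs.simple j) := by
        simp only [mul_assoc]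
    _ = cs.simple j * cs.simple i * cs.simple j := by rw [h3', one_mul]

theorem comm_wordProd (L : List B) (j : B) (h : ∀ k ∈ L, M k j = 2) :
    cs.wordProd L * cs.simple j = cs.simple j * cs.wordProd L := by
  induction L with
  | nil => rw [cs.wordProd_nil, one_mul, mul_one]
  | cons a L ih =>
    rw [cs.wordProd_cons, mul_assoc, ih (fun k hk => h k (List.mem_cons_of_mem _ hk)),
      ← mul_assoc, comm_of_two cs (h a List.mem_cons_self), mul_assoc]

theorem inv_simple' (i : B) : (cs.simple i)⁻¹ = cs.simple i := cs.inv_simple i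

/-- `c⁻¹ s_j c = s_i` when `c = L · s_i · s_j · R`, `L` commutes with `s_j`, `R` commutes with
`s_i`, and `s_i`, `s_j` braid. -/
theorem peel (L R : List B) (i j : B) (hL : ∀ k ∈ L, M k j = 2) (hR : ∀ k ∈ R, M k i = 2)
    (hij : M i j = 3) :
    (cs.wordProd (L ++ i :: j :: R))⁻¹ * cs.simple j * cs.wordProd (L ++ i :: j :: R) =
      cs.simple i := by
  have hLc := comm_wordProd cs L j hL
  have hRc := comm_wordProd cs R i hR
  have hb := braid_of_three cs hij
  have ha := cs.simple_mul_simple_self i
  have hbb := cs.simple_mul_simple_self j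
  rw [cs.wordProd_append, cs.wordProd_cons, cs.wordProd_cons]
  have e1 : (cs.wordProd L * (cs.simple i * (cs.simple j * cs.wordProd R)))⁻¹ =
      (cs.wordProd R)⁻¹ * cs.simple j * cs.simple i * (cs.wordProd L)⁻¹ := by
    rw [mul_inv_rev, mul_inv_rev, mul_inv_rev, cs.inv_simple, cs.inv_simple]
  rw [e1]
  have e2 : (cs.wordProd L)⁻¹ * cs.simple j * cs.wordProd L = cs.simple j := by
    rw [mul_assoc, ← hLc, inv_mul_cancel_left]
  have e3 : cs.simple j * cs.simple i * cs.simple j * cs.simple i * cs.simple j = cs.simple i := by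
    calc cs.simple j * cs.simple i * cs.simple j * cs.simple i * cs.simple j
        = (cs.simple j * cs.simple i * cs.simple j) * (cs.simple i * cs.simple j) := by
          simp only [mul_assoc]
      _ = (cs.simple i * cs.simple j * cs.simple i) * (cs.simple i * cs.simple j) := by rw [hb]
      _ = cs.simple i * cs.simple j * (cs.simple i * cs.simple i) * cs.simple j := by
          simp only [mul_assoc]
      _ = cs.simple i := by rw [ha, mul_one, mul_assoc, hbb, mul_one]
  calc (cs.wordProd R)⁻¹ * cs.simple j * cs.simple i * (cs.wordProd L)⁻¹ * cs.simple j *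
        (cs.wordProd L * (cs.simple i * (cs.simple j * cs.wordProd R)))
      = (cs.wordProd R)⁻¹ * cs.simple j * cs.simple i *
          ((cs.wordProd L)⁻¹ * cs.simple j * cs.wordProd L) *
          cs.simple i * cs.simple j * cs.wordProd R := by simp only [mul_assoc]
    _ = (cs.wordProd R)⁻¹ * (cs.simple j * cs.simple i * cs.simple j * cs.simple i * cs.simple j) *
          cs.wordProd R := by
        rw [e2]
        simp only [mul_assoc]
    _ = cs.simple i := by rw [e3, mul_assoc, ← hRc, inv_mul_cancel_left]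

/-- `c s_i c⁻¹ = s_j` when `c = s_i · s_j · R`, `R` commutes with `s_i`, and `s_i`, `s_j` braid. -/
theorem peel_left (R : List B) (i j : B) (hR : ∀ k ∈ R, M k i = 2) (hij : M i j = 3) :
    cs.wordProd (i :: j :: R) * cs.simple i * (cs.wordProd (i :: j :: R))⁻¹ = cs.simple j := by
  have hRc := comm_wordProd cs R i hR
  have hb := braid_of_three cs hij
  have ha := cs.simple_mul_simple_self i
  have hbb := cs.simple_mul_simple_self j
  rw [cs.wordProd_cons, cs.wordProd_cons]
  have e1 : (cs.simple i * (cs.simple j * cs.wordProd R))⁻¹ =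
      (cs.wordProd R)⁻¹ * cs.simple j * cs.simple i := by
    rw [mul_inv_rev, mul_inv_rev, cs.inv_simple, cs.inv_simple]
  rw [e1]
  have e2 : cs.wordProd R * cs.simple i * (cs.wordProd R)⁻¹ = cs.simple i := by
    rw [hRc, mul_inv_cancel_right]
  have e3 : cs.simple i * cs.simple j * cs.simple i * cs.simple j * cs.simple i = cs.simple j := by
    calc cs.simple i * cs.simple j * cs.simple i * cs.simple j * cs.simple i
        = (cs.simple i * cs.simple j * cs.simple i) * (cs.simple j * cs.simple i) := by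
          simp only [mul_assoc]
      _ = (cs.simple j * cs.simple i * cs.simple j) * (cs.simple j * cs.simple i) := by rw [hb]
      _ = cs.simple j * cs.simple i * (cs.simple j * cs.simple j) * cs.simple i := by
          simp only [mul_assoc]
      _ = cs.simple j := by rw [hbb, mul_one, mul_assoc, ha, mul_one]
  calc cs.simple i * (cs.simple j * cs.wordProd R) * cs.simple i *
        ((cs.wordProd R)⁻¹ * cs.simple j * cs.simple i)
      = cs.simple i * cs.simple j * (cs.wordProd R * cs.simple i * (cs.wordProd R)⁻¹) *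
          cs.simple j * cs.simple i := by simp only [mul_assoc]
    _ = cs.simple j := by rw [e2, e3]

/-- The `E`-type core: from the Coxeter element, `s₃` and the tail, recover `s₀, s₁, s₂`
(diagram `0 — 2 — 3 — 1`, tail attached at `3`). -/
theorem E_core {G : Type*} [Group G] (H : Subgroup G) (s0 s1 s2 s3 u : G)
    (h0 : s0 * s0 = 1) (h1 : s1 * s1 = 1) (h2 : s2 * s2 = 1) (h3 : s3 * s3 = 1)
    (c01 : s0 * s1 = s1 * s0) (c12 : s1 * s2 = s2 * s1) (c03 : s0 * s3 = s3 * s0)
    (b02 : s0 * s2 * s0 = s2 * s0 * s2) (b13 : s1 * s3 * s1 = s3 * s1 * s3)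
    (b23 : s2 * s3 * s2 = s3 * s2 * s3)
    (hc : s0 * s1 * s2 * s3 * u ∈ H) (hs3 : s3 ∈ H) (hu : u ∈ H) :
    s0 ∈ H ∧ s1 ∈ H ∧ s2 ∈ H := by
  have i0 : s0⁻¹ = s0 := inv_eq_of_mul_eq_one_left h0
  have i1 : s1⁻¹ = s1 := inv_eq_of_mul_eq_one_left h1
  have i2 : s2⁻¹ = s2 := inv_eq_of_mul_eq_one_left h2
  have i3 : s3⁻¹ = s3 := inv_eq_of_mul_eq_one_left h3
  have hx : s0 * s1 * s2 ∈ H := by
    have e : s0 * s1 * s2 = (s0 * s1 * s2 * s3 * u) * u⁻¹ * s3 := by
      rw [mul_inv_cancel_right, mul_assoc (s0 * s1 * s2), h3, mul_one]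
    rw [e]
    exact H.mul_mem (H.mul_mem hc (H.inv_mem hu)) hs3
  have hs1 : s1 ∈ H := by
    have e : (s0 * s1 * s2) ^ 3 = s1 := by
      have ey : (s0 * s2) ^ 3 = 1 := by
        rw [pow_succ, pow_succ, pow_one]
        calc s0 * s2 * (s0 * s2) * (s0 * s2) = (s0 * s2 * s0) * (s2 * s0 * s2) := by
              simp only [mul_assoc]
          _ = (s2 * s0 * s2) * (s2 * s0 * s2) := by rw [b02]
          _ = s2 * s0 * (s2 * s2) * s0 * s2 := by simp only [mul_assoc]
          _ = 1 := by rw [h2, mul_one, mul_assoc s2 s0 s0, h0, mul_one, h2]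
      have ecomm : Commute s1 (s0 * s2) := by
        show s1 * (s0 * s2) = s0 * s2 * s1
        rw [← mul_assoc, ← c01, mul_assoc, c12, mul_assoc]
      have e1 : s0 * s1 * s2 = s1 * (s0 * s2) := by rw [c01, mul_assoc]
      rw [e1, ecomm.mul_pow, ey, mul_one, pow_succ, pow_two, h1, one_mul]
    rw [← e]
    exact H.pow_mem hx 3
  have hρ : s1 * s3 * s2 * s3 * s1 ∈ H := by
    have e : s1 * s3 * s2 * s3 * s1 =
        u * ((s0 * s1 * s2 * s3 * u)⁻¹ * s3 * (s0 * s1 * s2 * s3 * u)) * u⁻¹ := by
      have e1 : u * ((s0 * s1 * s2 * s3 * u)⁻¹ * s3 * (s0 * s1 * s2 * s3 * u)) * u⁻¹ =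
          s3 * s2 * s1 * (s0 * s3 * s0) * s1 * s2 * s3 := by
        rw [mul_inv_rev, mul_inv_rev, mul_inv_rev, mul_inv_rev, i0, i1, i2, i3]
        simp only [mul_assoc, mul_inv_cancel_left, mul_inv_cancel]
        rw [mul_one]
      have e2 : s0 * s3 * s0 = s3 := by rw [c03, mul_assoc, h0, mul_one]
      rw [e1, e2]
      symm
      calc s3 * s2 * s1 * s3 * s1 * s2 * s3
          = s3 * s2 * (s1 * s3 * s1) * s2 * s3 := by simp only [mul_assoc]
        _ = s3 * s2 * (s3 * s1 * s3) * s2 * s3 := by rw [b13]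
        _ = (s3 * s2 * s3) * s1 * (s3 * s2 * s3) := by simp only [mul_assoc]
        _ = (s2 * s3 * s2) * s1 * (s2 * s3 * s2) := by rw [← b23]
        _ = s2 * s3 * (s2 * s1 * s2) * s3 * s2 := by simp only [mul_assoc]
        _ = s2 * s3 * s1 * s3 * s2 := by rw [← c12, mul_assoc s1 s2 s2, h2, mul_one]
        _ = s2 * (s3 * s1 * s3) * s2 := by simp only [mul_assoc]
        _ = s2 * (s1 * s3 * s1) * s2 := by rw [b13]
        _ = (s2 * s1) * s3 * (s1 * s2) := by simp only [mul_assoc]
        _ = (s1 * s2) * s3 * (s2 * s1) := by rw [← c12]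
        _ = s1 * (s2 * s3 * s2) * s1 := by simp only [mul_assoc]
        _ = s1 * (s3 * s2 * s3) * s1 := by rw [b23]
        _ = s1 * s3 * s2 * s3 * s1 := by simp only [mul_assoc]
    rw [e]
    exact H.mul_mem (H.mul_mem hu (H.mul_mem (H.mul_mem (H.inv_mem hc) hs3) hc)) (H.inv_mem hu)
  have hs2 : s2 ∈ H := by
    have e : s2 = s3 * s1 * (s1 * s3 * s2 * s3 * s1) * s1 * s3 := by
      have h1' : ∀ z, s1 * (s1 * z) = z := fun z => by rw [← mul_assoc, h1, one_mul]
      have h3' : ∀ z, s3 * (s3 * z) = z := fun z => by rw [← mul_assoc, h3, one_mul]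
      simp only [mul_assoc, h1', h3', h1, h3, mul_one]
    rw [e]
    exact H.mul_mem (H.mul_mem (H.mul_mem (H.mul_mem hs3 hs1) hρ) hs1) hs3
  have hs0 : s0 ∈ H := by
    have e : s0 = (s0 * s1 * s2) * s2 * s1 := by
      rw [mul_assoc (s0 * s1) s2 s2, h2, mul_one, mul_assoc, h1, mul_one]
    rw [e]
    exact H.mul_mem (H.mul_mem hx hs2) hs1
  exact ⟨hs0, hs1, hs2⟩

end Cfsg.Agent.Lib_helper8_Coxeter
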