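import Mathlib

set_option autoImplicit false

namespace Cfsg.Agent.Lib_helper8_Duality

open Matrix

/-- The dot product with a fixed vector as a linear functional. -/
def dotLin {n F : Type*} [Fintype n] [Field F] (s : n → F) : (n → F) →ₗ[F] F where
  toFun v := s ⬝ᵥ v
  map_add' := dotProduct_add s
  map_smul' c v := by simp [dotProduct_smul]

@[simp] theorem dotLin_apply {n F : Type*} [Fintype n] [Field F] (s v : n → F) :
    dotLin s v = s ⬝ᵥ v := rfl

/-- Row space equals the annihilator of the null space: if `s` is orthogonal (for the dot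
product) to the kernel of `M`, then `s` lies in the range of `Mᵀ`. -/
theorem exists_transpose_mulVec {n F : Type*} [Fintype n] [DecidableEq n] [Field F]
    (M : Matrix n n F) (s : n → F) (h : ∀ v, M *ᵥ v = 0 → s ⬝ᵥ v = 0) :
    ∃ t, Mᵀ *ᵥ t = s := by
  have hψ : dotLin s ∈ (LinearMap.ker M.mulVecLin).dualAnnihilator := by
    rw [Submodule.mem_dualAnnihilator]
    intro v hv
    exact h v (by simpa using hv)
  rw [← LinearMap.range_dualMap_eq_dualAnnihilator_ker] at hψ
  obtain ⟨φ, hφ⟩ := hψ
  refine ⟨fun i => φ (fun j => if i = j then 1 else 0), ?_⟩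
  ext j
  have h1 := congrArg (fun g => g (Pi.single j 1)) hφ
  simp only [LinearMap.dualMap_apply, Matrix.mulVecLin_apply, dotLin_apply,
    dotProduct_single, mul_one] at h1
  rw [← h1, LinearMap.pi_apply_eq_sum_univ φ]
  simp only [Matrix.mulVec, dotProduct, Matrix.transpose_apply, smul_eq_mul]
  refine Finset.sum_congr rfl fun i _ => ?_
  congr 1
  simp [Matrix.mulVec, dotProduct, Pi.single_apply]

end Cfsg.Agent.Lib_helper8_Duality
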