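import Mathlib

namespace Cfsg.Agent.Lib_helper8_FieldAut

/-- Dedekind: the automorphisms of a field are linearly independent as functions. -/
theorem aut_linearIndependent (F : Type*) [Field F] :
    LinearIndependent F (fun σ : F ≃+* F => ((σ : F →+* F) : F → F)) := by
  have hinj : Function.Injective (fun σ : F ≃+* F => ((σ : F →+* F) : F →* F)) := by
    intro σ τ h
    ext x
    exact DFunLike.congr_fun h x
  exact (linearIndependent_monoidHom F F).comp _ hinj

/-- Every additive endomorphism of a finite field of characteristic `p` is a combination of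
field automorphisms. -/
theorem exists_coeff {F : Type*} [Field F] [Finite F] (p : ℕ) [Fact p.Prime] [CharP F p]
    [Fintype (F ≃+* F)] (f : F →+ F) :
    ∃ c : (F ≃+* F) → F, ∀ x, f x = ∑ σ, c σ * σ x := by
  classical
  letI : Algebra (ZMod p) F := ZMod.algebra F p
  let v : (F ≃+* F) → (F →ₗ[ZMod p] F) :=
    fun σ => AddMonoidHom.toZModLinearMap p ((σ : F →+* F) : F →+ F)
  let φ : (F →ₗ[ZMod p] F) →ₗ[F] (F → F) :=
    { toFun := fun g => ⇑g
      map_add' := fun _ _ => rfl
      map_smul' := fun _ _ => rfl }
  have hli : LinearIndependent F v := by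
    apply LinearIndependent.of_comp φ
    exact aut_linearIndependent F
  have hfin : Module.finrank F (F →ₗ[ZMod p] F) = Module.finrank (ZMod p) F :=
    Module.finrank_linearMap_self (ZMod p) F F
  have hcard : Fintype.card (F ≃+* F) = Module.finrank F (F →ₗ[ZMod p] F) := by
    apply le_antisymm
    · exact hli.fintype_card_le_finrank
    · rw [hfin, ← IsGalois.card_aut_eq_finrank (ZMod p) F, ← Nat.card_eq_fintype_card]
      exact Nat.card_le_card_of_injective (fun σ : F ≃ₐ[ZMod p] F => σ.toRingEquiv)
        (fun σ τ h => by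
          ext x
          exact DFunLike.congr_fun h x)
  have hspan := hli.span_eq_top_of_card_eq_finrank' hcard
  have hmem : AddMonoidHom.toZModLinearMap p f ∈ Submodule.span F (Set.range v) := by
    rw [hspan]
    trivial
  obtain ⟨c, hc⟩ := (Submodule.mem_span_range_iff_exists_fun F).1 hmem
  refine ⟨c, fun x => ?_⟩
  have h1 := congrArg (fun g : F →ₗ[ZMod p] F => g x) hc
  simp only [LinearMap.coe_sum, Finset.sum_apply, LinearMap.smul_apply, smul_eq_mul,
    AddMonoidHom.coe_toZModLinearMap] at h1
  rw [← h1]
  rfl

end Cfsg.Agent.Lib_helper8_FieldAut
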