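import Mathlib

set_option autoImplicit false

/-! Fixed points of a linear `p`-group action on a quotient space in characteristic `p`. -/

namespace Cfsg.Agent.Lib_helper8_FixQuot

theorem fix_quot {F : Type*} [Field F] (p : ℕ) [Fact p.Prime] [CharP F p]
    {V : Type*} [AddCommGroup V] [Module F V] [Finite V]
    {U : Type*} [Group U] [Finite U] (hU : IsPGroup p U)
    (ρ : U → (V →ₗ[F] V)) (h1 : ρ 1 = LinearMap.id) (hmul : ∀ a b, ρ (a * b) = ρ a ∘ₗ ρ b)
    (W : Submodule F V) (hW : W ≠ ⊤) (hinv : ∀ u, ∀ w ∈ W, ρ u w ∈ W) :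
    ∃ v, v ∉ W ∧ ∀ u, ρ u v - v ∈ W := by
  classical
  letI act : MulAction U (V ⧸ W) :=
    { smul := fun u x => W.mapQ W (ρ u) (fun w hw => hinv u w hw) x
      one_smul := by
        intro x
        induction x using Submodule.Quotient.induction_on with
        | H v =>
          show W.mapQ W (ρ 1) _ (Submodule.Quotient.mk v) = Submodule.Quotient.mk v
          rw [Submodule.mapQ_apply, h1]
          rfl
      mul_smul := by
        intro a b x
        induction x using Submodule.Quotient.induction_on with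
        | H v =>
          show W.mapQ W (ρ (a * b)) _ (Submodule.Quotient.mk v) =
            W.mapQ W (ρ a) _ (W.mapQ W (ρ b) _ (Submodule.Quotient.mk v))
          rw [Submodule.mapQ_apply, Submodule.mapQ_apply, Submodule.mapQ_apply, hmul]
          rfl }
  have hsm : ∀ (u : U) (v : V), u • (Submodule.Quotient.mk v : V ⧸ W) =
      Submodule.Quotient.mk (ρ u v) := fun u v => Submodule.mapQ_apply _ _ _ _
  have hfinQ : Finite (V ⧸ W) := Finite.of_surjective _ (Submodule.Quotient.mk_surjective W)
  have hp : p ∣ Nat.card (V ⧸ W) := by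
    have : Nontrivial (V ⧸ W) :=
      Submodule.Quotient.nontrivial_iff.2 hW
    obtain ⟨x, hx⟩ := exists_ne (0 : V ⧸ W)
    have hpx : p • x = 0 := by
      rw [← Nat.cast_smul_eq_nsmul F, CharP.cast_eq_zero, zero_smul]
    have hord : addOrderOf x = p := addOrderOf_eq_prime hpx hx
    rw [← hord]
    exact addOrderOf_dvd_natCard x
  have h0 : (0 : V ⧸ W) ∈ MulAction.fixedPoints U (V ⧸ W) := by
    intro u
    have h := hsm u 0
    rw [map_zero, Submodule.Quotient.mk_zero] at h
    exact h
  obtain ⟨b, hb, hb0⟩ := hU.exists_fixed_point_of_prime_dvd_card_of_fixed_point (V ⧸ W) hp h0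
  obtain ⟨v, rfl⟩ := Submodule.Quotient.mk_surjective W b
  refine ⟨v, ?_, ?_⟩
  · intro hv
    apply hb0
    exact ((Submodule.Quotient.mk_eq_zero W).2 hv).symm
  · intro u
    have h := hb u
    rw [hsm, Submodule.Quotient.eq] at h
    exact h

end Cfsg.Agent.Lib_helper8_FixQuot
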