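import Mathlib

set_option autoImplicit false

namespace Cfsg.Agent.Lib_helper8_Gram

open Matrix

/-- Gram determinant of a polar form in an arbitrary basis, up to a nonzero square. -/
theorem gram_det {κ ι F : Type*} [Field F] [Fintype κ] [DecidableEq κ] [Fintype ι] [DecidableEq ι]
    (Q : (κ → F) → F) (G : Matrix κ κ F)
    (hQ : ∀ v w, QuadraticMap.polar Q v w = v ⬝ᵥ (G *ᵥ w))
    (b : Module.Basis ι F (κ → F)) :
    ∃ d : F, d ≠ 0 ∧
      (Matrix.of fun i j => QuadraticMap.polar Q (b i) (b j)).det = d * d * G.det := by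
  let e : ι ≃ κ := b.indexEquiv (Pi.basisFun F κ)
  let P : Matrix κ κ F := Matrix.of fun k l => b (e.symm l) k
  have hP : IsUnit P.det := by
    have h1 := (Pi.basisFun F κ).isUnit_det (b.reindex e)
    have h2 : (Pi.basisFun F κ).toMatrix (b.reindex e) = P := by
      ext i j
      simp [P, Module.Basis.toMatrix_apply]
    rw [Module.Basis.det_apply, h2] at h1
    exact h1
  refine ⟨P.det, hP.ne_zero, ?_⟩
  have h3 : (Matrix.of fun i j => QuadraticMap.polar Q (b i) (b j))
      = (Pᵀ * G * P).submatrix e e := by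
    ext i j
    simp only [Matrix.of_apply, hQ, Matrix.submatrix_apply, Matrix.mul_apply, dotProduct,
      Matrix.mulVec, Matrix.transpose_apply, P, Equiv.symm_apply_apply]
    simp only [Finset.mul_sum, Finset.sum_mul]
    rw [Finset.sum_comm]
    refine Finset.sum_congr rfl fun x _ => Finset.sum_congr rfl fun y _ => ?_
    ring
  rw [h3, Matrix.det_submatrix_equiv_self, Matrix.det_mul, Matrix.det_mul, Matrix.det_transpose]
  ring

/-- The determinant of the block anti-diagonal matrix. -/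
theorem det_antidiag {F : Type*} [Field F] (m : ℕ) :
    (Matrix.fromBlocks 0 1 1 0 : Matrix (Fin m ⊕ Fin m) (Fin m ⊕ Fin m) F).det = (-1) ^ m := by
  have h : (Matrix.fromBlocks 0 1 1 0 : Matrix (Fin m ⊕ Fin m) (Fin m ⊕ Fin m) F)
      = (Matrix.fromBlocks 1 1 0 1 : Matrix (Fin m ⊕ Fin m) (Fin m ⊕ Fin m) F)
        * (Matrix.fromBlocks 1 0 (-1) 1 : Matrix (Fin m ⊕ Fin m) (Fin m ⊕ Fin m) F)
        * (Matrix.fromBlocks 1 1 0 1 : Matrix (Fin m ⊕ Fin m) (Fin m ⊕ Fin m) F)
        * (Matrix.fromBlocks (-1) 0 0 1 : Matrix (Fin m ⊕ Fin m) (Fin m ⊕ Fin m) F) := by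
    simp [Matrix.fromBlocks_multiply]
  rw [h, Matrix.det_mul, Matrix.det_mul, Matrix.det_mul, Matrix.det_fromBlocks_zero₂₁,
    Matrix.det_fromBlocks_zero₁₂, Matrix.det_fromBlocks_zero₂₁]
  simp [Matrix.det_neg]

/-- In a finite field of odd characteristic: squareness of `(-1)^m`. -/
theorem isSquare_neg_one_pow {F : Type*} [Field F] [Fintype F] {q : ℕ} (hF : Fintype.card F = q)
    (hq : Odd q) (m : ℕ) : IsSquare ((-1 : F) ^ m) ↔ Even (m * (q - 1) / 2) := by
  obtain ⟨k, hk⟩ := hq
  have hq1 : m * (q - 1) / 2 = m * k := by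
    rw [hk]
    have : m * (2 * k + 1 - 1) = 2 * (m * k) := by
      simp; ring
    rw [this, Nat.mul_div_cancel_left _ (by norm_num : 0 < 2)]
  rw [hq1]
  rcases Nat.even_or_odd m with hm | hm
  · have h1 : IsSquare ((-1 : F) ^ m) := by
      rw [hm.neg_one_pow]; exact ⟨1, by simp⟩
    simp [hm]
  · rw [hm.neg_one_pow, FiniteField.isSquare_neg_one_iff, hF, hk, Nat.even_mul]
    have hm' : ¬ Even m := Nat.not_even_iff_odd.mpr hm
    simp only [hm', false_or]
    constructor
    · intro h
      by_contra hk'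
      rw [Nat.not_even_iff_odd] at hk'
      obtain ⟨j, hj⟩ := hk'
      apply h; subst hj; omega
    · intro h
      obtain ⟨j, hj⟩ := h
      subst hj; omega

/-- In a finite field of odd order, the product of a nonzero square multiple and a nonsquare. -/
theorem isSquare_mul_nonsquare {F : Type*} [Field F] [Fintype F]
    {x y : F} (hx : x ≠ 0) (hy : ¬ IsSquare y) : IsSquare (x * y) ↔ ¬ IsSquare x := by
  classical
  have hy0 : y ≠ 0 := fun h => hy (h ▸ ⟨0, by simp⟩)
  rw [← quadraticChar_one_iff_isSquare (mul_ne_zero hx hy0), ← quadraticChar_one_iff_isSquare hx,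
    map_mul, quadraticChar_neg_one_iff_not_isSquare.mpr hy]
  rcases quadraticChar_dichotomy hx with h | h <;> simp [h]

theorem isSquare_sq_mul {F : Type*} [Field F] {d x : F} (hd : d ≠ 0) :
    IsSquare (d * d * x) ↔ IsSquare x := by
  constructor
  · rintro ⟨r, hr⟩
    refine ⟨r / d, ?_⟩
    field_simp
    rw [pow_two r, ← hr]; ring
  · rintro ⟨r, hr⟩
    exact ⟨d * r, by rw [hr]; ring⟩

end Cfsg.Agent.Lib_helper8_Gram
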