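import Mathlib

set_option autoImplicit false

/-! Class number of a finite group with an abelian subgroup of index two that is inverted by
every element outside it and that has exactly two elements of square one. -/

namespace Cfsg.Agent.Lib_helper8_InvIdx2

theorem card_conjClasses {N : Type*} [Group N] [Finite N] (T : Subgroup N)
    (hT : ∀ a ∈ T, ∀ b ∈ T, a * b = b * a)
    (hidx : T.index = 2)
    (hinv : ∀ g, g ∉ T → ∀ h ∈ T, g * h * g⁻¹ = h⁻¹)
    (h2 : Nat.card {h : N // h ∈ T ∧ h * h = 1} = 2) :
    2 * Nat.card (ConjClasses N) = Nat.card T + 6 := by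
  classical
  haveI : Fintype N := Fintype.ofFinite N
  obtain ⟨n, hn⟩ : ∃ n : ℕ, n = Nat.card T := ⟨_, rfl⟩
  rw [← hn]
  have hn0 : 0 < n := hn ▸ Nat.card_pos
  have hN : Nat.card N = 2 * n := by
    rw [← Subgroup.card_mul_index T, hidx, mul_comm, hn]
  have hc : ∀ g : N, Nat.card {x : N // Commute g x} =
      (if g ∈ T then n else 4) + (if g ∈ T ∧ g * g = 1 then n else 0) := by
    intro g
    by_cases hg : g ∈ T
    · by_cases hg2 : g * g = 1
      · rw [if_pos hg, if_pos ⟨hg, hg2⟩]
        have hall : ∀ x : N, Commute g x := by
          intro x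
          by_cases hx : x ∈ T
          · exact hT g hg x hx
          · have h1 := hinv x hx g hg
            have hginv : g⁻¹ = g := inv_eq_of_mul_eq_one_left hg2
            rw [hginv] at h1
            show g * x = x * g
            calc g * x = x * g * x⁻¹ * x := by rw [h1]
              _ = x * g := by group
        rw [Nat.card_congr (Equiv.subtypeUnivEquiv hall), hN]; ring
      · rw [if_pos hg, if_neg (fun h => hg2 h.2), add_zero, hn]
        apply Nat.card_congr
        apply Equiv.subtypeEquivRight
        intro x
        constructor
        · intro hcomm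
          by_contra hx
          have h1 := hinv x hx g hg
          apply hg2
          have hc' : g * x = x * g := hcomm
          have h3 : g⁻¹ = g := by
            rw [← h1, ← hc']; group
          calc g * g = g⁻¹ * g := by rw [h3]
            _ = 1 := inv_mul_cancel g
        · intro hx; exact hT g hg x hx
    · rw [if_neg hg, if_neg (fun h => hg h.1), add_zero]
      have e1 : Nat.card {x : N // Commute g x}
          = Nat.card (Subgroup.centralizer ({g} : Set N)) := by
        apply Nat.card_congr
        apply Equiv.subtypeEquivRight
        intro x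
        rw [Subgroup.mem_centralizer_singleton_iff]
        exact ⟨fun h => h.eq.symm, fun h => h.symm⟩
      rw [e1]
      have hrel : T.relIndex (Subgroup.centralizer ({g} : Set N)) = 2 := by
        rw [Subgroup.relIndex_eq_two_iff]
        refine ⟨g, Subgroup.mem_centralizer_singleton_iff.mpr rfl, ?_⟩
        intro b _
        rw [Subgroup.mul_mem_iff_of_index_two hidx]
        by_cases hb : b ∈ T
        · right; exact ⟨hb, fun h => hg (h.mp hb)⟩
        · left; exact ⟨⟨fun h => absurd h hb, fun h => absurd h hg⟩, hb⟩
      have hinf : Nat.card (T ⊓ Subgroup.centralizer ({g} : Set N) : Subgroup N) = 2 := by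
        rw [← h2]
        apply Nat.card_congr
        apply Equiv.subtypeEquivRight
        intro x
        rw [Subgroup.mem_inf, Subgroup.mem_centralizer_singleton_iff]
        constructor
        · rintro ⟨hx, hxg⟩
          refine ⟨hx, ?_⟩
          have h1 := hinv g hg x hx
          have h3 : x⁻¹ = x := by rw [← h1, ← hxg]; group
          calc x * x = x⁻¹ * x := by rw [h3]
            _ = 1 := inv_mul_cancel x
        · rintro ⟨hx, hxx⟩
          refine ⟨hx, ?_⟩
          have h1 := hinv g hg x hx
          have hxinv : x⁻¹ = x := inv_eq_of_mul_eq_one_left hxx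
          rw [hxinv] at h1
          calc x * g = g * x * g⁻¹ * g := by rw [h1]
            _ = g * x := by group
      have hmul := Subgroup.relIndex_mul_relIndex ⊥
        (T ⊓ Subgroup.centralizer ({g} : Set N)) (Subgroup.centralizer ({g} : Set N))
        bot_le inf_le_right
      rw [Subgroup.relIndex_bot_left, Subgroup.relIndex_bot_left, Subgroup.inf_relIndex_right,
        hrel, hinf] at hmul
      exact hmul.symm
  have hB := card_comm_eq_card_conjClasses_mul_card N
  have hsig : Nat.card {p : N × N // Commute p.1 p.2}
      = ∑ g : N, Nat.card {x : N // Commute g x} := by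
    rw [← Nat.card_sigma]
    exact Nat.card_congr (Equiv.subtypeProdEquivSigmaSubtype (fun a b : N => Commute a b))
  rw [hsig] at hB
  simp_rw [hc] at hB
  have hcT : (Finset.univ.filter (fun g : N => g ∈ T)).card = n := by
    rw [hn, Nat.card_eq_fintype_card, Fintype.card_subtype]
  have hcnT : (Finset.univ.filter (fun g : N => ¬ g ∈ T)).card = n := by
    have := Finset.card_filter_add_card_filter_not (s := (Finset.univ : Finset N))
      (fun g : N => g ∈ T)
    rw [hcT, Finset.card_univ, ← Nat.card_eq_fintype_card, hN] at this
    omega
  have hcA : (Finset.univ.filter (fun g : N => g ∈ T ∧ g * g = 1)).card = 2 := by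
    rw [← h2, Nat.card_eq_fintype_card, Fintype.card_subtype]
  rw [Finset.sum_add_distrib, Finset.sum_ite, Finset.sum_const, Finset.sum_const, hcT, hcnT,
    Finset.sum_ite, Finset.sum_const, Finset.sum_const_zero, hcA, hN] at hB
  simp only [smul_eq_mul, add_zero] at hB
  have h5 : n * (2 * Nat.card (ConjClasses N)) = n * (n + 6) := by linarith
  exact Nat.eq_of_mul_eq_mul_left hn0 h5

end Cfsg.Agent.Lib_helper8_InvIdx2
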