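import Mathlib

set_option autoImplicit false

namespace Cfsg.Agent.Lib_helper8_Irr

open Matrix Polynomial

variable {F : Type*} [Field F] [Fintype F]

/-- If `x ∈ GL_n(F)` acts irreducibly on `F^n` (`n ≥ 1`), its centraliser in `GL_n(F)` is cyclic of
order `|F|^n - 1` (it is the multiplicative group of the field `F[x]`). -/
theorem cent_of_irr {q n : ℕ} (hF : Fintype.card F = q) (hn : 1 ≤ n) (x : GL (Fin n) F)
    (hirr0 : ∀ W : Submodule F (Fin n → F),
      (∀ w ∈ W, (x : Matrix (Fin n) (Fin n) F) *ᵥ w ∈ W) → W ≠ ⊥ → W = ⊤) :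
    IsCyclic ↥(Subgroup.centralizer ({x} : Set (GL (Fin n) F))) ∧
      Nat.card ↥(Subgroup.centralizer ({x} : Set (GL (Fin n) F))) = q ^ n - 1 := by
  classical
  obtain ⟨M, hMdef⟩ : ∃ M : Matrix (Fin n) (Fin n) F, M = (x : Matrix (Fin n) (Fin n) F) :=
    ⟨_, rfl⟩
  have hirr : ∀ W : Submodule F (Fin n → F), (∀ w ∈ W, M *ᵥ w ∈ W) → W ≠ ⊥ → W = ⊤ := by
    rw [hMdef]; exact hirr0
  -- Step A
  have hA : ∀ c : Matrix (Fin n) (Fin n) F, c * M = M * c → ∀ v : Fin n → F, v ≠ 0 →
      c *ᵥ v = 0 → c = 0 := by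
    intro c hc v hv hcv
    have h1 := hirr (LinearMap.ker c.mulVecLin) (by
      intro w hw
      rw [LinearMap.mem_ker, Matrix.mulVecLin_apply] at hw ⊢
      rw [Matrix.mulVec_mulVec, hc, ← Matrix.mulVec_mulVec, hw, Matrix.mulVec_zero]) (by
      intro h
      have h2 : v ∈ LinearMap.ker c.mulVecLin := by
        rw [LinearMap.mem_ker, Matrix.mulVecLin_apply]; exact hcv
      rw [h] at h2
      exact hv ((Submodule.mem_bot F).1 h2))
    have h2 : c.mulVecLin = 0 := LinearMap.ker_eq_top.1 h1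
    ext i j
    have h3 := congrFun (congrArg (fun f => f (Pi.single j 1)) h2) i
    simp only [Matrix.mulVecLin_apply, Matrix.mulVec_single_one] at h3
    simpa using h3
  -- aeval commutes
  have hcomm : ∀ P : F[X], aeval M P * M = M * aeval M P := by
    intro P
    have h1 : aeval M (P * X) = aeval M (X * P) := by rw [mul_comm]
    simpa [map_mul, aeval_X] using h1
  -- Step B
  have hB : ∀ v : Fin n → F, v ≠ 0 → ∀ u : Fin n → F, ∃ P : F[X], (aeval M P) *ᵥ v = u := by
    intro v hv u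
    let L : F[X] →ₗ[F] (Fin n → F) :=
      { toFun := fun P => (aeval M P) *ᵥ v
        map_add' := fun P Q => by simp [Matrix.add_mulVec]
        map_smul' := fun a P => by simp [Matrix.smul_mulVec] }
    have hL : ∀ P, L P = (aeval M P) *ᵥ v := fun P => rfl
    have h1 := hirr (LinearMap.range L) (by
      rintro w ⟨P, rfl⟩
      refine ⟨X * P, ?_⟩
      rw [hL, hL, map_mul, aeval_X, Matrix.mulVec_mulVec]) (by
      intro h
      have h2 : v ∈ LinearMap.range L := ⟨1, by rw [hL, map_one, Matrix.one_mulVec]⟩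
      rw [h] at h2
      exact hv ((Submodule.mem_bot F).1 h2))
    have h2 : u ∈ LinearMap.range L := by rw [h1]; trivial
    obtain ⟨P, hP⟩ := h2
    exact ⟨P, hP⟩
  -- a nonzero vector
  obtain ⟨v₀, hv₀⟩ : ∃ v₀ : Fin n → F, v₀ ≠ 0 := by
    refine ⟨fun _ => 1, fun h => ?_⟩
    have := congrFun h ⟨0, hn⟩
    simp at this
  -- Step C
  have hC : ∀ c : Matrix (Fin n) (Fin n) F, c * M = M * c → ∃ P : F[X], c = aeval M P := by
    intro c hc
    obtain ⟨P, hP⟩ := hB v₀ hv₀ (c *ᵥ v₀)
    refine ⟨P, ?_⟩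
    have h1 : c - aeval M P = 0 := by
      apply hA _ _ v₀ hv₀
      · rw [Matrix.sub_mulVec, hP, sub_self]
      · rw [sub_mul, mul_sub, hc, hcomm]
    exact sub_eq_zero.1 h1
  -- Step D
  have hD : ∀ c c' : Matrix (Fin n) (Fin n) F, c * M = M * c → c' * M = M * c' →
      c * c' = c' * c := by
    intro c c' hc hc'
    obtain ⟨P, rfl⟩ := hC c hc
    obtain ⟨P', rfl⟩ := hC c' hc'
    rw [← map_mul, ← map_mul, mul_comm]
  obtain ⟨S, hS⟩ : ∃ S : Subalgebra F (Matrix (Fin n) (Fin n) F),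
      S = Subalgebra.centralizer F ({M} : Set (Matrix (Fin n) (Fin n) F)) := ⟨_, rfl⟩
  have hSmem : ∀ c : Matrix (Fin n) (Fin n) F, c ∈ S ↔ c * M = M * c := by
    intro c
    rw [hS, Subalgebra.mem_centralizer_iff]
    constructor
    · intro h; exact (h M rfl).symm
    · intro h g hg; rw [Set.mem_singleton_iff.1 hg]; exact h.symm
  letI : CommRing ↥S :=
    { (inferInstance : Ring ↥S) with
      mul_comm := fun a b => Subtype.ext (hD a.1 b.1 ((hSmem _).1 a.2) ((hSmem _).1 b.2)) }
  haveI : Nontrivial (Matrix (Fin n) (Fin n) F) := by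
    haveI : Nonempty (Fin n) := ⟨⟨0, hn⟩⟩
    infer_instance
  haveI : Nontrivial ↥S := ⟨⟨0, 1, fun h => by
    have h1 := congrArg Subtype.val h
    exact zero_ne_one h1⟩⟩
  haveI : NoZeroDivisors ↥S := ⟨by
    intro a b hab
    by_contra hcon
    push_neg at hcon
    have hb : b.1 *ᵥ v₀ ≠ 0 := by
      intro h
      exact hcon.2 (Subtype.ext (hA b.1 ((hSmem _).1 b.2) v₀ hv₀ h))
    have ha : a.1 *ᵥ (b.1 *ᵥ v₀) = 0 := by
      have h1 := congrArg Subtype.val hab
      rw [Matrix.mulVec_mulVec]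
      have h2 : a.1 * b.1 = 0 := h1
      rw [h2, Matrix.zero_mulVec]
    exact hcon.1 (Subtype.ext (hA a.1 ((hSmem _).1 a.2) _ hb ha))⟩
  haveI : IsDomain ↥S := NoZeroDivisors.to_isDomain _
  -- the hom
  have hCmem : ∀ g : GL (Fin n) F, g ∈ Subgroup.centralizer ({x} : Set (GL (Fin n) F)) ↔
      (g : Matrix (Fin n) (Fin n) F) * M = M * (g : Matrix (Fin n) (Fin n) F) := by
    intro g
    rw [Subgroup.mem_centralizer_iff]
    constructor
    · intro h
      have h1 := h x rfl
      have h2 := congrArg (fun g : GL (Fin n) F => (g : Matrix (Fin n) (Fin n) F)) h1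
      rw [hMdef]
      simpa using h2.symm
    · intro h y hy
      rw [Set.mem_singleton_iff.1 hy]
      apply Units.ext
      rw [hMdef] at h
      simpa using h.symm
  let φ : ↥(Subgroup.centralizer ({x} : Set (GL (Fin n) F))) →* ↥S :=
    { toFun := fun g => ⟨(g.1 : Matrix (Fin n) (Fin n) F), (hSmem _).2 ((hCmem g.1).1 g.2)⟩
      map_one' := rfl
      map_mul' := fun a b => rfl }
  have hφ : ∀ g, ((φ g : ↥S) : Matrix (Fin n) (Fin n) F) = (g.1 : Matrix (Fin n) (Fin n) F) :=
    fun g => rfl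
  have hinj : Function.Injective φ := by
    intro a b hab
    have h1 := congrArg Subtype.val hab
    rw [hφ, hφ] at h1
    exact Subtype.ext (Units.ext h1)
  refine ⟨isCyclic_of_subgroup_isDomain φ hinj, ?_⟩
  -- cardinality
  have hcardS : Nat.card ↥S = q ^ n := by
    have hbij : Function.Bijective (fun c : ↥S => c.1 *ᵥ v₀) := by
      constructor
      · intro a b hab
        have h1 : (a.1 - b.1) = 0 := by
          apply hA _ _ v₀ hv₀
          · rw [Matrix.sub_mulVec]; exact sub_eq_zero.2 hab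
          · rw [sub_mul, mul_sub, (hSmem _).1 a.2, (hSmem _).1 b.2]
        exact Subtype.ext (sub_eq_zero.1 h1)
      · intro u
        obtain ⟨P, hP⟩ := hB v₀ hv₀ u
        exact ⟨⟨aeval M P, (hSmem _).2 (hcomm P)⟩, hP⟩
    rw [Nat.card_eq_of_bijective _ hbij, Nat.card_eq_fintype_card, Fintype.card_fun,
      Fintype.card_fin, hF]
  have hbij2 : Function.Bijective
      (fun g : ↥(Subgroup.centralizer ({x} : Set (GL (Fin n) F))) =>
        (⟨φ g, fun h => by
          have h1 := congrArg Subtype.val h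
          rw [hφ] at h1
          have h2 : IsUnit (g.1 : Matrix (Fin n) (Fin n) F) := g.1.isUnit
          rw [h1] at h2
          exact not_isUnit_zero h2⟩ : {s : ↥S // s ≠ 0})) := by
    constructor
    · intro a b hab
      exact hinj (congrArg Subtype.val hab)
    · rintro ⟨s, hs⟩
      have hdet : s.1.det ≠ 0 := by
        intro h0
        obtain ⟨v, hv, hv2⟩ := Matrix.exists_mulVec_eq_zero_iff.2 h0
        exact hs (Subtype.ext (hA s.1 ((hSmem _).1 s.2) v hv hv2))
      obtain ⟨g, hg⟩ : ∃ g : GL (Fin n) F, (g : Matrix (Fin n) (Fin n) F) = s.1 :=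
        ⟨Matrix.GeneralLinearGroup.mkOfDetNeZero s.1 hdet, rfl⟩
      have hgC : g ∈ Subgroup.centralizer ({x} : Set (GL (Fin n) F)) := by
        rw [hCmem, hg]; exact (hSmem _).1 s.2
      refine ⟨⟨g, hgC⟩, ?_⟩
      apply Subtype.ext
      apply Subtype.ext
      exact hg
  rw [Nat.card_eq_of_bijective _ hbij2, ← hcardS]
  have h1 : Nat.card {s : ↥S // s ≠ 0} = Nat.card ↥S - 1 := by
    haveI : Finite ↥S := Finite.of_injective (fun c : ↥S => c.1) Subtype.val_injective
    haveI := Fintype.ofFinite ↥S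
    rw [Nat.card_eq_fintype_card, Nat.card_eq_fintype_card]
    exact Fintype.card_subtype_compl (fun s : ↥S => s = 0) |>.trans (by simp)
  exact h1


end Cfsg.Agent.Lib_helper8_Irr
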