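import Mathlib

set_option autoImplicit false

namespace Cfsg.Agent.Lib_helper8_KerPow

variable {F V : Type*} [Field F] [AddCommGroup V] [Module F V] [FiniteDimensional F V]

theorem finrank_comap_le (f : V →ₗ[F] V) (S : Submodule F V) :
    Module.finrank F (S.comap f) ≤ Module.finrank F S + Module.finrank F (LinearMap.ker f) := by
  let h : S.comap f →ₗ[F] V := f.domRestrict (S.comap f)
  have h1 := LinearMap.finrank_range_add_finrank_ker h
  have h2 : Module.finrank F (LinearMap.range h) ≤ Module.finrank F S := by
    apply Submodule.finrank_mono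
    rintro _ ⟨x, rfl⟩
    exact x.2
  have h3 : Module.finrank F (LinearMap.ker h) ≤ Module.finrank F (LinearMap.ker f) := by
    let g : LinearMap.ker h →ₗ[F] LinearMap.ker f :=
      { toFun := fun x => ⟨x.1.1, by
          have := x.2
          rw [LinearMap.mem_ker] at this
          rw [LinearMap.mem_ker]
          exact this⟩
        map_add' := fun x y => rfl
        map_smul' := fun c x => rfl }
    apply LinearMap.finrank_le_finrank_of_injective (f := g)
    intro x y hxy
    have h4 : (x.1.1 : V) = y.1.1 := congrArg (fun z : LinearMap.ker f => (z : V)) hxy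
    exact Subtype.ext (Subtype.ext h4)
  omega

theorem finrank_ker_pow_le (f : V →ₗ[F] V) (k : ℕ) :
    Module.finrank F (LinearMap.ker (f ^ k)) ≤ k * Module.finrank F (LinearMap.ker f) := by
  induction k with
  | zero =>
    have : LinearMap.ker (f ^ 0) = ⊥ := by
      rw [pow_zero, Module.End.one_eq_id, LinearMap.ker_id]
    rw [this]; simp
  | succ k ih =>
    have h1 : LinearMap.ker (f ^ (k + 1)) = (LinearMap.ker (f ^ k)).comap f := by
      rw [pow_succ, Module.End.mul_eq_comp, LinearMap.ker_comp]
    rw [h1]
    have h2 := finrank_comap_le f (LinearMap.ker (f ^ k))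
    calc Module.finrank F ((LinearMap.ker (f ^ k)).comap f)
        ≤ Module.finrank F (LinearMap.ker (f ^ k)) + Module.finrank F (LinearMap.ker f) := h2
      _ ≤ k * Module.finrank F (LinearMap.ker f) + Module.finrank F (LinearMap.ker f) := by omega
      _ = (k + 1) * Module.finrank F (LinearMap.ker f) := by ring

/-- An invariant subspace of a nilpotent endomorphism is killed by the `finrank`-th power. -/
theorem le_ker_pow_finrank (T : V →ₗ[F] V) (n : ℕ) (hTn : T ^ n = 0) (W : Submodule F V)
    (hWT : ∀ x ∈ W, T x ∈ W) : W ≤ LinearMap.ker (T ^ Module.finrank F W) := by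
  have hRn : (T.restrict hWT) ^ n = 0 := by
    rw [Module.End.pow_restrict n hWT]
    ext x
    simp [hTn]
  rcases le_or_gt (Module.finrank F W) n with hd | hd
  · have h1 := Module.End.ker_pow_eq_ker_pow_finrank_of_le (f := T.restrict hWT) hd
    rw [hRn, LinearMap.ker_zero] at h1
    intro x hx
    have h2 : (⟨x, hx⟩ : W) ∈ LinearMap.ker ((T.restrict hWT) ^ Module.finrank F W) := by
      rw [← h1]; trivial
    rw [LinearMap.mem_ker, Module.End.pow_restrict _ hWT] at h2
    rw [LinearMap.mem_ker]
    exact congrArg Subtype.val h2
  · intro x hx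
    rw [LinearMap.mem_ker]
    obtain ⟨j, hj⟩ := Nat.exists_eq_add_of_lt hd
    have : T ^ Module.finrank F W = 0 := by
      rw [hj, show n + j + 1 = (j + 1) + n by ring, pow_add, hTn, mul_zero]
    rw [this]; rfl

/-- The iterates of a cyclic vector of a nilpotent endomorphism are linearly independent. -/
theorem cyclic_indep {F V : Type*} [Field F] [AddCommGroup V] [Module F V]
    (T : V →ₗ[F] V) (n : ℕ) (hTn : T ^ n = 0) (v : V)
    (hv : (T ^ (n - 1)) v ≠ 0) : LinearIndependent F (fun i : Fin n => (T ^ (i : ℕ)) v) := by
  rw [Fintype.linearIndependent_iff]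
  intro c hc
  have key : ∀ m : ℕ, ∀ i : Fin n, i.val = m → c i = 0 := by
    intro m
    induction m using Nat.strong_induction_on with
    | _ m ih =>
      intro i hi
      have h1 := congrArg (fun w => (T ^ (n - 1 - i.val)) w) hc
      simp only [map_sum, map_smul, map_zero] at h1
      rw [Finset.sum_eq_single i] at h1
      · rw [← Module.End.mul_apply, ← pow_add] at h1
        have h2 : n - 1 - i.val + i.val = n - 1 := by have := i.2; omega
        rw [h2] at h1
        exact (smul_eq_zero.mp h1).resolve_right hv
      · intro j _ hji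
        rcases lt_or_gt_of_ne (Fin.val_ne_of_ne hji) with hlt | hgt
        · rw [ih j.val (by omega) j rfl, zero_smul]
        · rw [← Module.End.mul_apply, ← pow_add]
          have h2 : n - 1 - i.val + j.val = (j.val - i.val - 1) + n := by have := i.2; omega
          rw [h2, pow_add, hTn, mul_zero]
          simp
      · intro h
        exact absurd (Finset.mem_univ _) h
  intro i
  exact key i.val i rfl

end Cfsg.Agent.Lib_helper8_KerPow
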