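import Mathlib
import Cfsg.Agent.Lib_helper4_PSL

set_option autoImplicit false

namespace Cfsg.Agent.Lib_helper8_NormalSL

open scoped commutatorElement Pointwise

/-- In a perfect group with simple central quotient, a normal subgroup is central or everything. -/
theorem normal_le_center_or_eq_top {S : Type*} [Group S] (hperf : commutator S = ⊤)
    (hsimple : IsSimpleGroup (S ⧸ Subgroup.center S)) (N : Subgroup S) [hN : N.Normal] :
    N ≤ Subgroup.center S ∨ N = ⊤ := by
  have hmapN : (N.map (QuotientGroup.mk' (Subgroup.center S))).Normal :=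
    Subgroup.Normal.map hN _ (QuotientGroup.mk'_surjective _)
  rcases hmapN.eq_bot_or_eq_top with h | h
  · left
    intro x hx
    have : (QuotientGroup.mk' (Subgroup.center S)) x ∈ N.map (QuotientGroup.mk' (Subgroup.center S)) :=
      Subgroup.mem_map_of_mem _ hx
    rw [h, Subgroup.mem_bot] at this
    exact (QuotientGroup.eq_one_iff x).mp this
  · right
    have hsup : N ⊔ Subgroup.center S = ⊤ := by
      have := Subgroup.comap_map_eq (QuotientGroup.mk' (Subgroup.center S)) N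
      rw [h, Subgroup.comap_top, QuotientGroup.ker_mk'] at this
      exact this.symm
    have hcomm : commutator S ≤ N := by
      rw [commutator_eq_closure, Subgroup.closure_le]
      rintro _ ⟨x, y, rfl⟩
      have hx : x ∈ N ⊔ Subgroup.center S := by rw [hsup]; trivial
      have hy : y ∈ N ⊔ Subgroup.center S := by rw [hsup]; trivial
      have hx' : x ∈ (N : Set S) * (Subgroup.center S : Set S) := by
        rw [← Subgroup.mul_normal]; exact hx
      have hy' : y ∈ (N : Set S) * (Subgroup.center S : Set S) := by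
        rw [← Subgroup.mul_normal]; exact hy
      obtain ⟨n₁, hn₁, z₁, hz₁, rfl⟩ := Set.mem_mul.mp hx'
      obtain ⟨n₂, hn₂, z₂, hz₂, rfl⟩ := Set.mem_mul.mp hy'
      have c1 : ∀ g : S, z₁ * g = g * z₁ := fun g => ((Subgroup.mem_center_iff.mp hz₁) g).symm
      have c2 : ∀ g : S, z₂ * g = g * z₂ := fun g => ((Subgroup.mem_center_iff.mp hz₂) g).symm
      have e : ⁅n₁ * z₁, n₂ * z₂⁆ = ⁅n₁, n₂⁆ := by
        rw [commutatorElement_def, commutatorElement_def]
        have e1 : n₁ * z₁ * (n₂ * z₂) = n₁ * n₂ * (z₁ * z₂) := by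
          rw [mul_assoc, ← mul_assoc z₁, c1, mul_assoc, mul_assoc]
        have e2 : (n₁ * z₁)⁻¹ * (n₂ * z₂)⁻¹ = (z₁ * z₂)⁻¹ * (n₁⁻¹ * n₂⁻¹) := by
          rw [← mul_inv_rev, ← mul_inv_rev, ← mul_inv_rev]
          congr 1
          rw [mul_assoc, ← mul_assoc z₂, c2, mul_assoc, mul_assoc, c2 z₁]
        rw [mul_assoc (n₁ * z₁ * (n₂ * z₂)), e2, e1, mul_assoc (n₁ * n₂), ← mul_assoc (z₁ * z₂),
          mul_inv_cancel, one_mul, ← mul_assoc]
      rw [e]
      exact Subgroup.commutator_mem_commutator hn₁ hn₂ |> fun h => by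
        have : ⁅N, N⁆ ≤ N := Subgroup.commutator_le_right N N
        exact this h
    rw [hperf] at hcomm
    exact top_le_iff.mp hcomm

/-- Abstract form: a subgroup `G` of `G₀` normalised by the image of `S`. -/
theorem centralizes_or_range_le {S G₀ : Type*} [Group S] [Group G₀] (τ : S →* G₀)
    (hperf : commutator S = ⊤) (hsimple : IsSimpleGroup (S ⧸ Subgroup.center S))
    (hcen : ∀ z ∈ Subgroup.center S, τ z ∈ Subgroup.center G₀)
    (hD : ∀ (s : S) (g : G₀), τ s * g * (τ s)⁻¹ * g⁻¹ ∈ τ.range)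
    (G : Subgroup G₀) (hG : ∀ s : S, ∀ g ∈ G, τ s * g * (τ s)⁻¹ ∈ G) :
    (∀ g ∈ G, ∀ s : S, τ s * g = g * τ s) ∨ τ.range ≤ G := by
  have hN : (G.comap τ).Normal := by
    constructor
    intro h hh s
    rw [Subgroup.mem_comap] at hh ⊢
    rw [map_mul, map_mul, map_inv]
    exact hG s _ hh
  rcases normal_le_center_or_eq_top hperf hsimple (G.comap τ) with h | h
  · left
    intro g hg
    have hcentral : ∀ s : S, τ s * g * (τ s)⁻¹ * g⁻¹ ∈ Subgroup.center G₀ := by
      intro s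
      obtain ⟨s', hs'⟩ := hD s g
      have h1 : s' ∈ G.comap τ := by
        rw [Subgroup.mem_comap, hs']
        exact G.mul_mem (hG s g hg) (G.inv_mem hg)
      rw [← hs']
      exact hcen s' (h h1)
    let f : S →* Subgroup.center G₀ :=
      MonoidHom.mk' (fun s => ⟨τ s * g * (τ s)⁻¹ * g⁻¹, hcentral s⟩) (by
        intro s t
        apply Subtype.ext
        simp only [Subgroup.coe_mul, map_mul, mul_inv_rev]
        have hc := Subgroup.mem_center_iff.mp (hcentral t)
        calc τ s * τ t * g * ((τ t)⁻¹ * (τ s)⁻¹) * g⁻¹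
            = τ s * (τ t * g * (τ t)⁻¹ * g⁻¹) * (g * (τ s)⁻¹ * g⁻¹) := by group
          _ = (τ t * g * (τ t)⁻¹ * g⁻¹) * τ s * (g * (τ s)⁻¹ * g⁻¹) := by rw [hc (τ s)]
          _ = (τ t * g * (τ t)⁻¹ * g⁻¹) * (τ s * g * (τ s)⁻¹ * g⁻¹) := by group
          _ = (τ s * g * (τ s)⁻¹ * g⁻¹) * (τ t * g * (τ t)⁻¹ * g⁻¹) := by
            rw [hc (τ s * g * (τ s)⁻¹ * g⁻¹)])
    have hker : f.ker = ⊤ := by
      have h3 : commutator S ≤ f.ker := by
        rw [commutator_eq_closure, Subgroup.closure_le]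
        rintro _ ⟨s, t, rfl⟩
        rw [SetLike.mem_coe, MonoidHom.mem_ker, map_commutatorElement,
          commutatorElement_eq_one_iff_mul_comm]
        exact Subtype.ext (Subgroup.mem_center_iff.mp (f t).2 (f s).1)
      rw [hperf] at h3
      exact top_le_iff.mp h3
    intro s
    have hs : s ∈ f.ker := by rw [hker]; trivial
    rw [MonoidHom.mem_ker] at hs
    have h2 : τ s * g * (τ s)⁻¹ * g⁻¹ = 1 := congrArg Subtype.val hs
    calc τ s * g = (τ s * g * (τ s)⁻¹ * g⁻¹) * (g * τ s) := by group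
      _ = g * τ s := by rw [h2, one_mul]
  · right
    rintro _ ⟨s, rfl⟩
    have : s ∈ G.comap τ := by rw [h]; trivial
    exact this

/-- A subgroup which together with the centre generates the group contains all commutators. -/
theorem commutator_le_of_sup_center_eq_top {S : Type*} [Group S] (N : Subgroup S)
    (hsup : N ⊔ Subgroup.center S = ⊤) : commutator S ≤ N := by
  rw [commutator_eq_closure, Subgroup.closure_le]
  rintro _ ⟨x, y, rfl⟩
  have hx : x ∈ N ⊔ Subgroup.center S := by rw [hsup]; trivial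
  have hy : y ∈ N ⊔ Subgroup.center S := by rw [hsup]; trivial
  have hx' : x ∈ (N : Set S) * (Subgroup.center S : Set S) := by
    rw [← Subgroup.mul_normal]; exact hx
  have hy' : y ∈ (N : Set S) * (Subgroup.center S : Set S) := by
    rw [← Subgroup.mul_normal]; exact hy
  obtain ⟨n₁, hn₁, z₁, hz₁, rfl⟩ := Set.mem_mul.mp hx'
  obtain ⟨n₂, hn₂, z₂, hz₂, rfl⟩ := Set.mem_mul.mp hy'
  have c1 : ∀ g : S, z₁ * g = g * z₁ := fun g => ((Subgroup.mem_center_iff.mp hz₁) g).symm
  have c2 : ∀ g : S, z₂ * g = g * z₂ := fun g => ((Subgroup.mem_center_iff.mp hz₂) g).symm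
  have e : ⁅n₁ * z₁, n₂ * z₂⁆ = ⁅n₁, n₂⁆ := by
    rw [commutatorElement_def, commutatorElement_def]
    have e1 : n₁ * z₁ * (n₂ * z₂) = n₁ * n₂ * (z₁ * z₂) := by
      rw [mul_assoc, ← mul_assoc z₁, c1, mul_assoc, mul_assoc]
    have e2 : (n₁ * z₁)⁻¹ * (n₂ * z₂)⁻¹ = (z₁ * z₂)⁻¹ * (n₁⁻¹ * n₂⁻¹) := by
      rw [← mul_inv_rev, ← mul_inv_rev, ← mul_inv_rev]
      congr 1
      rw [mul_assoc, ← mul_assoc z₂, c2, mul_assoc, mul_assoc, c2 z₁]
    rw [mul_assoc (n₁ * z₁ * (n₂ * z₂)), e2, e1, mul_assoc (n₁ * n₂), ← mul_assoc (z₁ * z₂),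
      mul_inv_cancel, one_mul, ← mul_assoc]
  rw [e, commutatorElement_def]
  exact N.mul_mem (N.mul_mem (N.mul_mem hn₁ hn₂) (N.inv_mem hn₁)) (N.inv_mem hn₂)

end Cfsg.Agent.Lib_helper8_NormalSL
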