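import Mathlib

/-! Quadratic forms over finite fields: existence of singular vectors in dimension ≥ 3
(Chevalley–Warning), hyperbolic pairs, and normal forms. -/

namespace Cfsg.Agent.Lib_helper8_QuadForm
open QuadraticMap Module

/-- A quadratic form in at least three variables over a finite field has a non-trivial zero. -/
theorem exists_singular {F : Type*} [Field F] [Finite F] {V : Type*} [AddCommGroup V] [Module F V]
    [FiniteDimensional F V] (Q : QuadraticForm F V) (h : 3 ≤ finrank F V) :
    ∃ v : V, v ≠ 0 ∧ Q v = 0 := by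
  classical
  haveI : Fintype F := Fintype.ofFinite F
  obtain ⟨p, hp⟩ := CharP.exists F
  haveI := hp
  haveI : Fact p.Prime := ⟨CharP.char_is_prime F p⟩
  set n := finrank F V with hn
  let b : Basis (Fin n) F V := finBasis F V
  let B := Q.toBilin b
  have hB : ∀ v, Q v = B v v := by
    intro v
    have := congrArg (fun q : QuadraticMap F V F => q v) (QuadraticMap.toQuadraticMap_toBilin Q b)
    simpa using this.symm
  let P : MvPolynomial (Fin n) F :=
    ∑ i, ∑ j, MvPolynomial.C (B (b i) (b j)) * MvPolynomial.X i * MvPolynomial.X j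
  have hdeg : P.totalDegree < Fintype.card (Fin n) := by
    have h1 : P.totalDegree ≤ 2 := by
      apply (MvPolynomial.totalDegree_finsetSum _ _).trans
      apply Finset.sup_le
      intro i _
      apply (MvPolynomial.totalDegree_finsetSum _ _).trans
      apply Finset.sup_le
      intro j _
      apply (MvPolynomial.totalDegree_mul _ _).trans
      have h2 := MvPolynomial.totalDegree_mul (MvPolynomial.C (B (b i) (b j))) (MvPolynomial.X i : MvPolynomial (Fin n) F)
      rw [MvPolynomial.totalDegree_C, MvPolynomial.totalDegree_X] at h2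
      rw [MvPolynomial.totalDegree_X]
      omega
    rw [Fintype.card_fin]
    omega
  have hdvd := char_dvd_card_solutions p hdeg
  have heval : ∀ x : Fin n → F, MvPolynomial.eval x P = Q (∑ i, x i • b i) := by
    intro x
    rw [hB]
    simp only [P, map_sum, map_mul, MvPolynomial.eval_C, MvPolynomial.eval_X, LinearMap.sum_apply,
      map_smul, LinearMap.smul_apply, smul_eq_mul, Finset.mul_sum]
    rw [Finset.sum_comm]
    apply Finset.sum_congr rfl
    intro i _
    apply Finset.sum_congr rfl
    intro j _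
    ring
  have h0 : MvPolynomial.eval (0 : Fin n → F) P = 0 := by
    rw [heval]
    simp
  have hcard : 1 < Fintype.card { x : Fin n → F // MvPolynomial.eval x P = 0 } := by
    have hpos : 0 < Fintype.card { x : Fin n → F // MvPolynomial.eval x P = 0 } :=
      Fintype.card_pos_iff.mpr ⟨⟨0, h0⟩⟩
    have := Nat.le_of_dvd hpos hdvd
    have hp2 := (Fact.out : p.Prime).two_le
    omega
  obtain ⟨⟨x, hx⟩, hx0⟩ := Fintype.exists_ne_of_one_lt_card hcard ⟨0, h0⟩
  have hx0' : x ≠ 0 := fun h => hx0 (Subtype.ext h)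
  refine ⟨∑ i, x i • b i, ?_, ?_⟩
  · intro hv
    apply hx0'
    rw [← Basis.equivFun_symm_apply b x] at hv
    exact (LinearEquiv.map_eq_zero_iff _).mp hv
  · rw [← heval]
    exact hx

section Hyp
variable {F : Type*} [Field F] {V : Type*} [AddCommGroup V] [Module F V]

/-- A hyperbolic family of size `k`: singular vectors `e i`, `f i` with `polar (e i) (f j) = δ`,
all other pairings zero. -/
def IsHypFam (Q : QuadraticForm F V) {k : ℕ} (e f : Fin k → V) : Prop :=
  (∀ i, Q (e i) = 0 ∧ Q (f i) = 0) ∧ (∀ i j, polar Q (e i) (f j) = if i = j then 1 else 0) ∧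
  (∀ i j, polar Q (e i) (e j) = 0 ∧ polar Q (f i) (f j) = 0)

/-- The coordinates of `v` against the family: `(polar (f i) v, polar (e i) v)`. -/
noncomputable def pairing (Q : QuadraticForm F V) {k : ℕ} (e f : Fin k → V) :
    V →ₗ[F] (Fin k ⊕ Fin k → F) :=
  LinearMap.pi (fun s => Sum.elim (fun i => polarBilin Q (f i)) (fun i => polarBilin Q (e i)) s)

lemma pairing_inl (Q : QuadraticForm F V) {k : ℕ} (e f : Fin k → V) (v : V) (i : Fin k) :
    pairing Q e f v (Sum.inl i) = polar Q (f i) v := rfl

lemma pairing_inr (Q : QuadraticForm F V) {k : ℕ} (e f : Fin k → V) (v : V) (i : Fin k) :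
    pairing Q e f v (Sum.inr i) = polar Q (e i) v := rfl

/-- The orthogonal complement of the family. -/
noncomputable def perp (Q : QuadraticForm F V) {k : ℕ} (e f : Fin k → V) : Submodule F V :=
  LinearMap.ker (pairing Q e f)

lemma mem_perp (Q : QuadraticForm F V) {k : ℕ} (e f : Fin k → V) (v : V) :
    v ∈ perp Q e f ↔ ∀ i, polar Q (f i) v = 0 ∧ polar Q (e i) v = 0 := by
  unfold perp
  rw [LinearMap.mem_ker]
  constructor
  · intro h i
    exact ⟨by rw [← pairing_inl Q e f, h]; rfl, by rw [← pairing_inr Q e f, h]; rfl⟩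
  · intro h
    ext s
    rcases s with i | i
    · rw [pairing_inl]; exact (h i).1
    · rw [pairing_inr]; exact (h i).2

lemma pairing_comb (Q : QuadraticForm F V) {k : ℕ} {e f : Fin k → V} (h : IsHypFam Q e f)
    (c : Fin k ⊕ Fin k → F) : pairing Q e f (∑ s, c s • Sum.elim e f s) = c := by
  classical
  obtain ⟨-, h2, h3⟩ := h
  ext s
  rw [map_sum, Finset.sum_apply]
  simp only [map_smul, Pi.smul_apply, smul_eq_mul]
  rw [Fintype.sum_sum_type]
  rcases s with j | j
  · simp only [pairing_inl, Sum.elim_inl, Sum.elim_inr]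
    have e1 : ∀ i, polar Q (f j) (e i) = if i = j then 1 else 0 := by
      intro i; rw [polar_comm]; exact h2 i j
    have e2 : ∀ i, polar Q (f j) (f i) = 0 := fun i => (h3 j i).2
    simp [e1, e2]
  · simp only [pairing_inr, Sum.elim_inl, Sum.elim_inr]
    have e1 : ∀ i, polar Q (e j) (e i) = 0 := fun i => (h3 j i).1
    have e2 : ∀ i, polar Q (e j) (f i) = if i = j then 1 else 0 := by
      intro i; rw [h2 j i]; simp [eq_comm]
    simp [e1, e2]

lemma linearIndependent_hypFam (Q : QuadraticForm F V) {k : ℕ} {e f : Fin k → V}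
    (h : IsHypFam Q e f) : LinearIndependent F (Sum.elim e f) := by
  rw [Fintype.linearIndependent_iff]
  intro g hg s
  have := pairing_comb Q h g
  rw [hg, map_zero] at this
  rw [← this]
  rfl

lemma span_inf_perp (Q : QuadraticForm F V) {k : ℕ} {e f : Fin k → V} (h : IsHypFam Q e f) :
    Disjoint (Submodule.span F (Set.range (Sum.elim e f))) (perp Q e f) := by
  rw [Submodule.disjoint_def]
  intro z hz hzp
  obtain ⟨c, rfl⟩ := (Submodule.mem_span_range_iff_exists_fun F).mp hz
  have h1 := pairing_comb Q h c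
  have h2 : pairing Q e f (∑ s, c s • Sum.elim e f s) = 0 := hzp
  rw [h2] at h1
  rw [← h1]
  simp

lemma sub_comb_mem_perp (Q : QuadraticForm F V) {k : ℕ} {e f : Fin k → V} (h : IsHypFam Q e f)
    (v : V) : v - ∑ s, pairing Q e f v s • Sum.elim e f s ∈ perp Q e f := by
  unfold perp
  rw [LinearMap.mem_ker, map_sub, pairing_comb Q h, sub_self]

lemma finrank_perp [FiniteDimensional F V] (Q : QuadraticForm F V) {k : ℕ} {e f : Fin k → V}
    (h : IsHypFam Q e f) : finrank F (perp Q e f) + 2 * k = finrank F V := by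
  have hsurj : LinearMap.range (pairing Q e f) = ⊤ := by
    rw [LinearMap.range_eq_top]
    intro c
    exact ⟨_, pairing_comb Q h c⟩
  have h1 := LinearMap.finrank_range_add_finrank_ker (pairing Q e f)
  rw [hsurj, finrank_top, Module.finrank_fintype_fun_eq_card, Fintype.card_sum, Fintype.card_fin] at h1
  unfold perp
  omega

/-- The polar form is non-degenerate on the complement of a hyperbolic family. -/
lemma nondeg_perp (Q : QuadraticForm F V) (hQ : (polarBilin Q).Nondegenerate) {k : ℕ}
    {e f : Fin k → V} (h : IsHypFam Q e f) (u : V) (hu : u ∈ perp Q e f)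
    (hz : ∀ z ∈ perp Q e f, polar Q u z = 0) : u = 0 := by
  apply hQ.1 u
  intro v
  rw [polarBilin_apply_apply]
  have h1 := hz _ (sub_comb_mem_perp Q h v)
  rw [polar_sub_right, sub_eq_zero] at h1
  rw [h1]
  have h2 : polar Q u (∑ s, pairing Q e f v s • Sum.elim e f s)
      = ∑ s, pairing Q e f v s * polar Q u (Sum.elim e f s) := by
    have := map_sum (polarBilin Q u) (fun s => pairing Q e f v s • Sum.elim e f s) Finset.univ
    simp only [polarBilin_apply_apply, polar_smul_right, smul_eq_mul] at this
    exact this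
  rw [h2]
  apply Finset.sum_eq_zero
  intro s _
  rw [mem_perp] at hu
  rcases s with i | i
  · rw [Sum.elim_inl, polar_comm, (hu i).2, mul_zero]
  · rw [Sum.elim_inr, polar_comm, (hu i).1, mul_zero]

/-- A singular vector in the complement has a hyperbolic partner in the complement. -/
lemma exists_partner (Q : QuadraticForm F V) (hQ : (polarBilin Q).Nondegenerate) {k : ℕ}
    {e f : Fin k → V} (h : IsHypFam Q e f) (u : V) (hu : u ∈ perp Q e f) (hu0 : u ≠ 0)
    (hQu : Q u = 0) : ∃ w ∈ perp Q e f, Q w = 0 ∧ polar Q u w = 1 := by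
  have hex : ∃ z ∈ perp Q e f, polar Q u z ≠ 0 := by
    by_contra hcon
    push Not at hcon
    exact hu0 (nondeg_perp Q hQ h u hu hcon)
  obtain ⟨z, hz, hzu⟩ := hex
  obtain ⟨z₁, hz₁m, h1⟩ : ∃ z₁ ∈ perp Q e f, polar Q u z₁ = 1 := by
    refine ⟨(polar Q u z)⁻¹ • z, Submodule.smul_mem _ _ hz, ?_⟩
    rw [polar_smul_right, smul_eq_mul, inv_mul_cancel₀ hzu]
  refine ⟨z₁ - Q z₁ • u, Submodule.sub_mem _ hz₁m (Submodule.smul_mem _ _ hu), ?_, ?_⟩
  · have e1 : z₁ - Q z₁ • u = z₁ + (-Q z₁) • u := by rw [neg_smul, sub_eq_add_neg]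
    rw [e1, QuadraticMap.map_add Q z₁ ((-Q z₁) • u), QuadraticMap.map_smul, polar_smul_right,
      polar_comm, h1, hQu]
    simp
  · rw [polar_sub_right, polar_smul_right, polar_self, hQu, h1]
    simp

/-- Extending a hyperbolic family by a hyperbolic pair in its complement. -/
lemma isHypFam_snoc (Q : QuadraticForm F V) {k : ℕ} {e f : Fin k → V} (h : IsHypFam Q e f)
    (v w : V) (hv : v ∈ perp Q e f) (hw : w ∈ perp Q e f) (hQv : Q v = 0) (hQw : Q w = 0)
    (hvw : polar Q v w = 1) :
    IsHypFam Q (Fin.snoc e v : Fin (k + 1) → V) (Fin.snoc f w : Fin (k + 1) → V) := by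
  obtain ⟨h1, h2, h3⟩ := h
  rw [mem_perp] at hv hw
  refine ⟨?_, ?_, ?_⟩
  · intro i
    refine Fin.lastCases ?_ (fun i => ?_) i
    · simp [hQv, hQw]
    · simp [h1 i]
  · intro i j
    refine Fin.lastCases ?_ (fun i => ?_) i <;> refine Fin.lastCases ?_ (fun j => ?_) j
    · simp [hvw]
    · simp only [Fin.snoc_last, Fin.snoc_castSucc]
      rw [polar_comm, (hv j).1, if_neg (Fin.castSucc_lt_last j).ne']
    · simp only [Fin.snoc_last, Fin.snoc_castSucc]
      rw [(hw i).2, if_neg (Fin.castSucc_lt_last i).ne]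
    · simp only [Fin.snoc_castSucc, h2 i j, Fin.castSucc_inj]
  · intro i j
    refine Fin.lastCases ?_ (fun i => ?_) i <;> refine Fin.lastCases ?_ (fun j => ?_) j
    · simp [polar_self, hQv, hQw]
    · simp only [Fin.snoc_last, Fin.snoc_castSucc]
      exact ⟨by rw [polar_comm]; exact (hv j).2, by rw [polar_comm]; exact (hw j).1⟩
    · simp only [Fin.snoc_last, Fin.snoc_castSucc]
      exact ⟨(hv i).2, (hw i).1⟩
    · simp only [Fin.snoc_castSucc]
      exact h3 i j

lemma exists_maximal_aux [FiniteDimensional F V] (Q : QuadraticForm F V)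
    (hQ : (polarBilin Q).Nondegenerate) :
    ∀ (d k : ℕ) (e f : Fin k → V), IsHypFam Q e f → finrank F V ≤ 2 * k + d →
      ∃ (k' : ℕ) (e' f' : Fin k' → V), IsHypFam Q e' f' ∧ ∀ u ∈ perp Q e' f', Q u = 0 → u = 0 := by
  intro d
  induction d with
  | zero =>
    intro k e f h hd
    refine ⟨k, e, f, h, ?_⟩
    intro u hu _
    have h1 := finrank_perp Q h
    have h2 : finrank F (perp Q e f) = 0 := by omega
    rw [Submodule.finrank_eq_zero] at h2
    rw [h2] at hu
    simpa using hu
  | succ d ih =>
    intro k e f h hd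
    by_cases han : ∀ u ∈ perp Q e f, Q u = 0 → u = 0
    · exact ⟨k, e, f, h, han⟩
    · push Not at han
      obtain ⟨u, hu, hQu, hu0⟩ := han
      obtain ⟨w, hw, hQw, huw⟩ := exists_partner Q hQ h u hu hu0 hQu
      exact ih (k + 1) _ _ (isHypFam_snoc Q h u w hu hw hQu hQw huw) (by omega)

/-- A maximal hyperbolic family: its complement is anisotropic. -/
theorem exists_maximal_hypFam [FiniteDimensional F V] (Q : QuadraticForm F V)
    (hQ : (polarBilin Q).Nondegenerate) :
    ∃ (k : ℕ) (e f : Fin k → V), IsHypFam Q e f ∧ ∀ u ∈ perp Q e f, Q u = 0 → u = 0 := by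
  refine exists_maximal_aux Q hQ (finrank F V) 0 Fin.elim0 Fin.elim0 ?_ (by omega)
  exact ⟨fun i => i.elim0, fun i => i.elim0, fun i => i.elim0⟩

/-- An anisotropic subspace over a finite field has dimension at most two. -/
lemma finrank_le_two_of_anisotropic [Finite F] [FiniteDimensional F V] (Q : QuadraticForm F V)
    (U : Submodule F V) (h : ∀ u ∈ U, Q u = 0 → u = 0) : finrank F U ≤ 2 := by
  by_contra hcon
  push Not at hcon
  obtain ⟨v, hv0, hv⟩ := exists_singular (Q.comp U.subtype) (by omega)
  apply hv0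
  have := h v v.2 (by simpa using hv)
  exact Subtype.ext this

/-- An anisotropic plane over a finite field represents every non-zero scalar. -/
lemma exists_eq_of_anisotropic [Finite F] [FiniteDimensional F V] (Q : QuadraticForm F V)
    (U : Submodule F V) (hU : finrank F U = 2) (h : ∀ u ∈ U, Q u = 0 → u = 0) (c : F) (hc : c ≠ 0) :
    ∃ x ∈ U, Q x = c := by
  let Q' : QuadraticForm F (U × F) := (Q.comp U.subtype).prod ((-c) • QuadraticMap.sq (R := F))
  have h3 : 3 ≤ finrank F (U × F) := by
    rw [Module.finrank_prod, hU, Module.finrank_self]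
  obtain ⟨⟨u, t⟩, hut0, hut⟩ := exists_singular Q' h3
  have hut' : Q (u : V) + -c * (t * t) = 0 := by
    simpa [Q'] using hut
  have ht : t ≠ 0 := by
    rintro rfl
    apply hut0
    have : Q (u : V) = 0 := by simpa using hut'
    have hu := h u u.2 this
    ext
    · simpa using hu
    · rfl
  refine ⟨t⁻¹ • (u : V), Submodule.smul_mem _ _ u.2, ?_⟩
  have : Q (u : V) = c * (t * t) := by linear_combination hut'
  rw [QuadraticMap.map_smul, smul_eq_mul, this]
  field_simp

end Hyp

section Normal
variable {F : Type*} [Field F] [Finite F] {V : Type*} [AddCommGroup V] [Module F V]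
  [FiniteDimensional F V]

/-- Even-dimensional normal form: a hyperbolic basis, or `m - 1` hyperbolic pairs plus an anisotropic
plane `x, y` with `Q x = 1`, `polar x y = 1`, `Q y = ζ`, `t² + t + ζ` without roots. -/
theorem even_normal_form {m : ℕ} (hm : 1 ≤ m) (hV : finrank F V = 2 * m) (Q : QuadraticForm F V)
    (hQ : (polarBilin Q).Nondegenerate) :
    (∃ b : Basis (Fin m ⊕ Fin m) F V, (∀ i, Q (b (Sum.inl i)) = 0 ∧ Q (b (Sum.inr i)) = 0) ∧
      (∀ i j, polar Q (b (Sum.inl i)) (b (Sum.inr j)) = if i = j then 1 else 0) ∧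
      (∀ i j, polar Q (b (Sum.inl i)) (b (Sum.inl j)) = 0 ∧
        polar Q (b (Sum.inr i)) (b (Sum.inr j)) = 0)) ∨
    (∃ (b : Basis ((Fin (m - 1) ⊕ Fin (m - 1)) ⊕ Fin 2) F V) (ζ : F), (∀ t : F, t ^ 2 + t + ζ ≠ 0) ∧
      (∀ i, Q (b (Sum.inl (Sum.inl i))) = 0 ∧ Q (b (Sum.inl (Sum.inr i))) = 0) ∧
      (∀ i j, polar Q (b (Sum.inl (Sum.inl i))) (b (Sum.inl (Sum.inr j))) = if i = j then 1 else 0) ∧
      (∀ i j, polar Q (b (Sum.inl (Sum.inl i))) (b (Sum.inl (Sum.inl j))) = 0 ∧
        polar Q (b (Sum.inl (Sum.inr i))) (b (Sum.inl (Sum.inr j))) = 0) ∧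
      (∀ i (k : Fin 2), polar Q (b (Sum.inl (Sum.inl i))) (b (Sum.inr k)) = 0 ∧
        polar Q (b (Sum.inl (Sum.inr i))) (b (Sum.inr k)) = 0) ∧
      Q (b (Sum.inr 0)) = 1 ∧ polar Q (b (Sum.inr 0)) (b (Sum.inr 1)) = 1 ∧ Q (b (Sum.inr 1)) = ζ) := by
  obtain ⟨k, e, f, h, han⟩ := exists_maximal_hypFam Q hQ
  have h1 := finrank_perp Q h
  have h2 := finrank_le_two_of_anisotropic Q (perp Q e f) han
  have h3 : finrank F (perp Q e f) = 0 ∨ finrank F (perp Q e f) = 2 := by omega
  rcases h3 with h0 | h2'
  · have hk : k = m := by omega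
    subst hk
    left
    have hli := linearIndependent_hypFam Q h
    haveI : Nonempty (Fin k ⊕ Fin k) := ⟨Sum.inl ⟨0, hm⟩⟩
    have hcard : Fintype.card (Fin k ⊕ Fin k) = finrank F V := by
      rw [Fintype.card_sum, Fintype.card_fin]; omega
    refine ⟨basisOfLinearIndependentOfCardEqFinrank hli hcard, ?_⟩
    simp only [coe_basisOfLinearIndependentOfCardEqFinrank, Sum.elim_inl, Sum.elim_inr]
    exact h
  · have hk : k = m - 1 := by omega
    subst hk
    right
    obtain ⟨x, hxU, hQx⟩ := exists_eq_of_anisotropic Q (perp Q e f) h2' han 1 one_ne_zero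
    have hx0 : x ≠ 0 := by
      rintro rfl
      simp at hQx
    obtain ⟨y₁, hy₁U, hy₁⟩ : ∃ y₁ ∈ perp Q e f, y₁ ∉ Submodule.span F {x} := by
      by_contra hcon
      push Not at hcon
      have hle : perp Q e f ≤ Submodule.span F {x} := fun z hz => hcon z hz
      have h4 := Submodule.finrank_mono hle
      have h5 := finrank_span_singleton hx0 (K := F)
      omega
    obtain ⟨z, hzU, hxz⟩ : ∃ z ∈ perp Q e f, polar Q x z = 1 := by
      have hex : ∃ z ∈ perp Q e f, polar Q x z ≠ 0 := by
        by_contra hcon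
        push Not at hcon
        exact hx0 (nondeg_perp Q hQ h x hxU hcon)
      obtain ⟨z, hz, hzu⟩ := hex
      exact ⟨(polar Q x z)⁻¹ • z, Submodule.smul_mem _ _ hz, by
        rw [polar_smul_right, smul_eq_mul, inv_mul_cancel₀ hzu]⟩
    obtain ⟨y, hyU, hxy, hy⟩ : ∃ y ∈ perp Q e f, polar Q x y = 1 ∧ y ∉ Submodule.span F {x} := by
      by_cases hz : z ∈ Submodule.span F {x}
      · refine ⟨y₁ + (1 - polar Q x y₁) • z,
          Submodule.add_mem _ hy₁U (Submodule.smul_mem _ _ hzU), ?_, ?_⟩
        · rw [polar_add_right, polar_smul_right, hxz]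
          simp
        · intro hmem
          apply hy₁
          have := Submodule.sub_mem _ hmem (Submodule.smul_mem _ (1 - polar Q x y₁) hz)
          simpa using this
      · exact ⟨z, hzU, hxz, hz⟩
    have hxs : ∀ c : F, c • x ∈ Submodule.span F {x} := fun c =>
      Submodule.smul_mem _ _ (Submodule.mem_span_singleton_self x)
    have hirr : ∀ t : F, t ^ 2 + t + Q y ≠ 0 := by
      intro t ht
      have hmem : t • x + y ∈ perp Q e f :=
        Submodule.add_mem _ (Submodule.smul_mem _ _ hxU) hyU
      have hq : Q (t • x + y) = 0 := by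
        rw [QuadraticMap.map_add Q (t • x) y, QuadraticMap.map_smul, polar_smul_left, hQx, hxy]
        simp only [smul_eq_mul, mul_one]
        linear_combination ht
      have h0 := han _ hmem hq
      apply hy
      have : y = (-t) • x := by
        rw [neg_smul]
        exact eq_neg_of_add_eq_zero_right h0
      rw [this]
      exact hxs _
    have hli2 : LinearIndependent F ![x, y] := by
      rw [LinearIndependent.pair_iff]
      intro s t hst
      have ht0 : t = 0 := by
        by_contra ht
        apply hy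
        have h5 : t • y = -(s • x) := eq_neg_of_add_eq_zero_right hst
        have : y = (-(t⁻¹ * s)) • x := by
          calc y = t⁻¹ • (t • y) := by rw [smul_smul, inv_mul_cancel₀ ht, one_smul]
            _ = (-(t⁻¹ * s)) • x := by rw [h5, smul_neg, smul_smul, neg_smul]
        rw [this]
        exact hxs _
      rw [ht0, zero_smul, add_zero] at hst
      have hs0 : s = 0 := by
        rcases smul_eq_zero.mp hst with h | h
        · exact h
        · exact absurd h hx0
      exact ⟨hs0, ht0⟩
    have hli : LinearIndependent F (Sum.elim (Sum.elim e f) ![x, y]) := by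
      apply LinearIndependent.sum_type (linearIndependent_hypFam Q h) hli2
      apply (span_inf_perp Q h).mono_right
      rw [Submodule.span_le]
      rintro _ ⟨i, rfl⟩
      fin_cases i
      · exact hxU
      · exact hyU
    have hcard : Fintype.card ((Fin (m - 1) ⊕ Fin (m - 1)) ⊕ Fin 2) = finrank F V := by
      rw [Fintype.card_sum, Fintype.card_sum, Fintype.card_fin, Fintype.card_fin]; omega
    refine ⟨basisOfLinearIndependentOfCardEqFinrank hli hcard, Q y, hirr, ?_⟩
    simp only [coe_basisOfLinearIndependentOfCardEqFinrank, Sum.elim_inl, Sum.elim_inr]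
    obtain ⟨g1, g2, g3⟩ := h
    rw [mem_perp] at hxU hyU
    refine ⟨g1, g2, g3, ?_, ?_, ?_, ?_⟩
    · intro i k'
      fin_cases k'
      · exact ⟨(hxU i).2, (hxU i).1⟩
      · exact ⟨(hyU i).2, (hyU i).1⟩
    · exact hQx
    · exact hxy
    · rfl

/-- Odd-dimensional normal form: `m` hyperbolic pairs plus an orthogonal non-singular vector. -/
theorem odd_normal_form {m : ℕ} (hV : finrank F V = 2 * m + 1) (Q : QuadraticForm F V)
    (hQ : (polarBilin Q).Nondegenerate) :
    ∃ b : Basis (Unit ⊕ (Fin m ⊕ Fin m)) F V, Q (b (Sum.inl ())) ≠ 0 ∧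
      (∀ i, polar Q (b (Sum.inl ())) (b (Sum.inr (Sum.inl i))) = 0 ∧
        polar Q (b (Sum.inl ())) (b (Sum.inr (Sum.inr i))) = 0) ∧
      (∀ i, Q (b (Sum.inr (Sum.inl i))) = 0 ∧ Q (b (Sum.inr (Sum.inr i))) = 0) ∧
      (∀ i j, polar Q (b (Sum.inr (Sum.inl i))) (b (Sum.inr (Sum.inr j))) = if i = j then 1 else 0) ∧
      (∀ i j, polar Q (b (Sum.inr (Sum.inl i))) (b (Sum.inr (Sum.inl j))) = 0 ∧
        polar Q (b (Sum.inr (Sum.inr i))) (b (Sum.inr (Sum.inr j))) = 0) := by
  obtain ⟨k, e, f, h, han⟩ := exists_maximal_hypFam Q hQ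
  have h1 := finrank_perp Q h
  have h2 := finrank_le_two_of_anisotropic Q (perp Q e f) han
  have h3 : finrank F (perp Q e f) = 1 := by omega
  have hk : k = m := by omega
  subst hk
  obtain ⟨⟨u, huU⟩, hu0⟩ := Module.finrank_pos_iff_exists_ne_zero.mp (by omega : 0 < finrank F (perp Q e f))
  have hu0' : u ≠ 0 := fun h0 => hu0 (Subtype.ext h0)
  have hQu : Q u ≠ 0 := fun h0 => hu0' (han u huU h0)
  have hli : LinearIndependent F (Sum.elim (fun _ : Unit => u) (Sum.elim e f)) := by
    apply LinearIndependent.sum_type (linearIndependent_unique_iff.mpr hu0')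
      (linearIndependent_hypFam Q h)
    apply (span_inf_perp Q h).symm.mono_left
    rw [Submodule.span_le]
    rintro _ ⟨i, rfl⟩
    exact huU
  have hcard : Fintype.card (Unit ⊕ (Fin k ⊕ Fin k)) = finrank F V := by
    rw [Fintype.card_sum, Fintype.card_sum, Fintype.card_fin, Fintype.card_unit]; omega
  refine ⟨basisOfLinearIndependentOfCardEqFinrank hli hcard, ?_⟩
  simp only [coe_basisOfLinearIndependentOfCardEqFinrank, Sum.elim_inl, Sum.elim_inr]
  obtain ⟨g1, g2, g3⟩ := h
  rw [mem_perp] at huU
  refine ⟨hQu, ?_, g1, g2, g3⟩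
  intro i
  exact ⟨by rw [polar_comm]; exact (huU i).2, by rw [polar_comm]; exact (huU i).1⟩

end Normal

section Ext
variable {F : Type*} [Field F] {V : Type*} [AddCommGroup V] [Module F V]

/-- Two quadratic forms agreeing on a basis, with polar forms agreeing on pairs of basis vectors,
are equal. -/
theorem ext_basis {ι : Type*} (b : Basis ι F V) (Q₁ Q₂ : QuadraticForm F V)
    (h1 : ∀ i, Q₁ (b i) = Q₂ (b i)) (h2 : ∀ i j, polar Q₁ (b i) (b j) = polar Q₂ (b i) (b j)) :
    Q₁ = Q₂ := by
  classical
  letI : LinearOrder ι := linearOrderOfSTO WellOrderingRel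
  rw [← QuadraticMap.toQuadraticMap_toBilin Q₁ b, ← QuadraticMap.toQuadraticMap_toBilin Q₂ b]
  congr 1
  apply b.ext
  intro i
  apply b.ext
  intro j
  rw [QuadraticMap.toBilin_apply, QuadraticMap.toBilin_apply, h1, h2]

/-- A similarity (multiplier `c`) between two quadratic forms from a family `w` matching a basis
`b`. -/
theorem exists_similarity_of_basis [FiniteDimensional F V] {ι : Type*} (b : Basis ι F V)
    (Q₁ Q₂ : QuadraticForm F V) (hQ₁ : (polarBilin Q₁).Nondegenerate) (c : F) (hc : c ≠ 0)
    (w : ι → V) (h1 : ∀ s, Q₂ (w s) = c * Q₁ (b s))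
    (h2 : ∀ s s', polar Q₂ (w s) (w s') = c * polar Q₁ (b s) (b s')) :
    ∃ g : V ≃ₗ[F] V, ∀ v, Q₂ (g v) = c * Q₁ v := by
  let gl : V →ₗ[F] V := b.constr F w
  have hgl : ∀ s, gl (b s) = w s := fun s => Basis.constr_basis b F w s
  have hcomp : Q₂.comp gl = c • Q₁ := by
    apply ext_basis b
    · intro s
      rw [QuadraticMap.comp_apply, hgl, h1]
      rfl
    · intro s s'
      have e1 : polar (Q₂.comp gl) (b s) (b s') = polar Q₂ (gl (b s)) (gl (b s')) := by
        simp only [polar, QuadraticMap.comp_apply, map_add]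
      have e2 : polar (⇑(c • Q₁)) (b s) (b s') = c * polar Q₁ (b s) (b s') := by
        simp only [polar, QuadraticMap.smul_apply, smul_eq_mul]
        ring
      rw [e1, e2, hgl, hgl, h2]
  have hval : ∀ v, Q₂ (gl v) = c * Q₁ v := by
    intro v
    have := congrArg (fun q : QuadraticForm F V => q v) hcomp
    simpa using this
  have hinj : Function.Injective gl := by
    rw [← LinearMap.ker_eq_bot, LinearMap.ker_eq_bot']
    intro v hv
    apply hQ₁.1 v
    intro u
    rw [polarBilin_apply_apply]
    have e3 : polar Q₂ (gl v) (gl u) = c * polar Q₁ v u := by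
      simp only [polar, ← map_add, hval]
      ring
    rw [hv] at e3
    have e4 : polar Q₂ 0 (gl u) = 0 := by simp [polar]
    rw [e4] at e3
    rcases mul_eq_zero.mp e3.symm with h | h
    · exact absurd h hc
    · exact h
  refine ⟨LinearEquiv.ofInjectiveEndo gl hinj, ?_⟩
  intro v
  rw [LinearEquiv.coe_ofInjectiveEndo]
  exact hval v

end Ext

section Diag
variable {F : Type*} [Field F] [Finite F]

/-- A non-degenerate quadratic form in dimension at least two over a finite field represents `1`. -/
theorem exists_eq_one {V : Type*} [AddCommGroup V] [Module F V] [FiniteDimensional F V]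
    (hV : 2 ≤ finrank F V) (Q : QuadraticForm F V) (hQ : (polarBilin Q).Nondegenerate) :
    ∃ v : V, Q v = 1 := by
  let Q' : QuadraticForm F (V × F) := Q.prod ((-1 : F) • QuadraticMap.sq (R := F))
  have h3 : 3 ≤ finrank F (V × F) := by
    rw [Module.finrank_prod, Module.finrank_self]; omega
  obtain ⟨⟨v, t⟩, hvt0, hvt⟩ := exists_singular Q' h3
  have hvt' : Q v + -1 * (t * t) = 0 := by
    simpa [Q'] using hvt
  by_cases ht : t = 0
  · subst ht
    have hQv : Q v = 0 := by simpa using hvt'
    have hv0 : v ≠ 0 := by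
      rintro rfl
      exact hvt0 rfl
    have hfam : IsHypFam Q (Fin.elim0 : Fin 0 → V) Fin.elim0 :=
      ⟨fun i => i.elim0, fun i => i.elim0, fun i => i.elim0⟩
    have hmem : ∀ z : V, z ∈ perp Q (Fin.elim0 : Fin 0 → V) Fin.elim0 := fun z =>
      (mem_perp Q _ _ z).mpr (fun i => i.elim0)
    obtain ⟨w, -, hQw, hvw⟩ := exists_partner Q hQ hfam v (hmem v) hv0 hQv
    refine ⟨v + w, ?_⟩
    rw [QuadraticMap.map_add Q, hQv, hQw, hvw]
    simp
  · refine ⟨t⁻¹ • v, ?_⟩
    have : Q v = t * t := by linear_combination hvt'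
    rw [QuadraticMap.map_smul, smul_eq_mul, this]
    field_simp

/-- Diagonal normal form in odd characteristic: an orthogonal basis with `Q = 1` on all but the
last vector. -/
theorem diag_normal_form (h2 : (2 : F) ≠ 0) :
    ∀ (n : ℕ) {V : Type*} [AddCommGroup V] [Module F V] [FiniteDimensional F V],
      finrank F V = n + 1 → ∀ (Q : QuadraticForm F V), (polarBilin Q).Nondegenerate →
      ∃ b : Basis (Fin (n + 1)) F V, (∀ i j, i ≠ j → polar Q (b i) (b j) = 0) ∧
        (∀ i : Fin (n + 1), i ≠ Fin.last n → Q (b i) = 1) := by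
  intro n
  induction n with
  | zero =>
    intro V _ _ _ hV Q _
    refine ⟨Module.finBasisOfFinrankEq F V hV, ?_, ?_⟩
    · intro i j hij
      exact absurd (Fin.ext (by have := i.2; have := j.2; omega)) hij
    · intro i hi
      exact absurd (Fin.ext (by have := i.2; simp)) hi
  | succ n ih =>
    intro V _ _ _ hV Q hQ
    obtain ⟨v, hQv⟩ := exists_eq_one (by omega) Q hQ
    have hvv : polar Q v v = 2 := by rw [polar_self, hQv]; simp
    obtain ⟨W, hW⟩ : ∃ W : Submodule F V, W = LinearMap.ker (polarBilin Q v) := ⟨_, rfl⟩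
    have hmemW : ∀ z : V, z ∈ W ↔ polar Q v z = 0 := by
      intro z
      rw [hW, LinearMap.mem_ker, polarBilin_apply_apply]
    have hfrW : finrank F W = n + 1 := by
      have hsurj : LinearMap.range (polarBilin Q v) = ⊤ := by
        rw [LinearMap.range_eq_top]
        intro a
        refine ⟨(a / 2) • v, ?_⟩
        rw [polarBilin_apply_apply, polar_smul_right, hvv, smul_eq_mul]
        field_simp
      have h1 := LinearMap.finrank_range_add_finrank_ker (polarBilin Q v)
      rw [hsurj, finrank_top, Module.finrank_self, ← hW] at h1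
      omega
    have hproj : ∀ w : V, w - (polar Q v w / 2) • v ∈ W := by
      intro w
      rw [hmemW, polar_sub_right, polar_smul_right, hvv, smul_eq_mul]
      field_simp
      ring
    have hpolW : ∀ a b : W, polar (Q.comp W.subtype) a b = polar Q (a : V) (b : V) := by
      intro a b
      simp [polar]
    have hQW : (polarBilin (Q.comp W.subtype)).Nondegenerate := by
      have hrefl : (polarBilin (Q.comp W.subtype)).IsRefl := by
        intro a b hab
        rw [polarBilin_apply_apply] at hab ⊢
        rw [polar_comm]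
        exact hab
      rw [LinearMap.IsRefl.nondegenerate_iff_separatingLeft hrefl]
      intro u hu
      have hu0 : (u : V) = 0 := by
        apply hQ.1
        intro w
        rw [polarBilin_apply_apply]
        have e1 := hu ⟨_, hproj w⟩
        rw [polarBilin_apply_apply, hpolW] at e1
        simp only at e1
        rw [polar_sub_right, polar_smul_right, polar_comm _ (u : V) v, (hmemW _).mp u.2] at e1
        simpa using e1
      exact Subtype.ext hu0
    obtain ⟨b', hb1, hb2⟩ := ih hfrW (Q.comp W.subtype) hQW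
    have hvW : v ∉ W := by
      rw [hmemW, hvv]
      exact h2
    have hli : LinearIndependent F (Fin.cons v (fun i => (b' i : V)) : Fin (n + 2) → V) := by
      rw [linearIndependent_finCons]
      refine ⟨b'.linearIndependent.map' W.subtype W.ker_subtype, ?_⟩
      intro hmem
      apply hvW
      have hle : Submodule.span F (Set.range (fun i => (b' i : V))) ≤ W := by
        rw [Submodule.span_le]
        rintro _ ⟨i, rfl⟩
        exact (b' i).2
      exact hle hmem
    have hcard : Fintype.card (Fin (n + 2)) = finrank F V := by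
      rw [Fintype.card_fin, hV]
    refine ⟨basisOfLinearIndependentOfCardEqFinrank hli hcard, ?_, ?_⟩
    · simp only [coe_basisOfLinearIndependentOfCardEqFinrank]
      intro i j
      refine Fin.cases ?_ (fun i => ?_) i <;> refine Fin.cases ?_ (fun j => ?_) j
      · intro h; exact absurd rfl h
      · intro _
        simp only [Fin.cons_zero, Fin.cons_succ]
        exact (hmemW _).mp (b' j).2
      · intro _
        simp only [Fin.cons_zero, Fin.cons_succ]
        rw [polar_comm]
        exact (hmemW _).mp (b' i).2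
      · intro h
        simp only [Fin.cons_succ]
        rw [← hpolW]
        exact hb1 i j (fun h' => h (by rw [h']))
    · simp only [coe_basisOfLinearIndependentOfCardEqFinrank]
      intro i
      refine Fin.cases ?_ (fun i => ?_) i
      · intro _
        simpa using hQv
      · intro h
        simp only [Fin.cons_succ]
        have := hb2 i (fun h' => h (by rw [h']; rfl))
        simpa using this

end Diag

end Cfsg.Agent.Lib_helper8_QuadForm
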