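import Mathlib
import Cfsg.Prelude.Def_LieRecognition

namespace Cfsg.Agent.Lib_helper8_RankOne

open MulAction

variable {G Ω : Type*} [Group G] [MulAction G Ω] {a : Ω} {t : G} {Q : Subgroup G}

theorem two_trans (hS : Cfsg.IsRankOneSetup G Ω a t Q) {b c d e : Ω} (h1 : b ≠ c) (h2 : d ≠ e) :
    ∃ g : G, g • b = d ∧ g • c = e :=
  MulAction.is_two_pretransitive_iff.1 hS.two_transitive h1 h2

theorem t_inv (hS : Cfsg.IsRankOneSetup G Ω a t Q) : t⁻¹ = t :=
  inv_eq_of_mul_eq_one_left hS.mul_self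

theorem tta (hS : Cfsg.IsRankOneSetup G Ω a t Q) : t • t • a = a := by
  rw [smul_smul, hS.mul_self, one_smul]

theorem ta_ne (hS : Cfsg.IsRankOneSetup G Ω a t Q) : t • a ≠ a :=
  fun h => hS.not_mem (MulAction.mem_stabilizer_iff.2 h)

/-- Every element of `G_a` is `q * d` with `q ∈ Q`, `d ∈ D`. -/
theorem exists_mul (hS : Cfsg.IsRankOneSetup G Ω a t Q) {h : G} (hh : h ∈ stabilizer G a) :
    ∃ q ∈ Q, ∃ d ∈ stabilizer G a ⊓ stabilizer G (t • a), h = q * d := by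
  let S : Subgroup G :=
    { carrier := {x | ∃ q ∈ Q, ∃ d ∈ stabilizer G a ⊓ stabilizer G (t • a), x = q * d}
      one_mem' := ⟨1, Q.one_mem, 1, Subgroup.one_mem _, by simp⟩
      mul_mem' := by
        rintro x y ⟨q, hq, d, hd, rfl⟩ ⟨q', hq', d', hd', rfl⟩
        refine ⟨q * (d * q' * d⁻¹),
          Q.mul_mem hq (hS.conj_mem d (Subgroup.mem_inf.1 hd).1 q' hq'), d * d',
          Subgroup.mul_mem _ hd hd', by group⟩
      inv_mem' := by
        rintro x ⟨q, hq, d, hd, rfl⟩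
        refine ⟨d⁻¹ * q⁻¹ * d⁻¹⁻¹,
          hS.conj_mem d⁻¹ (Subgroup.inv_mem _ (Subgroup.mem_inf.1 hd).1) q⁻¹ (Q.inv_mem hq),
          d⁻¹, Subgroup.inv_mem _ hd, by group⟩ }
  have hle : Q ⊔ (stabilizer G a ⊓ stabilizer G (t • a)) ≤ S := by
    apply sup_le
    · intro q hq
      exact ⟨q, hq, 1, Subgroup.one_mem _, by simp⟩
    · intro d hd
      exact ⟨1, Q.one_mem, d, hd, by simp⟩
  rw [← hS.sup_eq] at hh
  exact hle hh

/-- `Q` is transitive on the points other than `a` (orbit of `t • a`). -/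
theorem exists_Q_smul (hS : Cfsg.IsRankOneSetup G Ω a t Q) {c : Ω} (hc : c ≠ a) :
    ∃ x ∈ Q, x • (t • a) = c := by
  obtain ⟨g, hg1, hg2⟩ := two_trans hS (ta_ne hS).symm hc.symm
  obtain ⟨q, hq, d, hd, rfl⟩ := exists_mul hS (mem_stabilizer_iff.2 hg1)
  refine ⟨q, hq, ?_⟩
  rw [← hg2, mul_smul, (mem_stabilizer_iff.1 (Subgroup.mem_inf.1 hd).2)]

/-- A non-identity element of `Q` fixes no point other than `a`. -/
theorem eq_one_of_fix (hS : Cfsg.IsRankOneSetup G Ω a t Q) {x : G} (hx : x ∈ Q) {c : Ω}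
    (hc : c ≠ a) (h : x • c = c) : x = 1 := by
  obtain ⟨y, hy, rfl⟩ := exists_Q_smul hS hc
  have h1 : y⁻¹ * x * y ∈ Q ⊓ stabilizer G (t • a) := by
    refine Subgroup.mem_inf.2 ⟨Q.mul_mem (Q.mul_mem (Q.inv_mem hy) hx) hy, ?_⟩
    rw [mem_stabilizer_iff, mul_smul, mul_smul, h, inv_smul_smul]
  rw [hS.inf_eq_bot, Subgroup.mem_bot] at h1
  have h2 : x = y * (y⁻¹ * x * y) * y⁻¹ := by group
  rw [h2, h1]
  group

theorem eq_of_smul_eq (hS : Cfsg.IsRankOneSetup G Ω a t Q) {x y : G} (hx : x ∈ Q) (hy : y ∈ Q)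
    {c : Ω} (hc : c ≠ a) (h : x • c = y • c) : x = y := by
  have h1 : y⁻¹ * x = 1 :=
    eq_one_of_fix hS (Q.mul_mem (Q.inv_mem hy) hx) hc (by rw [mul_smul, h, inv_smul_smul])
  exact (inv_mul_eq_one.1 h1).symm

theorem Q_smul_ne (hS : Cfsg.IsRankOneSetup G Ω a t Q) {x : G} (hx : x ∈ Q) {c : Ω}
    (hc : c ≠ a) : x • c ≠ a := by
  intro h
  apply hc
  have h1 : x • a = a := mem_stabilizer_iff.1 (hS.le hx)
  exact MulAction.injective x (h.trans h1.symm)

theorem exists_Q_smul' (hS : Cfsg.IsRankOneSetup G Ω a t Q) {b c : Ω} (hb : b ≠ a)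
    (hc : c ≠ a) : ∃ x ∈ Q, x • b = c := by
  obtain ⟨y, hy, rfl⟩ := exists_Q_smul hS hb
  obtain ⟨z, hz, rfl⟩ := exists_Q_smul hS hc
  exact ⟨z * y⁻¹, Q.mul_mem hz (Q.inv_mem hy), by rw [mul_smul, inv_smul_smul]⟩

theorem existsUnique_Q (hS : Cfsg.IsRankOneSetup G Ω a t Q) {b c : Ω} (hb : b ≠ a)
    (hc : c ≠ a) : ∃! x : Q, (x : G) • b = c := by
  obtain ⟨x, hx, hxb⟩ := exists_Q_smul' hS hb hc
  refine ⟨⟨x, hx⟩, hxb, ?_⟩
  rintro ⟨y, hy⟩ hyb
  exact Subtype.ext (eq_of_smul_eq hS hy hx hb (hyb.trans hxb.symm))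

/-- `t` normalises the two-point stabiliser. -/
theorem t_conj_D (hS : Cfsg.IsRankOneSetup G Ω a t Q) {d : G}
    (hd : d ∈ stabilizer G a ⊓ stabilizer G (t • a)) :
    t * d * t ∈ stabilizer G a ⊓ stabilizer G (t • a) := by
  obtain ⟨h1, h2⟩ := Subgroup.mem_inf.1 hd
  rw [mem_stabilizer_iff] at h1 h2
  refine Subgroup.mem_inf.2 ⟨?_, ?_⟩
  · rw [mem_stabilizer_iff, mul_smul, mul_smul, h2, tta hS]
  · rw [mem_stabilizer_iff, mul_smul, mul_smul, tta hS, h1]

theorem eq_one_of_mem_Q_D (hS : Cfsg.IsRankOneSetup G Ω a t Q) {x : G} (hx : x ∈ Q)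
    (hd : x ∈ stabilizer G a ⊓ stabilizer G (t • a)) : x = 1 := by
  have h1 : x ∈ Q ⊓ stabilizer G (t • a) := Subgroup.mem_inf.2 ⟨hx, (Subgroup.mem_inf.1 hd).2⟩
  rwa [hS.inf_eq_bot, Subgroup.mem_bot] at h1

/-- Existence of the canonical form `g = x * t * y`. -/
theorem canon_exists (hS : Cfsg.IsRankOneSetup G Ω a t Q) {g : G} (hg : g ∉ stabilizer G a) :
    ∃ x ∈ stabilizer G a, ∃ y ∈ Q, g = x * t * y := by
  have h1 : g⁻¹ • a ≠ a := by
    intro h
    apply hg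
    rw [mem_stabilizer_iff]
    exact (inv_smul_eq_iff.1 h).symm
  obtain ⟨y, hy, hyb⟩ := exists_Q_smul' hS h1 (ta_ne hS)
  refine ⟨g * y⁻¹ * t, ?_, y, hy, ?_⟩
  · rw [mem_stabilizer_iff, mul_smul, mul_smul, ← hyb, inv_smul_smul, smul_inv_smul]
  · rw [mul_assoc (g * y⁻¹) t t, hS.mul_self]
    group

/-- Uniqueness of the canonical form. -/
theorem canon_unique (hS : Cfsg.IsRankOneSetup G Ω a t Q) {x x' y y' : G}
    (hx : x ∈ stabilizer G a) (hx' : x' ∈ stabilizer G a) (hy : y ∈ Q) (hy' : y' ∈ Q)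
    (h : x * t * y = x' * t * y') : x = x' ∧ y = y' := by
  have key : ∀ {x y : G}, x ∈ stabilizer G a → (x * t * y)⁻¹ • a = y⁻¹ • t • a := by
    intro x y hx
    rw [mul_inv_rev, mul_inv_rev, mul_smul, mul_smul, t_inv hS,
      mem_stabilizer_iff.1 (Subgroup.inv_mem _ hx)]
  have h1 : y⁻¹ • t • a = y'⁻¹ • t • a := by rw [← key hx, ← key hx', h]
  have h2 : y⁻¹ = y'⁻¹ := eq_of_smul_eq hS (Q.inv_mem hy) (Q.inv_mem hy') (ta_ne hS) h1
  have h3 : y = y' := inv_injective h2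
  subst h3
  exact ⟨mul_right_cancel (mul_right_cancel h), rfl⟩

/-- Uniqueness of the form `g * h * t * f` with `g, f ∈ Q`, `h ∈ D`. -/
theorem canon_unique3 (hS : Cfsg.IsRankOneSetup G Ω a t Q) {g g' h h' f f' : G}
    (hg : g ∈ Q) (hg' : g' ∈ Q) (hh : h ∈ stabilizer G a ⊓ stabilizer G (t • a))
    (hh' : h' ∈ stabilizer G a ⊓ stabilizer G (t • a)) (hf : f ∈ Q) (hf' : f' ∈ Q)
    (heq : g * h * t * f = g' * h' * t * f') : g = g' ∧ h = h' ∧ f = f' := by
  have hD : ∀ {d : G}, d ∈ stabilizer G a ⊓ stabilizer G (t • a) → d ∈ stabilizer G a :=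
    fun hd => (Subgroup.mem_inf.1 hd).1
  obtain ⟨h1, h2⟩ := canon_unique hS (Subgroup.mul_mem _ (hS.le hg) (hD hh))
    (Subgroup.mul_mem _ (hS.le hg') (hD hh')) hf hf' heq
  have h3 : g'⁻¹ * g = h' * h⁻¹ := by
    calc g'⁻¹ * g = g'⁻¹ * (g * h) * h⁻¹ := by group
      _ = g'⁻¹ * (g' * h') * h⁻¹ := by rw [h1]
      _ = h' * h⁻¹ := by group
  have h4 : g'⁻¹ * g = 1 := eq_one_of_mem_Q_D hS (Q.mul_mem (Q.inv_mem hg') hg)
    (by rw [h3]; exact Subgroup.mul_mem _ hh' (Subgroup.inv_mem _ hh))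
  have h5 : g = g' := (inv_mul_eq_one.1 h4).symm
  subst h5
  exact ⟨rfl, mul_left_cancel h1, h2⟩


/-! ### Pure group theory: dihedral lemmas -/

theorem invol_conj {H : Type*} [Group H] {x y : H} (hx : x * x = 1) (hy : y * y = 1)
    (hodd : Odd (orderOf (x * y))) : ∃ z : H, z * z = 1 ∧ z * x * z = y := by
  obtain ⟨n, hn⟩ := hodd
  have hxinv : x⁻¹ = x := inv_eq_of_mul_eq_one_left hx
  have hyinv : y⁻¹ = y := inv_eq_of_mul_eq_one_left hy
  obtain ⟨w, hw⟩ : ∃ w, w = x * y := ⟨_, rfl⟩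
  rw [← hw] at hn
  have hwinv : w⁻¹ = y * x := by rw [hw, mul_inv_rev, hxinv, hyinv]
  have hxw : x * w * x⁻¹ = w⁻¹ := by rw [hwinv, hw, hxinv, ← mul_assoc x x y, hx, one_mul]
  have hxwn : x * w ^ n = (w ^ n)⁻¹ * x := by
    have h1 := conj_pow (a := x) (b := w) (i := n)
    rw [hxw, inv_pow] at h1
    rw [h1]
    group
  have hw2n : w ^ n * w ^ n = w⁻¹ := by
    have h1 : w ^ (2 * n + 1) = 1 := by rw [← hn]; exact pow_orderOf_eq_one w
    have h2 : w ^ n * w ^ n * w = 1 := by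
      rw [← pow_add, ← pow_succ, ← h1]
      congr 1
      ring
    exact eq_inv_of_mul_eq_one_left h2
  refine ⟨w ^ n * x, ?_, ?_⟩
  · calc w ^ n * x * (w ^ n * x) = w ^ n * (x * w ^ n) * x := by group
      _ = w ^ n * ((w ^ n)⁻¹ * x) * x := by rw [hxwn]
      _ = x * x := by group
      _ = 1 := hx
  · calc w ^ n * x * x * (w ^ n * x) = w ^ n * (x * x) * w ^ n * x := by group
      _ = w ^ n * w ^ n * x := by rw [hx, mul_one]
      _ = w⁻¹ * x := by rw [hw2n]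
      _ = y := by rw [hwinv, mul_assoc, hx, mul_one]

theorem eq_of_sq_eq {H : Type*} [Group H] {w w' : H} (h1 : Odd (orderOf w))
    (h2 : Odd (orderOf w')) (h : w * w = w' * w') : w = w' := by
  have e1 : orderOf (w ^ 2) = orderOf w := Nat.Coprime.orderOf_pow (Nat.coprime_two_right.2 h1)
  have e2 : orderOf (w' ^ 2) = orderOf w' :=
    Nat.Coprime.orderOf_pow (Nat.coprime_two_right.2 h2)
  have h' : w ^ 2 = w' ^ 2 := by rw [pow_two, pow_two, h]
  have e3 : orderOf w = orderOf w' := by rw [← e1, ← e2, h']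
  obtain ⟨n, hn⟩ := h1
  have a1 : w = (w ^ 2) ^ (n + 1) := by
    rw [← pow_mul]
    have h3 : 2 * (n + 1) = orderOf w + 1 := by omega
    rw [h3, pow_succ, pow_orderOf_eq_one, one_mul]
  have a2 : w' = (w' ^ 2) ^ (n + 1) := by
    rw [← pow_mul]
    have h3 : 2 * (n + 1) = orderOf w' + 1 := by omega
    rw [h3, pow_succ, pow_orderOf_eq_one, one_mul]
  rw [a1, a2, h']

theorem invol_unique {H : Type*} [Group H] {s u u' : H} (hs : s * s = 1)
    (h1 : Odd (orderOf (s * u))) (h2 : Odd (orderOf (s * u')))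
    (h : u * s * u = u' * s * u') : u = u' := by
  have h3 : (s * u) * (s * u) = (s * u') * (s * u') := by
    calc s * u * (s * u) = s * (u * s * u) := by group
      _ = s * (u' * s * u') := by rw [h]
      _ = s * u' * (s * u') := by group
  exact mul_left_cancel (eq_of_sq_eq h1 h2 h3)

/-! ### The finite case -/

section Fin

variable [Finite G]

theorem pretrans (hS : Cfsg.IsRankOneSetup G Ω a t Q) : IsPretransitive G Ω :=
  haveI := hS.two_transitive
  MulAction.isPretransitive_of_is_two_pretransitive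

theorem finite_Ω (hS : Cfsg.IsRankOneSetup G Ω a t Q) : Finite Ω := by
  haveI := pretrans hS
  exact Finite.of_surjective (fun g : G => g • a) (MulAction.surjective_smul G a)

theorem card_Ω (hS : Cfsg.IsRankOneSetup G Ω a t Q) : Nat.card Ω = Nat.card Q + 1 := by
  classical
  haveI := finite_Ω hS
  have hbij : Function.Bijective (fun q : Q =>
      (⟨(q : G) • (t • a), Q_smul_ne hS q.2 (ta_ne hS)⟩ : {c : Ω // c ≠ a})) := by
    constructor
    · rintro ⟨x, hx⟩ ⟨y, hy⟩ h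
      exact Subtype.ext (eq_of_smul_eq hS hx hy (ta_ne hS) (congrArg Subtype.val h))
    · rintro ⟨c, hc⟩
      obtain ⟨x, hx, hxc⟩ := exists_Q_smul hS hc
      exact ⟨⟨x, hx⟩, Subtype.ext hxc⟩
  rw [← Nat.card_congr (Equiv.optionSubtypeNe a), Finite.card_option,
    Nat.card_congr (Equiv.ofBijective _ hbij)]

theorem card_stab (hS : Cfsg.IsRankOneSetup G Ω a t Q) :
    Nat.card (stabilizer G a) =
      Nat.card Q * Nat.card ↥(stabilizer G a ⊓ stabilizer G (t • a)) := by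
  have hbij : Function.Bijective (fun p : Q × ↥(stabilizer G a ⊓ stabilizer G (t • a)) =>
      (⟨(p.1 : G) * (p.2 : G),
        Subgroup.mul_mem _ (hS.le p.1.2) (Subgroup.mem_inf.1 p.2.2).1⟩ : stabilizer G a)) := by
    constructor
    · rintro ⟨⟨q, hq⟩, ⟨d, hd⟩⟩ ⟨⟨q', hq'⟩, ⟨d', hd'⟩⟩ h
      have h1 : q * d = q' * d' := congrArg Subtype.val h
      have h3 : q'⁻¹ * q = d' * d⁻¹ := by
        calc q'⁻¹ * q = q'⁻¹ * (q * d) * d⁻¹ := by group
          _ = q'⁻¹ * (q' * d') * d⁻¹ := by rw [h1]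
          _ = d' * d⁻¹ := by group
      have h4 : q'⁻¹ * q = 1 := eq_one_of_mem_Q_D hS (Q.mul_mem (Q.inv_mem hq') hq)
        (by rw [h3]; exact Subgroup.mul_mem _ hd' (Subgroup.inv_mem _ hd))
      have h5 : q = q' := (inv_mul_eq_one.1 h4).symm
      subst h5
      have h6 : d = d' := mul_left_cancel h1
      subst h6
      rfl
    · rintro ⟨h, hh⟩
      obtain ⟨q, hq, d, hd, rfl⟩ := exists_mul hS hh
      exact ⟨(⟨q, hq⟩, ⟨d, hd⟩), rfl⟩
  rw [← Nat.card_congr (Equiv.ofBijective _ hbij), Nat.card_prod]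

theorem card_G (hS : Cfsg.IsRankOneSetup G Ω a t Q) :
    Nat.card G = Nat.card Q * Nat.card ↥(stabilizer G a ⊓ stabilizer G (t • a)) *
      (Nat.card Q + 1) := by
  haveI := pretrans hS
  rw [← card_stab hS, ← card_Ω hS, ← MulAction.index_stabilizer_of_transitive G a,
    Subgroup.card_mul_index]

theorem exists_sylow (hS : Cfsg.IsRankOneSetup G Ω a t Q) :
    ∃ P : Sylow 2 G, (P : Subgroup G) ≤ Q := by
  classical
  obtain ⟨P₀⟩ : Nonempty (Sylow 2 Q) := inferInstance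
  have hQpos : Nat.card Q ≠ 0 := Nat.card_pos.ne'
  have hDpos : Nat.card ↥(stabilizer G a ⊓ stabilizer G (t • a)) ≠ 0 := Nat.card_pos.ne'
  have hfac : (Nat.card G).factorization 2 = (Nat.card Q).factorization 2 := by
    have h1 : (Nat.card ↥(stabilizer G a ⊓ stabilizer G (t • a))).factorization 2 = 0 :=
      Nat.factorization_eq_zero_of_not_dvd hS.odd_card.not_two_dvd_nat
    have h2 : (Nat.card Q + 1).factorization 2 = 0 :=
      Nat.factorization_eq_zero_of_not_dvd hS.even_card.add_one.not_two_dvd_nat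
    rw [card_G hS, Nat.factorization_mul (mul_ne_zero hQpos hDpos) (by omega),
      Nat.factorization_mul hQpos hDpos, Finsupp.add_apply, Finsupp.add_apply, h1, h2,
      add_zero, add_zero]
  have hcard : Nat.card ((P₀ : Subgroup Q).map Q.subtype) =
      2 ^ (Nat.card G).factorization 2 := by
    rw [Subgroup.card_map_of_injective Q.subtype_injective, P₀.card_eq_multiplicity, hfac]
  refine ⟨Sylow.ofCard _ hcard, ?_⟩
  rw [Sylow.coe_ofCard]
  exact Subgroup.map_subtype_le _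

/-- An element of `G_a` of order at most two lies in `Q`. -/
theorem mem_Q_of_sq (hS : Cfsg.IsRankOneSetup G Ω a t Q) {s : G} (hs : s ∈ stabilizer G a)
    (hs2 : s * s = 1) : s ∈ Q := by
  obtain ⟨q, hq, d, hd, rfl⟩ := exists_mul hS hs
  have hdG := (Subgroup.mem_inf.1 hd).1
  have h1 : d * d = (q * (d * q * d⁻¹))⁻¹ := by
    have h0 : q * (d * q * d⁻¹) * (d * d) = 1 := by
      rw [← hs2]
      group
    exact eq_inv_of_mul_eq_one_right h0
  have h2 : d * d = 1 := eq_one_of_mem_Q_D hS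
    (by rw [h1]; exact Q.inv_mem (Q.mul_mem hq (hS.conj_mem d hdG q hq)))
    (Subgroup.mul_mem _ hd hd)
  have h3 : orderOf d ∣ 2 := orderOf_dvd_of_pow_eq_one (by rw [pow_two]; exact h2)
  have h4 : orderOf d ∣ Nat.card ↥(stabilizer G a ⊓ stabilizer G (t • a)) :=
    Subgroup.orderOf_dvd_natCard _ hd
  have h5 : orderOf d = 1 := by
    have h6 := Nat.dvd_gcd h3 h4
    have hco : Nat.gcd 2 (Nat.card ↥(stabilizer G a ⊓ stabilizer G (t • a))) = 1 :=
      Nat.coprime_two_left.2 hS.odd_card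
    rw [hco] at h6
    exact Nat.dvd_one.1 h6
  rw [orderOf_eq_one_iff] at h5
  rw [h5, mul_one]
  exact hq

/-- Every element of order at most two has a fixed point. -/
theorem exists_fix (hS : Cfsg.IsRankOneSetup G Ω a t Q) {u : G} (hu : u * u = 1) :
    ∃ c : Ω, u • c = c := by
  haveI := finite_Ω hS
  have hp : IsPGroup 2 (Subgroup.zpowers u) := by
    intro g
    refine ⟨1, ?_⟩
    obtain ⟨g, hg⟩ := g
    obtain ⟨k, rfl⟩ := Subgroup.mem_zpowers_iff.1 hg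
    apply Subtype.ext
    simp only [pow_one, Subgroup.coe_pow, Subgroup.coe_one]
    rw [← zpow_natCast, ← zpow_mul, mul_comm, zpow_mul, zpow_natCast, pow_two, hu, one_zpow]
  have h1 := hp.card_modEq_card_fixedPoints Ω
  rw [card_Ω hS] at h1
  have h2 : Nat.card (fixedPoints (Subgroup.zpowers u) Ω) ≠ 0 := by
    intro h0
    rw [h0] at h1
    have h3 := hS.even_card
    rw [Nat.even_iff] at h3
    unfold Nat.ModEq at h1
    omega
  obtain ⟨⟨c, hc⟩⟩ : Nonempty (fixedPoints (Subgroup.zpowers u) Ω) := by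
    by_contra hne
    rw [not_nonempty_iff] at hne
    exact h2 Nat.card_of_isEmpty
  exact ⟨c, hc ⟨u, Subgroup.mem_zpowers u⟩⟩

theorem exists_smul_eq_a (hS : Cfsg.IsRankOneSetup G Ω a t Q) (c : Ω) : ∃ g : G, g • c = a := by
  haveI := pretrans hS
  exact MulAction.exists_smul_eq G c a

theorem conj_mem_Q (hS : Cfsg.IsRankOneSetup G Ω a t Q) {u g : G} (hu : u * u = 1) {c : Ω}
    (hc : u • c = c) (hg : g • c = a) : g * u * g⁻¹ ∈ Q := by
  apply mem_Q_of_sq hS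
  · rw [mem_stabilizer_iff, mul_smul, mul_smul, ← hg, inv_smul_smul, hc]
  · calc g * u * g⁻¹ * (g * u * g⁻¹) = g * (u * u) * g⁻¹ := by group
      _ = 1 := by rw [hu]; group

/-- A non-identity element of order two fixes exactly one point. -/
theorem fix_unique (hS : Cfsg.IsRankOneSetup G Ω a t Q) {u : G} (hu1 : u ≠ 1) (hu : u * u = 1)
    {c c' : Ω} (h : u • c = c) (h' : u • c' = c') : c = c' := by
  obtain ⟨g, hg⟩ := exists_smul_eq_a hS c
  have h1 := conj_mem_Q hS hu h hg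
  by_contra hne
  have h2 : g • c' ≠ a := by
    intro h3
    apply hne
    exact MulAction.injective g (hg.trans h3.symm)
  have h3 : g * u * g⁻¹ = 1 :=
    eq_one_of_fix hS h1 h2 (by rw [mul_smul, mul_smul, inv_smul_smul, h'])
  apply hu1
  have h4 : u = g⁻¹ * (g * u * g⁻¹) * g := by group
  rw [h4, h3]
  group

theorem fix_eq_a (hS : Cfsg.IsRankOneSetup G Ω a t Q) {s : G} (hs : s ∈ stabilizer G a)
    (hs1 : s ≠ 1) (hs2 : s * s = 1) {c : Ω} (h : s • c = c) : c = a :=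
  fix_unique hS hs1 hs2 h (mem_stabilizer_iff.1 hs)

/-- The product of an involution in `G_a` and one outside has odd order. -/
theorem odd_order (hS : Cfsg.IsRankOneSetup G Ω a t Q) {s u : G} (hs : s ∈ stabilizer G a)
    (hs1 : s ≠ 1) (hs2 : s * s = 1) (hu : u ∉ stabilizer G a) (hu2 : u * u = 1) :
    Odd (orderOf (s * u)) := by
  by_contra hodd
  rw [Nat.not_odd_iff_even] at hodd
  obtain ⟨m, hm⟩ := hodd
  have hpos : 0 < orderOf (s * u) := orderOf_pos _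
  have hm0 : 0 < m := by omega
  obtain ⟨w, hw⟩ : ∃ w, w = s * u := ⟨_, rfl⟩
  rw [← hw] at hm hpos
  have hsinv : s⁻¹ = s := inv_eq_of_mul_eq_one_left hs2
  have huinv : u⁻¹ = u := inv_eq_of_mul_eq_one_left hu2
  have hwinv : w⁻¹ = u * s := by rw [hw, mul_inv_rev, hsinv, huinv]
  have hz1 : w ^ m ≠ 1 := pow_ne_one_of_lt_orderOf hm0.ne' (by omega)
  have hz2 : w ^ m * w ^ m = 1 := by rw [← pow_add, ← hm, pow_orderOf_eq_one]
  have hzinv : (w ^ m)⁻¹ = w ^ m := inv_eq_of_mul_eq_one_left hz2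
  have hsz : s * w ^ m * s⁻¹ = w ^ m := by
    rw [← conj_pow]
    have h1 : s * w * s⁻¹ = w⁻¹ := by
      rw [hwinv, hw, hsinv, ← mul_assoc s s u, hs2, one_mul]
    rw [h1, inv_pow, hzinv]
  have huz : u * w ^ m * u⁻¹ = w ^ m := by
    rw [← conj_pow]
    have h1 : u * w * u⁻¹ = w⁻¹ := by
      rw [hwinv, hw, huinv, mul_assoc, mul_assoc, hu2, mul_one]
    rw [h1, inv_pow, hzinv]
  have hza : w ^ m • a = a := by
    apply fix_eq_a hS hs hs1 hs2
    have h1 : s * w ^ m = w ^ m * s := mul_inv_eq_iff_eq_mul.1 hsz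
    rw [← mul_smul, h1, mul_smul, mem_stabilizer_iff.1 hs]
  have hzmem : w ^ m ∈ stabilizer G a := mem_stabilizer_iff.2 hza
  apply hu
  rw [mem_stabilizer_iff]
  apply fix_eq_a hS hzmem hz1 hz2
  have h1 : u * w ^ m = w ^ m * u := mul_inv_eq_iff_eq_mul.1 huz
  rw [← mul_smul, ← h1, mul_smul, hza]

theorem exists_ne_one (hS : Cfsg.IsRankOneSetup G Ω a t Q) : ∃ x ∈ Q, x ≠ 1 := by
  by_contra hcon
  push_neg at hcon
  have h1 : Q = ⊥ := (Subgroup.eq_bot_iff_forall Q).2 hcon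
  have h2 := hS.even_card
  rw [h1, Subgroup.card_bot] at h2
  exact absurd h2 (by decide)

theorem exists_invol (hS : Cfsg.IsRankOneSetup G Ω a t Q) : ∃ s ∈ Q, s ≠ 1 ∧ s * s = 1 := by
  obtain ⟨x, hx⟩ := exists_prime_orderOf_dvd_card' (G := Q) 2 hS.even_card.two_dvd
  refine ⟨(x : G), x.2, ?_, ?_⟩
  · intro h
    have h1 : x = 1 := Subtype.ext h
    rw [h1, orderOf_one] at hx
    omega
  · have h1 := pow_orderOf_eq_one x
    rw [hx, pow_two] at h1
    exact congrArg Subtype.val h1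

/-- Every involution is conjugate to `t`. -/
theorem conj_t (hS : Cfsg.IsRankOneSetup G Ω a t Q) {u : G} (hu1 : u ≠ 1) (hu : u * u = 1) :
    ∃ g : G, g * u * g⁻¹ = t := by
  obtain ⟨c, hc⟩ := exists_fix hS hu
  obtain ⟨g₀, hg₀⟩ := exists_smul_eq_a hS c
  have h1 := conj_mem_Q hS hu hc hg₀
  have h2 : g₀ * u * g₀⁻¹ ≠ 1 := by
    intro h
    apply hu1
    have h4 : u = g₀⁻¹ * (g₀ * u * g₀⁻¹) * g₀ := by group
    rw [h4, h]
    group
  have h3 : g₀ * u * g₀⁻¹ * (g₀ * u * g₀⁻¹) = 1 := by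
    calc g₀ * u * g₀⁻¹ * (g₀ * u * g₀⁻¹) = g₀ * (u * u) * g₀⁻¹ := by group
      _ = 1 := by rw [hu]; group
  have h4 := odd_order hS (hS.le h1) h2 h3 hS.not_mem hS.mul_self
  obtain ⟨z, hz, hzt⟩ := invol_conj h3 hS.mul_self h4
  have hzinv : z⁻¹ = z := inv_eq_of_mul_eq_one_left hz
  refine ⟨z * g₀, ?_⟩
  rw [← hzt, mul_inv_rev, hzinv]
  group

/-! ### The set `K` of elements of `D` inverted by `t` -/

omit [Finite G] in
theorem K_of_swap (hS : Cfsg.IsRankOneSetup G Ω a t Q) {u : G} (hu : u * u = 1)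
    (hua : u • a = t • a) :
    u * t ∈ Cfsg.invertedBy (stabilizer G a ⊓ stabilizer G (t • a)) t := by
  have ht := t_inv hS
  have huinv : u⁻¹ = u := inv_eq_of_mul_eq_one_left hu
  have h1 : u • t • a = a := by rw [← hua, smul_smul, hu, one_smul]
  refine ⟨Subgroup.mem_inf.2 ⟨?_, ?_⟩, ?_⟩
  · rw [mem_stabilizer_iff, mul_smul, h1]
  · rw [mem_stabilizer_iff, mul_smul, tta hS, hua]
  · simp only [mul_assoc, mul_inv_rev, ht, huinv, hS.mul_self, mul_one]

omit [Finite G] in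
theorem swap_of_K (hS : Cfsg.IsRankOneSetup G Ω a t Q) {k : G}
    (hk : k ∈ Cfsg.invertedBy (stabilizer G a ⊓ stabilizer G (t • a)) t) :
    (k * t) * (k * t) = 1 ∧ (k * t) • a = t • a ∧ k * t ∉ stabilizer G a := by
  obtain ⟨hkD, hkt⟩ := hk
  have ht := t_inv hS
  rw [ht] at hkt
  refine ⟨?_, ?_, ?_⟩
  · calc k * t * (k * t) = k * (t * k * t) := by group
      _ = 1 := by rw [hkt, mul_inv_cancel]
  · rw [mul_smul, mem_stabilizer_iff.1 (Subgroup.mem_inf.1 hkD).2]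
  · intro h
    rw [mem_stabilizer_iff, mul_smul, mem_stabilizer_iff.1 (Subgroup.mem_inf.1 hkD).2] at h
    exact ta_ne hS h

/-- Any two involutions of `G_a` are conjugate under `K`. -/
theorem K_trans (hS : Cfsg.IsRankOneSetup G Ω a t Q) {s s' : G} (hs : s ∈ stabilizer G a)
    (hs1 : s ≠ 1) (hs2 : s * s = 1) (hs' : s' ∈ stabilizer G a) (hs'1 : s' ≠ 1)
    (hs'2 : s' * s' = 1) :
    ∃ k ∈ Cfsg.invertedBy (stabilizer G a ⊓ stabilizer G (t • a)) t, k⁻¹ * s * k = s' := by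
  have ht := t_inv hS
  have htt := hS.mul_self
  have htt' : ∀ z : G, t * (t * z) = z := fun z => by rw [← mul_assoc, htt, one_mul]
  have hts : ∀ z : Ω, t • t • z = z := fun z => by rw [smul_smul, htt, one_smul]
  have h1 : (t * s' * t) * (t * s' * t) = 1 := by
    calc t * s' * t * (t * s' * t) = t * s' * (t * t) * s' * t := by group
      _ = t * (s' * s') * t := by rw [htt]; group
      _ = 1 := by rw [hs'2, mul_one, htt]
  have h2 : t * s' * t ∉ stabilizer G a := by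
    intro h
    rw [mem_stabilizer_iff, mul_smul, mul_smul] at h
    have h3 : s' • t • a = t • a := by
      calc s' • t • a = t • (t • s' • t • a) := (hts _).symm
        _ = t • a := by rw [h]
    exact ta_ne hS (fix_eq_a hS hs' hs'1 hs'2 h3)
  have h4 := odd_order hS hs hs1 hs2 h2 h1
  obtain ⟨z, hz, hzs⟩ := invol_conj hs2 h1 h4
  have hzinv : z⁻¹ = z := inv_eq_of_mul_eq_one_left hz
  have hza : z • a = t • a := by
    have h5 : (t * s' * t) • z • a = z • a := by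
      rw [← hzs, mul_smul, mul_smul, smul_smul z z, hz, one_smul, mem_stabilizer_iff.1 hs]
    rw [mul_smul, mul_smul] at h5
    have h6 : s' • t • z • a = t • z • a := by
      calc s' • t • z • a = t • (t • s' • t • z • a) := (hts _).symm
        _ = t • z • a := by rw [h5]
    have h7 : t • z • a = a := fix_eq_a hS hs' hs'1 hs'2 h6
    calc z • a = t • (t • z • a) := (hts _).symm
      _ = t • a := by rw [h7]
  refine ⟨z * t, K_of_swap hS hz hza, ?_⟩
  rw [mul_inv_rev, ht, hzinv]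
  calc t * z * s * (z * t) = t * (z * s * z) * t := by group
    _ = t * (t * s' * t) * t := by rw [hzs]
    _ = s' := by simp only [mul_assoc, htt, htt', mul_one]

/-- `k ↦ k⁻¹ * s * k` is injective on `K`, for an involution `s` of `G_a`. -/
theorem K_inj (hS : Cfsg.IsRankOneSetup G Ω a t Q) {s k k' : G} (hs : s ∈ stabilizer G a)
    (hs1 : s ≠ 1) (hs2 : s * s = 1)
    (hk : k ∈ Cfsg.invertedBy (stabilizer G a ⊓ stabilizer G (t • a)) t)
    (hk' : k' ∈ Cfsg.invertedBy (stabilizer G a ⊓ stabilizer G (t • a)) t)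
    (h : k⁻¹ * s * k = k'⁻¹ * s * k') : k = k' := by
  have ht := t_inv hS
  have htt := hS.mul_self
  have htt' : ∀ z : G, t * (t * z) = z := fun z => by rw [← mul_assoc, htt, one_mul]
  obtain ⟨hu2, hua, hu⟩ := swap_of_K hS hk
  obtain ⟨hu2', hua', hu'⟩ := swap_of_K hS hk'
  have h1 := odd_order hS hs hs1 hs2 hu hu2
  have h2 := odd_order hS hs hs1 hs2 hu' hu2'
  have key : ∀ {k : G}, k ∈ Cfsg.invertedBy (stabilizer G a ⊓ stabilizer G (t • a)) t →
      k * t * s * (k * t) = t * (k⁻¹ * s * k) * t := by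
    intro k hk
    obtain ⟨_, hkt⟩ := hk
    rw [ht] at hkt
    rw [← hkt]
    simp only [mul_assoc, htt']
  have h3 : k * t * s * (k * t) = k' * t * s * (k' * t) := by rw [key hk, key hk', h]
  have h4 := invol_unique hs2 h1 h2 h3
  exact mul_right_cancel h4

/-- Square roots in `K`: every involution `k * t` (`k ∈ K`) is a `K`-conjugate of `t`. -/
theorem sqrt_K (hS : Cfsg.IsRankOneSetup G Ω a t Q) {k : G}
    (hk : k ∈ Cfsg.invertedBy (stabilizer G a ⊓ stabilizer G (t • a)) t) :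
    ∃ j ∈ Cfsg.invertedBy (stabilizer G a ⊓ stabilizer G (t • a)) t, j * t * j⁻¹ = k * t := by
  obtain ⟨hkD, hkt⟩ := hk
  have hodd : Odd (orderOf k) :=
    Odd.of_dvd_nat hS.odd_card (Subgroup.orderOf_dvd_natCard _ hkD)
  obtain ⟨n, hn⟩ := hodd
  have hjj : k ^ (n + 1) * k ^ (n + 1) = k := by
    rw [← pow_add]
    have h0 : n + 1 + (n + 1) = orderOf k + 1 := by omega
    rw [h0, pow_succ, pow_orderOf_eq_one, one_mul]
  have hjt : t * k ^ (n + 1) * t⁻¹ = (k ^ (n + 1))⁻¹ := by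
    rw [← conj_pow, hkt, inv_pow]
  refine ⟨k ^ (n + 1), ⟨Subgroup.pow_mem _ hkD _, hjt⟩, ?_⟩
  have h3 : t * k ^ (n + 1) = (k ^ (n + 1))⁻¹ * t := mul_inv_eq_iff_eq_mul.1 hjt
  have h2 : t * (k ^ (n + 1))⁻¹ = k ^ (n + 1) * t := by
    calc t * (k ^ (n + 1))⁻¹
        = k ^ (n + 1) * ((k ^ (n + 1))⁻¹ * t) * (k ^ (n + 1))⁻¹ := by group
      _ = k ^ (n + 1) * (t * k ^ (n + 1)) * (k ^ (n + 1))⁻¹ := by rw [h3]
      _ = k ^ (n + 1) * t := by group
  calc k ^ (n + 1) * t * (k ^ (n + 1))⁻¹ = k ^ (n + 1) * (t * (k ^ (n + 1))⁻¹) := by group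
    _ = k ^ (n + 1) * (k ^ (n + 1) * t) := by rw [h2]
    _ = k * t := by rw [← mul_assoc, hjj]

omit [Finite G] in
/-- An element of `G_a` fixing `b ≠ a` and `c` commutes with the element of `Q` taking
`b` to `c`. -/
theorem comm_of_fix (hS : Cfsg.IsRankOneSetup G Ω a t Q) {x y : G} {b c : Ω}
    (hx : x ∈ stabilizer G a) (hb : b ≠ a) (hxb : x • b = b) (hxc : x • c = c) (hy : y ∈ Q)
    (hyb : y • b = c) : x * y = y * x := by
  have h1 : x * y * x⁻¹ ∈ Q := hS.conj_mem x hx y hy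
  have h2 : (x * y * x⁻¹) • b = y • b := by
    rw [mul_smul, mul_smul, inv_smul_eq_iff.2 hxb.symm, hyb, hxc]
  have h3 := eq_of_smul_eq hS h1 hy hb h2
  exact mul_inv_eq_iff_eq_mul.1 h3

/-- In the structure equation `t * s * t = r⁻¹ * t * r`, `r` takes `t • a` to the fixed
point of `t`. -/
theorem struct_r (hS : Cfsg.IsRankOneSetup G Ω a t Q) {s r : G} (hs : s ∈ stabilizer G a)
    (hs1 : s ≠ 1) (hs2 : s * s = 1) (e : t * s * t = r⁻¹ * t * r) {c : Ω} (hc : t • c = c) :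
    r • t • a = c := by
  have hts : ∀ z : Ω, t • t • z = z := fun z => by rw [smul_smul, hS.mul_self, one_smul]
  have h1 : (t * s * t) • (r⁻¹ • c) = r⁻¹ • c := by
    rw [e, mul_smul, mul_smul, smul_inv_smul, hc]
  rw [mul_smul, mul_smul] at h1
  have h2 : s • t • r⁻¹ • c = t • r⁻¹ • c := by
    calc s • t • r⁻¹ • c = t • (t • s • t • r⁻¹ • c) := (hts _).symm
      _ = t • r⁻¹ • c := by rw [h1]
  have h3 : t • r⁻¹ • c = a := fix_eq_a hS hs hs1 hs2 h2
  rw [← h3, hts, smul_inv_smul]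

theorem struct_unique (hS : Cfsg.IsRankOneSetup G Ω a t Q) {s r s' r' : G}
    (hs : s ∈ stabilizer G a) (hs1 : s ≠ 1) (hs2 : s * s = 1) (hr : r ∈ Q)
    (e : t * s * t = r⁻¹ * t * r) (hs' : s' ∈ stabilizer G a) (hs'1 : s' ≠ 1)
    (hs'2 : s' * s' = 1) (hr' : r' ∈ Q) (e' : t * s' * t = r'⁻¹ * t * r') :
    s = s' ∧ r = r' := by
  have htt := hS.mul_self
  have htt' : ∀ z : G, t * (t * z) = z := fun z => by rw [← mul_assoc, htt, one_mul]
  obtain ⟨c, hc⟩ := exists_fix hS hS.mul_self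
  have h1 := struct_r hS hs hs1 hs2 e hc
  have h2 := struct_r hS hs' hs'1 hs'2 e' hc
  have h3 : r = r' := eq_of_smul_eq hS hr hr' (ta_ne hS) (h1.trans h2.symm)
  refine ⟨?_, h3⟩
  have h4 : s = t * (t * s * t) * t := by simp only [mul_assoc, htt, htt', mul_one]
  have h5 : s' = t * (t * s' * t) * t := by simp only [mul_assoc, htt, htt', mul_one]
  rw [h4, h5, e, e', h3]

theorem struct_exists (hS : Cfsg.IsRankOneSetup G Ω a t Q) :
    ∃ s r : G, s ∈ stabilizer G a ∧ s ≠ 1 ∧ s * s = 1 ∧ r ∈ Q ∧ t * s * t = r⁻¹ * t * r := by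
  have ht : t⁻¹ = t := t_inv hS
  have htt : t * t = 1 := hS.mul_self
  have htt' : ∀ z : G, t * (t * z) = z := fun z => by rw [← mul_assoc, htt, one_mul]
  have hts : ∀ z : Ω, t • t • z = z := fun z => by rw [smul_smul, htt, one_smul]
  obtain ⟨c, hc⟩ := exists_fix hS hS.mul_self
  have hca : c ≠ a := by
    rintro rfl
    exact ta_ne hS hc
  obtain ⟨r, hrQ, hr⟩ := exists_Q_smul hS hca
  have hr2 : r⁻¹ • c = t • a := inv_smul_eq_iff.2 hr.symm
  refine ⟨t * r⁻¹ * t * r * t, r, ?_, ?_, ?_, hrQ, ?_⟩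
  · rw [mem_stabilizer_iff, mul_smul, mul_smul, mul_smul, mul_smul, hr, hc, hr2, hts]
  · intro h
    apply hS.ne_one
    have h1 : t = (r * t) * (t * r⁻¹ * t * r * t) * (t * r⁻¹) := by
      simp only [mul_assoc, mul_inv_rev, inv_inv, ht, htt, htt', mul_one, one_mul,
        inv_mul_cancel_left, mul_inv_cancel_left, inv_mul_cancel, mul_inv_cancel]
    rw [h1, h]
    simp only [mul_assoc, mul_inv_rev, inv_inv, ht, htt, htt', mul_one, one_mul,
        inv_mul_cancel_left, mul_inv_cancel_left, inv_mul_cancel, mul_inv_cancel]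
  · simp only [mul_assoc, mul_inv_rev, inv_inv, ht, htt, htt', mul_one, one_mul,
        inv_mul_cancel_left, mul_inv_cancel_left, inv_mul_cancel, mul_inv_cancel]
  · simp only [mul_assoc, mul_inv_rev, inv_inv, ht, htt, htt', mul_one, one_mul,
        inv_mul_cancel_left, mul_inv_cancel_left, inv_mul_cancel, mul_inv_cancel]

/-- With `t * s * t = r⁻¹ * t * r`: an element of `D` commuting with `t` commutes with `s`. -/
theorem comm_s_of_comm_t (hS : Cfsg.IsRankOneSetup G Ω a t Q) {s r d : G}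
    (hs : s ∈ stabilizer G a) (hs1 : s ≠ 1) (hs2 : s * s = 1) (hr : r ∈ Q)
    (e : t * s * t = r⁻¹ * t * r) (hd : d ∈ stabilizer G a ⊓ stabilizer G (t • a))
    (hdt : d * t = t * d) : d * s = s * d := by
  have hdG := (Subgroup.mem_inf.1 hd).1
  have hdt' : d⁻¹ * t = t * d⁻¹ := by
    calc d⁻¹ * t = d⁻¹ * (t * d) * d⁻¹ := by group
      _ = d⁻¹ * (d * t) * d⁻¹ := by rw [hdt]
      _ = t * d⁻¹ := by group
  have hdtd : d * t * d⁻¹ = t := by
    rw [hdt]
    group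
  have e' : t * (d * s * d⁻¹) * t = (d * r * d⁻¹)⁻¹ * t * (d * r * d⁻¹) := by
    calc t * (d * s * d⁻¹) * t = (t * d) * s * (d⁻¹ * t) := by group
      _ = (d * t) * s * (t * d⁻¹) := by rw [← hdt, hdt']
      _ = d * (t * s * t) * d⁻¹ := by group
      _ = d * (r⁻¹ * t * r) * d⁻¹ := by rw [e]
      _ = (d * r * d⁻¹)⁻¹ * (d * t * d⁻¹) * (d * r * d⁻¹) := by group
      _ = (d * r * d⁻¹)⁻¹ * t * (d * r * d⁻¹) := by rw [hdtd]
  have h1 : d * s * d⁻¹ ≠ 1 := by
    intro h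
    apply hs1
    have h0 : s = d⁻¹ * (d * s * d⁻¹) * d := by group
    rw [h0, h]
    group
  have h2 : d * s * d⁻¹ * (d * s * d⁻¹) = 1 := by
    calc d * s * d⁻¹ * (d * s * d⁻¹) = d * (s * s) * d⁻¹ := by group
      _ = 1 := by rw [hs2]; group
  have h3 := struct_unique hS hs hs1 hs2 hr e
    (Subgroup.mul_mem _ (Subgroup.mul_mem _ hdG hs) (Subgroup.inv_mem _ hdG)) h1 h2
    (hS.conj_mem d hdG r hr) e'
  exact mul_inv_eq_iff_eq_mul.1 h3.1.symm

/-- With `t * s * t = r⁻¹ * t * r`: an element of `D` commuting with `s` commutes with `t`. -/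
theorem comm_t_of_comm_s (hS : Cfsg.IsRankOneSetup G Ω a t Q) {s r d : G}
    (hs : s ∈ stabilizer G a) (hs1 : s ≠ 1) (hs2 : s * s = 1) (hr : r ∈ Q)
    (e : t * s * t = r⁻¹ * t * r) (hd : d ∈ stabilizer G a ⊓ stabilizer G (t • a))
    (hds : d * s = s * d) : d * t = t * d := by
  have htt := hS.mul_self
  have hda : d • a = a := mem_stabilizer_iff.1 (Subgroup.mem_inf.1 hd).1
  have hdta : d • (t • a) = t • a := mem_stabilizer_iff.1 (Subgroup.mem_inf.1 hd).2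
  have ht'2 : (d * t * d⁻¹) * (d * t * d⁻¹) = 1 := by
    calc (d * t * d⁻¹) * (d * t * d⁻¹) = d * (t * t) * d⁻¹ := by group
      _ = 1 := by rw [htt]; group
  have ht'a : (d * t * d⁻¹) • a = t • a := by
    rw [mul_smul, mul_smul, inv_smul_eq_iff.2 hda.symm, hdta]
  have hk' := K_of_swap hS ht'2 ht'a
  obtain ⟨j, hjK, hj⟩ := sqrt_K hS hk'
  have hj' : j * t * j⁻¹ = d * t * d⁻¹ := by rw [hj, mul_assoc, htt, mul_one]
  have h1 : (j⁻¹ * d) * t = t * (j⁻¹ * d) := by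
    calc j⁻¹ * d * t = j⁻¹ * (d * t * d⁻¹) * d := by group
      _ = j⁻¹ * (j * t * j⁻¹) * d := by rw [hj']
      _ = t * (j⁻¹ * d) := by group
  have h2 := comm_s_of_comm_t hS hs hs1 hs2 hr e
    (Subgroup.mul_mem _ (Subgroup.inv_mem _ hjK.1) hd) h1
  have h3 : j⁻¹ * s = s * j⁻¹ := by
    calc j⁻¹ * s = j⁻¹ * (s * d) * d⁻¹ := by group
      _ = j⁻¹ * (d * s) * d⁻¹ := by rw [hds]
      _ = (j⁻¹ * d * s) * d⁻¹ := by group
      _ = (s * (j⁻¹ * d)) * d⁻¹ := by rw [h2]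
      _ = s * j⁻¹ := by group
  have h1K : (1 : G) ∈ Cfsg.invertedBy (stabilizer G a ⊓ stabilizer G (t • a)) t :=
    ⟨Subgroup.one_mem _, by simp⟩
  have h4 : j = 1 := K_inj hS hs hs1 hs2 hjK h1K (by rw [h3]; group)
  rw [h4] at hj'
  have h5 : d * t * d⁻¹ = t := by
    rw [← hj']
    group
  exact mul_inv_eq_iff_eq_mul.1 h5

/-- Square roots in `K`, as a power: `k ^ n ∈ K` conjugates `t` to `k * t`. -/
theorem sqrt_K_pow (hS : Cfsg.IsRankOneSetup G Ω a t Q) {k : G}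
    (hk : k ∈ Cfsg.invertedBy (stabilizer G a ⊓ stabilizer G (t • a)) t) :
    ∃ n : ℕ, k ^ n ∈ Cfsg.invertedBy (stabilizer G a ⊓ stabilizer G (t • a)) t ∧
      k ^ n * t * (k ^ n)⁻¹ = k * t := by
  obtain ⟨hkD, hkt⟩ := hk
  have hodd : Odd (orderOf k) :=
    Odd.of_dvd_nat hS.odd_card (Subgroup.orderOf_dvd_natCard _ hkD)
  obtain ⟨n, hn⟩ := hodd
  have hjj : k ^ (n + 1) * k ^ (n + 1) = k := by
    rw [← pow_add]
    have h0 : n + 1 + (n + 1) = orderOf k + 1 := by omega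
    rw [h0, pow_succ, pow_orderOf_eq_one, one_mul]
  have hjt : t * k ^ (n + 1) * t⁻¹ = (k ^ (n + 1))⁻¹ := by
    rw [← conj_pow, hkt, inv_pow]
  refine ⟨n + 1, ⟨Subgroup.pow_mem _ hkD _, hjt⟩, ?_⟩
  have h3 : t * k ^ (n + 1) = (k ^ (n + 1))⁻¹ * t := mul_inv_eq_iff_eq_mul.1 hjt
  have h2 : t * (k ^ (n + 1))⁻¹ = k ^ (n + 1) * t := by
    calc t * (k ^ (n + 1))⁻¹
        = k ^ (n + 1) * ((k ^ (n + 1))⁻¹ * t) * (k ^ (n + 1))⁻¹ := by group
      _ = k ^ (n + 1) * (t * k ^ (n + 1)) * (k ^ (n + 1))⁻¹ := by rw [h3]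
      _ = k ^ (n + 1) * t := by group
  calc k ^ (n + 1) * t * (k ^ (n + 1))⁻¹ = k ^ (n + 1) * (t * (k ^ (n + 1))⁻¹) := by group
    _ = k ^ (n + 1) * (k ^ (n + 1) * t) := by rw [h2]
    _ = k * t := by rw [← mul_assoc, hjj]

end Fin

end Cfsg.Agent.Lib_helper8_RankOne
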