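import Cfsg.Statements.S2679
-- import your own Cfsg.Agent.* helpers here

set_option autoImplicit false
open Cfsg

namespace Cfsg.Agent.S2679

section Aux
open Polynomial

theorem exists_ringHom {F K : Type*} [Field F] [Fintype F] [Field K] [Fintype K]
    (h : Fintype.card K = Fintype.card F ^ 2) : Nonempty (F →+* K) := by
  obtain ⟨p, hp⟩ := CharP.exists F
  obtain ⟨p', hp'⟩ := CharP.exists K
  obtain ⟨k, hpp, hk⟩ := FiniteField.card F p
  obtain ⟨k', hpp', hk'⟩ := FiniteField.card K p'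
  have hpeq : p = p' := by
    have h1 : p ∣ p' ^ (k' : ℕ) := by
      rw [← hk', h, hk]
      exact dvd_pow (dvd_pow_self p k.ne_zero) (by norm_num)
    exact (Nat.prime_dvd_prime_iff_eq hpp hpp').mp (hpp.dvd_of_dvd_pow h1)
  subst hpeq
  haveI : Fact p.Prime := ⟨hpp⟩
  letI := ZMod.algebra F p
  letI := ZMod.algebra K p
  have e1 := FiniteField.pow_finrank_eq_card p F
  have e2 := FiniteField.pow_finrank_eq_card p K
  have e3 : Module.finrank (ZMod p) K = Module.finrank (ZMod p) F * 2 := by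
    apply Nat.pow_right_injective hpp.two_le
    change p ^ _ = p ^ _
    rw [e2, h, ← e1, pow_mul]
  obtain ⟨g⟩ := FiniteField.nonempty_algHom_of_finrank_dvd (F := ZMod p) (K := F) (L := K)
    (by rw [e3]; exact dvd_mul_right _ _)
  exact ⟨g.toRingHom⟩

theorem exists_roots {F K : Type*} [Field F] [Fintype F] [Field K] [Fintype K]
    (h : Fintype.card K = Fintype.card F ^ 2) (f : F →+* K) (a c : F)
    (hac : ∀ z₁ z₂ : F, z₁ ^ 2 + a * z₁ * z₂ + c * z₂ ^ 2 = 0 → z₁ = 0 ∧ z₂ = 0) :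
    ∃ θ θ' : K, θ + θ' = f a ∧ θ * θ' = f c ∧ θ ≠ θ' := by
  classical
  have hnr : ∀ t : F, t ^ 2 - a * t + c ≠ 0 := by
    intro t ht
    have := (hac t (-1) (by linear_combination ht)).2
    simp at this
  set P : F[X] := X ^ 2 - C a * X + C c with hP
  have hdeg : P.natDegree = 2 := by
    rw [hP]
    compute_degree!
  have hirr : Irreducible P := by
    apply Polynomial.irreducible_of_degree_le_three_of_not_isRoot
    · rw [hdeg]; decide
    · intro t ht
      apply hnr t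
      simpa [hP, Polynomial.IsRoot] using ht
  have hdvd : P ∣ X ^ (Nat.card F) ^ 2 - X :=
    (hirr.natDegree_dvd_iff_dvd_X_pow_card_pow_sub_X (n := 2)).mp (by rw [hdeg])
  have hdvd' : P.map f ∣ (X ^ Fintype.card K - X : K[X]) := by
    have := Polynomial.map_dvd f hdvd
    simpa [Nat.card_eq_fintype_card, h] using this
  have hsplit : Splits (X ^ Fintype.card K - X : K[X]) := by
    rw [Polynomial.splits_iff_card_roots, FiniteField.roots_X_pow_card_sub_X,
      FiniteField.X_pow_card_sub_X_natDegree_eq K Fintype.one_lt_card]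
    rfl
  have hne : (X ^ Fintype.card K - X : K[X]) ≠ 0 :=
    FiniteField.X_pow_card_sub_X_ne_zero K Fintype.one_lt_card
  have hsp := hsplit.of_dvd hne hdvd'
  have hdeg' : (P.map f).degree ≠ 0 := by
    rw [Polynomial.degree_map, Polynomial.degree_eq_natDegree hirr.ne_zero, hdeg]
    norm_num
  obtain ⟨θ, hθ⟩ := hsp.exists_eval_eq_zero hdeg'
  have hθ' : θ ^ 2 - f a * θ + f c = 0 := by
    simpa [hP] using hθ
  refine ⟨θ, f a - θ, by ring, by linear_combination -hθ', ?_⟩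
  intro heq
  by_cases h2 : (2 : F) = 0
  · have h2K : (2 : K) = 0 := by
      have h5 : f 2 = f 0 := congrArg f h2
      rw [map_ofNat, map_zero] at h5
      exact h5
    have ha : a = 0 := by
      apply f.injective
      rw [map_zero]
      linear_combination θ * h2K - heq
    have hchar : ringChar F = 2 := by
      haveI : CharP F 2 := CharTwo.of_one_ne_zero_of_two_eq_zero one_ne_zero h2
      exact ringChar.eq F 2
    obtain ⟨s, hs⟩ := FiniteField.isSquare_of_char_two hchar c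
    have := (hac s 1 (by rw [ha, hs]; linear_combination (s * s) * h2)).2
    exact one_ne_zero this
  · apply hnr (a / 2)
    apply f.injective
    have hθ2 : θ = f (a / 2) := by
      have h2K : (2 : K) ≠ 0 := by
        intro h0
        apply h2
        apply f.injective
        rw [map_ofNat, map_zero]
        exact h0
      rw [map_div₀, map_ofNat, eq_div_iff h2K]
      linear_combination heq
    rw [map_zero, map_add, map_sub, map_mul, map_pow, ← hθ2]
    exact hθ'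

open Matrix

section alt
variable {ι : Type} [Fintype ι] [DecidableEq ι]

theorem forall_of_alt {R : Type*} [CommRing R] (B : Matrix ι ι R) (h1 : ∀ i, B i i = 0)
    (h2 : ∀ i j, B i j + B j i = 0) (v : ι → R) : v ⬝ᵥ B *ᵥ v = 0 := by
  have h3 : v ⬝ᵥ B *ᵥ v = ∑ p ∈ (Finset.univ : Finset (ι × ι)), v p.1 * B p.1 p.2 * v p.2 := by
    simp only [dotProduct, Matrix.mulVec, Finset.mul_sum]
    rw [← Finset.univ_product_univ, Finset.sum_product]
    apply Finset.sum_congr rfl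
    intro i _
    apply Finset.sum_congr rfl
    intro j _
    ring
  rw [h3]
  apply Finset.sum_involution (fun p _ => (p.2, p.1))
  · intro p _
    linear_combination v p.1 * v p.2 * h2 p.1 p.2
  · intro p _ hne heq
    apply hne
    have h4 : p.1 = p.2 := by
      have := congrArg Prod.fst heq
      simpa using this.symm
    rw [h4, h1]
    ring
  · intro p _
    exact Finset.mem_univ _
  · intro p _
    rfl

theorem alt_of_forall {R : Type*} [CommRing R] (B : Matrix ι ι R)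
    (h : ∀ v : ι → R, v ⬝ᵥ B *ᵥ v = 0) : (∀ i, B i i = 0) ∧ ∀ i j, B i j + B j i = 0 := by
  have h1 : ∀ i, B i i = 0 := by
    intro i
    have := h (Pi.single i 1)
    simpa [Matrix.mulVec_single_one] using this
  refine ⟨h1, fun i j => ?_⟩
  have := h (Pi.single i 1 + Pi.single j 1)
  simp [Matrix.mulVec_add, Matrix.mulVec_single_one, add_dotProduct, h1] at this
  linear_combination this

theorem conj_form {R : Type*} [CommRing R] (A g : Matrix ι ι R) (v : ι → R) :
    v ⬝ᵥ (gᵀ * A * g - A) *ᵥ v = (g *ᵥ v) ⬝ᵥ A *ᵥ (g *ᵥ v) - v ⬝ᵥ A *ᵥ v := by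
  rw [Matrix.sub_mulVec, dotProduct_sub, ← Matrix.mulVec_mulVec, ← Matrix.mulVec_mulVec,
    Matrix.dotProduct_mulVec, Matrix.vecMul_transpose]

theorem base_change {F K : Type*} [CommRing F] [CommRing K] (f : F →+* K) (A g : Matrix ι ι F)
    (h : ∀ v : ι → F, (g *ᵥ v) ⬝ᵥ A *ᵥ (g *ᵥ v) = v ⬝ᵥ A *ᵥ v) (v : ι → K) :
    (g.map f *ᵥ v) ⬝ᵥ A.map f *ᵥ (g.map f *ᵥ v) = v ⬝ᵥ A.map f *ᵥ v := by
  obtain ⟨h1, h2⟩ := alt_of_forall (gᵀ * A * g - A) (fun v => by rw [conj_form, h v, sub_self])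
  have h3 := forall_of_alt ((gᵀ * A * g - A).map f)
    (fun i => by rw [Matrix.map_apply, h1, map_zero])
    (fun i j => by rw [Matrix.map_apply, Matrix.map_apply, ← map_add, h2, map_zero]) v
  have h4 : (gᵀ * A * g - A).map f = (g.map f)ᵀ * A.map f * g.map f - A.map f := by
    rw [Matrix.map_sub f (map_sub f), Matrix.map_mul, Matrix.map_mul, Matrix.transpose_map]
  rw [h4, conj_form] at h3
  exact sub_eq_zero.mp h3

end alt

/-- Matrix of the minus-type form. -/
def Am (n : ℕ) (R : Type*) [CommRing R] (a c : R) :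
    Matrix ((Fin n ⊕ Fin n) ⊕ Fin 2) ((Fin n ⊕ Fin n) ⊕ Fin 2) R :=
  Matrix.of fun i j => match i, j with
    | .inl (.inl i), .inl (.inr j) => if i = j then 1 else 0
    | .inr i, .inr j => !![1, a; 0, c] i j
    | _, _ => 0

theorem Qm_eq (n : ℕ) (F : Type*) [Field F] (a c : F) (v : (Fin n ⊕ Fin n) ⊕ Fin 2 → F) :
    Cfsg.quadFormMinus n F a c v = v ⬝ᵥ Am n F a c *ᵥ v := by
  simp [Cfsg.quadFormMinus, dotProduct, Matrix.mulVec, Am, Fintype.sum_sum_type, Fin.sum_univ_two]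
  ring

theorem Am_map (n : ℕ) {F K : Type*} [Field F] [Field K] (f : F →+* K) (a c : F) :
    (Am n F a c).map f = Am n K (f a) (f c) := by
  ext i j
  rcases i with (i|i)|i <;> rcases j with (j|j)|j <;> simp [Am]
  fin_cases i <;> fin_cases j <;> simp

section P
variable {K : Type*} [Field K] {n : ℕ}

def Pfun (n : ℕ) {K : Type*} [Field K] (θ θ' : K) (v : (Fin n ⊕ Fin n) ⊕ Fin 2 → K) :
    Fin (n + 1) ⊕ Fin (n + 1) → K :=
  Sum.elim (Fin.snoc (α := fun _ => K) (fun i => v (.inl (.inl i))) (v (.inr 0) + θ * v (.inr 1)))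
    (Fin.snoc (α := fun _ => K) (fun i => v (.inl (.inr i))) (v (.inr 0) + θ' * v (.inr 1)))

def PL (θ θ' : K) : ((Fin n ⊕ Fin n) ⊕ Fin 2 → K) →ₗ[K] (Fin (n + 1) ⊕ Fin (n + 1) → K) where
  toFun := Pfun n θ θ'
  map_add' u v := by
    ext (j|j) <;> refine Fin.lastCases ?_ (fun i => ?_) j <;> simp [Pfun] <;> ring
  map_smul' r v := by
    ext (j|j) <;> refine Fin.lastCases ?_ (fun i => ?_) j <;> simp [Pfun] <;> ring

theorem Qp_PL (θ θ' : K) (v : (Fin n ⊕ Fin n) ⊕ Fin 2 → K) :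
    Cfsg.quadFormPlus (n + 1) K (PL θ θ' v) = Cfsg.quadFormMinus n K (θ + θ') (θ * θ') v := by
  simp only [Cfsg.quadFormPlus, Cfsg.quadFormMinus, PL, LinearMap.coe_mk, AddHom.coe_mk, Pfun,
    Sum.elim_inl, Sum.elim_inr]
  rw [Fin.sum_univ_castSucc]
  simp only [Fin.snoc_castSucc, Fin.snoc_last]
  ring

theorem PL_injective (θ θ' : K) (h : θ ≠ θ') : Function.Injective (PL (n := n) θ θ') := by
  rw [← LinearMap.ker_eq_bot, LinearMap.ker_eq_bot']
  intro v hv
  have h1 : ∀ i, v (.inl (.inl i)) = 0 := fun i => by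
    have := congrFun hv (.inl i.castSucc)
    simpa [PL, Pfun] using this
  have h2 : ∀ i, v (.inl (.inr i)) = 0 := fun i => by
    have := congrFun hv (.inr i.castSucc)
    simpa [PL, Pfun] using this
  have h3 : v (.inr 0) + θ * v (.inr 1) = 0 := by
    have := congrFun hv (.inl (Fin.last n))
    simpa [PL, Pfun] using this
  have h4 : v (.inr 0) + θ' * v (.inr 1) = 0 := by
    have := congrFun hv (.inr (Fin.last n))
    simpa [PL, Pfun] using this
  have h5 : v (.inr 1) = 0 := by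
    have h6 : (θ - θ') * v (.inr 1) = 0 := by linear_combination h3 - h4
    rcases mul_eq_zero.mp h6 with h7 | h7
    · exact absurd (sub_eq_zero.mp h7) h
    · exact h7
  have h6 : v (.inr 0) = 0 := by
    rw [h5] at h3
    simpa using h3
  ext ((i|i)|i)
  · exact h1 i
  · exact h2 i
  · fin_cases i
    · exact h6
    · exact h5

end P

end Aux

/-- An elliptic orthogonal group embeds in the hyperbolic orthogonal group of the same dimension over the quadratic extension: for a field F with q elements and a field K with q² elements there is an injective homomorphism from O⁻_2m(F) (isometries of Σ_(j<m−1) x_j y_j + z₁² + a z₁z₂ + c z₂², binary part anisotropic) to O⁺_2m(K) (isometries of Σ_(j<m) x_j y_j over K). -/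
theorem result {F K : Type*} [Field F] [Fintype F] [Field K] [Fintype K] {q : ℕ} (hF : Fintype.card F = q) (hK : Fintype.card K = q ^ 2) {m : ℕ} (hm : 1 ≤ m) (a c : F) (hac : ∀ z₁ z₂ : F, z₁ ^ 2 + a * z₁ * z₂ + c * z₂ ^ 2 = 0 → z₁ = 0 ∧ z₂ = 0) : ∃ φ : ↥(Cfsg.isometryGroup F (Cfsg.quadFormMinus (m - 1) F a c)) →* ↥(Cfsg.isometryGroup K (Cfsg.quadFormPlus m K)), Function.Injective φ := by
  classical
  subst hF
  obtain ⟨n, rfl⟩ : ∃ n, m = n + 1 := ⟨m - 1, by omega⟩
  change ∃ φ : ↥(Cfsg.isometryGroup F (Cfsg.quadFormMinus n F a c)) →*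
    ↥(Cfsg.isometryGroup K (Cfsg.quadFormPlus (n + 1) K)), Function.Injective φ
  obtain ⟨f⟩ := exists_ringHom hK
  obtain ⟨θ, θ', hs, hp, hne⟩ := exists_roots hK f a c hac
  set e : ((Fin n ⊕ Fin n) ⊕ Fin 2 → K) ≃ₗ[K] (Fin (n + 1) ⊕ Fin (n + 1) → K) :=
    LinearMap.linearEquivOfInjective (PL θ θ') (PL_injective θ θ' hne)
      (by simp only [Module.finrank_fintype_fun_eq_card, Fintype.card_sum, Fintype.card_fin]; omega)
    with he
  set MP : Matrix (Fin (n + 1) ⊕ Fin (n + 1)) ((Fin n ⊕ Fin n) ⊕ Fin 2) K :=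
    LinearMap.toMatrix' (e : ((Fin n ⊕ Fin n) ⊕ Fin 2 → K) →ₗ[K] (Fin (n + 1) ⊕ Fin (n + 1) → K))
    with hMP
  set MP' : Matrix ((Fin n ⊕ Fin n) ⊕ Fin 2) (Fin (n + 1) ⊕ Fin (n + 1)) K :=
    LinearMap.toMatrix'
      (e.symm : (Fin (n + 1) ⊕ Fin (n + 1) → K) →ₗ[K] ((Fin n ⊕ Fin n) ⊕ Fin 2 → K))
    with hMP'
  have h1 : MP * MP' = 1 := by
    rw [hMP, hMP', ← LinearMap.toMatrix'_comp]
    simp
  have h2 : MP' * MP = 1 := by
    rw [hMP, hMP', ← LinearMap.toMatrix'_comp]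
    simp
  have hMPv : ∀ v, Matrix.mulVec MP v = PL θ θ' v := by
    intro v
    rw [hMP, ← Matrix.toLin'_apply, Matrix.toLin'_toMatrix']
    simp [he]
  let conjHom : Matrix ((Fin n ⊕ Fin n) ⊕ Fin 2) ((Fin n ⊕ Fin n) ⊕ Fin 2) K →*
      Matrix (Fin (n + 1) ⊕ Fin (n + 1)) (Fin (n + 1) ⊕ Fin (n + 1)) K :=
    { toFun := fun M => MP * M * MP'
      map_one' := by rw [Matrix.mul_one, h1]
      map_mul' := fun M N => by
        calc MP * (M * N) * MP' = MP * M * (MP' * MP) * N * MP' := by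
              rw [h2]
              simp only [Matrix.mul_assoc, Matrix.one_mul]
          _ = MP * M * MP' * (MP * N * MP') := by simp only [Matrix.mul_assoc] }
  let φ₀ : GL ((Fin n ⊕ Fin n) ⊕ Fin 2) F →* GL (Fin (n + 1) ⊕ Fin (n + 1)) K :=
    (Units.map conjHom).comp (Matrix.GeneralLinearGroup.map f)
  have hφ₀ : ∀ g : GL ((Fin n ⊕ Fin n) ⊕ Fin 2) F,
      ((φ₀ g : GL (Fin (n + 1) ⊕ Fin (n + 1)) K) : Matrix (Fin (n + 1) ⊕ Fin (n + 1)) (Fin (n + 1) ⊕ Fin (n + 1)) K)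
        = MP * Matrix.map (g : Matrix ((Fin n ⊕ Fin n) ⊕ Fin 2) ((Fin n ⊕ Fin n) ⊕ Fin 2) F) f * MP' := fun g => rfl
  have hmem : ∀ g : ↥(Cfsg.isometryGroup F (Cfsg.quadFormMinus n F a c)),
      (φ₀.comp (Subgroup.subtype _)) g ∈ Cfsg.isometryGroup K (Cfsg.quadFormPlus (n + 1) K) := by
    rintro ⟨g, hg⟩
    intro u _
    change Cfsg.quadFormPlus (n + 1) K
      (Matrix.mulVec ((φ₀ g : GL (Fin (n + 1) ⊕ Fin (n + 1)) K) : Matrix (Fin (n + 1) ⊕ Fin (n + 1)) (Fin (n + 1) ⊕ Fin (n + 1)) K) u)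
        = Cfsg.quadFormPlus (n + 1) K u
    obtain ⟨v, rfl⟩ : ∃ v, u = Matrix.mulVec MP v :=
      ⟨Matrix.mulVec MP' u, by rw [Matrix.mulVec_mulVec, h1, Matrix.one_mulVec]⟩
    rw [hφ₀, Matrix.mulVec_mulVec, Matrix.mul_assoc, h2, Matrix.mul_one, ← Matrix.mulVec_mulVec,
      hMPv, hMPv, Qp_PL, Qp_PL, hs, hp, Qm_eq, Qm_eq, ← Am_map]
    apply base_change
    intro w
    have h5 := hg w w
    rw [← Qm_eq, ← Qm_eq]
    exact h5
  refine ⟨MonoidHom.codRestrict (φ₀.comp (Subgroup.subtype _)) _ hmem, ?_⟩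
  intro g g' hgg
  have h5 : φ₀ g.1 = φ₀ g'.1 := congrArg Subtype.val hgg
  have h7 := congrArg Units.val h5
  rw [hφ₀, hφ₀] at h7
  have h8 : ∀ X : Matrix ((Fin n ⊕ Fin n) ⊕ Fin 2) ((Fin n ⊕ Fin n) ⊕ Fin 2) K,
      MP' * (MP * X * MP') * MP = X := by
    intro X
    calc MP' * (MP * X * MP') * MP = (MP' * MP) * X * (MP' * MP) := by
          simp only [Matrix.mul_assoc]
      _ = X := by rw [h2, Matrix.one_mul, Matrix.mul_one]
  have h6 : Matrix.map (g.1 : Matrix ((Fin n ⊕ Fin n) ⊕ Fin 2) ((Fin n ⊕ Fin n) ⊕ Fin 2) F) f = Matrix.map (g'.1 : Matrix ((Fin n ⊕ Fin n) ⊕ Fin 2) ((Fin n ⊕ Fin n) ⊕ Fin 2) F) f := by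
    rw [← h8 (Matrix.map (g.1 : Matrix ((Fin n ⊕ Fin n) ⊕ Fin 2) ((Fin n ⊕ Fin n) ⊕ Fin 2) F) f), h7, h8]
  apply Subtype.ext
  apply Units.ext
  exact Matrix.map_injective f.injective h6

end Cfsg.Agent.S2679
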