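import Mathlib
import Cfsg.Agent.S2679

/-! Restriction of scalars from a field `K` with `q²` elements to a subfield `F` with `q` elements:
coordinates of `K` in a basis `1, θ`, the conjugation `z ↦ z ^ q` in coordinates, and the monoid
homomorphism `Matrix ι ι K →* Matrix κ κ F` attached to an `F`-semilinear bijection
`(ι → K) → (κ → F)`. -/

set_option autoImplicit false

namespace Cfsg.Agent.Lib_helper8_ResScal

section field
variable {F K : Type*} [Field F] [Fintype F] [Field K] [Fintype K]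

/-- The fixed points of `z ↦ z ^ |F|` in `K` are the image of `F`. -/
theorem exists_of_pow_card_eq (f : F →+* K) (z : K) (hz : z ^ Fintype.card F = z) :
    ∃ t, f t = z := by
  classical
  have hq : 1 < Fintype.card F := Fintype.one_lt_card
  let S : Finset K := Finset.univ.filter (fun z => z ^ Fintype.card F = z)
  let T : Finset K := Finset.univ.image f
  have hTS : T ⊆ S := by
    intro w hw
    obtain ⟨t, -, rfl⟩ := Finset.mem_image.mp hw
    simp only [S, Finset.mem_filter, Finset.mem_univ, true_and]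
    rw [← map_pow, FiniteField.pow_card]
  have hT : T.card = Fintype.card F := by
    rw [Finset.card_image_of_injective _ f.injective, Finset.card_univ]
  have hS : S.card ≤ Fintype.card F := by
    have h1 : S ⊆ (Polynomial.X ^ Fintype.card F - Polynomial.X : Polynomial K).roots.toFinset := by
      intro w hw
      simp only [S, Finset.mem_filter, Finset.mem_univ, true_and] at hw
      rw [Multiset.mem_toFinset, Polynomial.mem_roots (FiniteField.X_pow_card_sub_X_ne_zero K hq)]
      simp [Polynomial.IsRoot, hw]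
    calc S.card ≤ _ := Finset.card_le_card h1
      _ ≤ Multiset.card (Polynomial.X ^ Fintype.card F - Polynomial.X : Polynomial K).roots :=
        Multiset.toFinset_card_le _
      _ ≤ (Polynomial.X ^ Fintype.card F - Polynomial.X : Polynomial K).natDegree :=
        Polynomial.card_roots' _
      _ = Fintype.card F := FiniteField.X_pow_card_sub_X_natDegree_eq K hq
  have hST : S = T := (Finset.eq_of_subset_of_card_le hTS (by rw [hT]; exact hS)).symm
  have hzT : z ∈ T := by
    rw [← hST]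
    simp [S, hz]
  obtain ⟨t, -, ht⟩ := Finset.mem_image.mp hzT
  exact ⟨t, ht⟩

/-- `z ↦ z ^ |F|` is a ring endomorphism of `K`. -/
theorem exists_frob (f : F →+* K) : ∃ σ : K →+* K, ∀ x, σ x = x ^ Fintype.card F := by
  obtain ⟨p, hp⟩ := CharP.exists F
  obtain ⟨n, hpp, hn⟩ := FiniteField.card F p
  haveI : Fact p.Prime := ⟨hpp⟩
  haveI : CharP K p := (RingHom.charP_iff f f.injective p).mp hp
  exact ⟨iterateFrobenius K p n, fun x => by rw [iterateFrobenius_def, hn]⟩

/-- `θ, θ'` are the two distinct roots in `K` of `T² - a T + c`, which has no root in `F`. -/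
def IsQuad (f : F →+* K) (θ θ' : K) (a c : F) : Prop :=
  θ + θ' = f a ∧ θ * θ' = f c ∧ θ ≠ θ' ∧ ∀ t : F, f t ≠ θ

theorem IsQuad.sq {f : F →+* K} {θ θ' : K} {a c : F} (h : IsQuad f θ θ' a c) :
    θ ^ 2 = f a * θ - f c := by
  obtain ⟨h1, h2, -, -⟩ := h
  linear_combination θ * h1 - h2

theorem IsQuad.frob {f : F →+* K} {θ θ' : K} {a c : F} (h : IsQuad f θ θ' a c) :
    θ ^ Fintype.card F = θ' := by
  obtain ⟨σ, hσ⟩ := exists_frob f
  have hfix : ∀ t : F, σ (f t) = f t := by
    intro t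
    rw [hσ, ← map_pow, FiniteField.pow_card]
  have h1 : σ θ ^ 2 - f a * σ θ + f c = 0 := by
    have h2 := congrArg σ h.sq
    rw [map_pow, map_sub, map_mul, hfix, hfix] at h2
    linear_combination h2
  obtain ⟨h3, h4, h5, h6⟩ := h
  have h7 : (σ θ - θ) * (σ θ - θ') = 0 := by
    linear_combination h1 - σ θ * h3 + h4
  rcases mul_eq_zero.mp h7 with h8 | h8
  · exfalso
    obtain ⟨t, ht⟩ := exists_of_pow_card_eq f θ (by rw [← hσ]; exact sub_eq_zero.mp h8)
    exact h6 t ht
  · rw [← hσ]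
    exact sub_eq_zero.mp h8

/-- Coordinates of `K` in the `F`-basis `1, θ`. -/
structure Coords (f : F →+* K) (θ : K) where
  c₁ : K →+ F
  c₂ : K →+ F
  repr : ∀ z, z = f (c₁ z) + f (c₂ z) * θ
  c₁_mk : ∀ x y, c₁ (f x + f y * θ) = x
  c₂_mk : ∀ x y, c₂ (f x + f y * θ) = y

theorem nonempty_coords (hK : Fintype.card K = Fintype.card F ^ 2) (f : F →+* K) {θ : K}
    (hθ : ∀ t : F, f t ≠ θ) : Nonempty (Coords f θ) := by
  classical
  let e : F × F → K := fun p => f p.1 + f p.2 * θ
  have hinj : Function.Injective e := by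
    rintro ⟨x, y⟩ ⟨x', y'⟩ h
    simp only [e] at h
    have hy : y = y' := by
      by_contra hne
      have hne' : f (y - y') ≠ 0 := by
        rw [Ne, map_eq_zero]
        exact sub_ne_zero.mpr hne
      apply hθ ((x' - x) / (y - y'))
      rw [map_div₀, div_eq_iff hne', map_sub, map_sub]
      linear_combination -h
    subst hy
    have hx : x = x' := f.injective (add_right_cancel h)
    rw [hx]
  have hbij : Function.Bijective e := by
    rw [Fintype.bijective_iff_injective_and_card]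
    refine ⟨hinj, ?_⟩
    rw [Fintype.card_prod, hK, sq]
  let E : F × F ≃ K := Equiv.ofBijective e hbij
  have hE : ∀ z, z = f (E.symm z).1 + f (E.symm z).2 * θ := by
    intro z
    exact (E.apply_symm_apply z).symm
  have hmk : ∀ x y, E.symm (f x + f y * θ) = (x, y) := by
    intro x y
    exact E.symm_apply_apply (x, y)
  have hadd : ∀ z w, E.symm (z + w) = E.symm z + E.symm w := by
    intro z w
    apply E.injective
    rw [E.apply_symm_apply]
    change z + w = f (E.symm z + E.symm w).1 + f (E.symm z + E.symm w).2 * θ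
    rw [Prod.fst_add, Prod.snd_add, map_add, map_add]
    conv_lhs => rw [hE z, hE w]
    ring
  exact ⟨{ c₁ := AddMonoidHom.mk' (fun z => (E.symm z).1) (fun z w => by simp only [hadd, Prod.fst_add])
           c₂ := AddMonoidHom.mk' (fun z => (E.symm z).2) (fun z w => by simp only [hadd, Prod.snd_add])
           repr := hE
           c₁_mk := fun x y => by simp [hmk]
           c₂_mk := fun x y => by simp [hmk] }⟩

theorem exists_isQuad (hK : Fintype.card K = Fintype.card F ^ 2) (f : F →+* K) :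
    ∃ (θ θ' : K) (a c : F), IsQuad f θ θ' a c := by
  obtain ⟨θ, hθ⟩ : ∃ θ : K, ∀ t, f t ≠ θ := by
    by_contra h
    push Not at h
    have h1 := Fintype.card_le_of_surjective f h
    have h2 : 1 < Fintype.card F := Fintype.one_lt_card
    rw [hK] at h1
    nlinarith
  obtain ⟨C⟩ := nonempty_coords hK f hθ
  have hsq : θ ^ 2 = f (C.c₂ (θ ^ 2)) * θ - f (-C.c₁ (θ ^ 2)) := by
    conv_lhs => rw [C.repr (θ ^ 2)]
    rw [map_neg]
    ring
  refine ⟨θ, f (C.c₂ (θ ^ 2)) - θ, C.c₂ (θ ^ 2), -C.c₁ (θ ^ 2), by ring, by linear_combination -hsq,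
    ?_, hθ⟩
  intro heq
  by_cases h2 : (2 : F) = 0
  · have h2K : (2 : K) = 0 := by
      have h5 : f 2 = f 0 := congrArg f h2
      rw [map_ofNat, map_zero] at h5
      exact h5
    have ha : f (C.c₂ (θ ^ 2)) = 0 := by
      linear_combination θ * h2K - heq
    have hchar : ringChar F = 2 := by
      haveI : CharP F 2 := CharTwo.of_one_ne_zero_of_two_eq_zero one_ne_zero h2
      exact ringChar.eq F 2
    obtain ⟨s, hs⟩ := FiniteField.isSquare_of_char_two hchar (C.c₁ (θ ^ 2))
    have h3 : (θ - f s) * (θ + f s) = 0 := by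
      have h4 : f (C.c₁ (θ ^ 2)) = f s * f s := by rw [hs, map_mul]
      rw [map_neg, ha, h4] at hsq
      linear_combination hsq
    rcases mul_eq_zero.mp h3 with h4 | h4
    · exact hθ s (sub_eq_zero.mp h4).symm
    · apply hθ (-s)
      rw [map_neg]
      linear_combination -h4
  · have h2K : (2 : K) ≠ 0 := by
      intro h0
      apply h2
      apply f.injective
      rw [map_ofNat, map_zero]
      exact h0
    apply hθ (C.c₂ (θ ^ 2) / 2)
    rw [map_div₀, map_ofNat, div_eq_iff h2K]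
    linear_combination -heq

theorem isQuad_of_aniso (hK : Fintype.card K = Fintype.card F ^ 2) (f : F →+* K) (a c : F)
    (hac : ∀ z₁ z₂ : F, z₁ ^ 2 + a * z₁ * z₂ + c * z₂ ^ 2 = 0 → z₁ = 0 ∧ z₂ = 0) :
    ∃ θ θ' : K, IsQuad f θ θ' a c := by
  obtain ⟨θ, θ', h1, h2, h3⟩ := Cfsg.Agent.S2679.exists_roots hK f a c hac
  refine ⟨θ, θ', h1, h2, h3, ?_⟩
  intro t ht
  have h4 : f (t ^ 2 - a * t + c) = 0 := by
    rw [map_add, map_sub, map_mul, map_pow, ht]
    linear_combination θ * h1 - h2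
  rw [map_eq_zero] at h4
  have h5 := (hac t (-1) (by linear_combination h4)).2
  simp at h5

section coords
variable {f : F →+* K} {θ θ' : K} {a c : F}

theorem Coords.c₁_smul (C : Coords f θ) (r : F) (z : K) : C.c₁ (f r * z) = r * C.c₁ z := by
  have h1 : f r * z = f (r * C.c₁ z) + f (r * C.c₂ z) * θ := by
    conv_lhs => rw [C.repr z]
    rw [map_mul, map_mul]
    ring
  rw [h1, C.c₁_mk]

theorem Coords.c₂_smul (C : Coords f θ) (r : F) (z : K) : C.c₂ (f r * z) = r * C.c₂ z := by
  have h1 : f r * z = f (r * C.c₁ z) + f (r * C.c₂ z) * θ := by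
    conv_lhs => rw [C.repr z]
    rw [map_mul, map_mul]
    ring
  rw [h1, C.c₂_mk]

theorem Coords.mul_repr (C : Coords f θ) (h : IsQuad f θ θ' a c) (z w : K) :
    z * w = f (C.c₁ z * C.c₁ w - c * (C.c₂ z * C.c₂ w))
      + f (C.c₁ z * C.c₂ w + C.c₂ z * C.c₁ w + a * (C.c₂ z * C.c₂ w)) * θ := by
  conv_lhs => rw [C.repr z, C.repr w]
  simp only [map_sub, map_add, map_mul]
  linear_combination (f (C.c₂ z) * f (C.c₂ w)) * h.sq

theorem Coords.c₁_mul (C : Coords f θ) (h : IsQuad f θ θ' a c) (z w : K) :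
    C.c₁ (z * w) = C.c₁ z * C.c₁ w - c * (C.c₂ z * C.c₂ w) := by
  rw [C.mul_repr h z w, C.c₁_mk]

theorem Coords.c₂_mul (C : Coords f θ) (h : IsQuad f θ θ' a c) (z w : K) :
    C.c₂ (z * w) = C.c₁ z * C.c₂ w + C.c₂ z * C.c₁ w + a * (C.c₂ z * C.c₂ w) := by
  rw [C.mul_repr h z w, C.c₂_mk]

theorem Coords.pow_repr (C : Coords f θ) (h : IsQuad f θ θ' a c) (z : K) :
    z ^ Fintype.card F = f (C.c₁ z + a * C.c₂ z) + f (-C.c₂ z) * θ := by
  obtain ⟨σ, hσ⟩ := exists_frob f
  have hfix : ∀ t : F, σ (f t) = f t := by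
    intro t
    rw [hσ, ← map_pow, FiniteField.pow_card]
  rw [← hσ]
  conv_lhs => rw [C.repr z]
  rw [map_add, map_mul, hfix, hfix, hσ θ, h.frob]
  have h1 : θ' = f a - θ := by linear_combination h.1
  rw [h1]
  simp only [map_add, map_mul, map_neg]
  ring

theorem Coords.c₁_pow (C : Coords f θ) (h : IsQuad f θ θ' a c) (z : K) :
    C.c₁ (z ^ Fintype.card F) = C.c₁ z + a * C.c₂ z := by
  rw [C.pow_repr h z, C.c₁_mk]

theorem Coords.c₂_pow (C : Coords f θ) (h : IsQuad f θ θ' a c) (z : K) :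
    C.c₂ (z ^ Fintype.card F) = -C.c₂ z := by
  rw [C.pow_repr h z, C.c₂_mk]

theorem Coords.herm₂ (C : Coords f θ) (h : IsQuad f θ θ' a c) (z w : K) :
    C.c₂ (z * w ^ Fintype.card F) = C.c₂ z * C.c₁ w - C.c₁ z * C.c₂ w := by
  rw [C.c₂_mul h, C.c₁_pow h, C.c₂_pow h]
  ring

theorem Coords.herm₁ (C : Coords f θ) (h : IsQuad f θ θ' a c) (z w : K) :
    C.c₁ (z * w ^ Fintype.card F)
      = C.c₁ z * C.c₁ w + a * (C.c₁ z * C.c₂ w) + c * (C.c₂ z * C.c₂ w) := by
  rw [C.c₁_mul h, C.c₁_pow h, C.c₂_pow h]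
  ring

theorem Coords.ext_iff' (C : Coords f θ) (z w : K) : z = w ↔ C.c₁ z = C.c₁ w ∧ C.c₂ z = C.c₂ w := by
  constructor
  · rintro rfl
    exact ⟨rfl, rfl⟩
  · rintro ⟨h1, h2⟩
    rw [C.repr z, C.repr w, h1, h2]

end coords

end field

section hom
open Matrix

/-- The monoid homomorphism on matrices attached to an `F`-semilinear bijection. -/
theorem exists_resHom {F K : Type*} [Field F] [Field K] (f : F →+* K) {ι κ : Type} [Fintype ι]
    [DecidableEq ι] [Fintype κ] [DecidableEq κ] (T : (ι → K) → (κ → F))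
    (hbij : Function.Bijective T) (hadd : ∀ u v, T (u + v) = T u + T v)
    (hsmul : ∀ (r : F) (u : ι → K), T (f r • u) = r • T u) :
    ∃ ρ : Matrix ι ι K →* Matrix κ κ F, Function.Injective ρ ∧
      ∀ M u, (ρ M) *ᵥ (T u) = T (M *ᵥ u) := by
  letI : Algebra F K := f.toAlgebra
  let T₀ : (ι → K) →ₗ[F] (κ → F) :=
    { toFun := T
      map_add' := hadd
      map_smul' := by
        intro r u
        have h1 : r • u = f r • u := by
          ext i
          simp only [Pi.smul_apply, Algebra.smul_def, smul_eq_mul]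
          rfl
        rw [h1, hsmul]
        rfl }
  let Te : (ι → K) ≃ₗ[F] (κ → F) := LinearEquiv.ofBijective T₀ hbij
  let ρ₀ : Matrix ι ι K → Matrix κ κ F := fun M =>
    LinearMap.toMatrix' ((Te : (ι → K) →ₗ[F] (κ → F)) ∘ₗ ((Matrix.toLin' M).restrictScalars F)
      ∘ₗ (Te.symm : (κ → F) →ₗ[F] (ι → K)))
  have hTe : ∀ u, Te u = T u := fun u => rfl
  have hact : ∀ M u, (ρ₀ M) *ᵥ (T u) = T (M *ᵥ u) := by
    intro M u
    rw [← Matrix.toLin'_apply, Matrix.toLin'_toMatrix']
    simp only [LinearMap.coe_comp, LinearEquiv.coe_coe, Function.comp_apply,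
      LinearMap.coe_restrictScalars, Matrix.toLin'_apply]
    rw [← hTe u, Te.symm_apply_apply, hTe]
  have hsurj : ∀ x, ∃ u, T u = x := hbij.2
  have hext : ∀ A B : Matrix κ κ F, (∀ x, A *ᵥ x = B *ᵥ x) → A = B := by
    intro A B hAB
    apply Matrix.toLin'.injective
    apply LinearMap.ext
    intro x
    rw [Matrix.toLin'_apply, Matrix.toLin'_apply]
    exact hAB x
  refine ⟨{ toFun := ρ₀, map_one' := ?_, map_mul' := ?_ }, ?_, hact⟩
  · apply hext
    intro x
    obtain ⟨u, rfl⟩ := hsurj x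
    rw [hact, Matrix.one_mulVec, Matrix.one_mulVec]
  · intro M N
    apply hext
    intro x
    obtain ⟨u, rfl⟩ := hsurj x
    rw [hact, ← Matrix.mulVec_mulVec, ← Matrix.mulVec_mulVec, hact, hact]
  · intro M N hMN
    apply Matrix.toLin'.injective
    apply LinearMap.ext
    intro u
    rw [Matrix.toLin'_apply, Matrix.toLin'_apply]
    have h1 : (ρ₀ M) *ᵥ (T u) = (ρ₀ N) *ᵥ (T u) := by
      have h2 : ρ₀ M = ρ₀ N := hMN
      rw [h2]
    rw [hact, hact] at h1
    exact hbij.1 h1

variable {l : Type} [Fintype l] [DecidableEq l] {R : Type*} [CommRing R]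

theorem J_form (x y : l ⊕ l → R) :
    x ⬝ᵥ Matrix.J l R *ᵥ y = ∑ i, (x (Sum.inr i) * y (Sum.inl i) - x (Sum.inl i) * y (Sum.inr i)) := by
  simp only [Matrix.J, dotProduct, Matrix.mulVec, Fintype.sum_sum_type, Matrix.fromBlocks_apply₁₁,
    Matrix.fromBlocks_apply₁₂, Matrix.fromBlocks_apply₂₁, Matrix.fromBlocks_apply₂₂,
    Matrix.zero_apply, zero_mul, Finset.sum_const_zero, zero_add, add_zero, Matrix.neg_apply,
    Matrix.one_apply, neg_mul, ite_mul, one_mul, Finset.sum_neg_distrib, Finset.sum_ite_eq,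
    Finset.mem_univ, if_true, mul_neg]
  rw [Finset.sum_sub_distrib]
  ring

theorem mem_symplectic_of_forall (A : Matrix (l ⊕ l) (l ⊕ l) R)
    (h : ∀ x y : l ⊕ l → R, (A *ᵥ x) ⬝ᵥ Matrix.J l R *ᵥ (A *ᵥ y) = x ⬝ᵥ Matrix.J l R *ᵥ y) :
    A ∈ Matrix.symplecticGroup l R := by
  rw [SymplecticGroup.mem_iff']
  ext i j
  have h1 := h (Pi.single i 1) (Pi.single j 1)
  have e : ∀ B : Matrix (l ⊕ l) (l ⊕ l) R, (Pi.single i 1) ⬝ᵥ B *ᵥ (Pi.single j 1) = B i j := by
    intro B
    simp [Matrix.mulVec_single_one]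
  rw [← e (Aᵀ * Matrix.J l R * A), ← e (Matrix.J l R), ← h1, ← Matrix.mulVec_mulVec,
    ← Matrix.mulVec_mulVec, Matrix.dotProduct_mulVec, Matrix.vecMul_transpose]

theorem forall_of_mem_symplectic (A : Matrix (l ⊕ l) (l ⊕ l) R)
    (hA : A ∈ Matrix.symplecticGroup l R) (x y : l ⊕ l → R) :
    (A *ᵥ x) ⬝ᵥ Matrix.J l R *ᵥ (A *ᵥ y) = x ⬝ᵥ Matrix.J l R *ᵥ y := by
  rw [SymplecticGroup.mem_iff'] at hA
  conv_rhs => rw [← hA]
  rw [← Matrix.mulVec_mulVec, ← Matrix.mulVec_mulVec, Matrix.dotProduct_mulVec x Aᵀ,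
    Matrix.vecMul_transpose]

end hom

section pair
variable {F K : Type*} [Field F] [Fintype F] [Field K] [Fintype K] {f : F →+* K} {θ θ' : K}
  {a c : F}

theorem IsQuad.disc_ne_zero (h : IsQuad f θ θ' a c) : a ^ 2 - 4 * c ≠ 0 := by
  intro h0
  have h1 : f (a ^ 2 - 4 * c) = (θ - θ') ^ 2 := by
    rw [map_sub, map_pow, map_mul, map_ofNat, ← h.1, ← h.2.1]
    ring
  rw [h0, map_zero] at h1
  have h2 : θ - θ' = 0 := by
    have h3 : (θ - θ') ^ 2 = 0 := h1.symm
    exact pow_eq_zero_iff (two_ne_zero) |>.mp h3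
  exact h.2.2.1 (sub_eq_zero.mp h2)

theorem Coords.norm_eq (C : Coords f θ) (h : IsQuad f θ θ' a c) (z : K) :
    C.c₁ (z * z ^ Fintype.card F) = C.c₁ z ^ 2 + a * C.c₁ z * C.c₂ z + c * C.c₂ z ^ 2 := by
  rw [C.herm₁ h]
  ring

/-- The norm `μ ↦ μ ^ (q + 1)` takes the value `-1`. -/
theorem exists_norm_neg_one (hK : Fintype.card K = Fintype.card F ^ 2) :
    ∃ μ : K, μ * μ ^ Fintype.card F = -1 := by
  by_cases h2 : (2 : K) = 0
  · refine ⟨1, ?_⟩
    rw [one_pow, one_mul]
    linear_combination h2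
  · obtain ⟨g, hg⟩ := (isCyclic_iff_exists_orderOf_eq_natCard (α := Kˣ)).mp inferInstance
    have hcard : Nat.card Kˣ = Fintype.card F ^ 2 - 1 := by
      rw [Nat.card_units, Nat.card_eq_fintype_card, hK]
    have hqodd : Odd (Fintype.card F) := by
      by_contra hev
      rw [Nat.not_odd_iff_even] at hev
      have h3 : Even (Fintype.card K) := by
        rw [hK]
        exact hev.pow_of_ne_zero (by norm_num)
      have h4 : ringChar K = 2 :=
        FiniteField.even_card_iff_char_two.mpr (Nat.even_iff.mp h3)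
      apply h2
      haveI : CharP K 2 := by
        rw [← h4]
        exact ringChar.charP K
      exact CharTwo.two_eq_zero
    obtain ⟨r, hr⟩ := hqodd
    have hq2 : 2 ≤ Fintype.card F := Fintype.one_lt_card
    have hr1 : 1 ≤ r := by omega
    have hord : orderOf g = 4 * (r * (r + 1)) := by
      rw [hg, hcard, hr]
      have h3 : (2 * r + 1) ^ 2 = 4 * (r * (r + 1)) + 1 := by ring
      rw [h3]
      rfl
    have hh2 : (g ^ (2 * (r * (r + 1)))) ^ 2 = 1 := by
      rw [← pow_mul]
      have h3 : 2 * (r * (r + 1)) * 2 = orderOf g := by rw [hord]; ring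
      rw [h3, pow_orderOf_eq_one]
    have hh1 : g ^ (2 * (r * (r + 1))) ≠ 1 := by
      apply pow_ne_one_of_lt_orderOf
      · have : 0 < r * (r + 1) := Nat.mul_pos hr1 (by omega)
        omega
      · rw [hord]
        have : 0 < r * (r + 1) := Nat.mul_pos hr1 (by omega)
        omega
    have hhm : ((g ^ (2 * (r * (r + 1))) : Kˣ) : K) = -1 := by
      have h3 : (((g ^ (2 * (r * (r + 1))) : Kˣ) : K) - 1)
          * (((g ^ (2 * (r * (r + 1))) : Kˣ) : K) + 1) = 0 := by
        have h4 := congrArg Units.val hh2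
        rw [Units.val_pow_eq_pow_val, Units.val_one] at h4
        linear_combination h4
      rcases mul_eq_zero.mp h3 with h' | h'
      · exact absurd (Units.ext (sub_eq_zero.mp h')) hh1
      · linear_combination h'
    refine ⟨((g ^ r : Kˣ) : K), ?_⟩
    rw [← hhm, ← pow_succ', ← Units.val_pow_eq_pow_val, ← pow_mul, hr]
    congr 2
    ring

/-- First two of the four hyperbolic coordinates of a pair `(z, w)`. -/
def pairX (C : Coords f θ) (μ : K) (p : Fin 2) (z w : K) : F :=
  if p = 0 then C.c₁ (z - μ * w) else C.c₂ (z - μ * w)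

/-- Last two of the four hyperbolic coordinates of a pair `(z, w)`. -/
def pairY (C : Coords f θ) (a c : F) (μ : K) (p : Fin 2) (z w : K) : F :=
  if p = 0 then C.c₁ (z - μ * w) + a * C.c₂ (z - μ * w) + 2 * C.c₁ (μ * w) + a * C.c₂ (μ * w)
  else c * C.c₂ (z - μ * w) + a * C.c₁ (μ * w) + 2 * c * C.c₂ (μ * w)

theorem pairX_add (C : Coords f θ) (μ : K) (p : Fin 2) (z w z' w' : K) :
    pairX C μ p (z + z') (w + w') = pairX C μ p z w + pairX C μ p z' w' := by
  have h1 : z + z' - μ * (w + w') = (z - μ * w) + (z' - μ * w') := by ring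
  unfold pairX
  rw [h1]
  split_ifs <;> simp only [map_add]

theorem pairX_smul (C : Coords f θ) (μ : K) (p : Fin 2) (r : F) (z w : K) :
    pairX C μ p (f r * z) (f r * w) = r * pairX C μ p z w := by
  have h1 : f r * z - μ * (f r * w) = f r * (z - μ * w) := by ring
  unfold pairX
  rw [h1]
  split_ifs
  · rw [C.c₁_smul]
  · rw [C.c₂_smul]

theorem pairY_add (C : Coords f θ) (a c : F) (μ : K) (p : Fin 2) (z w z' w' : K) :
    pairY C a c μ p (z + z') (w + w') = pairY C a c μ p z w + pairY C a c μ p z' w' := by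
  have h1 : z + z' - μ * (w + w') = (z - μ * w) + (z' - μ * w') := by ring
  have h2 : μ * (w + w') = μ * w + μ * w' := by ring
  unfold pairY
  rw [h1, h2]
  split_ifs <;> simp only [map_add] <;> ring

theorem pairY_smul (C : Coords f θ) (a c : F) (μ : K) (p : Fin 2) (r : F) (z w : K) :
    pairY C a c μ p (f r * z) (f r * w) = r * pairY C a c μ p z w := by
  have h1 : f r * z - μ * (f r * w) = f r * (z - μ * w) := by ring
  have h2 : μ * (f r * w) = f r * (μ * w) := by ring
  unfold pairY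
  rw [h1, h2]
  split_ifs <;> simp only [C.c₁_smul, C.c₂_smul] <;> ring

theorem pair_form (C : Coords f θ) (h : IsQuad f θ θ' a c) {μ : K}
    (hμ : μ * μ ^ Fintype.card F = -1) (z w : K) :
    ∑ p : Fin 2, pairX C μ p z w * pairY C a c μ p z w
      = C.c₁ (z * z ^ Fintype.card F) + C.c₁ (w * w ^ Fintype.card F) := by
  rw [Fin.sum_univ_two]
  have hw : C.c₁ (w * w ^ Fintype.card F) = -C.c₁ ((μ * w) * (μ * w) ^ Fintype.card F) := by
    have h1 : (μ * w) * (μ * w) ^ Fintype.card F = -(w * w ^ Fintype.card F) := by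
      rw [mul_pow]
      linear_combination (w * w ^ Fintype.card F) * hμ
    rw [h1, map_neg, neg_neg]
  have e1 : C.c₁ z = C.c₁ (z - μ * w) + C.c₁ (μ * w) := by
    rw [← map_add]
    congr 1
    ring
  have e2 : C.c₂ z = C.c₂ (z - μ * w) + C.c₂ (μ * w) := by
    rw [← map_add]
    congr 1
    ring
  rw [hw, C.norm_eq h (μ * w), C.norm_eq h z, e1, e2]
  simp only [pairX, pairY, if_true, Fin.isValue, one_ne_zero, if_false]
  ring

theorem pair_inj (C : Coords f θ) (h : IsQuad f θ θ' a c) {μ : K}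
    (hμ : μ * μ ^ Fintype.card F = -1) (z w : K) (hX : ∀ p, pairX C μ p z w = 0)
    (hY : ∀ p, pairY C a c μ p z w = 0) : z = 0 ∧ w = 0 := by
  have hμ0 : μ ≠ 0 := by
    rintro rfl
    rw [zero_mul] at hμ
    exact one_ne_zero (neg_eq_zero.mp hμ.symm)
  have h1 : C.c₁ (z - μ * w) = 0 := by
    have := hX 0
    simpa [pairX] using this
  have h2 : C.c₂ (z - μ * w) = 0 := by
    have := hX 1
    simpa [pairX] using this
  have h3 : 2 * C.c₁ (μ * w) + a * C.c₂ (μ * w) = 0 := by
    have := hY 0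
    simp only [pairY, if_true, h1, h2] at this
    linear_combination this
  have h4 : a * C.c₁ (μ * w) + 2 * c * C.c₂ (μ * w) = 0 := by
    have := hY 1
    simp only [pairY, Fin.isValue, one_ne_zero, if_false, h2] at this
    linear_combination this
  have hd := h.disc_ne_zero
  have h5 : C.c₁ (μ * w) = 0 := by
    have h6 : (a ^ 2 - 4 * c) * C.c₁ (μ * w) = 0 := by linear_combination a * h4 - 2 * c * h3
    rcases mul_eq_zero.mp h6 with h7 | h7
    · exact absurd h7 hd
    · exact h7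
  have h6 : C.c₂ (μ * w) = 0 := by
    have h7 : (a ^ 2 - 4 * c) * C.c₂ (μ * w) = 0 := by linear_combination a * h3 - 2 * h4
    rcases mul_eq_zero.mp h7 with h8 | h8
    · exact absurd h8 hd
    · exact h8
  have h7 : μ * w = 0 := by
    rw [C.ext_iff', map_zero, map_zero]
    exact ⟨h5, h6⟩
  have h8 : z - μ * w = 0 := by
    rw [C.ext_iff', map_zero, map_zero]
    exact ⟨h1, h2⟩
  have hw : w = 0 := by
    rcases mul_eq_zero.mp h7 with h9 | h9
    · exact absurd h9 hμ0
    · exact h9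
  refine ⟨?_, hw⟩
  rw [h7, sub_zero] at h8
  exact h8

end pair

end Cfsg.Agent.Lib_helper8_ResScal
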