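import Mathlib

set_option autoImplicit false

namespace Cfsg.Agent.Lib_helper8_Shintani

variable {X : Type*} [Group X]

/-- Membership in the fixed-point subgroup of an automorphism. -/
theorem mem_fix_iff (τ : MulAut X) (x : X) :
    x ∈ (MulEquiv.toMonoidHom τ).eqLocus (MonoidHom.id X) ↔ τ x = x := Iff.rfl

/-- A fixed point of `σ` is a fixed point of every power of `σ`. -/
theorem pow_fix (σ : MulAut X) (e : ℕ) {y : X} (hy : σ y = y) : (σ ^ e) y = y := by
  induction e with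
  | zero => simp
  | succ n ih => rw [pow_succ, MulAut.mul_apply, hy, ih]

theorem pow_succ_apply (σ : MulAut X) (e : ℕ) (y : X) : (σ ^ (e + 1)) y = (σ ^ e) (σ y) := by
  rw [pow_succ, MulAut.mul_apply]

theorem pow_succ_apply' (σ : MulAut X) (e : ℕ) (y : X) : (σ ^ (e + 1)) y = σ ((σ ^ e) y) := by
  rw [pow_succ', MulAut.mul_apply]

theorem pow_comm_apply (σ : MulAut X) (e : ℕ) (y : X) : σ ((σ ^ e) y) = (σ ^ e) (σ y) := by
  rw [← pow_succ_apply', pow_succ_apply]

theorem pow_pow_comm_apply (σ : MulAut X) (e i : ℕ) (y : X) :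
    (σ ^ e) ((σ ^ i) y) = (σ ^ i) ((σ ^ e) y) := by
  rw [← MulAut.mul_apply, ← MulAut.mul_apply, pow_mul_comm]

/-- From `g = a σ(a)⁻¹` we get `σ a = g⁻¹ a`. -/
theorem sigma_a_eq (σ : MulAut X) {g a : X} (ha : g = a * (σ a)⁻¹) : σ a = g⁻¹ * a := by
  rw [ha]; group

/-- The Shintani image `x = σᵉ(a)⁻¹ a` is fixed by `σ` when `g = a σ(a)⁻¹` is fixed by `σᵉ`. -/
theorem x_fixed (σ : MulAut X) (e : ℕ) {g a : X} (hg : (σ ^ e) g = g) (ha : g = a * (σ a)⁻¹) :
    σ (((σ ^ e) a)⁻¹ * a) = ((σ ^ e) a)⁻¹ * a := by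
  rw [map_mul, map_inv, pow_comm_apply, sigma_a_eq σ ha, map_mul, map_inv, hg]
  group

/-- The norm `g σ(g) ⋯ σ^(d-1)(g)` of `g = a σ(a)⁻¹` is `a σ^d(a)⁻¹`. -/
theorem norm_eq (σ : MulAut X) (d : ℕ) {g a : X} (ha : g = a * (σ a)⁻¹) :
    ((List.range d).map (fun i => (σ ^ i) g)).prod = a * ((σ ^ d) a)⁻¹ := by
  induction d with
  | zero => simp
  | succ n ih =>
    rw [List.range_succ, List.map_append, List.prod_append, ih, List.map_singleton,
      List.prod_singleton, pow_succ_apply]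
    conv_lhs => rw [ha, map_mul, map_inv]
    group

end Cfsg.Agent.Lib_helper8_Shintani
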