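import Mathlib

set_option autoImplicit false

/-! A square matrix over a field is similar to its transpose.

Proof: `V` with the endomorphism becomes a finitely generated torsion `K[X]`-module, hence a
direct sum of cyclic modules `K[X] ⧸ (g)`; each of those carries a non-degenerate `K`-bilinear
form for which multiplication by `X` is self-adjoint (a Frobenius form). -/

namespace Cfsg.Agent.Lib_helper8_Transpose
open Polynomial

variable (K : Type*) [Field K]

/-- `M` carries a non-degenerate `K`-bilinear form for which `X • ·` is self-adjoint. -/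
def HasForm (M : Type*) [AddCommGroup M] [Module K M] [Module K[X] M] : Prop :=
  ∃ B : M →ₗ[K] M →ₗ[K] K, (∀ v, (∀ w, B v w = 0) → v = 0) ∧
    ∀ v w, B ((X : K[X]) • v) w = B v ((X : K[X]) • w)

variable {K}

theorem HasForm.of_equiv {M M' : Type*} [AddCommGroup M] [Module K M] [Module K[X] M]
    [IsScalarTower K K[X] M] [AddCommGroup M'] [Module K M'] [Module K[X] M']
    [IsScalarTower K K[X] M'] (Ψ : M ≃ₗ[K[X]] M') (h : HasForm K M') : HasForm K M := by
  obtain ⟨B, hB, hX⟩ := h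
  let ψ : M →ₗ[K] M' := Ψ.toLinearMap.restrictScalars K
  have hψ : ∀ v, ψ v = Ψ v := fun v => rfl
  refine ⟨B.compl₁₂ ψ ψ, ?_, ?_⟩
  · intro v hv
    have h1 : Ψ v = 0 := hB (Ψ v) (fun w => by
      have h2 := hv (Ψ.symm w)
      rw [LinearMap.compl₁₂_apply, hψ, hψ, LinearEquiv.apply_symm_apply] at h2
      exact h2)
    exact Ψ.map_eq_zero_iff.mp h1
  · intro v w
    have e1 : ∀ u : M, Ψ ((X : K[X]) • u) = (X : K[X]) • Ψ u := fun u => map_smul Ψ X u
    rw [LinearMap.compl₁₂_apply, LinearMap.compl₁₂_apply, hψ, hψ, hψ, hψ, e1, e1]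
    exact hX _ _

theorem HasForm.pi {ι : Type*} [Fintype ι] [DecidableEq ι] (M : ι → Type*)
    [∀ i, AddCommGroup (M i)] [∀ i, Module K (M i)] [∀ i, Module K[X] (M i)]
    (h : ∀ i, HasForm K (M i)) : HasForm K (∀ i, M i) := by
  choose B hB hX using h
  refine ⟨∑ i, (B i).compl₁₂ (LinearMap.proj i) (LinearMap.proj i), ?_, ?_⟩
  · intro v hv
    funext i
    apply hB i
    intro u
    have h1 := hv (Pi.single i u)
    simp only [LinearMap.sum_apply, LinearMap.compl₁₂_apply, LinearMap.proj_apply] at h1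
    rw [Finset.sum_eq_single i] at h1
    · simpa using h1
    · intro j _ hj
      rw [Pi.single_eq_of_ne hj, map_zero]
    · intro hi
      exact absurd (Finset.mem_univ i) hi
  · intro v w
    simp only [LinearMap.sum_apply, LinearMap.compl₁₂_apply, LinearMap.proj_apply, Pi.smul_apply]
    exact Finset.sum_congr rfl fun i _ => hX i _ _

theorem HasForm.cyclic (g : K[X]) (hg : g ≠ 0) :
    HasForm K (K[X] ⧸ Submodule.span K[X] {g}) := by
  classical
  set g' : K[X] := g * C g.leadingCoeff⁻¹ with hg'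
  have hmon : g'.Monic := monic_mul_leadingCoeff_inv hg
  have hdvd : ∀ f : K[X], g ∣ f ↔ g' ∣ f := by
    intro f
    have hu : IsUnit (C g.leadingCoeff⁻¹ : K[X]) :=
      isUnit_C.mpr (isUnit_iff_ne_zero.mpr (inv_ne_zero (leadingCoeff_ne_zero.mpr hg)))
    exact (hu.mul_right_dvd).symm
  set d := g'.natDegree with hd
  let π : K[X] →ₗ[K[X]] (K[X] ⧸ Submodule.span K[X] {g}) := Submodule.mkQ _
  have hπs : Function.Surjective π := Submodule.mkQ_surjective _
  have hker : ∀ f : K[X], π f = 0 ↔ g' ∣ f := by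
    intro f
    rw [← hdvd]
    show Submodule.Quotient.mk f = 0 ↔ _
    rw [Submodule.Quotient.mk_eq_zero, Submodule.mem_span_singleton]
    constructor
    · rintro ⟨a, rfl⟩; exact Dvd.intro_left _ rfl
    · rintro ⟨a, rfl⟩; exact ⟨a, by rw [smul_eq_mul, mul_comm]⟩
  have hπK : ∀ (c : K) (f : K[X]), π (c • f) = c • π f := by
    intro c f
    exact map_smul (π.restrictScalars K) c f
  obtain ⟨σ, hσ⟩ : ∃ σ : (K[X] ⧸ Submodule.span K[X] {g}) → K[X], ∀ f, σ (π f) = f %ₘ g' := by
    refine ⟨fun q => (Function.surjInv hπs q) %ₘ g', ?_⟩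
    intro f
    apply modByMonic_eq_of_dvd_sub hmon
    rw [← hker, map_sub, Function.surjInv_eq hπs, sub_self]
  have hmm : ∀ a b : K[X], (a %ₘ g' * b) %ₘ g' = (a * b) %ₘ g' := by
    intro a b
    apply modByMonic_eq_of_dvd_sub hmon
    have : a %ₘ g' * b - a * b = g' * (-(a /ₘ g') * b) := by
      have h1 := modByMonic_add_div a g'
      calc a %ₘ g' * b - a * b = a %ₘ g' * b - (a %ₘ g' + g' * (a /ₘ g')) * b := by rw [h1]
        _ = g' * (-(a /ₘ g') * b) := by ring
    rw [this]
    exact Dvd.intro _ rfl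
  have hmm' : ∀ a b : K[X], (a * (b %ₘ g')) %ₘ g' = (a * b) %ₘ g' := by
    intro a b
    rw [mul_comm, hmm, mul_comm]
  have hσadd : ∀ a b, σ (a + b) = σ a + σ b := by
    intro a b
    obtain ⟨f₁, rfl⟩ := hπs a
    obtain ⟨f₂, rfl⟩ := hπs b
    rw [← map_add, hσ, hσ, hσ, add_modByMonic]
  have hσsmul : ∀ (c : K) a, σ (c • a) = c • σ a := by
    intro c a
    obtain ⟨f₁, rfl⟩ := hπs a
    rw [← hπK, hσ, hσ, smul_modByMonic]
  have hσX : ∀ a, σ ((X : K[X]) • a) = (X * σ a) %ₘ g' := by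
    intro a
    obtain ⟨f₁, rfl⟩ := hπs a
    rw [← map_smul, hσ, hσ, smul_eq_mul, hmm']
  let B : (K[X] ⧸ Submodule.span K[X] {g}) →ₗ[K] (K[X] ⧸ Submodule.span K[X] {g}) →ₗ[K] K :=
    LinearMap.mk₂ K (fun a b => ((σ a * σ b) %ₘ g').coeff (d - 1))
      (fun a₁ a₂ b => by
        show ((σ (a₁ + a₂) * σ b) %ₘ g').coeff (d - 1) = _
        rw [hσadd, add_mul, add_modByMonic, coeff_add])
      (fun c a b => by
        show ((σ (c • a) * σ b) %ₘ g').coeff (d - 1) = _
        rw [hσsmul, smul_mul_assoc, smul_modByMonic, coeff_smul])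
      (fun a b₁ b₂ => by
        show ((σ a * σ (b₁ + b₂)) %ₘ g').coeff (d - 1) = _
        rw [hσadd, mul_add, add_modByMonic, coeff_add])
      (fun c a b => by
        show ((σ a * σ (c • b)) %ₘ g').coeff (d - 1) = _
        rw [hσsmul, mul_smul_comm, smul_modByMonic, coeff_smul])
  have hB : ∀ a b, B a b = ((σ a * σ b) %ₘ g').coeff (d - 1) := fun a b => rfl
  refine ⟨B, ?_, ?_⟩
  · intro a ha
    by_contra ha0
    obtain ⟨f, rfl⟩ := hπs a
    have hr0 : f %ₘ g' ≠ 0 := by
      intro h0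
      apply ha0
      rw [hker]
      exact (modByMonic_eq_zero_iff_dvd hmon).mp h0
    have hdeg : (f %ₘ g').natDegree < d :=
      natDegree_lt_natDegree hr0 (degree_modByMonic_lt f hmon)
    set r := f %ₘ g' with hr
    set k := r.natDegree with hk
    have h1 := ha (π (X ^ (d - 1 - k)))
    rw [hB, hσ, hσ, ← hr] at h1
    have hXs : (X ^ (d - 1 - k) : K[X]) %ₘ g' = X ^ (d - 1 - k) := by
      rw [modByMonic_eq_self_iff hmon, degree_X_pow, degree_eq_natDegree hmon.ne_zero]
      exact_mod_cast (by omega : d - 1 - k < d)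
    have hrs : (r * X ^ (d - 1 - k)) %ₘ g' = r * X ^ (d - 1 - k) := by
      rw [modByMonic_eq_self_iff hmon, degree_eq_natDegree hmon.ne_zero]
      have hne : r * X ^ (d - 1 - k) ≠ 0 := mul_ne_zero hr0 (pow_ne_zero _ X_ne_zero)
      rw [degree_eq_natDegree hne, natDegree_mul hr0 (pow_ne_zero _ X_ne_zero), natDegree_X_pow]
      exact_mod_cast (by omega : k + (d - 1 - k) < d)
    rw [hXs, hrs] at h1
    have e : (r * X ^ (d - 1 - k)).coeff (k + (d - 1 - k)) = r.coeff k :=
      coeff_mul_X_pow r (d - 1 - k) k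
    have e2 : k + (d - 1 - k) = d - 1 := by omega
    rw [e2, h1] at e
    exact hr0 (leadingCoeff_eq_zero.mp e.symm)
  · intro a b
    rw [hB, hB, hσX, hσX, hmm, hmm']
    congr 2
    ring

theorem isTorsion_aeval {V : Type*} [AddCommGroup V] [Module K V] [FiniteDimensional K V]
    (φ : V →ₗ[K] V) : Module.IsTorsion K[X] (Module.AEval' φ) := by
  intro x
  have hne : minpoly K φ ≠ 0 := minpoly.ne_zero (Algebra.IsIntegral.isIntegral φ)
  refine ⟨⟨minpoly K φ, mem_nonZeroDivisors_of_ne_zero hne⟩, ?_⟩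
  obtain ⟨v, rfl⟩ := (Module.AEval'.of φ).surjective x
  show minpoly K φ • Module.AEval'.of φ v = 0
  rw [← Module.AEval.of_aeval_smul, minpoly.aeval, zero_smul, map_zero]

theorem hasForm_aeval {V : Type*} [AddCommGroup V] [Module K V] [FiniteDimensional K V]
    (φ : V →ₗ[K] V) : HasForm K (Module.AEval' φ) := by
  classical
  obtain ⟨ι, _, p, hp, e, ⟨Ψ⟩⟩ := Module.equiv_directSum_of_isTorsion (isTorsion_aeval φ)
  refine HasForm.of_equiv
    (Ψ.trans (DirectSum.linearEquivFunOnFintype K[X] ι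
      (fun i => K[X] ⧸ Submodule.span K[X] {p i ^ e i}))) ?_
  exact HasForm.pi _ (fun i => HasForm.cyclic _ (pow_ne_zero _ (hp i).ne_zero))

/-- A square matrix over a field is similar to its transpose. -/
theorem exists_conj_transpose {ι : Type*} [Fintype ι] [DecidableEq ι] (A : Matrix ι ι K) :
    ∃ G : Matrix ι ι K, IsUnit G ∧ G * A = A.transpose * G := by
  obtain ⟨B, hB, hX⟩ := hasForm_aeval (Matrix.toLin' A)
  let B' : (ι → K) →ₗ[K] (ι → K) →ₗ[K] K :=
    B.compl₁₂ (Module.AEval'.of (Matrix.toLin' A)).toLinearMap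
      (Module.AEval'.of (Matrix.toLin' A)).toLinearMap
  have hB' : ∀ v w, B' v w = B (Module.AEval'.of (Matrix.toLin' A) v)
      (Module.AEval'.of (Matrix.toLin' A) w) := fun v w => rfl
  have hX' : ∀ v w, B' (A.mulVec v) w = B' v (A.mulVec w) := by
    intro v w
    rw [hB', hB']
    have h1 : ∀ u, Module.AEval'.of (Matrix.toLin' A) (A.mulVec u) =
        (X : K[X]) • Module.AEval'.of (Matrix.toLin' A) u := by
      intro u
      rw [Module.AEval'.X_smul_of, Matrix.toLin'_apply]
    rw [h1, h1]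
    exact hX _ _
  have hnd : ∀ v, (∀ w, B' v w = 0) → v = 0 := by
    intro v hv
    have h1 := hB (Module.AEval'.of (Matrix.toLin' A) v) (fun w => by
      obtain ⟨w', rfl⟩ := (Module.AEval'.of (Matrix.toLin' A)).surjective w
      exact hv w')
    exact (Module.AEval'.of (Matrix.toLin' A)).map_eq_zero_iff.mp h1
  set G : Matrix ι ι K := LinearMap.toMatrix₂' K B' with hG
  have hGB : ∀ v w, B' v w = v ⬝ᵥ G.mulVec w := by
    intro v w
    rw [← Matrix.toLinearMap₂'_apply', hG, Matrix.toLinearMap₂'_toMatrix']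
  refine ⟨G, ?_, ?_⟩
  · rw [← Matrix.vecMul_injective_iff_isUnit]
    intro v w hvw
    have h0 : Matrix.vecMul (v - w) G = 0 := by
      rw [Matrix.sub_vecMul]; exact sub_eq_zero.mpr hvw
    have h1 : v - w = 0 :=
      hnd _ (fun u => by rw [hGB, Matrix.dotProduct_mulVec, h0, zero_dotProduct])
    exact sub_eq_zero.mp h1
  · ext i j
    have h1 := hX' (Pi.single i 1) (Pi.single j 1)
    rw [hGB, hGB] at h1
    simp only [Matrix.mulVec_mulVec, Matrix.mulVec_single_one, Matrix.dotProduct_mulVec,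
      Matrix.vecMul_vecMul] at h1
    rw [Matrix.mul_apply, Matrix.mul_apply]
    simpa [Matrix.mul_apply, dotProduct, Matrix.mulVec, Matrix.vecMul, Pi.single_apply,
      Matrix.transpose_apply, eq_comm] using h1.symm

theorem isConj_transpose {ι : Type*} [Fintype ι] [DecidableEq ι] (A : Matrix ι ι K) :
    IsConj A A.transpose := by
  obtain ⟨G, hG, h⟩ := exists_conj_transpose A
  exact ⟨hG.unit, h⟩

end Cfsg.Agent.Lib_helper8_Transpose
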