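import Mathlib
import Cfsg.Prelude.Def_RootSubgroups
import Cfsg.Agent.Lib_helper9_A6Spec

set_option autoImplicit false

namespace Cfsg.Agent.Lib_helper9_A6Root

open Equiv Cfsg

set_option maxRecDepth 100000 in
set_option maxHeartbeats 4000000 in
theorem a6_conj : ∀ σ : Equiv.Perm (Fin 6), Equiv.Perm.sign σ = 1 → σ ^ 2 = 1 → σ ≠ 1 →
    ∃ g : Equiv.Perm (Fin 6), σ = g * (swap (0 : Fin 6) 1 * swap 2 3) * g⁻¹ ∧
      Equiv.Perm.sign g = 1 := by
  decide +kernel

theorem closure_normal_of_conj {G : Type*} [Group G] {D : Set G}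
    (h : ∀ d ∈ D, ∀ g : G, g * d * g⁻¹ ∈ D) : (Subgroup.closure D).Normal := by
  have h1 : Subgroup.closure D = Subgroup.normalClosure D := by
    apply le_antisymm
    · exact Subgroup.closure_le_normalClosure
    · show Subgroup.closure (Group.conjugatesOfSet D) ≤ Subgroup.closure D
      apply Subgroup.closure_mono
      intro x hx
      rw [Group.mem_conjugatesOfSet_iff] at hx
      obtain ⟨a, ha, hc⟩ := hx
      rw [isConj_iff] at hc
      obtain ⟨g, rfl⟩ := hc
      exact h a ha g
  rw [h1]; exact Subgroup.normalClosure_normal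

theorem orderOf_conj' {G : Type*} [Group G] (g d : G) : orderOf (g * d * g⁻¹) = orderOf d := by
  have := MulEquiv.orderOf_eq (MulAut.conj g) d
  rwa [MulAut.conj_apply] at this

theorem sq_of_order_two {G : Type*} [Group G] {a : G} (h : orderOf a = 2) : a * a = 1 := by
  have := pow_orderOf_eq_one a
  rwa [h, pow_two] at this

theorem ne_one_of_order_two {G : Type*} [Group G] {a : G} (h : orderOf a = 2) : a ≠ 1 := by
  rintro rfl
  rw [orderOf_one] at h
  exact absurd h (by decide)

theorem conj_to_base (a : alternatingGroup (Fin 6)) (ha : orderOf a = 2) :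
    ∃ g : alternatingGroup (Fin 6),
      (a : Equiv.Perm (Fin 6)) =
        (g : Equiv.Perm (Fin 6)) * (swap (0 : Fin 6) 1 * swap 2 3) * (g : Equiv.Perm (Fin 6))⁻¹ := by
  have h1 : (a : Equiv.Perm (Fin 6)) ^ 2 = 1 := by
    have := sq_of_order_two ha
    rw [pow_two]
    exact congrArg Subtype.val this
  have h2 : (a : Equiv.Perm (Fin 6)) ≠ 1 := by
    intro h
    exact ne_one_of_order_two ha (Subtype.ext h)
  obtain ⟨g, hg, hs⟩ := a6_conj a.1 (Equiv.Perm.mem_alternatingGroup.mp a.2) h1 h2
  exact ⟨⟨g, Equiv.Perm.mem_alternatingGroup.mpr hs⟩, hg⟩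

theorem order_le_five (x : alternatingGroup (Fin 6)) : orderOf x ∈ ({1, 2, 3, 4, 5} : Set ℕ) := by
  rw [← Cfsg.Agent.Lib_helper9_A6Spec.a6_spec]
  exact Set.mem_range_self x

theorem a6_root_class :
    Cfsg.IsRootInvolutionClass {g : ↥(alternatingGroup (Fin 6)) | orderOf g = 2} ∧
    ∀ d ∈ {g : ↥(alternatingGroup (Fin 6)) | orderOf g = 2},
      ∀ e ∈ {g : ↥(alternatingGroup (Fin 6)) | orderOf g = 2}, orderOf (d * e) ≤ 5 := by
  have hconjmem : ∀ d ∈ {g : ↥(alternatingGroup (Fin 6)) | orderOf g = 2},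
      ∀ g : ↥(alternatingGroup (Fin 6)), g * d * g⁻¹ ∈ {g : ↥(alternatingGroup (Fin 6)) | orderOf g = 2} := by
    intro d hd g
    show orderOf (g * d * g⁻¹) = 2
    rw [orderOf_conj']; exact hd
  have hne : ({g : ↥(alternatingGroup (Fin 6)) | orderOf g = 2}).Nonempty := by
    have h2 : (2 : ℕ) ∈ Set.range (orderOf : alternatingGroup (Fin 6) → ℕ) := by
      rw [Cfsg.Agent.Lib_helper9_A6Spec.a6_spec]; simp
    obtain ⟨σ, hσ⟩ := h2
    exact ⟨σ, hσ⟩
  refine ⟨⟨⟨fun d hd => hd, ?_, hconjmem, ?_⟩, hne, ?_⟩, ?_⟩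
  · -- generation
    have : IsSimpleGroup (alternatingGroup (Fin 6)) :=
      alternatingGroup.isSimpleGroup (by simp)
    have hn := closure_normal_of_conj hconjmem
    rcases IsSimpleGroup.eq_bot_or_eq_top_of_normal _ hn with h | h
    · exfalso
      obtain ⟨σ, hσ⟩ := hne
      have : σ ∈ Subgroup.closure {g : ↥(alternatingGroup (Fin 6)) | orderOf g = 2} :=
        Subgroup.subset_closure hσ
      rw [h, Subgroup.mem_bot] at this
      exact ne_one_of_order_two hσ this
    · exact h
  · -- pairs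
    intro a ha b hb
    have ha2 := sq_of_order_two ha
    have hb2 := sq_of_order_two hb
    have hcomm : (a * b) ^ 2 = 1 → a * b = b * a := by
      intro h
      rw [pow_two] at h
      have h1 : a * b = (a * b)⁻¹ := eq_inv_of_mul_eq_one_left h
      rw [h1, mul_inv_rev, inv_eq_of_mul_eq_one_right ha2, inv_eq_of_mul_eq_one_right hb2]
    have h5 := order_le_five (a * b)
    simp only [Set.mem_insert_iff, Set.mem_singleton_iff] at h5
    rcases h5 with h | h | h | h | h
    · left; apply hcomm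
      rw [orderOf_eq_one_iff.mp h, one_pow]
    · left; apply hcomm
      rw [← h]; exact pow_orderOf_eq_one _
    · right; left; rw [h]; decide
    · right; right
      refine ⟨h, ?_⟩
      show orderOf ((a * b) ^ 2) = 2
      rw [orderOf_pow, h]; decide
    · right; left; rw [h]; decide
  · -- conjugacy
    intro a ha b hb
    obtain ⟨g, hg⟩ := conj_to_base a ha
    obtain ⟨k, hk⟩ := conj_to_base b hb
    refine ⟨k * g⁻¹, ?_⟩
    apply Subtype.ext
    have h1 : (swap (0 : Fin 6) 1 * swap 2 3) =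
        (g : Equiv.Perm (Fin 6))⁻¹ * (a : Equiv.Perm (Fin 6)) * (g : Equiv.Perm (Fin 6)) := by
      rw [hg]; group
    rw [hk, h1]
    simp [mul_assoc]
  · intro d hd e he
    have h5 := order_le_five (d * e)
    simp only [Set.mem_insert_iff, Set.mem_singleton_iff] at h5
    rcases h5 with h | h | h | h | h <;> omega

end Cfsg.Agent.Lib_helper9_A6Root
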