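import Mathlib
import Cfsg.Agent.Lib_helper9_PGroup

set_option autoImplicit false

namespace Cfsg.Agent.Lib_helper9_AltSylow

open Equiv

/-- a `p`-subgroup of `Sym(n)` with `n < p²` is abelian. -/
theorem pgroup_perm_comm {n p : ℕ} [hp : Fact p.Prime] (P : Subgroup (Perm (Fin n)))
    (hP : IsPGroup p P) (hn : n < p ^ 2) : ∀ g ∈ P, ∀ h ∈ P, g * h = h * g := by
  intro g hg h hh
  apply Equiv.ext
  intro x
  show g (h x) = h (g x)
  obtain ⟨O, hO⟩ : ∃ O : Set (Fin n), O = MulAction.orbit P x := ⟨_, rfl⟩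
  have hxO : x ∈ O := hO ▸ MulAction.mem_orbit_self x
  obtain ⟨j, hj⟩ := hP.index (MulAction.stabilizer P x)
  rw [MulAction.index_stabilizer, ← hO] at hj
  have hle : O.ncard ≤ n := by
    have h1 := Set.ncard_le_ncard (Set.subset_univ O) (Set.toFinite _)
    rw [Set.ncard_univ, Nat.card_eq_fintype_card, Fintype.card_fin] at h1
    exact h1
  have hj1 : j ≤ 1 := by
    by_contra hcon
    have h2 : p ^ 2 ≤ p ^ j := Nat.pow_le_pow_right hp.out.pos (by omega)
    omega
  have hsm : ∀ k : P, (k : Perm (Fin n)) x ∈ O := fun k => by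
    rw [hO]; exact ⟨k, rfl⟩
  interval_cases j
  · -- orbit of size one
    rw [pow_zero, Set.ncard_eq_one] at hj
    obtain ⟨a, ha⟩ := hj
    have hfix : ∀ k : P, (k : Perm (Fin n)) x = x := fun k => by
      have h1 := hsm k
      rw [ha] at h1 hxO
      rw [Set.mem_singleton_iff] at h1 hxO
      rw [h1, hxO]
    have h1 := hfix ⟨g, hg⟩
    have h2 := hfix ⟨h, hh⟩
    simp only at h1 h2
    rw [h2, h1, h2]
  · -- orbit of size `p`
    rw [pow_one] at hj
    obtain ⟨ψ, hψ⟩ : ∃ ψ : P →* Perm (MulAction.orbit P x),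
        ∀ (k : P) (y : MulAction.orbit P x), ((ψ k y : MulAction.orbit P x) : Fin n) =
          (k : Perm (Fin n)) (y : Fin n) :=
      ⟨MulAction.toPermHom P (MulAction.orbit P x), fun k y => rfl⟩
    have hR : IsPGroup p ψ.range := hP.of_surjective ψ.rangeRestrict ψ.rangeRestrict_surjective
    obtain ⟨i, hi⟩ := IsPGroup.iff_card.mp hR
    have hcardO : Nat.card (MulAction.orbit P x) = p := by
      rw [← hj, hO]; rfl
    have hdvd : p ^ i ∣ p.factorial := by
      rw [← hi, ← hcardO, ← Nat.card_perm]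
      exact Subgroup.card_subgroup_dvd_card _
    have hi1 : i ≤ 1 := by
      by_contra hcon
      have h3 : p ^ 2 ∣ p.factorial := (pow_dvd_pow p (by omega : 2 ≤ i)).trans hdvd
      obtain ⟨m, hm⟩ : ∃ m, p = m + 1 := ⟨p - 1, by have := hp.out.pos; omega⟩
      have h4 : p.factorial = p * m.factorial := by
        rw [hm, Nat.factorial_succ]
      rw [h4, pow_two] at h3
      have h5 : p ∣ m.factorial := Nat.dvd_of_mul_dvd_mul_left hp.out.pos h3
      have h6 := (Nat.Prime.dvd_factorial hp.out).mp h5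
      omega
    have hcomm : ∀ a b : ψ.range, a * b = b * a := by
      interval_cases i
      · rw [pow_zero] at hi
        haveI : Subsingleton ψ.range := (Nat.card_eq_one_iff_unique.mp hi).1
        intro a b; exact Subsingleton.elim _ _
      · rw [pow_one] at hi
        haveI : IsCyclic ψ.range := isCyclic_of_prime_card hi
        intro a b
        exact (IsCyclic.commGroup (α := ψ.range)).mul_comm a b
    have h7 := hcomm ⟨ψ ⟨g, hg⟩, ⟨_, rfl⟩⟩ ⟨ψ ⟨h, hh⟩, ⟨_, rfl⟩⟩
    have h8 : ψ ⟨g, hg⟩ * ψ ⟨h, hh⟩ = ψ ⟨h, hh⟩ * ψ ⟨g, hg⟩ := congrArg Subtype.val h7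
    have h9 := congrArg (fun e : Perm (MulAction.orbit P x) =>
      ((e ⟨x, MulAction.mem_orbit_self x⟩ : MulAction.orbit P x) : Fin n)) h8
    simp only [Perm.mul_apply, hψ] at h9
    exact h9

section Wreath

variable (p : ℕ)

/-- the permutation `(x, y) ↦ (x + a, y + f x)` of `ZMod p × ZMod p`. -/
def mkPerm (a : ZMod p) (f : ZMod p → ZMod p) : Perm (ZMod p × ZMod p) where
  toFun v := (v.1 + a, v.2 + f v.1)
  invFun v := (v.1 - a, v.2 - f (v.1 - a))
  left_inv v := by simp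
  right_inv v := by simp

theorem mkPerm_apply (a : ZMod p) (f : ZMod p → ZMod p) (v : ZMod p × ZMod p) :
    mkPerm p a f v = (v.1 + a, v.2 + f v.1) := rfl

/-- the group `C_p ≀ C_p` acting on `p²` points. -/
def wr : Subgroup (Perm (ZMod p × ZMod p)) where
  carrier := {π | ∃ (a : ZMod p) (f : ZMod p → ZMod p),
    ∀ v : ZMod p × ZMod p, π v = (v.1 + a, v.2 + f v.1)}
  mul_mem' := by
    rintro π₁ π₂ ⟨a₁, f₁, h₁⟩ ⟨a₂, f₂, h₂⟩
    refine ⟨a₂ + a₁, fun x => f₂ x + f₁ (x + a₂), fun v => ?_⟩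
    rw [Perm.mul_apply, h₂, h₁]
    ext
    · simp [add_assoc]
    · simp [add_assoc]
  one_mem' := ⟨0, fun _ => 0, fun v => by simp⟩
  inv_mem' := by
    rintro π ⟨a, f, h⟩
    refine ⟨-a, fun x => - f (x - a), fun v => ?_⟩
    rw [Perm.inv_eq_iff_eq, h]
    ext
    · simp
    · simp [sub_eq_add_neg]

theorem mkPerm_mem (a : ZMod p) (f : ZMod p → ZMod p) : mkPerm p a f ∈ wr p :=
  ⟨a, f, fun _ => rfl⟩

theorem wr_pow [Fact p.Prime] {π : Perm (ZMod p × ZMod p)} (hπ : π ∈ wr p) :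
    π ^ (p ^ 2) = 1 := by
  obtain ⟨a, f, h⟩ := hπ
  have h1 : ∀ k : ℕ, ∃ g : ZMod p → ZMod p,
      ∀ v : ZMod p × ZMod p, (π ^ k) v = (v.1 + k * a, v.2 + g v.1) := by
    intro k
    induction k with
    | zero => exact ⟨fun _ => 0, fun v => by simp⟩
    | succ k ih =>
      obtain ⟨g, hg⟩ := ih
      refine ⟨fun x => f x + g (x + a), fun v => ?_⟩
      rw [pow_succ, Perm.mul_apply, h, hg]
      ext
      · simp; ring
      · simp [add_assoc]
  obtain ⟨g, hg⟩ := h1 p
  have h2 : ∀ (k : ℕ) (v : ZMod p × ZMod p), ((π ^ p) ^ k) v = (v.1, v.2 + k * g v.1) := by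
    intro k
    induction k with
    | zero => intro v; simp
    | succ k ih =>
      intro v
      rw [pow_succ, Perm.mul_apply, hg, ih]
      ext
      · simp
      · simp; ring
  rw [pow_two, pow_mul]
  apply Equiv.ext
  intro v
  rw [h2 p v]
  simp

theorem wr_isPGroup [Fact p.Prime] : IsPGroup p (wr p) := by
  intro π
  refine ⟨2, ?_⟩
  apply Subtype.ext
  rw [Subgroup.coe_pow, Subgroup.coe_one]
  exact wr_pow p π.2

theorem wr_not_comm [Fact p.Prime] :
    mkPerm p 1 (fun _ => 0) * mkPerm p 0 id ≠ mkPerm p 0 id * mkPerm p 1 (fun _ => 0) := by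
  intro h
  have h1 := congrArg (fun e : Perm (ZMod p × ZMod p) => (e (0, 0)).2) h
  simp [Perm.mul_apply, mkPerm_apply] at h1

end Wreath

section Embed

variable {n : ℕ}

/-- a nonabelian `p`-subgroup of `A_n` from an injective hom that is even on `wr p`. -/
theorem not_comm_of_embed {p : ℕ} [Fact p.Prime] (S : Sylow p (alternatingGroup (Fin n)))
    (Θ : Perm (ZMod p × ZMod p) →* Perm (Fin n)) (hinj : Function.Injective Θ)
    (heven : ∀ π ∈ wr p, Perm.sign (Θ π) = 1) : ¬ IsMulCommutative S := by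
  intro hcomm
  rw [isMulCommutative_iff] at hcomm
  obtain ⟨Q, hQ⟩ : ∃ Q : Subgroup (alternatingGroup (Fin n)),
      Q = ((wr p).map Θ).comap (alternatingGroup (Fin n)).subtype := ⟨_, rfl⟩
  have hQp : IsPGroup p Q := by
    rw [hQ]
    exact ((wr_isPGroup p).map Θ).comap_of_injective _ (Subgroup.subtype_injective _)
  obtain ⟨k, hk⟩ := Cfsg.Agent.Lib_helper9_PGroup.exists_conj_le_sylow S Q hQp
  have hmem : ∀ π (hπ : π ∈ wr p),
      (⟨Θ π, Perm.mem_alternatingGroup.mpr (heven π hπ)⟩ : alternatingGroup (Fin n)) ∈ Q := by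
    intro π hπ
    rw [hQ]
    exact ⟨π, hπ, rfl⟩
  have h1 := hk _ (hmem _ (mkPerm_mem p 1 (fun _ => 0)))
  have h2 := hk _ (hmem _ (mkPerm_mem p 0 id))
  have h3 := hcomm ⟨_, h1⟩ ⟨_, h2⟩
  have h4 := congrArg Subtype.val h3
  simp only [Subgroup.coe_mul] at h4
  have h5 := mul_left_cancel (mul_right_cancel (by
    simpa [mul_assoc] using h4 : k * (_ * _) * k⁻¹ = k * (_ * _) * k⁻¹))
  have h6 := congrArg Subtype.val h5
  simp only [Subgroup.coe_mul] at h6
  rw [← map_mul, ← map_mul] at h6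
  exact wr_not_comm p (hinj h6)

theorem exists_embed_odd {p : ℕ} [hp : Fact p.Prime] (hp2 : p ≠ 2) (hn : p ^ 2 ≤ n) :
    ∃ Θ : Perm (ZMod p × ZMod p) →* Perm (Fin n), Function.Injective Θ ∧
      ∀ π ∈ wr p, Perm.sign (Θ π) = 1 := by
  haveI : NeZero p := ⟨hp.out.ne_zero⟩
  have hcard : Fintype.card (ZMod p × ZMod p) ≤ Fintype.card (Fin n) := by
    rw [Fintype.card_prod, ZMod.card, Fintype.card_fin, ← pow_two]; exact hn
  obtain ⟨ι⟩ := Function.Embedding.nonempty_of_card_le hcard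
  refine ⟨Perm.viaEmbeddingHom ι, Perm.viaEmbeddingHom_injective ι, fun π hπ => ?_⟩
  have h1 : (Perm.viaEmbeddingHom ι π) ^ (p ^ 2) = 1 := by
    rw [← map_pow, wr_pow p hπ, map_one]
  have h2 : (Perm.sign (Perm.viaEmbeddingHom ι π)) ^ (p ^ 2) = 1 := by
    rw [← map_pow, h1, map_one]
  rcases Int.units_eq_one_or (Perm.sign (Perm.viaEmbeddingHom ι π)) with h | h
  · exact h
  · exfalso
    rw [h] at h2
    have hodd : Odd (p ^ 2) := (hp.out.odd_of_ne_two hp2).pow
    rw [hodd.neg_one_pow] at h2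
    exact absurd h2 (by decide)

/-- the sign twist `Perm α →* Perm (Fin 2)`. -/
noncomputable def twist (α : Type*) [DecidableEq α] [Fintype α] : Perm α →* Perm (Fin 2) where
  toFun π := if Perm.sign π = 1 then 1 else Equiv.swap 0 1
  map_one' := by simp
  map_mul' := by
    intro a b
    rcases Int.units_eq_one_or (Perm.sign a) with ha | ha <;>
      rcases Int.units_eq_one_or (Perm.sign b) with hb | hb <;>
      simp [ha, hb]

theorem sign_twist (α : Type*) [DecidableEq α] [Fintype α] (π : Perm α) :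
    Perm.sign (twist α π) = Perm.sign π := by
  unfold twist
  rcases Int.units_eq_one_or (Perm.sign π) with ha | ha
  · simp [ha]
  · simp [ha, Perm.sign_swap]

theorem exists_embed_two (hn : 6 ≤ n) :
    ∃ Θ : Perm (ZMod 2 × ZMod 2) →* Perm (Fin n), Function.Injective Θ ∧
      ∀ π ∈ wr 2, Perm.sign (Θ π) = 1 := by
  have hcard : Fintype.card ((ZMod 2 × ZMod 2) ⊕ Fin 2) ≤ Fintype.card (Fin n) := by
    rw [Fintype.card_sum, Fintype.card_prod, ZMod.card, Fintype.card_fin, Fintype.card_fin]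
    omega
  obtain ⟨ι⟩ := Function.Embedding.nonempty_of_card_le hcard
  obtain ⟨θ, hθ⟩ : ∃ θ : Perm (ZMod 2 × ZMod 2) →* Perm ((ZMod 2 × ZMod 2) ⊕ Fin 2),
      ∀ π, θ π = Equiv.sumCongr π (twist (ZMod 2 × ZMod 2) π) :=
    ⟨(Perm.sumCongrHom (ZMod 2 × ZMod 2) (Fin 2)).comp
      ((MonoidHom.id _).prod (twist (ZMod 2 × ZMod 2))), fun π => rfl⟩
  have hθinj : Function.Injective θ := by
    intro a b hab
    rw [hθ, hθ] at hab
    have h1 := congrArg (fun e : Perm ((ZMod 2 × ZMod 2) ⊕ Fin 2) => fun x => e (Sum.inl x)) hab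
    simp only [Equiv.sumCongr_apply, Sum.map_inl] at h1
    apply Equiv.ext
    intro x
    exact Sum.inl_injective (congrFun h1 x)
  refine ⟨(Perm.viaEmbeddingHom ι).comp θ, (Perm.viaEmbeddingHom_injective ι).comp hθinj,
    fun π _ => ?_⟩
  have h1 : Perm.sign (θ π) = 1 := by
    rw [hθ]
    have h2 := Perm.sign_sumCongr π (twist (ZMod 2 × ZMod 2) π)
    rw [sign_twist, Int.units_mul_self] at h2
    exact h2
  have h3 : ∀ e : Perm ((ZMod 2 × ZMod 2) ⊕ Fin 2),
      Perm.sign (Perm.viaEmbeddingHom ι e) = Perm.sign e := by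
    intro e
    rw [Perm.viaEmbeddingHom_apply]
    unfold Perm.viaEmbedding
    rw [Perm.sign_extendDomain]
  show Perm.sign (Perm.viaEmbeddingHom ι (θ π)) = 1
  rw [h3, h1]

/-- `S5164`. -/
theorem sylow_alt_comm_iff (n p : ℕ) (hn : 6 ≤ n) [hp : Fact p.Prime]
    (S : Sylow p (alternatingGroup (Fin n))) : IsMulCommutative S ↔ n < p ^ 2 := by
  constructor
  · intro hcomm
    by_contra hnp
    push Not at hnp
    by_cases hp2 : p = 2
    · subst hp2
      obtain ⟨Θ, hinj, heven⟩ := exists_embed_two hn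
      exact not_comm_of_embed S Θ hinj heven hcomm
    · obtain ⟨Θ, hinj, heven⟩ := exists_embed_odd hp2 hnp
      exact not_comm_of_embed S Θ hinj heven hcomm
  · intro hnp
    rw [isMulCommutative_iff]
    intro a b
    have hP : IsPGroup p ((S : Subgroup (alternatingGroup (Fin n))).map
        (alternatingGroup (Fin n)).subtype) := S.isPGroup'.map _
    have h1 := pgroup_perm_comm _ hP hnp (a : alternatingGroup (Fin n))
      ⟨a, a.2, rfl⟩ (b : alternatingGroup (Fin n)) ⟨b, b.2, rfl⟩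
    apply Subtype.ext
    apply Subtype.ext
    exact h1

end Embed

end Cfsg.Agent.Lib_helper9_AltSylow
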