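import Mathlib
import Cfsg.Prelude.Def_FusionSystem
import Cfsg.Agent.Lib_helper9_FusionGen
import Cfsg.Agent.Lib_helper9_FusionAbel
import Cfsg.Agent.Lib_helper9_FusionSat

set_option autoImplicit false

namespace Cfsg.Agent.Lib_helper9_AutTwo

open Cfsg Cfsg.FusionSystem Cfsg.Agent.Lib_helper9_FusionGen Cfsg.Agent.Lib_helper9_FusionSat
  Cfsg.Agent.Lib_helper9_FusionAbel

theorem pow_totient_two (m e : ℕ) (hm : Nat.Coprime m (2 ^ e)) : m ^ (2 ^ e) ≡ 1 [MOD 2 ^ e] := by
  have h1 : m ^ Nat.totient (2 ^ e) ≡ 1 [MOD 2 ^ e] := Nat.ModEq.pow_totient hm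
  have hdvd : Nat.totient (2 ^ e) ∣ 2 ^ e := by
    rcases Nat.eq_zero_or_pos e with h | h
    · subst h; simp
    · rw [Nat.totient_prime_pow Nat.prime_two h]
      simp only [Nat.add_one_sub_one, mul_one]
      exact pow_dvd_pow 2 (Nat.sub_le e 1)
  obtain ⟨c, hc⟩ := hdvd
  have h3 : m ^ (2 ^ e) = (m ^ Nat.totient (2 ^ e)) ^ c := by rw [← pow_mul, ← hc]
  rw [h3]
  have := h1.pow c
  rwa [one_pow] at this

theorem aut_two_group {S : Type*} [Group S] (r s : S) (e : ℕ) (hr : orderOf r = 2 ^ e)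
    (hout : ∀ x : S, x ∉ Subgroup.zpowers r → orderOf x < 2 ^ e)
    (hidx : ∀ x y : S, x ∉ Subgroup.zpowers r → y ∉ Subgroup.zpowers r →
      x⁻¹ * y ∈ Subgroup.zpowers r)
    (hgen : Subgroup.closure {r, s} = ⊤) : IsPGroup 2 (MulAut S) := by
  intro α
  have hfin : IsOfFinOrder r := by
    rw [← orderOf_pos_iff, hr]; positivity
  have hαr : α r ∈ Subgroup.zpowers r := by
    by_contra hcon
    have := hout _ hcon
    rw [MulEquiv.orderOf_eq, hr] at this
    exact lt_irrefl _ this
  obtain ⟨m, hm⟩ : ∃ m : ℕ, r ^ m = α r := by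
    have := hfin.mem_powers_iff_mem_zpowers.mpr hαr
    exact this
  have hcop : Nat.Coprime m (2 ^ e) := by
    have h1 : orderOf (r ^ m) = 2 ^ e := by rw [hm, MulEquiv.orderOf_eq, hr]
    rw [hfin.orderOf_pow, hr] at h1
    have h2 : Nat.gcd (2 ^ e) m = 1 := by
      have hpos : 0 < 2 ^ e := by positivity
      rcases Nat.div_eq_self.mp h1 with h | h
      · omega
      · exact h
    rw [Nat.Coprime, Nat.gcd_comm]; exact h2
  have hpow : ∀ j : ℕ, (α ^ j) r = r ^ (m ^ j) := by
    intro j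
    induction j with
    | zero => simp
    | succ j ih =>
      rw [pow_succ', MulAut.mul_apply, ih, map_pow, ← hm, ← pow_mul, pow_succ']
  obtain ⟨β, hβ⟩ : ∃ β, β = α ^ (2 ^ e) := ⟨_, rfl⟩
  have hβr : β r = r := by
    rw [hβ, hpow]
    have h1 : m ^ (2 ^ e) ≡ 1 [MOD orderOf r] := by rw [hr]; exact pow_totient_two m e hcop
    have := pow_eq_pow_iff_modEq.mpr h1
    rw [this, pow_one]
  have hβC : ∀ c ∈ Subgroup.zpowers r, β c = c := by
    intro c hc
    obtain ⟨i, rfl⟩ := Subgroup.mem_zpowers_iff.mp hc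
    rw [map_zpow, hβr]
  have hCpow : ∀ c ∈ Subgroup.zpowers r, c ^ (2 ^ e) = 1 := by
    intro c hc
    obtain ⟨i, rfl⟩ := Subgroup.mem_zpowers_iff.mp hc
    rw [← zpow_natCast, ← zpow_mul, mul_comm, zpow_mul, zpow_natCast, ← hr, pow_orderOf_eq_one,
      one_zpow]
  have hγs : (β ^ (2 ^ e)) s = s := by
    by_cases hs : s ∈ Subgroup.zpowers r
    · have : ∀ k : ℕ, (β ^ k) s = s := by
        intro k
        induction k with
        | zero => simp
        | succ k ih => rw [pow_succ', MulAut.mul_apply, ih, hβC s hs]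
      exact this _
    · have hβs : β s ∉ Subgroup.zpowers r := by
        intro h
        apply hs
        have h2 := hβC _ h
        have h3 : β s = s := β.injective h2
        rw [← h3]; exact h
      have hc := hidx s (β s) hs hβs
      have hx : β s = s * (s⁻¹ * β s) := by group
      rw [pow_apply_of_fixed β s (s⁻¹ * β s) hx (hβC _ hc), hCpow _ hc, mul_one]
  have hγr : (β ^ (2 ^ e)) r = r := by
    have : ∀ k : ℕ, (β ^ k) r = r := by
      intro k
      induction k with
      | zero => simp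
      | succ k ih => rw [pow_succ', MulAut.mul_apply, ih, hβr]
    exact this _
  refine ⟨e + e, ?_⟩
  have hγ : α ^ 2 ^ (e + e) = β ^ (2 ^ e) := by rw [hβ, ← pow_mul, ← pow_add]
  rw [hγ]
  have h1 : (β ^ (2 ^ e)).toMonoidHom = MonoidHom.id S := by
    apply MonoidHom.eq_of_eqOn_dense hgen
    intro x hx
    rcases hx with rfl | rfl
    · exact hγr
    · exact hγs
  ext x
  exact DFunLike.congr_fun h1 x

theorem dihedral_aut (k : ℕ) (hk : 2 ≤ k) : IsPGroup 2 (MulAut (DihedralGroup (2 ^ k))) := by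
  have hmem : ∀ i : ZMod (2 ^ k), DihedralGroup.r i ∈ Subgroup.zpowers (DihedralGroup.r (1 : ZMod (2 ^ k))) := by
    intro i
    rw [Subgroup.mem_zpowers_iff]
    refine ⟨(i.val : ℤ), ?_⟩
    rw [zpow_natCast, DihedralGroup.r_one_pow, ZMod.natCast_zmod_val]
  apply aut_two_group (DihedralGroup.r 1) (DihedralGroup.sr 0) k DihedralGroup.orderOf_r_one
  · intro x hx
    cases x with
    | r i => exact absurd (hmem i) hx
    | sr i =>
      rw [DihedralGroup.orderOf_sr]
      calc 2 = 2 ^ 1 := by norm_num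
        _ < 2 ^ k := Nat.pow_lt_pow_right (by norm_num) (by omega)
  · intro x y hx hy
    cases x with
    | r i => exact absurd (hmem i) hx
    | sr i =>
      cases y with
      | r j => exact absurd (hmem j) hy
      | sr j =>
        have : (DihedralGroup.sr i)⁻¹ * DihedralGroup.sr j = DihedralGroup.r (j - i) := by
          rw [DihedralGroup.inv_sr, DihedralGroup.sr_mul_sr]
        rw [this]; exact hmem _
  · rw [eq_top_iff]
    intro x _
    have hr1 : DihedralGroup.r (1 : ZMod (2 ^ k)) ∈ Subgroup.closure {DihedralGroup.r (1 : ZMod (2 ^ k)), DihedralGroup.sr 0} :=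
      Subgroup.subset_closure (by simp)
    have hs0 : DihedralGroup.sr (0 : ZMod (2 ^ k)) ∈ Subgroup.closure {DihedralGroup.r (1 : ZMod (2 ^ k)), DihedralGroup.sr 0} :=
      Subgroup.subset_closure (by simp)
    have hri : ∀ i : ZMod (2 ^ k), DihedralGroup.r i ∈ Subgroup.closure {DihedralGroup.r (1 : ZMod (2 ^ k)), DihedralGroup.sr 0} := by
      intro i
      exact (Subgroup.zpowers_le.mpr hr1) (hmem i)
    cases x with
    | r i => exact hri i
    | sr i =>
      have : DihedralGroup.sr i = DihedralGroup.sr 0 * DihedralGroup.r i := by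
        rw [DihedralGroup.sr_mul_r, zero_add]
      rw [this]
      exact Subgroup.mul_mem _ hs0 (hri i)

theorem quaternion_aut (k : ℕ) (hk : 2 ≤ k) : IsPGroup 2 (MulAut (QuaternionGroup (2 ^ k))) := by
  have hmem : ∀ i : ZMod (2 * 2 ^ k), QuaternionGroup.a i ∈ Subgroup.zpowers (QuaternionGroup.a (1 : ZMod (2 * 2 ^ k))) := by
    intro i
    rw [Subgroup.mem_zpowers_iff]
    refine ⟨(i.val : ℤ), ?_⟩
    rw [zpow_natCast, QuaternionGroup.a_one_pow, ZMod.natCast_zmod_val]
  have ho : orderOf (QuaternionGroup.a (1 : ZMod (2 * 2 ^ k))) = 2 ^ (k + 1) := by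
    rw [QuaternionGroup.orderOf_a_one, pow_succ']
  apply aut_two_group (QuaternionGroup.a 1) (QuaternionGroup.xa 0) (k + 1) ho
  · intro x hx
    cases x with
    | a i => exact absurd (hmem i) hx
    | xa i =>
      rw [QuaternionGroup.orderOf_xa]
      calc 4 = 2 ^ 2 := by norm_num
        _ < 2 ^ (k + 1) := Nat.pow_lt_pow_right (by norm_num) (by omega)
  · intro x y hx hy
    cases x with
    | a i => exact absurd (hmem i) hx
    | xa i =>
      cases y with
      | a j => exact absurd (hmem j) hy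
      | xa j =>
        have : ∃ l, (QuaternionGroup.xa i)⁻¹ * QuaternionGroup.xa j = QuaternionGroup.a l := by
          refine ⟨j - i, ?_⟩
          rw [inv_mul_eq_iff_eq_mul, QuaternionGroup.xa_mul_a]
          congr 1
          exact (add_sub_cancel i j).symm
        obtain ⟨l, hl⟩ := this
        rw [hl]; exact hmem _
  · rw [eq_top_iff]
    intro x _
    have hr1 : QuaternionGroup.a (1 : ZMod (2 * 2 ^ k)) ∈ Subgroup.closure {QuaternionGroup.a (1 : ZMod (2 * 2 ^ k)), QuaternionGroup.xa 0} :=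
      Subgroup.subset_closure (by simp)
    have hs0 : QuaternionGroup.xa (0 : ZMod (2 * 2 ^ k)) ∈ Subgroup.closure {QuaternionGroup.a (1 : ZMod (2 * 2 ^ k)), QuaternionGroup.xa 0} :=
      Subgroup.subset_closure (by simp)
    have hri : ∀ i : ZMod (2 * 2 ^ k), QuaternionGroup.a i ∈ Subgroup.closure {QuaternionGroup.a (1 : ZMod (2 * 2 ^ k)), QuaternionGroup.xa 0} := by
      intro i
      exact (Subgroup.zpowers_le.mpr hr1) (hmem i)
    cases x with
    | a i => exact hri i
    | xa i =>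
      have : QuaternionGroup.xa i = QuaternionGroup.xa 0 * QuaternionGroup.a i := by
        rw [QuaternionGroup.xa_mul_a, zero_add]
      rw [this]
      exact Subgroup.mul_mem _ hs0 (hri i)

theorem s5112 {Ω : Type*} [Group Ω] {S : Subgroup Ω} [Finite S] (n : ℕ) (hn : 4 ≤ n)
    (hshape : Nonempty (S ≃* DihedralGroup (2 ^ (n - 1))) ∨
      Nonempty (S ≃* QuaternionGroup (2 ^ (n - 2))))
    (F : Cfsg.FusionSystem S) (hF : F.IsSaturated 2) : F.autGroup S = Cfsg.Inn S := by
  haveI : Fact (Nat.Prime 2) := ⟨Nat.prime_two⟩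
  have hAut : IsPGroup 2 (MulAut S) := by
    rcases hshape with ⟨⟨f⟩⟩ | ⟨⟨f⟩⟩
    · exact (dihedral_aut (n - 1) (by omega)).of_equiv (MulAut.congr f).symm
    · exact (quaternion_aut (n - 2) (by omega)).of_equiv (MulAut.congr f).symm
  have hS : IsPGroup 2 S := by
    rcases hshape with ⟨⟨f⟩⟩ | ⟨⟨f⟩⟩
    · apply IsPGroup.of_card (n := n)
      rw [Nat.card_congr f.toEquiv, DihedralGroup.nat_card, ← pow_succ']
      congr 1; omega
    · apply IsPGroup.of_card (n := n)
      rw [Nat.card_congr f.toEquiv, Nat.card_eq_fintype_card, QuaternionGroup.card]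
      have : n = (n - 2) + 2 := by omega
      nth_rewrite 2 [this]
      rw [pow_add]; ring
  obtain ⟨-, R, hR⟩ := (fullyNormalized_imp 2 hS F hF (fullyNormalized_top F)).2
  have hA : IsPGroup 2 (F.autGroup S) := hAut.to_subgroup _
  have hRtop : (⊤ : Subgroup (F.autGroup S)) = (R : Subgroup (F.autGroup S)) :=
    R.is_maximal' (hA.to_subgroup ⊤) le_top
  rw [hR] at hRtop
  have hle : F.autGroup S ≤ autInducedBy S S := Subgroup.subgroupOf_eq_top.mp hRtop.symm
  apply le_antisymm
  · intro α hα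
    have h := hle hα
    rw [mem_autInducedBy_iff] at h
    obtain ⟨g, hg, hgx⟩ := h
    exact mem_inn_of_induces hg hgx
  · exact (inn_le_autInducedBy le_rfl).trans (autInducedBy_le_autGroup F le_rfl)

end Cfsg.Agent.Lib_helper9_AutTwo
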