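import Mathlib
import Cfsg.Prelude.Def_CaseTheorems
import Cfsg.Agent.Lib_helper9_AutTwo

set_option autoImplicit false

namespace Cfsg.Agent.Lib_helper9_AutTwo2

open Cfsg.Agent.Lib_helper9_AutTwo

theorem quasi_aut {X : Type*} [Group X] [Finite X] (h : Cfsg.IsQuasiDihedral X) :
    IsPGroup 2 (MulAut X) := by
  obtain ⟨n, hn, hcard, x, y, hx, hy, hrel⟩ := h
  have hy2 : y * y = 1 := by rw [← pow_two, ← hy, pow_orderOf_eq_one]
  have hyinv : y⁻¹ = y := inv_eq_of_mul_eq_one_left hy2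
  have hcardC : Nat.card (Subgroup.zpowers x) = 2 ^ n := by rw [Nat.card_zpowers, hx]
  have hidx : (Subgroup.zpowers x).index = 2 := by
    have h1 := Subgroup.card_mul_index (Subgroup.zpowers x)
    rw [hcardC, hcard, pow_succ] at h1
    exact Nat.eq_of_mul_eq_mul_left (by positivity) h1
  have hpow8 : 8 ≤ 2 ^ n := by
    calc 8 = 2 ^ 3 := by norm_num
      _ ≤ 2 ^ n := Nat.pow_le_pow_right (by norm_num) hn
  have hyC : y ∉ Subgroup.zpowers x := by
    intro hyC
    obtain ⟨i, hi⟩ := Subgroup.mem_zpowers_iff.mp hyC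
    have hcomm : y * x = x * y := by
      rw [← hi, ← zpow_add_one, ← zpow_one_add, add_comm]
    have h1 : x ^ (2 ^ (n - 1) - 1) = x := by
      rw [← hrel, hcomm, mul_inv_cancel_right]
    have h2 : x ^ (2 ^ (n - 1) - 1) = x ^ 1 := by rw [h1, pow_one]
    rw [pow_eq_pow_iff_modEq, hx] at h2
    have h3 : 2 ^ (n - 1) - 1 < 2 ^ n := by
      have : 2 ^ (n - 1) ≤ 2 ^ n := Nat.pow_le_pow_right (by norm_num) (by omega)
      omega
    have h4 : 4 ≤ 2 ^ (n - 1) := by
      calc 4 = 2 ^ 2 := by norm_num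
        _ ≤ 2 ^ (n - 1) := Nat.pow_le_pow_right (by norm_num) (by omega)
    rw [Nat.ModEq, Nat.mod_eq_of_lt h3, Nat.mod_eq_of_lt (by omega)] at h2
    omega
  have hmem2 : ∀ a b : X, a ∉ Subgroup.zpowers x → b ∉ Subgroup.zpowers x →
      a⁻¹ * b ∈ Subgroup.zpowers x := by
    intro a b ha hb
    rw [Subgroup.mul_mem_iff_of_index_two hidx]
    constructor
    · intro h; exact absurd ((Subgroup.inv_mem_iff _).mp h) ha
    · intro h; exact absurd h hb
  apply aut_two_group x y n hx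
  · intro s hs
    have hc := hmem2 y s hyC hs
    obtain ⟨i, hi⟩ := Subgroup.mem_zpowers_iff.mp hc
    have hs' : s = y * x ^ i := by rw [hi]; group
    have hconj : y * x ^ i * y⁻¹ = (x ^ (2 ^ (n - 1) - 1)) ^ i := by
      rw [← hrel]
      exact map_zpow (MulAut.conj y) x i
    have hsq : s * s = x ^ ((2 ^ (n - 1) : ℤ) * i) := by
      have h1 : s * s = (y * x ^ i * y⁻¹) * x ^ i := by
        rw [hs', hyinv]; group
      rw [h1, hconj, ← zpow_natCast, ← zpow_mul, ← zpow_add]
      congr 1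
      have h4 : 1 ≤ 2 ^ (n - 1) := Nat.one_le_two_pow
      push_cast [h4]
      ring
    have h4 : s ^ 4 = 1 := by
      have : s ^ 4 = (s * s) * (s * s) := by rw [show (4:ℕ) = 2 + 2 from rfl, pow_add, pow_two]
      rw [this, hsq, ← zpow_add]
      have h5 : (2 ^ (n - 1) : ℤ) * i + (2 ^ (n - 1) : ℤ) * i = ((2 ^ n : ℕ) : ℤ) * i := by
        have : n = (n - 1) + 1 := by omega
        nth_rewrite 3 [this]
        push_cast
        ring
      rw [h5, zpow_mul, zpow_natCast, ← hx, pow_orderOf_eq_one, one_zpow]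
    have h5 : orderOf s ≤ 4 := Nat.le_of_dvd (by norm_num) (orderOf_dvd_of_pow_eq_one h4)
    omega
  · exact hmem2
  · rw [eq_top_iff]
    intro s _
    have hxK : x ∈ Subgroup.closure {x, y} := Subgroup.subset_closure (by simp)
    have hyK : y ∈ Subgroup.closure {x, y} := Subgroup.subset_closure (by simp)
    have hCK : Subgroup.zpowers x ≤ Subgroup.closure {x, y} := Subgroup.zpowers_le.mpr hxK
    by_cases hs : s ∈ Subgroup.zpowers x
    · exact hCK hs
    · have hc := hCK (hmem2 y s hyC hs)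
      have : s = y * (y⁻¹ * s) := by group
      rw [this]
      exact Subgroup.mul_mem _ hyK hc

theorem s3116 {X : Type*} [Group X] [Finite X] (h2 : IsPGroup 2 X)
    (h : (∃ n : ℕ, 4 ≤ n ∧ Nonempty (X ≃* DihedralGroup n)) ∨ Cfsg.IsQuasiDihedral X) :
    IsPGroup 2 (MulAut X) := by
  haveI : Fact (Nat.Prime 2) := ⟨Nat.prime_two⟩
  rcases h with ⟨n, hn, ⟨f⟩⟩ | h
  · obtain ⟨k, hk⟩ := (IsPGroup.iff_card (p := 2)).mp h2
    rw [Nat.card_congr f.toEquiv, DihedralGroup.nat_card] at hk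
    have hk1 : 1 ≤ k := by
      rcases Nat.eq_zero_or_pos k with h0 | h0
      · rw [h0] at hk; omega
      · exact h0
    have hn' : n = 2 ^ (k - 1) := by
      have : k = (k - 1) + 1 := by omega
      rw [this, pow_succ'] at hk
      exact Nat.eq_of_mul_eq_mul_left (by norm_num) hk
    have hk3 : 2 ≤ k - 1 := by
      by_contra hcon
      push Not at hcon
      have : 2 ^ (k - 1) ≤ 2 ^ 1 := Nat.pow_le_pow_right (by norm_num) (by omega)
      omega
    subst hn'
    exact (dihedral_aut (k - 1) hk3).of_equiv (MulAut.congr f).symm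
  · exact quasi_aut h

end Cfsg.Agent.Lib_helper9_AutTwo2
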