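import Mathlib
import Cfsg.Prelude.Def_Characters
import Cfsg.Prelude.Def_OddOrderChar
import Cfsg.Agent.Lib_helper3_CharBasic
import Cfsg.Agent.Lib_helper3_CharMore
import Cfsg.Agent.Lib_helper3_TIFN2

set_option autoImplicit false

namespace Cfsg.Agent.Lib_helper9_Coh2

open Cfsg
open Cfsg.Agent.Lib_helper3_CharBasic Cfsg.Agent.Lib_helper3_CharInd
  Cfsg.Agent.Lib_helper3_CharMore Cfsg.Agent.Lib_helper3_Clifford
  Cfsg.Agent.Lib_helper3_TIFN Cfsg.Agent.Lib_helper3_GenChar Cfsg.Agent.Lib_helper3_TIFN2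
open scoped ComplexConjugate

universe u v

/-- A generalized character of norm two vanishing at `1` is a difference of two distinct
irreducible characters. -/
theorem norm_two_gen {G : Type u} [Group G] [Fintype G] {τ : G → ℂ}
    (hτ : IsGeneralizedCharacter G τ) (h2 : classInner τ τ = 2) (h1 : τ 1 = 0) :
    ∃ μ ν : G → ℂ, IsIrrCharacter G μ ∧ IsIrrCharacter G ν ∧ μ ≠ ν ∧ τ = μ - ν := by
  classical
  have hfin : Finite (IrrCharacter G) := irr_finite
  have := Fintype.ofFinite (IrrCharacter G)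
  obtain ⟨χ, ψ, hχ, hψ, rfl⟩ := hτ
  have hcf : IsClassFunction G (χ - ψ) :=
    isClassFunction_sub (isClassFunction_of_isCharacter hχ) (isClassFunction_of_isCharacter hψ)
  have hint : ∀ θ : IrrCharacter G, ∃ z : ℤ, classInner (χ - ψ) (θ : G → ℂ) = z := by
    intro θ
    obtain ⟨m, hm⟩ := classInner_nat hχ (isCharacter_of_irr θ.2)
    obtain ⟨k, hk⟩ := classInner_nat hψ (isCharacter_of_irr θ.2)
    exact ⟨(m : ℤ) - k, by rw [classInner_sub_left, hm, hk]; push_cast; ring⟩
  choose c hc using hint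
  have hsum : ∑ θ : IrrCharacter G, c θ ^ 2 = 2 := by
    have h3 := classInner_eq_sum_irr (χ - ψ) (χ - ψ) hcf
    rw [h2] at h3
    have h4 : ∀ θ : IrrCharacter G, classInner (χ - ψ) (θ : G → ℂ)
        * classInner (θ : G → ℂ) (χ - ψ) = ((c θ ^ 2 : ℤ) : ℂ) := by
      intro θ
      rw [← classInner_conj_symm (χ - ψ) (θ : G → ℂ), hc θ]
      simp [sq]
    rw [Finset.sum_congr rfl (fun θ _ => h4 θ)] at h3
    exact_mod_cast h3.symm
  have hex : ∃ a, c a ≠ 0 := by
    by_contra hne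
    push_neg at hne
    rw [Finset.sum_eq_zero (fun i _ => by rw [hne i]; simp)] at hsum
    omega
  obtain ⟨a, ha⟩ := hex
  have hA := Finset.add_sum_erase Finset.univ (fun i => c i ^ 2) (Finset.mem_univ a)
  rw [hsum] at hA
  have hnn : 0 ≤ ∑ x ∈ Finset.univ.erase a, c x ^ 2 :=
    Finset.sum_nonneg (fun i _ => sq_nonneg _)
  have hapos : 0 < c a ^ 2 := by positivity
  have hale : c a ^ 2 ≤ 2 := by linarith
  have hab1 : c a ≤ 1 := by nlinarith
  have hab2 : -1 ≤ c a := by nlinarith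
  have ha' : c a = 1 ∨ c a = -1 := by omega
  have ha1 : c a ^ 2 = 1 := by rcases ha' with h | h <;> rw [h] <;> norm_num
  have hB : ∑ x ∈ Finset.univ.erase a, c x ^ 2 = 1 := by linarith
  have hex2 : ∃ b ∈ Finset.univ.erase a, c b ≠ 0 := by
    by_contra hne
    push_neg at hne
    rw [Finset.sum_eq_zero (fun i hi => by rw [hne i hi]; simp)] at hB
    omega
  obtain ⟨b, hbmem, hb⟩ := hex2
  have hba : b ≠ a := (Finset.mem_erase.mp hbmem).1
  have hC := Finset.add_sum_erase (Finset.univ.erase a) (fun i => c i ^ 2) hbmem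
  rw [hB] at hC
  have hnn2 : 0 ≤ ∑ x ∈ (Finset.univ.erase a).erase b, c x ^ 2 :=
    Finset.sum_nonneg (fun i _ => sq_nonneg _)
  have hbpos : 0 < c b ^ 2 := by positivity
  have hb1 : c b ^ 2 = 1 := by linarith
  have hD : ∑ x ∈ (Finset.univ.erase a).erase b, c x ^ 2 = 0 := by linarith
  have hbb1 : c b ≤ 1 := by nlinarith
  have hbb2 : -1 ≤ c b := by nlinarith
  have hb' : c b = 1 ∨ c b = -1 := by omega
  have hrest : ∀ i, i ≠ a → i ≠ b → c i = 0 := by
    intro i hia hib
    have h5 := (Finset.sum_eq_zero_iff_of_nonneg (fun i _ => sq_nonneg (c i))).mp hD i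
      (Finset.mem_erase.mpr ⟨hib, Finset.mem_erase.mpr ⟨hia, Finset.mem_univ i⟩⟩)
    exact pow_eq_zero_iff (two_ne_zero) |>.mp h5
  have hexp : (χ - ψ) = (c a : ℂ) • (a : G → ℂ) + (c b : ℂ) • (b : G → ℂ) := by
    conv_lhs => rw [classFunction_eq_sum (χ - ψ) hcf]
    rw [← Finset.add_sum_erase Finset.univ _ (Finset.mem_univ a)]
    rw [← Finset.add_sum_erase (Finset.univ.erase a) _ hbmem]
    rw [Finset.sum_eq_zero, add_zero, hc a, hc b]
    intro θ hθ
    rw [Finset.mem_erase, Finset.mem_erase] at hθ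
    rw [hc θ, hrest θ hθ.2.1 hθ.1]
    simp
  obtain ⟨m, hm, ham⟩ := irr_apply_one_pos a.2
  obtain ⟨n, hn, hbn⟩ := irr_apply_one_pos b.2
  have hval : (c a : ℂ) * m + (c b : ℂ) * n = 0 := by
    have := congrFun hexp 1
    rw [h1] at this
    simp only [Pi.add_apply, Pi.smul_apply, smul_eq_mul, ham, hbn] at this
    exact this.symm
  have hab : (a : G → ℂ) ≠ (b : G → ℂ) := fun h => hba (Subtype.ext h).symm
  rcases ha' with h | h <;> rcases hb' with h' | h'
  · exfalso
    rw [h, h'] at hval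
    push_cast at hval
    have h3 : ((m + n : ℕ) : ℂ) = 0 := by push_cast; linear_combination hval
    have h4 : m + n = 0 := by exact_mod_cast h3
    omega
  · refine ⟨a, b, a.2, b.2, hab, ?_⟩
    rw [hexp, h, h']
    simp [sub_eq_add_neg]
  · refine ⟨b, a, b.2, a.2, Ne.symm hab, ?_⟩
    rw [hexp, h, h']
    simp [sub_eq_add_neg, add_comm]
  · exfalso
    rw [h, h'] at hval
    push_cast at hval
    have h3 : ((m + n : ℕ) : ℂ) = 0 := by push_cast; linear_combination -hval
    have h4 : m + n = 0 := by exact_mod_cast h3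
    omega

theorem irr_ne_neg {G : Type u} [Group G] [Fintype G] {μ ν : G → ℂ} (hμ : IsIrrCharacter G μ)
    (hν : IsIrrCharacter G ν) : μ ≠ -ν := by
  intro h
  obtain ⟨m, hm, hμ1⟩ := irr_apply_one_pos hμ
  obtain ⟨n, hn, hν1⟩ := irr_apply_one_pos hν
  have h1 := congrFun h 1
  rw [Pi.neg_apply, hμ1, hν1] at h1
  have h3 : ((m + n : ℕ) : ℂ) = 0 := by push_cast; linear_combination h1
  have h4 : m + n = 0 := by exact_mod_cast h3
  omega

theorem conjFun_conjFun {X : Type u} (f : X → ℂ) : conjFun (conjFun f) = f := by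
  funext x
  simp [conjFun]

theorem main {L : Type u} [Group L] [Fintype L] {G : Type v} [Group G] [Fintype G]
    (S : Set (L → ℂ)) (hS : S.Nonempty) (hirr : ∀ χ ∈ S, Cfsg.IsIrrCharacter L χ)
    (hconj : ∀ χ ∈ S, Cfsg.conjFun χ ∈ S ∧ Cfsg.conjFun χ ≠ χ) (τ : (L → ℂ) → (G → ℂ))
    (hτ : Cfsg.IsLinearIsometryOn (Cfsg.zspanOn S {1}ᶜ) τ)
    (hτ1 : ∀ α ∈ Cfsg.zspanOn S {1}ᶜ, τ α 1 = 0) :
    ∃ R : (L → ℂ) → Finset (G → ℂ), Cfsg.IsCoherenceSystem S τ R := by
  classical
  obtain ⟨hadd, hsmul, hinner, hgen⟩ := hτ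
  have hmem : ∀ χ ∈ S, χ - conjFun χ ∈ zspanOn S {1}ᶜ := by
    intro χ hχ
    refine ⟨?_, ?_⟩
    · exact Submodule.sub_mem _ (Submodule.subset_span hχ)
        (Submodule.subset_span (hconj χ hχ).1)
    · intro x hx
      have hx1 : x = 1 := by simpa using hx
      subst hx1
      obtain ⟨n, -, hn⟩ := irr_apply_one_pos (hirr χ hχ)
      simp [conjFun, hn]
  have hnorm : ∀ χ ∈ S, classInner (τ (χ - conjFun χ)) (τ (χ - conjFun χ)) = 2 := by
    intro χ hχ
    rw [hinner _ (hmem χ hχ) _ (hmem χ hχ)]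
    have hc := hconj χ hχ
    rw [classInner_sub_left, classInner_sub_right, classInner_sub_right,
      irr_inner_self (hirr χ hχ), irr_inner_self (hirr _ hc.1),
      irr_inner_ne (hirr χ hχ) (hirr _ hc.1) (Ne.symm hc.2),
      irr_inner_ne (hirr _ hc.1) (hirr χ hχ) hc.2]
    norm_num
  have hdec : ∀ χ ∈ S, ∃ μ ν : G → ℂ, IsIrrCharacter G μ ∧ IsIrrCharacter G ν ∧ μ ≠ ν ∧
      τ (χ - conjFun χ) = μ - ν :=
    fun χ hχ => norm_two_gen (hgen _ (hmem χ hχ)) (hnorm χ hχ) (hτ1 _ (hmem χ hχ))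
  choose! μ ν hμ hν hne heq using hdec
  have hpair : ∀ χ ∈ S, μ χ ≠ -ν χ := fun χ hχ => irr_ne_neg (hμ χ hχ) (hν χ hχ)
  refine ⟨fun χ => {μ χ, -ν χ}, ?_⟩
  refine
    { nonempty := hS
      isCharacter := fun χ hχ => isCharacter_of_irr (hirr χ hχ)
      conj_mem := fun χ hχ => (hconj χ hχ).1
      conj_ne := fun χ hχ => (hconj χ hχ).2
      isometry := ⟨hadd, hsmul, hinner, hgen⟩
      map_one := hτ1
      orthogonal := fun χ hχ φ hφ hne' => irr_inner_ne (hirr χ hχ) (hirr φ hφ) hne'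
      orthonormal := ?_
      virtual := ?_
      sum_eq := ?_
      disjoint := ?_ }
  · intro χ hχ α hα β hβ
    simp only [Finset.mem_insert, Finset.mem_singleton] at hα hβ
    rcases hα with rfl | rfl <;> rcases hβ with rfl | rfl
    · rw [if_pos rfl]; exact irr_inner_self (hμ χ hχ)
    · rw [if_neg (hpair χ hχ), classInner_neg_right, irr_inner_ne (hμ χ hχ) (hν χ hχ) (hne χ hχ),
        neg_zero]
    · rw [if_neg (Ne.symm (hpair χ hχ)), classInner_neg_left,
        irr_inner_ne (hν χ hχ) (hμ χ hχ) (Ne.symm (hne χ hχ)), neg_zero]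
    · rw [if_pos rfl, classInner_neg_left, classInner_neg_right, neg_neg]
      exact irr_inner_self (hν χ hχ)
  · intro χ hχ α hα
    simp only [Finset.mem_insert, Finset.mem_singleton] at hα
    rcases hα with rfl | rfl
    · exact isGen_of_char (isCharacter_of_irr (hμ χ hχ))
    · exact isGen_neg (isGen_of_char (isCharacter_of_irr (hν χ hχ)))
  · intro χ hχ
    rw [Finset.sum_pair (hpair χ hχ), heq χ hχ, sub_eq_add_neg]
  · intro χ hχ φ hφ h1 h2 α hα β hβ
    have hφχ : φ ≠ χ := by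
      rintro rfl
      rw [irr_inner_self (hirr φ hφ)] at h1
      exact one_ne_zero h1
    have hcχ := hconj χ hχ
    have hcφ := hconj φ hφ
    have hφχ' : φ ≠ conjFun χ := by
      intro h
      rw [h, irr_inner_self (hirr _ hcχ.1)] at h2
      exact one_ne_zero h2
    have h3 : conjFun φ ≠ χ := by
      intro h
      apply hφχ'
      rw [← h, conjFun_conjFun]
    have h4 : conjFun φ ≠ conjFun χ := by
      intro h
      apply hφχ
      rw [← conjFun_conjFun φ, h, conjFun_conjFun]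
    have E := hinner _ (hmem φ hφ) _ (hmem χ hχ)
    rw [heq φ hφ, heq χ hχ, classInner_sub_left, classInner_sub_right, classInner_sub_right,
      classInner_sub_left, classInner_sub_right, classInner_sub_right, h1, h2,
      irr_inner_ne (hirr _ hcφ.1) (hirr χ hχ) h3, irr_inner_ne (hirr _ hcφ.1) (hirr _ hcχ.1) h4,
      irr_orthonormal (hμ φ hφ) (hμ χ hχ), irr_orthonormal (hμ φ hφ) (hν χ hχ),
      irr_orthonormal (hν φ hφ) (hμ χ hχ), irr_orthonormal (hν φ hφ) (hν χ hχ)] at E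
    have p1 : μ φ ≠ μ χ := by
      intro p1
      have np2 : μ φ ≠ ν χ := fun p2 => hne χ hχ (p1.symm.trans p2)
      have np3 : ν φ ≠ μ χ := fun p3 => hne φ hφ (p1.trans p3.symm)
      rw [if_pos p1, if_neg np2, if_neg np3] at E
      by_cases p4 : ν φ = ν χ
      · rw [if_pos p4] at E; norm_num at E
      · rw [if_neg p4] at E; norm_num at E
    have p2 : μ φ ≠ ν χ := by
      intro p2
      have np4 : ν φ ≠ ν χ := fun p4 => hne φ hφ (p2.trans p4.symm)
      rw [if_neg p1, if_pos p2, if_neg np4] at E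
      by_cases p3 : ν φ = μ χ
      · rw [if_pos p3] at E; norm_num at E
      · rw [if_neg p3] at E; norm_num at E
    have p3 : ν φ ≠ μ χ := by
      intro p3
      have np4 : ν φ ≠ ν χ := fun p4 => hne χ hχ (p3.symm.trans p4)
      rw [if_neg p1, if_neg p2, if_pos p3, if_neg np4] at E
      norm_num at E
    have p4 : ν φ ≠ ν χ := by
      intro p4
      rw [if_neg p1, if_neg p2, if_neg p3, if_pos p4] at E
      norm_num at E
    simp only [Finset.mem_insert, Finset.mem_singleton] at hα hβ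
    rcases hα with rfl | rfl <;> rcases hβ with rfl | rfl
    · exact irr_inner_ne (hμ φ hφ) (hμ χ hχ) p1
    · rw [classInner_neg_right, irr_inner_ne (hμ φ hφ) (hν χ hχ) p2, neg_zero]
    · rw [classInner_neg_left, irr_inner_ne (hν φ hφ) (hμ χ hχ) p3, neg_zero]
    · rw [classInner_neg_left, classInner_neg_right, irr_inner_ne (hν φ hφ) (hν χ hχ) p4,
        neg_zero, neg_zero]

end Cfsg.Agent.Lib_helper9_Coh2
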