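import Mathlib
import Cfsg.Prelude.Def_Characters
import Cfsg.Prelude.Def_OddOrderChar
import Cfsg.Agent.Lib_helper3_CharBasic
import Cfsg.Agent.Lib_helper3_CharMore
import Cfsg.Agent.Lib_helper3_TIFN2

set_option autoImplicit false

namespace Cfsg.Agent.Lib_helper9_Coh3

open Cfsg
open Cfsg.Agent.Lib_helper3_CharBasic Cfsg.Agent.Lib_helper3_CharInd
  Cfsg.Agent.Lib_helper3_CharMore Cfsg.Agent.Lib_helper3_Clifford
  Cfsg.Agent.Lib_helper3_TIFN Cfsg.Agent.Lib_helper3_GenChar Cfsg.Agent.Lib_helper3_TIFN2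
open scoped ComplexConjugate

universe u v

theorem gen_inner_int {G : Type u} [Group G] [Fintype G] {X α : G → ℂ}
    (hX : IsGeneralizedCharacter G X) (hα : IsGeneralizedCharacter G α) :
    ∃ z : ℤ, classInner X α = z := by
  obtain ⟨A, B, hA, hB, rfl⟩ := hX
  obtain ⟨C, D, hC, hD, rfl⟩ := hα
  obtain ⟨n₁, h₁⟩ := classInner_nat hA hC
  obtain ⟨n₂, h₂⟩ := classInner_nat hA hD
  obtain ⟨n₃, h₃⟩ := classInner_nat hB hC
  obtain ⟨n₄, h₄⟩ := classInner_nat hB hD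
  refine ⟨(n₁ : ℤ) - n₂ - n₃ + n₄, ?_⟩
  rw [classInner_sub_left, classInner_sub_right, classInner_sub_right, h₁, h₂, h₃, h₄]
  push_cast
  ring

theorem main {L : Type u} [Group L] [Fintype L] {G : Type v} [Group G] [Fintype G]
    (S : Set (L → ℂ)) (τ : (L → ℂ) → (G → ℂ)) (R : (L → ℂ) → Finset (G → ℂ))
    (hS : Cfsg.IsCoherenceSystem S τ R) (χ : L → ℂ) (hχ : χ ∈ S) (ψ : L → ℂ)
    (h1 : Cfsg.classInner χ ψ = 0)
    (h2 : Cfsg.classInner (Cfsg.conjFun χ) ψ = 0) (τ₁ : (L → ℂ) → (G → ℂ))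
    (hτ₁ : Cfsg.IsLinearIsometryOn (Cfsg.zspan {χ - ψ, χ - Cfsg.conjFun χ}) τ₁)
    (hagree : ∀ n : ℤ, τ₁ (n • (χ - Cfsg.conjFun χ)) = τ (n • (χ - Cfsg.conjFun χ))) :
    (Cfsg.classInner χ χ).re ≤ ∑ α ∈ R χ, ‖Cfsg.classInner (τ₁ (χ - ψ)) α‖ ^ 2 ∧
      ((Cfsg.classInner ψ ψ).re ≤ (Cfsg.classInner (τ₁ (χ - ψ)) (τ₁ (χ - ψ))).re -
          ∑ α ∈ R χ, ‖Cfsg.classInner (τ₁ (χ - ψ)) α‖ ^ 2 →
        (∑ α ∈ R χ, ‖Cfsg.classInner (τ₁ (χ - ψ)) α‖ ^ 2 = (Cfsg.classInner χ χ).re ∧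
          ∀ α ∈ R χ, Cfsg.classInner (τ₁ (χ - ψ)) α = 0 ∨
            Cfsg.classInner (τ₁ (χ - ψ)) α = 1)) := by
  classical
  obtain ⟨hadd, hsmul, hinner, hgen⟩ := hτ₁
  have m1 : χ - ψ ∈ zspan {χ - ψ, χ - conjFun χ} := Submodule.subset_span (by simp)
  have m2 : χ - conjFun χ ∈ zspan {χ - ψ, χ - conjFun χ} := Submodule.subset_span (by simp)
  have hX : IsGeneralizedCharacter G (τ₁ (χ - ψ)) := hgen _ m1
  have hint : ∀ α ∈ R χ, ∃ z : ℤ, classInner (τ₁ (χ - ψ)) α = z :=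
    fun α hα => gen_inner_int hX (hS.virtual χ hχ α hα)
  choose! z hz using hint
  obtain ⟨n, hn⟩ := classInner_nat (hS.isCharacter χ hχ) (hS.isCharacter χ hχ)
  have hψχ : classInner ψ χ = 0 := by rw [← classInner_conj_symm χ ψ, h1, map_zero]
  have hψχ' : classInner ψ (conjFun χ) = 0 := by
    rw [← classInner_conj_symm (conjFun χ) ψ, h2, map_zero]
  have hχχ' : classInner χ (conjFun χ) = 0 :=
    hS.orthogonal χ hχ _ (hS.conj_mem χ hχ) (Ne.symm (hS.conj_ne χ hχ))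
  have hsumC : ∑ α ∈ R χ, classInner (τ₁ (χ - ψ)) α = n := by
    have e1 : classInner (τ₁ (χ - ψ)) (∑ α ∈ R χ, α) =
        ∑ α ∈ R χ, classInner (τ₁ (χ - ψ)) α :=
      classInner_sum_right (R χ) (τ₁ (χ - ψ)) (fun α => α)
    have e := hagree 1
    rw [one_smul] at e
    rw [← e1, ← hS.sum_eq χ hχ, ← e, hinner _ m1 _ m2, classInner_sub_left,
      classInner_sub_right, classInner_sub_right, hn, hχχ', hψχ, hψχ']
    ring
  have hsumZ : ∑ α ∈ R χ, z α = n := by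
    have h3 : ((∑ α ∈ R χ, z α : ℤ) : ℂ) = ((n : ℤ) : ℂ) := by
      push_cast
      rw [← hsumC]
      exact Finset.sum_congr rfl (fun α hα => (hz α hα).symm)
    exact_mod_cast h3
  have hnormsq : ∑ α ∈ R χ, ‖classInner (τ₁ (χ - ψ)) α‖ ^ 2 =
      ((∑ α ∈ R χ, z α ^ 2 : ℤ) : ℝ) := by
    push_cast
    apply Finset.sum_congr rfl
    intro α hα
    rw [hz α hα, Complex.norm_intCast, sq_abs]
  have hre : (classInner χ χ).re = n := by rw [hn]; simp
  have hterm : ∀ α ∈ R χ, 0 ≤ z α ^ 2 - z α := by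
    intro α _
    rcases le_or_gt (z α) 0 with h | h
    · nlinarith [sq_nonneg (z α)]
    · nlinarith [sq_nonneg (z α - 1)]
  have hle : ∑ α ∈ R χ, z α ≤ ∑ α ∈ R χ, z α ^ 2 :=
    Finset.sum_le_sum (fun α hα => by linarith [hterm α hα])
  have hle' : (n : ℤ) ≤ ∑ α ∈ R χ, z α ^ 2 := by rw [← hsumZ]; exact hle
  refine ⟨?_, ?_⟩
  · rw [hre, hnormsq]
    exact_mod_cast hle'
  · intro hyp
    have hXX : classInner (τ₁ (χ - ψ)) (τ₁ (χ - ψ)) = n + classInner ψ ψ := by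
      rw [hinner _ m1 _ m1, classInner_sub_left, classInner_sub_right, classInner_sub_right,
        hn, h1, hψχ]
      ring
    have hXXre : (classInner (τ₁ (χ - ψ)) (τ₁ (χ - ψ))).re = n + (classInner ψ ψ).re := by
      rw [hXX]; simp
    rw [hXXre, hnormsq] at hyp
    have hle2 : ∑ α ∈ R χ, z α ^ 2 ≤ (n : ℤ) := by
      have h3 : ((∑ α ∈ R χ, z α ^ 2 : ℤ) : ℝ) ≤ ((n : ℤ) : ℝ) := by
        push_cast
        push_cast at hyp
        linarith
      exact_mod_cast h3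
    have heq : ∑ α ∈ R χ, z α ^ 2 = (n : ℤ) := le_antisymm hle2 hle'
    have hzero : ∑ α ∈ R χ, (z α ^ 2 - z α) = 0 := by
      rw [Finset.sum_sub_distrib, hsumZ, heq, sub_self]
    have heach : ∀ α ∈ R χ, z α ^ 2 - z α = 0 :=
      (Finset.sum_eq_zero_iff_of_nonneg hterm).mp hzero
    constructor
    · rw [hnormsq, hre]
      exact_mod_cast heq
    · intro α hα
      have h := heach α hα
      have h' : z α * (z α - 1) = 0 := by linear_combination h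
      rcases mul_eq_zero.mp h' with h0 | h0
      · left; rw [hz α hα, h0]; simp
      · right
        have h1' : z α = 1 := by linarith
        rw [hz α hα, h1']; simp

end Cfsg.Agent.Lib_helper9_Coh3
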