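import Mathlib
import Cfsg.Prelude.Def_Characters
import Cfsg.Prelude.Def_OddOrderChar
import Cfsg.Agent.Lib_helper3_CharBasic
import Cfsg.Agent.Lib_helper3_CharMore
import Cfsg.Agent.Lib_helper3_TIFN2

set_option autoImplicit false

namespace Cfsg.Agent.Lib_helper9_CohSign

open Cfsg
open Cfsg.Agent.Lib_helper3_CharBasic Cfsg.Agent.Lib_helper3_CharMore
  Cfsg.Agent.Lib_helper3_TIFN2

universe u

theorem main {G : Type u} [Group G] [Fintype G] (N : Subgroup G) [Fintype N] (S : Set (N → ℂ))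
    (hirr : ∀ χ ∈ S, Cfsg.IsIrrCharacter N χ) (htwo : ∃ χ ∈ S, ∃ ψ ∈ S, χ ≠ ψ)
    (τ₁ : (N → ℂ) → (G → ℂ)) (hτ₁ : Cfsg.IsLinearIsometryOn (Cfsg.zspan S) τ₁)
    (h0 : ∀ α ∈ Cfsg.zspan S, α 1 = 0 → τ₁ α 1 = 0) :
    ∃ ε : ℂ, (ε = 1 ∨ ε = -1) ∧ (∀ χ ∈ S, Cfsg.IsIrrCharacter G (ε • τ₁ χ)) ∧
      (∀ χ ∈ S, ∀ ψ ∈ S, τ₁ χ = τ₁ ψ → χ = ψ) := by
  classical
  obtain ⟨hadd, hsmul, hinner, hgen⟩ := hτ₁
  have hpm : ∀ χ ∈ S, ∃ μ : G → ℂ, IsIrrCharacter G μ ∧ (τ₁ χ = μ ∨ τ₁ χ = -μ) := by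
    intro χ hχ
    apply norm_one_gen (hgen χ (mem_zspan hχ))
    rw [hinner χ (mem_zspan hχ) χ (mem_zspan hχ)]
    exact irr_inner_self (hirr χ hχ)
  have hrel : ∀ χ ∈ S, ∀ ψ ∈ S, ψ 1 * τ₁ χ 1 = χ 1 * τ₁ ψ 1 := by
    intro χ hχ ψ hψ
    obtain ⟨a, ha, hχ1⟩ := irr_apply_one_pos (hirr χ hχ)
    obtain ⟨b, hb, hψ1⟩ := irr_apply_one_pos (hirr ψ hψ)
    have m1 : ((b : ℤ) • χ) ∈ zspan S := smul_mem_zspan (mem_zspan hχ) b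
    have m2 : ((-(a : ℤ)) • ψ) ∈ zspan S := smul_mem_zspan (mem_zspan hψ) (-(a : ℤ))
    have m3 := add_mem_zspan m1 m2
    have hα1 : ((b : ℤ) • χ + (-(a : ℤ)) • ψ) 1 = 0 := by
      rw [Pi.add_apply, zsmul_fun_apply, zsmul_fun_apply, hχ1, hψ1]
      push_cast
      ring
    have h1 := h0 _ m3 hα1
    rw [hadd _ m1 _ m2, hsmul χ (mem_zspan hχ), hsmul ψ (mem_zspan hψ), Pi.add_apply,
      zsmul_fun_apply, zsmul_fun_apply] at h1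
    rw [hχ1, hψ1]
    push_cast at h1
    linear_combination h1
  have hno : ∀ χ ∈ S, ∀ ψ ∈ S, ∀ μ ν : G → ℂ, IsIrrCharacter G μ → IsIrrCharacter G ν →
      τ₁ χ = μ → τ₁ ψ = -ν → False := by
    intro χ hχ ψ hψ μ ν hμ hν e1 e2
    obtain ⟨a, ha, hχ1⟩ := irr_apply_one_pos (hirr χ hχ)
    obtain ⟨b, hb, hψ1⟩ := irr_apply_one_pos (hirr ψ hψ)
    obtain ⟨m, hm, hμ1⟩ := irr_apply_one_pos hμ
    obtain ⟨n, hn, hν1⟩ := irr_apply_one_pos hν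
    have h := hrel χ hχ ψ hψ
    rw [e1, e2, Pi.neg_apply, hχ1, hψ1, hμ1, hν1] at h
    have h' : ((b * m + a * n : ℕ) : ℂ) = 0 := by
      push_cast
      linear_combination h
    have h'' : b * m + a * n = 0 := by exact_mod_cast h'
    exact absurd (Nat.add_eq_zero_iff.mp h'').1 (Nat.mul_pos hb hm).ne'
  have hinj : ∀ χ ∈ S, ∀ ψ ∈ S, τ₁ χ = τ₁ ψ → χ = ψ := by
    intro χ hχ ψ hψ he
    by_contra hne
    have h1 := hinner χ (mem_zspan hχ) ψ (mem_zspan hψ)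
    rw [← he, hinner χ (mem_zspan hχ) χ (mem_zspan hχ), irr_inner_self (hirr χ hχ),
      irr_inner_ne (hirr χ hχ) (hirr ψ hψ) hne] at h1
    exact one_ne_zero h1
  obtain ⟨χ₀, hχ₀, -, -, -⟩ := htwo
  obtain ⟨μ₀, hμ₀, h | h⟩ := hpm χ₀ hχ₀
  · refine ⟨1, Or.inl rfl, ?_, hinj⟩
    intro χ hχ
    obtain ⟨μ, hμ, h' | h'⟩ := hpm χ hχ
    · rw [one_smul, h']; exact hμ
    · exact (hno χ₀ hχ₀ χ hχ μ₀ μ hμ₀ hμ h h').elim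
  · refine ⟨-1, Or.inr rfl, ?_, hinj⟩
    intro χ hχ
    obtain ⟨μ, hμ, h' | h'⟩ := hpm χ hχ
    · exact (hno χ hχ χ₀ hχ₀ μ μ₀ hμ hμ₀ h' h).elim
    · rw [h', neg_one_smul, neg_neg]; exact hμ

end Cfsg.Agent.Lib_helper9_CohSign
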