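import Mathlib
import Cfsg.Prelude.Def_Characters
import Cfsg.Prelude.Def_OddOrderChar
import Cfsg.Agent.Lib_helper3_CharBasic
import Cfsg.Agent.Lib_helper3_CharMore
import Cfsg.Agent.Lib_helper3_TIFN2
import Cfsg.Agent.Lib_helper9_CohSign

set_option autoImplicit false

namespace Cfsg.Agent.Lib_helper9_Coh4

open Cfsg
open Cfsg.Agent.Lib_helper3_CharBasic Cfsg.Agent.Lib_helper3_CharInd
  Cfsg.Agent.Lib_helper3_CharMore Cfsg.Agent.Lib_helper3_Clifford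
  Cfsg.Agent.Lib_helper3_TIFN Cfsg.Agent.Lib_helper3_GenChar Cfsg.Agent.Lib_helper3_TIFN2
open scoped ComplexConjugate

universe u

theorem inner_zsmul_left {H : Type u} [Group H] [Fintype H] (n : ℤ) (f g : H → ℂ) :
    classInner (n • f) g = (n : ℂ) * classInner f g := by
  rw [← Int.cast_smul_eq_zsmul ℂ n f, classInner_smul_left]

theorem inner_zsmul_right {H : Type u} [Group H] [Fintype H] (n : ℤ) (f g : H → ℂ) :
    classInner f (n • g) = (n : ℂ) * classInner f g := by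
  rw [← Int.cast_smul_eq_zsmul ℂ n g, classInner_smul_right, map_intCast]

theorem mem_on {A : Type u} [One A] (S : Set (A → ℂ)) (θ : A → ℂ) :
    θ ∈ zspanOn S {1}ᶜ ↔ θ ∈ Submodule.span ℤ S ∧ θ 1 = 0 := by
  constructor
  · rintro ⟨h1, h2⟩
    exact ⟨h1, h2 1 (by simp)⟩
  · rintro ⟨h1, h2⟩
    refine ⟨h1, fun x hx => ?_⟩
    have hx1 : x = 1 := by simpa using hx
    rw [hx1]; exact h2

theorem span_val_int {A : Type u} [One A] (X : Set (A → ℂ)) (hX : ∀ ξ ∈ X, ∃ n : ℕ, ξ 1 = n)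
    (x : A → ℂ) (hx : x ∈ Submodule.span ℤ X) : ∃ m : ℤ, x 1 = m := by
  induction hx using Submodule.span_induction with
  | mem ξ hξ =>
    obtain ⟨n, hn⟩ := hX ξ hξ
    exact ⟨n, by rw [hn]; simp⟩
  | zero => exact ⟨0, by simp⟩
  | add u v _ _ hu hv =>
    obtain ⟨m, hm⟩ := hu
    obtain ⟨m', hm'⟩ := hv
    exact ⟨m + m', by rw [Pi.add_apply, hm, hm']; push_cast; ring⟩
  | smul n u _ hu =>
    obtain ⟨m, hm⟩ := hu
    exact ⟨n * m, by rw [Pi.smul_apply, zsmul_eq_mul, hm]; push_cast; ring⟩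

theorem cross_zero {G : Type u} [Group G] [Fintype G] (N : Subgroup G) [Fintype N]
    (S X Y : Set (N → ℂ)) (hirr : ∀ ξ ∈ S, IsIrrCharacter N ξ) (hXS : X ⊆ S) (hYS : Y ⊆ S)
    (hXY : Disjoint X Y) (hX2 : ∃ a ∈ X, ∃ b ∈ X, a ≠ b) (hY2 : ∃ a ∈ Y, ∃ b ∈ Y, a ≠ b)
    (α : (N → ℂ) → (G → ℂ)) (hα : IsLinearIsometryOn (zspanOn S {1}ᶜ) α)
    (hα1 : ∀ θ ∈ zspanOn S {1}ᶜ, α θ 1 = 0) (σ τ : (N → ℂ) → (G → ℂ))
    (hσ : IsLinearIsometryOn (zspan X) σ) (hσα : ∀ θ ∈ zspanOn X {1}ᶜ, σ θ = α θ)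
    (hτ : IsLinearIsometryOn (zspan Y) τ) (hτα : ∀ θ ∈ zspanOn Y {1}ᶜ, τ θ = α θ) :
    ∀ χ ∈ X, ∀ η ∈ Y, classInner (σ χ) (τ η) = 0 := by
  classical
  have hXsub : ∀ θ, θ ∈ zspanOn X {1}ᶜ → θ ∈ zspanOn S {1}ᶜ :=
    fun θ h => ⟨Submodule.span_mono hXS h.1, h.2⟩
  have hYsub : ∀ θ, θ ∈ zspanOn Y {1}ᶜ → θ ∈ zspanOn S {1}ᶜ :=
    fun θ h => ⟨Submodule.span_mono hYS h.1, h.2⟩
  have hσ0 : ∀ θ ∈ zspan X, θ 1 = 0 → σ θ 1 = 0 := by
    intro θ hθ h1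
    have hm : θ ∈ zspanOn X {1}ᶜ := (mem_on X θ).mpr ⟨hθ, h1⟩
    rw [hσα θ hm]; exact hα1 θ (hXsub θ hm)
  have hτ0 : ∀ θ ∈ zspan Y, θ 1 = 0 → τ θ 1 = 0 := by
    intro θ hθ h1
    have hm : θ ∈ zspanOn Y {1}ᶜ := (mem_on Y θ).mpr ⟨hθ, h1⟩
    rw [hτα θ hm]; exact hα1 θ (hYsub θ hm)
  obtain ⟨ε, hε, hεirr, hσinj⟩ :=
    Lib_helper9_CohSign.main N X (fun ξ h => hirr ξ (hXS h)) hX2 σ hσ hσ0
  obtain ⟨ε', hε', hε'irr, hτinj⟩ :=
    Lib_helper9_CohSign.main N Y (fun ξ h => hirr ξ (hYS h)) hY2 τ hτ hτ0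
  have hε0 : ε ≠ 0 := by rcases hε with h | h <;> rw [h] <;> norm_num
  have hε'0 : ε' ≠ 0 := by rcases hε' with h | h <;> rw [h] <;> norm_num
  obtain ⟨hσadd, hσsmul, hσinner, hσgen⟩ := hσ
  obtain ⟨hτadd, hτsmul, hτinner, hτgen⟩ := hτ
  obtain ⟨hαadd, hαsmul, hαinner, hαgen⟩ := hα
  intro χ hχ η hη
  obtain ⟨χ', hχ', hne⟩ : ∃ χ' ∈ X, χ' ≠ χ := by
    obtain ⟨a, ha, b, hb, hab⟩ := hX2
    by_cases h : a = χ
    · exact ⟨b, hb, fun hb' => hab (h.trans hb'.symm)⟩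
    · exact ⟨a, ha, h⟩
  obtain ⟨η', hη', hne'⟩ : ∃ η' ∈ Y, η' ≠ η := by
    obtain ⟨a, ha, b, hb, hab⟩ := hY2
    by_cases h : a = η
    · exact ⟨b, hb, fun hb' => hab (h.trans hb'.symm)⟩
    · exact ⟨a, ha, h⟩
  obtain ⟨a, ha, hχ1⟩ := irr_apply_one_pos (hirr χ (hXS hχ))
  obtain ⟨b, hb, hχ'1⟩ := irr_apply_one_pos (hirr χ' (hXS hχ'))
  obtain ⟨c, hc, hη1⟩ := irr_apply_one_pos (hirr η (hYS hη))
  obtain ⟨d, hd, hη'1⟩ := irr_apply_one_pos (hirr η' (hYS hη'))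
  have mχ : χ ∈ zspan X := Submodule.subset_span hχ
  have mχ' : χ' ∈ zspan X := Submodule.subset_span hχ'
  have mη : η ∈ zspan Y := Submodule.subset_span hη
  have mη' : η' ∈ zspan Y := Submodule.subset_span hη'
  have m1 : ((b : ℤ) • χ) ∈ zspan X := smul_mem_zspan mχ b
  have m2 : ((-(a : ℤ)) • χ') ∈ zspan X := smul_mem_zspan mχ' (-(a : ℤ))
  have m3 : ((d : ℤ) • η) ∈ zspan Y := smul_mem_zspan mη d
  have m4 : ((-(c : ℤ)) • η') ∈ zspan Y := smul_mem_zspan mη' (-(c : ℤ))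
  have hθ1 : ((b : ℤ) • χ + (-(a : ℤ)) • χ') ∈ zspanOn X {1}ᶜ := by
    refine (mem_on X _).mpr ⟨add_mem_zspan m1 m2, ?_⟩
    rw [Pi.add_apply, zsmul_fun_apply, zsmul_fun_apply, hχ1, hχ'1]; push_cast; ring
  have hθ2 : ((d : ℤ) • η + (-(c : ℤ)) • η') ∈ zspanOn Y {1}ᶜ := by
    refine (mem_on Y _).mpr ⟨add_mem_zspan m3 m4, ?_⟩
    rw [Pi.add_apply, zsmul_fun_apply, zsmul_fun_apply, hη1, hη'1]; push_cast; ring
  have dis : ∀ ξ ∈ X, ∀ ζ ∈ Y, classInner ξ ζ = 0 := fun ξ hξ ζ hζ =>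
    irr_inner_ne (hirr ξ (hXS hξ)) (hirr ζ (hYS hζ))
      (fun h => Set.disjoint_left.mp hXY hξ (h ▸ hζ))
  have E := hαinner _ (hXsub _ hθ1) _ (hYsub _ hθ2)
  rw [← hσα _ hθ1, ← hτα _ hθ2, hσadd _ m1 _ m2, hτadd _ m3 _ m4, hσsmul χ mχ, hσsmul χ' mχ',
    hτsmul η mη, hτsmul η' mη'] at E
  simp only [classInner_add_left, classInner_add_right, inner_zsmul_left, inner_zsmul_right,
    dis χ hχ η hη, dis χ hχ η' hη', dis χ' hχ' η hη, dis χ' hχ' η' hη', mul_zero, add_zero]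
    at E
  have E' : (b : ℂ) * d * classInner (σ χ) (τ η) - b * c * classInner (σ χ) (τ η')
      - a * d * classInner (σ χ') (τ η) + a * c * classInner (σ χ') (τ η') = 0 := by
    push_cast at E
    linear_combination E
  have q : ∀ ξ ∈ X, ∀ ζ ∈ Y, classInner (ε • σ ξ) (ε' • τ ζ) =
      ε * conj ε' * classInner (σ ξ) (τ ζ) := by
    intro ξ _ ζ _
    rw [classInner_smul_left, classInner_smul_right]; ring
  have k0 : ε * conj ε' ≠ 0 := mul_ne_zero hε0 ((map_ne_zero _).mpr hε'0)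
  have o : ∀ ξ ∈ X, ∀ ζ ∈ Y, classInner (ε • σ ξ) (ε' • τ ζ) =
      if ε • σ ξ = ε' • τ ζ then 1 else 0 :=
    fun ξ hξ ζ hζ => irr_orthonormal (hεirr ξ hξ) (hε'irr ζ hζ)
  have dσ : ε • σ χ' ≠ ε • σ χ := by
    intro h
    have h' : σ χ' = σ χ := smul_right_injective (G → ℂ) hε0 h
    exact hne (hσinj χ' hχ' χ hχ h')
  have dτ : ε' • τ η' ≠ ε' • τ η := by
    intro h
    have h' : τ η' = τ η := smul_right_injective (G → ℂ) hε'0 h
    exact hne' (hτinj η' hη' η hη h')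
  by_contra hp
  have hq11 : classInner (ε • σ χ) (ε' • τ η) ≠ 0 := by
    rw [q χ hχ η hη]; exact mul_ne_zero k0 hp
  have e11 : ε • σ χ = ε' • τ η := by
    by_contra hh
    rw [o χ hχ η hη, if_neg hh] at hq11
    exact hq11 rfl
  have e12 : ε • σ χ ≠ ε' • τ η' := fun h => dτ (h.symm.trans e11)
  have e21 : ε • σ χ' ≠ ε' • τ η := fun h => dσ (h.trans e11.symm)
  have F : (b : ℂ) * d * classInner (ε • σ χ) (ε' • τ η)
      - b * c * classInner (ε • σ χ) (ε' • τ η')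
      - a * d * classInner (ε • σ χ') (ε' • τ η)
      + a * c * classInner (ε • σ χ') (ε' • τ η') = 0 := by
    rw [q χ hχ η hη, q χ hχ η' hη', q χ' hχ' η hη, q χ' hχ' η' hη']
    linear_combination (ε * conj ε') * E'
  rw [o χ hχ η hη, o χ hχ η' hη', o χ' hχ' η hη, o χ' hχ' η' hη', if_pos e11, if_neg e12,
    if_neg e21] at F
  by_cases e22 : ε • σ χ' = ε' • τ η'
  · rw [if_pos e22] at F
    have h3 : ((b * d + a * c : ℕ) : ℂ) = 0 := by push_cast; linear_combination F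
    have h' : b * d + a * c = 0 := by exact_mod_cast h3
    exact absurd (Nat.add_eq_zero_iff.mp h').1 (Nat.mul_pos hb hd).ne'
  · rw [if_neg e22] at F
    have h3 : ((b * d : ℕ) : ℂ) = 0 := by push_cast; linear_combination F
    have h' : b * d = 0 := by exact_mod_cast h3
    exact absurd h' (Nat.mul_pos hb hd).ne'

theorem coh_ext {G : Type u} [Group G] [Fintype G] (N : Subgroup G) [Fintype N]
    (S X Y : Set (N → ℂ)) (hirr : ∀ ξ ∈ S, IsIrrCharacter N ξ) (hXS : X ⊆ S) (hYS : Y ⊆ S)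
    (hXY : Disjoint X Y) (hX2 : ∃ a ∈ X, ∃ b ∈ X, a ≠ b)
    (α : (N → ℂ) → (G → ℂ)) (hα : IsLinearIsometryOn (zspanOn S {1}ᶜ) α)
    (σ τ : (N → ℂ) → (G → ℂ))
    (hσ : IsLinearIsometryOn (zspan X) σ) (hσα : ∀ θ ∈ zspanOn X {1}ᶜ, σ θ = α θ)
    (hτ : IsLinearIsometryOn (zspan Y) τ) (hτα : ∀ θ ∈ zspanOn Y {1}ᶜ, τ θ = α θ)
    (hcross : ∀ χ ∈ X, ∀ η ∈ Y, classInner (σ χ) (τ η) = 0)
    (hex : ∃ χ₀ ∈ X, ∃ η₀ ∈ Y, α (χ₀ 1 • η₀ - η₀ 1 • χ₀) = χ₀ 1 • τ η₀ - η₀ 1 • σ χ₀) :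
    IsCoherent (X ∪ Y) {1}ᶜ α := by
  classical
  obtain ⟨hσadd, hσsmul, hσinner, hσgen⟩ := hσ
  obtain ⟨hτadd, hτsmul, hτinner, hτgen⟩ := hτ
  obtain ⟨hαadd, hαsmul, hαinner, hαgen⟩ := hα
  have hXsub : ∀ θ, θ ∈ zspanOn X {1}ᶜ → θ ∈ zspanOn S {1}ᶜ :=
    fun θ h => ⟨Submodule.span_mono hXS h.1, h.2⟩
  have hYsub : ∀ θ, θ ∈ zspanOn Y {1}ᶜ → θ ∈ zspanOn S {1}ᶜ :=
    fun θ h => ⟨Submodule.span_mono hYS h.1, h.2⟩
  have dis : ∀ ξ ∈ X, ∀ ζ ∈ Y, classInner ξ ζ = 0 := fun ξ hξ ζ hζ =>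
    irr_inner_ne (hirr ξ (hXS hξ)) (hirr ζ (hYS hζ))
      (fun h => Set.disjoint_left.mp hXY hξ (h ▸ hζ))
  have hσ0 : σ 0 = 0 := by
    have h := hσsmul 0 (Submodule.zero_mem _) 0
    simpa using h
  have hτ0 : τ 0 = 0 := by
    have h := hτsmul 0 (Submodule.zero_mem _) 0
    simpa using h
  have orth : ∀ x ∈ Submodule.span ℤ X, ∀ y ∈ Submodule.span ℤ Y, classInner x y = 0 := by
    intro x hx y hy
    induction hx using Submodule.span_induction with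
    | mem ξ hξ =>
      induction hy using Submodule.span_induction with
      | mem ζ hζ => exact dis ξ hξ ζ hζ
      | zero => exact classInner_zero_right _
      | add u v _ _ hu hv => rw [classInner_add_right, hu, hv, add_zero]
      | smul n u _ hu => rw [inner_zsmul_right, hu, mul_zero]
    | zero => exact classInner_zero_left _
    | add u v _ _ hu hv => rw [classInner_add_left, hu, hv, add_zero]
    | smul n u _ hu => rw [inner_zsmul_left, hu, mul_zero]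
  have orth2 : ∀ x ∈ Submodule.span ℤ X, ∀ y ∈ Submodule.span ℤ Y,
      classInner (σ x) (τ y) = 0 := by
    intro x hx y hy
    induction hx using Submodule.span_induction with
    | mem ξ hξ =>
      induction hy using Submodule.span_induction with
      | mem ζ hζ => exact hcross ξ hξ ζ hζ
      | zero => rw [hτ0]; exact classInner_zero_right _
      | add u v hu' hv' hu hv =>
        rw [hτadd u hu' v hv', classInner_add_right, hu, hv, add_zero]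
      | smul n u hu' hu => rw [hτsmul u hu' n, inner_zsmul_right, hu, mul_zero]
    | zero => rw [hσ0]; exact classInner_zero_left _
    | add u v hu' hv' hu hv =>
      rw [hσadd u hu' v hv', classInner_add_left, hu, hv, add_zero]
    | smul n u hu' hu => rw [hσsmul u hu' n, inner_zsmul_left, hu, mul_zero]
  have huniq : ∀ x ∈ Submodule.span ℤ X, ∀ y ∈ Submodule.span ℤ Y,
      ∀ x' ∈ Submodule.span ℤ X, ∀ y' ∈ Submodule.span ℤ Y,
      x + y = x' + y' → x = x' ∧ y = y' := by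
    intro x hx y hy x' hx' y' hy' e
    have hv : x - x' = y' - y := sub_eq_sub_iff_add_eq_add.mpr (by rw [e, add_comm])
    have h0 : classInner (x - x') (y' - y) = 0 :=
      orth _ (Submodule.sub_mem _ hx hx') _ (Submodule.sub_mem _ hy' hy)
    rw [← hv] at h0
    have h1 := classInner_self_eq_zero h0
    have h2 : y' - y = 0 := by rw [← hv]; exact h1
    exact ⟨sub_eq_zero.mp h1, (sub_eq_zero.mp h2).symm⟩
  let τ₁ : (N → ℂ) → (G → ℂ) := fun θ =>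
    if h : ∃ p : (N → ℂ) × (N → ℂ), p.1 ∈ Submodule.span ℤ X ∧ p.2 ∈ Submodule.span ℤ Y ∧
        θ = p.1 + p.2 then
      σ (Classical.choose h).1 + τ (Classical.choose h).2
    else 0
  have hτ₁ : ∀ x ∈ Submodule.span ℤ X, ∀ y ∈ Submodule.span ℤ Y,
      τ₁ (x + y) = σ x + τ y := by
    intro x hx y hy
    have h : ∃ p : (N → ℂ) × (N → ℂ), p.1 ∈ Submodule.span ℤ X ∧
        p.2 ∈ Submodule.span ℤ Y ∧ x + y = p.1 + p.2 := ⟨(x, y), hx, hy, rfl⟩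
    have hdef : τ₁ (x + y) = σ (Classical.choose h).1 + τ (Classical.choose h).2 := dif_pos h
    have s := Classical.choose_spec h
    obtain ⟨e1, e2⟩ := huniq x hx y hy _ s.1 _ s.2.1 s.2.2
    rw [hdef, ← e1, ← e2]
  have hdec : ∀ θ ∈ Submodule.span ℤ (X ∪ Y), ∃ x ∈ Submodule.span ℤ X,
      ∃ y ∈ Submodule.span ℤ Y, θ = x + y := by
    intro θ hθ
    rw [Submodule.span_union, Submodule.mem_sup] at hθ
    obtain ⟨x, hx, y, hy, e⟩ := hθ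
    exact ⟨x, hx, y, hy, e.symm⟩
  have hiso : IsLinearIsometryOn (zspan (X ∪ Y)) τ₁ := by
    refine ⟨?_, ?_, ?_, ?_⟩
    · intro θ hθ θ' hθ'
      obtain ⟨x, hx, y, hy, rfl⟩ := hdec θ hθ
      obtain ⟨x', hx', y', hy', rfl⟩ := hdec θ' hθ'
      have e : x + y + (x' + y') = (x + x') + (y + y') := add_add_add_comm x y x' y'
      rw [e, hτ₁ _ (Submodule.add_mem _ hx hx') _ (Submodule.add_mem _ hy hy'), hτ₁ x hx y hy,
        hτ₁ x' hx' y' hy', hσadd x hx x' hx', hτadd y hy y' hy']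
      exact add_add_add_comm _ _ _ _
    · intro θ hθ n
      obtain ⟨x, hx, y, hy, rfl⟩ := hdec θ hθ
      rw [smul_add, hτ₁ _ (Submodule.smul_mem _ n hx) _ (Submodule.smul_mem _ n hy),
        hτ₁ x hx y hy, hσsmul x hx n, hτsmul y hy n, smul_add]
    · intro θ hθ θ' hθ'
      obtain ⟨x, hx, y, hy, rfl⟩ := hdec θ hθ
      obtain ⟨x', hx', y', hy', rfl⟩ := hdec θ' hθ'
      rw [hτ₁ x hx y hy, hτ₁ x' hx' y' hy']
      have c1 : classInner (τ y) (σ x') = 0 := by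
        rw [← classInner_conj_symm, orth2 x' hx' y hy, map_zero]
      have c2 : classInner y x' = 0 := by
        rw [← classInner_conj_symm, orth x' hx' y hy, map_zero]
      simp only [classInner_add_left, classInner_add_right]
      rw [hσinner x hx x' hx', hτinner y hy y' hy', orth2 x hx y' hy', orth x hx y' hy', c1, c2]
    · intro θ hθ
      obtain ⟨x, hx, y, hy, rfl⟩ := hdec θ hθ
      rw [hτ₁ x hx y hy]
      exact isGen_add (hσgen x hx) (hτgen y hy)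
  have hnz : ∃ θ ∈ zspanOn (X ∪ Y) {1}ᶜ, θ ≠ 0 := by
    obtain ⟨χ, hχ, χ', hχ', hne⟩ := hX2
    obtain ⟨a, ha, hχ1⟩ := irr_apply_one_pos (hirr χ (hXS hχ))
    obtain ⟨b, hb, hχ'1⟩ := irr_apply_one_pos (hirr χ' (hXS hχ'))
    refine ⟨(b : ℤ) • χ + (-(a : ℤ)) • χ', (mem_on _ _).mpr ⟨?_, ?_⟩, ?_⟩
    · exact Submodule.add_mem _
        (Submodule.smul_mem _ _ (Submodule.subset_span (Or.inl hχ)))
        (Submodule.smul_mem _ _ (Submodule.subset_span (Or.inl hχ')))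
    · rw [Pi.add_apply, zsmul_fun_apply, zsmul_fun_apply, hχ1, hχ'1]; push_cast; ring
    · intro h0
      have h1 : classInner ((b : ℤ) • χ + (-(a : ℤ)) • χ') χ = 0 := by
        rw [h0]; exact classInner_zero_left _
      rw [classInner_add_left, inner_zsmul_left, inner_zsmul_left,
        irr_inner_self (hirr χ (hXS hχ)),
        irr_inner_ne (hirr χ' (hXS hχ')) (hirr χ (hXS hχ)) (Ne.symm hne)] at h1
      have h2 : ((b : ℕ) : ℂ) = 0 := by push_cast at h1 ⊢; linear_combination h1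
      have h3 : b = 0 := by exact_mod_cast h2
      omega
  have hagree : ∀ θ ∈ zspanOn (X ∪ Y) {1}ᶜ, τ₁ θ = α θ := by
    intro θ hθ
    obtain ⟨hθspan, hθ1⟩ := (mem_on _ _).mp hθ
    obtain ⟨x, hx, y, hy, rfl⟩ := hdec θ hθspan
    obtain ⟨χ₀, hχ₀, η₀, hη₀, hyp⟩ := hex
    obtain ⟨c, hc, hχ₀1⟩ := irr_apply_one_pos (hirr χ₀ (hXS hχ₀))
    obtain ⟨e, he, hη₀1⟩ := irr_apply_one_pos (hirr η₀ (hYS hη₀))
    obtain ⟨m, hm⟩ := span_val_int X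
      (fun ξ hξ => (irr_apply_one_pos (hirr ξ (hXS hξ))).imp (fun n h => h.2)) x hx
    have hy1 : y 1 = -(m : ℂ) := by
      have h3 : x 1 + y 1 = 0 := hθ1
      rw [hm] at h3
      linear_combination h3
    have mχ₀ : χ₀ ∈ Submodule.span ℤ X := Submodule.subset_span hχ₀
    have mη₀ : η₀ ∈ Submodule.span ℤ Y := Submodule.subset_span hη₀
    obtain ⟨u, hu⟩ : ∃ u : N → ℂ, u = ((c : ℤ) * e) • x + (-((e : ℤ) * m)) • χ₀ := ⟨_, rfl⟩
    obtain ⟨v, hv⟩ : ∃ v : N → ℂ, v = ((c : ℤ) * e) • y + ((c : ℤ) * m) • η₀ := ⟨_, rfl⟩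
    obtain ⟨w, hw⟩ : ∃ w : N → ℂ, w = (c : ℤ) • η₀ + (-(e : ℤ)) • χ₀ := ⟨_, rfl⟩
    have hyp' : α w = (c : ℤ) • τ η₀ + (-(e : ℤ)) • σ χ₀ := by
      have e1 : w = χ₀ 1 • η₀ - η₀ 1 • χ₀ := by
        rw [hw]; funext g; simp [hχ₀1, hη₀1, sub_eq_add_neg]
      have e2 : (c : ℤ) • τ η₀ + (-(e : ℤ)) • σ χ₀ = χ₀ 1 • τ η₀ - η₀ 1 • σ χ₀ := by
        funext g; simp [hχ₀1, hη₀1, sub_eq_add_neg]
      rw [e1, e2]; exact hyp
    have hu1 : u ∈ zspanOn X {1}ᶜ := (mem_on _ _).mpr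
      ⟨by rw [hu]; exact Submodule.add_mem _ (Submodule.smul_mem _ _ hx)
            (Submodule.smul_mem _ _ mχ₀), by
        rw [hu, Pi.add_apply, zsmul_fun_apply, zsmul_fun_apply, hm, hχ₀1]; push_cast; ring⟩
    have hv1 : v ∈ zspanOn Y {1}ᶜ := (mem_on _ _).mpr
      ⟨by rw [hv]; exact Submodule.add_mem _ (Submodule.smul_mem _ _ hy)
            (Submodule.smul_mem _ _ mη₀), by
        rw [hv, Pi.add_apply, zsmul_fun_apply, zsmul_fun_apply, hy1, hη₀1]; push_cast; ring⟩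
    have hw1 : w ∈ zspanOn S {1}ᶜ := (mem_on _ _).mpr
      ⟨by rw [hw]; exact Submodule.add_mem _
            (Submodule.smul_mem _ _ (Submodule.subset_span (hYS hη₀)))
            (Submodule.smul_mem _ _ (Submodule.subset_span (hXS hχ₀))), by
        rw [hw, Pi.add_apply, zsmul_fun_apply, zsmul_fun_apply, hη₀1, hχ₀1]; push_cast; ring⟩
    have hθS : x + y ∈ zspanOn S {1}ᶜ := (mem_on _ _).mpr
      ⟨Submodule.span_mono (Set.union_subset hXS hYS) hθspan, hθ1⟩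
    have hid : ((c : ℤ) * e) • (x + y) = (u + v) + (-m) • w := by
      rw [hu, hv, hw]
      module
    have hA : α (((c : ℤ) * e) • (x + y)) = ((c : ℤ) * e) • α (x + y) := hαsmul _ hθS _
    have huS := hXsub u hu1
    have hvS := hYsub v hv1
    have hmw : ((-m) • w) ∈ zspanOn S {1}ᶜ := (mem_on _ _).mpr
      ⟨Submodule.smul_mem _ _ ((mem_on _ _).mp hw1).1, by
        rw [zsmul_fun_apply, ((mem_on _ _).mp hw1).2, mul_zero]⟩
    have huvS : u + v ∈ zspanOn S {1}ᶜ := (mem_on _ _).mpr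
      ⟨Submodule.add_mem _ ((mem_on _ _).mp huS).1 ((mem_on _ _).mp hvS).1, by
        rw [Pi.add_apply, ((mem_on _ _).mp huS).2, ((mem_on _ _).mp hvS).2, add_zero]⟩
    have hB : α ((u + v) + (-m) • w) = α u + α v + (-m) • α w := by
      rw [hαadd _ huvS _ hmw, hαadd _ huS _ hvS, hαsmul _ hw1]
    have hσu : α u = ((c : ℤ) * e) • σ x + (-((e : ℤ) * m)) • σ χ₀ := by
      rw [← hσα u hu1, hu, hσadd _ (Submodule.smul_mem _ _ hx) _ (Submodule.smul_mem _ _ mχ₀),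
        hσsmul x hx, hσsmul χ₀ mχ₀]
    have hτv : α v = ((c : ℤ) * e) • τ y + ((c : ℤ) * m) • τ η₀ := by
      rw [← hτα v hv1, hv, hτadd _ (Submodule.smul_mem _ _ hy) _ (Submodule.smul_mem _ _ mη₀),
        hτsmul y hy, hτsmul η₀ mη₀]
    have hfin : ((c : ℤ) * e) • α (x + y) = ((c : ℤ) * e) • (σ x + τ y) := by
      rw [← hA, hid, hB, hσu, hτv, hyp']
      module
    rw [hτ₁ x hx y hy]
    funext g
    have h3 := congrFun hfin g
    rw [zsmul_fun_apply, zsmul_fun_apply] at h3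
    have hce : (((c : ℤ) * e : ℤ) : ℂ) ≠ 0 := by
      have h4 : (c : ℤ) * e ≠ 0 :=
        mul_ne_zero (by exact_mod_cast hc.ne') (by exact_mod_cast he.ne')
      exact_mod_cast h4
    exact (mul_left_cancel₀ hce h3).symm
  exact ⟨hnz, τ₁, hiso, hagree⟩

theorem main {G : Type u} [Group G] [Fintype G] (N : Subgroup G) [Fintype N]
    (S X Y : Set (N → ℂ)) (hirr : ∀ ξ ∈ S, Cfsg.IsIrrCharacter N ξ) (hXS : X ⊆ S) (hYS : Y ⊆ S)
    (hXY : Disjoint X Y) (hX2 : ∃ a ∈ X, ∃ b ∈ X, a ≠ b) (hY2 : ∃ a ∈ Y, ∃ b ∈ Y, a ≠ b)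
    (α : (N → ℂ) → (G → ℂ)) (hα : Cfsg.IsLinearIsometryOn (Cfsg.zspanOn S {1}ᶜ) α)
    (hα1 : ∀ θ ∈ Cfsg.zspanOn S {1}ᶜ, α θ 1 = 0) (σ τ : (N → ℂ) → (G → ℂ))
    (hσ : Cfsg.IsLinearIsometryOn (Cfsg.zspan X) σ)
    (hσα : ∀ θ ∈ Cfsg.zspanOn X {1}ᶜ, σ θ = α θ)
    (hτ : Cfsg.IsLinearIsometryOn (Cfsg.zspan Y) τ)
    (hτα : ∀ θ ∈ Cfsg.zspanOn Y {1}ᶜ, τ θ = α θ) :
    (∀ χ ∈ X, ∀ η ∈ Y, Cfsg.classInner (σ χ) (τ η) = 0) ∧
      ((∃ χ₀ ∈ X, ∃ η₀ ∈ Y, α (χ₀ 1 • η₀ - η₀ 1 • χ₀) = χ₀ 1 • τ η₀ - η₀ 1 • σ χ₀) →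
        Cfsg.IsCoherent (X ∪ Y) {1}ᶜ α) := by
  have h1 := cross_zero N S X Y hirr hXS hYS hXY hX2 hY2 α hα hα1 σ τ hσ hσα hτ hτα
  exact ⟨h1, fun hex => coh_ext N S X Y hirr hXS hYS hXY hX2 α hα σ τ hσ hσα hτ hτα h1 hex⟩

end Cfsg.Agent.Lib_helper9_Coh4
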