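import Mathlib
import Cfsg.Prelude.Def_Characters
import Cfsg.Prelude.Def_OddOrderChar
import Cfsg.Agent.Lib_helper3_CharBasic
import Cfsg.Agent.Lib_helper3_CharMore
import Cfsg.Agent.Lib_helper3_TIFN2
import Cfsg.Agent.Lib_helper9_Coh3
import Cfsg.Agent.Lib_helper9_Coh4

set_option autoImplicit false
set_option maxHeartbeats 1000000

namespace Cfsg.Agent.Lib_helper9_Coh5

open Cfsg
open Cfsg.Agent.Lib_helper3_CharBasic Cfsg.Agent.Lib_helper3_CharInd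
  Cfsg.Agent.Lib_helper3_CharMore Cfsg.Agent.Lib_helper3_Clifford
  Cfsg.Agent.Lib_helper3_TIFN Cfsg.Agent.Lib_helper3_GenChar Cfsg.Agent.Lib_helper3_TIFN2
  Cfsg.Agent.Lib_helper9_Coh4
open scoped ComplexConjugate

universe u

theorem arith1 (D A x Cs Q : ℤ) (hD : 0 < D) (hA : 1 ≤ A)
    (fC : D ^ 2 * Cs = (x + A) ^ 2 * Q) (fL : 2 * D * (D * A) < D ^ 2 + Q)
    (fN : 0 ≤ 1 + A ^ 2 - (x ^ 2 + Cs)) :
    x + A = 0 ∨ (x + A = 1 ∧ 1 + A ^ 2 - (x ^ 2 + Cs) = 0) := by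
  by_cases ht : x + A = 0
  · left; exact ht
  right
  obtain ⟨t, rfl⟩ : ∃ t, x = t - A := ⟨x + A, by ring⟩
  simp only [sub_add_cancel] at *
  have hD2 : 0 < D ^ 2 := by positivity
  have ht2 : 0 < t ^ 2 := by
    rcases lt_or_gt_of_ne ht with h | h <;> nlinarith
  have h1 : t ^ 2 * Q ≤ D ^ 2 * (1 + A ^ 2 - (t - A) ^ 2) := by
    nlinarith [mul_nonneg hD2.le fN]
  have h2 : t ^ 2 * (D ^ 2 * (2 * A - 1)) < t ^ 2 * Q := by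
    apply mul_lt_mul_of_pos_left _ ht2
    nlinarith
  have key : 0 < D ^ 2 * (1 + 2 * A * t - 2 * A * t ^ 2) := by nlinarith
  have key2 : 0 < 1 + 2 * A * t - 2 * A * t ^ 2 := by
    by_contra h
    push_neg at h
    nlinarith [mul_nonneg hD2.le (neg_nonneg.mpr h)]
  have ht_le : t ≤ 1 := by
    by_contra h
    push_neg at h
    nlinarith [mul_nonneg (sub_nonneg.mpr hA)
      (mul_nonneg (show (0 : ℤ) ≤ t by linarith) (show (0 : ℤ) ≤ t - 1 by linarith)),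
      mul_nonneg (show (0 : ℤ) ≤ t - 2 by linarith) (show (0 : ℤ) ≤ t + 1 by linarith)]
  have ht_ge : 0 ≤ t := by
    by_contra h
    push_neg at h
    nlinarith [mul_nonneg (sub_nonneg.mpr hA)
      (mul_nonneg (show (0 : ℤ) ≤ -t by linarith) (show (0 : ℤ) ≤ 1 - t by linarith)),
      mul_nonneg (show (0 : ℤ) ≤ 2 - t by linarith) (show (0 : ℤ) ≤ -t - 1 by linarith)]
  have ht1 : t = 1 := by omega
  subst ht1
  refine ⟨rfl, ?_⟩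
  have h3 : D ^ 2 * (1 + A ^ 2 - ((1 - A) ^ 2 + Cs)) < D ^ 2 * 1 := by nlinarith
  have h4 : 1 + A ^ 2 - ((1 - A) ^ 2 + Cs) < 1 := lt_of_mul_lt_mul_left h3 hD2.le
  exact le_antisymm (Int.lt_add_one_iff.mp (by linarith)) fN

theorem main {G : Type u} [Group G] [Fintype G] (N : Subgroup G) [Fintype N]
    (S₀ : Finset (N → ℂ)) (χ : N → ℂ) (hirr : ∀ ξ ∈ S₀, Cfsg.IsIrrCharacter N ξ)
    (hχ : Cfsg.IsIrrCharacter N χ) (hχS : χ ∉ S₀) (d : (N → ℂ) → ℕ)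
    (hd : ∀ ξ ∈ insert χ S₀, ξ 1 = (d ξ : ℂ)) (τ : (N → ℂ) → (G → ℂ))
    (hτ : Cfsg.IsLinearIsometryOn (Cfsg.zspanOn (↑(insert χ S₀) : Set (N → ℂ)) {1}ᶜ) τ)
    (hτ1 : ∀ α ∈ Cfsg.zspanOn (↑(insert χ S₀) : Set (N → ℂ)) {1}ᶜ, τ α 1 = 0)
    (hcoh : Cfsg.IsCoherent (↑S₀ : Set (N → ℂ)) {1}ᶜ τ) (ψ : N → ℂ) (hψ : ψ ∈ S₀)
    (hdvd : d ψ ∣ d χ) (hlt : 2 * d ψ * d χ < ∑ ξ ∈ S₀, d ξ ^ 2) :
    Cfsg.IsCoherent (↑(insert χ S₀) : Set (N → ℂ)) {1}ᶜ τ := by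
  classical
  have hτ' := hτ
  obtain ⟨hτadd, hτsmul, hτinner, hτgen⟩ := hτ
  obtain ⟨-, T, hT, hTτ⟩ := hcoh
  have hT' := hT
  obtain ⟨hTadd, hTsmul, hTinner, hTgen⟩ := hT
  obtain ⟨a, ha⟩ := hdvd
  have hS₀S : (↑S₀ : Set (N → ℂ)) ⊆ ↑(insert χ S₀) := by
    intro ξ hξ
    exact Finset.mem_coe.mpr (Finset.mem_insert_of_mem (Finset.mem_coe.mp hξ))
  have hχmem : χ ∈ (↑(insert χ S₀) : Set (N → ℂ)) :=
    Finset.mem_coe.mpr (Finset.mem_insert_self χ S₀)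
  have hirrS : ∀ ξ ∈ (↑(insert χ S₀) : Set (N → ℂ)), IsIrrCharacter N ξ := by
    intro ξ hξ
    rcases Finset.mem_insert.mp (Finset.mem_coe.mp hξ) with rfl | h
    · exact hχ
    · exact hirr ξ h
  have hdχ : χ 1 = (d χ : ℂ) := hd χ (Finset.mem_insert_self χ S₀)
  have hdS : ∀ ξ ∈ S₀, ξ 1 = (d ξ : ℂ) := fun ξ hξ => hd ξ (Finset.mem_insert_of_mem hξ)
  have hdpos : ∀ ξ ∈ S₀, 0 < d ξ := by
    intro ξ hξ
    obtain ⟨n, hn, h1⟩ := irr_apply_one_pos (hirr ξ hξ)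
    rw [hdS ξ hξ] at h1
    have h2 : d ξ = n := by exact_mod_cast h1
    omega
  have hdψ := hdpos ψ hψ
  have hdχpos : 0 < d χ := by
    obtain ⟨n, hn, h1⟩ := irr_apply_one_pos hχ
    rw [hdχ] at h1
    have h2 : d χ = n := by exact_mod_cast h1
    omega
  have hapos : 0 < a := by
    rcases Nat.eq_zero_or_pos a with h | h
    · rw [h, mul_zero] at ha; omega
    · exact h
  have hχψ : ∀ ξ ∈ S₀, χ ≠ ξ := fun ξ hξ h => hχS (h ▸ hξ)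
  have mχ : χ ∈ Submodule.span ℤ (↑(insert χ S₀) : Set (N → ℂ)) := Submodule.subset_span hχmem
  have mS : ∀ ξ ∈ S₀, ξ ∈ Submodule.span ℤ (↑(insert χ S₀) : Set (N → ℂ)) :=
    fun ξ hξ => Submodule.subset_span (hS₀S (Finset.mem_coe.mpr hξ))
  have mS₀ : ∀ ξ ∈ S₀, ξ ∈ Submodule.span ℤ (↑S₀ : Set (N → ℂ)) :=
    fun ξ hξ => Submodule.subset_span (Finset.mem_coe.mpr hξ)
  obtain ⟨β, hβdef⟩ : ∃ β : N → ℂ, β = χ + (-(a : ℤ)) • ψ := ⟨_, rfl⟩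
  have hβ : β ∈ zspanOn (↑(insert χ S₀) : Set (N → ℂ)) {1}ᶜ := (mem_on _ _).mpr
    ⟨by rw [hβdef]; exact Submodule.add_mem _ mχ (Submodule.smul_mem _ _ (mS ψ hψ)), by
      rw [hβdef, Pi.add_apply, zsmul_fun_apply, hdχ, hdS ψ hψ, ha]; push_cast; ring⟩
  obtain ⟨Y, hYdef⟩ : ∃ Y : G → ℂ, Y = τ β := ⟨_, rfl⟩
  have hY1 : Y 1 = 0 := by rw [hYdef]; exact hτ1 β hβ
  have hYgen : IsGeneralizedCharacter G Y := by rw [hYdef]; exact hτgen β hβ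
  have hYY : classInner Y Y = 1 + (a : ℂ) ^ 2 := by
    rw [hYdef, hτinner β hβ β hβ, hβdef]
    simp only [classInner_add_left, classInner_add_right, inner_zsmul_left, inner_zsmul_right]
    rw [irr_inner_self hχ, irr_inner_self (hirr ψ hψ),
      irr_inner_ne hχ (hirr ψ hψ) (hχψ ψ hψ),
      irr_inner_ne (hirr ψ hψ) hχ (Ne.symm (hχψ ψ hψ))]
    push_cast; ring
  have hγ : ∀ ξ ∈ S₀, ((d ψ : ℤ) • ξ + (-(d ξ : ℤ)) • ψ) ∈
      zspanOn (↑S₀ : Set (N → ℂ)) {1}ᶜ := by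
    intro ξ hξ
    refine (mem_on _ _).mpr ⟨Submodule.add_mem _ (Submodule.smul_mem _ _ (mS₀ ξ hξ))
      (Submodule.smul_mem _ _ (mS₀ ψ hψ)), ?_⟩
    rw [Pi.add_apply, zsmul_fun_apply, zsmul_fun_apply, hdS ξ hξ, hdS ψ hψ]; push_cast; ring
  have hγS : ∀ θ, θ ∈ zspanOn (↑S₀ : Set (N → ℂ)) {1}ᶜ →
      θ ∈ zspanOn (↑(insert χ S₀) : Set (N → ℂ)) {1}ᶜ :=
    fun θ h => ⟨Submodule.span_mono hS₀S h.1, h.2⟩
  have hTγ : ∀ ξ ∈ S₀, τ ((d ψ : ℤ) • ξ + (-(d ξ : ℤ)) • ψ) =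
      (d ψ : ℤ) • T ξ + (-(d ξ : ℤ)) • T ψ := by
    intro ξ hξ
    rw [← hTτ _ (hγ ξ hξ), hTadd _ (Submodule.smul_mem _ _ (mS₀ ξ hξ)) _
      (Submodule.smul_mem _ _ (mS₀ ψ hψ)), hTsmul ξ (mS₀ ξ hξ), hTsmul ψ (mS₀ ψ hψ)]
  have hint : ∀ ξ ∈ S₀, ∃ z : ℤ, classInner Y (T ξ) = z :=
    fun ξ hξ => Lib_helper9_Coh3.gen_inner_int hYgen (hTgen ξ (mS₀ ξ hξ))
  choose! c hc using hint
  have hTT : ∀ ξ ∈ S₀, ∀ ζ ∈ S₀, classInner (T ξ) (T ζ) = if ξ = ζ then 1 else 0 := by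
    intro ξ hξ ζ hζ
    rw [hTinner ξ (mS₀ ξ hξ) ζ (mS₀ ζ hζ)]
    by_cases h : ξ = ζ
    · subst h; rw [if_pos rfl]; exact irr_inner_self (hirr ξ hξ)
    · rw [if_neg h]; exact irr_inner_ne (hirr ξ hξ) (hirr ζ hζ) h
  have hrel : ∀ ξ ∈ S₀, ξ ≠ ψ → (d ψ : ℤ) * c ξ = (d ξ : ℤ) * (c ψ + a) := by
    intro ξ hξ hne
    have E := hτinner β hβ _ (hγS _ (hγ ξ hξ))
    rw [← hYdef, hTγ ξ hξ, hβdef] at E
    simp only [classInner_add_left, classInner_add_right, inner_zsmul_left, inner_zsmul_right]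
      at E
    rw [hc ξ hξ, hc ψ hψ, irr_inner_ne hχ (hirr ξ hξ) (hχψ ξ hξ),
      irr_inner_ne hχ (hirr ψ hψ) (hχψ ψ hψ),
      irr_inner_ne (hirr ψ hψ) (hirr ξ hξ) (Ne.symm hne), irr_inner_self (hirr ψ hψ)] at E
    have E' : (((d ψ : ℤ) * c ξ : ℤ) : ℂ) = (((d ξ : ℤ) * (c ψ + a) : ℤ) : ℂ) := by
      push_cast at E ⊢
      linear_combination E
    exact_mod_cast E'
  obtain ⟨P, hPdef⟩ : ∃ P : G → ℂ, P = ∑ ζ ∈ S₀, (c ζ : ℂ) • T ζ := ⟨_, rfl⟩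
  have hPT : ∀ ξ ∈ S₀, classInner P (T ξ) = c ξ := by
    intro ξ hξ
    rw [hPdef, classInner_sum_left, Finset.sum_eq_single ξ]
    · rw [classInner_smul_left, hTT ξ hξ ξ hξ, if_pos rfl, mul_one]
    · intro ζ hζ hne
      rw [classInner_smul_left, hTT ζ hζ ξ hξ, if_neg hne, mul_zero]
    · intro h; exact absurd hξ h
  have hΔT : ∀ ξ ∈ S₀, classInner (Y - P) (T ξ) = 0 := by
    intro ξ hξ
    rw [classInner_sub_left, hc ξ hξ, hPT ξ hξ, sub_self]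
  have horthP : ∀ f : G → ℂ, (∀ ξ ∈ S₀, classInner f (T ξ) = 0) → classInner f P = 0 := by
    intro f hf
    rw [hPdef, classInner_sum_right]
    apply Finset.sum_eq_zero
    intro ζ hζ
    rw [classInner_smul_right, hf ζ hζ, mul_zero]
  have hΔP : classInner (Y - P) P = 0 := horthP _ hΔT
  have hPY : classInner P Y = ∑ ζ ∈ S₀, (c ζ : ℂ) ^ 2 := by
    rw [hPdef, classInner_sum_left]
    apply Finset.sum_congr rfl
    intro ζ hζ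
    rw [classInner_smul_left, ← classInner_conj_symm Y (T ζ), hc ζ hζ, map_intCast]
    ring
  have hΔΔ : classInner (Y - P) (Y - P) =
      ((1 + (a : ℤ) ^ 2 - ∑ ζ ∈ S₀, c ζ ^ 2 : ℤ) : ℂ) := by
    rw [classInner_sub_right, hΔP, sub_zero, classInner_sub_left, hYY, hPY]
    push_cast; ring
  have hNnn : (0 : ℤ) ≤ 1 + (a : ℤ) ^ 2 - ∑ ζ ∈ S₀, c ζ ^ 2 := by
    have h := classInner_self_eq (Y - P)
    rw [hΔΔ] at h
    have h3 : (0 : ℝ) ≤ ((1 + (a : ℤ) ^ 2 - ∑ ζ ∈ S₀, c ζ ^ 2 : ℤ) : ℝ) := by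
      have hre := congrArg Complex.re h
      rw [Complex.intCast_re] at hre
      rw [hre, show ((Nat.card G : ℂ)⁻¹ * ((∑ g : G, ‖(Y - P) g‖ ^ 2 : ℝ) : ℂ)) =
        (((Nat.card G : ℝ)⁻¹ * ∑ g : G, ‖(Y - P) g‖ ^ 2 : ℝ) : ℂ) by push_cast; ring,
        Complex.ofReal_re]
      positivity
    exact_mod_cast h3
  have hsplit_c : ∑ ζ ∈ S₀, c ζ ^ 2 = c ψ ^ 2 + ∑ ζ ∈ S₀.erase ψ, c ζ ^ 2 :=
    (Finset.add_sum_erase S₀ (fun ζ => c ζ ^ 2) hψ).symm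
  have hsplit_d : ∑ ζ ∈ S₀, (d ζ : ℤ) ^ 2 =
      (d ψ : ℤ) ^ 2 + ∑ ζ ∈ S₀.erase ψ, (d ζ : ℤ) ^ 2 :=
    (Finset.add_sum_erase S₀ (fun ζ => (d ζ : ℤ) ^ 2) hψ).symm
  have hC : (d ψ : ℤ) ^ 2 * ∑ ζ ∈ S₀.erase ψ, c ζ ^ 2 =
      (c ψ + a) ^ 2 * ∑ ζ ∈ S₀.erase ψ, (d ζ : ℤ) ^ 2 := by
    rw [Finset.mul_sum, Finset.mul_sum]
    apply Finset.sum_congr rfl
    intro ζ hζ
    have h := hrel ζ (Finset.mem_of_mem_erase hζ) (Finset.ne_of_mem_erase hζ)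
    have h2 : (d ψ : ℤ) ^ 2 * c ζ ^ 2 = ((d ψ : ℤ) * c ζ) ^ 2 := by ring
    rw [h2, h]; ring
  have hlt' : 2 * (d ψ : ℤ) * ((d ψ : ℤ) * a) <
      (d ψ : ℤ) ^ 2 + ∑ ζ ∈ S₀.erase ψ, (d ζ : ℤ) ^ 2 := by
    rw [← hsplit_d]
    have h2 : ((2 * d ψ * d χ : ℕ) : ℤ) < ((∑ ξ ∈ S₀, d ξ ^ 2 : ℕ) : ℤ) := by
      exact_mod_cast hlt
    rw [ha] at h2
    push_cast at h2
    exact h2
  have fD : (0 : ℤ) < (d ψ : ℤ) := by exact_mod_cast hdψ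
  have fA : (1 : ℤ) ≤ (a : ℤ) := by exact_mod_cast hapos
  have fN : 0 ≤ 1 + (a : ℤ) ^ 2 - (c ψ ^ 2 + ∑ ζ ∈ S₀.erase ψ, c ζ ^ 2) := by
    rw [← hsplit_c]; exact hNnn
  have hT1 : ∀ ξ ∈ S₀, (d ψ : ℂ) * T ξ 1 = (d ξ : ℂ) * T ψ 1 := by
    intro ξ hξ
    have h := hτ1 _ (hγS _ (hγ ξ hξ))
    rw [hTγ ξ hξ, Pi.add_apply, zsmul_fun_apply, zsmul_fun_apply] at h
    push_cast at h
    linear_combination h
  have hκ : T ψ 1 ≠ 0 := by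
    obtain ⟨μ, hμ, hor⟩ := norm_one_gen (hTgen ψ (mS₀ ψ hψ))
      (by rw [hTT ψ hψ ψ hψ, if_pos rfl])
    obtain ⟨n, hn, hμ1⟩ := irr_apply_one_pos hμ
    have hn0 : (n : ℂ) ≠ 0 := by exact_mod_cast hn.ne'
    rcases hor with h | h
    · rw [h, hμ1]; exact hn0
    · rw [h, Pi.neg_apply, hμ1]; exact neg_ne_zero.mpr hn0
  have ht0 : c ψ + a = 0 := by
    rcases arith1 (d ψ : ℤ) a (c ψ) _ _ fD fA hC hlt' fN with h | ⟨h1, h2⟩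
    · exact h
    · exfalso
      have hzero : classInner (Y - P) (Y - P) = 0 := by
        rw [hΔΔ, hsplit_c, h2]; simp
      have hYP : Y = P := sub_eq_zero.mp (classInner_self_eq_zero hzero)
      have hP1 : P 1 = 0 := by rw [← hYP]; exact hY1
      have hsum : (d ψ : ℂ) * P 1 =
          T ψ 1 * ((∑ ζ ∈ S₀, c ζ * (d ζ : ℤ) : ℤ) : ℂ) := by
        rw [hPdef, Finset.sum_apply, Finset.mul_sum]
        push_cast
        rw [Finset.mul_sum]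
        apply Finset.sum_congr rfl
        intro ζ hζ
        rw [Pi.smul_apply, smul_eq_mul]
        linear_combination (c ζ : ℂ) * hT1 ζ hζ
      rw [hP1, mul_zero] at hsum
      have hs0 : ∑ ζ ∈ S₀, c ζ * (d ζ : ℤ) = 0 := by
        rcases mul_eq_zero.mp hsum.symm with h | h
        · exact absurd h hκ
        · exact_mod_cast h
      have hs1 : ∑ ζ ∈ S₀, c ζ * (d ζ : ℤ) =
          c ψ * (d ψ : ℤ) + ∑ ζ ∈ S₀.erase ψ, c ζ * (d ζ : ℤ) :=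
        (Finset.add_sum_erase S₀ (fun ζ => c ζ * (d ζ : ℤ)) hψ).symm
      have hs2 : (d ψ : ℤ) * ∑ ζ ∈ S₀.erase ψ, c ζ * (d ζ : ℤ) =
          ∑ ζ ∈ S₀.erase ψ, (d ζ : ℤ) ^ 2 := by
        rw [Finset.mul_sum]
        apply Finset.sum_congr rfl
        intro ζ hζ
        have h := hrel ζ (Finset.mem_of_mem_erase hζ) (Finset.ne_of_mem_erase hζ)
        rw [h1, mul_one] at h
        rw [← mul_assoc, h]; ring
      have hcψ : c ψ = 1 - a := by linarith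
      have hQ : ∑ ζ ∈ S₀.erase ψ, (d ζ : ℤ) ^ 2 = ((a : ℤ) - 1) * (d ψ : ℤ) ^ 2 := by
        have h5 : (d ψ : ℤ) * (c ψ * (d ψ : ℤ) + ∑ ζ ∈ S₀.erase ψ, c ζ * (d ζ : ℤ)) = 0 := by
          rw [← hs1, hs0, mul_zero]
        rw [mul_add, hs2, hcψ] at h5
        linarith
      rw [hQ] at hlt'
      nlinarith [mul_nonneg (sq_nonneg (d ψ : ℤ)) (show (0 : ℤ) ≤ a by linarith)]
  have hcψ : c ψ = -(a : ℤ) := by linarith
  have hc0 : ∀ ξ ∈ S₀, ξ ≠ ψ → c ξ = 0 := by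
    intro ξ hξ hne
    have h := hrel ξ hξ hne
    rw [ht0, mul_zero] at h
    rcases mul_eq_zero.mp h with h' | h'
    · exact absurd h' fD.ne'
    · exact h'
  obtain ⟨Δ, hΔdef⟩ : ∃ Δ : G → ℂ, Δ = Y + ((a : ℤ) : ℂ) • T ψ := ⟨_, rfl⟩
  have hΔgen : IsGeneralizedCharacter G Δ := by
    rw [hΔdef]
    exact isGen_add hYgen (isGen_intCast_smul a (hTgen ψ (mS₀ ψ hψ)))
  have hΔT2 : ∀ ξ ∈ S₀, classInner Δ (T ξ) = 0 := by
    intro ξ hξ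
    rw [hΔdef, classInner_add_left, classInner_smul_left, hc ξ hξ, hTT ψ hψ ξ hξ]
    by_cases h : ψ = ξ
    · subst h; rw [if_pos rfl, hcψ]; push_cast; ring
    · rw [if_neg h, hc0 ξ hξ (Ne.symm h)]; push_cast; ring
  have hΔΔ2 : classInner Δ Δ = 1 := by
    have h1 : classInner Δ Δ = classInner Δ Y := by
      conv_lhs => rw [hΔdef]
      rw [← hΔdef]
      have h2 : classInner Δ (Y + ((a : ℤ) : ℂ) • T ψ) = classInner Δ Y := by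
        rw [classInner_add_right, classInner_smul_right, hΔT2 ψ hψ, mul_zero, add_zero]
      rw [hΔdef] at h2 ⊢
      exact h2
    rw [h1, hΔdef, classInner_add_left, classInner_smul_left, hYY,
      ← classInner_conj_symm Y (T ψ), hc ψ hψ, map_intCast, hcψ]
    push_cast; ring
  have hτ0 : τ 0 = 0 := by
    have h := hτsmul 0 ((mem_on _ _).mpr ⟨Submodule.zero_mem _, rfl⟩) 0
    simpa using h
  obtain ⟨τ₂, hτ₂def⟩ : ∃ τ₂ : (N → ℂ) → (G → ℂ), τ₂ = fun θ => classInner θ χ • Δ := ⟨_, rfl⟩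
  have hτ₂ : ∀ θ, τ₂ θ = classInner θ χ • Δ := fun θ => by rw [hτ₂def]
  have hτ₂χ : τ₂ χ = Δ := by rw [hτ₂, irr_inner_self hχ, one_smul]
  have hτ₂iso : IsLinearIsometryOn (zspan ({χ} : Set (N → ℂ))) τ₂ := by
    refine ⟨?_, ?_, ?_, ?_⟩
    · intro θ _ θ' _
      rw [hτ₂, hτ₂, hτ₂, classInner_add_left, add_smul]
    · intro θ _ n
      rw [hτ₂, hτ₂, inner_zsmul_left, mul_smul, Int.cast_smul_eq_zsmul]
    · intro θ hθ θ' hθ'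
      obtain ⟨n, rfl⟩ := Submodule.mem_span_singleton.mp hθ
      obtain ⟨n', rfl⟩ := Submodule.mem_span_singleton.mp hθ'
      rw [hτ₂, hτ₂, classInner_smul_left, classInner_smul_right, hΔΔ2, inner_zsmul_left,
        inner_zsmul_left, inner_zsmul_left, inner_zsmul_right, irr_inner_self hχ]
      simp
    · intro θ hθ
      obtain ⟨n, rfl⟩ := Submodule.mem_span_singleton.mp hθ
      rw [hτ₂, inner_zsmul_left, irr_inner_self hχ, mul_one]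
      exact isGen_intCast_smul n hΔgen
  have hτ₂α : ∀ θ ∈ zspanOn ({χ} : Set (N → ℂ)) {1}ᶜ, τ₂ θ = τ θ := by
    intro θ hθ
    obtain ⟨hsp, h1⟩ := (mem_on _ _).mp hθ
    obtain ⟨n, rfl⟩ := Submodule.mem_span_singleton.mp hsp
    have hn : n = 0 := by
      rw [zsmul_fun_apply, hdχ] at h1
      rcases mul_eq_zero.mp h1 with h | h
      · exact_mod_cast h
      · exfalso
        have h2 : d χ = 0 := by exact_mod_cast h
        omega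
    subst hn
    rw [zero_smul, hτ₂, classInner_zero_left, zero_smul, hτ0]
  have hcross : ∀ ξ ∈ (↑S₀ : Set (N → ℂ)), ∀ η ∈ ({χ} : Set (N → ℂ)),
      classInner (T ξ) (τ₂ η) = 0 := by
    intro ξ hξ η hη
    rw [Set.mem_singleton_iff.mp hη, hτ₂χ, ← classInner_conj_symm,
      hΔT2 ξ (Finset.mem_coe.mp hξ), map_zero]
  have hex : ∃ χ₀ ∈ (↑S₀ : Set (N → ℂ)), ∃ η₀ ∈ ({χ} : Set (N → ℂ)),
      τ (χ₀ 1 • η₀ - η₀ 1 • χ₀) = χ₀ 1 • τ₂ η₀ - η₀ 1 • T χ₀ := by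
    refine ⟨ψ, Finset.mem_coe.mpr hψ, χ, rfl, ?_⟩
    rw [hτ₂χ]
    have e1 : ψ 1 • χ - χ 1 • ψ = (d ψ : ℤ) • β := by
      rw [hβdef]; funext g
      simp only [Pi.sub_apply, Pi.add_apply, zsmul_fun_apply]
      simp only [Pi.smul_apply, Pi.add_apply, smul_eq_mul, hdS ψ hψ, hdχ, ha]
      push_cast; ring
    have e2 : τ ((d ψ : ℤ) • β) = (d ψ : ℤ) • Y := by rw [hτsmul β hβ, hYdef]
    rw [e1, e2, hΔdef]
    funext g
    simp only [Pi.sub_apply, Pi.add_apply, zsmul_fun_apply]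
    simp only [Pi.smul_apply, Pi.add_apply, smul_eq_mul, hdS ψ hψ, hdχ, ha]
    push_cast; ring
  have hQpos : 0 < ∑ ζ ∈ S₀.erase ψ, (d ζ : ℤ) ^ 2 := by
    nlinarith [mul_pos fD fD, mul_nonneg (mul_nonneg fD.le fD.le) (sub_nonneg.mpr fA)]
  obtain ⟨ζ, hζ, -⟩ := Finset.exists_ne_zero_of_sum_ne_zero (ne_of_gt hQpos)
  have hX2 : ∃ p ∈ (↑S₀ : Set (N → ℂ)), ∃ q ∈ (↑S₀ : Set (N → ℂ)), p ≠ q :=
    ⟨ψ, Finset.mem_coe.mpr hψ, ζ, Finset.mem_coe.mpr (Finset.mem_of_mem_erase hζ),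
      (Finset.ne_of_mem_erase hζ).symm⟩
  have hfinal := coh_ext N (↑(insert χ S₀)) (↑S₀) {χ} hirrS hS₀S
    (Set.singleton_subset_iff.mpr hχmem)
    (Set.disjoint_singleton_right.mpr (fun h => hχS (Finset.mem_coe.mp h))) hX2 τ hτ' T τ₂
    hT' hTτ hτ₂iso hτ₂α hcross hex
  rw [Finset.coe_insert, ← Set.union_singleton]
  exact hfinal

end Cfsg.Agent.Lib_helper9_Coh5
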