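import Mathlib
import Cfsg.Prelude.Def_OddOrderChar

set_option autoImplicit false

namespace Cfsg.Agent.Lib_helper9_Dade2

/-- product decomposition of a join when one factor normalizes the other -/
theorem decomp {G : Type*} [Group G] (K M : Subgroup G)
    (hn : ∀ m ∈ M, ∀ k ∈ K, m * k * m⁻¹ ∈ K) :
    ∀ g ∈ K ⊔ M, ∃ k ∈ K, ∃ m ∈ M, g = k * m := by
  intro g hg
  rw [Subgroup.sup_eq_closure] at hg
  induction hg using Subgroup.closure_induction with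
  | mem z hz =>
    rcases hz with hz | hz
    · exact ⟨z, hz, 1, M.one_mem, by simp⟩
    · exact ⟨1, K.one_mem, z, hz, by simp⟩
  | one => exact ⟨1, K.one_mem, 1, M.one_mem, by simp⟩
  | mul z w _ _ hz hw =>
    obtain ⟨k, hk, m, hm, rfl⟩ := hz
    obtain ⟨k', hk', m', hm', rfl⟩ := hw
    refine ⟨k * (m * k' * m⁻¹), K.mul_mem hk (hn m hm k' hk'), m * m', M.mul_mem hm hm', ?_⟩
    group
  | inv z _ hz =>
    obtain ⟨k, hk, m, hm, rfl⟩ := hz
    refine ⟨m⁻¹ * k⁻¹ * m⁻¹⁻¹, hn m⁻¹ (M.inv_mem hm) _ (K.inv_mem hk), m⁻¹, M.inv_mem hm, ?_⟩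
    group

theorem pow_decomp {G : Type*} [Group G] (K M : Subgroup G)
    (hn : ∀ m ∈ M, ∀ k ∈ K, m * k * m⁻¹ ∈ K) (k m : G) (hk : k ∈ K) (hm : m ∈ M) :
    ∀ j : ℕ, ∃ k' ∈ K, (k * m) ^ j = k' * m ^ j := by
  intro j
  induction j with
  | zero => exact ⟨1, K.one_mem, by simp⟩
  | succ j ih =>
    obtain ⟨k', hk', e⟩ := ih
    refine ⟨k' * (m ^ j * k * (m ^ j)⁻¹), K.mul_mem hk' (hn _ (M.pow_mem hm j) k hk), ?_⟩
    rw [pow_succ, e, pow_succ]; group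

theorem map_le {G : Type*} [Group G] [Finite G] (A : Set G) (L : Subgroup G)
    (H : G → Subgroup G) (hD : Cfsg.DadeHypothesis A L H) (a : G) (ha : a ∈ A) (x : G)
    (hx : x ∈ L) : ∀ u ∈ H a, x * u * x⁻¹ ∈ H (x * a * x⁻¹) := by
  intro u hu
  have hb : x * a * x⁻¹ ∈ A := hD.conj_mem x hx a ha
  have huc : u ∈ Subgroup.centralizer ({a} : Set G) := hD.le_centralizer a ha hu
  have hvc : x * u * x⁻¹ ∈ Subgroup.centralizer ({x * a * x⁻¹} : Set G) := by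
    rw [Subgroup.mem_centralizer_iff]
    intro z hz
    rw [Set.mem_singleton_iff] at hz
    subst hz
    have h := Subgroup.mem_centralizer_iff.mp huc a (Set.mem_singleton a)
    have e1 : x * a * x⁻¹ * (x * u * x⁻¹) = x * (a * u) * x⁻¹ := by group
    have e2 : x * u * x⁻¹ * (x * a * x⁻¹) = x * (u * a) * x⁻¹ := by group
    rw [e1, e2, h]
  have hn : ∀ m ∈ L ⊓ Subgroup.centralizer ({x * a * x⁻¹} : Set G),
      ∀ k ∈ H (x * a * x⁻¹), m * k * m⁻¹ ∈ H (x * a * x⁻¹) :=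
    fun m hm k hk => hD.conj_mem_H _ hb m hm.2 k hk
  rw [← hD.sup_eq _ hb] at hvc
  obtain ⟨k, hk, m, hm, e⟩ := decomp _ _ hn _ hvc
  obtain ⟨k', hk', e'⟩ := pow_decomp _ _ hn k m hk hm
    (Nat.card ↥(L ⊓ Subgroup.centralizer ({x * a * x⁻¹} : Set G)))
  have hm1 : m ^ (Nat.card ↥(L ⊓ Subgroup.centralizer ({x * a * x⁻¹} : Set G))) = 1 :=
    orderOf_dvd_iff_pow_eq_one.mp (Subgroup.orderOf_dvd_natCard _ hm)
  rw [hm1, mul_one, ← e] at e'
  have ho : orderOf (x * u * x⁻¹) = orderOf u := by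
    have := (MulAut.conj x).orderOf_eq u
    rw [MulAut.conj_apply] at this
    exact this
  have hcop : (Nat.card ↥(L ⊓ Subgroup.centralizer ({x * a * x⁻¹} : Set G))).Coprime
      (orderOf (x * u * x⁻¹)) := by
    rw [ho]
    have h1 := hD.coprime a ha _ hb
    exact (Nat.Coprime.coprime_dvd_left (Subgroup.orderOf_dvd_natCard _ hu) h1).symm
  obtain ⟨j, hj⟩ := exists_pow_eq_self_of_coprime hcop
  rw [← hj, e']
  exact (H (x * a * x⁻¹)).pow_mem hk' j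

theorem s1498 {G : Type*} [Group G] [Finite G] (A : Set G) (L : Subgroup G)
    (H : G → Subgroup G) (hD : Cfsg.DadeHypothesis A L H) (a : G) (ha : a ∈ A) (x : G)
    (hx : x ∈ L) : H (x * a * x⁻¹) = (H a).map (MulAut.conj x).toMonoidHom := by
  apply le_antisymm
  · intro w hw
    have hb : x * a * x⁻¹ ∈ A := hD.conj_mem x hx a ha
    have h := map_le A L H hD (x * a * x⁻¹) hb x⁻¹ (L.inv_mem hx) w hw
    have e : x⁻¹ * (x * a * x⁻¹) * x⁻¹⁻¹ = a := by group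
    rw [e] at h
    rw [Subgroup.mem_map]
    refine ⟨_, h, ?_⟩
    show x * (x⁻¹ * w * x⁻¹⁻¹) * x⁻¹ = w
    group
  · intro w hw
    rw [Subgroup.mem_map] at hw
    obtain ⟨u, hu, rfl⟩ := hw
    exact map_le A L H hD a ha x hx u hu

end Cfsg.Agent.Lib_helper9_Dade2
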