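import Mathlib
import Cfsg.Agent.Lib_helper9_Dade2

set_option autoImplicit false

namespace Cfsg.Agent.Lib_helper9_CycInd

variable {G : Type*} [Group G]

/-- complex-valued monoid hom of a linear character -/
noncomputable def toC (W : Subgroup G) (χ : W →* ℂˣ) : W →* ℂ := (Units.coeHom ℂ).comp χ

theorem toC_apply (W : Subgroup G) (χ : W →* ℂˣ) (w : W) : toC W χ w = (χ w : ℂ) := rfl

theorem toC_inj (W : Subgroup G) (χ χ' : W →* ℂˣ) (h : toC W χ = toC W χ') (w : W) :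
    χ w = χ' w := by
  have := DFunLike.congr_fun h w
  rw [toC_apply, toC_apply] at this
  exact Units.ext this

theorem decomp' (W₁ W₂ : Subgroup G) (hcomm : ∀ a ∈ W₁, ∀ b ∈ W₂, a * b = b * a)
    (w : ↥(W₁ ⊔ W₂)) :
    ∃ a b : ↥(W₁ ⊔ W₂), (a : G) ∈ W₁ ∧ (b : G) ∈ W₂ ∧ w = a * b := by
  obtain ⟨k, hk, m, hm, e⟩ := Lib_helper9_Dade2.decomp W₁ W₂ (by
    intro m hm k hk
    have := hcomm k hk m hm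
    have e : m * k * m⁻¹ = k := by rw [← this]; group
    rw [e]; exact hk) (w : G) w.2
  exact ⟨⟨k, Subgroup.mem_sup_left hk⟩, ⟨m, Subgroup.mem_sup_right hm⟩, hk, hm, Subtype.ext e⟩

theorem key (W₁ W₂ : Subgroup G) (hcomm : ∀ a ∈ W₁, ∀ b ∈ W₂, a * b = b * a)
    (φ ψ φ' ψ' : ↥(W₁ ⊔ W₂) →* ℂˣ)
    (hφ : ∀ w : ↥(W₁ ⊔ W₂), (w : G) ∈ W₂ → φ w = 1)
    (hψ : ∀ w : ↥(W₁ ⊔ W₂), (w : G) ∈ W₁ → ψ w = 1)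
    (hφ' : ∀ w : ↥(W₁ ⊔ W₂), (w : G) ∈ W₂ → φ' w = 1)
    (hψ' : ∀ w : ↥(W₁ ⊔ W₂), (w : G) ∈ W₁ → ψ' w = 1)
    (h : ∀ w, φ w * ψ w = φ' w * ψ' w) : φ = φ' ∧ ψ = ψ' := by
  constructor
  · apply MonoidHom.ext
    intro w
    obtain ⟨a, b, ha, hb, rfl⟩ := decomp' W₁ W₂ hcomm w
    have := h a
    rw [hψ a ha, hψ' a ha, mul_one, mul_one] at this
    rw [map_mul, map_mul, hφ b hb, hφ' b hb, this]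
  · apply MonoidHom.ext
    intro w
    obtain ⟨a, b, ha, hb, rfl⟩ := decomp' W₁ W₂ hcomm w
    have := h b
    rw [hφ b hb, hφ' b hb, one_mul, one_mul] at this
    rw [map_mul, map_mul, hψ a ha, hψ' a ha, this]

theorem main [Finite G] (W₁ W₂ : Subgroup G) (hcomm : ∀ a ∈ W₁, ∀ b ∈ W₂, a * b = b * a) :
    (∀ φ ψ : ↥(W₁ ⊔ W₂) →* ℂˣ, (∀ w : ↥(W₁ ⊔ W₂), (w : G) ∈ W₂ → φ w = 1) →
      (∀ w : ↥(W₁ ⊔ W₂), (w : G) ∈ W₁ → ψ w = 1) →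
      ∀ w : ↥(W₁ ⊔ W₂), ((w : G) ∈ W₁ ∨ (w : G) ∈ W₂) →
        (1 - (φ w : ℂ) - (ψ w : ℂ) + (φ w : ℂ) * (ψ w : ℂ)) = 0) ∧
    LinearIndependent ℂ (fun p : {p : (↥(W₁ ⊔ W₂) →* ℂˣ) × (↥(W₁ ⊔ W₂) →* ℂˣ) //
        p.1 ≠ 1 ∧ p.2 ≠ 1 ∧ (∀ w : ↥(W₁ ⊔ W₂), (w : G) ∈ W₂ → p.1 w = 1) ∧
        (∀ w : ↥(W₁ ⊔ W₂), (w : G) ∈ W₁ → p.2 w = 1)} =>
      fun w : ↥(W₁ ⊔ W₂) =>
        1 - (p.1.1 w : ℂ) - (p.1.2 w : ℂ) + (p.1.1 w : ℂ) * (p.1.2 w : ℂ)) := by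
  constructor
  · intro φ ψ hφ hψ w hw
    rcases hw with hw | hw
    · rw [hψ w hw]; simp
    · rw [hφ w hw]; simp
  · have hv : LinearIndependent ℂ (fun f : (↥(W₁ ⊔ W₂) →* ℂ) => (f : ↥(W₁ ⊔ W₂) → ℂ)) :=
      linearIndependent_monoidHom ↥(W₁ ⊔ W₂) ℂ
    let e : {p : (↥(W₁ ⊔ W₂) →* ℂˣ) × (↥(W₁ ⊔ W₂) →* ℂˣ) //
        p.1 ≠ 1 ∧ p.2 ≠ 1 ∧ (∀ w : ↥(W₁ ⊔ W₂), (w : G) ∈ W₂ → p.1 w = 1) ∧
        (∀ w : ↥(W₁ ⊔ W₂), (w : G) ∈ W₁ → p.2 w = 1)} → (↥(W₁ ⊔ W₂) →* ℂ) :=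
      fun p => toC _ (p.1.1 * p.1.2)
    have he : Function.Injective e := by
      intro p p' hpp
      have h := toC_inj _ _ _ hpp
      obtain ⟨h1, h2⟩ := key W₁ W₂ hcomm p.1.1 p.1.2 p'.1.1 p'.1.2 p.2.2.2.1 p.2.2.2.2
        p'.2.2.2.1 p'.2.2.2.2 (fun w => by simpa using h w)
      exact Subtype.ext (Prod.ext h1 h2)
    let t : Set (↥(W₁ ⊔ W₂) →* ℂ) := {f | ∃ χ : ↥(W₁ ⊔ W₂) →* ℂˣ, f = toC _ χ ∧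
      ((∀ w : ↥(W₁ ⊔ W₂), (w : G) ∈ W₂ → χ w = 1) ∨
       (∀ w : ↥(W₁ ⊔ W₂), (w : G) ∈ W₁ → χ w = 1))}
    have hdisj : Disjoint (Set.range e) t := by
      rw [Set.disjoint_left]
      rintro _ ⟨p, rfl⟩ ⟨χ, hχ, hor⟩
      have h := toC_inj _ _ _ hχ
      rcases hor with h2 | h1
      · have := (key W₁ W₂ hcomm p.1.1 p.1.2 χ 1 p.2.2.2.1 p.2.2.2.2 h2 (fun _ _ => rfl)
          (fun w => by simpa using h w)).2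
        exact p.2.2.1 this
      · have := (key W₁ W₂ hcomm p.1.1 p.1.2 1 χ p.2.2.2.1 p.2.2.2.2 (fun _ _ => rfl) h1
          (fun w => by simpa using h w)).1
        exact p.2.1 this
    have hsp := hv.disjoint_span_image hdisj
    have h1 : LinearIndependent ℂ
        ((Submodule.span ℂ ((fun f : (↥(W₁ ⊔ W₂) →* ℂ) => (f : ↥(W₁ ⊔ W₂) → ℂ)) '' t)).mkQ ∘
          ((fun f : (↥(W₁ ⊔ W₂) →* ℂ) => (f : ↥(W₁ ⊔ W₂) → ℂ)) ∘ e)) := by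
      apply (hv.comp e he).map
      rw [Submodule.ker_mkQ, Set.range_comp]
      exact hsp
    apply LinearIndependent.of_comp
      (Submodule.span ℂ ((fun f : (↥(W₁ ⊔ W₂) →* ℂ) => (f : ↥(W₁ ⊔ W₂) → ℂ)) '' t)).mkQ
    convert h1 using 1
    case e'_5 => rfl
    funext p
    simp only [Function.comp]
    rw [Submodule.mkQ_apply, Submodule.mkQ_apply, Submodule.Quotient.eq]
    have m1 : ((toC _ (1 : ↥(W₁ ⊔ W₂) →* ℂˣ) : ↥(W₁ ⊔ W₂) →* ℂ) : ↥(W₁ ⊔ W₂) → ℂ) ∈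
        Submodule.span ℂ ((fun f : (↥(W₁ ⊔ W₂) →* ℂ) => (f : ↥(W₁ ⊔ W₂) → ℂ)) '' t) :=
      Submodule.subset_span ⟨_, ⟨1, rfl, Or.inl (fun _ _ => rfl)⟩, rfl⟩
    have m2 : ((toC _ p.1.1 : ↥(W₁ ⊔ W₂) →* ℂ) : ↥(W₁ ⊔ W₂) → ℂ) ∈
        Submodule.span ℂ ((fun f : (↥(W₁ ⊔ W₂) →* ℂ) => (f : ↥(W₁ ⊔ W₂) → ℂ)) '' t) :=
      Submodule.subset_span ⟨_, ⟨p.1.1, rfl, Or.inl p.2.2.2.1⟩, rfl⟩
    have m3 : ((toC _ p.1.2 : ↥(W₁ ⊔ W₂) →* ℂ) : ↥(W₁ ⊔ W₂) → ℂ) ∈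
        Submodule.span ℂ ((fun f : (↥(W₁ ⊔ W₂) →* ℂ) => (f : ↥(W₁ ⊔ W₂) → ℂ)) '' t) :=
      Submodule.subset_span ⟨_, ⟨p.1.2, rfl, Or.inr p.2.2.2.2⟩, rfl⟩
    have e3 : (fun w : ↥(W₁ ⊔ W₂) =>
          1 - (p.1.1 w : ℂ) - (p.1.2 w : ℂ) + (p.1.1 w : ℂ) * (p.1.2 w : ℂ))
        - ((e p : ↥(W₁ ⊔ W₂) →* ℂ) : ↥(W₁ ⊔ W₂) → ℂ)
        = ((toC _ (1 : ↥(W₁ ⊔ W₂) →* ℂˣ) : ↥(W₁ ⊔ W₂) →* ℂ) : ↥(W₁ ⊔ W₂) → ℂ)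
          - ((toC _ p.1.1 : ↥(W₁ ⊔ W₂) →* ℂ) : ↥(W₁ ⊔ W₂) → ℂ)
          - ((toC _ p.1.2 : ↥(W₁ ⊔ W₂) →* ℂ) : ↥(W₁ ⊔ W₂) → ℂ) := by
      funext w
      simp only [Pi.sub_apply, e, toC_apply, MonoidHom.mul_apply, Units.val_mul,
        MonoidHom.one_apply, Units.val_one]
      ring
    rw [e3]
    exact Submodule.sub_mem _ (Submodule.sub_mem _ m1 m2) m3

end Cfsg.Agent.Lib_helper9_CycInd
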