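import Mathlib
import Cfsg.Prelude.Def_OddOrderChar
import Cfsg.Prelude.Def_OddOrderLocal

set_option autoImplicit false

namespace Cfsg.Agent.Lib_helper9_Dade

theorem s1497 {G : Type*} [Group G] (A : Set G) (hA : A.Nonempty) (h1 : (1 : G) ∉ A)
    (L : Subgroup G) :
    (Cfsg.IsTISubset A ∧ Subgroup.normalizer A = L) ↔ Cfsg.DadeHypothesis A L (fun _ => ⊥) := by
  constructor
  · rintro ⟨hTI, hN⟩
    have hne : ∀ a ∈ A, a ≠ 1 := fun a ha e => h1 (e ▸ ha)
    have hmem : ∀ g : G, ∀ a ∈ A, g * a * g⁻¹ ∈ A → g ∈ L := by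
      intro g a ha hga
      by_contra hg
      rw [← hN] at hg
      exact hne a ha (hTI g hg a ha hga)
    refine ⟨h1, ?_, ?_, ?_, ?_, ?_, ?_, ?_, ?_⟩
    · intro a ha
      apply hmem a a ha
      have : a * a * a⁻¹ = a := by group
      rw [this]; exact ha
    · intro x hx a ha
      rw [← hN] at hx
      exact (Subgroup.mem_set_normalizer_iff.mp hx a).mp ha
    · intro a ha g hga
      exact ⟨g, hmem g a ha hga, rfl⟩
    · intro a _
      exact bot_le
    · intro a _ c _ u hu
      rw [Subgroup.mem_bot] at hu ⊢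
      rw [hu]; group
    · intro a _
      exact bot_inf_eq _
    · intro a ha
      rw [bot_sup_eq]
      apply inf_eq_right.mpr
      intro c hc
      apply hmem c a ha
      have h := Subgroup.mem_centralizer_iff.mp hc a (Set.mem_singleton a)
      have : c * a * c⁻¹ = a := by rw [← h]; group
      rw [this]; exact ha
    · intro a _ b _
      rw [Subgroup.card_bot]
      exact Nat.coprime_one_left _
  · intro hD
    have hLN : L ≤ Subgroup.normalizer A := by
      rw [Subgroup.le_set_normalizer_iff]
      exact hD.conj_mem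
    have hmem : ∀ g : G, ∀ a ∈ A, g * a * g⁻¹ ∈ A → g ∈ L := by
      intro g a ha hga
      obtain ⟨y, hy, hya⟩ := hD.fusion a ha g hga
      have hc : y⁻¹ * g ∈ Subgroup.centralizer ({a} : Set G) := by
        rw [Subgroup.mem_centralizer_iff]
        intro z hz
        rw [Set.mem_singleton_iff] at hz
        subst hz
        have e1 : z = y⁻¹ * (y * z * y⁻¹) * y := by group
        have e2 : y⁻¹ * g * z = y⁻¹ * (g * z * g⁻¹) * g := by group
        rw [e2, ← hya]; group
      have hs := hD.sup_eq a ha
      rw [bot_sup_eq] at hs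
      rw [← hs] at hc
      have h3 : y * (y⁻¹ * g) ∈ L := L.mul_mem hy hc.1
      rw [mul_inv_cancel_left] at h3
      exact h3
    refine ⟨?_, le_antisymm ?_ hLN⟩
    · intro g hg x hx hgx
      exact absurd (hLN (hmem g x hx hgx)) hg
    · intro g hg
      obtain ⟨a, ha⟩ := hA
      exact hmem g a ha ((Subgroup.mem_set_normalizer_iff.mp hg a).mp ha)

end Cfsg.Agent.Lib_helper9_Dade
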