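import Mathlib
import Cfsg.Agent.Lib_helper1_Frobenius
import Cfsg.Agent.Lib_helper2_DihSyl

set_option autoImplicit false

namespace Cfsg.Agent.Lib_helper9_DihCent

open Cfsg.Agent.Lib_helper2_DihSyl Cfsg.Agent.Lib_helper1_Frobenius

variable {X : Type*} [Group X]

/-- a cyclic subgroup has at most one involution -/
theorem cyc_inv_unique [Finite X] (ρ : X) {a b : X} (ha : a ∈ Subgroup.zpowers ρ)
    (hb : b ∈ Subgroup.zpowers ρ)
    (ha2 : a * a = 1) (hb2 : b * b = 1) (ha1 : a ≠ 1) (hb1 : b ≠ 1) : a = b := by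
  classical
  by_contra hab
  haveI : Fintype (Subgroup.zpowers ρ) := Fintype.ofFinite _
  have h := IsCyclic.card_pow_eq_one_le (α := Subgroup.zpowers ρ) (n := 2) (by norm_num)
  have hsub : ({1, ⟨a, ha⟩, ⟨b, hb⟩} : Finset (Subgroup.zpowers ρ)) ⊆
      Finset.univ.filter (fun x => x ^ 2 = 1) := by
    intro x hx
    simp only [Finset.mem_insert, Finset.mem_singleton] at hx
    simp only [Finset.mem_filter, Finset.mem_univ, true_and]
    rcases hx with rfl | rfl | rfl
    · simp
    · apply Subtype.ext; simp [pow_two, ha2]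
    · apply Subtype.ext; simp [pow_two, hb2]
  have hc : ({1, ⟨a, ha⟩, ⟨b, hb⟩} : Finset (Subgroup.zpowers ρ)).card = 3 := by
    rw [Finset.card_insert_of_notMem, Finset.card_insert_of_notMem, Finset.card_singleton]
    · simp only [Finset.mem_singleton]; intro h'; exact hab (congrArg Subtype.val h')
    · simp only [Finset.mem_insert, Finset.mem_singleton, not_or]
      exact ⟨fun h' => ha1 (congrArg Subtype.val h').symm,
        fun h' => hb1 (congrArg Subtype.val h').symm⟩
  have := Finset.card_le_card hsub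
  omega

/-- In a dihedral `2`-group, an odd-order element normalizing a subgroup `Q` and centralizing
an involution of `Q` centralizes `Q`. -/
theorem lemmaA [Finite X] (S : Sylow 2 X) (n : ℕ)
    (e : (S : Subgroup X) ≃* DihedralGroup n) (Q : Subgroup X) (hQS : Q ≤ S) (t : X)
    (htQ : t ∈ Q) (ht : orderOf t = 2)
    (g : X) (hgQ : ∀ q ∈ Q, g * q * g⁻¹ ∈ Q) (hgt : g * t * g⁻¹ = t)
    (hg : (orderOf g).Coprime 2) :
    ∀ q ∈ Q, g * q * g⁻¹ = q := by
  classical
  obtain ⟨ρ, hρ⟩ : ∃ ρ : X, ρ = ((e.symm (DihedralGroup.r 1) : (S : Subgroup X)) : X) := ⟨_, rfl⟩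
  have D0 : ∀ x ∈ (S : Subgroup X), ∃ k : ℕ, x ^ (2 ^ k) = 1 := by
    intro x hx
    obtain ⟨k, hk⟩ := S.2 ⟨x, hx⟩
    exact ⟨k, by have := congrArg Subtype.val hk; simpa using this⟩
  have D1 : ∀ x ∈ (S : Subgroup X), x ∉ Subgroup.zpowers ρ → x * x = 1 := by
    intro x hx hxn; rw [hρ] at hxn; exact dih_sq _ e hx hxn
  have D2 : ∀ x ∈ (S : Subgroup X), ∀ y ∈ (S : Subgroup X), x ∉ Subgroup.zpowers ρ →
      y ∉ Subgroup.zpowers ρ → x * y ∈ Subgroup.zpowers ρ := by
    intro x hx y hy hxn hyn; rw [hρ] at hxn hyn ⊢; exact dih_mul _ e hx hy hxn hyn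
  obtain ⟨ht1, htt⟩ : t ≠ 1 ∧ t * t = 1 :=
    ⟨by rintro rfl; simp at ht, by rw [← pow_two, ← ht]; exact pow_orderOf_eq_one t⟩
  have P : ∀ y c : X, c ∈ (S : Subgroup X) → g * c * g⁻¹ = c → g * y * g⁻¹ = y * c →
      g * y * g⁻¹ = y := by
    intro y c hcS hc hy
    obtain ⟨k, hk⟩ := D0 c hcS
    have := eq_one_of_odd_conj hg hc hy hk
    rw [hy, this, mul_one]
  obtain ⟨A, hA⟩ : ∃ A : Subgroup X, A = Q ⊓ Subgroup.zpowers ρ := ⟨_, rfl⟩
  have hAm : ∀ x : X, x ∈ A ↔ x ∈ Q ∧ x ∈ Subgroup.zpowers ρ := by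
    intro x; rw [hA]; exact Subgroup.mem_inf
  haveI : IsCyclic A :=
    Subgroup.isCyclic_of_le (H' := Subgroup.zpowers ρ) (fun x hx => ((hAm x).mp hx).2)
  by_cases hexp : ∀ a ∈ A, a * a = 1
  · have hQ2 : ∀ y ∈ Q, y * y = 1 := by
      intro y hy
      by_cases hyR : y ∈ Subgroup.zpowers ρ
      · exact hexp y ((hAm y).mpr ⟨hy, hyR⟩)
      · exact D1 y (hQS hy) hyR
    have hQc : ∀ y ∈ Q, ∀ w ∈ Q, y * w = w * y := by
      intro y hy w hw
      have h1 := hQ2 (y * w) (Q.mul_mem hy hw)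
      have hy' : y⁻¹ = y := inv_eq_of_mul_eq_one_right (hQ2 y hy)
      have hw' : w⁻¹ = w := inv_eq_of_mul_eq_one_right (hQ2 w hw)
      have h3 : (y * w)⁻¹ = y * w := inv_eq_of_mul_eq_one_right h1
      rw [mul_inv_rev, hy', hw'] at h3; exact h3.symm
    have hfour : ∃ y₀ : X, ∀ y ∈ Q, y = 1 ∨ y = t ∨ y = y₀ ∨ y = y₀ * t := by
      by_cases htR : t ∈ Subgroup.zpowers ρ
      · have hA' : ∀ a ∈ A, a = 1 ∨ a = t := by
          intro a ha
          by_cases ha1 : a = 1
          · exact Or.inl ha1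
          · exact Or.inr (cyc_inv_unique ρ ((hAm a).mp ha).2 htR (hexp a ha) htt ha1 ht1)
        by_cases hx : ∃ x ∈ Q, x ∉ Subgroup.zpowers ρ
        · obtain ⟨x, hxQ, hxR⟩ := hx
          refine ⟨x, fun y hy => ?_⟩
          by_cases hyR : y ∈ Subgroup.zpowers ρ
          · rcases hA' y ((hAm y).mpr ⟨hy, hyR⟩) with h | h
            · exact Or.inl h
            · exact Or.inr (Or.inl h)
          · have h1 : x * y ∈ A :=
              (hAm _).mpr ⟨Q.mul_mem hxQ hy, D2 x (hQS hxQ) y (hQS hy) hxR hyR⟩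
            have hxx := hQ2 x hxQ
            rcases hA' _ h1 with h | h
            · right; right; left
              calc y = x * x * y := by rw [hxx, one_mul]
                _ = x * (x * y) := by rw [mul_assoc]
                _ = x := by rw [h, mul_one]
            · right; right; right
              calc y = x * x * y := by rw [hxx, one_mul]
                _ = x * (x * y) := by rw [mul_assoc]
                _ = x * t := by rw [h]
        · simp only [not_exists, not_and, not_not] at hx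
          refine ⟨1, fun y hy => ?_⟩
          rcases hA' y ((hAm y).mpr ⟨hy, hx y hy⟩) with h | h
          · exact Or.inl h
          · exact Or.inr (Or.inl h)
      · by_cases hz : ∃ z ∈ A, z ≠ 1
        · obtain ⟨z, hzA, hz1⟩ := hz
          have hA' : ∀ a ∈ A, a = 1 ∨ a = z := by
            intro a ha
            by_cases ha1 : a = 1
            · exact Or.inl ha1
            · exact Or.inr (cyc_inv_unique ρ ((hAm a).mp ha).2 ((hAm z).mp hzA).2 (hexp a ha)
                (hexp z hzA) ha1 hz1)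
          refine ⟨z, fun y hy => ?_⟩
          by_cases hyR : y ∈ Subgroup.zpowers ρ
          · rcases hA' y ((hAm y).mpr ⟨hy, hyR⟩) with h | h
            · exact Or.inl h
            · exact Or.inr (Or.inr (Or.inl h))
          · have h1 : t * y ∈ A :=
              (hAm _).mpr ⟨Q.mul_mem htQ hy, D2 t (hQS htQ) y (hQS hy) htR hyR⟩
            rcases hA' _ h1 with h | h
            · right; left
              calc y = t * t * y := by rw [htt, one_mul]
                _ = t * (t * y) := by rw [mul_assoc]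
                _ = t := by rw [h, mul_one]
            · right; right; right
              calc y = t * t * y := by rw [htt, one_mul]
                _ = t * (t * y) := by rw [mul_assoc]
                _ = t * z := by rw [h]
                _ = z * t := hQc t htQ z ((hAm z).mp hzA).1
        · simp only [not_exists, not_and, not_not] at hz
          refine ⟨1, fun y hy => ?_⟩
          by_cases hyR : y ∈ Subgroup.zpowers ρ
          · exact Or.inl (hz y ((hAm y).mpr ⟨hy, hyR⟩))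
          · have h1 : t * y ∈ A :=
              (hAm _).mpr ⟨Q.mul_mem htQ hy, D2 t (hQS htQ) y (hQS hy) htR hyR⟩
            have h := hz _ h1
            right; left
            calc y = t * t * y := by rw [htt, one_mul]
              _ = t * (t * y) := by rw [mul_assoc]
              _ = t := by rw [h, mul_one]
    obtain ⟨y₀, hy₀⟩ := hfour
    intro q hq
    have hq' := hgQ q hq
    by_cases hq1 : q = 1
    · rw [hq1]; group
    by_cases hqt : q = t
    · rw [hqt]; exact hgt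
    have hw1 : g * q * g⁻¹ ≠ 1 := by
      intro h; apply hq1
      calc q = g⁻¹ * (g * q * g⁻¹) * g := by group
        _ = 1 := by rw [h]; group
    have hwt : g * q * g⁻¹ ≠ t := by
      intro h; apply hqt
      calc q = g⁻¹ * (g * q * g⁻¹) * g := by group
        _ = g⁻¹ * (g * t * g⁻¹) * g := by rw [h, hgt]
        _ = t := by group
    have hcase : g * q * g⁻¹ = q ∨ g * q * g⁻¹ = q * t := by
      rcases hy₀ q hq with h | h | h | h
      · exact absurd h hq1
      · exact absurd h hqt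
      · rcases hy₀ _ hq' with h' | h' | h' | h'
        · exact absurd h' hw1
        · exact absurd h' hwt
        · left; rw [h', h]
        · right; rw [h', h]
      · rcases hy₀ _ hq' with h' | h' | h' | h'
        · exact absurd h' hw1
        · exact absurd h' hwt
        · right; rw [h', h, mul_assoc, htt, mul_one]
        · left; rw [h', h]
    rcases hcase with h | h
    · exact h
    · exact P q t (hQS htQ) hgt h
  · simp only [not_forall] at hexp
    obtain ⟨a, haA, ha2⟩ := hexp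
    have hbig : ∀ y ∈ Q, y * y ≠ 1 → y ∈ A := by
      intro y hy hy2
      refine (hAm y).mpr ⟨hy, ?_⟩
      by_contra hyR
      exact hy2 (D1 y (hQS hy) hyR)
    have hconj_sq : ∀ y : X, y * y ≠ 1 → (g * y * g⁻¹) * (g * y * g⁻¹) ≠ 1 := by
      intro y hy h
      apply hy
      have h' : g * (y * y) * g⁻¹ = 1 := by rw [← h]; group
      calc y * y = g⁻¹ * (g * (y * y) * g⁻¹) * g := by group
        _ = 1 := by rw [h']; group
    have hAc : ∀ u ∈ A, ∀ v ∈ A, u * v = v * u := by
      intro u hu v hv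
      obtain ⟨i, rfl⟩ := ((hAm u).mp hu).2
      obtain ⟨j, rfl⟩ := ((hAm v).mp hv).2
      exact (Commute.zpow_zpow_self ρ i j).eq
    have hgA : ∀ b ∈ A, g * b * g⁻¹ ∈ A := by
      intro b hb
      by_cases hb2 : b * b = 1
      · have hab2 : (a * b) * (a * b) ≠ 1 := by
          intro h
          apply ha2
          have h' : a * b * (a * b) = a * a * (b * b) := by
            rw [mul_assoc a b, ← mul_assoc b a b, hAc b hb a haA]; group
          rw [h', hb2, mul_one] at h; exact h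
        have h1 := hbig _ (hgQ _ (Q.mul_mem ((hAm a).mp haA).1 ((hAm b).mp hb).1))
          (hconj_sq _ hab2)
        have h2 := hbig _ (hgQ _ ((hAm a).mp haA).1) (hconj_sq _ ha2)
        have h3 : g * b * g⁻¹ = (g * a * g⁻¹)⁻¹ * (g * (a * b) * g⁻¹) := by group
        rw [h3]; exact A.mul_mem (A.inv_mem h2) h1
      · exact hbig _ (hgQ _ ((hAm b).mp hb).1) (hconj_sq _ hb2)
    have hcentA : ∀ b ∈ A, g * b * g⁻¹ = b :=
      centralizes_cyclic A (fun q hq => D0 q (hQS ((hAm q).mp hq).1)) hgA hg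
    intro q hq
    by_cases hqR : q ∈ Subgroup.zpowers ρ
    · exact hcentA q ((hAm q).mpr ⟨hq, hqR⟩)
    · have hq' := hgQ q hq
      have hq'R : g * q * g⁻¹ ∉ Subgroup.zpowers ρ := by
        intro h
        have h1 : g * q * g⁻¹ ∈ A := (hAm _).mpr ⟨hq', h⟩
        have h2 := hcentA _ h1
        have h3 : g * q * g⁻¹ = q := by
          calc g * q * g⁻¹ = g⁻¹ * (g * (g * q * g⁻¹) * g⁻¹) * g := by group
            _ = g⁻¹ * (g * q * g⁻¹) * g := by rw [h2]
            _ = q := by group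
        rw [h3] at h; exact hqR h
      have hc : q * (g * q * g⁻¹) ∈ A :=
        (hAm _).mpr ⟨Q.mul_mem hq hq', D2 q (hQS hq) _ (hQS hq') hqR hq'R⟩
      have hqq := D1 q (hQS hq) hqR
      have h4 : g * q * g⁻¹ = q * (q * (g * q * g⁻¹)) := by
        rw [← mul_assoc, hqq, one_mul]
      exact P q _ (hQS ((hAm _).mp hc).1) (hcentA _ hc) h4

theorem comm_of_mul_mem (Q₀ : Subgroup X) (t : X) (htt : t * t = 1)
    (hc : ∀ x ∈ Q₀, x * t = t * x) {x : X} (hx : x * t ∈ Q₀) : x * t = t * x := by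
  have h1 := hc _ hx
  have h2 : x = t * (x * t) := by rw [← h1, mul_assoc, htt, mul_one]
  calc x * t = t * (x * t) * t := by rw [← h2]
    _ = t * x * (t * t) := by group
    _ = t * x := by rw [htt, mul_one]

/-- `Q₀⟨t⟩` for `t` an involution centralizing `Q₀`. -/
def adj (Q₀ : Subgroup X) (t : X) (htt : t * t = 1) (hc : ∀ x ∈ Q₀, x * t = t * x) :
    Subgroup X where
  carrier := {x | x ∈ Q₀ ∨ x * t ∈ Q₀}
  one_mem' := Or.inl Q₀.one_mem
  mul_mem' := by
    rintro x y (hx | hx) (hy | hy)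
    · exact Or.inl (Q₀.mul_mem hx hy)
    · right
      have h : x * y * t = x * (y * t) := by rw [mul_assoc]
      rw [h]; exact Q₀.mul_mem hx hy
    · right
      have h : x * y * t = x * t * y := by rw [mul_assoc, hc y hy, ← mul_assoc]
      rw [h]; exact Q₀.mul_mem hx hy
    · left
      have h1 := comm_of_mul_mem Q₀ t htt hc hy
      have h : x * y = x * t * (y * t) := by
        rw [h1, mul_assoc x t, ← mul_assoc t t y, htt, one_mul]
      rw [h]; exact Q₀.mul_mem hx hy
  inv_mem' := by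
    rintro x (hx | hx)
    · exact Or.inl (Q₀.inv_mem hx)
    · right
      have ht' : t⁻¹ = t := inv_eq_of_mul_eq_one_right htt
      have hxt := comm_of_mul_mem Q₀ t htt hc hx
      have h : x⁻¹ * t = (x * t)⁻¹ := by
        rw [hxt, mul_inv_rev, ht']
      rw [h]; exact Q₀.inv_mem hx

theorem frobHyp_cent [Finite X] (S : Sylow 2 X) (n : ℕ)
    (e : (S : Subgroup X) ≃* DihedralGroup n) (t : X) (ht : orderOf t = 2) :
    FrobHyp 2 (Subgroup.centralizer ({t} : Set X)) := by
  haveI : Fact (Nat.Prime 2) := ⟨Nat.prime_two⟩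
  obtain ⟨ht1, htt⟩ : t ≠ 1 ∧ t * t = 1 :=
    ⟨by rintro rfl; simp at ht, by rw [← pow_two, ← ht]; exact pow_orderOf_eq_one t⟩
  intro Q hQ g hg hgo
  have htC : ∀ c : Subgroup.centralizer ({t} : Set X), (c : X) * t = t * (c : X) := by
    intro c
    have h := c.2
    rw [Subgroup.mem_centralizer_iff] at h
    exact (h t (Set.mem_singleton t)).symm
  obtain ⟨Q₀, hQ₀⟩ : ∃ Q₀ : Subgroup X,
    Q₀ = Q.map (Subgroup.centralizer ({t} : Set X)).subtype := ⟨_, rfl⟩
  have hQ₀m : ∀ x : X, x ∈ Q₀ ↔ ∃ c ∈ Q, (c : X) = x := by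
    intro x; rw [hQ₀]; exact Subgroup.mem_map
  have hQ₀c : ∀ x ∈ Q₀, x * t = t * x := by
    intro x hx
    obtain ⟨c, -, rfl⟩ := (hQ₀m x).mp hx
    exact htC c
  have hQ₀2 : ∀ x ∈ Q₀, ∃ k : ℕ, x ^ (2 ^ k) = 1 := by
    intro x hx
    obtain ⟨c, hc, rfl⟩ := (hQ₀m x).mp hx
    obtain ⟨k, hk⟩ := hQ ⟨c, hc⟩
    refine ⟨k, ?_⟩
    have := congrArg (fun z : Q => ((z : Subgroup.centralizer ({t} : Set X)) : X)) hk
    simpa using this
  obtain ⟨Q₁, hQ₁⟩ : ∃ Q₁ : Subgroup X, Q₁ = adj Q₀ t htt hQ₀c := ⟨_, rfl⟩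
  have hQ₁m : ∀ x : X, x ∈ Q₁ ↔ x ∈ Q₀ ∨ x * t ∈ Q₀ := by intro x; rw [hQ₁]; rfl
  have hQ₁p : IsPGroup 2 Q₁ := by
    rintro ⟨x, hx⟩
    rcases (hQ₁m x).mp hx with h | h
    · obtain ⟨k, hk⟩ := hQ₀2 x h
      exact ⟨k, Subtype.ext (by simpa using hk)⟩
    · obtain ⟨k, hk⟩ := hQ₀2 _ h
      refine ⟨k + 1, Subtype.ext ?_⟩
      have hxt : x * t = t * x := comm_of_mul_mem Q₀ t htt hQ₀c h
      have h1 := (show Commute x t from hxt).mul_pow (2 ^ (k + 1))
      have h2 : (x * t) ^ 2 ^ (k + 1) = 1 := by rw [pow_succ, pow_mul, hk, one_pow]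
      have h3 : t ^ 2 ^ (k + 1) = 1 := by rw [pow_succ', pow_mul, pow_two, htt, one_pow]
      rw [h2, h3, mul_one] at h1
      simpa using h1.symm
  obtain ⟨P, hP⟩ := hQ₁p.exists_le_sylow
  obtain ⟨x, rfl⟩ := MulAction.exists_smul_eq X S P
  have htQ₁ : t ∈ Q₁ := (hQ₁m t).mpr (Or.inr (by rw [htt]; exact Q₀.one_mem))
  have hgX : (orderOf (g : X)).Coprime 2 := by rw [Subgroup.orderOf_coe]; exact hgo
  have hgt : (g : X) * t * (g : X)⁻¹ = t := by rw [htC g]; group
  have hgQ₀ : ∀ q ∈ Q₀, (g : X) * q * (g : X)⁻¹ ∈ Q₀ := by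
    intro q hq
    obtain ⟨c, hc, rfl⟩ := (hQ₀m q).mp hq
    exact (hQ₀m _).mpr ⟨g * c * g⁻¹, (Subgroup.mem_normalizer_iff.mp hg c).mp hc, by simp⟩
  have hgQ₁ : ∀ q ∈ Q₁, (g : X) * q * (g : X)⁻¹ ∈ Q₁ := by
    intro q hq
    rcases (hQ₁m q).mp hq with h | h
    · exact (hQ₁m _).mpr (Or.inl (hgQ₀ q h))
    · refine (hQ₁m _).mpr (Or.inr ?_)
      have h' : (g : X)⁻¹ * t = t * (g : X)⁻¹ := by
        have := htC g⁻¹
        simpa using this
      have h'' : (g : X) * q * (g : X)⁻¹ * t = (g : X) * (q * t) * (g : X)⁻¹ := by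
        rw [mul_assoc ((g : X) * q), h']; group
      rw [h'']; exact hgQ₀ _ h
  have key := lemmaA (x • S) n ((S.equivSMul x).symm.trans e) Q₁ hP t htQ₁ ht (g : X) hgQ₁ hgt hgX
  rw [Subgroup.mem_centralizer_iff]
  intro h hh
  have h1 : ((h : Subgroup.centralizer ({t} : Set X)) : X) ∈ Q₁ :=
    (hQ₁m _).mpr (Or.inl ((hQ₀m _).mpr ⟨h, hh, rfl⟩))
  have h2 := key _ h1
  apply Subtype.ext
  show (h : X) * (g : X) = (g : X) * (h : X)
  calc (h : X) * (g : X) = ((g : X) * (h : X) * (g : X)⁻¹) * (g : X) := by rw [h2]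
    _ = (g : X) * (h : X) := by group

theorem s0514 {X : Type*} [Group X] [Finite X]
    (S : Sylow 2 X) (n : ℕ) (hS : Nonempty ((S : Subgroup X) ≃* DihedralGroup n)) (t : X)
    (ht : orderOf t = 2) :
    ∃ N : Subgroup (Subgroup.centralizer ({t} : Set X)),
      N.Normal ∧ Odd (Nat.card N) ∧ ∃ k : ℕ, N.index = 2 ^ k := by
  obtain ⟨e⟩ := hS
  haveI : Fact (Nat.Prime 2) := ⟨Nat.prime_two⟩
  obtain ⟨N, hN, hc, k, hk⟩ := frobenius (frobHyp_cent S n e t ht)
  exact ⟨N, hN, Nat.Coprime.odd_of_right hc, k, hk⟩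

end Cfsg.Agent.Lib_helper9_DihCent
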