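import Mathlib
import Cfsg.Prelude.Def_Transfer
import Cfsg.Agent.Lib_helper1_Basic
import Cfsg.Agent.Lib_helper2_DihSyl2

set_option autoImplicit false

namespace Cfsg.Agent.Lib_helper9_DihConj

open Cfsg.Agent.Lib_helper2_DihSyl2 Cfsg.Agent.Lib_helper2_Dihedral

/-- the linear character of a dihedral group whose kernel is the rotation subgroup -/
def rotChar (m : ℕ) : DihedralGroup m →* ℤˣ :=
  MonoidHom.mk' (fun d => match d with
    | DihedralGroup.r _ => 1
    | DihedralGroup.sr _ => -1) (by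
    rintro (a | a) (b | b)
    · show (1 : ℤˣ) = 1 * 1
      simp
    · show (-1 : ℤˣ) = 1 * -1
      simp
    · show (-1 : ℤˣ) = -1 * 1
      simp
    · show (1 : ℤˣ) = -1 * -1
      simp)

theorem rotChar_sr (m : ℕ) (i : ZMod m) : rotChar m (DihedralGroup.sr i) = -1 := rfl

theorem no_index_two {G : Type*} [Group G] [Finite G] (hO : Cfsg.pResidual 2 G = ⊤)
    (H : Subgroup G) : H.index ≠ 2 := by
  intro hH
  have hle : Cfsg.pResidual 2 G ≤ H := by
    unfold Cfsg.pResidual
    rw [Subgroup.closure_le]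
    intro g hg
    have hg' : Nat.Coprime (orderOf g) 2 := hg
    have hodd : Odd (orderOf g) := Nat.Coprime.odd_of_right hg'
    obtain ⟨k, hk⟩ := hodd
    have h1 : g = (g * g) ^ (k + 1) := by
      rw [← pow_two, ← pow_mul]
      have : 2 * (k + 1) = orderOf g + 1 := by omega
      rw [this, pow_succ, pow_orderOf_eq_one, one_mul]
    show g ∈ H
    rw [h1]
    exact pow_mem (Subgroup.mul_self_mem_of_index_two hH g) _
  rw [hO] at hle
  have : H = ⊤ := top_le_iff.mp hle
  rw [this, Subgroup.index_top] at hH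
  omega

theorem conj_center {G : Type*} [Group G] [Finite G] (T : Sylow 2 G) (m : ℕ)
    (e : (T : Subgroup G) ≃* DihedralGroup m) (hidx : ∀ H : Subgroup G, H.index ≠ 2)
    {h : ZMod m} (hh : ∀ i : ZMod m, i + i = 0 → i ≠ 0 → i = h)
    {u : G} (hu : u ∈ (T : Subgroup G)) (ho : orderOf u = 2) :
    ∃ g : G, g⁻¹ * u * g = el e (DihedralGroup.r h) := by
  rcases inv_cases e hh hu ho with h1 | ⟨i, hi⟩
  · exact ⟨1, by simpa using h1⟩
  · by_contra hcon
    simp only [not_exists] at hcon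
    obtain ⟨hu1, huu⟩ := orderOf_eq_two_iff'.mp ho
    have hu2 : u ^ 2 = 1 := by rw [pow_two]; exact huu
    obtain ⟨H, hH⟩ := thompson_transfer_char T ((rotChar m).comp e.toMonoidHom) u hu2 (by
      intro g hg
      have ho' : orderOf (g⁻¹ * u * g) = 2 := by
        rw [orderOf_eq_two_iff']
        refine ⟨?_, ?_⟩
        · intro h1
          apply hu1
          calc u = g * (g⁻¹ * u * g) * g⁻¹ := by group
            _ = 1 := by rw [h1]; group
        · calc g⁻¹ * u * g * (g⁻¹ * u * g) = g⁻¹ * (u * u) * g := by group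
            _ = 1 := by rw [huu]; group
      rcases inv_cases e hh hg ho' with h1 | ⟨j, hj⟩
      · exact absurd h1 (hcon g)
      · show rotChar m (e ⟨g⁻¹ * u * g, hg⟩) = -1
        have : e ⟨g⁻¹ * u * g, hg⟩ = DihedralGroup.sr j := by
          apply el_inj e
          rw [el_apply e hg]; exact hj
        rw [this]; rfl)
    exact hidx H hH

theorem s0107 {G : Type*} [Group G] [Finite G] (T : Sylow 2 G) (n : ℕ) (hn : 2 ≤ n)
    (hT : Nonempty ((T : Subgroup G) ≃* DihedralGroup (2 ^ n))) (hO : Cfsg.pResidual 2 G = ⊤)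
    (x y : G) (hx : orderOf x = 2) (hy : orderOf y = 2) : ∃ g : G, g * x * g⁻¹ = y := by
  obtain ⟨e⟩ := hT
  haveI : NeZero (2 ^ n) := ⟨by positivity⟩
  haveI : Fact (Nat.Prime 2) := ⟨Nat.prime_two⟩
  have h2 : 2 ∣ 2 ^ n := dvd_pow_self 2 (by omega)
  obtain ⟨h, hh, h0, hall⟩ := half_spec (2 ^ n) h2
  have key : ∀ u : G, orderOf u = 2 → ∃ g : G, g⁻¹ * u * g = el e (DihedralGroup.r h) := by
    intro u hu
    have hp : IsPGroup 2 (Subgroup.zpowers u) :=
      IsPGroup.of_card (n := 1) (by rw [Nat.card_zpowers, hu]; rfl)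
    obtain ⟨P, hP⟩ := hp.exists_le_sylow
    obtain ⟨a, ha⟩ := MulAction.exists_smul_eq G T P
    have huP : u ∈ (P : Subgroup G) := hP (Subgroup.mem_zpowers u)
    rw [← ha, Cfsg.Agent.Lib_helper1_Basic.mem_sylow_smul] at huP
    obtain ⟨hu1, huu⟩ := orderOf_eq_two_iff'.mp hu
    have ho' : orderOf (a⁻¹ * u * a) = 2 := by
      rw [orderOf_eq_two_iff']
      refine ⟨?_, ?_⟩
      · intro h1
        apply hu1
        calc u = a * (a⁻¹ * u * a) * a⁻¹ := by group
          _ = 1 := by rw [h1]; group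
      · calc a⁻¹ * u * a * (a⁻¹ * u * a) = a⁻¹ * (u * u) * a := by group
          _ = 1 := by rw [huu]; group
    obtain ⟨g, hg⟩ := conj_center T (2 ^ n) e (no_index_two hO) hall huP ho'
    exact ⟨a * g, by rw [← hg]; group⟩
  obtain ⟨g₁, hg₁⟩ := key x hx
  obtain ⟨g₂, hg₂⟩ := key y hy
  refine ⟨g₂ * g₁⁻¹, ?_⟩
  have : y = g₂ * (g₂⁻¹ * y * g₂) * g₂⁻¹ := by group
  rw [this, hg₂, ← hg₁]; group

end Cfsg.Agent.Lib_helper9_DihConj
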