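import Mathlib
import Cfsg.Prelude.Def_Transfer
import Cfsg.Agent.Lib_helper7_ExInv

set_option autoImplicit false

namespace Cfsg.Agent.Lib_helper9_ExCentAut

theorem main {E : Type*} [Group E] [Finite E] (hE : Cfsg.IsExtraspecial 2 E) (φ : E ≃* E)
    (hφ : ∀ x : E, φ x * x⁻¹ ∈ Subgroup.center E) : ∃ g : E, ∀ x : E, φ x = g * x * g⁻¹ := by
  classical
  by_cases hid : ∀ x, φ x = x
  · exact ⟨1, fun x => by rw [hid x]; group⟩
  have hcard : Nat.card (Subgroup.center E) = 2 := hE.2
  -- the homomorphism x ↦ φ x * x⁻¹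
  let lam : E →* Subgroup.center E :=
    { toFun := fun x => ⟨φ x * x⁻¹, hφ x⟩
      map_one' := Subtype.ext (by simp)
      map_mul' := fun x y => Subtype.ext (by
        show φ (x * y) * (x * y)⁻¹ = φ x * x⁻¹ * (φ y * y⁻¹)
        have hc := Subgroup.mem_center_iff.mp (hφ y) x⁻¹
        rw [map_mul, mul_inv_rev, mul_assoc (φ x) x⁻¹, hc]; group) }
  have hlam : ∀ x, ((lam x : Subgroup.center E) : E) = φ x * x⁻¹ := fun x => rfl
  have hker : ∀ x, x ∈ lam.ker ↔ φ x = x := by
    intro x
    rw [MonoidHom.mem_ker]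
    constructor
    · intro h
      have := congrArg (fun z : Subgroup.center E => (z : E)) h
      simp only [hlam, Subgroup.coe_one] at this
      exact mul_inv_eq_one.mp this
    · intro h
      apply Subtype.ext
      rw [hlam, Subgroup.coe_one, h, mul_inv_cancel]
  -- squares in the center are trivial
  have hsq : ∀ w : Subgroup.center E, w * w = 1 := by
    intro w
    have h1 : w ^ Nat.card (Subgroup.center E) = 1 := pow_card_eq_one'
    rwa [hcard, pow_two] at h1
  -- φ fixes the center pointwise
  have hφc : ∀ w : E, w ∈ Subgroup.center E → φ w ∈ Subgroup.center E := by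
    intro w hw
    rw [Subgroup.mem_center_iff]
    intro q
    obtain ⟨q', rfl⟩ := φ.surjective q
    rw [← map_mul, ← map_mul, (Subgroup.mem_center_iff.mp hw) q']
  obtain ⟨z, hz1, hzu⟩ := (Nat.card_eq_two_iff' (1 : Subgroup.center E)).mp hcard
  have hfixc : ∀ w : E, w ∈ Subgroup.center E → φ w = w := by
    intro w hw
    by_cases hw1 : w = 1
    · rw [hw1, map_one]
    · have e1 : (⟨w, hw⟩ : Subgroup.center E) = z :=
        hzu ⟨w, hw⟩ (fun h => hw1 (congrArg Subtype.val h))
      have hφw1 : φ w ≠ 1 := fun h => hw1 (by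
        have := φ.injective (h.trans (map_one φ).symm); exact this)
      have e2 : (⟨φ w, hφc w hw⟩ : Subgroup.center E) = z :=
        hzu ⟨φ w, hφc w hw⟩ (fun h => hφw1 (congrArg Subtype.val h))
      have := congrArg Subtype.val (e2.trans e1.symm)
      exact this
  have h2 : ∀ x, φ (φ x) = x := by
    intro x
    have e : φ x = (φ x * x⁻¹) * x := by group
    have hs := congrArg Subtype.val (hsq (lam x))
    simp only [Subgroup.coe_mul, hlam, Subgroup.coe_one] at hs
    calc φ (φ x) = φ ((φ x * x⁻¹) * x) := by rw [← e]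
      _ = φ (φ x * x⁻¹) * φ x := map_mul _ _ _
      _ = (φ x * x⁻¹) * φ x := by rw [hfixc _ (hφ x)]
      _ = (φ x * x⁻¹) * ((φ x * x⁻¹) * x) := by rw [← e]
      _ = ((φ x * x⁻¹) * (φ x * x⁻¹)) * x := by group
      _ = x := by rw [hs, one_mul]
  have hidx : lam.ker.index = 2 := by
    rw [Subgroup.index_ker]
    have hd : Nat.card lam.range ∣ 2 := by
      rw [← hcard]; exact Subgroup.card_subgroup_dvd_card _
    have hne : Nat.card lam.range ≠ 1 := by
      intro h
      apply hid
      intro x
      rw [← hker, MonoidHom.mem_ker]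
      have hb := Subgroup.eq_bot_of_card_eq _ h
      have : lam x ∈ lam.range := ⟨x, rfl⟩
      rw [hb, Subgroup.mem_bot] at this
      exact this
    rcases (Nat.dvd_prime Nat.prime_two).mp hd with h | h
    · exact absurd h hne
    · exact h
  exact Lib_helper7_ExInv.inner_of_fix_index_two hE φ.toMonoidHom h2 lam.ker hker hidx

end Cfsg.Agent.Lib_helper9_ExCentAut
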