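import Mathlib
import Cfsg.Prelude.Def_CaseTheorems
import Cfsg.Agent.Lib_helper1_Socle

set_option autoImplicit false

namespace Cfsg.Agent.Lib_helper9_FourConn

/-- the four-group generated by two commuting involutions -/
def fourSub {P : Type*} [Group P] (a b : P) (ha : a * a = 1) (hb : b * b = 1)
    (hab : a * b = b * a) : Subgroup P where
  carrier := {1, a, b, a * b}
  one_mem' := by simp
  mul_mem' := by
    have h1 : a * (a * b) = b := by rw [← mul_assoc, ha, one_mul]
    have h2 : b * (a * b) = a := by rw [hab, ← mul_assoc, hb, one_mul]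
    have h3 : a * b * a = b := by rw [hab, mul_assoc, ha, mul_one]
    have h4 : a * b * b = a := by rw [mul_assoc, hb, mul_one]
    have h5 : a * b * (a * b) = 1 := by rw [mul_assoc, h2, ha]
    have h6 : b * a = a * b := hab.symm
    intro x y hx hy
    simp only [Set.mem_insert_iff, Set.mem_singleton_iff] at hx hy ⊢
    rcases hx with rfl | rfl | rfl | rfl <;> rcases hy with rfl | rfl | rfl | rfl <;>
      simp [ha, hb, h1, h2, h3, h4, h5, h6]
  inv_mem' := by
    have h2 : b * (a * b) = a := by rw [hab, ← mul_assoc, hb, one_mul]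
    have h5 : a * b * (a * b) = 1 := by rw [mul_assoc, h2, ha]
    have i1 : a⁻¹ = a := inv_eq_of_mul_eq_one_right ha
    have i2 : b⁻¹ = b := inv_eq_of_mul_eq_one_right hb
    have i3 : (a * b)⁻¹ = a * b := inv_eq_of_mul_eq_one_right h5
    intro x hx
    simp only [Set.mem_insert_iff, Set.mem_singleton_iff] at hx ⊢
    rcases hx with rfl | rfl | rfl | rfl
    · simp
    · rw [i1]; simp
    · rw [i2]; simp
    · rw [i3]; simp

theorem mem_fourSub {P : Type*} [Group P] (a b : P) (ha : a * a = 1) (hb : b * b = 1)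
    (hab : a * b = b * a) (x : P) :
    x ∈ fourSub a b ha hb hab ↔ x = 1 ∨ x = a ∨ x = b ∨ x = a * b := by
  show x ∈ ({1, a, b, a * b} : Set P) ↔ _
  simp only [Set.mem_insert_iff, Set.mem_singleton_iff]

theorem fourSub_comm {P : Type*} [Group P] (a b : P) (ha : a * a = 1) (hb : b * b = 1)
    (hab : a * b = b * a) (x : P) (hxa : x * a = a * x) (hxb : x * b = b * x) :
    ∀ y ∈ fourSub a b ha hb hab, x * y = y * x := by
  intro y hy
  rw [mem_fourSub] at hy
  rcases hy with rfl | rfl | rfl | rfl
  · simp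
  · exact hxa
  · exact hxb
  · rw [← mul_assoc, hxa, mul_assoc, hxb, mul_assoc]

theorem fourSub_klein {P : Type*} [Group P] (a b : P) (ha : a * a = 1) (hb : b * b = 1)
    (hab : a * b = b * a) (ha1 : a ≠ 1) (hb1 : b ≠ 1) (hne : a ≠ b) :
    IsKleinFour ↥(fourSub a b ha hb hab) := by
  have h2 : b * (a * b) = a := by rw [hab, ← mul_assoc, hb, one_mul]
  have h5 : a * b * (a * b) = 1 := by rw [mul_assoc, h2, ha]
  have hab1 : a * b ≠ 1 := by
    intro h
    apply hne
    have := mul_eq_one_iff_eq_inv.mp h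
    rw [this, inv_eq_of_mul_eq_one_right hb]
  have haab : a ≠ a * b := by
    intro h
    apply hb1
    have : a * 1 = a * b := by rw [mul_one]; exact h
    exact (mul_left_cancel this).symm
  have hbab : b ≠ a * b := by
    intro h
    apply ha1
    have : 1 * b = a * b := by rw [one_mul]; exact h
    exact (mul_right_cancel this).symm
  constructor
  · have hc : Nat.card ↥(fourSub a b ha hb hab) = ({1, a, b, a * b} : Set P).ncard :=
      Nat.card_coe_set_eq ({1, a, b, a * b} : Set P)
    rw [hc, Set.ncard_insert_of_notMem, Set.ncard_insert_of_notMem, Set.ncard_pair hbab]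
    · simp only [Set.mem_insert_iff, Set.mem_singleton_iff, not_or]
      exact ⟨hne, haab⟩
    · simp only [Set.mem_insert_iff, Set.mem_singleton_iff, not_or]
      exact ⟨fun h => ha1 h.symm, fun h => hb1 h.symm, fun h => hab1 h.symm⟩
  · have hdvd : Monoid.exponent ↥(fourSub a b ha hb hab) ∣ 2 := by
      apply Monoid.exponent_dvd_of_forall_pow_eq_one
      rintro ⟨x, hx⟩
      apply Subtype.ext
      rw [mem_fourSub] at hx
      show x ^ 2 = 1
      rw [pow_two]
      rcases hx with rfl | rfl | rfl | rfl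
      · simp
      · exact ha
      · exact hb
      · exact h5
    have hne1 : Monoid.exponent ↥(fourSub a b ha hb hab) ≠ 1 := by
      intro h
      rw [Monoid.exp_eq_one_iff] at h
      apply ha1
      have hmem : a ∈ fourSub a b ha hb hab := by rw [mem_fourSub]; right; left; rfl
      have := h.elim (⟨a, hmem⟩ : ↥(fourSub a b ha hb hab)) 1
      exact congrArg Subtype.val this
    rcases (Nat.dvd_prime Nat.prime_two).mp hdvd with h | h
    · exact absurd h hne1
    · exact h

/-- an involution acting on a normal elementary abelian `2`-subgroup fixes at least the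
square root of its order. -/
theorem card_le_sq {P : Type*} [Group P] [Finite P] (E : Subgroup P) [hEn : E.Normal]
    (hcomm : ∀ x ∈ E, ∀ y ∈ E, x * y = y * x) (hE2 : ∀ e ∈ E, e * e = 1) (t : P)
    (ht : t * t = 1) :
    Nat.card E ≤ Nat.card ↥(E ⊓ Subgroup.centralizer ({t} : Set P)) ^ 2 := by
  have hti : t⁻¹ = t := inv_eq_of_mul_eq_one_right ht
  let φ : ↥E →* ↥E :=
    { toFun := fun f => ⟨f.1 * (t * f.1 * t⁻¹), E.mul_mem f.2 (hEn.conj_mem f.1 f.2 t)⟩
      map_one' := by
        apply Subtype.ext
        show (1 : P) * (t * 1 * t⁻¹) = 1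
        group
      map_mul' := by
        intro f g
        apply Subtype.ext
        show f.1 * g.1 * (t * (f.1 * g.1) * t⁻¹) = f.1 * (t * f.1 * t⁻¹) * (g.1 * (t * g.1 * t⁻¹))
        have h1 : t * (f.1 * g.1) * t⁻¹ = (t * f.1 * t⁻¹) * (t * g.1 * t⁻¹) := by group
        have h2 := hcomm g.1 g.2 (t * f.1 * t⁻¹) (hEn.conj_mem f.1 f.2 t)
        rw [h1]
        calc f.1 * g.1 * (t * f.1 * t⁻¹ * (t * g.1 * t⁻¹))
            = f.1 * (g.1 * (t * f.1 * t⁻¹)) * (t * g.1 * t⁻¹) := by group
          _ = f.1 * ((t * f.1 * t⁻¹) * g.1) * (t * g.1 * t⁻¹) := by rw [h2]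
          _ = f.1 * (t * f.1 * t⁻¹) * (g.1 * (t * g.1 * t⁻¹)) := by group }
  have hker : Nat.card φ.ker ≤ Nat.card ↥(E ⊓ Subgroup.centralizer ({t} : Set P)) := by
    have hmem : ∀ f : ↥φ.ker, (f.1.1 : P) ∈ E ⊓ Subgroup.centralizer ({t} : Set P) := by
      intro f
      have hf : φ f.1 = 1 := f.2
      have hf' : f.1.1 * (t * f.1.1 * t⁻¹) = 1 := congrArg Subtype.val hf
      have hc : (f.1.1 : P) ∈ Subgroup.centralizer ({t} : Set P) := by
        rw [Subgroup.mem_centralizer_iff]
        intro z hz
        rw [Set.mem_singleton_iff] at hz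
        rw [hz]
        have h3 : t * f.1.1 * t⁻¹ = f.1.1 := by
          have h4 : f.1.1 * (t * f.1.1 * t⁻¹) = f.1.1 * f.1.1 := by rw [hf', hE2 _ f.1.2]
          exact mul_left_cancel h4
        calc t * f.1.1 = (t * f.1.1 * t⁻¹) * t := by group
          _ = f.1.1 * t := by rw [h3]
      exact Subgroup.mem_inf.mpr ⟨f.1.2, hc⟩
    apply Nat.card_le_card_of_injective (fun f : ↥φ.ker => (⟨f.1.1, hmem f⟩ :
      ↥(E ⊓ Subgroup.centralizer ({t} : Set P))))
    intro f g h
    have h' := congrArg (fun z : ↥(E ⊓ Subgroup.centralizer ({t} : Set P)) => (z : P)) h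
    exact Subtype.ext (Subtype.ext h')
  have hrange : Nat.card φ.range ≤ Nat.card ↥(E ⊓ Subgroup.centralizer ({t} : Set P)) := by
    have hmem : ∀ y : ↥φ.range, (y.1.1 : P) ∈ E ⊓ Subgroup.centralizer ({t} : Set P) := by
      intro y
      obtain ⟨f, hf⟩ := y.2
      have hy : y.1.1 = f.1 * (t * f.1 * t⁻¹) := by rw [← hf]; rfl
      have hc : (y.1.1 : P) ∈ Subgroup.centralizer ({t} : Set P) := by
        rw [Subgroup.mem_centralizer_iff]
        intro z hz
        rw [Set.mem_singleton_iff] at hz
        rw [hz, hy]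
        have h2 := hcomm f.1 f.2 (t * f.1 * t⁻¹) (hEn.conj_mem f.1 f.2 t)
        have h4 : t * (t * f.1 * t⁻¹) * t⁻¹ = f.1 := by
          have h5 : t * (t * f.1 * t⁻¹) * t⁻¹ = (t * t) * f.1 * (t * t)⁻¹ := by group
          rw [h5, ht]; group
        calc t * (f.1 * (t * f.1 * t⁻¹))
            = (t * f.1 * t⁻¹) * (t * (t * f.1 * t⁻¹) * t⁻¹) * t := by group
          _ = (t * f.1 * t⁻¹) * f.1 * t := by rw [h4]
          _ = f.1 * (t * f.1 * t⁻¹) * t := by rw [← h2]
      exact Subgroup.mem_inf.mpr ⟨y.1.2, hc⟩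
    apply Nat.card_le_card_of_injective (fun y : ↥φ.range => (⟨y.1.1, hmem y⟩ :
      ↥(E ⊓ Subgroup.centralizer ({t} : Set P))))
    intro f g h
    have h' := congrArg (fun z : ↥(E ⊓ Subgroup.centralizer ({t} : Set P)) => (z : P)) h
    exact Subtype.ext (Subtype.ext h')
  have hcard : Nat.card φ.ker * Nat.card φ.range = Nat.card ↥E := by
    rw [← Subgroup.index_ker]
    exact Subgroup.card_mul_index φ.ker
  rw [← hcard, pow_two]
  exact Nat.mul_le_mul hker hrange

/-- the commuting relation on four-subgroups -/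
def fRel {P : Type*} [Group P] (A B : Subgroup P) : Prop :=
  IsKleinFour A ∧ IsKleinFour B ∧ ∀ a ∈ A, ∀ b ∈ B, a * b = b * a

theorem s0502 {P : Type*} [Group P] [Finite P] (hP : IsPGroup 2 P)
    (E : Subgroup P) [hEn : E.Normal] (hE : IsMulCommutative E) (hE2 : ∀ e ∈ E, e ^ 2 = 1)
    (hE8 : 8 ≤ Nat.card E) : Cfsg.IsFourConnected P := by
  classical
  haveI : Fact (Nat.Prime 2) := ⟨Nat.prime_two⟩
  haveI : Group.IsNilpotent P := hP.isNilpotent
  have hsq : ∀ e ∈ E, e * e = 1 := fun e he => by rw [← pow_two]; exact hE2 e he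
  have hcommE : ∀ x ∈ E, ∀ y ∈ E, x * y = y * x := by
    intro x hx y hy
    have h := hE.is_comm.comm (⟨x, hx⟩ : ↥E) ⟨y, hy⟩
    exact congrArg Subtype.val h
  have hEne : E ≠ ⊥ := by
    intro h
    rw [h, Subgroup.card_bot] at hE8
    omega
  have hZ := Cfsg.Agent.Lib_helper1_Socle.normal_inf_center_ne_bot E hEne
  obtain ⟨e, he, he1⟩ : ∃ e ∈ E ⊓ Subgroup.center P, e ≠ 1 := by
    by_contra hno
    push Not at hno
    exact hZ ((Subgroup.eq_bot_iff_forall _).mpr hno)
  have heE : e ∈ E := he.1
  have hec : ∀ g : P, g * e = e * g := fun g => Subgroup.mem_center_iff.mp he.2 g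
  have hee : e * e = 1 := hsq e heE
  have hsymm : ∀ A B : Subgroup P, fRel A B → fRel B A :=
    fun A B ⟨h1, h2, h3⟩ => ⟨h2, h1, fun b hb a ha => (h3 a ha b hb).symm⟩
  have hrev : ∀ A B : Subgroup P,
      Relation.ReflTransGen (fRel (P := P)) A B →
      Relation.ReflTransGen (fRel (P := P)) B A := by
    intro A B h
    induction h with
    | refl => exact Relation.ReflTransGen.refl
    | tail _ hbc ih => exact (Relation.ReflTransGen.single (hsymm _ _ hbc)).trans ih
  have key : ∀ V : Subgroup P, IsKleinFour V → ∃ U : Subgroup P, IsKleinFour U ∧ U ≤ E ∧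
      Relation.ReflTransGen (fRel (P := P)) V U := by
    intro V hV
    by_cases hVE : V ≤ E
    · exact ⟨V, hV, hVE, Relation.ReflTransGen.refl⟩
    · obtain ⟨v, hvV, hvE⟩ : ∃ v ∈ V, v ∉ E := by
        by_contra h
        push Not at h
        exact hVE h
      haveI := hV
      have hvv : v * v = 1 := by
        have h := IsKleinFour.mul_self (⟨v, hvV⟩ : ↥V)
        exact congrArg Subtype.val h
      have hv1 : v ≠ 1 := fun h => hvE (h ▸ E.one_mem)
      have hve : v ≠ e := fun h => hvE (h ▸ heE)
      have hVcomm : ∀ a ∈ V, ∀ b ∈ V, a * b = b * a := by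
        intro a ha b hb
        have h := mul_comm_of_exponent_two (G := ↥V) IsKleinFour.exponent_two ⟨a, ha⟩ ⟨b, hb⟩
        exact congrArg Subtype.val h
      have hMk := fourSub_klein v e hvv hee (hec v) hv1 he1 hve
      have hcard := card_le_sq E hcommE hsq v hvv
      have h3 : 3 ≤ Nat.card ↥(E ⊓ Subgroup.centralizer ({v} : Set P)) := by
        by_contra h
        push Not at h
        have h4 : Nat.card ↥(E ⊓ Subgroup.centralizer ({v} : Set P)) ^ 2 ≤ 2 ^ 2 :=
          Nat.pow_le_pow_left (by omega) 2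
        omega
      obtain ⟨e', he', he'1, he'e⟩ : ∃ e' ∈ E ⊓ Subgroup.centralizer ({v} : Set P),
          e' ≠ 1 ∧ e' ≠ e := by
        haveI : Fintype ↥(E ⊓ Subgroup.centralizer ({v} : Set P)) := Fintype.ofFinite _
        have h3' : 2 < Fintype.card ↥(E ⊓ Subgroup.centralizer ({v} : Set P)) := by
          rw [← Nat.card_eq_fintype_card]; omega
        obtain ⟨a, b, c, hab, hac, hbc⟩ := Fintype.two_lt_card_iff.mp h3'
        by_contra hno
        push Not at hno
        have hh : ∀ z : ↥(E ⊓ Subgroup.centralizer ({v} : Set P)),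
            (z : P) = 1 ∨ (z : P) = e := by
          intro z
          by_cases hz : (z : P) = 1
          · exact Or.inl hz
          · exact Or.inr (hno z.1 z.2 hz)
        rcases hh a with h1 | h1 <;> rcases hh b with h2 | h2 <;> rcases hh c with h3 | h3 <;>
          first
          | exact hab (Subtype.ext (h1.trans h2.symm))
          | exact hac (Subtype.ext (h1.trans h3.symm))
          | exact hbc (Subtype.ext (h2.trans h3.symm))
      have he'E : e' ∈ E := he'.1
      have he'v : v * e' = e' * v :=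
        Subgroup.mem_centralizer_iff.mp he'.2 v (Set.mem_singleton v)
      have he'e' : e' * e' = 1 := hsq e' he'E
      have hUk := fourSub_klein e e' hee he'e' (hcommE e heE e' he'E) he1 he'1 (Ne.symm he'e)
      refine ⟨fourSub e e' hee he'e' (hcommE e heE e' he'E), hUk, ?_, ?_⟩
      · intro x hx
        rw [mem_fourSub] at hx
        rcases hx with rfl | rfl | rfl | rfl
        · exact E.one_mem
        · exact heE
        · exact he'E
        · exact E.mul_mem heE he'E
      · have h1 : fRel V (fourSub v e hvv hee (hec v)) := by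
          refine ⟨hV, hMk, ?_⟩
          intro a ha b hb
          exact fourSub_comm v e hvv hee (hec v) a (hVcomm a ha v hvV) (hec a) b hb
        have h2 : fRel (fourSub v e hvv hee (hec v))
            (fourSub e e' hee he'e' (hcommE e heE e' he'E)) := by
          refine ⟨hMk, hUk, ?_⟩
          intro a ha b hb
          have hbv : b * v = v * b :=
            (fourSub_comm e e' hee he'e' _ v (hec v) he'v b hb).symm
          have hbe : b * e = e * b := hec b
          exact (fourSub_comm v e hvv hee (hec v) b hbv hbe a ha).symm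
        exact (Relation.ReflTransGen.single h1).trans (Relation.ReflTransGen.single h2)
  intro U V hU hV
  obtain ⟨U', hU'k, hU'E, hU'⟩ := key U hU
  obtain ⟨V', hV'k, hV'E, hV'⟩ := key V hV
  have hmid : fRel U' V' :=
    ⟨hU'k, hV'k, fun a ha b hb => hcommE a (hU'E ha) b (hV'E hb)⟩
  have hfin : Relation.ReflTransGen (fRel (P := P)) U V :=
    (hU'.trans (Relation.ReflTransGen.single hmid)).trans (hrev _ _ hV')
  exact hfin

end Cfsg.Agent.Lib_helper9_FourConn
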