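import Mathlib
import Cfsg.Prelude.Def_Solvable
import Cfsg.Agent.Lib_helper9_Frob

set_option autoImplicit false

namespace Cfsg.Agent.Lib_helper9_FrobCls

open scoped Pointwise

variable {G : Type*} [Group G]

theorem comm_of_mem (K : Subgroup G) (hK : IsMulCommutative K) {a b : G} (ha : a ∈ K)
    (hb : b ∈ K) : a * b = b * a :=
  congrArg Subtype.val (mul_comm' (⟨a, ha⟩ : K) ⟨b, hb⟩)

theorem mem_of_map_mem (K : Subgroup G) (hZK : Subgroup.center G ≤ K) (x : G)
    (h : QuotientGroup.mk' (Subgroup.center G) x ∈ K.map (QuotientGroup.mk' (Subgroup.center G))) :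
    x ∈ K := by
  obtain ⟨k, hk, e⟩ := h
  have h1 : k⁻¹ * x ∈ Subgroup.center G := by
    rw [← QuotientGroup.eq]; exact e
  have e2 : x = k * (k⁻¹ * x) := by group
  rw [e2]; exact K.mul_mem hk (hZK h1)

theorem centralizer_conj (x g : G) :
    Subgroup.centralizer ({g * x * g⁻¹} : Set G)
      = (Subgroup.centralizer ({x} : Set G)).map (MulAut.conj g).toMonoidHom := by
  ext c
  rw [Subgroup.mem_map_equiv, Subgroup.mem_centralizer_iff, Subgroup.mem_centralizer_iff]
  simp only [Set.mem_singleton_iff, forall_eq, MulAut.conj_symm_apply]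
  constructor
  · intro h
    calc x * (g⁻¹ * c * g) = g⁻¹ * (g * x * g⁻¹ * c) * g := by group
      _ = g⁻¹ * (c * (g * x * g⁻¹)) * g := by rw [h]
      _ = g⁻¹ * c * g * x := by group
  · intro h
    calc g * x * g⁻¹ * c = g * (x * (g⁻¹ * c * g)) * g⁻¹ := by group
      _ = g * (g⁻¹ * c * g * x) * g⁻¹ := by rw [h]
      _ = c * (g * x * g⁻¹) := by group

theorem index_centralizer_conj (x g : G) :
    (Subgroup.centralizer ({g * x * g⁻¹} : Set G)).index
      = (Subgroup.centralizer ({x} : Set G)).index := by
  rw [centralizer_conj]; exact Subgroup.index_map_equiv _ (MulAut.conj g)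

theorem main [Finite G] (K H : Subgroup G) (hZK : Subgroup.center G ≤ K)
    (hZH : Subgroup.center G ≤ H) (hK : IsMulCommutative K) (hH : IsMulCommutative H)
    (hFrob : Cfsg.IsFrobeniusComplement (H.map (QuotientGroup.mk' (Subgroup.center G))))
    (hker : Cfsg.frobeniusKernel (H.map (QuotientGroup.mk' (Subgroup.center G)))
      = (K.map (QuotientGroup.mk' (Subgroup.center G)) : Set (G ⧸ Subgroup.center G))) :
    Set.range (fun x : G => (Subgroup.centralizer ({x} : Set G)).index)
      = ({1, K.index, H.index} : Set ℕ) ∧ K.index.Coprime H.index := by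
  set π := QuotientGroup.mk' (Subgroup.center G) with hπ
  have hπs : Function.Surjective π := QuotientGroup.mk'_surjective _
  have hkerπ : π.ker = Subgroup.center G := QuotientGroup.ker_mk' _
  have hπ1 : ∀ x : G, π x = 1 ↔ x ∈ Subgroup.center G := fun x => by
    rw [← MonoidHom.mem_ker, hkerπ]
  have iK : (K.map π).index = K.index := Subgroup.index_map_eq K hπs (by rw [hkerπ]; exact hZK)
  have iH : (H.map π).index = H.index := Subgroup.index_map_eq H hπs (by rw [hkerπ]; exact hZH)
  have cK : Nat.card (K.map π) = (H.map π).index :=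
    Lib_helper9_Frob.card_kernel_subgroup hFrob hker.symm
  have hcop := Lib_helper9_Frob.coprime_index_card hFrob
  have e1 := Subgroup.card_mul_index (K.map π)
  have e2 := Subgroup.card_mul_index (H.map π)
  have hipos : 0 < (H.map π).index := Nat.pos_of_ne_zero Subgroup.index_ne_zero_of_finite
  have iK' : (K.map π).index = Nat.card (H.map π) := by
    rw [cK, ← e2] at e1
    have : (H.map π).index * (K.map π).index = (H.map π).index * Nat.card (H.map π) := by
      rw [e1]; ring
    exact Nat.eq_of_mul_eq_mul_left hipos this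
  have hcZ : ∀ x ∈ Subgroup.center G, (Subgroup.centralizer ({x} : Set G)).index = 1 := by
    intro x hx
    rw [Subgroup.index_eq_one, Subgroup.centralizer_eq_top_iff_subset]
    intro y hy
    rw [Set.mem_singleton_iff] at hy
    rw [hy]; exact hx
  have hcK : ∀ x ∈ K, x ∉ Subgroup.center G → Subgroup.centralizer ({x} : Set G) = K := by
    intro x hxK hxZ
    apply le_antisymm
    · intro c hc
      apply mem_of_map_mem K hZK
      have hcx : x * c = c * x := Subgroup.mem_centralizer_iff.mp hc x rfl
      by_contra hnot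
      have hnot' : π c ∉ Cfsg.frobeniusKernel (H.map π) := by rw [hker]; exact hnot
      rw [Lib_helper9_Frob.not_mem_kernel_iff] at hnot'
      obtain ⟨hc1, gb, hgb⟩ := hnot'
      rw [Lib_helper9_Frob.mem_conj_smul_iff] at hgb
      have hxk : π x ∈ Cfsg.frobeniusKernel (H.map π) := by rw [hker]; exact ⟨x, hxK, rfl⟩
      have hxk' := Lib_helper9_Frob.conj_mem_kernel hxk gb⁻¹
      have e : π x * π c = π c * π x := by rw [← map_mul, ← map_mul, hcx]
      have h3 := Lib_helper9_Frob.centralizer_kernel hFrob hgb (by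
          intro h
          apply hc1
          calc π c = gb * (gb⁻¹ * π c * gb) * gb⁻¹ := by group
            _ = 1 := by rw [h]; group) hxk' (by
          calc gb⁻¹ * π x * gb⁻¹⁻¹ * (gb⁻¹ * π c * gb) = gb⁻¹ * (π x * π c) * gb := by group
            _ = gb⁻¹ * (π c * π x) * gb := by rw [e]
            _ = gb⁻¹ * π c * gb * (gb⁻¹ * π x * gb⁻¹⁻¹) := by group)
      apply hxZ
      rw [← hπ1]
      calc π x = gb * (gb⁻¹ * π x * gb⁻¹⁻¹) * gb⁻¹ := by group
        _ = 1 := by rw [h3]; group
    · intro c hc
      rw [Subgroup.mem_centralizer_iff]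
      intro y hy
      rw [Set.mem_singleton_iff] at hy
      rw [hy]
      exact comm_of_mem K hK hxK hc
  have hcH : ∀ x ∈ H, x ∉ Subgroup.center G → Subgroup.centralizer ({x} : Set G) = H := by
    intro x hxH hxZ
    apply le_antisymm
    · intro c hc
      apply mem_of_map_mem H hZH
      have hcx : x * c = c * x := Subgroup.mem_centralizer_iff.mp hc x rfl
      by_contra hnot
      have h1 := hFrob.2.2 (π c) hnot
      have hmem : π x ∈ H.map π ⊓ MulAut.conj (π c) • H.map π := by
        refine Subgroup.mem_inf.mpr ⟨⟨x, hxH, rfl⟩, ?_⟩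
        rw [Lib_helper9_Frob.mem_conj_smul_iff]
        have e : (π c)⁻¹ * π x * π c = π x := by
          rw [← map_inv, ← map_mul, ← map_mul]
          congr 1
          calc c⁻¹ * x * c = c⁻¹ * (x * c) := by group
            _ = x := by rw [hcx]; group
        rw [e]; exact ⟨x, hxH, rfl⟩
      rw [h1, Subgroup.mem_bot, hπ1] at hmem
      exact hxZ hmem
    · intro c hc
      rw [Subgroup.mem_centralizer_iff]
      intro y hy
      rw [Set.mem_singleton_iff] at hy
      rw [hy]
      exact comm_of_mem H hH hxH hc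
  constructor
  · ext n
    simp only [Set.mem_range, Set.mem_insert_iff, Set.mem_singleton_iff]
    constructor
    · rintro ⟨x, rfl⟩
      by_cases hxZ : x ∈ Subgroup.center G
      · left; exact hcZ x hxZ
      · by_cases hxK : x ∈ K
        · right; left; rw [hcK x hxK hxZ]
        · right; right
          have hnot : π x ∉ Cfsg.frobeniusKernel (H.map π) := by
            rw [hker]; intro h; exact hxK (mem_of_map_mem K hZK x h)
          rw [Lib_helper9_Frob.not_mem_kernel_iff] at hnot
          obtain ⟨hx1, gb, hgb⟩ := hnot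
          obtain ⟨g, rfl⟩ := hπs gb
          rw [Lib_helper9_Frob.mem_conj_smul_iff, ← map_inv, ← map_mul, ← map_mul] at hgb
          have hx'H : g⁻¹ * x * g ∈ H := mem_of_map_mem H hZH _ hgb
          have e : x = g * (g⁻¹ * x * g) * g⁻¹ := by group
          have hx'Z : g⁻¹ * x * g ∉ Subgroup.center G := by
            intro h
            apply hxZ
            rw [e]
            exact Subgroup.Normal.conj_mem inferInstance _ h g
          rw [e, index_centralizer_conj, hcH _ hx'H hx'Z]
    · rintro (rfl | rfl | rfl)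
      · exact ⟨1, hcZ 1 (Subgroup.one_mem _)⟩
      · have hne : K.map π ≠ ⊥ := by
          intro h
          rw [h, Subgroup.card_bot] at cK
          exact hFrob.2.1 (Subgroup.index_eq_one.mp cK.symm)
        rw [Ne, Subgroup.map_eq_bot_iff, hkerπ] at hne
        obtain ⟨x, hxK, hxZ⟩ := SetLike.not_le_iff_exists.mp hne
        exact ⟨x, by rw [hcK x hxK hxZ]⟩
      · have hne := hFrob.1
        rw [Ne, Subgroup.map_eq_bot_iff, hkerπ] at hne
        obtain ⟨x, hxH, hxZ⟩ := SetLike.not_le_iff_exists.mp hne
        exact ⟨x, by rw [hcH x hxH hxZ]⟩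
  · rw [← iK, ← iH, iK']; exact hcop.symm

end Cfsg.Agent.Lib_helper9_FrobCls
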