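import Mathlib
import Cfsg.Prelude.Def_FusionSystem
import Cfsg.Prelude.Def_TwoFusion
import Cfsg.Agent.Lib_helper9_FusionChain
import Cfsg.Agent.Lib_helper9_GroupFusion
import Cfsg.Agent.Lib_helper7_Sylow

set_option autoImplicit false

namespace Cfsg.Agent.Lib_helper9_FusionClass2

open Cfsg Cfsg.FusionSystem Cfsg.Agent.Lib_helper9_Fusion Cfsg.Agent.Lib_helper9_FusionNC
  Cfsg.Agent.Lib_helper9_FusionSat Cfsg.Agent.Lib_helper9_FusionGen
  Cfsg.Agent.Lib_helper9_FusionGen2 Cfsg.Agent.Lib_helper9_FusionChain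
  Cfsg.Agent.Lib_helper9_GroupFusion

theorem class_two {G : Type*} [Group G] [Finite G] (p : ℕ) [Fact p.Prime] (S : Sylow p G)
    (hcl : ⁅(S : Subgroup G), (S : Subgroup G)⁆ ≤
      (S : Subgroup G) ⊓ Subgroup.centralizer ((S : Subgroup G) : Set G))
    (hZ : Cfsg.IsStronglyClosed ((S : Subgroup G) ⊓ Subgroup.centralizer ((S : Subgroup G) : Set G))
      (S : Subgroup G)) :
    (∀ (P : Subgroup G) (φ : P →* G), φ ∈ (Cfsg.groupFusionSystem (S : Subgroup G)).Hom P →
      ∃ g ∈ Subgroup.normalizer ((S : Subgroup G) : Set G), ∀ x : P, φ x = g * (x : G) * g⁻¹) ∧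
    (Cfsg.groupFusionSystem (S : Subgroup G)).core = S := by
  have hS : IsPGroup p (S : Subgroup G) := S.isPGroup'
  have hF : (groupFusionSystem (S : Subgroup G)).IsSaturated p := groupFusionSystem_saturated S
  have hZSC : (groupFusionSystem (S : Subgroup G)).StronglyClosed
      ((S : Subgroup G) ⊓ Subgroup.centralizer ((S : Subgroup G) : Set G)) := by
    refine ⟨inf_le_left, fun R hR φ hφ x => ?_⟩
    obtain ⟨-, hφS, g, hg⟩ := hφ
    rw [hg]
    exact hZ.2 x (hR x.2) g (hg x ▸ hφS x)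
  have hN : (groupFusionSystem (S : Subgroup G)).IsNormal (S : Subgroup G) := by
    apply isNormal_of_chain p hS _ hF (n := 2)
      ![⊥, (S : Subgroup G) ⊓ Subgroup.centralizer ((S : Subgroup G) : Set G), (S : Subgroup G)]
      rfl rfl
    · rw [Fin.monotone_iff_le_succ]
      intro i
      fin_cases i
      · exact bot_le
      · exact inf_le_left
    · intro i
      fin_cases i
      · refine ⟨hZSC, ?_⟩
        show ⁅(S : Subgroup G), (S : Subgroup G) ⊓ Subgroup.centralizer ((S : Subgroup G) : Set G)⁆ ≤ ⊥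
        rw [Subgroup.commutator_le]
        intro a ha b hb
        rw [Subgroup.mem_bot, commutatorElement_eq_one_iff_commute]
        exact (Subgroup.mem_centralizer_iff.mp hb.2 a ha)
      · exact ⟨stronglyClosed_top _, hcl⟩
  constructor
  · intro P φ hφ
    obtain ⟨ψ, hψ, hext, hmap⟩ := hN.2 P φ hφ
    obtain ⟨-, hψS, g, hg⟩ := hψ
    refine ⟨g, ?_, fun x => ?_⟩
    · apply Cfsg.Agent.Lib_helper7_Sylow.mem_normalizer_of_conj_le
      rintro _ ⟨s, hs, rfl⟩
      have h1 := hψS ⟨s, Subgroup.mem_sup_right hs⟩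
      rw [hg] at h1
      exact h1
    · rw [← hext x, hg]
      rfl
  · apply le_antisymm
    · apply sSup_le
      intro Q hQ
      exact hQ.1
    · exact le_sSup hN

end Cfsg.Agent.Lib_helper9_FusionClass2
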