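import Mathlib
import Cfsg.Prelude.Def_FusionSystem
import Cfsg.Agent.Lib_helper9_FusionEss2

set_option autoImplicit false

namespace Cfsg.Agent.Lib_helper9_FusionEss3

open Cfsg Cfsg.FusionSystem Cfsg.Agent.Lib_helper9_Fusion Cfsg.Agent.Lib_helper9_FusionNC
  Cfsg.Agent.Lib_helper9_FusionSat Cfsg.Agent.Lib_helper9_FusionGen
  Cfsg.Agent.Lib_helper9_FusionGen2 Cfsg.Agent.Lib_helper9_FusionEss
  Cfsg.Agent.Lib_helper9_FusionFocal Cfsg.Agent.Lib_helper9_FusionEss2

variable {Ω : Type*} [Group Ω] {S : Subgroup Ω}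

theorem ext_subgroup [Finite S] (p : ℕ) [Fact p.Prime] (hS : IsPGroup p S)
    (F : FusionSystem S) (hF : F.IsSaturated p) (P : Subgroup Ω) (hPS : P < S)
    (hPn : F.IsFullyNormalized P) (H : Subgroup (MulAut P))
    (hH : H = Subgroup.closure {α : MulAut P | ∃ (Q : Subgroup Ω) (hPQ : P < Q) (φ : Q →* Ω),
      φ ∈ F.Hom Q ∧ ∀ x : P, φ (Subgroup.inclusion hPQ.le x) = α x}) :
    (¬ F.IsEssential p P ∧ H = F.autGroup P) ∨ (F.IsEssential p P ∧
      ∃ _ : ((Cfsg.Inn P).subgroupOf (F.autGroup P)).Normal,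
        Cfsg.IsStronglyPEmbedded p ((H.subgroupOf (F.autGroup P)).map
          (QuotientGroup.mk' ((Cfsg.Inn P).subgroupOf (F.autGroup P))))) := by
  have hPle := hPS.le
  haveI : Finite P := finite_of_le hPle
  obtain ⟨hFC, hFA⟩ := fullyNormalized_imp p hS F hF hPn
  have hRec := receptive_of_fullyCentralized p hS F hF hFC
  have hgenA : ∀ α : MulAut P, (∃ (Q : Subgroup Ω) (hPQ : P < Q) (φ : Q →* Ω),
      φ ∈ F.Hom Q ∧ ∀ x : P, φ (Subgroup.inclusion hPQ.le x) = α x) → α ∈ F.autGroup P := by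
    rintro α ⟨Q, hPQ, φ, hφ, hφα⟩
    exact (mem_autGroup_iff F hPle α).mpr (restrict_mem' F hφ hPQ.le (fun x => (hφα x).symm))
  have hHA : H ≤ F.autGroup P := by
    rw [hH]
    exact (Subgroup.closure_le _).mpr hgenA
  have hB : ∀ a : MulAut P, a ∈ F.autGroup P →
      (∃ g ∈ extender S P (P.subtype.comp a.toMonoidHom), g ∉ P) → a ∈ H := by
    rintro a ha ⟨g, hg, hgP⟩
    rw [mem_autGroup_iff F hPle] at ha
    obtain ⟨ψ, hψ, hψext⟩ := hRec.2 P _ ha (range_aut a)
    have hle : P ≤ extender S P (P.subtype.comp a.toMonoidHom) := le_extender F ha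
    have hlt : P < extender S P (P.subtype.comp a.toMonoidHom) :=
      lt_of_le_of_ne hle (fun h => hgP (by rw [h]; exact hg))
    rw [hH]
    exact Subgroup.subset_closure ⟨_, hlt, ψ, hψ, fun x => hψext x x.2 (hle x.2)⟩
  have hInn : Inn P ≤ H := by
    intro α hα
    obtain ⟨g, hg, hαg⟩ := exists_of_mem_inn hα
    rw [hH]
    exact Subgroup.subset_closure ⟨S, hPS, conjHom S g, F.conj_mem le_rfl (hPle hg),
      fun x => (hαg x).symm⟩
  by_cases hess : F.IsEssential p P
  · right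
    refine ⟨hess, inferInstance, ?_⟩
    obtain ⟨Y, hYtop, -, hY⟩ := exists_Y p hS F hF hess
    obtain ⟨R, hR⟩ := hFA.2
    have hsurj := QuotientGroup.mk'_surjective ((Inn P).subgroupOf (F.autGroup P))
    have hPbar : ((R.mapSurjective hsurj : Sylow p _) : Subgroup (F.autGroup P ⧸ (Inn P).subgroupOf (F.autGroup P))) =
        ((autInducedBy S P).subgroupOf (F.autGroup P)).map
          (QuotientGroup.mk' ((Inn P).subgroupOf (F.autGroup P))) := by
      rw [Sylow.coe_mapSurjective, hR]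
    have hC : centralizerIn S P ≤ P := hess.1.2 P (isConj_refl F hPle)
    obtain ⟨hcen, hfn, hnorm, Y₀, hY₀⟩ := hess
    refine ⟨hY₀.1, ?_, R.mapSurjective hsurj, core_le_map p F hPle H hB _ hPbar⟩
    -- the image of `H` lies in `Y`
    have hM : ∀ m d : MulAut P, m ∈ F.autGroup P → d ∈ autInducedBy S P → d ∉ Inn P →
        m * d * m⁻¹ ∈ autInducedBy S P → m ∈ (Y.comap (QuotientGroup.mk'
          ((Inn P).subgroupOf (F.autGroup P)))).map (F.autGroup P).subtype :=
      fun m d hm hd hdI hmd => ⟨⟨m, hm⟩, hY ⟨m, hm⟩ d hd hdI hmd, rfl⟩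
    have hHK : H ≤ (Y.comap (QuotientGroup.mk'
          ((Inn P).subgroupOf (F.autGroup P)))).map (F.autGroup P).subtype := by
      rw [hH]
      apply (Subgroup.closure_le _).mpr
      rintro α ⟨Q, hPQ, φ, hφ, hφα⟩
      have hQS := (F.le_of_mem hφ).1
      haveI : Finite Q := finite_of_le hQS
      obtain ⟨g₁, hg₁N, hg₁P⟩ := exists_normalizer_not_mem (S := Q) (hS.to_le hQS) hPQ
      have hφP : ∀ x : P, φ ⟨x, hPQ.le x.2⟩ ∈ P := fun x => by
        have h0 := hφα x
        have h1 : φ ⟨x, hPQ.le x.2⟩ = ((α x : P) : Ω) := h0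
        rw [h1]; exact (α x).2
      refine key F _ hM hC (good_subtype F hPle) (good_subtype F hPle) hφ hPQ.le hg₁N.1 hg₁N.2
        hg₁P hφP α (fun x y hy => ?_)
      have hy' : y = x := Subtype.ext hy
      rw [hy']
      exact (hφα x).symm
    intro htop
    apply hYtop
    rw [eq_top_iff, ← htop]
    rintro _ ⟨a, ha, rfl⟩
    obtain ⟨a', ha', heq⟩ := hHK (Subgroup.mem_subgroupOf.mp ha)
    have : a' = a := Subtype.ext heq
    subst this
    exact ha'
  · left
    refine ⟨hess, le_antisymm hHA ?_⟩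
    by_cases hC : centralizerIn S P ≤ P
    · exact aut_le_of_not_essential p hS F hF hPn hPS hC hess H hInn hB
    · intro a ha
      obtain ⟨g, hg, hgP⟩ := SetLike.not_le_iff_exists.mp hC
      exact hB a ha ⟨g, centralizerIn_le_extender S P _ hg, hgP⟩

end Cfsg.Agent.Lib_helper9_FusionEss3
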