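import Mathlib
import Cfsg.Prelude.Def_FusionSystem
import Cfsg.Agent.Lib_helper9_FusionEss2
import Cfsg.Agent.Lib_helper9_PGroup
import Cfsg.Agent.Lib_helper9_FusionAbel

set_option autoImplicit false

namespace Cfsg.Agent.Lib_helper9_FusionRS

open Cfsg Cfsg.FusionSystem Cfsg.Agent.Lib_helper9_Fusion Cfsg.Agent.Lib_helper9_FusionNC
  Cfsg.Agent.Lib_helper9_FusionSat Cfsg.Agent.Lib_helper9_FusionGen
  Cfsg.Agent.Lib_helper9_FusionGen2 Cfsg.Agent.Lib_helper9_FusionEss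
  Cfsg.Agent.Lib_helper9_FusionFocal Cfsg.Agent.Lib_helper9_FusionEss2
  Cfsg.Agent.Lib_helper9_PGroup

variable {Ω : Type*} [Group Ω] {S : Subgroup Ω}

theorem exists_ppow_pow {A B : Type*} [Group A] [Group B] [Finite A] (p : ℕ) [Fact p.Prime]
    (a : A) (b : B) (e : ℕ) (hb : b ^ (p ^ e) = 1) :
    ∃ k f : ℕ, (a ^ k) ^ (p ^ f) = 1 ∧ b ^ k = b := by
  have hn : orderOf a ≠ 0 := (orderOf_pos a).ne'
  obtain ⟨f, m, hm, hnm⟩ := Nat.exists_eq_pow_mul_and_not_dvd hn p (Fact.out : p.Prime).ne_one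
  have hco : (p ^ e).Coprime m :=
    Nat.Coprime.pow_left e ((Nat.Prime.coprime_iff_not_dvd (Fact.out : p.Prime)).mpr hm)
  obtain ⟨k, hk1, hk0⟩ := Nat.chineseRemainder hco 1 0
  refine ⟨k, f, ?_, ?_⟩
  · rw [← pow_mul]
    apply orderOf_dvd_iff_pow_eq_one.mp
    rw [hnm, mul_comm k]
    exact Nat.mul_dvd_mul dvd_rfl ((Nat.modEq_zero_iff_dvd).mp hk0)
  · have h1 : orderOf b ∣ p ^ e := orderOf_dvd_of_pow_eq_one hb
    have h2 : b ^ k = b ^ 1 := pow_eq_pow_iff_modEq.mpr (Nat.ModEq.of_dvd h1 hk1)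
    rw [h2, pow_one]

theorem isPGroup_zpowers_of_pow {A : Type*} [Group A] (p : ℕ) [Fact p.Prime] (g : A) (f : ℕ)
    (h : g ^ (p ^ f) = 1) : IsPGroup p (Subgroup.zpowers g) := by
  have h1 : orderOf g ∣ p ^ f := orderOf_dvd_of_pow_eq_one h
  obtain ⟨j, -, hj⟩ := (Nat.dvd_prime_pow (Fact.out : p.Prime)).mp h1
  apply IsPGroup.of_card (n := j)
  rw [Nat.card_zpowers, hj]

theorem fullyAutomized_of_rs [Finite S] (p : ℕ) [Fact p.Prime] (hS : IsPGroup p S)
    (F : FusionSystem S) (hSA : F.IsFullyAutomized p S)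
    (hrec : ∀ P : Subgroup Ω, F.IsFullyNormalized P → F.IsReceptive P) :
    ∀ n : ℕ, ∀ Q : Subgroup Ω, Nat.card S - Nat.card Q = n → F.IsFullyNormalized Q →
      F.IsFullyAutomized p Q := by
  intro n
  induction n using Nat.strong_induction_on with
  | _ n ih =>
    intro Q hn hQ
    have hQS := hQ.1
    by_cases hQeq : Q = S
    · rw [hQeq]; exact hSA
    have hQlt : Q < S := lt_of_le_of_ne hQS hQeq
    haveI : Finite Q := finite_of_le hQS
    by_contra hnot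
    have hASp : IsPGroup p ((autInducedBy S Q).subgroupOf (F.autGroup Q)) :=
      (isPGroup_autInducedBy hS Q).comap_subtype
    obtain ⟨R, hR⟩ := hASp.exists_le_sylow
    have hne : (autInducedBy S Q).subgroupOf (F.autGroup Q) ≠ (R : Subgroup (F.autGroup Q)) :=
      fun h => hnot ⟨hQS, R, h.symm⟩
    have hlt : (autInducedBy S Q).subgroupOf (F.autGroup Q) < (R : Subgroup (F.autGroup Q)) :=
      lt_of_le_of_ne hR hne
    obtain ⟨a, haN, haAS⟩ := exists_normalizer_not_mem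
      (S := (R : Subgroup (F.autGroup Q))) R.isPGroup' hlt
    obtain ⟨e, he⟩ := R.isPGroup' ⟨a, haN.1⟩
    have hae : (a : MulAut Q) ^ (p ^ e) = 1 := by
      have h1 := congrArg (fun z : (R : Subgroup (F.autGroup Q)) => ((z : F.autGroup Q) : MulAut Q)) he
      exact h1
    have haF := (mem_autGroup_iff F hQS _).mp a.2
    -- the extender of `a` contains `N_S(Q)`
    have hNext : normalizerIn S Q ≤ extender S Q (Q.subtype.comp (a : MulAut Q).toMonoidHom) := by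
      intro g hg
      have hcg : Subgroup.normalizerMonoidHom Q ⟨g, hg.2⟩ ∈ autInducedBy S Q :=
        Subgroup.subset_closure ⟨g, hg.1, fun x => rfl⟩
      have hd : (⟨Subgroup.normalizerMonoidHom Q ⟨g, hg.2⟩,
          autInducedBy_le_autGroup F hQS hcg⟩ : F.autGroup Q) ∈
          (autInducedBy S Q).subgroupOf (F.autGroup Q) := Subgroup.mem_subgroupOf.mpr hcg
      have h1 := ((Subgroup.mem_normalizer_iff
        (H := (autInducedBy S Q).subgroupOf (F.autGroup Q))).mp haN.2 _).mp hd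
      obtain ⟨h, hhS, hh⟩ := (mem_autInducedBy_iff S Q _).mp (Subgroup.mem_subgroupOf.mp h1)
      exact mem_extender_of_conj (S := S) (a : MulAut Q)
        (Subgroup.normalizerMonoidHom Q ⟨g, hg.2⟩) hg.1 hhS (fun x => rfl) hh
    have hRec := hrec Q hQ
    obtain ⟨ψ, hψ, hψext⟩ := hRec.2 Q _ haF (range_aut (a : MulAut Q))
    have hQN : Q ≤ normalizerIn S Q := le_inf hQS Subgroup.le_normalizer
    have hNS : normalizerIn S Q ≤ S := inf_le_left
    haveI : Finite (normalizerIn S Q) := finite_of_le hNS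
    have hat := restrict_mem F hψ hNext
    have hatx : ∀ x : Q, (ψ.comp (Subgroup.inclusion hNext)) ⟨x, hQN x.2⟩ =
        (((a : MulAut Q) x : Q) : Ω) := fun x => hψext x x.2 (hNext (hQN x.2))
    have hatN : ∀ g : normalizerIn S Q, (ψ.comp (Subgroup.inclusion hNext)) g ∈ normalizerIn S Q := by
      intro g
      refine ⟨(F.le_of_mem hat).2 g, mem_normalizer_of_conj_mem (fun q hq => ?_)⟩
      have hq0 : (g : Ω) * ((((a : MulAut Q)⁻¹ ⟨q, hq⟩ : Q)) : Ω) * (g : Ω)⁻¹ ∈ Q :=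
        (Subgroup.mem_normalizer_iff.mp g.2.2 _).mp (Subtype.property _)
      have h1 := hatx ((a : MulAut Q)⁻¹ ⟨q, hq⟩)
      rw [MulAut.apply_inv_self] at h1
      have h2 : (ψ.comp (Subgroup.inclusion hNext)) g * q *
          ((ψ.comp (Subgroup.inclusion hNext)) g)⁻¹ =
          (ψ.comp (Subgroup.inclusion hNext)) ⟨_, hQN hq0⟩ := by
        have h3 : (⟨_, hQN hq0⟩ : normalizerIn S Q) =
            g * ⟨_, hQN (Subtype.property ((a : MulAut Q)⁻¹ ⟨q, hq⟩))⟩ * g⁻¹ := Subtype.ext rfl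
        rw [h3, map_mul, map_mul, map_inv, h1]
      rw [h2, hatx ⟨_, hq0⟩]
      exact Subtype.property _
    have hatr : (ψ.comp (Subgroup.inclusion hNext)).range = normalizerIn S Q := by
      apply Subgroup.eq_of_le_of_card_ge
      · rintro _ ⟨g, rfl⟩; exact hatN g
      · exact (Nat.card_congr (MonoidHom.ofInjective (F.injective_of_mem hat)).toEquiv).le
    obtain ⟨ah, hah⟩ : ∃ ah : MulAut (normalizerIn S Q),
        ah = isoOf _ (F.injective_of_mem hat) hatr := ⟨_, rfl⟩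
    have hahA : ah ∈ F.autGroup (normalizerIn S Q) := hah ▸ isoOf_mem_autGroup F hat hatr
    have hahx : ∀ x : Q, ((ah ⟨x, hQN x.2⟩ : normalizerIn S Q) : Ω) =
        (((a : MulAut Q) x : Q) : Ω) := by
      intro x; rw [hah]; exact hatx x
    have hahpow : ∀ j : ℕ, ∀ x : Q, (((ah ^ j) ⟨x, hQN x.2⟩ : normalizerIn S Q) : Ω) =
        ((((a : MulAut Q) ^ j) x : Q) : Ω) := by
      intro j
      induction j with
      | zero => intro x; rfl
      | succ j ihj =>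
        intro x
        rw [pow_succ', pow_succ']
        show ((ah ((ah ^ j) ⟨x, hQN x.2⟩) : normalizerIn S Q) : Ω) =
          (((a : MulAut Q) (((a : MulAut Q) ^ j) x) : Q) : Ω)
        rw [← hahx]
        congr 2
        exact Subtype.ext (ihj x)
    obtain ⟨k, f, hk1, hk2⟩ := exists_ppow_pow p ah (a : MulAut Q) e hae
    have hbA : ah ^ k ∈ F.autGroup (normalizerIn S Q) := Subgroup.pow_mem _ hahA k
    have hbx : ∀ x : Q, (((ah ^ k) ⟨x, hQN x.2⟩ : normalizerIn S Q) : Ω) =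
        (((a : MulAut Q) x : Q) : Ω) := by
      intro x; rw [hahpow, hk2]
    obtain ⟨b, hbdef⟩ : ∃ b : MulAut (normalizerIn S Q), b = ah ^ k := ⟨_, rfl⟩
    rw [← hbdef] at hk1 hbA hbx
    -- a fully normalized conjugate of the normalizer
    obtain ⟨N₁, ⟨χ₀, hχ₀, hr₀⟩, hN₁fn⟩ := exists_fullyNormalized_conj F hNS
    have hN₁S := hN₁fn.1
    haveI : Finite N₁ := finite_of_le hN₁S
    have hcN : Nat.card (normalizerIn S Q) = Nat.card N₁ := card_eq_of_isConj F ⟨χ₀, hχ₀, hr₀⟩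
    have hcQN : Nat.card Q < Nat.card (normalizerIn S Q) := card_lt_card_normalizerIn hS hQlt
    have hcN₁S : Nat.card N₁ ≤ Nat.card S := Subgroup.card_le_of_le hN₁S
    have hcQS : Nat.card Q ≤ Nat.card S := Subgroup.card_le_of_le hQS
    obtain ⟨-, R₁, hR₁⟩ := ih (Nat.card S - Nat.card N₁) (by omega) N₁ rfl hN₁fn
    have hb₁pow : (autTransport F hχ₀ hr₀ ⟨b, hbA⟩) ^ (p ^ f) = 1 := by
      rw [← map_pow]
      have h1 : (⟨b, hbA⟩ : F.autGroup (normalizerIn S Q)) ^ (p ^ f) = 1 := Subtype.ext hk1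
      rw [h1, map_one]
    obtain ⟨k₁, hk₁⟩ := exists_conj_le_sylow R₁ (Subgroup.zpowers (autTransport F hχ₀ hr₀ ⟨b, hbA⟩))
      (isPGroup_zpowers_of_pow p _ f hb₁pow)
    have hc := hk₁ _ (Subgroup.mem_zpowers _)
    rw [hR₁] at hc
    obtain ⟨s, hsS, hs⟩ := (mem_autInducedBy_iff S N₁ _).mp (Subgroup.mem_subgroupOf.mp hc)
    -- the isomorphism `χ = k₁ ∘ χ₀`
    obtain ⟨χ, hχdef⟩ : ∃ χ : normalizerIn S Q ≃* N₁,
        χ = (isoOf χ₀ (F.injective_of_mem hχ₀) hr₀).trans (k₁ : MulAut N₁) := ⟨_, rfl⟩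
    have hχb : ∀ x : normalizerIn S Q, ((χ (b x) : N₁) : Ω) = s * ((χ x : N₁) : Ω) * s⁻¹ := by
      intro x
      rw [← hs (χ x), hχdef]
      show (((k₁ : MulAut N₁) (isoOf χ₀ (F.injective_of_mem hχ₀) hr₀ (b x)) : N₁) : Ω) =
        (((k₁ : MulAut N₁) (((autTransport F hχ₀ hr₀ ⟨b, hbA⟩ : F.autGroup N₁) : MulAut N₁)
          ((k₁ : MulAut N₁)⁻¹ ((k₁ : MulAut N₁) (isoOf χ₀ (F.injective_of_mem hχ₀) hr₀ x)))) : N₁) : Ω)
      rw [MulAut.inv_apply_self, autTransport_apply]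
    have hχF : N₁.subtype.comp χ.toMonoidHom ∈ F.Hom (normalizerIn S Q) := by
      have hk₁F := (mem_autGroup_iff F hN₁S _).mp k₁.2
      refine comp_mem' F hχ₀ hk₁F (fun x => ⟨hr₀ ▸ ⟨x, rfl⟩, ?_⟩)
      rw [hχdef]
      rfl
    -- the image of `Q`
    obtain ⟨Q₁, hQ₁def⟩ : ∃ Q₁ : Subgroup Ω,
        Q₁ = (Q.subgroupOf (normalizerIn S Q)).map (N₁.subtype.comp χ.toMonoidHom) := ⟨_, rfl⟩
    have hQ₁mem : ∀ y : Ω, y ∈ Q₁ ↔ ∃ q : Q, ((χ ⟨q, hQN q.2⟩ : N₁) : Ω) = y := by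
      intro y
      rw [hQ₁def]
      constructor
      · rintro ⟨x, hx, rfl⟩
        exact ⟨⟨x, Subgroup.mem_subgroupOf.mp hx⟩, rfl⟩
      · rintro ⟨q, rfl⟩
        exact ⟨⟨q, hQN q.2⟩, Subgroup.mem_subgroupOf.mpr q.2, rfl⟩
    have hQ₁N₁ : Q₁ ≤ N₁ := by
      intro y hy
      obtain ⟨q, rfl⟩ := (hQ₁mem y).mp hy
      exact Subtype.property _
    haveI : Finite Q₁ := finite_of_le (hQ₁N₁.trans hN₁S)
    have hconjQ : F.IsConj Q Q₁ := by
      refine ⟨(N₁.subtype.comp χ.toMonoidHom).comp (Subgroup.inclusion hQN),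
        restrict_mem F hχF hQN, ?_⟩
      ext y
      rw [hQ₁mem]
      constructor
      · rintro ⟨q, rfl⟩; exact ⟨q, rfl⟩
      · rintro ⟨q, rfl⟩; exact ⟨q, rfl⟩
    have hcard := hQ.2 Q₁ hconjQ
    have hN₁le : N₁ ≤ normalizerIn S Q₁ := by
      intro y hy
      refine ⟨hN₁S hy, mem_normalizer_of_conj_mem (fun z hz => ?_)⟩
      obtain ⟨q, rfl⟩ := (hQ₁mem z).mp hz
      obtain ⟨g, hg⟩ : ∃ g : normalizerIn S Q, χ g = ⟨y, hy⟩ := χ.surjective _
      have hy' : y = ((χ g : N₁) : Ω) := by rw [hg]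
      have hq0 : (g : Ω) * (q : Ω) * (g : Ω)⁻¹ ∈ Q :=
        (Subgroup.mem_normalizer_iff.mp g.2.2 _).mp q.2
      rw [hQ₁mem]
      refine ⟨⟨_, hq0⟩, ?_⟩
      have h3 : (⟨_, hQN hq0⟩ : normalizerIn S Q) = g * ⟨q, hQN q.2⟩ * g⁻¹ := Subtype.ext rfl
      rw [h3, map_mul, map_mul, map_inv, hy']
      rfl
    haveI : Finite (normalizerIn S Q₁) := finite_of_le inf_le_left
    have hN₁eq : N₁ = normalizerIn S Q₁ :=
      Subgroup.eq_of_le_of_card_ge hN₁le (by rw [← hcN]; exact hcard)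
    have hsN : s ∈ N₁ := by
      rw [hN₁eq]
      refine ⟨hsS, mem_normalizer_of_conj_mem (fun z hz => ?_)⟩
      obtain ⟨q, rfl⟩ := (hQ₁mem z).mp hz
      rw [← hχb, hQ₁mem]
      refine ⟨(a : MulAut Q) q, ?_⟩
      congr 2
      exact Subtype.ext (hbx q).symm
    obtain ⟨t, ht⟩ : ∃ t : normalizerIn S Q, χ t = ⟨s, hsN⟩ := χ.surjective _
    have hbt : ∀ x : normalizerIn S Q, b x = t * x * t⁻¹ := by
      intro x
      apply χ.injective
      apply Subtype.ext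
      rw [hχb, map_mul, map_mul, map_inv, ht]
      rfl
    apply haAS
    rw [Subgroup.mem_subgroupOf, mem_autInducedBy_iff]
    refine ⟨t, hNS t.2, fun q => ?_⟩
    rw [← hbx q, hbt]
    rfl

theorem saturated_iff_rs [Finite S] (p : ℕ) [Fact p.Prime] (hS : IsPGroup p S)
    (F : FusionSystem S) :
    F.IsSaturated p ↔ (F.IsFullyAutomized p S ∧
      ∀ P : Subgroup Ω, F.IsFullyNormalized P → F.IsReceptive P) := by
  constructor
  · intro hF
    refine ⟨(fullyNormalized_imp p hS F hF (Cfsg.Agent.Lib_helper9_FusionAbel.fullyNormalized_top F)).2, fun P hP =>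
      receptive_of_fullyCentralized p hS F hF (fullyNormalized_imp p hS F hF hP).1⟩
  · rintro ⟨hSA, hrec⟩ P hP
    obtain ⟨Q, hQ, hQn⟩ := exists_fullyNormalized_conj F hP
    exact ⟨Q, hQ, fullyAutomized_of_rs p hS F hSA hrec _ Q rfl hQn, hrec Q hQn⟩

end Cfsg.Agent.Lib_helper9_FusionRS
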