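import Mathlib
import Cfsg.Prelude.Def_FusionSystem
import Cfsg.Agent.Lib_helper9_FusionRS

set_option autoImplicit false

namespace Cfsg.Agent.Lib_helper9_FusionSInv

open Cfsg Cfsg.FusionSystem Cfsg.Agent.Lib_helper9_Fusion Cfsg.Agent.Lib_helper9_FusionNC
  Cfsg.Agent.Lib_helper9_FusionSat Cfsg.Agent.Lib_helper9_FusionGen
  Cfsg.Agent.Lib_helper9_FusionGen2 Cfsg.Agent.Lib_helper9_FusionEss
  Cfsg.Agent.Lib_helper9_FusionEss2 Cfsg.Agent.Lib_helper9_FusionAbel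

variable {Ω : Type*} [Group Ω] {S : Subgroup Ω}

/-- the invariance condition -/
def Inv {T : Subgroup Ω} (E : FusionSystem T) (F : FusionSystem S) : Prop :=
  ∀ (P : Subgroup Ω) (hPT : P ≤ T) (φ : P →* Ω), φ ∈ E.Hom P → ∀ α ∈ F.autGroup T,
      ∃ χ ∈ E.Hom ((P.subgroupOf T).map (T.subtype.comp α.toMonoidHom)),
        ∀ (x : P) (hφx : φ x ∈ T)
          (hαx : ((α ⟨x, hPT x.2⟩ : T) : Ω) ∈
            (P.subgroupOf T).map (T.subtype.comp α.toMonoidHom)),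
          χ ⟨(α ⟨x, hPT x.2⟩ : T), hαx⟩ = ((α ⟨φ x, hφx⟩ : T) : Ω)

/-- decomposable maps: an element of `Aut_F(T)` composed with a map of `E`. -/
def Dec {T : Subgroup Ω} (E : FusionSystem T) (F : FusionSystem S) (P : Subgroup Ω)
    (φ : P →* Ω) : Prop :=
  ∃ α ∈ F.autGroup T, ∃ φ₀ ∈ E.Hom P, ∀ (x : P) (hx : φ₀ x ∈ T),
    φ x = ((α ⟨φ₀ x, hx⟩ : T) : Ω)

/-- a usable form of the invariance condition -/
theorem inv_usable {T : Subgroup Ω} {E : FusionSystem T} {F : FusionSystem S} (hinv : Inv E F)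
    {P : Subgroup Ω} (hPT : P ≤ T) {φ : P →* Ω} (hφ : φ ∈ E.Hom P) {α : MulAut T}
    (hα : α ∈ F.autGroup T) (P' : Subgroup Ω)
    (hP' : ∀ y ∈ P', ∃ x : P, y = ((α ⟨x, hPT x.2⟩ : T) : Ω)) :
    ∃ χ ∈ E.Hom P', ∀ (x : P) (hx : ((α ⟨x, hPT x.2⟩ : T) : Ω) ∈ P'),
      χ ⟨(α ⟨x, hPT x.2⟩ : T), hx⟩ = ((α ⟨φ x, (E.le_of_mem hφ).2 x⟩ : T) : Ω) := by
  obtain ⟨χ, hχ, hχe⟩ := hinv P hPT φ hφ α hα
  have hle : P' ≤ (P.subgroupOf T).map (T.subtype.comp α.toMonoidHom) := by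
    intro y hy
    obtain ⟨x, rfl⟩ := hP' y hy
    exact ⟨⟨x, hPT x.2⟩, Subgroup.mem_subgroupOf.mpr x.2, rfl⟩
  refine ⟨χ.comp (Subgroup.inclusion hle), restrict_mem E hχ hle, fun x hx => ?_⟩
  exact hχe x ((E.le_of_mem hφ).2 x) (hle hx)

theorem dec_restrict {T : Subgroup Ω} {E : FusionSystem T} {F : FusionSystem S}
    {P R : Subgroup Ω} {φ : P →* Ω} (h : Dec E F P φ) (hRP : R ≤ P) {χ : R →* Ω}
    (hχ : ∀ x : R, χ x = φ ⟨x, hRP x.2⟩) : Dec E F R χ := by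
  obtain ⟨α, hα, φ₀, hφ₀, he⟩ := h
  refine ⟨α, hα, φ₀.comp (Subgroup.inclusion hRP), restrict_mem E hφ₀ hRP, fun x hx => ?_⟩
  rw [hχ]
  exact he ⟨x, hRP x.2⟩ hx

theorem dec_comp {T : Subgroup Ω} {E : FusionSystem T} {F : FusionSystem S} (hinv : Inv E F)
    {P P' : Subgroup Ω} {φ : P →* Ω} {φ' : P' →* Ω} (hφ : Dec E F P φ) (hφ' : Dec E F P' φ')
    {χ : P →* Ω} (h : ∀ x : P, ∃ hx : φ x ∈ P', χ x = φ' ⟨φ x, hx⟩) : Dec E F P χ := by
  obtain ⟨α, hα, φ₀, hφ₀, he⟩ := hφ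
  obtain ⟨α', hα', φ₀', hφ₀', he'⟩ := hφ'
  have hP'T : P' ≤ T := (E.le_of_mem hφ₀').1
  have hφ₀T : ∀ x : P, φ₀ x ∈ T := (E.le_of_mem hφ₀).2
  have hφ₀'T : ∀ x : P', φ₀' x ∈ T := (E.le_of_mem hφ₀').2
  have hαi : α⁻¹ ∈ F.autGroup T := (F.autGroup T).inv_mem hα
  -- the subgroup `α⁻¹(P')`
  obtain ⟨χ₁, hχ₁, hχ₁e⟩ := inv_usable hinv hP'T hφ₀' hαi
    ((P'.subgroupOf T).map (T.subtype.comp (α⁻¹ : MulAut T).toMonoidHom))
    (by
      rintro _ ⟨z, hz, rfl⟩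
      exact ⟨⟨z, Subgroup.mem_subgroupOf.mp hz⟩, rfl⟩)
  have hmem : ∀ x : P, φ₀ x ∈ (P'.subgroupOf T).map (T.subtype.comp (α⁻¹ : MulAut T).toMonoidHom) := by
    intro x
    obtain ⟨hx, -⟩ := h x
    refine ⟨α ⟨φ₀ x, hφ₀T x⟩, ?_, ?_⟩
    · show α ⟨φ₀ x, hφ₀T x⟩ ∈ P'.subgroupOf T
      rw [Subgroup.mem_subgroupOf, ← he x (hφ₀T x)]
      exact hx
    · show (((α⁻¹ : MulAut T) (α ⟨φ₀ x, hφ₀T x⟩) : T) : Ω) = φ₀ x
      rw [MulAut.inv_apply_self]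
  refine ⟨α' * α, (F.autGroup T).mul_mem hα' hα, χ₁.comp (φ₀.codRestrict _ hmem),
    E.comp_mem hφ₀ hχ₁ hmem, fun x hx => ?_⟩
  obtain ⟨hxP', hχx⟩ := h x
  rw [hχx, he' ⟨φ x, hxP'⟩ (hφ₀'T _)]
  show ((α' ⟨φ₀' ⟨φ x, hxP'⟩, _⟩ : T) : Ω) = ((α' (α ⟨_, hx⟩) : T) : Ω)
  congr 2
  -- `α (χ₁ (φ₀ x)) = φ₀' (φ x)`
  have h1 : ((α ⟨φ₀ x, hφ₀T x⟩ : T) : Ω) = φ x := (he x (hφ₀T x)).symm
  have h2 : (α⁻¹ : MulAut T) ⟨(⟨φ x, hxP'⟩ : P'), hP'T hxP'⟩ = ⟨φ₀ x, hφ₀T x⟩ := by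
    have : (⟨(⟨φ x, hxP'⟩ : P'), hP'T hxP'⟩ : T) = α ⟨φ₀ x, hφ₀T x⟩ := Subtype.ext h1.symm
    rw [this, MulAut.inv_apply_self]
  have hmem2 : (((α⁻¹ : MulAut T) ⟨(⟨φ x, hxP'⟩ : P'), hP'T hxP'⟩ : T) : Ω) ∈
      (P'.subgroupOf T).map (T.subtype.comp (α⁻¹ : MulAut T).toMonoidHom) := by
    rw [h2]; exact hmem x
  have h3 := hχ₁e ⟨φ x, hxP'⟩ hmem2
  have h4 : (χ₁.comp (φ₀.codRestrict _ hmem)) x =
      χ₁ ⟨(((α⁻¹ : MulAut T) ⟨(⟨φ x, hxP'⟩ : P'), hP'T hxP'⟩ : T) : Ω), hmem2⟩ := by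
    show χ₁ ⟨φ₀ x, hmem x⟩ = _
    congr 1
    apply Subtype.ext
    exact (congrArg Subtype.val h2).symm
  apply Subtype.ext
  show φ₀' ⟨φ x, hxP'⟩ = ((α ⟨(χ₁.comp (φ₀.codRestrict _ hmem)) x, hx⟩ : T) : Ω)
  have h5 : (⟨(χ₁.comp (φ₀.codRestrict _ hmem)) x, hx⟩ : T) =
      (α⁻¹ : MulAut T) ⟨φ₀' ⟨φ x, hxP'⟩, hφ₀'T _⟩ := by
    apply Subtype.ext
    show (χ₁.comp (φ₀.codRestrict _ hmem)) x = _
    rw [h4, h3]
  rw [h5, MulAut.apply_inv_self]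

theorem dec_inv {T : Subgroup Ω} {E : FusionSystem T} {F : FusionSystem S} (hinv : Inv E F)
    {P P' : Subgroup Ω} {φ : P →* Ω} (hφ : Dec E F P φ) (hr : φ.range = P') {χ : P' →* Ω}
    (h : ∀ (x : P) (hx : φ x ∈ P'), χ ⟨φ x, hx⟩ = x) : Dec E F P' χ := by
  obtain ⟨α, hα, φ₀, hφ₀, he⟩ := hφ
  have hPT : P ≤ T := (E.le_of_mem hφ₀).1
  have hφ₀T : ∀ x : P, φ₀ x ∈ T := (E.le_of_mem hφ₀).2
  have hαi : α⁻¹ ∈ F.autGroup T := (F.autGroup T).inv_mem hα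
  obtain ⟨ψ₀, hψ₀, hψ₀x, -⟩ := exists_inv E hφ₀
  have hRT : φ₀.range ≤ T := (E.le_of_mem hψ₀).1
  obtain ⟨χ₁, hχ₁, hχ₁e⟩ := inv_usable hinv hRT hψ₀ hα P'
    (by
      intro y hy
      rw [← hr] at hy
      obtain ⟨x, rfl⟩ := hy
      exact ⟨⟨φ₀ x, ⟨x, rfl⟩⟩, he x (hφ₀T x)⟩)
  refine ⟨α⁻¹, hαi, χ₁, hχ₁, fun y hy => ?_⟩
  have hy' : (y : Ω) ∈ φ.range := by rw [hr]; exact y.2
  obtain ⟨x, hx⟩ := hy'
  have hxP' : φ x ∈ P' := by rw [hx]; exact y.2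
  have hyx : y = ⟨φ x, hxP'⟩ := Subtype.ext hx.symm
  have hmem : ((α ⟨(⟨φ₀ x, ⟨x, rfl⟩⟩ : φ₀.range), hRT ⟨x, rfl⟩⟩ : T) : Ω) ∈ P' := by
    rw [← he x (hφ₀T x)]; exact hxP'
  have h3 := hχ₁e ⟨φ₀ x, ⟨x, rfl⟩⟩ hmem
  have h4 : χ₁ y = χ₁ ⟨((α ⟨(⟨φ₀ x, ⟨x, rfl⟩⟩ : φ₀.range), hRT ⟨x, rfl⟩⟩ : T) : Ω), hmem⟩ := by
    congr 1
    apply Subtype.ext
    show (y : Ω) = _
    rw [← hx]
    exact he x (hφ₀T x)
  have h5 : (⟨χ₁ y, hy⟩ : T) = α ⟨x, hPT x.2⟩ := by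
    apply Subtype.ext
    show χ₁ y = _
    rw [h4, h3]
    congr 2
    apply Subtype.ext
    exact hψ₀x x
  rw [h5, MulAut.inv_apply_self, hyx, h x hxP']

theorem frattini_of_si [Finite S] (p : ℕ) [Fact p.Prime] (hS : IsPGroup p S) (F : FusionSystem S)
    (hF : F.IsSaturated p) {T : Subgroup Ω} (E : FusionSystem T) (hE : E.IsSubsystemOf F)
    (hT : F.StronglyClosed T) (hinv : Inv E F)
    (hnorm : ∀ Q : Subgroup Ω, Q ≤ T → ∀ a ∈ E.autGroup Q, ∀ b ∈ F.autGroup Q,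
      b * a * b⁻¹ ∈ E.autGroup Q) :
    ∀ n : ℕ, ∀ P : Subgroup Ω, P ≤ T → Nat.card T - Nat.card P = n →
      ∀ φ : P →* Ω, φ ∈ F.Hom P → Dec E F P φ := by
  have hTS : T ≤ S := hT.1
  haveI : Finite T := finite_of_le hTS
  have hTp : IsPGroup p T := hS.to_le hTS
  intro n
  induction n using Nat.strong_induction_on with
  | _ n ih =>
    intro P hPT hn φ hφ
    by_cases hPeq : P = T
    · subst hPeq
      have hmaps : ∀ x : P, φ x ∈ P := hT.2 P le_rfl φ hφ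
      have hr : φ.range = P := by
        have hle : φ.range ≤ P := by rintro _ ⟨x, rfl⟩; exact hmaps x
        apply Subgroup.eq_of_le_of_card_ge hle
        exact (Nat.card_congr (MonoidHom.ofInjective (F.injective_of_mem hφ)).toEquiv).le
      refine ⟨isoOf φ (F.injective_of_mem hφ) hr, isoOf_mem_autGroup F hφ hr, P.subtype,
        subtype_mem E le_rfl, fun x hx => ?_⟩
      rfl
    have hPlt : P < T := lt_of_le_of_ne hPT hPeq
    have hPS : P ≤ S := hPT.trans hTS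
    haveI : Finite P := finite_of_le hPS
    have hcardlt : Nat.card P < Nat.card T := by
      by_contra hcon
      push Not at hcon
      exact hPeq (Subgroup.eq_of_le_of_card_ge hPT hcon)
    have IH : ∀ R : Subgroup Ω, R ≤ T → Nat.card P < Nat.card R → ∀ ψ : R →* Ω,
        ψ ∈ F.Hom R → Dec E F R ψ := by
      intro R hRT hlt ψ hψ
      have hRle : Nat.card R ≤ Nat.card T := Subgroup.card_le_of_le hRT
      exact ih (Nat.card T - Nat.card R) (by omega) R hRT rfl ψ hψ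
    obtain ⟨Q, hPQ, hQfn⟩ := exists_fullyNormalized_conj F hPS
    have hQS : Q ≤ S := hQfn.1
    have hQT : Q ≤ T := by
      obtain ⟨θ, hθ, rfl⟩ := hPQ
      rintro _ ⟨x, rfl⟩
      exact hT.2 P hPT θ hθ x
    haveI : Finite Q := finite_of_le hQS
    have hcardQ : Nat.card Q = Nat.card P := (card_eq_of_isConj F hPQ).symm
    have hQlt : Q < T := by
      refine lt_of_le_of_ne hQT (fun h => ?_)
      rw [h] at hcardQ; omega
    -- (A)
    have hA : ∀ P' : Subgroup Ω, P' ≤ T → F.IsConj P' Q →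
        ∃ θ : P' →* Ω, θ ∈ F.Hom P' ∧ θ.range = Q ∧ Dec E F P' θ := by
      intro P' hP'T hc
      obtain ⟨θ, hgood⟩ := exists_good p hS F hF hQfn hc
      have hθ := good_mem hgood
      obtain ⟨hP'S, hr, ψ, hψ, hψe⟩ := hgood
      have hcardP' : Nat.card P' = Nat.card P := by rw [card_eq_of_isConj F hc, hcardQ]
      have hP'lt : P' < T := by
        refine lt_of_le_of_ne hP'T (fun h => ?_)
        rw [h] at hcardP'; omega
      have hNle : normalizerIn T P' ≤ normalizerIn S P' := inf_le_inf_right _ hTS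
      have hNT : normalizerIn T P' ≤ T := inf_le_left
      have hP'N : P' ≤ normalizerIn T P' := le_inf hP'T Subgroup.le_normalizer
      have hlt := card_lt_card_normalizerIn (S := T) hTp hP'lt
      have hdec := IH (normalizerIn T P') hNT (by omega) _ (restrict_mem F hψ hNle)
      refine ⟨θ, hθ, hr, dec_restrict hdec hP'N (fun x => ?_)⟩
      exact (hψe x x.2 (hNle (hP'N x.2))).symm
    -- (B)
    obtain ⟨hFC, hFA⟩ := fullyNormalized_imp p hS F hF hQfn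
    have hRec := receptive_of_fullyCentralized p hS F hF hFC
    obtain ⟨-, R, hR⟩ := hFA
    have hL : ∀ δ : MulAut Q, δ ∈ F.autGroup Q →
        (∀ b ∈ autInducedBy T Q, δ * b * δ⁻¹ ∈ autInducedBy S Q) →
        Dec E F Q (Q.subtype.comp δ.toMonoidHom) := by
      intro δ hδ hyp
      have hδF := (mem_autGroup_iff F hQS δ).mp hδ
      have hNext : normalizerIn T Q ≤ extender S Q (Q.subtype.comp δ.toMonoidHom) := by
        intro g hg
        have hcg : Subgroup.normalizerMonoidHom Q ⟨g, hg.2⟩ ∈ autInducedBy T Q :=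
          Subgroup.subset_closure ⟨g, hg.1, fun x => rfl⟩
        obtain ⟨h, hhS, hh⟩ := (mem_autInducedBy_iff S Q _).mp (hyp _ hcg)
        exact mem_extender_of_conj (S := S) δ (Subgroup.normalizerMonoidHom Q ⟨g, hg.2⟩)
          (hTS hg.1) hhS (fun x => rfl) hh
      obtain ⟨ψ, hψ, hψext⟩ := hRec.2 Q _ hδF (range_aut δ)
      have hQN : Q ≤ normalizerIn T Q := le_inf hQT Subgroup.le_normalizer
      have hNT : normalizerIn T Q ≤ T := inf_le_left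
      have hlt := card_lt_card_normalizerIn (S := T) hTp hQlt
      have hdec := IH (normalizerIn T Q) hNT (by omega) _ (restrict_mem F hψ hNext)
      refine dec_restrict hdec hQN (fun x => ?_)
      exact (hψext x x.2 (hNext (hQN x.2))).symm
    have hmul : ∀ β₁ β₂ : MulAut Q, Dec E F Q (Q.subtype.comp β₁.toMonoidHom) →
        Dec E F Q (Q.subtype.comp β₂.toMonoidHom) →
        Dec E F Q (Q.subtype.comp (β₁ * β₂).toMonoidHom) := by
      intro β₁ β₂ h1 h2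
      exact dec_comp hinv h2 h1 (fun x => ⟨(β₂ x).2, rfl⟩)
    have hinvD : ∀ β : MulAut Q, Dec E F Q (Q.subtype.comp β.toMonoidHom) →
        Dec E F Q (Q.subtype.comp (β⁻¹ : MulAut Q).toMonoidHom) := by
      intro β h1
      refine dec_inv hinv h1 (range_aut β) (fun x hx => ?_)
      show (((β⁻¹ : MulAut Q) ⟨((β x : Q) : Ω), hx⟩ : Q) : Ω) = x
      have : (⟨((β x : Q) : Ω), hx⟩ : Q) = β x := rfl
      rw [this, MulAut.inv_apply_self]
    have hAdec : ∀ a ∈ E.autGroup Q, Dec E F Q (Q.subtype.comp a.toMonoidHom) := by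
      intro a ha
      exact ⟨1, (F.autGroup T).one_mem, Q.subtype.comp a.toMonoidHom,
        (mem_autGroup_iff E hQT a).mp ha, fun x hx => rfl⟩
    have hAX : E.autGroup Q ≤ F.autGroup Q := Subgroup.closure_mono (fun a ha => hE Q ha)
    have hB : ∀ β ∈ F.autGroup Q, Dec E F Q (Q.subtype.comp β.toMonoidHom) := by
      intro β hβ
      haveI hnormal : ((E.autGroup Q).subgroupOf (F.autGroup Q)).Normal := by
        constructor
        intro a ha b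
        rw [Subgroup.mem_subgroupOf] at ha ⊢
        exact hnorm Q hQT a ha b b.2
      have hBp : IsPGroup p (((autInducedBy T Q).subgroupOf (F.autGroup Q)).subgroupOf
          ((E.autGroup Q).subgroupOf (F.autGroup Q))) :=
        ((isPGroup_autInducedBy hTp Q).comap_subtype).comap_subtype
      obtain ⟨R₁, hR₁⟩ := hBp.exists_le_sylow
      have hfr := Sylow.normalizer_sup_eq_top R₁
      have hR₁p : IsPGroup p ((R₁ : Subgroup ((E.autGroup Q).subgroupOf (F.autGroup Q))).map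
          ((E.autGroup Q).subgroupOf (F.autGroup Q)).subtype) := R₁.isPGroup'.map _
      obtain ⟨P₁, hP₁⟩ := hR₁p.exists_le_sylow
      obtain ⟨g, hg⟩ := MulAction.exists_smul_eq (F.autGroup Q) P₁ R
      have hconj : ∀ y ∈ (R₁ : Subgroup ((E.autGroup Q).subgroupOf (F.autGroup Q))).map
          ((E.autGroup Q).subgroupOf (F.autGroup Q)).subtype,
          ((g * y * g⁻¹ : F.autGroup Q) : MulAut Q) ∈ autInducedBy S Q := by
        intro y hy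
        have h1 : g * y * g⁻¹ ∈ (R : Subgroup (F.autGroup Q)) := by
          rw [← hg, Cfsg.Agent.Lib_helper7_SylGraph.mem_smul_iff]
          have : g⁻¹ * (g * y * g⁻¹) * g = y := by group
          rw [this]; exact hP₁ hy
        rw [hR] at h1
        exact Subgroup.mem_subgroupOf.mp h1
      have hBR : ∀ b (hb : b ∈ autInducedBy T Q),
          (⟨b, hAX (autInducedBy_le_autGroup E hQT hb)⟩ : F.autGroup Q) ∈
          (R₁ : Subgroup ((E.autGroup Q).subgroupOf (F.autGroup Q))).map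
          ((E.autGroup Q).subgroupOf (F.autGroup Q)).subtype := by
        intro b hb
        have hbA : b ∈ E.autGroup Q := autInducedBy_le_autGroup E hQT hb
        refine ⟨⟨⟨b, hAX hbA⟩, Subgroup.mem_subgroupOf.mpr hbA⟩, hR₁ ?_, rfl⟩
        rw [Subgroup.mem_subgroupOf, Subgroup.mem_subgroupOf]
        exact hb
      have hmemtop : (⟨β, hβ⟩ : F.autGroup Q) ∈ (⊤ : Subgroup (F.autGroup Q)) :=
        Subgroup.mem_top _
      rw [← hfr] at hmemtop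
      rw [← SetLike.mem_coe, Subgroup.mul_normal] at hmemtop
      obtain ⟨nn, hnn, a, ha, hprod⟩ := Set.mem_mul.mp hmemtop
      have hgdec : Dec E F Q (Q.subtype.comp (g : MulAut Q).toMonoidHom) := by
        apply hL _ g.2
        intro b hb
        exact hconj _ (hBR b hb)
      have hgndec : Dec E F Q
          (Q.subtype.comp ((g * nn : F.autGroup Q) : MulAut Q).toMonoidHom) := by
        apply hL _ (g * nn).2
        intro b hb
        have h1 := (Subgroup.mem_normalizer_iff.mp hnn _).mp (hBR b hb)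
        have h2 := hconj _ h1
        have h3 : ((g * (nn * ⟨b, hAX (autInducedBy_le_autGroup E hQT hb)⟩ * nn⁻¹) * g⁻¹ :
            F.autGroup Q) : MulAut Q) =
            ((g * nn : F.autGroup Q) : MulAut Q) * b *
              ((g * nn : F.autGroup Q) : MulAut Q)⁻¹ := by
          simp only [Subgroup.coe_mul, Subgroup.coe_inv]
          group
        rw [← h3]; exact h2
      have hndec : Dec E F Q (Q.subtype.comp (nn : MulAut Q).toMonoidHom) := by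
        have h1 := hmul _ _ (hinvD _ hgdec) hgndec
        have h2 : (g : MulAut Q)⁻¹ * ((g * nn : F.autGroup Q) : MulAut Q) = (nn : MulAut Q) := by
          simp
        rw [h2] at h1; exact h1
      have hadec := hAdec (a : MulAut Q) (Subgroup.mem_subgroupOf.mp ha)
      have h1 := hmul _ _ hndec hadec
      have h2 : (nn : MulAut Q) * (a : MulAut Q) = β := by
        have := congrArg Subtype.val hprod
        exact this
      rw [h2] at h1; exact h1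
    -- (C)
    have hc₂ : F.IsConj φ.range Q := isConj_trans F (isConj_symm F ⟨φ, hφ, rfl⟩) hPQ
    have hP₂T : φ.range ≤ T := by
      rintro _ ⟨x, rfl⟩; exact hT.2 P hPT φ hφ x
    obtain ⟨θ₁, hθ₁, hr₁, hd₁⟩ := hA P hPT hPQ
    obtain ⟨θ₂, hθ₂, hr₂, hd₂⟩ := hA φ.range hP₂T hc₂
    obtain ⟨i₁, hi₁⟩ : ∃ i : P ≃* Q, i = isoOf θ₁ (F.injective_of_mem hθ₁) hr₁ := ⟨_, rfl⟩
    obtain ⟨iφ, hiφ⟩ : ∃ i : P ≃* φ.range, i = isoOf φ (F.injective_of_mem hφ) rfl := ⟨_, rfl⟩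
    obtain ⟨i₂, hi₂⟩ : ∃ i : φ.range ≃* Q, i = isoOf θ₂ (F.injective_of_mem hθ₂) hr₂ := ⟨_, rfl⟩
    have hi₁x : ∀ x : P, ((i₁ x : Q) : Ω) = θ₁ x := fun x => by rw [hi₁]; rfl
    have hiφx : ∀ x : P, ((iφ x : φ.range) : Ω) = φ x := fun x => by rw [hiφ]; rfl
    have hi₂x : ∀ y : φ.range, ((i₂ y : Q) : Ω) = θ₂ y := fun y => by rw [hi₂]; rfl
    obtain ⟨β, hβdef⟩ : ∃ β : MulAut Q, β = i₁.symm.trans (iφ.trans i₂) := ⟨_, rfl⟩
    have hβx : ∀ x : P, β (i₁ x) = i₂ (iφ x) := by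
      intro x; rw [hβdef]; simp
    have hβF : β ∈ F.autGroup Q := by
      rw [mem_autGroup_iff F hQS]
      have h1 := isoOf_symm_mem F hθ₁ hr₁
      have h2 : φ.comp ((i₁.symm : Q ≃* P).toMonoidHom) ∈ F.Hom Q := by
        apply comp_mem' F h1 hφ
        intro y
        refine ⟨Subtype.property _, ?_⟩
        rw [hi₁]; rfl
      apply comp_mem' F h2 hθ₂
      intro y
      refine ⟨⟨i₁.symm y, rfl⟩, ?_⟩
      have h3 := hβx (i₁.symm y)
      rw [MulEquiv.apply_symm_apply] at h3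
      show ((β y : Q) : Ω) = θ₂ ⟨φ (i₁.symm y), _⟩
      rw [h3, hi₂x]
      congr 1
      exact Subtype.ext (hiφx _)
    have hβdec := hB β hβF
    have hμ₁ : Dec E F P (θ₂.comp iφ.toMonoidHom) := by
      apply dec_comp hinv hd₁ hβdec
      intro x
      have hx : θ₁ x ∈ Q := by rw [← hi₁x]; exact (i₁ x).2
      refine ⟨hx, ?_⟩
      show θ₂ (iφ x) = ((β ⟨θ₁ x, hx⟩ : Q) : Ω)
      have : (⟨θ₁ x, hx⟩ : Q) = i₁ x := Subtype.ext (hi₁x x).symm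
      rw [this, hβx, hi₂x]
    have hι₂ : Dec E F Q (φ.range.subtype.comp i₂.symm.toMonoidHom) := by
      apply dec_inv hinv hd₂ hr₂
      intro y hy
      show ((i₂.symm ⟨θ₂ y, hy⟩ : φ.range) : Ω) = y
      have : (⟨θ₂ y, hy⟩ : Q) = i₂ y := Subtype.ext (hi₂x y).symm
      rw [this, MulEquiv.symm_apply_apply]
    apply dec_comp hinv hμ₁ hι₂
    intro x
    have hx : (θ₂.comp iφ.toMonoidHom) x ∈ Q := by
      show θ₂ (iφ x) ∈ Q
      rw [← hi₂x]; exact (i₂ (iφ x)).2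
    refine ⟨hx, ?_⟩
    show φ x = ((i₂.symm ⟨θ₂ (iφ x), hx⟩ : φ.range) : Ω)
    have : (⟨θ₂ (iφ x), hx⟩ : Q) = i₂ (iφ x) := Subtype.ext (hi₂x _).symm
    rw [this, MulEquiv.symm_apply_apply, hiφx]

theorem s5119 [Finite S] (p : ℕ) [Fact p.Prime] (hS : IsPGroup p S) (F : FusionSystem S)
    (hF : F.IsSaturated p) {T : Subgroup Ω} (E : FusionSystem T) (hE : E.IsSubsystemOf F)
    (hT : F.StronglyClosed T) :
    E.IsInvariantIn F ↔ ∀ (P Q : Subgroup Ω) (hPQ : P ≤ Q) (_ : Q ≤ T) (φ : P →* Ω)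
      (_ : φ ∈ E.Hom P) (hφQ : ∀ x : P, φ x ∈ Q) (ψ : Q →* Ω) (_ : ψ ∈ F.Hom Q),
      ∃ χ ∈ E.Hom ((P.subgroupOf Q).map ψ), ∀ (x : P)
        (hx : ψ (Subgroup.inclusion hPQ x) ∈ (P.subgroupOf Q).map ψ),
        χ ⟨ψ (Subgroup.inclusion hPQ x), hx⟩ = ψ ⟨φ x, hφQ x⟩ := by
  have hTS : T ≤ S := hT.1
  constructor
  · rintro ⟨hsub, hSC, hinvar, hfrat⟩ P Q hPQ hQT φ hφ hφQ ψ hψ
    obtain ⟨α, hα, ψ₀, hψ₀, he⟩ := hfrat Q hQT ψ hψ
    have hψ₀T : ∀ y : Q, ψ₀ y ∈ T := (E.le_of_mem hψ₀).2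
    have hψ₀P := restrict_mem E hψ₀ hPQ
    obtain ⟨ι, hι, hιx, hιr⟩ := exists_inv E hψ₀P
    have hR₀T : (ψ₀.comp (Subgroup.inclusion hPQ)).range ≤ T := (E.le_of_mem hι).1
    have hιP : ∀ y, ι y ∈ P := by
      intro y
      have : ι y ∈ ι.range := ⟨y, rfl⟩
      rw [hιr] at this
      exact this
    have hμ : φ.comp (ι.codRestrict P hιP) ∈ E.Hom _ := E.comp_mem hι hφ hιP
    have hμQ : ∀ y, (φ.comp (ι.codRestrict P hιP)) y ∈ Q := fun y => hφQ _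
    have hχ₁ : ψ₀.comp ((φ.comp (ι.codRestrict P hιP)).codRestrict Q hμQ) ∈ E.Hom _ :=
      E.comp_mem hμ hψ₀ hμQ
    have hχ₁y : ∀ x : P, (ψ₀.comp ((φ.comp (ι.codRestrict P hιP)).codRestrict Q hμQ))
        ⟨ψ₀ (Subgroup.inclusion hPQ x), ⟨x, rfl⟩⟩ = ψ₀ ⟨φ x, hφQ x⟩ := by
      intro x
      have e : (ι.codRestrict P hιP) ⟨ψ₀ (Subgroup.inclusion hPQ x), ⟨x, rfl⟩⟩ = x :=
        Subtype.ext (hιx x)
      show ψ₀ ⟨φ ((ι.codRestrict P hιP) ⟨ψ₀ (Subgroup.inclusion hPQ x), ⟨x, rfl⟩⟩), _⟩ = _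
      congr 1
      apply Subtype.ext
      show φ ((ι.codRestrict P hιP) ⟨ψ₀ (Subgroup.inclusion hPQ x), ⟨x, rfl⟩⟩) = φ x
      rw [e]
    obtain ⟨χ, hχ, hχe⟩ := inv_usable (E := E) (F := F) hinvar hR₀T hχ₁ hα
      ((P.subgroupOf Q).map ψ)
      (by
        rintro _ ⟨z, hz, rfl⟩
        refine ⟨⟨ψ₀ z, ⟨⟨z, Subgroup.mem_subgroupOf.mp hz⟩, rfl⟩⟩, ?_⟩
        exact he z (hψ₀T z))
    refine ⟨χ, hχ, fun x hx => ?_⟩
    have h1 : ψ (Subgroup.inclusion hPQ x) =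
        ((α ⟨ψ₀ (Subgroup.inclusion hPQ x), hψ₀T _⟩ : T) : Ω) := he _ _
    have hmem : ((α ⟨((⟨ψ₀ (Subgroup.inclusion hPQ x), ⟨x, rfl⟩⟩ :
        (ψ₀.comp (Subgroup.inclusion hPQ)).range) : Ω), hR₀T ⟨x, rfl⟩⟩ : T) : Ω) ∈
        (P.subgroupOf Q).map ψ := by
      have := hx
      rw [h1] at this
      exact this
    have h2 := hχe ⟨ψ₀ (Subgroup.inclusion hPQ x), ⟨x, rfl⟩⟩ hmem
    have h3 : (⟨ψ (Subgroup.inclusion hPQ x), hx⟩ : (P.subgroupOf Q).map ψ) = ⟨_, hmem⟩ :=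
      Subtype.ext h1
    rw [h3, h2, he ⟨φ x, hφQ x⟩ (hψ₀T _)]
    congr 2
    apply Subtype.ext
    exact hχ₁y x
  · intro hSI
    have hinv : Inv E F := by
      intro P hPT φ hφ α hα
      have hφT : ∀ x, φ x ∈ T := (E.le_of_mem hφ).2
      have hψ := (mem_autGroup_iff F hTS α).mp hα
      obtain ⟨χ, hχ, hχe⟩ := hSI P T hPT le_rfl φ hφ hφT _ hψ
      exact ⟨χ, hχ, fun x hφx hαx => hχe x hαx⟩
    have hnorm : ∀ Q : Subgroup Ω, Q ≤ T → ∀ a ∈ E.autGroup Q, ∀ b ∈ F.autGroup Q,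
        b * a * b⁻¹ ∈ E.autGroup Q := by
      intro Q hQT a ha b hb
      have haE := (mem_autGroup_iff E hQT a).mp ha
      have hbF := (mem_autGroup_iff F (hQT.trans hTS) b).mp hb
      obtain ⟨χ, hχ, hχe⟩ := hSI Q Q le_rfl hQT _ haE (fun x => (a x).2) _ hbF
      rw [mem_autGroup_iff E hQT]
      have hle : Q ≤ (Q.subgroupOf Q).map (Q.subtype.comp b.toMonoidHom) := by
        intro y hy
        refine ⟨(b⁻¹ : MulAut Q) ⟨y, hy⟩, Subgroup.mem_subgroupOf.mpr (Subtype.property _), ?_⟩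
        show ((b ((b⁻¹ : MulAut Q) ⟨y, hy⟩) : Q) : Ω) = y
        rw [MulAut.apply_inv_self]
      apply restrict_mem' E hχ hle
      intro x
      have hx' : (Q.subtype.comp b.toMonoidHom)
          (Subgroup.inclusion (le_refl Q) ((b⁻¹ : MulAut Q) x)) ∈
          (Q.subgroupOf Q).map (Q.subtype.comp b.toMonoidHom) :=
        ⟨_, Subgroup.mem_subgroupOf.mpr (Subtype.property _), rfl⟩
      have h1 := hχe ((b⁻¹ : MulAut Q) x) hx'
      have h2 : (⟨x, hle x.2⟩ : (Q.subgroupOf Q).map (Q.subtype.comp b.toMonoidHom)) =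
          ⟨_, hx'⟩ := by
        apply Subtype.ext
        show (x : Ω) = ((b ((b⁻¹ : MulAut Q) x) : Q) : Ω)
        rw [MulAut.apply_inv_self]
      rw [h2, h1]
      rfl
    refine ⟨hE, hT, hinv, fun P hPT φ hφ => ?_⟩
    exact frattini_of_si p hS F hF E hE hT hinv hnorm _ P hPT rfl φ hφ

end Cfsg.Agent.Lib_helper9_FusionSInv
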