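import Mathlib
import Cfsg.Prelude.Def_FusionSystem
import Cfsg.Agent.Lib_helper9_FusionSInv

set_option autoImplicit false

namespace Cfsg.Agent.Lib_helper9_FusionPrimeIdx

open Cfsg Cfsg.FusionSystem Cfsg.Agent.Lib_helper9_Fusion Cfsg.Agent.Lib_helper9_FusionNC
  Cfsg.Agent.Lib_helper9_FusionSat Cfsg.Agent.Lib_helper9_FusionGen
  Cfsg.Agent.Lib_helper9_FusionGen2 Cfsg.Agent.Lib_helper9_FusionEss
  Cfsg.Agent.Lib_helper9_FusionEss2 Cfsg.Agent.Lib_helper9_FusionAbel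
  Cfsg.Agent.Lib_helper9_FusionSInv

variable {Ω : Type*} [Group Ω] {S : Subgroup Ω}

/-- the general Frattini induction: if automorphisms of fully normalized proper subgroups decompose
(given decomposability on larger subgroups), every map decomposes. -/
theorem frattini_gen [Finite S] (p : ℕ) [Fact p.Prime] (hS : IsPGroup p S) (F : FusionSystem S)
    (hF : F.IsSaturated p) {T : Subgroup Ω} (E : FusionSystem T)
    (hT : F.StronglyClosed T) (hinv : Inv E F)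
    (hBstep : ∀ Q : Subgroup Ω, Q < T → F.IsFullyNormalized Q →
      (∀ R : Subgroup Ω, R ≤ T → Nat.card Q < Nat.card R → ∀ ψ : R →* Ω, ψ ∈ F.Hom R →
        Dec E F R ψ) →
      ∀ β ∈ F.autGroup Q, Dec E F Q (Q.subtype.comp β.toMonoidHom)) :
    ∀ n : ℕ, ∀ P : Subgroup Ω, P ≤ T → Nat.card T - Nat.card P = n →
      ∀ φ : P →* Ω, φ ∈ F.Hom P → Dec E F P φ := by
  have hTS : T ≤ S := hT.1
  haveI : Finite T := finite_of_le hTS
  have hTp : IsPGroup p T := hS.to_le hTS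
  intro n
  induction n using Nat.strong_induction_on with
  | _ n ih =>
    intro P hPT hn φ hφ
    by_cases hPeq : P = T
    · subst hPeq
      have hmaps : ∀ x : P, φ x ∈ P := hT.2 P le_rfl φ hφ
      have hr : φ.range = P := by
        have hle : φ.range ≤ P := by rintro _ ⟨x, rfl⟩; exact hmaps x
        apply Subgroup.eq_of_le_of_card_ge hle
        exact (Nat.card_congr (MonoidHom.ofInjective (F.injective_of_mem hφ)).toEquiv).le
      refine ⟨isoOf φ (F.injective_of_mem hφ) hr, isoOf_mem_autGroup F hφ hr, P.subtype,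
        subtype_mem E le_rfl, fun x hx => ?_⟩
      rfl
    have hPlt : P < T := lt_of_le_of_ne hPT hPeq
    have hPS : P ≤ S := hPT.trans hTS
    haveI : Finite P := finite_of_le hPS
    have hcardlt : Nat.card P < Nat.card T := by
      by_contra hcon
      push Not at hcon
      exact hPeq (Subgroup.eq_of_le_of_card_ge hPT hcon)
    have IH : ∀ R : Subgroup Ω, R ≤ T → Nat.card P < Nat.card R → ∀ ψ : R →* Ω,
        ψ ∈ F.Hom R → Dec E F R ψ := by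
      intro R hRT hlt ψ hψ
      have hRle : Nat.card R ≤ Nat.card T := Subgroup.card_le_of_le hRT
      exact ih (Nat.card T - Nat.card R) (by omega) R hRT rfl ψ hψ
    obtain ⟨Q, hPQ, hQfn⟩ := exists_fullyNormalized_conj F hPS
    have hQS : Q ≤ S := hQfn.1
    have hQT : Q ≤ T := by
      obtain ⟨θ, hθ, rfl⟩ := hPQ
      rintro _ ⟨x, rfl⟩
      exact hT.2 P hPT θ hθ x
    haveI : Finite Q := finite_of_le hQS
    have hcardQ : Nat.card Q = Nat.card P := (card_eq_of_isConj F hPQ).symm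
    have hQlt : Q < T := by
      refine lt_of_le_of_ne hQT (fun h => ?_)
      rw [h] at hcardQ; omega
    have hA : ∀ P' : Subgroup Ω, P' ≤ T → F.IsConj P' Q →
        ∃ θ : P' →* Ω, θ ∈ F.Hom P' ∧ θ.range = Q ∧ Dec E F P' θ := by
      intro P' hP'T hc
      obtain ⟨θ, hgood⟩ := exists_good p hS F hF hQfn hc
      have hθ := good_mem hgood
      obtain ⟨hP'S, hr, ψ, hψ, hψe⟩ := hgood
      have hcardP' : Nat.card P' = Nat.card P := by rw [card_eq_of_isConj F hc, hcardQ]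
      have hP'lt : P' < T := by
        refine lt_of_le_of_ne hP'T (fun h => ?_)
        rw [h] at hcardP'; omega
      have hNle : normalizerIn T P' ≤ normalizerIn S P' := inf_le_inf_right _ hTS
      have hNT : normalizerIn T P' ≤ T := inf_le_left
      have hP'N : P' ≤ normalizerIn T P' := le_inf hP'T Subgroup.le_normalizer
      have hlt := card_lt_card_normalizerIn (S := T) hTp hP'lt
      have hdec := IH (normalizerIn T P') hNT (by omega) _ (restrict_mem F hψ hNle)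
      refine ⟨θ, hθ, hr, dec_restrict hdec hP'N (fun x => ?_)⟩
      exact (hψe x x.2 (hNle (hP'N x.2))).symm
    have hB : ∀ β ∈ F.autGroup Q, Dec E F Q (Q.subtype.comp β.toMonoidHom) :=
      hBstep Q hQlt hQfn (fun R hRT hlt ψ hψ => IH R hRT (by omega) ψ hψ)
    have hc₂ : F.IsConj φ.range Q := isConj_trans F (isConj_symm F ⟨φ, hφ, rfl⟩) hPQ
    have hP₂T : φ.range ≤ T := by
      rintro _ ⟨x, rfl⟩; exact hT.2 P hPT φ hφ x
    obtain ⟨θ₁, hθ₁, hr₁, hd₁⟩ := hA P hPT hPQ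
    obtain ⟨θ₂, hθ₂, hr₂, hd₂⟩ := hA φ.range hP₂T hc₂
    obtain ⟨i₁, hi₁⟩ : ∃ i : P ≃* Q, i = isoOf θ₁ (F.injective_of_mem hθ₁) hr₁ := ⟨_, rfl⟩
    obtain ⟨iφ, hiφ⟩ : ∃ i : P ≃* φ.range, i = isoOf φ (F.injective_of_mem hφ) rfl := ⟨_, rfl⟩
    obtain ⟨i₂, hi₂⟩ : ∃ i : φ.range ≃* Q, i = isoOf θ₂ (F.injective_of_mem hθ₂) hr₂ := ⟨_, rfl⟩
    have hi₁x : ∀ x : P, ((i₁ x : Q) : Ω) = θ₁ x := fun x => by rw [hi₁]; rfl
    have hiφx : ∀ x : P, ((iφ x : φ.range) : Ω) = φ x := fun x => by rw [hiφ]; rfl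
    have hi₂x : ∀ y : φ.range, ((i₂ y : Q) : Ω) = θ₂ y := fun y => by rw [hi₂]; rfl
    obtain ⟨β, hβdef⟩ : ∃ β : MulAut Q, β = i₁.symm.trans (iφ.trans i₂) := ⟨_, rfl⟩
    have hβx : ∀ x : P, β (i₁ x) = i₂ (iφ x) := by
      intro x; rw [hβdef]; simp
    have hβF : β ∈ F.autGroup Q := by
      rw [mem_autGroup_iff F hQS]
      have h1 := isoOf_symm_mem F hθ₁ hr₁
      have h2 : φ.comp ((i₁.symm : Q ≃* P).toMonoidHom) ∈ F.Hom Q := by
        apply comp_mem' F h1 hφ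
        intro y
        refine ⟨Subtype.property _, ?_⟩
        rw [hi₁]; rfl
      apply comp_mem' F h2 hθ₂
      intro y
      refine ⟨⟨i₁.symm y, rfl⟩, ?_⟩
      have h3 := hβx (i₁.symm y)
      rw [MulEquiv.apply_symm_apply] at h3
      show ((β y : Q) : Ω) = θ₂ ⟨φ (i₁.symm y), _⟩
      rw [h3, hi₂x]
      congr 1
      exact Subtype.ext (hiφx _)
    have hβdec := hB β hβF
    have hμ₁ : Dec E F P (θ₂.comp iφ.toMonoidHom) := by
      apply dec_comp hinv hd₁ hβdec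
      intro x
      have hx : θ₁ x ∈ Q := by rw [← hi₁x]; exact (i₁ x).2
      refine ⟨hx, ?_⟩
      show θ₂ (iφ x) = ((β ⟨θ₁ x, hx⟩ : Q) : Ω)
      have : (⟨θ₁ x, hx⟩ : Q) = i₁ x := Subtype.ext (hi₁x x).symm
      rw [this, hβx, hi₂x]
    have hι₂ : Dec E F Q (φ.range.subtype.comp i₂.symm.toMonoidHom) := by
      apply dec_inv hinv hd₂ hr₂
      intro y hy
      show ((i₂.symm ⟨θ₂ y, hy⟩ : φ.range) : Ω) = y
      have : (⟨θ₂ y, hy⟩ : Q) = i₂ y := Subtype.ext (hi₂x y).symm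
      rw [this, MulEquiv.symm_apply_apply]
    apply dec_comp hinv hμ₁ hι₂
    intro x
    have hx : (θ₂.comp iφ.toMonoidHom) x ∈ Q := by
      show θ₂ (iφ x) ∈ Q
      rw [← hi₂x]; exact (i₂ (iφ x)).2
    refine ⟨hx, ?_⟩
    show φ x = ((i₂.symm ⟨θ₂ (iφ x), hx⟩ : φ.range) : Ω)
    have : (⟨θ₂ (iφ x), hx⟩ : Q) = i₂ (iφ x) := Subtype.ext (hi₂x _).symm
    rw [this, MulEquiv.symm_apply_apply, hiφx]

/-- the `Aut_F(S)`-core of a subsystem: maps of `E` all of whose `Aut_F(S)`-conjugates lie in `E`. -/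
def Core (E F : FusionSystem S) (P : Subgroup Ω) (φ : P →* Ω) : Prop :=
  φ ∈ E.Hom P ∧ ∀ α ∈ F.autGroup S, ∀ hPS : P ≤ S,
    ∃ χ ∈ E.Hom ((P.subgroupOf S).map (S.subtype.comp α.toMonoidHom)),
      ∀ (x : P) (hφx : φ x ∈ S)
        (hαx : ((α ⟨x, hPS x.2⟩ : S) : Ω) ∈
          (P.subgroupOf S).map (S.subtype.comp α.toMonoidHom)),
        χ ⟨(α ⟨x, hPS x.2⟩ : S), hαx⟩ = ((α ⟨φ x, hφx⟩ : S) : Ω)

theorem core_intro {E F : FusionSystem S} {P : Subgroup Ω} {φ : P →* Ω} (hφ : φ ∈ E.Hom P)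
    (h : ∀ α ∈ F.autGroup S, ∃ (P' : Subgroup Ω) (χ : P' →* Ω), χ ∈ E.Hom P' ∧
      ∀ x : P, ∃ hx : ((α ⟨x, (E.le_of_mem hφ).1 x.2⟩ : S) : Ω) ∈ P',
        χ ⟨_, hx⟩ = ((α ⟨φ x, (E.le_of_mem hφ).2 x⟩ : S) : Ω)) : Core E F P φ := by
  refine ⟨hφ, fun α hα hPS => ?_⟩
  obtain ⟨P', χ, hχ, hχe⟩ := h α hα
  have hle : (P.subgroupOf S).map (S.subtype.comp α.toMonoidHom) ≤ P' := by
    rintro _ ⟨z, hz, rfl⟩
    exact (hχe ⟨z, Subgroup.mem_subgroupOf.mp hz⟩).1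
  refine ⟨χ.comp (Subgroup.inclusion hle), restrict_mem E hχ hle, fun x hφx hαx => ?_⟩
  exact (hχe x).2

/-- the core as a fusion system -/
def coreSys (E F : FusionSystem S) : FusionSystem S where
  Hom P := {φ | Core E F P φ}
  le_of_mem := fun h => E.le_of_mem h.1
  injective_of_mem := fun h => E.injective_of_mem h.1
  conj_mem := by
    intro P g hP hg
    apply core_intro (E.conj_mem hP hg)
    intro α hα
    have hle : (P.subgroupOf S).map (S.subtype.comp α.toMonoidHom) ≤ S := by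
      rintro _ ⟨z, -, rfl⟩; exact (α z).2
    refine ⟨(P.subgroupOf S).map (S.subtype.comp α.toMonoidHom),
      conjHom _ ((α ⟨g, hg⟩ : S) : Ω), E.conj_mem hle (α ⟨g, hg⟩).2,
      fun x => ⟨⟨⟨x, hP x.2⟩, Subgroup.mem_subgroupOf.mpr x.2, rfl⟩, ?_⟩⟩
    have e : (⟨(conjHom P g) x, (E.le_of_mem (E.conj_mem hP hg)).2 x⟩ : S) =
        ⟨g, hg⟩ * ⟨x, hP x.2⟩ * ⟨g, hg⟩⁻¹ := Subtype.ext rfl
    rw [e, map_mul, map_mul, map_inv]
    rfl
  comp_mem := by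
    intro P Q φ ψ hφ hψ h
    have hcomp := E.comp_mem hφ.1 hψ.1 h
    apply core_intro hcomp
    intro α hα
    have hPS := (E.le_of_mem hφ.1).1
    have hQS := (E.le_of_mem hψ.1).1
    obtain ⟨χφ, hχφ, hχφe⟩ := hφ.2 α hα hPS
    obtain ⟨χψ, hχψ, hχψe⟩ := hψ.2 α hα hQS
    have hmaps : ∀ y, χφ y ∈ (Q.subgroupOf S).map (S.subtype.comp α.toMonoidHom) := by
      rintro ⟨_, z, hz, rfl⟩
      have e : χφ ⟨(S.subtype.comp α.toMonoidHom) z, ⟨z, hz, rfl⟩⟩ =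
          ((α ⟨φ ⟨z, Subgroup.mem_subgroupOf.mp hz⟩, (E.le_of_mem hφ.1).2 _⟩ : S) : Ω) :=
        hχφe ⟨z, Subgroup.mem_subgroupOf.mp hz⟩ ((E.le_of_mem hφ.1).2 _) ⟨z, hz, rfl⟩
      rw [e]
      exact ⟨⟨φ ⟨z, Subgroup.mem_subgroupOf.mp hz⟩, (E.le_of_mem hφ.1).2 _⟩,
        Subgroup.mem_subgroupOf.mpr (h _), rfl⟩
    refine ⟨_, χψ.comp (χφ.codRestrict _ hmaps), E.comp_mem hχφ hχψ hmaps,
      fun x => ⟨⟨⟨x, hPS x.2⟩, Subgroup.mem_subgroupOf.mpr x.2, rfl⟩, ?_⟩⟩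
    have e1 := hχφe x ((E.le_of_mem hφ.1).2 x)
      ⟨⟨x, hPS x.2⟩, Subgroup.mem_subgroupOf.mpr x.2, rfl⟩
    have e2 := hχψe ⟨φ x, h x⟩ ((E.le_of_mem hψ.1).2 _)
      ⟨⟨φ x, (E.le_of_mem hφ.1).2 x⟩, Subgroup.mem_subgroupOf.mpr (h x), rfl⟩
    show χψ ⟨χφ ⟨((α ⟨x, hPS x.2⟩ : S) : Ω), _⟩, _⟩ = ((α ⟨ψ ⟨φ x, h x⟩, _⟩ : S) : Ω)
    rw [← e2]
    congr 1
    exact Subtype.ext e1
  inv_mem := by
    intro P φ hφ
    obtain ⟨ψ, hψ, hψx⟩ := E.inv_mem hφ.1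
    refine ⟨ψ, ?_, hψx⟩
    apply core_intro hψ
    intro α hα
    have hPS := (E.le_of_mem hφ.1).1
    obtain ⟨χ, hχ, hχe⟩ := hφ.2 α hα hPS
    obtain ⟨χi, hχi, hχix⟩ := E.inv_mem hχ
    refine ⟨χ.range, χi, hχi, ?_⟩
    rintro ⟨_, x, rfl⟩
    have hmem : ((α ⟨x, hPS x.2⟩ : S) : Ω) ∈ (P.subgroupOf S).map (S.subtype.comp α.toMonoidHom) :=
      ⟨⟨x, hPS x.2⟩, Subgroup.mem_subgroupOf.mpr x.2, rfl⟩
    have e1 := hχe x ((E.le_of_mem hφ.1).2 x) hmem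
    have hx : ((α ⟨φ x, (E.le_of_mem hφ.1).2 x⟩ : S) : Ω) ∈ χ.range := ⟨_, e1⟩
    refine ⟨hx, ?_⟩
    have e2 := hχix ⟨_, hmem⟩
    have e3 : (⟨((α ⟨φ x, (E.le_of_mem hφ.1).2 x⟩ : S) : Ω), hx⟩ : χ.range) =
        ⟨χ ⟨_, hmem⟩, ⟨_, rfl⟩⟩ := Subtype.ext e1.symm
    rw [e3, e2]
    exact congrArg (fun s : S => ((α s : S) : Ω)) (Subtype.ext (hψx x).symm)

theorem coreSys_hom (E F : FusionSystem S) (P : Subgroup Ω) (φ : P →* Ω) :
    φ ∈ (coreSys E F).Hom P ↔ Core E F P φ := Iff.rfl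

theorem coreSys_inv (E F : FusionSystem S) : Inv (coreSys E F) F := by
  intro P hPS φ hφ α hα
  obtain ⟨χ, hχ, hχe⟩ := hφ.2 α hα hPS
  refine ⟨χ, ?_, hχe⟩
  apply core_intro hχ
  intro β hβ
  obtain ⟨χ', hχ', hχ'e⟩ := hφ.2 (β * α) ((F.autGroup S).mul_mem hβ hα) hPS
  refine ⟨_, χ', hχ', ?_⟩
  rintro ⟨_, z, hz, rfl⟩
  have hzP : (z : Ω) ∈ P := Subgroup.mem_subgroupOf.mp hz
  have hmem : (((β * α) ⟨(⟨z, hzP⟩ : P), hPS hzP⟩ : S) : Ω) ∈
      (P.subgroupOf S).map (S.subtype.comp (β * α).toMonoidHom) := ⟨z, hz, rfl⟩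
  have e1 := hχ'e ⟨z, hzP⟩ ((E.le_of_mem hφ.1).2 _) hmem
  have e2 := hχe ⟨z, hzP⟩ ((E.le_of_mem hφ.1).2 _) ⟨z, hz, rfl⟩
  refine ⟨hmem, ?_⟩
  refine e1.trans ?_
  show ((β (α ⟨φ ⟨z, hzP⟩, _⟩) : S) : Ω) = ((β ⟨χ ⟨_, _⟩, _⟩ : S) : Ω)
  congr 2
  exact Subtype.ext e2.symm

section transport

variable (F : FusionSystem S)

theorem res_mem {α : MulAut S} (hα : α ∈ F.autGroup S) {P : Subgroup Ω} (hPS : P ≤ S) :
    (S.subtype.comp α.toMonoidHom).comp (Subgroup.inclusion hPS) ∈ F.Hom P :=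
  restrict_mem F ((mem_autGroup_iff F le_rfl α).mp hα) hPS

theorem res_range (α : MulAut S) {P : Subgroup Ω} (hPS : P ≤ S) :
    ((S.subtype.comp α.toMonoidHom).comp (Subgroup.inclusion hPS)).range =
      (P.subgroupOf S).map (S.subtype.comp α.toMonoidHom) := by
  ext y
  constructor
  · rintro ⟨x, rfl⟩
    exact ⟨⟨x, hPS x.2⟩, Subgroup.mem_subgroupOf.mpr x.2, rfl⟩
  · rintro ⟨z, hz, rfl⟩
    exact ⟨⟨z, Subgroup.mem_subgroupOf.mp hz⟩, rfl⟩

theorem centric_im {α : MulAut S} (hα : α ∈ F.autGroup S) {P : Subgroup Ω}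
    (hP : F.IsCentric P) :
    F.IsCentric ((P.subgroupOf S).map (S.subtype.comp α.toMonoidHom)) := by
  have hPS := hP.1
  have hc : F.IsConj P ((P.subgroupOf S).map (S.subtype.comp α.toMonoidHom)) :=
    ⟨_, res_mem F hα hPS, res_range α hPS⟩
  exact ⟨(isConj_le F hc).2, fun Q hQ => hP.2 Q (isConj_trans F hc hQ)⟩

theorem congr_mem_autGroup' {P Q : Subgroup Ω} {θ : P →* Ω} (hθ : θ ∈ F.Hom P)
    (hr : θ.range = Q) {a : MulAut P} (ha : a ∈ F.autGroup P) :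
    MulAut.congr (isoOf θ (F.injective_of_mem hθ) hr) a ∈ F.autGroup Q := by
  have hPS := (F.le_of_mem hθ).1
  have hQS : Q ≤ S := range_le F hθ hr
  rw [mem_autGroup_iff F hQS]
  have h1 := isoOf_symm_mem F hθ hr
  have h2 := (mem_autGroup_iff F hPS a).mp ha
  have h3 : (P.subtype.comp a.toMonoidHom).comp
      (isoOf θ (F.injective_of_mem hθ) hr).symm.toMonoidHom ∈ F.Hom Q := by
    apply comp_mem' F h1 h2
    intro y
    exact ⟨Subtype.property _, rfl⟩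
  apply comp_mem' F h3 hθ
  intro y
  exact ⟨(a ((isoOf θ (F.injective_of_mem hθ) hr).symm y)).2, rfl⟩

theorem congr_mem_closure (p : ℕ) {P Q : Subgroup Ω} {θ : P →* Ω} (hθ : θ ∈ F.Hom P)
    (hr : θ.range = Q) (a : F.autGroup P)
    (ha : a ∈ Subgroup.closure {x : F.autGroup P | ∃ k : ℕ, orderOf x = p ^ k}) :
    (⟨MulAut.congr (isoOf θ (F.injective_of_mem hθ) hr) (a : MulAut P),
      congr_mem_autGroup' F hθ hr a.2⟩ : F.autGroup Q) ∈
      Subgroup.closure {x : F.autGroup Q | ∃ k : ℕ, orderOf x = p ^ k} := by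
  obtain ⟨c, hc⟩ : ∃ c : F.autGroup P →* F.autGroup Q, ∀ a : F.autGroup P,
      c a = ⟨MulAut.congr (isoOf θ (F.injective_of_mem hθ) hr) (a : MulAut P),
        congr_mem_autGroup' F hθ hr a.2⟩ :=
    ⟨((MulAut.congr (isoOf θ (F.injective_of_mem hθ) hr)).toMonoidHom.comp
      (F.autGroup P).subtype).codRestrict _ (fun a => congr_mem_autGroup' F hθ hr a.2),
      fun a => rfl⟩
  have hle : Subgroup.closure {x : F.autGroup P | ∃ k : ℕ, orderOf x = p ^ k} ≤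
      (Subgroup.closure {x : F.autGroup Q | ∃ k : ℕ, orderOf x = p ^ k}).comap c := by
    rw [Subgroup.closure_le]
    rintro x ⟨k, hk⟩
    apply Subgroup.subset_closure
    refine ⟨k, ?_⟩
    rw [← hk, hc, ← Subgroup.orderOf_coe, ← Subgroup.orderOf_coe]
    exact MulEquiv.orderOf_eq (MulAut.congr (isoOf θ (F.injective_of_mem hθ) hr)) (x : MulAut P)
  have := hle ha
  rw [Subgroup.mem_comap, hc] at this
  exact this

end transport

theorem closure_normal_of_conj' {G : Type*} [Group G] {D : Set G}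
    (h : ∀ d ∈ D, ∀ g : G, g * d * g⁻¹ ∈ D) : (Subgroup.closure D).Normal := by
  have h1 : Subgroup.closure D = Subgroup.normalClosure D := by
    apply le_antisymm
    · exact Subgroup.closure_le_normalClosure
    · show Subgroup.closure (Group.conjugatesOfSet D) ≤ Subgroup.closure D
      apply Subgroup.closure_mono
      intro x hx
      rw [Group.mem_conjugatesOfSet_iff] at hx
      obtain ⟨a, ha, hc⟩ := hx
      rw [isConj_iff] at hc
      obtain ⟨g, rfl⟩ := hc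
      exact h a ha g
  rw [h1]
  exact Subgroup.normalClosure_normal

theorem hcore (p : ℕ) (E F : FusionSystem S)
    (h : ∀ P : Subgroup Ω, F.IsCentric P →
      (Subgroup.closure {α : ↥(F.autGroup P) | ∃ k : ℕ, orderOf α = p ^ k}).map
        (F.autGroup P).subtype ≤ E.autGroup P)
    (P : Subgroup Ω) (hP : F.IsCentric P) :
    (Subgroup.closure {α : ↥(F.autGroup P) | ∃ k : ℕ, orderOf α = p ^ k}).map
      (F.autGroup P).subtype ≤ (coreSys E F).autGroup P := by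
  rintro _ ⟨a, ha, rfl⟩
  have hPS := hP.1
  rw [mem_autGroup_iff (coreSys E F) hPS]
  have haE : (a : MulAut P) ∈ E.autGroup P := h P hP ⟨a, ha, rfl⟩
  have haE' := (mem_autGroup_iff E hPS _).mp haE
  apply core_intro haE'
  intro α hα
  have hP' := centric_im F hα hP
  have hmem := congr_mem_closure F p (res_mem F hα hPS) (res_range α hPS) a ha
  have ha'E : MulAut.congr (isoOf _ (F.injective_of_mem (res_mem F hα hPS)) (res_range α hPS))
      (a : MulAut P) ∈ E.autGroup _ := h _ hP' ⟨_, hmem, rfl⟩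
  have ha'E' := (mem_autGroup_iff E hP'.1 _).mp ha'E
  refine ⟨_, _, ha'E', fun x => ⟨⟨⟨x, hPS x.2⟩, Subgroup.mem_subgroupOf.mpr x.2, rfl⟩, ?_⟩⟩
  have e : (isoOf _ (F.injective_of_mem (res_mem F hα hPS)) (res_range α hPS)).symm
      ⟨((α ⟨x, hPS x.2⟩ : S) : Ω), ⟨⟨x, hPS x.2⟩, Subgroup.mem_subgroupOf.mpr x.2, rfl⟩⟩ = x := by
    rw [MulEquiv.symm_apply_eq]
    exact Subtype.ext rfl
  show ((isoOf _ (F.injective_of_mem (res_mem F hα hPS)) (res_range α hPS)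
    ((a : MulAut P) ((isoOf _ (F.injective_of_mem (res_mem F hα hPS)) (res_range α hPS)).symm
      ⟨((α ⟨x, hPS x.2⟩ : S) : Ω), _⟩)) : _) : Ω) = _
  rw [e]
  rfl

theorem bstep [Finite S] (p : ℕ) [Fact p.Prime] (hS : IsPGroup p S) (F : FusionSystem S)
    (hF : F.IsSaturated p) (E₁ : FusionSystem S) (hinv : Inv E₁ F)
    (hcore : ∀ P : Subgroup Ω, F.IsCentric P →
      (Subgroup.closure {α : ↥(F.autGroup P) | ∃ k : ℕ, orderOf α = p ^ k}).map
        (F.autGroup P).subtype ≤ E₁.autGroup P)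
    (Q : Subgroup Ω) (hQlt : Q < S) (hQfn : F.IsFullyNormalized Q)
    (IH : ∀ R : Subgroup Ω, R ≤ S → Nat.card Q < Nat.card R → ∀ ψ : R →* Ω, ψ ∈ F.Hom R →
      Dec E₁ F R ψ) :
    ∀ β ∈ F.autGroup Q, Dec E₁ F Q (Q.subtype.comp β.toMonoidHom) := by
  have hQS : Q ≤ S := hQfn.1
  haveI : Finite Q := finite_of_le hQS
  obtain ⟨hFC, hFA⟩ := fullyNormalized_imp p hS F hF hQfn
  have hRec := receptive_of_fullyCentralized p hS F hF hFC
  obtain ⟨-, R, hR⟩ := hFA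
  intro β hβ
  have hβF := (mem_autGroup_iff F hQS β).mp hβ
  by_cases hcen : F.IsCentric Q
  · have hL : ∀ δ : MulAut Q, δ ∈ F.autGroup Q →
        (∀ b ∈ autInducedBy S Q, δ * b * δ⁻¹ ∈ autInducedBy S Q) →
        Dec E₁ F Q (Q.subtype.comp δ.toMonoidHom) := by
      intro δ hδ hyp
      have hδF := (mem_autGroup_iff F hQS δ).mp hδ
      have hNext : normalizerIn S Q ≤ extender S Q (Q.subtype.comp δ.toMonoidHom) := by
        intro g hg
        have hcg : Subgroup.normalizerMonoidHom Q ⟨g, hg.2⟩ ∈ autInducedBy S Q :=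
          Subgroup.subset_closure ⟨g, hg.1, fun x => rfl⟩
        obtain ⟨h, hhS, hh⟩ := (mem_autInducedBy_iff S Q _).mp (hyp _ hcg)
        exact mem_extender_of_conj (S := S) δ (Subgroup.normalizerMonoidHom Q ⟨g, hg.2⟩)
          hg.1 hhS (fun x => rfl) hh
      obtain ⟨ψ, hψ, hψext⟩ := hRec.2 Q _ hδF (range_aut δ)
      have hQN : Q ≤ normalizerIn S Q := le_inf hQS Subgroup.le_normalizer
      have hNS : normalizerIn S Q ≤ S := inf_le_left
      have hlt := card_lt_card_normalizerIn hS hQlt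
      have hdec := IH (normalizerIn S Q) hNS hlt _ (restrict_mem F hψ hNext)
      refine dec_restrict hdec hQN (fun x => ?_)
      exact (hψext x x.2 (hNext (hQN x.2))).symm
    haveI hOn : (Subgroup.closure {x : F.autGroup Q | ∃ k : ℕ, orderOf x = p ^ k}).Normal := by
      apply closure_normal_of_conj'
      rintro d ⟨k, hk⟩ g
      refine ⟨k, ?_⟩
      rw [← hk, ← MulAut.conj_apply]
      exact MulEquiv.orderOf_eq _ _
    have hRO : (R : Subgroup (F.autGroup Q)) ≤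
        Subgroup.closure {x : F.autGroup Q | ∃ k : ℕ, orderOf x = p ^ k} := by
      intro x hx
      apply Subgroup.subset_closure
      obtain ⟨k, hk⟩ := (IsPGroup.iff_orderOf.mp R.isPGroup') ⟨x, hx⟩
      exact ⟨k, by rw [← hk]; exact Subgroup.orderOf_coe (⟨x, hx⟩ : ↥(R : Subgroup (F.autGroup Q)))⟩
    have hfr := Sylow.normalizer_sup_eq_top' R hRO
    have hmemtop : (⟨β, hβ⟩ : F.autGroup Q) ∈ (⊤ : Subgroup (F.autGroup Q)) := Subgroup.mem_top _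
    rw [← hfr, ← SetLike.mem_coe, Subgroup.mul_normal] at hmemtop
    obtain ⟨nn, hnn, a, ha, hprod⟩ := Set.mem_mul.mp hmemtop
    have hadec : Dec E₁ F Q (Q.subtype.comp (a : MulAut Q).toMonoidHom) := by
      have haE : (a : MulAut Q) ∈ E₁.autGroup Q := hcore Q hcen ⟨a, ha, rfl⟩
      exact ⟨1, (F.autGroup S).one_mem, _, (mem_autGroup_iff E₁ hQS _).mp haE, fun x hx => rfl⟩
    have hndec : Dec E₁ F Q (Q.subtype.comp (nn : MulAut Q).toMonoidHom) := by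
      apply hL _ nn.2
      intro b hb
      have hbX : b ∈ F.autGroup Q := autInducedBy_le_autGroup F hQS hb
      have hbR : (⟨b, hbX⟩ : F.autGroup Q) ∈ (R : Subgroup (F.autGroup Q)) := by
        rw [hR]; exact Subgroup.mem_subgroupOf.mpr hb
      have h1 := (Subgroup.mem_normalizer_iff.mp hnn _).mp hbR
      rw [hR] at h1
      exact Subgroup.mem_subgroupOf.mp h1
    have h1 : Dec E₁ F Q (Q.subtype.comp ((nn : MulAut Q) * (a : MulAut Q)).toMonoidHom) :=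
      dec_comp hinv hadec hndec (fun x => ⟨((a : MulAut Q) x).2, rfl⟩)
    have h2 : (nn : MulAut Q) * (a : MulAut Q) = β := congrArg Subtype.val hprod
    rw [h2] at h1; exact h1
  · have hC : ¬ centralizerIn S Q ≤ Q := fun hC => hcen (isCentric_of_fullyCentralized F hFC hC)
    obtain ⟨ψ, hψ, hψext⟩ := hRec.2 Q _ hβF (range_aut β)
    have hle : Q ⊔ centralizerIn S Q ≤ extender S Q (Q.subtype.comp β.toMonoidHom) :=
      sup_le (le_extender F hβF) (centralizerIn_le_extender S Q _)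
    have hRS : Q ⊔ centralizerIn S Q ≤ S := sup_le hQS inf_le_left
    have hQR : Q ≤ Q ⊔ centralizerIn S Q := le_sup_left
    haveI : Finite (Q ⊔ centralizerIn S Q : Subgroup Ω) := finite_of_le hRS
    have hlt : Nat.card Q < Nat.card (Q ⊔ centralizerIn S Q : Subgroup Ω) := by
      by_contra hcon
      push Not at hcon
      have heq := Subgroup.eq_of_le_of_card_ge hQR hcon
      exact hC (le_sup_right.trans heq.ge)
    have hdec := IH _ hRS hlt _ (restrict_mem F hψ hle)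
    refine dec_restrict hdec hQR (fun x => ?_)
    exact (hψext x x.2 (hle (hQR x.2))).symm

theorem s5114 [Finite S] (p : ℕ) [Fact p.Prime] (hS : IsPGroup p S) (F : FusionSystem S)
    (hF : F.IsSaturated p) (E : FusionSystem S) (hEF : E.IsSubsystemOf F)
    (h : ∀ P : Subgroup Ω, F.IsCentric P →
      (Subgroup.closure {α : ↥(F.autGroup P) | ∃ k : ℕ, orderOf α = p ^ k}).map
        (F.autGroup P).subtype ≤ E.autGroup P) :
    E.HasPrimeToPIndexIn F p ∧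
      (∀ (P : Subgroup Ω) (φ : P →* Ω), φ ∈ F.Hom P → ∃ α ∈ F.autGroup S, ∃ φ₀ ∈ E.Hom P,
        ∀ (x : P) (hx : φ₀ x ∈ S), φ x = ((α ⟨φ₀ x, hx⟩ : S) : Ω)) ∧
      ∀ P : Subgroup Ω, E.IsCentric P ↔ F.IsCentric P := by
  have hinv := coreSys_inv E F
  have hcoreh := hcore p E F h
  have hfrat : ∀ (P : Subgroup Ω) (φ : P →* Ω), φ ∈ F.Hom P → ∃ α ∈ F.autGroup S,
      ∃ φ₀ ∈ E.Hom P, ∀ (x : P) (hx : φ₀ x ∈ S), φ x = ((α ⟨φ₀ x, hx⟩ : S) : Ω) := by
    intro P φ hφ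
    have hPS := (F.le_of_mem hφ).1
    obtain ⟨α, hα, φ₀, hφ₀, he⟩ := frattini_gen p hS F hF (coreSys E F) (stronglyClosed_top F)
      hinv (fun Q hQlt hQfn IH => bstep p hS F hF (coreSys E F) hinv hcoreh Q hQlt hQfn IH)
      _ P hPS rfl φ hφ
    exact ⟨α, hα, φ₀, hφ₀.1, he⟩
  refine ⟨⟨hEF, ?_⟩, hfrat, ?_⟩
  · intro P hPS
    rw [Subgroup.map_le_iff_le_comap, Subgroup.closure_le]
    rintro a ⟨k, hk⟩
    show (a : MulAut P) ∈ E.autGroup P
    haveI : Finite P := finite_of_le hPS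
    obtain ⟨Q, hPQ, hQfn⟩ := exists_fullyNormalized_conj F hPS
    have hQS := hQfn.1
    haveI : Finite Q := finite_of_le hQS
    obtain ⟨θ, hθ, hr⟩ := hPQ
    obtain ⟨-, R, hR⟩ := (fullyNormalized_imp p hS F hF hQfn).2
    obtain ⟨a₁, ha₁⟩ : ∃ a₁ : F.autGroup Q, (a₁ : MulAut Q) =
        MulAut.congr (isoOf θ (F.injective_of_mem hθ) hr) (a : MulAut P) :=
      ⟨⟨_, congr_mem_autGroup' F hθ hr a.2⟩, rfl⟩
    have ho : orderOf a₁ = p ^ k := by
      rw [← hk, ← Subgroup.orderOf_coe, ← Subgroup.orderOf_coe, ha₁]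
      exact MulEquiv.orderOf_eq _ _
    have hzp : IsPGroup p (Subgroup.zpowers a₁) := by
      apply IsPGroup.of_card (n := k); rw [Nat.card_zpowers, ho]
    obtain ⟨P₁, hP₁⟩ := hzp.exists_le_sylow
    obtain ⟨g, hg⟩ := MulAction.exists_smul_eq (F.autGroup Q) P₁ R
    have h1 : g * a₁ * g⁻¹ ∈ (R : Subgroup (F.autGroup Q)) := by
      rw [← hg, Cfsg.Agent.Lib_helper7_SylGraph.mem_smul_iff]
      have : g⁻¹ * (g * a₁ * g⁻¹) * g = a₁ := by group
      rw [this]; exact hP₁ (Subgroup.mem_zpowers a₁)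
    rw [hR] at h1
    obtain ⟨s, hsS, hs⟩ := (mem_autInducedBy_iff S Q _).mp (Subgroup.mem_subgroupOf.mp h1)
    have hμ : (Q.subtype.comp (g : MulAut Q).toMonoidHom).comp
        (isoOf θ (F.injective_of_mem hθ) hr).toMonoidHom ∈ F.Hom P := by
      apply comp_mem' F hθ ((mem_autGroup_iff F hQS _).mp g.2)
      intro x
      exact ⟨(isoOf θ (F.injective_of_mem hθ) hr x).2, rfl⟩
    obtain ⟨α, hα, μ₀, hμ₀, hμe⟩ := hfrat P _ hμ
    have hμ₀S : ∀ x, μ₀ x ∈ S := (E.le_of_mem hμ₀).2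
    have hkey : ∀ x : P,
        (((g : MulAut Q) (isoOf θ (F.injective_of_mem hθ) hr ((a : MulAut P) x)) : Q) : Ω) =
        s * (((g : MulAut Q) (isoOf θ (F.injective_of_mem hθ) hr x) : Q) : Ω) * s⁻¹ := by
      intro x
      have h2 := hs ((g : MulAut Q) (isoOf θ (F.injective_of_mem hθ) hr x))
      rw [← h2]
      show _ = (((g : MulAut Q) ((a₁ : MulAut Q) ((g : MulAut Q)⁻¹
        ((g : MulAut Q) (isoOf θ (F.injective_of_mem hθ) hr x)))) : Q) : Ω)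
      rw [MulAut.inv_apply_self, ha₁]
      show _ = (((g : MulAut Q) (isoOf θ (F.injective_of_mem hθ) hr ((a : MulAut P)
        ((isoOf θ (F.injective_of_mem hθ) hr).symm
          (isoOf θ (F.injective_of_mem hθ) hr x)))) : Q) : Ω)
      rw [MulEquiv.symm_apply_apply]
    obtain ⟨s', hs'⟩ : ∃ s' : S, s' = (α⁻¹ : MulAut S) ⟨s, hsS⟩ := ⟨_, rfl⟩
    have hkey₀ : ∀ x : P, μ₀ ((a : MulAut P) x) = (s' : Ω) * μ₀ x * (s' : Ω)⁻¹ := by
      intro x
      have h3 := hμe ((a : MulAut P) x) (hμ₀S _)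
      have h4 := hμe x (hμ₀S _)
      have h5 : α ⟨μ₀ ((a : MulAut P) x), hμ₀S _⟩ =
          ⟨s, hsS⟩ * α ⟨μ₀ x, hμ₀S _⟩ * ⟨s, hsS⟩⁻¹ := by
        apply Subtype.ext
        show ((α ⟨μ₀ ((a : MulAut P) x), hμ₀S _⟩ : S) : Ω) =
          s * ((α ⟨μ₀ x, hμ₀S _⟩ : S) : Ω) * s⁻¹
        rw [← h3, ← h4]
        exact hkey x
      have h6 := congrArg (fun t => (((α⁻¹ : MulAut S) t : S) : Ω)) h5
      simp only [map_mul, map_inv, MulAut.inv_apply_self, Subgroup.coe_mul,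
        Subgroup.coe_inv] at h6
      rw [hs']; exact h6
    rw [mem_autGroup_iff E hPS]
    obtain ⟨ι, hι, hιx, -⟩ := exists_inv E hμ₀
    have hcj : conjHom μ₀.range (s' : Ω) ∈ E.Hom μ₀.range :=
      E.conj_mem (E.le_of_mem hι).1 s'.2
    have h7 : (conjHom μ₀.range (s' : Ω)).comp
        (μ₀.codRestrict μ₀.range (fun x => ⟨x, rfl⟩)) ∈ E.Hom P := E.comp_mem hμ₀ hcj _
    apply comp_mem' E h7 hι
    intro x
    have hx : ((conjHom μ₀.range (s' : Ω)).comp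
        (μ₀.codRestrict μ₀.range (fun x => ⟨x, rfl⟩))) x ∈ μ₀.range := by
      show (s' : Ω) * μ₀ x * (s' : Ω)⁻¹ ∈ μ₀.range
      rw [← hkey₀]; exact ⟨_, rfl⟩
    refine ⟨hx, ?_⟩
    have h8 : (⟨_, hx⟩ : μ₀.range) = ⟨μ₀ ((a : MulAut P) x), ⟨_, rfl⟩⟩ :=
      Subtype.ext (hkey₀ x).symm
    rw [h8, hιx]
    rfl
  · intro P
    constructor
    · rintro ⟨hPS, hc⟩
      refine ⟨hPS, fun Q hQ => ?_⟩
      obtain ⟨φ, hφ, hr⟩ := hQ
      obtain ⟨α, hα, φ₀, hφ₀, he⟩ := hfrat P φ hφ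
      have hφ₀S : ∀ x, φ₀ x ∈ S := (E.le_of_mem hφ₀).2
      have hQ₀ := hc φ₀.range ⟨φ₀, hφ₀, rfl⟩
      intro c hcC
      obtain ⟨hcS, hcc⟩ := hcC
      have h1 : (((α⁻¹ : MulAut S) ⟨c, hcS⟩ : S) : Ω) ∈ centralizerIn S φ₀.range := by
        refine ⟨((α⁻¹ : MulAut S) ⟨c, hcS⟩).2, ?_⟩
        show (((α⁻¹ : MulAut S) ⟨c, hcS⟩ : S) : Ω) ∈ Subgroup.centralizer (φ₀.range : Set Ω)
        rw [Subgroup.mem_centralizer_iff]
        rintro _ ⟨x, rfl⟩
        have h2 : (φ x) * c = c * φ x :=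
          (Subgroup.mem_centralizer_iff.mp hcc) (φ x) (by rw [← hr]; exact ⟨x, rfl⟩)
        have h3 : α ⟨φ₀ x, hφ₀S x⟩ * ⟨c, hcS⟩ = ⟨c, hcS⟩ * α ⟨φ₀ x, hφ₀S x⟩ := by
          apply Subtype.ext
          show ((α ⟨φ₀ x, hφ₀S x⟩ : S) : Ω) * c = c * ((α ⟨φ₀ x, hφ₀S x⟩ : S) : Ω)
          rw [← he x (hφ₀S x)]; exact h2
        have h4 := congrArg (fun t => (((α⁻¹ : MulAut S) t : S) : Ω)) h3
        simp only [map_mul, MulAut.inv_apply_self, Subgroup.coe_mul] at h4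
        exact h4
      have h5 := hQ₀ h1
      obtain ⟨x, hx⟩ := h5
      rw [← hr]
      refine ⟨x, ?_⟩
      rw [he x (hφ₀S x)]
      have : (⟨φ₀ x, hφ₀S x⟩ : S) = (α⁻¹ : MulAut S) ⟨c, hcS⟩ := Subtype.ext hx
      rw [this, MulAut.apply_inv_self]
    · rintro ⟨hPS, hc⟩
      exact ⟨hPS, fun Q ⟨φ, hφ, hr⟩ => hc Q ⟨φ, hEF P hφ, hr⟩⟩

end Cfsg.Agent.Lib_helper9_FusionPrimeIdx
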