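import Mathlib
import Cfsg.Agent.Lib_helper2_DihSyl
import Cfsg.Agent.Lib_helper7_CentricRadical

set_option autoImplicit false

namespace Cfsg.Agent.Lib_helper9_GenQuat

open Cfsg.Agent.Lib_helper2_DihSyl
open scoped commutatorElement

/-- the linear character of a quaternion group whose kernel is the cyclic subgroup of the `a i` -/
def qChar (m : ℕ) : QuaternionGroup m →* ℤˣ :=
  MonoidHom.mk' (fun d => match d with
    | QuaternionGroup.a _ => 1
    | QuaternionGroup.xa _ => -1) (by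
    rintro (a | a) (b | b)
    · show (1 : ℤˣ) = 1 * 1
      simp
    · show (-1 : ℤˣ) = 1 * -1
      simp
    · show (-1 : ℤˣ) = -1 * 1
      simp
    · show (1 : ℤˣ) = -1 * -1
      simp)

theorem qChar_a (m : ℕ) (i : ZMod (2 * m)) : qChar m (QuaternionGroup.a i) = 1 := rfl

theorem qChar_xa (m : ℕ) (i : ZMod (2 * m)) : qChar m (QuaternionGroup.xa i) = -1 := rfl

/-- In a cyclic group generated by `c`, a subgroup `H` contains every element `x` with
`x ^ |H| = 1`. -/
theorem cyc_unique {X : Type*} [Group X] [Finite X] (c : X) (H : Subgroup X)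
    (hH : H ≤ Subgroup.zpowers c) (x : X) (hx : x ∈ Subgroup.zpowers c)
    (hxn : x ^ Nat.card H = 1) : x ∈ H := by
  classical
  haveI : Fintype ↥(Subgroup.zpowers c) := Fintype.ofFinite _
  haveI : Fintype ↥H := Fintype.ofFinite _
  have hn0 : 0 < Nat.card H := Nat.card_pos
  have hle := IsCyclic.card_pow_eq_one_le (α := ↥(Subgroup.zpowers c)) hn0
  let f : ↥H → ↥(Subgroup.zpowers c) := fun h => ⟨h.1, hH h.2⟩
  have hf : Function.Injective f := by
    intro a b hab
    have h1 : (f a).1 = (f b).1 := congrArg Subtype.val hab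
    exact Subtype.ext h1
  have himg : (Finset.univ.image f) ⊆
      Finset.univ.filter (fun a : ↥(Subgroup.zpowers c) => a ^ Nat.card H = 1) := by
    intro a ha
    obtain ⟨h, -, rfl⟩ := Finset.mem_image.mp ha
    rw [Finset.mem_filter]
    refine ⟨Finset.mem_univ _, ?_⟩
    apply Subtype.ext
    show (h.1) ^ Nat.card H = 1
    have := pow_card_eq_one' (G := ↥H) (x := h)
    exact congrArg Subtype.val this
  have heq := Finset.eq_of_subset_of_card_le himg (by
    rw [Finset.card_image_of_injective _ hf, Finset.card_univ, ← Nat.card_eq_fintype_card]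
    exact hle)
  have hmem : (⟨x, hx⟩ : ↥(Subgroup.zpowers c)) ∈
      Finset.univ.filter (fun a : ↥(Subgroup.zpowers c) => a ^ Nat.card H = 1) := by
    rw [Finset.mem_filter]
    exact ⟨Finset.mem_univ _, Subtype.ext hxn⟩
  rw [← heq] at hmem
  obtain ⟨h, -, hh⟩ := Finset.mem_image.mp hmem
  have h1 : (h : X) = x := congrArg Subtype.val hh
  rw [← h1]
  exact h.2

/-- the centralizer is normalized by the normalizer -/
theorem cent_conj {G : Type*} [Group G] (D : Subgroup G) {g c : G} (hg : g ∈ Subgroup.normalizer (D : Set G))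
    (hc : c ∈ Subgroup.centralizer (D : Set G)) :
    g * c * g⁻¹ ∈ Subgroup.centralizer (D : Set G) := by
  rw [Subgroup.mem_centralizer_iff] at hc ⊢
  intro d hd
  have h1 : g⁻¹ * d * g ∈ D := (Subgroup.mem_normalizer_iff''.mp hg d).mp hd
  have h2 := hc _ h1
  calc d * (g * c * g⁻¹) = g * ((g⁻¹ * d * g) * c) * g⁻¹ := by group
    _ = g * (c * (g⁻¹ * d * g)) * g⁻¹ := by rw [h2]
    _ = g * c * g⁻¹ * d := by group

section core

variable {G : Type*} [Group G] [Finite G]

theorem mem_normalizer_of_conj_mem (D : Subgroup G) (g : G)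
    (h : ∀ d ∈ D, g⁻¹ * d * g ∈ D) : g ∈ Subgroup.normalizer (D : Set G) := by
  rw [Subgroup.mem_normalizer_iff'']
  intro d
  constructor
  · exact h d
  · intro hd
    let φ : ↥D → ↥D := fun x => ⟨g⁻¹ * x.1 * g, h x.1 x.2⟩
    have hinj : Function.Injective φ := by
      intro a b hab
      have h1 : g⁻¹ * a.1 * g = g⁻¹ * b.1 * g := congrArg Subtype.val hab
      have h2 : a.1 = b.1 := by simpa using h1
      exact Subtype.ext h2
    have hsurj := Finite.injective_iff_surjective.mp hinj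
    obtain ⟨x, hx⟩ := hsurj ⟨g⁻¹ * d * g, hd⟩
    have h1 : g⁻¹ * x.1 * g = g⁻¹ * d * g := congrArg Subtype.val hx
    have h2 : x.1 = d := by simpa using h1
    rw [← h2]
    exact x.2

/-- odd-order elements normalizing a cyclic subgroup of a Sylow `2`-subgroup centralize it -/
theorem odd_cent (S : Sylow 2 G) (D : Subgroup G) (hDS : D ≤ (S : Subgroup G)) [IsCyclic D]
    {g : G} (hg : g ∈ Subgroup.normalizer (D : Set G)) (hodd : (orderOf g).Coprime 2) :
    g ∈ Subgroup.centralizer (D : Set G) := by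
  have h2 : ∀ q ∈ D, ∃ e : ℕ, q ^ (2 ^ e) = 1 := by
    intro q hq
    obtain ⟨k, hk⟩ := S.isPGroup' ⟨q, hDS hq⟩
    exact ⟨k, congrArg Subtype.val hk⟩
  have h := centralizes_cyclic D h2 (g := g)
    (fun q hq => (Subgroup.mem_normalizer_iff.mp hg q).mp hq) hodd
  rw [Subgroup.mem_centralizer_iff]
  intro d hd
  have h3 := h d hd
  calc d * g = (g * d * g⁻¹) * g := by rw [h3]
    _ = g * d := by group

/-- `S ∩ C(D)` is a Sylow `2`-subgroup of `C(D)` -/
theorem inf_cent_sylow (S : Sylow 2 G) (D : Subgroup G)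
    (hSN : (S : Subgroup G) ≤ Subgroup.normalizer (D : Set G)) :
    ¬ 2 ∣ ((S : Subgroup G) ⊓ Subgroup.centralizer (D : Set G)).relIndex
      (Subgroup.centralizer (D : Set G)) :=
  Cfsg.Agent.Lib_helper7_CentricRadical.inf_sylow (S : Subgroup G)
    (Subgroup.normalizer (D : Set G)) (Subgroup.centralizer (D : Set G)) S.isPGroup'
    (Cfsg.Agent.Lib_helper7_Alperin.not_dvd_relIndex_of_sylow S _ hSN)
    (Subgroup.centralizer_le_normalizer (D : Set G))
    (fun x hx c hc => cent_conj D hx hc)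

theorem core842 (S : Sylow 2 G) (D : Subgroup G) (r : G)
    (hA : (S : Subgroup G) ⊓ Subgroup.centralizer (D : Set G) = Subgroup.zpowers r)
    (hDr : D ≤ Subgroup.zpowers r) (hSN : (S : Subgroup G) ≤ Subgroup.normalizer (D : Set G))
    (hidx : ((S : Subgroup G) ⊓ Subgroup.centralizer (D : Set G)).relIndex (S : Subgroup G) = 2)
    (hD1 : D ≠ ⊥) :
    ∃ K : Subgroup G, Odd (Nat.card K) ∧ K ≤ Subgroup.centralizer (D : Set G) ∧
      Subgroup.normalizer (D : Set G) ≤ Subgroup.normalizer (K : Set G) ∧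
      K ⊔ (S : Subgroup G) = Subgroup.normalizer (D : Set G) ∧
      K ⊔ ((S : Subgroup G) ⊓ Subgroup.centralizer (D : Set G)) =
        Subgroup.centralizer (D : Set G) ∧
      ((Subgroup.centralizer (D : Set G)).subgroupOf (Subgroup.normalizer (D : Set G))).index
        = 2 := by
  classical
  have hCN : Subgroup.centralizer (D : Set G) ≤ Subgroup.normalizer (D : Set G) :=
    Subgroup.centralizer_le_normalizer (D : Set G)
  have hDA : D ≤ (S : Subgroup G) ⊓ Subgroup.centralizer (D : Set G) := by rw [hA]; exact hDr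
  have hDS : D ≤ (S : Subgroup G) := hDA.trans inf_le_left
  have hDC : D ≤ Subgroup.centralizer (D : Set G) := hDA.trans inf_le_right
  haveI : IsCyclic D := Subgroup.isCyclic_of_le (H' := Subgroup.zpowers r) hDr
  have hAidx := inf_cent_sylow S D hSN
  generalize hC : Subgroup.centralizer (D : Set G) = C at *
  generalize hN : Subgroup.normalizer (D : Set G) = N at *
  have hconjC : ∀ g ∈ N, ∀ c ∈ C, g * c * g⁻¹ ∈ C := by
    intro g hg c hc
    rw [← hC] at hc ⊢
    rw [← hN] at hg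
    exact cent_conj D hg hc
  have hoddC : ∀ g ∈ N, (orderOf g).Coprime 2 → g ∈ C := by
    intro g hg ho
    rw [← hC]
    rw [← hN] at hg
    exact odd_cent S D hDS hg ho
  have hA2 : IsPGroup 2 ↥(((S : Subgroup G) ⊓ C).subgroupOf C) :=
    (S.isPGroup'.to_le inf_le_left).comap_subtype
  let P₀ : Sylow 2 ↥C := IsPGroup.toSylow hA2 hAidx
  have hP₀ : (P₀ : Subgroup ↥C) = ((S : Subgroup G) ⊓ C).subgroupOf C :=
    IsPGroup.toSylow_coe hA2 hAidx
  have hcyc : IsCyclic ↥(P₀ : Subgroup ↥C) := by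
    rw [hP₀]
    haveI : IsCyclic ↥((S : Subgroup G) ⊓ C) := by rw [hA]; infer_instance
    exact (Subgroup.subgroupOfEquivOfLe
      (inf_le_right : (S : Subgroup G) ⊓ C ≤ C)).isCyclic.mpr inferInstance
  have h2C : 2 ∣ Nat.card ↥C := by
    obtain ⟨k, hk⟩ := (S.isPGroup'.to_le hDS).exists_card_eq
    have hk0 : k ≠ 0 := by
      intro h0
      rw [h0, pow_zero] at hk
      exact hD1 (Subgroup.card_eq_one.mp hk)
    have h1 : 2 ∣ Nat.card D := by rw [hk]; exact dvd_pow_self 2 hk0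
    exact h1.trans (Subgroup.card_dvd_of_le hDC)
  have hmin : (Nat.card ↥C).minFac = 2 := (Nat.minFac_eq_two_iff _).mpr h2C
  have hcomp := IsCyclic.isComplement' hmin hcyc
  generalize hK₀ : (MonoidHom.transferSylow P₀ (hcyc.normalizer_le_centralizer hmin)).ker = K₀
    at hcomp
  haveI hK₀n : K₀.Normal := by rw [← hK₀]; exact MonoidHom.normal_ker _
  have hKodd : Odd (Nat.card K₀) := by
    have h1 : (P₀ : Subgroup ↥C).index = Nat.card K₀ := hcomp.index_eq_card
    have h2 : ¬ 2 ∣ (P₀ : Subgroup ↥C).index := P₀.not_dvd_index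
    rw [h1] at h2
    exact Nat.odd_iff.mpr (Nat.two_dvd_ne_zero.mp h2)
  obtain ⟨k, hk⟩ : ∃ k : ℕ, K₀.index = 2 ^ k := by
    obtain ⟨k, hk⟩ := P₀.isPGroup'.exists_card_eq
    exact ⟨k, by rw [hcomp.symm.index_eq_card, hk]⟩
  -- characterization of `K₀`
  have hchar : ∀ x : ↥C, x ∈ K₀ ↔ (orderOf (x : G)).Coprime 2 := by
    intro x
    constructor
    · intro hx
      have h1 : orderOf (⟨x, hx⟩ : ↥K₀) ∣ Nat.card K₀ := orderOf_dvd_natCard _
      rw [Subgroup.orderOf_mk, ← Subgroup.orderOf_coe] at h1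
      exact Nat.Coprime.coprime_dvd_left h1 (Nat.coprime_two_right.mpr hKodd)
    · intro hx
      have h1 : x ^ K₀.index ∈ K₀ := Subgroup.pow_index_mem K₀ x
      rw [hk] at h1
      have h2 : (2 ^ k).Coprime (orderOf x) := by
        rw [Subgroup.orderOf_coe] at hx
        exact (Nat.Coprime.pow_right k hx).symm
      obtain ⟨m, hm⟩ := exists_pow_eq_self_of_coprime h2
      rw [← hm]
      exact pow_mem h1 m
  have h5 : K₀.map C.subtype ⊔ ((S : Subgroup G) ⊓ C) = C := by
    have h1 : K₀ ⊔ (P₀ : Subgroup ↥C) = ⊤ := hcomp.sup_eq_top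
    have h2 := congrArg (Subgroup.map C.subtype) h1
    rw [Subgroup.map_sup, hP₀, Subgroup.subgroupOf_map_subtype, ← MonoidHom.range_eq_map,
      Subgroup.range_subtype, inf_of_le_left (inf_le_right : (S : Subgroup G) ⊓ C ≤ C)] at h2
    exact h2
  haveI hCn : (C.subgroupOf N).Normal := ⟨fun n hn g => by
    rw [Subgroup.mem_subgroupOf] at hn ⊢
    exact hconjC g g.2 n hn⟩
  have hpq : IsPGroup 2 (↥N ⧸ C.subgroupOf N) := by
    intro q
    obtain ⟨g, rfl⟩ := QuotientGroup.mk_surjective q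
    have hne : orderOf (g : G) ≠ 0 := (orderOf_pos _).ne'
    obtain ⟨j, b, hb, hjb⟩ := Nat.exists_eq_two_pow_mul_odd hne
    refine ⟨j, ?_⟩
    rw [← QuotientGroup.mk_pow, QuotientGroup.eq_one_iff, Subgroup.mem_subgroupOf]
    have hmem : ((g : G) ^ 2 ^ j) ∈ N := pow_mem g.2 _
    have hord : (orderOf ((g : G) ^ 2 ^ j)).Coprime 2 := by
      have h1 : ((g : G) ^ 2 ^ j) ^ b = 1 := by rw [← pow_mul, ← hjb, pow_orderOf_eq_one]
      have h2 : orderOf ((g : G) ^ 2 ^ j) ∣ b := orderOf_dvd_of_pow_eq_one h1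
      exact Nat.Coprime.coprime_dvd_left h2 (Nat.coprime_two_right.mpr hb)
    have := hoddC _ hmem hord
    simpa using this
  have hsup : C.subgroupOf N ⊔ (S : Subgroup G).subgroupOf N = ⊤ := by
    obtain ⟨k', hk'⟩ := hpq.exists_card_eq
    have h1 : (C.subgroupOf N).index = 2 ^ k' := by rw [Subgroup.index_eq_card, hk']
    have h2 : ¬ 2 ∣ ((S : Subgroup G).subgroupOf N).index :=
      Cfsg.Agent.Lib_helper7_Alperin.not_dvd_relIndex_of_sylow S N hSN
    have h3 : (C.subgroupOf N ⊔ (S : Subgroup G).subgroupOf N).index ∣ 2 ^ k' := by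
      rw [← h1]; exact Subgroup.index_dvd_of_le le_sup_left
    have h4 : (C.subgroupOf N ⊔ (S : Subgroup G).subgroupOf N).index ∣
        ((S : Subgroup G).subgroupOf N).index := Subgroup.index_dvd_of_le le_sup_right
    obtain ⟨i, -, hi⟩ := (Nat.dvd_prime_pow Nat.prime_two).mp h3
    rcases Nat.eq_zero_or_pos i with h0 | h0
    · rw [h0, pow_zero] at hi; exact Subgroup.index_eq_one.mp hi
    · exfalso; apply h2; rw [hi] at h4; exact (dvd_pow_self 2 h0.ne').trans h4
  have hCS : C ⊔ (S : Subgroup G) = N := by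
    have h1 := congrArg (Subgroup.map N.subtype) hsup
    rw [Subgroup.map_sup, Subgroup.subgroupOf_map_subtype, Subgroup.subgroupOf_map_subtype,
      ← MonoidHom.range_eq_map, Subgroup.range_subtype, inf_of_le_left hCN,
      inf_of_le_left hSN] at h1
    exact h1
  have hindex : (C.subgroupOf N).index = 2 := by
    have h1 : (C.subgroupOf N).relIndex (C.subgroupOf N ⊔ (S : Subgroup G).subgroupOf N) =
        (C.subgroupOf N).relIndex ((S : Subgroup G).subgroupOf N) := Subgroup.relIndex_sup_left _ _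
    rw [hsup, Subgroup.relIndex_top_right, Subgroup.relIndex_subgroupOf hSN] at h1
    rw [h1, ← Subgroup.inf_relIndex_right, inf_comm]
    exact hidx
  refine ⟨K₀.map C.subtype, ?_, ?_, ?_, ?_, ?_, ?_⟩
  · rw [Subgroup.card_map_of_injective (Subgroup.subtype_injective C)]
    exact hKodd
  · exact Subgroup.map_subtype_le _
  · have key : ∀ g ∈ N, ∀ x ∈ K₀.map C.subtype, g * x * g⁻¹ ∈ K₀.map C.subtype := by
      intro g hg x hx
      obtain ⟨x', hx', rfl⟩ := Subgroup.mem_map.mp hx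
      have h1 : g * (x' : G) * g⁻¹ ∈ C := hconjC g hg _ x'.2
      refine Subgroup.mem_map.mpr ⟨⟨_, h1⟩, ?_, rfl⟩
      rw [hchar]
      have h2 : orderOf (g * (x' : G) * g⁻¹) = orderOf (x' : G) :=
        (MulAut.conj g).orderOf_eq (x' : G)
      show (orderOf (g * (x' : G) * g⁻¹)).Coprime 2
      rw [h2]
      exact (hchar x').mp hx'
    intro g hg
    rw [Subgroup.mem_normalizer_iff]
    intro x
    constructor
    · exact key g hg x
    · intro h
      have h1 := key g⁻¹ (inv_mem hg) _ h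
      have h2 : g⁻¹ * (g * x * g⁻¹) * g⁻¹⁻¹ = x := by group
      rw [h2] at h1
      exact h1
  · have h1 : K₀.map C.subtype ⊔ (S : Subgroup G) =
        (K₀.map C.subtype ⊔ ((S : Subgroup G) ⊓ C)) ⊔ (S : Subgroup G) := by
      rw [sup_assoc, sup_of_le_right (inf_le_left : (S : Subgroup G) ⊓ C ≤ S)]
    rw [h1, h5, hCS]
  · exact h5
  · exact hindex

theorem core843 (S : Sylow 2 G) (D : Subgroup G) (r : G)
    (hA : (S : Subgroup G) ⊓ Subgroup.centralizer (D : Set G) = Subgroup.zpowers r)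
    (hDr : D ≤ Subgroup.zpowers r) (hSN : (S : Subgroup G) ≤ Subgroup.normalizer (D : Set G)) :
    (∀ y : G, y ∈ Subgroup.centralizer (D : Set G) → Nat.card D ∣ orderOf y →
      D ≤ Subgroup.zpowers y) ∧
    (∀ g y : G, y ∈ Subgroup.centralizer (D : Set G) → Nat.card D ∣ orderOf y →
      g * y * g⁻¹ ∈ Subgroup.centralizer (D : Set G) → g ∈ Subgroup.normalizer (D : Set G)) ∧
    (∀ g y : G, g ∈ Subgroup.normalizer (D : Set G) → y ∈ Subgroup.centralizer (D : Set G) →
      Nat.card D ∣ orderOf y → g * y * g⁻¹ ∈ Subgroup.centralizer (D : Set G) ∧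
        Nat.card D ∣ orderOf (g * y * g⁻¹)) := by
  classical
  have hDA : D ≤ (S : Subgroup G) ⊓ Subgroup.centralizer (D : Set G) := by rw [hA]; exact hDr
  have hDS : D ≤ (S : Subgroup G) := hDA.trans inf_le_left
  have hAidx := inf_cent_sylow S D hSN
  have hconj : ∀ g y : G, orderOf (g * y * g⁻¹) = orderOf y := fun g y =>
    (MulAut.conj g).orderOf_eq y
  have hDpow : ∀ d ∈ D, d ^ Nat.card D = 1 := by
    intro d hd
    have := pow_card_eq_one' (G := ↥D) (x := ⟨d, hd⟩)
    exact congrArg Subtype.val this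
  have part1 : ∀ y : G, y ∈ Subgroup.centralizer (D : Set G) → Nat.card D ∣ orderOf y →
      D ≤ Subgroup.zpowers y := by
    intro y hy hdvd
    obtain ⟨k, hk⟩ := (S.isPGroup'.to_le hDS).exists_card_eq
    have hne : orderOf y ≠ 0 := (orderOf_pos _).ne'
    obtain ⟨a, b, hb, hab⟩ := Nat.exists_eq_two_pow_mul_odd hne
    have hb0 : b ≠ 0 := by
      rintro rfl
      simp at hb
    have hka : k ≤ a := by
      rw [hk, hab] at hdvd
      have hcop : (2 ^ k).Coprime b := Nat.Coprime.pow_left k (Nat.coprime_two_left.mpr hb)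
      have h1 : 2 ^ k ∣ 2 ^ a := hcop.dvd_of_dvd_mul_right hdvd
      exact (Nat.pow_dvd_pow_iff_le_right (by norm_num)).mp h1
    have hy2 : orderOf (y ^ b) = 2 ^ a := by
      rw [orderOf_pow_of_dvd hb0 ⟨2 ^ a, by rw [hab, mul_comm]⟩, hab,
        Nat.mul_div_cancel _ (Nat.pos_of_ne_zero hb0)]
    have hp2 : IsPGroup 2 ↥(Subgroup.zpowers (y ^ b)) :=
      IsPGroup.of_card (n := a) (by rw [Nat.card_zpowers, hy2])
    have hle : Subgroup.zpowers (y ^ b) ≤ Subgroup.centralizer (D : Set G) :=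
      Subgroup.zpowers_le.mpr (pow_mem hy b)
    obtain ⟨m, hmC, hm⟩ := Cfsg.Agent.Lib_helper7_Alperin.exists_conj_of_relIndex
      ((S : Subgroup G) ⊓ Subgroup.centralizer (D : Set G)) (Subgroup.centralizer (D : Set G))
      (Subgroup.zpowers (y ^ b)) (S.isPGroup'.to_le inf_le_left) hAidx hle hp2
    have hw : m * y ^ b * m⁻¹ ∈ Subgroup.zpowers r := by
      rw [← hA]
      exact hm _ (Subgroup.mem_zpowers _)
    have hwo : orderOf (m * y ^ b * m⁻¹) = 2 ^ a := by rw [hconj, hy2]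
    have hWo : orderOf ((m * y ^ b * m⁻¹) ^ 2 ^ (a - k)) = 2 ^ k := by
      rw [orderOf_pow_of_dvd (pow_ne_zero _ (by norm_num))
        (by rw [hwo]; exact pow_dvd_pow 2 (Nat.sub_le a k)), hwo,
        Nat.pow_div (Nat.sub_le a k) (by norm_num)]
      congr 1
      omega
    have hWr : Subgroup.zpowers ((m * y ^ b * m⁻¹) ^ 2 ^ (a - k)) ≤ Subgroup.zpowers r :=
      Subgroup.zpowers_le.mpr (pow_mem hw _)
    have hWc : Nat.card ↥(Subgroup.zpowers ((m * y ^ b * m⁻¹) ^ 2 ^ (a - k))) = Nat.card D := by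
      rw [Nat.card_zpowers, hWo, hk]
    intro d hd
    have h1 : d ∈ Subgroup.zpowers ((m * y ^ b * m⁻¹) ^ 2 ^ (a - k)) := by
      apply cyc_unique r _ hWr d (hDr hd)
      rw [hWc]
      exact hDpow d hd
    have h2 : d ∈ Subgroup.zpowers (m * y ^ b * m⁻¹) :=
      (Subgroup.zpowers_le.mpr (pow_mem (Subgroup.mem_zpowers _) _)) h1
    obtain ⟨z, hz⟩ := Subgroup.mem_zpowers_iff.mp h2
    rw [conj_zpow] at hz
    have hcomm : d * m = m * d := Subgroup.mem_centralizer_iff.mp hmC d hd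
    have h3 : (y ^ b) ^ z = d := by
      have : m * (y ^ b) ^ z = m * d := by
        rw [← hcomm, ← hz]
        group
      exact mul_left_cancel this
    rw [← h3]
    exact zpow_mem (pow_mem (Subgroup.mem_zpowers y) b) z
  refine ⟨part1, ?_, ?_⟩
  · intro g y hy hdvd hgy
    have h1 : D ≤ Subgroup.zpowers (g * y * g⁻¹) := part1 _ hgy (by rw [hconj]; exact hdvd)
    have h2 : D ≤ Subgroup.zpowers y := part1 y hy hdvd
    apply mem_normalizer_of_conj_mem
    intro d hd
    apply cyc_unique y D h2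
    · obtain ⟨z, hz⟩ := Subgroup.mem_zpowers_iff.mp (h1 hd)
      rw [conj_zpow] at hz
      have : g⁻¹ * d * g = y ^ z := by rw [← hz]; group
      rw [this]
      exact zpow_mem (Subgroup.mem_zpowers y) z
    · have h3 : (g⁻¹ * d * g) ^ Nat.card D = g⁻¹ * d ^ Nat.card D * g := by
        have := conj_pow (a := g⁻¹) (b := d) (i := Nat.card D)
        rw [inv_inv] at this
        exact this
      rw [h3, hDpow d hd]
      group
  · intro g y hg hy hdvd
    exact ⟨cent_conj D hg hy, by rw [hconj]; exact hdvd⟩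

end core

theorem quat_setup {G : Type*} [Group G] [Finite G] (S : Sylow 2 G) (m : ℕ) [NeZero m]
    (h4 : (4 : ZMod (2 * m)) ≠ 0)
    (e : ↥(S : Subgroup G) ≃* QuaternionGroup m) (D : Subgroup G)
    (hD : D = ⁅(S : Subgroup G), (S : Subgroup G)⁆) :
    ∃ r : G, (S : Subgroup G) ⊓ Subgroup.centralizer (D : Set G) = Subgroup.zpowers r ∧
      D ≤ Subgroup.zpowers r ∧ (S : Subgroup G) ≤ Subgroup.normalizer (D : Set G) ∧
      ((S : Subgroup G) ⊓ Subgroup.centralizer (D : Set G)).relIndex (S : Subgroup G) = 2 ∧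
      D ≠ ⊥ := by
  classical
  haveI : NeZero (2 * m) := ⟨by have := NeZero.ne m; omega⟩
  let ψ : ↥(S : Subgroup G) →* ℤˣ := (qChar m).comp e.toMonoidHom
  have hψ : ∀ s, ψ s = qChar m (e s) := fun s => rfl
  have F1 : ∀ d ∈ D, ∃ hd : d ∈ (S : Subgroup G), ψ ⟨d, hd⟩ = 1 := by
    have hle : D ≤ (ψ.ker).map (S : Subgroup G).subtype := by
      rw [hD, Subgroup.commutator_le]
      intro g₁ h₁ g₂ h₂
      refine Subgroup.mem_map.mpr ⟨⁅(⟨g₁, h₁⟩ : ↥(S : Subgroup G)), ⟨g₂, h₂⟩⁆, ?_, rfl⟩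
      rw [MonoidHom.mem_ker, map_commutatorElement]
      exact commutatorElement_eq_one_iff_commute.mpr (Commute.all _ _)
    intro d hd
    obtain ⟨x, hx, rfl⟩ := Subgroup.mem_map.mp (hle hd)
    exact ⟨x.2, MonoidHom.mem_ker.mp hx⟩
  have F2 : ∀ s : ↥(S : Subgroup G), ψ s = 1 → ∃ i, e s = QuaternionGroup.a i := by
    intro s hs
    rw [hψ] at hs
    rcases hes : e s with i | i
    · exact ⟨i, rfl⟩
    · rw [hes, qChar_xa] at hs
      exact absurd hs (by decide)
  let x₀ : ↥(S : Subgroup G) := e.symm (QuaternionGroup.xa 0)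
  let y₀ : ↥(S : Subgroup G) := e.symm (QuaternionGroup.a 1)
  let c : ↥(S : Subgroup G) := ⁅x₀, y₀⁆
  have hcD : (c : G) ∈ D := by
    rw [hD]
    have : (c : G) = ⁅(x₀ : G), (y₀ : G)⁆ := by
      simp [c, commutatorElement_def]
    rw [this]
    exact Subgroup.commutator_mem_commutator x₀.2 y₀.2
  have hec : e c = QuaternionGroup.a (-2) := by
    have h1 : e c = ⁅(QuaternionGroup.xa 0 : QuaternionGroup m), (QuaternionGroup.a 1 : QuaternionGroup m)⁆ := by
      simp [c, x₀, y₀, map_commutatorElement]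
    have h2 : ⁅(QuaternionGroup.xa 0 : QuaternionGroup m), (QuaternionGroup.a 1 : QuaternionGroup m)⁆ *
        (QuaternionGroup.a 1 * QuaternionGroup.xa 0) =
        QuaternionGroup.xa 0 * QuaternionGroup.a 1 := by
      rw [commutatorElement_def]; group
    have h3 : (QuaternionGroup.a (-2) : QuaternionGroup m) *
        (QuaternionGroup.a 1 * QuaternionGroup.xa 0) =
        QuaternionGroup.xa 0 * QuaternionGroup.a 1 := by
      simp only [QuaternionGroup.a_mul_xa, QuaternionGroup.xa_mul_a]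
      congr 1; ring
    rw [h1]
    exact mul_right_cancel (h2.trans h3.symm)
  have F4 : ∀ s : ↥(S : Subgroup G), (s : G) ∈ Subgroup.centralizer (D : Set G) → ψ s = 1 := by
    intro s hs
    rw [hψ]
    rcases hes : e s with i | i
    · rfl
    · exfalso
      have h1 : (c : G) * (s : G) = (s : G) * (c : G) :=
        Subgroup.mem_centralizer_iff.mp hs _ hcD
      have h2 : c * s = s * c := Subtype.ext h1
      have h3 : e c * e s = e s * e c := by rw [← map_mul, ← map_mul, h2]
      rw [hec, hes] at h3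
      simp only [QuaternionGroup.a_mul_xa, QuaternionGroup.xa_mul_a] at h3
      have h5 : i - -2 = i + -2 := QuaternionGroup.xa.inj h3
      apply h4
      linear_combination h5
  have F5 : ∀ s : ↥(S : Subgroup G), ψ s = 1 → (s : G) ∈ Subgroup.centralizer (D : Set G) := by
    intro s hs
    obtain ⟨i, hi⟩ := F2 s hs
    rw [Subgroup.mem_centralizer_iff]
    intro d hd
    obtain ⟨hdS, hdψ⟩ := F1 d hd
    obtain ⟨j, hj⟩ := F2 ⟨d, hdS⟩ hdψ
    have h1 : (⟨d, hdS⟩ : ↥(S : Subgroup G)) * s = s * ⟨d, hdS⟩ := by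
      apply e.injective
      rw [map_mul, map_mul, hi, hj]
      simp only [QuaternionGroup.a_mul_a]
      rw [add_comm]
    exact congrArg Subtype.val h1
  have hy₀ψ : ψ y₀ = 1 := by rw [hψ]; simp [y₀, qChar_a]
  have hA : (S : Subgroup G) ⊓ Subgroup.centralizer (D : Set G) = Subgroup.zpowers (y₀ : G) := by
    apply le_antisymm
    · rintro g ⟨hgS, hgC⟩
      have hgS' : g ∈ (S : Subgroup G) := hgS
      obtain ⟨i, hi⟩ := F2 ⟨g, hgS'⟩ (F4 ⟨g, hgS'⟩ hgC)
      have h1 : (⟨g, hgS'⟩ : ↥(S : Subgroup G)) = y₀ ^ i.val := by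
        apply e.injective
        rw [map_pow, hi]
        simp only [y₀, MulEquiv.apply_symm_apply, QuaternionGroup.a_one_pow]
        rw [ZMod.natCast_zmod_val]
      have h2 : g = (y₀ : G) ^ i.val := by
        have := congrArg Subtype.val h1
        simpa using this
      rw [h2]
      exact Subgroup.pow_mem _ (Subgroup.mem_zpowers _) _
    · rw [Subgroup.zpowers_le]
      exact ⟨y₀.2, F5 y₀ hy₀ψ⟩
  have hDr : D ≤ Subgroup.zpowers (y₀ : G) := by
    intro d hd
    rw [← hA]
    obtain ⟨hdS, hdψ⟩ := F1 d hd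
    exact ⟨hdS, F5 ⟨d, hdS⟩ hdψ⟩
  have hSN : (S : Subgroup G) ≤ Subgroup.normalizer (D : Set G) := by
    have hmap : D = (commutator ↥(S : Subgroup G)).map (S : Subgroup G).subtype := by
      rw [hD, Subgroup.map_subtype_commutator]
    have key : ∀ s ∈ (S : Subgroup G), ∀ d ∈ D, s * d * s⁻¹ ∈ D := by
      intro s hs d hd
      rw [hmap] at hd ⊢
      obtain ⟨d', hd', rfl⟩ := Subgroup.mem_map.mp hd
      refine Subgroup.mem_map.mpr ⟨⟨s, hs⟩ * d' * ⟨s, hs⟩⁻¹, ?_, rfl⟩
      exact (inferInstance : (commutator ↥(S : Subgroup G)).Normal).conj_mem d' hd' ⟨s, hs⟩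
    intro s hs
    rw [Subgroup.mem_normalizer_iff]
    intro d
    constructor
    · exact key s hs d
    · intro h
      have h1 := key s⁻¹ (inv_mem hs) _ h
      have h2 : s⁻¹ * (s * d * s⁻¹) * s⁻¹⁻¹ = d := by group
      rw [h2] at h1
      exact h1
  have hidx : ((S : Subgroup G) ⊓ Subgroup.centralizer (D : Set G)).relIndex (S : Subgroup G)
      = 2 := by
    have hker : ((S : Subgroup G) ⊓ Subgroup.centralizer (D : Set G)).subgroupOf (S : Subgroup G)
        = ψ.ker := by
      ext s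
      rw [Subgroup.mem_subgroupOf, MonoidHom.mem_ker]
      constructor
      · rintro ⟨-, hsC⟩
        exact F4 s hsC
      · intro hs
        exact ⟨s.2, F5 s hs⟩
    rw [Subgroup.relIndex, hker, Subgroup.index_ker]
    have hrange : ψ.range = ⊤ := by
      rw [MonoidHom.range_eq_top]
      intro u
      rcases Int.units_eq_one_or u with rfl | rfl
      · exact ⟨1, map_one _⟩
      · exact ⟨x₀, by rw [hψ]; simp [x₀, qChar_xa]⟩
    rw [hrange, Subgroup.card_top, Nat.card_eq_fintype_card, Fintype.card_units_int]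
  have hD1 : D ≠ ⊥ := by
    intro hbot
    rw [hbot, Subgroup.mem_bot] at hcD
    have hc1 : c = 1 := Subtype.ext hcD
    rw [hc1, map_one, QuaternionGroup.one_def] at hec
    have h5 : (0 : ZMod (2 * m)) = -2 := QuaternionGroup.a.inj hec
    apply h4
    linear_combination (2 : ZMod (2 * m)) * h5
  exact ⟨(y₀ : G), hA, hDr, hSN, hidx, hD1⟩

theorem four_ne (n : ℕ) : (4 : ZMod (2 * 2 ^ (n + 2))) ≠ 0 := by
  intro h
  have h1 : ((4 : ℕ) : ZMod (2 * 2 ^ (n + 2))) = 0 := by exact_mod_cast h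
  rw [ZMod.natCast_eq_zero_iff] at h1
  have h2 : 2 * 2 ^ (n + 2) ≤ 4 := Nat.le_of_dvd (by norm_num) h1
  have h3 : 4 ≤ 2 ^ (n + 2) := by
    calc 4 = 1 * 4 := by norm_num
      _ ≤ 2 ^ n * 4 := Nat.mul_le_mul_right 4 Nat.one_le_two_pow
      _ = 2 ^ (n + 2) := by ring
  omega

theorem s0842 {G : Type*} [Group G] [Finite G] (S : Sylow 2 G) (n : ℕ)
    (e : (S : Subgroup G) ≃* QuaternionGroup (2 ^ (n + 2))) (D : Subgroup G)
    (hD : D = ⁅(S : Subgroup G), (S : Subgroup G)⁆) :
    ∃ K : Subgroup G, Odd (Nat.card K) ∧ K ≤ Subgroup.centralizer (D : Set G) ∧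
      Subgroup.normalizer (D : Set G) ≤ Subgroup.normalizer (K : Set G) ∧
      K ⊔ (S : Subgroup G) = Subgroup.normalizer (D : Set G) ∧
      K ⊔ ((S : Subgroup G) ⊓ Subgroup.centralizer (D : Set G)) =
        Subgroup.centralizer (D : Set G) ∧
      ((Subgroup.centralizer (D : Set G)).subgroupOf (Subgroup.normalizer (D : Set G))).index
        = 2 := by
  obtain ⟨r, hA, hDr, hSN, hidx, hD1⟩ := quat_setup S (2 ^ (n + 2)) (four_ne n) e D hD
  exact core842 S D r hA hDr hSN hidx hD1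

theorem s0843 {G : Type*} [Group G] [Finite G] (S : Sylow 2 G) (n : ℕ)
    (e : (S : Subgroup G) ≃* QuaternionGroup (2 ^ (n + 2))) (D : Subgroup G)
    (hD : D = ⁅(S : Subgroup G), (S : Subgroup G)⁆) :
    (∀ y : G, y ∈ Subgroup.centralizer (D : Set G) → Nat.card D ∣ orderOf y →
      D ≤ Subgroup.zpowers y) ∧
    (∀ g y : G, y ∈ Subgroup.centralizer (D : Set G) → Nat.card D ∣ orderOf y →
      g * y * g⁻¹ ∈ Subgroup.centralizer (D : Set G) → g ∈ Subgroup.normalizer (D : Set G)) ∧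
    (∀ g y : G, g ∈ Subgroup.normalizer (D : Set G) → y ∈ Subgroup.centralizer (D : Set G) →
      Nat.card D ∣ orderOf y → g * y * g⁻¹ ∈ Subgroup.centralizer (D : Set G) ∧
        Nat.card D ∣ orderOf (g * y * g⁻¹)) := by
  obtain ⟨r, hA, hDr, hSN, -, -⟩ := quat_setup S (2 ^ (n + 2)) (four_ne n) e D hD
  exact core843 S D r hA hDr hSN

end Cfsg.Agent.Lib_helper9_GenQuat
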