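import Mathlib
import Cfsg.Agent.Lib_helper1_Basic
import Cfsg.Agent.Lib_helper7_AlperinP
import Cfsg.Agent.Lib_helper9_FocalLocal

set_option autoImplicit false

namespace Cfsg.Agent.Lib_helper9_Grun

open Cfsg.Agent.Lib_helper7_Alperin Cfsg.Agent.Lib_helper7_AlperinP

/-- if `P ∩ N(T)` has index prime to `p` in `N(T)` then every `p`-element of `N(T)` is
`N(T)`-conjugate into `P` -/
theorem conj_into {G : Type*} [Group G] [Finite G] {p : ℕ} [Fact p.Prime] (P : Sylow p G)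
    (T : Subgroup G)
    (hS : ¬ p ∣ ((P : Subgroup G) ⊓ Subgroup.normalizer (T : Set G)).relIndex
      (Subgroup.normalizer (T : Set G)))
    (y : G) (hy : y ∈ Subgroup.normalizer (T : Set G)) (k : ℕ) (hk : orderOf y = p ^ k) :
    ∃ n ∈ Subgroup.normalizer (T : Set G), n⁻¹ * y * n ∈ (P : Subgroup G) := by
  obtain ⟨N, hN⟩ : ∃ N : Subgroup G, N = Subgroup.normalizer (T : Set G) := ⟨_, rfl⟩
  rw [← hN] at hS hy ⊢
  obtain ⟨S', hS'def⟩ : ∃ S' : Subgroup N, S' = (P : Subgroup G).subgroupOf N := ⟨_, rfl⟩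
  have hS'p : IsPGroup p S' := by rw [hS'def]; exact P.2.comap_subtype
  have hS'i : ¬ p ∣ S'.index := by
    have h' : S'.index = ((P : Subgroup G) ⊓ N).relIndex N := by
      rw [Subgroup.inf_relIndex_right, hS'def]; rfl
    rw [h']; exact hS
  have hyp : IsPGroup p (Subgroup.zpowers (⟨y, hy⟩ : N)) :=
    IsPGroup.of_card (n := k) (by
      rw [Nat.card_zpowers, ← Subgroup.orderOf_coe]; exact hk)
  obtain ⟨Q', hQ'⟩ := hyp.exists_le_sylow
  obtain ⟨n, hn⟩ := MulAction.exists_smul_eq N (hS'p.toSylow hS'i) Q'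
  have hmem : (⟨y, hy⟩ : N) ∈ (Q' : Subgroup N) := hQ' (Subgroup.mem_zpowers _)
  rw [← hn, Cfsg.Agent.Lib_helper1_Basic.mem_sylow_smul, IsPGroup.toSylow_coe, hS'def,
    Subgroup.mem_subgroupOf] at hmem
  exact ⟨(n : G), n.2, hmem⟩

open scoped commutatorElement in
theorem s4216 {G : Type*} [Group G] [Finite G] {p : ℕ} [Fact p.Prime] (P : Sylow p G) :
    (P : Subgroup G) ⊓ commutator G =
      ((P : Subgroup G) ⊓ ⁅Subgroup.normalizer ((P : Subgroup G) : Set G),
        Subgroup.normalizer ((P : Subgroup G) : Set G)⁆) ⊔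
      ⨆ z : G, (P : Subgroup G) ⊓
        (⁅(P : Subgroup G), (P : Subgroup G)⁆).map (MulAut.conj z).toMonoidHom := by
  obtain ⟨R, hRdef⟩ : ∃ R : Subgroup G, R =
      ((P : Subgroup G) ⊓ ⁅Subgroup.normalizer ((P : Subgroup G) : Set G),
        Subgroup.normalizer ((P : Subgroup G) : Set G)⁆) ⊔
      ⨆ z : G, (P : Subgroup G) ⊓
        (⁅(P : Subgroup G), (P : Subgroup G)⁆).map (MulAut.conj z).toMonoidHom := ⟨_, rfl⟩
  rw [← hRdef]
  apply le_antisymm
  · have hfoc : (P : Subgroup G) ⊓ commutator G = (P : Subgroup G).focalSubgroup := by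
      rw [inf_comm]; exact Subgroup.commutator_inf_eq_focalSubgroup P
    rw [hfoc, Subgroup.focalSubgroup_def, Subgroup.closure_le]
    rintro g ⟨hg, x, hx, u, rfl⟩
    have h1 : (u⁻¹)⁻¹ * x⁻¹ * u⁻¹ ∈ (P : Subgroup G) := by
      have h' : (u⁻¹)⁻¹ * x⁻¹ * u⁻¹ = x⁻¹ * ⁅x, u⁆ := by rw [commutatorElement_def]; group
      rw [h']; exact mul_mem (inv_mem hx) hg
    have hch := alperin_p P {x⁻¹} u⁻¹ (by rintro b rfl; exact inv_mem hx)
      (by rintro _ ⟨b, rfl, rfl⟩; exact h1)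
    have key := Cfsg.Agent.Lib_helper9_FocalLocal.chain_comm P R (fun T y hT hy a ha => by
      obtain ⟨Q, rfl, htame, hor⟩ := hT
      have haP : a ∈ (P : Subgroup G) := ha.1
      have hya : y⁻¹ * a * y ∈ (P : Subgroup G) ⊓ (Q : Subgroup G) :=
        (Subgroup.mem_normalizer_iff''.mp hy a).mp ha
      have hinP : a⁻¹ * (y⁻¹ * a * y) ∈ (P : Subgroup G) := mul_mem (inv_mem haP) hya.1
      have hel : a⁻¹ * (y⁻¹ * a * y) = ⁅a⁻¹, y⁻¹⁆ := by rw [commutatorElement_def]; group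
      rw [hRdef]
      rcases hor with hQP | ⟨k, hk⟩
      · apply Subgroup.mem_sup_left
        refine ⟨hinP, ?_⟩
        have hT' : (P : Subgroup G) ⊓ (Q : Subgroup G) = (P : Subgroup G) := by
          rw [hQP, inf_idem]
        rw [hT'] at hy
        rw [hel]
        exact Subgroup.commutator_mem_commutator
          (inv_mem (Subgroup.le_normalizer haP)) (inv_mem hy)
      · apply Subgroup.mem_sup_right
        obtain ⟨n, hn, hnP⟩ := conj_into P _ htame.1 y hy k hk
        refine Subgroup.mem_iSup_of_mem n ?_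
        refine ⟨hinP, ?_⟩
        have ha' : n⁻¹ * a * n ∈ (P : Subgroup G) :=
          ((Subgroup.mem_normalizer_iff''.mp hn a).mp ha).1
        refine ⟨⁅(n⁻¹ * a * n)⁻¹, (n⁻¹ * y * n)⁻¹⁆,
          Subgroup.commutator_mem_commutator (inv_mem ha') (inv_mem hnP), ?_⟩
        show n * ⁅(n⁻¹ * a * n)⁻¹, (n⁻¹ * y * n)⁻¹⁆ * n⁻¹ = a⁻¹ * (y⁻¹ * a * y)
        rw [commutatorElement_def]; group) hch
    have h2 := key x⁻¹ rfl
    have h3 : (x⁻¹)⁻¹ * ((u⁻¹)⁻¹ * x⁻¹ * u⁻¹) = ⁅x, u⁆ := by rw [commutatorElement_def]; group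
    rw [h3] at h2
    exact h2
  · rw [hRdef]
    apply sup_le
    · apply inf_le_inf_left
      rw [commutator_def]
      exact Subgroup.commutator_mono le_top le_top
    · apply iSup_le
      intro z
      apply inf_le_inf_left
      rintro _ ⟨c, hc, rfl⟩
      have hc' : c ∈ commutator G := by
        rw [commutator_def]
        exact Subgroup.commutator_mono le_top le_top hc
      show z * c * z⁻¹ ∈ commutator G
      exact (inferInstance : (commutator G).Normal).conj_mem c hc' z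

end Cfsg.Agent.Lib_helper9_Grun
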