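import Mathlib
import Cfsg.Agent.Lib_helper1_Basic
import Cfsg.Agent.Lib_helper2_DihSyl2
import Cfsg.Agent.Lib_helper7_IsoNpc

set_option autoImplicit false

namespace Cfsg.Agent.Lib_helper9_Homocyclic

variable {G : Type*} [Group G]

/-- if the odd-order elements of `N(P)` centralize the abelian Sylow `2`-subgroup `P`, then
`N(P) ≤ C(P)` -/
theorem norm_le_cent [Finite G] (P : Sylow 2 G)
    (hab : ∀ a ∈ (P : Subgroup G), ∀ b ∈ (P : Subgroup G), a * b = b * a)
    (hodd : ∀ g ∈ Subgroup.normalizer ((P : Subgroup G) : Set G), (orderOf g).Coprime 2 →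
      g ∈ Subgroup.centralizer ((P : Subgroup G) : Set G)) :
    Subgroup.normalizer ((P : Subgroup G) : Set G) ≤
      Subgroup.centralizer ((P : Subgroup G) : Set G) := by
  haveI : Fact (Nat.Prime 2) := ⟨Nat.prime_two⟩
  intro g hg
  have ho : orderOf g ≠ 0 := (orderOf_pos g).ne'
  obtain ⟨k, u, hu, hku⟩ := Nat.exists_eq_two_pow_mul_odd ho
  have hu2 : Nat.Coprime 2 u := Nat.coprime_two_left.mpr hu
  have h1 : g ^ 2 ^ k ∈ Subgroup.centralizer ((P : Subgroup G) : Set G) := by
    apply hodd _ (pow_mem hg _)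
    have hd : orderOf (g ^ 2 ^ k) ∣ u := by
      apply orderOf_dvd_of_pow_eq_one
      rw [← pow_mul, ← hku, pow_orderOf_eq_one]
    exact Nat.Coprime.coprime_dvd_left hd hu2.symm
  have h2 : g ^ u ∈ (P : Subgroup G) := by
    have hpg : IsPGroup 2 (Subgroup.zpowers (g ^ u)) := by
      rintro ⟨x, hx⟩
      obtain ⟨i, rfl⟩ := Subgroup.mem_zpowers_iff.mp hx
      refine ⟨k, Subtype.ext ?_⟩
      show ((g ^ u) ^ i) ^ (2 ^ k) = 1
      rw [← zpow_natCast, ← zpow_mul, mul_comm, zpow_mul, zpow_natCast, ← pow_mul, mul_comm u,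
        ← hku, pow_orderOf_eq_one, one_zpow]
    have h3 := hpg.inf_normalizer_sylow P
    have h4 : g ^ u ∈ Subgroup.zpowers (g ^ u) ⊓
        Subgroup.normalizer ((P : Subgroup G) : Set G) :=
      ⟨Subgroup.mem_zpowers _, pow_mem hg _⟩
    exact (h3.le h4).2
  have h2' : g ^ u ∈ Subgroup.centralizer ((P : Subgroup G) : Set G) := by
    rw [Subgroup.mem_centralizer_iff]
    intro a ha
    exact hab a ha _ h2
  have hcop : Nat.Coprime (2 ^ k) u := Nat.Coprime.pow_left k hu2
  have hb := Nat.gcd_eq_gcd_ab (2 ^ k) u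
  rw [Nat.Coprime.gcd_eq_one hcop] at hb
  have hg' : g = (g ^ 2 ^ k) ^ (Nat.gcdA (2 ^ k) u) * (g ^ u) ^ (Nat.gcdB (2 ^ k) u) := by
    rw [← zpow_natCast g (2 ^ k), ← zpow_natCast g u, ← zpow_mul, ← zpow_mul, ← zpow_add, ← hb]
    simp
  rw [hg']; exact mul_mem (zpow_mem h1 _) (zpow_mem h2' _)

theorem s0946 [Finite G] (P : Sylow 2 G) (m : ℕ) (hm : 1 ≤ m)
    (e : (P : Subgroup G) ≃* Multiplicative (ZMod (2 ^ m) × ZMod (2 ^ m))) :
    (∃ N : Subgroup G, N.Normal ∧ Subgroup.IsComplement' N (P : Subgroup G)) ∨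
    ∀ s t : G, orderOf s = 2 → orderOf t = 2 → IsConj s t := by
  classical
  haveI : Fact (Nat.Prime 2) := ⟨Nat.prime_two⟩
  haveI : NeZero (2 ^ m) := ⟨by positivity⟩
  have h2 : 2 ∣ 2 ^ m := dvd_pow_self 2 (by omega)
  obtain ⟨h, hh, h0, hall⟩ := Cfsg.Agent.Lib_helper2_DihSyl2.half_spec (2 ^ m) h2
  have hab : ∀ a ∈ (P : Subgroup G), ∀ b ∈ (P : Subgroup G), a * b = b * a := by
    intro a ha b hb
    have h' : (⟨a, ha⟩ : (P : Subgroup G)) * ⟨b, hb⟩ = ⟨b, hb⟩ * ⟨a, ha⟩ := by
      apply e.injective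
      rw [map_mul, map_mul, mul_comm]
    exact congrArg Subtype.val h'
  obtain ⟨f, hf⟩ : ∃ f : ↥(P : Subgroup G) → ZMod (2 ^ m) × ZMod (2 ^ m),
    f = fun y => Multiplicative.toAdd (e y) := ⟨_, rfl⟩
  have finj : Function.Injective f := by
    intro a b hab'
    rw [hf] at hab'
    exact e.injective (Multiplicative.toAdd.injective hab')
  have hinv : ∀ y : (P : Subgroup G), y ≠ 1 → y * y = 1 →
      f y = (0, h) ∨ f y = (h, 0) ∨ f y = (h, h) := by
    intro y hy1 hyy
    have h1 : f y + f y = 0 := by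
      rw [hf]
      show Multiplicative.toAdd (e y) + Multiplicative.toAdd (e y) = 0
      rw [← toAdd_mul, ← map_mul, hyy, map_one]; rfl
    have h3 : f y ≠ 0 := by
      intro h'
      apply hy1
      apply e.injective
      rw [map_one]
      rw [hf] at h'
      exact Multiplicative.toAdd.injective h'
    obtain ⟨u, v, huv⟩ : ∃ u v, f y = (u, v) := ⟨_, _, rfl⟩
    rw [huv] at h1 h3 ⊢
    rw [Prod.mk_add_mk, Prod.mk_eq_zero] at h1
    by_cases hu : u = 0
    · by_cases hv : v = 0
      · exact absurd (by rw [hu, hv]; rfl) h3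
      · left; rw [hu, hall v h1.2 hv]
    · by_cases hv : v = 0
      · right; left; rw [hv, hall u h1.1 hu]
      · right; right; rw [hall u h1.1 hu, hall v h1.2 hv]
  have hcover : ∀ x x' x'' y : (P : Subgroup G), x ≠ 1 → x * x = 1 → x' ≠ 1 → x' * x' = 1 →
      x'' ≠ 1 → x'' * x'' = 1 → y ≠ 1 → y * y = 1 → x ≠ x' → x ≠ x'' → x' ≠ x'' →
      y = x ∨ y = x' ∨ y = x'' := by
    intro x x' x'' y hx1 hx2 hx'1 hx'2 hx''1 hx''2 hy1 hy2 hxx' hxx'' hx'x''
    rcases hinv x hx1 hx2 with h1 | h1 | h1 <;> rcases hinv x' hx'1 hx'2 with h2 | h2 | h2 <;>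
      rcases hinv x'' hx''1 hx''2 with h3 | h3 | h3 <;>
      rcases hinv y hy1 hy2 with h4 | h4 | h4 <;>
      first
        | exact Or.inl (finj (h4.trans h1.symm))
        | exact Or.inr (Or.inl (finj (h4.trans h2.symm)))
        | exact Or.inr (Or.inr (finj (h4.trans h3.symm)))
        | exact absurd (finj (h1.trans h2.symm)) hxx'
        | exact absurd (finj (h1.trans h3.symm)) hxx''
        | exact absurd (finj (h2.trans h3.symm)) hx'x''
  by_cases hcase : ∀ g ∈ Subgroup.normalizer ((P : Subgroup G) : Set G),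
      (orderOf g).Coprime 2 → ∀ y ∈ (P : Subgroup G), y ^ 2 = 1 → g * y = y * g
  · left
    have hodd : ∀ g ∈ Subgroup.normalizer ((P : Subgroup G) : Set G), (orderOf g).Coprime 2 →
        g ∈ Subgroup.centralizer ((P : Subgroup G) : Set G) := by
      intro g hg hgo
      have hgP : ∀ y ∈ (P : Subgroup G), g * y * g⁻¹ ∈ (P : Subgroup G) :=
        fun y hy => (Subgroup.mem_normalizer_iff.mp hg y).mp hy
      have h' := Cfsg.Agent.Lib_helper7_IsoNpc.centralizes_of_omega (P : Subgroup G) P.2 hab g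
        hgP hgo (hcase g hg hgo)
      rw [Subgroup.mem_centralizer_iff]
      intro y hy
      exact (h' y hy).symm
    have hNC := norm_le_cent P hab hodd
    exact ⟨(MonoidHom.transferSylow P hNC).ker, inferInstance,
      MonoidHom.ker_transferSylow_isComplement' P hNC⟩
  · right
    simp only [not_forall] at hcase
    obtain ⟨g, hg, hgo, x, hxP, hx2, hgx⟩ := hcase
    have hgP : ∀ y ∈ (P : Subgroup G), g * y * g⁻¹ ∈ (P : Subgroup G) :=
      fun y hy => (Subgroup.mem_normalizer_iff.mp hg y).mp hy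
    have hx1 : x ≠ 1 := by rintro rfl; apply hgx; simp
    have hxx : x * x = 1 := by rw [← pow_two]; exact hx2
    obtain ⟨x', hx'⟩ : ∃ x' : G, x' = g * x * g⁻¹ := ⟨_, rfl⟩
    obtain ⟨x'', hx''⟩ : ∃ x'' : G, x'' = g * x' * g⁻¹ := ⟨_, rfl⟩
    have hx'P : x' ∈ (P : Subgroup G) := by rw [hx']; exact hgP x hxP
    have hx''P : x'' ∈ (P : Subgroup G) := by rw [hx'']; exact hgP x' hx'P
    have hxx' : x ≠ x' := by
      intro h'; apply hgx
      calc g * x = (g * x * g⁻¹) * g := by group
        _ = x * g := by rw [← hx', ← h']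
    have hx'x'' : x' ≠ x'' := by
      intro h'
      apply hxx'
      calc x = g⁻¹ * (g * x * g⁻¹) * g := by group
        _ = g⁻¹ * x' * g := by rw [← hx']
        _ = g⁻¹ * x'' * g := by rw [← h']
        _ = g⁻¹ * (g * x' * g⁻¹) * g := by rw [← hx'']
        _ = x' := by group
    have hxx'' : x ≠ x'' := by
      intro h'
      apply hgx
      have hc : Commute (g * g) x := by
        show g * g * x = x * (g * g)
        calc g * g * x = (g * (g * x * g⁻¹) * g⁻¹) * (g * g) := by group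
          _ = x'' * (g * g) := by rw [← hx', ← hx'']
          _ = x * (g * g) := by rw [← h']
      obtain ⟨j, hj⟩ := exists_pow_eq_self_of_coprime (x := g) (n := 2) hgo.symm
      rw [pow_two] at hj
      have hc' : Commute g x := by rw [← hj]; exact hc.pow_left j
      exact hc'.eq
    have hconj_sq : ∀ y : G, y * y = 1 → (g * y * g⁻¹) * (g * y * g⁻¹) = 1 := by
      intro y hy
      calc g * y * g⁻¹ * (g * y * g⁻¹) = g * (y * y) * g⁻¹ := by group
        _ = 1 := by rw [hy]; group
    have hconj_ne : ∀ y : G, y ≠ 1 → g * y * g⁻¹ ≠ 1 := by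
      intro y hy h'
      apply hy
      calc y = g⁻¹ * (g * y * g⁻¹) * g := by group
        _ = 1 := by rw [h']; group
    have hx'1 : x' ≠ 1 := by rw [hx']; exact hconj_ne x hx1
    have hx'x' : x' * x' = 1 := by rw [hx']; exact hconj_sq x hxx
    have hx''1 : x'' ≠ 1 := by rw [hx'']; exact hconj_ne x' hx'1
    have hx''x'' : x'' * x'' = 1 := by rw [hx'']; exact hconj_sq x' hx'x'
    have hPconj : ∀ y ∈ (P : Subgroup G), y ≠ 1 → y * y = 1 → IsConj x y := by
      intro y hy hy1 hy2
      rcases hcover ⟨x, hxP⟩ ⟨x', hx'P⟩ ⟨x'', hx''P⟩ ⟨y, hy⟩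
        (fun h' => hx1 (congrArg Subtype.val h')) (Subtype.ext hxx)
        (fun h' => hx'1 (congrArg Subtype.val h')) (Subtype.ext hx'x')
        (fun h' => hx''1 (congrArg Subtype.val h')) (Subtype.ext hx''x'')
        (fun h' => hy1 (congrArg Subtype.val h')) (Subtype.ext hy2)
        (fun h' => hxx' (congrArg Subtype.val h'))
        (fun h' => hxx'' (congrArg Subtype.val h'))
        (fun h' => hx'x'' (congrArg Subtype.val h')) with h' | h' | h'
      · have h'' : y = x := congrArg Subtype.val h'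
        rw [h'']
      · have h'' : y = x' := congrArg Subtype.val h'
        rw [h'', isConj_iff]
        exact ⟨g, hx'.symm⟩
      · have h'' : y = x'' := congrArg Subtype.val h'
        rw [h'', isConj_iff]
        refine ⟨g * g, ?_⟩
        rw [hx'', hx']; group
    have hall' : ∀ s : G, orderOf s = 2 → IsConj x s := by
      intro s hs
      have hp : IsPGroup 2 (Subgroup.zpowers s) :=
        IsPGroup.of_card (n := 1) (by rw [Nat.card_zpowers, hs]; rfl)
      obtain ⟨P', hP'⟩ := hp.exists_le_sylow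
      obtain ⟨a, ha⟩ := MulAction.exists_smul_eq G P P'
      have hsP : s ∈ (P' : Subgroup G) := hP' (Subgroup.mem_zpowers s)
      rw [← ha, Cfsg.Agent.Lib_helper1_Basic.mem_sylow_smul] at hsP
      have hs1 : s ≠ 1 := by rintro rfl; simp at hs
      have hss : s * s = 1 := by rw [← pow_two, ← hs]; exact pow_orderOf_eq_one s
      have h1 : a⁻¹ * s * a ≠ 1 := by
        intro h'
        apply hs1
        calc s = a * (a⁻¹ * s * a) * a⁻¹ := by group
          _ = 1 := by rw [h']; group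
      have h2' : a⁻¹ * s * a * (a⁻¹ * s * a) = 1 := by
        calc a⁻¹ * s * a * (a⁻¹ * s * a) = a⁻¹ * (s * s) * a := by group
          _ = 1 := by rw [hss]; group
      have h3 := hPconj _ hsP h1 h2'
      refine h3.trans ?_
      rw [isConj_iff]
      exact ⟨a, by group⟩
    intro s t hs ht
    exact (hall' s hs).symm.trans (hall' t ht)

end Cfsg.Agent.Lib_helper9_Homocyclic
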