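import Mathlib
import Cfsg.Agent.Lib_helper1_Basic
import Cfsg.Agent.Lib_helper2_DihSyl2
import Cfsg.Agent.Lib_helper7_IsoNpc

set_option autoImplicit false

namespace Cfsg.Agent.Lib_helper9_Homocyclic2

variable {G : Type*} [Group G]

theorem comm_of_sq_comm {g y : G} (hgo : (orderOf g).Coprime 2) (h : Commute (g * g) y) :
    Commute g y := by
  obtain ⟨j, hj⟩ := exists_pow_eq_self_of_coprime (x := g) (n := 2) hgo.symm
  rw [pow_two] at hj
  rw [← hj]; exact h.pow_left j

/-- if the odd-order powers of `g ∈ N(P)` centralize the abelian Sylow `2`-subgroup `P`, so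
does `g` -/
theorem mem_cent_of_odd_pow [Finite G] (P : Sylow 2 G)
    (hab : ∀ a ∈ (P : Subgroup G), ∀ b ∈ (P : Subgroup G), a * b = b * a)
    (g : G) (hg : g ∈ Subgroup.normalizer ((P : Subgroup G) : Set G))
    (hodd : ∀ j : ℕ, (orderOf (g ^ j)).Coprime 2 →
      g ^ j ∈ Subgroup.centralizer ((P : Subgroup G) : Set G)) :
    g ∈ Subgroup.centralizer ((P : Subgroup G) : Set G) := by
  haveI : Fact (Nat.Prime 2) := ⟨Nat.prime_two⟩
  have ho : orderOf g ≠ 0 := (orderOf_pos g).ne'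
  obtain ⟨k, u, hu, hku⟩ := Nat.exists_eq_two_pow_mul_odd ho
  have hu2 : Nat.Coprime 2 u := Nat.coprime_two_left.mpr hu
  have h1 : g ^ 2 ^ k ∈ Subgroup.centralizer ((P : Subgroup G) : Set G) := by
    apply hodd
    have hd : orderOf (g ^ 2 ^ k) ∣ u := by
      apply orderOf_dvd_of_pow_eq_one
      rw [← pow_mul, ← hku, pow_orderOf_eq_one]
    exact Nat.Coprime.coprime_dvd_left hd hu2.symm
  have h2 : g ^ u ∈ (P : Subgroup G) := by
    have hpg : IsPGroup 2 (Subgroup.zpowers (g ^ u)) := by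
      rintro ⟨x, hx⟩
      obtain ⟨i, rfl⟩ := Subgroup.mem_zpowers_iff.mp hx
      refine ⟨k, Subtype.ext ?_⟩
      show ((g ^ u) ^ i) ^ (2 ^ k) = 1
      rw [← zpow_natCast, ← zpow_mul, mul_comm, zpow_mul, zpow_natCast, ← pow_mul, mul_comm u,
        ← hku, pow_orderOf_eq_one, one_zpow]
    have h3 := hpg.inf_normalizer_sylow P
    have h4 : g ^ u ∈ Subgroup.zpowers (g ^ u) ⊓
        Subgroup.normalizer ((P : Subgroup G) : Set G) :=
      ⟨Subgroup.mem_zpowers _, pow_mem hg _⟩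
    exact (h3.le h4).2
  have h2' : g ^ u ∈ Subgroup.centralizer ((P : Subgroup G) : Set G) := by
    rw [Subgroup.mem_centralizer_iff]
    intro a ha
    exact hab a ha _ h2
  have hcop : Nat.Coprime (2 ^ k) u := Nat.Coprime.pow_left k hu2
  have hb := Nat.gcd_eq_gcd_ab (2 ^ k) u
  rw [Nat.Coprime.gcd_eq_one hcop] at hb
  have hg' : g = (g ^ 2 ^ k) ^ (Nat.gcdA (2 ^ k) u) * (g ^ u) ^ (Nat.gcdB (2 ^ k) u) := by
    rw [← zpow_natCast g (2 ^ k), ← zpow_natCast g u, ← zpow_mul, ← zpow_mul, ← zpow_add, ← hb]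
    simp
  rw [hg']; exact mul_mem (zpow_mem h1 _) (zpow_mem h2' _)

theorem abel (P : Subgroup G) (m : ℕ)
    (e : P ≃* Multiplicative (ZMod (2 ^ m) × ZMod (2 ^ m))) :
    ∀ a ∈ P, ∀ b ∈ P, a * b = b * a := by
  intro a ha b hb
  have h' : (⟨a, ha⟩ : P) * ⟨b, hb⟩ = ⟨b, hb⟩ * ⟨a, ha⟩ := by
    apply e.injective
    rw [map_mul, map_mul, mul_comm]
  exact congrArg Subtype.val h'

/-- a homocyclic group of rank two has at most three involutions -/
theorem inv3 (P : Subgroup G) (m : ℕ) (hm : 1 ≤ m)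
    (e : P ≃* Multiplicative (ZMod (2 ^ m) × ZMod (2 ^ m)))
    {x x' x'' y : G} (hx : x ∈ P) (hx' : x' ∈ P) (hx'' : x'' ∈ P) (hy : y ∈ P)
    (hx1 : x ≠ 1) (hx2 : x * x = 1) (hx'1 : x' ≠ 1) (hx'2 : x' * x' = 1)
    (hx''1 : x'' ≠ 1) (hx''2 : x'' * x'' = 1)
    (hy1 : y ≠ 1) (hy2 : y * y = 1) (hxx' : x ≠ x') (hxx'' : x ≠ x'') (hx'x'' : x' ≠ x'') :
    y = x ∨ y = x' ∨ y = x'' := by
  haveI : NeZero (2 ^ m) := ⟨by positivity⟩
  have h2 : 2 ∣ 2 ^ m := dvd_pow_self 2 (by omega)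
  obtain ⟨h, hh, h0, hall⟩ := Cfsg.Agent.Lib_helper2_DihSyl2.half_spec (2 ^ m) h2
  obtain ⟨f, hf⟩ : ∃ f : ↥P → ZMod (2 ^ m) × ZMod (2 ^ m),
    f = fun y => Multiplicative.toAdd (e y) := ⟨_, rfl⟩
  have finj : Function.Injective f := by
    intro a b hab'
    rw [hf] at hab'
    exact e.injective (Multiplicative.toAdd.injective hab')
  have hinv : ∀ y : ↥P, y ≠ 1 → y * y = 1 →
      f y = (0, h) ∨ f y = (h, 0) ∨ f y = (h, h) := by
    intro y hy1 hyy
    have h1 : f y + f y = 0 := by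
      rw [hf]
      show Multiplicative.toAdd (e y) + Multiplicative.toAdd (e y) = 0
      rw [← toAdd_mul, ← map_mul, hyy, map_one]; rfl
    have h3 : f y ≠ 0 := by
      intro h'
      apply hy1
      apply e.injective
      rw [map_one]
      rw [hf] at h'
      exact Multiplicative.toAdd.injective h'
    obtain ⟨u, v, huv⟩ : ∃ u v, f y = (u, v) := ⟨_, _, rfl⟩
    rw [huv] at h1 h3 ⊢
    rw [Prod.mk_add_mk, Prod.mk_eq_zero] at h1
    by_cases hu : u = 0
    · by_cases hv : v = 0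
      · exact absurd (by rw [hu, hv]; rfl) h3
      · left; rw [hu, hall v h1.2 hv]
    · by_cases hv : v = 0
      · right; left; rw [hv, hall u h1.1 hu]
      · right; right; rw [hall u h1.1 hu, hall v h1.2 hv]
  have key : (⟨y, hy⟩ : ↥P) = ⟨x, hx⟩ ∨ (⟨y, hy⟩ : ↥P) = ⟨x', hx'⟩ ∨
      (⟨y, hy⟩ : ↥P) = ⟨x'', hx''⟩ := by
    have e1 : (⟨x, hx⟩ : ↥P) ≠ ⟨x', hx'⟩ := fun h' => hxx' (congrArg Subtype.val h')
    have e2 : (⟨x, hx⟩ : ↥P) ≠ ⟨x'', hx''⟩ := fun h' => hxx'' (congrArg Subtype.val h')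
    have e3 : (⟨x', hx'⟩ : ↥P) ≠ ⟨x'', hx''⟩ := fun h' => hx'x'' (congrArg Subtype.val h')
    rcases hinv ⟨x, hx⟩ (fun h' => hx1 (congrArg Subtype.val h')) (Subtype.ext hx2)
      with h1 | h1 | h1 <;>
    rcases hinv ⟨x', hx'⟩ (fun h' => hx'1 (congrArg Subtype.val h')) (Subtype.ext hx'2)
      with h2 | h2 | h2 <;>
    rcases hinv ⟨x'', hx''⟩ (fun h' => hx''1 (congrArg Subtype.val h')) (Subtype.ext hx''2)
      with h3 | h3 | h3 <;>
    rcases hinv ⟨y, hy⟩ (fun h' => hy1 (congrArg Subtype.val h')) (Subtype.ext hy2)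
      with h4 | h4 | h4 <;>
      first
        | exact Or.inl (finj (h4.trans h1.symm))
        | exact Or.inr (Or.inl (finj (h4.trans h2.symm)))
        | exact Or.inr (Or.inr (finj (h4.trans h3.symm)))
        | exact absurd (finj (h1.trans h2.symm)) e1
        | exact absurd (finj (h1.trans h3.symm)) e2
        | exact absurd (finj (h2.trans h3.symm)) e3
  rcases key with h' | h' | h'
  · exact Or.inl (congrArg Subtype.val h')
  · exact Or.inr (Or.inl (congrArg Subtype.val h'))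
  · exact Or.inr (Or.inr (congrArg Subtype.val h'))

theorem conj_ne_one {g y : G} (hy : y ≠ 1) : g * y * g⁻¹ ≠ 1 := by
  intro h'
  apply hy
  calc y = g⁻¹ * (g * y * g⁻¹) * g := by group
    _ = 1 := by rw [h']; group

theorem conj_sq {g y : G} (hy : y * y = 1) : (g * y * g⁻¹) * (g * y * g⁻¹) = 1 := by
  calc g * y * g⁻¹ * (g * y * g⁻¹) = g * (y * y) * g⁻¹ := by group
    _ = 1 := by rw [hy]; group

theorem conj_inj {g y w : G} (h : g * y * g⁻¹ = g * w * g⁻¹) : y = w := by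
  calc y = g⁻¹ * (g * y * g⁻¹) * g := by group
    _ = g⁻¹ * (g * w * g⁻¹) * g := by rw [h]
    _ = w := by group

/-- an element of `N(P)` fixing one of the three involutions centralizes `P` -/
theorem fix_one [Finite G] (P : Sylow 2 G)
    (hab : ∀ a ∈ (P : Subgroup G), ∀ b ∈ (P : Subgroup G), a * b = b * a)
    {x x' x'' : G} (hx'P : x' ∈ (P : Subgroup G))
    (hx''P : x'' ∈ (P : Subgroup G))
    (hx'1 : x' ≠ 1) (hx'x' : x' * x' = 1)
    (hx''1 : x'' ≠ 1) (hx''x'' : x'' * x'' = 1)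
    (h12 : x ≠ x') (h13 : x ≠ x'') (h23 : x' ≠ x'')
    (hcov : ∀ y ∈ (P : Subgroup G), y ≠ 1 → y * y = 1 → y = x ∨ y = x' ∨ y = x'')
    (n : G) (hn : n ∈ Subgroup.normalizer ((P : Subgroup G) : Set G)) (hnx : n * x * n⁻¹ = x) :
    n ∈ Subgroup.centralizer ((P : Subgroup G) : Set G) := by
  apply mem_cent_of_odd_pow P hab n hn
  intro j hj
  obtain ⟨n₁, hn₁def⟩ : ∃ n₁ : G, n₁ = n ^ j := ⟨_, rfl⟩
  rw [← hn₁def] at hj ⊢
  have hn₁ : n₁ ∈ Subgroup.normalizer ((P : Subgroup G) : Set G) := by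
    rw [hn₁def]; exact pow_mem hn j
  have hn₁P : ∀ y ∈ (P : Subgroup G), n₁ * y * n₁⁻¹ ∈ (P : Subgroup G) :=
    fun y hy => (Subgroup.mem_normalizer_iff.mp hn₁ y).mp hy
  have hcx : Commute n₁ x := by
    have h' : Commute n x := by
      show n * x = x * n
      calc n * x = (n * x * n⁻¹) * n := by group
        _ = x * n := by rw [hnx]
    rw [hn₁def]; exact h'.pow_left j
  have hn₁x : n₁ * x * n₁⁻¹ = x := by rw [hcx.eq]; group
  -- n₁ fixes x'
  have hfix' : n₁ * x' * n₁⁻¹ = x' := by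
    rcases hcov _ (hn₁P x' hx'P) (conj_ne_one hx'1) (conj_sq hx'x') with h' | h' | h'
    · exact absurd (conj_inj (h'.trans hn₁x.symm)).symm h12
    · exact h'
    · exfalso
      have h'' : n₁ * x'' * n₁⁻¹ = x' := by
        rcases hcov _ (hn₁P x'' hx''P) (conj_ne_one hx''1) (conj_sq hx''x'') with h3 | h3 | h3
        · exact absurd (conj_inj (h3.trans hn₁x.symm)).symm h13
        · exact h3
        · exact absurd (conj_inj (h'.trans h3.symm)) h23
      have hc : Commute (n₁ * n₁) x' := by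
        show n₁ * n₁ * x' = x' * (n₁ * n₁)
        calc n₁ * n₁ * x' = (n₁ * (n₁ * x' * n₁⁻¹) * n₁⁻¹) * (n₁ * n₁) := by group
          _ = x' * (n₁ * n₁) := by rw [h', h'']
      have hc' := comm_of_sq_comm hj hc
      have h4 : n₁ * x' * n₁⁻¹ = x' := by rw [hc'.eq]; group
      exact h23 (h4.symm.trans h')
  have hfix'' : n₁ * x'' * n₁⁻¹ = x'' := by
    rcases hcov _ (hn₁P x'' hx''P) (conj_ne_one hx''1) (conj_sq hx''x'') with h3 | h3 | h3
    · exact absurd (conj_inj (h3.trans hn₁x.symm)).symm h13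
    · exact absurd (conj_inj (h3.trans hfix'.symm)).symm h23
    · exact h3
  have hΩ : ∀ y ∈ (P : Subgroup G), y ^ 2 = 1 → n₁ * y = y * n₁ := by
    intro y hy hy2
    by_cases hy1 : y = 1
    · rw [hy1]; simp
    · rw [pow_two] at hy2
      rcases hcov y hy hy1 hy2 with h' | h' | h'
      · rw [h']; exact hcx.eq
      · rw [h']
        calc n₁ * x' = (n₁ * x' * n₁⁻¹) * n₁ := by group
          _ = x' * n₁ := by rw [hfix']
      · rw [h']
        calc n₁ * x'' = (n₁ * x'' * n₁⁻¹) * n₁ := by group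
          _ = x'' * n₁ := by rw [hfix'']
  have h' := Cfsg.Agent.Lib_helper7_IsoNpc.centralizes_of_omega (P : Subgroup G) P.2 hab n₁
    hn₁P hj hΩ
  rw [Subgroup.mem_centralizer_iff]
  intro y hy
  exact (h' y hy).symm

theorem s0945 [Finite G] (P : Sylow 2 G) (m : ℕ) (hm : 1 ≤ m) (e : (P : Subgroup G) ≃* Multiplicative (ZMod (2 ^ m) × ZMod (2 ^ m))) : ((Subgroup.centralizer (P : Set G)).relIndex (Subgroup.normalizer (P : Set G)) = 1 ∨ (Subgroup.centralizer (P : Set G)).relIndex (Subgroup.normalizer (P : Set G)) = 3) ∧ ((Subgroup.centralizer (P : Set G)).relIndex (Subgroup.normalizer (P : Set G)) ≠ 1 → ∀ z ∈ (P : Subgroup G), z ≠ 1 → Subgroup.centralizer ({z} : Set G) ⊓ Subgroup.normalizer (P : Set G) = Subgroup.centralizer (P : Set G)) := by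
  classical
  haveI : Fact (Nat.Prime 2) := ⟨Nat.prime_two⟩
  obtain ⟨N, hN⟩ : ∃ N : Subgroup G, N = Subgroup.normalizer ((P : Subgroup G) : Set G) := ⟨_, rfl⟩
  obtain ⟨C, hC⟩ : ∃ C : Subgroup G, C = Subgroup.centralizer ((P : Subgroup G) : Set G) := ⟨_, rfl⟩
  have hN' : Subgroup.normalizer (P : Set G) = N := hN.symm
  have hC' : Subgroup.centralizer (P : Set G) = C := hC.symm
  rw [hN', hC']
  have hab := abel (P : Subgroup G) m e
  have hCN : C ≤ N := by rw [hC, hN]; exact Subgroup.centralizer_le_normalizer _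
  have hNP : ∀ n ∈ N, ∀ y ∈ (P : Subgroup G), n * y * n⁻¹ ∈ (P : Subgroup G) := by
    intro n hn y hy
    rw [hN] at hn
    exact (Subgroup.mem_normalizer_iff.mp hn y).mp hy
  by_cases hcase : ∀ g ∈ N, (orderOf g).Coprime 2 → ∀ y ∈ (P : Subgroup G), y ^ 2 = 1 →
      g * y = y * g
  · have hNC : N ≤ C := by
      intro g hg
      rw [hC]
      apply mem_cent_of_odd_pow P hab g (by rw [← hN]; exact hg)
      intro j hj
      have hgj : g ^ j ∈ N := pow_mem hg j
      have h' := Cfsg.Agent.Lib_helper7_IsoNpc.centralizes_of_omega (P : Subgroup G) P.2 hab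
        (g ^ j) (hNP _ hgj) hj (hcase (g ^ j) hgj hj)
      rw [Subgroup.mem_centralizer_iff]
      intro y hy
      exact (h' y hy).symm
    have h1 : C.relIndex N = 1 := Subgroup.relIndex_eq_one.mpr hNC
    exact ⟨Or.inl h1, fun hne => absurd h1 hne⟩
  · simp only [not_forall] at hcase
    obtain ⟨g, hg, hgo, x, hxP, hx2, hgx⟩ := hcase
    have hgP := hNP g hg
    have hx1 : x ≠ 1 := by rintro rfl; apply hgx; simp
    have hxx : x * x = 1 := by rw [← pow_two]; exact hx2
    obtain ⟨x', hx'⟩ : ∃ x' : G, x' = g * x * g⁻¹ := ⟨_, rfl⟩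
    obtain ⟨x'', hx''⟩ : ∃ x'' : G, x'' = g * x' * g⁻¹ := ⟨_, rfl⟩
    have hx'P : x' ∈ (P : Subgroup G) := by rw [hx']; exact hgP x hxP
    have hx''P : x'' ∈ (P : Subgroup G) := by rw [hx'']; exact hgP x' hx'P
    have hxx' : x ≠ x' := by
      intro h'; apply hgx
      calc g * x = (g * x * g⁻¹) * g := by group
        _ = x * g := by rw [← hx', ← h']
    have hx'x'' : x' ≠ x'' := by
      intro h'
      apply hxx'
      apply conj_inj (g := g)
      rw [← hx', ← hx'']; exact h'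
    have hxx'' : x ≠ x'' := by
      intro h'
      apply hgx
      have hc : Commute (g * g) x := by
        show g * g * x = x * (g * g)
        calc g * g * x = (g * (g * x * g⁻¹) * g⁻¹) * (g * g) := by group
          _ = x'' * (g * g) := by rw [← hx', ← hx'']
          _ = x * (g * g) := by rw [← h']
      exact (comm_of_sq_comm hgo hc).eq
    have hx'1 : x' ≠ 1 := by rw [hx']; exact conj_ne_one hx1
    have hx'x' : x' * x' = 1 := by rw [hx']; exact conj_sq hxx
    have hx''1 : x'' ≠ 1 := by rw [hx'']; exact conj_ne_one hx'1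
    have hx''x'' : x'' * x'' = 1 := by rw [hx'']; exact conj_sq hx'x'
    have hcov : ∀ y ∈ (P : Subgroup G), y ≠ 1 → y * y = 1 → y = x ∨ y = x' ∨ y = x'' :=
      fun y hy hy1 hy2 => inv3 (P : Subgroup G) m hm e hxP hx'P hx''P hy hx1 hxx hx'1 hx'x'
        hx''1 hx''x'' hy1 hy2 hxx' hxx'' hx'x''
    have F1 : ∀ n ∈ N, n * x * n⁻¹ = x → n ∈ C := fun n hn h' => by
      rw [hC]
      exact fix_one P hab hx'P hx''P hx'1 hx'x' hx''1 hx''x'' hxx' hxx'' hx'x'' hcov n
        (hN ▸ hn) h'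
    have F2 : ∀ n ∈ N, n * x' * n⁻¹ = x' → n ∈ C := fun n hn h' => by
      rw [hC]
      exact fix_one P hab (x := x') (x' := x'') (x'' := x) hx''P hxP hx''1 hx''x'' hx1 hxx
        hx'x'' (Ne.symm hxx') (Ne.symm hxx'') (fun y hy hy1 hy2 => by
          rcases hcov y hy hy1 hy2 with h | h | h
          · exact Or.inr (Or.inr h)
          · exact Or.inl h
          · exact Or.inr (Or.inl h)) n (hN ▸ hn) h'
    have F3 : ∀ n ∈ N, n * x'' * n⁻¹ = x'' → n ∈ C := fun n hn h' => by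
      rw [hC]
      exact fix_one P hab (x := x'') (x' := x) (x'' := x') hxP hx'P hx1 hxx hx'1 hx'x'
        (Ne.symm hxx'') (Ne.symm hx'x'') hxx' (fun y hy hy1 hy2 => by
          rcases hcov y hy hy1 hy2 with h | h | h
          · exact Or.inr (Or.inl h)
          · exact Or.inr (Or.inr h)
          · exact Or.inl h) n (hN ▸ hn) h'
    have hgC : g ∉ C := by
      intro h'
      rw [hC, Subgroup.mem_centralizer_iff] at h'
      exact hgx (h' x hxP).symm
    have hggC : g * g ∉ C := by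
      intro h'
      rw [hC, Subgroup.mem_centralizer_iff] at h'
      apply hxx''
      have h1 := h' x hxP
      calc x = (x * (g * g)) * (g * g)⁻¹ := by group
        _ = (g * g * x) * (g * g)⁻¹ := by rw [h1]
        _ = g * (g * x * g⁻¹) * g⁻¹ := by group
        _ = x'' := by rw [← hx', ← hx'']
    have hidx : C.relIndex N = 3 := by
      rw [Subgroup.relIndex, Subgroup.index_eq_card]
      obtain ⟨K, hK⟩ : ∃ K : Subgroup N, K = C.subgroupOf N := ⟨_, rfl⟩
      rw [← hK]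
      have hmemK : ∀ n : N, n ∈ K ↔ (n : G) ∈ C := fun n => by rw [hK]; exact Subgroup.mem_subgroupOf
      obtain ⟨g', hg'⟩ : ∃ g' : N, g' = ⟨g, hg⟩ := ⟨_, rfl⟩
      have hg'v : (g' : G) = g := by rw [hg']
      have hall : ∀ q : N ⧸ K, q = ((1 : N) : N ⧸ K) ∨ q = (g' : N ⧸ K) ∨
          q = ((g' * g' : N) : N ⧸ K) := by
        intro q
        obtain ⟨n, rfl⟩ := QuotientGroup.mk_surjective q
        rcases hcov _ (hNP (n : G) n.2 x hxP) (conj_ne_one hx1) (conj_sq hxx) with h' | h' | h'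
        · left
          apply QuotientGroup.eq.mpr
          rw [mul_one]; exact K.inv_mem ((hmemK n).mpr (F1 n n.2 h'))
        · right; left
          apply QuotientGroup.eq.mpr
          have h1 : ((g'⁻¹ * n : N) : G) ∈ C := F1 _ (g'⁻¹ * n).2 (by
            show (g' : G)⁻¹ * (n : G) * x * ((g' : G)⁻¹ * (n : G))⁻¹ = x
            rw [hg'v]
            calc g⁻¹ * (n : G) * x * (g⁻¹ * (n : G))⁻¹ = g⁻¹ * ((n : G) * x * (n : G)⁻¹) * g := by
                  group
              _ = g⁻¹ * (g * x * g⁻¹) * g := by rw [h', hx']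
              _ = x := by group)
          have h3 := K.inv_mem ((hmemK _).mpr h1)
          rw [mul_inv_rev, inv_inv] at h3
          exact h3
        · right; right
          apply QuotientGroup.eq.mpr
          have h1 : (((g' * g')⁻¹ * n : N) : G) ∈ C := F1 _ ((g' * g')⁻¹ * n).2 (by
            show ((g' : G) * (g' : G))⁻¹ * (n : G) * x * (((g' : G) * (g' : G))⁻¹ * (n : G))⁻¹ = x
            rw [hg'v]
            calc (g * g)⁻¹ * (n : G) * x * ((g * g)⁻¹ * (n : G))⁻¹
                = g⁻¹ * (g⁻¹ * ((n : G) * x * (n : G)⁻¹) * g) * g := by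
                  simp only [mul_inv_rev, inv_inv, mul_assoc]
              _ = g⁻¹ * (g⁻¹ * (g * (g * x * g⁻¹) * g⁻¹) * g) * g := by rw [h', hx'', hx']
              _ = x := by group)
          have h3 := K.inv_mem ((hmemK _).mpr h1)
          rw [mul_inv_rev, inv_inv] at h3
          exact h3
      have h01 : ((1 : N) : N ⧸ K) ≠ (g' : N ⧸ K) := by
        intro h'
        have h1 := QuotientGroup.eq.mp h'
        rw [inv_one, one_mul, hmemK, hg'v] at h1
        exact hgC h1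
      have h02 : ((1 : N) : N ⧸ K) ≠ ((g' * g' : N) : N ⧸ K) := by
        intro h'
        have h1 := QuotientGroup.eq.mp h'
        rw [inv_one, one_mul, hmemK] at h1
        have h2 : ((g' * g' : N) : G) = g * g := by rw [Subgroup.coe_mul, hg'v]
        rw [h2] at h1
        exact hggC h1
      have h12 : (g' : N ⧸ K) ≠ ((g' * g' : N) : N ⧸ K) := by
        intro h'
        have h1 := QuotientGroup.eq.mp h'
        rw [inv_mul_cancel_left, hmemK, hg'v] at h1
        exact hgC h1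
      have huniv : (Set.univ : Set (N ⧸ K)) =
          {((1 : N) : N ⧸ K), (g' : N ⧸ K), ((g' * g' : N) : N ⧸ K)} := by
        ext q
        simp only [Set.mem_univ, Set.mem_insert_iff, Set.mem_singleton_iff, true_iff]
        exact hall q
      rw [← Set.ncard_univ, huniv]
      exact Set.ncard_eq_three.mpr ⟨_, _, _, h01, h02, h12, rfl⟩
    refine ⟨Or.inr hidx, fun _ z hz hz1 => ?_⟩
    apply le_antisymm
    · rintro n ⟨hnz, hnN⟩
      have hnz' : n ∈ Subgroup.centralizer ({z} : Set G) := hnz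
      have hzn : Commute n z := by
        rw [Subgroup.mem_centralizer_iff] at hnz'
        exact (hnz' z (Set.mem_singleton z)).symm
      obtain ⟨k, hk⟩ := P.2 ⟨z, hz⟩
      have hzk : z ^ 2 ^ k = 1 := by
        have := congrArg Subtype.val hk
        simpa using this
      obtain ⟨j, hjk, hj⟩ := (Nat.dvd_prime_pow Nat.prime_two).mp (orderOf_dvd_of_pow_eq_one hzk)
      have hj0 : j ≠ 0 := by
        rintro rfl
        rw [pow_zero, orderOf_eq_one_iff] at hj
        exact hz1 hj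
      obtain ⟨z₀, hz₀⟩ : ∃ z₀ : G, z₀ = z ^ 2 ^ (j - 1) := ⟨_, rfl⟩
      have hz₀P : z₀ ∈ (P : Subgroup G) := by rw [hz₀]; exact pow_mem hz _
      have hz₀1 : z₀ ≠ 1 := by
        rw [hz₀]
        apply pow_ne_one_of_lt_orderOf (by positivity)
        rw [hj]; exact Nat.pow_lt_pow_right (by norm_num) (by omega)
      have hz₀2 : z₀ * z₀ = 1 := by
        rw [hz₀, ← pow_two, ← pow_mul, ← pow_succ, Nat.sub_add_cancel (by omega), ← hj,
          pow_orderOf_eq_one]
      have hc₀ : Commute n z₀ := by rw [hz₀]; exact hzn.pow_right _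
      have hfix : n * z₀ * n⁻¹ = z₀ := by rw [hc₀.eq]; group
      rcases hcov z₀ hz₀P hz₀1 hz₀2 with h' | h' | h'
      · rw [h'] at hfix; exact F1 n hnN hfix
      · rw [h'] at hfix; exact F2 n hnN hfix
      · rw [h'] at hfix; exact F3 n hnN hfix
    · refine le_inf ?_ hCN
      rw [hC]
      exact Subgroup.centralizer_le (Set.singleton_subset_iff.mpr hz)

end Cfsg.Agent.Lib_helper9_Homocyclic2
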