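import Mathlib

set_option autoImplicit false

namespace Cfsg.Agent.Lib_helper9_InvAut

theorem s3375 {H : Type*} [Group H] [Finite H] (γ : MulAut H) (hγ : orderOf γ = 2) :
    ((∀ h : H, γ h = h → h = 1) → (∀ a b : H, a * b = b * a) ∧ ∀ h : H, γ h = h⁻¹) ∧
    ((Nat.card {h : H // γ h = h} = 2 ∧ ∃ M : Subgroup H, M.index = 2) →
      ∃ A : Subgroup H, A.index = 2 ∧ IsMulCommutative A ∧ (∀ a ∈ A, γ a ∈ A) ∧ ∀ a ∈ A, γ a = a⁻¹) := by
  have hγγ : ∀ h : H, γ (γ h) = h := by
    intro h
    have h2 : γ ^ 2 = 1 := by rw [← hγ]; exact pow_orderOf_eq_one γ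
    have := congrArg (fun f : MulAut H => f h) h2
    simpa [pow_two] using this
  have hcomm_of_inv : ∀ (P : H → Prop), (∀ a b, P a → P b → P (a * b)) →
      (∀ a, P a → γ a = a⁻¹) → ∀ a b, P a → P b → a * b = b * a := by
    intro P hmul hinv a b ha hb
    have h1 := hinv (a * b) (hmul a b ha hb)
    rw [map_mul, hinv a ha, hinv b hb, mul_inv_rev] at h1
    have h5 : (a⁻¹ * b⁻¹)⁻¹ = (b⁻¹ * a⁻¹)⁻¹ := by rw [h1]
    rw [mul_inv_rev, mul_inv_rev, inv_inv, inv_inv] at h5
    exact h5.symm
  constructor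
  · intro hfpf
    have hinj : Function.Injective (fun h : H => γ h * h⁻¹) := by
      intro h k hhk
      have h1 : γ h * h⁻¹ = γ k * k⁻¹ := hhk
      have h2 : γ (k⁻¹ * h) = k⁻¹ * h := by
        rw [map_mul, map_inv]
        have : γ h = γ k * k⁻¹ * h := by rw [← h1]; group
        rw [this]; group
      have h3 := hfpf _ h2
      exact (inv_mul_eq_one.mp h3).symm
    have hsurj := Finite.injective_iff_surjective.mp hinj
    have hinvall : ∀ x : H, γ x = x⁻¹ := by
      intro x
      obtain ⟨h, rfl⟩ := hsurj x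
      show γ (γ h * h⁻¹) = (γ h * h⁻¹)⁻¹
      rw [map_mul, hγγ, map_inv, mul_inv_rev, inv_inv]
    exact ⟨fun a b => hcomm_of_inv (fun _ => True) (fun _ _ _ _ => trivial)
      (fun a _ => hinvall a) a b trivial trivial, hinvall⟩
  · rintro ⟨hC2, M, hM⟩
    obtain ⟨M₀, hM₀, hM₀γ⟩ : ∃ M₀ : Subgroup H, M₀.index = 2 ∧ ∀ h, h ∈ M₀ → γ h ∈ M₀ := by
      by_cases hinvM : ∀ h, h ∈ M ↔ γ h ∈ M
      · exact ⟨M, hM, fun h hh => (hinvM h).mp hh⟩
      · obtain ⟨h₀, hh₀⟩ := not_forall.mp hinvM
        let M₀ : Subgroup H :=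
          { carrier := {h | h ∈ M ↔ γ h ∈ M}
            one_mem' := by
              show (1 : H) ∈ M ↔ γ 1 ∈ M
              rw [map_one]
            mul_mem' := by
              intro a b ha hb
              have ha' : a ∈ M ↔ γ a ∈ M := ha
              have hb' : b ∈ M ↔ γ b ∈ M := hb
              show a * b ∈ M ↔ γ (a * b) ∈ M
              rw [map_mul, Subgroup.mul_mem_iff_of_index_two hM,
                Subgroup.mul_mem_iff_of_index_two hM, ha', hb']
            inv_mem' := by
              intro a ha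
              have ha' : a ∈ M ↔ γ a ∈ M := ha
              show a⁻¹ ∈ M ↔ γ a⁻¹ ∈ M
              rw [map_inv, Subgroup.inv_mem_iff, Subgroup.inv_mem_iff, ha'] }
        have hmem : ∀ h, h ∈ M₀ ↔ (h ∈ M ↔ γ h ∈ M) := fun h => Iff.rfl
        refine ⟨M₀, ?_, ?_⟩
        · rw [Subgroup.index_eq_two_iff]
          refine ⟨h₀, fun b => ?_⟩
          rw [hmem, hmem, map_mul, Subgroup.mul_mem_iff_of_index_two hM,
            Subgroup.mul_mem_iff_of_index_two hM]
          unfold Xor
          tauto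
        · intro h hh
          rw [hmem] at hh ⊢
          rw [hγγ]
          exact hh.symm
    let C : Subgroup H :=
      { carrier := {h | γ h = h}
        one_mem' := map_one γ
        mul_mem' := by
          intro a b ha hb
          have ha' : γ a = a := ha
          have hb' : γ b = b := hb
          show γ (a * b) = a * b
          rw [map_mul, ha', hb']
        inv_mem' := by
          intro a ha
          have ha' : γ a = a := ha
          show γ a⁻¹ = a⁻¹
          rw [map_inv, ha'] }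
    have hCcard : Nat.card C = 2 := hC2
    have hfmem : ∀ h : H, γ h * h⁻¹ ∈ M₀ := by
      intro h
      by_cases hh : h ∈ M₀
      · exact M₀.mul_mem (hM₀γ h hh) (M₀.inv_mem hh)
      · have hγh : γ h ∉ M₀ := fun hc => hh (by have := hM₀γ _ hc; rwa [hγγ] at this)
        rw [Subgroup.mul_mem_iff_of_index_two hM₀, Subgroup.inv_mem_iff]
        exact ⟨fun h1 => absurd h1 hγh, fun h1 => absurd h1 hh⟩
    let f : H ⧸ C → M₀ := fun q => Quotient.liftOn' q (fun h => (⟨γ h * h⁻¹, hfmem h⟩ : M₀)) (by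
      intro h k hhk
      rw [QuotientGroup.leftRel_apply] at hhk
      have h1 : γ (h⁻¹ * k) = h⁻¹ * k := hhk
      apply Subtype.ext
      show γ h * h⁻¹ = γ k * k⁻¹
      rw [map_mul, map_inv] at h1
      have : γ k = γ h * (h⁻¹ * k) := by rw [← h1]; group
      rw [this]; group)
    have hfinj : Function.Injective f := by
      intro q q'
      refine Quotient.inductionOn₂' q q' ?_
      intro h k hqq
      have h1 : γ h * h⁻¹ = γ k * k⁻¹ := congrArg Subtype.val hqq
      apply QuotientGroup.eq.mpr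
      show γ (h⁻¹ * k) = h⁻¹ * k
      rw [map_mul, map_inv]
      have : γ k = γ h * h⁻¹ * k := by rw [h1]; group
      rw [this]; group
    have hcardeq : Nat.card M₀ ≤ Nat.card (H ⧸ C) := by
      have h1 := Subgroup.index_mul_card C
      have h2 := Subgroup.index_mul_card M₀
      rw [hCcard] at h1; rw [hM₀] at h2
      have h3 : C.index = Nat.card (H ⧸ C) := rfl
      omega
    have hfbij := hfinj.bijective_of_nat_card_le hcardeq
    have hinvM₀ : ∀ m ∈ M₀, γ m = m⁻¹ := by
      intro m hm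
      obtain ⟨q, hq⟩ := hfbij.2 ⟨m, hm⟩
      obtain ⟨h, rfl⟩ := QuotientGroup.mk_surjective q
      have h1 : γ h * h⁻¹ = m := congrArg Subtype.val hq
      rw [← h1, map_mul, hγγ, map_inv, mul_inv_rev, inv_inv]
    exact ⟨M₀, hM₀, ⟨⟨fun a b => Subtype.ext (hcomm_of_inv (· ∈ M₀)
      (fun a b ha hb => M₀.mul_mem ha hb) hinvM₀ a b a.2 b.2)⟩⟩, hM₀γ, hinvM₀⟩

end Cfsg.Agent.Lib_helper9_InvAut
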