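import Mathlib
import Cfsg.Prelude.Def_FusionSystem
import Cfsg.Agent.Lib_helper7_PCore

set_option autoImplicit false

namespace Cfsg.Agent.Lib_helper9_ModelRigid

open Cfsg Cfsg.Agent.Lib_helper7_PCore

/-- rigidity: an automorphism of a finite group `G` with `C_G(O_p(G)) ≤ O_p(G)` fixing a Sylow
`p`-subgroup elementwise is conjugation by an element of `O_p(G)` centralizing the Sylow
subgroup. -/
theorem aut_eq_conj {G : Type*} [Group G] [Finite G] (p : ℕ) [Fact p.Prime] (T : Sylow p G)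
    (hcent : Subgroup.centralizer ((pCore p G : Subgroup G) : Set G) ≤ pCore p G) (ψ : G ≃* G)
    (hψ : ∀ x ∈ (T : Subgroup G), ψ x = x) :
    ∃ z ∈ (T : Subgroup G), (∀ x ∈ (T : Subgroup G), z * x = x * z) ∧
      ∀ g : G, ψ g = z * g * z⁻¹ := by
  classical
  obtain ⟨Q, hQdef⟩ : ∃ Q : Subgroup G, Q = pCore p G := ⟨_, rfl⟩
  rw [← hQdef] at hcent
  haveI hQn : Q.Normal := hQdef ▸ Cfsg.Agent.Lib_helper7_PCore.pCore_normal p
  have hQp : IsPGroup p Q := hQdef ▸ Cfsg.Agent.Lib_helper7_PCore.pCore_isPGroup p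
  have hQT : Q ≤ T := hQdef ▸ Cfsg.Agent.Lib_helper7_PCore.pCore_le_sylow T
  obtain ⟨Z, hZdef⟩ : ∃ Z : Subgroup G, Z = Q ⊓ Subgroup.centralizer (Q : Set G) := ⟨_, rfl⟩
  haveI hZn : Z.Normal := by rw [hZdef]; infer_instance
  have hZQ : Z ≤ Q := hZdef ▸ inf_le_left
  have hZc : Z ≤ Subgroup.centralizer (Q : Set G) := hZdef ▸ inf_le_right
  have hZp : IsPGroup p Z := hQp.to_le hZQ
  have hζZ : ∀ g : G, ψ g * g⁻¹ ∈ Z := by
    intro g
    have hc : ψ g * g⁻¹ ∈ Subgroup.centralizer (Q : Set G) := by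
      rw [Subgroup.mem_centralizer_iff]
      intro x hx
      have hy : g⁻¹ * x * g ∈ Q := by
        have := hQn.conj_mem x hx g⁻¹
        rwa [inv_inv] at this
      have h2 : ψ (g⁻¹ * x * g) = g⁻¹ * x * g := hψ _ (hQT hy)
      rw [map_mul, map_mul, map_inv, hψ x (hQT hx)] at h2
      calc x * (ψ g * g⁻¹) = ψ g * ((ψ g)⁻¹ * x * ψ g) * g⁻¹ := by group
        _ = ψ g * (g⁻¹ * x * g) * g⁻¹ := by rw [h2]
        _ = ψ g * g⁻¹ * x := by group
    rw [hZdef]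
    exact ⟨hcent hc, hc⟩
  letI : CommGroup Z := { (inferInstance : Group Z) with
    mul_comm := fun a b => Subtype.ext (by
      have := (Subgroup.mem_centralizer_iff.mp (hZc b.2)) a (hZQ a.2)
      exact this) }
  obtain ⟨ζ, hζ⟩ : ∃ ζ : G → Z, ∀ g, ((ζ g : Z) : G) = ψ g * g⁻¹ :=
    ⟨fun g => ⟨ψ g * g⁻¹, hζZ g⟩, fun g => rfl⟩
  have hζmul : ∀ h g : G, ζ (h * g) = ζ h * (MulAut.conjNormal h : MulAut Z) (ζ g) := by
    intro h g
    apply Subtype.ext
    rw [Subgroup.coe_mul, MulAut.conjNormal_apply, hζ, hζ, hζ, map_mul]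
    group
  have hζT : ∀ g : G, ∀ s ∈ (T : Subgroup G), ζ (g * s) = ζ g := by
    intro g s hs
    apply Subtype.ext
    rw [hζ, hζ, map_mul, hψ s hs]
    group
  obtain ⟨f, hf⟩ : ∃ f : G ⧸ (T : Subgroup G) → Z, ∀ c, f c = ζ c.out := ⟨fun c => ζ c.out, fun c => rfl⟩
  have hfmk : ∀ g : G, f (QuotientGroup.mk g) = ζ g := by
    intro g
    obtain ⟨s, hs⟩ := QuotientGroup.mk_out_eq_mul (T : Subgroup G) g
    rw [hf, hs]
    exact hζT g s s.2
  have hfh : ∀ (h : G) (c : G ⧸ (T : Subgroup G)),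
      f (h • c) = ζ h * (MulAut.conjNormal h : MulAut Z) (f c) := by
    intro h c
    have h1 : c = QuotientGroup.mk c.out := (QuotientGroup.out_eq' c).symm
    have h2 : h • c = QuotientGroup.mk (h * c.out) := by
      conv_lhs => rw [h1]
      rfl
    rw [h2, hfmk, hζmul, hf]
  haveI : Fintype (G ⧸ (T : Subgroup G)) := Fintype.ofFinite _
  obtain ⟨m, hm⟩ : ∃ m : Z, m = ∏ c : G ⧸ (T : Subgroup G), f c := ⟨_, rfl⟩
  have hprod : ∀ h : G, m = ζ h ^ (Fintype.card (G ⧸ (T : Subgroup G))) *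
      (MulAut.conjNormal h : MulAut Z) m := by
    intro h
    have h1 : ∏ c : G ⧸ (T : Subgroup G), f (h • c) = m := by
      rw [hm]
      exact Equiv.prod_comp (MulAction.toPerm h) f
    have h2 : ∏ c : G ⧸ (T : Subgroup G), f (h • c) =
        ζ h ^ (Fintype.card (G ⧸ (T : Subgroup G))) * (MulAut.conjNormal h : MulAut Z) m := by
      simp only [hfh]
      rw [Finset.prod_mul_distrib, Finset.prod_const, Finset.card_univ, ← map_prod, ← hm]
    exact h1.symm.trans h2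
  have hn : (Nat.card Z).Coprime (Fintype.card (G ⧸ (T : Subgroup G))) := by
    obtain ⟨e, he⟩ := (IsPGroup.iff_card).mp hZp
    rw [he]
    apply Nat.Coprime.pow_left
    rw [Nat.Prime.coprime_iff_not_dvd Fact.out]
    have h1 := Sylow.not_dvd_index T
    rw [Subgroup.index, Nat.card_eq_fintype_card] at h1
    exact h1
  obtain ⟨w, hw⟩ : ∃ w : Z, w ^ (Fintype.card (G ⧸ (T : Subgroup G))) = m :=
    ⟨(powCoprime hn).symm m, (powCoprime hn).apply_symm_apply m⟩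
  have hζw : ∀ h : G, ζ h = w * ((MulAut.conjNormal h : MulAut Z) w)⁻¹ := by
    intro h
    apply (powCoprime hn).injective
    show ζ h ^ (Fintype.card (G ⧸ (T : Subgroup G))) =
      (w * ((MulAut.conjNormal h : MulAut Z) w)⁻¹) ^ (Fintype.card (G ⧸ (T : Subgroup G)))
    rw [mul_pow, inv_pow, ← map_pow, hw]
    have h1 := hprod h
    rw [eq_mul_inv_iff_mul_eq]
    exact h1.symm
  have hψw : ∀ g : G, ψ g = (w : G) * g * (w : G)⁻¹ := by
    intro g
    have h1 := congrArg Subtype.val (hζw g)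
    rw [hζ, Subgroup.coe_mul, Subgroup.coe_inv, MulAut.conjNormal_apply] at h1
    calc ψ g = (ψ g * g⁻¹) * g := by group
      _ = ((w : G) * ((g * (w : G) * g⁻¹))⁻¹) * g := by rw [h1]
      _ = (w : G) * g * (w : G)⁻¹ := by group
  refine ⟨(w : G), hQT (hZQ w.2), fun x hx => ?_, hψw⟩
  have h1 := hψw x
  rw [hψ x hx] at h1
  calc (w : G) * x = ((w : G) * x * (w : G)⁻¹) * (w : G) := by group
    _ = x * (w : G) := by rw [← h1]

/-- `S5105` -/
theorem model_rigid {Ω : Type*} [Group Ω] {S : Subgroup Ω} (p : ℕ) [Fact p.Prime]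
    (F : FusionSystem S) {G : Type*} [Group G] (ι : S →* G) (hG : F.IsModel p G ι)
    (ψ : G ≃* G) (hψ : ∀ x : S, ψ (ι x) = ι x) :
    ∃ z : S, z ∈ Subgroup.center S ∧ ∀ g : G, ψ g = ι z * g * (ι z)⁻¹ := by
  obtain ⟨hfin, hreal, ⟨T, hT⟩, hcent⟩ := hG
  haveI := hfin
  have hψT : ∀ x ∈ (T : Subgroup G), ψ x = x := by
    intro x hx
    rw [hT] at hx
    obtain ⟨s, rfl⟩ := hx
    exact hψ s
  obtain ⟨z₀, hz₀T, hz₀c, hz₀⟩ := aut_eq_conj p T hcent ψ hψT
  rw [hT] at hz₀T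
  obtain ⟨z, rfl⟩ := hz₀T
  refine ⟨z, ?_, hz₀⟩
  rw [Subgroup.mem_center_iff]
  intro s
  apply hreal.1
  rw [map_mul, map_mul]
  have h1 := hz₀c (ι s) (by rw [hT]; exact ⟨s, rfl⟩)
  exact h1.symm

end Cfsg.Agent.Lib_helper9_ModelRigid
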