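import Mathlib
import Cfsg.Prelude.Def_RootSubgroups
import Cfsg.Agent.Lib_helper9_RankOne

set_option autoImplicit false

namespace Cfsg.Agent.Lib_helper9_RootSub

open Cfsg
open Cfsg.Agent.Lib_helper9_RankOne
open scoped commutatorElement

variable {G : Type*} [Group G]

theorem comm_of_mem {A : Subgroup G} (hA : IsMulCommutative A) {x y : G} (hx : x ∈ A) (hy : y ∈ A) :
    x * y = y * x := by
  have := (isMulCommutative_iff.mp hA) ⟨x, hx⟩ ⟨y, hy⟩
  exact congrArg Subtype.val this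

theorem comm_of_commutator_eq_bot {A B : Subgroup G} (h : ⁅A, B⁆ = ⊥) {a b : G} (ha : a ∈ A)
    (hb : b ∈ B) : a * b = b * a := by
  have h1 : ⁅a, b⁆ ∈ ⁅A, B⁆ := Subgroup.commutator_mem_commutator ha hb
  rw [h, Subgroup.mem_bot, commutatorElement_eq_one_iff_mul_comm] at h1
  exact h1

theorem mem_normalizer_of_comm {A : Subgroup G} {c : G} (h : ∀ a ∈ A, c * a = a * c) :
    c ∈ Subgroup.normalizer (A : Set G) := by
  rw [mem_normalizer_iff_conjBy]
  ext x
  rw [mem_conjBy]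
  constructor
  · intro hx
    have h1 := h _ hx
    have h2 : x = c⁻¹ * x * c := by
      have h3 : c * (c⁻¹ * x * c) = x * c := by group
      rw [h3] at h1
      exact mul_right_cancel h1
    rw [h2]; exact hx
  · intro hx
    have h1 := h x hx
    have h2 : c⁻¹ * x * c = x := by rw [mul_assoc, ← h1, inv_mul_cancel_left]
    rw [h2]; exact hx

theorem conjBy_central {c : G} (hc : c ∈ Subgroup.center G) (B : Subgroup G) : conjBy B c = B := by
  rw [← mem_normalizer_iff_conjBy]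
  apply mem_normalizer_of_comm
  intro a _
  exact ((Subgroup.mem_center_iff.mp hc) a).symm

/-- If `β ∈ B` and `β A β⁻¹` normalizes `A`, then `β = 1`. -/
theorem eq_one_of_conjBy_le_normalizer {A B : Subgroup G} (h : IsRankOnePair A B) {β : G}
    (hβ : β ∈ B) (hle : conjBy A β ≤ Subgroup.normalizer (A : Set G)) : β = 1 := by
  by_contra hβ1
  have hβN : β ∉ Subgroup.normalizer (A : Set G) := by
    intro hN
    have h0 : β ∈ B ⊓ Subgroup.normalizer (A : Set G) := ⟨hβ, hN⟩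
    rw [inf_normalizer_right h, Subgroup.mem_bot] at h0
    exact hβ1 h0
  rw [mem_normalizer_iff_conjBy] at hβN
  have hmem : conjBy A β ∈ unipotentSubgroups A B := ⟨β, Subgroup.mem_sup_right hβ, rfl⟩
  rcases unipotent_cases h hmem with h1 | ⟨a, ha, h1⟩
  · exact hβN h1
  · apply ne_bot_right h
    rw [← inf_normalizer_right h]
    refine (inf_eq_left.mpr ?_).symm
    intro b hb
    have h2 : a * b * a⁻¹ ∈ conjBy B a := by
      rw [mem_conjBy]
      have h20 : a⁻¹ * (a * b * a⁻¹) * a = b := by group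
      rw [h20]; exact hb
    rw [← h1] at h2
    have h3 := hle h2
    have haN : a ∈ Subgroup.normalizer (A : Set G) := Subgroup.le_normalizer ha
    have h4 := Subgroup.mul_mem _ (Subgroup.mul_mem _ (Subgroup.inv_mem _ haN) h3) haN
    have h5 : a⁻¹ * (a * b * a⁻¹) * a = b := by group
    rw [h5] at h4
    exact h4

theorem exists_partner_of_not_isolated {S : Set (Subgroup G)} {A : Subgroup G} (hAS : A ∈ S)
    (hA : ¬ IsIsolatedIn (FAdj S) S A) : ∃ B ∈ S, IsRankOnePair A B := by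
  by_contra hno
  push Not at hno
  apply hA
  refine ⟨hAS, fun C => ⟨?_, ?_⟩⟩
  · rintro ⟨-, hC, hp⟩; exact hno C hC hp
  · rintro ⟨hC, -, hp⟩; exact hno C hC (RankOnePair_symm hp)

theorem commutator_central_mul {ζ a b : G} (hζ : ζ ∈ Subgroup.center G) : ⁅ζ * a, b⁆ = ⁅a, b⁆ := by
  have h := Subgroup.mem_center_iff.mp hζ
  rw [commutatorElement_def, commutatorElement_def]
  calc ζ * a * b * (ζ * a)⁻¹ * b⁻¹ = ζ * (a * b * a⁻¹) * ζ⁻¹ * b⁻¹ := by group
    _ = (a * b * a⁻¹) * ζ * ζ⁻¹ * b⁻¹ := by rw [← h (a * b * a⁻¹)]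
    _ = a * b * a⁻¹ * b⁻¹ := by group

/-- In a rank one pair with `A` abelian, the commutators `⁅a, b⁆` cannot all commute with `A`. -/
theorem false_of_commutators_comm {A B : Subgroup G} (h : IsRankOnePair A B)
    (hAc : IsMulCommutative A)
    (hc : ∀ a ∈ A, ∀ b ∈ B, ∀ a'' ∈ A, ⁅a, b⁆ * a'' = a'' * ⁅a, b⁆) : False := by
  obtain ⟨a, haA, ha1⟩ := exists_ne_one_left h
  obtain ⟨b, hbB, -, e⟩ := h.cond_left a haA ha1
  apply ne_bot_right h
  rw [← inf_normalizer_right h]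
  refine (inf_eq_left.mpr ?_).symm
  intro b' hb'
  have hy : a⁻¹ * b' * a ∈ conjBy B a⁻¹ := by
    rw [mem_conjBy]
    have h0 : a⁻¹⁻¹ * (a⁻¹ * b' * a) * a⁻¹ = b' := by group
    rw [h0]; exact hb'
  rw [← e, mem_conjBy, inv_inv] at hy
  set a' := b * (a⁻¹ * b' * a) * b⁻¹ with ha'
  have hyN : a⁻¹ * b' * a ∈ Subgroup.normalizer (A : Set G) := by
    apply mem_normalizer_of_comm
    intro x hx
    have h1 : a⁻¹ * b' * a = (⁅a', b⁻¹⁆)⁻¹ * a' := by
      rw [ha', commutatorElement_def]; group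
    have h2 := hc a' hy b⁻¹ (B.inv_mem hbB) x hx
    have h3 : (⁅a', b⁻¹⁆)⁻¹ * x = x * (⁅a', b⁻¹⁆)⁻¹ := by
      have h4 := congrArg (fun t => (⁅a', b⁻¹⁆)⁻¹ * t * (⁅a', b⁻¹⁆)⁻¹) h2
      simp only [mul_assoc, inv_mul_cancel_left, mul_inv_cancel, mul_one] at h4
      exact h4.symm
    rw [h1]
    calc (⁅a', b⁻¹⁆)⁻¹ * a' * x = (⁅a', b⁻¹⁆)⁻¹ * (x * a') := by
          rw [mul_assoc, comm_of_mem hAc hy hx]
      _ = x * (⁅a', b⁻¹⁆)⁻¹ * a' := by rw [← mul_assoc, h3]
      _ = x * ((⁅a', b⁻¹⁆)⁻¹ * a') := by rw [mul_assoc]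
  have haN : a ∈ Subgroup.normalizer (A : Set G) := Subgroup.le_normalizer haA
  have h5 := Subgroup.mul_mem _ (Subgroup.mul_mem _ haN hyN) (Subgroup.inv_mem _ haN)
  have h6 : a * (a⁻¹ * b' * a) * a⁻¹ = b' := by group
  rw [h6] at h5
  exact h5

/-- An element of the second centre normalizes each member of a rank one pair of abstract root
subgroups. -/
theorem conjBy_eq_self_of_second_centre {S : Set (Subgroup G)} (hS : IsRootSubgroupSet S)
    {A B : Subgroup G} (hA : A ∈ S) (hB : B ∈ S) (h : IsRankOnePair A B) {z : G}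
    (hz : z ∈ Subgroup.upperCentralSeries G 2) : conjBy A z = A := by
  have hz' : ∀ y : G, ⁅z, y⁆ ∈ Subgroup.center G := by
    intro y
    have := Subgroup.mem_upperCentralSeries_succ_iff.mp hz y
    rwa [Subgroup.upperCentralSeries_one] at this
  have hconj : ∀ a : G, z * a * z⁻¹ = ⁅z, a⁆ * a := by
    intro a; rw [commutatorElement_def]; group
  have hAc := hS.commutative A hA
  have hA₁ : conjBy A z ∈ S := hS.conj_mem A hA z
  have hmemA₁ : ∀ a ∈ A, z * a * z⁻¹ ∈ conjBy A z := by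
    intro a ha
    rw [mem_conjBy]
    have h0 : z⁻¹ * (z * a * z⁻¹) * z = a := by group
    rw [h0]; exact ha
  -- elements of A₁ commute with A
  have hcomm : ∀ x ∈ conjBy A z, ∀ a ∈ A, x * a = a * x := by
    intro x hx a ha
    rw [mem_conjBy] at hx
    have hx' : x = ⁅z, z⁻¹ * x * z⁆ * (z⁻¹ * x * z) := by
      rw [← hconj]; group
    have hζ := Subgroup.mem_center_iff.mp (hz' (z⁻¹ * x * z))
    rw [hx']
    calc ⁅z, z⁻¹ * x * z⁆ * (z⁻¹ * x * z) * a = ⁅z, z⁻¹ * x * z⁆ * (a * (z⁻¹ * x * z)) := by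
          rw [mul_assoc, comm_of_mem hAc hx ha]
      _ = a * ⁅z, z⁻¹ * x * z⁆ * (z⁻¹ * x * z) := by rw [← mul_assoc, hζ a]
      _ = a * (⁅z, z⁻¹ * x * z⁆ * (z⁻¹ * x * z)) := by rw [mul_assoc]
  have hcomm_elt : ∀ a ∈ A, ∀ b : G, ⁅z * a * z⁻¹, b⁆ = ⁅a, b⁆ := by
    intro a _ b
    rw [hconj, commutator_central_mul (hz' a)]
  rcases hS.pair _ hA₁ B hB with h1 | h1 | h1
  · exfalso
    apply false_of_commutators_comm h hAc
    intro a ha b hb a'' _
    have h2 : ⁅z * a * z⁻¹, b⁆ ∈ ⁅conjBy A z, B⁆ :=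
      Subgroup.commutator_mem_commutator (hmemA₁ a ha) hb
    rw [h1, Subgroup.mem_bot, hcomm_elt a ha b] at h2
    rw [h2, one_mul, mul_one]
  · obtain ⟨a, haA, ha1⟩ := exists_ne_one_left h
    have ha₁ : z * a * z⁻¹ ≠ 1 := by
      intro hcon
      apply ha1
      have h0 : a = z⁻¹ * (z * a * z⁻¹) * z := by group
      rw [h0, hcon]; group
    obtain ⟨b₁, hb₁, -, e1⟩ := h1.cond_left _ (hmemA₁ a haA) ha₁
    obtain ⟨b, hb, -, e2⟩ := h.cond_left a haA ha1
    have e3 : conjBy B (z * a * z⁻¹)⁻¹ = conjBy B a⁻¹ := by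
      have h0 : (z * a * z⁻¹)⁻¹ = a⁻¹ * (⁅z, a⁆)⁻¹ := by rw [hconj]; group
      rw [h0, ← conjBy_conjBy, conjBy_central (Subgroup.inv_mem _ (hz' a))]
    have e4 : conjBy A z = conjBy A (b₁ * b⁻¹) := by
      have := conjBy_eq_iff.mp (e1.trans (e3.trans e2.symm))
      rw [this, conjBy_conjBy, inv_inv]
    have hle : conjBy A (b₁ * b⁻¹) ≤ Subgroup.normalizer (A : Set G) := by
      rw [← e4]
      intro x hx
      exact mem_normalizer_of_comm (hcomm x hx)
    have h5 := eq_one_of_conjBy_le_normalizer h (B.mul_mem hb₁ (B.inv_mem hb)) hle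
    rw [e4, h5, conjBy_one]
  · exfalso
    obtain ⟨-, hcent, -, -⟩ := h1
    apply false_of_commutators_comm h hAc
    intro a ha b hb a'' ha''
    have h2 : ⁅z * a * z⁻¹, b⁆ ∈ ⁅conjBy A z, B⁆ :=
      Subgroup.commutator_mem_commutator (hmemA₁ a ha) hb
    have h3 := hcent _ h2 (z * a'' * z⁻¹) (Subgroup.mem_sup_left (hmemA₁ a'' ha''))
    rw [hcomm_elt a ha b, hconj a''] at h3
    have hζ := Subgroup.mem_center_iff.mp (hz' a'')
    -- h3 : ⁅a, b⁆ * (⁅z, a''⁆ * a'') = ⁅z, a''⁆ * a'' * ⁅a, b⁆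
    have h4 : ⁅z, a''⁆ * (⁅a, b⁆ * a'') = ⁅z, a''⁆ * (a'' * ⁅a, b⁆) := by
      rw [← mul_assoc, ← hζ ⁅a, b⁆, mul_assoc, h3, mul_assoc]
    exact mul_left_cancel h4

/-- An element of the second centre commutes with each member of a rank one pair of abstract
root subgroups. -/
theorem second_centre_comm {S : Set (Subgroup G)} (hS : IsRootSubgroupSet S)
    {A B : Subgroup G} (hA : A ∈ S) (hB : B ∈ S) (h : IsRankOnePair A B) {z : G}
    (hz : z ∈ Subgroup.upperCentralSeries G 2) : ∀ a ∈ A, z * a = a * z := by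
  intro a ha
  have h1 := conjBy_eq_self_of_second_centre hS hA hB h hz
  have hz' : ⁅z, a⁆ ∈ Subgroup.center G := by
    have := Subgroup.mem_upperCentralSeries_succ_iff.mp hz a
    rwa [Subgroup.upperCentralSeries_one] at this
  have h2 : ⁅z, a⁆ ∈ A ⊓ Subgroup.normalizer (B : Set G) := by
    refine ⟨?_, ?_⟩
    · rw [commutatorElement_def]
      have h3 : z * a * z⁻¹ ∈ conjBy A z := by
        rw [mem_conjBy]
        have h0 : z⁻¹ * (z * a * z⁻¹) * z = a := by group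
        rw [h0]; exact ha
      rw [h1] at h3
      exact A.mul_mem h3 (A.inv_mem ha)
    · exact mem_normalizer_of_comm (fun x _ => ((Subgroup.mem_center_iff.mp hz') x).symm)
  rw [inf_normalizer_left h, Subgroup.mem_bot, commutatorElement_eq_one_iff_mul_comm] at h2
  exact h2

end Cfsg.Agent.Lib_helper9_RootSub
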