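import Mathlib
import Cfsg.Agent.Lib_helper9_RootSub

set_option autoImplicit false

namespace Cfsg.Agent.Lib_helper9_NilClass

open Subgroup
open scoped commutatorElement

variable {P : Type*} [Group P]

theorem commutator_mem_lcs2 {E : Subgroup P} (hE : IsMulCommutative ↥E) {x y : P}
    (hx : x ∈ Subgroup.normalClosure (E : Set P)) (hy : y ∈ Subgroup.normalClosure (E : Set P)) :
    ⁅x, y⁆ ∈ (⊤ : Subgroup P).lowerCentralSeries 2 := by
  set Z := (⊤ : Subgroup P).lowerCentralSeries 2 with hZ
  have : Z.Normal := Subgroup.lowerCentralSeries_normal ⊤ 2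
  set π := QuotientGroup.mk' Z with hπ
  have hcent : ∀ z ∈ (⊤ : Subgroup P).lowerCentralSeries 1, ∀ h : P, π z * π h = π h * π z := by
    intro z hz h
    have h1 : ⁅z, h⁆ ∈ Z := Subgroup.commutator_mem_commutator hz (Subgroup.mem_top h)
    have h2 : π ⁅z, h⁆ = 1 := (QuotientGroup.eq_one_iff _).mpr h1
    rw [map_commutatorElement, commutatorElement_eq_one_iff_mul_comm] at h2
    exact h2
  have hconj : ∀ s ∈ Group.conjugatesOfSet (E : Set P),
      ∃ z ∈ (⊤ : Subgroup P).lowerCentralSeries 1, ∃ e ∈ E, s = z * e := by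
    intro s hs
    rw [Group.mem_conjugatesOfSet_iff] at hs
    obtain ⟨e, he, hc⟩ := hs
    rw [isConj_iff] at hc
    obtain ⟨g, rfl⟩ := hc
    refine ⟨⁅g, e⁆, ?_, e, he, ?_⟩
    · exact Subgroup.commutator_mem_commutator (Subgroup.mem_top g) (Subgroup.mem_top e)
    · rw [commutatorElement_def]; group
  have hcomm : ∀ s ∈ Group.conjugatesOfSet (E : Set P), ∀ t ∈ Group.conjugatesOfSet (E : Set P),
      π s * π t = π t * π s := by
    intro s hs t ht
    obtain ⟨z, hz, e, he, rfl⟩ := hconj s hs
    obtain ⟨w, hw, f, hf, rfl⟩ := hconj t ht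
    have hef : e * f = f * e := Cfsg.Agent.Lib_helper9_RootSub.comm_of_mem hE he hf
    rw [map_mul, map_mul]
    calc π z * π e * (π w * π f) = π z * (π e * π w) * π f := by group
      _ = π z * (π w * π e) * π f := by rw [← hcent w hw e]
      _ = π z * π w * (π e * π f) := by group
      _ = π z * π w * (π f * π e) := by rw [← map_mul π e f, hef, map_mul]
      _ = π w * π z * (π f * π e) := by rw [hcent z hz w]
      _ = π w * (π z * π f) * π e := by group
      _ = π w * (π f * π z) * π e := by rw [hcent z hz f]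
      _ = π w * π f * (π z * π e) := by group
  have hN : ∀ a ∈ Subgroup.closure (π '' Group.conjugatesOfSet (E : Set P)),
      ∀ b ∈ Subgroup.closure (π '' Group.conjugatesOfSet (E : Set P)), a * b = b * a := by
    intro a ha b hb
    letI := Subgroup.closureCommGroupOfComm (k := π '' Group.conjugatesOfSet (E : Set P)) (by
      rintro _ ⟨s, hs, rfl⟩ _ ⟨t, ht, rfl⟩
      exact hcomm s hs t ht)
    have := mul_comm (⟨a, ha⟩ : Subgroup.closure (π '' Group.conjugatesOfSet (E : Set P))) ⟨b, hb⟩
    exact congrArg Subtype.val this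
  have hx' : π x ∈ Subgroup.closure (π '' Group.conjugatesOfSet (E : Set P)) := by
    rw [← MonoidHom.map_closure]
    exact Subgroup.mem_map_of_mem π hx
  have hy' : π y ∈ Subgroup.closure (π '' Group.conjugatesOfSet (E : Set P)) := by
    rw [← MonoidHom.map_closure]
    exact Subgroup.mem_map_of_mem π hy
  have h3 : π ⁅x, y⁆ = 1 := by
    rw [map_commutatorElement, commutatorElement_eq_one_iff_mul_comm]
    exact hN _ hx' _ hy'
  exact (QuotientGroup.eq_one_iff _).mp h3

theorem lcs_normalClosure_le {E : Subgroup P} (hE : IsMulCommutative ↥E) (n : ℕ) :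
    (Subgroup.normalClosure (E : Set P)).lowerCentralSeries (n + 1) ≤
      (⊤ : Subgroup P).lowerCentralSeries (n + 2) := by
  induction n with
  | zero =>
    rw [Subgroup.lowerCentralSeries_succ, Subgroup.lowerCentralSeries_zero, Subgroup.commutator_le]
    intro x hx y hy
    exact commutator_mem_lcs2 hE hx hy
  | succ n ih =>
    rw [Subgroup.lowerCentralSeries_succ, Subgroup.lowerCentralSeries_succ (S := ⊤) (n := n + 2)]
    exact Subgroup.commutator_mono ih le_top

theorem class_normalClosure_lt [Group.IsNilpotent P] (hna : ¬ IsMulCommutative P) {E : Subgroup P}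
    (hE : IsMulCommutative ↥E) :
    Group.nilpotencyClass ↥(Subgroup.normalClosure (E : Set P)) < Group.nilpotencyClass P := by
  have hc : 2 ≤ Group.nilpotencyClass P := by
    by_contra h
    push Not at h
    exact hna (Group.IsNilpotent.nilpotencyClass_le_one_iff.mp (by omega))
  obtain ⟨c, hc'⟩ : ∃ c, Group.nilpotencyClass P = c + 2 := ⟨Group.nilpotencyClass P - 2, by omega⟩
  have h1 : (⊤ : Subgroup P).lowerCentralSeries (c + 2) = ⊥ := by
    rw [← hc']; exact Subgroup.lowerCentralSeries_nilpotencyClass
  have h2 : (Subgroup.normalClosure (E : Set P)).lowerCentralSeries (c + 1) = ⊥ := by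
    rw [eq_bot_iff, ← h1]; exact lcs_normalClosure_le hE c
  have h3 : (⊤ : Subgroup (Subgroup.normalClosure (E : Set P))).lowerCentralSeries (c + 1) = ⊥ := by
    have := Subgroup.top_subtype_lowerCentralSeries (Subgroup.normalClosure (E : Set P)) (c + 1)
    rw [h2] at this
    exact (Subgroup.map_eq_bot_iff_of_injective _ (Subgroup.subtype_injective _)).mp this
  have h4 := Subgroup.lowerCentralSeries_eq_bot_iff_nilpotencyClass_le.mp h3
  omega

end Cfsg.Agent.Lib_helper9_NilClass
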