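import Mathlib
import Cfsg.Prelude.Def_RootSubgroups
import Cfsg.Agent.Lib_helper7_PCore

set_option autoImplicit false

namespace Cfsg.Agent.Lib_helper9_OddTransp

open Cfsg
open scoped commutatorElement

variable {G : Type*} [Group G]

theorem eq_one_of_two_odd {Q : Subgroup G} (hQ : IsPGroup 2 Q) {t : G} (ht : t ∈ Q)
    (hodd : Odd (orderOf t)) : t = 1 := by
  obtain ⟨k, hk⟩ := hQ ⟨t, ht⟩
  have h1 : t ^ 2 ^ k = 1 := by simpa using congrArg Subtype.val hk
  have h2 : orderOf t ∣ 2 ^ k := orderOf_dvd_of_pow_eq_one h1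
  have h3 : orderOf t = 1 :=
    Nat.Coprime.eq_one_of_dvd (Nat.Coprime.pow_right k (Nat.coprime_two_right.mpr hodd)) h2
  exact orderOf_eq_one_iff.mp h3

theorem sq_eq_one {D : Set G} (hD : IsRootInvolutionSet D) {a : G} (ha : a ∈ D) : a * a = 1 := by
  have h := pow_orderOf_eq_one a
  rw [hD.orderOf_eq a ha, pow_two] at h
  exact h

theorem inv_eq_self {D : Set G} (hD : IsRootInvolutionSet D) {a : G} (ha : a ∈ D) : a⁻¹ = a :=
  inv_eq_of_mul_eq_one_right (sq_eq_one hD ha)

theorem pair' {D : Set G} (hD : IsOddTranspositionSet D) {a b : G} (ha : a ∈ D) (hb : b ∈ D) :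
    a * b = b * a ∨ Odd (orderOf (a * b)) := by
  rcases hD.1.pair a ha b hb with h | h | h
  · exact Or.inl h
  · exact Or.inr h
  · exact absurd h.1 (hD.2 a ha b hb)

theorem conj_mul_mem {Q : Subgroup G} (hQn : Q.Normal) {a q : G} (ha2 : a * a = 1) (hq : q ∈ Q) :
    q * a * q⁻¹ * a ∈ Q := by
  have hai : a⁻¹ = a := inv_eq_of_mul_eq_one_right ha2
  have h1 : a * q⁻¹ * a⁻¹ ∈ Q := hQn.conj_mem _ (Q.inv_mem hq) a
  have h2 : q * a * q⁻¹ * a = q * (a * q⁻¹ * a⁻¹) := by rw [hai]; simp only [mul_assoc]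
  rw [h2]; exact Q.mul_mem hq h1

theorem comm_commutator {D : Set G} (hD : IsOddTranspositionSet D) {Q : Subgroup G} (hQn : Q.Normal)
    (hQ : IsPGroup 2 Q) {a e : G} (ha : a ∈ D) (he : e ∈ D) (hea : e * a = a * e) {q : G}
    (hq : q ∈ Q) : e * ⁅q, a⁆ = ⁅q, a⁆ * e := by
  have ha2 : a * a = 1 := sq_eq_one hD.1 ha
  have he2 : e * e = 1 := sq_eq_one hD.1 he
  have hai : a⁻¹ = a := inv_eq_self hD.1 ha
  have hei : e⁻¹ = e := inv_eq_self hD.1 he
  obtain ⟨d, hd⟩ : ∃ d, d = q * a * q⁻¹ := ⟨_, rfl⟩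
  have hdD : d ∈ D := by rw [hd]; exact hD.1.conj_mem a ha q
  obtain ⟨u, hu⟩ : ∃ u, u = d * a := ⟨_, rfl⟩
  have huQ : u ∈ Q := by rw [hu, hd]; exact conj_mul_mem hQn ha2 hq
  have hdu : d = u * a := by rw [hu, mul_assoc, ha2, mul_one]
  have hed : e * d = d * e := by
    rcases pair' hD he hdD with h | h
    · exact h
    · have h1 : (e * d) ^ 2 ∈ Q := by
        have h2 : (e * d) ^ 2 = (e * u * e⁻¹) * (a * u * a⁻¹) := by
          rw [pow_two, hei, hai, hdu]
          calc e * (u * a) * (e * (u * a)) = e * u * (a * e) * u * a := by simp only [mul_assoc]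
            _ = e * u * (e * a) * u * a := by rw [hea]
            _ = e * u * e * (a * u * a) := by simp only [mul_assoc]
        rw [h2]
        exact Q.mul_mem (hQn.conj_mem _ huQ e) (hQn.conj_mem _ huQ a)
      have h3 : orderOf ((e * d) ^ 2) = orderOf (e * d) :=
        Nat.Coprime.orderOf_pow (Nat.coprime_two_right.mpr h)
      have h4 : (e * d) ^ 2 = 1 := eq_one_of_two_odd hQ h1 (by rw [h3]; exact h)
      have h5 : orderOf (e * d) = 1 := by rw [← h3, h4, orderOf_one]
      have h6 : e * d = 1 := orderOf_eq_one_iff.mp h5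
      have h7 : d = e := by
        have := eq_inv_of_mul_eq_one_right h6
        rw [this, hei]
      rw [h7]
  have h8 : ⁅q, a⁆ = d * a := by rw [commutatorElement_def, hai, hd]
  rw [h8]
  calc e * (d * a) = (e * d) * a := by rw [mul_assoc]
    _ = d * (e * a) := by rw [hed, mul_assoc]
    _ = d * a * e := by rw [hea, mul_assoc]

theorem zpowers_cases {a x : G} (ha2 : a * a = 1) (hx : x ∈ Subgroup.zpowers a) : x = 1 ∨ x = a := by
  obtain ⟨k, rfl⟩ := Subgroup.mem_zpowers_iff.mp hx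
  have h2 : a ^ (2 : ℤ) = 1 := by rw [zpow_two]; exact ha2
  rcases Int.even_or_odd' k with ⟨m, rfl | rfl⟩
  · left; rw [zpow_mul, h2, one_zpow]
  · right; rw [zpow_add_one, zpow_mul, h2, one_zpow, one_mul]

theorem part_one {D : Set G} (hD : IsOddTranspositionSet D) {Q : Subgroup G} (hQn : Q.Normal)
    (hQ : IsPGroup 2 Q) {a : G} (ha : a ∈ D) :
    ∀ e ∈ Cfsg.commutingMembers D a, ∀ q ∈ ⁅Q, Subgroup.zpowers a⁆, e * q = q * e := by
  rintro e ⟨he, hea⟩
  have h1 : ⁅Q, Subgroup.zpowers a⁆ ≤ Subgroup.centralizer {e} := by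
    rw [Subgroup.commutator_le]
    intro q hq x hx
    rw [Subgroup.mem_centralizer_iff]
    intro h hh
    rw [Set.mem_singleton_iff] at hh
    subst hh
    rcases zpowers_cases (sq_eq_one hD.1 ha) hx with rfl | rfl
    · simp
    · exact comm_commutator hD hQn hQ ha he hea hq
  intro q hq
  have := h1 hq
  rw [Subgroup.mem_centralizer_iff] at this
  exact this e rfl

theorem centralizer_odd {D : Set G} (hD : IsOddTranspositionSet D) {Q : Subgroup G} (hQn : Q.Normal)
    (hQ : IsPGroup 2 Q) {a b : G} (ha : a ∈ D) (hb : b ∈ D) (hne : b ≠ a)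
    (hodd : Odd (orderOf (a * b))) {q : G} (hq : q ∈ Q)
    (hqr : q * (a * b) = (a * b) * q) : q * a = a * q := by
  have ha2 : a * a = 1 := sq_eq_one hD.1 ha
  have hb2 : b * b = 1 := sq_eq_one hD.1 hb
  have hai : a⁻¹ = a := inv_eq_self hD.1 ha
  have hbi : b⁻¹ = b := inv_eq_self hD.1 hb
  obtain ⟨r, hr⟩ : ∃ r, r = a * b := ⟨_, rfl⟩
  rw [← hr] at hqr hodd
  obtain ⟨d, hd⟩ : ∃ d, d = q * a * q⁻¹ := ⟨_, rfl⟩
  have hdD : d ∈ D := by rw [hd]; exact hD.1.conj_mem a ha q
  have hd2 : d * d = 1 := sq_eq_one hD.1 hdD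
  obtain ⟨t, ht⟩ : ∃ t, t = d * a := ⟨_, rfl⟩
  have htQ : t ∈ Q := by rw [ht, hd]; exact conj_mul_mem hQn ha2 hq
  have hda : d = t * a := by rw [ht, mul_assoc, ha2, mul_one]
  have ht2 : t * t = 1 := by
    rcases pair' hD hdD ha with h | h
    · rw [ht]
      calc d * a * (d * a) = d * (a * d) * a := by simp only [mul_assoc]
        _ = d * (d * a) * a := by rw [h]
        _ = (d * d) * (a * a) := by simp only [mul_assoc]
        _ = 1 := by rw [hd2, ha2, mul_one]
    · rw [← ht] at h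
      rw [eq_one_of_two_odd hQ htQ h, mul_one]
  have hri : r⁻¹ = b * a := by rw [hr, mul_inv_rev, hai, hbi]
  have hara : a * r = r⁻¹ * a := by
    rw [hri, hr]
    calc a * (a * b) = (a * a) * b := by rw [mul_assoc]
      _ = b := by rw [ha2, one_mul]
      _ = b * (a * a) := by rw [ha2, mul_one]
      _ = b * a * a := by rw [mul_assoc]
  have hqr' : Commute q r := hqr
  have hconj : q⁻¹ * r * q = r := by
    rw [mul_assoc, ← hqr, ← mul_assoc, inv_mul_cancel, one_mul]
  have hdrd : d * r * d = r⁻¹ := by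
    calc d * r * d = q * a * (q⁻¹ * r * q) * a * q⁻¹ := by
          rw [hd]; simp only [mul_assoc, inv_mul_cancel_left]
      _ = q * (a * r * a) * q⁻¹ := by rw [hconj]; simp only [mul_assoc]
      _ = q * r⁻¹ * q⁻¹ := by rw [hara, mul_assoc r⁻¹, ha2, mul_one]
      _ = r⁻¹ := by rw [(hqr'.inv_right).eq, mul_assoc, mul_inv_cancel, mul_one]
  have hdri : d * r⁻¹ = r * d := by
    rw [← hdrd]
    calc d * (d * r * d) = (d * d) * r * d := by simp only [mul_assoc]
      _ = r * d := by rw [hd2, one_mul]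
  have htr : Commute t r := by
    show t * r = r * t
    rw [ht]
    calc d * a * r = d * (a * r) := by rw [mul_assoc]
      _ = d * (r⁻¹ * a) := by rw [hara]
      _ = (d * r⁻¹) * a := by rw [mul_assoc]
      _ = r * (d * a) := by rw [hdri, mul_assoc]
  have hdb : d * b = t * r := by rw [hda, hr, mul_assoc]
  have hroddne : ∀ x : G, x * x = 1 → Odd (orderOf x) → x = 1 := by
    intro x hx2 hxo
    have h3 : orderOf x ∣ 2 := orderOf_dvd_of_pow_eq_one (by rw [pow_two]; exact hx2)
    have h4 : orderOf x = 1 := by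
      rcases (Nat.dvd_prime Nat.prime_two).mp h3 with h | h
      · exact h
      · rw [h] at hxo; exact absurd hxo (by decide)
    exact orderOf_eq_one_iff.mp h4
  have ht1 : t = 1 := by
    rcases pair' hD hdD hb with h | h
    · exfalso
      have h1 : (d * b) * (d * b) = 1 := by
        calc d * b * (d * b) = d * (b * d) * b := by simp only [mul_assoc]
          _ = d * (d * b) * b := by rw [h]
          _ = (d * d) * (b * b) := by simp only [mul_assoc]
          _ = 1 := by rw [hd2, hb2, mul_one]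
      rw [hdb] at h1
      have h2 : r * r = 1 := by
        have h3 : (t * r) * (t * r) = (t * t) * (r * r) := by
          have := htr.mul_pow 2
          simpa [pow_two] using this
        rw [h3, ht2, one_mul] at h1
        exact h1
      have h5 : r = 1 := hroddne r h2 hodd
      apply hne
      rw [hr] at h5
      have := eq_inv_of_mul_eq_one_right h5
      rw [this, hai]
    · rw [hdb] at h
      obtain ⟨n, hn⟩ : ∃ n, n = orderOf (t * r) := ⟨_, rfl⟩
      rw [← hn] at h
      have h1 : (t * r) ^ n = 1 := by rw [hn]; exact pow_orderOf_eq_one _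
      rw [htr.mul_pow] at h1
      have h2 : t ^ n = t := by
        obtain ⟨m, hm⟩ := h
        rw [hm, pow_succ, pow_mul, pow_two, ht2, one_pow, one_mul]
      rw [h2] at h1
      have h3 : t = (r ^ n)⁻¹ := eq_inv_of_mul_eq_one_left h1
      have h4 : t ∈ Subgroup.zpowers r := by
        rw [h3]; exact Subgroup.inv_mem _ (Subgroup.pow_mem _ (Subgroup.mem_zpowers r) n)
      have h5 : orderOf t ∣ orderOf r := orderOf_dvd_of_mem_zpowers h4
      exact hroddne t ht2 (Odd.of_dvd_nat hodd h5)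
  have h9 : d = a := by rw [hda, ht1, one_mul]
  rw [hd] at h9
  calc q * a = q * a * q⁻¹ * q := by rw [inv_mul_cancel_right]
    _ = a * q := by rw [h9]

theorem part_two {D : Set G} (hD : IsOddTranspositionSet D) {Q : Subgroup G} (hQn : Q.Normal)
    (hQ : IsPGroup 2 Q) {a : G} (ha : a ∈ D) :
    ∀ b ∈ Cfsg.oddPartners D a,
      Q ⊓ Subgroup.centralizer {a * b} = Q ⊓ Subgroup.centralizer {a} ⊓ Subgroup.centralizer {b} := by
  rintro b ⟨hb, hne, hodd⟩
  have ha2 : a * a = 1 := sq_eq_one hD.1 ha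
  ext q
  simp only [Subgroup.mem_inf, Subgroup.mem_centralizer_iff, Set.mem_singleton_iff, forall_eq]
  constructor
  · rintro ⟨hq, h1⟩
    have h2 : q * a = a * q := centralizer_odd hD hQn hQ ha hb hne hodd hq h1.symm
    refine ⟨⟨hq, h2.symm⟩, ?_⟩
    have hb' : b = a * (a * b) := by rw [← mul_assoc, ha2, one_mul]
    calc b * q = a * ((a * b) * q) := by rw [← mul_assoc, ← hb']
      _ = a * (q * (a * b)) := by rw [h1]
      _ = (a * q) * (a * b) := by rw [mul_assoc]
      _ = q * (a * (a * b)) := by rw [← h2, mul_assoc]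
      _ = q * b := by rw [← hb']
  · rintro ⟨⟨hq, h1⟩, h2⟩
    refine ⟨hq, ?_⟩
    calc a * b * q = a * (b * q) := by rw [mul_assoc]
      _ = a * (q * b) := by rw [h2]
      _ = (a * q) * b := by rw [mul_assoc]
      _ = q * (a * b) := by rw [h1, mul_assoc]

end Cfsg.Agent.Lib_helper9_OddTransp
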