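import Mathlib

set_option autoImplicit false

namespace Cfsg.Agent.Lib_helper9_OnePt

variable {X : Type*}

/-- the set `G ∪ G h G` -/
def InS (G : Subgroup (Equiv.Perm (Option X))) (h : Equiv.Perm (Option X))
    (f : Equiv.Perm (Option X)) : Prop :=
  f ∈ G ∨ ∃ a ∈ G, ∃ b ∈ G, f = a * h * b

theorem emb2 {k : ℕ} (hk : 2 ≤ k) (hkX : Nonempty (Fin k ↪ X)) (p q : X) (hpq : p ≠ q) :
    ∃ e : Fin k ↪ X, e ⟨0, by omega⟩ = p ∧ e ⟨1, by omega⟩ = q := by
  classical
  obtain ⟨e⟩ := hkX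
  let e1 : Fin k ↪ X := e.trans (Equiv.swap (e ⟨0, by omega⟩) p).toEmbedding
  have h1 : e1 ⟨0, by omega⟩ = p := by
    simp [e1]
  have h01 : e1 ⟨1, by omega⟩ ≠ p := by
    rw [← h1]
    intro hh
    have := e1.injective hh
    simp [Fin.ext_iff] at this
  refine ⟨e1.trans (Equiv.swap (e1 ⟨1, by omega⟩) q).toEmbedding, ?_, ?_⟩
  · simp only [Function.Embedding.trans_apply, Equiv.coe_toEmbedding]
    rw [h1]
    exact Equiv.swap_apply_of_ne_of_ne (Ne.symm h01) hpq
  · simp

theorem two_trans (G : Subgroup (Equiv.Perm (Option X))) {k : ℕ} (hk : 2 ≤ k)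
    (hkX : Nonempty (Fin k ↪ X))
    (htrans : ∀ a b : Fin k ↪ X, ∃ f ∈ G, ∀ i, f (some (a i)) = some (b i))
    (x y z : X) (hxy : x ≠ y) (hxz : x ≠ z) :
    ∃ f ∈ G, f (some x) = some x ∧ f (some y) = some z := by
  classical
  obtain ⟨a, ha0, ha1⟩ := emb2 hk hkX x y hxy
  obtain ⟨f, hf, hfa⟩ := htrans a (a.trans (Equiv.swap y z).toEmbedding)
  refine ⟨f, hf, ?_, ?_⟩
  · have := hfa ⟨0, by omega⟩
    rw [ha0] at this
    rw [this]
    simp only [Function.Embedding.trans_apply, Equiv.coe_toEmbedding, ha0]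
    rw [Equiv.swap_apply_of_ne_of_ne hxy hxz]
  · have := hfa ⟨1, by omega⟩
    rw [ha1] at this
    rw [this]
    simp [ha1]

theorem one_trans (G : Subgroup (Equiv.Perm (Option X))) {k : ℕ} (hk : 2 ≤ k)
    (hkX : Nonempty (Fin k ↪ X))
    (htrans : ∀ a b : Fin k ↪ X, ∃ f ∈ G, ∀ i, f (some (a i)) = some (b i))
    (z x : X) :
    ∃ f ∈ G, f (some z) = some x := by
  classical
  by_cases hzx : z = x
  · exact ⟨1, G.one_mem, by simp [hzx]⟩
  obtain ⟨a, ha0, ha1⟩ := emb2 hk hkX z x hzx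
  obtain ⟨f, hf, hfa⟩ := htrans a (a.trans (Equiv.swap z x).toEmbedding)
  refine ⟨f, hf, ?_⟩
  have := hfa ⟨0, by omega⟩
  rw [ha0] at this
  rw [this]
  simp [ha0]

theorem closure_sub (G : Subgroup (Equiv.Perm (Option X))) (hfix : ∀ f ∈ G, f none = none)
    (k : ℕ) (hk : 2 ≤ k) (hkX : Nonempty (Fin k ↪ X))
    (htrans : ∀ a b : Fin k ↪ X, ∃ f ∈ G, ∀ i, f (some (a i)) = some (b i))
    (h g : Equiv.Perm (Option X)) (hg : g ∈ G) (x y : X)
    (h2 : h (some x) = none) (h3 : h (some y) = some y)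
    (h4 : g (some x) = some y)
    (h6 : (g * h) ^ 3 ∈ G) (h7 : h ^ 2 ∈ G)
    (h8 : ∀ f ∈ G, f (some x) = some x → h * f * h ∈ G ∧ (h * f * h) (some x) = some x)
    (f : Equiv.Perm (Option X))
    (hf : f ∈ Subgroup.closure ((G : Set (Equiv.Perm (Option X))) ∪ {h})) :
    InS G h f := by
  have hxy : x ≠ y := by
    rintro rfl
    rw [h2] at h3
    simp at h3
  have hu : (h ^ 2)⁻¹ ∈ G := G.inv_mem h7
  have hGS : ∀ a ∈ G, ∀ s, InS G h s → InS G h (a * s) := by
    intro a ha s hs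
    rcases hs with hs | ⟨b, hb, c, hc, rfl⟩
    · exact Or.inl (G.mul_mem ha hs)
    · exact Or.inr ⟨a * b, G.mul_mem ha hb, c, hc, by group⟩
  have hSG : ∀ a ∈ G, ∀ s, InS G h s → InS G h (s * a) := by
    intro a ha s hs
    rcases hs with hs | ⟨b, hb, c, hc, rfl⟩
    · exact Or.inl (G.mul_mem hs ha)
    · exact Or.inr ⟨b, hb, c * a, G.mul_mem hc ha, by group⟩
  have hhgh : InS G h (h * g * h) := by
    refine Or.inr ⟨g⁻¹ * (g * h) ^ 3 * (h ^ 2)⁻¹,
      G.mul_mem (G.mul_mem (G.inv_mem hg) h6) hu, g⁻¹, G.inv_mem hg, ?_⟩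
    rw [show (g * h) ^ 3 = g * h * (g * h) * (g * h) by rw [pow_succ, pow_succ, pow_one]]
    group
  have hhfh : ∀ f ∈ G, InS G h (h * f * h) := by
    intro f hf
    by_cases hfx : f (some x) = some x
    · exact Or.inl (h8 f hf hfx).1
    · have hne : f (some x) ≠ none := by
        intro hh
        have := hfix f hf
        rw [← this] at hh
        have h' := f.injective hh
        simp at h'
      obtain ⟨z, hz⟩ := Option.ne_none_iff_exists'.mp hne
      have hxz : x ≠ z := by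
        rintro rfl
        exact hfx hz
      obtain ⟨f1, hf1, hf1x, hf1y⟩ := two_trans G hk hkX htrans x y z hxy hxz
      have hf2 : (f1 * g)⁻¹ * f ∈ G := G.mul_mem (G.inv_mem (G.mul_mem hf1 hg)) hf
      have hf2x : ((f1 * g)⁻¹ * f) (some x) = some x := by
        rw [Equiv.Perm.mul_apply, hz, Equiv.Perm.inv_eq_iff_eq]
        rw [Equiv.Perm.mul_apply, h4, hf1y]
      have e1 := (h8 f1 hf1 hf1x).1
      have e2 := (h8 _ hf2 hf2x).1
      have key : h * f * h = (h * f1 * h) * ((h ^ 2)⁻¹ * ((h * g * h) *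
          ((h ^ 2)⁻¹ * (h * ((f1 * g)⁻¹ * f) * h)))) := by
        group
      rw [key]
      exact hGS _ e1 _ (hGS _ hu _ (hSG _ (G.mul_mem hu e2) _ hhgh))
  have hhS : ∀ s, InS G h s → InS G h (h * s) := by
    intro s hs
    rcases hs with hs | ⟨b, hb, c, hc, rfl⟩
    · exact Or.inr ⟨1, G.one_mem, s, hs, by group⟩
    · have := hSG c hc _ (hhfh b hb)
      rwa [show h * (b * h * c) = h * b * h * c by group]
  have hhinvS : ∀ s, InS G h s → InS G h (h⁻¹ * s) := by
    intro s hs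
    have := hGS _ hu _ (hhS s hs)
    rwa [show h⁻¹ * s = (h ^ 2)⁻¹ * (h * s) by group]
  induction hf using Subgroup.closure_induction_left with
  | one => exact Or.inl G.one_mem
  | mul_left a ha b hb ih =>
    rcases ha with ha | ha
    · exact hGS a ha b ih
    · rw [Set.mem_singleton_iff] at ha
      rw [ha]
      exact hhS b ih
  | inv_mul_cancel a ha b hb ih =>
    rcases ha with ha | ha
    · exact hGS _ (G.inv_mem ha) b ih
    · rw [Set.mem_singleton_iff] at ha
      rw [ha]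
      exact hhinvS b ih

theorem main (G : Subgroup (Equiv.Perm (Option X))) (hfix : ∀ f ∈ G, f none = none)
    (k : ℕ) (hk : 2 ≤ k) (hkX : Nonempty (Fin k ↪ X))
    (htrans : ∀ a b : Fin k ↪ X, ∃ f ∈ G, ∀ i, f (some (a i)) = some (b i))
    (h g : Equiv.Perm (Option X)) (hg : g ∈ G) (x y : X)
    (h1 : h none = some x) (h2 : h (some x) = none) (h3 : h (some y) = some y)
    (h4 : g (some x) = some y)
    (h6 : (g * h) ^ 3 ∈ G) (h7 : h ^ 2 ∈ G)
    (h8 : ∀ f ∈ G, f (some x) = some x → h * f * h ∈ G ∧ (h * f * h) (some x) = some x) :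
    (∀ f ∈ Subgroup.closure ((G : Set (Equiv.Perm (Option X))) ∪ {h}), f none = none ↔ f ∈ G) ∧
      MulAction.IsMultiplyPretransitive
        (Subgroup.closure ((G : Set (Equiv.Perm (Option X))) ∪ {h})) (Option X) (k + 1) := by
  classical
  have hGK : G ≤ Subgroup.closure ((G : Set (Equiv.Perm (Option X))) ∪ {h}) :=
    fun a ha => Subgroup.subset_closure (Or.inl ha)
  have hhK : h ∈ Subgroup.closure ((G : Set (Equiv.Perm (Option X))) ∪ {h}) :=
    Subgroup.subset_closure (Or.inr rfl)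
  refine ⟨?_, ?_⟩
  · intro f hf
    refine ⟨fun hfn => ?_, hfix f⟩
    rcases closure_sub G hfix k hk hkX htrans h g hg x y h2 h3 h4 h6 h7 h8 f hf with
      hfG | ⟨a, ha, b, hb, rfl⟩
    · exact hfG
    · exfalso
      rw [Equiv.Perm.mul_apply, Equiv.Perm.mul_apply, hfix b hb, h1] at hfn
      rw [← hfix a ha] at hfn
      have h' := a.injective hfn
      simp at h'
  · rw [MulAction.isMultiplyPretransitive_iff]
    have step1 : ∀ a : Fin (k + 1) ↪ Option X,
        ∃ κ ∈ Subgroup.closure ((G : Set (Equiv.Perm (Option X))) ∪ {h}), κ (a 0) = none := by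
      intro a
      rcases hz : a 0 with _ | z
      · exact ⟨1, Subgroup.one_mem _, rfl⟩
      · obtain ⟨f, hf, hfz⟩ := one_trans G hk hkX htrans z x
        exact ⟨h * f, Subgroup.mul_mem _ hhK (hGK hf), by rw [Equiv.Perm.mul_apply, hfz, h2]⟩
    have step2 : ∀ a b : Fin (k + 1) ↪ Option X, a 0 = none → b 0 = none →
        ∃ f ∈ G, ∀ i, f (a i) = b i := by
      intro a b ha hb
      have hex : ∀ (c : Fin (k + 1) ↪ Option X), c 0 = none →
          ∃ γ : Fin k ↪ X, ∀ i : Fin k, c i.succ = some (γ i) := by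
        intro c hc
        have hne : ∀ i : Fin k, c i.succ ≠ none := by
          intro i hh
          rw [← hc] at hh
          exact Fin.succ_ne_zero i (c.injective hh)
        choose γ hγ using fun i => Option.ne_none_iff_exists'.mp (hne i)
        refine ⟨⟨γ, ?_⟩, hγ⟩
        intro i j hij
        have : c i.succ = c j.succ := by rw [hγ i, hγ j, hij]
        exact Fin.succ_injective _ (c.injective this)
      obtain ⟨α, hα⟩ := hex a ha
      obtain ⟨β, hβ⟩ := hex b hb
      obtain ⟨f, hf, hfab⟩ := htrans α β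
      refine ⟨f, hf, ?_⟩
      intro i
      induction i using Fin.cases with
      | zero => rw [ha, hb]; exact hfix f hf
      | succ i => rw [hα, hβ]; exact hfab i
    intro a b
    obtain ⟨κa, hκa, hκa0⟩ := step1 a
    obtain ⟨κb, hκb, hκb0⟩ := step1 b
    obtain ⟨f, hf, hfab⟩ := step2 (a.trans κa.toEmbedding) (b.trans κb.toEmbedding)
      (by simpa using hκa0) (by simpa using hκb0)
    refine ⟨⟨κb⁻¹ * f * κa, Subgroup.mul_mem _ (Subgroup.mul_mem _ (Subgroup.inv_mem _ hκb)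
      (hGK hf)) hκa⟩, ?_⟩
    refine Function.Embedding.ext (fun i => ?_)
    have := hfab i
    simp only [Function.Embedding.trans_apply, Equiv.coe_toEmbedding] at this
    rw [Function.Embedding.smul_apply]
    show (κb⁻¹ * f * κa) (a i) = b i
    rw [Equiv.Perm.mul_apply, Equiv.Perm.mul_apply, this]
    simp

end Cfsg.Agent.Lib_helper9_OnePt
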