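import Mathlib
import Cfsg.Agent.Lib_helper1_Frobenius
import Cfsg.Agent.Lib_helper1_Coprime
import Cfsg.Agent.Lib_helper9_GenQuat

set_option autoImplicit false

namespace Cfsg.Agent.Lib_helper9_Q8Fus

open Cfsg.Agent.Lib_helper9_GenQuat

universe u

/-- the "type" of an element of `Q₈`: which cyclic subgroup of order `4` it lies in -/
def qType : QuaternionGroup 2 → Fin 3
  | QuaternionGroup.a _ => 0
  | QuaternionGroup.xa i => if i = 0 ∨ i = 2 then 1 else 2

theorem q_pigeon : ∀ u v w : QuaternionGroup 2, u ^ 2 = 1 → v ^ 2 = 1 → w ^ 2 = 1 →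
    u = v ∨ u = w ∨ v = w := by decide

theorem q_type : ∀ u v : QuaternionGroup 2, u ^ 2 ≠ 1 → v ^ 2 ≠ 1 → qType u = qType v →
    v = u ∨ v = u⁻¹ := by decide

theorem fin3 : ∀ a b c d : Fin 3, a ≠ b → a ≠ c → b ≠ c → d = a ∨ d = b ∨ d = c := by decide

/-- a group of odd order normalizing a `2`-group `F` and centralizing a subgroup of index `2`
centralizes `F`. -/
theorem cent_of_cent_index_two {X : Type u} [Group X] [Finite X] (F M A : Subgroup X)
    (hF : IsPGroup 2 F) (hA : Odd (Nat.card A)) (hMF : M ≤ F)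
    (h2M : 2 * Nat.card M = Nat.card F)
    (hAF : A ≤ Subgroup.normalizer (F : Set X)) (hAM : A ≤ Subgroup.normalizer (M : Set X))
    (hMc : M ≤ Subgroup.centralizer (A : Set X)) :
    F ≤ Subgroup.centralizer (A : Set X) := by
  have hMne : M ≠ F := by
    intro h
    rw [h] at h2M
    have := Nat.card_pos (α := F)
    omega
  obtain ⟨y, hyF, hyM⟩ : ∃ y ∈ F, y ∉ M := by
    by_contra h
    push Not at h
    exact hMne (le_antisymm hMF h)
  have hidx : (M.subgroupOf F).index = 2 := by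
    have h1 := Subgroup.card_mul_index (M.subgroupOf F)
    have h2 : Nat.card (M.subgroupOf F) = Nat.card M :=
      Nat.card_congr (Subgroup.subgroupOfEquivOfLe hMF).toEquiv
    rw [h2, ← h2M] at h1
    have hpos : 0 < Nat.card M := Nat.card_pos
    have h3 : Nat.card M * (M.subgroupOf F).index = Nat.card M * 2 := by rw [h1]; ring
    exact Nat.eq_of_mul_eq_mul_left hpos h3
  have hfix : ∀ a ∈ A, a * y * a⁻¹ * y⁻¹ ∈ M := by
    intro a ha
    have haF : a * y * a⁻¹ ∈ F := (Subgroup.mem_normalizer_iff.mp (hAF ha) y).mp hyF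
    have haM : a * y * a⁻¹ ∉ M := fun h =>
      hyM ((Subgroup.mem_normalizer_iff.mp (hAM ha) y).mpr h)
    have h3 : (⟨a * y * a⁻¹, haF⟩ : F) * (⟨y, hyF⟩ : F)⁻¹ ∈ M.subgroupOf F := by
      rw [Subgroup.mul_mem_iff_of_index_two hidx]
      constructor
      · intro h
        exact absurd (Subgroup.mem_subgroupOf.mp h) haM
      · intro h
        exact absurd (Subgroup.mem_subgroupOf.mp (inv_mem_iff.mp h)) hyM
    exact Subgroup.mem_subgroupOf.mp h3
  haveI : Group.IsNilpotent ↥M := (hF.to_le hMF).isNilpotent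
  have hcop : (Nat.card A).Coprime (Nat.card M) := by
    obtain ⟨k, hk⟩ := (hF.to_le hMF).exists_card_eq
    rw [hk]
    exact Nat.Coprime.pow_right _ (Nat.coprime_two_right.mpr hA)
  obtain ⟨m, hmM, hmy⟩ := Cfsg.Agent.Lib_helper1_Coprime.fixed_in_coset A M hAM hcop
    (Or.inr inferInstance) y hfix
  have hyc : y ∈ Subgroup.centralizer (A : Set X) := by
    have h := (Subgroup.centralizer (A : Set X)).mul_mem
      ((Subgroup.centralizer (A : Set X)).inv_mem (hMc hmM)) hmy
    rwa [inv_mul_cancel_left] at h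
  intro f hf
  by_cases hfM : f ∈ M
  · exact hMc hfM
  · have h3 : (⟨f, hf⟩ : F) * (⟨y, hyF⟩ : F)⁻¹ ∈ M.subgroupOf F := by
      rw [Subgroup.mul_mem_iff_of_index_two hidx]
      constructor
      · intro h
        exact absurd (Subgroup.mem_subgroupOf.mp h) hfM
      · intro h
        exact absurd (Subgroup.mem_subgroupOf.mp (inv_mem_iff.mp h)) hyM
    have h4 : f * y⁻¹ ∈ M := Subgroup.mem_subgroupOf.mp h3
    have h := (Subgroup.centralizer (A : Set X)).mul_mem (hMc h4) hyc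
    rwa [inv_mul_cancel_right] at h

theorem eq_zpowers {G : Type u} [Group G] [Finite G] (T : Subgroup G) (hT4 : Nat.card T = 4)
    (x : G) (hx : x ∈ T) (hx2 : x ^ 2 ≠ 1) : T = Subgroup.zpowers x := by
  have ho : orderOf x = 4 := by
    have h1 : orderOf x ∣ 2 ^ 2 := by
      have h := Subgroup.orderOf_dvd_natCard T hx
      rw [hT4] at h; exact h
    obtain ⟨i, hi2, hi⟩ := (Nat.dvd_prime_pow Nat.prime_two).mp h1
    have h2 : ¬ orderOf x ∣ 2 := fun h => hx2 (orderOf_dvd_iff_pow_eq_one.mp h)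
    interval_cases i
    · exact absurd (by rw [hi]; norm_num) h2
    · exact absurd (by rw [hi]; norm_num) h2
    · rw [hi]; norm_num
  symm
  apply Subgroup.eq_of_le_of_card_ge (Subgroup.zpowers_le.mpr hx)
  rw [Nat.card_zpowers, ho, hT4]

section main

variable {G : Type u} [Group G] [Finite G] (S : Sylow 2 G)
  (e : (S : Subgroup G) ≃* QuaternionGroup 2)

include e in
theorem card_S : Nat.card (S : Subgroup G) = 8 := by
  rw [Nat.card_congr e.toEquiv, Nat.card_eq_fintype_card, QuaternionGroup.card]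

include e in
theorem exists_sq_ne (T : Subgroup G) (hT : T ≤ (S : Subgroup G)) (hT4 : Nat.card T = 4) :
    ∃ x ∈ T, x ^ 2 ≠ 1 := by
  classical
  haveI : Fintype ↥T := Fintype.ofFinite _
  have h3 : 2 < Fintype.card ↥T := by rw [← Nat.card_eq_fintype_card, hT4]; norm_num
  obtain ⟨a, b, c, hab, hac, hbc⟩ := Fintype.two_lt_card_iff.mp h3
  by_contra hno
  push Not at hno
  have hsq : ∀ t : ↥T, (e ⟨t.1, hT t.2⟩) ^ 2 = 1 := by
    intro t
    rw [← map_pow]
    have h : (⟨t.1, hT t.2⟩ : ↥(S : Subgroup G)) ^ 2 = 1 :=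
      Subtype.ext (by simpa using hno t.1 t.2)
    rw [h, map_one]
  have hinj : ∀ s t : ↥T, e ⟨s.1, hT s.2⟩ = e ⟨t.1, hT t.2⟩ → s = t := by
    intro s t h
    have h' := e.injective h
    have h'' := congrArg (fun z : ↥(S : Subgroup G) => (z : G)) h'
    exact Subtype.ext h''
  rcases q_pigeon _ _ _ (hsq a) (hsq b) (hsq c) with h | h | h
  · exact hab (hinj _ _ h)
  · exact hac (hinj _ _ h)
  · exact hbc (hinj _ _ h)

include e in
theorem e_sq_ne (x : G) (hx : x ∈ (S : Subgroup G)) (hx2 : x ^ 2 ≠ 1) :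
    (e ⟨x, hx⟩) ^ 2 ≠ 1 := by
  rw [← map_pow]
  intro h
  apply hx2
  have h' := e.injective (h.trans (map_one e).symm)
  have h'' := congrArg Subtype.val h'
  simpa using h''

theorem same_of_type (T T' : Subgroup G) (hT : T ≤ (S : Subgroup G))
    (hT' : T' ≤ (S : Subgroup G)) (hT4 : Nat.card T = 4) (hT4' : Nat.card T' = 4)
    (x x' : G) (hx : x ∈ T) (hx' : x' ∈ T') (hx2 : x ^ 2 ≠ 1) (hx2' : x' ^ 2 ≠ 1)
    (hty : qType (e ⟨x, hT hx⟩) = qType (e ⟨x', hT' hx'⟩)) : T' = T := by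
  have h1 := e_sq_ne S e x (hT hx) hx2
  have h1' := e_sq_ne S e x' (hT' hx') hx2'
  have hmem : x' ∈ T := by
    rcases q_type _ _ h1 h1' hty with h | h
    · have h' := e.injective h
      have hxx : x' = x := congrArg Subtype.val h'
      rw [hxx]; exact hx
    · rw [← map_inv] at h
      have h' := e.injective h
      have hxx : x' = x⁻¹ := by
        have h'' := congrArg Subtype.val h'
        simpa using h''
      rw [hxx]; exact T.inv_mem hx
  have hz := eq_zpowers T' hT4' x' hx' hx2'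
  apply Subgroup.eq_of_le_of_card_ge
  · rw [hz]; exact Subgroup.zpowers_le.mpr hmem
  · rw [hT4, hT4']

theorem norm_of_map_eq (T : Subgroup G) (n : G)
    (h : T.map (MulAut.conj n).toMonoidHom = T) : n ∈ Subgroup.normalizer (T : Set G) := by
  have h1 : n⁻¹ ∈ Subgroup.normalizer (T : Set G) := by
    apply mem_normalizer_of_conj_mem
    intro d hd
    rw [inv_inv]
    rw [← h]
    exact Subgroup.mem_map.mpr ⟨d, hd, rfl⟩
  have h2 := (Subgroup.normalizer (T : Set G)).inv_mem h1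
  rwa [inv_inv] at h2

include e in
theorem not_normalize (h : G) (hN : h ∈ Subgroup.normalizer ((S : Subgroup G) : Set G))
    (hodd : (orderOf h).Coprime 2)
    (hC : h ∉ Subgroup.centralizer ((S : Subgroup G) : Set G))
    (T : Subgroup G) (hT : T ≤ (S : Subgroup G)) (hT4 : Nat.card T = 4) :
    h ∉ Subgroup.normalizer (T : Set G) := by
  intro hTn
  obtain ⟨x, hx, hx2⟩ := exists_sq_ne S e T hT hT4
  have hTz := eq_zpowers T hT4 x hx hx2
  haveI : IsCyclic ↥T := by rw [hTz]; infer_instance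
  have hcT : h ∈ Subgroup.centralizer (T : Set G) := odd_cent S T hT hTn hodd
  apply hC
  have hAodd : Odd (Nat.card (Subgroup.zpowers h)) := by
    rw [Nat.card_zpowers]; exact Nat.coprime_two_right.mp hodd
  have hAS : Subgroup.zpowers h ≤ Subgroup.normalizer ((S : Subgroup G) : Set G) :=
    Subgroup.zpowers_le.mpr hN
  have hAT : Subgroup.zpowers h ≤ Subgroup.normalizer (T : Set G) :=
    Subgroup.zpowers_le.mpr hTn
  have hTc : T ≤ Subgroup.centralizer ((Subgroup.zpowers h : Subgroup G) : Set G) := by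
    intro t ht
    rw [Subgroup.mem_centralizer_iff]
    intro a ha
    obtain ⟨i, rfl⟩ := Subgroup.mem_zpowers_iff.mp ha
    have h1 : t * h = h * t := Subgroup.mem_centralizer_iff.mp hcT t ht
    exact (Commute.zpow_left (show Commute h t from h1.symm) i).eq
  have hcent := cent_of_cent_index_two (S : Subgroup G) T (Subgroup.zpowers h) S.isPGroup'
    hAodd hT (by rw [hT4, card_S S e]) hAS hAT hTc
  rw [Subgroup.mem_centralizer_iff]
  intro s hs
  exact (Subgroup.mem_centralizer_iff.mp (hcent hs) h (Subgroup.mem_zpowers h)).symm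

theorem conj_props (n : G) (hn : n ∈ Subgroup.normalizer ((S : Subgroup G) : Set G))
    (T : Subgroup G) (hT : T ≤ (S : Subgroup G)) (hT4 : Nat.card T = 4) (x : G) (hx : x ∈ T)
    (hx2 : x ^ 2 ≠ 1) :
    T.map (MulAut.conj n).toMonoidHom ≤ (S : Subgroup G) ∧
      Nat.card (T.map (MulAut.conj n).toMonoidHom) = 4 ∧
      n * x * n⁻¹ ∈ T.map (MulAut.conj n).toMonoidHom ∧ (n * x * n⁻¹) ^ 2 ≠ 1 := by
  refine ⟨?_, ?_, ?_, ?_⟩
  · rintro _ ⟨t, ht, rfl⟩
    exact (Subgroup.mem_normalizer_iff.mp hn t).mp (hT ht)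
  · rw [Subgroup.card_map_of_injective (MulAut.conj n).injective, hT4]
  · exact Subgroup.mem_map.mpr ⟨x, hx, rfl⟩
  · intro h
    apply hx2
    rw [conj_pow] at h
    have h' : x ^ 2 = n⁻¹ * (n * x ^ 2 * n⁻¹) * n := by group
    rw [h', h]; group

end main

theorem s0950 {G : Type u} [Group G] [Finite G] (S : Sylow 2 G)
    (e : (S : Subgroup G) ≃* QuaternionGroup 2)
    (hnc : ∀ N : Subgroup G, N.Normal → ¬ Subgroup.IsComplement' N (S : Subgroup G))
    (A B : Subgroup G) (hA : A ≤ (S : Subgroup G)) (hB : B ≤ (S : Subgroup G))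
    (hA4 : Nat.card A = 4) (hB4 : Nat.card B = 4) :
    ∃ n ∈ Subgroup.normalizer ((S : Subgroup G) : Set G),
      B = A.map (MulAut.conj n).toMonoidHom := by
  haveI : Fact (Nat.Prime 2) := ⟨Nat.prime_two⟩
  have hnpc : ¬ Cfsg.Agent.Lib_helper1_Frobenius.NPC 2 G := by
    rintro ⟨N, hN, hc, k, hk⟩
    exact hnc N hN (Cfsg.Agent.Lib_helper1_Frobenius.isComplement'_of_npc N hc hk S)
  have hfrob : ¬ Cfsg.Agent.Lib_helper1_Frobenius.FrobHyp 2 G :=
    fun h => hnpc (Cfsg.Agent.Lib_helper1_Frobenius.frobenius h)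
  have hex : ∃ Q : Subgroup G, Q ≤ (S : Subgroup G) ∧
      ∃ g ∈ Subgroup.normalizer (Q : Set G), Nat.Coprime (orderOf g) 2 ∧
        g ∉ Subgroup.centralizer (Q : Set G) := by
    by_contra hno
    apply hfrob
    apply Cfsg.Agent.Lib_helper1_Frobenius.frobHyp_of_le_sylow S
    intro Q hQ g hg hgo
    by_contra hgc
    exact hno ⟨Q, hQ, g, hg, hgo, hgc⟩
  obtain ⟨Q, hQS, g, hgQ, hgo, hgc⟩ := hex
  have hS8 := card_S S e
  have hQeq : Q = (S : Subgroup G) := by
    by_contra hne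
    have hlt : Nat.card Q < 8 := by
      by_contra h
      push Not at h
      exact hne (Subgroup.eq_of_le_of_card_ge hQS (by rw [hS8]; exact h))
    have hcases : Nat.card Q = 1 ∨ Nat.card Q = 2 ∨ Nat.card Q = 4 := by
      have h8 : Nat.card Q ∣ 2 ^ 3 := by
        have h := Subgroup.card_dvd_of_le hQS
        rw [hS8] at h; exact h
      obtain ⟨i, hi3, hi⟩ := (Nat.dvd_prime_pow Nat.prime_two).mp h8
      interval_cases i
      · left; rw [hi]; norm_num
      · right; left; rw [hi]; norm_num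
      · right; right; rw [hi]; norm_num
      · rw [hi] at hlt; norm_num at hlt
    apply hgc
    rcases hcases with h1 | h2 | h4
    · have hbot : Q = ⊥ := Subgroup.card_eq_one.mp h1
      haveI : Subsingleton ↥Q := by rw [hbot]; infer_instance
      haveI : IsCyclic ↥Q := isCyclic_of_subsingleton
      exact odd_cent S Q hQS hgQ hgo
    · haveI : IsCyclic ↥Q := isCyclic_of_prime_card (p := 2) h2
      exact odd_cent S Q hQS hgQ hgo
    · obtain ⟨x, hx, hx2⟩ := exists_sq_ne S e Q hQS h4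
      have hQz := eq_zpowers Q h4 x hx hx2
      haveI : IsCyclic ↥Q := by rw [hQz]; infer_instance
      exact odd_cent S Q hQS hgQ hgo
  rw [hQeq] at hgQ hgc
  -- the square of `g`
  have hg2N : g ^ 2 ∈ Subgroup.normalizer ((S : Subgroup G) : Set G) := Subgroup.pow_mem _ hgQ 2
  have hg2o : (orderOf (g ^ 2)).Coprime 2 :=
    Nat.Coprime.coprime_dvd_left (orderOf_pow_dvd 2) hgo
  have hg2c : g ^ 2 ∉ Subgroup.centralizer ((S : Subgroup G) : Set G) := by
    intro h
    apply hgc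
    obtain ⟨m, hm⟩ := exists_pow_eq_self_of_coprime (n := 2) (x := g) hgo.symm
    rw [← hm]
    exact Subgroup.pow_mem _ h m
  obtain ⟨x, hx, hx2⟩ := exists_sq_ne S e A hA hA4
  obtain ⟨y, hy, hy2⟩ := exists_sq_ne S e B hB hB4
  obtain ⟨h1S, h14, h1x, h1x2⟩ := conj_props S g hgQ A hA hA4 x hx hx2
  obtain ⟨h2S, h24, h2x, h2x2⟩ := conj_props S (g ^ 2) hg2N A hA hA4 x hx hx2
  have hne01 : qType (e ⟨x, hA hx⟩) ≠ qType (e ⟨g * x * g⁻¹, h1S h1x⟩) := by
    intro h
    have h' := same_of_type S e A _ hA h1S hA4 h14 x _ hx h1x hx2 h1x2 h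
    exact not_normalize S e g hgQ hgo hgc A hA hA4 (norm_of_map_eq A g h')
  have hne02 : qType (e ⟨x, hA hx⟩) ≠ qType (e ⟨g ^ 2 * x * (g ^ 2)⁻¹, h2S h2x⟩) := by
    intro h
    have h' := same_of_type S e A _ hA h2S hA4 h24 x _ hx h2x hx2 h2x2 h
    exact not_normalize S e (g ^ 2) hg2N hg2o hg2c A hA hA4 (norm_of_map_eq A (g ^ 2) h')
  have hne12 : qType (e ⟨g * x * g⁻¹, h1S h1x⟩) ≠
      qType (e ⟨g ^ 2 * x * (g ^ 2)⁻¹, h2S h2x⟩) := by
    intro h
    have h' := same_of_type S e _ _ h1S h2S h14 h24 _ _ h1x h2x h1x2 h2x2 h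
    apply not_normalize S e g hgQ hgo hgc _ h1S h14
    apply norm_of_map_eq
    apply le_antisymm
    · rintro _ ⟨d, hd, rfl⟩
      obtain ⟨a, ha, rfl⟩ := Subgroup.mem_map.mp hd
      rw [← h']
      refine Subgroup.mem_map.mpr ⟨a, ha, ?_⟩
      show g ^ 2 * a * (g ^ 2)⁻¹ = g * (g * a * g⁻¹) * g⁻¹
      simp only [pow_two]
      group
    · intro d hd
      rw [← h'] at hd
      obtain ⟨a, ha, rfl⟩ := Subgroup.mem_map.mp hd
      refine Subgroup.mem_map.mpr ⟨g * a * g⁻¹, Subgroup.mem_map.mpr ⟨a, ha, rfl⟩, ?_⟩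
      show g * (g * a * g⁻¹) * g⁻¹ = g ^ 2 * a * (g ^ 2)⁻¹
      simp only [pow_two]
      group
  rcases fin3 _ _ _ (qType (e ⟨y, hB hy⟩)) hne01 hne02 hne12 with h | h | h
  · have h' := same_of_type S e B A hB hA hB4 hA4 y x hy hx hy2 hx2 h
    refine ⟨1, Subgroup.one_mem _, ?_⟩
    rw [← h']
    ext z
    rw [Subgroup.mem_map]
    constructor
    · intro hz
      exact ⟨z, hz, by simp⟩
    · rintro ⟨w, hw, rfl⟩
      simpa using hw
  · have h' := same_of_type S e B _ hB h1S hB4 h14 y _ hy h1x hy2 h1x2 h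
    exact ⟨g, hgQ, h'.symm⟩
  · have h' := same_of_type S e B _ hB h2S hB4 h24 y _ hy h2x hy2 h2x2 h
    exact ⟨g ^ 2, hg2N, h'.symm⟩

end Cfsg.Agent.Lib_helper9_Q8Fus
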