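import Mathlib
import Cfsg.Prelude.Def_RootSubgroups
import Cfsg.Prelude.Def_Transfer
import Cfsg.Agent.Lib_helper9_RankOne

set_option autoImplicit false

namespace Cfsg.Agent.Lib_helper9_QuadRank

open Cfsg
open Cfsg.Agent.Lib_helper9_RankOne

variable {X : Type*} [Group X]

/-- A non-identity element of `A` normalizes no other conjugate of `A`. -/
theorem conj_eq_of_normalizes {A B : Subgroup X} (hAB : A ⊔ B = ⊤) (h : IsRankOnePair A B) {a g : X}
    (ha : a ∈ A) (ha1 : a ≠ 1) (hn : a ∈ Subgroup.normalizer (conjBy A g : Set X)) :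
    conjBy A g = A := by
  by_contra hne
  have h1 : A ∈ unipotentSubgroups A B := left_mem_unipotent A B
  have h2 : conjBy A g ∈ unipotentSubgroups A B := ⟨g, by rw [hAB]; trivial, rfl⟩
  obtain ⟨x, -, hx1, hx2⟩ := exists_conj_to_pair h h1 h2 (Ne.symm hne)
  have h3 : x * a * x⁻¹ ∈ A := by
    rw [← hx1, mem_conjBy]
    have : x⁻¹ * (x * a * x⁻¹) * x = a := by group
    rw [this]; exact ha
  have h4 : x * a * x⁻¹ ∈ Subgroup.normalizer (B : Set X) := by
    rw [mem_normalizer_iff_conjBy] at hn ⊢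
    rw [← hx2, conjBy_conjBy]
    have : x * a * x⁻¹ * x = x * a := by group
    rw [this, ← conjBy_conjBy, hn]
  have h5 : x * a * x⁻¹ ∈ A ⊓ Subgroup.normalizer (B : Set X) := ⟨h3, h4⟩
  rw [inf_normalizer_left h, Subgroup.mem_bot] at h5
  apply ha1
  have : a = x⁻¹ * (x * a * x⁻¹) * x := by group
  rw [this, h5]; group

theorem le_center_of_le_normalizer {A B : Subgroup X} (hAB : A ⊔ B = ⊤) (h : IsRankOnePair A B)
    (N : Subgroup X) (hN : N.Normal) (hNA : N ≤ Subgroup.normalizer (A : Set X)) :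
    N ≤ Subgroup.center X := by
  rcases normal_dichotomy hAB h N hN with h1 | h1
  · exfalso
    have h2 : (⊤ : Subgroup X) ≤ Subgroup.normalizer (A : Set X) := by
      rw [← h1]; exact sup_le hNA Subgroup.le_normalizer
    apply ne_bot_right h
    rw [← inf_normalizer_right h]
    exact (inf_eq_left.mpr (le_trans le_top h2)).symm
  · exact h1

theorem eq_one_of_central {A B : Subgroup X} (h : IsRankOnePair A B) {a : X} (ha : a ∈ A)
    (hc : a ∈ Subgroup.center X) : a = 1 := by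
  have h1 : a ∈ A ⊓ Subgroup.normalizer (B : Set X) := ⟨ha, Subgroup.center_le_normalizer _ hc⟩
  rwa [inf_normalizer_left h, Subgroup.mem_bot] at h1

theorem mem_normalizer_conj {A : Subgroup X} {a g : X}
    (h : g * a * g⁻¹ ∈ Subgroup.normalizer (A : Set X)) :
    a ∈ Subgroup.normalizer (conjBy A g⁻¹ : Set X) := by
  rw [mem_normalizer_iff_conjBy] at h ⊢
  rw [conjBy_conjBy]
  have : a * g⁻¹ = g⁻¹ * (g * a * g⁻¹) := by group
  rw [this, ← conjBy_conjBy, h]

theorem mem_normalizer_of_conj_inv {A : Subgroup X} {g : X} (h : conjBy A g⁻¹ = A) :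
    g ∈ Subgroup.normalizer (A : Set X) := by
  have := mem_normalizer_iff_conjBy.mpr h
  simpa using Subgroup.inv_mem _ this

section ring

variable {R : Type*} [Ring R] (φ : X →* R)

def subK (p : ℕ) : Subgroup X where
  carrier := {x | (p : R) * φ x = (p : R)}
  mul_mem' := by
    intro x y hx hy
    have hx' : (p : R) * φ x = (p : R) := hx
    have hy' : (p : R) * φ y = (p : R) := hy
    show (p : R) * φ (x * y) = p
    rw [map_mul, ← mul_assoc, hx', hy']
  one_mem' := by show (p : R) * φ 1 = p; rw [map_one, mul_one]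
  inv_mem' := by
    intro x hx
    have hx' : (p : R) * φ x = (p : R) := hx
    show (p : R) * φ x⁻¹ = p
    have h1 : φ x * φ x⁻¹ = 1 := by rw [← map_mul, mul_inv_cancel, map_one]
    calc (p : R) * φ x⁻¹ = ((p : R) * φ x) * φ x⁻¹ := by rw [hx']
      _ = (p : R) := by rw [mul_assoc, h1, mul_one]

theorem mem_subK {p : ℕ} {x : X} : x ∈ subK φ p ↔ (p : R) * φ x = p := Iff.rfl

theorem subK_normal (p : ℕ) : (subK φ p).Normal := by
  constructor
  intro x hx g
  rw [mem_subK] at hx ⊢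
  have h1 : φ g * φ g⁻¹ = 1 := by rw [← map_mul, mul_inv_cancel, map_one]
  have hc : (p : R) * φ g = φ g * (p : R) := (Nat.cast_commute p (φ g)).eq
  rw [map_mul, map_mul]
  calc (p : R) * (φ g * φ x * φ g⁻¹) = φ g * ((p : R) * φ x) * φ g⁻¹ := by
        rw [← mul_assoc, ← mul_assoc, hc, mul_assoc (φ g)]
    _ = φ g * (p : R) * φ g⁻¹ := by rw [hx]
    _ = (p : R) * (φ g * φ g⁻¹) := by rw [← hc, mul_assoc]
    _ = p := by rw [h1, mul_one]

def subK2 (p : ℕ) : Subgroup X where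
  carrier := {x | ∀ β : R, (p : R) * β = 0 → φ x * β = β}
  mul_mem' := by
    intro x y hx hy β hβ
    have hx' : ∀ β : R, (p : R) * β = 0 → φ x * β = β := hx
    have hy' : ∀ β : R, (p : R) * β = 0 → φ y * β = β := hy
    rw [map_mul, mul_assoc, hy' β hβ, hx' β hβ]
  one_mem' := by intro β _; rw [map_one, one_mul]
  inv_mem' := by
    intro x hx β hβ
    have hx' : ∀ β : R, (p : R) * β = 0 → φ x * β = β := hx
    have h1 : φ x⁻¹ * φ x = 1 := by rw [← map_mul, inv_mul_cancel, map_one]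
    calc φ x⁻¹ * β = φ x⁻¹ * (φ x * β) := by rw [hx' β hβ]
      _ = β := by rw [← mul_assoc, h1, one_mul]

theorem mem_subK2 {p : ℕ} {x : X} :
    x ∈ subK2 φ p ↔ ∀ β : R, (p : R) * β = 0 → φ x * β = β := Iff.rfl

theorem subK2_normal (p : ℕ) : (subK2 φ p).Normal := by
  constructor
  intro x hx g
  rw [mem_subK2] at hx ⊢
  intro β hβ
  have h1 : φ g * φ g⁻¹ = 1 := by rw [← map_mul, mul_inv_cancel, map_one]
  have hc : (p : R) * φ g⁻¹ = φ g⁻¹ * (p : R) := (Nat.cast_commute p (φ g⁻¹)).eq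
  have h2 : (p : R) * (φ g⁻¹ * β) = 0 := by
    rw [← mul_assoc, hc, mul_assoc, hβ, mul_zero]
  rw [map_mul, map_mul, mul_assoc, mul_assoc, hx _ h2, ← mul_assoc, h1, one_mul]

theorem pow_map {a : X} (hq : (φ a - 1) * (φ a - 1) = 0) (n : ℕ) :
    φ (a ^ n) = 1 + (n : R) * (φ a - 1) := by
  induction n with
  | zero => simp
  | succ n ih =>
    rw [pow_succ, map_mul, ih]
    obtain ⟨α, hα⟩ : ∃ α, α = φ a - 1 := ⟨_, rfl⟩
    have h1 : φ a = 1 + α := by rw [hα]; abel
    rw [← hα] at hq ⊢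
    rw [h1]
    push_cast
    have h2 : (n : R) * α * α = 0 := by rw [mul_assoc, hq, mul_zero]
    calc (1 + (n : R) * α) * (1 + α) = 1 + α + (n : R) * α + (n : R) * α * α := by noncomm_ring
      _ = 1 + ((n : R) + 1) * α := by rw [h2]; noncomm_ring

theorem inj_of (hinj : ∀ x : X, φ x = 1 → x = 1) {x y : X} (hxy : φ x = φ y) : x = y := by
  have h1 : φ (x * y⁻¹) = 1 := by rw [map_mul, hxy, ← map_mul, mul_inv_cancel, map_one]
  exact mul_inv_eq_one.mp (hinj _ h1)

theorem map_inv_of_sq {x : X} {ν : R} (h1 : φ x = 1 + ν) (h2 : ν * ν = 0) : φ x⁻¹ = 1 - ν := by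
  have h3 : φ x⁻¹ * φ x = 1 := by rw [← map_mul, inv_mul_cancel, map_one]
  have h4 : (1 + ν) * (1 - ν) = 1 := by
    calc (1 + ν) * (1 - ν) = 1 - ν * ν := by noncomm_ring
      _ = 1 := by rw [h2, sub_zero]
  calc φ x⁻¹ = φ x⁻¹ * ((1 + ν) * (1 - ν)) := by rw [h4, mul_one]
    _ = (φ x⁻¹ * φ x) * (1 - ν) := by rw [h1, mul_assoc]
    _ = 1 - ν := by rw [h3, one_mul]

theorem core {A B : Subgroup X} (hAB : A ⊔ B = ⊤) (h : IsRankOnePair A B)
    (hinj : ∀ x : X, φ x = 1 → x = 1)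
    (hq : ∀ a ∈ A, ∀ a' ∈ A, (φ a' - 1) * (φ a - 1) = 0) {p : ℕ} {a : X} (ha : a ∈ A)
    (ha1 : a ≠ 1) (hap : a ^ p = 1) : ∀ a' ∈ A, a' ^ p = 1 := by
  intro a' ha'
  by_contra hne
  have hKn : (subK φ p).Normal := subK_normal φ p
  have hK2n : (subK2 φ p).Normal := subK2_normal φ p
  obtain ⟨α, hα⟩ : ∃ α, α = φ a - 1 := ⟨_, rfl⟩
  have hφa : φ a = 1 + α := by rw [hα]; abel
  have hαα : α * α = 0 := by rw [hα]; exact hq a ha a ha
  have hpα : (p : R) * α = 0 := by
    have h1 := pow_map φ (hq a ha a ha) p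
    rw [hap, map_one, ← hα] at h1
    exact left_eq_add.mp h1
  have haK : a ∈ subK φ p := by
    rw [mem_subK, hφa, mul_add, hpα, mul_one, add_zero]
  have ha''K2 : a' ^ p ∈ subK2 φ p := by
    rw [mem_subK2]
    intro β hβ
    rw [pow_map φ (hq a' ha' a' ha') p, add_mul, one_mul,
      (Nat.cast_commute p (φ a' - 1)).eq, mul_assoc, hβ, mul_zero, add_zero]
  have ha''A : a' ^ p ∈ A := A.pow_mem ha' p
  have hE : subK φ p ⊓ subK2 φ p ≤ Subgroup.normalizer (A : Set X) := by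
    rintro n ⟨hnK0, hnK20⟩
    have hnK : (p : R) * φ n = p := hnK0
    have hnK2 : ∀ β : R, (p : R) * β = 0 → φ n * β = β := hnK20
    obtain ⟨ν, hν⟩ : ∃ ν, ν = φ n - 1 := ⟨_, rfl⟩
    have hφn : φ n = 1 + ν := by rw [hν]; abel
    have hPν : (p : R) * ν = 0 := by
      rw [hφn, mul_add, mul_one] at hnK
      exact add_eq_left.mp hnK
    have hkill : ∀ β : R, (p : R) * β = 0 → ν * β = 0 := by
      intro β hβ
      have h1 := hnK2 β hβ
      rw [hφn, add_mul, one_mul] at h1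
      exact add_eq_left.mp h1
    have hνα : ν * α = 0 := hkill α hpα
    have hνν : ν * ν = 0 := hkill ν hPν
    have hαα' : ∀ x : R, α * (α * x) = 0 := by intro x; rw [← mul_assoc, hαα, zero_mul]
    have hνα' : ∀ x : R, ν * (α * x) = 0 := by intro x; rw [← mul_assoc, hνα, zero_mul]
    have hνν' : ∀ x : R, ν * (ν * x) = 0 := by intro x; rw [← mul_assoc, hνν, zero_mul]
    have hφai : φ a⁻¹ = 1 - α := map_inv_of_sq φ hφa hαα
    have hφni : φ n⁻¹ = 1 - ν := map_inv_of_sq φ hφn hνν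
    have hm : φ (a * n * a⁻¹ * n⁻¹) = 1 + α * ν := by
      rw [map_mul, map_mul, map_mul, hφa, hφn, hφai, hφni]
      simp only [mul_add, add_mul, mul_sub, sub_mul, mul_one, one_mul, mul_assoc, hαα, hνα, hνν,
        hαα', hνα', hνν', mul_zero, sub_zero, add_zero, zero_add]
      abel
    have hcomm : a * (a * n * a⁻¹ * n⁻¹) = (a * n * a⁻¹ * n⁻¹) * a := by
      apply inj_of φ hinj
      rw [map_mul, map_mul φ (a * n * a⁻¹ * n⁻¹) a, hm, hφa]
      simp only [mul_add, add_mul, mul_one, one_mul, mul_assoc, hαα, hνα, hνν,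
        hαα', hνα', hνν', mul_zero, add_zero, zero_add]
      abel
    obtain ⟨m, hm'⟩ : ∃ m, m = a * n * a⁻¹ * n⁻¹ := ⟨_, rfl⟩
    rw [← hm'] at hcomm
    have h1 : a ∈ conjBy A m := by
      rw [mem_conjBy]
      have : m⁻¹ * a * m = a := by rw [mul_assoc, hcomm, inv_mul_cancel_left]
      rw [this]; exact ha
    have h2 : conjBy A m = A := conj_eq_of_normalizes hAB h ha ha1 (Subgroup.le_normalizer h1)
    have h3 : m ∈ Subgroup.normalizer (A : Set X) := mem_normalizer_iff_conjBy.mpr h2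
    have h4 : n * a * n⁻¹ ∈ Subgroup.normalizer (A : Set X) := by
      have h5 : a⁻¹ * m ∈ Subgroup.normalizer (A : Set X) :=
        Subgroup.mul_mem _ (Subgroup.le_normalizer (A.inv_mem ha)) h3
      have h6 : n * a * n⁻¹ = (a⁻¹ * m)⁻¹ := by rw [hm']; group
      rw [h6]; exact Subgroup.inv_mem _ h5
    have h7 := mem_normalizer_conj h4
    have h8 := conj_eq_of_normalizes hAB h ha ha1 h7
    exact mem_normalizer_of_conj_inv h8
  have hEc : subK φ p ⊓ subK2 φ p ≤ Subgroup.center X :=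
    le_center_of_le_normalizer hAB h _ inferInstance hE
  have hK : subK φ p ≤ Subgroup.normalizer (A : Set X) := by
    intro k hk
    obtain ⟨z, hz⟩ : ∃ z, z = a' ^ p * k * (a' ^ p)⁻¹ * k⁻¹ := ⟨_, rfl⟩
    have hzE : z ∈ subK φ p ⊓ subK2 φ p := by
      constructor
      · rw [hz]
        exact Subgroup.mul_mem _ (hKn.conj_mem _ hk _) (Subgroup.inv_mem _ hk)
      · have h1 : z = a' ^ p * (k * (a' ^ p)⁻¹ * k⁻¹) := by rw [hz]; group
        rw [h1]
        exact Subgroup.mul_mem _ ha''K2 (hK2n.conj_mem _ (Subgroup.inv_mem _ ha''K2) _)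
    have hzc := hEc hzE
    have h2 : k * a' ^ p * k⁻¹ = z⁻¹ * a' ^ p := by rw [hz]; group
    have h3 : k * a' ^ p * k⁻¹ ∈ Subgroup.normalizer (A : Set X) := by
      rw [h2]
      exact Subgroup.mul_mem _ (Subgroup.center_le_normalizer _ (Subgroup.inv_mem _ hzc))
        (Subgroup.le_normalizer ha''A)
    have h4 := mem_normalizer_conj h3
    have h5 := conj_eq_of_normalizes hAB h ha''A hne h4
    exact mem_normalizer_of_conj_inv h5
  have hKc := le_center_of_le_normalizer hAB h _ hKn hK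
  exact ha1 (eq_one_of_central h ha (hKc haK))

end ring

theorem s5023 {A B : Subgroup X} (h : Cfsg.IsRankOneGroup X A B)
    {V : Type*} [AddCommGroup V] [DistribMulAction X V]
    (hf : ∀ x : X, (∀ v : V, x • v = v) → x = 1)
    (hq : ∀ a ∈ A, ∀ a' ∈ A, ∀ v : V, a' • (a • v - v) = a • v - v) :
    (∀ a ∈ A, a ≠ 1 → ¬ IsOfFinOrder a) ∨ ∃ p : ℕ, p.Prime ∧ Cfsg.IsElementaryAbelian p A := by
  obtain ⟨hAB, hr⟩ := h
  obtain ⟨φ, hφ⟩ : ∃ φ : X →* AddMonoid.End V, φ = DistribMulAction.toAddMonoidEnd X V := ⟨_, rfl⟩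
  have happ : ∀ (x : X) (v : V), φ x v = x • v := by
    intro x v; rw [hφ]; rfl
  have hinj : ∀ x : X, φ x = 1 → x = 1 := by
    intro x hx
    apply hf
    intro v
    rw [← happ, hx]; rfl
  have hq' : ∀ a ∈ A, ∀ a' ∈ A, (φ a' - 1) * (φ a - 1) = 0 := by
    intro a ha a' ha'
    ext v
    have h1 := hq a ha a' ha' v
    show (φ a' - 1) ((φ a - 1) v) = 0
    have h2 : (φ a - 1) v = a • v - v := by
      show φ a v - v = a • v - v
      rw [happ]
    rw [h2]
    show φ a' (a • v - v) - (a • v - v) = 0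
    rw [happ, h1, sub_self]
  by_cases htf : ∀ a ∈ A, a ≠ 1 → ¬ IsOfFinOrder a
  · left; exact htf
  · right
    push Not at htf
    obtain ⟨a₀, ha₀, ha₀1, hfin⟩ := htf
    have hn : orderOf a₀ ≠ 1 := by rwa [Ne, orderOf_eq_one_iff]
    obtain ⟨p, hp, hpd⟩ := Nat.exists_prime_and_dvd hn
    have hpos : 0 < orderOf a₀ := hfin.orderOf_pos
    obtain ⟨a, ha⟩ : ∃ a, a = a₀ ^ (orderOf a₀ / p) := ⟨_, rfl⟩
    have hord : orderOf a = p := by rw [ha]; exact orderOf_pow_orderOf_div hpos.ne' hpd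
    have haA : a ∈ A := by rw [ha]; exact A.pow_mem ha₀ _
    have ha1 : a ≠ 1 := by
      intro h1; rw [h1, orderOf_one] at hord; exact hp.one_lt.ne hord
    have hap : a ^ p = 1 := by rw [← hord]; exact pow_orderOf_eq_one a
    refine ⟨p, hp, ?_, core φ hAB hr hinj hq' haA ha1 hap⟩
    rw [isMulCommutative_iff]
    intro x y
    apply Subtype.ext
    show (x : X) * (y : X) = (y : X) * (x : X)
    apply inj_of φ hinj
    have h1 := hq' y y.2 x x.2
    have h2 := hq' x x.2 y y.2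
    have h3 : φ x * φ y = 1 + (φ x - 1) + (φ y - 1) + (φ x - 1) * (φ y - 1) := by noncomm_ring
    have h4 : φ y * φ x = 1 + (φ x - 1) + (φ y - 1) + (φ y - 1) * (φ x - 1) := by noncomm_ring
    rw [map_mul, map_mul, h3, h4, h1, h2]

end Cfsg.Agent.Lib_helper9_QuadRank
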