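import Mathlib
import Cfsg.Prelude.Def_RootSubgroups
import Cfsg.Agent.Lib_helper9_RankOne
import Cfsg.Agent.Lib_helper9_QuadRank

set_option autoImplicit false

namespace Cfsg.Agent.Lib_helper9_QuadSpecial

open Cfsg
open Cfsg.Agent.Lib_helper9_RankOne
open Cfsg.Agent.Lib_helper9_QuadRank
open scoped Pointwise

variable {X : Type*} [Group X]

section ring

variable {R : Type*} [Ring R] (φ : X →* R)

def rstab (y : R) : Subgroup X where
  carrier := {x | y * φ x = y}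
  mul_mem' := by
    intro x z hx hz
    have hx' : y * φ x = y := hx
    have hz' : y * φ z = y := hz
    show y * φ (x * z) = y
    rw [map_mul, ← mul_assoc, hx', hz']
  one_mem' := by show y * φ 1 = y; rw [map_one, mul_one]
  inv_mem' := by
    intro x hx
    have hx' : y * φ x = y := hx
    show y * φ x⁻¹ = y
    have h1 : φ x * φ x⁻¹ = 1 := by rw [← map_mul, mul_inv_cancel, map_one]
    calc y * φ x⁻¹ = (y * φ x) * φ x⁻¹ := by rw [hx']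
      _ = y := by rw [mul_assoc, h1, mul_one]

theorem mem_rstab {y : R} {x : X} : x ∈ rstab φ y ↔ y * φ x = y := Iff.rfl

def lstab (r : R) : Subgroup X where
  carrier := {x | φ x * r = r}
  mul_mem' := by
    intro x z hx hz
    have hx' : φ x * r = r := hx
    have hz' : φ z * r = r := hz
    show φ (x * z) * r = r
    rw [map_mul, mul_assoc, hz', hx']
  one_mem' := by show φ 1 * r = r; rw [map_one, one_mul]
  inv_mem' := by
    intro x hx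
    have hx' : φ x * r = r := hx
    show φ x⁻¹ * r = r
    have h1 : φ x⁻¹ * φ x = 1 := by rw [← map_mul, inv_mul_cancel, map_one]
    calc φ x⁻¹ * r = φ x⁻¹ * (φ x * r) := by rw [hx']
      _ = r := by rw [← mul_assoc, h1, one_mul]

theorem mem_lstab {r : R} {x : X} : x ∈ lstab φ r ↔ φ x * r = r := Iff.rfl

theorem T_subset {A B : Subgroup X} (hAB : A ⊔ B = ⊤) {y : R}
    (hA : ∀ a ∈ A, y * (φ a - 1) = 0) (hB : ∀ b ∈ B, y * (φ b - 1) = 0) :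
    ∀ x : X, y * (φ x - 1) = 0 := by
  have h1 : A ⊔ B ≤ rstab φ y := by
    apply sup_le
    · intro a ha
      rw [mem_rstab]
      have := hA a ha
      rw [mul_sub, mul_one, sub_eq_zero] at this
      exact this
    · intro b hb
      rw [mem_rstab]
      have := hB b hb
      rw [mul_sub, mul_one, sub_eq_zero] at this
      exact this
  intro x
  have h2 : x ∈ rstab φ y := h1 (by rw [hAB]; trivial)
  rw [mem_rstab] at h2
  rw [mul_sub, mul_one, sub_eq_zero]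
  exact h2

def C1 : Subgroup X where
  carrier := {x | ∀ g : X, φ x * (φ g - 1) = φ g - 1}
  mul_mem' := by
    intro x z hx hz g
    have hx' : ∀ g : X, φ x * (φ g - 1) = φ g - 1 := hx
    have hz' : ∀ g : X, φ z * (φ g - 1) = φ g - 1 := hz
    rw [map_mul, mul_assoc, hz' g, hx' g]
  one_mem' := by intro g; rw [map_one, one_mul]
  inv_mem' := by
    intro x hx g
    have hx' : ∀ g : X, φ x * (φ g - 1) = φ g - 1 := hx
    have h1 : φ x⁻¹ * φ x = 1 := by rw [← map_mul, inv_mul_cancel, map_one]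
    calc φ x⁻¹ * (φ g - 1) = φ x⁻¹ * (φ x * (φ g - 1)) := by rw [hx' g]
      _ = φ g - 1 := by rw [← mul_assoc, h1, one_mul]

theorem mem_C1 {x : X} : x ∈ C1 φ ↔ ∀ g : X, φ x * (φ g - 1) = φ g - 1 := Iff.rfl

theorem C1_normal : (C1 φ).Normal := by
  constructor
  intro x hx h
  rw [mem_C1] at hx ⊢
  intro g
  have h1 : φ h * φ h⁻¹ = 1 := by rw [← map_mul, mul_inv_cancel, map_one]
  have h2 : φ h⁻¹ * (φ g - 1) = (φ (h⁻¹ * g) - 1) - (φ h⁻¹ - 1) := by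
    rw [map_mul]; noncomm_ring
  have h3 : φ x * (φ h⁻¹ * (φ g - 1)) = φ h⁻¹ * (φ g - 1) := by
    rw [h2, mul_sub, hx, hx]
  rw [map_mul, map_mul, mul_assoc, mul_assoc, h3, ← mul_assoc, h1, one_mul]

theorem conj_sub_one (g x : X) : φ (g * x * g⁻¹) - 1 = φ g * (φ x - 1) * φ g⁻¹ := by
  have h1 : φ g * φ g⁻¹ = 1 := by rw [← map_mul, mul_inv_cancel, map_one]
  rw [map_mul, map_mul, mul_sub, sub_mul, mul_one, h1]

theorem quad_conj {A : Subgroup X} (hqA : ∀ a ∈ A, ∀ a' ∈ A, (φ a' - 1) * (φ a - 1) = 0) (g : X) :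
    ∀ b ∈ conjBy A g, ∀ b' ∈ conjBy A g, (φ b' - 1) * (φ b - 1) = 0 := by
  intro b hb b' hb'
  rw [mem_conjBy] at hb hb'
  have e1 : b = g * (g⁻¹ * b * g) * g⁻¹ := by group
  have e2 : b' = g * (g⁻¹ * b' * g) * g⁻¹ := by group
  have h1 : φ g⁻¹ * φ g = 1 := by rw [← map_mul, inv_mul_cancel, map_one]
  rw [e1, e2, conj_sub_one, conj_sub_one]
  calc φ g * (φ (g⁻¹ * b' * g) - 1) * φ g⁻¹ * (φ g * (φ (g⁻¹ * b * g) - 1) * φ g⁻¹)
      = φ g * (φ (g⁻¹ * b' * g) - 1) * (φ g⁻¹ * φ g) * (φ (g⁻¹ * b * g) - 1) * φ g⁻¹ := by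
        simp only [mul_assoc]
    _ = φ g * ((φ (g⁻¹ * b' * g) - 1) * (φ (g⁻¹ * b * g) - 1)) * φ g⁻¹ := by
        rw [h1, mul_one]; simp only [mul_assoc]
    _ = 0 := by rw [hqA _ hb _ hb', mul_zero, zero_mul]

theorem special_core {A B : Subgroup X} (hAB : A ⊔ B = ⊤) (h : IsRankOnePair A B)
    (hqA : ∀ a ∈ A, ∀ a' ∈ A, (φ a' - 1) * (φ a - 1) = 0)
    (hX : ∃ x y : X, (φ y - 1) * (φ x - 1) ≠ 0) :
    ∀ a ∈ A, a ≠ 1 → ∀ b ∈ B, b ≠ 1 → conjBy A b⁻¹ = conjBy B a⁻¹ →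
      b⁻¹ * a * b = a⁻¹ * b⁻¹ * a := by
  have hC1n : (C1 φ).Normal := C1_normal φ
  -- B acts quadratically
  obtain ⟨g₀, -, hBg⟩ := right_eq_conjBy h
  have hqB : ∀ b ∈ B, ∀ b' ∈ B, (φ b' - 1) * (φ b - 1) = 0 := by
    rw [hBg]; exact quad_conj φ hqA g₀
  -- C1 is central
  have hC1c : C1 φ ≤ Subgroup.center X := by
    rcases normal_dichotomy hAB h (C1 φ) hC1n with h1 | h1
    · exfalso
      have hg₀ : g₀ ∈ C1 φ ⊔ A := by rw [h1]; trivial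
      have hmul : (↑(C1 φ ⊔ A) : Set X) = (↑(C1 φ) : Set X) * (↑A : Set X) :=
        Subgroup.normal_mul (C1 φ) A
      have hg₀' : g₀ ∈ (↑(C1 φ) : Set X) * (↑A : Set X) := by rw [← hmul]; exact hg₀
      obtain ⟨c, hc, a₀, ha₀, rfl⟩ := Set.mem_mul.mp hg₀'
      have hBc : B = conjBy A c := by
        rw [hBg, ← conjBy_conjBy, conjBy_of_mem ha₀]
      have hc' : ∀ g : X, φ c * (φ g - 1) = φ g - 1 := hc
      have hAB0 : ∀ a' ∈ A, ∀ b₁ ∈ B, (φ a' - 1) * (φ b₁ - 1) = 0 := by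
        intro a' ha' b₁ hb₁
        rw [hBc, mem_conjBy] at hb₁
        have e1 : b₁ = c * (c⁻¹ * b₁ * c) * c⁻¹ := by group
        rw [e1, conj_sub_one, hc', ← mul_assoc, hqA _ hb₁ _ ha', zero_mul]
      have hA0 : ∀ a' ∈ A, ∀ x : X, (φ a' - 1) * (φ x - 1) = 0 := by
        intro a' ha'
        exact T_subset φ hAB (fun a₁ ha₁ => hqA a₁ ha₁ a' ha') (fun b₁ hb₁ => hAB0 a' ha' b₁ hb₁)
      obtain ⟨x, y, hxy⟩ := hX
      apply hxy
      have h2 : C1 φ ⊔ A ≤ lstab φ (φ x - 1) := by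
        apply sup_le
        · intro c' hc'
          rw [mem_lstab]
          exact hc' x
        · intro a' ha'
          rw [mem_lstab]
          have := hA0 a' ha' x
          rw [sub_mul, one_mul, sub_eq_zero] at this
          exact this
      have h3 : y ∈ lstab φ (φ x - 1) := h2 (by rw [h1]; trivial)
      rw [mem_lstab] at h3
      rw [sub_mul, one_mul, sub_eq_zero]
      exact h3
    · exact h1
  intro a ha ha1 b hb hb1 hab
  obtain ⟨α, hα⟩ : ∃ α, α = φ a - 1 := ⟨_, rfl⟩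
  obtain ⟨β, hβ⟩ : ∃ β, β = φ b - 1 := ⟨_, rfl⟩
  have hφa : φ a = 1 + α := by rw [hα]; abel
  have hφb : φ b = 1 + β := by rw [hβ]; abel
  have hαα : α * α = 0 := by rw [hα]; exact hqA a ha a ha
  have hββ : β * β = 0 := by rw [hβ]; exact hqB b hb b hb
  have hφai : φ a⁻¹ = 1 - α := map_inv_of_sq φ hφa hαα
  have hφbi : φ b⁻¹ = 1 - β := map_inv_of_sq φ hφb hββ
  have hm1 : φ (b⁻¹ * a * b) = (1 - β) * (1 + α) * (1 + β) := by
    rw [map_mul, map_mul, hφa, hφb, hφbi]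
  have hm2 : φ (a⁻¹ * b⁻¹ * a) = (1 - α) * (1 - β) * (1 + α) := by
    rw [map_mul, map_mul, hφa, hφai, hφbi]
  -- (I)
  have hI : ∀ a₁ ∈ A, β * (φ a₁ - 1) - β * α * β * (φ a₁ - 1) = 0 := by
    intro a₁ ha₁
    obtain ⟨α₁, hα₁⟩ : ∃ α₁, α₁ = φ a₁ - 1 := ⟨_, rfl⟩
    have hφa₁ : φ a₁ = 1 + α₁ := by rw [hα₁]; abel
    have hαα₁ : α * α₁ = 0 := by rw [hα, hα₁]; exact hqA a₁ ha₁ a ha
    rw [← hα₁]
    obtain ⟨b₂, hb₂⟩ : ∃ b₂, b₂ = a * (b⁻¹ * a₁ * b) * a⁻¹ := ⟨_, rfl⟩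
    have hb₂B : b₂ ∈ B := by
      have h1 : b⁻¹ * a₁ * b ∈ conjBy A b⁻¹ := by
        rw [mem_conjBy]
        have : b⁻¹⁻¹ * (b⁻¹ * a₁ * b) * b⁻¹ = a₁ := by group
        rw [this]; exact ha₁
      rw [hab, mem_conjBy, inv_inv] at h1
      rw [hb₂]; exact h1
    obtain ⟨β₂, hβ₂⟩ : ∃ β₂, β₂ = φ b₂ - 1 := ⟨_, rfl⟩
    have hφb₂ : φ b₂ = 1 + β₂ := by rw [hβ₂]; abel
    have hββ₂ : β * β₂ = 0 := by rw [hβ, hβ₂]; exact hqB b₂ hb₂B b hb
    have hrel : a * b⁻¹ * a₁ = b₂ * (a * b⁻¹) := by rw [hb₂]; group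
    have hrel' : (1 + α) * (1 - β) * (1 + α₁) = (1 + β₂) * ((1 + α) * (1 - β)) := by
      have := congrArg φ hrel
      rw [map_mul, map_mul, map_mul, map_mul, hφa, hφbi, hφa₁, hφb₂] at this
      exact this
    have e2 : β * ((1 + α) * (1 - β) * α₁) = 0 := by
      calc β * ((1 + α) * (1 - β) * α₁)
          = β * ((1 + α) * (1 - β) * (1 + α₁)) - β * ((1 + α) * (1 - β)) := by noncomm_ring
        _ = β * ((1 + β₂) * ((1 + α) * (1 - β))) - β * ((1 + α) * (1 - β)) := by rw [hrel']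
        _ = (β * β₂) * ((1 + α) * (1 - β)) := by noncomm_ring
        _ = 0 := by rw [hββ₂, zero_mul]
    have e3 : β * ((1 + α) * (1 - β) * α₁) =
        β * α₁ - β * α * β * α₁ + β * (α * α₁) - (β * β) * α₁ := by noncomm_ring
    rw [e3, hαα₁, hββ, mul_zero, zero_mul, add_zero, sub_zero] at e2
    exact e2
  -- (II)
  have hII : ∀ b₁ ∈ B, α * (φ b₁ - 1) - α * β * α * (φ b₁ - 1) = 0 := by
    intro b₁ hb₁
    obtain ⟨β₁, hβ₁⟩ : ∃ β₁, β₁ = φ b₁ - 1 := ⟨_, rfl⟩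
    have hφb₁ : φ b₁ = 1 + β₁ := by rw [hβ₁]; abel
    have hββ₁ : β * β₁ = 0 := by rw [hβ, hβ₁]; exact hqB b₁ hb₁ b hb
    rw [← hβ₁]
    obtain ⟨a₂, ha₂⟩ : ∃ a₂, a₂ = b * (a⁻¹ * b₁ * a) * b⁻¹ := ⟨_, rfl⟩
    have ha₂A : a₂ ∈ A := by
      have h1 : a⁻¹ * b₁ * a ∈ conjBy B a⁻¹ := by
        rw [mem_conjBy]
        have : a⁻¹⁻¹ * (a⁻¹ * b₁ * a) * a⁻¹ = b₁ := by group
        rw [this]; exact hb₁
      rw [← hab, mem_conjBy, inv_inv] at h1
      rw [ha₂]; exact h1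
    obtain ⟨α₂, hα₂⟩ : ∃ α₂, α₂ = φ a₂ - 1 := ⟨_, rfl⟩
    have hφa₂ : φ a₂ = 1 + α₂ := by rw [hα₂]; abel
    have hαα₂ : α * α₂ = 0 := by rw [hα, hα₂]; exact hqA a₂ ha₂A a ha
    have hrel : b * a⁻¹ * b₁ = a₂ * (b * a⁻¹) := by rw [ha₂]; group
    have hrel' : (1 + β) * (1 - α) * (1 + β₁) = (1 + α₂) * ((1 + β) * (1 - α)) := by
      have := congrArg φ hrel
      rw [map_mul, map_mul, map_mul, map_mul, hφb, hφai, hφb₁, hφa₂] at this
      exact this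
    have e2 : α * ((1 + β) * (1 - α) * β₁) = 0 := by
      calc α * ((1 + β) * (1 - α) * β₁)
          = α * ((1 + β) * (1 - α) * (1 + β₁)) - α * ((1 + β) * (1 - α)) := by noncomm_ring
        _ = α * ((1 + α₂) * ((1 + β) * (1 - α))) - α * ((1 + β) * (1 - α)) := by rw [hrel']
        _ = (α * α₂) * ((1 + β) * (1 - α)) := by noncomm_ring
        _ = 0 := by rw [hαα₂, zero_mul]
    have e3 : α * ((1 + β) * (1 - α) * β₁) =
        α * β₁ - α * β * α * β₁ + α * (β * β₁) - (α * α) * β₁ := by noncomm_ring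
    rw [e3, hββ₁, hαα, mul_zero, zero_mul, add_zero, sub_zero] at e2
    exact e2
  -- t fixes the generators
  have hfixA : ∀ a₁ ∈ A, φ (b⁻¹ * a * b) * (φ a₁ - 1) = φ (a⁻¹ * b⁻¹ * a) * (φ a₁ - 1) := by
    intro a₁ ha₁
    have h1 := hI a₁ ha₁
    obtain ⟨α₁, hα₁⟩ : ∃ α₁, α₁ = φ a₁ - 1 := ⟨_, rfl⟩
    have hαα₁ : α * α₁ = 0 := by rw [hα, hα₁]; exact hqA a₁ ha₁ a ha
    rw [← hα₁] at h1 ⊢
    rw [← sub_eq_zero, hm1, hm2]
    have e : (1 - β) * (1 + α) * (1 + β) * α₁ - (1 - α) * (1 - β) * (1 + α) * α₁ =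
        (β * α₁ - β * α * β * α₁) + (α * α₁ - α * β * (α * α₁) + α * (α * α₁) - (β * β) * α₁) := by
      noncomm_ring
    rw [e, h1, hαα₁, hββ]
    simp
  have hfixB : ∀ b₁ ∈ B, φ (b⁻¹ * a * b) * (φ b₁ - 1) = φ (a⁻¹ * b⁻¹ * a) * (φ b₁ - 1) := by
    intro b₁ hb₁
    have h1 := hII b₁ hb₁
    obtain ⟨β₁, hβ₁⟩ : ∃ β₁, β₁ = φ b₁ - 1 := ⟨_, rfl⟩
    have hββ₁ : β * β₁ = 0 := by rw [hβ, hβ₁]; exact hqB b₁ hb₁ b hb
    rw [← hβ₁] at h1 ⊢
    rw [← sub_eq_zero, hm1, hm2]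
    have e : (1 - β) * (1 + α) * (1 + β) * β₁ - (1 - α) * (1 - β) * (1 + α) * β₁ =
        (α * β₁ - α * β * α * β₁) + (β * β₁ - β * α * (β * β₁) + (α * α) * β₁ - β * (β * β₁)) := by
      noncomm_ring
    rw [e, h1, hββ₁, hαα]
    simp
  obtain ⟨t, ht⟩ : ∃ t, t = (a⁻¹ * b⁻¹ * a)⁻¹ * (b⁻¹ * a * b) := ⟨_, rfl⟩
  have hinv : φ (a⁻¹ * b⁻¹ * a)⁻¹ * φ (a⁻¹ * b⁻¹ * a) = 1 := by
    rw [← map_mul, inv_mul_cancel, map_one]
  have htA : ∀ a₁ ∈ A, (φ t - 1) * (φ a₁ - 1) = 0 := by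
    intro a₁ ha₁
    rw [sub_mul, one_mul, sub_eq_zero, ht, map_mul, mul_assoc, hfixA a₁ ha₁, ← mul_assoc, hinv,
      one_mul]
  have htB : ∀ b₁ ∈ B, (φ t - 1) * (φ b₁ - 1) = 0 := by
    intro b₁ hb₁
    rw [sub_mul, one_mul, sub_eq_zero, ht, map_mul, mul_assoc, hfixB b₁ hb₁, ← mul_assoc, hinv,
      one_mul]
  have htC : t ∈ C1 φ := by
    rw [mem_C1]
    intro g
    have := T_subset φ hAB htA htB g
    rw [sub_mul, one_mul, sub_eq_zero] at this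
    exact this
  have htc : t ∈ Subgroup.center X := hC1c htC
  have htB' : t ∈ B := by
    have h1 : b⁻¹ * a * b ∈ conjBy A b⁻¹ := by
      rw [mem_conjBy]
      have : b⁻¹⁻¹ * (b⁻¹ * a * b) * b⁻¹ = a := by group
      rw [this]; exact ha
    rw [hab, mem_conjBy, inv_inv] at h1
    have h2 : a * t * a⁻¹ = b * (a * (b⁻¹ * a * b) * a⁻¹) := by rw [ht]; group
    have h3 : a * t * a⁻¹ = t := by
      rw [Subgroup.mem_center_iff] at htc
      rw [htc a, mul_inv_cancel_right]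
    rw [← h3, h2]
    exact B.mul_mem hb h1
  have ht1 : t = 1 := eq_one_of_central (RankOnePair_symm h) htB' htc
  rw [ht] at ht1
  exact (inv_mul_eq_one.mp ht1).symm

end ring

theorem s5019 {A B : Subgroup X} (h : Cfsg.IsRankOneGroup X A B)
    {N : Type*} [AddCommGroup N] [DistribMulAction X N]
    (hq : ∀ a ∈ A, ∀ a' ∈ A, ∀ n : N, a' • (a • n - n) = a • n - n)
    (hX : ∃ x y : X, ∃ n : N, y • (x • n - n) ≠ x • n - n) : Cfsg.IsSpecialRankOnePair A B := by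
  obtain ⟨hAB, hr⟩ := h
  obtain ⟨φ, hφ⟩ : ∃ φ : X →* AddMonoid.End N, φ = DistribMulAction.toAddMonoidEnd X N := ⟨_, rfl⟩
  have happ : ∀ (x : X) (v : N), φ x v = x • v := by
    intro x v; rw [hφ]; rfl
  have hq' : ∀ a ∈ A, ∀ a' ∈ A, (φ a' - 1) * (φ a - 1) = 0 := by
    intro a ha a' ha'
    ext v
    have h1 := hq a ha a' ha' v
    show (φ a' - 1) ((φ a - 1) v) = 0
    have h2 : (φ a - 1) v = a • v - v := by
      show φ a v - v = a • v - v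
      rw [happ]
    rw [h2]
    show φ a' (a • v - v) - (a • v - v) = 0
    rw [happ, h1, sub_self]
  have hX' : ∃ x y : X, (φ y - 1) * (φ x - 1) ≠ 0 := by
    obtain ⟨x, y, n, hn⟩ := hX
    refine ⟨x, y, fun h0 => hn ?_⟩
    have h1 := DFunLike.congr_fun h0 n
    have h2 : ((φ y - 1) * (φ x - 1)) n = φ y (φ x n - n) - (φ x n - n) := rfl
    rw [h2, happ, happ] at h1
    exact sub_eq_zero.mp h1
  exact ⟨hr, special_core φ hAB hr hq' hX'⟩

end Cfsg.Agent.Lib_helper9_QuadSpecial
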