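import Mathlib
import Cfsg.Prelude.Def_Characters
import Cfsg.Prelude.Def_OddOrderChar
import Cfsg.Prelude.Def_OddOrderLocal
import Cfsg.Agent.Lib_helper3_CharInd

set_option autoImplicit false

namespace Cfsg.Agent.Lib_helper9_Rect

open Cfsg
open scoped ComplexConjugate

variable {G : Type*} [Group G] [Fintype G]

theorem inner_conj_symm (f₁ f₂ : G → ℂ) : classInner f₁ f₂ = conj (classInner f₂ f₁) := by
  unfold classInner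
  rw [map_mul, map_inv₀, Complex.conj_natCast, map_sum]
  congr 1
  apply Finset.sum_congr rfl
  intro g _
  rw [map_mul, Complex.conj_conj, mul_comm]

theorem inner_expand (θ f₁ f₂ f₃ f₄ : G → ℂ) :
    classInner θ (fun g => f₁ g - f₂ g - f₃ g + f₄ g) =
      classInner θ f₁ - classInner θ f₂ - classInner θ f₃ + classInner θ f₄ := by
  unfold classInner
  rw [← mul_sub, ← mul_sub, ← mul_add, ← Finset.sum_sub_distrib, ← Finset.sum_sub_distrib,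
    ← Finset.sum_add_distrib]
  congr 1
  apply Finset.sum_congr rfl
  intro g _
  simp only [map_add, map_sub]
  ring

theorem key (W₁ W₂ : Subgroup G) (χ : (↥(W₁ ⊔ W₂) →* ℂˣ) → (G → ℂ))
    (hχ : Cfsg.IsCyclicTIFamily W₁ W₂ χ) (θ : G → ℂ) (hθ : Cfsg.IsClassFunction G θ)
    (hθV : ∀ w : ↥(W₁ ⊔ W₂), (w : G) ∉ W₁ → (w : G) ∉ W₂ → θ w = 0)
    (φ ψ : ↥(W₁ ⊔ W₂) →* ℂˣ)
    (hφ₂ : ∀ w : ↥(W₁ ⊔ W₂), (w : G) ∈ W₂ → φ w = 1)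
    (hψ₁ : ∀ w : ↥(W₁ ⊔ W₂), (w : G) ∈ W₁ → ψ w = 1) :
    classInner θ (χ 1) - classInner θ (χ φ) - classInner θ (χ ψ) +
      classInner θ (χ (φ * ψ)) = 0 := by
  classical
  by_cases h1 : φ = 1
  · subst h1
    have e : χ (1 * ψ) = χ ψ := congrArg χ (one_mul ψ)
    rw [e]; ring
  by_cases h2 : ψ = 1
  · subst h2
    have e : χ (φ * 1) = χ φ := congrArg χ (mul_one φ)
    rw [e]; ring
  have hind := hχ.induced_eq φ ψ h1 h2 hφ₂ hψ₁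
  let _ : Fintype ↥(W₁ ⊔ W₂) := Fintype.ofFinite _
  have hfr := Lib_helper3_CharInd.frobenius_reciprocity (W₁ ⊔ W₂)
    (fun w => 1 - (φ w : ℂ) - (ψ w : ℂ) + (φ w : ℂ) * (ψ w : ℂ)) θ hθ
  have hzero : classInner
      (fun w : ↥(W₁ ⊔ W₂) => 1 - (φ w : ℂ) - (ψ w : ℂ) + (φ w : ℂ) * (ψ w : ℂ))
      (fun h : ↥(W₁ ⊔ W₂) => θ h) = 0 := by
    unfold classInner
    rw [Finset.sum_eq_zero, mul_zero]
    intro w _
    beta_reduce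
    by_cases hw1 : (w : G) ∈ W₁
    · rw [hψ₁ w hw1]; simp
    by_cases hw2 : (w : G) ∈ W₂
    · rw [hφ₂ w hw2]; simp
    rw [hθV w hw1 hw2]; simp
  rw [hzero, hind] at hfr
  have h3 := inner_conj_symm θ (fun g => 1 - χ φ g - χ ψ g + χ (φ * ψ) g)
  rw [hfr, map_zero] at h3
  have h4 := inner_expand θ (fun _ => 1) (χ φ) (χ ψ) (χ (φ * ψ))
  rw [h3] at h4
  rw [hχ.map_one]
  exact h4.symm

theorem main (W₁ W₂ : Subgroup G) (χ : (↥(W₁ ⊔ W₂) →* ℂˣ) → (G → ℂ))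
    (hχ : Cfsg.IsCyclicTIFamily W₁ W₂ χ) (θ : G → ℂ) (hθ : Cfsg.IsClassFunction G θ)
    (hθV : ∀ w : ↥(W₁ ⊔ W₂), (w : G) ∉ W₁ → (w : G) ∉ W₂ → θ w = 0)
    (φ φ' ψ ψ' : ↥(W₁ ⊔ W₂) →* ℂˣ)
    (hφ₂ : ∀ w : ↥(W₁ ⊔ W₂), (w : G) ∈ W₂ → φ w = 1 ∧ φ' w = 1)
    (hψ₁ : ∀ w : ↥(W₁ ⊔ W₂), (w : G) ∈ W₁ → ψ w = 1 ∧ ψ' w = 1) :
    Cfsg.classInner θ (χ (φ * ψ)) + Cfsg.classInner θ (χ (φ' * ψ')) =
      Cfsg.classInner θ (χ (φ * ψ')) + Cfsg.classInner θ (χ (φ' * ψ)) := by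
  have a1 := key W₁ W₂ χ hχ θ hθ hθV φ ψ (fun w hw => (hφ₂ w hw).1) (fun w hw => (hψ₁ w hw).1)
  have a2 := key W₁ W₂ χ hχ θ hθ hθV φ' ψ' (fun w hw => (hφ₂ w hw).2) (fun w hw => (hψ₁ w hw).2)
  have a3 := key W₁ W₂ χ hχ θ hθ hθV φ ψ' (fun w hw => (hφ₂ w hw).1) (fun w hw => (hψ₁ w hw).2)
  have a4 := key W₁ W₂ χ hχ θ hθ hθV φ' ψ (fun w hw => (hφ₂ w hw).2) (fun w hw => (hψ₁ w hw).1)
  linear_combination a1 + a2 - a3 - a4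

end Cfsg.Agent.Lib_helper9_Rect
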