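import Cfsg.Statements.S0149
import Cfsg.Agent.Lib_helper3_CharInd

set_option autoImplicit false
open Cfsg

namespace Cfsg.Agent.S0149

/-- Let T be a subset of G meeting each of its conjugates by elements outside its normalizer N only in the identity, and let ψ be a class function of N vanishing on N away from T. Then the function induced from ψ agrees with ψ at every non-identity element of T. -/
theorem result {G : Type*} [Group G] [Fintype G] (T : Set G) (hTI : ∀ g : G, g ∉ Subgroup.normalizer T → ∀ t ∈ T, g * t * g⁻¹ ∈ T → t = 1) (hTN : T ⊆ Subgroup.normalizer T) (ψ : Subgroup.normalizer T → ℂ) (hψ : Cfsg.IsClassFunction (Subgroup.normalizer T) ψ) (hψT : ∀ x : Subgroup.normalizer T, (x : G) ∉ T → ψ x = 0) (t : Subgroup.normalizer T) (htT : (t : G) ∈ T) (ht1 : t ≠ 1) : Cfsg.indFun (Subgroup.normalizer T) ψ t = ψ t := by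
  classical
  have := Fintype.ofFinite (Subgroup.normalizer T)
  rw [Cfsg.Agent.Lib_helper3_CharInd.indFun_apply]
  have key : ∀ x : G, Cfsg.extendByZero (Subgroup.normalizer T) ψ (x⁻¹ * (t : G) * x) =
      Cfsg.extendByZero (Subgroup.normalizer T) (fun _ => ψ t) x := by
    intro x
    by_cases hx : x ∈ Subgroup.normalizer T
    · have hmem : x⁻¹ * (t : G) * x ∈ Subgroup.normalizer T :=
        (Subgroup.normalizer T).mul_mem ((Subgroup.normalizer T).mul_mem
          ((Subgroup.normalizer T).inv_mem hx) t.2) hx
      rw [Cfsg.Agent.Lib_helper3_CharInd.extendByZero_mem _ _ hmem,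
        Cfsg.Agent.Lib_helper3_CharInd.extendByZero_mem _ _ hx]
      have h1 := hψ t (⟨x, hx⟩⁻¹ : Subgroup.normalizer T)
      rw [← h1]
      congr 1
      ext
      simp
    · rw [Cfsg.Agent.Lib_helper3_CharInd.extendByZero_not_mem _ _ hx]
      by_cases hmem : x⁻¹ * (t : G) * x ∈ Subgroup.normalizer T
      · rw [Cfsg.Agent.Lib_helper3_CharInd.extendByZero_mem _ _ hmem]
        apply hψT
        intro hT
        have hx' : x⁻¹ ∉ Subgroup.normalizer T := fun h => hx (by simpa using (Subgroup.normalizer T).inv_mem h)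
        have h2 := hTI x⁻¹ hx' (t : G) htT (by simpa using hT)
        exact ht1 (Subtype.ext h2)
      · rw [Cfsg.Agent.Lib_helper3_CharInd.extendByZero_not_mem _ _ hmem]
  simp only [key]
  rw [Cfsg.Agent.Lib_helper3_CharInd.sum_extendByZero]
  simp only [Finset.sum_const, Finset.card_univ, nsmul_eq_mul]
  rw [← Nat.card_eq_fintype_card]
  have := Cfsg.Agent.Lib_helper3_CharInd.card_subgroup_ne_zero (Subgroup.normalizer T)
  field_simp
end Cfsg.Agent.S0149
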