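import Cfsg.Statements.S0150
import Cfsg.Agent.Lib_helper3_CharInd
import Cfsg.Agent.S0149

set_option autoImplicit false
open Cfsg

namespace Cfsg.Agent.S0150

/-- Let T be a subset of G meeting each of its conjugates by elements outside its normalizer N only in the identity. If ψ and θ are class functions of N vanishing on N away from T and ψ 1 = 0, then the inner product of the induced functions over G equals the inner product of ψ and θ over N. -/
theorem result {G : Type*} [Group G] [Fintype G] (T : Set G) (hTI : ∀ g : G, g ∉ Subgroup.normalizer T → ∀ t ∈ T, g * t * g⁻¹ ∈ T → t = 1) (hTN : T ⊆ Subgroup.normalizer T) [Fintype (Subgroup.normalizer T)] (ψ θ : Subgroup.normalizer T → ℂ) (hψ : Cfsg.IsClassFunction (Subgroup.normalizer T) ψ) (hθ : Cfsg.IsClassFunction (Subgroup.normalizer T) θ) (hψT : ∀ x : Subgroup.normalizer T, (x : G) ∉ T → ψ x = 0) (hθT : ∀ x : Subgroup.normalizer T, (x : G) ∉ T → θ x = 0) (hψ1 : ψ 1 = 0) : Cfsg.classInner (Cfsg.indFun (Subgroup.normalizer T) ψ) (Cfsg.indFun (Subgroup.normalizer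 T) θ) = Cfsg.classInner ψ θ := by
  classical
  rw [Cfsg.Agent.Lib_helper3_CharInd.frobenius_reciprocity (Subgroup.normalizer T) ψ
    (Cfsg.indFun (Subgroup.normalizer T) θ)
    (Cfsg.Agent.Lib_helper3_CharInd.isClassFunction_indFun _ _)]
  rw [Cfsg.Agent.Lib_helper3_CharBasic.classInner_def,
    Cfsg.Agent.Lib_helper3_CharBasic.classInner_def]
  congr 1
  apply Finset.sum_congr rfl
  intro n _
  by_cases hnT : (n : G) ∈ T
  · by_cases hn1 : n = 1
    · rw [hn1, hψ1, zero_mul, zero_mul]
    · rw [Cfsg.Agent.S0149.result T hTI hTN θ hθ hθT n hnT hn1]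
  · rw [hψT n hnT, zero_mul, zero_mul]
end Cfsg.Agent.S0150
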