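import Mathlib
import Cfsg.Prelude.Def_Characters
import Cfsg.Prelude.Def_OddOrderChar
import Cfsg.Prelude.Def_OddOrderLocal
import Cfsg.Agent.Lib_helper3_CharInd
import Cfsg.Agent.Lib_helper9_CycInd
import Cfsg.Agent.Lib_helper9_Rect
import Cfsg.Agent.S0150

set_option autoImplicit false

namespace Cfsg.Agent.Lib_helper9_Rect2

open Cfsg
open scoped ComplexConjugate

theorem sum_char {W : Type*} [Group W] [Fintype W] (ω : W →* ℂˣ) :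
    ∑ w : W, (ω w : ℂ) = if ω = 1 then (Nat.card W : ℂ) else 0 := by
  classical
  split_ifs with h
  · subst h
    simp [Nat.card_eq_fintype_card]
  · obtain ⟨w₀, hw₀⟩ : ∃ w₀, ω w₀ ≠ 1 := by
      by_contra hcon
      push_neg at hcon
      exact h (MonoidHom.ext hcon)
    have e : ∑ w : W, (ω w : ℂ) = (ω w₀ : ℂ) * ∑ w : W, (ω w : ℂ) := by
      rw [Finset.mul_sum, ← Equiv.sum_comp (Equiv.mulLeft w₀)]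
      apply Finset.sum_congr rfl
      intro w _
      simp
    have hne : (ω w₀ : ℂ) ≠ 1 := fun hh => hw₀ (Units.val_eq_one.mp hh)
    have h0 : (1 - (ω w₀ : ℂ)) * ∑ w : W, (ω w : ℂ) = 0 := by linear_combination e
    rcases mul_eq_zero.mp h0 with h1 | h1
    · exact absurd (sub_eq_zero.mp h1).symm hne
    · exact h1

theorem conj_char {W : Type*} [Group W] [Finite W] (ω : W →* ℂˣ) (w : W) :
    conj (ω w : ℂ) = (ω w : ℂ)⁻¹ := by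
  have hpow : (ω w : ℂ) ^ (Nat.card W) = 1 := by
    have h1 : (ω w) ^ (Nat.card W) = 1 := by rw [← map_pow, pow_card_eq_one', map_one]
    have h2 := congrArg Units.val h1
    simpa using h2
  have hnorm : ‖(ω w : ℂ)‖ = 1 := Complex.norm_eq_one_of_pow_eq_one hpow (Nat.card_pos).ne'
  exact (Complex.inv_eq_conj hnorm).symm

theorem inner_char {W : Type*} [Group W] [Fintype W] (ω₁ ω₂ : W →* ℂˣ) :
    classInner (fun w => (ω₁ w : ℂ)) (fun w => (ω₂ w : ℂ)) = if ω₁ = ω₂ then 1 else 0 := by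
  classical
  unfold classInner
  beta_reduce
  have e : ∀ w : W, (ω₁ w : ℂ) * conj (ω₂ w : ℂ) = ((ω₁ * ω₂⁻¹) w : ℂ) := by
    intro w
    rw [conj_char]
    simp
  rw [Finset.sum_congr rfl (fun w _ => e w), sum_char]
  by_cases h : ω₁ = ω₂
  · rw [if_pos (mul_inv_eq_one.mpr h), if_pos h]
    exact inv_mul_cancel₀ (by exact_mod_cast (Nat.card_pos (α := W)).ne')
  · rw [if_neg (fun hh => h (mul_inv_eq_one.mp hh)), if_neg h, mul_zero]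

theorem inner_expand_left {H : Type*} [Group H] [Fintype H] (θ f₁ f₂ f₃ f₄ : H → ℂ) :
    classInner (fun g => f₁ g - f₂ g - f₃ g + f₄ g) θ =
      classInner f₁ θ - classInner f₂ θ - classInner f₃ θ + classInner f₄ θ := by
  unfold classInner
  rw [← mul_sub, ← mul_sub, ← mul_add, ← Finset.sum_sub_distrib, ← Finset.sum_sub_distrib,
    ← Finset.sum_add_distrib]
  congr 1
  apply Finset.sum_congr rfl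
  intro g _
  ring

theorem cyc_comm {W : Type*} [Group W] [IsCyclic W] (a b : W) : a * b = b * a := by
  obtain ⟨c, hc⟩ := IsCyclic.exists_generator (α := W)
  obtain ⟨i, rfl⟩ := Subgroup.mem_zpowers_iff.mp (hc a)
  obtain ⟨j, rfl⟩ := Subgroup.mem_zpowers_iff.mp (hc b)
  exact zpow_mul_comm c i j

variable {G : Type*} [Group G]

/-- the function `w ↦ φ w * ψ w` -/
noncomputable def Q (W₁ W₂ : Subgroup G) (φ ψ : ↥(W₁ ⊔ W₂) →* ℂˣ) : ↥(W₁ ⊔ W₂) → ℂ :=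
  fun w => (φ w : ℂ) * (ψ w : ℂ)

/-- the set `W ∖ (W₁ ∪ W₂)` -/
def TT (W₁ W₂ : Subgroup G) : Set G := (↑(W₁ ⊔ W₂) : Set G) \ (↑W₁ ∪ ↑W₂)

theorem mem_TT (W₁ W₂ : Subgroup G) (x : G) :
    x ∈ TT W₁ W₂ ↔ x ∈ W₁ ⊔ W₂ ∧ ¬ (x ∈ W₁ ∨ x ∈ W₂) := Iff.rfl

theorem inner_pair (W₁ W₂ : Subgroup G) [Fintype ↥(W₁ ⊔ W₂)]
    (hcomm : ∀ a ∈ W₁, ∀ b ∈ W₂, a * b = b * a)
    (φ ψ φ' ψ' : ↥(W₁ ⊔ W₂) →* ℂˣ)
    (hφ : ∀ w : ↥(W₁ ⊔ W₂), (w : G) ∈ W₂ → φ w = 1)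
    (hψ : ∀ w : ↥(W₁ ⊔ W₂), (w : G) ∈ W₁ → ψ w = 1)
    (hφ' : ∀ w : ↥(W₁ ⊔ W₂), (w : G) ∈ W₂ → φ' w = 1)
    (hψ' : ∀ w : ↥(W₁ ⊔ W₂), (w : G) ∈ W₁ → ψ' w = 1) :
    classInner (Q W₁ W₂ φ ψ) (Q W₁ W₂ φ' ψ') = if φ = φ' ∧ ψ = ψ' then 1 else 0 := by
  classical
  have e1 : Q W₁ W₂ φ ψ = fun w => ((φ * ψ) w : ℂ) := by
    funext w; simp [Q]
  have e2 : Q W₁ W₂ φ' ψ' = fun w => ((φ' * ψ') w : ℂ) := by
    funext w; simp [Q]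
  rw [e1, e2, inner_char]
  have hiff : φ * ψ = φ' * ψ' ↔ φ = φ' ∧ ψ = ψ' := by
    constructor
    · intro h
      exact Lib_helper9_CycInd.key W₁ W₂ hcomm φ ψ φ' ψ' hφ hψ hφ' hψ'
        (fun w => by
          have := DFunLike.congr_fun h w
          simpa using this)
    · rintro ⟨rfl, rfl⟩; rfl
  by_cases h : φ = φ' ∧ ψ = ψ'
  · rw [if_pos (hiff.mpr h), if_pos h]
  · rw [if_neg (fun hh => h (hiff.mp hh)), if_neg h]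

theorem alpha_eq (W₁ W₂ : Subgroup G) (φ ψ : ↥(W₁ ⊔ W₂) →* ℂˣ) :
    (fun w : ↥(W₁ ⊔ W₂) => 1 - (φ w : ℂ) - (ψ w : ℂ) + (φ w : ℂ) * (ψ w : ℂ)) =
      fun w => Q W₁ W₂ 1 1 w - Q W₁ W₂ φ 1 w - Q W₁ W₂ 1 ψ w + Q W₁ W₂ φ ψ w := by
  funext w
  simp [Q]

theorem alpha_zero (W₁ W₂ : Subgroup G) (φ ψ : ↥(W₁ ⊔ W₂) →* ℂˣ)
    (pφ : ∀ w : ↥(W₁ ⊔ W₂), (w : G) ∈ W₂ → φ w = 1)
    (pψ : ∀ w : ↥(W₁ ⊔ W₂), (w : G) ∈ W₁ → ψ w = 1) (w : ↥(W₁ ⊔ W₂))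
    (hw : (w : G) ∈ W₁ ∨ (w : G) ∈ W₂) :
    1 - (φ w : ℂ) - (ψ w : ℂ) + (φ w : ℂ) * (ψ w : ℂ) = 0 := by
  rcases hw with hw | hw
  · rw [pψ w hw]; simp
  · rw [pφ w hw]; simp

theorem inner_alpha (W₁ W₂ : Subgroup G) [Fintype ↥(W₁ ⊔ W₂)]
    (hcomm : ∀ a ∈ W₁, ∀ b ∈ W₂, a * b = b * a)
    (φ φ' ψ ψ' : ↥(W₁ ⊔ W₂) →* ℂˣ) (hφ : φ ≠ 1) (hφ' : φ' ≠ 1) (hψ : ψ ≠ 1) (hψ' : ψ' ≠ 1)
    (pφ : ∀ w : ↥(W₁ ⊔ W₂), (w : G) ∈ W₂ → φ w = 1)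
    (pφ' : ∀ w : ↥(W₁ ⊔ W₂), (w : G) ∈ W₂ → φ' w = 1)
    (pψ : ∀ w : ↥(W₁ ⊔ W₂), (w : G) ∈ W₁ → ψ w = 1)
    (pψ' : ∀ w : ↥(W₁ ⊔ W₂), (w : G) ∈ W₁ → ψ' w = 1)
    [Decidable (φ = φ')] [Decidable (ψ = ψ')] :
    classInner (fun w : ↥(W₁ ⊔ W₂) => 1 - (φ w : ℂ) - (ψ w : ℂ) + (φ w : ℂ) * (ψ w : ℂ))
      (fun w : ↥(W₁ ⊔ W₂) => 1 - (φ' w : ℂ) - (ψ' w : ℂ) + (φ' w : ℂ) * (ψ' w : ℂ)) =
    1 + (if φ = φ' then 1 else 0) + (if ψ = ψ' then 1 else 0) +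
      (if φ = φ' then 1 else 0) * (if ψ = ψ' then 1 else 0) := by
  classical
  have t2 : ∀ w : ↥(W₁ ⊔ W₂), (w : G) ∈ W₂ → (1 : ↥(W₁ ⊔ W₂) →* ℂˣ) w = 1 := fun _ _ => rfl
  have t1 : ∀ w : ↥(W₁ ⊔ W₂), (w : G) ∈ W₁ → (1 : ↥(W₁ ⊔ W₂) →* ℂˣ) w = 1 := fun _ _ => rfl
  rw [alpha_eq W₁ W₂ φ ψ, alpha_eq W₁ W₂ φ' ψ', inner_expand_left,
    Lib_helper9_Rect.inner_expand, Lib_helper9_Rect.inner_expand, Lib_helper9_Rect.inner_expand,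
    Lib_helper9_Rect.inner_expand]
  rw [inner_pair W₁ W₂ hcomm 1 1 1 1 t2 t1 t2 t1,
    inner_pair W₁ W₂ hcomm 1 1 φ' 1 t2 t1 pφ' t1,
    inner_pair W₁ W₂ hcomm 1 1 1 ψ' t2 t1 t2 pψ',
    inner_pair W₁ W₂ hcomm 1 1 φ' ψ' t2 t1 pφ' pψ',
    inner_pair W₁ W₂ hcomm φ 1 1 1 pφ t1 t2 t1,
    inner_pair W₁ W₂ hcomm φ 1 φ' 1 pφ t1 pφ' t1,
    inner_pair W₁ W₂ hcomm φ 1 1 ψ' pφ t1 t2 pψ',
    inner_pair W₁ W₂ hcomm φ 1 φ' ψ' pφ t1 pφ' pψ',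
    inner_pair W₁ W₂ hcomm 1 ψ 1 1 t2 pψ t2 t1,
    inner_pair W₁ W₂ hcomm 1 ψ φ' 1 t2 pψ pφ' t1,
    inner_pair W₁ W₂ hcomm 1 ψ 1 ψ' t2 pψ t2 pψ',
    inner_pair W₁ W₂ hcomm 1 ψ φ' ψ' t2 pψ pφ' pψ',
    inner_pair W₁ W₂ hcomm φ ψ 1 1 pφ pψ t2 t1,
    inner_pair W₁ W₂ hcomm φ ψ φ' 1 pφ pψ pφ' t1,
    inner_pair W₁ W₂ hcomm φ ψ 1 ψ' pφ pψ t2 pψ',
    inner_pair W₁ W₂ hcomm φ ψ φ' ψ' pφ pψ pφ' pψ']
  have n1 : ¬ ((1 : ↥(W₁ ⊔ W₂) →* ℂˣ) = φ') := fun h => hφ' h.symm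
  have n2 : ¬ ((1 : ↥(W₁ ⊔ W₂) →* ℂˣ) = ψ') := fun h => hψ' h.symm
  by_cases h1 : φ = φ' <;> by_cases h2 : ψ = ψ' <;>
    simp [h1, h2, hφ, hψ, hφ', hψ', n1, n2] <;> norm_num

theorem conj_mem_of_cyclic (W : Subgroup G) [IsCyclic W] (g : G)
    (hg : ∀ w ∈ W, g * w * g⁻¹ ∈ W) (H : Subgroup G) (hH : H ≤ W) (w : G) (hw : w ∈ H) :
    g * w * g⁻¹ ∈ H := by
  obtain ⟨c, hc⟩ := IsCyclic.exists_generator (α := W)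
  obtain ⟨k, hk⟩ := Subgroup.mem_zpowers_iff.mp (hc ⟨g * c * g⁻¹, hg c c.2⟩)
  obtain ⟨m, hm⟩ := Subgroup.mem_zpowers_iff.mp (hc ⟨w, hH hw⟩)
  have hk' : (c : G) ^ k = g * c * g⁻¹ := by
    have := congrArg Subtype.val hk
    simpa using this
  have hm' : (c : G) ^ m = w := by
    have := congrArg Subtype.val hm
    simpa using this
  have : g * w * g⁻¹ = w ^ k := by
    rw [← hm', ← conj_zpow, ← hk', ← zpow_mul, ← zpow_mul, mul_comm]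
  rw [this]
  exact H.zpow_mem hw k

theorem ti_main (W₁ W₂ : Subgroup G) (hW : Cfsg.IsSelfNormalizingCyclic W₁ W₂) :
    Subgroup.normalizer (TT W₁ W₂) = W₁ ⊔ W₂ ∧
    (∀ g : G, g ∉ Subgroup.normalizer (TT W₁ W₂) →
      ∀ t ∈ TT W₁ W₂, g * t * g⁻¹ ∈ TT W₁ W₂ → t = 1) := by
  obtain ⟨hW1, hW2, hinf, hcomm, hcyc, hnorm⟩ := hW
  have hne : (TT W₁ W₂).Nonempty := by
    obtain ⟨a, ha⟩ := (Subgroup.ne_bot_iff_exists_ne_one).mp hW1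
    obtain ⟨b, hb⟩ := (Subgroup.ne_bot_iff_exists_ne_one).mp hW2
    refine ⟨(a : G) * (b : G), (mem_TT W₁ W₂ _).mpr ⟨Subgroup.mul_mem _
      (Subgroup.mem_sup_left a.2) (Subgroup.mem_sup_right b.2), ?_⟩⟩
    rintro (h | h)
    · have hb1 : (b : G) ∈ W₁ := by
        have := W₁.mul_mem (W₁.inv_mem a.2) h
        simpa using this
      have : (b : G) ∈ W₁ ⊓ W₂ := ⟨hb1, b.2⟩
      rw [hinf, Subgroup.mem_bot] at this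
      exact hb (Subtype.ext this)
    · have ha1 : (a : G) ∈ W₂ := by
        have := W₂.mul_mem h (W₂.inv_mem b.2)
        simpa using this
      have : (a : G) ∈ W₁ ⊓ W₂ := ⟨a.2, ha1⟩
      rw [hinf, Subgroup.mem_bot] at this
      exact ha (Subtype.ext this)
  have hN : Subgroup.normalizer (TT W₁ W₂) = W₁ ⊔ W₂ := hnorm (TT W₁ W₂) (fun _ h => h) hne
  refine ⟨hN, ?_⟩
  intro g hg t ht hgt
  exfalso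
  apply hg
  have hNt : Subgroup.normalizer ({t} : Set G) = W₁ ⊔ W₂ :=
    hnorm {t} (Set.singleton_subset_iff.mpr ht) (Set.singleton_nonempty t)
  have hNgt : Subgroup.normalizer ({g * t * g⁻¹} : Set G) = W₁ ⊔ W₂ :=
    hnorm {g * t * g⁻¹} (Set.singleton_subset_iff.mpr hgt) (Set.singleton_nonempty _)
  have hcent : ∀ (s w : G), w ∈ Subgroup.normalizer ({s} : Set G) ↔ w * s * w⁻¹ = s := by
    intro s w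
    rw [Subgroup.mem_set_normalizer_iff]
    constructor
    · intro h
      exact (h s).mp rfl
    · intro h n
      simp only [Set.mem_singleton_iff]
      constructor
      · rintro rfl; exact h
      · intro h'
        rw [← h] at h'
        simpa using h'
  have hgW : ∀ w ∈ W₁ ⊔ W₂, g * w * g⁻¹ ∈ W₁ ⊔ W₂ := by
    intro w hw
    rw [← hNt, hcent] at hw
    rw [← hNgt, hcent]
    calc g * w * g⁻¹ * (g * t * g⁻¹) * (g * w * g⁻¹)⁻¹ = g * (w * t * w⁻¹) * g⁻¹ := by group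
      _ = g * t * g⁻¹ := by rw [hw]
  have hgW' : ∀ w ∈ W₁ ⊔ W₂, g⁻¹ * w * g⁻¹⁻¹ ∈ W₁ ⊔ W₂ := by
    intro w hw
    rw [← hNgt, hcent] at hw
    rw [← hNt, hcent]
    calc g⁻¹ * w * g⁻¹⁻¹ * t * (g⁻¹ * w * g⁻¹⁻¹)⁻¹
        = g⁻¹ * (w * (g * t * g⁻¹) * w⁻¹) * g := by group
      _ = t := by rw [hw]; group
  haveI := hcyc
  have c1 := conj_mem_of_cyclic (W₁ ⊔ W₂) g hgW W₁ le_sup_left
  have c2 := conj_mem_of_cyclic (W₁ ⊔ W₂) g hgW W₂ le_sup_right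
  have c1' := conj_mem_of_cyclic (W₁ ⊔ W₂) g⁻¹ hgW' W₁ le_sup_left
  have c2' := conj_mem_of_cyclic (W₁ ⊔ W₂) g⁻¹ hgW' W₂ le_sup_right
  rw [Subgroup.mem_set_normalizer_iff]
  intro n
  have back : g⁻¹ * (g * n * g⁻¹) * g⁻¹⁻¹ = n := by group
  rw [mem_TT, mem_TT]
  constructor
  · rintro ⟨hnW, hn12⟩
    refine ⟨hgW n hnW, ?_⟩
    rintro (h | h)
    · exact hn12 (Or.inl (by have := c1' _ h; rwa [back] at this))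
    · exact hn12 (Or.inr (by have := c2' _ h; rwa [back] at this))
  · rintro ⟨hnW, hn12⟩
    refine ⟨by have := hgW' _ hnW; rwa [back] at this, ?_⟩
    rintro (h | h)
    · exact hn12 (Or.inl (c1 n h))
    · exact hn12 (Or.inr (c2 n h))

theorem iso_of_eq [Fintype G] (T : Set G) (H : Subgroup G) (hH : Subgroup.normalizer T = H)
    (hTI : ∀ g : G, g ∉ Subgroup.normalizer T → ∀ t ∈ T, g * t * g⁻¹ ∈ T → t = 1)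
    (hTH : T ⊆ H) [Fintype H] (ψ θ : H → ℂ) (hψ : IsClassFunction H ψ)
    (hθ : IsClassFunction H θ)
    (hψT : ∀ x : H, (x : G) ∉ T → ψ x = 0) (hθT : ∀ x : H, (x : G) ∉ T → θ x = 0)
    (hψ1 : ψ 1 = 0) :
    classInner (indFun H ψ) (indFun H θ) = classInner ψ θ := by
  subst hH
  exact Cfsg.Agent.S0150.result T hTI hTH ψ θ hψ hθ hψT hθT hψ1

open Classical in
theorem main [Fintype G] (W₁ W₂ : Subgroup G) (hW : Cfsg.IsSelfNormalizingCyclic W₁ W₂)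
    (φ φ' ψ ψ' : ↥(W₁ ⊔ W₂) →* ℂˣ) (hφ : φ ≠ 1) (hφ' : φ' ≠ 1) (hψ : ψ ≠ 1) (hψ' : ψ' ≠ 1)
    (hφ₂ : ∀ w : ↥(W₁ ⊔ W₂), (w : G) ∈ W₂ → φ w = 1 ∧ φ' w = 1)
    (hψ₁ : ∀ w : ↥(W₁ ⊔ W₂), (w : G) ∈ W₁ → ψ w = 1 ∧ ψ' w = 1) :
    Cfsg.classInner (Cfsg.indFun (W₁ ⊔ W₂)
        (fun w => 1 - (φ w : ℂ) - (ψ w : ℂ) + (φ w : ℂ) * (ψ w : ℂ))) (fun _ => 1) = 1 ∧
    Cfsg.classInner (Cfsg.indFun (W₁ ⊔ W₂)
        (fun w => 1 - (φ w : ℂ) - (ψ w : ℂ) + (φ w : ℂ) * (ψ w : ℂ)))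
      (Cfsg.indFun (W₁ ⊔ W₂)
        (fun w => 1 - (φ' w : ℂ) - (ψ' w : ℂ) + (φ' w : ℂ) * (ψ' w : ℂ))) =
      1 + (if φ = φ' then 1 else 0) + (if ψ = ψ' then 1 else 0) +
        (if φ = φ' then 1 else 0) * (if ψ = ψ' then 1 else 0) := by
  classical
  obtain ⟨hN, hTI⟩ := ti_main W₁ W₂ hW
  obtain ⟨hW1, hW2, hinf, hcomm, hcyc, hnorm⟩ := hW
  have pφ : ∀ w : ↥(W₁ ⊔ W₂), (w : G) ∈ W₂ → φ w = 1 := fun w hw => (hφ₂ w hw).1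
  have pφ' : ∀ w : ↥(W₁ ⊔ W₂), (w : G) ∈ W₂ → φ' w = 1 := fun w hw => (hφ₂ w hw).2
  have pψ : ∀ w : ↥(W₁ ⊔ W₂), (w : G) ∈ W₁ → ψ w = 1 := fun w hw => (hψ₁ w hw).1
  have pψ' : ∀ w : ↥(W₁ ⊔ W₂), (w : G) ∈ W₁ → ψ' w = 1 := fun w hw => (hψ₁ w hw).2
  have t2 : ∀ w : ↥(W₁ ⊔ W₂), (w : G) ∈ W₂ → (1 : ↥(W₁ ⊔ W₂) →* ℂˣ) w = 1 := fun _ _ => rfl
  have t1 : ∀ w : ↥(W₁ ⊔ W₂), (w : G) ∈ W₁ → (1 : ↥(W₁ ⊔ W₂) →* ℂˣ) w = 1 := fun _ _ => rfl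
  have hcls : ∀ f : ↥(W₁ ⊔ W₂) → ℂ, IsClassFunction ↥(W₁ ⊔ W₂) f := by
    intro f g h
    have := hcyc
    rw [cyc_comm h g, mul_inv_cancel_right]
  have hvan : ∀ (φ ψ : ↥(W₁ ⊔ W₂) →* ℂˣ), (∀ w : ↥(W₁ ⊔ W₂), (w : G) ∈ W₂ → φ w = 1) →
      (∀ w : ↥(W₁ ⊔ W₂), (w : G) ∈ W₁ → ψ w = 1) → ∀ x : ↥(W₁ ⊔ W₂), (x : G) ∉ TT W₁ W₂ →
      1 - (φ x : ℂ) - (ψ x : ℂ) + (φ x : ℂ) * (ψ x : ℂ) = 0 := by
    intro φ ψ pφ pψ x hx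
    apply alpha_zero W₁ W₂ φ ψ pφ pψ x
    by_contra hcon
    exact hx ((mem_TT W₁ W₂ _).mpr ⟨x.2, hcon⟩)
  constructor
  · have hfr := Lib_helper3_CharInd.frobenius_reciprocity (W₁ ⊔ W₂)
      (fun w => 1 - (φ w : ℂ) - (ψ w : ℂ) + (φ w : ℂ) * (ψ w : ℂ)) (fun _ => (1 : ℂ))
      (fun _ _ => rfl)
    have hval : classInner
        (fun w : ↥(W₁ ⊔ W₂) => 1 - (φ w : ℂ) - (ψ w : ℂ) + (φ w : ℂ) * (ψ w : ℂ))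
        (Q W₁ W₂ 1 1) = 1 := by
      rw [alpha_eq, inner_expand_left, inner_pair W₁ W₂ hcomm 1 1 1 1 t2 t1 t2 t1,
        inner_pair W₁ W₂ hcomm φ 1 1 1 pφ t1 t2 t1, inner_pair W₁ W₂ hcomm 1 ψ 1 1 t2 pψ t2 t1,
        inner_pair W₁ W₂ hcomm φ ψ 1 1 pφ pψ t2 t1]
      simp [hφ, hψ]
    have e1 : Q W₁ W₂ 1 1 = (fun h : ↥(W₁ ⊔ W₂) => (fun _ : G => (1 : ℂ)) (h : G)) := by
      funext w; simp [Q]
    rw [hfr]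
    rw [e1] at hval
    exact hval
  · have hiso := iso_of_eq (TT W₁ W₂) (W₁ ⊔ W₂) hN hTI (fun x hx => ((mem_TT W₁ W₂ x).mp hx).1)
      (fun w : ↥(W₁ ⊔ W₂) => 1 - (φ w : ℂ) - (ψ w : ℂ) + (φ w : ℂ) * (ψ w : ℂ))
      (fun w : ↥(W₁ ⊔ W₂) => 1 - (φ' w : ℂ) - (ψ' w : ℂ) + (φ' w : ℂ) * (ψ' w : ℂ))
      (hcls _) (hcls _) (hvan φ ψ pφ pψ) (hvan φ' ψ' pφ' pψ') (by simp)
    rw [hiso]
    exact inner_alpha W₁ W₂ hcomm φ φ' ψ ψ' hφ hφ' hψ hψ' pφ pφ' pψ pψ'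

end Cfsg.Agent.Lib_helper9_Rect2
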