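import Mathlib
import Cfsg.Prelude.Def_RootSubgroups
import Cfsg.Agent.Lib_helper9_RankOne
import Cfsg.Agent.Lib_helper9_RootSub

set_option autoImplicit false

namespace Cfsg.Agent.Lib_helper9_RootImage

open Cfsg
open Cfsg.Agent.Lib_helper9_RankOne
open Cfsg.Agent.Lib_helper9_RootSub
open scoped commutatorElement

variable {G H : Type*} [Group G] [Group H]

theorem map_conjBy (f : G →* H) (A : Subgroup G) (g : G) :
    (conjBy A g).map f = conjBy (A.map f) (f g) := by
  unfold conjBy
  rw [Subgroup.map_map, Subgroup.map_map]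
  congr 1
  ext x
  simp

theorem conjBy_bot (g : G) : conjBy (⊥ : Subgroup G) g = ⊥ := by
  unfold conjBy
  exact Subgroup.map_bot _

theorem nilpotent_map (f : G →* H) (A : Subgroup G) (hA : Group.IsNilpotent A) :
    Group.IsNilpotent ↥(A.map f) :=
  Group.nilpotent_of_surjective (f.subgroupMap A) (f.subgroupMap_surjective A)

theorem cond_map (f : G →* H) {A B : Subgroup G} (h : RankOneCondition A B)
    (hne : A.map f ≠ B.map f) : RankOneCondition (A.map f) (B.map f) := by
  rintro _ ⟨a, ha, rfl⟩ ha1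
  have ha1' : a ≠ 1 := by
    rintro rfl
    exact ha1 (map_one f)
  obtain ⟨b, hb, -, hab⟩ := h a ha ha1'
  have h1 := congrArg (Subgroup.map f) hab
  rw [map_conjBy, map_conjBy, map_inv, map_inv] at h1
  refine ⟨f b, Subgroup.mem_map_of_mem f hb, ?_, h1⟩
  intro hb1
  rw [hb1, inv_one, conjBy_one] at h1
  apply hne
  have h2 := conjBy_eq_iff.mp h1.symm
  rw [inv_inv] at h2
  rw [h2]
  exact (conjBy_of_mem (Subgroup.mem_map_of_mem f ha)).symm

theorem rankOne_map (f : G →* H) {A B : Subgroup G} (h : IsRankOnePair A B)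
    (hne : A.map f ≠ B.map f) : IsRankOnePair (A.map f) (B.map f) :=
  ⟨hne, nilpotent_map f A h.nilpotent_left, nilpotent_map f B h.nilpotent_right,
    cond_map f h.cond_left hne, cond_map f h.cond_right (Ne.symm hne)⟩

theorem comm_map (f : G →* H) {A : Subgroup G} (hA : IsMulCommutative A) :
    IsMulCommutative ↥(A.map f) := by
  rw [isMulCommutative_iff]
  rintro ⟨_, ⟨a, ha, rfl⟩⟩ ⟨_, ⟨b, hb, rfl⟩⟩
  apply Subtype.ext
  show f a * f b = f b * f a
  rw [← map_mul, ← map_mul, comm_of_mem hA ha hb]

theorem commCase_map (f : G →* H) {S : Set (Subgroup G)} {A B : Subgroup G}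
    (h : RootCommutatorCase S A B) :
    RootCommutatorCase ((fun A : Subgroup G => A.map f) '' S) (A.map f) (B.map f) := by
  obtain ⟨h1, h2, h3, h4⟩ := h
  refine ⟨?_, ?_, ?_, ?_⟩
  · rw [← Subgroup.map_commutator]
    exact ⟨_, h1, rfl⟩
  · rw [← Subgroup.map_commutator, ← Subgroup.map_sup]
    rintro _ ⟨c, hc, rfl⟩ _ ⟨x, hx, rfl⟩
    rw [← map_mul, ← map_mul, h2 c hc x hx]
  · rintro _ ⟨a, ha, rfl⟩ ha1
    have ha1' : a ≠ 1 := by
      rintro rfl
      exact ha1 (map_one f)
    have h5 := h3 a ha ha1'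
    rw [← Subgroup.map_commutator, ← h5, MonoidHom.map_closure, Subgroup.coe_map,
      Set.image_image, Set.image_image]
    congr 1
    apply Set.image_congr
    intro b _
    simp
  · rintro _ ⟨b, hb, rfl⟩ hb1
    have hb1' : b ≠ 1 := by
      rintro rfl
      exact hb1 (map_one f)
    have h5 := h4 b hb hb1'
    rw [← Subgroup.map_commutator, ← h5, MonoidHom.map_closure, Subgroup.coe_map,
      Set.image_image, Set.image_image]
    congr 1
    apply Set.image_congr
    intro a _
    simp

theorem s5035 {S : Set (Subgroup G)} (hS : Cfsg.IsRootSubgroupSet S)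
    (hc : Cfsg.IsConnectedFamily (Cfsg.FAdj S) S) (f : G →* H) (hf : Function.Surjective f) :
    (Cfsg.IsRootSubgroupSet ((fun A : Subgroup G => A.map f) '' S) ∧
      Cfsg.IsConnectedFamily (Cfsg.FAdj ((fun A : Subgroup G => A.map f) '' S))
        ((fun A : Subgroup G => A.map f) '' S)) ∨
    ∃ A ∈ S, A.map f = ⊤ := by
  have hgen : (⨆ A ∈ S, A.map f) = ⊤ := by
    have h1 := congrArg (Subgroup.map f) hS.generates
    rw [Subgroup.map_top_of_surjective f hf, Subgroup.map_iSup] at h1
    rw [← h1]
    congr 1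
    ext A
    rw [Subgroup.map_iSup]
  by_cases hbot : ∃ A₀ ∈ S, A₀.map f = ⊥
  · right
    obtain ⟨A₀, hA₀, hA₀b⟩ := hbot
    have hall : ∀ A ∈ S, A.map f = ⊥ := by
      intro A hA
      have hpath := hc A₀ hA₀ A hA
      induction hpath with
      | refl => exact hA₀b
      | tail _ hstep ih =>
        obtain ⟨hb, -, hr⟩ := hstep
        obtain ⟨x, -, hx⟩ := right_eq_conjBy hr
        rw [hx, map_conjBy, ih hb, conjBy_bot]
    refine ⟨A₀, hA₀, ?_⟩
    rw [hA₀b, ← hgen]
    symm
    rw [eq_bot_iff]
    apply iSup₂_le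
    intro A hA
    rw [hall A hA]
  · left
    push Not at hbot
    constructor
    · refine ⟨?_, ?_, ?_, ?_, ?_⟩
      · rintro _ ⟨A, hA, rfl⟩
        exact comm_map f (hS.commutative A hA)
      · rintro _ ⟨A, hA, rfl⟩
        exact hbot A hA
      · rw [iSup_image]
        exact hgen
      · rintro _ ⟨A, hA, rfl⟩ h
        obtain ⟨g, rfl⟩ := hf h
        exact ⟨conjBy A g, hS.conj_mem A hA g, map_conjBy f A g⟩
      · rintro _ ⟨A, hA, rfl⟩ _ ⟨B, hB, rfl⟩
        rcases hS.pair A hA B hB with h | h | h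
        · left
          show ⁅A.map f, B.map f⁆ = ⊥
          rw [← Subgroup.map_commutator, h, Subgroup.map_bot]
        · by_cases hne : A.map f = B.map f
          · left
            show ⁅A.map f, B.map f⁆ = ⊥
            rw [← hne, eq_bot_iff, Subgroup.commutator_le]
            intro x hx y hy
            rw [Subgroup.mem_bot, commutatorElement_eq_one_iff_mul_comm]
            exact comm_of_mem (comm_map f (hS.commutative A hA)) hx hy
          · right; left
            exact rankOne_map f h hne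
        · right; right
          exact commCase_map f h
    · rintro _ ⟨A, hA, rfl⟩ _ ⟨B, hB, rfl⟩
      have hpath := hc A hA B hB
      refine Relation.ReflTransGen.lift' (fun A : Subgroup G => A.map f) ?_ A B hpath
      intro C D hCD
      obtain ⟨hC, hD, hr⟩ := hCD
      by_cases hne : C.map f = D.map f
      · show Relation.ReflTransGen _ (C.map f) (D.map f)
        rw [hne]
      · exact Relation.ReflTransGen.single ⟨⟨C, hC, rfl⟩, ⟨D, hD, rfl⟩, rankOne_map f hr hne⟩

end Cfsg.Agent.Lib_helper9_RootImage
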