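import Mathlib
import Cfsg.Prelude.Def_RootSubgroups
import Cfsg.Agent.Lib_helper9_RankOne
import Cfsg.Agent.Lib_helper9_RootSub

set_option autoImplicit false

namespace Cfsg.Agent.Lib_helper9_RootSub2

open Cfsg
open Cfsg.Agent.Lib_helper9_RankOne
open Cfsg.Agent.Lib_helper9_RootSub
open scoped commutatorElement

variable {G : Type*} [Group G]

theorem inf_eq_bot {A C : Subgroup G} (h : IsRankOnePair A C) : A ⊓ C = ⊥ := by
  rw [eq_bot_iff, ← inf_normalizer_left h]
  exact inf_le_inf_left A Subgroup.le_normalizer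

/-- In a rank one pair no two non-identity elements commute. -/
theorem no_comm {A C : Subgroup G} (h : IsRankOnePair A C) {a c : G} (ha : a ∈ A) (ha1 : a ≠ 1)
    (hc : c ∈ C) (hc1 : c ≠ 1) (hac : a * c = c * a) : False := by
  obtain ⟨c₁, hc₁, -, e⟩ := h.cond_left a ha ha1
  have h1 : c ∈ conjBy C a⁻¹ := by
    rw [mem_conjBy, inv_inv, hac, mul_inv_cancel_right]
    exact hc
  rw [← e, mem_conjBy, inv_inv] at h1
  have h2 : c₁ * c * c₁⁻¹ ∈ A ⊓ C := ⟨h1, C.mul_mem (C.mul_mem hc₁ hc) (C.inv_mem hc₁)⟩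
  rw [inf_eq_bot h, Subgroup.mem_bot] at h2
  apply hc1
  have : c = c₁⁻¹ * (c₁ * c * c₁⁻¹) * c₁ := by group
  rw [this, h2]; group

theorem centralizes_of_mul {S : Set (Subgroup G)} (hS : IsRootSubgroupSet S)
    (hdeg : IsDegenerateRootSet S) {a b : G} {A B C : Subgroup G} (hA : A ∈ S) (hB : B ∈ S)
    (hC : C ∈ S) (haA : a ∈ A) (hbB : b ∈ B) (ha1 : a ≠ 1) (hb1 : b ≠ 1)
    (hab : a * b = b * a) (hab1 : a * b ≠ 1) (hcent : ∀ c ∈ C, c * (a * b) = (a * b) * c) :
    ∀ c ∈ C, c * a = a * c := by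
  rcases hS.pair A hA C hC with h | h | h
  · intro c hc; exact (comm_of_commutator_eq_bot h haA hc).symm
  · exfalso
    rcases hS.pair B hB C hC with h' | h' | h'
    · obtain ⟨c, hcC, hc1⟩ := exists_ne_one_left (RankOnePair_symm h)
      have hcb : b * c = c * b := comm_of_commutator_eq_bot h' hbB hcC
      have hca : a * c = c * a := by
        have h1 := hcent c hcC
        calc a * c = a * (b * c) * b⁻¹ := by rw [hcb]; group
          _ = (a * b) * c * b⁻¹ := by group
          _ = c * (a * b) * b⁻¹ := by rw [h1]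
          _ = c * a := by group
      exact no_comm h haA ha1 hcC hc1 hca
    · obtain ⟨c₂, hc₂, -, e₂⟩ := h'.cond_left b hbB hb1
      obtain ⟨c₃, hc₃, -, e₃⟩ := h.cond_left a⁻¹ (A.inv_mem haA) (by simpa using ha1)
      rw [inv_inv] at e₃
      have hCab : conjBy C (a * b)⁻¹ = C := by
        rw [← mem_normalizer_iff_conjBy]
        apply Subgroup.inv_mem
        apply mem_normalizer_of_comm
        intro c hc
        exact (hcent c hc).symm
      have e4 : conjBy C b⁻¹ = conjBy C a := by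
        conv_rhs => rw [← hCab, conjBy_conjBy]
        congr 1
        rw [hab]; group
      have e5 : B = conjBy A (c₂ * c₃⁻¹) := by
        have h1 : conjBy B c₂⁻¹ = conjBy A c₃⁻¹ := by rw [e₂, e4, e₃]
        have h2 := conjBy_eq_iff.mp h1
        rw [h2, conjBy_conjBy, inv_inv]
      by_cases hc' : c₂ * c₃⁻¹ = 1
      · rw [hc', conjBy_one] at e5
        subst e5
        obtain ⟨c, hcC, hc1⟩ := exists_ne_one_left (RankOnePair_symm h)
        exact no_comm h (B.mul_mem haA hbB) hab1 hcC hc1 (hcent c hcC).symm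
      · rcases hS.pair A hA B hB with h'' | h'' | h''
        · obtain ⟨a', ha', -, e6⟩ := h.cond_right (c₂ * c₃⁻¹)⁻¹
            (C.inv_mem (C.mul_mem hc₂ (C.inv_mem hc₃))) (fun h0 => hc' (inv_eq_one.mp h0))
          rw [inv_inv] at e6
          obtain ⟨c, hcC, hc1⟩ := exists_ne_one_left (RankOnePair_symm h)
          have h1 : a'⁻¹ * c * a' ∈ B := by
            rw [e5, ← e6, mem_conjBy]
            simpa [mul_assoc] using hcC
          have h2 := comm_of_commutator_eq_bot h'' haA h1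
          refine no_comm h (a := a' * a * a'⁻¹) (A.mul_mem (A.mul_mem ha' haA) (A.inv_mem ha')) ?_
            hcC hc1 ?_
          · intro h3; apply ha1
            have : a = a'⁻¹ * (a' * a * a'⁻¹) * a' := by group
            rw [this, h3]; group
          · calc a' * a * a'⁻¹ * c = a' * (a * (a'⁻¹ * c * a')) * a'⁻¹ := by group
              _ = a' * ((a'⁻¹ * c * a') * a) * a'⁻¹ := by rw [h2]
              _ = c * (a' * a * a'⁻¹) := by group
        · exact no_comm h'' haA ha1 hbB hb1 hab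
        · exact hdeg A hA B hB h''
    · exact hdeg B hB C hC h'
  · exact absurd h (hdeg A hA C hC)

theorem le_centralizer_zpowers_iff {C : Subgroup G} {x : G} :
    C ≤ Subgroup.centralizer (Subgroup.zpowers x : Set G) ↔ ∀ c ∈ C, c * x = x * c := by
  rw [Subgroup.le_centralizer_iff, Subgroup.zpowers_le, Subgroup.mem_centralizer_iff]
  rfl

theorem s5026 {S : Set (Subgroup G)} (hS : Cfsg.IsRootSubgroupSet S)
    (hdeg : Cfsg.IsDegenerateRootSet S)
    {a b : G} (ha : a ∈ Cfsg.rootElements S) (hb : b ∈ Cfsg.rootElements S) (hab : a * b = b * a)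
    (hab1 : a * b ≠ 1) :
    Cfsg.centralizingMembers S (Subgroup.zpowers (a * b)) =
      Cfsg.centralizingMembers S (Subgroup.zpowers a) ∩
        Cfsg.centralizingMembers S (Subgroup.zpowers b) := by
  obtain ⟨ha1, A, hA, haA⟩ := ha
  obtain ⟨hb1, B, hB, hbB⟩ := hb
  ext C
  simp only [centralizingMembers, Set.mem_setOf_eq, Set.mem_inter_iff, le_centralizer_zpowers_iff]
  constructor
  · rintro ⟨hC, h⟩
    have h1 := centralizes_of_mul hS hdeg hA hB hC haA hbB ha1 hb1 hab hab1 h
    have h2 : ∀ c ∈ C, c * b = b * c := by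
      apply centralizes_of_mul hS hdeg hB hA hC hbB haA hb1 ha1 hab.symm (by rw [← hab]; exact hab1)
      intro c hc; rw [← hab]; exact h c hc
    exact ⟨⟨hC, h1⟩, ⟨hC, h2⟩⟩
  · rintro ⟨⟨hC, h1⟩, ⟨-, h2⟩⟩
    refine ⟨hC, fun c hc => ?_⟩
    rw [← mul_assoc, h1 c hc, mul_assoc, h2 c hc, mul_assoc]

end Cfsg.Agent.Lib_helper9_RootSub2
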