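import Mathlib
import Cfsg.Prelude.Def_OddOrderLocal
import Cfsg.Agent.Lib_helper9_Dade2

set_option autoImplicit false

namespace Cfsg.Agent.Lib_helper9_SNC

open Cfsg.Agent.Lib_helper9_Dade2

theorem comm_of_cyclic {L : Type*} [Group L] (W : Subgroup L) [IsCyclic W] (x y : L)
    (hx : x ∈ W) (hy : y ∈ W) : x * y = y * x := by
  obtain ⟨g, hg⟩ := IsCyclic.exists_generator (α := ↥W)
  obtain ⟨i, hi⟩ := Subgroup.mem_zpowers_iff.mp (hg ⟨x, hx⟩)
  obtain ⟨j, hj⟩ := Subgroup.mem_zpowers_iff.mp (hg ⟨y, hy⟩)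
  have hx' : x = (g : L) ^ i := by
    have := congrArg Subtype.val hi
    simpa using this.symm
  have hy' : y = (g : L) ^ j := by
    have := congrArg Subtype.val hj
    simpa using this.symm
  rw [hx', hy']
  exact zpow_mul_comm _ i j

theorem s1510 {L : Type*} [Group L] [Finite L] (K W₁ W₂ : Subgroup L) [hK : K.Normal]
    (hKW₁ : K ⊓ W₁ = ⊥) (hKW₁' : K ⊔ W₁ = ⊤) (hW₁ : W₁ ≠ ⊥) (hW₁c : IsCyclic W₁)
    (hHall : Nat.Coprime (Nat.card W₁) W₁.index) (hW₂ : W₂ ≠ ⊥) (hW₂c : IsCyclic W₂)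
    (hW₂K : W₂ ≤ K)
    (hC : ∀ x ∈ W₁, x ≠ 1 → K ⊓ Subgroup.centralizer ({x} : Set L) = W₂) :
    Cfsg.IsSelfNormalizingCyclic W₁ W₂ := by
  have hdisj : W₁ ⊓ W₂ = ⊥ := by
    apply le_antisymm _ bot_le
    rw [← hKW₁]
    exact le_inf (inf_le_right.trans hW₂K) inf_le_left
  have hcomm : ∀ a ∈ W₁, ∀ b ∈ W₂, a * b = b * a := by
    intro a ha b hb
    by_cases ha1 : a = 1
    · rw [ha1]; simp
    · have hb' : b ∈ K ⊓ Subgroup.centralizer ({a} : Set L) := by rw [hC a ha ha1]; exact hb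
      exact Subgroup.mem_centralizer_iff.mp hb'.2 a (Set.mem_singleton a)
  have hcompl : Subgroup.IsComplement' K W₁ := by
    apply Subgroup.isComplement'_of_disjoint_and_mul_eq_univ (disjoint_iff.mpr hKW₁)
    rw [← Subgroup.normal_mul, hKW₁']
    rfl
  have hKcard : W₁.index = Nat.card K := hcompl.index_eq_card
  have hcop : (Nat.card W₁).Coprime (Nat.card W₂) := by
    rw [hKcard] at hHall
    exact Nat.Coprime.coprime_dvd_right (Subgroup.card_dvd_of_le hW₂K) hHall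
  have hn12 : ∀ m ∈ W₂, ∀ k ∈ W₁, m * k * m⁻¹ ∈ W₁ := by
    intro m hm k hk
    have : m * k * m⁻¹ = k := by rw [← hcomm k hk m hm]; group
    rw [this]; exact hk
  -- powers
  have hpow1 : ∀ a ∈ W₁, ∀ b ∈ W₂, (a * b) ^ (Nat.card W₂) = a ^ (Nat.card W₂) := by
    intro a ha b hb
    have hc : Commute a b := hcomm a ha b hb
    rw [hc.mul_pow, orderOf_dvd_iff_pow_eq_one.mp (Subgroup.orderOf_dvd_natCard _ hb), mul_one]
  have hpow2 : ∀ a ∈ W₁, ∀ b ∈ W₂, (a * b) ^ (Nat.card W₁) = b ^ (Nat.card W₁) := by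
    intro a ha b hb
    have hc : Commute a b := hcomm a ha b hb
    rw [hc.mul_pow, orderOf_dvd_iff_pow_eq_one.mp (Subgroup.orderOf_dvd_natCard _ ha), one_mul]
  -- a generator of the join
  have hgenW : ∃ c : L, W₁ ⊔ W₂ = Subgroup.zpowers c := by
    obtain ⟨a, ha⟩ := IsCyclic.exists_generator (α := ↥W₁)
    obtain ⟨b, hb⟩ := IsCyclic.exists_generator (α := ↥W₂)
    have hgenA : ∀ x ∈ W₁, x ∈ Subgroup.zpowers (a : L) := by
      intro x hx
      obtain ⟨i, hi⟩ := Subgroup.mem_zpowers_iff.mp (ha ⟨x, hx⟩)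
      rw [Subgroup.mem_zpowers_iff]
      exact ⟨i, by simpa using congrArg Subtype.val hi⟩
    have hgenB : ∀ x ∈ W₂, x ∈ Subgroup.zpowers (b : L) := by
      intro x hx
      obtain ⟨i, hi⟩ := Subgroup.mem_zpowers_iff.mp (hb ⟨x, hx⟩)
      rw [Subgroup.mem_zpowers_iff]
      exact ⟨i, by simpa using congrArg Subtype.val hi⟩
    have haz : (a : L) ∈ Subgroup.zpowers ((a : L) * (b : L)) := by
      have hco : (Nat.card W₂).Coprime (orderOf (a : L)) :=
        (Nat.Coprime.coprime_dvd_left (Subgroup.orderOf_dvd_natCard _ a.2) hcop).symm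
      obtain ⟨m, hm⟩ := exists_pow_eq_self_of_coprime hco
      have h1 : ((((a : L) * (b : L)) ^ (Nat.card W₂)) ^ m) ∈
          Subgroup.zpowers ((a : L) * (b : L)) :=
        Subgroup.pow_mem _ (Subgroup.pow_mem _ (Subgroup.mem_zpowers _) _) _
      rw [hpow1 _ a.2 _ b.2, hm] at h1
      exact h1
    have hbz : (b : L) ∈ Subgroup.zpowers ((a : L) * (b : L)) := by
      have hco : (Nat.card W₁).Coprime (orderOf (b : L)) :=
        Nat.Coprime.coprime_dvd_right (Subgroup.orderOf_dvd_natCard _ b.2) hcop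
      obtain ⟨m, hm⟩ := exists_pow_eq_self_of_coprime hco
      have h1 : ((((a : L) * (b : L)) ^ (Nat.card W₁)) ^ m) ∈
          Subgroup.zpowers ((a : L) * (b : L)) :=
        Subgroup.pow_mem _ (Subgroup.pow_mem _ (Subgroup.mem_zpowers _) _) _
      rw [hpow2 _ a.2 _ b.2, hm] at h1
      exact h1
    refine ⟨(a : L) * (b : L), le_antisymm (sup_le
      (fun x hx => (Subgroup.zpowers_le.mpr haz) (hgenA x hx))
      (fun x hx => (Subgroup.zpowers_le.mpr hbz) (hgenB x hx))) ?_⟩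
    rw [Subgroup.zpowers_le]
    exact mul_mem ((le_sup_left : W₁ ≤ W₁ ⊔ W₂) a.2) ((le_sup_right : W₂ ≤ W₁ ⊔ W₂) b.2)
  obtain ⟨c, hc⟩ := hgenW
  have hWcomm : ∀ x ∈ W₁ ⊔ W₂, ∀ y ∈ W₁ ⊔ W₂, x * y = y * x := by
    intro x hx y hy
    rw [hc] at hx hy
    obtain ⟨i, rfl⟩ := Subgroup.mem_zpowers_iff.mp hx
    obtain ⟨j, rfl⟩ := Subgroup.mem_zpowers_iff.mp hy
    exact zpow_mul_comm _ i j
  refine ⟨hW₁, hW₂, hdisj, hcomm, ?_, ?_⟩
  · rw [hc]; infer_instance
  · intro X hX hXne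
    apply le_antisymm
    · intro g hg
      obtain ⟨w, hw⟩ := hXne
      have hwW := (hX hw).1
      have hwn : w ∉ (↑W₁ ∪ ↑W₂ : Set L) := (hX hw).2
      have hgw : g * w * g⁻¹ ∈ X := (Subgroup.mem_set_normalizer_iff.mp hg w).mp hw
      have hgwW := (hX hgw).1
      obtain ⟨a, ha, b, hb, rfl⟩ := decomp W₁ W₂ hn12 w hwW
      obtain ⟨a', ha', b', hb', e'⟩ := decomp W₁ W₂ hn12 _ hgwW
      have ha1 : a ≠ 1 := by
        intro h
        apply hwn
        right
        rw [h, one_mul]; exact hb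
      have han : a ^ (Nat.card W₂) ≠ 1 := by
        intro h
        apply ha1
        have o1 : orderOf a ∣ Nat.card W₂ := orderOf_dvd_of_pow_eq_one h
        have o2 : orderOf a ∣ Nat.card W₁ := Subgroup.orderOf_dvd_natCard _ ha
        exact orderOf_eq_one_iff.mp (Nat.eq_one_of_dvd_coprimes hcop o2 o1)
      have hconj : g * a ^ (Nat.card W₂) * g⁻¹ = a' ^ (Nat.card W₂) := by
        rw [← hpow1 a ha b hb, ← conj_pow, e', hpow1 a' ha' b' hb']
      have hgtop : g ∈ K ⊔ W₁ := by rw [hKW₁']; trivial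
      obtain ⟨k, hk, u, hu, rfl⟩ := decomp K W₁ (fun m _ k hk => hK.conj_mem k hk m) g hgtop
      have hãW : a ^ (Nat.card W₂) ∈ W₁ := W₁.pow_mem ha _
      have hu' : u * a ^ (Nat.card W₂) * u⁻¹ = a ^ (Nat.card W₂) := by
        rw [comm_of_cyclic W₁ u _ hu hãW]; group
      have hk' : k * a ^ (Nat.card W₂) * k⁻¹ = a' ^ (Nat.card W₂) := by
        rw [← hconj]
        have : k * u * a ^ (Nat.card W₂) * (k * u)⁻¹
            = k * (u * a ^ (Nat.card W₂) * u⁻¹) * k⁻¹ := by group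
        rw [this, hu']
      have hcomm1 : k * a ^ (Nat.card W₂) * k⁻¹ * (a ^ (Nat.card W₂))⁻¹ ∈ K ⊓ W₁ := by
        constructor
        · have : k * a ^ (Nat.card W₂) * k⁻¹ * (a ^ (Nat.card W₂))⁻¹
              = k * (a ^ (Nat.card W₂) * k⁻¹ * (a ^ (Nat.card W₂))⁻¹) := by group
          rw [this]
          exact K.mul_mem hk (hK.conj_mem _ (K.inv_mem hk) _)
        · rw [hk']
          exact W₁.mul_mem (W₁.pow_mem ha' _) (W₁.inv_mem hãW)
      rw [hKW₁, Subgroup.mem_bot] at hcomm1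
      have hkc : k ∈ K ⊓ Subgroup.centralizer ({a ^ (Nat.card W₂)} : Set L) := by
        have hkc' : k ∈ Subgroup.centralizer ({a ^ (Nat.card W₂)} : Set L) := by
          rw [Subgroup.mem_centralizer_iff]
          intro z hz
          rw [Set.mem_singleton_iff] at hz
          rw [hz]
          have h2 : k * a ^ (Nat.card W₂) * k⁻¹ * (a ^ (Nat.card W₂))⁻¹ * (a ^ (Nat.card W₂) * k)
              = a ^ (Nat.card W₂) * k := by rw [hcomm1, one_mul]
          rw [← h2]; group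
        exact Subgroup.mem_inf.mpr ⟨hk, hkc'⟩
      rw [hC _ hãW han] at hkc
      exact mul_mem ((le_sup_right : W₂ ≤ W₁ ⊔ W₂) hkc) ((le_sup_left : W₁ ≤ W₁ ⊔ W₂) hu)
    · rw [Subgroup.le_set_normalizer_iff]
      intro h hh x hx
      have : h * x * h⁻¹ = x := by
        rw [hWcomm h hh x (hX hx).1]; group
      rw [this]; exact hx

end Cfsg.Agent.Lib_helper9_SNC
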