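import Mathlib

set_option autoImplicit false

namespace Cfsg.Agent.Lib_helper9_Stab2

section

variable {q : ℕ} [Fact q.Prime] {V : Type*} [AddCommGroup V] [Module (ZMod q) V]
  {G : Type*} [Group G] (ρ : G →* (V ≃ₗ[ZMod q] V))

theorem uniq (hstab : ∀ v : V, v ≠ 0 → Nat.card {g : G // ρ g v = v} = 2)
    {v : V} (hv : v ≠ 0) {g h : G} (hg : g ≠ 1) (hh : h ≠ 1) (hgv : ρ g v = v)
    (hhv : ρ h v = v) : g = h := by
  have h1v : ρ (1 : G) v = v := by rw [map_one]; rfl
  obtain ⟨y, -, hy⟩ := (Nat.card_eq_two_iff' (⟨1, h1v⟩ : {g : G // ρ g v = v})).mp (hstab v hv)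
  have e1 := hy ⟨g, hgv⟩ (fun e => hg (congrArg Subtype.val e))
  have e2 := hy ⟨h, hhv⟩ (fun e => hh (congrArg Subtype.val e))
  exact congrArg Subtype.val (e1.trans e2.symm)

theorem exists_inv (hstab : ∀ v : V, v ≠ 0 → Nat.card {g : G // ρ g v = v} = 2)
    {v : V} (hv : v ≠ 0) : ∃ t : G, t ≠ 1 ∧ ρ t v = v ∧ t * t = 1 := by
  have h1v : ρ (1 : G) v = v := by rw [map_one]; rfl
  obtain ⟨y, hy1, -⟩ := (Nat.card_eq_two_iff' (⟨1, h1v⟩ : {g : G // ρ g v = v})).mp (hstab v hv)
  have ht1 : y.1 ≠ 1 := fun e => hy1 (Subtype.ext e)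
  refine ⟨y.1, ht1, y.2, ?_⟩
  by_contra hne
  have hfix : ρ (y.1 * y.1) v = v := by rw [map_mul, LinearEquiv.mul_apply, y.2, y.2]
  have := uniq ρ hstab hv hne ht1 hfix y.2
  exact ht1 (by simpa using this)

theorem central_neg [Nontrivial V] (hρ : Function.Injective ρ)
    (hstab : ∀ v : V, v ≠ 0 → Nat.card {g : G // ρ g v = v} = 2)
    (z : G) (hz1 : z ≠ 1) (hz2 : z * z = 1) (hzc : ∀ g, g * z = z * g) :
    (2 : ZMod q) ≠ 0 ∧ ∀ v, ρ z v = -v := by
  have hzz : ∀ v, ρ z (ρ z v) = v := by
    intro v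
    rw [← LinearEquiv.mul_apply, ← map_mul, hz2, map_one]; rfl
  have hcomm : ∀ g v, ρ g (ρ z v) = ρ z (ρ g v) := by
    intro g v
    rw [← LinearEquiv.mul_apply, ← map_mul, hzc g, map_mul]; rfl
  have hnot : ∃ v, ρ z v ≠ v := by
    by_contra hcon
    push Not at hcon
    apply hz1
    apply hρ
    ext v
    rw [hcon v, map_one]; rfl
  obtain ⟨v', hv'⟩ := hnot
  by_cases h2 : (2 : ZMod q) = 0
  · exfalso
    have hneg : ∀ v : V, -v = v := by
      intro v
      have : (2 : ZMod q) • v = 0 := by rw [h2, zero_smul]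
      rw [two_smul] at this
      exact neg_eq_of_add_eq_zero_left this
    have hv0 : v' ≠ 0 := by rintro rfl; exact hv' (map_zero _)
    obtain ⟨w, hw⟩ : ∃ w, w = v' + ρ z v' := ⟨_, rfl⟩
    have hzw : ρ z w = w := by rw [hw, map_add, hzz, add_comm]
    have hw0 : w ≠ 0 := by
      intro h0
      apply hv'
      rw [hw] at h0
      have := eq_neg_of_add_eq_zero_right h0
      rw [this, hneg]
    obtain ⟨t, ht1, htv, htt⟩ := exists_inv ρ hstab hv0
    have htz : t ≠ z := by rintro rfl; exact hv' htv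
    have hu : ρ t (w + ρ t w) = w + ρ t w := by
      have : ρ t (ρ t w) = w := by
        rw [← LinearEquiv.mul_apply, ← map_mul, htt, map_one]; rfl
      rw [map_add, this, add_comm]
    have hzu : ρ z (w + ρ t w) = w + ρ t w := by
      rw [map_add, ← hcomm, hzw]
    by_cases hu0 : w + ρ t w = 0
    · have : ρ t w = w := by
        have := eq_neg_of_add_eq_zero_right hu0
        rw [this, hneg]
      exact htz (uniq ρ hstab hw0 ht1 hz1 this hzw)
    · exact htz (uniq ρ hstab hu0 ht1 hz1 hu hzu)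
  · refine ⟨h2, ?_⟩
    have tf : ∀ v : V, v + v = 0 → v = 0 := by
      intro v hv
      rw [← two_smul (ZMod q)] at hv
      rcases smul_eq_zero.mp hv with h | h
      · exact absurd h h2
      · exact h
    by_contra hcon
    push Not at hcon
    obtain ⟨v, hv⟩ := hcon
    obtain ⟨w, hw⟩ : ∃ w, w = v + ρ z v := ⟨_, rfl⟩
    have hzw : ρ z w = w := by rw [hw, map_add, hzz, add_comm]
    have hw0 : w ≠ 0 := by
      intro h0
      rw [hw] at h0
      exact hv (eq_neg_of_add_eq_zero_right h0)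
    obtain ⟨y, hy⟩ : ∃ y, y = v' - ρ z v' := ⟨_, rfl⟩
    have hzy : ρ z y = -y := by rw [hy, map_sub, hzz, neg_sub]
    have hy0 : y ≠ 0 := by
      intro h0; rw [hy] at h0; exact hv' (sub_eq_zero.mp h0).symm
    have hx0 : y + w ≠ 0 := by
      intro h0
      have h1 : ρ z (y + w) = 0 := by rw [h0, map_zero]
      rw [map_add, hzy, hzw] at h1
      apply hw0
      apply tf
      have : (y + w) + (-y + w) = 0 := by rw [h0, h1, add_zero]
      rw [← this]; abel
    obtain ⟨s, hs1, hsx, hss⟩ := exists_inv ρ hstab hx0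
    have hszx : ρ s (-y + w) = -y + w := by
      have := congrArg (ρ z) hsx
      rw [← hcomm, map_add, hzy, hzw] at this
      exact this
    have hsw : ρ s w = w := by
      have h1 : ρ s ((y + w) + (-y + w)) = (y + w) + (-y + w) := by rw [map_add, hsx, hszx]
      have h2' : (y + w) + (-y + w) = w + w := by abel
      rw [h2', map_add] at h1
      have : (ρ s w - w) + (ρ s w - w) = 0 := by
        have e : (ρ s w - w) + (ρ s w - w) = (ρ s w + ρ s w) - (w + w) := by abel
        rw [e, h1, sub_self]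
      exact sub_eq_zero.mp (tf _ this)
    have hsz : s = z := uniq ρ hstab hw0 hs1 hz1 hsw hzw
    rw [hsz, map_add, hzy, hzw] at hsx
    apply hy0
    apply tf
    have : y + y = (y + w) - (-y + w) := by abel
    rw [this, hsx, sub_self]

end

section main

variable {q : ℕ} [Fact q.Prime] {V : Type*} [AddCommGroup V] [Module (ZMod q) V] [Fintype V]
  {G : Type*} [Group G] (ρ : G →* (V ≃ₗ[ZMod q] V))

open Classical in
/-- fixed points as a finset -/
noncomputable def P (g : G) : Finset V := Finset.univ.filter (fun v => ρ g v = v)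

theorem mem_P (g : G) (v : V) : v ∈ P ρ g ↔ ρ g v = v := by
  classical
  simp [P]

theorem zero_mem_P (g : G) : (0 : V) ∈ P ρ g := by rw [mem_P]; exact map_zero _

theorem card_mul_le (hstab : ∀ v : V, v ≠ 0 → Nat.card {g : G // ρ g v = v} = 2)
    {g h : G} (hg : g ≠ 1) (hh : h ≠ 1) (hgh : g ≠ h) :
    (P ρ g).card * (P ρ h).card ≤ Fintype.card V := by
  classical
  rw [← Finset.card_product, ← Finset.card_univ]
  apply Finset.card_le_card_of_injOn (fun p : V × V => p.1 + p.2)
  · intro p _; exact Finset.mem_coe.mpr (Finset.mem_univ _)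
  · rintro ⟨a, b⟩ hab ⟨a', b'⟩ hab' e
    rw [Finset.mem_coe, Finset.mem_product, mem_P, mem_P] at hab hab'
    dsimp only at e hab hab'
    have hd : a - a' = b' - b := by
      rw [sub_eq_sub_iff_add_eq_add, e, add_comm]
    have hg' : ρ g (a - a') = a - a' := by rw [map_sub, hab.1, hab'.1]
    have hh' : ρ h (a - a') = a - a' := by rw [hd, map_sub, hab'.2, hab.2]
    have h0 : a - a' = 0 := by
      by_contra hne
      exact hgh (uniq ρ hstab hne hg hh hg' hh')
    have ha : a = a' := sub_eq_zero.mp h0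
    have hb : b = b' := by rw [h0] at hd; exact (sub_eq_zero.mp hd.symm).symm
    rw [ha, hb]

theorem card_le_mul (tf : ∀ v : V, v + v = 0 → v = 0) {z : G} (hneg : ∀ v, ρ z v = -v) {t : G}
    (htt : t * t = 1) :
    Fintype.card V ≤ (P ρ t).card * (P ρ (t * z)).card := by
  classical
  rw [← Finset.card_product, ← Finset.card_univ]
  have htt' : ∀ v, ρ t (ρ t v) = v := by
    intro v; rw [← LinearEquiv.mul_apply, ← map_mul, htt, map_one]; rfl
  apply Finset.card_le_card_of_injOn (fun v : V => (v + ρ t v, v - ρ t v))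
  · intro v _
    rw [Finset.mem_coe, Finset.mem_product, mem_P, mem_P]
    dsimp only
    constructor
    · rw [map_add, htt', add_comm]
    · rw [map_mul, LinearEquiv.mul_apply, hneg, map_neg, map_sub, htt', neg_sub]
  · intro v _ v' _ e
    simp only [Prod.mk.injEq] at e
    obtain ⟨e1, e2⟩ := e
    have : (v - v') + (v - v') = 0 := by
      have e3 : (v - v') + (v - v') =
          ((v + ρ t v) + (v - ρ t v)) - ((v' + ρ t v') + (v' - ρ t v')) := by abel
      rw [e3, e1, e2, sub_self]
    exact sub_eq_zero.mp (tf _ this)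

end main

theorem main (q : ℕ) [Fact q.Prime] {V : Type*} [AddCommGroup V] [Module (ZMod q) V] [Finite V]
    [Nontrivial V]
    {G : Type*} [Group G] [Finite G] (ρ : G →* (V ≃ₗ[ZMod q] V)) (hρ : Function.Injective ρ)
    (hstab : ∀ v : V, v ≠ 0 → Nat.card {g : G // ρ g v = v} = 2)
    (z : G) (hz : orderOf z = 2) (hzc : z ∈ Subgroup.center G) :
    ∃ r : ℕ, Nat.card V = q ^ (2 * r) ∧
      Nat.card {g : G // orderOf g = 2 ∧ g ∉ Subgroup.center G} = q ^ r + 1 := by
  classical
  haveI : Fintype V := Fintype.ofFinite V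
  haveI : Fintype G := Fintype.ofFinite G
  have hz1 : z ≠ 1 := by rintro rfl; simp at hz
  have hz2 : z * z = 1 := by rw [← pow_two, ← hz, pow_orderOf_eq_one]
  have hzc' : ∀ g, g * z = z * g := fun g => Subgroup.mem_center_iff.mp hzc g
  obtain ⟨h2, hneg⟩ := central_neg ρ hρ hstab z hz1 hz2 hzc'
  have tf : ∀ v : V, v + v = 0 → v = 0 := by
    intro v hv
    rw [← two_smul (ZMod q)] at hv
    rcases smul_eq_zero.mp hv with h | h
    · exact absurd h h2
    · exact h
  have hI : ∀ g : G, (orderOf g = 2 ∧ g ∉ Subgroup.center G) ↔ (g * g = 1 ∧ g ≠ 1 ∧ g ≠ z) := by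
    intro g
    constructor
    · rintro ⟨ho, hc⟩
      refine ⟨by rw [← pow_two, ← ho, pow_orderOf_eq_one], ?_, ?_⟩
      · rintro rfl; simp at ho
      · rintro rfl; exact hc hzc
    · rintro ⟨hgg, hg1, hgz⟩
      have ho : orderOf g = 2 := orderOf_eq_prime (by rw [pow_two]; exact hgg) hg1
      refine ⟨ho, fun hc => hgz ?_⟩
      obtain ⟨-, hneg'⟩ := central_neg ρ hρ hstab g hg1 hgg
        (fun x => Subgroup.mem_center_iff.mp hc x)
      apply hρ
      ext v
      rw [hneg, hneg']
  obtain ⟨I, hIdef⟩ : ∃ I : Finset G, I = Finset.univ.filter (fun g => g * g = 1 ∧ g ≠ 1 ∧ g ≠ z) :=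
    ⟨_, rfl⟩
  have hmemI : ∀ g, g ∈ I ↔ (g * g = 1 ∧ g ≠ 1 ∧ g ≠ z) := by intro g; simp [hIdef]
  have hcardI : Nat.card {g : G // orderOf g = 2 ∧ g ∉ Subgroup.center G} = I.card := by
    rw [Nat.card_eq_fintype_card, Fintype.card_subtype]
    congr 1
    ext g
    simp only [Finset.mem_filter, Finset.mem_univ, true_and]
    rw [hmemI]; exact hI g
  have hIz : ∀ t ∈ I, t * z ∈ I := by
    intro t ht
    rw [hmemI] at ht ⊢
    obtain ⟨htt, ht1, htz⟩ := ht
    refine ⟨?_, ?_, ?_⟩
    · calc t * z * (t * z) = t * (z * t) * z := by group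
        _ = t * (t * z) * z := by rw [hzc' t]
        _ = (t * t) * (z * z) := by group
        _ = 1 := by rw [htt, hz2, one_mul]
    · intro h
      apply htz
      have : t = z⁻¹ := eq_inv_of_mul_eq_one_left h
      rw [this]; exact inv_eq_of_mul_eq_one_left hz2
    · intro h
      exact ht1 (by simpa using h)
  have hrt : ∀ t v, ρ (t * z) v = - ρ t v := by
    intro t v
    rw [map_mul, LinearEquiv.mul_apply, hneg, map_neg]
  have hfix : ∀ t ∈ I, ∃ a : V, a ≠ 0 ∧ ρ t a = a := by
    intro t ht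
    obtain ⟨htt, ht1, htz⟩ := (hmemI t).mp ht
    by_contra hcon
    push Not at hcon
    apply htz
    apply hρ
    ext v
    rw [hneg]
    have h1 : ρ t (v + ρ t v) = v + ρ t v := by
      have : ρ t (ρ t v) = v := by rw [← LinearEquiv.mul_apply, ← map_mul, htt, map_one]; rfl
      rw [map_add, this, add_comm]
    have h0 : v + ρ t v = 0 := by
      by_contra hne
      exact hcon _ hne h1
    exact eq_neg_of_add_eq_zero_right h0
  have hthird : ∀ t ∈ I, ∃ s ∈ I, s ≠ t ∧ s ≠ t * z := by
    intro t ht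
    obtain ⟨a, ha0, hta⟩ := hfix t ht
    obtain ⟨b, hb0, htb⟩ := hfix (t * z) (hIz t ht)
    rw [hrt] at htb
    have htb' : ρ t b = -b := neg_eq_iff_eq_neg.mp htb
    have hx0 : a + b ≠ 0 := by
      intro h0
      have h1 : ρ t (a + b) = 0 := by rw [h0, map_zero]
      rw [map_add, hta, htb'] at h1
      apply ha0
      apply tf
      have : a + a = (a + b) + (a + -b) := by abel
      rw [this, h0, h1, add_zero]
    obtain ⟨s, hs1, hsx, hss⟩ := exists_inv ρ hstab hx0
    refine ⟨s, (hmemI s).mpr ⟨hss, hs1, ?_⟩, ?_, ?_⟩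
    · rintro rfl
      rw [hneg] at hsx
      apply hx0
      apply tf
      nth_rewrite 1 [← hsx]; rw [neg_add_cancel]
    · rintro rfl
      rw [map_add, hta, htb'] at hsx
      apply hb0
      apply tf
      have : b + b = (a + b) - (a + -b) := by abel
      rw [this, hsx, sub_self]
    · rintro rfl
      rw [hrt, map_add, hta, htb'] at hsx
      apply ha0
      apply tf
      have : a + a = (a + b) - (-(a + -b)) := by abel
      rw [this, hsx, sub_self]
  have hn : 0 < Fintype.card V := Fintype.card_pos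
  have hsq : ∀ t ∈ I, (P ρ t).card * (P ρ t).card = Fintype.card V := by
    intro t ht
    obtain ⟨s, hs, hst, hstz⟩ := hthird t ht
    obtain ⟨htt, ht1, htz⟩ := (hmemI t).mp ht
    obtain ⟨hss, hs1, hsz⟩ := (hmemI s).mp hs
    obtain ⟨-, htz1, -⟩ := (hmemI _).mp (hIz t ht)
    obtain ⟨-, hsz1, -⟩ := (hmemI _).mp (hIz s hs)
    have e1 := card_le_mul ρ tf hneg htt
    have e2 := card_le_mul ρ tf hneg hss
    have httz : t ≠ t * z := by
      intro h; apply hz1; simpa using h.symm
    have hssz : s ≠ s * z := by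
      intro h; apply hz1; simpa using h.symm
    have e3 := card_mul_le ρ hstab ht1 htz1 httz
    have e4 := card_mul_le ρ hstab hs1 hsz1 hssz
    have e5 := card_mul_le ρ hstab hs1 ht1 hst
    have e6 := card_mul_le ρ hstab hs1 htz1 hstz
    have hszt : s * z ≠ t := by
      intro h
      apply hstz
      rw [← h, mul_assoc, hz2, mul_one]
    have hsztz : s * z ≠ t * z := by
      intro h; exact hst (mul_right_cancel h)
    have e7 := card_mul_le ρ hstab hsz1 ht1 hszt
    have e8 := card_mul_le ρ hstab hsz1 htz1 hsztz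
    obtain ⟨a, ha⟩ : ∃ a, a = (P ρ t).card := ⟨_, rfl⟩
    obtain ⟨b, hb⟩ : ∃ b, b = (P ρ (t * z)).card := ⟨_, rfl⟩
    obtain ⟨c, hc⟩ : ∃ c, c = (P ρ s).card := ⟨_, rfl⟩
    obtain ⟨d, hd⟩ : ∃ d, d = (P ρ (s * z)).card := ⟨_, rfl⟩
    obtain ⟨n, hn'⟩ : ∃ n, n = Fintype.card V := ⟨_, rfl⟩
    rw [← ha, ← hb, ← hn'] at e1 e3
    rw [← hc, ← hd, ← hn'] at e2 e4
    rw [← hc, ← ha, ← hn'] at e5
    rw [← hc, ← hb, ← hn'] at e6
    rw [← hd, ← ha, ← hn'] at e7
    rw [← hd, ← hb, ← hn'] at e8
    rw [← ha, ← hn']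
    rw [← hn'] at hn
    have hab : a * b = n := le_antisymm e3 e1
    have hcd : c * d = n := le_antisymm e4 e2
    have ha0 : 0 < a := by
      rcases Nat.eq_zero_or_pos a with h | h
      · rw [h, zero_mul] at hab; omega
      · exact h
    have hb0 : 0 < b := by
      rcases Nat.eq_zero_or_pos b with h | h
      · rw [h, mul_zero] at hab; omega
      · exact h
    have hca : c ≤ b := by
      have : c * a ≤ b * a := by rw [mul_comm b a, hab]; exact e5
      exact Nat.le_of_mul_le_mul_right this ha0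
    have hcb : c ≤ a := by
      have : c * b ≤ a * b := by rw [hab]; exact e6
      exact Nat.le_of_mul_le_mul_right this hb0
    have hda : d ≤ b := by
      have : d * a ≤ b * a := by rw [mul_comm b a, hab]; exact e7
      exact Nat.le_of_mul_le_mul_right this ha0
    have hdb : d ≤ a := by
      have : d * b ≤ a * b := by rw [hab]; exact e8
      exact Nat.le_of_mul_le_mul_right this hb0
    have : a = b := by
      by_contra hne
      rcases lt_or_gt_of_ne hne with h | h
      · have h1 : c * d ≤ a * a := Nat.mul_le_mul hcb hdb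
        have h2 : a * a < a * b := Nat.mul_lt_mul_of_pos_left h ha0
        omega
      · have h1 : c * d ≤ b * b := Nat.mul_le_mul hca hda
        have h2 : b * b < a * b := Nat.mul_lt_mul_of_pos_right h hb0
        omega
    rw [← this] at hab
    exact hab
  obtain ⟨v0, hv0⟩ := exists_ne (0 : V)
  obtain ⟨t0, ht01, ht0v, ht0t⟩ := exists_inv ρ hstab hv0
  have ht0z : t0 ≠ z := by
    rintro rfl
    rw [hneg] at ht0v
    apply hv0; apply tf
    nth_rewrite 1 [← ht0v]; rw [neg_add_cancel]
  have ht0 : t0 ∈ I := (hmemI t0).mpr ⟨ht0t, ht01, ht0z⟩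
  obtain ⟨a, ha⟩ : ∃ a, a = (P ρ t0).card := ⟨_, rfl⟩
  have haa : a * a = Fintype.card V := by rw [ha]; exact hsq t0 ht0
  have hall : ∀ t ∈ I, (P ρ t).card = a := by
    intro t ht
    have := hsq t ht
    rw [← haa] at this
    exact Nat.mul_self_inj.mp this
  have ha2 : 2 ≤ a := by
    rw [ha]
    have : 1 < (P ρ t0).card := by
      rw [Finset.one_lt_card]
      exact ⟨v0, (mem_P ρ t0 v0).mpr ht0v, 0, zero_mem_P ρ t0, hv0⟩
    exact this
  have hcount : Fintype.card V - 1 = I.card * (a - 1) := by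
    have hex : ∀ v : V, ∃ t : G, v ≠ 0 → (t ≠ 1 ∧ ρ t v = v ∧ t * t = 1) := by
      intro v
      by_cases hv : v = 0
      · exact ⟨1, fun h => absurd hv h⟩
      · obtain ⟨t, ht⟩ := exists_inv ρ hstab hv
        exact ⟨t, fun _ => ht⟩
    choose f hf using hex
    have hfI : ∀ v, v ≠ 0 → f v ∈ I := by
      intro v hv
      obtain ⟨h1, h2', h3⟩ := hf v hv
      refine (hmemI _).mpr ⟨h3, h1, ?_⟩
      intro h
      rw [h, hneg] at h2'
      apply hv; apply tf
      nth_rewrite 1 [← h2']; rw [neg_add_cancel]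
    have hV' : (Finset.univ.filter (fun v : V => v ≠ 0)).card = Fintype.card V - 1 := by
      rw [Finset.filter_ne' Finset.univ (0 : V), Finset.card_erase_of_mem (Finset.mem_univ _),
        Finset.card_univ]
    rw [← hV', Finset.card_eq_sum_card_fiberwise (f := f) (t := I)]
    · apply Finset.sum_const_nat
      intro t ht
      obtain ⟨htt, ht1, htz⟩ := (hmemI t).mp ht
      have : (Finset.univ.filter (fun v : V => v ≠ 0)).filter (fun v => f v = t) =
          (P ρ t).erase 0 := by
        ext v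
        simp only [Finset.mem_filter, Finset.mem_univ, true_and, Finset.mem_erase, mem_P]
        constructor
        · rintro ⟨hv, rfl⟩
          exact ⟨hv, (hf v hv).2.1⟩
        · rintro ⟨hv, htv⟩
          exact ⟨hv, uniq ρ hstab hv (hf v hv).1 ht1 (hf v hv).2.1 htv⟩
      rw [this, Finset.card_erase_of_mem (zero_mem_P ρ t), hall t ht]
    · intro v hv
      simp only [Finset.coe_filter, Finset.mem_univ, true_and, Set.mem_ofPred_eq] at hv
      exact hfI v hv
  have hcardV : Fintype.card V = q ^ Module.finrank (ZMod q) V := by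
    rw [Module.card_eq_pow_finrank (K := ZMod q), ZMod.card]
  have hdvd : a ∣ q ^ Module.finrank (ZMod q) V := by
    rw [← hcardV, ← haa]; exact dvd_mul_right a a
  obtain ⟨r, -, hr⟩ := (Nat.dvd_prime_pow (Fact.out : q.Prime)).mp hdvd
  refine ⟨r, ?_, ?_⟩
  · rw [Nat.card_eq_fintype_card, ← haa, hr]; ring
  · rw [hcardI, ← hr]
    rw [← haa] at hcount
    have h1a : 1 ≤ a := by omega
    have h1aa : 1 ≤ a * a := Nat.mul_pos h1a h1a
    have h3 : (a + 1) * (a - 1) = a * a - 1 := by
      zify [h1a, h1aa]; ring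
    have : I.card * (a - 1) = (a + 1) * (a - 1) := by rw [h3, hcount]
    exact Nat.eq_of_mul_eq_mul_right (by omega) this

end Cfsg.Agent.Lib_helper9_Stab2
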