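import Mathlib
import Cfsg.Agent.Lib_helper1_Coprime
import Cfsg.Agent.Lib_helper9_Dade2

set_option autoImplicit false

namespace Cfsg.Agent.Lib_helper9_StabCl

universe u

/-- conjugation action of a group on itself -/
def conjElts (L : Type*) [Group L] : MulAction L L := MulAction.compHom L (MulAut.conj (G := L))

theorem conjElts_smul (L : Type*) [Group L] (g a : L) :
    @HSMul.hSMul L L L (@instHSMul L L (conjElts L).toSMul) g a = g * a * g⁻¹ := rfl

/-- Glauberman's lemma for a stable conjugacy class -/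
theorem stable_class {L : Type u} [Group L] [Finite L] (K : Subgroup L) [K.Normal] (x : L)
    (hx : Nat.Coprime (orderOf x) (Nat.card K)) (k₀ : L)
    (n : L) (hn : n ∈ K) (h : x * k₀ * x⁻¹ = n * k₀ * n⁻¹) :
    ∃ m ∈ K, x * (m * k₀ * m⁻¹) * x⁻¹ = m * k₀ * m⁻¹ := by
  have hnorm : ∀ m ∈ Subgroup.centralizer ({k₀} : Set L), ∀ k ∈ K, m * k * m⁻¹ ∈ K :=
    fun m _ k hk => Subgroup.Normal.conj_mem inferInstance k hk m
  have hxm : x ∈ K ⊔ Subgroup.centralizer ({k₀} : Set L) := by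
    have e : x = n * (n⁻¹ * x) := by group
    rw [e]
    refine Subgroup.mul_mem _ (Subgroup.mem_sup_left hn) (Subgroup.mem_sup_right ?_)
    rw [Subgroup.mem_centralizer_iff]
    intro z hz
    rw [Set.mem_singleton_iff] at hz
    subst hz
    have e2 : n⁻¹ * x * z = n⁻¹ * (x * z * x⁻¹) * x := by group
    rw [e2, h]; group
  have hz : Subgroup.zpowers x ≤ K ⊔ Subgroup.centralizer ({k₀} : Set L) := by
    rw [Subgroup.zpowers_le]; exact hxm
  have key := @Lib_helper1_Coprime.coprime_fixed_point L _ _ L (conjElts L) (Subgroup.zpowers x) K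
    (by rw [Subgroup.normalizer_eq_top]; exact le_top)
    (by rw [Nat.card_zpowers]; exact hx)
    (Or.inl (Lib_helper1_Coprime.isSolvable_of_isMulCommutative _)) k₀ (by
      intro a ha
      obtain ⟨k, hk, c, hc, rfl⟩ := Lib_helper9_Dade2.decomp K _ hnorm a (hz ha)
      refine ⟨k, hk, ?_⟩
      rw [conjElts_smul, conjElts_smul]
      have hc' := Subgroup.mem_centralizer_iff.mp hc k₀ (Set.mem_singleton k₀)
      have e3 : k * c * k₀ * (k * c)⁻¹ = k * (c * k₀) * c⁻¹ * k⁻¹ := by group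
      rw [e3, ← hc']; group)
  obtain ⟨m, hm, hfix⟩ := key
  refine ⟨m, hm, ?_⟩
  have := hfix x (Subgroup.mem_zpowers x)
  rw [conjElts_smul, conjElts_smul] at this
  exact this

theorem main {L : Type u} [Group L] [Finite L] (K W₂ : Subgroup L) [hK : K.Normal] (x : L)
    (hx1 : x ≠ 1) (hx : Nat.Coprime (orderOf x) (Nat.card K))
    (hC : ∀ y ∈ Subgroup.zpowers x, y ≠ 1 → K ⊓ Subgroup.centralizer ({y} : Set L) = W₂) :
    Nat.card {C : ConjClasses K //
      ConjClasses.map (MulEquiv.toMonoidHom ((MulAut.conjNormal x : MulAut K))) C = C}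
      ≤ Nat.card W₂ := by
  classical
  have hW : W₂ = K ⊓ Subgroup.centralizer ({x} : Set L) :=
    (hC x (Subgroup.mem_zpowers x) hx1).symm
  have key : ∀ C : {C : ConjClasses K //
      ConjClasses.map (MulEquiv.toMonoidHom ((MulAut.conjNormal x : MulAut K))) C = C},
      ∃ w : W₂, ∃ k : K, (k : L) = (w : L) ∧ ConjClasses.mk k = C.1 := by
    rintro ⟨C, hCs⟩
    obtain ⟨k₀, rfl⟩ := ConjClasses.mk_surjective C
    have h1 : ConjClasses.mk ((MulAut.conjNormal x : MulAut K) k₀) = ConjClasses.mk k₀ := hCs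
    rw [ConjClasses.mk_eq_mk_iff_isConj, isConj_iff] at h1
    obtain ⟨c, hc⟩ := h1
    have hc' := congrArg (fun z : ↥K => (z : L)) hc
    simp only [Subgroup.coe_mul, MulAut.conjNormal_apply, InvMemClass.coe_inv] at hc'
    have h2 : x * (k₀ : L) * x⁻¹ = (c : L)⁻¹ * (k₀ : L) * ((c : L)⁻¹)⁻¹ := by
      have e : x * (k₀ : L) * x⁻¹
          = (c : L)⁻¹ * ((c : L) * (x * (k₀ : L) * x⁻¹) * (c : L)⁻¹) * ((c : L)⁻¹)⁻¹ := by group
      exact e.trans (by rw [hc'])
    obtain ⟨m, hm, hfix⟩ := stable_class K x hx (k₀ : L) ((c : L)⁻¹) (K.inv_mem c.2) h2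
    have hmem : m * (k₀ : L) * m⁻¹ ∈ W₂ := by
      rw [hW]
      refine Subgroup.mem_inf.mpr ⟨K.mul_mem (K.mul_mem hm k₀.2) (K.inv_mem hm), ?_⟩
      rw [Subgroup.mem_centralizer_iff]
      intro z hz
      rw [Set.mem_singleton_iff] at hz
      subst hz
      have e : z * (m * (k₀ : L) * m⁻¹) = z * (m * (k₀ : L) * m⁻¹) * z⁻¹ * z := by group
      rw [e, hfix]
    refine ⟨⟨_, hmem⟩, (⟨m, hm⟩ : K) * k₀ * (⟨m, hm⟩ : K)⁻¹, rfl, ?_⟩
    show ConjClasses.mk _ = ConjClasses.mk k₀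
    rw [ConjClasses.mk_eq_mk_iff_isConj]
    exact (isConj_iff.mpr ⟨(⟨m, hm⟩ : K), rfl⟩ :
      IsConj k₀ ((⟨m, hm⟩ : K) * k₀ * (⟨m, hm⟩ : K)⁻¹)).symm
  choose f hf using key
  apply Nat.card_le_card_of_injective f
  intro C D hCD
  obtain ⟨k, hk, hkC⟩ := hf C
  obtain ⟨k', hk', hkD⟩ := hf D
  apply Subtype.ext
  rw [← hkC, ← hkD]
  congr 1
  apply Subtype.ext
  rw [hk, hk', hCD]

end Cfsg.Agent.Lib_helper9_StabCl
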