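import Mathlib
import Cfsg.Prelude.Def_Local
import Cfsg.Agent.Lib_helper2_Comp

set_option autoImplicit false

namespace Cfsg.Agent.Lib_helper9_Std

theorem s1754 {G : Type*} [Group G] [Finite G]
    (A : Subgroup G) (hA : Cfsg.IsStandardSubgroup A) (t : G) (ht : orderOf t = 2)
    (htA : t ∈ Subgroup.centralizer (A : Set G)) :
    Subgroup.centralizer ({t} : Set G) ≤ Subgroup.normalizer (A : Set G) ∧
      Cfsg.IsComponent (A.subgroupOf (Subgroup.centralizer ({t} : Set G))) := by
  obtain ⟨hqs, ⟨_, htight⟩, _, hN⟩ := hA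
  have h1 : Subgroup.centralizer ({t} : Set G) ≤ Subgroup.normalizer (A : Set G) := by
    intro g hg
    rw [hN]
    by_contra hgN
    have hodd := htight g hgN
    have htmem : t ∈ Subgroup.centralizer (A : Set G) ⊓
        (Subgroup.centralizer (A : Set G)).map (MulAut.conj g).toMonoidHom := by
      have hm : t ∈ (Subgroup.centralizer (A : Set G)).map (MulAut.conj g).toMonoidHom := by
        rw [Subgroup.mem_map]
        refine ⟨t, htA, ?_⟩
        have h := Subgroup.mem_centralizer_iff.mp hg t (Set.mem_singleton t)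
        show g * t * g⁻¹ = t
        rw [← h]; group
      exact Subgroup.mem_inf.mpr ⟨htA, hm⟩
    have h2 : 2 ∣ Nat.card ↥(Subgroup.centralizer (A : Set G) ⊓
        (Subgroup.centralizer (A : Set G)).map (MulAut.conj g).toMonoidHom) := by
      have h := Subgroup.orderOf_dvd_natCard _ htmem
      rwa [ht] at h
    exact (Nat.not_even_iff_odd.mpr hodd) (even_iff_two_dvd.mpr h2)
  have hAC : A ≤ Subgroup.centralizer ({t} : Set G) := by
    intro a ha
    rw [Subgroup.mem_centralizer_iff]
    intro x hx
    rw [Set.mem_singleton_iff] at hx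
    subst hx
    exact (Subgroup.mem_centralizer_iff.mp htA a ha).symm
  refine ⟨h1, ?_, ?_⟩
  · have hn : (A.subgroupOf (Subgroup.centralizer ({t} : Set G))).Normal :=
      (Subgroup.normal_subgroupOf_iff_le_normalizer hAC).mpr h1
    exact hn.isSubnormal
  · exact Cfsg.Agent.Lib_helper2_Comp.qs_of_mulEquiv (Subgroup.subgroupOfEquivOfLe hAC).symm hqs

end Cfsg.Agent.Lib_helper9_Std
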