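import Mathlib
import Cfsg.Prelude.Def_OddOrderLocal

set_option autoImplicit false

namespace Cfsg.Agent.Lib_helper9_TICount

theorem card_ne_one (α : Type*) [Group α] [Finite α] :
    Nat.card {x : α // x ≠ 1} = Nat.card α - 1 := by
  classical
  haveI := Fintype.ofFinite α
  rw [Nat.card_eq_fintype_card, Fintype.card_subtype_compl, Fintype.card_subtype_eq,
    Nat.card_eq_fintype_card]

/-- the non-identity elements conjugate into a TI-subgroup `H`: there are
`[G : N(H)] * (|H| - 1)` of them. -/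
theorem card_conj_TI {G : Type*} [Group G] [Finite G] (H : Subgroup G)
    (hTI : Cfsg.IsTISubset (H : Set G)) :
    Nat.card {y : G // y ≠ 1 ∧ ∃ g : G, g * y * g⁻¹ ∈ H} =
      (Subgroup.normalizer (H : Set G)).index * (Nat.card H - 1) := by
  classical
  rw [← card_ne_one ↥H, Subgroup.index, ← Nat.card_prod]
  symm
  let F : (G ⧸ Subgroup.normalizer (H : Set G)) × {x : ↥H // x ≠ 1} →
      {y : G // y ≠ 1 ∧ ∃ g : G, g * y * g⁻¹ ∈ H} := fun qx =>
    ⟨qx.1.out * (qx.2.1 : G) * qx.1.out⁻¹, by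
      refine ⟨?_, qx.1.out⁻¹, ?_⟩
      · intro e
        apply qx.2.2
        apply Subtype.ext
        have e2 : (qx.2.1 : G) = qx.1.out⁻¹ * (qx.1.out * (qx.2.1 : G) * qx.1.out⁻¹) * qx.1.out := by
          group
        rw [e2, e]; simp
      · have e2 : qx.1.out⁻¹ * (qx.1.out * (qx.2.1 : G) * qx.1.out⁻¹) * qx.1.out⁻¹⁻¹
            = (qx.2.1 : G) := by group
        rw [e2]; exact qx.2.1.2⟩
  apply Nat.card_congr
  apply Equiv.ofBijective F
  constructor
  · rintro ⟨q, x⟩ ⟨q', x'⟩ e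
    have e1 : q.out * (x.1 : G) * q.out⁻¹ = q'.out * (x'.1 : G) * q'.out⁻¹ :=
      congrArg Subtype.val e
    have hx1 : (x.1 : G) ≠ 1 := fun h => x.2 (Subtype.ext h)
    have hmem : q'.out⁻¹ * q.out ∈ Subgroup.normalizer (H : Set G) := by
      by_contra hnot
      apply hx1
      apply hTI _ hnot _ x.1.2
      have e2 : q'.out⁻¹ * q.out * (x.1 : G) * (q'.out⁻¹ * q.out)⁻¹
          = q'.out⁻¹ * (q.out * (x.1 : G) * q.out⁻¹) * q'.out := by group
      rw [e2, e1]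
      have e3 : q'.out⁻¹ * (q'.out * (x'.1 : G) * q'.out⁻¹) * q'.out = (x'.1 : G) := by group
      rw [e3]; exact x'.1.2
    have hq : q' = q := by
      rw [← QuotientGroup.out_eq' q', ← QuotientGroup.out_eq' q]
      exact QuotientGroup.eq.mpr hmem
    subst hq
    have e4 : (x.1 : G) = (x'.1 : G) := by
      have h5 := mul_right_cancel e1
      exact mul_left_cancel h5
    have e5 : x = x' := Subtype.ext (Subtype.ext e4)
    rw [e5]
  · rintro ⟨y, hy1, g, hg⟩
    obtain ⟨n, hn⟩ := QuotientGroup.mk_out_eq_mul (Subgroup.normalizer (H : Set G)) g⁻¹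
    have hn' : (n : G)⁻¹ ∈ Subgroup.normalizer (H : Set G) := inv_mem n.2
    have hx : (n : G)⁻¹ * (g * y * g⁻¹) * (n : G)⁻¹⁻¹ ∈ H :=
      (Subgroup.mem_normalizer_iff.mp hn' _).mp hg
    have hx1 : (⟨(n : G)⁻¹ * (g * y * g⁻¹) * (n : G)⁻¹⁻¹, hx⟩ : ↥H) ≠ 1 := by
      intro e
      apply hy1
      have e1 : (n : G)⁻¹ * (g * y * g⁻¹) * (n : G)⁻¹⁻¹ = 1 := congrArg Subtype.val e
      have e2 : y = g⁻¹ * (n : G) * ((n : G)⁻¹ * (g * y * g⁻¹) * (n : G)⁻¹⁻¹) * (n : G)⁻¹ * g := by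
        group
      rw [e2, e1]; group
    refine ⟨(QuotientGroup.mk g⁻¹, ⟨⟨_, hx⟩, hx1⟩), ?_⟩
    apply Subtype.ext
    show (QuotientGroup.mk g⁻¹ : G ⧸ Subgroup.normalizer (H : Set G)).out *
      ((n : G)⁻¹ * (g * y * g⁻¹) * (n : G)⁻¹⁻¹) *
      (QuotientGroup.mk g⁻¹ : G ⧸ Subgroup.normalizer (H : Set G)).out⁻¹ = y
    rw [hn]; group

theorem s1527 {G : Type*} [Group G] [Finite G] {ι : Type*} [Fintype ι] (H : ι → Subgroup G)
    (hcop : ∀ i j, i ≠ j → Nat.Coprime (Nat.card (H i)) (Nat.card (H j)))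
    (hTI : ∀ i, Cfsg.IsTISubset (H i : Set G))
    (hcover : ∀ g : G, g ≠ 1 → ∃ i, ∃ x : G, x * g * x⁻¹ ∈ H i) :
    Nat.card G - 1 = ∑ i, (Subgroup.normalizer (H i : Set G)).index * (Nat.card (H i) - 1) := by
  classical
  rw [← card_ne_one G]
  have hsum : ∑ i, (Subgroup.normalizer (H i : Set G)).index * (Nat.card (H i) - 1)
      = ∑ i, Nat.card {y : G // y ≠ 1 ∧ ∃ g : G, g * y * g⁻¹ ∈ H i} :=
    Finset.sum_congr rfl (fun i _ => (card_conj_TI (H i) (hTI i)).symm)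
  rw [hsum, ← Nat.card_sigma]
  symm
  let F : (Σ i, {y : G // y ≠ 1 ∧ ∃ g : G, g * y * g⁻¹ ∈ H i}) → {y : G // y ≠ 1} :=
    fun s => ⟨s.2.1, s.2.2.1⟩
  apply Nat.card_congr
  apply Equiv.ofBijective F
  constructor
  · rintro ⟨i, y, hy1, g, hg⟩ ⟨j, y', hy1', g', hg'⟩ e
    have e1 : y = y' := congrArg Subtype.val e
    subst e1
    have hij : i = j := by
      by_contra hne
      apply hy1
      have o1 : orderOf y ∣ Nat.card (H i) := by
        have h := Subgroup.orderOf_dvd_natCard _ hg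
        have h2 := (MulAut.conj g).orderOf_eq y
        rw [MulAut.conj_apply] at h2
        rwa [h2] at h
      have o2 : orderOf y ∣ Nat.card (H j) := by
        have h := Subgroup.orderOf_dvd_natCard _ hg'
        have h2 := (MulAut.conj g').orderOf_eq y
        rw [MulAut.conj_apply] at h2
        rwa [h2] at h
      have o3 : orderOf y = 1 := Nat.eq_one_of_dvd_coprimes (hcop i j hne) o1 o2
      exact orderOf_eq_one_iff.mp o3
    subst hij
    rfl
  · rintro ⟨y, hy⟩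
    obtain ⟨i, x, hx⟩ := hcover y hy
    exact ⟨⟨i, y, hy, x, hx⟩, rfl⟩

end Cfsg.Agent.Lib_helper9_TICount
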