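import Mathlib
import Cfsg.Agent.Lib_helper3_TwoTrans

set_option autoImplicit false
open Cfsg
open Cfsg.Agent.Lib_helper3_CharBasic Cfsg.Agent.Lib_helper3_CharInd
  Cfsg.Agent.Lib_helper3_CharMore Cfsg.Agent.Lib_helper3_TwoTrans

namespace Cfsg.Agent.Lib_helper9_TwoOrbits

open scoped ComplexConjugate
open MulAction

universe u v

theorem two_orbits {G : Type u} {Ω : Type v} [Group G] [Finite G] [MulAction G Ω] [Finite Ω]
    (h2 : IsMultiplyPretransitive G Ω 2) (H : Subgroup G) (hidx : H.index = Nat.card Ω)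
    (hnt : ¬ IsPretransitive H Ω) :
    Nat.card (orbitRel.Quotient H Ω) = 2 := by
  classical
  haveI := Fintype.ofFinite G
  haveI : Fintype H := Fintype.ofFinite H
  have hcard2 : 2 ≤ Nat.card Ω := by
    by_contra hlt
    push Not at hlt
    apply hnt
    haveI : Subsingleton Ω := (Finite.card_le_one_iff_subsingleton).mp (by omega)
    exact ⟨fun x y => ⟨1, Subsingleton.elim _ _⟩⟩
  haveI hnonempty : Nonempty Ω := by
    rw [← Finite.card_pos_iff]; omega
  haveI htrans : IsPretransitive G Ω := isPretransitive_of_is_two_pretransitive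
  obtain ⟨π, hπ⟩ : ∃ π : G → ℂ, π = fun g : G => (Nat.card (fixedBy Ω g) : ℂ) := ⟨_, rfl⟩
  obtain ⟨one, hone⟩ : ∃ one : G → ℂ, one = fun _ => 1 := ⟨_, rfl⟩
  obtain ⟨χ, hχdef⟩ : ∃ χ : G → ℂ, χ = fun g : G => (Nat.card (fixedBy Ω g) : ℂ) - 1 := ⟨_, rfl⟩
  have hχ : IsIrrCharacter G χ := by rw [hχdef]; exact (irr_iff_two_transitive hcard2).mpr h2
  have hπc : IsCharacter G π := by rw [hπ]; exact isCharacter_perm
  have hone_irr : IsIrrCharacter G one := by rw [hone]; exact isIrrCharacter_one
  have hπχ : π = χ + one := by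
    rw [hπ, hχdef, hone]; funext g; simp
  obtain ⟨θ, hθdef⟩ : ∃ θ : G → ℂ, θ = indFun H (fun _ => 1) := ⟨_, rfl⟩
  have hθ : IsCharacter G θ := by rw [hθdef]; exact isCharacter_indFun H isCharacter_one
  -- inner products
  have h1 : classInner θ one = 1 := by
    rw [hθdef, frobenius_reciprocity H _ one (isClassFunction_of_irr hone_irr), hone]
    exact irr_inner_self isIrrCharacter_one
  have hχ1 : classInner χ one = 0 := by
    have e : χ = π - one := by rw [hπχ]; simp
    rw [e, classInner_sub_left, irr_inner_self hone_irr, hπ, hone, inner_perm_one, sub_self]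
  have hχne : χ ≠ one := by
    intro h
    rw [h, irr_inner_self hone_irr] at hχ1
    exact one_ne_zero hχ1
  have h1χ : classInner one χ = 0 := irr_inner_ne hone_irr hχ (Ne.symm hχne)
  have hk : classInner θ π = (Nat.card (orbitRel.Quotient H Ω) : ℂ) := by
    rw [hθdef, frobenius_reciprocity H _ π (isClassFunction_of_isCharacter hπc), classInner_def]
    have e1 : ∀ h : H, (1 : ℂ) * conj (π (h : G)) = ((Nat.card (fixedBy Ω h) : ℕ) : ℂ) := by
      intro h
      rw [hπ, one_mul, Complex.conj_natCast]
      rfl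
    simp only [e1]
    rw [← Nat.cast_sum, burnside_card, Nat.cast_mul, mul_comm, mul_assoc,
      mul_inv_cancel₀ (card_subgroup_ne_zero H), mul_one]
  obtain ⟨m, hm⟩ := classInner_nat hθ (isCharacter_of_irr hχ)
  have hkm : Nat.card (orbitRel.Quotient H Ω) = m + 1 := by
    have e : classInner θ π = (m : ℂ) + 1 := by
      rw [hπχ, classInner_add_right, hm, h1]
    rw [hk] at e
    exact_mod_cast e
  have hπ1 : π 1 = (Nat.card Ω : ℂ) := by
    rw [hπ]
    have : fixedBy Ω (1 : G) = Set.univ := by
      ext x; simp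
    show ((Nat.card (fixedBy Ω (1 : G)) : ℕ) : ℂ) = _
    rw [this, Nat.card_coe_set_eq, Set.ncard_univ]
  have hm1 : m ≤ 1 := by
    by_contra hlt
    push Not at hlt
    have hf : IsCharacter G (θ - one - (2 : ℂ) • χ) := by
      apply isCharacter_of_inner_nat
      · exact isClassFunction_sub (isClassFunction_sub (isClassFunction_of_isCharacter hθ)
          (isClassFunction_of_irr hone_irr)) (isClassFunction_smul _ (isClassFunction_of_irr hχ))
      · intro φ hφ
        rw [classInner_sub_left, classInner_sub_left, classInner_smul_left]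
        by_cases hφ1 : φ = one
        · subst hφ1
          rw [h1, irr_inner_self hone_irr, hχ1]
          exact ⟨0, by simp⟩
        · by_cases hφχ : φ = χ
          · subst hφχ
            rw [hm, h1χ, irr_inner_self hχ]
            refine ⟨m - 2, ?_⟩
            rw [Nat.cast_sub hlt]; simp
          · rw [irr_inner_ne hone_irr hφ (Ne.symm hφ1), irr_inner_ne hχ hφ (Ne.symm hφχ)]
            obtain ⟨j, hj⟩ := classInner_nat hθ (isCharacter_of_irr hφ)
            exact ⟨j, by rw [hj]; simp⟩
    obtain ⟨j, hj⟩ := isCharacter_apply_one hf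
    have hθ1 : θ 1 = (Nat.card Ω : ℂ) := by
      rw [hθdef, indFun_apply_one, hidx, mul_one]
    have hχ1' : χ 1 = (Nat.card Ω : ℂ) - 1 := by
      have := congrFun hπχ 1
      rw [hπ1, Pi.add_apply, hone] at this
      rw [this]; simp
    simp only [Pi.sub_apply, Pi.smul_apply, smul_eq_mul] at hj
    rw [hθ1, hχ1', hone] at hj
    have hj' : ((j + Nat.card Ω : ℕ) : ℂ) = ((1 : ℕ) : ℂ) := by
      push_cast
      linear_combination -hj
    have hj'' : j + Nat.card Ω = 1 := by exact_mod_cast hj'
    omega
  have hm0 : m ≠ 0 := by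
    intro h0
    apply hnt
    rw [h0] at hkm
    rw [pretransitive_iff_subsingleton_quotient]
    exact (Finite.card_le_one_iff_subsingleton).mp (by rw [hkm])
  rw [hkm]
  omega

end Cfsg.Agent.Lib_helper9_TwoOrbits
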