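import Mathlib
import Cfsg.Prelude.Def_RootSubgroups
import Cfsg.Agent.Lib_helper9_RankOne

set_option autoImplicit false

namespace Cfsg.Agent.Lib_helper9_TwoTransRank

open Cfsg
open Cfsg.Agent.Lib_helper9_RankOne

variable {Y Ω : Type*} [Group Y] [MulAction Y Ω]

/-- `A` is a normal subgroup of the stabilizer of `α` acting regularly on the other points. -/
def Good (α : Ω) (A : Subgroup Y) : Prop :=
  A ≤ MulAction.stabilizer Y α ∧ (∀ y ∈ MulAction.stabilizer Y α, Cfsg.conjBy A y = A) ∧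
    (∀ β γ : Ω, β ≠ α → γ ≠ α → ∃! a : Y, a ∈ A ∧ a • β = γ)

theorem good_conj {α : Ω} {A : Subgroup Y} (h : Good α A) (y : Y) : Good (y • α) (conjBy A y) := by
  obtain ⟨hA, hAn, hreg⟩ := h
  refine ⟨?_, ?_, ?_⟩
  · intro x hx
    rw [mem_conjBy] at hx
    have h1 := hA hx
    rw [MulAction.mem_stabilizer_iff] at h1 ⊢
    rw [mul_smul, mul_smul] at h1
    calc x • y • α = y • (y⁻¹ • x • y • α) := by rw [smul_inv_smul]
      _ = y • α := by rw [h1]
  · intro z hz
    rw [MulAction.mem_stabilizer_iff] at hz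
    have h1 : y⁻¹ * z * y ∈ MulAction.stabilizer Y α := by
      rw [MulAction.mem_stabilizer_iff, mul_smul, mul_smul, hz, inv_smul_smul]
    have h2 := hAn _ h1
    rw [conjBy_conjBy]
    have h3 : z * y = y * (y⁻¹ * z * y) := by group
    rw [h3, ← conjBy_conjBy, h2]
  · intro β γ hβ hγ
    have hβ' : y⁻¹ • β ≠ α := by
      intro h; apply hβ; rw [← h, smul_inv_smul]
    have hγ' : y⁻¹ • γ ≠ α := by
      intro h; apply hγ; rw [← h, smul_inv_smul]
    obtain ⟨a, ⟨haA, ha⟩, huniq⟩ := hreg _ _ hβ' hγ'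
    refine ⟨y * a * y⁻¹, ⟨?_, ?_⟩, ?_⟩
    · rw [mem_conjBy]
      have : y⁻¹ * (y * a * y⁻¹) * y = a := by group
      rw [this]; exact haA
    · rw [mul_smul, mul_smul, ha, smul_inv_smul]
    · rintro b ⟨hb, hbβ⟩
      rw [mem_conjBy] at hb
      have h1 := huniq (y⁻¹ * b * y) ⟨hb, by rw [mul_smul, mul_smul, smul_inv_smul, hbβ]⟩
      rw [← h1]; group

theorem conj_eq_of_smul_eq {α : Ω} {A : Subgroup Y} (h : Good α A) {g k : Y}
    (hgk : g • α = k • α) : conjBy A g = conjBy A k := by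
  have h1 : k⁻¹ * g ∈ MulAction.stabilizer Y α := by
    rw [MulAction.mem_stabilizer_iff, mul_smul, hgk, inv_smul_smul]
  have h2 := h.2.1 _ h1
  have h3 : g = k * (k⁻¹ * g) := by group
  rw [h3, ← conjBy_conjBy, h2]

theorem eq_one_of_fix {α : Ω} {A : Subgroup Y} (h : Good α A) {a : Y} (ha : a ∈ A) {β : Ω}
    (hβ : β ≠ α) (hfix : a • β = β) : a = 1 := by
  obtain ⟨a₀, -, huniq⟩ := h.2.2 β β hβ hβ
  rw [huniq a ⟨ha, hfix⟩, huniq 1 ⟨A.one_mem, one_smul _ _⟩]

theorem cond {α : Ω} {A : Subgroup Y} (h : Good α A) {y : Y} (hy : y ∉ MulAction.stabilizer Y α) :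
    RankOneCondition A (conjBy A y) := by
  have hβ : y • α ≠ α := fun h0 => hy (MulAction.mem_stabilizer_iff.mpr h0)
  have hB := good_conj h y
  intro a ha ha1
  have h1 : a⁻¹ • (y • α) ≠ y • α := by
    intro h0
    have := eq_one_of_fix h (A.inv_mem ha) hβ h0
    exact ha1 (inv_eq_one.mp this)
  obtain ⟨b', ⟨hb', hb'α⟩, -⟩ := hB.2.2 α (a⁻¹ • (y • α)) (Ne.symm hβ) h1
  refine ⟨b'⁻¹, Subgroup.inv_mem _ hb', ?_, ?_⟩
  · intro h0
    have h2 : b' = 1 := inv_eq_one.mp h0
    rw [h2, one_smul] at hb'α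
    have h3 : a • α = α := MulAction.mem_stabilizer_iff.mp (h.1 ha)
    apply hβ
    calc y • α = a • (a⁻¹ • y • α) := by rw [smul_inv_smul]
      _ = a • α := by rw [← hb'α]
      _ = α := h3
  · rw [inv_inv, conjBy_conjBy]
    apply conj_eq_of_smul_eq h
    rw [hb'α, mul_smul]

theorem exists_third (hΩ : 3 ≤ ENat.card Ω) (α β : Ω) (hne : α ≠ β) : ∃ γ : Ω, γ ≠ α ∧ γ ≠ β := by
  by_contra hcon
  push Not at hcon
  have h1 : (Set.univ : Set Ω) ⊆ {α, β} := by
    intro γ _
    by_cases h : γ = α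
    · left; exact h
    · right; exact hcon γ h
  have h2 : (Set.univ : Set Ω).encard ≤ 2 :=
    le_trans (Set.encard_le_encard h1) (le_of_eq (Set.encard_pair hne))
  rw [Set.encard_univ] at h2
  have h3 : (3 : ℕ∞) ≤ 2 := le_trans hΩ h2
  exact absurd h3 (by norm_num)

theorem main (hΩ : 3 ≤ ENat.card Ω) (α : Ω) (A : Subgroup Y)
    (hA : A ≤ MulAction.stabilizer Y α) (hAn : ∀ y ∈ MulAction.stabilizer Y α, Cfsg.conjBy A y = A)
    (hnil : Group.IsNilpotent A) (hreg : ∀ β γ : Ω, β ≠ α → γ ≠ α → ∃! a : Y, a ∈ A ∧ a • β = γ)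
    (y : Y) (hy : y ∉ MulAction.stabilizer Y α) :
    Cfsg.IsRankOnePair A (Cfsg.conjBy A y) ∧
      Subgroup.normalClosure (A : Set Y) = A ⊔ Cfsg.conjBy A y := by
  have hg : Good α A := ⟨hA, hAn, hreg⟩
  have hβ : y • α ≠ α := fun h0 => hy (MulAction.mem_stabilizer_iff.mpr h0)
  have hB := good_conj hg y
  constructor
  · refine ⟨?_, hnil, ?_, cond hg hy, ?_⟩
    · intro hAB
      obtain ⟨γ, hγα, hγβ⟩ := exists_third hΩ α (y • α) (Ne.symm hβ)
      obtain ⟨a, ⟨haA, ha⟩, -⟩ := hreg (y • α) γ hβ hγα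
      rw [hAB] at haA
      have := MulAction.mem_stabilizer_iff.mp (hB.1 haA)
      rw [this] at ha
      exact hγβ ha.symm
    · exact Group.nilpotent_of_mulEquiv
        (A.equivMapOfInjective (MulAut.conj y).toMonoidHom (MulAut.conj y).injective)
    · have hy' : y⁻¹ ∉ MulAction.stabilizer Y (y • α) := by
        intro h0
        rw [MulAction.mem_stabilizer_iff, inv_smul_smul] at h0
        exact hβ h0.symm
      have := cond hB hy'
      rw [conjBy_conjBy, inv_mul_cancel, conjBy_one] at this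
      exact this
  · apply le_antisymm
    · show Subgroup.closure (Group.conjugatesOfSet (A : Set Y)) ≤ A ⊔ conjBy A y
      rw [Subgroup.closure_le]
      intro x hx
      rw [Group.mem_conjugatesOfSet_iff] at hx
      obtain ⟨a, ha, hc⟩ := hx
      rw [isConj_iff] at hc
      obtain ⟨g, rfl⟩ := hc
      have h1 : g * a * g⁻¹ ∈ conjBy A g := by
        rw [mem_conjBy]
        have : g⁻¹ * (g * a * g⁻¹) * g = a := by group
        rw [this]; exact ha
      have h2 : conjBy A g ≤ A ⊔ conjBy A y := by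
        by_cases hgα : g • α = α
        · rw [hAn g (MulAction.mem_stabilizer_iff.mpr hgα)]; exact le_sup_left
        · by_cases hgβ : g • α = y • α
          · rw [conj_eq_of_smul_eq hg hgβ]; exact le_sup_right
          · obtain ⟨b, ⟨hb, hbα⟩, -⟩ := hB.2.2 α (g • α) (Ne.symm hβ) hgβ
            rw [conj_eq_of_smul_eq hg hbα.symm]
            exact conjBy_le_of_mem le_sup_left (Subgroup.mem_sup_right hb)
      exact h2 h1
    · apply sup_le
      · exact Subgroup.le_normalClosure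
      · intro x hx
        rw [mem_conjBy] at hx
        have h1 : y⁻¹ * x * y ∈ Subgroup.normalClosure (A : Set Y) := Subgroup.le_normalClosure hx
        have h2 := Subgroup.normalClosure_normal.conj_mem _ h1 y
        have h3 : y * (y⁻¹ * x * y) * y⁻¹ = x := by group
        rw [h3] at h2
        exact h2

end Cfsg.Agent.Lib_helper9_TwoTransRank
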