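import Mathlib
import Cfsg.Prelude.Def_OddOrderLocal
import Cfsg.Agent.Lib_helper7_PPrime

set_option autoImplicit false

namespace Cfsg.Agent.Lib_helper9_TypeP

open scoped commutatorElement

/-- Hall property of `M_F` -/
theorem fittingHall_hall {M : Type*} [Group M] [Finite M] (p : ℕ) (hp : p.Prime)
    (hdiv : p ∣ Nat.card (Cfsg.fittingHall M)) : ¬ p ∣ (Cfsg.fittingHall M).index := by
  intro hidx
  have hle : Cfsg.fittingHall M ≤ Cfsg.pPrimeCore p M := by
    apply sSup_le
    rintro N ⟨hN, hnil, hcop⟩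
    haveI := hN
    apply Lib_helper7_PPrime.le_pPrimeCore p N
    have hNle : N ≤ Cfsg.fittingHall M := le_sSup ⟨hN, hnil, hcop⟩
    have h1 : p ∣ N.index := by
      rw [← Subgroup.relIndex_mul_index hNle]; exact Dvd.dvd.mul_left hidx _
    exact Nat.Coprime.coprime_dvd_right h1 hcop
  have h2 := Subgroup.card_dvd_of_le hle
  have h3 := Lib_helper7_PPrime.card_pPrimeCore_coprime (G := M) p
  exact (Nat.Prime.coprime_iff_not_dvd hp).mp h3.symm (hdiv.trans h2)

theorem coprime_order {G : Type*} [Group G] [Finite G] (M U : Subgroup G) (hUM : U ≤ M)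
    (hdisj : Cfsg.fittingHallOf M ⊓ U = ⊥) (u : G) (hu : u ∈ U) :
    (orderOf u).Coprime (Nat.card (Cfsg.fittingHallOf M)) := by
  apply Nat.coprime_of_dvd
  intro p hp h1 h2
  have hvo : orderOf (u ^ (orderOf u / p)) = p :=
    orderOf_pow_orderOf_div (orderOf_pos u).ne' h1
  have hvU : u ^ (orderOf u / p) ∈ U := U.pow_mem hu _
  have hcard : Nat.card (Cfsg.fittingHallOf M) = Nat.card (Cfsg.fittingHall M) := by
    unfold Cfsg.fittingHallOf
    exact Subgroup.card_map_of_injective M.subtype_injective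
  rw [hcard] at h2
  have h3 := fittingHall_hall p hp h2
  have hvM : u ^ (orderOf u / p) ∈ M := hUM hvU
  have hq : orderOf (QuotientGroup.mk (⟨u ^ (orderOf u / p), hvM⟩ : M) :
      M ⧸ Cfsg.fittingHall M) ∣ p := by
    apply orderOf_dvd_of_pow_eq_one
    rw [← QuotientGroup.mk_pow]
    have : (⟨u ^ (orderOf u / p), hvM⟩ : M) ^ p = 1 := by
      apply Subtype.ext
      rw [Subgroup.coe_pow, Subgroup.coe_one]
      nth_rewrite 2 [← hvo]
      exact pow_orderOf_eq_one _
    rw [this]; rfl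
  have hq2 : orderOf (QuotientGroup.mk (⟨u ^ (orderOf u / p), hvM⟩ : M) :
      M ⧸ Cfsg.fittingHall M) ∣ (Cfsg.fittingHall M).index := by
    rw [Subgroup.index_eq_card]; exact orderOf_dvd_natCard _
  have hq1 : orderOf (QuotientGroup.mk (⟨u ^ (orderOf u / p), hvM⟩ : M) :
      M ⧸ Cfsg.fittingHall M) = 1 := by
    rcases (Nat.dvd_prime hp).mp hq with h | h
    · exact h
    · exact absurd (h ▸ hq2) h3
  rw [orderOf_eq_one_iff, QuotientGroup.eq_one_iff] at hq1
  have hvH : u ^ (orderOf u / p) ∈ Cfsg.fittingHallOf M := ⟨⟨_, hvM⟩, hq1, rfl⟩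
  have hmem : u ^ (orderOf u / p) ∈ Cfsg.fittingHallOf M ⊓ U := Subgroup.mem_inf.mpr ⟨hvH, hvU⟩
  rw [hdisj, Subgroup.mem_bot] at hmem
  rw [hmem, orderOf_one] at hvo
  exact hp.one_lt.ne' hvo.symm

theorem main {G : Type*} [Group G] [Finite G] (M W₁ U W₂ : Subgroup G)
    (hP : Cfsg.IsTypePWith M W₁ U W₂) :
    Cfsg.fittingOf M = Cfsg.fittingHallOf M ⊔
      (U ⊓ Subgroup.centralizer (Cfsg.fittingHallOf M : Set G)) := by
  have hMM : ⁅M, M⁆ ≤ M := Subgroup.commutator_le.mpr (fun a ha b hb => by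
    rw [commutatorElement_def]
    exact M.mul_mem (M.mul_mem (M.mul_mem ha hb) (M.inv_mem ha)) (M.inv_mem hb))
  obtain ⟨hHM', hUM', hdisj, hprod⟩ := hP.U_compl
  have hUM : U ≤ M := hUM'.trans hMM
  rw [← hP.fitting_eq]
  apply le_antisymm
  · apply sup_le le_sup_left
    intro c hc
    obtain ⟨hcM, hcC⟩ := Subgroup.mem_inf.mp hc
    have hcF : c ∈ ⁅M, M⁆ :=
      hP.fitting_le (by rw [← hP.fitting_eq]; exact Subgroup.mem_sup_right hc)
    obtain ⟨h, hh, u, hu, rfl⟩ := hprod c hcF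
    have hconj : ∀ x ∈ Cfsg.fittingHallOf M, u * x * u⁻¹ = h⁻¹ * x * h := by
      intro x hx
      have e := Subgroup.mem_centralizer_iff.mp hcC x hx
      calc u * x * u⁻¹ = h⁻¹ * ((h * u) * x * (h * u)⁻¹) * h := by group
        _ = h⁻¹ * x * h := by rw [← e]; group
    have hpow : ∀ k : ℕ, ∀ x ∈ Cfsg.fittingHallOf M,
        u ^ k * x * (u ^ k)⁻¹ = (h ^ k)⁻¹ * x * h ^ k := by
      intro k
      induction k with
      | zero => intro x _; simp
      | succ k ih =>
        intro x hx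
        have hx' : h⁻¹ * x * h ∈ Cfsg.fittingHallOf M :=
          Subgroup.mul_mem _ (Subgroup.mul_mem _ (Subgroup.inv_mem _ hh) hx) hh
        calc u ^ (k+1) * x * (u ^ (k+1))⁻¹ = u ^ k * (u * x * u⁻¹) * (u ^ k)⁻¹ := by
              rw [pow_succ]; group
          _ = u ^ k * (h⁻¹ * x * h) * (u ^ k)⁻¹ := by rw [hconj x hx]
          _ = (h ^ k)⁻¹ * (h⁻¹ * x * h) * h ^ k := ih _ hx'
          _ = (h ^ (k+1))⁻¹ * x * h ^ (k+1) := by rw [pow_succ]; group
    have hcop : (orderOf h).Coprime (orderOf u) :=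
      (Nat.Coprime.coprime_dvd_right (Subgroup.orderOf_dvd_natCard _ hh)
        (coprime_order M U hUM hdisj u hu)).symm
    obtain ⟨m, hm⟩ := exists_pow_eq_self_of_coprime hcop
    have huC : u ∈ Subgroup.centralizer (Cfsg.fittingHallOf M : Set G) := by
      have h1 : u ^ orderOf h ∈ Subgroup.centralizer (Cfsg.fittingHallOf M : Set G) := by
        rw [Subgroup.mem_centralizer_iff]
        intro x hx
        have e := hpow (orderOf h) x hx
        rw [pow_orderOf_eq_one, inv_one, one_mul, mul_one] at e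
        calc x * u ^ orderOf h
            = (u ^ orderOf h * x * (u ^ orderOf h)⁻¹) * u ^ orderOf h := by rw [e]
          _ = u ^ orderOf h * x := by group
      rw [← hm]; exact Subgroup.pow_mem _ h1 m
    exact Subgroup.mul_mem _ (Subgroup.mem_sup_left hh)
      (Subgroup.mem_sup_right (Subgroup.mem_inf.mpr ⟨hu, huC⟩))
  · exact sup_le_sup_left (inf_le_inf_right _ hUM) _

end Cfsg.Agent.Lib_helper9_TypeP
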