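import Mathlib
import Cfsg.Prelude.Def_OddOrderLocal
import Cfsg.Agent.Lib_helper9_TypeP
import Cfsg.Agent.Lib_helper9_Dade2

set_option autoImplicit false

namespace Cfsg.Agent.Lib_helper9_TypeP2

open scoped commutatorElement

theorem card_complIn {G : Type*} [Group G] [Finite G] (A B M : Subgroup G)
    (h : Cfsg.IsComplIn A B M) : Nat.card A * Nat.card B = Nat.card M := by
  obtain ⟨hA, hB, hdisj, hprod⟩ := h
  rw [← Nat.card_prod]
  apply Nat.card_congr
  refine Equiv.ofBijective (fun ab : A × B => (⟨(ab.1 : G) * (ab.2 : G),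
    M.mul_mem (hA ab.1.2) (hB ab.2.2)⟩ : M)) ⟨?_, ?_⟩
  · rintro ⟨a, b⟩ ⟨a', b'⟩ hab
    have e : (a : G) * (b : G) = (a' : G) * (b' : G) := congrArg Subtype.val hab
    have h1 : (a' : G)⁻¹ * (a : G) = (b' : G) * (b : G)⁻¹ := by
      calc (a' : G)⁻¹ * (a : G) = (a' : G)⁻¹ * ((a : G) * (b : G)) * (b : G)⁻¹ := by group
        _ = (b' : G) * (b : G)⁻¹ := by rw [e]; group
    have h2 : (a' : G)⁻¹ * (a : G) ∈ A ⊓ B := by
      refine Subgroup.mem_inf.mpr ⟨A.mul_mem (A.inv_mem a'.2) a.2, ?_⟩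
      rw [h1]; exact B.mul_mem b'.2 (B.inv_mem b.2)
    rw [hdisj, Subgroup.mem_bot] at h2
    have ha : (a : G) = a' := by
      calc (a : G) = (a' : G) * ((a' : G)⁻¹ * (a : G)) := by group
        _ = a' := by rw [h2, mul_one]
    have hb : (b : G) = b' := by
      have h3 : (b' : G) * (b : G)⁻¹ = 1 := by rw [← h1, h2]
      calc (b : G) = ((b' : G) * (b : G)⁻¹)⁻¹ * (b' : G) := by group
        _ = b' := by rw [h3, inv_one, one_mul]
    exact Prod.ext (Subtype.ext ha) (Subtype.ext hb)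
  · rintro ⟨m, hm⟩
    obtain ⟨a, ha, b, hb, rfl⟩ := hprod m hm
    exact ⟨(⟨a, ha⟩, ⟨b, hb⟩), rfl⟩

theorem main {G : Type*} [Group G] [Finite G] (M W₁ U W₂ : Subgroup G)
    (hP : Cfsg.IsTypePWith M W₁ U W₂) :
    ⁅U, U⁆ ≤ Subgroup.centralizer (Cfsg.fittingHallOf M : Set G) ∧
    (U ≠ ⊥ → ¬ U ≤ Subgroup.centralizer (Cfsg.fittingHallOf M : Set G)) := by
  have hMM : ⁅M, M⁆ ≤ M := Subgroup.commutator_le.mpr (fun a ha b hb => by
    rw [commutatorElement_def]
    exact M.mul_mem (M.mul_mem (M.mul_mem ha hb) (M.inv_mem ha)) (M.inv_mem hb))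
  have hUU : ⁅U, U⁆ ≤ U := Subgroup.commutator_le.mpr (fun a ha b hb => by
    rw [commutatorElement_def]
    exact U.mul_mem (U.mul_mem (U.mul_mem ha hb) (U.inv_mem ha)) (U.inv_mem hb))
  have hcompl := hP.U_compl
  obtain ⟨hHM', hUM', hdisj, hprod⟩ := hP.U_compl
  have hUM : U ≤ M := hUM'.trans hMM
  have hfit := Lib_helper9_TypeP.main M W₁ U W₂ hP
  constructor
  · intro w hw
    have hwU : w ∈ U := hUU hw
    have hw2 : w ∈ Cfsg.fittingHallOf M ⊔
        (U ⊓ Subgroup.centralizer (Cfsg.fittingHallOf M : Set G)) := by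
      rw [← hfit, ← hP.fitting_eq]
      exact hP.derived_two_le (Subgroup.commutator_mono hUM' hUM' hw)
    obtain ⟨h, hh, u, hu, rfl⟩ := Lib_helper9_Dade2.decomp (Cfsg.fittingHallOf M)
      (U ⊓ Subgroup.centralizer (Cfsg.fittingHallOf M : Set G)) (by
        intro m hm k hk
        have e := Subgroup.mem_centralizer_iff.mp (Subgroup.mem_inf.mp hm).2 k hk
        have : m * k * m⁻¹ = k := by rw [← e]; group
        rw [this]; exact hk) w hw2
    obtain ⟨huU, huC⟩ := Subgroup.mem_inf.mp hu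
    have hhU : h ∈ U := by
      have : h = h * u * u⁻¹ := by group
      rw [this]; exact U.mul_mem hwU (U.inv_mem huU)
    have hh1 : h ∈ Cfsg.fittingHallOf M ⊓ U := Subgroup.mem_inf.mpr ⟨hh, hhU⟩
    rw [hdisj, Subgroup.mem_bot] at hh1
    rw [hh1, one_mul]; exact huC
  · intro hU1 hUC
    apply hU1
    -- M normalizes U
    have hHC : Cfsg.fittingHallOf M ≤ Subgroup.centralizer (U : Set G) :=
      Subgroup.le_centralizer_iff.mp hUC
    have hnorm : M ≤ Subgroup.normalizer (U : Set G) := by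
      intro m hm
      obtain ⟨d, hd, w, hw, rfl⟩ := hP.W₁_compl.2.2.2 m hm
      obtain ⟨h, hh, u, hu, rfl⟩ := hprod d hd
      exact Subgroup.mul_mem _ (Subgroup.mul_mem _
        (Subgroup.centralizer_le_normalizer _ (hHC hh)) (Subgroup.le_normalizer hu))
        (hP.U_normal hw)
    have hN : (U.subgroupOf M).Normal :=
      (Subgroup.normal_subgroupOf_iff_le_normalizer hUM).mpr hnorm
    haveI := hP.U_nilpotent
    have hnil : Group.IsNilpotent (U.subgroupOf M) :=
      Group.nilpotent_of_mulEquiv (Subgroup.subgroupOfEquivOfLe hUM).symm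
    -- cardinalities
    have c1 : Nat.card (Cfsg.fittingHallOf M) * Nat.card U = Nat.card (⁅M, M⁆ : Subgroup G) :=
      card_complIn _ _ _ hcompl
    have c2 : Nat.card (⁅M, M⁆ : Subgroup G) * Nat.card W₁ = Nat.card M :=
      card_complIn _ _ _ hP.W₁_compl
    have c3 : Nat.card (U.subgroupOf M) = Nat.card U :=
      Nat.card_congr (Subgroup.subgroupOfEquivOfLe hUM).toEquiv
    have c4 := Subgroup.card_mul_index (U.subgroupOf M)
    have hW₁M : W₁ ≤ M := hP.W₁_compl.2.1
    have c5 : Nat.card (W₁.subgroupOf M) = Nat.card W₁ :=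
      Nat.card_congr (Subgroup.subgroupOfEquivOfLe hW₁M).toEquiv
    have c6 := Subgroup.card_mul_index (W₁.subgroupOf M)
    have hUpos : 0 < Nat.card U := Nat.card_pos
    have hWpos : 0 < Nat.card W₁ := Nat.card_pos
    have i1 : (U.subgroupOf M).index = Nat.card (Cfsg.fittingHallOf M) * Nat.card W₁ := by
      rw [c3, ← c2, ← c1] at c4
      have : Nat.card U * (U.subgroupOf M).index
          = Nat.card U * (Nat.card (Cfsg.fittingHallOf M) * Nat.card W₁) := by
        rw [c4]; ring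
      exact Nat.eq_of_mul_eq_mul_left hUpos this
    have i2 : W₁.relIndex M = Nat.card (Cfsg.fittingHallOf M) * Nat.card U := by
      have c6' : Nat.card (W₁.subgroupOf M) * W₁.relIndex M = Nat.card M := c6
      rw [c5, ← c2, ← c1] at c6'
      have : Nat.card W₁ * W₁.relIndex M
          = Nat.card W₁ * (Nat.card (Cfsg.fittingHallOf M) * Nat.card U) := by
        rw [c6']; ring
      exact Nat.eq_of_mul_eq_mul_left hWpos this
    have cop1 : (Nat.card U).Coprime (Nat.card (Cfsg.fittingHallOf M)) := by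
      apply Nat.coprime_of_dvd
      intro p hp h1 h2
      haveI : Fact p.Prime := ⟨hp⟩
      obtain ⟨y, hy⟩ := exists_prime_orderOf_dvd_card' (G := U) p h1
      have hyG : orderOf (y : G) = p := by rw [Subgroup.orderOf_coe]; exact hy
      have := Lib_helper9_TypeP.coprime_order M U hUM hdisj (y : G) y.2
      rw [hyG] at this
      exact (Nat.Prime.coprime_iff_not_dvd hp).mp this h2
    have cop2 : (Nat.card U).Coprime (Nat.card W₁) := by
      have := hP.W₁_hall
      rw [i2] at this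
      exact (Nat.Coprime.coprime_dvd_right (Dvd.intro_left _ rfl) this).symm
    have hcop : (Nat.card (U.subgroupOf M)).Coprime (U.subgroupOf M).index := by
      rw [c3, i1]; exact Nat.Coprime.mul_right cop1 cop2
    have hle : U.subgroupOf M ≤ Cfsg.fittingHall M := le_sSup ⟨hN, hnil, hcop⟩
    have hUH : U ≤ Cfsg.fittingHallOf M := by
      intro x hx
      exact ⟨⟨x, hUM hx⟩, hle (Subgroup.mem_subgroupOf.mpr hx), rfl⟩
    rw [eq_bot_iff, ← hdisj]
    exact le_inf hUH le_rfl

end Cfsg.Agent.Lib_helper9_TypeP2
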