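import Mathlib

set_option autoImplicit false

namespace Cfsg.Agent.Lib_helper9_ZGroup

open Subgroup

theorem comm_of_closure {G : Type*} [Group G] (k : Set G)
    (hk : ∀ a ∈ k, ∀ b ∈ k, a * b = b * a) (hcl : Subgroup.closure k = ⊤) :
    ∀ a b : G, a * b = b * a := by
  have h1 : Subgroup.closure k ≤ Subgroup.centralizer k := by
    rw [Subgroup.closure_le]
    intro a ha
    rw [SetLike.mem_coe, Subgroup.mem_centralizer_iff]
    intro b hb
    exact hk b hb a ha
  have h2 : Subgroup.closure k ≤ Subgroup.centralizer (Subgroup.closure k : Set G) := by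
    rw [Subgroup.closure_le]
    intro a ha
    rw [SetLike.mem_coe, Subgroup.mem_centralizer_iff]
    intro b hb
    have := Subgroup.mem_centralizer_iff.mp (h1 hb) a ha
    exact this.symm
  intro a b
  have ha : a ∈ Subgroup.closure k := by rw [hcl]; trivial
  have hb : b ∈ Subgroup.closure k := by rw [hcl]; trivial
  exact (Subgroup.mem_centralizer_iff.mp (h2 hb) a ha)

theorem zgroup_metacyclic {G : Type*} [Group G] [Finite G]
    (hZ : ∀ (p : ℕ) [Fact p.Prime] (P : Sylow p G), IsCyclic (P : Subgroup G)) :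
    ∃ (x y : G) (n m r : ℕ), Subgroup.closure {x, y} = ⊤ ∧ orderOf x = n ∧ orderOf y = m ∧
      x⁻¹ * y * x = y ^ r ∧ Nat.Coprime (r - 1) m ∧ Nat.Coprime n m ∧ 1 ≤ r ∧
      r ^ n % m = 1 % m := by
  haveI hG : IsZGroup G := ⟨fun p hp P => @hZ p ⟨hp⟩ P⟩
  haveI hNc : IsCyclic (commutator G) := IsZGroup.isCyclic_commutator G
  have hcop := IsZGroup.coprime_commutator_index G
  obtain ⟨H, hH⟩ := Subgroup.exists_right_complement'_of_coprime hcop
  have h1 : Abelianization G ≃* H := hH.symm.QuotientMulEquiv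
  haveI hHc : IsCyclic H := isCyclic_of_surjective _ h1.surjective
  obtain ⟨y₀, hy₀⟩ := IsCyclic.exists_generator (α := commutator G)
  obtain ⟨x₀, hx₀⟩ := IsCyclic.exists_generator (α := H)
  obtain ⟨x, hx⟩ : ∃ x : G, x = (x₀ : G) := ⟨_, rfl⟩
  obtain ⟨y, hy⟩ : ∃ y : G, y = (y₀ : G) := ⟨_, rfl⟩
  have hyN : ∀ g ∈ commutator G, g ∈ zpowers y := by
    intro g hg
    obtain ⟨k, hk⟩ := Subgroup.mem_zpowers_iff.mp (hy₀ ⟨g, hg⟩)
    refine Subgroup.mem_zpowers_iff.mpr ⟨k, ?_⟩
    rw [hy, ← Subgroup.coe_zpow, hk]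
  have hxH : ∀ g ∈ H, g ∈ zpowers x := by
    intro g hg
    obtain ⟨k, hk⟩ := Subgroup.mem_zpowers_iff.mp (hx₀ ⟨g, hg⟩)
    refine Subgroup.mem_zpowers_iff.mpr ⟨k, ?_⟩
    rw [hx, ← Subgroup.coe_zpow, hk]
  have hord_y : orderOf y = Nat.card (commutator G) := by
    rw [hy, Subgroup.orderOf_coe, orderOf_eq_card_of_forall_mem_zpowers hy₀]
  have hord_x : orderOf x = Nat.card H := by
    rw [hx, Subgroup.orderOf_coe, orderOf_eq_card_of_forall_mem_zpowers hx₀]
  have hyN' : y ∈ commutator G := by rw [hy]; exact y₀.2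
  have hxH' : x ∈ H := by rw [hx]; exact x₀.2
  have hm0 : 0 < orderOf y := orderOf_pos y
  -- the exponent
  have hconj : x⁻¹ * y * x ∈ commutator G := by
    have := (inferInstance : (commutator G).Normal).conj_mem y hyN' x⁻¹
    rwa [inv_inv] at this
  obtain ⟨r₀, hr₀⟩ := (Submonoid.mem_powers_iff _ _).mp
    (mem_powers_iff_mem_zpowers.mpr (hyN _ hconj))
  obtain ⟨r, hr⟩ : ∃ r : ℕ, r = r₀ + orderOf y := ⟨_, rfl⟩
  have hrel : x⁻¹ * y * x = y ^ r := by
    rw [hr, pow_add, pow_orderOf_eq_one, mul_one, hr₀]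
  have hr1 : 1 ≤ r := by omega
  have hpow : ∀ k : ℕ, (x ^ k)⁻¹ * y * x ^ k = y ^ (r ^ k) := by
    intro k
    induction k with
    | zero => simp
    | succ k ih =>
      have e1 : (x ^ (k + 1))⁻¹ * y * x ^ (k + 1) = x⁻¹ * ((x ^ k)⁻¹ * y * x ^ k) * x := by
        rw [pow_succ]; group
      have e2 : ∀ i : ℕ, x⁻¹ * y ^ i * x = (x⁻¹ * y * x) ^ i := by
        intro i
        have := conj_pow (i := i) (a := x⁻¹) (b := y)
        rw [inv_inv] at this
        exact this.symm
      rw [e1, ih, e2, hrel, ← pow_mul, ← pow_succ']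
  have hmod : r ^ orderOf x % orderOf y = 1 % orderOf y := by
    have h2 := hpow (orderOf x)
    rw [pow_orderOf_eq_one, inv_one, one_mul, mul_one] at h2
    have h3 : y ^ (r ^ orderOf x) = y ^ 1 := by rw [pow_one]; exact h2.symm
    exact pow_eq_pow_iff_modEq.mp h3
  -- coprimality of r - 1 and m
  obtain ⟨M, hM⟩ : ∃ M : Subgroup G, M = zpowers (y ^ (r - 1)) := ⟨_, rfl⟩
  haveI hMn : M.Normal := by
    constructor
    intro n hn g
    rw [hM] at hn ⊢
    obtain ⟨k, rfl⟩ := Subgroup.mem_zpowers_iff.mp hn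
    have hg : g * y * g⁻¹ ∈ commutator G :=
      (inferInstance : (commutator G).Normal).conj_mem y hyN' g
    obtain ⟨s, hs⟩ := Subgroup.mem_zpowers_iff.mp (hyN _ hg)
    rw [← conj_zpow, ← conj_pow, ← hs]
    apply zpow_mem
    have e : (y ^ s) ^ (r - 1) = (y ^ (r - 1)) ^ s := by
      rw [← zpow_natCast, ← zpow_mul, mul_comm, zpow_mul, zpow_natCast]
    rw [e]
    exact zpow_mem (mem_zpowers _) _
  have hquot : ∀ a b : G ⧸ M, a * b = b * a := by
    apply comm_of_closure {QuotientGroup.mk' M x, QuotientGroup.mk' M y}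
    · have hxy : QuotientGroup.mk' M x * QuotientGroup.mk' M y =
          QuotientGroup.mk' M y * QuotientGroup.mk' M x := by
        rw [← map_mul, ← map_mul]
        apply (QuotientGroup.eq (s := M)).mpr  
        -- (x * y)⁻¹ * (y * x) ∈ M
        have e : (x * y)⁻¹ * (y * x) = y ^ (r - 1) := by
          have e1 : (x * y)⁻¹ * (y * x) = y⁻¹ * (x⁻¹ * y * x) := by group
          have e2 : r = (r - 1) + 1 := by omega
          rw [e1, hrel]
          conv_lhs => rw [e2, pow_succ']
          group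
        rw [e, hM]
        exact mem_zpowers _
      intro a ha b hb
      rcases ha with rfl | rfl <;> rcases hb with rfl | rfl
      · rfl
      · exact hxy
      · exact hxy.symm
      · rfl
    · have hcl : Subgroup.closure ({x, y} : Set G) = ⊤ := by
        rw [eq_top_iff, ← hH.sup_eq_top]
        apply sup_le
        · intro g hg
          exact (Subgroup.zpowers_le.mpr (Subgroup.subset_closure (by simp))) (hyN g hg)
        · intro g hg
          exact (Subgroup.zpowers_le.mpr (Subgroup.subset_closure (by simp))) (hxH g hg)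
      have := MonoidHom.map_closure (QuotientGroup.mk' M) ({x, y} : Set G)
      rw [hcl, Set.image_pair, Subgroup.map_top_of_surjective _ (QuotientGroup.mk'_surjective M)]
        at this
      exact this.symm
  have hle : commutator G ≤ M := by
    rw [_root_.commutator_def, Subgroup.commutator_le]
    intro g _ h _
    rw [← QuotientGroup.eq_one_iff, ← QuotientGroup.mk'_apply, map_commutatorElement,
      commutatorElement_eq_one_iff_commute]
    exact hquot _ _
  have hcop2 : Nat.Coprime (r - 1) (orderOf y) := by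
    have hyM : y ∈ zpowers (y ^ (r - 1)) := by rw [← hM]; exact hle hyN'
    obtain ⟨k, hk⟩ := (Submonoid.mem_powers_iff _ _).mp (mem_powers_iff_mem_zpowers.mpr hyM)
    rw [← pow_mul] at hk
    have h3 : y ^ ((r - 1) * k) = y ^ 1 := by rw [pow_one]; exact hk
    have h4 := pow_eq_pow_iff_modEq.mp h3
    have h5 := h4.gcd_eq
    rw [Nat.gcd_one_left] at h5
    exact Nat.Coprime.coprime_dvd_left (Dvd.intro k rfl) h5
  refine ⟨x, y, orderOf x, orderOf y, r, ?_, rfl, rfl, hrel, hcop2, ?_, hr1, hmod⟩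
  · rw [eq_top_iff, ← hH.sup_eq_top]
    apply sup_le
    · intro g hg
      exact (Subgroup.zpowers_le.mpr (Subgroup.subset_closure (by simp))) (hyN g hg)
    · intro g hg
      exact (Subgroup.zpowers_le.mpr (Subgroup.subset_closure (by simp))) (hxH g hg)
  · rw [hord_x, hord_y, ← hH.symm.index_eq_card]
    exact hcop.symm

end Cfsg.Agent.Lib_helper9_ZGroup
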