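import Mathlib
import Cfsg.Prelude.Def_LieExceptional

set_option autoImplicit false

namespace Cfsg.Agent.Lib_helper9_Zass

theorem mem_E {G Ω : Type*} [Group G] [MulAction G Ω] (a b : Ω) (x : G) :
    x ∈ (MulAction.stabilizer G a ⊓ MulAction.stabilizer G b : Subgroup G) ↔
      x • a = a ∧ x • b = b := by
  simp [Subgroup.mem_inf, MulAction.mem_stabilizer_iff]

/-- a non-identity element fixing `a, b` and also `g • a, g • b`: then `g` permutes `{a, b}`. -/
theorem perm_of_fix {G Ω : Type*} [Group G] [MulAction G Ω]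
    (h3 : ∀ g : G, ∀ a b c : Ω, a ≠ b → b ≠ c → a ≠ c → g • a = a → g • b = b → g • c = c → g = 1)
    {a b : Ω} (hab : a ≠ b) (x : G) (hx1 : x ≠ 1) (hxa : x • a = a) (hxb : x • b = b) (g : G)
    (hga : x • (g • a) = g • a) (hgb : x • (g • b) = g • b) :
    (g • a = a ∧ g • b = b) ∨ (g • a = b ∧ g • b = a) := by
  have hc : g • a = a ∨ g • a = b := by
    by_contra h
    push Not at h
    exact hx1 (h3 x a b (g • a) hab (fun e => h.2 e.symm) (fun e => h.1 e.symm) hxa hxb hga)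
  have hd : g • b = a ∨ g • b = b := by
    by_contra h
    push Not at h
    exact hx1 (h3 x a b (g • b) hab (fun e => h.2 e.symm) (fun e => h.1 e.symm) hxa hxb hgb)
  have hne : g • a ≠ g • b := fun e => hab (smul_left_cancel g e)
  rcases hc with hc | hc <;> rcases hd with hd | hd
  · exact absurd (hc.trans hd.symm) hne
  · exact Or.inl ⟨hc, hd⟩
  · exact Or.inr ⟨hc, hd⟩
  · exact absurd (hc.trans hd.symm) hne

theorem norm_of_perm {G Ω : Type*} [Group G] [MulAction G Ω] (a b : Ω) (g : G)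
    (h : (g⁻¹ • a = a ∧ g⁻¹ • b = b) ∨ (g⁻¹ • a = b ∧ g⁻¹ • b = a)) :
    g ∈ Subgroup.normalizer
      ((MulAction.stabilizer G a ⊓ MulAction.stabilizer G b : Subgroup G) : Set G) := by
  rw [Subgroup.mem_normalizer_iff]
  intro x
  rw [mem_E, mem_E]
  have e1 : ∀ c : Ω, (g * x * g⁻¹) • c = c ↔ x • (g⁻¹ • c) = g⁻¹ • c := by
    intro c
    rw [mul_smul, mul_smul, smul_eq_iff_eq_inv_smul]
  rw [e1, e1]
  rcases h with ⟨h1, h2⟩ | ⟨h1, h2⟩
  · rw [h1, h2]
  · rw [h1, h2]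
    exact and_comm

theorem s0879 {G Ω : Type*} [Group G] [MulAction G Ω]
    (hZ : Cfsg.IsZassenhausGroup G Ω) {a b : Ω} (hab : a ≠ b) :
    (∀ g : G, g ∉ Subgroup.normalizer
        ((MulAction.stabilizer G a ⊓ MulAction.stabilizer G b : Subgroup G) : Set G) →
      ∀ x ∈ (MulAction.stabilizer G a ⊓ MulAction.stabilizer G b : Subgroup G),
        g * x * g⁻¹ ∈ (MulAction.stabilizer G a ⊓ MulAction.stabilizer G b : Subgroup G) →
        x = 1) ∧
    ((MulAction.stabilizer G a ⊓ MulAction.stabilizer G b : Subgroup G).subgroupOf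
      (Subgroup.normalizer
        ((MulAction.stabilizer G a ⊓ MulAction.stabilizer G b : Subgroup G) : Set G))).index
      = 2 := by
  obtain ⟨_, h2t, h3, ⟨g₀, hg₀, a', b', hab', hga', hgb'⟩, _⟩ := hZ
  rw [MulAction.is_two_pretransitive_iff] at h2t
  have hconj : ∀ (g x : G) (c : Ω), (g * x * g⁻¹) • c = c ↔ x • (g⁻¹ • c) = g⁻¹ • c := by
    intro g x c
    rw [mul_smul, mul_smul, smul_eq_iff_eq_inv_smul]
  have part1 : ∀ g : G, ∀ x ∈ (MulAction.stabilizer G a ⊓ MulAction.stabilizer G b : Subgroup G),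
      g * x * g⁻¹ ∈ (MulAction.stabilizer G a ⊓ MulAction.stabilizer G b : Subgroup G) →
      x ≠ 1 → (g⁻¹ • a = a ∧ g⁻¹ • b = b) ∨ (g⁻¹ • a = b ∧ g⁻¹ • b = a) := by
    intro g x hx hgx hx1
    rw [mem_E] at hx hgx
    rw [hconj, hconj] at hgx
    exact perm_of_fix h3 hab x hx1 hx.1 hx.2 g⁻¹ hgx.1 hgx.2
  refine ⟨?_, ?_⟩
  · intro g hg x hx hgx
    by_contra hx1
    exact hg (norm_of_perm a b g (part1 g x hx hgx hx1))
  · -- a non-identity element of `E`
    obtain ⟨h, hha, hhb⟩ := h2t hab' hab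
    have hx₀ : h * g₀ * h⁻¹ ∈ (MulAction.stabilizer G a ⊓ MulAction.stabilizer G b : Subgroup G) := by
      rw [mem_E, hconj, hconj]
      have e1 : h⁻¹ • a = a' := by rw [← hha, inv_smul_smul]
      have e2 : h⁻¹ • b = b' := by rw [← hhb, inv_smul_smul]
      rw [e1, e2]
      exact ⟨hga', hgb'⟩
    have hx₀1 : h * g₀ * h⁻¹ ≠ 1 := by
      intro e
      apply hg₀
      have : g₀ = h⁻¹ * (h * g₀ * h⁻¹) * h := by group
      rw [this, e]; group
    -- the swap
    obtain ⟨s, hsa, hsb⟩ := h2t hab hab.symm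
    have hsinv : (s⁻¹ • a = b ∧ s⁻¹ • b = a) := by
      constructor
      · rw [← hsb, inv_smul_smul]
      · rw [← hsa, inv_smul_smul]
    have hsN : s ∈ Subgroup.normalizer
        ((MulAction.stabilizer G a ⊓ MulAction.stabilizer G b : Subgroup G) : Set G) :=
      norm_of_perm a b s (Or.inr hsinv)
    rw [Subgroup.index_eq_two_iff]
    refine ⟨⟨s, hsN⟩, ?_⟩
    rintro ⟨m, hm⟩
    have hnx : m * (h * g₀ * h⁻¹) * m⁻¹ ∈
        (MulAction.stabilizer G a ⊓ MulAction.stabilizer G b : Subgroup G) :=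
      (Subgroup.mem_normalizer_iff.mp hm _).mp hx₀
    have hperm := part1 m _ hx₀ hnx hx₀1
    rw [Subgroup.mem_subgroupOf, Subgroup.mem_subgroupOf, mem_E, mem_E]
    show Xor' ((m * s) • a = a ∧ (m * s) • b = b) (m • a = a ∧ m • b = b)
    rw [mul_smul, mul_smul, hsa, hsb]
    rcases hperm with ⟨h1, h2⟩ | ⟨h1, h2⟩
    · have e1 : m • a = a := (inv_smul_eq_iff.mp h1).symm
      have e2 : m • b = b := (inv_smul_eq_iff.mp h2).symm
      right
      refine ⟨⟨e1, e2⟩, ?_⟩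
      rintro ⟨e3, _⟩
      exact hab (e3.symm.trans e2)
    · have e1 : m • b = a := (inv_smul_eq_iff.mp h1).symm
      have e2 : m • a = b := (inv_smul_eq_iff.mp h2).symm
      left
      refine ⟨⟨e1, e2⟩, ?_⟩
      rintro ⟨e3, _⟩
      exact hab (e3.symm.trans e2)

end Cfsg.Agent.Lib_helper9_Zass
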