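import Mathlib
import Cfsg.Prelude.Def_LieExceptional

set_option autoImplicit false

namespace Cfsg.Agent.Lib_helper9_Zass2

theorem s0878 {G Ω : Type*} [Group G] [Finite G] [MulAction G Ω] [Fintype Ω]
    (hZ : Cfsg.IsZassenhausGroup G Ω) (a : Ω) (H : Subgroup G)
    (hHa : H ≤ MulAction.stabilizer G a) (hHcard : Nat.card H + 1 = Fintype.card Ω)
    (hHfix : ∀ u ∈ H, u ≠ 1 → ∀ c : Ω, u • c = c → c = a) :
    (∀ g : G, g ∉ MulAction.stabilizer G a → ∀ u ∈ H, g * u * g⁻¹ ∈ H → u = 1) ∧
      Subgroup.normalizer (H : Set G) = MulAction.stabilizer G a := by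
  classical
  obtain ⟨hfaith, h2t, h3, ⟨g₀, hg₀, a', b', hab', hga', hgb'⟩, _⟩ := hZ
  have hfixa : ∀ u ∈ H, u • a = a := fun u hu => MulAction.mem_stabilizer_iff.mp (hHa hu)
  have part1 : ∀ g : G, g ∉ MulAction.stabilizer G a → ∀ u ∈ H, g * u * g⁻¹ ∈ H → u = 1 := by
    intro g hg u hu hgu
    by_contra hu1
    apply hg
    rw [MulAction.mem_stabilizer_iff]
    apply hHfix _ hgu
    · intro e
      apply hu1
      have : u = g⁻¹ * (g * u * g⁻¹) * g := by group
      rw [this, e]; group
    · rw [mul_smul, mul_smul, inv_smul_smul, hfixa u hu]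
  -- cardinality of the complement of `a`
  have hcard' : Nat.card {c : Ω // c ≠ a} = Nat.card H := by
    rw [Nat.card_eq_fintype_card, Fintype.card_subtype_compl, Fintype.card_subtype_eq]
    omega
  -- regularity
  have hreg : ∀ c : Ω, c ≠ a → ∀ c' : Ω, c' ≠ a → ∃ h ∈ H, h • c = c' := by
    intro c hc c' hc'
    let f : H → {c : Ω // c ≠ a} := fun h => ⟨h.1 • c, fun e => hc (by
      have := hfixa h.1 h.2
      exact smul_left_cancel h.1 (e.trans this.symm))⟩
    have hinj : Function.Injective f := by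
      intro h h' e
      have e' : h.1 • c = h'.1 • c := congrArg Subtype.val e
      by_contra hne
      have hne' : h'.1⁻¹ * h.1 ≠ 1 := by
        intro e1
        apply hne
        apply Subtype.ext
        have := inv_mul_eq_one.mp e1
        exact this.symm
      apply hc
      apply hHfix _ (H.mul_mem (H.inv_mem h'.2) h.2) hne'
      rw [mul_smul, e', inv_smul_smul]
    have hbij := hinj.bijective_of_nat_card_le (le_of_eq hcard')
    obtain ⟨h, hh⟩ := hbij.2 ⟨c', hc'⟩
    exact ⟨h.1, h.2, congrArg Subtype.val hh⟩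
  -- elements of the stabilizer outside `H` fix a further point
  have hcore : ∀ e : G, e • a = a → e ∉ H → ∃ c : Ω, c ≠ a ∧ e • c = c := by
    intro e hea heH
    have hec : ∀ c : Ω, c ≠ a → e • c ≠ a := by
      intro c hc h
      exact hc (smul_left_cancel e (h.trans hea.symm))
    choose F hF hF' using fun c : {c : Ω // c ≠ a} => hreg c.1 c.2 (e • c.1) (hec c.1 c.2)
    let F' : {c : Ω // c ≠ a} → H := fun c => ⟨F c, hF c⟩
    have hinj : Function.Injective F' := by
      intro c c' hcc
      have e1 : F c = F c' := congrArg Subtype.val hcc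
      by_contra hne
      have hne' : c.1 ≠ c'.1 := fun h => hne (Subtype.ext h)
      have h1 : ((F c)⁻¹ * e) • a = a := by
        rw [mul_smul, hea, inv_smul_eq_iff, hfixa _ (hF c)]
      have h2 : ((F c)⁻¹ * e) • c.1 = c.1 := by
        rw [mul_smul, inv_smul_eq_iff, hF' c]
      have h3' : ((F c)⁻¹ * e) • c'.1 = c'.1 := by
        rw [mul_smul, inv_smul_eq_iff, e1, hF' c']
      have h4 := h3 _ a c.1 c'.1 (Ne.symm c.2) hne' (Ne.symm c'.2) h1 h2 h3'
      apply heH
      have he : e = F c := by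
        have := inv_mul_eq_one.mp h4
        exact this.symm
      rw [he]; exact hF c
    have hbij := hinj.bijective_of_nat_card_le (le_of_eq hcard'.symm)
    obtain ⟨c, hc⟩ := hbij.2 1
    refine ⟨c.1, c.2, ?_⟩
    have h5 : F c = 1 := congrArg Subtype.val hc
    have h := hF' c
    rw [h5, one_smul] at h
    exact h.symm
  have hconjH : ∀ x : G, x • a = a → ∀ u ∈ H, x * u * x⁻¹ ∈ H := by
    intro x hxa u hu
    by_cases hu1 : u = 1
    · rw [hu1]; simp
    by_contra hnot
    have hxa' : x⁻¹ • a = a := by rw [inv_smul_eq_iff, hxa]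
    have hfa : (x * u * x⁻¹) • a = a := by
      rw [mul_smul, mul_smul, hxa', hfixa u hu, hxa]
    obtain ⟨c, hc, hcc⟩ := hcore _ hfa hnot
    apply hc
    rw [mul_smul, mul_smul] at hcc
    have h6 : u • (x⁻¹ • c) = x⁻¹ • c := (smul_eq_iff_eq_inv_smul x).mp hcc
    have h7 := hHfix u hu hu1 _ h6
    rw [inv_smul_eq_iff, hxa] at h7
    exact h7
  refine ⟨part1, ?_⟩
  apply le_antisymm
  · intro g hg
    by_contra hga
    have hH2 : ∃ u ∈ H, u ≠ 1 := by
      by_contra hno
      push Not at hno
      have hbot : H = ⊥ := (Subgroup.eq_bot_iff_forall H).mpr hno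
      have hH1 : Nat.card H = 1 := by rw [hbot]; exact Subgroup.card_bot
      have hcard2 : Fintype.card Ω = 2 := by rw [← hHcard, hH1]
      have hall : ∀ c : Ω, c = a' ∨ c = b' := by
        intro c
        by_contra hc
        push Not at hc
        have : 2 < Fintype.card Ω :=
          Fintype.two_lt_card_iff.mpr ⟨a', b', c, hab', hc.1.symm, hc.2.symm⟩
        omega
      apply hg₀
      apply hfaith.eq_of_smul_eq_smul
      intro c
      rw [one_smul]
      rcases hall c with rfl | rfl
      · exact hga'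
      · exact hgb'
    obtain ⟨u, hu, hu1⟩ := hH2
    exact hu1 (part1 g hga u hu ((Subgroup.mem_normalizer_iff.mp hg u).mp hu))
  · intro x hx
    rw [MulAction.mem_stabilizer_iff] at hx
    rw [Subgroup.mem_normalizer_iff]
    intro u
    refine ⟨hconjH x hx u, fun h => ?_⟩
    have hx' : x⁻¹ • a = a := by rw [inv_smul_eq_iff, hx]
    have h8 := hconjH x⁻¹ hx' _ h
    have e : x⁻¹ * (x * u * x⁻¹) * x⁻¹⁻¹ = u := by group
    rw [e] at h8; exact h8

end Cfsg.Agent.Lib_helper9_Zass2
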