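import Cfsg.Prelude.Def_LieExceptional

set_option autoImplicit false

namespace Cfsg.Agent.Lib_lead_BN

open Cfsg

variable {G : Type*} [Group G] (P : Cfsg.BNPair G)

/-- the double coset `B n B` -/
abbrev C (n : G) : Set G := DoubleCoset.doubleCoset n (P.B : Set G) P.B

lemma mem_C {n g : G} : g ∈ C P n ↔ ∃ b ∈ P.B, ∃ b' ∈ P.B, g = b * n * b' :=
  DoubleCoset.mem_doubleCoset

lemma self_mem_C (n : G) : n ∈ C P n := DoubleCoset.mem_doubleCoset_self _ _ _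

lemma C_eq_of_mem {n g : G} (h : g ∈ C P n) : C P g = C P n :=
  DoubleCoset.doubleCoset_eq_of_mem h

lemma C_mul_left {n g b : G} (hb : b ∈ P.B) (h : g ∈ C P n) : b * g ∈ C P n := by
  rw [mem_C] at h ⊢
  obtain ⟨b₁, hb₁, b₂, hb₂, rfl⟩ := h
  exact ⟨b * b₁, P.B.mul_mem hb hb₁, b₂, hb₂, by group⟩

lemma C_mul_right {n g b : G} (hb : b ∈ P.B) (h : g ∈ C P n) : g * b ∈ C P n := by
  rw [mem_C] at h ⊢
  obtain ⟨b₁, hb₁, b₂, hb₂, rfl⟩ := h
  exact ⟨b₁, hb₁, b₂ * b, P.B.mul_mem hb₂ hb, by group⟩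

lemma C_left_B {n b : G} (hb : b ∈ P.B) : C P (b * n) = C P n :=
  C_eq_of_mem P (C_mul_left P hb (self_mem_C P n))

lemma C_right_B {n b : G} (hb : b ∈ P.B) : C P (n * b) = C P n :=
  C_eq_of_mem P (C_mul_right P hb (self_mem_C P n))

lemma C_inv {n g : G} (h : g ∈ C P n) : g⁻¹ ∈ C P n⁻¹ := by
  rw [mem_C] at h ⊢
  obtain ⟨b₁, hb₁, b₂, hb₂, rfl⟩ := h
  exact ⟨b₂⁻¹, P.B.inv_mem hb₂, b₁⁻¹, P.B.inv_mem hb₁, by group⟩

lemma C_one : C P 1 = (P.B : Set G) := by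
  ext g
  rw [mem_C]
  constructor
  · rintro ⟨b, hb, b', hb', rfl⟩
    simpa using P.B.mul_mem hb hb'
  · intro hg
    exact ⟨g, hg, 1, P.B.one_mem, by group⟩

lemma C_of_mem_B {b : G} (hb : b ∈ P.B) : C P b = (P.B : Set G) := by
  have := C_right_B P (n := 1) hb
  rw [one_mul] at this
  rw [this, C_one]

lemma mem_B_of_C_eq {n : G} (h : C P n = (P.B : Set G)) : n ∈ P.B := by
  have := self_mem_C P n
  rw [h] at this
  exact this

lemma C_eq_iff_mem {n m : G} : C P n = C P m ↔ n ∈ C P m :=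
  ⟨fun h => h ▸ self_mem_C P n, C_eq_of_mem P⟩

lemma C_eq_of_inter {n m g : G} (h1 : g ∈ C P n) (h2 : g ∈ C P m) : C P n = C P m := by
  rw [← C_eq_of_mem P h1, ← C_eq_of_mem P h2]

/-! ### basic facts on `S` and `T = B ⊓ N` -/

lemma S_mem_N {s : G} (hs : s ∈ P.S) : s ∈ P.N := P.subset hs

lemma sq_mem_B {s : G} (hs : s ∈ P.S) : s * s ∈ P.B := P.sq_mem s hs

lemma sq_inv_mem_B {s : G} (hs : s ∈ P.S) : (s * s)⁻¹ ∈ P.B := P.B.inv_mem (P.sq_mem s hs)

lemma S_inv_eq (s : G) : s⁻¹ = (s * s)⁻¹ * s := by group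

lemma S_inv_eq' (s : G) : s⁻¹ = s * (s * s)⁻¹ := by group

lemma S_not_mem_B {s : G} (hs : s ∈ P.S) : s ∉ P.B := by
  intro hsB
  apply P.conj_ne s hs
  ext g
  constructor
  · rintro ⟨b, hb, rfl⟩
    exact P.B.mul_mem (P.B.mul_mem hsB hb) hsB
  · intro hg
    exact ⟨s⁻¹ * g * s⁻¹, P.B.mul_mem (P.B.mul_mem (P.B.inv_mem hsB) hg) (P.B.inv_mem hsB), by group⟩

lemma T_conj {n t : G} (hn : n ∈ P.N) (htB : t ∈ P.B) (htN : t ∈ P.N) : n * t * n⁻¹ ∈ P.B :=
  P.conj_mem n hn t ⟨htB, htN⟩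

lemma T_conj' {n t : G} (hn : n ∈ P.N) (htB : t ∈ P.B) (htN : t ∈ P.N) : n⁻¹ * t * n ∈ P.B := by
  have := P.conj_mem n⁻¹ (P.N.inv_mem hn) t ⟨htB, htN⟩
  simpa using this

/-! ### the double coset axiom and its variants -/

lemma bn3 {s n b : G} (hs : s ∈ P.S) (hn : n ∈ P.N) (hb : b ∈ P.B) :
    s * b * n ∈ C P (s * n) ∪ C P n := P.mul_mem_union s hs n hn b hb

lemma bn3_inv {s n b : G} (hs : s ∈ P.S) (hn : n ∈ P.N) (hb : b ∈ P.B) :
    s⁻¹ * b * n ∈ C P (s * n) ∪ C P n := by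
  have h := bn3 P hs hn hb
  have e : s⁻¹ * b * n = (s * s)⁻¹ * (s * b * n) := by group
  rw [e]
  rcases h with h | h
  · exact Or.inl (C_mul_left P (sq_inv_mem_B P hs) h)
  · exact Or.inr (C_mul_left P (sq_inv_mem_B P hs) h)

lemma bn3_right {s n b : G} (hs : s ∈ P.S) (hn : n ∈ P.N) (hb : b ∈ P.B) :
    n * b * s ∈ C P (n * s) ∪ C P n := by
  have h := bn3_inv P hs (P.N.inv_mem hn) (P.B.inv_mem hb)
  have e : n * b * s = (s⁻¹ * b⁻¹ * n⁻¹)⁻¹ := by group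
  rw [e]
  rcases h with h | h
  · left
    have h' := C_inv P h
    have e2 : (s * n⁻¹)⁻¹ = n * s * (s * s)⁻¹ := by group
    rw [e2, C_right_B P (sq_inv_mem_B P hs)] at h'
    exact h'
  · right
    have h' := C_inv P h
    simpa using h'

lemma bn3_right_inv {s n b : G} (hs : s ∈ P.S) (hn : n ∈ P.N) (hb : b ∈ P.B) :
    n * b * s⁻¹ ∈ C P (n * s) ∪ C P n := by
  have h := bn3_right P hs hn hb
  have e : n * b * s⁻¹ = (n * b * s) * (s * s)⁻¹ := by group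
  rw [e]
  rcases h with h | h
  · exact Or.inl (C_mul_right P (sq_inv_mem_B P hs) h)
  · exact Or.inr (C_mul_right P (sq_inv_mem_B P hs) h)

/-! ### Bruhat decomposition: existence, and the parabolic version -/

/-- the closure argument: a set `X`, union of double cosets `B n B`, `n ∈ W'`, where `W'` is a subgroup
of `N` stable under left multiplication by `J ⊆ S`, is stable under `B ⊔ closure J`. -/
lemma closure_arg (J : Set G) (hJ : J ⊆ P.S) (W' : Subgroup G) (hW' : W' ≤ P.N)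
    (hJW : J ⊆ (W' : Set G)) (g : G) (hg : g ∈ P.B ⊔ Subgroup.closure J) :
    ∃ n ∈ W', g ∈ C P n := by
  let X : Set G := {x | ∃ n ∈ W', x ∈ C P n}
  let M : Subgroup G :=
    { carrier := {g | ∀ x ∈ X, g * x ∈ X ∧ g⁻¹ * x ∈ X}
      mul_mem' := by
        intro a b ha hb x hx
        refine ⟨?_, ?_⟩
        · rw [mul_assoc]; exact (ha _ (hb x hx).1).1
        · rw [mul_inv_rev, mul_assoc]; exact (hb _ (ha x hx).2).2
      one_mem' := by
        intro x hx; simpa using hx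
      inv_mem' := by
        intro a ha x hx
        refine ⟨(ha x hx).2, ?_⟩
        rw [inv_inv]; exact (ha x hx).1 }
  have hBM : P.B ≤ M := by
    intro b hb x hx
    obtain ⟨n, hn, hxn⟩ := hx
    exact ⟨⟨n, hn, C_mul_left P hb hxn⟩, ⟨n, hn, C_mul_left P (P.B.inv_mem hb) hxn⟩⟩
  have hJM : J ⊆ (M : Set G) := by
    intro s hs x hx
    obtain ⟨n, hn, hxn⟩ := hx
    rw [mem_C] at hxn
    obtain ⟨b, hb, b', hb', rfl⟩ := hxn
    have hsn : s * n ∈ W' := W'.mul_mem (hJW hs) hn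
    constructor
    · have h := bn3 P (hJ hs) (hW' hn) hb
      have e : s * (b * n * b') = (s * b * n) * b' := by group
      rw [e]
      rcases h with h | h
      · exact ⟨s * n, hsn, C_mul_right P hb' h⟩
      · exact ⟨n, hn, C_mul_right P hb' h⟩
    · have h := bn3_inv P (hJ hs) (hW' hn) hb
      have e : s⁻¹ * (b * n * b') = (s⁻¹ * b * n) * b' := by group
      rw [e]
      rcases h with h | h
      · exact ⟨s * n, hsn, C_mul_right P hb' h⟩
      · exact ⟨n, hn, C_mul_right P hb' h⟩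
  have hle : P.B ⊔ Subgroup.closure J ≤ M := sup_le hBM ((Subgroup.closure_le M).2 hJM)
  have h1 : (1 : G) ∈ X := ⟨1, W'.one_mem, self_mem_C P 1⟩
  have h2 := (hle hg 1 h1).1
  rw [mul_one] at h2
  exact h2

/-- Bruhat decomposition, existence -/
theorem bruhat_exists (g : G) : ∃ n ∈ P.N, g ∈ C P n := by
  -- first for `g ∈ B ⊔ closure S`
  have key : ∀ g ∈ P.B ⊔ Subgroup.closure P.S, ∃ n ∈ P.N, g ∈ C P n := by
    intro g hg
    exact closure_arg P P.S subset_rfl P.N le_rfl P.subset g hg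
  have htop : P.B ⊔ Subgroup.closure P.S = ⊤ := by
    apply top_le_iff.1
    rw [← P.sup_eq_top]
    apply sup_le le_sup_left
    rw [← P.closure_sup]
    apply sup_le le_sup_right
    exact inf_le_left.trans le_sup_left
  exact key g (htop ▸ Subgroup.mem_top g)

/-- parabolic version -/
theorem parabolic_iff {J : Set G} (hJ : J ⊆ P.S) (g : G) :
    g ∈ P.parabolic J ↔ ∃ n ∈ Subgroup.closure J, g ∈ C P n := by
  constructor
  · intro hg
    exact closure_arg P J hJ (Subgroup.closure J)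
      ((Subgroup.closure_le _).2 (hJ.trans P.subset)) Subgroup.subset_closure g hg
  · rintro ⟨n, hn, hg⟩
    rw [mem_C] at hg
    obtain ⟨b, hb, b', hb', rfl⟩ := hg
    have hB : P.B ≤ P.parabolic J := le_sup_left
    have hC : Subgroup.closure J ≤ P.parabolic J := le_sup_right
    exact (P.parabolic J).mul_mem ((P.parabolic J).mul_mem (hB hb) (hC hn)) (hB hb')

/-! ### words: `IsLenJ J k n` says `n ∈ N` is, modulo `T = B ⊓ N`, a product of `k` members of `J` -/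

/-- `IsLenJ J k n`: `n` is a product `s₁ ⋯ s_k t` with `s_i ∈ J`, `t ∈ B ⊓ N`. -/
def IsLenJ (J : Set G) : ℕ → G → Prop
  | 0, n => n ∈ P.B ∧ n ∈ P.N
  | k + 1, n => ∃ s ∈ J, ∃ m, IsLenJ J k m ∧ n = s * m

/-- `IsLen k n`: `n` is a product `s₁ ⋯ s_k t` with `s_i ∈ S`, `t ∈ B ⊓ N`. -/
abbrev IsLen (k : ℕ) (n : G) : Prop := IsLenJ P P.S k n

section words

variable {J : Set G} (hJ : J ⊆ P.S)
include hJ

lemma IsLenJ.mem_N : ∀ {k : ℕ} {n : G}, IsLenJ P J k n → n ∈ P.N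
  | 0, _, h => h.2
  | k + 1, _, h => by
    obtain ⟨s, hs, m, hm, rfl⟩ := h
    exact P.N.mul_mem (P.subset (hJ hs)) (IsLenJ.mem_N hm)

lemma IsLenJ.T_mul : ∀ {k : ℕ} {n t : G}, t ∈ P.B → t ∈ P.N → IsLenJ P J k n →
    IsLenJ P J k (t * n)
  | 0, _, _, htB, htN, h => ⟨P.B.mul_mem htB h.1, P.N.mul_mem htN h.2⟩
  | k + 1, _, t, htB, htN, h => by
    obtain ⟨s, hs, m, hm, rfl⟩ := h
    have hsN := P.subset (hJ hs)
    have h1 : s⁻¹ * t * s ∈ P.B := T_conj' P hsN htB htN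
    have h2 : s⁻¹ * t * s ∈ P.N := P.N.mul_mem (P.N.mul_mem (P.N.inv_mem hsN) htN) hsN
    exact ⟨s, hs, (s⁻¹ * t * s) * m, IsLenJ.T_mul h1 h2 hm, by group⟩

lemma IsLenJ.mul : ∀ {k l : ℕ} {n m : G}, IsLenJ P J k n → IsLenJ P J l m →
    IsLenJ P J (k + l) (n * m)
  | 0, l, _, _, hn, hm => by
    rw [Nat.zero_add]
    exact IsLenJ.T_mul P hJ hn.1 hn.2 hm
  | k + 1, l, _, m, hn, hm => by
    obtain ⟨s, hs, n', hn', rfl⟩ := hn
    rw [Nat.succ_add]
    exact ⟨s, hs, n' * m, IsLenJ.mul hn' hm, by group⟩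

omit hJ in
lemma IsLenJ.of_J {s : G} (hs : s ∈ J) : IsLenJ P J 1 s :=
  ⟨s, hs, 1, ⟨P.B.one_mem, P.N.one_mem⟩, by group⟩

lemma IsLenJ.of_J_inv {s : G} (hs : s ∈ J) : IsLenJ P J 1 s⁻¹ :=
  ⟨s, hs, (s * s)⁻¹, ⟨sq_inv_mem_B P (hJ hs),
    P.N.inv_mem (P.N.mul_mem (P.subset (hJ hs)) (P.subset (hJ hs)))⟩, by group⟩

lemma IsLenJ.mul_T {k : ℕ} {n t : G} (h : IsLenJ P J k n) (htB : t ∈ P.B) (htN : t ∈ P.N) :
    IsLenJ P J k (n * t) := by
  have := IsLenJ.mul P hJ h (show IsLenJ P J 0 t from ⟨htB, htN⟩)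
  simpa using this

lemma IsLenJ.mul_J {k : ℕ} {n s : G} (h : IsLenJ P J k n) (hs : s ∈ J) :
    IsLenJ P J (k + 1) (n * s) := IsLenJ.mul P hJ h (IsLenJ.of_J P hs)

omit hJ in
lemma IsLenJ.J_mul {k : ℕ} {n s : G} (h : IsLenJ P J k n) (hs : s ∈ J) :
    IsLenJ P J (k + 1) (s * n) := ⟨s, hs, n, h, rfl⟩

lemma IsLenJ.inv : ∀ {k : ℕ} {n : G}, IsLenJ P J k n → IsLenJ P J k n⁻¹
  | 0, _, h => ⟨P.B.inv_mem h.1, P.N.inv_mem h.2⟩
  | k + 1, _, h => by
    obtain ⟨s, hs, m, hm, rfl⟩ := h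
    rw [mul_inv_rev]
    exact IsLenJ.mul P hJ (IsLenJ.inv hm) (IsLenJ.of_J_inv P hJ hs)

/-- right-handed decomposition -/
lemma IsLenJ.right_decomp {k : ℕ} {n : G} (h : IsLenJ P J (k + 1) n) :
    ∃ s ∈ J, ∃ m, IsLenJ P J k m ∧ n = m * s := by
  obtain ⟨s, hs, m, hm, e⟩ := IsLenJ.inv P hJ h
  refine ⟨s, hs, m⁻¹ * (s * s)⁻¹, ?_, ?_⟩
  · exact IsLenJ.mul_T P hJ (IsLenJ.inv P hJ hm) (sq_inv_mem_B P (hJ hs))
      (P.N.inv_mem (P.N.mul_mem (P.subset (hJ hs)) (P.subset (hJ hs))))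
  · have : n = (s * m)⁻¹ := by rw [← e, inv_inv]
    rw [this]; group

/-- the subgroup of elements having a `J`-word -/
def lenSubgroup : Subgroup G :=
  { carrier := {n | ∃ k, IsLenJ P J k n}
    mul_mem' := by
      rintro a b ⟨k, hk⟩ ⟨l, hl⟩
      exact ⟨k + l, IsLenJ.mul P hJ hk hl⟩
    one_mem' := ⟨0, P.B.one_mem, P.N.one_mem⟩
    inv_mem' := by
      rintro a ⟨k, hk⟩
      exact ⟨k, IsLenJ.inv P hJ hk⟩ }

lemma exists_isLenJ_of_mem_closure {n : G} (hn : n ∈ Subgroup.closure J) :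
    ∃ k, IsLenJ P J k n := by
  have h1 : Subgroup.closure J ≤ lenSubgroup P hJ :=
    (Subgroup.closure_le _).2 (fun s hs => ⟨1, IsLenJ.of_J P hs⟩)
  exact h1 hn

omit hJ in
lemma IsLenJ.exists_closure : ∀ {k : ℕ} {n : G}, IsLenJ P J k n →
    ∃ w ∈ Subgroup.closure J, w⁻¹ * n ∈ P.B ∧ w⁻¹ * n ∈ P.N
  | 0, n, h => ⟨1, Subgroup.one_mem _, by simpa using h.1, by simpa using h.2⟩
  | k + 1, _, h => by
    obtain ⟨s, hs, m, hm, rfl⟩ := h
    obtain ⟨w, hw, h1, h2⟩ := IsLenJ.exists_closure hm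
    refine ⟨s * w, Subgroup.mul_mem _ (Subgroup.subset_closure hs) hw, ?_, ?_⟩
    · have : (s * w)⁻¹ * (s * m) = w⁻¹ * m := by group
      rw [this]; exact h1
    · have : (s * w)⁻¹ * (s * m) = w⁻¹ * m := by group
      rw [this]; exact h2

omit hJ in
lemma IsLenJ.mono {K : Set G} (hJK : J ⊆ K) : ∀ {k : ℕ} {n : G}, IsLenJ P J k n → IsLenJ P K k n
  | 0, _, h => h
  | k + 1, _, h => by
    obtain ⟨s, hs, m, hm, rfl⟩ := h
    exact ⟨s, hJK hs, m, IsLenJ.mono hJK hm, rfl⟩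

end words

/-- every element of `N` has a word -/
lemma exists_isLen {n : G} (hn : n ∈ P.N) : ∃ k, IsLen P k n := by
  have h1 : Subgroup.closure P.S ≤ lenSubgroup P (subset_refl P.S) :=
    (Subgroup.closure_le _).2 (fun s hs => ⟨1, IsLenJ.of_J P hs⟩)
  have h2 : P.B ⊓ P.N ≤ lenSubgroup P (subset_refl P.S) := fun t ht => ⟨0, ht.1, ht.2⟩
  have h3 : P.N ≤ lenSubgroup P (subset_refl P.S) := by
    conv_lhs => rw [← P.closure_sup]
    exact sup_le h1 h2
  exact h3 hn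

/-! ### Bruhat decomposition: uniqueness -/

lemma bruhat_unique_aux : ∀ (k : ℕ) (n n' : G), IsLen P k n → n' ∈ P.N → C P n = C P n' →
    n⁻¹ * n' ∈ P.B
  | 0, n, n', hn, _, h => by
    rw [C_of_mem_B P hn.1] at h
    exact P.B.mul_mem (P.B.inv_mem hn.1) (mem_B_of_C_eq P h.symm)
  | k + 1, n, n', hn, hn', h => by
    obtain ⟨s, hs, m, hm, rfl⟩ := hn
    have hsN := P.subset hs
    have hmN := IsLenJ.mem_N P (subset_refl P.S) hm
    have h1 : s * m ∈ C P n' := h ▸ self_mem_C P (s * m)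
    rw [mem_C] at h1
    obtain ⟨b₁, hb₁, b₂, hb₂, e⟩ := h1
    have e' : m = (s⁻¹ * b₁ * n') * b₂ := by
      have : m = s⁻¹ * (s * m) := by group
      rw [this, e]; group
    rcases bn3_inv P hs hn' hb₁ with h2 | h2
    · -- `m ∈ C (s n')`
      have h3 : m ∈ C P (s * n') := by rw [e']; exact C_mul_right P hb₂ h2
      have h4 := bruhat_unique_aux k m (s * n') hm (P.N.mul_mem hsN hn') (C_eq_of_mem P h3)
      have h5 : n'⁻¹ * (s * s)⁻¹ * n' ∈ P.B :=
        T_conj' P hn' (sq_inv_mem_B P hs) (P.N.inv_mem (P.N.mul_mem hsN hsN))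
      have : (s * m)⁻¹ * n' = (m⁻¹ * (s * n')) * (n'⁻¹ * (s * s)⁻¹ * n') := by group
      rw [this]
      exact P.B.mul_mem h4 h5
    · -- `m ∈ C n'`, impossible
      exfalso
      have h3 : m ∈ C P n' := by rw [e']; exact C_mul_right P hb₂ h2
      have h4 : C P m = C P (s * m) := by rw [C_eq_of_mem P h3, h]
      have h5 := bruhat_unique_aux k m (s * m) hm (P.N.mul_mem hsN hmN) h4
      have h6 : m⁻¹ * (s * m) ∈ P.N := P.N.mul_mem (P.N.inv_mem hmN) (P.N.mul_mem hsN hmN)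
      have h7 := T_conj P hmN h5 h6
      have : m * (m⁻¹ * (s * m)) * m⁻¹ = s := by group
      rw [this] at h7
      exact S_not_mem_B P hs h7

/-- Bruhat decomposition, uniqueness -/
theorem bruhat_unique {n n' : G} (hn : n ∈ P.N) (hn' : n' ∈ P.N) :
    C P n = C P n' ↔ n⁻¹ * n' ∈ P.B := by
  constructor
  · intro h
    obtain ⟨k, hk⟩ := exists_isLen P hn
    exact bruhat_unique_aux P k n n' hk hn' h
  · intro h
    have : n' = n * (n⁻¹ * n') := by group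
    rw [this, C_right_B P h]

/-! ### the relation `Up s n`: `s B n ⊆ B s n B` -/

/-- `Up s n`: `s B n ⊆ B s n B` (in Coxeter terms: `s n` is longer than `n`). -/
def Up (s n : G) : Prop := ∀ b ∈ P.B, s * b * n ∈ C P (s * n)

lemma up_of_mem_B {s n : G} (hn : n ∈ P.B) : Up P s n := by
  intro b hb
  rw [mem_C]
  exact ⟨1, P.B.one_mem, n⁻¹ * b * n, P.B.mul_mem (P.B.mul_mem (P.B.inv_mem hn) hb) hn, by group⟩

lemma exists_sbs {s : G} (hs : s ∈ P.S) : ∃ b ∈ P.B, s * b * s ∈ C P s := by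
  by_contra hcon
  push_neg at hcon
  have h1 : ∀ b ∈ P.B, s * b * s ∈ P.B := by
    intro b hb
    have := bn3 P hs (S_mem_N P hs) hb
    rcases this with h | h
    · rw [C_of_mem_B P (sq_mem_B P hs)] at h; exact h
    · exact absurd h (hcon b hb)
  apply P.conj_ne s hs
  ext g
  constructor
  · rintro ⟨b, hb, rfl⟩
    exact h1 b hb
  · intro hg
    refine ⟨(s * s)⁻¹ * (s * g * s) * (s * s)⁻¹, ?_, by group⟩
    exact P.B.mul_mem (P.B.mul_mem (sq_inv_mem_B P hs) (h1 g hg)) (sq_inv_mem_B P hs)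

lemma not_both {s n : G} (hs : s ∈ P.S) (hn : n ∈ P.N) (h1 : Up P s n) (h2 : Up P s (s * n)) :
    False := by
  obtain ⟨b, hb, hbs⟩ := exists_sbs P hs
  rw [mem_C] at hbs
  obtain ⟨b₁, hb₁, b₂, hb₂, e⟩ := hbs
  have hsN := S_mem_N P hs
  have h3 : s * b * (s * n) ∈ C P n := by
    have := h2 b hb
    have e2 : s * (s * n) = (s * s) * n := by group
    rw [e2, C_left_B P (sq_mem_B P hs)] at this
    exact this
  have h4 : s * b * (s * n) ∈ C P (s * n) := by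
    have e3 : s * b * (s * n) = b₁ * (s * b₂ * n) := by
      have : s * b * (s * n) = (s * b * s) * n := by group
      rw [this, e]; group
    rw [e3]
    exact C_mul_left P hb₁ (h1 b₂ hb₂)
  have h5 : C P n = C P (s * n) := C_eq_of_inter P h3 h4
  have h6 := (bruhat_unique P hn (P.N.mul_mem hsN hn)).1 h5
  have h7 : n⁻¹ * (s * n) ∈ P.N := P.N.mul_mem (P.N.inv_mem hn) (P.N.mul_mem hsN hn)
  have h8 := T_conj P hn h6 h7
  have : n * (n⁻¹ * (s * n)) * n⁻¹ = s := by group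
  rw [this] at h8
  exact S_not_mem_B P hs h8

/-- if `Up s m` but not `Up s (m s')`, then `s m ≡ m s'` modulo `B ⊓ N` -/
lemma comm_of_up_of_not_up {s s' m : G} (hs : s ∈ P.S) (hs' : s' ∈ P.S) (hm : m ∈ P.N)
    (h1 : Up P s m) (h2 : ¬ Up P s (m * s')) : (s * m)⁻¹ * (m * s') ∈ P.B := by
  have hsN := S_mem_N P hs
  have hs'N := S_mem_N P hs'
  unfold Up at h2
  push_neg at h2
  obtain ⟨b, hb, hb2⟩ := h2
  have h3 : s * b * (m * s') ∈ C P (m * s') := by
    rcases bn3 P hs (P.N.mul_mem hm hs'N) hb with h | h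
    · exact absurd h hb2
    · exact h
  rw [mem_C] at h3
  obtain ⟨b₁, hb₁, b₂, hb₂, e⟩ := h3
  have e' : s * b * m = b₁ * ((m * s') * b₂ * s'⁻¹) := by
    have : s * b * m = (s * b * (m * s')) * s'⁻¹ := by group
    rw [this, e]; group
  have h4 : s * b * m ∈ C P (s * m) := h1 b hb
  rcases bn3_right_inv P hs' (P.N.mul_mem hm hs'N) hb₂ with h | h
  · exfalso
    have e2 : m * s' * s' = m * (s' * s') := by group
    rw [e2, C_right_B P (sq_mem_B P hs')] at h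
    have h5 : s * b * m ∈ C P m := by rw [e']; exact C_mul_left P hb₁ h
    have h6 : C P (s * m) = C P m := C_eq_of_inter P h4 h5
    have h7 := (bruhat_unique P (P.N.mul_mem hsN hm) hm).1 h6
    have h8 : (s * m)⁻¹ * m ∈ P.N := P.N.mul_mem (P.N.inv_mem (P.N.mul_mem hsN hm)) hm
    have h9 := T_conj P hm h7 h8
    have : m * ((s * m)⁻¹ * m) * m⁻¹ = s⁻¹ := by group
    rw [this] at h9
    exact S_not_mem_B P hs (by simpa using P.B.inv_mem h9)
  · have h5 : s * b * m ∈ C P (m * s') := by rw [e']; exact C_mul_left P hb₁ h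
    have h6 : C P (s * m) = C P (m * s') := C_eq_of_inter P h4 h5
    exact (bruhat_unique P (P.N.mul_mem hsN hm) (P.N.mul_mem hm hs'N)).1 h6

/-- exchange: if not `Up s n` then a `J`-word for `n` of length `k` gives one of length `k - 1` for `s n` -/
lemma exchange {J : Set G} (hJ : J ⊆ P.S) {s : G} (hs : s ∈ P.S) (k : ℕ) :
    ∀ (n : G), IsLenJ P J k n → ¬ Up P s n → ∃ k', k = k' + 1 ∧ IsLenJ P J k' (s * n) := by
  induction k with
  | zero => intro n hn hU; exact absurd (up_of_mem_B P hn.1) hU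
  | succ k ih =>
    intro n hn hU
    obtain ⟨s', hs', m, hm, rfl⟩ := IsLenJ.right_decomp P hJ hn
    have hmN := IsLenJ.mem_N P hJ hm
    have hsN := S_mem_N P hs
    have hs'N := S_mem_N P (hJ hs')
    by_cases hUm : Up P s m
    · have h1 := comm_of_up_of_not_up P hs (hJ hs') hmN hUm hU
      have h2 : (s * m)⁻¹ * (m * s') ∈ P.N :=
        P.N.mul_mem (P.N.inv_mem (P.N.mul_mem hsN hmN)) (P.N.mul_mem hmN hs'N)
      refine ⟨k, rfl, ?_⟩
      have e : s * (m * s') = (s * s) * m * ((s * m)⁻¹ * (m * s')) := by group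
      rw [e]
      exact IsLenJ.mul_T P hJ (IsLenJ.T_mul P hJ (sq_mem_B P hs) (P.N.mul_mem hsN hsN) hm) h1 h2
    · obtain ⟨k', rfl, hk'⟩ := ih m hm hUm
      refine ⟨k' + 1, rfl, ?_⟩
      have e : s * (m * s') = (s * m) * s' := by group
      rw [e]
      exact IsLenJ.mul_J P hJ hk' hs'

/-- a `J`-word which is not of minimal length among all words can be shortened within `J` -/
lemma shorten {J : Set G} (hJ : J ⊆ P.S) (k : ℕ) :
    ∀ (n : G) (j : ℕ), IsLenJ P J k n → IsLen P j n → j < k → ∃ k' < k, IsLenJ P J k' n := by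
  induction k with
  | zero => intro n j _ _ hjk; exact absurd hjk (Nat.not_lt_zero _)
  | succ k ih =>
    intro n j hn hj hjk
    obtain ⟨s, hs, m, hm, rfl⟩ := hn
    have hsS := hJ hs
    have hsN := S_mem_N P hsS
    have hmN := IsLenJ.mem_N P hJ hm
    by_cases h : ∃ j' < k, IsLen P j' m
    · obtain ⟨j', hj', hj'm⟩ := h
      obtain ⟨k', hk', hk'm⟩ := ih m j' hm hj'm hj'
      exact ⟨k' + 1, by omega, IsLenJ.J_mul P hk'm hs⟩
    · push_neg at h
      have hU : ¬ Up P s m := by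
        intro hUm
        have hU2 : ¬ Up P s (s * m) := fun h2 => not_both P hsS hmN hUm h2
        obtain ⟨j', rfl, hj'⟩ := exchange P (subset_refl P.S) hsS j (s * m) hj hU2
        have e : m = (s * s)⁻¹ * (s * (s * m)) := by group
        have : IsLen P j' m := by
          rw [e]
          exact IsLenJ.T_mul P (subset_refl P.S) (sq_inv_mem_B P hsS)
            (P.N.inv_mem (P.N.mul_mem hsN hsN)) hj'
        exact h j' (by omega) this
      obtain ⟨k', rfl, hk'⟩ := exchange P hJ hsS k m hm hU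
      exact ⟨k', by omega, hk'⟩

/-- independence: a member of `S` having a `J`-word lies in `J` -/
lemma mem_J_of_isLenJ {J : Set G} (hJ : J ⊆ P.S) {s : G} (hs : s ∈ P.S) {k : ℕ}
    (h : IsLenJ P J k s) : s ∈ J := by
  classical
  have hex : ∃ k, IsLenJ P J k s := ⟨k, h⟩
  obtain ⟨k₀, h0, hmin⟩ : ∃ k₀, IsLenJ P J k₀ s ∧ ∀ j < k₀, ¬ IsLenJ P J j s :=
    ⟨Nat.find hex, Nat.find_spec hex, fun j hj => Nat.find_min hex hj⟩
  rcases k₀ with _ | _ | k₀
  · exact absurd h0.1 (S_not_mem_B P hs)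
  · obtain ⟨s₁, hs₁, t, ht, e⟩ := h0
    have h1 : s₁⁻¹ * s ∈ P.B := by rw [e]; simpa using ht.1
    have h2 := P.inj s₁ (hJ hs₁) s hs h1
    rw [← h2]; exact hs₁
  · obtain ⟨k', hk', hk's⟩ := shorten P hJ (k₀ + 1 + 1) s 1 h0 (IsLenJ.of_J P hs) (by omega)
    exact absurd hk's (hmin k' hk')

lemma isLenJ_of_mem_parabolic {J : Set G} (hJ : J ⊆ P.S) {n : G} (hn : n ∈ P.N)
    (h : n ∈ P.parabolic J) : ∃ k, IsLenJ P J k n := by
  obtain ⟨w, hw, hnw⟩ := (parabolic_iff P hJ n).1 h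
  obtain ⟨k, hk⟩ := exists_isLenJ_of_mem_closure P hJ hw
  have hwN := IsLenJ.mem_N P hJ hk
  have h1 := (bruhat_unique P hwN hn).1 (C_eq_of_mem P hnw).symm
  have h2 : w⁻¹ * n ∈ P.N := P.N.mul_mem (P.N.inv_mem hwN) hn
  refine ⟨k, ?_⟩
  have e : n = w * (w⁻¹ * n) := by group
  rw [e]; exact IsLenJ.mul_T P hJ hk h1 h2

lemma mem_parabolic_of_isLenJ {J : Set G} {k : ℕ} {n : G} (h : IsLenJ P J k n) :
    n ∈ P.parabolic J := by
  obtain ⟨w, hw, h1, -⟩ := IsLenJ.exists_closure P h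
  have e : n = w * (w⁻¹ * n) := by group
  rw [e]
  exact (P.parabolic J).mul_mem ((le_sup_right : Subgroup.closure J ≤ P.parabolic J) hw)
    ((le_sup_left : P.B ≤ P.parabolic J) h1)

/-- `S ∩ P_J = J` -/
theorem mem_J_of_mem_parabolic {J : Set G} (hJ : J ⊆ P.S) {s : G} (hs : s ∈ P.S)
    (h : s ∈ P.parabolic J) : s ∈ J := by
  obtain ⟨k, hk⟩ := isLenJ_of_mem_parabolic P hJ (S_mem_N P hs) h
  exact mem_J_of_isLenJ P hJ hs hk

/-- for `s ∉ J` and `n` with a `J`-word, `s B n ⊆ B s n B` -/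
lemma up_of_not_mem {J : Set G} (hJ : J ⊆ P.S) {s : G} (hs : s ∈ P.S) (hsJ : s ∉ J) {k : ℕ}
    {n : G} (hn : IsLenJ P J k n) : Up P s n := by
  by_contra hU
  obtain ⟨k', rfl, hk'⟩ := exchange P hJ hs k n hn hU
  have h1 := IsLenJ.mul P hJ hk' (IsLenJ.inv P hJ hn)
  have e : s * n * n⁻¹ = s := by group
  rw [e] at h1
  exact hsJ (mem_J_of_isLenJ P hJ hs h1)

/-! ### minimal words -/

lemma exists_min_len {n : G} (hn : n ∈ P.N) : ∃ k, IsLen P k n ∧ ∀ j < k, ¬ IsLen P j n := by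
  classical
  have hex := exists_isLen P hn
  exact ⟨Nat.find hex, Nat.find_spec hex, fun j hj => Nat.find_min hex hj⟩

lemma min_decomp {k : ℕ} {n : G} (h : IsLen P (k + 1) n) (hmin : ∀ j < k + 1, ¬ IsLen P j n) :
    ∃ s ∈ P.S, ∃ m, IsLen P k m ∧ n = s * m ∧ (∀ j < k, ¬ IsLen P j m) ∧
      ∃ b ∈ P.B, s * b * n ∈ C P n := by
  obtain ⟨s, hs, m, hm, rfl⟩ := h
  refine ⟨s, hs, m, hm, rfl, ?_, ?_⟩
  · intro j hj hjm
    exact hmin (j + 1) (by omega) (IsLenJ.J_mul P hjm hs)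
  · have hU : Up P s m := by
      by_contra hU
      obtain ⟨k', rfl, hk'⟩ := exchange P (subset_refl _) hs k m hm hU
      exact hmin k' (by omega) hk'
    obtain ⟨b, hb, hbs⟩ := exists_sbs P hs
    rw [mem_C] at hbs
    obtain ⟨b₁, hb₁, b₂, hb₂, e⟩ := hbs
    refine ⟨b, hb, ?_⟩
    have e3 : s * b * (s * m) = b₁ * (s * b₂ * m) := by
      have : s * b * (s * m) = (s * b * s) * m := by group
      rw [this, e]; group
    rw [e3]
    exact C_mul_left P hb₁ (hU b₂ hb₂)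

/-! ### subgroups containing `B` -/

lemma mem_parabolic_of_mem (M : Subgroup G) (hM : P.B ≤ M) (k : ℕ) :
    ∀ (n : G), IsLen P k n → (∀ j < k, ¬ IsLen P j n) → n ∈ M →
      n ∈ P.parabolic {s | s ∈ P.S ∧ s ∈ M} := by
  induction k with
  | zero => intro n hn _ _; exact (le_sup_left : P.B ≤ _) hn.1
  | succ k ih =>
    intro n hn hmin hnM
    obtain ⟨s, hs, m, hm, rfl, hmmin, b, hb, hbn⟩ := min_decomp P hn hmin
    rw [mem_C] at hbn
    obtain ⟨b₁, hb₁, b₂, hb₂, e⟩ := hbn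
    have hsM : s ∈ M := by
      have key : b₁ * (s * m) * b₂ * (s * m)⁻¹ * b⁻¹ = s := by
        rw [← e]; group
      have hmem : b₁ * (s * m) * b₂ * (s * m)⁻¹ * b⁻¹ ∈ M :=
        M.mul_mem (M.mul_mem (M.mul_mem (M.mul_mem (hM hb₁) hnM) (hM hb₂)) (M.inv_mem hnM))
          (M.inv_mem (hM hb))
      rwa [key] at hmem
    have hmM : m ∈ M := by
      have : m = s⁻¹ * (s * m) := by group
      rw [this]; exact M.mul_mem (M.inv_mem hsM) hnM
    have ih' := ih m hm hmmin hmM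
    exact (P.parabolic _).mul_mem
      ((le_sup_right : Subgroup.closure _ ≤ P.parabolic _) (Subgroup.subset_closure ⟨hs, hsM⟩)) ih'

/-- every subgroup containing `B` is the parabolic subgroup of `S ∩ M` -/
theorem eq_parabolic (M : Subgroup G) (hM : P.B ≤ M) :
    M = P.parabolic {s | s ∈ P.S ∧ s ∈ M} := by
  apply le_antisymm
  · intro g hg
    obtain ⟨n, hn, hgn⟩ := bruhat_exists P g
    rw [mem_C] at hgn
    obtain ⟨b₁, hb₁, b₂, hb₂, rfl⟩ := hgn
    have hnM : n ∈ M := by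
      have : n = b₁⁻¹ * (b₁ * n * b₂) * b₂⁻¹ := by group
      rw [this]; exact M.mul_mem (M.mul_mem (M.inv_mem (hM hb₁)) hg) (M.inv_mem (hM hb₂))
    obtain ⟨k, hk, hmin⟩ := exists_min_len P hn
    have h1 := mem_parabolic_of_mem P M hM k n hk hmin hnM
    have hB : P.B ≤ P.parabolic {s | s ∈ P.S ∧ s ∈ M} := le_sup_left
    exact Subgroup.mul_mem _ (Subgroup.mul_mem _ (hB hb₁) h1) (hB hb₂)
  · apply sup_le hM
    rw [Subgroup.closure_le]
    intro s hs; exact hs.2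

lemma mem_of_conj_le (H : Subgroup G) (hH : P.B ≤ H) (k : ℕ) :
    ∀ (n : G), IsLen P k n → (∀ j < k, ¬ IsLen P j n) → (∀ b ∈ P.B, n * b * n⁻¹ ∈ H) → n ∈ H := by
  induction k with
  | zero => intro n hn _ _; exact hH hn.1
  | succ k ih =>
    intro n hn hmin hc
    obtain ⟨s, hs, m, hm, rfl, hmmin, b, hb, hbn⟩ := min_decomp P hn hmin
    rw [mem_C] at hbn
    obtain ⟨b₁, hb₁, b₂, hb₂, e⟩ := hbn
    have hsH : s ∈ H := by
      have key : b₁ * ((s * m) * b₂ * (s * m)⁻¹) * b⁻¹ = s := by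
        have : b₁ * ((s * m) * b₂ * (s * m)⁻¹) * b⁻¹ = (b₁ * (s * m) * b₂) * (s * m)⁻¹ * b⁻¹ := by
          group
        rw [this, ← e]; group
      have hmem : b₁ * ((s * m) * b₂ * (s * m)⁻¹) * b⁻¹ ∈ H :=
        H.mul_mem (H.mul_mem (hH hb₁) (hc b₂ hb₂)) (H.inv_mem (hH hb))
      rwa [key] at hmem
    have hc' : ∀ b ∈ P.B, m * b * m⁻¹ ∈ H := by
      intro b' hb'
      have : m * b' * m⁻¹ = s⁻¹ * ((s * m) * b' * (s * m)⁻¹) * s := by group
      rw [this]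
      exact H.mul_mem (H.mul_mem (H.inv_mem hsH) (hc b' hb')) hsH
    exact H.mul_mem hsH (ih m hm hmmin hc')

/-- if `g B g⁻¹ ≤ H` for a subgroup `H ≥ B` then `g ∈ H` -/
theorem mem_of_conj_B_le (H : Subgroup G) (hH : P.B ≤ H) (g : G)
    (hg : ∀ b ∈ P.B, g * b * g⁻¹ ∈ H) : g ∈ H := by
  obtain ⟨n, hn, hgn⟩ := bruhat_exists P g
  rw [mem_C] at hgn
  obtain ⟨b₁, hb₁, b₂, hb₂, rfl⟩ := hgn
  obtain ⟨k, hk, hmin⟩ := exists_min_len P hn
  have hc : ∀ b ∈ P.B, n * b * n⁻¹ ∈ H := by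
    intro b hb
    have h1 := hg (b₂⁻¹ * b * b₂) (P.B.mul_mem (P.B.mul_mem (P.B.inv_mem hb₂) hb) hb₂)
    have e : n * b * n⁻¹ = b₁⁻¹ * (b₁ * n * b₂ * (b₂⁻¹ * b * b₂) * (b₁ * n * b₂)⁻¹) * b₁ := by group
    rw [e]
    exact H.mul_mem (H.mul_mem (H.inv_mem (hH hb₁)) h1) (hH hb₁)
  have hnH := mem_of_conj_le P H hH k n hk hmin hc
  exact H.mul_mem (H.mul_mem (hH hb₁) hnH) (hH hb₂)

lemma parabolic_mono {J K : Set G} (h : J ⊆ K) : P.parabolic J ≤ P.parabolic K :=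
  sup_le le_sup_left (le_sup_of_le_right (Subgroup.closure_mono h))

lemma B_le_parabolic (J : Set G) : P.B ≤ P.parabolic J := le_sup_left

lemma mem_parabolic_of_mem_J {J : Set G} {s : G} (hs : s ∈ J) : s ∈ P.parabolic J :=
  (le_sup_right : Subgroup.closure J ≤ P.parabolic J) (Subgroup.subset_closure hs)

lemma parabolic_S : P.parabolic P.S = ⊤ := by
  apply top_le_iff.1
  rw [← P.sup_eq_top]
  apply sup_le le_sup_left
  rw [← P.closure_sup]
  apply sup_le le_sup_right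
  exact inf_le_left.trans le_sup_left

lemma parabolic_empty : P.parabolic ∅ = P.B := by
  simp [BNPair.parabolic]

/-- words in a single letter -/
lemma isLenJ_singleton {s : G} (hs : s ∈ P.S) : ∀ {k : ℕ} {w : G}, IsLenJ P {s} k w →
    w ∈ P.B ∨ s⁻¹ * w ∈ P.B
  | 0, _, h => Or.inl h.1
  | k + 1, _, h => by
    obtain ⟨s', hs', m, hm, rfl⟩ := h
    rw [Set.mem_singleton_iff] at hs'
    subst hs'
    rcases isLenJ_singleton hs hm with h1 | h1
    · right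
      have : s'⁻¹ * (s' * m) = m := by group
      rw [this]; exact h1
    · left
      have : s' * m = (s' * s') * (s'⁻¹ * m) := by group
      rw [this]; exact P.B.mul_mem (sq_mem_B P hs) h1

/-- the parabolic subgroup of a single generator is `B ∪ B s B` -/
lemma parabolic_singleton {s : G} (hs : s ∈ P.S) :
    (P.parabolic {s} : Set G) = (P.B : Set G) ∪ C P s := by
  have hJ : ({s} : Set G) ⊆ P.S := Set.singleton_subset_iff.2 hs
  ext g
  constructor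
  · intro hg
    obtain ⟨w, hw, hgw⟩ := (parabolic_iff P hJ g).1 hg
    obtain ⟨k, hk⟩ := exists_isLenJ_of_mem_closure P hJ hw
    rcases isLenJ_singleton P hs hk with h1 | h1
    · left
      rw [C_of_mem_B P h1] at hgw; exact hgw
    · right
      have : w = s * (s⁻¹ * w) := by group
      rw [this, C_right_B P h1] at hgw; exact hgw
  · rintro (hg | hg)
    · exact B_le_parabolic P _ hg
    · rw [mem_C] at hg
      obtain ⟨b₁, hb₁, b₂, hb₂, rfl⟩ := hg
      exact Subgroup.mul_mem _ (Subgroup.mul_mem _ (B_le_parabolic P _ hb₁)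
        (mem_parabolic_of_mem_J P rfl)) (B_le_parabolic P _ hb₂)

/-- Tits' simplicity criterion -/
theorem simple_of_irreducible [Nontrivial G] (hirr : P.Irreducible)
    (hsolv : Group.IsSolvable P.B) (hperf : commutator G = ⊤) (hcore : P.B.normalCore = ⊥) :
    IsSimpleGroup G := by
  refine { exists_pair_ne := exists_pair_ne G, eq_bot_or_eq_top_of_normal := fun H hH => ?_ }
  by_cases hbot : H = ⊥
  · exact Or.inl hbot
  right
  have hBM : P.B ≤ H ⊔ P.B := le_sup_right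
  obtain ⟨J, hJdef⟩ : ∃ J : Set G, J = {s | s ∈ P.S ∧ s ∈ H ⊔ P.B} := ⟨_, rfl⟩
  have hJS : J ⊆ P.S := fun s hs => by rw [hJdef] at hs; exact hs.1
  have hM : H ⊔ P.B = P.parabolic J := by rw [hJdef]; exact eq_parabolic P _ hBM
  have hcomm : ∀ s₁ ∈ J, ∀ s₂ ∈ P.S \ J, s₁ * s₂ * s₁⁻¹ * s₂⁻¹ ∈ P.B := by
    intro s₁ hs₁ s₂ hs₂
    have hs₁S := hJS hs₁
    have hs₂S := hs₂.1
    have hs₁N := P.subset hs₁S
    have hs₂N := P.subset hs₂S
    have hs₁M : s₁ ∈ H ⊔ P.B := by rw [hJdef] at hs₁; exact hs₁.2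
    obtain ⟨h, hh, b, hb, e⟩ : ∃ h ∈ H, ∃ b ∈ P.B, h * b = s₁ := by
      rw [← SetLike.mem_coe, Subgroup.normal_mul] at hs₁M
      exact Set.mem_mul.1 hs₁M
    have hx : s₂ * h * s₂⁻¹ ∈ P.parabolic J := by
      rw [← hM]; exact (le_sup_left : H ≤ H ⊔ P.B) (hH.conj_mem h hh s₂)
    have ex : s₂ * h * s₂⁻¹ = (s₂ * s₁) * b⁻¹ * s₂⁻¹ := by rw [← e]; group
    have h1 := bn3_right_inv P hs₂S (P.N.mul_mem hs₂N hs₁N) (P.B.inv_mem hb)
    rw [← ex] at h1
    have hs₁J : IsLenJ P J 1 s₁ := IsLenJ.of_J P hs₁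
    have key : ∀ n ∈ P.N, s₂ * h * s₂⁻¹ ∈ C P n → ∃ k, IsLenJ P J k n := by
      intro n hn hxn
      rw [mem_C] at hxn
      obtain ⟨b₁, hb₁, b₂, hb₂, e2⟩ := hxn
      have hnP : n ∈ P.parabolic J := by
        have : n = b₁⁻¹ * (s₂ * h * s₂⁻¹) * b₂⁻¹ := by rw [e2]; group
        rw [this]
        exact Subgroup.mul_mem _ (Subgroup.mul_mem _ (Subgroup.inv_mem _ (B_le_parabolic P J hb₁))
          hx) (Subgroup.inv_mem _ (B_le_parabolic P J hb₂))
      exact isLenJ_of_mem_parabolic P hJS hn hnP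
    rcases h1 with h1 | h1
    · obtain ⟨k, hk⟩ := key _ (P.N.mul_mem (P.N.mul_mem hs₂N hs₁N) hs₂N) h1
      have hU1 : Up P s₂ (s₂ * s₁ * s₂) := up_of_not_mem P hJS hs₂S hs₂.2 hk
      have hU2 : ¬ Up P s₂ (s₁ * s₂) := by
        intro hU
        have e3 : s₂ * (s₁ * s₂) = s₂ * s₁ * s₂ := by group
        refine not_both P hs₂S (P.N.mul_mem hs₁N hs₂N) hU ?_
        rw [e3]; exact hU1
      have hU3 : Up P s₂ s₁ := up_of_not_mem P hJS hs₂S hs₂.2 hs₁J
      have hc := comm_of_up_of_not_up P hs₂S hs₂S hs₁N hU3 hU2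
      have hcN : (s₂ * s₁)⁻¹ * (s₁ * s₂) ∈ P.N :=
        P.N.mul_mem (P.N.inv_mem (P.N.mul_mem hs₂N hs₁N)) (P.N.mul_mem hs₁N hs₂N)
      have h5 := T_conj P (P.N.mul_mem hs₂N hs₁N) hc hcN
      have e4 : (s₂ * s₁) * ((s₂ * s₁)⁻¹ * (s₁ * s₂)) * (s₂ * s₁)⁻¹ = s₁ * s₂ * s₁⁻¹ * s₂⁻¹ := by
        group
      rw [e4] at h5; exact h5
    · exfalso
      obtain ⟨k, hk⟩ := key _ (P.N.mul_mem hs₂N hs₁N) h1
      have h2 := IsLenJ.mul P hJS hk (IsLenJ.of_J_inv P hJS hs₁)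
      have e5 : s₂ * s₁ * s₁⁻¹ = s₂ := by group
      rw [e5] at h2
      exact hs₂.2 (mem_J_of_isLenJ P hJS hs₂S h2)
  have hJ : J = ∅ ∨ J = P.S := by
    by_contra hcon
    rw [not_or] at hcon
    obtain ⟨h1, h2⟩ := hcon
    have hne1 : J.Nonempty := Set.nonempty_iff_ne_empty.2 h1
    have hne2 : (P.S \ J).Nonempty := by
      by_contra h3
      rw [Set.not_nonempty_iff_eq_empty, Set.sdiff_eq_empty] at h3
      exact h2 (Set.Subset.antisymm hJS h3)
    obtain ⟨s, hs, s', hs', hnot⟩ := hirr J hJS hne1 hne2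
    exact hnot (hcomm s hs s' hs')
  rcases hJ with hJ | hJ
  · exfalso
    have hMB : H ⊔ P.B = P.B := by rw [hM, hJ, parabolic_empty]
    have hHB : H ≤ P.B := by rw [← hMB]; exact le_sup_left
    have h3 : H ≤ P.B.normalCore := Subgroup.normal_le_normalCore.2 hHB
    rw [hcore] at h3
    exact hbot (le_bot_iff.1 h3)
  · have hMtop : H ⊔ P.B = ⊤ := by rw [hM, hJ, parabolic_S]
    haveI : Group.IsPerfect G := ⟨hperf⟩
    have hsolvQ : Group.IsSolvable (G ⧸ H) := by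
      let φ : P.B →* G ⧸ H := (QuotientGroup.mk' H).comp P.B.subtype
      have hφ : Function.Surjective φ := by
        intro q
        obtain ⟨g, rfl⟩ := QuotientGroup.mk'_surjective H q
        have hg : g ∈ H ⊔ P.B := by rw [hMtop]; trivial
        obtain ⟨h, hh, b, hb, e⟩ : ∃ h ∈ H, ∃ b ∈ P.B, h * b = g := by
          rw [← SetLike.mem_coe, Subgroup.normal_mul] at hg
          exact Set.mem_mul.1 hg
        refine ⟨⟨b, hb⟩, ?_⟩
        show (QuotientGroup.mk' H) b = (QuotientGroup.mk' H) g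
        rw [← e, map_mul]
        have : (QuotientGroup.mk' H) h = 1 := (QuotientGroup.eq_one_iff h).2 hh
        rw [this, one_mul]
      exact Group.isSolvable_of_surjective hφ
    apply QuotientGroup.subgroup_eq_top_of_subsingleton
    by_contra hns
    rw [not_subsingleton_iff_nontrivial] at hns
    exact Group.IsPerfect.not_isSolvable (G ⧸ H) hsolvQ

end Cfsg.Agent.Lib_lead_BN
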