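import Mathlib
import Cfsg.Prelude.Def_SporadicCombinatorics
import Cfsg.Agent.Lib_lead_ObjOrb
import Cfsg.Agent.Lib_lead_OctSub

/-! Sextets: every tetrad lies in exactly one sextet, the group of the code is transitive on
sextets, and there are 1771 of them. -/

set_option autoImplicit false

namespace Cfsg.Agent.Lib_lead_Sextet

open Cfsg Cfsg.Agent.Lib_lead_Golay Cfsg.Agent.Lib_lead_GolayPerm Cfsg.Agent.Lib_lead_M24
  Cfsg.Agent.Lib_lead_M24Chain Cfsg.Agent.Lib_lead_M24Orb Cfsg.Agent.Lib_lead_ObjOrb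
  Cfsg.Agent.Lib_lead_M24Data Cfsg.Agent.Lib_lead_M24Sets2 Cfsg.Agent.Lib_lead_OctSub
open scoped Pointwise

theorem smul_sextet {g : Equiv.Perm GolayPt} (hg : g ∈ M24) {S : Fam} (hS : S ∈ sextets) :
    g • S ∈ sextets := by
  obtain ⟨h6, h4, hu⟩ := hS
  have hgS : g • S = S.image (fun t => g • t) := Finset.smul_finset_def
  refine ⟨by rw [Finset.card_smul_finset]; exact h6, ?_, ?_⟩
  · intro t ht
    rw [hgS, Finset.mem_image] at ht
    obtain ⟨t', ht', rfl⟩ := ht
    rw [Finset.card_smul_finset]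
    exact h4 t' ht'
  · intro t ht u hu' hne
    rw [hgS, Finset.mem_image] at ht hu'
    obtain ⟨t', ht', rfl⟩ := ht
    obtain ⟨u', hu'', rfl⟩ := hu'
    rw [← Finset.smul_finset_union]
    exact smul_mem_weight hg (hu t' ht' u' hu'' (fun h => hne (by rw [h])))

/-- the sextet of the tetrad `{0, 2, 5, 6}` -/
def root0 : List ℕ := [101, 45058, 262536, 3277312, 4800512, 8391696]

theorem oct5 : ∀ k < 4096, popc (M k) = 8 → M k &&& 101 = 101 →
    (M k &&& (16777215 ^^^ 101)) ∈ root0 :=
  forall_of_card_filter (by decide +kernel)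

/-- a list of six masks forms a sextet -/
def sextChk (l : List ℕ) : Bool :=
  (l.length == 6) && l.all (fun a => decide (a < 2 ^ 24) && (popc a == 4)) && decide l.Nodup &&
  l.all (fun a => l.all (fun b =>
    (a == b) || ((M (dec (a ||| b)) == (a ||| b)) && (popc (a ||| b) == 8))))

theorem sextet_of_chk (l : List ℕ) (h : sextChk l = true) : fin l ∈ sextets := by
  unfold sextChk at h
  simp only [Bool.and_eq_true, beq_iff_eq, List.all_eq_true, decide_eq_true_eq,
    Bool.or_eq_true] at h
  obtain ⟨⟨⟨hlen, h4⟩, hnd⟩, hu⟩ := h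
  refine ⟨by rw [card_fin (fun m hm => (h4 m hm).1) hnd, hlen], ?_, ?_⟩
  · intro t ht
    rw [mem_fin] at ht
    obtain ⟨m, hm, rfl⟩ := ht
    rw [card_fsOf _ (h4 m hm).1]
    exact (h4 m hm).2
  · intro t ht u hu' hne
    rw [mem_fin] at ht hu'
    obtain ⟨a, ha, rfl⟩ := ht
    obtain ⟨b, hb, rfl⟩ := hu'
    rcases hu a ha b hb with hab | ⟨h1, h2⟩
    · exact absurd (by rw [hab]) hne
    · rw [fsOf_union, ← h1]
      exact fsOf_mem_weight _ 8 (by rw [h1]; exact h2)

theorem root0_mem : fin root0 ∈ sextets := sextet_of_chk root0 (by decide +kernel)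

theorem base_unique (S : Fam) (hS : S ∈ sextets) (ht : fsOf 101 ∈ S) : S = fin root0 := by
  obtain ⟨h6, h4, hu⟩ := hS
  apply Finset.eq_of_subset_of_card_le
  · intro u huS
    rw [mem_fin]
    by_cases hut : u = fsOf 101
    · exact ⟨101, by decide, hut.symm⟩
    · have hoct := hu (fsOf 101) ht u huS (Ne.symm hut)
      have hu4 := h4 u huS
      have h8 : (fsOf 101 ∪ u).card = 8 := card_octad hoct
      have h101 : (fsOf 101).card = 4 := by
        rw [card_fsOf _ (by norm_num)]
        decide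
      have hdisj : Disjoint (fsOf 101) u := by
        rw [← Finset.card_union_eq_card_add_card, h8, h101, hu4]
      obtain ⟨k, hk, hp, hek⟩ := weight_eq hoct
      have hsub : M k &&& 101 = 101 := by
        have h1 : fsOf 101 ⊆ fsOf (M k) := by
          rw [← hek]
          exact Finset.subset_union_left
        have h2 : fsOf (M k) ∩ fsOf 101 = fsOf 101 := Finset.inter_eq_right.mpr h1
        rw [fsOf_inter] at h2
        exact fsOf_injOn (lt_of_le_of_lt Nat.and_le_right (by norm_num)) (by norm_num) h2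
      have hu_eq : u = fsOf (M k &&& (16777215 ^^^ 101)) := by
        rw [← fsOf_inter, ← fsOf_compl, ← hek, Finset.union_inter_distrib_right,
          Finset.inter_compl, Finset.empty_union]
        exact (Finset.inter_eq_left.mpr (fun x hx => Finset.mem_compl.mpr
          (fun h => Finset.disjoint_left.mp hdisj h hx))).symm
      exact ⟨_, oct5 k hk hp hsub, hu_eq.symm⟩
  · rw [card_fin (by decide) (by decide), h6]
    decide

theorem tetrad_orbit (t : Finset GolayPt) (ht : t.card = 4) : ∃ g ∈ M24, g • fsOf 101 = t := by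
  have h101 : (fsOf 101).card = 4 := by
    rw [card_fsOf _ (by norm_num)]
    decide
  obtain ⟨⟨g, hg⟩, hgs⟩ := orbit_of_card (fsOf 101) t (by rw [ht, h101]) (by rw [h101]; norm_num)
  exact ⟨g, hg, hgs⟩

/-- every tetrad lies in exactly one sextet -/
theorem sextet_unique (t : Finset GolayPt) (ht : t.card = 4) :
    ∃! S : Fam, S ∈ sextets ∧ t ∈ S := by
  obtain ⟨g, hg, rfl⟩ := tetrad_orbit t ht
  refine ⟨g • fin root0, ⟨smul_sextet hg root0_mem, ?_⟩, ?_⟩
  · exact Finset.smul_mem_smul_finset (by rw [mem_fin]; exact ⟨101, by decide, rfl⟩)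
  · rintro S' ⟨hS', htS'⟩
    have h1 : g⁻¹ • S' ∈ sextets := smul_sextet (M24.inv_mem hg) hS'
    have h2 : fsOf 101 ∈ g⁻¹ • S' := by
      have := Finset.smul_mem_smul_finset (a := g⁻¹) htS'
      rwa [inv_smul_smul] at this
    rw [← base_unique _ h1 h2, smul_inv_smul]

/-- the group of the code is transitive on sextets -/
theorem sextets_trans (X : Fam) (hX : X ∈ sextets) (Y : Fam) (hY : Y ∈ sextets) :
    ∃ g ∈ M24, g • X = Y := by
  obtain ⟨t, ht⟩ := Finset.card_pos.mp (by rw [hX.1]; norm_num : 0 < X.card)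
  obtain ⟨t', ht'⟩ := Finset.card_pos.mp (by rw [hY.1]; norm_num : 0 < Y.card)
  have h4 := hX.2.1 t ht
  have h4' := hY.2.1 t' ht'
  obtain ⟨⟨g, hg⟩, hgs⟩ := orbit_of_card t t' (by rw [h4, h4']) (by rw [h4]; norm_num)
  have hgs' : g • t = t' := hgs
  refine ⟨g, hg, ?_⟩
  apply (sextet_unique t' h4').unique
  · exact ⟨smul_sextet hg hX, by rw [← hgs']; exact Finset.smul_mem_smul_finset ht⟩
  · exact ⟨hY, ht'⟩

/-- there are 1771 sextets -/
theorem ncard_sextets : sextets.ncard = 1771 := by
  classical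
  have hSF : ∀ S, S ∈ (Set.toFinite sextets).toFinset ↔ S ∈ sextets :=
    fun S => Set.Finite.mem_toFinset _
  have hT4 : (Finset.powersetCard 4 (Finset.univ : Finset GolayPt)).card = 10626 := by
    rw [Finset.card_powersetCard, Finset.card_univ]
    decide
  have key := Finset.sum_card_bipartiteAbove_eq_sum_card_bipartiteBelow
    (s := (Set.toFinite sextets).toFinset)
    (t := Finset.powersetCard 4 (Finset.univ : Finset GolayPt))
    (fun (S : Fam) (t : Finset GolayPt) => t ∈ S)
  have h1 : ∀ S ∈ (Set.toFinite sextets).toFinset,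
      (Finset.bipartiteAbove (fun (S : Fam) (t : Finset GolayPt) => t ∈ S)
        (Finset.powersetCard 4 (Finset.univ : Finset GolayPt)) S).card = 6 := by
    intro S hS
    have hS' := (hSF S).mp hS
    have : Finset.bipartiteAbove (fun (S : Fam) (t : Finset GolayPt) => t ∈ S)
        (Finset.powersetCard 4 (Finset.univ : Finset GolayPt)) S = S := by
      ext t
      simp only [Finset.mem_bipartiteAbove, Finset.mem_powersetCard, Finset.subset_univ,
        true_and]
      exact ⟨fun h => h.2, fun h => ⟨hS'.2.1 t h, h⟩⟩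
    rw [this, hS'.1]
  have h2 : ∀ t ∈ Finset.powersetCard 4 (Finset.univ : Finset GolayPt),
      (Finset.bipartiteBelow (fun (S : Fam) (t : Finset GolayPt) => t ∈ S)
        (Set.toFinite sextets).toFinset t).card = 1 := by
    intro t ht
    have ht4 : t.card = 4 := (Finset.mem_powersetCard.mp ht).2
    obtain ⟨S, ⟨hS, htS⟩, huniq⟩ := sextet_unique t ht4
    rw [Finset.card_eq_one]
    refine ⟨S, ?_⟩
    ext S'
    simp only [Finset.mem_bipartiteBelow, Finset.mem_singleton, hSF]
    exact ⟨fun h => huniq S' h, fun h => by rw [h]; exact ⟨hS, htS⟩⟩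
  rw [Finset.sum_congr rfl h1, Finset.sum_congr rfl h2] at key
  simp only [Finset.sum_const, smul_eq_mul, hT4] at key
  rw [Set.ncard_eq_toFinset_card sextets (Set.toFinite _)]
  omega

end Cfsg.Agent.Lib_lead_Sextet
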