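import Mathlib
import Cfsg.Prelude.Def_SporadicCombinatorics
import Cfsg.Agent.Lib_lead_ObjOrb
import Cfsg.Agent.Lib_lead_OctSub
import Cfsg.Agent.Lib_lead_OrbOct
import Cfsg.Agent.Lib_lead_Leech
import Cfsg.Agent.S0360

/-! Trios: the complement of two disjoint octads is an octad, the group of the code is transitive
on trios, and there are 3795 of them. -/

set_option autoImplicit false

namespace Cfsg.Agent.Lib_lead_Trio

open Cfsg Cfsg.Agent.Lib_lead_Golay Cfsg.Agent.Lib_lead_GolayPerm Cfsg.Agent.Lib_lead_M24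
  Cfsg.Agent.Lib_lead_M24Chain Cfsg.Agent.Lib_lead_M24Orb Cfsg.Agent.Lib_lead_ObjOrb
  Cfsg.Agent.Lib_lead_M24Data Cfsg.Agent.Lib_lead_OctSub Cfsg.Agent.Lib_lead_Leech
open scoped Pointwise

theorem smul_trio {g : Equiv.Perm GolayPt} (hg : g ∈ M24) {T : Fam} (hT : T ∈ trios) :
    g • T ∈ trios := by
  obtain ⟨h3, ho, hd⟩ := hT
  have hgT : g • T = T.image (fun t => g • t) := Finset.smul_finset_def
  refine ⟨by rw [Finset.card_smul_finset]; exact h3, ?_, ?_⟩
  · intro o hoT
    rw [hgT, Finset.mem_image] at hoT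
    obtain ⟨o', ho', rfl⟩ := hoT
    exact smul_mem_weight hg (ho o' ho')
  · intro o hoT o2 ho2 hne
    rw [hgT, Finset.mem_image] at hoT ho2
    obtain ⟨a, ha, rfl⟩ := hoT
    obtain ⟨b, hb, rfl⟩ := ho2
    rw [Finset.disjoint_iff_inter_eq_empty, ← Finset.smul_finset_inter,
      Finset.disjoint_iff_inter_eq_empty.mp (hd a ha b hb (fun h => hne (by rw [h]))),
      Finset.smul_finset_empty]

theorem card24 : Fintype.card GolayPt = 24 := by decide

/-- the complement of the union of two disjoint octads is an octad -/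
theorem compl_octad {o o' : Finset GolayPt} (ho : o ∈ octads) (ho' : o' ∈ octads)
    (hd : Disjoint o o') : (o ∪ o')ᶜ ∈ octads := by
  refine ⟨?_, ?_⟩
  · have h := compl_mem (symmDiff_mem ho.1 ho'.1)
    rwa [Disjoint.symmDiff_eq_sup hd] at h
  · rw [Finset.card_compl, Finset.card_union_of_disjoint hd, ho.2, ho'.2, card24]

theorem octad_ne_empty {o : Finset GolayPt} (ho : o ∈ octads) : o ≠ ∅ := by
  intro h
  have := ho.2
  rw [h] at this
  simp at this

theorem ne_of_disj {a b : Finset GolayPt} (ha : a ∈ octads) (hd : Disjoint a b) : a ≠ b := by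
  intro h
  rw [← h, disjoint_self] at hd
  exact octad_ne_empty ha hd

/-- a trio is determined by two of its octads -/
theorem trio_third {T : Fam} (hT : T ∈ trios) {a b : Finset GolayPt} (ha : a ∈ T) (hb : b ∈ T)
    (hab : a ≠ b) : T = {a, b, (a ∪ b)ᶜ} := by
  obtain ⟨h3, ho, hd⟩ := hT
  have hcard : ((T.erase a).erase b).card = 1 := by
    rw [Finset.card_erase_of_mem (Finset.mem_erase.mpr ⟨hab.symm, hb⟩),
      Finset.card_erase_of_mem ha, h3]
  obtain ⟨c, hc⟩ := Finset.card_eq_one.mp hcard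
  have hcm : c ∈ (T.erase a).erase b := by
    rw [hc]
    exact Finset.mem_singleton_self c
  rw [Finset.mem_erase, Finset.mem_erase] at hcm
  obtain ⟨hcb, hca, hcT⟩ := hcm
  have hc_eq : c = (a ∪ b)ᶜ := by
    apply Finset.eq_of_subset_of_card_le
    · intro x hx
      rw [Finset.mem_compl, Finset.mem_union]
      rintro (h | h)
      · exact Finset.disjoint_left.mp (hd c hcT a ha hca) hx h
      · exact Finset.disjoint_left.mp (hd c hcT b hb hcb) hx h
    · rw [Finset.card_compl, Finset.card_union_of_disjoint (hd a ha b hb hab), (ho a ha).2,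
        (ho b hb).2, (ho c hcT).2, card24]
  rw [← hc_eq]
  symm
  apply Finset.eq_of_subset_of_card_le
  · intro x hx
    simp only [Finset.mem_insert, Finset.mem_singleton] at hx
    rcases hx with rfl | rfl | rfl <;> assumption
  · rw [h3, Finset.card_eq_three.mpr ⟨a, b, c, hab, fun h => hca h.symm, fun h => hcb h.symm, rfl⟩]

/-- two disjoint octads and the complement of their union form a trio -/
theorem trio_mk {a b : Finset GolayPt} (ha : a ∈ octads) (hb : b ∈ octads) (hd : Disjoint a b) :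
    ({a, b, (a ∪ b)ᶜ} : Fam) ∈ trios := by
  have hc := compl_octad ha hb hd
  have hac : Disjoint a (a ∪ b)ᶜ := by
    rw [Finset.disjoint_left]
    intro x hx hx'
    exact (Finset.mem_compl.mp hx') (Finset.mem_union_left _ hx)
  have hbc : Disjoint b (a ∪ b)ᶜ := by
    rw [Finset.disjoint_left]
    intro x hx hx'
    exact (Finset.mem_compl.mp hx') (Finset.mem_union_right _ hx)
  refine ⟨Finset.card_eq_three.mpr ⟨a, b, (a ∪ b)ᶜ, ne_of_disj ha hd, ne_of_disj ha hac,
    ne_of_disj hb hbc, rfl⟩, ?_, ?_⟩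
  · intro o ho
    simp only [Finset.mem_insert, Finset.mem_singleton] at ho
    rcases ho with rfl | rfl | rfl <;> assumption
  · intro o ho o' ho' hne
    simp only [Finset.mem_insert, Finset.mem_singleton] at ho ho'
    rcases ho with rfl | rfl | rfl <;> rcases ho' with rfl | rfl | rfl <;>
      first
      | exact absurd rfl hne
      | exact hd
      | exact hd.symm
      | exact hac
      | exact hac.symm
      | exact hbc
      | exact hbc.symm

/-- the group of the code is transitive on trios -/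
theorem trios_trans (X : Fam) (hX : X ∈ trios) (Y : Fam) (hY : Y ∈ trios) :
    ∃ g ∈ M24, g • X = Y := by
  obtain ⟨a, b, c, hab, hac, hbc, rfl⟩ := Finset.card_eq_three.mp hX.1
  obtain ⟨a', b', c', hab', hac', hbc', rfl⟩ := Finset.card_eq_three.mp hY.1
  have ha := hX.2.1 a (by simp)
  have hb := hX.2.1 b (by simp)
  have ha' := hY.2.1 a' (by simp)
  have hb' := hY.2.1 b' (by simp)
  have hd := hX.2.2 a (by simp) b (by simp) hab
  have hd' := hY.2.2 a' (by simp) b' (by simp) hab'
  obtain ⟨⟨g1, hg1⟩, hga⟩ := octads_trans a a' ha ha'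
  have hga' : g1 • a = a' := hga
  have hgb : g1 • b ∈ octads := smul_mem_weight hg1 hb
  have hdg : Disjoint a' (g1 • b) := by
    rw [← hga', Finset.disjoint_iff_inter_eq_empty, ← Finset.smul_finset_inter,
      Finset.disjoint_iff_inter_eq_empty.mp hd, Finset.smul_finset_empty]
  obtain ⟨h, hh, hha, hhb⟩ := Cfsg.Agent.Lib_lead_OrbOct.orbit_thm a' (g1 • b) b' ha' hgb hb'
    (by rw [Finset.disjoint_iff_inter_eq_empty.mp hdg,
      Finset.disjoint_iff_inter_eq_empty.mp hd'])
  refine ⟨h * g1, M24.mul_mem hh hg1, ?_⟩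
  have hT := smul_trio (M24.mul_mem hh hg1) hX
  have e1 : (h * g1) • a = a' := by rw [mul_smul, hga', hha]
  have e2 : (h * g1) • b = b' := by rw [mul_smul, hhb]
  have h1 : a' ∈ (h * g1) • ({a, b, c} : Fam) := by
    rw [← e1]
    exact Finset.smul_mem_smul_finset (show a ∈ ({a, b, c} : Fam) by simp)
  have h2 : b' ∈ (h * g1) • ({a, b, c} : Fam) := by
    rw [← e2]
    exact Finset.smul_mem_smul_finset (show b ∈ ({a, b, c} : Fam) by simp)
  rw [trio_third hT h1 h2 hab', trio_third hY (by simp) (by simp) hab']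

/-- there are 3795 trios -/
theorem ncard_trios : trios.ncard = 3795 := by
  classical
  have hOF : ∀ o, o ∈ (Set.toFinite octads).toFinset ↔ o ∈ octads :=
    fun o => Set.Finite.mem_toFinset _
  have hTF : ∀ T, T ∈ (Set.toFinite trios).toFinset ↔ T ∈ trios :=
    fun T => Set.Finite.mem_toFinset _
  have hOFc : (Set.toFinite octads).toFinset.card = 759 := by
    rw [← Set.ncard_eq_toFinset_card octads (Set.toFinite _)]
    exact Cfsg.Agent.S0360.result
  have hPc : ((Set.toFinite octads).toFinset.sigma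
      (fun o => Cfsg.Agent.Lib_lead_OrbOct.Cl o 0)).card = 759 * 30 := by
    rw [Finset.card_sigma, Finset.sum_congr rfl (fun o ho =>
      Cfsg.Agent.Lib_lead_OrbOct.card_Cl o ((hOF o).mp ho) 0)]
    rw [Finset.sum_const, smul_eq_mul, hOFc]
    rfl
  have hmaps : Set.MapsTo (fun p : (_ : Finset GolayPt) × Finset GolayPt =>
      ({p.1, p.2, (p.1 ∪ p.2)ᶜ} : Fam))
      ↑((Set.toFinite octads).toFinset.sigma (fun o => Cfsg.Agent.Lib_lead_OrbOct.Cl o 0))
      ↑(Set.toFinite trios).toFinset := by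
    rintro ⟨x, y⟩ hp
    rw [Finset.mem_coe, Finset.mem_sigma, Cfsg.Agent.Lib_lead_OrbOct.mem_Cl] at hp
    rw [Finset.mem_coe, hTF]
    exact trio_mk ((hOF x).mp hp.1) hp.2.1
      (Finset.disjoint_iff_inter_eq_empty.mpr (Finset.card_eq_zero.mp hp.2.2))
  have key := Finset.card_eq_sum_card_fiberwise hmaps
  have hfib : ∀ T ∈ (Set.toFinite trios).toFinset,
      (((Set.toFinite octads).toFinset.sigma
        (fun o => Cfsg.Agent.Lib_lead_OrbOct.Cl o 0)).filter
        (fun p => ({p.1, p.2, (p.1 ∪ p.2)ᶜ} : Fam) = T)).card = 6 := by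
    intro T hT
    have hT' := (hTF T).mp hT
    have h6 : T.offDiag.card = 6 := by rw [Finset.offDiag_card, hT'.1]
    rw [← h6]
    apply Finset.card_nbij' (fun p => (p.1, p.2)) (fun q => ⟨q.1, q.2⟩)
    · rintro ⟨x, y⟩ hp
      rw [Finset.mem_coe, Finset.mem_filter, Finset.mem_sigma,
        Cfsg.Agent.Lib_lead_OrbOct.mem_Cl] at hp
      obtain ⟨⟨hx, hy, hxy⟩, hT2⟩ := hp
      have hd : Disjoint x y :=
        Finset.disjoint_iff_inter_eq_empty.mpr (Finset.card_eq_zero.mp hxy)
      rw [Finset.mem_coe, Finset.mem_offDiag]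
      refine ⟨?_, ?_, ne_of_disj ((hOF x).mp hx) hd⟩
      · rw [← hT2]
        simp
      · rw [← hT2]
        simp
    · rintro ⟨x, y⟩ hq
      rw [Finset.mem_coe, Finset.mem_offDiag] at hq
      obtain ⟨hx, hy, hne⟩ := hq
      rw [Finset.mem_coe, Finset.mem_filter, Finset.mem_sigma,
        Cfsg.Agent.Lib_lead_OrbOct.mem_Cl]
      have hd := hT'.2.2 x hx y hy hne
      refine ⟨⟨(hOF x).mpr (hT'.2.1 x hx), hT'.2.1 y hy, ?_⟩, (trio_third hT' hx hy hne).symm⟩
      rw [Finset.disjoint_iff_inter_eq_empty.mp hd]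
      rfl
    · rintro ⟨x, y⟩ _
      rfl
    · rintro ⟨x, y⟩ _
      rfl
  rw [hPc, Finset.sum_congr rfl hfib] at key
  simp only [Finset.sum_const, smul_eq_mul] at key
  rw [Set.ncard_eq_toFinset_card trios (Set.toFinite _)]
  omega

/-- a list of three masks forms a trio -/
def trioChk (l : List ℕ) : Bool :=
  (l.length == 3) &&
  l.all (fun a => decide (a < 2 ^ 24) && (M (dec a) == a) && (popc a == 8)) &&
  decide l.Nodup && l.all (fun a => l.all (fun b => (a == b) || (a &&& b == 0)))

theorem trio_of_chk (l : List ℕ) (h : trioChk l = true) : fin l ∈ trios := by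
  unfold trioChk at h
  simp only [Bool.and_eq_true, beq_iff_eq, List.all_eq_true, decide_eq_true_eq,
    Bool.or_eq_true] at h
  obtain ⟨⟨⟨hlen, h8⟩, hnd⟩, hu⟩ := h
  refine ⟨by rw [card_fin (fun m hm => (h8 m hm).1.1) hnd, hlen], ?_, ?_⟩
  · intro t ht
    rw [mem_fin] at ht
    obtain ⟨m, hm, rfl⟩ := ht
    obtain ⟨⟨-, h1⟩, h2⟩ := h8 m hm
    rw [← h1]
    exact fsOf_mem_weight _ 8 (by rw [h1]; exact h2)
  · intro t ht u hu' hne
    rw [mem_fin] at ht hu'
    obtain ⟨a, ha, rfl⟩ := ht
    obtain ⟨b, hb, rfl⟩ := hu'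
    rcases hu a ha b hb with hab | h1
    · exact absurd (by rw [hab]) hne
    · rw [Finset.disjoint_iff_inter_eq_empty, ← Finset.card_eq_zero,
        card_inter a b (h8 a ha).1.1, h1]
      decide

end Cfsg.Agent.Lib_lead_Trio
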