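import Mathlib
import Cfsg.Prelude.Def_SporadicCombinatorics
import Cfsg.Agent.Lib_lead_ObjOrb4
import Cfsg.Agent.Lib_lead_Sextet
import Cfsg.Agent.Lib_lead_Trio
import Cfsg.Agent.Lib_lead_M24Oct
import Cfsg.Agent.S0360
import Cfsg.Agent.Lib_lead_MixOctTrio
import Cfsg.Agent.Lib_lead_MixOctSext
import Cfsg.Agent.Lib_lead_MixSextOct
import Cfsg.Agent.Lib_lead_MixSextTrio
import Cfsg.Agent.Lib_lead_MixTrioOct
import Cfsg.Agent.Lib_lead_MixTrioSext

/-! Orbits of octad, sextet and trio stabilizers on octads, sextets and trios. -/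

set_option autoImplicit false

namespace Cfsg.Agent.Lib_lead_MixOrb

open Cfsg Cfsg.Agent.Lib_lead_Golay Cfsg.Agent.Lib_lead_GolayPerm Cfsg.Agent.Lib_lead_M24
  Cfsg.Agent.Lib_lead_M24Chain Cfsg.Agent.Lib_lead_M24Orb Cfsg.Agent.Lib_lead_ObjOrb
  Cfsg.Agent.Lib_lead_ObjOrb3 Cfsg.Agent.Lib_lead_ObjOrb4 Cfsg.Agent.Lib_lead_Sextet
  Cfsg.Agent.Lib_lead_Trio
open scoped Pointwise

/-- a one-element list of masks is an octad -/
def octChk (l : List ℕ) : Bool :=
  match l with
  | [a] => (M (dec a) == a) && (popc a == 8)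
  | _ => false

theorem oct_of_chk (l : List ℕ) (h : octChk l = true) : fin l ∈ Sing octads := by
  match l, h with
  | [a], h =>
    simp only [octChk, Bool.and_eq_true, beq_iff_eq] at h
    rw [fin_single, mem_Sing, ← h.1]
    exact fsOf_mem_weight _ 8 (by rw [h.1]; exact h.2)

theorem octads_smul : ∀ h ∈ M24, ∀ o ∈ octads, h • o ∈ octads :=
  fun _ hh _ ho => smul_mem_weight hh ho

theorem trios_smul : ∀ h ∈ M24, ∀ X ∈ trios, h • X ∈ trios := fun _ hh _ hX => smul_trio hh hX

theorem sextets_smul : ∀ h ∈ M24, ∀ X ∈ sextets, h • X ∈ sextets :=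
  fun _ hh _ hX => smul_sextet hh hX

theorem ncard_sing_octads : (Sing octads).ncard = 759 := by
  rw [ncard_Sing]
  exact Cfsg.Agent.S0360.result

section OctTrio
open Cfsg.Agent.Lib_lead_MixOctTrio

theorem chkOctTrio : ∀ r ∈ rootsT, trioChk r = true := by decide +kernel

theorem certOctTrio : CertM trios baseT gensT rootsT tabT sizeT 2 where
  hbase := hbaseT
  hgen := hgenT
  hroots := hrootsT
  hmem := fun r hr => trio_of_chk r (chkOctTrio r hr)
  hcls := hclsT
  hinc := hincT
  hinv := hinvT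
  hsmul := fun g hg X hX => smul_trio ((mem_StabK _ g).mp hg).1 hX
  hcard := by rw [ncard_trios, hlenT]
  hcount := hcountT

end OctTrio

section OctSext
open Cfsg.Agent.Lib_lead_MixOctSext

theorem chkOctSext : ∀ r ∈ rootsT, sextChk r = true := by decide +kernel

theorem certOctSext : CertM sextets baseT gensT rootsT tabT sizeT 2 where
  hbase := hbaseT
  hgen := hgenT
  hroots := hrootsT
  hmem := fun r hr => sextet_of_chk r (chkOctSext r hr)
  hcls := hclsT
  hinc := hincT
  hinv := hinvT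
  hsmul := fun g hg X hX => smul_sextet ((mem_StabK _ g).mp hg).1 hX
  hcard := by rw [ncard_sextets, hlenT]
  hcount := hcountT

end OctSext

section SextOct
open Cfsg.Agent.Lib_lead_MixSextOct

theorem chkSextOct : ∀ r ∈ rootsT, octChk r = true := by decide +kernel

theorem certSextOct : CertM (Sing octads) baseT gensT rootsT tabT sizeT 2 where
  hbase := hbaseT
  hgen := hgenT
  hroots := hrootsT
  hmem := fun r hr => oct_of_chk r (chkSextOct r hr)
  hcls := hclsT
  hinc := hincT
  hinv := hinvT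
  hsmul := fun g hg X hX => Sing_smul octads_smul g ((mem_StabK _ g).mp hg).1 X hX
  hcard := by rw [ncard_sing_octads, hlenT]
  hcount := hcountT

end SextOct

section SextTrio
open Cfsg.Agent.Lib_lead_MixSextTrio

theorem chkSextTrio : ∀ r ∈ rootsT, trioChk r = true := by decide +kernel

theorem certSextTrio : CertM trios baseT gensT rootsT tabT sizeT 2 where
  hbase := hbaseT
  hgen := hgenT
  hroots := hrootsT
  hmem := fun r hr => trio_of_chk r (chkSextTrio r hr)
  hcls := hclsT
  hinc := hincT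
  hinv := hinvT
  hsmul := fun g hg X hX => smul_trio ((mem_StabK _ g).mp hg).1 hX
  hcard := by rw [ncard_trios, hlenT]
  hcount := hcountT

end SextTrio

section TrioOct
open Cfsg.Agent.Lib_lead_MixTrioOct

theorem chkTrioOct : ∀ r ∈ rootsT, octChk r = true := by decide +kernel

theorem certTrioOct : CertM (Sing octads) baseT gensT rootsT tabT sizeT 2 where
  hbase := hbaseT
  hgen := hgenT
  hroots := hrootsT
  hmem := fun r hr => oct_of_chk r (chkTrioOct r hr)
  hcls := hclsT
  hinc := hincT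
  hinv := hinvT
  hsmul := fun g hg X hX => Sing_smul octads_smul g ((mem_StabK _ g).mp hg).1 X hX
  hcard := by rw [ncard_sing_octads, hlenT]
  hcount := hcountT

end TrioOct

section TrioSext
open Cfsg.Agent.Lib_lead_MixTrioSext

theorem chkTrioSext : ∀ r ∈ rootsT, sextChk r = true := by decide +kernel

theorem certTrioSext : CertM sextets baseT gensT rootsT tabT sizeT 2 where
  hbase := hbaseT
  hgen := hgenT
  hroots := hrootsT
  hmem := fun r hr => sextet_of_chk r (chkTrioSext r hr)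
  hcls := hclsT
  hinc := hincT
  hinv := hinvT
  hsmul := fun g hg X hX => smul_sextet ((mem_StabK _ g).mp hg).1 hX
  hcard := by rw [ncard_sextets, hlenT]
  hcount := hcountT

end TrioSext

/-- orbits of an octad stabilizer on trios and sextets -/
theorem oct_orbits (o : Finset GolayPt) (ho : o ∈ octads) :
    (∃ X₁ ∈ trios, ∃ X₂ ∈ trios, ∃ X₃ ∈ trios,
      (MulAction.orbit ↥(MulAction.stabilizer M24 o) X₁).ncard = 15 ∧
      (MulAction.orbit ↥(MulAction.stabilizer M24 o) X₂).ncard = 420 ∧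
      (MulAction.orbit ↥(MulAction.stabilizer M24 o) X₃).ncard = 3360 ∧
      trios = MulAction.orbit ↥(MulAction.stabilizer M24 o) X₁ ∪
        MulAction.orbit ↥(MulAction.stabilizer M24 o) X₂ ∪
        MulAction.orbit ↥(MulAction.stabilizer M24 o) X₃) ∧
    (∃ Y₁ ∈ sextets, ∃ Y₂ ∈ sextets, ∃ Y₃ ∈ sextets,
      (MulAction.orbit ↥(MulAction.stabilizer M24 o) Y₁).ncard = 35 ∧
      (MulAction.orbit ↥(MulAction.stabilizer M24 o) Y₂).ncard = 840 ∧
      (MulAction.orbit ↥(MulAction.stabilizer M24 o) Y₃).ncard = 896 ∧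
      sextets = MulAction.orbit ↥(MulAction.stabilizer M24 o) Y₁ ∪
        MulAction.orbit ↥(MulAction.stabilizer M24 o) Y₂ ∪
        MulAction.orbit ↥(MulAction.stabilizer M24 o) Y₃) := by
  obtain ⟨g, hg⟩ := Cfsg.Agent.Lib_lead_M24Data.octads_trans (fsOf 3277413) o
    Cfsg.Agent.Lib_lead_M24Oct.root_octad ho
  have hb : g • fin [3277413] = ({o} : Fam) := by
    rw [fin_single, Finset.smul_finset_singleton, hg]
  rw [← stab_single o]
  constructor
  · have h1 := certOctTrio.orbits3 (by decide) trios_smul g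
    rw [show Cfsg.Agent.Lib_lead_MixOctTrio.baseT = [3277413] from rfl, hb] at h1
    exact h1
  · have h1 := certOctSext.orbits3 (by decide) sextets_smul g
    rw [show Cfsg.Agent.Lib_lead_MixOctSext.baseT = [3277413] from rfl, hb] at h1
    exact h1

theorem base_sext : fin Cfsg.Agent.Lib_lead_MixSextOct.baseT ∈ sextets :=
  sextet_of_chk _ (by decide +kernel)

theorem base_sext_eq : Cfsg.Agent.Lib_lead_MixSextTrio.baseT
    = Cfsg.Agent.Lib_lead_MixSextOct.baseT := by decide

/-- orbits of a sextet stabilizer on octads and trios -/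
theorem sext_orbits (S : Fam) (hS : S ∈ sextets) :
    (∃ X₁ ∈ octads, ∃ X₂ ∈ octads, ∃ X₃ ∈ octads,
      (MulAction.orbit ↥(MulAction.stabilizer M24 S) X₁).ncard = 15 ∧
      (MulAction.orbit ↥(MulAction.stabilizer M24 S) X₂).ncard = 360 ∧
      (MulAction.orbit ↥(MulAction.stabilizer M24 S) X₃).ncard = 384 ∧
      octads = MulAction.orbit ↥(MulAction.stabilizer M24 S) X₁ ∪
        MulAction.orbit ↥(MulAction.stabilizer M24 S) X₂ ∪
        MulAction.orbit ↥(MulAction.stabilizer M24 S) X₃) ∧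
    (∃ Y₁ ∈ trios, ∃ Y₂ ∈ trios, ∃ Y₃ ∈ trios, ∃ Y₄ ∈ trios,
      (MulAction.orbit ↥(MulAction.stabilizer M24 S) Y₁).ncard = 15 ∧
      (MulAction.orbit ↥(MulAction.stabilizer M24 S) Y₂).ncard = 180 ∧
      (MulAction.orbit ↥(MulAction.stabilizer M24 S) Y₃).ncard = 720 ∧
      (MulAction.orbit ↥(MulAction.stabilizer M24 S) Y₄).ncard = 2880 ∧
      trios = MulAction.orbit ↥(MulAction.stabilizer M24 S) Y₁ ∪
        MulAction.orbit ↥(MulAction.stabilizer M24 S) Y₂ ∪
        MulAction.orbit ↥(MulAction.stabilizer M24 S) Y₃ ∪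
        MulAction.orbit ↥(MulAction.stabilizer M24 S) Y₄) := by
  obtain ⟨g, hg, hgS⟩ := sextets_trans _ base_sext S hS
  have hb : (⟨g, hg⟩ : ↥M24) • fin Cfsg.Agent.Lib_lead_MixSextOct.baseT = S := hgS
  constructor
  · have h1 := certSextOct.orbits3 (by decide) (Sing_smul octads_smul) ⟨g, hg⟩
    rw [hb] at h1
    exact orbits3_single h1
  · have h1 := certSextTrio.orbits4 (by decide) trios_smul ⟨g, hg⟩
    rw [base_sext_eq, hb] at h1
    exact h1

theorem base_trio : fin Cfsg.Agent.Lib_lead_MixTrioOct.baseT ∈ trios :=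
  trio_of_chk _ (by decide +kernel)

theorem base_trio_eq : Cfsg.Agent.Lib_lead_MixTrioSext.baseT
    = Cfsg.Agent.Lib_lead_MixTrioOct.baseT := by decide

/-- orbits of a trio stabilizer on octads and sextets -/
theorem trio_orbits (T : Fam) (hT : T ∈ trios) :
    (∃ X₁ ∈ octads, ∃ X₂ ∈ octads, ∃ X₃ ∈ octads,
      (MulAction.orbit ↥(MulAction.stabilizer M24 T) X₁).ncard = 3 ∧
      (MulAction.orbit ↥(MulAction.stabilizer M24 T) X₂).ncard = 84 ∧
      (MulAction.orbit ↥(MulAction.stabilizer M24 T) X₃).ncard = 672 ∧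
      octads = MulAction.orbit ↥(MulAction.stabilizer M24 T) X₁ ∪
        MulAction.orbit ↥(MulAction.stabilizer M24 T) X₂ ∪
        MulAction.orbit ↥(MulAction.stabilizer M24 T) X₃) ∧
    (∃ Y₁ ∈ sextets, ∃ Y₂ ∈ sextets, ∃ Y₃ ∈ sextets, ∃ Y₄ ∈ sextets,
      (MulAction.orbit ↥(MulAction.stabilizer M24 T) Y₁).ncard = 7 ∧
      (MulAction.orbit ↥(MulAction.stabilizer M24 T) Y₂).ncard = 84 ∧
      (MulAction.orbit ↥(MulAction.stabilizer M24 T) Y₃).ncard = 336 ∧
      (MulAction.orbit ↥(MulAction.stabilizer M24 T) Y₄).ncard = 1344 ∧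
      sextets = MulAction.orbit ↥(MulAction.stabilizer M24 T) Y₁ ∪
        MulAction.orbit ↥(MulAction.stabilizer M24 T) Y₂ ∪
        MulAction.orbit ↥(MulAction.stabilizer M24 T) Y₃ ∪
        MulAction.orbit ↥(MulAction.stabilizer M24 T) Y₄) := by
  obtain ⟨g, hg, hgT⟩ := trios_trans _ base_trio T hT
  have hb : (⟨g, hg⟩ : ↥M24) • fin Cfsg.Agent.Lib_lead_MixTrioOct.baseT = T := hgT
  constructor
  · have h1 := certTrioOct.orbits3 (by decide) (Sing_smul octads_smul) ⟨g, hg⟩
    rw [hb] at h1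
    exact orbits3_single h1
  · have h1 := certTrioSext.orbits4 (by decide) sextets_smul ⟨g, hg⟩
    rw [base_trio_eq, hb] at h1
    exact h1

end Cfsg.Agent.Lib_lead_MixOrb
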