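import Mathlib
import Cfsg.Prelude.Def_SporadicCombinatorics
import Cfsg.Agent.Lib_lead_CentData
import Cfsg.Agent.Lib_lead_MixOrb

/-! The centralizer of a fixed-point-free involution of the group of the binary Golay code. -/

set_option autoImplicit false

namespace Cfsg.Agent.Lib_lead_CentB

open Cfsg Cfsg.Agent.Lib_lead_Golay Cfsg.Agent.Lib_lead_GolayPerm Cfsg.Agent.Lib_lead_M24
  Cfsg.Agent.Lib_lead_M24Chain Cfsg.Agent.Lib_lead_Cls Cfsg.Agent.Lib_lead_ClsData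
  Cfsg.Agent.Lib_lead_Cls2 Cfsg.Agent.Lib_lead_Cls3 Cfsg.Agent.Lib_lead_Cent
  Cfsg.Agent.Lib_lead_ObjOrb Cfsg.Agent.Lib_lead_ClsCount Cfsg.Agent.Lib_lead_Sextet
  Cfsg.Agent.Lib_lead_SixSet Cfsg.Agent.Lib_lead_CentData
open scoped Pointwise

theorem card_centB : Nat.card ↥(centM (P zBp)) = 7680 := by
  rw [card_cent zBp_ok zBp02 zBp56 repXB repYB listB XsB_ok YsB_ok memB disB trB, lenB]

theorem conj1 {C R X : Tb} (hC : genOK C = true) (hR : genOK R = true) (hX : genOK X = true)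
    (h : conjOK C R (ap X) = true) : P C * P X * (P C)⁻¹ = P R := by
  rw [mul_inv_eq_iff_eq_mul]
  apply ext_pt
  intro j hj
  unfold conjOK at h
  rw [List.all_eq_true] at h
  have := h j (List.mem_range.mpr hj)
  rw [beq_iff_eq] at this
  rw [Equiv.Perm.mul_apply, P_apply hX j hj, P_apply hC _ (ap_lt hX j hj),
    Equiv.Perm.mul_apply, P_apply hC j hj, P_apply hR _ (ap_lt hC j hj)]
  exact congrArg ptN this

/-- a fixed-point-free involution is conjugate to the standard one -/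
theorem fpf_conj (t : Equiv.Perm GolayPt) (ht : t ∈ M24) (h2 : t ^ 2 = 1) (h1 : t ≠ 1)
    (h0 : ∀ p, t p ≠ p) : ∃ τ ∈ M24, τ * t * τ⁻¹ = P zBp := by
  rcases inv_fix t ht h2 h1 with ⟨σ, hσ, e, hF⟩ | ⟨σ, hσ, e, -⟩
  · exfalso
    have h := congrArg Finset.card ((fpf_iff t).mp h0)
    rw [hF, Finset.card_smul_finset, c3277413] at h
    simp at h
  · refine ⟨P KB * σ, M24.mul_mem (P_mem KB_ok) hσ, ?_⟩
    have h : P KB * σ * t * (P KB * σ)⁻¹ = P KB * (σ * t * σ⁻¹) * (P KB)⁻¹ := by group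
    rw [h, e]
    exact conj1 KB_ok zBp_ok zB_ok KB_conj

/-- the centralizer of a fixed-point-free involution -/
theorem main (t : Equiv.Perm GolayPt) (ht : t ∈ M24) (h₂ : orderOf t = 2)
    (h₀ : ∀ p, t p ≠ p) :
    Nat.card {c : Equiv.Perm GolayPt // c ∈ M24 ∧ c * t = t * c} = 7680 ∧
    (∀ p q : GolayPt, ∃ c ∈ M24, c * t = t * c ∧ c p = q) ∧
    ∃ S ∈ sextets, t • S = S ∧ ∀ c ∈ M24, c * t = t * c → c • S = S := by
  obtain ⟨t2, t1⟩ := of_order h₂ (by norm_num)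
  obtain ⟨τ, hτ, e⟩ := fpf_conj t ht t2 t1 h₀
  have ht' : t = τ⁻¹ * P zBp * τ := by rw [← e]; group
  refine ⟨by rw [card_conj hτ e, card_centB], ?_, ?_⟩
  · intro p q
    obtain ⟨-, m1, i1⟩ := trans_of_chk zBp_ok trB (idx (τ p)) (idx_lt _)
    obtain ⟨-, m2, i2⟩ := trans_of_chk zBp_ok trB (idx (τ q)) (idx_lt _)
    rw [ptN_idx] at i1 i2
    have hc'm : P (caB.getD (idx (τ q)) ([], [])) * (P (caB.getD (idx (τ p)) ([], [])))⁻¹
        ∈ centM (P zBp) := (centM _).mul_mem m2 ((centM _).inv_mem m1)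
    have hc'p : (P (caB.getD (idx (τ q)) ([], [])) * (P (caB.getD (idx (τ p)) ([], [])))⁻¹) (τ p)
        = τ q := by
      rw [Equiv.Perm.mul_apply]
      nth_rewrite 2 [← i1]
      rw [perm_inv_apply, i2]
    generalize P (caB.getD (idx (τ q)) ([], [])) * (P (caB.getD (idx (τ p)) ([], [])))⁻¹ = c'
      at hc'm hc'p
    refine ⟨τ⁻¹ * c' * τ, M24.mul_mem (M24.mul_mem (M24.inv_mem hτ) hc'm.1) hτ, ?_, ?_⟩
    · have h1 : τ⁻¹ * c' * τ * (τ⁻¹ * P zBp * τ) = τ⁻¹ * (c' * P zBp) * τ := by group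
      have h2 : τ⁻¹ * P zBp * τ * (τ⁻¹ * c' * τ) = τ⁻¹ * (P zBp * c') * τ := by group
      rw [ht', h1, h2, hc'm.2]
    · rw [Equiv.Perm.mul_apply, Equiv.Perm.mul_apply, hc'p, perm_inv_apply]
  · refine ⟨τ⁻¹ • fin S0B, smul_sextet (M24.inv_mem hτ) (sextet_of_chk _ sextB), ?_, ?_⟩
    · rw [ht', mul_smul, mul_smul, smul_inv_smul, (smul_fin_iff zBp_ok S0B ltB).mpr fixB3]
    · intro c hc hct
      have hmem : τ * c * τ⁻¹ ∈ centM (P zBp) :=
        ⟨M24.mul_mem (M24.mul_mem hτ hc) (M24.inv_mem hτ), by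
          have h1 : τ * c * τ⁻¹ * (τ * t * τ⁻¹) = τ * (c * t) * τ⁻¹ := by group
          have h2 : τ * t * τ⁻¹ * (τ * c * τ⁻¹) = τ * (t * c) * τ⁻¹ := by group
          rw [← e, h1, h2, hct]⟩
      have hfix := cent_fix zBp_ok zBp02 zBp56 repXB repYB listB XsB_ok YsB_ok memB trB S0B ltB
        fixB1 fixB2 _ hmem
      have hc' : c = τ⁻¹ * (τ * c * τ⁻¹) * τ := by group
      rw [hc', mul_smul, mul_smul, smul_inv_smul, hfix]

end Cfsg.Agent.Lib_lead_CentB
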