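import Mathlib
import Cfsg.Prelude.Def_SporadicCombinatorics
import Cfsg.Agent.Lib_lead_Cls3

/-! Commuting elements of order 2 and 3 in the group of the binary Golay code. -/

set_option autoImplicit false

namespace Cfsg.Agent.Lib_lead_Cls4

open Cfsg Cfsg.Agent.Lib_lead_Golay Cfsg.Agent.Lib_lead_GolayPerm Cfsg.Agent.Lib_lead_M24
  Cfsg.Agent.Lib_lead_M24Chain Cfsg.Agent.Lib_lead_M24ChainData Cfsg.Agent.Lib_lead_M24Sets2
  Cfsg.Agent.Lib_lead_SixSet Cfsg.Agent.Lib_lead_M24Trans Cfsg.Agent.Lib_lead_Cls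
  Cfsg.Agent.Lib_lead_ClsData Cfsg.Agent.Lib_lead_Cls2 Cfsg.Agent.Lib_lead_Cls3
open scoped Pointwise

theorem inv_mem_of {σ : Equiv.Perm GolayPt} {p : GolayPt} {j : ℕ} {S : Finset GolayPt}
    (hp : σ p = ptN j) (hS : p ∈ S) : σ⁻¹ (ptN j) ∈ S := by
  rw [← hp, perm_inv_apply]
  exact hS

/-- three transpositions of an involution inside an invariant set, in standard position -/
theorem three_swaps_in (t : Equiv.Perm GolayPt) (h2 : t ^ 2 = 1) (S : Finset GolayPt)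
    (hS : ∀ p ∈ S, t p ≠ p) (hSt : ∀ p ∈ S, t p ∈ S) (hc : 5 ≤ S.card) :
    ∃ σ ∈ M24, ((σ * t * σ⁻¹) (ptN 0) = ptN 2 ∧ (σ * t * σ⁻¹) (ptN 2) = ptN 0 ∧
      (σ * t * σ⁻¹) (ptN 5) = ptN 6 ∧ (σ * t * σ⁻¹) (ptN 6) = ptN 5 ∧
      ((σ * t * σ⁻¹) (ptN 9) = ptN 17 ∨ (σ * t * σ⁻¹) (ptN 9) = ptN 1)) ∧
      σ⁻¹ (ptN 0) ∈ S ∧ σ⁻¹ (ptN 2) ∈ S ∧ σ⁻¹ (ptN 5) ∈ S ∧ σ⁻¹ (ptN 6) ∈ S ∧
      σ⁻¹ (ptN 9) ∈ S := by
  have htt : ∀ y, t (t y) = y := fun y => by
    have := congrArg (fun f : Equiv.Perm GolayPt => f y) h2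
    simpa [pow_two] using this
  obtain ⟨p, hpS, -⟩ := Finset.exists_mem_notMem_of_card_lt_card
    (s := (∅ : Finset GolayPt)) (t := S) (by rw [Finset.card_empty]; omega)
  obtain ⟨q, hqS, hqn⟩ := Finset.exists_mem_notMem_of_card_lt_card
    (s := ({p, t p} : Finset GolayPt)) (t := S)
    (lt_of_le_of_lt (Finset.card_le_two) (by omega))
  obtain ⟨r, hrS, hrn⟩ := Finset.exists_mem_notMem_of_card_lt_card
    (s := ({p, t p, q, t q} : Finset GolayPt)) (t := S)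
    (lt_of_le_of_lt (Finset.card_le_four) (by omega))
  have hp := hS p hpS
  have hq := hS q hqS
  have hr := hS r hrS
  simp only [Finset.mem_insert, Finset.mem_singleton, not_or] at hqn hrn
  obtain ⟨hqp, hqtp⟩ := hqn
  obtain ⟨hrp, hrtp, hrq, hrtq⟩ := hrn
  have hnd : [p, t p, q, t q, r, t r].Nodup := by
    simp only [List.nodup_cons, List.mem_cons, List.not_mem_nil, or_false, not_or,
      List.nodup_nil, and_true, not_false_eq_true]
    refine ⟨⟨fun h => hp h.symm, fun h => hqp h.symm, ?_, fun h => hrp h.symm, ?_⟩,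
      ⟨fun h => hqtp h.symm, fun h => hqp (t.injective h).symm, fun h => hrtp h.symm,
        fun h => hrp (t.injective h).symm⟩,
      ⟨fun h => hq h.symm, fun h => hrq h.symm, ?_⟩,
      ⟨fun h => hrtq h.symm, fun h => hrq (t.injective h).symm⟩, fun h => hr h.symm⟩
    · intro h
      apply hqtp
      rw [h, htt]
    · intro h
      apply hrtp
      rw [h, htt]
    · intro h
      apply hrtq
      rw [h, htt]
  obtain ⟨σ, hσ, e1, e2, e3, e4, e5, hcase⟩ := six p (t p) q (t q) r (t r) hnd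
  refine ⟨σ, C3_le hσ, ⟨?_, ?_, ?_, ?_, ?_⟩, inv_mem_of e1 hpS, inv_mem_of e2 (hSt p hpS),
    inv_mem_of e3 hqS, inv_mem_of e4 (hSt q hqS), inv_mem_of e5 hrS⟩
  · rw [conj_apply e1 rfl, e2]
  · rw [conj_apply e2 (htt p), e1]
  · rw [conj_apply e3 rfl, e4]
  · rw [conj_apply e4 (htt q), e3]
  · rw [conj_apply e5 rfl]
    rcases hcase with ⟨-, h⟩ | ⟨-, h⟩
    · exact Or.inl h
    · exact Or.inr h

/-- two cycles of an element of order three inside an invariant set, in standard position -/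
theorem two_cycles_in (x : Equiv.Perm GolayPt) (h3 : x ^ 3 = 1) (S : Finset GolayPt)
    (hS : ∀ p ∈ S, x p ≠ p) (hSx : ∀ p ∈ S, x p ∈ S) (hc : 4 ≤ S.card) :
    ∃ σ ∈ M24, ((σ * x * σ⁻¹) (ptN 0) = ptN 2 ∧ (σ * x * σ⁻¹) (ptN 2) = ptN 5 ∧
      (σ * x * σ⁻¹) (ptN 5) = ptN 0 ∧ (σ * x * σ⁻¹) (ptN 6) = ptN 9 ∧
      ((σ * x * σ⁻¹) (ptN 9) = ptN 17 ∨ (σ * x * σ⁻¹) (ptN 9) = ptN 1)) ∧
      σ⁻¹ (ptN 0) ∈ S ∧ σ⁻¹ (ptN 2) ∈ S ∧ σ⁻¹ (ptN 5) ∈ S ∧ σ⁻¹ (ptN 6) ∈ S ∧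
      σ⁻¹ (ptN 9) ∈ S := by
  have hxx : ∀ y, x (x (x y)) = y := fun y => by
    have := congrArg (fun f : Equiv.Perm GolayPt => f y) h3
    simpa [pow_succ] using this
  obtain ⟨p, hpS, -⟩ := Finset.exists_mem_notMem_of_card_lt_card
    (s := (∅ : Finset GolayPt)) (t := S) (by rw [Finset.card_empty]; omega)
  obtain ⟨q, hqS, hqn⟩ := Finset.exists_mem_notMem_of_card_lt_card
    (s := ({p, x p, x (x p)} : Finset GolayPt)) (t := S)
    (lt_of_le_of_lt (Finset.card_le_three) (by omega))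
  have hp := hS p hpS
  have hq := hS q hqS
  simp only [Finset.mem_insert, Finset.mem_singleton, not_or] at hqn
  obtain ⟨hqp, hqxp, hqxxp⟩ := hqn
  have key : ∀ y, x y ≠ y → y ≠ x (x y) := by
    intro y hy h
    apply hy
    have := congrArg x h
    rw [hxx] at this
    exact this
  have hnd : [p, x p, x (x p), q, x q, x (x q)].Nodup := by
    simp only [List.nodup_cons, List.mem_cons, List.not_mem_nil, or_false, not_or,
      List.nodup_nil, and_true, not_false_eq_true]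
    refine ⟨⟨fun h => hp h.symm, key p hp, fun h => hqp h.symm, ?_, ?_⟩,
      ⟨fun h => hp (x.injective h).symm, fun h => hqxp h.symm,
        fun h => hqp (x.injective h).symm, ?_⟩,
      ⟨fun h => hqxxp h.symm, fun h => hqxp (x.injective h).symm,
        fun h => hqp (x.injective (x.injective h)).symm⟩,
      ⟨fun h => hq h.symm, key q hq⟩, fun h => hq (x.injective h).symm⟩
    · intro h
      apply hqxxp
      rw [h, hxx]
    · intro h
      apply hqxp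
      rw [h, hxx]
    · intro h
      have h' := x.injective h
      apply hqxxp
      rw [h', hxx]
  obtain ⟨σ, hσ, e1, e2, e3, e4, e5, hcase⟩ := six p (x p) (x (x p)) q (x q) (x (x q)) hnd
  refine ⟨σ, C3_le hσ, ⟨?_, ?_, ?_, ?_, ?_⟩, inv_mem_of e1 hpS, inv_mem_of e2 (hSx p hpS),
    inv_mem_of e3 (hSx _ (hSx p hpS)), inv_mem_of e4 hqS, inv_mem_of e5 (hSx q hqS)⟩
  · rw [conj_apply e1 rfl, e2]
  · rw [conj_apply e2 rfl, e3]
  · rw [conj_apply e3 (hxx p), e1]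
  · rw [conj_apply e4 rfl, e5]
  · rw [conj_apply e5 rfl]
    rcases hcase with ⟨-, h⟩ | ⟨-, h⟩
    · exact Or.inl h
    · exact Or.inr h

theorem conj_fix {σ x : Equiv.Perm GolayPt} {j : ℕ} (h : σ⁻¹ (ptN j) ∈ Fx x) :
    (σ * x * σ⁻¹) (ptN j) = ptN j := by
  rw [mem_Fx] at h
  rw [Equiv.Perm.mul_apply, Equiv.Perm.mul_apply, h, perm_apply_inv]

theorem conj_comm {σ x s : Equiv.Perm GolayPt} (hc : x * s = s * x) :
    σ * x * σ⁻¹ * (σ * s * σ⁻¹) = σ * s * σ⁻¹ * (σ * x * σ⁻¹) := by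
  have e1 : σ * x * σ⁻¹ * (σ * s * σ⁻¹) = σ * (x * s) * σ⁻¹ := by group
  have e2 : σ * s * σ⁻¹ * (σ * x * σ⁻¹) = σ * (s * x) * σ⁻¹ := by group
  rw [e1, e2, hc]

theorem fix_of_conj {σ s : Equiv.Perm GolayPt} (h : ∃ p, (σ * s * σ⁻¹) p = p) :
    ∃ p, s p = p := by
  obtain ⟨p, hp⟩ := h
  refine ⟨σ⁻¹ p, ?_⟩
  rw [Equiv.Perm.mul_apply, Equiv.Perm.mul_apply] at hp
  have := congrArg (fun q => σ⁻¹ q) hp
  simp only [perm_inv_apply] at this
  exact this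

/-- an element of order three with fixed points does not commute with a fixed-point-free
involution -/
theorem case62 (x s : Equiv.Perm GolayPt) (hx : x ∈ M24) (hs : s ∈ M24) (x3 : x ^ 3 = 1)
    (x1 : x ≠ 1) (s2 : s ^ 2 = 1) (s1 : s ≠ 1) (hc : x * s = s * x) (h6 : 5 ≤ (Fx x).card)
    (h0 : Fx s = ∅) : False := by
  have hfpf := (fpf_iff s).mpr h0
  have hmap : ∀ p ∈ Fx x, s p ∈ Fx x := by
    intro p hp
    rw [mem_Fx] at hp ⊢
    have := congrArg (fun f : Equiv.Perm GolayPt => f p) hc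
    simp only [Equiv.Perm.mul_apply] at this
    rw [this, hp]
  obtain ⟨σ, hσ, ⟨e0, e2, e5, e6, e9⟩, m0, m2, m5, m6, m9⟩ :=
    three_swaps_in s s2 (Fx x) (fun p _ => hfpf p) hmap h6
  obtain ⟨hxm, hxn, hx1⟩ := conj_facts hσ hx x3 x1
  obtain ⟨hsm, hsn, hs1⟩ := conj_facts hσ hs s2 s1
  have hcc := conj_comm (σ := σ) hc
  rcases e9 with e9 | e9
  · obtain ⟨p, hp⟩ := fix_of_conj (comm_sound E48_ok E48_enum idT_ok X_inv17_ok chk_3_2a hxm hsm
      hxn hsn hx1 hs1 hcc (conj_fix m0) (conj_fix m2) (conj_fix m5) (conj_fix m6) (conj_fix m9)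
      e0 e2 e5 e6 e9)
    exact hfpf p hp
  · obtain ⟨p, hp⟩ := fix_of_conj (comm_sound E48_ok E48_enum idT_ok X_inv01_ok chk_3_2b hxm hsm
      hxn hsn hx1 hs1 hcc (conj_fix m0) (conj_fix m2) (conj_fix m5) (conj_fix m6) (conj_fix m9)
      e0 e2 e5 e6 e9)
    exact hfpf p hp

/-- a fixed-point-free element of order three does not commute with an involution with fixed
points -/
theorem case08 (x s : Equiv.Perm GolayPt) (hx : x ∈ M24) (hs : s ∈ M24) (x3 : x ^ 3 = 1)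
    (x1 : x ≠ 1) (s2 : s ^ 2 = 1) (s1 : s ≠ 1) (hc : x * s = s * x) (h8 : 4 ≤ (Fx s).card)
    (h0 : Fx x = ∅) : False := by
  have hfpf := (fpf_iff x).mpr h0
  have hmap : ∀ p ∈ Fx s, x p ∈ Fx s := by
    intro p hp
    rw [mem_Fx] at hp ⊢
    have := congrArg (fun f : Equiv.Perm GolayPt => f p) hc
    simp only [Equiv.Perm.mul_apply] at this
    rw [← this, hp]
  obtain ⟨σ, hσ, ⟨e0, e2, e5, e6, e9⟩, m0, m2, m5, m6, m9⟩ :=
    two_cycles_in x x3 (Fx s) (fun p _ => hfpf p) hmap h8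
  obtain ⟨hxm, hxn, hx1⟩ := conj_facts hσ hx x3 x1
  obtain ⟨hsm, hsn, hs1⟩ := conj_facts hσ hs s2 s1
  have hcc := (conj_comm (σ := σ) hc).symm
  rcases e9 with e9 | e9
  · obtain ⟨p, hp⟩ := fix_of_conj (comm_sound E48_ok E48_enum idT_ok X_ord17_ok chk_2_3a hsm hxm
      hsn hxn hs1 hx1 hcc (conj_fix m0) (conj_fix m2) (conj_fix m5) (conj_fix m6) (conj_fix m9)
      e0 e2 e5 e6 e9)
    exact hfpf p hp
  · obtain ⟨p, hp⟩ := fix_of_conj (comm_sound E48_ok E48_enum idT_ok X_ord01_ok chk_2_3b hsm hxm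
      hsn hxn hs1 hx1 hcc (conj_fix m0) (conj_fix m2) (conj_fix m5) (conj_fix m6) (conj_fix m9)
      e0 e2 e5 e6 e9)
    exact hfpf p hp

end Cfsg.Agent.Lib_lead_Cls4
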