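import Mathlib
import Cfsg.Prelude.Def_SporadicCombinatorics
import Cfsg.Agent.Lib_lead_ClsCount
import Cfsg.Agent.Lib_lead_MixOrb

/-! The sextets fixed by the representatives of the classes of elements of order 2 and 3. -/

set_option autoImplicit false

namespace Cfsg.Agent.Lib_lead_ClsCountS

open Cfsg Cfsg.Agent.Lib_lead_Golay Cfsg.Agent.Lib_lead_GolayPerm Cfsg.Agent.Lib_lead_M24
  Cfsg.Agent.Lib_lead_M24Chain Cfsg.Agent.Lib_lead_M24Orb Cfsg.Agent.Lib_lead_ObjOrb
  Cfsg.Agent.Lib_lead_ObjOrb3 Cfsg.Agent.Lib_lead_ObjOrb4 Cfsg.Agent.Lib_lead_Cls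
  Cfsg.Agent.Lib_lead_ClsData Cfsg.Agent.Lib_lead_ClsCount Cfsg.Agent.Lib_lead_MixOrb
open scoped Pointwise

open Cfsg.Agent.Lib_lead_MixOctSext

set_option maxRecDepth 100000 in
theorem tab_zA : (tabT.filter (fun e => fixChk zA (objOf gensT (rootsT.getD e.1 []) e.2))).length = 91 := by
  decide +kernel

theorem n_zA : {X : Fam | X ∈ sextets ∧ P zA • X = X}.ncard = 91 := by
  rw [count_fix certOctSext zA_ok]
  exact tab_zA

set_option maxRecDepth 100000 in
theorem tab_zB : (tabT.filter (fun e => fixChk zB (objOf gensT (rootsT.getD e.1 []) e.2))).length = 51 := by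
  decide +kernel

theorem n_zB : {X : Fam | X ∈ sextets ∧ P zB • X = X}.ncard = 51 := by
  rw [count_fix certOctSext zB_ok]
  exact tab_zB

set_option maxRecDepth 100000 in
theorem tab_yA : (tabT.filter (fun e => fixChk yA (objOf gensT (rootsT.getD e.1 []) e.2))).length = 16 := by
  decide +kernel

theorem n_yA : {X : Fam | X ∈ sextets ∧ P yA • X = X}.ncard = 16 := by
  rw [count_fix certOctSext yA_ok]
  exact tab_yA

set_option maxRecDepth 100000 in
theorem tab_yB : (tabT.filter (fun e => fixChk yB (objOf gensT (rootsT.getD e.1 []) e.2))).length = 7 := by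
  decide +kernel

theorem n_yB : {X : Fam | X ∈ sextets ∧ P yB • X = X}.ncard = 7 := by
  rw [count_fix certOctSext yB_ok]
  exact tab_yB

end Cfsg.Agent.Lib_lead_ClsCountS
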