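import Mathlib
import Cfsg.Prelude.Def_SporadicCombinatorics
import Cfsg.Agent.Lib_lead_ClsCount

/-! The octads and dodecads fixed by the representatives of the classes of elements of order
2 and 3. -/

set_option autoImplicit false

namespace Cfsg.Agent.Lib_lead_ClsCountW

open Cfsg Cfsg.Agent.Lib_lead_Golay Cfsg.Agent.Lib_lead_GolayPerm Cfsg.Agent.Lib_lead_M24
  Cfsg.Agent.Lib_lead_M24Chain Cfsg.Agent.Lib_lead_M24Orb Cfsg.Agent.Lib_lead_Cls
  Cfsg.Agent.Lib_lead_ClsData Cfsg.Agent.Lib_lead_ClsCount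
open scoped Pointwise

theorem n8_zA : {o : Finset GolayPt | o ∈ octads ∧ P zA • o = o}.ncard = 71 := by
  rw [show octads = wordsOfWeight (golayCode : Set (GolayPt → ZMod 2)) 8 from rfl, count_words 8 zA_ok]
  decide +kernel

theorem n8_zB : {o : Finset GolayPt | o ∈ octads ∧ P zB • o = o}.ncard = 15 := by
  rw [show octads = wordsOfWeight (golayCode : Set (GolayPt → ZMod 2)) 8 from rfl, count_words 8 zB_ok]
  decide +kernel

theorem n8_yA : {o : Finset GolayPt | o ∈ octads ∧ P yA • o = o}.ncard = 21 := by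
  rw [show octads = wordsOfWeight (golayCode : Set (GolayPt → ZMod 2)) 8 from rfl, count_words 8 yA_ok]
  decide +kernel

theorem n12_yA : {o : Finset GolayPt | o ∈ dodecads ∧ P yA • o = o}.ncard = 20 := by
  rw [show dodecads = wordsOfWeight (golayCode : Set (GolayPt → ZMod 2)) 12 from rfl, count_words 12 yA_ok]
  decide +kernel

end Cfsg.Agent.Lib_lead_ClsCountW
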