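import Mathlib
import Cfsg.Prelude.Def_FischerSpaces
import Cfsg.Prelude.Def_CaseTheorems

set_option autoImplicit false

namespace Cfsg.Agent.Lib_lead_CommGraphLift

open scoped commutatorElement

theorem mem_conj_iff {G : Type*} [Group G] (d x : G) :
    x ∈ conjugatesOf d ↔ ∃ g : G, g * d * g⁻¹ = x := isConj_iff

theorem comm_central {G : Type*} [Group G] (w1 w2 l1 l2 : G) (h11 : Commute w1 l1)
    (h12 : Commute w1 l2) (h1w : Commute w1 w2) (h21 : Commute w2 l1) (h22 : Commute w2 l2) :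
    ⁅w1 * l1, w2 * l2⁆ = ⁅l1, l2⁆ := by
  rw [commutatorElement_def, commutatorElement_def]
  have hB : Commute w1 (l1 * (w2 * l2) * l1⁻¹) :=
    (h11.mul_right (h1w.mul_right h12)).mul_right h11.inv_right
  have e1 : w1 * l1 * (w2 * l2) * (w1 * l1)⁻¹ * (w2 * l2)⁻¹
      = (w1 * (l1 * (w2 * l2) * l1⁻¹) * w1⁻¹) * (w2 * l2)⁻¹ := by group
  rw [e1, hB.mul_inv_cancel]
  have hC : Commute w2 (l1 * l2 * l1⁻¹ * l2⁻¹) :=
    ((h21.mul_right h22).mul_right h21.inv_right).mul_right h22.inv_right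
  have e2 : l1 * (w2 * l2) * l1⁻¹ * (w2 * l2)⁻¹ = (l1 * w2) * l2 * l1⁻¹ * l2⁻¹ * w2⁻¹ := by group
  rw [e2, ← h21.eq]
  have e3 : w2 * l1 * l2 * l1⁻¹ * l2⁻¹ * w2⁻¹ = w2 * (l1 * l2 * l1⁻¹ * l2⁻¹) * w2⁻¹ := by group
  rw [e3, hC.mul_inv_cancel]

theorem inv_mul_of_invert {G : Type*} [Group G] (a t : G) (haa : a * a = 1)
    (ha : a * t * a = t⁻¹) : t⁻¹ * a = a * t := by
  rw [← ha, mul_assoc, haa, mul_one]

theorem commute_conj_of_pow_four {G : Type*} [Group G] (x y w : G) (hx : x * x = 1)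
    (hy : y * y = 1) (hxw : x * w * x = w⁻¹) (hyw : y * w * y = w⁻¹)
    (h4 : w * w * (w * w) = x * y * x * y) : Commute x (w * y * w⁻¹) := by
  have e_wy : w * y = y * w⁻¹ := by
    have h1 : y * (y * w * y) = y * w⁻¹ := by rw [hyw]
    have h2 : y * (y * w * y) = (y * y) * w * y := by group
    rw [h2, hy, one_mul] at h1
    exact h1
  have e_wx : w⁻¹ * x = x * w := inv_mul_of_invert x w hx hxw
  have key : x * y = y * x * (w * w * (w * w)) := by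
    rw [h4]
    have h3 : y * x * (x * y * x * y) = y * (x * x) * y * x * y := by group
    rw [h3, hx, mul_one, hy, one_mul]
  show x * (w * y * w⁻¹) = w * y * w⁻¹ * x
  rw [e_wy]
  calc x * (y * w⁻¹ * w⁻¹) = (x * y) * w⁻¹ * w⁻¹ := by group
    _ = y * x * (w * w * (w * w)) * w⁻¹ * w⁻¹ := by rw [key]
    _ = y * (x * w) * w := by group
    _ = y * (w⁻¹ * x) * w := by rw [e_wx]
    _ = y * w⁻¹ * (x * w) := by group
    _ = y * w⁻¹ * (w⁻¹ * x) := by rw [e_wx]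
    _ = y * w⁻¹ * w⁻¹ * x := by group

theorem exists_sq_root {G : Type*} [Group G] (Z : Subgroup G) (m : ℕ) (hm : Odd m)
    (hZ : ∀ z ∈ Z, z ^ m = 1) (z : G) (hz : z ∈ Z) : ∃ t ∈ Z, t * t = z := by
  obtain ⟨k, rfl⟩ := hm
  refine ⟨z ^ (k + 1), Z.pow_mem hz _, ?_⟩
  have h := hZ z hz
  rw [← pow_add]
  have e : k + 1 + (k + 1) = 2 * k + 1 + 1 := by ring
  rw [e, pow_succ, h, one_mul]

theorem adj_iff {G : Type*} [Group G] (D : Set G) (a b : D) :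
    (Cfsg.commutingGraph D).Adj a b ↔ a ≠ b ∧ Commute (a : G) (b : G) := by
  unfold Cfsg.commutingGraph
  rw [SimpleGraph.fromRel_adj]
  constructor
  · rintro ⟨h1, h2 | h2⟩
    · exact ⟨h1, h2⟩
    · exact ⟨h1, h2.symm⟩
  · rintro ⟨h1, h2⟩
    exact ⟨h1, Or.inl h2⟩

theorem reach_of_commute {G : Type*} [Group G] (D : Set G) (a b : D)
    (h : Commute (a : G) (b : G)) : (Cfsg.commutingGraph D).Reachable a b := by
  by_cases hab : a = b
  · subst hab; exact SimpleGraph.Reachable.refl _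
  · exact ((adj_iff D a b).mpr ⟨hab, h⟩).reachable

theorem conj_mem_conj {G : Type*} [Group G] (d g x : G) (hx : x ∈ conjugatesOf d) :
    g * x * g⁻¹ ∈ conjugatesOf d := by
  exact (show IsConj d x from hx).trans (isConj_iff.mpr ⟨g, rfl⟩)

theorem exists_conjHom {G : Type*} [Group G] (d g : G) :
    ∃ φ : Cfsg.commutingGraph (conjugatesOf d) →g Cfsg.commutingGraph (conjugatesOf d),
      ∀ a : conjugatesOf d, ((φ a : conjugatesOf d) : G) = g * (a : G) * g⁻¹ := by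
  refine ⟨⟨fun a => ⟨g * (a : G) * g⁻¹, conj_mem_conj d g a a.2⟩, ?_⟩, fun a => rfl⟩
  intro a b hab
  rw [adj_iff] at hab ⊢
  refine ⟨?_, ?_⟩
  · intro h
    apply hab.1
    have h' : g * (a : G) * g⁻¹ = g * (b : G) * g⁻¹ := congrArg Subtype.val h
    exact Subtype.ext (mul_left_cancel (mul_right_cancel h'))
  · show g * (a : G) * g⁻¹ * (g * (b : G) * g⁻¹) = g * (b : G) * g⁻¹ * (g * (a : G) * g⁻¹)
    have e1 : g * (a : G) * g⁻¹ * (g * (b : G) * g⁻¹) = g * ((a : G) * (b : G)) * g⁻¹ := by group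
    have e2 : g * (b : G) * g⁻¹ * (g * (a : G) * g⁻¹) = g * ((b : G) * (a : G)) * g⁻¹ := by group
    rw [e1, e2, hab.2.eq]

theorem reach_conj {G : Type*} [Group G] (d g : G) (a b a' b' : conjugatesOf d)
    (h : (Cfsg.commutingGraph (conjugatesOf d)).Reachable a b)
    (ha : (a' : G) = g * a * g⁻¹) (hb : (b' : G) = g * b * g⁻¹) :
    (Cfsg.commutingGraph (conjugatesOf d)).Reachable a' b' := by
  obtain ⟨φ, hφ⟩ := exists_conjHom d g
  have h' := h.map φ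
  have e1 : φ a = a' := Subtype.ext ((hφ a).trans ha.symm)
  have e2 : φ b = b' := Subtype.ext ((hφ b).trans hb.symm)
  rw [e1, e2] at h'
  exact h'

theorem lift_edge_aux {G : Type*} [Group G] (Z : Subgroup G) [Z.Normal] (d : G)
    (m : ℕ) (hm : Odd m) (hZm : ∀ z ∈ Z, z ^ m = 1)
    (hDsq : ∀ x ∈ conjugatesOf d, x * x = 1)
    (hDinv : ∀ x ∈ conjugatesOf d, ∀ c ∈ Z, x * c * x = c⁻¹)
    (y y0 : conjugatesOf d)
    (hc : (QuotientGroup.mk ((y : G) * (y0 : G)) : G ⧸ Z)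
      = QuotientGroup.mk ((y0 : G) * (y : G))) :
    ∃ y' : conjugatesOf d, (QuotientGroup.mk (y' : G) : G ⧸ Z) = QuotientGroup.mk (y0 : G) ∧
      (Cfsg.commutingGraph (conjugatesOf d)).Reachable y y' := by
  have hyy := hDsq y y.2
  have h00 := hDsq y0 y0.2
  have hyi : (y : G)⁻¹ = y := inv_eq_of_mul_eq_one_left hyy
  have h0i : (y0 : G)⁻¹ = y0 := inv_eq_of_mul_eq_one_left h00
  rw [QuotientGroup.eq] at hc
  have hz : (y : G) * y0 * y * y0 ∈ Z := by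
    have h1 := Z.inv_mem hc
    have e : (((y : G) * (y0 : G))⁻¹ * ((y0 : G) * (y : G)))⁻¹
        = (y : G)⁻¹ * (y0 : G)⁻¹ * y * y0 := by group
    rw [e, hyi, h0i] at h1
    exact h1
  obtain ⟨t, ht, htt⟩ := exists_sq_root Z m hm hZm _ hz
  obtain ⟨s, hs, hss⟩ := exists_sq_root Z m hm hZm _ ht
  have h4 : s * s * (s * s) = (y : G) * y0 * y * y0 := by
    rw [hss, htt]
  have hcomm := commute_conj_of_pow_four (y : G) (y0 : G) s hyy h00
    (hDinv y y.2 s hs) (hDinv y0 y0.2 s hs) h4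
  refine ⟨⟨s * (y0 : G) * s⁻¹, conj_mem_conj d s y0 y0.2⟩, ?_,
    reach_of_commute _ _ _ hcomm⟩
  show (QuotientGroup.mk (s * (y0 : G) * s⁻¹) : G ⧸ Z) = QuotientGroup.mk (y0 : G)
  rw [QuotientGroup.eq]
  have h6 : (s * (y0 : G) * s⁻¹)⁻¹ * (y0 : G) = s * ((y0 : G)⁻¹ * s⁻¹ * (y0 : G)⁻¹⁻¹) := by
    group
  rw [h6]
  exact Z.mul_mem hs (Subgroup.Normal.conj_mem ‹Z.Normal› _ (Z.inv_mem hs) _)

theorem lift_reach {G : Type*} [Group G] (Z : Subgroup G) [Z.Normal] (d : G)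
    (m : ℕ) (hm : Odd m) (hZm : ∀ z ∈ Z, z ^ m = 1)
    (hDsq : ∀ x ∈ conjugatesOf d, x * x = 1)
    (hDinv : ∀ x ∈ conjugatesOf d, ∀ c ∈ Z, x * c * x = c⁻¹)
    (x : conjugatesOf d) (u v : conjugatesOf (QuotientGroup.mk d : G ⧸ Z))
    (hu : (QuotientGroup.mk (x : G) : G ⧸ Z) = (u : G ⧸ Z))
    (h : (Cfsg.commutingGraph (conjugatesOf (QuotientGroup.mk d : G ⧸ Z))).Reachable u v) :
    ∃ y : conjugatesOf d, (QuotientGroup.mk (y : G) : G ⧸ Z) = (v : G ⧸ Z) ∧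
      (Cfsg.commutingGraph (conjugatesOf d)).Reachable x y := by
  rw [SimpleGraph.reachable_iff_reflTransGen] at h
  induction h with
  | refl => exact ⟨x, hu, SimpleGraph.Reachable.refl _⟩
  | @tail b c _ hbc ih =>
    obtain ⟨y, hy, hr⟩ := ih
    rw [adj_iff] at hbc
    obtain ⟨y0, hy0⟩ : ∃ y0 : conjugatesOf d,
        (QuotientGroup.mk (y0 : G) : G ⧸ Z) = (c : G ⧸ Z) := by
      have hc := c.2
      rw [mem_conj_iff] at hc
      obtain ⟨q, hq⟩ := hc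
      obtain ⟨g, rfl⟩ := QuotientGroup.mk_surjective q
      refine ⟨⟨g * d * g⁻¹, conj_mem_conj d g d mem_conjugatesOf_self⟩, ?_⟩
      show (QuotientGroup.mk (g * d * g⁻¹) : G ⧸ Z) = (c : G ⧸ Z)
      rw [QuotientGroup.mk_mul, QuotientGroup.mk_mul, QuotientGroup.mk_inv]
      exact hq
    have hcomm : (QuotientGroup.mk ((y : G) * (y0 : G)) : G ⧸ Z)
        = QuotientGroup.mk ((y0 : G) * (y : G)) := by
      rw [QuotientGroup.mk_mul, QuotientGroup.mk_mul, hy, hy0]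
      exact hbc.2.eq
    obtain ⟨y', hy', hr'⟩ := lift_edge_aux Z d m hm hZm hDsq hDinv y y0 hcomm
    exact ⟨y', hy'.trans hy0, hr.trans hr'⟩

theorem main {G : Type*} [Group G] (Z : Subgroup G) [Z.Normal] (L : Subgroup G) (d : G)
    (hdd : d * d = 1) (hgen : L ⊔ Subgroup.zpowers d = ⊤)
    (m : ℕ) (hm : Odd m) (hZm : ∀ z ∈ Z, z ^ m = 1)
    (hinv : ∀ c ∈ Z, d * c * d⁻¹ = c⁻¹)
    (hZL : ∀ c ∈ Z, ∀ l ∈ L, Commute c l) (hZle : Z ≤ L) (hperf : L ≤ ⁅L, L⁆)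
    (hconn : (Cfsg.commutingGraph (conjugatesOf (QuotientGroup.mk d : G ⧸ Z))).Connected) :
    (Cfsg.commutingGraph (conjugatesOf d)).Connected := by
  classical
  have hDsq : ∀ x ∈ conjugatesOf d, x * x = 1 := by
    intro x hx
    rw [mem_conj_iff] at hx
    obtain ⟨g, rfl⟩ := hx
    have e : g * d * g⁻¹ * (g * d * g⁻¹) = g * (d * d) * g⁻¹ := by group
    rw [e, hdd]; group
  have hdi : d⁻¹ = d := inv_eq_of_mul_eq_one_left hdd
  have hDinv : ∀ x ∈ conjugatesOf d, ∀ c ∈ Z, x * c * x = c⁻¹ := by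
    intro x hx c hc
    rw [mem_conj_iff] at hx
    obtain ⟨g, rfl⟩ := hx
    have hc' : g⁻¹ * c * g ∈ Z := by
      have h0 := Subgroup.Normal.conj_mem ‹Z.Normal› c hc g⁻¹
      simpa using h0
    have h1 := hinv _ hc'
    rw [hdi] at h1
    have e : g * d * g⁻¹ * c * (g * d * g⁻¹) = g * (d * (g⁻¹ * c * g) * d) * g⁻¹ := by group
    rw [e, h1]; group
  have hd0 : d ∈ conjugatesOf d := mem_conjugatesOf_self
  obtain ⟨N, hN⟩ : ∃ N : Subgroup G, ∀ g : G, g ∈ N ↔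
      ∃ y : conjugatesOf d, (y : G) = g * d * g⁻¹ ∧
        (Cfsg.commutingGraph (conjugatesOf d)).Reachable ⟨d, hd0⟩ y := by
    refine ⟨{ carrier := {g | ∃ y : conjugatesOf d, (y : G) = g * d * g⁻¹ ∧
                (Cfsg.commutingGraph (conjugatesOf d)).Reachable ⟨d, hd0⟩ y}
              mul_mem' := ?_
              one_mem' := ?_
              inv_mem' := ?_ }, fun g => Iff.rfl⟩
    · rintro g h ⟨y1, e1, r1⟩ ⟨y2, e2, r2⟩
      refine ⟨⟨g * (y2 : G) * g⁻¹, conj_mem_conj d g y2 y2.2⟩, ?_, ?_⟩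
      · show g * (y2 : G) * g⁻¹ = g * h * d * (g * h)⁻¹
        rw [e2]; group
      · exact r1.trans (reach_conj d g ⟨d, hd0⟩ y2 y1 _ r2 e1 rfl)
    · refine ⟨⟨d, hd0⟩, ?_, SimpleGraph.Reachable.refl _⟩
      show d = 1 * d * 1⁻¹
      group
    · rintro g ⟨y, e, r⟩
      refine ⟨⟨g⁻¹ * d * g⁻¹⁻¹, conj_mem_conj d g⁻¹ d hd0⟩, rfl, ?_⟩
      refine (reach_conj d g⁻¹ ⟨d, hd0⟩ y _ ⟨d, hd0⟩ r rfl ?_).symm
      show d = g⁻¹ * (y : G) * g⁻¹⁻¹
      rw [e]; group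
  have hcoset : ∀ g : G, ∃ w ∈ Z, w * g ∈ N := by
    intro g
    have hmem : (QuotientGroup.mk (g * d * g⁻¹) : G ⧸ Z) ∈ conjugatesOf (QuotientGroup.mk d : G ⧸ Z) := by
      rw [mem_conj_iff]
      exact ⟨QuotientGroup.mk g, rfl⟩
    have hr := hconn.preconnected ⟨QuotientGroup.mk d, mem_conjugatesOf_self⟩
      ⟨QuotientGroup.mk (g * d * g⁻¹), hmem⟩
    obtain ⟨y, hy, hry⟩ := lift_reach Z d m hm hZm hDsq hDinv ⟨d, hd0⟩ _ _ rfl hr
    have hy' : (QuotientGroup.mk (g * d * g⁻¹) : G ⧸ Z) = QuotientGroup.mk (y : G) := hy.symm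
    have hz : (g * d * g⁻¹)⁻¹ * (y : G) ∈ Z := QuotientGroup.eq.mp hy'
    obtain ⟨t, ht, htt⟩ := exists_sq_root Z m hm hZm _ hz
    refine ⟨t⁻¹, Z.inv_mem ht, (hN _).mpr ⟨y, ?_, hry⟩⟩
    have ha := hDinv (g * d * g⁻¹) (conj_mem_conj d g d hd0) t ht
    have haa := hDsq (g * d * g⁻¹) (conj_mem_conj d g d hd0)
    have e1 : t⁻¹ * (g * d * g⁻¹) = (g * d * g⁻¹) * t := inv_mul_of_invert _ _ haa ha
    have e2 : t⁻¹ * g * d * (t⁻¹ * g)⁻¹ = (t⁻¹ * (g * d * g⁻¹)) * t := by group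
    rw [e2, e1, mul_assoc, htt]
    group
  have hLN : L ≤ N := by
    refine hperf.trans ?_
    rw [Subgroup.commutator_le]
    intro l1 h1 l2 h2
    obtain ⟨w1, hw1, hn1⟩ := hcoset l1
    obtain ⟨w2, hw2, hn2⟩ := hcoset l2
    have e := comm_central w1 w2 l1 l2 (hZL w1 hw1 l1 h1) (hZL w1 hw1 l2 h2)
      (hZL w1 hw1 w2 (hZle hw2)) (hZL w2 hw2 l1 h1) (hZL w2 hw2 l2 h2)
    rw [← e, commutatorElement_def]
    exact N.mul_mem (N.mul_mem (N.mul_mem hn1 hn2) (N.inv_mem hn1)) (N.inv_mem hn2)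
  have hdN : d ∈ N := by
    refine (hN d).mpr ⟨⟨d, hd0⟩, ?_, SimpleGraph.Reachable.refl _⟩
    show d = d * d * d⁻¹
    group
  have hNtop : N = ⊤ := by
    rw [eq_top_iff, ← hgen]
    exact sup_le hLN (by rw [Subgroup.zpowers_le]; exact hdN)
  rw [SimpleGraph.connected_iff_exists_forall_reachable]
  refine ⟨⟨d, hd0⟩, ?_⟩
  intro u
  have hu := u.2
  rw [mem_conj_iff] at hu
  obtain ⟨g, hg⟩ := hu
  have hgN : g ∈ N := by rw [hNtop]; exact Subgroup.mem_top g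
  obtain ⟨y, e, r⟩ := (hN g).mp hgN
  have hyu : y = u := Subtype.ext (e.trans hg)
  rw [← hyu]; exact r

end Cfsg.Agent.Lib_lead_CommGraphLift
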