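import Mathlib
import Cfsg.Prelude.Def_SporadicCombinatorics
import Cfsg.Agent.Lib_lead_Sextet
import Cfsg.Agent.Lib_lead_Leech

/-! Coset leaders of the length-24 code. -/

set_option autoImplicit false

namespace Cfsg.Agent.Lib_lead_Coset

open Cfsg Cfsg.Agent.Lib_lead_Golay Cfsg.Agent.Lib_lead_GolayPerm Cfsg.Agent.Lib_lead_M24
  Cfsg.Agent.Lib_lead_M24Chain Cfsg.Agent.Lib_lead_M24Orb Cfsg.Agent.Lib_lead_ObjOrb
  Cfsg.Agent.Lib_lead_M24Data Cfsg.Agent.Lib_lead_Sextet Cfsg.Agent.Lib_lead_Leech
  Cfsg.Agent.Lib_lead_OctSub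
open scoped Pointwise

theorem card_code : Nat.card golayCode = 4096 := by
  have h : Nat.card golayCode = Nat.card (Fin 4096) := by
    apply Nat.card_congr
    exact (Equiv.ofBijective
      (fun k : Fin 4096 => (⟨W k.val, W_mem k.val⟩ : golayCode))
      ⟨fun a b h => Fin.ext (W_injOn a.2 b.2 (congrArg Subtype.val h)), fun ⟨w, hw⟩ => by
        obtain ⟨k, hk, rfl⟩ := (mem_iff w).mp hw
        exact ⟨⟨k, hk⟩, rfl⟩⟩).symm
  rw [h, Nat.card_fin]

theorem wt_ge {c : GolayPt → ZMod 2} (hc : c ∈ golayCode) (h0 : c ≠ 0) : 8 ≤ hammingNorm c := by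
  obtain ⟨k, hk, rfl⟩ := (mem_iff c).mp hc
  have hne : hammingNorm (W k) ≠ 0 := fun h => h0 (hammingNorm_eq_zero.mp h)
  rw [hammingNorm_W] at hne ⊢
  rcases weights k hk with h | h | h | h | h <;> omega

theorem sub_eq_add₂ (v v' : GolayPt → ZMod 2) : v - v' = v + v' := by
  funext p
  have key : ∀ a b : ZMod 2, a - b = a + b := by decide
  exact key _ _

/-- two distinct words of weight at most 4 in one coset have weight 4, disjoint supports, and the
union of the supports is an octad -/
theorem light_pair {v v' : GolayPt → ZMod 2} (hv : hammingNorm v ≤ 4) (hv' : hammingNorm v' ≤ 4)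
    (hc : v - v' ∈ golayCode) (hne : v ≠ v') :
    hammingNorm v = 4 ∧ hammingNorm v' = 4 ∧ Disjoint (support₂ v) (support₂ v') ∧
      support₂ v ∪ support₂ v' ∈ octads := by
  have h8 := wt_ge hc (sub_ne_zero.mpr hne)
  rw [sub_eq_add₂] at hc h8
  rw [← card_support₂, support₂_add] at h8
  have h1 := card_symmDiff_add (support₂ v) (support₂ v')
  rw [← card_support₂] at hv hv' ⊢
  rw [← card_support₂]
  have h0 : (support₂ v ∩ support₂ v').card = 0 := by omega
  have hd : Disjoint (support₂ v) (support₂ v') :=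
    Finset.disjoint_iff_inter_eq_empty.mpr (Finset.card_eq_zero.mp h0)
  refine ⟨by omega, by omega, hd, ?_⟩
  have h2 : symmDiff (support₂ v) (support₂ v') = support₂ v ∪ support₂ v' :=
    Disjoint.symmDiff_eq_sup hd
  rw [← h2]
  exact ⟨⟨v + v', hc, support₂_add v v'⟩, by omega⟩

/-- the word with a given support -/
def ind (s : Finset GolayPt) : GolayPt → ZMod 2 := fun p => if p ∈ s then 1 else 0

theorem support_ind (s : Finset GolayPt) : support₂ (ind s) = s := by
  ext p
  simp [support₂, ind]

theorem ind_support (v : GolayPt → ZMod 2) : ind (support₂ v) = v :=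
  support₂_injective (support_ind _)

theorem ind_injective : Function.Injective ind := by
  intro s t h
  rw [← support_ind s, ← support_ind t, h]

theorem wt_ind (s : Finset GolayPt) : hammingNorm (ind s) = s.card := by
  rw [← card_support₂, support_ind]

/-- the index set: sets of at most 3 points, and sets of 4 points containing the point 0 -/
def IF : Finset (Finset GolayPt) :=
  ((Finset.range 4).biUnion (fun k => Finset.powersetCard k Finset.univ)) ∪
    ((Finset.powersetCard 3 ((Finset.univ : Finset GolayPt).erase (ptN 0))).image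
      (insert (ptN 0)))

theorem mem_IF {s : Finset GolayPt} (hs : s ∈ IF) : s.card ≤ 4 ∧ (s.card = 4 → ptN 0 ∈ s) := by
  unfold IF at hs
  rw [Finset.mem_union, Finset.mem_biUnion, Finset.mem_image] at hs
  rcases hs with ⟨k, hk, hs⟩ | ⟨u, hu, rfl⟩
  · rw [Finset.mem_range] at hk
    rw [Finset.mem_powersetCard] at hs
    exact ⟨by omega, fun h => by omega⟩
  · rw [Finset.mem_powersetCard] at hu
    have hnot : ptN 0 ∉ u := fun h => (Finset.mem_erase.mp (hu.1 h)).1 rfl
    exact ⟨by rw [Finset.card_insert_of_notMem hnot]; omega, fun _ => Finset.mem_insert_self _ _⟩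

theorem card_IF : IF.card = 4096 := by
  unfold IF
  have h24 : (Finset.univ : Finset GolayPt).card = 24 := by
    rw [Finset.card_univ]
    decide
  rw [Finset.card_union_of_disjoint, Finset.card_biUnion, Finset.card_image_of_injOn]
  · simp only [Finset.card_powersetCard, Finset.card_erase_of_mem (Finset.mem_univ _), h24]
    decide
  · intro a ha b hb hab
    rw [Finset.mem_coe, Finset.mem_powersetCard] at ha hb
    have hna : ptN 0 ∉ a := fun h => (Finset.mem_erase.mp (ha.1 h)).1 rfl
    have hnb : ptN 0 ∉ b := fun h => (Finset.mem_erase.mp (hb.1 h)).1 rfl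
    have h1 : (insert (ptN 0) a).erase (ptN 0) = (insert (ptN 0) b).erase (ptN 0) := by
      rw [hab]
    rwa [Finset.erase_insert hna, Finset.erase_insert hnb] at h1
  · intro i _ j _ hij
    exact Finset.pairwise_disjoint_powersetCard _ hij
  · rw [Finset.disjoint_left]
    intro s hs hs'
    rw [Finset.mem_biUnion] at hs
    obtain ⟨k, hk, hs⟩ := hs
    rw [Finset.mem_range] at hk
    rw [Finset.mem_powersetCard] at hs
    rw [Finset.mem_image] at hs'
    obtain ⟨u, hu, rfl⟩ := hs'
    rw [Finset.mem_powersetCard] at hu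
    have hnot : ptN 0 ∉ u := fun h => (Finset.mem_erase.mp (hu.1 h)).1 rfl
    rw [Finset.card_insert_of_notMem hnot] at hs
    omega

/-- every coset of the code contains a word of weight at most 4 -/
theorem exists_light (w : GolayPt → ZMod 2) :
    ∃ v : GolayPt → ZMod 2, hammingNorm v ≤ 4 ∧ w - v ∈ golayCode := by
  have hQ : Nat.card ((GolayPt → ZMod 2) ⧸ golayCode.toAddSubgroup) = 4096 := by
    have h := AddSubgroup.card_eq_card_quotient_mul_card_addSubgroup golayCode.toAddSubgroup
    have hV : Nat.card (GolayPt → ZMod 2) = 2 ^ 24 := by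
      rw [Nat.card_fun, Nat.card_zmod, Nat.card_eq_fintype_card]
      rfl
    have hC : Nat.card golayCode.toAddSubgroup = 4096 := card_code
    rw [hV, hC] at h
    omega
  have hinj : Function.Injective (fun s : ↥IF =>
      (QuotientAddGroup.mk (ind s.1) : (GolayPt → ZMod 2) ⧸ golayCode.toAddSubgroup)) := by
    intro s t h
    apply Subtype.ext
    by_contra hne
    have h1 : ind t.1 - ind s.1 ∈ golayCode := by
      have := QuotientAddGroup.eq.mp h
      rwa [neg_add_eq_sub] at this
    have hs := mem_IF s.2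
    have ht := mem_IF t.2
    obtain ⟨h4t, h4s, hd, -⟩ := light_pair (by rw [wt_ind]; exact ht.1)
      (by rw [wt_ind]; exact hs.1) h1 (fun h => hne (ind_injective h).symm)
    rw [wt_ind] at h4t h4s
    rw [support_ind, support_ind] at hd
    exact Finset.disjoint_left.mp hd (ht.2 h4t) (hs.2 h4s)
  have hbij := hinj.bijective_of_nat_card_le
    (by rw [hQ, Nat.card_eq_fintype_card, Fintype.card_coe, card_IF])
  obtain ⟨s, hs⟩ := hbij.2 (QuotientAddGroup.mk w)
  refine ⟨ind s.1, by rw [wt_ind]; exact (mem_IF s.2).1, ?_⟩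
  have := QuotientAddGroup.eq.mp hs
  rwa [neg_add_eq_sub] at this

end Cfsg.Agent.Lib_lead_Coset
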