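import Mathlib
import Cfsg.Prelude.Def_SporadicCombinatorics
import Cfsg.Agent.Lib_lead_Sextet
import Cfsg.Agent.Lib_lead_Coset

/-! Coset leaders of the length-24 code: one word of weight at most 3, or six of weight 4. -/

set_option autoImplicit false

namespace Cfsg.Agent.Lib_lead_Coset2

open Cfsg Cfsg.Agent.Lib_lead_Golay Cfsg.Agent.Lib_lead_GolayPerm Cfsg.Agent.Lib_lead_M24
  Cfsg.Agent.Lib_lead_M24Chain Cfsg.Agent.Lib_lead_M24Orb Cfsg.Agent.Lib_lead_ObjOrb
  Cfsg.Agent.Lib_lead_M24Data Cfsg.Agent.Lib_lead_Sextet Cfsg.Agent.Lib_lead_Leech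
  Cfsg.Agent.Lib_lead_OctSub Cfsg.Agent.Lib_lead_Coset
open scoped Pointwise

theorem base_mem (u : Finset GolayPt) (hu4 : u.card = 4) (hoct : fsOf 101 ∪ u ∈ octads) :
    u ∈ fin root0 := by
  rw [mem_fin]
  have h8 : (fsOf 101 ∪ u).card = 8 := card_octad hoct
  have h101 : (fsOf 101).card = 4 := by
    rw [card_fsOf _ (by norm_num)]
    decide
  have hdisj : Disjoint (fsOf 101) u := by
    rw [← Finset.card_union_eq_card_add_card, h8, h101, hu4]
  obtain ⟨k, hk, hp, hek⟩ := weight_eq hoct
  have hsub : M k &&& 101 = 101 := by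
    have h1 : fsOf 101 ⊆ fsOf (M k) := by
      rw [← hek]
      exact Finset.subset_union_left
    have h2 : fsOf (M k) ∩ fsOf 101 = fsOf 101 := Finset.inter_eq_right.mpr h1
    rw [fsOf_inter] at h2
    exact fsOf_injOn (lt_of_le_of_lt Nat.and_le_right (by norm_num)) (by norm_num) h2
  have hu_eq : u = fsOf (M k &&& (16777215 ^^^ 101)) := by
    rw [← fsOf_inter, ← fsOf_compl, ← hek, Finset.union_inter_distrib_right,
      Finset.inter_compl, Finset.empty_union]
    exact (Finset.inter_eq_left.mpr (fun x hx => Finset.mem_compl.mpr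
      (fun h => Finset.disjoint_left.mp hdisj h hx))).symm
  exact ⟨_, oct5 k hk hp hsub, hu_eq.symm⟩

/-- a tetrad whose union with a tetrad of a sextet is an octad belongs to the sextet -/
theorem mem_of_octad {S : Fam} (hS : S ∈ sextets) {t u : Finset GolayPt} (ht : t ∈ S)
    (hu : u.card = 4) (ho : t ∪ u ∈ octads) : u ∈ S := by
  have ht4 := hS.2.1 t ht
  obtain ⟨g, hg, rfl⟩ := tetrad_orbit t ht4
  have hS' : S = g • fin root0 := (sextet_unique (g • fsOf 101) ht4).unique ⟨hS, ht⟩
    ⟨smul_sextet hg root0_mem,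
      Finset.smul_mem_smul_finset (by rw [mem_fin]; exact ⟨101, by decide, rfl⟩)⟩
  rw [hS']
  have h1 : g⁻¹ • u ∈ fin root0 := by
    apply base_mem
    · rw [Finset.card_smul_finset]
      exact hu
    · have := smul_mem_weight (M24.inv_mem hg) ho
      rwa [Finset.smul_finset_union, inv_smul_smul] at this
  have := Finset.smul_mem_smul_finset (a := g) h1
  rwa [smul_inv_smul] at this

theorem coset_leaders (w : GolayPt → ZMod 2) :
    ({v : GolayPt → ZMod 2 | hammingNorm v ≤ 4 ∧ w - v ∈ golayCode}.ncard = 1 ∧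
      ∃ v : GolayPt → ZMod 2, hammingNorm v ≤ 3 ∧ w - v ∈ golayCode) ∨
    ({v : GolayPt → ZMod 2 | hammingNorm v ≤ 4 ∧ w - v ∈ golayCode}.ncard = 6 ∧
      ∀ v : GolayPt → ZMod 2, w - v ∈ golayCode → hammingNorm v ≤ 4 → hammingNorm v = 4) := by
  obtain ⟨v0, hv0, hc0⟩ := exists_light w
  have hsub : ∀ v : GolayPt → ZMod 2, w - v ∈ golayCode → v - v0 ∈ golayCode := by
    intro v hv
    have := golayCode.sub_mem hc0 hv
    rwa [sub_sub_sub_cancel_left] at this
  by_cases h3 : hammingNorm v0 ≤ 3
  · left
    refine ⟨?_, v0, h3, hc0⟩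
    have : {v : GolayPt → ZMod 2 | hammingNorm v ≤ 4 ∧ w - v ∈ golayCode} = {v0} := by
      ext v
      simp only [Set.mem_setOf_eq, Set.mem_singleton_iff]
      constructor
      · rintro ⟨hv, hc⟩
        by_contra hne
        have := (light_pair hv hv0 (hsub v hc) hne).2.1
        omega
      · rintro rfl
        exact ⟨hv0, hc0⟩
    rw [this, Set.ncard_singleton]
  · right
    have h4 : hammingNorm v0 = 4 := by omega
    have key : ∀ v : GolayPt → ZMod 2, w - v ∈ golayCode → hammingNorm v ≤ 4 → v ≠ v0 →
        hammingNorm v = 4 ∧ Disjoint (support₂ v) (support₂ v0) ∧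
          support₂ v ∪ support₂ v0 ∈ octads := fun v hc hv hne => by
      obtain ⟨a, -, b, c⟩ := light_pair hv hv0 (hsub v hc) hne
      exact ⟨a, b, c⟩
    refine ⟨?_, fun v hc hv => ?_⟩
    · have ht4 : (support₂ v0).card = 4 := by
        rw [card_support₂]
        exact h4
      obtain ⟨S, ⟨hS, ht0⟩, -⟩ := sextet_unique (support₂ v0) ht4
      have : {v : GolayPt → ZMod 2 | hammingNorm v ≤ 4 ∧ w - v ∈ golayCode}
          = ind '' (↑S : Set (Finset GolayPt)) := by
        ext v
        simp only [Set.mem_setOf_eq, Set.mem_image, Finset.mem_coe]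
        constructor
        · rintro ⟨hv, hc⟩
          refine ⟨support₂ v, ?_, ind_support v⟩
          by_cases hne : v = v0
          · rw [hne]
            exact ht0
          · obtain ⟨hv4, hd, ho⟩ := key v hc hv hne
            apply mem_of_octad hS ht0 (by rw [card_support₂]; exact hv4)
            rw [Finset.union_comm]
            exact ho
        · rintro ⟨t, ht, rfl⟩
          refine ⟨by rw [wt_ind, hS.2.1 t ht], ?_⟩
          by_cases hne : t = support₂ v0
          · rw [hne, ind_support]
            exact hc0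
          · have ho := hS.2.2 (support₂ v0) ht0 t ht (Ne.symm hne)
            obtain ⟨c, hcC, hcs⟩ := ho.1
            have hdisj : Disjoint (support₂ v0) t := by
              rw [← Finset.card_union_eq_card_add_card, ho.2, ht4, hS.2.1 t ht]
            have hce : c = v0 + ind t := by
              apply support₂_injective
              rw [hcs, support₂_add, support_ind, Disjoint.symmDiff_eq_sup hdisj]
              rfl
            have h5 : w - ind t = (w - v0) + c := by
              rw [hce, ← sub_eq_add₂ v0 (ind t)]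
              abel
            rw [h5]
            exact golayCode.add_mem hc0 hcC
      rw [this, Set.ncard_image_of_injective _ ind_injective, Set.ncard_coe_finset, hS.1]
    · by_cases hne : v = v0
      · rw [hne]
        exact h4
      · exact (key v hc hv hne).1

end Cfsg.Agent.Lib_lead_Coset2
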