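import Mathlib
import Cfsg.Prelude.Def_Sporadic_a
import Cfsg.Agent.Lib_lead_Golay
import Cfsg.Agent.Lib_lead_GolayPerm
import Cfsg.Agent.Lib_lead_M24
import Cfsg.Agent.Lib_lead_M24Data
import Cfsg.Agent.Lib_lead_M24Chain

/-! The code modulo the all-ones word is an irreducible module for the group of the code. -/

set_option autoImplicit false

namespace Cfsg.Agent.Lib_lead_Irred

open Cfsg Cfsg.Agent.Lib_lead_Golay Cfsg.Agent.Lib_lead_GolayPerm Cfsg.Agent.Lib_lead_M24
  Cfsg.Agent.Lib_lead_M24Chain Cfsg.Agent.Lib_lead_M24Data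
open scoped Pointwise

theorem one_mem : (1 : GolayPt → ZMod 2) ∈ golayCode :=
  Submodule.subset_span (Or.inr rfl)

theorem qr_wt : ∀ t : ZMod 23, popc (qmask t.val) = 12 := by decide

theorem popc0 : ∀ k < 4096, popc (M k) = 0 → M k = 0 :=
  forall_of_card_filter (by decide +kernel)

theorem w16 : ∀ k < 4096, popc (M k) = 16 → popc (M k ^^^ 16777215) = 8 :=
  forall_of_card_filter (by decide +kernel)

theorem w24 : ∀ k < 4096, popc (M k) = 24 → M k = 16777215 :=
  forall_of_card_filter (by decide +kernel)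

/-- a nontrivial codeword or its complement is an octad or a dodecad -/
theorem weight_cases (w : GolayPt → ZMod 2) (hw : w ∈ golayCode) (h0 : w ≠ 0) (h1 : w ≠ 1) :
    support₂ w ∈ octads ∨ support₂ w ∈ dodecads ∨ support₂ (w + 1) ∈ octads := by
  obtain ⟨k, hk, rfl⟩ := (mem_iff w).mp hw
  rcases weights k hk with h | h | h | h | h
  · exfalso
    apply h0
    apply enc_injective
    rw [enc_W, popc0 k hk h, enc_zero]
  · left
    exact ⟨⟨W k, W_mem k, rfl⟩, by rw [card_support₂, hammingNorm_W]; exact h⟩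
  · right; left
    exact ⟨⟨W k, W_mem k, rfl⟩, by rw [card_support₂, hammingNorm_W]; exact h⟩
  · right; right
    refine ⟨⟨W k + 1, golayCode.add_mem (W_mem k) one_mem, rfl⟩, ?_⟩
    rw [card_support₂, hammingNorm_eq, enc_add, enc_W, enc_one]
    exact w16 k hk h
  · exfalso
    apply h1
    apply enc_injective
    rw [enc_W, enc_one]
    exact w24 k hk h

variable (U : Submodule (ZMod 2) (GolayPt → ZMod 2))

theorem of_dodecad (h1 : (1 : GolayPt → ZMod 2) ∈ U)
    (hinv : ∀ σ ∈ M24, ∀ w ∈ U, (fun p => w (σ.symm p)) ∈ U) (v : GolayPt → ZMod 2)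
    (hv : v ∈ U) (hd : support₂ v ∈ dodecads) : golayCode ≤ U := by
  apply Submodule.span_le.mpr
  rintro x (⟨t, rfl⟩ | hx)
  · have hq : support₂ (qrWord t) ∈ dodecads :=
      ⟨⟨qrWord t, Submodule.subset_span (Or.inl ⟨t, rfl⟩), rfl⟩, by
        rw [card_support₂, hammingNorm_eq, enc_qr]
        exact qr_wt t⟩
    obtain ⟨g, hg⟩ := dodecads_trans _ _ hd hq
    have h2 := hinv g.1 g.2 v hv
    have he : (fun p => v ((g : Equiv.Perm GolayPt).symm p)) = qrWord t :=
      support₂_injective (by rw [support₂_comp]; exact hg)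
    rw [← he]
    exact h2
  · rw [Set.mem_singleton_iff] at hx
    rw [hx]
    exact h1

theorem of_octad (hinv : ∀ σ ∈ M24, ∀ w ∈ U, (fun p => w (σ.symm p)) ∈ U)
    (v : GolayPt → ZMod 2) (hv : v ∈ U) (ho : support₂ v ∈ octads) :
    ∃ v' ∈ U, support₂ v' ∈ dodecads := by
  have key : ∀ k, popc (M k) = 8 → W k ∈ U := by
    intro k hk
    obtain ⟨g, hg⟩ := octads_trans _ _ ho (fsOf_mem_weight k 8 hk)
    have h2 := hinv g.1 g.2 v hv
    have he : (fun p => v ((g : Equiv.Perm GolayPt).symm p)) = W k :=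
      support₂_injective (by rw [support₂_comp, support₂_eq (W k), enc_W]; exact hg)
    rw [← he]
    exact h2
  refine ⟨W 15 + W 19, U.add_mem (key 15 (by decide +kernel)) (key 19 (by decide +kernel)),
    ⟨⟨_, golayCode.add_mem (W_mem 15) (W_mem 19), rfl⟩, ?_⟩⟩
  rw [card_support₂, hammingNorm_eq, enc_add, enc_W, enc_W]
  decide +kernel

theorem irred : (fun _ : GolayPt => (1 : ZMod 2)) ∈ golayCode ∧
    ∀ W : Submodule (ZMod 2) (GolayPt → ZMod 2), (fun _ => (1 : ZMod 2)) ∈ W →
      W ≤ golayCode → (∀ σ ∈ M24, ∀ w ∈ W, (fun p => w (σ.symm p)) ∈ W) →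
      W = Submodule.span (ZMod 2) {fun _ => (1 : ZMod 2)} ∨ W = golayCode := by
  refine ⟨one_mem, ?_⟩
  intro U h1 hU hinv
  by_cases h : ∃ w ∈ U, w ≠ 0 ∧ w ≠ 1
  · right
    obtain ⟨w, hw, h0, hw1⟩ := h
    apply le_antisymm hU
    rcases weight_cases w (hU hw) h0 hw1 with ho | hd | ho
    · obtain ⟨v', hv', hd'⟩ := of_octad U hinv w hw ho
      exact of_dodecad U h1 hinv v' hv' hd'
    · exact of_dodecad U h1 hinv w hw hd
    · obtain ⟨v', hv', hd'⟩ := of_octad U hinv (w + 1) (U.add_mem hw h1) ho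
      exact of_dodecad U h1 hinv v' hv' hd'
  · left
    apply le_antisymm
    · intro w hw
      by_cases h0 : w = 0
      · rw [h0]
        exact Submodule.zero_mem _
      · have hw1 : w = 1 := by
          by_contra hne
          exact h ⟨w, hw, h0, hne⟩
        rw [hw1]
        exact Submodule.subset_span rfl
    · rw [Submodule.span_le]
      rintro x hx
      rw [Set.mem_singleton_iff] at hx
      rw [hx]
      exact h1

end Cfsg.Agent.Lib_lead_Irred
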