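import Mathlib
import Cfsg.Prelude.Def_SporadicCombinatorics
import Cfsg.Agent.Lib_lead_Coset2
import Cfsg.Agent.Lib_lead_Irred
import Cfsg.Agent.Lib_lead_M24Trans
import Cfsg.Agent.Lib_lead_M12Thm2
import Cfsg.Agent.Lib_lead_SixSet
import Cfsg.Agent.Lib_lead_DodPair
import Cfsg.Agent.Lib_lead_OctConfig

/-! The stabilizer of a codeword of the length-24 code fixes no nonzero coset of the code. -/

set_option autoImplicit false

namespace Cfsg.Agent.Lib_lead_CosetFix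

open Cfsg Cfsg.Agent.Lib_lead_Golay Cfsg.Agent.Lib_lead_GolayPerm Cfsg.Agent.Lib_lead_M24
  Cfsg.Agent.Lib_lead_M24Chain Cfsg.Agent.Lib_lead_M24Orb Cfsg.Agent.Lib_lead_ObjOrb
  Cfsg.Agent.Lib_lead_M24Data Cfsg.Agent.Lib_lead_Sextet Cfsg.Agent.Lib_lead_Leech
  Cfsg.Agent.Lib_lead_OctSub Cfsg.Agent.Lib_lead_Coset Cfsg.Agent.Lib_lead_Coset2
  Cfsg.Agent.Lib_lead_Irred Cfsg.Agent.Lib_lead_M24Trans Cfsg.Agent.Lib_lead_M12Thm
  Cfsg.Agent.Lib_lead_M12Thm2 Cfsg.Agent.Lib_lead_SixSet Cfsg.Agent.Lib_lead_DodPair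
  Cfsg.Agent.Lib_lead_OctConfig
open scoped Pointwise

theorem act_mem {σ : Equiv.Perm GolayPt} (hσ : σ ∈ M24) {c : GolayPt → ZMod 2}
    (hc : c ∈ golayCode) : (fun p => c (σ.symm p)) ∈ golayCode := by
  obtain ⟨w, hw, hws⟩ := smul_mem_supports hσ (b := support₂ c) ⟨c, hc, rfl⟩
  have : w = fun p => c (σ.symm p) := support₂_injective (by rw [hws, support₂_comp])
  rw [← this]
  exact hw

theorem sext_disj {S : Fam} (hS : S ∈ sextets) {t u : Finset GolayPt} (ht : t ∈ S) (hu : u ∈ S)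
    (hne : t ≠ u) : Disjoint t u := by
  have h8 : (t ∪ u).card = 8 := card_octad (hS.2.2 t ht u hu hne)
  rw [← Finset.card_union_eq_card_add_card, h8, hS.2.1 t ht, hS.2.1 u hu]

theorem sext_cover {S : Fam} (hS : S ∈ sextets) (p : GolayPt) : ∃ t ∈ S, p ∈ t := by
  have hc : (S.biUnion id).card = 24 := by
    rw [Finset.card_biUnion (t := id) (fun t ht u hu hne => sext_disj hS ht hu hne)]
    show ∑ t ∈ S, t.card = 24
    rw [Finset.sum_congr rfl (fun t ht => hS.2.1 t ht), Finset.sum_const, hS.1]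
    rfl
  have hu : S.biUnion id = Finset.univ := Finset.eq_univ_of_card _ (by rw [hc, card24])
  have hp : p ∈ S.biUnion id := hu ▸ Finset.mem_univ p
  rw [Finset.mem_biUnion] at hp
  exact hp

theorem same_tetrad {S : Fam} (hS : S ∈ sextets) (D : Finset GolayPt) (hD : 7 ≤ D.card) :
    ∃ t ∈ S, ∃ a ∈ D, ∃ b ∈ D, a ≠ b ∧ a ∈ t ∧ b ∈ t := by
  choose f hf hpf using sext_cover hS
  obtain ⟨a, ha, b, hb, hne, hab⟩ := Finset.exists_ne_map_eq_of_card_lt_of_maps_to
    (s := D) (t := S) (f := f) (by rw [hS.1]; omega) (fun p _ => hf p)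
  exact ⟨f a, hf a, a, ha, b, hb, hne, hpf a, hab ▸ hpf b⟩

theorem moves_small (H : Equiv.Perm GolayPt → Prop) (D : Finset GolayPt) (hD : 7 ≤ D.card)
    (h2 : ∀ x a c, x ∈ D → a ∈ D → c ∈ D → x ≠ a → x ≠ c → ∃ s, H s ∧ s x = x ∧ s a = c)
    (h1 : ∀ a c, a ∉ D → c ∉ D → ∃ s, H s ∧ s a = c)
    (hDc : D = Finset.univ ∨ D.card ≤ 20)
    (L : Finset GolayPt) (hL : L.Nonempty) (hL3 : L.card ≤ 3) : ∃ s, H s ∧ s • L ≠ L := by
  have key : ∀ (a c : GolayPt) (s : Equiv.Perm GolayPt), a ∈ L → c ∉ L → s a = c →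
      s • L ≠ L := by
    intro a c s ha hc hs h
    apply hc
    rw [← h, ← hs]
    exact Finset.smul_mem_smul_finset ha
  by_cases hLD : ∃ a ∈ L, a ∈ D
  · obtain ⟨a, haL, haD⟩ := hLD
    have h1' : (D \ L).Nonempty := by
      rw [← Finset.card_pos]
      have := Finset.le_card_sdiff L D
      omega
    obtain ⟨c, hc⟩ := h1'
    rw [Finset.mem_sdiff] at hc
    have h2' : (D \ {a, c}).Nonempty := by
      rw [← Finset.card_pos]
      have := Finset.le_card_sdiff {a, c} D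
      have : ({a, c} : Finset GolayPt).card ≤ 2 := Finset.card_le_two
      omega
    obtain ⟨x, hx⟩ := h2'
    rw [Finset.mem_sdiff, Finset.mem_insert, Finset.mem_singleton, not_or] at hx
    obtain ⟨s, hs, -, hsa⟩ := h2 x a c hx.1 haD hc.1 hx.2.1 hx.2.2
    exact ⟨s, hs, key a c s haL hc.2 hsa⟩
  · have hLD' : ∀ a ∈ L, a ∉ D := fun a ha haD => hLD ⟨a, ha, haD⟩
    obtain ⟨a, haL⟩ := hL
    rcases hDc with hDu | hD20
    · exact absurd (hDu ▸ Finset.mem_univ a) (hLD' a haL)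
    · have h3 : (Dᶜ \ L).Nonempty := by
        rw [← Finset.card_pos]
        have := Finset.le_card_sdiff L Dᶜ
        have : Dᶜ.card = 24 - D.card := by rw [Finset.card_compl, card24]
        omega
      obtain ⟨c, hc⟩ := h3
      rw [Finset.mem_sdiff, Finset.mem_compl] at hc
      obtain ⟨s, hs, hsa⟩ := h1 a c (hLD' a haL) hc.1
      exact ⟨s, hs, key a c s haL hc.2 hsa⟩

theorem moves_sext (H : Equiv.Perm GolayPt → Prop) (D : Finset GolayPt) (hD : 7 ≤ D.card)
    (h2 : ∀ x a c, x ∈ D → a ∈ D → c ∈ D → x ≠ a → x ≠ c → ∃ s, H s ∧ s x = x ∧ s a = c)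
    (S : Fam) (hS : S ∈ sextets) : ∃ s, H s ∧ s • S ≠ S := by
  obtain ⟨t, ht, a, ha, b, hb, hab, hat, hbt⟩ := same_tetrad hS D hD
  have h1 : (D \ t).Nonempty := by
    rw [← Finset.card_pos]
    have := Finset.le_card_sdiff t D
    have := hS.2.1 t ht
    omega
  obtain ⟨c, hc⟩ := h1
  rw [Finset.mem_sdiff] at hc
  have hac : a ≠ c := fun h => hc.2 (h ▸ hat)
  obtain ⟨s, hs, hsa, hsb⟩ := h2 a b c ha hb hc.1 hab hac
  refine ⟨s, hs, fun h => ?_⟩
  have h3 : s • t ∈ S := by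
    have := Finset.smul_mem_smul_finset (a := s) ht
    rwa [h] at this
  have ha' : a ∈ s • t := by
    have := Finset.smul_mem_smul_finset (a := s) hat
    rwa [Equiv.Perm.smul_def, hsa] at this
  have hc' : c ∈ s • t := by
    have := Finset.smul_mem_smul_finset (a := s) hbt
    rwa [Equiv.Perm.smul_def, hsb] at this
  have heq : s • t = t := by
    by_contra hne
    exact Finset.disjoint_left.mp (sext_disj hS h3 ht hne) ha' hat
  exact hc.2 (heq ▸ hc')

theorem core (u : GolayPt → ZMod 2) (H : Equiv.Perm GolayPt → Prop)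
    (hH : ∀ s, H s → s ∈ M24 ∧ (fun p => u (s.symm p)) = u)
    (hm1 : ∀ L : Finset GolayPt, L.Nonempty → L.card ≤ 3 → ∃ s, H s ∧ s • L ≠ L)
    (hm2 : ∀ S ∈ sextets, ∃ s, H s ∧ s • S ≠ S)
    (w : GolayPt → ZMod 2) (hw : w ∉ golayCode) :
    ∃ σ ∈ M24, (fun p => u (σ.symm p)) = u ∧ (fun p => w (σ.symm p)) - w ∉ golayCode := by
  obtain ⟨v, hv4, hwv⟩ := exists_light w
  have hv0 : v ≠ 0 := by
    rintro rfl
    rw [sub_zero] at hwv
    exact hw hwv
  have red : ∀ σ ∈ M24, (fun p => w (σ.symm p)) - w ∈ golayCode →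
      (fun p => v (σ.symm p)) - v ∈ golayCode := by
    intro σ hσ h
    have h1 := act_mem hσ hwv
    have h2 := golayCode.add_mem (golayCode.sub_mem h h1) hwv
    have e : (fun p => v (σ.symm p)) - v
        = (fun p => w (σ.symm p)) - w - (fun p => (w - v) (σ.symm p)) + (w - v) := by
      funext p
      simp only [Pi.sub_apply, Pi.add_apply]
      ring
    rw [e]
    exact h2
  have hLne : (support₂ v).Nonempty := by
    rw [Finset.nonempty_iff_ne_empty]
    intro h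
    apply hv0
    apply support₂_injective
    rw [h]
    ext p
    simp [support₂]
  have hnorm : ∀ σ : Equiv.Perm GolayPt,
      hammingNorm (fun p => v (σ.symm p)) = hammingNorm v := by
    intro σ
    rw [← card_support₂, ← card_support₂, support₂_comp, Finset.card_smul_finset]
  by_cases h3 : hammingNorm v ≤ 3
  · obtain ⟨s, hs, hsL⟩ := hm1 (support₂ v) hLne (by rw [card_support₂]; exact h3)
    obtain ⟨hsM, hsu⟩ := hH s hs
    refine ⟨s, hsM, hsu, fun h => ?_⟩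
    have h1 := red s hsM h
    have hne : (fun p => v (s.symm p)) ≠ v := by
      intro e
      apply hsL
      rw [← support₂_comp, e]
    have := (light_pair (by rw [hnorm]; exact hv4) hv4 h1 hne).2.1
    omega
  · have h4 : hammingNorm v = 4 := by omega
    have ht4 : (support₂ v).card = 4 := by rw [card_support₂]; exact h4
    obtain ⟨S, ⟨hS, ht0⟩, -⟩ := sextet_unique (support₂ v) ht4
    obtain ⟨s, hs, hsS⟩ := hm2 S hS
    obtain ⟨hsM, hsu⟩ := hH s hs
    refine ⟨s, hsM, hsu, fun h => ?_⟩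
    have h1 := red s hsM h
    have hcard : (s • support₂ v).card = 4 := by rw [Finset.card_smul_finset]; exact ht4
    have hmem : s • support₂ v ∈ S := by
      by_cases e : (fun p => v (s.symm p)) = v
      · have : s • support₂ v = support₂ v := by rw [← support₂_comp, e]
        rw [this]
        exact ht0
      · obtain ⟨-, -, -, ho⟩ := light_pair (by rw [hnorm]; exact hv4) hv4 h1 e
        rw [support₂_comp] at ho
        apply mem_of_octad hS ht0 hcard
        rw [Finset.union_comm]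
        exact ho
    apply hsS
    exact (sextet_unique (s • support₂ v) hcard).unique
      ⟨smul_sextet hsM hS, Finset.smul_mem_smul_finset ht0⟩ ⟨hS, hmem⟩

theorem map_conj {g g' : Equiv.Perm GolayPt} {x0 x y : GolayPt} (h : g x0 = x) (h' : g' x0 = y) :
    (g' * g⁻¹) x = y := by
  rw [Equiv.Perm.mul_apply, ← h, Equiv.Perm.inv_def, Equiv.symm_apply_apply, h']

theorem smul_conj {g g' : Equiv.Perm GolayPt} {r o : Finset GolayPt} (h : g • r = o)
    (h' : g' • r = o) : (g' * g⁻¹) • o = o := by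
  subst h
  rw [mul_smul, inv_smul_smul, h']

theorem oct_h2 (o : Finset GolayPt) (ho : o ∈ octads) (x a c : GolayPt) (hx : x ∈ o)
    (ha : a ∈ o) (hc : c ∈ o) (hxa : x ≠ a) (hxc : x ≠ c) :
    ∃ s, (s ∈ M24 ∧ s • o = o) ∧ s x = x ∧ s a = c := by
  obtain ⟨σ1, h1, h1o, h1x, h1a⟩ := config2 o ho x a hx ha hxa
  obtain ⟨σ2, h2, h2o, h2x, h2c⟩ := config2 o ho x c hx hc hxc
  exact ⟨σ2 * σ1⁻¹, ⟨M24.mul_mem h2 (M24.inv_mem h1), smul_conj h1o h2o⟩, map_conj h1x h2x,
    map_conj h1a h2c⟩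

theorem oct_h1 (o : Finset GolayPt) (ho : o ∈ octads) (a c : GolayPt) (ha : a ∉ o)
    (hc : c ∉ o) : ∃ s, (s ∈ M24 ∧ s • o = o) ∧ s a = c := by
  obtain ⟨σ1, h1, h1o, h1a⟩ := config1' o ho a ha
  obtain ⟨σ2, h2, h2o, h2c⟩ := config1' o ho c hc
  exact ⟨σ2 * σ1⁻¹, ⟨M24.mul_mem h2 (M24.inv_mem h1), smul_conj h1o h2o⟩, map_conj h1a h2c⟩

theorem dod_h2 (d : Finset GolayPt) (hd : d ∈ dodecads) (x a c : GolayPt) (hx : x ∈ d)
    (ha : a ∈ d) (hc : c ∈ d) (hxa : x ≠ a) (hxc : x ≠ c) :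
    ∃ s, (s ∈ M24 ∧ s • d = d) ∧ s x = x ∧ s a = c := by
  obtain ⟨g, hg, hgd, h1, h2⟩ := stab_trans2 d hd x a x c hx ha hx hc hxa hxc
  exact ⟨g, ⟨hg, hgd⟩, h1, h2⟩

theorem dod_h1 (d : Finset GolayPt) (hd : d ∈ dodecads) (a c : GolayPt) (ha : a ∉ d)
    (hc : c ∉ d) : ∃ s, (s ∈ M24 ∧ s • d = d) ∧ s a = c := by
  obtain ⟨g, hg, hgd, h1⟩ := stab_trans dᶜ (compl_dod hd) a c (Finset.mem_compl.mpr ha)
    (Finset.mem_compl.mpr hc)
  rw [smul_compl] at hgd
  exact ⟨g, ⟨hg, compl_injective hgd⟩, h1⟩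

theorem main (u : GolayPt → ZMod 2) (hu : u ∈ golayCode) (w : GolayPt → ZMod 2)
    (hw : w ∉ golayCode) :
    ∃ σ ∈ M24, (fun p => u (σ.symm p)) = u ∧ (fun p => w (σ.symm p)) - w ∉ golayCode := by
  have stab_of : ∀ (u' : GolayPt → ZMod 2) (s : Equiv.Perm GolayPt),
      s • support₂ u' = support₂ u' → (fun p => u' (s.symm p)) = u' := by
    intro u' s h
    apply support₂_injective
    rw [support₂_comp, h]
  have hM2 : ∀ x a c : GolayPt, x ∈ (Finset.univ : Finset GolayPt) → a ∈ (Finset.univ : Finset GolayPt) →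
      c ∈ (Finset.univ : Finset GolayPt) → x ≠ a → x ≠ c → ∃ s, s ∈ M24 ∧ s x = x ∧ s a = c :=
    fun x a c _ _ _ hxa hxc => trans2 x a x c hxa hxc
  have hM1 : ∀ a c : GolayPt, a ∉ (Finset.univ : Finset GolayPt) → c ∉ (Finset.univ : Finset GolayPt) →
      ∃ s, s ∈ M24 ∧ s a = c := fun a _ ha _ => absurd (Finset.mem_univ a) ha
  have hU : 7 ≤ (Finset.univ : Finset GolayPt).card := by
    rw [Finset.card_univ, card24]
    norm_num
  by_cases h0 : u = 0
  · subst h0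
    exact core 0 (fun s => s ∈ M24) (fun s hs => ⟨hs, rfl⟩)
      (moves_small _ _ hU hM2 hM1 (Or.inl rfl)) (moves_sext _ _ hU hM2) w hw
  by_cases h1 : u = 1
  · subst h1
    exact core 1 (fun s => s ∈ M24) (fun s hs => ⟨hs, rfl⟩)
      (moves_small _ _ hU hM2 hM1 (Or.inl rfl)) (moves_sext _ _ hU hM2) w hw
  rcases weight_cases u hu h0 h1 with ho | hd | ho
  · have h8 := card_octad ho
    exact core u (fun s => s ∈ M24 ∧ s • support₂ u = support₂ u)
      (fun s hs => ⟨hs.1, stab_of u s hs.2⟩)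
      (moves_small _ _ (by omega) (oct_h2 _ ho) (oct_h1 _ ho) (Or.inr (by omega)))
      (moves_sext _ _ (by omega) (oct_h2 _ ho)) w hw
  · have h12 := card_dodecad hd
    exact core u (fun s => s ∈ M24 ∧ s • support₂ u = support₂ u)
      (fun s hs => ⟨hs.1, stab_of u s hs.2⟩)
      (moves_small _ _ (by omega) (dod_h2 _ hd) (dod_h1 _ hd) (Or.inr (by omega)))
      (moves_sext _ _ (by omega) (dod_h2 _ hd)) w hw
  · have h8 := card_octad ho
    refine core u (fun s => s ∈ M24 ∧ s • support₂ (u + 1) = support₂ (u + 1))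
      (fun s hs => ⟨hs.1, ?_⟩)
      (moves_small _ _ (by omega) (oct_h2 _ ho) (oct_h1 _ ho) (Or.inr (by omega)))
      (moves_sext _ _ (by omega) (oct_h2 _ ho)) w hw
    have h := stab_of (u + 1) s hs.2
    funext p
    have hp := congrFun h p
    simp only [Pi.add_apply, Pi.one_apply] at hp
    exact add_right_cancel hp

end Cfsg.Agent.Lib_lead_CosetFix
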