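import Mathlib
import Cfsg.Prelude.Def_SporadicCombinatorics
import Cfsg.Agent.Lib_lead_Enum

/-! Deciding whether a permutation given by a table permutes the members of a family of sets. -/

set_option autoImplicit false

namespace Cfsg.Agent.Lib_lead_EnumFam

open Cfsg Cfsg.Agent.Lib_lead_Golay Cfsg.Agent.Lib_lead_GolayPerm Cfsg.Agent.Lib_lead_M24
  Cfsg.Agent.Lib_lead_M24Chain Cfsg.Agent.Lib_lead_Cls Cfsg.Agent.Lib_lead_ClsData
  Cfsg.Agent.Lib_lead_ObjOrb Cfsg.Agent.Lib_lead_Enum
open scoped Pointwise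

/-- `f` maps the set with mask `m` into the set with mask `m'` -/
def mapSet (f : ℕ → ℕ) (m m' : ℕ) : Bool :=
  (List.range 24).all fun j => !m.testBit j || m'.testBit (f j)

theorem mapSet_iff {g : Equiv.Perm GolayPt} {f : ℕ → ℕ} (h : Desc g f) (m m' : ℕ)
    (hc : (fsOf m').card ≤ (fsOf m).card) :
    g • fsOf m = fsOf m' ↔ mapSet f m m' = true := by
  unfold mapSet
  rw [List.all_eq_true]
  constructor
  · intro hg j hj
    rw [List.mem_range] at hj
    by_cases hb : m.testBit j = true
    · have h1 : g (ptN j) ∈ g • fsOf m :=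
        Finset.smul_mem_smul_finset (by rw [mem_fsOf, idx_ptN' j hj]; exact hb)
      rw [hg, h.1 j hj, mem_fsOf, idx_ptN' _ (h.2 j hj)] at h1
      rw [h1, Bool.or_true]
    · rw [Bool.not_eq_true] at hb
      rw [hb]
      rfl
  · intro hall
    apply Finset.eq_of_subset_of_card_le
    · intro y hy
      obtain ⟨x, hx, rfl⟩ := Finset.mem_smul_finset.mp hy
      rw [mem_fsOf] at hx
      have h1 := hall (idx x) (List.mem_range.mpr (idx_lt x))
      rw [hx] at h1
      simp only [Bool.not_true, Bool.false_or] at h1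
      have h2 : g • x = ptN (f (idx x)) := desc_apply h x
      rw [h2, mem_fsOf, idx_ptN' _ (h.2 _ (idx_lt x))]
      exact h1
    · rw [Finset.card_smul_finset]
      exact hc

/-- `f` permutes the sets of the list -/
def permFam (l : List ℕ) (f : ℕ → ℕ) : Bool := l.all fun m => l.any fun m' => mapSet f m m'

theorem permFam_iff {g : Equiv.Perm GolayPt} {f : ℕ → ℕ} (h : Desc g f) (l : List ℕ)
    (hc : ∀ m ∈ l, ∀ m' ∈ l, (fsOf m').card ≤ (fsOf m).card) :
    g • fin l = fin l ↔ permFam l f = true := by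
  unfold permFam
  rw [List.all_eq_true]
  constructor
  · intro hg m hm
    rw [List.any_eq_true]
    have h1 : g • fsOf m ∈ g • fin l :=
      Finset.smul_mem_smul_finset ((mem_fin _ _).mpr ⟨m, hm, rfl⟩)
    rw [hg, mem_fin] at h1
    obtain ⟨m', hm', e⟩ := h1
    exact ⟨m', hm', (mapSet_iff h m m' (hc m hm m' hm')).mp e.symm⟩
  · intro hall
    apply Finset.eq_of_subset_of_card_le
    · intro y hy
      obtain ⟨t, ht, rfl⟩ := Finset.mem_smul_finset.mp hy
      obtain ⟨m, hm, rfl⟩ := (mem_fin _ _).mp ht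
      have h1 := hall m hm
      rw [List.any_eq_true] at h1
      obtain ⟨m', hm', e⟩ := h1
      rw [(mapSet_iff h m m' (hc m hm m' hm')).mpr e]
      exact (mem_fin _ _).mpr ⟨m', hm', rfl⟩
    · rw [Finset.card_smul_finset]

/-- the image of a point of a set under a permutation -/
theorem idx_mem_of_map {g : Equiv.Perm GolayPt} {m m' : ℕ} (h : g • fsOf m = fsOf m') {j : ℕ}
    (hj : j < 24) (hb : m.testBit j = true) : m'.testBit (idx (g (ptN j))) = true := by
  have h1 : g (ptN j) ∈ g • fsOf m :=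
    Finset.smul_mem_smul_finset (by rw [mem_fsOf, idx_ptN' j hj]; exact hb)
  rw [h, mem_fsOf] at h1
  exact h1

/-- the points of a mask -/
def ptsOf (m : ℕ) : List ℕ := (List.range 24).filter fun j => m.testBit j

theorem mem_ptsOf (m j : ℕ) : j ∈ ptsOf m ↔ j < 24 ∧ m.testBit j = true := by
  unfold ptsOf
  rw [List.mem_filter, List.mem_range]

end Cfsg.Agent.Lib_lead_EnumFam
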