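import Cfsg.Statements.S1587
-- import your own Cfsg.Agent.* helpers here

set_option autoImplicit false
open Matrix
open Cfsg

namespace Cfsg.Agent.S1587

/-- First step of the characterisation of the rank-24 lattice: in an even lattice without roots, norm-8 vectors congruent modulo 2 are equal, opposite or orthogonal. -/
theorem result (B : Matrix (Fin 24) (Fin 24) ℤ) (hsymm : B.IsSymm) (hpos : ∀ x : Fin 24 → ℤ, x ≠ 0 → 0 < x ⬝ᵥ (B *ᵥ x)) (heven : ∀ x : Fin 24 → ℤ, (2 : ℤ) ∣ x ⬝ᵥ (B *ᵥ x)) (h2 : ∀ x : Fin 24 → ℤ, x ⬝ᵥ (B *ᵥ x) ≠ 2) (x y : Fin 24 → ℤ) (hx : x ⬝ᵥ (B *ᵥ x) = 8) (hy : y ⬝ᵥ (B *ᵥ y) = 8) (hc : ∀ i, (2 : ℤ) ∣ (x - y) i) : y = x ∨ y = -x ∨ x ⬝ᵥ (B *ᵥ y) = 0 := by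
  choose z hz using hc
  have hxz : x = y + (2:ℤ) • z := by
    funext i
    have := hz i
    simp only [Pi.sub_apply] at this
    simp only [Pi.add_apply, Pi.smul_apply, smul_eq_mul]
    linarith
  have hsym : ∀ a b : Fin 24 → ℤ, a ⬝ᵥ (B *ᵥ b) = b ⬝ᵥ (B *ᵥ a) := by
    intro a b
    rw [Matrix.dotProduct_mulVec, ← Matrix.mulVec_transpose, hsymm.eq, dotProduct_comm]
  have hadd : ∀ a b : Fin 24 → ℤ, (a + b) ⬝ᵥ (B *ᵥ (a + b)) =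
      a ⬝ᵥ (B *ᵥ a) + 2 * (a ⬝ᵥ (B *ᵥ b)) + b ⬝ᵥ (B *ᵥ b) := by
    intro a b
    rw [Matrix.mulVec_add, add_dotProduct, dotProduct_add, dotProduct_add, hsym b a]
    ring
  have hsm : ∀ a b : Fin 24 → ℤ, a ⬝ᵥ (B *ᵥ ((2:ℤ) • b)) = 2 * (a ⬝ᵥ (B *ᵥ b)) := by
    intro a b
    rw [Matrix.mulVec_smul, dotProduct_smul, smul_eq_mul]
  have hsm2 : ∀ b : Fin 24 → ℤ, ((2:ℤ) • b) ⬝ᵥ (B *ᵥ ((2:ℤ) • b)) = 4 * (b ⬝ᵥ (B *ᵥ b)) := by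
    intro b
    rw [Matrix.mulVec_smul, dotProduct_smul, smul_dotProduct, smul_eq_mul, smul_eq_mul]
    ring
  -- Q(z) = - y·Bz
  have e1 : z ⬝ᵥ (B *ᵥ z) = - (y ⬝ᵥ (B *ᵥ z)) := by
    have h := hadd y ((2:ℤ) • z)
    rw [← hxz, hx, hy, hsm, hsm2] at h
    linarith
  have e2 : x ⬝ᵥ (B *ᵥ y) = 8 - 2 * (z ⬝ᵥ (B *ᵥ z)) := by
    rw [hsym x y, hxz, Matrix.mulVec_add, dotProduct_add, hy, hsm, e1]
    ring
  have e3 : (y + z) ⬝ᵥ (B *ᵥ (y + z)) = 8 - z ⬝ᵥ (B *ᵥ z) := by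
    rw [hadd, hy, e1]; ring
  by_cases hz0 : z = 0
  · left
    rw [hxz, hz0]; simp
  by_cases hw0 : y + z = 0
  · right; left
    have : z = -y := by
      rw [eq_neg_iff_add_eq_zero, add_comm]; exact hw0
    rw [hxz, this]
    funext i; simp; ring
  right; right
  have p1 := hpos z hz0
  have p2 := hpos (y + z) hw0
  have q1 := heven z
  have q2 := heven (y + z)
  have r1 := h2 z
  have r2 := h2 (y + z)
  rw [e3] at p2 q2 r2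
  rw [e2]
  obtain ⟨k, hk⟩ := q1
  obtain ⟨l, hl⟩ := q2
  omega

end Cfsg.Agent.S1587
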