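import Mathlib
import Cfsg.Agent.S1587

/-! Congruence classes modulo 2 of short vectors in an even lattice of rank 24 without roots:
classes of vectors of norm at most 8, and the count of frames. -/

set_option autoImplicit false

namespace Cfsg.Agent.Lib_lead_Frame

open Matrix

/-- reduction modulo 2 -/
def cm (x : Fin 24 → ℤ) : Fin 24 → ZMod 2 := fun i => ((x i : ℤ) : ZMod 2)

theorem cm_eq_iff (x y : Fin 24 → ℤ) : cm y = cm x ↔ ∀ i, (2 : ℤ) ∣ (x - y) i := by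
  unfold cm
  constructor
  · intro h i
    have := congrFun h i
    exact (ZMod.intCast_eq_intCast_iff_dvd_sub (y i) (x i) 2).mp this
  · intro h
    funext i
    exact (ZMod.intCast_eq_intCast_iff_dvd_sub (y i) (x i) 2).mpr (h i)

theorem cm_neg (x : Fin 24 → ℤ) : cm (-x) = cm x := by
  rw [cm_eq_iff]
  intro i
  simp only [Pi.sub_apply, Pi.neg_apply, sub_neg_eq_add]
  exact ⟨x i, by ring⟩

section
variable (B : Matrix (Fin 24) (Fin 24) ℤ)

theorem form_neg (x : Fin 24 → ℤ) : (-x) ⬝ᵥ (B *ᵥ (-x)) = x ⬝ᵥ (B *ᵥ x) := by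
  rw [Matrix.mulVec_neg, neg_dotProduct, dotProduct_neg, neg_neg]

theorem form_zero : (0 : Fin 24 → ℤ) ⬝ᵥ (B *ᵥ 0) = 0 := by
  rw [zero_dotProduct]

/-- two vectors congruent modulo 2, neither equal nor opposite, have norms adding to at least 16 -/
theorem norm_sum (hsymm : B.IsSymm)
    (hpos : ∀ x : Fin 24 → ℤ, x ≠ 0 → 0 < x ⬝ᵥ (B *ᵥ x))
    (heven : ∀ x : Fin 24 → ℤ, (2 : ℤ) ∣ x ⬝ᵥ (B *ᵥ x))
    (h2 : ∀ x : Fin 24 → ℤ, x ⬝ᵥ (B *ᵥ x) ≠ 2) (x y : Fin 24 → ℤ) (hc : cm y = cm x)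
    (hne : y ≠ x) (hne' : y ≠ -x) : 16 ≤ x ⬝ᵥ (B *ᵥ x) + y ⬝ᵥ (B *ᵥ y) := by
  rw [cm_eq_iff] at hc
  choose z hz using hc
  have hxz : x = y + (2:ℤ) • z := by
    funext i
    have := hz i
    simp only [Pi.sub_apply] at this
    simp only [Pi.add_apply, Pi.smul_apply, smul_eq_mul]
    linarith
  have hsym : ∀ a b : Fin 24 → ℤ, a ⬝ᵥ (B *ᵥ b) = b ⬝ᵥ (B *ᵥ a) := by
    intro a b
    rw [Matrix.dotProduct_mulVec, ← Matrix.mulVec_transpose, hsymm.eq, dotProduct_comm]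
  have hadd : ∀ a b : Fin 24 → ℤ, (a + b) ⬝ᵥ (B *ᵥ (a + b)) =
      a ⬝ᵥ (B *ᵥ a) + 2 * (a ⬝ᵥ (B *ᵥ b)) + b ⬝ᵥ (B *ᵥ b) := by
    intro a b
    rw [Matrix.mulVec_add, add_dotProduct, dotProduct_add, dotProduct_add, hsym b a]
    ring
  have hsm : ∀ a b : Fin 24 → ℤ, a ⬝ᵥ (B *ᵥ ((2:ℤ) • b)) = 2 * (a ⬝ᵥ (B *ᵥ b)) := by
    intro a b
    rw [Matrix.mulVec_smul, dotProduct_smul, smul_eq_mul]
  have hsm2 : ∀ b : Fin 24 → ℤ, ((2:ℤ) • b) ⬝ᵥ (B *ᵥ ((2:ℤ) • b)) = 4 * (b ⬝ᵥ (B *ᵥ b)) := by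
    intro b
    rw [Matrix.mulVec_smul, dotProduct_smul, smul_dotProduct, smul_eq_mul, smul_eq_mul]
    ring
  have e1 : x ⬝ᵥ (B *ᵥ x) = y ⬝ᵥ (B *ᵥ y) + 4 * (y ⬝ᵥ (B *ᵥ z)) + 4 * (z ⬝ᵥ (B *ᵥ z)) := by
    have h := hadd y ((2:ℤ) • z)
    rw [← hxz, hsm, hsm2] at h
    linarith
  have e3 : (y + z) ⬝ᵥ (B *ᵥ (y + z)) =
      y ⬝ᵥ (B *ᵥ y) + 2 * (y ⬝ᵥ (B *ᵥ z)) + z ⬝ᵥ (B *ᵥ z) := hadd y z
  have hz0 : z ≠ 0 := by
    intro hz0
    apply hne
    rw [hxz, hz0]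
    simp
  have hw0 : y + z ≠ 0 := by
    intro hw0
    apply hne'
    have : z = -y := by
      rw [eq_neg_iff_add_eq_zero, add_comm]
      exact hw0
    rw [hxz, this]
    funext i
    simp
    ring
  have p1 := hpos z hz0
  have p2 := hpos (y + z) hw0
  have q1 := heven z
  have q2 := heven (y + z)
  have r1 := h2 z
  have r2 := h2 (y + z)
  obtain ⟨k, hk⟩ := q1
  obtain ⟨l, hl⟩ := q2
  omega

theorem cast_form (x y : Fin 24 → ℤ) :
    (fun i => (x i : ℚ)) ⬝ᵥ (B.map (Int.cast : ℤ → ℚ) *ᵥ (fun i => (y i : ℚ)))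
      = ((x ⬝ᵥ (B *ᵥ y) : ℤ) : ℚ) := by
  simp only [dotProduct, Matrix.mulVec, Matrix.map_apply]
  push_cast
  rfl

/-- pairwise orthogonal vectors of nonzero norm: at most 24 -/
theorem card_ortho (R : Finset (Fin 24 → ℤ)) (hR : ∀ y ∈ R, y ⬝ᵥ (B *ᵥ y) = 8)
    (hortho : ∀ y ∈ R, ∀ y' ∈ R, y ≠ y' → y ⬝ᵥ (B *ᵥ y') = 0) : R.card ≤ 24 := by
  have hLI : LinearIndependent ℚ (fun y : R => (fun i => ((y.1 i : ℤ) : ℚ))) := by
    rw [linearIndependent_iff']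
    intro s g hsum j hj
    have h1 : (∑ i ∈ s, g i • (fun k => ((i.1 k : ℤ) : ℚ))) ⬝ᵥ
        (B.map (Int.cast : ℤ → ℚ) *ᵥ (fun k => ((j.1 k : ℤ) : ℚ))) = 0 := by
      rw [hsum, zero_dotProduct]
    rw [sum_dotProduct] at h1
    simp only [smul_dotProduct, smul_eq_mul, cast_form] at h1
    rw [Finset.sum_eq_single j (fun i _ hij => by
      rw [hortho i.1 i.2 j.1 j.2 (fun h => hij (Subtype.ext h)), Int.cast_zero, mul_zero])
      (fun h => absurd hj h), hR j.1 j.2] at h1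
    have h8 : ((8 : ℤ) : ℚ) ≠ 0 := by norm_num
    exact (mul_eq_zero.mp h1).resolve_right h8
  have := hLI.fintype_card_le_finrank
  rw [Fintype.card_coe, Module.finrank_fintype_fun_eq_card, Fintype.card_fin] at this
  exact this

/-- a set of vectors of norm 8, closed under negation, pairwise equal, opposite or orthogonal,
has at most 48 members -/
theorem card_frame (T : Finset (Fin 24 → ℤ)) (hT : ∀ y ∈ T, y ⬝ᵥ (B *ᵥ y) = 8)
    (hneg : ∀ y ∈ T, -y ∈ T)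
    (hT2 : ∀ y ∈ T, ∀ y' ∈ T, y' = y ∨ y' = -y ∨ y ⬝ᵥ (B *ᵥ y') = 0) : T.card ≤ 48 := by
  classical
  have hne0 : ∀ y ∈ T, y ≠ 0 := by
    intro y hy h0
    have := hT y hy
    rw [h0, zero_dotProduct] at this
    norm_num at this
  have hR : (T.filter (fun y => 0 < toLex y)).card ≤ 24 := by
    apply card_ortho B
    · intro y hy
      exact hT y (Finset.mem_filter.mp hy).1
    · intro y hy y' hy' hne
      rw [Finset.mem_filter] at hy hy'
      rcases hT2 y hy.1 y' hy'.1 with h | h | h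
      · exact absurd h.symm hne
      · exfalso
        have h1 : (0 : Lex (Fin 24 → ℤ)) < toLex y' := hy'.2
        rw [h] at h1
        have h2 : toLex (-y) = - toLex y := rfl
        rw [h2, neg_pos] at h1
        exact lt_asymm h1 hy.2
      · exact h
  have hS : (T.filter (fun y => ¬ 0 < toLex y)).card ≤ (T.filter (fun y => 0 < toLex y)).card := by
    apply Finset.card_le_card_of_injOn (fun y => -y)
    · intro y hy
      rw [Finset.mem_coe, Finset.mem_filter] at hy ⊢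
      refine ⟨hneg y hy.1, ?_⟩
      have h2 : toLex (-y) = - toLex y := rfl
      rw [h2, neg_pos]
      have h3 : toLex y ≠ 0 := fun h => hne0 y hy.1 h
      exact lt_of_le_of_ne (not_lt.mp hy.2) h3
    · intro a _ b _ hab
      exact neg_injective hab
  have := Finset.card_filter_add_card_filter_not (s := T) (fun y => 0 < toLex y)
  omega

end

end Cfsg.Agent.Lib_lead_Frame
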