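import Mathlib

/-! Counting integer vectors with a given total cost and parity through products of sums
evaluated at a large base. -/

set_option autoImplicit false

namespace Cfsg.Agent.Lib_lead_GFCount

/-- the sign of the parity of an integer -/
def sg (v : ℤ) : ℤ := if Even v then 1 else -1

theorem sg_add (a b : ℤ) : sg (a + b) = sg a * sg b := by
  unfold sg
  by_cases ha : Even a <;> by_cases hb : Even b <;> simp [ha, hb, Int.even_add]

theorem sg_zero : sg 0 = 1 := by
  unfold sg
  simp

theorem sg_sum {ι : Type*} (s : Finset ι) (f : ι → ℤ) :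
    sg (∑ i ∈ s, f i) = ∏ i ∈ s, sg (f i) := by
  classical
  induction s using Finset.induction_on with
  | empty => simp [sg_zero]
  | insert a s ha ih => rw [Finset.sum_insert ha, Finset.prod_insert ha, sg_add, ih]

variable {ι : Type*} [Fintype ι] [DecidableEq ι]

theorem gf_plus (V : ι → Finset ℤ) (c : ι → ℤ → ℕ) (B : ℤ) :
    ∏ i, ∑ v ∈ V i, B ^ c i v = ∑ n ∈ Fintype.piFinset V, B ^ ∑ i, c i (n i) := by
  rw [Finset.prod_univ_sum]
  apply Finset.sum_congr rfl
  intro n _
  rw [Finset.prod_pow_eq_pow_sum]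

theorem gf_minus (V : ι → Finset ℤ) (c : ι → ℤ → ℕ) (B : ℤ) :
    ∏ i, ∑ v ∈ V i, sg v * B ^ c i v =
      ∑ n ∈ Fintype.piFinset V, sg (∑ i, n i) * B ^ ∑ i, c i (n i) := by
  rw [Finset.prod_univ_sum]
  apply Finset.sum_congr rfl
  intro n _
  rw [Finset.prod_mul_distrib, sg_sum, Finset.prod_pow_eq_pow_sum]

theorem gf_even (V : ι → Finset ℤ) (c : ι → ℤ → ℕ) (B : ℤ) :
    (∏ i, ∑ v ∈ V i, B ^ c i v) + (∏ i, ∑ v ∈ V i, sg v * B ^ c i v) =
      2 * ∑ n ∈ (Fintype.piFinset V).filter (fun n => Even (∑ i, n i)), B ^ ∑ i, c i (n i) := by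
  rw [gf_plus, gf_minus, ← Finset.sum_add_distrib, Finset.mul_sum, Finset.sum_filter]
  apply Finset.sum_congr rfl
  intro n _
  by_cases h : Even (∑ i, n i)
  · rw [if_pos h]
    unfold sg
    rw [if_pos h]
    ring
  · rw [if_neg h]
    unfold sg
    rw [if_neg h]
    ring

theorem gf_odd (V : ι → Finset ℤ) (c : ι → ℤ → ℕ) (B : ℤ) :
    (∏ i, ∑ v ∈ V i, B ^ c i v) - (∏ i, ∑ v ∈ V i, sg v * B ^ c i v) =
      2 * ∑ n ∈ (Fintype.piFinset V).filter (fun n => ¬ Even (∑ i, n i)),
        B ^ ∑ i, c i (n i) := by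
  rw [gf_plus, gf_minus, ← Finset.sum_sub_distrib, Finset.mul_sum, Finset.sum_filter]
  apply Finset.sum_congr rfl
  intro n _
  by_cases h : Even (∑ i, n i)
  · rw [if_neg (not_not.mpr h)]
    unfold sg
    rw [if_pos h]
    ring
  · rw [if_pos h]
    unfold sg
    rw [if_neg h]
    ring

/-- the number of elements of a given cost is a digit of the sum of the powers of the base -/
theorem digit_count {α : Type*} (S : Finset α) (f : α → ℕ) (B : ℕ) (hB : S.card < B) (M : ℕ) :
    (S.filter (fun n => f n = M)).card = (∑ n ∈ S, B ^ f n) / B ^ M % B := by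
  classical
  have hB0 : 0 < B := by omega
  have hBM : 0 < B ^ M := pow_pos hB0 M
  have h1 := Finset.sum_filter_add_sum_filter_not S (fun n => f n < M) (fun n => B ^ f n)
  have h2 := Finset.sum_filter_add_sum_filter_not (S.filter (fun n => ¬ f n < M))
    (fun n => f n = M) (fun n => B ^ f n)
  have e1 : (S.filter (fun n => ¬ f n < M)).filter (fun n => f n = M) =
      S.filter (fun n => f n = M) := by
    ext n
    simp only [Finset.mem_filter]
    constructor
    · rintro ⟨⟨h, -⟩, h'⟩
      exact ⟨h, h'⟩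
    · rintro ⟨h, h'⟩
      exact ⟨⟨h, by omega⟩, h'⟩
  have e2 : (S.filter (fun n => ¬ f n < M)).filter (fun n => ¬ f n = M) =
      S.filter (fun n => M < f n) := by
    ext n
    simp only [Finset.mem_filter]
    constructor
    · rintro ⟨⟨h, h''⟩, h'⟩
      exact ⟨h, by omega⟩
    · rintro ⟨h, h'⟩
      exact ⟨⟨h, by omega⟩, by omega⟩
  rw [e1, e2] at h2
  have hmid : ∑ n ∈ S.filter (fun n => f n = M), B ^ f n =
      (S.filter (fun n => f n = M)).card * B ^ M := by
    rw [Finset.sum_congr rfl (fun n hn => by rw [(Finset.mem_filter.mp hn).2]),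
      Finset.sum_const, smul_eq_mul]
  have hhi : ∑ n ∈ S.filter (fun n => M < f n), B ^ f n =
      B ^ M * (B * ∑ n ∈ S.filter (fun n => M < f n), B ^ (f n - (M + 1))) := by
    rw [Finset.mul_sum, Finset.mul_sum]
    apply Finset.sum_congr rfl
    intro n hn
    have hlt := (Finset.mem_filter.mp hn).2
    rw [← mul_assoc, ← pow_succ, ← pow_add]
    congr 1
    omega
  have hlo : ∑ n ∈ S.filter (fun n => f n < M), B ^ f n < B ^ M := by
    rcases Nat.eq_zero_or_pos M with hM | hM
    · subst hM
      have : S.filter (fun n => f n < 0) = ∅ := by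
        ext n
        simp
      rw [this, Finset.sum_empty]
      exact hBM
    · have hle : ∑ n ∈ S.filter (fun n => f n < M), B ^ f n ≤
          (S.filter (fun n => f n < M)).card * B ^ (M - 1) := by
        rw [← smul_eq_mul]
        apply Finset.sum_le_card_nsmul
        intro n hn
        have hlt := (Finset.mem_filter.mp hn).2
        exact Nat.pow_le_pow_right hB0 (by omega)
      have hc : (S.filter (fun n => f n < M)).card ≤ B - 1 :=
        le_trans (Finset.card_filter_le _ _) (by omega)
      have hpow : B ^ M = B * B ^ (M - 1) := by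
        rw [← pow_succ']
        congr 1
        omega
      have h3 : (S.filter (fun n => f n < M)).card * B ^ (M - 1) ≤ (B - 1) * B ^ (M - 1) :=
        Nat.mul_le_mul_right _ hc
      have h4 : (B - 1) * B ^ (M - 1) < B * B ^ (M - 1) :=
        Nat.mul_lt_mul_of_pos_right (by omega) (pow_pos hB0 _)
      omega
  have hcnt : (S.filter (fun n => f n = M)).card < B :=
    lt_of_le_of_lt (Finset.card_filter_le _ _) hB
  rw [← h1, ← h2, hmid, hhi]
  have e3 : ∑ n ∈ S.filter (fun n => f n < M), B ^ f n +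
      ((S.filter (fun n => f n = M)).card * B ^ M +
        B ^ M * (B * ∑ n ∈ S.filter (fun n => M < f n), B ^ (f n - (M + 1)))) =
      ∑ n ∈ S.filter (fun n => f n < M), B ^ f n + B ^ M *
        ((S.filter (fun n => f n = M)).card +
          B * ∑ n ∈ S.filter (fun n => M < f n), B ^ (f n - (M + 1))) := by ring
  rw [e3, Nat.add_mul_div_left _ _ hBM, Nat.div_eq_of_lt hlo, zero_add, Nat.add_mul_mod_self_left,
    Nat.mod_eq_of_lt hcnt]

end Cfsg.Agent.Lib_lead_GFCount
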