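import Mathlib
import Cfsg.Prelude.Def_Sporadic_a
import Cfsg.Agent.Lib_lead_Golay
import Cfsg.Agent.Lib_lead_M24
import Cfsg.Agent.Lib_lead_Leech
import Cfsg.Agent.Lib_lead_Coset

/-! The length-24 code is its own orthogonal complement. -/

set_option autoImplicit false

namespace Cfsg.Agent.Lib_lead_GolayDual

open Cfsg Cfsg.Agent.Lib_lead_Golay Cfsg.Agent.Lib_lead_M24 Cfsg.Agent.Lib_lead_Leech

/-- the dot product of binary words -/
def bdot (v w : GolayPt → ZMod 2) : ZMod 2 := ∑ i, v i * w i

theorem bdot_add (v v' w : GolayPt → ZMod 2) : bdot (v + v') w = bdot v w + bdot v' w := by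
  unfold bdot
  rw [← Finset.sum_add_distrib]
  apply Finset.sum_congr rfl
  intro i _
  rw [Pi.add_apply, add_mul]

theorem mem_sup (w : GolayPt → ZMod 2) (i : GolayPt) : i ∈ support₂ w ↔ w i ≠ 0 := by
  unfold support₂
  rw [Finset.mem_filter]
  exact ⟨fun h => h.2, fun h => ⟨Finset.mem_univ _, h⟩⟩

theorem bdot_eq_card (v w : GolayPt → ZMod 2) :
    bdot v w = ((support₂ v ∩ support₂ w).card : ZMod 2) := by
  unfold bdot
  have h1 : ∀ i, v i * w i = if i ∈ support₂ v ∩ support₂ w then 1 else 0 := by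
    intro i
    by_cases h : i ∈ support₂ v ∩ support₂ w
    · rw [if_pos h]
      rw [Finset.mem_inter, mem_sup, mem_sup] at h
      have key : ∀ a b : ZMod 2, a ≠ 0 → b ≠ 0 → a * b = 1 := by decide
      exact key _ _ h.1 h.2
    · rw [if_neg h]
      rw [Finset.mem_inter, mem_sup, mem_sup] at h
      have key : ∀ a b : ZMod 2, ¬ (a ≠ 0 ∧ b ≠ 0) → a * b = 0 := by decide
      exact key _ _ h
  rw [Finset.sum_congr rfl (fun i _ => h1 i), Finset.sum_ite_mem, Finset.univ_inter,
    Finset.sum_const, nsmul_eq_mul, mul_one]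

theorem bdot_code {v w : GolayPt → ZMod 2} (hv : v ∈ golayCode) (hw : w ∈ golayCode) :
    bdot v w = 0 := by
  rw [bdot_eq_card]
  have h := even_card_inter (a := support₂ v) (b := support₂ w) ⟨v, hv, rfl⟩ ⟨w, hw, rfl⟩
  exact (ZMod.natCast_eq_zero_iff _ 2).mpr h.two_dvd

theorem basis_mem : ∀ b ∈ basisW, b ∈ golayCode := by
  intro b hb
  unfold golayCode
  apply Submodule.subset_span
  simp only [basisW, List.mem_cons, List.not_mem_nil, or_false] at hb
  rcases hb with rfl | rfl | rfl | rfl | rfl | rfl | rfl | rfl | rfl | rfl | rfl | rfl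
  all_goals first | exact Or.inl ⟨_, rfl⟩ | exact Or.inr rfl

theorem getD_mem (a : Fin 12) : basisW.getD a.val 0 ∈ basisW := by
  have hl : a.val < basisW.length := a.isLt
  rw [List.getD_eq_getElem _ _ hl]
  exact List.getElem_mem hl

/-- the syndrome map -/
def S : (GolayPt → ZMod 2) →+ (Fin 12 → ZMod 2) :=
  AddMonoidHom.mk' (fun w a => bdot w (basisW.getD a.val 0)) (by
    intro v w
    funext a
    exact bdot_add v w _)

theorem S_apply (w : GolayPt → ZMod 2) (a : Fin 12) : S w a = bdot w (basisW.getD a.val 0) := rfl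

theorem code_le_ker : golayCode.toAddSubgroup ≤ S.ker := by
  intro w hw
  rw [AddMonoidHom.mem_ker]
  funext a
  exact bdot_code hw (basis_mem _ (getD_mem a))

/-- masks of words dual to the basis -/
def umask : List ℕ := [3941, 1328, 2656, 95, 190, 3609, 1992, 245, 490, 3249, 3581, 3189]

set_option maxRecDepth 100000 in
theorem S_u : ∀ a b : Fin 12,
    bdot (ofMask (umask.getD a.val 0)) (basisW.getD b.val 0) = if a = b then 1 else 0 := by
  decide +kernel

theorem S_surj : Function.Surjective S := by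
  intro t
  refine ⟨∑ a : Fin 12, (if t a = 1 then ofMask (umask.getD a.val 0) else 0), ?_⟩
  rw [map_sum]
  funext b
  rw [Finset.sum_apply]
  have h1 : ∀ a : Fin 12, S (if t a = 1 then ofMask (umask.getD a.val 0) else 0) b
      = if a = b then t a else 0 := by
    intro a
    by_cases ha : t a = 1
    · rw [if_pos ha, S_apply, S_u a b, ha]
    · rw [if_neg ha, map_zero]
      have key : ∀ z : ZMod 2, z ≠ 1 → z = 0 := by decide
      rw [key _ ha]
      simp
  rw [Finset.sum_congr rfl (fun a _ => h1 a), Finset.sum_ite_eq']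
  simp

theorem ker_eq : S.ker = golayCode.toAddSubgroup := by
  symm
  apply AddSubgroup.eq_of_le_of_card_ge code_le_ker
  have h1 := AddSubgroup.card_mul_index S.ker
  rw [AddSubgroup.index_ker, AddMonoidHom.range_eq_top.mpr S_surj, AddSubgroup.card_top] at h1
  have hV : Nat.card (GolayPt → ZMod 2) = 2 ^ 24 := by
    rw [Nat.card_eq_fintype_card, Fintype.card_fun, ZMod.card, card_golayPt]
  have hT : Nat.card (Fin 12 → ZMod 2) = 2 ^ 12 := by
    rw [Nat.card_eq_fintype_card, Fintype.card_fun, ZMod.card, Fintype.card_fin]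
  rw [hV, hT] at h1
  have hC : Nat.card golayCode.toAddSubgroup = 4096 := Cfsg.Agent.Lib_lead_Coset.card_code
  rw [hC]
  omega

/-- a word orthogonal to the basis words is a codeword -/
theorem self_dual (w : GolayPt → ZMod 2) (h : ∀ b ∈ basisW, bdot w b = 0) : w ∈ golayCode := by
  have h1 : w ∈ S.ker := by
    rw [AddMonoidHom.mem_ker]
    funext a
    exact h _ (getD_mem a)
  rw [ker_eq] at h1
  exact h1

end Cfsg.Agent.Lib_lead_GolayDual
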