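import Mathlib
import Cfsg.Prelude.Def_SporadicCombinatorics
import Cfsg.Agent.Lib_lead_CosetFix
import Cfsg.Agent.Lib_lead_Steiner
import Cfsg.Agent.S0363

/-! The invariant subspaces of the space of binary words of length 24 under the group of the
length-24 code. -/

set_option autoImplicit false

namespace Cfsg.Agent.Lib_lead_InvSub

open Cfsg Cfsg.Agent.Lib_lead_Golay Cfsg.Agent.Lib_lead_GolayPerm Cfsg.Agent.Lib_lead_M24
  Cfsg.Agent.Lib_lead_M24Chain Cfsg.Agent.Lib_lead_M24Orb Cfsg.Agent.Lib_lead_ObjOrb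
  Cfsg.Agent.Lib_lead_M24Data Cfsg.Agent.Lib_lead_Sextet Cfsg.Agent.Lib_lead_Leech
  Cfsg.Agent.Lib_lead_OctSub Cfsg.Agent.Lib_lead_Coset Cfsg.Agent.Lib_lead_Coset2
  Cfsg.Agent.Lib_lead_Irred Cfsg.Agent.Lib_lead_M24Trans Cfsg.Agent.Lib_lead_M12Thm
  Cfsg.Agent.Lib_lead_M12Thm2 Cfsg.Agent.Lib_lead_SixSet Cfsg.Agent.Lib_lead_DodPair
  Cfsg.Agent.Lib_lead_OctConfig Cfsg.Agent.Lib_lead_CosetFix
open scoped Pointwise

variable (U : Submodule (ZMod 2) (GolayPt → ZMod 2))

theorem supp_add_one (v : GolayPt → ZMod 2) : support₂ (v + 1) = (support₂ v)ᶜ := by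
  ext p
  simp only [support₂, Finset.mem_filter, Finset.mem_univ, true_and, Finset.mem_compl,
    Pi.add_apply, Pi.one_apply]
  have key : ∀ a : ZMod 2, (a + 1 ≠ 0) ↔ ¬ (a ≠ 0) := by decide
  exact key _

theorem add_add_one (v : GolayPt → ZMod 2) : v + (v + 1) = 1 := by
  funext p
  have key : ∀ a : ZMod 2, a + (a + 1) = 1 := by decide
  exact key _

theorem dod_one (hinv : ∀ σ ∈ M24, ∀ w ∈ U, (fun p => w (σ.symm p)) ∈ U)
    (v : GolayPt → ZMod 2) (hv : v ∈ U) (hd : support₂ v ∈ dodecads) :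
    (1 : GolayPt → ZMod 2) ∈ U := by
  obtain ⟨g, hg⟩ := dodecads_trans _ _ hd (compl_dod hd)
  have h2 := hinv g.1 g.2 v hv
  have he : (fun p => v ((g : Equiv.Perm GolayPt).symm p)) = v + 1 :=
    support₂_injective (by rw [support₂_comp, supp_add_one]; exact hg)
  rw [he] at h2
  have := U.add_mem hv h2
  rwa [add_add_one] at this

theorem cooct_one (hinv : ∀ σ ∈ M24, ∀ w ∈ U, (fun p => w (σ.symm p)) ∈ U)
    (w : GolayPt → ZMod 2) (hw : w ∈ U) (ho : support₂ (w + 1) ∈ octads) :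
    (1 : GolayPt → ZMod 2) ∈ U := by
  have key : ∀ k, popc (M k) = 8 → W k + 1 ∈ U := by
    intro k hk
    obtain ⟨g, hg⟩ := octads_trans _ _ ho (fsOf_mem_weight k 8 hk)
    have h2 := hinv g.1 g.2 w hw
    have he : (fun p => (w + 1) ((g : Equiv.Perm GolayPt).symm p)) = W k :=
      support₂_injective (by rw [support₂_comp, support₂_eq (W k), enc_W]; exact hg)
    have e2 : (fun p => w ((g : Equiv.Perm GolayPt).symm p)) = W k + 1 := by
      rw [← he]
      funext p
      have key : ∀ a : ZMod 2, a = a + 1 + 1 := by decide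
      exact key _
    rw [e2] at h2
    exact h2
  have h15 := key 15 (by decide +kernel)
  have h38 := key 38 (by decide +kernel)
  have hsum : W 15 + W 38 ∈ U := by
    have := U.add_mem h15 h38
    have e : W 15 + 1 + (W 38 + 1) = W 15 + W 38 := by
      funext p
      have key : ∀ a b : ZMod 2, a + 1 + (b + 1) = a + b := by decide
      exact key _ _
    rwa [e] at this
  have ho' : support₂ (W 15 + W 38) ∈ octads := by
    refine ⟨⟨_, golayCode.add_mem (W_mem 15) (W_mem 38), rfl⟩, ?_⟩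
    rw [card_support₂, hammingNorm_eq, enc_add, enc_W, enc_W]
    decide +kernel
  obtain ⟨v', hv', hd'⟩ := of_octad U hinv _ hsum ho'
  exact dod_one U hinv v' hv' hd'

theorem one_of_mem (hinv : ∀ σ ∈ M24, ∀ w ∈ U, (fun p => w (σ.symm p)) ∈ U)
    (hUC : U ≤ golayCode) (w : GolayPt → ZMod 2) (hw : w ∈ U) (h0 : w ≠ 0) (h1 : w ≠ 1) :
    (1 : GolayPt → ZMod 2) ∈ U := by
  rcases weight_cases w (hUC hw) h0 h1 with ho | hd | ho
  · obtain ⟨v', hv', hd'⟩ := of_octad U hinv w hw ho
    exact dod_one U hinv v' hv' hd'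
  · exact dod_one U hinv w hw hd
  · exact cooct_one U hinv w hw ho

theorem sub_code (hinv : ∀ σ ∈ M24, ∀ w ∈ U, (fun p => w (σ.symm p)) ∈ U)
    (hUC : U ≤ golayCode) :
    U = ⊥ ∨ U = Submodule.span (ZMod 2) {fun _ => (1 : ZMod 2)} ∨ U = golayCode := by
  by_cases h : ∃ w ∈ U, w ≠ 0 ∧ w ≠ 1
  · obtain ⟨w, hw, h0, h1⟩ := h
    have h1' := one_of_mem U hinv hUC w hw h0 h1
    right
    exact irred.2 U h1' hUC hinv
  · have hall : ∀ w ∈ U, w = 0 ∨ w = 1 := by
      intro w hw
      by_contra hne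
      rw [not_or] at hne
      exact h ⟨w, hw, hne.1, hne.2⟩
    by_cases h1 : (1 : GolayPt → ZMod 2) ∈ U
    · right; left
      apply le_antisymm
      · intro w hw
        rcases hall w hw with rfl | rfl
        · exact Submodule.zero_mem _
        · exact Submodule.subset_span rfl
      · rw [Submodule.span_le]
        rintro x hx
        rw [Set.mem_singleton_iff] at hx
        rw [hx]
        exact h1
    · left
      rw [eq_bot_iff]
      intro w hw
      rcases hall w hw with rfl | rfl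
      · exact Submodule.zero_mem _
      · exact absurd hw h1

theorem pair_mem (hinv : ∀ σ ∈ M24, ∀ w ∈ U, (fun p => w (σ.symm p)) ∈ U)
    (y : GolayPt → ZMod 2) (hy : y ∈ U) (hy2 : hammingNorm y = 2) (a b : GolayPt) (hab : a ≠ b) :
    ind {a, b} ∈ U := by
  have hc : (support₂ y).card = 2 := by rw [card_support₂]; exact hy2
  obtain ⟨a0, b0, hab0, hs⟩ := Finset.card_eq_two.mp hc
  obtain ⟨g, hg, h1, h2⟩ := trans2 a0 b0 a b hab0 hab
  have h3 := hinv g hg y hy
  have he : (fun p => y (g.symm p)) = ind {a, b} := by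
    apply support₂_injective
    rw [support₂_comp, support_ind, hs, Finset.smul_finset_insert, Finset.smul_finset_singleton,
      Equiv.Perm.smul_def, Equiv.Perm.smul_def, h1, h2]
  rw [← he]
  exact h3

theorem sum_eq_card (w : GolayPt → ZMod 2) : ∑ p, w p = ((support₂ w).card : ZMod 2) := by
  rw [Finset.card_eq_sum_ones, Nat.cast_sum]
  unfold support₂
  rw [Finset.sum_filter]
  apply Finset.sum_congr rfl
  intro p _
  have key : ∀ a : ZMod 2, a = if a ≠ 0 then ((1 : ℕ) : ZMod 2) else 0 := by decide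
  exact key _

theorem even_mem (hpair : ∀ a b : GolayPt, a ≠ b → ind {a, b} ∈ U) :
    ∀ n : ℕ, ∀ w : GolayPt → ZMod 2, (support₂ w).card = n → 2 ∣ n → w ∈ U := by
  intro n
  induction n using Nat.strong_induction_on with
  | _ n ih =>
    intro w hn h2
    by_cases h0 : n = 0
    · have : w = 0 := by
        apply support₂_injective
        have he : support₂ w = ∅ := Finset.card_eq_zero.mp (by rw [hn, h0])
        rw [he]
        ext p
        simp [support₂]
      rw [this]
      exact U.zero_mem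
    · have h1 : 1 < (support₂ w).card := by omega
      obtain ⟨a, ha, b, hb, hab⟩ := Finset.one_lt_card.mp h1
      have hsub : ({a, b} : Finset GolayPt) ⊆ support₂ w := by
        intro x hx
        rw [Finset.mem_insert, Finset.mem_singleton] at hx
        rcases hx with rfl | rfl
        · exact ha
        · exact hb
      have hcard : (support₂ (w + ind {a, b})).card = n - 2 := by
        rw [support₂_add, support_ind, symmDiff_of_ge hsub, Finset.card_sdiff_of_subset hsub,
          Finset.card_pair hab, hn]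
      have hw' := ih (n - 2) (by omega) (w + ind {a, b}) hcard (by omega)
      have := U.add_mem hw' (hpair a b hab)
      have e : w + ind {a, b} + ind {a, b} = w := by
        funext p
        have key : ∀ x y : ZMod 2, x + y + y = x := by decide
        exact key _ _
      rwa [e] at this

theorem big (hinv : ∀ σ ∈ M24, ∀ w ∈ U, (fun p => w (σ.symm p)) ∈ U)
    (y : GolayPt → ZMod 2) (hy : y ∈ U) (hy2 : hammingNorm y = 2) :
    (U : Set (GolayPt → ZMod 2)) = {w | ∑ p, w p = 0} ∨ U = ⊤ := by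
  have hpair := pair_mem U hinv y hy hy2
  have hE : ∀ w : GolayPt → ZMod 2, ∑ p, w p = 0 → w ∈ U := by
    intro w hw
    rw [sum_eq_card] at hw
    exact even_mem U hpair _ w rfl ((ZMod.natCast_eq_zero_iff _ 2).mp hw)
  by_cases hWE : ∀ w ∈ U, ∑ p, w p = 0
  · left
    ext w
    exact ⟨fun h => hWE w h, fun h => hE w h⟩
  · right
    have hex : ∃ w ∈ U, ∑ p, w p ≠ 0 := by
      by_contra hno
      apply hWE
      intro w hw
      by_contra hne
      exact hno ⟨w, hw, hne⟩
    obtain ⟨w, hw, hne⟩ := hex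
    rw [eq_top_iff]
    intro v _
    by_cases hv : ∑ p, v p = 0
    · exact hE v hv
    · have hs : ∑ p, (v + w) p = 0 := by
        simp only [Pi.add_apply, Finset.sum_add_distrib]
        have key : ∀ a b : ZMod 2, a ≠ 0 → b ≠ 0 → a + b = 0 := by decide
        exact key _ _ hv hne
      have := U.add_mem (hE _ hs) hw
      have e : v + w + w = v := by
        funext p
        have key : ∀ x y : ZMod 2, x + y + y = x := by decide
        exact key _ _
      rwa [e] at this

theorem wt_sub_le (a b : GolayPt → ZMod 2) :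
    hammingNorm (a - b) ≤ hammingNorm a + hammingNorm b := by
  rw [sub_eq_add₂, ← card_support₂, ← card_support₂ a, ← card_support₂ b, support₂_add]
  have := card_symmDiff_add (support₂ a) (support₂ b)
  omega

theorem six_fix (T : Finset GolayPt) (hT : T.card = 5) (a b : GolayPt) (ha : a ∉ T)
    (hb : b ∉ T) (hiff : ∀ o ∈ octads, T ⊆ o → (a ∈ o ↔ b ∈ o)) :
    ∃ σ ∈ M24, (∀ p ∈ T, σ p = p) ∧ σ a = b := by
  have h1 := T.nodup_toList
  have h2 := T.toList_toFinset
  have h3 : T.toList.length = 5 := by rw [Finset.length_toList]; exact hT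
  generalize T.toList = l at h1 h2 h3
  rcases l with _ | ⟨t1, _ | ⟨t2, _ | ⟨t3, _ | ⟨t4, _ | ⟨t5, _ | ⟨t6, l'⟩⟩⟩⟩⟩⟩ <;>
    simp at h3
  have hmem : ∀ p, p ∈ T ↔ p = t1 ∨ p = t2 ∨ p = t3 ∨ p = t4 ∨ p = t5 := by
    intro p
    rw [← h2]
    simp
  simp only [List.nodup_cons, List.mem_cons, List.not_mem_nil, or_false, not_or,
    List.nodup_nil, and_true, not_false_eq_true] at h1
  obtain ⟨⟨a1, a2, a3, a4⟩, ⟨b1, b2, b3⟩, ⟨c1, c2⟩, d1⟩ := h1
  have hnd : ∀ c, c ∉ T → [t1, t2, t3, t4, t5, c].Nodup := by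
    intro c hc
    rw [hmem] at hc
    simp only [not_or] at hc
    obtain ⟨e1, e2, e3, e4, e5⟩ := hc
    simp only [List.nodup_cons, List.mem_cons, List.not_mem_nil, or_false, not_or,
      List.nodup_nil, and_true, not_false_eq_true]
    exact ⟨⟨a1, a2, a3, a4, Ne.symm e1⟩, ⟨b1, b2, b3, Ne.symm e2⟩, ⟨c1, c2, Ne.symm e3⟩,
      ⟨d1, Ne.symm e4⟩, Ne.symm e5⟩
  have hsub : ∀ o : Finset GolayPt, t1 ∈ o → t2 ∈ o → t3 ∈ o → t4 ∈ o → t5 ∈ o → T ⊆ o := by
    intro o m1 m2 m3 m4 m5 p hp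
    rcases (hmem p).mp hp with h | h | h | h | h <;> rw [h] <;> assumption
  obtain ⟨σ, hσ, f1, f2, f3, f4, f5, f6⟩ := six_trans t1 t2 t3 t4 t5 a t1 t2 t3 t4 t5 b
    (hnd a ha) (hnd b hb)
    ⟨fun ⟨o, ho, m1, m2, m3, m4, m5, m6⟩ =>
      ⟨o, ho, m1, m2, m3, m4, m5, (hiff o ho (hsub o m1 m2 m3 m4 m5)).mp m6⟩,
     fun ⟨o, ho, m1, m2, m3, m4, m5, m6⟩ =>
      ⟨o, ho, m1, m2, m3, m4, m5, (hiff o ho (hsub o m1 m2 m3 m4 m5)).mpr m6⟩⟩
  refine ⟨σ, hσ, fun p hp => ?_, f6⟩
  rcases (hmem p).mp hp with h | h | h | h | h <;> rw [h] <;> assumption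

theorem pick (T X : Finset GolayPt) (hT : T.card = 5) (hne : (X \ T).Nonempty)
    (hcase : (X \ T).card ≤ 2 ∨ ((X \ T).card ≤ 3 ∧ T ⊆ X ∧ X ∉ octads)) :
    ∃ a ∈ X, a ∉ T ∧ ∃ b, b ∉ X ∧ ∃ σ ∈ M24, (∀ p ∈ T, σ p = p) ∧ σ a = b := by
  obtain ⟨O, ⟨hO, hTO⟩, huniq⟩ := Cfsg.Agent.S0363.result.2 T hT
  have h8 : O.card = 8 := card_octad hO
  have hXT3 : (X \ T).card ≤ 3 := by
    rcases hcase with h | h
    · omega
    · exact h.1
  have fin : ∀ a b, a ∈ X → a ∉ T → b ∉ X → b ∉ T → (a ∈ O ↔ b ∈ O) →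
      ∃ a ∈ X, a ∉ T ∧ ∃ b, b ∉ X ∧ ∃ σ ∈ M24, (∀ p ∈ T, σ p = p) ∧ σ a = b := by
    intro a b haX haT hbX hbT hiff
    obtain ⟨σ, hσ, hfix, hab⟩ := six_fix T hT a b haT hbT
      (fun o ho hsub => by rw [huniq o ⟨ho, hsub⟩]; exact hiff)
    exact ⟨a, haX, haT, b, hbX, σ, hσ, hfix, hab⟩
  by_cases hout : ∃ a ∈ X \ T, a ∉ O
  · obtain ⟨a, ha, haO⟩ := hout
    rw [Finset.mem_sdiff] at ha
    have hcard : (O ∪ X).card < 24 := by
      have hsub : O ∪ X ⊆ O ∪ (X \ T) := by
        intro p hp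
        rw [Finset.mem_union] at hp ⊢
        rcases hp with h | h
        · exact Or.inl h
        · by_cases hpT : p ∈ T
          · exact Or.inl (hTO hpT)
          · exact Or.inr (Finset.mem_sdiff.mpr ⟨h, hpT⟩)
      have := Finset.card_le_card hsub
      have := Finset.card_union_le O (X \ T)
      omega
    obtain ⟨b, hb⟩ : ∃ b, b ∉ O ∪ X := by
      by_contra hall
      have hall' : ∀ b, b ∈ O ∪ X := fun b => by
        by_contra h
        exact hall ⟨b, h⟩
      have : O ∪ X = Finset.univ := Finset.eq_univ_iff_forall.mpr hall'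
      rw [this, Finset.card_univ, card24] at hcard
      omega
    rw [Finset.mem_union, not_or] at hb
    exact fin a b ha.1 ha.2 hb.2 (fun h => hb.1 (hTO h))
      ⟨fun h => absurd h haO, fun h => absurd h hb.1⟩
  · have hin : ∀ a ∈ X \ T, a ∈ O := by
      intro a ha
      by_contra h
      exact hout ⟨a, ha, h⟩
    obtain ⟨a, ha⟩ := hne
    have haO := hin a ha
    rw [Finset.mem_sdiff] at ha
    have hsubO : T ∪ (X \ T) ⊆ O := Finset.union_subset hTO hin
    have hlt : (T ∪ (X \ T)).card < 8 := by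
      have hle := Finset.card_union_le T (X \ T)
      rcases hcase with h | ⟨h3, hTX, hXo⟩
      · omega
      · by_contra hge
        have hge' : 8 ≤ (T ∪ (X \ T)).card := by omega
        have heq : T ∪ (X \ T) = O := Finset.eq_of_subset_of_card_le hsubO (by rw [h8]; exact hge')
        have hX : T ∪ (X \ T) = X := Finset.union_sdiff_of_subset hTX
        rw [hX] at heq
        exact hXo (heq ▸ hO)
    have hex : (O \ (T ∪ (X \ T))).Nonempty := by
      rw [← Finset.card_pos, Finset.card_sdiff_of_subset hsubO]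
      omega
    obtain ⟨b, hb⟩ := hex
    rw [Finset.mem_sdiff, Finset.mem_union, not_or, Finset.mem_sdiff] at hb
    have hbX : b ∉ X := fun h => hb.2.2 ⟨h, hb.2.1⟩
    exact fin a b ha.1 ha.2 hbX hb.2.1 ⟨fun _ => hb.1, fun _ => haO⟩

theorem step (hinv : ∀ σ ∈ M24, ∀ w ∈ U, (fun p => w (σ.symm p)) ∈ U)
    (x : GolayPt → ZMod 2) (hx : x ∈ U) (T : Finset GolayPt) (k : ℕ)
    (hk : k ≤ (T ∩ support₂ x).card) (a b : GolayPt) (ha : a ∈ support₂ x)
    (hb : b ∉ support₂ x) (σ : Equiv.Perm GolayPt) (hσ : σ ∈ M24) (hfix : ∀ p ∈ T, σ p = p)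
    (hab : σ a = b) :
    ∃ y ∈ U, y ≠ 0 ∧ hammingNorm y + 2 * k ≤ 2 * hammingNorm x ∧ 2 ∣ hammingNorm y := by
  have hs : support₂ ((fun p => x (σ.symm p)) - x)
      = symmDiff (σ • support₂ x) (support₂ x) := by
    rw [sub_eq_add₂, support₂_add, support₂_comp]
  have hbs : b ∈ σ • support₂ x := by
    have := Finset.smul_mem_smul_finset (a := σ) ha
    rwa [Equiv.Perm.smul_def, hab] at this
  have hsum := card_symmDiff_add (σ • support₂ x) (support₂ x)
  rw [Finset.card_smul_finset, card_support₂] at hsum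
  refine ⟨(fun p => x (σ.symm p)) - x, U.sub_mem (hinv σ hσ x hx) hx, ?_, ?_, ?_⟩
  · intro h0
    have : b ∈ support₂ ((fun p => x (σ.symm p)) - x) := by
      rw [hs, Finset.mem_symmDiff]
      exact Or.inl ⟨hbs, hb⟩
    rw [h0] at this
    simp [support₂] at this
  · have hsub : T ∩ support₂ x ⊆ σ • support₂ x ∩ support₂ x := by
      intro p hp
      rw [Finset.mem_inter] at hp ⊢
      refine ⟨?_, hp.2⟩
      have := Finset.smul_mem_smul_finset (a := σ) hp.2
      rwa [Equiv.Perm.smul_def, hfix p hp.1] at this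
    have := Finset.card_le_card hsub
    rw [← card_support₂ ((fun p => x (σ.symm p)) - x), hs]
    omega
  · rw [← card_support₂ ((fun p => x (σ.symm p)) - x), hs]
    omega

theorem descend (hinv : ∀ σ ∈ M24, ∀ w ∈ U, (fun p => w (σ.symm p)) ∈ U)
    (x : GolayPt → ZMod 2) (hx : x ∈ U) (hxC : x ∉ golayCode) (hn : hammingNorm x ≤ 8) :
    ∃ y ∈ U, hammingNorm y = 2 ∨ (y ∉ golayCode ∧ hammingNorm y < hammingNorm x) := by
  have hc := card_support₂ x
  have hX0 : (support₂ x).Nonempty := by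
    rw [Finset.nonempty_iff_ne_empty]
    intro h
    apply hxC
    have : x = 0 := by
      apply support₂_injective
      rw [h]
      ext p
      simp [support₂]
    rw [this]
    exact golayCode.zero_mem
  have hXo : support₂ x ∉ octads := by
    rintro ⟨⟨c, hcC, hcs⟩, -⟩
    exact hxC (support₂_injective hcs ▸ hcC)
  have fin : ∀ y ∈ U, y ≠ 0 → hammingNorm y ≤ 6 → hammingNorm y < hammingNorm x →
      (∃ y ∈ U, hammingNorm y = 2 ∨ (y ∉ golayCode ∧ hammingNorm y < hammingNorm x)) := by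
    intro y hy hy0 h6 hlt
    exact ⟨y, hy, Or.inr ⟨fun hC => by have := wt_ge hC hy0; omega, hlt⟩⟩
  by_cases h5 : hammingNorm x ≤ 5
  · obtain ⟨a, ha⟩ := hX0
    have hsub : (support₂ x).erase a ⊆ Finset.univ.erase a := fun p hp =>
      Finset.mem_erase.mpr ⟨(Finset.mem_erase.mp hp).1, Finset.mem_univ p⟩
    obtain ⟨T, hT1, hT2, hT5⟩ := Finset.exists_subsuperset_card_eq (n := 5) hsub
      (by rw [Finset.card_erase_of_mem ha]; omega)
      (by rw [Finset.card_erase_of_mem (Finset.mem_univ a), Finset.card_univ, card24]; norm_num)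
    have haT : a ∉ T := fun h => (Finset.mem_erase.mp (hT2 h)).1 rfl
    have hXT : support₂ x \ T ⊆ {a} := by
      intro p hp
      rw [Finset.mem_sdiff] at hp
      rw [Finset.mem_singleton]
      by_contra hne
      exact hp.2 (hT1 (Finset.mem_erase.mpr ⟨hne, hp.1⟩))
    have hXTc : (support₂ x \ T).card ≤ 1 := by
      have := Finset.card_le_card hXT
      rwa [Finset.card_singleton] at this
    obtain ⟨a', ha', ha'T, b, hb, σ, hσ, hfix, hab⟩ := pick T (support₂ x) hT5
      ⟨a, Finset.mem_sdiff.mpr ⟨ha, haT⟩⟩ (Or.inl (by omega))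
    have hk : (support₂ x).card - 1 ≤ (T ∩ support₂ x).card := by
      have h1 : (support₂ x).erase a ⊆ T ∩ support₂ x := fun p hp =>
        Finset.mem_inter.mpr ⟨hT1 hp, (Finset.mem_erase.mp hp).2⟩
      have := Finset.card_le_card h1
      rwa [Finset.card_erase_of_mem ha] at this
    obtain ⟨y, hy, hy0, hle, hdvd⟩ := step U hinv x hx T _ hk a' b ha' hb σ hσ hfix hab
    refine ⟨y, hy, Or.inl ?_⟩
    have hpos : 0 < hammingNorm y := by
      rw [Nat.pos_iff_ne_zero]
      intro h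
      exact hy0 (hammingNorm_eq_zero.mp h)
    have hcpos : 0 < (support₂ x).card := Finset.card_pos.mpr ⟨a, ha⟩
    omega
  · obtain ⟨T, hTX, hT5⟩ := Finset.exists_subset_card_eq (show 5 ≤ (support₂ x).card by omega)
    have hcd : (support₂ x \ T).card = (support₂ x).card - 5 := by
      rw [Finset.card_sdiff_of_subset hTX, hT5]
    have hne : (support₂ x \ T).Nonempty := by
      rw [← Finset.card_pos]
      omega
    obtain ⟨a', ha', ha'T, b, hb, σ, hσ, hfix, hab⟩ := pick T (support₂ x) hT5 hne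
      (Or.inr ⟨by omega, hTX, hXo⟩)
    have hk : 5 ≤ (T ∩ support₂ x).card := by
      rw [Finset.inter_eq_left.mpr hTX, hT5]
    obtain ⟨y, hy, hy0, hle, hdvd⟩ := step U hinv x hx T 5 hk a' b ha' hb σ hσ hfix hab
    exact fin y hy hy0 (by omega) (by omega)

theorem exists_two (hinv : ∀ σ ∈ M24, ∀ w ∈ U, (fun p => w (σ.symm p)) ∈ U) :
    ∀ n : ℕ, ∀ x ∈ U, x ∉ golayCode → hammingNorm x = n → ∃ y ∈ U, hammingNorm y = 2 := by
  intro n
  induction n using Nat.strong_induction_on with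
  | _ n ih =>
    intro x hx hxC hn
    by_cases h8 : n ≤ 8
    · obtain ⟨y, hy, h⟩ := descend U hinv x hx hxC (by omega)
      rcases h with h2 | ⟨hyC, hlt⟩
      · exact ⟨y, hy, h2⟩
      · exact ih (hammingNorm y) (by omega) y hy hyC rfl
    · obtain ⟨v, hv4, hxv⟩ := exists_light x
      obtain ⟨σ, hσ, hσu, hσx⟩ := main (x - v) hxv x hxC
      have hy : (fun p => x (σ.symm p)) - x ∈ U := U.sub_mem (hinv σ hσ x hx) hx
      have e : (fun p => x (σ.symm p)) - x = (fun p => v (σ.symm p)) - v := by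
        funext p
        have h := congrFun hσu p
        simp only [Pi.sub_apply] at h ⊢
        linear_combination h
      have hwt : hammingNorm ((fun p => x (σ.symm p)) - x) ≤ 8 := by
        rw [e]
        have := wt_sub_le (fun p => v (σ.symm p)) v
        have hnorm : hammingNorm (fun p => v (σ.symm p)) = hammingNorm v := by
          rw [← card_support₂, ← card_support₂, support₂_comp, Finset.card_smul_finset]
        omega
      exact ih _ (by omega) _ hy hσx rfl

theorem main' (W : Submodule (ZMod 2) (GolayPt → ZMod 2))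
    (hW : ∀ σ ∈ M24, ∀ w ∈ W, (fun p => w (σ.symm p)) ∈ W) :
    W = ⊥ ∨ W = Submodule.span (ZMod 2) {fun _ => (1 : ZMod 2)} ∨ W = golayCode ∨
      (W : Set (GolayPt → ZMod 2)) = {w | ∑ p, w p = 0} ∨ W = ⊤ := by
  by_cases hWC : W ≤ golayCode
  · rcases sub_code W hW hWC with h | h | h
    · exact Or.inl h
    · exact Or.inr (Or.inl h)
    · exact Or.inr (Or.inr (Or.inl h))
  · obtain ⟨x, hx, hxC⟩ := SetLike.not_le_iff_exists.mp hWC
    obtain ⟨y, hy, hy2⟩ := exists_two W hW _ x hx hxC rfl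
    rcases big W hW y hy hy2 with h | h
    · exact Or.inr (Or.inr (Or.inr (Or.inl h)))
    · exact Or.inr (Or.inr (Or.inr (Or.inr h)))

end Cfsg.Agent.Lib_lead_InvSub
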