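import Mathlib
import Cfsg.Prelude.Def_Sporadic_a
import Cfsg.Agent.Lib_lead_Golay
import Cfsg.Agent.Lib_lead_GolayPerm
import Cfsg.Agent.Lib_lead_Leech

/-! Monomial symmetries of the rank-24 lattice. -/

set_option autoImplicit false

namespace Cfsg.Agent.Lib_lead_Leech2

open Cfsg Cfsg.Agent.Lib_lead_Golay Cfsg.Agent.Lib_lead_GolayPerm Cfsg.Agent.Lib_lead_Leech
open scoped Pointwise

theorem perm_mem {σ : Equiv.Perm GolayPt} (hσ : σ ∈ M24) {x : GolayPt → ℤ}
    (hx : x ∈ leechLattice) : (fun i => x (σ i)) ∈ leechLattice := by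
  rw [mem_leechLattice_iff] at hx ⊢
  have hS : ∀ k, Sx (fun i => x (σ i)) k = σ⁻¹ • Sx x k := by
    intro k
    ext i
    rw [mem_Sx, Finset.mem_smul_finset]
    constructor
    · intro h
      exact ⟨σ i, mem_Sx.mpr h, by simp⟩
    · rintro ⟨j, hj, rfl⟩
      rw [mem_Sx] at hj
      simpa using hj
  have hsum : ∑ i, x (σ i) = ∑ i, x i := Equiv.sum_comp σ x
  rcases hx with ⟨h2, h8, hS2⟩ | ⟨h2, h8, hS1⟩
  · left
    exact ⟨fun i => h2 (σ i), by rw [hsum]; exact h8,
      by rw [hS]; exact smul_mem_supports (M24.inv_mem hσ) hS2⟩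
  · right
    exact ⟨fun i => h2 (σ i), by rw [hsum]; exact h8,
      by rw [hS]; exact smul_mem_supports (M24.inv_mem hσ) hS1⟩

theorem signflip_mem {c : Finset GolayPt} (hc : c ∈ Supp) {x : GolayPt → ℤ}
    (hx : x ∈ leechLattice) : (fun i => if i ∈ c then -x i else x i) ∈ leechLattice := by
  rw [mem_leechLattice_iff] at hx ⊢
  have hsum : ∑ i, (if i ∈ c then -x i else x i) = ∑ i, x i - 2 * ∑ i ∈ c, x i := by
    have h1 : ∀ i, (if i ∈ c then -x i else x i) = x i - 2 * (if i ∈ c then x i else 0) := by
      intro i
      split_ifs <;> ring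
    simp only [h1, Finset.sum_sub_distrib, ← Finset.mul_sum]
    rw [Finset.sum_ite_mem, Finset.univ_inter]
  rcases hx with ⟨h2, h8, hS⟩ | ⟨h2, h8, hS⟩
  · left
    refine ⟨fun i => ?_, ?_, ?_⟩
    · have h := h2 i
      show (if i ∈ c then -x i else x i) % 2 = 0
      split_ifs <;> omega
    · rw [hsum]
      have h4 : (∑ i ∈ c, x i) % 4 = 0 := by
        have hterm : ∀ i ∈ c, (4 : ℤ) ∣ x i - (if i ∈ Sx x 2 then 2 else 0) := by
          intro i _
          have h := h2 i
          by_cases hm : i ∈ Sx x 2
          · rw [if_pos hm]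
            rw [mem_Sx] at hm
            omega
          · rw [if_neg hm]
            rw [mem_Sx] at hm
            omega
        obtain ⟨T, hT⟩ := Finset.dvd_sum hterm
        rw [Finset.sum_sub_distrib, Finset.sum_ite_mem, Finset.sum_const, nsmul_eq_mul] at hT
        obtain ⟨e, he⟩ := even_card_inter hc hS
        rw [he] at hT
        push_cast at hT
        omega
      omega
    · have h : Sx (fun i => if i ∈ c then -x i else x i) 2 = Sx x 2 := by
        apply Sx_eq
        intro i
        rw [mem_Sx]
        have h := h2 i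
        by_cases hi : i ∈ c
        · simp only [hi, if_true]
          omega
        · simp only [hi, if_false]
      rw [h]
      exact hS
  · right
    refine ⟨fun i => ?_, ?_, ?_⟩
    · have h := h2 i
      show (if i ∈ c then -x i else x i) % 2 = 1
      split_ifs <;> omega
    · rw [hsum]
      have h4 : (∑ i ∈ c, x i) % 4 = 0 := by
        have hterm : ∀ i ∈ c, (4 : ℤ) ∣ x i + 1 - (if i ∈ Sx x 1 then 2 else 0) := by
          intro i _
          have h := h2 i
          by_cases hm : i ∈ Sx x 1
          · rw [if_pos hm]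
            rw [mem_Sx] at hm
            omega
          · rw [if_neg hm]
            rw [mem_Sx] at hm
            omega
        obtain ⟨T, hT⟩ := Finset.dvd_sum hterm
        rw [Finset.sum_sub_distrib, Finset.sum_add_distrib, Finset.sum_ite_mem, Finset.sum_const,
          Finset.sum_const, nsmul_eq_mul, nsmul_eq_mul] at hT
        obtain ⟨e, he⟩ := even_card_inter hc hS
        obtain ⟨f, hf⟩ := four_dvd_card hc
        rw [he, hf] at hT
        push_cast at hT
        omega
      omega
    · have h : Sx (fun i => if i ∈ c then -x i else x i) 1 = symmDiff (Sx x 1) c := by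
        apply Sx_eq
        intro i
        rw [Finset.mem_symmDiff, mem_Sx]
        have h := h2 i
        by_cases hi : i ∈ c
        · simp only [hi, if_true, not_true_eq_false, and_false, false_or, true_and]
          omega
        · simp only [hi, if_false, not_false_eq_true, and_true, false_and, or_false]
      rw [h]
      exact symmDiff_mem hS hc

end Cfsg.Agent.Lib_lead_Leech2
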