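import Mathlib
import Cfsg.Prelude.Def_Sporadic_a
import Cfsg.Agent.Lib_lead_Leech
import Cfsg.Agent.Lib_lead_Coset

/-! The index of the rank-24 lattice in the lattice of all integer vectors. -/

set_option autoImplicit false

namespace Cfsg.Agent.Lib_lead_LeechIndex

open Cfsg Cfsg.Agent.Lib_lead_Leech

/-- reduction modulo 2 -/
def par : (GolayPt → ℤ) →+ (GolayPt → ZMod 2) := (Int.castAddHom (ZMod 2)).compLeft GolayPt

theorem par_apply (x : GolayPt → ℤ) (i : GolayPt) : par x i = (x i : ZMod 2) := rfl

theorem cast_ne_zero_iff (a : ℤ) : ((a : ZMod 2) ≠ 0) ↔ a % 2 = 1 := by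
  rw [Ne, ZMod.intCast_zmod_eq_zero_iff_dvd]
  constructor
  · intro h
    omega
  · intro h h'
    omega

theorem par_surj : Function.Surjective par := by
  intro w
  refine ⟨fun i => ((w i).val : ℤ), ?_⟩
  ext i
  rw [par_apply]
  simp

/-- vectors whose reduction modulo 2 is a codeword -/
def E1 : AddSubgroup (GolayPt → ℤ) := golayCode.toAddSubgroup.comap par

theorem mem_E1 (x : GolayPt → ℤ) : x ∈ E1 ↔ par x ∈ golayCode := Iff.rfl

theorem index_E1 : E1.index = 4096 := by
  unfold E1
  rw [AddSubgroup.index_comap_of_surjective _ par_surj]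
  have h := AddSubgroup.card_mul_index golayCode.toAddSubgroup
  have hC : Nat.card golayCode.toAddSubgroup = 4096 := Cfsg.Agent.Lib_lead_Coset.card_code
  have hV : Nat.card (GolayPt → ZMod 2) = 2 ^ 24 := by
    rw [Nat.card_eq_fintype_card, Fintype.card_fun, ZMod.card, card_golayPt]
  rw [hC, hV] at h
  omega

/-- the coordinate sum modulo 4 -/
def sm : (GolayPt → ℤ) →+ ZMod 4 :=
  AddMonoidHom.mk' (fun x => ((∑ i, x i : ℤ) : ZMod 4)) (by
    intro a b
    simp [Finset.sum_add_distrib])

theorem sm_apply (x : GolayPt → ℤ) : sm x = ((∑ i, x i : ℤ) : ZMod 4) := rfl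

theorem sm_eq_zero (x : GolayPt → ℤ) : sm x = 0 ↔ (∑ i, x i) % 4 = 0 := by
  rw [sm_apply, ZMod.intCast_zmod_eq_zero_iff_dvd]
  constructor
  · intro h
    omega
  · intro h
    omega

/-- the sum of a vector has the parity of the number of its odd coordinates -/
theorem sum_parity (x : GolayPt → ℤ) :
    ((∑ i, x i : ℤ) : ZMod 2) = ((support₂ (par x)).card : ZMod 2) := by
  rw [Int.cast_sum]
  have h1 : ∀ i : GolayPt, ((x i : ℤ) : ZMod 2) = if i ∈ support₂ (par x) then 1 else 0 := by
    intro i
    by_cases h : i ∈ support₂ (par x)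
    · rw [if_pos h]
      have h' : par x i ≠ 0 := by
        unfold support₂ at h
        exact (Finset.mem_filter.mp h).2
      rw [par_apply] at h'
      have key : ∀ a : ZMod 2, a ≠ 0 → a = 1 := by decide
      exact key _ h'
    · rw [if_neg h]
      by_contra h'
      apply h
      unfold support₂
      exact Finset.mem_filter.mpr ⟨Finset.mem_univ _, h'⟩
  rw [Finset.sum_congr rfl (fun i _ => h1 i), Finset.sum_ite_mem, Finset.univ_inter,
    Finset.sum_const, nsmul_eq_mul, mul_one]

theorem sum_even_of_mem {x : GolayPt → ℤ} (hx : x ∈ E1) : (∑ i, x i) % 2 = 0 := by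
  have h1 := sum_parity x
  have h2 : support₂ (par x) ∈ Supp := ⟨par x, hx, rfl⟩
  obtain ⟨u, hu⟩ := four_dvd_card h2
  have h3 : ((support₂ (par x)).card : ZMod 2) = 0 := by
    rw [hu, Nat.cast_mul]
    have h4 : ((4 : ℕ) : ZMod 2) = 0 := by decide
    rw [h4, zero_mul]
  rw [h3, ZMod.intCast_zmod_eq_zero_iff_dvd] at h1
  omega

/-- vectors reducing to a codeword, with coordinate sum divisible by 4 -/
def L1 : AddSubgroup (GolayPt → ℤ) := sm.ker ⊓ E1

theorem map_E1 : ((E1.map sm : AddSubgroup (ZMod 4)) : Set (ZMod 4)) = {0, 2} := by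
  ext z
  constructor
  · rintro ⟨x, hx, rfl⟩
    have h1 := sum_even_of_mem hx
    rw [sm_apply]
    have h2 : (∑ i, x i) % 4 = 0 ∨ (∑ i, x i) % 4 = 2 := by omega
    rcases h2 with h2 | h2
    · left
      rw [ZMod.intCast_zmod_eq_zero_iff_dvd]
      omega
    · right
      have h3 : ((∑ i, x i : ℤ) : ZMod 4) = ((2 : ℤ) : ZMod 4) := by
        rw [ZMod.intCast_eq_intCast_iff_dvd_sub]
        omega
      rw [h3]
      rfl
  · intro hz
    rcases hz with rfl | rfl
    · exact ⟨0, E1.zero_mem, map_zero sm⟩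
    · refine ⟨Pi.single none 2, ?_, ?_⟩
      · rw [SetLike.mem_coe, mem_E1]
        have h0 : par (Pi.single none 2) = 0 := by
          ext i
          rw [par_apply]
          by_cases hi : i = none
          · rw [hi, Pi.single_eq_same]
            rfl
          · rw [Pi.single_eq_of_ne hi]
            rfl
        rw [h0]
        exact golayCode.zero_mem
      · rw [sm_apply, Finset.sum_pi_single']
        simp

theorem relIndex_L1 : L1.relIndex E1 = 2 := by
  unfold L1
  rw [AddSubgroup.inf_relIndex_right, AddSubgroup.relIndex_ker]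
  have h : Nat.card ↥(E1.map sm) = Set.ncard ((E1.map sm : AddSubgroup (ZMod 4)) : Set (ZMod 4)) :=
    rfl
  rw [h, map_E1, Set.ncard_pair (by decide)]

theorem index_L1 : L1.index = 8192 := by
  have h := AddSubgroup.relIndex_mul_index (H := L1) (K := E1) inf_le_right
  rw [relIndex_L1, index_E1] at h
  omega

/-- doubling -/
def dbl : (GolayPt → ℤ) →+ (GolayPt → ℤ) :=
  AddMonoidHom.mk' (fun x => fun i => 2 * x i) (by
    intro a b
    ext i
    simp [mul_add])

theorem dbl_apply (x : GolayPt → ℤ) (i : GolayPt) : dbl x i = 2 * x i := rfl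

theorem dbl_inj : Function.Injective dbl := by
  intro a b h
  ext i
  have h1 := congrFun h i
  rw [dbl_apply, dbl_apply] at h1
  omega

theorem dbl_range : dbl.range = par.ker := by
  ext x
  rw [AddMonoidHom.mem_range, AddMonoidHom.mem_ker]
  constructor
  · rintro ⟨y, rfl⟩
    ext i
    rw [par_apply, dbl_apply]
    have h2 : ((2 : ℤ) : ZMod 2) = 0 := by decide
    rw [Int.cast_mul, h2, zero_mul]
    rfl
  · intro h
    refine ⟨fun i => x i / 2, ?_⟩
    ext i
    rw [dbl_apply]
    have h1 := congrFun h i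
    rw [par_apply, Pi.zero_apply, ZMod.intCast_zmod_eq_zero_iff_dvd] at h1
    omega

theorem index_dbl : dbl.range.index = 2 ^ 24 := by
  rw [dbl_range, AddSubgroup.index_ker, AddMonoidHom.range_eq_top.mpr par_surj,
    AddSubgroup.card_top, Nat.card_eq_fintype_card, Fintype.card_fun, ZMod.card, card_golayPt]

/-- the even vectors of the lattice -/
def L0 : AddSubgroup (GolayPt → ℤ) := L1.map dbl

theorem index_L0 : L0.index = 2 ^ 37 := by
  unfold L0
  rw [AddSubgroup.index_map_of_injective L1 dbl_inj, index_L1, index_dbl]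
  norm_num

theorem Sx_dbl (y : GolayPt → ℤ) : Sx (dbl y) 2 = support₂ (par y) := by
  ext i
  rw [mem_Sx, dbl_apply]
  unfold support₂
  rw [Finset.mem_filter, par_apply, cast_ne_zero_iff]
  constructor
  · intro h
    exact ⟨Finset.mem_univ _, by omega⟩
  · rintro ⟨-, h⟩
    omega

theorem mem_L0 (x : GolayPt → ℤ) : x ∈ L0 ↔ IsEvenVec x := by
  unfold L0
  rw [AddSubgroup.mem_map]
  constructor
  · rintro ⟨y, hy, rfl⟩
    obtain ⟨h1', h2⟩ := hy
    have h1 : y ∈ sm.ker := h1'
    rw [AddMonoidHom.mem_ker, sm_eq_zero] at h1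
    refine ⟨fun i => ?_, ?_, ?_⟩
    · rw [dbl_apply]
      omega
    · have h3 : ∑ i, dbl y i = 2 * ∑ i, y i := by
        rw [Finset.mul_sum]
        rfl
      rw [h3]
      omega
    · rw [Sx_dbl]
      exact ⟨par y, h2, rfl⟩
  · rintro ⟨h1, h2, h3⟩
    have hx : dbl (fun i => x i / 2) = x := by
      ext i
      rw [dbl_apply]
      have := h1 i
      omega
    refine ⟨fun i => x i / 2, AddSubgroup.mem_inf.mpr ⟨?_, ?_⟩, hx⟩
    · rw [AddMonoidHom.mem_ker, sm_eq_zero]
      have h4 : ∑ i, x i = 2 * ∑ i, x i / 2 := by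
        rw [Finset.mul_sum]
        apply Finset.sum_congr rfl
        intro i _
        have := h1 i
        omega
      omega
    · rw [mem_E1]
      rw [← hx, Sx_dbl] at h3
      obtain ⟨w, hw, hw'⟩ := h3
      have h5 : w = par (fun i => x i / 2) := by
        ext i
        have h6 : i ∈ support₂ w ↔ i ∈ support₂ (par fun i => x i / 2) := by rw [hw']
        unfold support₂ at h6
        rw [Finset.mem_filter, Finset.mem_filter] at h6
        have key : ∀ a b : ZMod 2, ((True ∧ a ≠ 0) ↔ (True ∧ b ≠ 0)) → a = b := by decide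
        exact key _ _ (by simpa using h6)
      rw [← h5]
      exact hw

/-- the parity of one coordinate -/
def t0 : (GolayPt → ℤ) →+ ZMod 2 :=
  (Int.castAddHom (ZMod 2)).comp (Pi.evalAddMonoidHom (fun _ : GolayPt => ℤ) none)

theorem t0_apply (x : GolayPt → ℤ) : t0 x = (x none : ZMod 2) := rfl

/-- an odd vector of the lattice -/
def w0 : GolayPt → ℤ := fun i => 1 + (if i ∈ ({none} : Finset GolayPt) then -4 else 0)

theorem w0_mem : w0 ∈ leechLattice := by
  rw [mem_leechLattice_iff]
  right
  refine ⟨fun i => ?_, ?_, ?_⟩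
  · unfold w0
    split_ifs <;> decide
  · unfold w0
    rw [Finset.sum_add_distrib, sum_indicator, Finset.sum_const, Finset.card_univ, card_golayPt,
      Finset.card_singleton]
    decide
  · have h : Sx w0 1 = Finset.univ := by
      apply Sx_eq
      intro i
      unfold w0
      simp only [Finset.mem_univ, iff_true]
      split_ifs <;> decide
    rw [h]
    exact univ_mem

theorem L0_eq : L0 = t0.ker ⊓ leechLattice := by
  ext x
  rw [mem_L0, AddSubgroup.mem_inf, AddMonoidHom.mem_ker, t0_apply, mem_leechLattice_iff,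
    ZMod.intCast_zmod_eq_zero_iff_dvd]
  constructor
  · intro h
    refine ⟨?_, Or.inl h⟩
    have := h.1 none
    omega
  · rintro ⟨h1, h2 | h2⟩
    · exact h2
    · exfalso
      have := h2.1 none
      omega

theorem relIndex_L0 : L0.relIndex leechLattice = 2 := by
  rw [L0_eq, AddSubgroup.inf_relIndex_right, AddSubgroup.relIndex_ker]
  have htop : leechLattice.map t0 = ⊤ := by
    rw [eq_top_iff]
    intro z _
    have key : ∀ z : ZMod 2, z = 0 ∨ z = 1 := by decide
    rcases key z with rfl | rfl
    · exact (leechLattice.map t0).zero_mem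
    · refine ⟨w0, w0_mem, ?_⟩
      rw [t0_apply]
      unfold w0
      simp
      decide
  rw [htop, AddSubgroup.card_top, Nat.card_eq_fintype_card, ZMod.card]

/-- the lattice has index `2 ^ 36` -/
theorem main : leechLattice.index = 2 ^ 36 := by
  have hle : L0 ≤ leechLattice := by
    rw [L0_eq]
    exact inf_le_right
  have h := AddSubgroup.relIndex_mul_index hle
  rw [relIndex_L0, index_L0] at h
  omega

end Cfsg.Agent.Lib_lead_LeechIndex
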