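import Mathlib
import Cfsg.Prelude.Def_Sporadic_a
import Cfsg.Agent.Lib_lead_Leech
import Cfsg.Agent.Lib_lead_Coset
import Cfsg.Agent.S0360

/-! The 196560 minimal vectors of the rank-24 lattice. -/

set_option autoImplicit false

namespace Cfsg.Agent.Lib_lead_MinVec

open Cfsg Cfsg.Agent.Lib_lead_Golay Cfsg.Agent.Lib_lead_Leech

theorem support₂_inj : Function.Injective (support₂ : (GolayPt → ZMod 2) → Finset GolayPt) := by
  intro v w h
  funext i
  have h1 : i ∈ support₂ v ↔ i ∈ support₂ w := by rw [h]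
  unfold support₂ at h1
  simp only [Finset.mem_filter, Finset.mem_univ, true_and] at h1
  have hv : ∀ a : ZMod 2, a = 0 ∨ a = 1 := by decide
  rcases hv (v i) with h2 | h2 <;> rcases hv (w i) with h3 | h3
  · rw [h2, h3]
  · rw [h2, h3] at h1
    simp at h1
  · rw [h2, h3] at h1
    simp at h1
  · rw [h2, h3]

theorem ncard_Supp : (Supp : Set (Finset GolayPt)).ncard = 4096 := by
  show (support₂ '' (golayCode : Set (GolayPt → ZMod 2))).ncard = 4096
  rw [Set.ncard_image_of_injective _ support₂_inj]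
  have h := Cfsg.Agent.Lib_lead_Coset.card_code
  rw [← h]
  rfl

theorem octads_sub {O : Finset GolayPt} (h : O ∈ octads) : O ∈ Supp ∧ O.card = 8 := h

theorem sum_single (j : GolayPt) (c : ℤ) : ∑ i : GolayPt, (if i = j then c else 0) = c := by
  rw [Finset.sum_ite_eq' Finset.univ j (fun _ => c), if_pos (Finset.mem_univ j)]

theorem sum_one : ∑ _i : GolayPt, (1 : ℤ) = 24 := by
  rw [Finset.sum_const, Finset.card_univ, card_golayPt]
  rfl

/-! ### The odd vectors -/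

/-- the odd minimal vector with the given set of positions congruent to 1 and exceptional
position -/
def fC (p : Finset GolayPt × GolayPt) : GolayPt → ℤ :=
  fun i => (if i ∈ p.1 then 1 else -1) + (if i = p.2 then (if p.2 ∈ p.1 then -4 else 4) else 0)

theorem fC_cases (C : Finset GolayPt) (j i : GolayPt) :
    (i ≠ j ∧ i ∈ C ∧ fC (C, j) i = 1) ∨ (i ≠ j ∧ i ∉ C ∧ fC (C, j) i = -1) ∨
      (i = j ∧ i ∈ C ∧ fC (C, j) i = -3) ∨ (i = j ∧ i ∉ C ∧ fC (C, j) i = 3) := by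
  unfold fC
  by_cases h2 : i = j
  · subst h2
    by_cases h1 : i ∈ C
    · right; right; left
      simp [h1]
    · right; right; right
      simp [h1]
  · by_cases h1 : i ∈ C
    · left
      simp [h1, h2]
    · right; left
      simp [h1, h2]

theorem fC_mod4 (C : Finset GolayPt) (j i : GolayPt) : fC (C, j) i % 4 = 1 % 4 ↔ i ∈ C := by
  rcases fC_cases C j i with ⟨-, h, e⟩ | ⟨-, h, e⟩ | ⟨-, h, e⟩ | ⟨-, h, e⟩ <;> rw [e] <;>
    simp [h]

theorem fC_odd (C : Finset GolayPt) (j i : GolayPt) : fC (C, j) i % 2 = 1 := by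
  rcases fC_cases C j i with ⟨-, h, e⟩ | ⟨-, h, e⟩ | ⟨-, h, e⟩ | ⟨-, h, e⟩ <;> rw [e] <;> rfl

theorem fC_sq (C : Finset GolayPt) (j i : GolayPt) :
    fC (C, j) i ^ 2 = 1 + (if i = j then 8 else 0) := by
  rcases fC_cases C j i with ⟨h2, h, e⟩ | ⟨h2, h, e⟩ | ⟨h2, h, e⟩ | ⟨h2, h, e⟩ <;> rw [e] <;>
    simp [h2]

theorem fC_sum (C : Finset GolayPt) (j : GolayPt) :
    ∑ i, fC (C, j) i = 2 * (C.card : ℤ) - 24 + (if j ∈ C then -4 else 4) := by
  unfold fC
  have h1 : ∀ i : GolayPt, (if i ∈ C then (1 : ℤ) else -1) = (if i ∈ C then 2 else 0) - 1 := by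
    intro i
    split_ifs <;> norm_num
  simp only [h1]
  rw [Finset.sum_add_distrib, Finset.sum_sub_distrib, sum_indicator, sum_one, sum_single]

theorem Sx_fC (C : Finset GolayPt) (j : GolayPt) : Sx (fC (C, j)) 1 = C :=
  Sx_eq _ _ _ (fun i => fC_mod4 C j i)

theorem fC_mem (C : Finset GolayPt) (hC : C ∈ Supp) (j : GolayPt) :
    fC (C, j) ∈ leechLattice ∧ sqNorm (fC (C, j)) = 32 := by
  constructor
  · rw [mem_leechLattice_iff]
    right
    refine ⟨fC_odd C j, ?_, ?_⟩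
    · rw [fC_sum]
      obtain ⟨m, hm⟩ := four_dvd_card hC
      rw [hm]
      push_cast
      split_ifs <;> omega
    · rw [Sx_fC]
      exact hC
  · unfold sqNorm
    simp only [fC_sq]
    rw [Finset.sum_add_distrib, sum_one, sum_single]
    rfl

theorem fC_inj : Function.Injective fC := by
  rintro ⟨C, j⟩ ⟨C', j'⟩ h
  have hC : C = C' := by rw [← Sx_fC C j, ← Sx_fC C' j', h]
  subst hC
  have hj : j = j' := by
    by_contra hne
    have h1 := fC_sq C j j
    have h2 := fC_sq C j' j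
    rw [h] at h1
    rw [h1] at h2
    simp [hne] at h2
  rw [hj]

theorem sq_cases {a : ℤ} (h : a ^ 2 = 1) : a = 1 ∨ a = -1 := by
  have h1 : (a - 1) * (a + 1) = 0 := by ring_nf; omega
  rcases mul_eq_zero.mp h1 with h2 | h2
  · left; omega
  · right; omega

theorem sq_cases3 {a : ℤ} (h : a ^ 2 = 9) : a = 3 ∨ a = -3 := by
  have h1 : (a - 3) * (a + 3) = 0 := by ring_nf; omega
  rcases mul_eq_zero.mp h1 with h2 | h2
  · left; omega
  · right; omega

theorem exists_fC {x : GolayPt → ℤ} (hx : x ∈ leechLattice) (hn : sqNorm x = 32)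
    (hodd : ∀ i, x i % 2 = 1) : ∃ C ∈ Supp, ∃ j, fC (C, j) = x := by
  classical
  have hO : IsOddVec x := by
    rcases (mem_leechLattice_iff x).mp hx with h | h
    · have h1 := h.1 (none : GolayPt)
      have h2 := hodd (none : GolayPt)
      omega
    · exact h
  unfold sqNorm at hn
  have hsum : ∑ i, (x i ^ 2 - 1) = 8 := by
    rw [Finset.sum_sub_distrib, hn, sum_one]
    rfl
  have hge : ∀ i, x i ^ 2 - 1 = 0 ∨ 8 ≤ x i ^ 2 - 1 := by
    intro i
    have hi := hodd i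
    by_cases h1 : x i = 1 ∨ x i = -1
    · left
      rcases h1 with h1 | h1 <;> rw [h1] <;> rfl
    · right
      have hor : x i ≤ -3 ∨ 3 ≤ x i := by omega
      rcases hor with h2 | h2 <;> nlinarith
  have hnn : ∀ i, 0 ≤ x i ^ 2 - 1 := by
    intro i
    rcases hge i with h | h <;> omega
  obtain ⟨j, hj⟩ : ∃ j, x j ^ 2 - 1 ≠ 0 := by
    by_contra hcon
    have h0 : ∑ i, (x i ^ 2 - 1) = 0 :=
      Finset.sum_eq_zero (fun i _ => by
        by_contra h
        exact hcon ⟨i, h⟩)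
    omega
  have hj8 : 8 ≤ x j ^ 2 - 1 := by
    rcases hge j with h | h
    · exact absurd h hj
    · exact h
  have hi0 : ∀ i, i ≠ j → x i ^ 2 - 1 = 0 := by
    intro i hij
    have hpair : ∑ k ∈ ({i, j} : Finset GolayPt), (x k ^ 2 - 1) ≤ ∑ k, (x k ^ 2 - 1) :=
      Finset.sum_le_sum_of_subset_of_nonneg (Finset.subset_univ _) (fun k _ _ => hnn k)
    rw [Finset.sum_pair hij, hsum] at hpair
    have := hnn i
    omega
  have hj9 : x j ^ 2 - 1 = 8 := by
    have h1 : ∑ i, (x i ^ 2 - 1) = x j ^ 2 - 1 :=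
      Finset.sum_eq_single j (fun b _ hb => hi0 b hb) (fun h => absurd (Finset.mem_univ j) h)
    rw [← h1, hsum]
  refine ⟨Sx x 1, hO.2.2, j, ?_⟩
  funext i
  rcases fC_cases (Sx x 1) j i with ⟨h2, h, e⟩ | ⟨h2, h, e⟩ | ⟨h2, h, e⟩ | ⟨h2, h, e⟩ <;>
    rw [e] <;> rw [mem_Sx] at h
  · rcases sq_cases (a := x i) (by have := hi0 i h2; omega) with h3 | h3
    · exact h3.symm
    · rw [h3] at h
      exact absurd h (by decide)
  · rcases sq_cases (a := x i) (by have := hi0 i h2; omega) with h3 | h3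
    · rw [h3] at h
      exact absurd rfl h
    · exact h3.symm
  · subst h2
    rcases sq_cases3 (a := x i) (by omega) with h3 | h3
    · rw [h3] at h
      exact absurd h (by decide)
    · exact h3.symm
  · subst h2
    rcases sq_cases3 (a := x i) (by omega) with h3 | h3
    · exact h3.symm
    · rw [h3] at h
      exact absurd rfl h

/-! ### The vectors with two coordinates of absolute value 4 -/

/-- the vector with values 4 on `P`, -4 on the rest of `s`, and 0 elsewhere -/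
def fA (p : (_ : Finset GolayPt) × Finset GolayPt) : GolayPt → ℤ :=
  fun i => if i ∈ p.2 then 4 else if i ∈ p.1 then -4 else 0

theorem fA_cases (s P : Finset GolayPt) (hP : P ⊆ s) (i : GolayPt) :
    (i ∈ P ∧ i ∈ s ∧ fA ⟨s, P⟩ i = 4) ∨ (i ∉ P ∧ i ∈ s ∧ fA ⟨s, P⟩ i = -4) ∨
      (i ∉ P ∧ i ∉ s ∧ fA ⟨s, P⟩ i = 0) := by
  unfold fA
  by_cases h1 : i ∈ P
  · left
    exact ⟨h1, hP h1, by simp [h1]⟩
  · by_cases h2 : i ∈ s
    · right; left
      exact ⟨h1, h2, by simp [h1, h2]⟩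
    · right; right
      exact ⟨h1, h2, by simp [h1, h2]⟩

theorem fA_sum (s P : Finset GolayPt) (hP : P ⊆ s) :
    ∑ i, fA ⟨s, P⟩ i = 8 * (P.card : ℤ) - 4 * (s.card : ℤ) := by
  have h1 : ∀ i : GolayPt, fA ⟨s, P⟩ i = (if i ∈ P then 8 else 0) + (if i ∈ s then -4 else 0) := by
    intro i
    rcases fA_cases s P hP i with ⟨h1, h2, e⟩ | ⟨h1, h2, e⟩ | ⟨h1, h2, e⟩ <;> rw [e] <;>
      simp [h1, h2]
  simp only [h1]
  rw [Finset.sum_add_distrib, sum_indicator, sum_indicator]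
  ring

theorem fA_sq (s P : Finset GolayPt) (hP : P ⊆ s) (i : GolayPt) :
    fA ⟨s, P⟩ i ^ 2 = if i ∈ s then 16 else 0 := by
  rcases fA_cases s P hP i with ⟨h1, h2, e⟩ | ⟨h1, h2, e⟩ | ⟨h1, h2, e⟩ <;> rw [e] <;>
    simp [h2]

theorem fA_mem (s P : Finset GolayPt) (hs : s.card = 2) (hP : P ⊆ s) :
    fA ⟨s, P⟩ ∈ leechLattice ∧ sqNorm (fA ⟨s, P⟩) = 32 ∧ ∀ i, fA ⟨s, P⟩ i % 4 = 0 := by
  have h4 : ∀ i, fA ⟨s, P⟩ i % 4 = 0 := by
    intro i
    rcases fA_cases s P hP i with ⟨h1, h2, e⟩ | ⟨h1, h2, e⟩ | ⟨h1, h2, e⟩ <;> rw [e] <;> rfl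
  refine ⟨?_, ?_, h4⟩
  · rw [mem_leechLattice_iff]
    left
    refine ⟨fun i => by have := h4 i; omega, ?_, ?_⟩
    · rw [fA_sum s P hP, hs]
      push_cast
      omega
    · have h0 : Sx (fA ⟨s, P⟩) 2 = ∅ :=
        Sx_eq _ _ _ (fun i => by
          have := h4 i
          simp only [Finset.notMem_empty, iff_false]
          omega)
      rw [h0]
      exact empty_mem
  · unfold sqNorm
    simp only [fA_sq s P hP]
    rw [sum_indicator, hs]
    rfl

theorem fA_inj {s P s' P' : Finset GolayPt} (hP : P ⊆ s) (hP' : P' ⊆ s')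
    (h : fA ⟨s, P⟩ = fA ⟨s', P'⟩) : s = s' ∧ P = P' := by
  constructor
  · ext i
    have e := congrFun h i
    rcases fA_cases s P hP i with ⟨h1, h2, e1⟩ | ⟨h1, h2, e1⟩ | ⟨h1, h2, e1⟩ <;>
      rcases fA_cases s' P' hP' i with ⟨h3, h4, e2⟩ | ⟨h3, h4, e2⟩ | ⟨h3, h4, e2⟩ <;>
      rw [e1, e2] at e <;> simp_all
  · ext i
    have e := congrFun h i
    rcases fA_cases s P hP i with ⟨h1, h2, e1⟩ | ⟨h1, h2, e1⟩ | ⟨h1, h2, e1⟩ <;>
      rcases fA_cases s' P' hP' i with ⟨h3, h4, e2⟩ | ⟨h3, h4, e2⟩ | ⟨h3, h4, e2⟩ <;>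
      rw [e1, e2] at e <;> simp_all

theorem exists_fA {x : GolayPt → ℤ} (hn : sqNorm x = 32) (h4 : ∀ i, x i % 4 = 0) :
    ∃ s P : Finset GolayPt, s.card = 2 ∧ P ⊆ s ∧ fA ⟨s, P⟩ = x := by
  classical
  unfold sqNorm at hn
  have hval : ∀ i, x i = 0 ∨ x i = 4 ∨ x i = -4 := by
    intro i
    have hle : x i ^ 2 ≤ ∑ k, x k ^ 2 :=
      Finset.single_le_sum (f := fun k => x k ^ 2) (fun k _ => sq_nonneg _) (Finset.mem_univ i)
    rw [hn] at hle
    have hi := h4 i
    have hb : -6 < x i ∧ x i < 6 := by constructor <;> nlinarith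
    omega
  have hsq : ∀ i, x i ^ 2 = if i ∈ Finset.univ.filter (fun k => x k ≠ 0) then 16 else 0 := by
    intro i
    have hm : i ∈ Finset.univ.filter (fun k => x k ≠ 0) ↔ x i ≠ 0 := by simp
    rcases hval i with h | h | h
    · rw [if_neg (by rw [hm, h]; simp), h]
      rfl
    · rw [if_pos (by rw [hm, h]; decide), h]
      rfl
    · rw [if_pos (by rw [hm, h]; decide), h]
      rfl
  have hcard : (Finset.univ.filter (fun k => x k ≠ 0)).card = 2 := by
    simp only [hsq] at hn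
    rw [sum_indicator] at hn
    omega
  refine ⟨Finset.univ.filter (fun k => x k ≠ 0), Finset.univ.filter (fun k => x k = 4), hcard,
    ?_, ?_⟩
  · intro i hi
    rw [Finset.mem_filter] at hi ⊢
    exact ⟨Finset.mem_univ _, by rw [hi.2]; decide⟩
  · funext i
    unfold fA
    simp only [Finset.mem_filter, Finset.mem_univ, true_and]
    rcases hval i with h | h | h <;> rw [h] <;> simp

/-! ### The vectors supported on an octad -/

/-- the vector with values -2 on `E`, 2 on the rest of `O`, and 0 elsewhere -/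
def fB (p : (_ : Finset GolayPt) × Finset GolayPt) : GolayPt → ℤ :=
  fun i => if i ∈ p.2 then -2 else if i ∈ p.1 then 2 else 0

theorem fB_cases (O E : Finset GolayPt) (hE : E ⊆ O) (i : GolayPt) :
    (i ∈ E ∧ i ∈ O ∧ fB ⟨O, E⟩ i = -2) ∨ (i ∉ E ∧ i ∈ O ∧ fB ⟨O, E⟩ i = 2) ∨
      (i ∉ E ∧ i ∉ O ∧ fB ⟨O, E⟩ i = 0) := by
  unfold fB
  by_cases h1 : i ∈ E
  · left
    exact ⟨h1, hE h1, by simp [h1]⟩
  · by_cases h2 : i ∈ O
    · right; left
      exact ⟨h1, h2, by simp [h1, h2]⟩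
    · right; right
      exact ⟨h1, h2, by simp [h1, h2]⟩

theorem fB_sum (O E : Finset GolayPt) (hE : E ⊆ O) :
    ∑ i, fB ⟨O, E⟩ i = 2 * (O.card : ℤ) - 4 * (E.card : ℤ) := by
  have h1 : ∀ i : GolayPt, fB ⟨O, E⟩ i = (if i ∈ O then 2 else 0) + (if i ∈ E then -4 else 0) := by
    intro i
    rcases fB_cases O E hE i with ⟨h1, h2, e⟩ | ⟨h1, h2, e⟩ | ⟨h1, h2, e⟩ <;> rw [e] <;>
      simp [h1, h2]
  simp only [h1]
  rw [Finset.sum_add_distrib, sum_indicator, sum_indicator]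
  ring

theorem fB_sq (O E : Finset GolayPt) (hE : E ⊆ O) (i : GolayPt) :
    fB ⟨O, E⟩ i ^ 2 = if i ∈ O then 4 else 0 := by
  rcases fB_cases O E hE i with ⟨h1, h2, e⟩ | ⟨h1, h2, e⟩ | ⟨h1, h2, e⟩ <;> rw [e] <;>
    simp [h2]

theorem fB_mod4 (O E : Finset GolayPt) (hE : E ⊆ O) (i : GolayPt) :
    fB ⟨O, E⟩ i % 4 = 2 % 4 ↔ i ∈ O := by
  rcases fB_cases O E hE i with ⟨h1, h2, e⟩ | ⟨h1, h2, e⟩ | ⟨h1, h2, e⟩ <;> rw [e] <;>
    simp [h2]

theorem Sx_fB (O E : Finset GolayPt) (hE : E ⊆ O) : Sx (fB ⟨O, E⟩) 2 = O :=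
  Sx_eq _ _ _ (fun i => fB_mod4 O E hE i)

theorem fB_mem (O E : Finset GolayPt) (hO : O ∈ octads) (hE : E ⊆ O) (hev : Even E.card) :
    fB ⟨O, E⟩ ∈ leechLattice ∧ sqNorm (fB ⟨O, E⟩) = 32 ∧ (∀ i, fB ⟨O, E⟩ i % 2 = 0) ∧
      ∃ i, fB ⟨O, E⟩ i % 4 = 2 := by
  obtain ⟨hOS, hO8⟩ := octads_sub hO
  have h2 : ∀ i, fB ⟨O, E⟩ i % 2 = 0 := by
    intro i
    rcases fB_cases O E hE i with ⟨h1, h2, e⟩ | ⟨h1, h2, e⟩ | ⟨h1, h2, e⟩ <;> rw [e] <;> rfl
  refine ⟨?_, ?_, h2, ?_⟩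
  · rw [mem_leechLattice_iff]
    left
    refine ⟨h2, ?_, ?_⟩
    · rw [fB_sum O E hE, hO8]
      obtain ⟨m, hm⟩ := hev
      rw [hm]
      push_cast
      omega
    · rw [Sx_fB O E hE]
      exact hOS
  · unfold sqNorm
    simp only [fB_sq O E hE]
    rw [sum_indicator, hO8]
    rfl
  · obtain ⟨i, hi⟩ : O.Nonempty := by
      rw [← Finset.card_pos, hO8]
      norm_num
    exact ⟨i, (fB_mod4 O E hE i).mpr hi⟩

theorem fB_inj {O E O' E' : Finset GolayPt} (hE : E ⊆ O) (hE' : E' ⊆ O')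
    (h : fB ⟨O, E⟩ = fB ⟨O', E'⟩) : O = O' ∧ E = E' := by
  constructor
  · ext i
    have e := congrFun h i
    rcases fB_cases O E hE i with ⟨h1, h2, e1⟩ | ⟨h1, h2, e1⟩ | ⟨h1, h2, e1⟩ <;>
      rcases fB_cases O' E' hE' i with ⟨h3, h4, e2⟩ | ⟨h3, h4, e2⟩ | ⟨h3, h4, e2⟩ <;>
      rw [e1, e2] at e <;> simp_all
  · ext i
    have e := congrFun h i
    rcases fB_cases O E hE i with ⟨h1, h2, e1⟩ | ⟨h1, h2, e1⟩ | ⟨h1, h2, e1⟩ <;>
      rcases fB_cases O' E' hE' i with ⟨h3, h4, e2⟩ | ⟨h3, h4, e2⟩ | ⟨h3, h4, e2⟩ <;>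
      rw [e1, e2] at e <;> simp_all

theorem sq_cases2 {a : ℤ} (h : a ^ 2 = 4) : a = 2 ∨ a = -2 := by
  have h1 : (a - 2) * (a + 2) = 0 := by ring_nf; omega
  rcases mul_eq_zero.mp h1 with h2 | h2
  · left; omega
  · right; omega

theorem exists_fB {x : GolayPt → ℤ} (hx : x ∈ leechLattice) (hn : sqNorm x = 32)
    (h2 : ∀ i, x i % 2 = 0) (hex : ∃ i, x i % 4 = 2) :
    ∃ O E : Finset GolayPt, O ∈ octads ∧ E ⊆ O ∧ Even E.card ∧ fB ⟨O, E⟩ = x := by
  classical
  have hEv : IsEvenVec x := by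
    rcases (mem_leechLattice_iff x).mp hx with h | h
    · exact h
    · have h1 := h.1 (none : GolayPt)
      have h3 := h2 (none : GolayPt)
      omega
  obtain ⟨-, h8, hS⟩ := hEv
  unfold sqNorm at hn
  have hne : Sx x 2 ≠ ∅ := by
    obtain ⟨i, hi⟩ := hex
    intro h
    have : i ∈ Sx x 2 := by rw [mem_Sx, hi]; rfl
    rw [h] at this
    exact absurd this (Finset.notMem_empty i)
  have hc8 := eight_le_card hS hne
  have hnn : ∀ i, 0 ≤ x i ^ 2 - (if i ∈ Sx x 2 then 4 else 0) := by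
    intro i
    by_cases hi : i ∈ Sx x 2
    · rw [if_pos hi]
      rw [mem_Sx] at hi
      have hor : x i ≤ -2 ∨ 2 ≤ x i := by omega
      rcases hor with h | h <;> nlinarith
    · rw [if_neg hi]
      have := sq_nonneg (x i)
      omega
  have hsum : ∑ i, (x i ^ 2 - (if i ∈ Sx x 2 then 4 else 0)) = 32 - 4 * ((Sx x 2).card : ℤ) := by
    rw [Finset.sum_sub_distrib, hn, sum_indicator]
  have hsnn : 0 ≤ ∑ i, (x i ^ 2 - (if i ∈ Sx x 2 then 4 else 0)) :=
    Finset.sum_nonneg (fun i _ => hnn i)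
  have hcard : (Sx x 2).card = 8 := by
    have : ((Sx x 2).card : ℤ) ≥ 8 := by exact_mod_cast hc8
    omega
  have hzero : ∀ i, x i ^ 2 - (if i ∈ Sx x 2 then 4 else 0) = 0 := by
    have h0 : ∑ i, (x i ^ 2 - (if i ∈ Sx x 2 then 4 else 0)) = 0 := by
      rw [hsum, hcard]
      rfl
    intro i
    exact (Finset.sum_eq_zero_iff_of_nonneg (fun i _ => hnn i)).mp h0 i (Finset.mem_univ i)
  have hval : ∀ i, (i ∈ Sx x 2 ∧ (x i = 2 ∨ x i = -2)) ∨ (i ∉ Sx x 2 ∧ x i = 0) := by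
    intro i
    have hz := hzero i
    by_cases hi : i ∈ Sx x 2
    · left
      rw [if_pos hi] at hz
      exact ⟨hi, sq_cases2 (by omega)⟩
    · right
      rw [if_neg hi] at hz
      refine ⟨hi, ?_⟩
      have : x i ^ 2 = 0 := by omega
      exact pow_eq_zero_iff (by norm_num) |>.mp this
  have hEO : Finset.univ.filter (fun k => x k = -2) ⊆ Sx x 2 := by
    intro i hi
    rw [Finset.mem_filter] at hi
    rw [mem_Sx, hi.2]
    rfl
  have hfx : fB ⟨Sx x 2, Finset.univ.filter (fun k => x k = -2)⟩ = x := by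
    funext i
    have hm : i ∈ Finset.univ.filter (fun k => x k = -2) ↔ x i = -2 := by simp
    rcases fB_cases (Sx x 2) _ hEO i with ⟨h1, h3, e⟩ | ⟨h1, h3, e⟩ | ⟨h1, h3, e⟩ <;> rw [e]
    · exact (hm.mp h1).symm
    · rcases hval i with ⟨-, h4 | h4⟩ | ⟨h4, -⟩
      · exact h4.symm
      · exact absurd (hm.mpr h4) h1
      · exact absurd h3 h4
    · rcases hval i with ⟨h4, -⟩ | ⟨-, h4⟩
      · exact absurd h4 h3
      · exact h4.symm
  refine ⟨Sx x 2, Finset.univ.filter (fun k => x k = -2), ⟨hS, hcard⟩, hEO, ?_, hfx⟩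
  have hs := fB_sum (Sx x 2) _ hEO
  rw [hfx, hcard] at hs
  rw [hs] at h8
  rw [Nat.even_iff]
  omega

/-! ### The count -/

theorem card_even_subsets (O : Finset GolayPt) (h : O.card = 8) :
    (O.powerset.filter (fun E => Even E.card)).card = 128 := by
  classical
  have hne : O.Nonempty := by
    rw [← Finset.card_pos, h]
    norm_num
  have h0 := Finset.sum_powerset_neg_one_pow_card_of_nonempty hne
  have h1 := Finset.sum_filter_add_sum_filter_not O.powerset (fun E => Even E.card)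
    (fun E => (-1 : ℤ) ^ E.card)
  have h2 : ∑ E ∈ O.powerset.filter (fun E => Even E.card), (-1 : ℤ) ^ E.card =
      ((O.powerset.filter (fun E => Even E.card)).card : ℤ) := by
    rw [Finset.sum_congr rfl (fun E hE => Even.neg_one_pow (Finset.mem_filter.mp hE).2),
      Finset.sum_const, nsmul_eq_mul, mul_one]
  have h3 : ∑ E ∈ O.powerset.filter (fun E => ¬ Even E.card), (-1 : ℤ) ^ E.card =
      -((O.powerset.filter (fun E => ¬ Even E.card)).card : ℤ) := by
    rw [Finset.sum_congr rfl (fun E hE => Odd.neg_one_pow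
      (Nat.not_even_iff_odd.mp (Finset.mem_filter.mp hE).2)),
      Finset.sum_const, nsmul_eq_mul, mul_neg, mul_one]
  have h4 := Finset.card_filter_add_card_filter_not (s := O.powerset) (fun E => Even E.card)
  rw [Finset.card_powerset, h] at h4
  rw [h2, h3, h0] at h1
  omega

/-- the minimal vectors with all coordinates divisible by 4 -/
def SA : Set (GolayPt → ℤ) := {x | x ∈ leechLattice ∧ sqNorm x = 32 ∧ ∀ i, x i % 4 = 0}

/-- the minimal vectors with even coordinates, not all divisible by 4 -/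
def SB : Set (GolayPt → ℤ) :=
  {x | x ∈ leechLattice ∧ sqNorm x = 32 ∧ (∀ i, x i % 2 = 0) ∧ ∃ i, x i % 4 = 2}

/-- the minimal vectors with odd coordinates -/
def SC : Set (GolayPt → ℤ) := {x | x ∈ leechLattice ∧ sqNorm x = 32 ∧ ∀ i, x i % 2 = 1}

set_option maxRecDepth 100000 in
theorem SA_eq : SA = fA '' (((Finset.univ : Finset GolayPt).powersetCard 2).sigma
    (fun s => s.powerset) : Set ((_ : Finset GolayPt) × Finset GolayPt)) := by
  ext x
  constructor
  · rintro ⟨-, hn, h4⟩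
    obtain ⟨s, P, hs, hP, rfl⟩ := exists_fA hn h4
    refine ⟨⟨s, P⟩, ?_, rfl⟩
    rw [Finset.mem_coe, Finset.mem_sigma, Finset.mem_powersetCard, Finset.mem_powerset]
    exact ⟨⟨Finset.subset_univ _, hs⟩, hP⟩
  · rintro ⟨⟨s, P⟩, hm, rfl⟩
    rw [Finset.mem_coe, Finset.mem_sigma, Finset.mem_powersetCard, Finset.mem_powerset] at hm
    exact fA_mem s P hm.1.2 hm.2

set_option maxRecDepth 100000 in
theorem ncard_SA : SA.ncard = 1104 := by
  rw [SA_eq, Set.InjOn.ncard_image, Set.ncard_coe_finset, Finset.card_sigma]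
  · rw [Finset.sum_congr rfl (fun s hs => by
      rw [Finset.card_powerset, (Finset.mem_powersetCard.mp hs).2])]
    rw [Finset.sum_const, Finset.card_powersetCard, Finset.card_univ, card_golayPt]
    decide
  · rintro ⟨s, P⟩ hm ⟨s', P'⟩ hm' h
    rw [Finset.mem_coe, Finset.mem_sigma, Finset.mem_powerset] at hm hm'
    obtain ⟨rfl, rfl⟩ := fA_inj hm.2 hm'.2 h
    rfl

theorem SB_eq (hfin : (octads : Set (Finset GolayPt)).Finite) :
    SB = fB '' ((hfin.toFinset.sigma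
      (fun O => O.powerset.filter (fun E => Even E.card)) :
        Finset ((_ : Finset GolayPt) × Finset GolayPt)) : Set _) := by
  ext x
  constructor
  · rintro ⟨hx, hn, h2, hex⟩
    obtain ⟨O, E, hO, hE, hev, rfl⟩ := exists_fB hx hn h2 hex
    refine ⟨⟨O, E⟩, ?_, rfl⟩
    rw [Finset.mem_coe, Finset.mem_sigma, Set.Finite.mem_toFinset, Finset.mem_filter,
      Finset.mem_powerset]
    exact ⟨hO, hE, hev⟩
  · rintro ⟨⟨O, E⟩, hm, rfl⟩
    rw [Finset.mem_coe, Finset.mem_sigma, Set.Finite.mem_toFinset, Finset.mem_filter,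
      Finset.mem_powerset] at hm
    exact fB_mem O E hm.1 hm.2.1 hm.2.2

theorem ncard_SB : SB.ncard = 97152 := by
  have hfin : (octads : Set (Finset GolayPt)).Finite := Set.toFinite _
  rw [SB_eq hfin, Set.InjOn.ncard_image, Set.ncard_coe_finset, Finset.card_sigma]
  · rw [Finset.sum_congr rfl (fun O hO => card_even_subsets O
      (octads_sub ((Set.Finite.mem_toFinset hfin).mp hO)).2)]
    rw [Finset.sum_const, ← Set.ncard_eq_toFinset_card octads hfin, Cfsg.Agent.S0360.result]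
    rfl
  · rintro ⟨O, E⟩ hm ⟨O', E'⟩ hm' h
    rw [Finset.mem_coe, Finset.mem_sigma, Finset.mem_filter, Finset.mem_powerset] at hm hm'
    obtain ⟨rfl, rfl⟩ := fB_inj hm.2.1 hm'.2.1 h
    rfl

theorem SC_eq : SC = fC '' (Supp ×ˢ (Set.univ : Set GolayPt)) := by
  ext x
  constructor
  · rintro ⟨hx, hn, hodd⟩
    obtain ⟨C, hC, j, rfl⟩ := exists_fC hx hn hodd
    exact ⟨(C, j), ⟨hC, Set.mem_univ _⟩, rfl⟩
  · rintro ⟨⟨C, j⟩, ⟨hC, -⟩, rfl⟩
    obtain ⟨h1, h2⟩ := fC_mem C hC j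
    exact ⟨h1, h2, fC_odd C j⟩

theorem ncard_SC : SC.ncard = 98304 := by
  rw [SC_eq, Set.ncard_image_of_injective _ fC_inj, Set.ncard_prod, ncard_Supp, Set.ncard_univ,
    Nat.card_eq_fintype_card, card_golayPt]

/-- the lattice has 196560 minimal vectors -/
theorem main : {x : GolayPt → ℤ | x ∈ leechLattice ∧ sqNorm x = 32}.ncard = 196560 := by
  have hU : {x : GolayPt → ℤ | x ∈ leechLattice ∧ sqNorm x = 32} = (SA ∪ SB) ∪ SC := by
    ext x
    constructor
    · rintro ⟨hx, hn⟩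
      rcases (mem_leechLattice_iff x).mp hx with h | h
      · by_cases h4 : ∀ i, x i % 4 = 0
        · left; left
          exact ⟨hx, hn, h4⟩
        · left; right
          push_neg at h4
          obtain ⟨i, hi⟩ := h4
          exact ⟨hx, hn, h.1, i, by have := h.1 i; omega⟩
      · right
        exact ⟨hx, hn, h.1⟩
    · rintro ((⟨hx, hn, -⟩ | ⟨hx, hn, -⟩) | ⟨hx, hn, -⟩) <;> exact ⟨hx, hn⟩
  have hd1 : Disjoint SA SB := by
    rw [Set.disjoint_left]
    rintro x ⟨-, -, h4⟩ ⟨-, -, -, i, hi⟩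
    have := h4 i
    omega
  have hd2 : Disjoint (SA ∪ SB) SC := by
    rw [Set.disjoint_left]
    rintro x (⟨-, -, h4⟩ | ⟨-, -, h2, -⟩) ⟨-, -, ho⟩
    · have := h4 (none : GolayPt)
      have := ho (none : GolayPt)
      omega
    · have := h2 (none : GolayPt)
      have := ho (none : GolayPt)
      omega
  have hfA : SA.Finite := by
    rw [SA_eq]
    exact (Finset.finite_toSet _).image _
  have hfB : SB.Finite := by
    rw [SB_eq (Set.toFinite _)]
    exact (Finset.finite_toSet _).image _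
  have hfC : SC.Finite := by
    apply Set.finite_of_ncard_ne_zero
    rw [ncard_SC]
    norm_num
  rw [hU, Set.ncard_union_eq hd2 (hfA.union hfB) hfC, Set.ncard_union_eq hd1 hfA hfB, ncard_SA,
    ncard_SB, ncard_SC]

end Cfsg.Agent.Lib_lead_MinVec
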