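import Mathlib
import Cfsg.Prelude.Def_SporadicCombinatorics
import Cfsg.Agent.Lib_lead_Leech
import Cfsg.Agent.Lib_lead_Leech2
import Cfsg.Agent.Lib_lead_LeechIndex
import Cfsg.Agent.Lib_lead_MinVec
import Cfsg.Agent.Lib_lead_M24ChainData
import Cfsg.Agent.Lib_lead_GolayPerm

/-! The stabiliser of the standard cross of the rank-24 lattice is the monomial group. -/

set_option autoImplicit false

namespace Cfsg.Agent.Lib_lead_LeechMono

open Cfsg Cfsg.Agent.Lib_lead_Golay Cfsg.Agent.Lib_lead_GolayPerm Cfsg.Agent.Lib_lead_Leech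
  Cfsg.Agent.Lib_lead_Leech2 Cfsg.Agent.Lib_lead_LeechIndex
open scoped Pointwise

theorem single_mem (i : GolayPt) (s : ℤ) (h : s % 8 = 0) :
    (Pi.single i s : GolayPt → ℤ) ∈ leechLattice := by
  rw [mem_leechLattice_iff]
  left
  refine ⟨fun j => ?_, ?_, ?_⟩
  · rw [Pi.single_apply]
    split_ifs <;> omega
  · rw [Finset.sum_pi_single']
    simpa using h
  · have h0 : Sx (Pi.single i s) 2 = ∅ := by
      apply Sx_eq
      intro j
      rw [Pi.single_apply]
      simp only [Finset.notMem_empty, iff_false]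
      split_ifs <;> omega
    rw [h0]
    exact empty_mem

/-- the basis vectors `8 e_i` -/
def Ev (i : GolayPt) : ↥leechLattice := ⟨Pi.single i 8, single_mem i 8 (by decide)⟩

theorem decomp (v : ↥leechLattice) :
    (8 : ℤ) • v = ∑ i, (v : GolayPt → ℤ) i • Ev i := by
  apply Subtype.ext
  show leechLattice.subtype ((8 : ℤ) • v)
    = leechLattice.subtype (∑ i, (v : GolayPt → ℤ) i • Ev i)
  rw [map_zsmul, map_sum]
  funext j
  simp only [map_zsmul, AddSubgroup.subtype_apply, Finset.sum_apply, Pi.smul_apply, smul_eq_mul,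
    Ev, Pi.single_apply]
  rw [Finset.sum_eq_single j]
  · simp
    ring
  · intro b _ hb
    simp [hb.symm]
  · intro h
    exact absurd (Finset.mem_univ j) h

theorem core (f : Equiv.Perm ↥leechLattice) (hf : f ∈ Co0)
    (hP : ∀ v : ↥leechLattice, (v : GolayPt → ℤ) ∈ stdCross →
      ((f v : ↥leechLattice) : GolayPt → ℤ) ∈ stdCross) :
    ∃ (σ : Equiv.Perm GolayPt) (c : Finset GolayPt), ∀ v : ↥leechLattice,
      ((f v : ↥leechLattice) : GolayPt → ℤ) = signedPerm σ c (v : GolayPt → ℤ) := by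
  classical
  let F : ↥leechLattice →+ ↥leechLattice := AddMonoidHom.mk' f hf.1
  have hF : ∀ v, F v = f v := fun v => rfl
  have hE : ∀ i, ((Ev i : ↥leechLattice) : GolayPt → ℤ) ∈ stdCross :=
    fun i => ⟨i, 8, Or.inl rfl, rfl⟩
  choose τ s hs hτ using fun i => hP (Ev i) (hE i)
  have key : ∀ (v : ↥leechLattice) (j : GolayPt),
      8 * ((f v : ↥leechLattice) : GolayPt → ℤ) j
        = ∑ i, (v : GolayPt → ℤ) i * (if j = τ i then s i else 0) := by
    intro v j
    have h2 : leechLattice.subtype (F ((8 : ℤ) • v))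
        = leechLattice.subtype (F (∑ i, (v : GolayPt → ℤ) i • Ev i)) := by rw [decomp]
    rw [map_zsmul, map_zsmul, map_sum, map_sum] at h2
    have h3 := congrFun h2 j
    rw [Finset.sum_apply] at h3
    simp only [map_zsmul, Pi.smul_apply, smul_eq_mul, AddSubgroup.subtype_apply] at h3
    simp only [hF] at h3
    rw [h3]
    refine Finset.sum_congr rfl (fun i _ => ?_)
    rw [hτ i, Pi.single_apply]
  have hsurj : Function.Surjective τ := by
    intro j
    by_contra hj
    push_neg at hj
    have h := key (f.symm (Ev j)) j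
    rw [Equiv.apply_symm_apply] at h
    have h0 : ∑ i, ((f.symm (Ev j) : ↥leechLattice) : GolayPt → ℤ) i
        * (if j = τ i then s i else 0) = 0 :=
      Finset.sum_eq_zero (fun i _ => by rw [if_neg (fun e => hj i e.symm), mul_zero])
    rw [h0] at h
    simp [Ev] at h
  have hbij : Function.Bijective τ := Finite.surjective_iff_bijective.mp hsurj
  let σ : Equiv.Perm GolayPt := Equiv.ofBijective τ hbij
  refine ⟨σ, Finset.univ.filter (fun j => s (σ.symm j) = -8), fun v => ?_⟩
  funext j
  have h := key v j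
  have hj : τ (σ.symm j) = j := Equiv.ofBijective_apply_symm_apply τ hbij j
  rw [Finset.sum_eq_single (σ.symm j)] at h
  · rw [if_pos hj.symm] at h
    unfold signedPerm
    simp only [Finset.mem_filter, Finset.mem_univ, true_and]
    rcases hs (σ.symm j) with h8 | h8
    · rw [if_neg (by rw [h8]; decide)]
      rw [h8] at h
      linarith
    · rw [if_pos h8]
      rw [h8] at h
      linarith
  · intro i _ hi
    rw [if_neg, mul_zero]
    intro e
    apply hi
    rw [e]
    exact (Equiv.ofBijective_symm_apply_apply τ hbij i).symm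
  · intro h'
    exact absurd (Finset.mem_univ _) h'

theorem w0_mod (k : GolayPt) : w0 k % 4 = 1 := by
  unfold w0
  split_ifs <;> decide

theorem mem_M24_of_smul (σ : Equiv.Perm GolayPt) (h : ∀ b ∈ Supp, σ • b ∈ Supp) : σ ∈ M24 := by
  show σ ∈ MulAction.stabilizer (Equiv.Perm GolayPt)
    (supports (golayCode : Set (GolayPt → ZMod 2)))
  rw [MulAction.mem_stabilizer_set_iff_smul_set_subset (Set.toFinite _)]
  rintro _ ⟨b, hb, rfl⟩
  exact h b hb

theorem supp_of_pres (σ : Equiv.Perm GolayPt) (c : Finset GolayPt)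
    (h : ∀ v ∈ leechLattice, signedPerm σ c v ∈ leechLattice) : σ ∈ M24 ∧ c ∈ Supp := by
  constructor
  · apply mem_M24_of_smul
    intro b hb
    have hv : (fun i => if i ∈ b then (2 : ℤ) else 0) ∈ leechLattice := by
      rw [mem_leechLattice_iff]
      left
      refine ⟨fun i => ?_, ?_, ?_⟩
      · show (if i ∈ b then (2 : ℤ) else 0) % 2 = 0
        split_ifs <;> decide
      · rw [sum_indicator]
        obtain ⟨k, hk⟩ := four_dvd_card hb
        rw [hk]
        push_cast
        omega
      · have h0 : Sx (fun i => if i ∈ b then (2 : ℤ) else 0) 2 = b := by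
          apply Sx_eq
          intro i
          show (if i ∈ b then (2 : ℤ) else 0) % 4 = 2 % 4 ↔ i ∈ b
          split_ifs with hi <;> simp [hi]
        rw [h0]
        exact hb
    have h1 := h _ hv
    rw [mem_leechLattice_iff] at h1
    rcases h1 with ⟨_, _, hS⟩ | ⟨h2, _, _⟩
    · have h0 : Sx (signedPerm σ c (fun i => if i ∈ b then (2 : ℤ) else 0)) 2 = σ • b := by
        ext j
        rw [mem_Sx, Finset.mem_smul_finset]
        unfold signedPerm
        constructor
        · intro hj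
          refine ⟨σ.symm j, ?_, by simp⟩
          by_contra hb'
          simp only [if_neg hb'] at hj
          split_ifs at hj <;> omega
        · rintro ⟨y, hy, rfl⟩
          simp only [Equiv.Perm.smul_def, Equiv.symm_apply_apply, if_pos hy]
          split_ifs <;> decide
      rw [← h0]
      exact hS
    · have h3 : (if none ∈ c then -(if σ.symm none ∈ b then (2 : ℤ) else 0)
          else (if σ.symm none ∈ b then (2 : ℤ) else 0)) % 2 = 1 := h2 none
      split_ifs at h3 <;> omega
  · have h1 := h _ w0_mem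
    rw [mem_leechLattice_iff] at h1
    rcases h1 with ⟨h2, _, _⟩ | ⟨_, _, hS⟩
    · have h3 : (if none ∈ c then -(w0 (σ.symm none)) else w0 (σ.symm none)) % 2 = 0 := h2 none
      have hw := w0_mod (σ.symm none)
      split_ifs at h3 <;> omega
    · have h0 : Sx (signedPerm σ c w0) 1 = cᶜ := by
        apply Sx_eq
        intro i
        rw [Finset.mem_compl]
        unfold signedPerm
        have hw := w0_mod (σ.symm i)
        split_ifs with hi
        · simp only [hi, not_true, iff_false]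
          omega
        · simp only [hi, not_false_iff, iff_true]
          omega
      rw [h0] at hS
      have h4 := compl_mem hS
      rwa [compl_compl] at h4

theorem signedPerm_mem {σ : Equiv.Perm GolayPt} (hσ : σ ∈ M24) {c : Finset GolayPt}
    (hc : c ∈ Supp) {x : GolayPt → ℤ} (hx : x ∈ leechLattice) :
    signedPerm σ c x ∈ leechLattice :=
  signflip_mem hc (perm_mem (M24.inv_mem hσ) hx)

theorem inv_mem {σ : Equiv.Perm GolayPt} (hσ : σ ∈ M24) {c : Finset GolayPt}
    (hc : c ∈ Supp) {x : GolayPt → ℤ} (hx : x ∈ leechLattice) :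
    (fun k => if σ k ∈ c then -x (σ k) else x (σ k)) ∈ leechLattice :=
  perm_mem hσ (signflip_mem hc hx)

/-- the monomial map as a permutation of the lattice -/
def mono (σ : Equiv.Perm GolayPt) (hσ : σ ∈ M24) (c : Finset GolayPt) (hc : c ∈ Supp) :
    Equiv.Perm ↥leechLattice where
  toFun v := ⟨signedPerm σ c v, signedPerm_mem hσ hc v.2⟩
  invFun v := ⟨fun k => if σ k ∈ c then -(v : GolayPt → ℤ) (σ k) else (v : GolayPt → ℤ) (σ k),
    inv_mem hσ hc v.2⟩
  left_inv v := by
    apply Subtype.ext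
    funext k
    show (if σ k ∈ c then -(signedPerm σ c v (σ k)) else signedPerm σ c v (σ k))
      = (v : GolayPt → ℤ) k
    unfold signedPerm
    simp only [Equiv.symm_apply_apply]
    split_ifs <;> simp
  right_inv v := by
    apply Subtype.ext
    funext i
    show signedPerm σ c (fun k => if σ k ∈ c then -(v : GolayPt → ℤ) (σ k)
      else (v : GolayPt → ℤ) (σ k)) i = (v : GolayPt → ℤ) i
    unfold signedPerm
    simp only [Equiv.apply_symm_apply]
    split_ifs <;> simp

theorem mono_apply (σ : Equiv.Perm GolayPt) (hσ : σ ∈ M24) (c : Finset GolayPt) (hc : c ∈ Supp)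
    (v : ↥leechLattice) :
    ((mono σ hσ c hc v : ↥leechLattice) : GolayPt → ℤ) = signedPerm σ c v := rfl

theorem mono_mem (σ : Equiv.Perm GolayPt) (hσ : σ ∈ M24) (c : Finset GolayPt) (hc : c ∈ Supp) :
    mono σ hσ c hc ∈ Co0 := by
  refine ⟨fun v w => ?_, fun v => ?_⟩
  · apply Subtype.ext
    funext i
    show signedPerm σ c ((v + w : ↥leechLattice) : GolayPt → ℤ) i
      = signedPerm σ c v i + signedPerm σ c w i
    unfold signedPerm
    rw [AddSubgroup.coe_add]
    simp only [Pi.add_apply]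
    split_ifs <;> ring
  · show sqNorm (signedPerm σ c (v : GolayPt → ℤ)) = sqNorm (v : GolayPt → ℤ)
    unfold sqNorm signedPerm
    calc ∑ i, (if i ∈ c then -(v : GolayPt → ℤ) (σ.symm i) else (v : GolayPt → ℤ) (σ.symm i)) ^ 2
        = ∑ i, ((v : GolayPt → ℤ) (σ.symm i)) ^ 2 :=
          Finset.sum_congr rfl (fun i _ => by split_ifs <;> ring)
      _ = ∑ i, (v : GolayPt → ℤ) i ^ 2 :=
          Equiv.sum_comp σ.symm (fun i => (v : GolayPt → ℤ) i ^ 2)

theorem signedPerm_single (σ : Equiv.Perm GolayPt) (c : Finset GolayPt) (i : GolayPt) (s : ℤ) :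
    signedPerm σ c (Pi.single i s) = Pi.single (σ i) (if σ i ∈ c then -s else s) := by
  funext j
  unfold signedPerm
  rw [Pi.single_apply, Pi.single_apply]
  by_cases hj : j = σ i
  · subst hj
    simp
  · have h1 : σ.symm j ≠ i := fun e => hj (by rw [← e]; simp)
    simp [hj, h1]

theorem mono_pres (σ : Equiv.Perm GolayPt) (hσ : σ ∈ M24) (c : Finset GolayPt) (hc : c ∈ Supp)
    (v : ↥leechLattice) (hv : (v : GolayPt → ℤ) ∈ stdCross) :
    ((mono σ hσ c hc v : ↥leechLattice) : GolayPt → ℤ) ∈ stdCross := by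
  obtain ⟨i, s, hs, hv⟩ := hv
  rw [mono_apply, hv, signedPerm_single]
  refine ⟨σ i, _, ?_, rfl⟩
  split_ifs
  · rcases hs with rfl | rfl
    · right; rfl
    · left; rfl
  · exact hs

theorem mono_inj {σ σ' : Equiv.Perm GolayPt} {c c' : Finset GolayPt}
    (h : ∀ i, signedPerm σ c (Pi.single i 8) = signedPerm σ' c' (Pi.single i 8)) :
    σ = σ' ∧ c = c' := by
  have h1 : ∀ i, σ i = σ' i ∧ (σ i ∈ c ↔ σ i ∈ c') := by
    intro i
    have h2 := h i
    rw [signedPerm_single, signedPerm_single] at h2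
    have h3 := congrFun h2 (σ i)
    rw [Pi.single_eq_same, Pi.single_apply] at h3
    have h4 : σ i = σ' i := by
      by_contra hne
      rw [if_neg hne] at h3
      split_ifs at h3 <;> omega
    refine ⟨h4, ?_⟩
    rw [if_pos h4, ← h4] at h3
    constructor
    · intro hc
      by_contra hc'
      rw [if_pos hc, if_neg hc'] at h3
      omega
    · intro hc'
      by_contra hc
      rw [if_neg hc, if_pos hc'] at h3
      omega
  have hσ : σ = σ' := Equiv.ext (fun i => (h1 i).1)
  refine ⟨hσ, ?_⟩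
  ext j
  have h5 := (h1 (σ.symm j)).2
  simpa using h5

theorem main : (∀ g : ↥Co0, (∀ v : ↥leechLattice, (v : GolayPt → ℤ) ∈ stdCross →
      ((g • v : ↥leechLattice) : GolayPt → ℤ) ∈ stdCross) →
      ∃ f ∈ golayMonomialMaps, ∀ v : ↥leechLattice,
        ((g • v : ↥leechLattice) : GolayPt → ℤ) = f (v : GolayPt → ℤ)) ∧
    Nat.card {g : ↥Co0 // (∀ v : ↥leechLattice, (v : GolayPt → ℤ) ∈ stdCross →
      ((g • v : ↥leechLattice) : GolayPt → ℤ) ∈ stdCross)} = 4096 * 244823040 := by
  have part1 : ∀ g : ↥Co0, (∀ v : ↥leechLattice, (v : GolayPt → ℤ) ∈ stdCross →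
      ((g • v : ↥leechLattice) : GolayPt → ℤ) ∈ stdCross) →
      ∃ σ ∈ M24, ∃ c ∈ Supp, ∀ v : ↥leechLattice,
        ((g • v : ↥leechLattice) : GolayPt → ℤ) = signedPerm σ c (v : GolayPt → ℤ) := by
    intro g hP
    obtain ⟨σ, c, h⟩ := core g.1 g.2 hP
    have hpres : ∀ v ∈ leechLattice, signedPerm σ c v ∈ leechLattice := by
      intro v hv
      rw [← h ⟨v, hv⟩]
      exact (g.1 ⟨v, hv⟩).2
    obtain ⟨hσ, hc⟩ := supp_of_pres σ c hpres
    exact ⟨σ, hσ, c, hc, h⟩
  refine ⟨fun g hP => ?_, ?_⟩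
  · obtain ⟨σ, hσ, c, hc, h⟩ := part1 g hP
    exact ⟨signedPerm σ c, ⟨σ, hσ, c, hc, rfl⟩, h⟩
  · let Φ : ↥M24 × ↥(Supp : Set (Finset GolayPt)) →
        {g : ↥Co0 // (∀ v : ↥leechLattice, (v : GolayPt → ℤ) ∈ stdCross →
          ((g • v : ↥leechLattice) : GolayPt → ℤ) ∈ stdCross)} :=
      fun p => ⟨⟨mono p.1.1 p.1.2 p.2.1 p.2.2, mono_mem p.1.1 p.1.2 p.2.1 p.2.2⟩,
        mono_pres p.1.1 p.1.2 p.2.1 p.2.2⟩
    have hbij : Function.Bijective Φ := by
      constructor
      · rintro ⟨⟨σ, hσ⟩, ⟨c, hc⟩⟩ ⟨⟨σ', hσ'⟩, ⟨c', hc'⟩⟩ hpp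
        have h1 : mono σ hσ c hc = mono σ' hσ' c' hc' :=
          congrArg (fun g => (g.1.1 : Equiv.Perm ↥leechLattice)) hpp
        have h2 : ∀ i, signedPerm σ c (Pi.single i 8) = signedPerm σ' c' (Pi.single i 8) := by
          intro i
          have h3 := congrArg (fun m : Equiv.Perm ↥leechLattice =>
            ((m (Ev i) : ↥leechLattice) : GolayPt → ℤ)) h1
          exact h3
        obtain ⟨rfl, rfl⟩ := mono_inj h2
        rfl
      · rintro ⟨g, hP⟩
        obtain ⟨σ, hσ, c, hc, h⟩ := part1 g hP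
        refine ⟨(⟨σ, hσ⟩, ⟨c, hc⟩), ?_⟩
        apply Subtype.ext
        apply Subtype.ext
        apply Equiv.ext
        intro v
        apply Subtype.ext
        exact (h v).symm
    rw [← Nat.card_eq_of_bijective Φ hbij, Nat.card_prod, Cfsg.Agent.Lib_lead_M24ChainData.card_M24,
      Nat.card_coe_set_eq, Cfsg.Agent.Lib_lead_MinVec.ncard_Supp]

end Cfsg.Agent.Lib_lead_LeechMono
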