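import Mathlib
import Cfsg.Prelude.Def_SporadicCombinatorics
import Cfsg.Agent.Lib_lead_LeechMono
import Cfsg.Agent.Lib_lead_M24Trans
import Cfsg.Agent.Lib_lead_M24Chain

/-! The centre of the automorphism group of the rank-24 lattice. -/

set_option autoImplicit false

namespace Cfsg.Agent.Lib_lead_LeechCenter

open Cfsg Cfsg.Agent.Lib_lead_Golay Cfsg.Agent.Lib_lead_GolayPerm Cfsg.Agent.Lib_lead_Leech
  Cfsg.Agent.Lib_lead_Leech2 Cfsg.Agent.Lib_lead_LeechIndex Cfsg.Agent.Lib_lead_LeechMono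
open scoped Pointwise

theorem map_neg' (f : Equiv.Perm ↥leechLattice) (hf : f ∈ Co0) (v : ↥leechLattice) :
    f (-v) = -f v :=
  map_neg (AddMonoidHom.mk' f hf.1) v

theorem expand (f : Equiv.Perm ↥leechLattice) (hf : f ∈ Co0) (v : ↥leechLattice) (j : GolayPt) :
    8 * ((f v : ↥leechLattice) : GolayPt → ℤ) j
      = ∑ i, (v : GolayPt → ℤ) i * ((f (Ev i) : ↥leechLattice) : GolayPt → ℤ) j := by
  let F : ↥leechLattice →+ ↥leechLattice := AddMonoidHom.mk' f hf.1
  have hF : ∀ v, F v = f v := fun v => rfl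
  have h2 : leechLattice.subtype (F ((8 : ℤ) • v))
      = leechLattice.subtype (F (∑ i, (v : GolayPt → ℤ) i • Ev i)) := by rw [decomp]
  rw [map_zsmul, map_zsmul, map_sum, map_sum] at h2
  have h3 := congrFun h2 j
  rw [Finset.sum_apply] at h3
  simp only [map_zsmul, Pi.smul_apply, smul_eq_mul, AddSubgroup.subtype_apply] at h3
  simp only [hF] at h3
  exact h3

theorem sqNorm_single (i : GolayPt) (s : ℤ) : sqNorm (Pi.single i s : GolayPt → ℤ) = s ^ 2 := by
  unfold sqNorm
  rw [Finset.sum_eq_single i]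
  · rw [Pi.single_eq_same]
  · intro j _ hj
    rw [Pi.single_eq_of_ne hj]
    ring
  · intro h
    exact absurd (Finset.mem_univ i) h

set_option maxRecDepth 100000 in
theorem sep : ∀ i j : GolayPt, i ≠ j → ∃ t : ZMod 23, qrWord t i ≠ qrWord t j := by
  decide +kernel

theorem qr_mem (t : ZMod 23) : support₂ (qrWord t) ∈ Supp :=
  ⟨qrWord t, Submodule.subset_span (Or.inl ⟨t, rfl⟩), rfl⟩

theorem mem_qr (t : ZMod 23) (i : GolayPt) : i ∈ support₂ (qrWord t) ↔ qrWord t i ≠ 0 := by
  unfold support₂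
  rw [Finset.mem_filter]
  exact ⟨fun h => h.2, fun h => ⟨Finset.mem_univ _, h⟩⟩

theorem signedPerm_one_single (c : Finset GolayPt) (i : GolayPt) (s : ℤ) :
    signedPerm 1 c (Pi.single i s) = Pi.single i (if i ∈ c then -s else s) :=
  signedPerm_single 1 c i s

theorem flipE (c : Finset GolayPt) (hc : c ∈ Supp) (i : GolayPt) :
    mono 1 (Subgroup.one_mem _) c hc (Ev i) = if i ∈ c then -Ev i else Ev i := by
  apply Subtype.ext
  rw [mono_apply]
  show signedPerm 1 c (Pi.single i 8) = _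
  rw [signedPerm_one_single]
  by_cases hi : i ∈ c
  · rw [if_pos hi, if_pos hi, AddSubgroup.coe_neg]
    show (Pi.single i (-8) : GolayPt → ℤ) = -Pi.single i 8
    rw [Pi.single_neg]
  · rw [if_neg hi, if_neg hi]
    rfl

theorem permE (σ : Equiv.Perm GolayPt) (hσ : σ ∈ M24) (i : GolayPt) :
    mono σ hσ ∅ empty_mem (Ev i) = Ev (σ i) := by
  apply Subtype.ext
  rw [mono_apply]
  show signedPerm σ ∅ (Pi.single i 8) = Pi.single (σ i) 8
  rw [signedPerm_single, if_neg (Finset.notMem_empty _)]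

theorem center_form (z : Equiv.Perm ↥leechLattice) (hz : z ∈ Co0)
    (hcomm : ∀ g : Equiv.Perm ↥leechLattice, g ∈ Co0 → ∀ v, g (z v) = z (g v)) :
    (∀ v, z v = v) ∨ (∀ v, z v = -v) := by
  -- the image of a basis vector is supported on its coordinate
  have h1 : ∀ i j, j ≠ i → ((z (Ev i) : ↥leechLattice) : GolayPt → ℤ) j = 0 := by
    intro i j hji
    obtain ⟨t, ht⟩ := sep i j (Ne.symm hji)
    have hc := qr_mem t
    have h := hcomm (mono 1 (Subgroup.one_mem _) _ hc) (mono_mem _ _ _ _) (Ev i)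
    rw [flipE] at h
    have hj := congrArg (fun w : ↥leechLattice => (w : GolayPt → ℤ) j) h
    simp only [mono_apply] at hj
    unfold signedPerm at hj
    simp only [Equiv.Perm.one_symm, Equiv.Perm.coe_one, id_eq] at hj
    have key : ∀ a b : ZMod 2, a ≠ b → (a ≠ 0 ∧ ¬ b ≠ 0) ∨ (¬ a ≠ 0 ∧ b ≠ 0) := by decide
    rcases key _ _ ht with ⟨hi, hj'⟩ | ⟨hi, hj'⟩
    · rw [← mem_qr] at hi hj'
      rw [if_neg hj', if_pos hi, map_neg' z hz, AddSubgroup.coe_neg, Pi.neg_apply] at hj
      omega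
    · rw [← mem_qr] at hi hj'
      rw [if_pos hj', if_neg hi] at hj
      omega
  have h2 : ∀ i, ((z (Ev i) : ↥leechLattice) : GolayPt → ℤ)
      = Pi.single i (((z (Ev i) : ↥leechLattice) : GolayPt → ℤ) i) := by
    intro i
    funext j
    by_cases hji : j = i
    · rw [hji, Pi.single_eq_same]
    · rw [Pi.single_eq_of_ne hji, h1 i j hji]
  have h3 : ∀ i, ((z (Ev i) : ↥leechLattice) : GolayPt → ℤ) i = 8
      ∨ ((z (Ev i) : ↥leechLattice) : GolayPt → ℤ) i = -8 := by
    intro i
    have hn := hz.2 (Ev i)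
    rw [h2 i, sqNorm_single] at hn
    have hn' : sqNorm ((Ev i : ↥leechLattice) : GolayPt → ℤ) = 64 := by
      show sqNorm (Pi.single i 8 : GolayPt → ℤ) = 64
      rw [sqNorm_single]
      norm_num
    rw [hn'] at hn
    have h5 : (((z (Ev i) : ↥leechLattice) : GolayPt → ℤ) i - 8)
        * (((z (Ev i) : ↥leechLattice) : GolayPt → ℤ) i + 8) = 0 := by
      ring_nf
      ring_nf at hn
      omega
    rcases mul_eq_zero.mp h5 with h6 | h6
    · left
      omega
    · right
      omega
  have h4 : ∀ i i', ((z (Ev i) : ↥leechLattice) : GolayPt → ℤ) i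
      = ((z (Ev i') : ↥leechLattice) : GolayPt → ℤ) i' := by
    intro i i'
    obtain ⟨σ, hσ, rfl⟩ := Cfsg.Agent.Lib_lead_M24Trans.trans1 i i'
    have h := hcomm (mono σ hσ ∅ empty_mem) (mono_mem _ _ _ _) (Ev i)
    rw [permE] at h
    have hj := congrArg (fun w : ↥leechLattice => (w : GolayPt → ℤ) (σ i)) h
    simp only [mono_apply] at hj
    rw [h2 i, signedPerm_single, if_neg (Finset.notMem_empty _), Pi.single_eq_same] at hj
    exact hj
  have h5 : ∀ (v : ↥leechLattice) (j : GolayPt), 8 * ((z v : ↥leechLattice) : GolayPt → ℤ) j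
      = (v : GolayPt → ℤ) j * ((z (Ev none) : ↥leechLattice) : GolayPt → ℤ) none := by
    intro v j
    rw [expand z hz v j, Finset.sum_eq_single j]
    · rw [h4 j none]
    · intro i _ hij
      rw [h1 i j (Ne.symm hij), mul_zero]
    · intro h
      exact absurd (Finset.mem_univ j) h
  rcases h3 none with h8 | h8
  · left
    intro v
    apply Subtype.ext
    funext j
    have := h5 v j
    rw [h8] at this
    omega
  · right
    intro v
    apply Subtype.ext
    funext j
    have := h5 v j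
    rw [h8] at this
    rw [AddSubgroup.coe_neg, Pi.neg_apply]
    omega

/-- negation as an automorphism -/
def negC : ↥Co0 := ⟨Equiv.neg ↥leechLattice, by
  refine ⟨fun v w => ?_, fun v => ?_⟩
  · show -(v + w) = -v + -w
    rw [neg_add]
  · show sqNorm ((-v : ↥leechLattice) : GolayPt → ℤ) = sqNorm (v : GolayPt → ℤ)
    rw [AddSubgroup.coe_neg]
    unfold sqNorm
    apply Finset.sum_congr rfl
    intro i _
    rw [Pi.neg_apply]
    ring⟩

theorem negC_apply (v : ↥leechLattice) : negC.1 v = -v := rfl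

theorem negC_comm (k : ↥Co0) : k * negC = negC * k := by
  apply Subtype.ext
  apply Equiv.ext
  intro v
  show k.1 (-v) = -(k.1 v)
  exact map_neg' k.1 k.2 v

theorem negC_ne : negC ≠ 1 := by
  intro h
  have h1 := congrArg (fun k : ↥Co0 => (((k : Equiv.Perm ↥leechLattice) (Ev none) : ↥leechLattice)
    : GolayPt → ℤ) none) h
  have h2 : ((-(Ev none) : ↥leechLattice) : GolayPt → ℤ) none = ((Ev none : ↥leechLattice)
    : GolayPt → ℤ) none := h1
  rw [AddSubgroup.coe_neg, Pi.neg_apply] at h2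
  have h3 : ((Ev none : ↥leechLattice) : GolayPt → ℤ) none = 8 := by
    show (Pi.single none 8 : GolayPt → ℤ) none = 8
    rw [Pi.single_eq_same]
  rw [h3] at h2
  omega

theorem negC_sq : negC * negC = 1 := by
  apply Subtype.ext
  apply Equiv.ext
  intro v
  show - -v = v
  rw [neg_neg]

theorem center_eq : (Subgroup.center ↥Co0 : Set ↥Co0) = {1, negC} := by
  ext z
  rw [SetLike.mem_coe, Subgroup.mem_center_iff]
  constructor
  · intro h
    have h1 := center_form z.1 z.2 (fun g hg v =>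
      congrArg (fun k : ↥Co0 => (k : Equiv.Perm ↥leechLattice) v) (h ⟨g, hg⟩))
    rcases h1 with h1 | h1
    · left
      apply Subtype.ext
      apply Equiv.ext
      intro v
      exact h1 v
    · right
      apply Subtype.ext
      apply Equiv.ext
      intro v
      exact h1 v
  · intro h g
    rcases h with rfl | h
    · rw [mul_one, one_mul]
    · rw [Set.mem_singleton_iff] at h
      rw [h]
      exact negC_comm g

theorem card_center : Nat.card (Subgroup.center ↥Co0) = 2 := by
  have h : Nat.card (Subgroup.center ↥Co0) = Set.ncard (Subgroup.center ↥Co0 : Set ↥Co0) := rfl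
  rw [h, center_eq, Set.ncard_pair (Ne.symm negC_ne)]

/-! ### no complement to the centre -/

theorem no_compl {G : Type*} [Group G] (n g : G) (hc : ∀ k : G, k * n = n * k) (hn1 : n ≠ 1)
    (hn2 : n * n = 1) (hg : g * g = n) (K : Subgroup G) :
    ¬ (Subgroup.zpowers n).IsComplement' K := by
  intro hK
  have hK' : Function.Bijective (fun x : (Subgroup.zpowers n) × K => x.1.1 * x.2.1) := hK
  obtain ⟨⟨⟨h, hh⟩, ⟨k, hk⟩⟩, hhk⟩ := hK'.2 g
  have hhk' : h * k = g := hhk
  obtain ⟨m, rfl⟩ := Subgroup.mem_zpowers_iff.mp hh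
  have hcm : Commute k (n ^ m) := Commute.zpow_right (hc k) m
  have hsq : n ^ m * n ^ m = 1 := by
    rw [← zpow_add, ← two_mul, zpow_mul, zpow_two, hn2, one_zpow]
  have hkk : k * k = n := by
    rw [← hg, ← hhk', hcm.mul_mul_mul_comm (n ^ m) k, hsq, one_mul]
  have hnK : n ∈ K := by
    rw [← hkk]
    exact K.mul_mem hk hk
  have hinj := hK'.1 (a₁ := (⟨n, Subgroup.mem_zpowers n⟩, ⟨1, K.one_mem⟩))
    (a₂ := (⟨1, Subgroup.one_mem _⟩, ⟨n, hnK⟩)) (by simp)
  have h1 : n = 1 := congrArg (fun p : (Subgroup.zpowers n) × K => (p.1 : G)) hinj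
  exact hn1 h1

/-- the support of the quadratic residue word -/
def c0 : Finset GolayPt := support₂ (qrWord 0)

theorem swap : ∀ i : GolayPt, qrWord 0 (projInv.symm i) ≠ 0 ↔ qrWord 0 i = 0 := by decide +kernel

theorem invol : ∀ i : GolayPt, projInv.symm (projInv.symm i) = i := by decide +kernel

theorem projInv_mem : projInv ∈ M24 :=
  Cfsg.Agent.Lib_lead_M24Chain.C3_le (Subgroup.subset_closure (by simp))

theorem sq_neg (v : GolayPt → ℤ) : signedPerm projInv c0 (signedPerm projInv c0 v) = -v := by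
  funext i
  unfold signedPerm
  have h2 : projInv.symm i ∈ c0 ↔ i ∉ c0 := by
    unfold c0
    rw [mem_qr, mem_qr, swap]
    exact not_not.symm
  rw [Pi.neg_apply]
  by_cases hi : i ∈ c0
  · have h3 : projInv.symm i ∉ c0 := fun h => (h2.mp h) hi
    rw [if_pos hi, if_neg h3, invol]
  · have h3 : projInv.symm i ∈ c0 := h2.mpr hi
    rw [if_neg hi, if_pos h3, invol]

/-- an automorphism whose square is negation -/
def gI : ↥Co0 := ⟨mono projInv projInv_mem c0 (qr_mem 0), mono_mem _ _ _ _⟩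

theorem gI_sq : gI * gI = negC := by
  apply Subtype.ext
  apply Equiv.ext
  intro v
  apply Subtype.ext
  show signedPerm projInv c0 (signedPerm projInv c0 v) = ((-v : ↥leechLattice) : GolayPt → ℤ)
  rw [sq_neg, AddSubgroup.coe_neg]

theorem nonsplit : ∃ n : ↥Co0, (∀ v : ↥leechLattice,
      ((n • v : ↥leechLattice) : GolayPt → ℤ) = -(v : GolayPt → ℤ)) ∧
    ∀ K : Subgroup ↥Co0, ¬ (Subgroup.zpowers n).IsComplement' K :=
  ⟨negC, fun _ => rfl, fun K => no_compl negC gI negC_comm negC_ne negC_sq gI_sq K⟩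

end Cfsg.Agent.Lib_lead_LeechCenter
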