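import Mathlib
import Cfsg.Prelude.Def_Sporadic_a
import Cfsg.Agent.Lib_lead_Leech
import Cfsg.Agent.Lib_lead_GFCount
import Cfsg.Agent.Lib_lead_MinVec

/-! Counting the vectors of the rank-24 lattice with a given sum of squares and coordinates in a
given list, as an explicit arithmetic expression. -/

set_option autoImplicit false

namespace Cfsg.Agent.Lib_lead_LeechCount

open Cfsg Cfsg.Agent.Lib_lead_Golay Cfsg.Agent.Lib_lead_Leech Cfsg.Agent.Lib_lead_GFCount
  Cfsg.Agent.Lib_lead_MinVec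

/-- the base -/
def Bn : ℕ := 2 ^ 70

/-- the possible shifts -/
def vals : List ℤ := [-3, -2, -1, 0, 1, 2, 3]

/-- the shifts allowed at a coordinate with residue `r` -/
def shifts (Al : List ℤ) (r : ℤ) : List ℤ := vals.filter (fun v => decide (r + 4 * v ∈ Al))

theorem shifts_nodup (Al : List ℤ) (r : ℤ) : (shifts Al r).Nodup :=
  List.Nodup.filter _ (by decide)

theorem mem_vals (v : ℤ) : v ∈ vals ↔ -3 ≤ v ∧ v ≤ 3 := by
  unfold vals
  simp only [List.mem_cons, List.not_mem_nil, or_false]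
  omega

theorem mem_shifts (Al : List ℤ) (r v : ℤ) : v ∈ shifts Al r ↔ v ∈ vals ∧ r + 4 * v ∈ Al := by
  unfold shifts
  rw [List.mem_filter, decide_eq_true_eq]

/-- the sum of the powers of the base over the allowed shifts -/
def PPt (Al : List ℤ) (r : ℤ) : ℤ :=
  ((shifts Al r).map (fun v => (Bn : ℤ) ^ (Int.natAbs (r + 4 * v)) ^ 2)).sum

/-- the signed sum of the powers of the base over the allowed shifts -/
def PMt (Al : List ℤ) (r : ℤ) : ℤ :=
  ((shifts Al r).map (fun v => sg v * (Bn : ℤ) ^ (Int.natAbs (r + 4 * v)) ^ 2)).sum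

/-- the number of even vectors over a codeword of weight `w` -/
def digE (Al : List ℤ) (N w : ℕ) : ℕ :=
  Int.toNat ((PPt Al 2 ^ w * PPt Al 0 ^ (24 - w) + PMt Al 2 ^ w * PMt Al 0 ^ (24 - w)) / 2) /
    Bn ^ N % Bn

/-- the number of odd vectors over a codeword of weight `w` -/
def digO (Al : List ℤ) (N w : ℕ) : ℕ :=
  Int.toNat ((PPt Al 1 ^ w * PPt Al (-1) ^ (24 - w) -
    PMt Al 1 ^ w * PMt Al (-1) ^ (24 - w)) / 2) / Bn ^ N % Bn

/-- the residue of a coordinate -/
def res (a b : ℤ) (C : Finset GolayPt) (i : GolayPt) : ℤ := if i ∈ C then a else b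

theorem res_cases (a b : ℤ) (C : Finset GolayPt) (i : GolayPt) :
    (i ∈ C ∧ res a b C i = a) ∨ (i ∉ C ∧ res a b C i = b) := by
  unfold res
  by_cases h : i ∈ C
  · left
    exact ⟨h, if_pos h⟩
  · right
    exact ⟨h, if_neg h⟩

/-- the allowed shifts at each coordinate -/
def VC (Al : List ℤ) (a b : ℤ) (C : Finset GolayPt) (i : GolayPt) : Finset ℤ :=
  (shifts Al (res a b C i)).toFinset

/-- the cost of a shift at a coordinate -/
def cost (a b : ℤ) (C : Finset GolayPt) (i : GolayPt) (v : ℤ) : ℕ :=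
  (Int.natAbs (res a b C i + 4 * v)) ^ 2

theorem prod_split (F : ℤ → ℤ) (a b : ℤ) (C : Finset GolayPt) :
    ∏ i : GolayPt, F (res a b C i) = F a ^ C.card * F b ^ (24 - C.card) := by
  classical
  have h : ∀ i : GolayPt, F (res a b C i) = if i ∈ C then F a else F b := by
    intro i
    unfold res
    split_ifs <;> rfl
  simp only [h]
  rw [Finset.prod_ite, Finset.prod_const, Finset.prod_const]
  have e1 : (Finset.univ.filter (fun i : GolayPt => i ∈ C)).card = C.card := by
    congr 1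
    ext i
    simp
  have e2 : (Finset.univ.filter (fun i : GolayPt => i ∉ C)).card = 24 - C.card := by
    have h1 := Finset.card_filter_add_card_filter_not (s := (Finset.univ : Finset GolayPt))
      (fun i => i ∈ C)
    rw [e1, Finset.card_univ, card_golayPt] at h1
    omega
  rw [e1, e2]

theorem sum_VC_plus (Al : List ℤ) (a b : ℤ) (C : Finset GolayPt) (i : GolayPt) :
    ∑ v ∈ VC Al a b C i, (Bn : ℤ) ^ cost a b C i v = PPt Al (res a b C i) := by
  unfold VC PPt cost
  rw [List.sum_toFinset _ (shifts_nodup _ _)]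

theorem sum_VC_minus (Al : List ℤ) (a b : ℤ) (C : Finset GolayPt) (i : GolayPt) :
    ∑ v ∈ VC Al a b C i, sg v * (Bn : ℤ) ^ cost a b C i v = PMt Al (res a b C i) := by
  unfold VC PMt cost
  rw [List.sum_toFinset _ (shifts_nodup _ _)]

theorem card_pi_lt (Al : List ℤ) (a b : ℤ) (C : Finset GolayPt) :
    (Fintype.piFinset (VC Al a b C)).card < Bn := by
  rw [Fintype.card_piFinset]
  have h : ∀ i, (VC Al a b C i).card ≤ 7 := fun i =>
    (List.toFinset_card_le _).trans ((List.length_filter_le _ _).trans (by decide))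
  calc ∏ i, (VC Al a b C i).card ≤ ∏ _i : GolayPt, 7 :=
        Finset.prod_le_prod' (fun i _ => h i)
    _ = 7 ^ 24 := by rw [Finset.prod_const, Finset.card_univ, card_golayPt]
    _ < Bn := by unfold Bn; norm_num

theorem count_even (Al : List ℤ) (a b : ℤ) (C : Finset GolayPt) (N : ℕ) :
    (((Fintype.piFinset (VC Al a b C)).filter (fun y => Even (∑ i, y i))).filter
      (fun y => ∑ i, cost a b C i (y i) = N)).card =
      Int.toNat ((PPt Al a ^ C.card * PPt Al b ^ (24 - C.card) +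
        PMt Al a ^ C.card * PMt Al b ^ (24 - C.card)) / 2) / Bn ^ N % Bn := by
  have hS : ((Fintype.piFinset (VC Al a b C)).filter (fun y => Even (∑ i, y i))).card < Bn :=
    lt_of_le_of_lt (Finset.card_filter_le _ _) (card_pi_lt Al a b C)
  rw [digit_count _ (fun y => ∑ i, cost a b C i (y i)) Bn hS N]
  have hg := gf_even (VC Al a b C) (cost a b C) (Bn : ℤ)
  simp only [sum_VC_plus, sum_VC_minus] at hg
  rw [prod_split (PPt Al), prod_split (PMt Al)] at hg
  have hcast : ((∑ y ∈ (Fintype.piFinset (VC Al a b C)).filter (fun y => Even (∑ i, y i)),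
      Bn ^ ∑ i, cost a b C i (y i) : ℕ) : ℤ) =
      ∑ y ∈ (Fintype.piFinset (VC Al a b C)).filter (fun y => Even (∑ i, y i)),
        (Bn : ℤ) ^ ∑ i, cost a b C i (y i) := by
    push_cast
    rfl
  rw [hg, ← hcast, Int.mul_ediv_cancel_left _ (by norm_num), Int.toNat_natCast]

theorem count_odd (Al : List ℤ) (a b : ℤ) (C : Finset GolayPt) (N : ℕ) :
    (((Fintype.piFinset (VC Al a b C)).filter (fun y => ¬ Even (∑ i, y i))).filter
      (fun y => ∑ i, cost a b C i (y i) = N)).card =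
      Int.toNat ((PPt Al a ^ C.card * PPt Al b ^ (24 - C.card) -
        PMt Al a ^ C.card * PMt Al b ^ (24 - C.card)) / 2) / Bn ^ N % Bn := by
  have hS : ((Fintype.piFinset (VC Al a b C)).filter (fun y => ¬ Even (∑ i, y i))).card < Bn :=
    lt_of_le_of_lt (Finset.card_filter_le _ _) (card_pi_lt Al a b C)
  rw [digit_count _ (fun y => ∑ i, cost a b C i (y i)) Bn hS N]
  have hg := gf_odd (VC Al a b C) (cost a b C) (Bn : ℤ)
  simp only [sum_VC_plus, sum_VC_minus] at hg
  rw [prod_split (PPt Al), prod_split (PMt Al)] at hg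
  have hcast : ((∑ y ∈ (Fintype.piFinset (VC Al a b C)).filter (fun y => ¬ Even (∑ i, y i)),
      Bn ^ ∑ i, cost a b C i (y i) : ℕ) : ℤ) =
      ∑ y ∈ (Fintype.piFinset (VC Al a b C)).filter (fun y => ¬ Even (∑ i, y i)),
        (Bn : ℤ) ^ ∑ i, cost a b C i (y i) := by
    push_cast
    rfl
  rw [hg, ← hcast, Int.mul_ediv_cancel_left _ (by norm_num), Int.toNat_natCast]

/-! ### Parametrizing the lattice -/

/-- the vector with residues `a` on `C` and `b` off `C`, shifted by `4 y` -/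
def Phi (a b : ℤ) (C : Finset GolayPt) (y : GolayPt → ℤ) : GolayPt → ℤ :=
  fun i => res a b C i + 4 * y i

theorem Sx_Phi_even (C : Finset GolayPt) (y : GolayPt → ℤ) : Sx (Phi 2 0 C y) 2 = C :=
  Sx_eq _ _ _ (fun i => by
    unfold Phi
    rcases res_cases 2 0 C i with ⟨h, e⟩ | ⟨h, e⟩
    · rw [e]
      exact ⟨fun _ => h, fun _ => by omega⟩
    · rw [e]
      exact ⟨fun h2 => by exfalso; omega, fun h2 => absurd h2 h⟩)

theorem Sx_Phi_odd (C : Finset GolayPt) (y : GolayPt → ℤ) : Sx (Phi 1 (-1) C y) 1 = C :=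
  Sx_eq _ _ _ (fun i => by
    unfold Phi
    rcases res_cases 1 (-1) C i with ⟨h, e⟩ | ⟨h, e⟩
    · rw [e]
      exact ⟨fun _ => h, fun _ => by omega⟩
    · rw [e]
      exact ⟨fun h2 => by exfalso; omega, fun h2 => absurd h2 h⟩)

theorem sum_Phi (a b : ℤ) (C : Finset GolayPt) (y : GolayPt → ℤ) :
    ∑ i, Phi a b C y i = (a - b) * (C.card : ℤ) + 24 * b + 4 * ∑ i, y i := by
  unfold Phi
  have h : ∀ i : GolayPt, res a b C i = (if i ∈ C then a - b else 0) + b := by
    intro i
    unfold res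
    split_ifs <;> ring
  simp only [h]
  rw [Finset.sum_add_distrib, Finset.sum_add_distrib, sum_indicator, Finset.sum_const,
    Finset.card_univ, card_golayPt, ← Finset.mul_sum]
  simp

theorem mem_even {C : Finset GolayPt} (hC : C ∈ Supp) (y : GolayPt → ℤ) :
    Phi 2 0 C y ∈ leechLattice ↔ Even (∑ i, y i) := by
  have hsum := sum_Phi 2 0 C y
  obtain ⟨m, hm⟩ := four_dvd_card hC
  have hev : ∀ i, Phi 2 0 C y i % 2 = 0 := by
    intro i
    unfold Phi
    rcases res_cases 2 0 C i with ⟨-, e⟩ | ⟨-, e⟩ <;> rw [e] <;> omega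
  rw [Int.even_iff]
  constructor
  · intro hx
    rcases (mem_leechLattice_iff _).mp hx with h | h
    · have h8 := h.2.1
      rw [hsum, hm] at h8
      push_cast at h8
      omega
    · have h1 := h.1 (none : GolayPt)
      have h2 := hev (none : GolayPt)
      omega
  · intro hy
    rw [mem_leechLattice_iff]
    left
    refine ⟨hev, ?_, ?_⟩
    · rw [hsum, hm]
      push_cast
      omega
    · rw [Sx_Phi_even]
      exact hC

theorem mem_odd {C : Finset GolayPt} (hC : C ∈ Supp) (y : GolayPt → ℤ) :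
    Phi 1 (-1) C y ∈ leechLattice ↔ ¬ Even (∑ i, y i) := by
  have hsum := sum_Phi 1 (-1) C y
  obtain ⟨m, hm⟩ := four_dvd_card hC
  have hod : ∀ i, Phi 1 (-1) C y i % 2 = 1 := by
    intro i
    unfold Phi
    rcases res_cases 1 (-1) C i with ⟨-, e⟩ | ⟨-, e⟩ <;> rw [e] <;> omega
  rw [Int.even_iff]
  constructor
  · intro hx
    rcases (mem_leechLattice_iff _).mp hx with h | h
    · have h1 := h.1 (none : GolayPt)
      have h2 := hod (none : GolayPt)
      omega
    · have h8 := h.2.1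
      rw [hsum, hm] at h8
      push_cast at h8
      omega
  · intro hy
    rw [mem_leechLattice_iff]
    right
    refine ⟨hod, ?_, ?_⟩
    · rw [hsum, hm]
      push_cast
      omega
    · rw [Sx_Phi_odd]
      exact hC

theorem repr_even {x : GolayPt → ℤ} (hx : x ∈ leechLattice) (h2 : ∀ i, x i % 2 = 0) :
    ∃ C ∈ Supp, ∃ y, Phi 2 0 C y = x := by
  have hE : IsEvenVec x := by
    rcases (mem_leechLattice_iff x).mp hx with h | h
    · exact h
    · have h1 := h.1 (none : GolayPt)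
      have h3 := h2 (none : GolayPt)
      omega
  refine ⟨Sx x 2, hE.2.2, fun i => (x i - res 2 0 (Sx x 2) i) / 4, ?_⟩
  funext i
  show res 2 0 (Sx x 2) i + 4 * ((x i - res 2 0 (Sx x 2) i) / 4) = x i
  have hi := h2 i
  rcases res_cases 2 0 (Sx x 2) i with ⟨h, e⟩ | ⟨h, e⟩
  · rw [e]
    rw [mem_Sx] at h
    omega
  · rw [e]
    rw [mem_Sx] at h
    omega

theorem repr_odd {x : GolayPt → ℤ} (hx : x ∈ leechLattice) (h2 : ∀ i, x i % 2 = 1) :
    ∃ C ∈ Supp, ∃ y, Phi 1 (-1) C y = x := by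
  have hO : IsOddVec x := by
    rcases (mem_leechLattice_iff x).mp hx with h | h
    · have h1 := h.1 (none : GolayPt)
      have h3 := h2 (none : GolayPt)
      omega
    · exact h
  refine ⟨Sx x 1, hO.2.2, fun i => (x i - res 1 (-1) (Sx x 1) i) / 4, ?_⟩
  funext i
  show res 1 (-1) (Sx x 1) i + 4 * ((x i - res 1 (-1) (Sx x 1) i) / 4) = x i
  have hi := h2 i
  rcases res_cases 1 (-1) (Sx x 1) i with ⟨h, e⟩ | ⟨h, e⟩
  · rw [e]
    rw [mem_Sx] at h
    omega
  · rw [e]
    rw [mem_Sx] at h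
    omega

theorem Phi_inj (a b : ℤ) (C : Finset GolayPt) {y y' : GolayPt → ℤ}
    (h : Phi a b C y = Phi a b C y') : y = y' := by
  funext i
  have e := congrFun h i
  unfold Phi at e
  omega

/-- membership in the index set, in terms of the vector -/
theorem mem_Y (Al : List ℤ) (hAl : ∀ t ∈ Al, -10 ≤ t ∧ t ≤ 10) (a b : ℤ)
    (ha : -2 ≤ a ∧ a ≤ 2) (hb : -2 ≤ b ∧ b ≤ 2) (C : Finset GolayPt) (N : ℕ)
    (y : GolayPt → ℤ) :
    (y ∈ Fintype.piFinset (VC Al a b C) ∧ ∑ i, cost a b C i (y i) = N) ↔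
      ((∀ i, Phi a b C y i ∈ Al) ∧ sqNorm (Phi a b C y) = (N : ℤ)) := by
  have h1 : y ∈ Fintype.piFinset (VC Al a b C) ↔ ∀ i, Phi a b C y i ∈ Al := by
    rw [Fintype.mem_piFinset]
    constructor
    · intro h i
      have hi := h i
      unfold VC at hi
      rw [List.mem_toFinset, mem_shifts] at hi
      exact hi.2
    · intro h i
      unfold VC
      rw [List.mem_toFinset, mem_shifts, mem_vals]
      have hi := h i
      refine ⟨?_, hi⟩
      have hb2 := hAl _ hi
      unfold Phi at hb2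
      rcases res_cases a b C i with ⟨-, e⟩ | ⟨-, e⟩ <;> rw [e] at hb2 <;> omega
  have h2 : ((∑ i, cost a b C i (y i) : ℕ) : ℤ) = sqNorm (Phi a b C y) := by
    unfold sqNorm cost Phi
    push_cast
    apply Finset.sum_congr rfl
    intro i _
    rw [sq_abs]
  rw [h1, ← h2, Nat.cast_inj]

/-! ### The count -/

/-- the even vectors with given sum of squares and coordinates in the list -/
def EvSet (N : ℕ) (Al : List ℤ) : Set (GolayPt → ℤ) :=
  {x | x ∈ leechLattice ∧ sqNorm x = (N : ℤ) ∧ (∀ i, x i ∈ Al) ∧ ∀ i, x i % 2 = 0}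

/-- the odd vectors with given sum of squares and coordinates in the list -/
def OdSet (N : ℕ) (Al : List ℤ) : Set (GolayPt → ℤ) :=
  {x | x ∈ leechLattice ∧ sqNorm x = (N : ℤ) ∧ (∀ i, x i ∈ Al) ∧ ∀ i, x i % 2 = 1}

/-- the index set of the even vectors over a codeword -/
def YE (Al : List ℤ) (N : ℕ) (C : Finset GolayPt) : Finset (GolayPt → ℤ) :=
  ((Fintype.piFinset (VC Al 2 0 C)).filter (fun y => Even (∑ i, y i))).filter
    (fun y => ∑ i, cost 2 0 C i (y i) = N)

/-- the index set of the odd vectors over a codeword -/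
def YO (Al : List ℤ) (N : ℕ) (C : Finset GolayPt) : Finset (GolayPt → ℤ) :=
  ((Fintype.piFinset (VC Al 1 (-1) C)).filter (fun y => ¬ Even (∑ i, y i))).filter
    (fun y => ∑ i, cost 1 (-1) C i (y i) = N)

theorem supp_W (k : ℕ) : support₂ (W k) ∈ Supp := ⟨W k, W_mem k, rfl⟩

theorem exists_W {C : Finset GolayPt} (hC : C ∈ Supp) : ∃ k < 4096, C = support₂ (W k) := by
  obtain ⟨w, hw, rfl⟩ := hC
  obtain ⟨k, hk, rfl⟩ := (mem_iff w).mp hw
  exact ⟨k, hk, rfl⟩

theorem card_supp_W (k : ℕ) : (support₂ (W k)).card = popc (M k) := by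
  rw [card_support₂, hammingNorm_W]

set_option maxRecDepth 100000 in
theorem EvSet_eq (N : ℕ) (Al : List ℤ) (hAl : ∀ t ∈ Al, -10 ≤ t ∧ t ≤ 10) :
    EvSet N Al = (fun p : (_ : ℕ) × (GolayPt → ℤ) => Phi 2 0 (support₂ (W p.1)) p.2) ''
      (((Finset.range 4096).sigma (fun k => YE Al N (support₂ (W k))) :
        Finset ((_ : ℕ) × (GolayPt → ℤ))) : Set _) := by
  ext x
  constructor
  · rintro ⟨hx, hn, hal, h2⟩
    obtain ⟨C, hC, y, rfl⟩ := repr_even hx h2
    obtain ⟨k, hk, rfl⟩ := exists_W hC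
    refine ⟨⟨k, y⟩, ?_, rfl⟩
    rw [Finset.mem_coe, Finset.mem_sigma, Finset.mem_range]
    refine ⟨hk, ?_⟩
    unfold YE
    rw [Finset.mem_filter, Finset.mem_filter]
    have hY := (mem_Y Al hAl 2 0 (by norm_num) (by norm_num) (support₂ (W k)) N y).mpr ⟨hal, hn⟩
    exact ⟨⟨hY.1, (mem_even hC y).mp hx⟩, hY.2⟩
  · rintro ⟨⟨k, y⟩, hm, rfl⟩
    rw [Finset.mem_coe, Finset.mem_sigma, Finset.mem_range] at hm
    obtain ⟨hk, hy⟩ := hm
    unfold YE at hy
    rw [Finset.mem_filter, Finset.mem_filter] at hy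
    have hY := (mem_Y Al hAl 2 0 (by norm_num) (by norm_num) (support₂ (W k)) N y).mp
      ⟨hy.1.1, hy.2⟩
    refine ⟨(mem_even (supp_W k) y).mpr hy.1.2, hY.2, hY.1, ?_⟩
    intro i
    show (res 2 0 (support₂ (W k)) i + 4 * y i) % 2 = 0
    rcases res_cases 2 0 (support₂ (W k)) i with ⟨-, e⟩ | ⟨-, e⟩ <;> rw [e] <;> omega

set_option maxRecDepth 100000 in
theorem OdSet_eq (N : ℕ) (Al : List ℤ) (hAl : ∀ t ∈ Al, -10 ≤ t ∧ t ≤ 10) :
    OdSet N Al = (fun p : (_ : ℕ) × (GolayPt → ℤ) => Phi 1 (-1) (support₂ (W p.1)) p.2) ''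
      (((Finset.range 4096).sigma (fun k => YO Al N (support₂ (W k))) :
        Finset ((_ : ℕ) × (GolayPt → ℤ))) : Set _) := by
  ext x
  constructor
  · rintro ⟨hx, hn, hal, h2⟩
    obtain ⟨C, hC, y, rfl⟩ := repr_odd hx h2
    obtain ⟨k, hk, rfl⟩ := exists_W hC
    refine ⟨⟨k, y⟩, ?_, rfl⟩
    rw [Finset.mem_coe, Finset.mem_sigma, Finset.mem_range]
    refine ⟨hk, ?_⟩
    unfold YO
    rw [Finset.mem_filter, Finset.mem_filter]
    have hY := (mem_Y Al hAl 1 (-1) (by norm_num) (by norm_num) (support₂ (W k)) N y).mpr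
      ⟨hal, hn⟩
    exact ⟨⟨hY.1, (mem_odd hC y).mp hx⟩, hY.2⟩
  · rintro ⟨⟨k, y⟩, hm, rfl⟩
    rw [Finset.mem_coe, Finset.mem_sigma, Finset.mem_range] at hm
    obtain ⟨hk, hy⟩ := hm
    unfold YO at hy
    rw [Finset.mem_filter, Finset.mem_filter] at hy
    have hY := (mem_Y Al hAl 1 (-1) (by norm_num) (by norm_num) (support₂ (W k)) N y).mp
      ⟨hy.1.1, hy.2⟩
    refine ⟨(mem_odd (supp_W k) y).mpr hy.1.2, hY.2, hY.1, ?_⟩
    intro i
    show (res 1 (-1) (support₂ (W k)) i + 4 * y i) % 2 = 1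
    rcases res_cases 1 (-1) (support₂ (W k)) i with ⟨-, e⟩ | ⟨-, e⟩ <;> rw [e] <;> omega

set_option maxRecDepth 100000 in
theorem injOn_even (F : ℕ → Finset (GolayPt → ℤ)) :
    Set.InjOn (fun p : (_ : ℕ) × (GolayPt → ℤ) => Phi 2 0 (support₂ (W p.1)) p.2)
      (((Finset.range 4096).sigma F : Finset ((_ : ℕ) × (GolayPt → ℤ))) : Set _) := by
  rintro ⟨k, y⟩ hm ⟨k', y'⟩ hm' h
  rw [Finset.mem_coe, Finset.mem_sigma, Finset.mem_range] at hm hm'
  have hC : support₂ (W k) = support₂ (W k') := by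
    have h1 := Sx_Phi_even (support₂ (W k)) y
    have h2 := Sx_Phi_even (support₂ (W k')) y'
    rw [← h1, ← h2]
    exact congrArg (fun x => Sx x 2) h
  have hk : k = k' := W_injOn hm.1 hm'.1 (support₂_inj hC)
  subst hk
  have hy : y = y' := Phi_inj 2 0 _ h
  rw [hy]

set_option maxRecDepth 100000 in
theorem injOn_odd (F : ℕ → Finset (GolayPt → ℤ)) :
    Set.InjOn (fun p : (_ : ℕ) × (GolayPt → ℤ) => Phi 1 (-1) (support₂ (W p.1)) p.2)
      (((Finset.range 4096).sigma F : Finset ((_ : ℕ) × (GolayPt → ℤ))) : Set _) := by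
  rintro ⟨k, y⟩ hm ⟨k', y'⟩ hm' h
  rw [Finset.mem_coe, Finset.mem_sigma, Finset.mem_range] at hm hm'
  have hC : support₂ (W k) = support₂ (W k') := by
    have h1 := Sx_Phi_odd (support₂ (W k)) y
    have h2 := Sx_Phi_odd (support₂ (W k')) y'
    rw [← h1, ← h2]
    exact congrArg (fun x => Sx x 1) h
  have hk : k = k' := W_injOn hm.1 hm'.1 (support₂_inj hC)
  subst hk
  have hy : y = y' := Phi_inj 1 (-1) _ h
  rw [hy]

theorem ncard_EvSet (N : ℕ) (Al : List ℤ) (hAl : ∀ t ∈ Al, -10 ≤ t ∧ t ≤ 10) :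
    (EvSet N Al).ncard = ∑ k ∈ Finset.range 4096, digE Al N (popc (M k)) := by
  rw [EvSet_eq N Al hAl, Set.InjOn.ncard_image (injOn_even _), Set.ncard_coe_finset,
    Finset.card_sigma]
  apply Finset.sum_congr rfl
  intro k _
  unfold YE digE
  rw [count_even, card_supp_W]

theorem ncard_OdSet (N : ℕ) (Al : List ℤ) (hAl : ∀ t ∈ Al, -10 ≤ t ∧ t ≤ 10) :
    (OdSet N Al).ncard = ∑ k ∈ Finset.range 4096, digO Al N (popc (M k)) := by
  rw [OdSet_eq N Al hAl, Set.InjOn.ncard_image (injOn_odd _), Set.ncard_coe_finset,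
    Finset.card_sigma]
  apply Finset.sum_congr rfl
  intro k _
  unfold YO digO
  rw [count_odd, card_supp_W]

theorem count0 : ((Finset.range 4096).filter (fun k => popc (M k) = 0)).card = 1 := by
  decide +kernel

theorem count16 : ((Finset.range 4096).filter (fun k => popc (M k) = 16)).card = 759 := by
  decide +kernel

theorem count24 : ((Finset.range 4096).filter (fun k => popc (M k) = 24)).card = 1 := by
  decide +kernel

theorem sum_weights (G : ℕ → ℕ) :
    ∑ k ∈ Finset.range 4096, G (popc (M k)) =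
      G 0 + 759 * G 8 + 2576 * G 12 + 759 * G 16 + G 24 := by
  have hmaps : ∀ k ∈ Finset.range 4096, popc (M k) ∈ ({0, 8, 12, 16, 24} : Finset ℕ) := by
    intro k hk
    rw [Finset.mem_range] at hk
    simp only [Finset.mem_insert, Finset.mem_singleton]
    exact weights k hk
  rw [← Finset.sum_fiberwise_of_maps_to hmaps]
  have hin : ∀ w : ℕ, ∑ k ∈ (Finset.range 4096).filter (fun k => popc (M k) = w),
      G (popc (M k)) = ((Finset.range 4096).filter (fun k => popc (M k) = w)).card * G w := by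
    intro w
    rw [Finset.sum_congr rfl (fun k hk => by rw [(Finset.mem_filter.mp hk).2]), Finset.sum_const,
      smul_eq_mul]
  simp only [hin]
  rw [Finset.sum_insert (by decide), Finset.sum_insert (by decide), Finset.sum_insert (by decide),
    Finset.sum_insert (by decide), Finset.sum_singleton, count0, count8, count12, count16, count24]
  ring

/-- the number of lattice vectors with given sum of squares and coordinates in the list -/
theorem ncard_min (N : ℕ) (Al : List ℤ) (hAl : ∀ t ∈ Al, -10 ≤ t ∧ t ≤ 10) :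
    {x : GolayPt → ℤ | x ∈ leechLattice ∧ sqNorm x = (N : ℤ) ∧ ∀ i, x i ∈ Al}.ncard =
      (digE Al N 0 + digO Al N 0) + 759 * (digE Al N 8 + digO Al N 8) +
        2576 * (digE Al N 12 + digO Al N 12) + 759 * (digE Al N 16 + digO Al N 16) +
          (digE Al N 24 + digO Al N 24) := by
  have hU : {x : GolayPt → ℤ | x ∈ leechLattice ∧ sqNorm x = (N : ℤ) ∧ ∀ i, x i ∈ Al} =
      EvSet N Al ∪ OdSet N Al := by
    ext x
    constructor
    · rintro ⟨hx, hn, hal⟩
      rcases (mem_leechLattice_iff x).mp hx with h | h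
      · left
        exact ⟨hx, hn, hal, h.1⟩
      · right
        exact ⟨hx, hn, hal, h.1⟩
    · rintro (⟨hx, hn, hal, -⟩ | ⟨hx, hn, hal, -⟩) <;> exact ⟨hx, hn, hal⟩
  have hd : Disjoint (EvSet N Al) (OdSet N Al) := by
    rw [Set.disjoint_left]
    rintro x ⟨-, -, -, h2⟩ ⟨-, -, -, h1⟩
    have := h2 (none : GolayPt)
    have := h1 (none : GolayPt)
    omega
  have hfE : (EvSet N Al).Finite := by
    rw [EvSet_eq N Al hAl]
    exact (Finset.finite_toSet _).image _
  have hfO : (OdSet N Al).Finite := by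
    rw [OdSet_eq N Al hAl]
    exact (Finset.finite_toSet _).image _
  rw [hU, Set.ncard_union_eq hd hfE hfO, ncard_EvSet N Al hAl, ncard_OdSet N Al hAl,
    ← Finset.sum_add_distrib, sum_weights (fun w => digE Al N w + digO Al N w)]

end Cfsg.Agent.Lib_lead_LeechCount
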