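import Mathlib
import Cfsg.Prelude.Def_Sporadic_a
import Cfsg.Agent.Lib_lead_LeechCount

/-! Counting the vectors of the rank-24 lattice with coordinates in a given list and a given
total of position-dependent costs. -/

set_option autoImplicit false

namespace Cfsg.Agent.Lib_lead_LeechCountG

open Cfsg Cfsg.Agent.Lib_lead_Golay Cfsg.Agent.Lib_lead_Leech Cfsg.Agent.Lib_lead_GFCount
  Cfsg.Agent.Lib_lead_MinVec Cfsg.Agent.Lib_lead_LeechCount

/-- the cost of a shift at a coordinate -/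
def costG (c : GolayPt → ℤ → ℕ) (a b : ℤ) (C : Finset GolayPt) (i : GolayPt) (v : ℤ) : ℕ :=
  c i (res a b C i + 4 * v)

/-- the sum of the powers of the base over the allowed shifts -/
def PPg (c : GolayPt → ℤ → ℕ) (Al : List ℤ) (i : GolayPt) (r : ℤ) : ℤ :=
  ((shifts Al r).map (fun v => ((Bn ^ c i (r + 4 * v) : ℕ) : ℤ))).sum

/-- the signed sum of the powers of the base over the allowed shifts -/
def PMg (c : GolayPt → ℤ → ℕ) (Al : List ℤ) (i : GolayPt) (r : ℤ) : ℤ :=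
  ((shifts Al r).map (fun v => sg v * ((Bn ^ c i (r + 4 * v) : ℕ) : ℤ))).sum

theorem sum_VC_plusG (c : GolayPt → ℤ → ℕ) (Al : List ℤ) (a b : ℤ) (C : Finset GolayPt)
    (i : GolayPt) :
    ∑ v ∈ VC Al a b C i, (Bn : ℤ) ^ costG c a b C i v = PPg c Al i (res a b C i) := by
  unfold VC PPg costG
  rw [List.sum_toFinset _ (shifts_nodup _ _)]
  congr 1

theorem sum_VC_minusG (c : GolayPt → ℤ → ℕ) (Al : List ℤ) (a b : ℤ) (C : Finset GolayPt)
    (i : GolayPt) :
    ∑ v ∈ VC Al a b C i, sg v * (Bn : ℤ) ^ costG c a b C i v = PMg c Al i (res a b C i) := by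
  unfold VC PMg costG
  rw [List.sum_toFinset _ (shifts_nodup _ _)]
  congr 1

/-- the number of even vectors over a set -/
def dEg (c : GolayPt → ℤ → ℕ) (Al : List ℤ) (E : ℕ) (C : Finset GolayPt) : ℕ :=
  Int.toNat ((∏ i, PPg c Al i (res 2 0 C i) + ∏ i, PMg c Al i (res 2 0 C i)) / 2) / Bn ^ E % Bn

/-- the number of odd vectors over a set -/
def dOg (c : GolayPt → ℤ → ℕ) (Al : List ℤ) (E : ℕ) (C : Finset GolayPt) : ℕ :=
  Int.toNat ((∏ i, PPg c Al i (res 1 (-1) C i) - ∏ i, PMg c Al i (res 1 (-1) C i)) / 2) /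
    Bn ^ E % Bn

theorem count_evenG (c : GolayPt → ℤ → ℕ) (Al : List ℤ) (a b : ℤ) (C : Finset GolayPt) (E : ℕ) :
    (((Fintype.piFinset (VC Al a b C)).filter (fun y => Even (∑ i, y i))).filter
      (fun y => ∑ i, costG c a b C i (y i) = E)).card =
      Int.toNat ((∏ i, PPg c Al i (res a b C i) + ∏ i, PMg c Al i (res a b C i)) / 2) /
        Bn ^ E % Bn := by
  have hS : ((Fintype.piFinset (VC Al a b C)).filter (fun y => Even (∑ i, y i))).card < Bn :=
    lt_of_le_of_lt (Finset.card_filter_le _ _) (card_pi_lt Al a b C)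
  rw [digit_count _ (fun y => ∑ i, costG c a b C i (y i)) Bn hS E]
  have hg := gf_even (VC Al a b C) (costG c a b C) (Bn : ℤ)
  simp only [sum_VC_plusG, sum_VC_minusG] at hg
  have hcast : ((∑ y ∈ (Fintype.piFinset (VC Al a b C)).filter (fun y => Even (∑ i, y i)),
      Bn ^ ∑ i, costG c a b C i (y i) : ℕ) : ℤ) =
      ∑ y ∈ (Fintype.piFinset (VC Al a b C)).filter (fun y => Even (∑ i, y i)),
        (Bn : ℤ) ^ ∑ i, costG c a b C i (y i) := by
    push_cast
    rfl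
  rw [hg, ← hcast, Int.mul_ediv_cancel_left _ (by norm_num), Int.toNat_natCast]

theorem count_oddG (c : GolayPt → ℤ → ℕ) (Al : List ℤ) (a b : ℤ) (C : Finset GolayPt) (E : ℕ) :
    (((Fintype.piFinset (VC Al a b C)).filter (fun y => ¬ Even (∑ i, y i))).filter
      (fun y => ∑ i, costG c a b C i (y i) = E)).card =
      Int.toNat ((∏ i, PPg c Al i (res a b C i) - ∏ i, PMg c Al i (res a b C i)) / 2) /
        Bn ^ E % Bn := by
  have hS : ((Fintype.piFinset (VC Al a b C)).filter (fun y => ¬ Even (∑ i, y i))).card < Bn :=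
    lt_of_le_of_lt (Finset.card_filter_le _ _) (card_pi_lt Al a b C)
  rw [digit_count _ (fun y => ∑ i, costG c a b C i (y i)) Bn hS E]
  have hg := gf_odd (VC Al a b C) (costG c a b C) (Bn : ℤ)
  simp only [sum_VC_plusG, sum_VC_minusG] at hg
  have hcast : ((∑ y ∈ (Fintype.piFinset (VC Al a b C)).filter (fun y => ¬ Even (∑ i, y i)),
      Bn ^ ∑ i, costG c a b C i (y i) : ℕ) : ℤ) =
      ∑ y ∈ (Fintype.piFinset (VC Al a b C)).filter (fun y => ¬ Even (∑ i, y i)),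
        (Bn : ℤ) ^ ∑ i, costG c a b C i (y i) := by
    push_cast
    rfl
  rw [hg, ← hcast, Int.mul_ediv_cancel_left _ (by norm_num), Int.toNat_natCast]

/-- membership in the index set, in terms of the vector -/
theorem mem_YG (c : GolayPt → ℤ → ℕ) (Al : List ℤ) (hAl : ∀ t ∈ Al, -10 ≤ t ∧ t ≤ 10) (a b : ℤ)
    (ha : -2 ≤ a ∧ a ≤ 2) (hb : -2 ≤ b ∧ b ≤ 2) (C : Finset GolayPt) (E : ℕ)
    (y : GolayPt → ℤ) :
    (y ∈ Fintype.piFinset (VC Al a b C) ∧ ∑ i, costG c a b C i (y i) = E) ↔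
      ((∀ i, Phi a b C y i ∈ Al) ∧ ∑ i, c i (Phi a b C y i) = E) := by
  have h1 : y ∈ Fintype.piFinset (VC Al a b C) ↔ ∀ i, Phi a b C y i ∈ Al := by
    rw [Fintype.mem_piFinset]
    constructor
    · intro h i
      have hi := h i
      unfold VC at hi
      rw [List.mem_toFinset, mem_shifts] at hi
      exact hi.2
    · intro h i
      unfold VC
      rw [List.mem_toFinset, mem_shifts, mem_vals]
      have hi := h i
      refine ⟨?_, hi⟩
      have hb2 := hAl _ hi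
      unfold Phi at hb2
      rcases res_cases a b C i with ⟨-, e⟩ | ⟨-, e⟩ <;> rw [e] at hb2 <;> omega
  rw [h1]
  rfl

/-- the even vectors with given total cost and coordinates in the list -/
def EvSetG (c : GolayPt → ℤ → ℕ) (E : ℕ) (Al : List ℤ) : Set (GolayPt → ℤ) :=
  {x | x ∈ leechLattice ∧ ∑ i, c i (x i) = E ∧ (∀ i, x i ∈ Al) ∧ ∀ i, x i % 2 = 0}

/-- the odd vectors with given total cost and coordinates in the list -/
def OdSetG (c : GolayPt → ℤ → ℕ) (E : ℕ) (Al : List ℤ) : Set (GolayPt → ℤ) :=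
  {x | x ∈ leechLattice ∧ ∑ i, c i (x i) = E ∧ (∀ i, x i ∈ Al) ∧ ∀ i, x i % 2 = 1}

/-- the index set of the even vectors over a codeword -/
def YEg (c : GolayPt → ℤ → ℕ) (Al : List ℤ) (E : ℕ) (C : Finset GolayPt) :
    Finset (GolayPt → ℤ) :=
  ((Fintype.piFinset (VC Al 2 0 C)).filter (fun y => Even (∑ i, y i))).filter
    (fun y => ∑ i, costG c 2 0 C i (y i) = E)

/-- the index set of the odd vectors over a codeword -/
def YOg (c : GolayPt → ℤ → ℕ) (Al : List ℤ) (E : ℕ) (C : Finset GolayPt) :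
    Finset (GolayPt → ℤ) :=
  ((Fintype.piFinset (VC Al 1 (-1) C)).filter (fun y => ¬ Even (∑ i, y i))).filter
    (fun y => ∑ i, costG c 1 (-1) C i (y i) = E)

set_option maxRecDepth 100000 in
theorem EvSetG_eq (c : GolayPt → ℤ → ℕ) (E : ℕ) (Al : List ℤ)
    (hAl : ∀ t ∈ Al, -10 ≤ t ∧ t ≤ 10) :
    EvSetG c E Al = (fun p : (_ : ℕ) × (GolayPt → ℤ) => Phi 2 0 (support₂ (W p.1)) p.2) ''
      (((Finset.range 4096).sigma (fun k => YEg c Al E (support₂ (W k))) :
        Finset ((_ : ℕ) × (GolayPt → ℤ))) : Set _) := by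
  ext x
  constructor
  · rintro ⟨hx, hn, hal, h2⟩
    obtain ⟨C, hC, y, rfl⟩ := repr_even hx h2
    obtain ⟨k, hk, rfl⟩ := exists_W hC
    refine ⟨⟨k, y⟩, ?_, rfl⟩
    rw [Finset.mem_coe, Finset.mem_sigma, Finset.mem_range]
    refine ⟨hk, ?_⟩
    unfold YEg
    rw [Finset.mem_filter, Finset.mem_filter]
    have hY := (mem_YG c Al hAl 2 0 (by norm_num) (by norm_num) (support₂ (W k)) E y).mpr
      ⟨hal, hn⟩
    exact ⟨⟨hY.1, (mem_even hC y).mp hx⟩, hY.2⟩
  · rintro ⟨⟨k, y⟩, hm, rfl⟩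
    rw [Finset.mem_coe, Finset.mem_sigma, Finset.mem_range] at hm
    obtain ⟨hk, hy⟩ := hm
    unfold YEg at hy
    rw [Finset.mem_filter, Finset.mem_filter] at hy
    have hY := (mem_YG c Al hAl 2 0 (by norm_num) (by norm_num) (support₂ (W k)) E y).mp
      ⟨hy.1.1, hy.2⟩
    refine ⟨(mem_even (supp_W k) y).mpr hy.1.2, hY.2, hY.1, ?_⟩
    intro i
    show (res 2 0 (support₂ (W k)) i + 4 * y i) % 2 = 0
    rcases res_cases 2 0 (support₂ (W k)) i with ⟨-, e⟩ | ⟨-, e⟩ <;> rw [e] <;> omega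

set_option maxRecDepth 100000 in
theorem OdSetG_eq (c : GolayPt → ℤ → ℕ) (E : ℕ) (Al : List ℤ)
    (hAl : ∀ t ∈ Al, -10 ≤ t ∧ t ≤ 10) :
    OdSetG c E Al = (fun p : (_ : ℕ) × (GolayPt → ℤ) => Phi 1 (-1) (support₂ (W p.1)) p.2) ''
      (((Finset.range 4096).sigma (fun k => YOg c Al E (support₂ (W k))) :
        Finset ((_ : ℕ) × (GolayPt → ℤ))) : Set _) := by
  ext x
  constructor
  · rintro ⟨hx, hn, hal, h2⟩
    obtain ⟨C, hC, y, rfl⟩ := repr_odd hx h2
    obtain ⟨k, hk, rfl⟩ := exists_W hC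
    refine ⟨⟨k, y⟩, ?_, rfl⟩
    rw [Finset.mem_coe, Finset.mem_sigma, Finset.mem_range]
    refine ⟨hk, ?_⟩
    unfold YOg
    rw [Finset.mem_filter, Finset.mem_filter]
    have hY := (mem_YG c Al hAl 1 (-1) (by norm_num) (by norm_num) (support₂ (W k)) E y).mpr
      ⟨hal, hn⟩
    exact ⟨⟨hY.1, (mem_odd hC y).mp hx⟩, hY.2⟩
  · rintro ⟨⟨k, y⟩, hm, rfl⟩
    rw [Finset.mem_coe, Finset.mem_sigma, Finset.mem_range] at hm
    obtain ⟨hk, hy⟩ := hm
    unfold YOg at hy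
    rw [Finset.mem_filter, Finset.mem_filter] at hy
    have hY := (mem_YG c Al hAl 1 (-1) (by norm_num) (by norm_num) (support₂ (W k)) E y).mp
      ⟨hy.1.1, hy.2⟩
    refine ⟨(mem_odd (supp_W k) y).mpr hy.1.2, hY.2, hY.1, ?_⟩
    intro i
    show (res 1 (-1) (support₂ (W k)) i + 4 * y i) % 2 = 1
    rcases res_cases 1 (-1) (support₂ (W k)) i with ⟨-, e⟩ | ⟨-, e⟩ <;> rw [e] <;> omega

theorem ncard_EvSetG (c : GolayPt → ℤ → ℕ) (E : ℕ) (Al : List ℤ)
    (hAl : ∀ t ∈ Al, -10 ≤ t ∧ t ≤ 10) :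
    (EvSetG c E Al).ncard = ∑ k ∈ Finset.range 4096, dEg c Al E (support₂ (W k)) := by
  rw [EvSetG_eq c E Al hAl, Set.InjOn.ncard_image (injOn_even _), Set.ncard_coe_finset,
    Finset.card_sigma]
  apply Finset.sum_congr rfl
  intro k _
  unfold YEg dEg
  rw [count_evenG]

theorem ncard_OdSetG (c : GolayPt → ℤ → ℕ) (E : ℕ) (Al : List ℤ)
    (hAl : ∀ t ∈ Al, -10 ≤ t ∧ t ≤ 10) :
    (OdSetG c E Al).ncard = ∑ k ∈ Finset.range 4096, dOg c Al E (support₂ (W k)) := by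
  rw [OdSetG_eq c E Al hAl, Set.InjOn.ncard_image (injOn_odd _), Set.ncard_coe_finset,
    Finset.card_sigma]
  apply Finset.sum_congr rfl
  intro k _
  unfold YOg dOg
  rw [count_oddG]

/-- the number of lattice vectors with given total cost and coordinates in the list -/
theorem ncard_G (c : GolayPt → ℤ → ℕ) (E : ℕ) (Al : List ℤ)
    (hAl : ∀ t ∈ Al, -10 ≤ t ∧ t ≤ 10) :
    {x : GolayPt → ℤ | x ∈ leechLattice ∧ ∑ i, c i (x i) = E ∧ ∀ i, x i ∈ Al}.ncard =
      ∑ k ∈ Finset.range 4096,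
        (dEg c Al E (support₂ (W k)) + dOg c Al E (support₂ (W k))) := by
  have hU : {x : GolayPt → ℤ | x ∈ leechLattice ∧ ∑ i, c i (x i) = E ∧ ∀ i, x i ∈ Al} =
      EvSetG c E Al ∪ OdSetG c E Al := by
    ext x
    constructor
    · rintro ⟨hx, hn, hal⟩
      rcases (mem_leechLattice_iff x).mp hx with h | h
      · left
        exact ⟨hx, hn, hal, h.1⟩
      · right
        exact ⟨hx, hn, hal, h.1⟩
    · rintro (⟨hx, hn, hal, -⟩ | ⟨hx, hn, hal, -⟩) <;> exact ⟨hx, hn, hal⟩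
  have hd : Disjoint (EvSetG c E Al) (OdSetG c E Al) := by
    rw [Set.disjoint_left]
    rintro x ⟨-, -, -, h2⟩ ⟨-, -, -, h1⟩
    have := h2 (none : GolayPt)
    have := h1 (none : GolayPt)
    omega
  have hfE : (EvSetG c E Al).Finite := by
    rw [EvSetG_eq c E Al hAl]
    exact (Finset.finite_toSet _).image _
  have hfO : (OdSetG c E Al).Finite := by
    rw [OdSetG_eq c E Al hAl]
    exact (Finset.finite_toSet _).image _
  rw [hU, Set.ncard_union_eq hd hfE hfO, ncard_EvSetG c E Al hAl, ncard_OdSetG c E Al hAl,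
    ← Finset.sum_add_distrib]

end Cfsg.Agent.Lib_lead_LeechCountG
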