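import Mathlib
import Cfsg.Prelude.Def_Sporadic_a
import Cfsg.Agent.Lib_lead_LeechCount

/-! The numbers of vectors of the rank-24 lattice with sum of squares 48 and 64, and of some
shapes. -/

set_option autoImplicit false

namespace Cfsg.Agent.Lib_lead_LeechNums

open Cfsg Cfsg.Agent.Lib_lead_Golay Cfsg.Agent.Lib_lead_Leech Cfsg.Agent.Lib_lead_GFCount
  Cfsg.Agent.Lib_lead_MinVec Cfsg.Agent.Lib_lead_LeechCount

/-- the integers of absolute value at most 8 -/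
def Al8 : List ℤ := [-8, -7, -6, -5, -4, -3, -2, -1, 0, 1, 2, 3, 4, 5, 6, 7, 8]

theorem mem_Al8 (t : ℤ) : t ∈ Al8 ↔ -8 ≤ t ∧ t ≤ 8 := by
  unfold Al8
  simp only [List.mem_cons, List.not_mem_nil, or_false]
  omega

theorem coord_sq_le (x : GolayPt → ℤ) (i : GolayPt) : x i ^ 2 ≤ sqNorm x := by
  unfold sqNorm
  exact Finset.single_le_sum (f := fun k => x k ^ 2) (fun k _ => sq_nonneg _) (Finset.mem_univ i)

theorem bound8 {x : GolayPt → ℤ} {N : ℤ} (hn : sqNorm x = N) (hN : N ≤ 64) (i : GolayPt) :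
    x i ∈ Al8 := by
  rw [mem_Al8]
  have h := coord_sq_le x i
  rw [hn] at h
  constructor <;> nlinarith

theorem set_norm (N : ℕ) (hN : N ≤ 64) :
    {x : GolayPt → ℤ | x ∈ leechLattice ∧ sqNorm x = (N : ℤ)} =
      {x : GolayPt → ℤ | x ∈ leechLattice ∧ sqNorm x = (N : ℤ) ∧ ∀ i, x i ∈ Al8} := by
  ext x
  constructor
  · rintro ⟨hx, hn⟩
    exact ⟨hx, hn, fun i => bound8 hn (by exact_mod_cast hN) i⟩
  · rintro ⟨hx, hn, -⟩
    exact ⟨hx, hn⟩

theorem hAl8 : ∀ t ∈ Al8, -10 ≤ t ∧ t ≤ 10 := by decide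

set_option maxRecDepth 100000 in
theorem n48 : {x : GolayPt → ℤ | x ∈ leechLattice ∧ sqNorm x = 48}.ncard = 16773120 := by
  have e : {x : GolayPt → ℤ | x ∈ leechLattice ∧ sqNorm x = 48} =
      {x : GolayPt → ℤ | x ∈ leechLattice ∧ sqNorm x = ((48 : ℕ) : ℤ)} := rfl
  rw [e, set_norm 48 (by norm_num), ncard_min 48 Al8 hAl8]
  decide +kernel

set_option maxRecDepth 100000 in
theorem n64 : {x : GolayPt → ℤ | x ∈ leechLattice ∧ sqNorm x = 64}.ncard = 398034000 := by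
  have e : {x : GolayPt → ℤ | x ∈ leechLattice ∧ sqNorm x = 64} =
      {x : GolayPt → ℤ | x ∈ leechLattice ∧ sqNorm x = ((64 : ℕ) : ℤ)} := rfl
  rw [e, set_norm 64 (by norm_num), ncard_min 64 Al8 hAl8]
  decide +kernel

end Cfsg.Agent.Lib_lead_LeechNums
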