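import Mathlib
import Cfsg.Prelude.Def_Sporadic_a
import Cfsg.Agent.Lib_lead_LeechNums

/-! Shape census of the vectors of sum of squares 48 in the rank-24 lattice. -/

set_option autoImplicit false

namespace Cfsg.Agent.Lib_lead_LeechShapes

open Cfsg Cfsg.Agent.Lib_lead_Golay Cfsg.Agent.Lib_lead_Leech Cfsg.Agent.Lib_lead_GFCount
  Cfsg.Agent.Lib_lead_MinVec Cfsg.Agent.Lib_lead_LeechCount Cfsg.Agent.Lib_lead_LeechNums

def A2 : List ℤ := [0, 2, -2]
def A3 : List ℤ := [1, -1, 3, -3]
def A5 : List ℤ := [1, -1, 3, -3, 5, -5]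
def A4 : List ℤ := [0, 2, -2, 4, -4]
def A6 : List ℤ := [0, 2, -2, 4, -4, 6, -6]

/-- the vectors of sum of squares 48 with all coordinates in a list -/
def T (Al : List ℤ) : Set (GolayPt → ℤ) :=
  {x | x ∈ leechLattice ∧ sqNorm x = ((48 : ℕ) : ℤ) ∧ ∀ i, x i ∈ Al}

set_option maxRecDepth 100000 in
theorem nT2 : (T A2).ncard = 5275648 := by
  unfold T
  rw [ncard_min 48 A2 (by decide)]
  decide +kernel

set_option maxRecDepth 100000 in
theorem nT3 : (T A3).ncard = 8290304 := by
  unfold T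
  rw [ncard_min 48 A3 (by decide)]
  decide +kernel

set_option maxRecDepth 100000 in
theorem nT5 : (T A5).ncard = 8388608 := by
  unfold T
  rw [ncard_min 48 A5 (by decide)]
  decide +kernel

set_option maxRecDepth 100000 in
theorem nT4 : (T A4).ncard = 8384512 := by
  unfold T
  rw [ncard_min 48 A4 (by decide)]
  decide +kernel

set_option maxRecDepth 100000 in
theorem nT6 : (T A6).ncard = 8384512 := by
  unfold T
  rw [ncard_min 48 A6 (by decide)]
  decide +kernel

theorem parity {x : GolayPt → ℤ} (hx : x ∈ leechLattice) :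
    (∀ i, x i % 2 = 0) ∨ (∀ i, x i % 2 = 1) := by
  rcases (mem_leechLattice_iff x).mp hx with h | h
  · exact Or.inl h.1
  · exact Or.inr h.1

theorem all_even {x : GolayPt → ℤ} (hx : x ∈ leechLattice) {i : GolayPt} (hi : x i % 2 = 0) :
    ∀ l, x l % 2 = 0 := by
  rcases parity hx with h | h
  · exact h
  · have := h i
    omega

theorem all_odd {x : GolayPt → ℤ} (hx : x ∈ leechLattice) {i : GolayPt} (hi : x i % 2 = 1) :
    ∀ l, x l % 2 = 1 := by
  rcases parity hx with h | h
  · have := h i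
    omega
  · exact h

theorem bound6 {x : GolayPt → ℤ} (hn : sqNorm x = 48) (i : GolayPt) : -6 ≤ x i ∧ x i ≤ 6 := by
  have h := coord_sq_le x i
  rw [hn] at h
  constructor <;> nlinarith

theorem finT (Al : List ℤ) (h : (T Al).ncard ≠ 0) : (T Al).Finite :=
  Set.finite_of_ncard_ne_zero h

theorem T4_eq_T6 : T A4 = T A6 := by
  refine Set.eq_of_subset_of_ncard_le ?_ ?_ (finT A6 (by rw [nT6]; norm_num))
  · rintro x ⟨hx, hn, hal⟩
    refine ⟨hx, hn, fun i => ?_⟩
    have := hal i
    simp only [A4, A6, List.mem_cons, List.not_mem_nil, or_false] at this ⊢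
    omega
  · rw [nT4, nT6]

theorem set1 : {x : GolayPt → ℤ | x ∈ leechLattice ∧ sqNorm x = 48 ∧
    ∀ i, x i = 0 ∨ x i = 2 ∨ x i = -2} = T A2 := by
  ext x
  constructor
  · rintro ⟨hx, hn, hal⟩
    refine ⟨hx, hn, fun i => ?_⟩
    have := hal i
    simp only [A2, List.mem_cons, List.not_mem_nil, or_false]
    exact this
  · rintro ⟨hx, hn, hal⟩
    refine ⟨hx, hn, fun i => ?_⟩
    have := hal i
    simp only [A2, List.mem_cons, List.not_mem_nil, or_false] at this
    exact this

theorem set3 : {x : GolayPt → ℤ | x ∈ leechLattice ∧ sqNorm x = 48 ∧ ∃ i, |x i| = 4} =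
    T A4 \ T A2 := by
  ext x
  constructor
  · rintro ⟨hx, hn, i, hi⟩
    constructor
    · rw [T4_eq_T6]
      refine ⟨hx, hn, fun l => ?_⟩
      have he : x i % 2 = 0 := by
        rcases abs_eq (by norm_num : (0 : ℤ) ≤ 4) |>.mp hi with h | h <;> rw [h] <;> rfl
      have h2 := all_even hx he l
      have h6 := bound6 hn l
      simp only [A6, List.mem_cons, List.not_mem_nil, or_false]
      omega
    · rintro ⟨-, -, hal⟩
      have := hal i
      simp only [A2, List.mem_cons, List.not_mem_nil, or_false] at this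
      rcases abs_eq (by norm_num : (0 : ℤ) ≤ 4) |>.mp hi with h | h <;> omega
  · rintro ⟨⟨hx, hn, hal⟩, hnot⟩
    refine ⟨hx, hn, ?_⟩
    by_contra hne
    apply hnot
    refine ⟨hx, hn, fun l => ?_⟩
    have h1 := hal l
    have h2 : ¬ |x l| = 4 := fun h => hne ⟨l, h⟩
    simp only [A4, A2, List.mem_cons, List.not_mem_nil, or_false] at h1 ⊢
    rcases h1 with h | h | h | h | h
    · exact Or.inl h
    · exact Or.inr (Or.inl h)
    · exact Or.inr (Or.inr h)
    · exact absurd (by rw [h]; rfl) h2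
    · exact absurd (by rw [h]; rfl) h2

theorem set4 : {x : GolayPt → ℤ | x ∈ leechLattice ∧ sqNorm x = 48 ∧ ∃ i, |x i| = 5} =
    T A5 \ T A3 := by
  ext x
  constructor
  · rintro ⟨hx, hn, i, hi⟩
    constructor
    · refine ⟨hx, hn, fun l => ?_⟩
      have he : x i % 2 = 1 := by
        rcases abs_eq (by norm_num : (0 : ℤ) ≤ 5) |>.mp hi with h | h <;> rw [h] <;> rfl
      have h2 := all_odd hx he l
      have h6 := bound6 hn l
      simp only [A5, List.mem_cons, List.not_mem_nil, or_false]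
      omega
    · rintro ⟨-, -, hal⟩
      have := hal i
      simp only [A3, List.mem_cons, List.not_mem_nil, or_false] at this
      rcases abs_eq (by norm_num : (0 : ℤ) ≤ 5) |>.mp hi with h | h <;> omega
  · rintro ⟨⟨hx, hn, hal⟩, hnot⟩
    refine ⟨hx, hn, ?_⟩
    by_contra hne
    apply hnot
    refine ⟨hx, hn, fun l => ?_⟩
    have h1 := hal l
    have h2 : ¬ |x l| = 5 := fun h => hne ⟨l, h⟩
    simp only [A5, A3, List.mem_cons, List.not_mem_nil, or_false] at h1 ⊢
    rcases h1 with h | h | h | h | h | h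
    · exact Or.inl h
    · exact Or.inr (Or.inl h)
    · exact Or.inr (Or.inr (Or.inl h))
    · exact Or.inr (Or.inr (Or.inr h))
    · exact absurd (by rw [h]; rfl) h2
    · exact absurd (by rw [h]; rfl) h2

theorem sub_T (Al Bl : List ℤ) (h : ∀ t ∈ Al, t ∈ Bl) : T Al ⊆ T Bl := by
  rintro x ⟨hx, hn, hal⟩
  exact ⟨hx, hn, fun i => h _ (hal i)⟩

theorem n3 : {x : GolayPt → ℤ | x ∈ leechLattice ∧ sqNorm x = 48 ∧ ∃ i, |x i| = 4}.ncard =
    3108864 := by
  rw [set3, Set.ncard_sdiff (sub_T A2 A4 (by decide)) (finT A2 (by rw [nT2]; norm_num)), nT4, nT2]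

theorem n4 : {x : GolayPt → ℤ | x ∈ leechLattice ∧ sqNorm x = 48 ∧ ∃ i, |x i| = 5}.ncard =
    98304 := by
  rw [set4, Set.ncard_sdiff (sub_T A3 A5 (by decide)) (finT A3 (by rw [nT3]; norm_num)), nT5, nT3]

theorem n1 : {x : GolayPt → ℤ | x ∈ leechLattice ∧ sqNorm x = 48 ∧
    ∀ i, x i = 0 ∨ x i = 2 ∨ x i = -2}.ncard = 5275648 := by
  rw [set1, nT2]

theorem sq_A3 {t : ℤ} (h : t ∈ A3) : t ^ 2 = 1 + 8 * (if |t| = 3 then 1 else 0) := by
  simp only [A3, List.mem_cons, List.not_mem_nil, or_false] at h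
  rcases h with h | h | h | h <;> subst h <;> rfl

theorem set2 : {x : GolayPt → ℤ | x ∈ leechLattice ∧ sqNorm x = 48 ∧
    ∃ i j k, i ≠ j ∧ j ≠ k ∧ i ≠ k ∧ |x i| = 3 ∧ |x j| = 3 ∧ |x k| = 3} = T A3 := by
  ext x
  constructor
  · rintro ⟨hx, hn, i, j, k, hij, hjk, hik, hi, hj, hk⟩
    refine ⟨hx, hn, fun l => ?_⟩
    have he : x i % 2 = 1 := by
      rcases abs_eq (by norm_num : (0 : ℤ) ≤ 3) |>.mp hi with h | h <;> rw [h] <;> rfl
    have hodd := all_odd hx he
    have hnn : ∀ m ∈ (Finset.univ : Finset GolayPt), (0 : ℤ) ≤ x m ^ 2 - 1 := by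
      intro m _
      have := hodd m
      have h0 : x m ≠ 0 := by
        intro h
        rw [h] at this
        norm_num at this
      have : 0 < x m ^ 2 := by positivity
      omega
    have htot : ∑ m : GolayPt, (x m ^ 2 - 1) = 24 := by
      rw [Finset.sum_sub_distrib]
      have : ∑ m : GolayPt, x m ^ 2 = 48 := hn
      rw [this]
      simp [card_golayPt]
    have sq3 : ∀ m, |x m| = 3 → x m ^ 2 - 1 = 8 := by
      intro m hm
      rw [← sq_abs, hm]
      norm_num
    simp only [A3, List.mem_cons, List.not_mem_nil, or_false]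
    by_cases hl : l = i ∨ l = j ∨ l = k
    · have h3 : |x l| = 3 := by
        rcases hl with h | h | h <;> rw [h] <;> assumption
      rcases abs_eq (by norm_num : (0 : ℤ) ≤ 3) |>.mp h3 with h | h <;> omega
    · have hli : l ≠ i := fun h => hl (Or.inl h)
      have hlj : l ≠ j := fun h => hl (Or.inr (Or.inl h))
      have hlk : l ≠ k := fun h => hl (Or.inr (Or.inr h))
      have hsub := Finset.sum_le_sum_of_subset_of_nonneg
        (Finset.subset_univ ({l, i, j, k} : Finset GolayPt)) (fun m hm _ => hnn m hm)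
      rw [htot, Finset.sum_insert (by simp [hli, hlj, hlk]),
        Finset.sum_insert (by simp [hij, hik]), Finset.sum_insert (by simp [hjk]),
        Finset.sum_singleton, sq3 i hi, sq3 j hj, sq3 k hk] at hsub
      have h1 : x l ^ 2 ≤ 1 := by omega
      have ho := hodd l
      have hb : -1 ≤ x l ∧ x l ≤ 1 := by constructor <;> nlinarith
      omega
  · rintro ⟨hx, hn, hal⟩
    refine ⟨hx, hn, ?_⟩
    have hsum : (48 : ℤ) = ∑ m : GolayPt, (1 + 8 * (if |x m| = 3 then 1 else 0)) := by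
      have : ∑ m : GolayPt, x m ^ 2 = 48 := hn
      rw [← this]
      exact Finset.sum_congr rfl (fun m _ => sq_A3 (hal m))
    rw [Finset.sum_add_distrib, ← Finset.mul_sum, Finset.sum_boole] at hsum
    simp only [Finset.sum_const, Finset.card_univ, card_golayPt, nsmul_eq_mul, mul_one] at hsum
    have hc : (Finset.univ.filter (fun m : GolayPt => |x m| = 3)).card = 3 := by
      have : (((Finset.univ.filter (fun m : GolayPt => |x m| = 3)).card : ℕ) : ℤ) = 3 := by
        push_cast at hsum ⊢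
        omega
      exact_mod_cast this
    obtain ⟨i, j, k, hij, hik, hjk, he⟩ := Finset.card_eq_three.mp hc
    have mem : ∀ m, m ∈ ({i, j, k} : Finset GolayPt) → |x m| = 3 := by
      intro m hm
      rw [← he, Finset.mem_filter] at hm
      exact hm.2
    exact ⟨i, j, k, hij, hjk, hik, mem i (by simp), mem j (by simp), mem k (by simp)⟩

theorem n2 : {x : GolayPt → ℤ | x ∈ leechLattice ∧ sqNorm x = 48 ∧
    ∃ i j k, i ≠ j ∧ j ≠ k ∧ i ≠ k ∧ |x i| = 3 ∧ |x j| = 3 ∧ |x k| = 3}.ncard = 8290304 := by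
  rw [set2, nT3]

end Cfsg.Agent.Lib_lead_LeechShapes
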