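import Mathlib
import Cfsg.Prelude.Def_SporadicCombinatorics
import Cfsg.Agent.Lib_lead_ObjOrb4
import Cfsg.Agent.Lib_lead_Sextet
import Cfsg.Agent.Lib_lead_M24Sets2
import Cfsg.Agent.Lib_lead_MixTriSext

/-! Orbits on sextets of the stabilizer of a set of three points, distinguished by the number of
tetrads meeting the set. -/

set_option autoImplicit false

namespace Cfsg.Agent.Lib_lead_MixOrb3

open Cfsg Cfsg.Agent.Lib_lead_Golay Cfsg.Agent.Lib_lead_GolayPerm Cfsg.Agent.Lib_lead_M24
  Cfsg.Agent.Lib_lead_M24Chain Cfsg.Agent.Lib_lead_M24Orb Cfsg.Agent.Lib_lead_ObjOrb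
  Cfsg.Agent.Lib_lead_ObjOrb3 Cfsg.Agent.Lib_lead_ObjOrb4 Cfsg.Agent.Lib_lead_Sextet
  Cfsg.Agent.Lib_lead_M24Sets2 Cfsg.Agent.Lib_lead_MixTriSext
open scoped Pointwise

theorem sextets_smul : ∀ h ∈ M24, ∀ X ∈ sextets, h • X ∈ sextets :=
  fun _ hh _ hX => smul_sextet hh hX

theorem chkTriSext : ∀ r ∈ rootsT, sextChk r = true := by decide +kernel

theorem certTriSext : CertM sextets baseT gensT rootsT tabT sizeT 2 where
  hbase := hbaseT
  hgen := hgenT
  hroots := hrootsT
  hmem := fun r hr => sextet_of_chk r (chkTriSext r hr)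
  hcls := hclsT
  hinc := hincT
  hinv := hinvT
  hsmul := fun g hg X hX => smul_sextet ((mem_StabK _ g).mp hg).1 hX
  hcard := by rw [ncard_sextets, hlenT]
  hcount := hcountT

theorem tcount_smul (h : Equiv.Perm GolayPt) (Y : Finset GolayPt) (S : Fam) :
    ((h • S).filter fun t => (t ∩ h • Y).Nonempty).card
      = (S.filter fun t => (t ∩ Y).Nonempty).card := by
  have hS : h • S = S.image (fun t => h • t) := Finset.smul_finset_def
  rw [hS, Finset.filter_image, Finset.card_image_of_injective _ (MulAction.injective h)]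
  congr 1
  apply Finset.filter_congr
  intro t _
  rw [← Finset.smul_finset_inter, Finset.smul_finset_nonempty]

theorem fsOf_zero : fsOf 0 = ∅ := by decide +kernel

theorem nonempty_iff (a y : ℕ) (ha : a < 2 ^ 24) :
    (fsOf a ∩ fsOf y).Nonempty ↔ a &&& y ≠ 0 := by
  rw [fsOf_inter, Finset.nonempty_iff_ne_empty]
  constructor
  · intro h h0
    apply h
    rw [h0]
    exact fsOf_zero
  · intro h h0
    apply h
    exact fsOf_injOn (lt_of_le_of_lt Nat.and_le_left ha) (by norm_num) (h0.trans fsOf_zero.symm)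

theorem tcount_fin (l : List ℕ) (hl : ∀ m ∈ l, m < 2 ^ 24) (hnd : l.Nodup) (y : ℕ) :
    ((fin l).filter fun t => (t ∩ fsOf y).Nonempty).card
      = (l.filter (fun a => a &&& y != 0)).length := by
  have h1 : (fin l).filter (fun t => (t ∩ fsOf y).Nonempty)
      = fin (l.filter (fun a => a &&& y != 0)) := by
    ext t
    simp only [Finset.mem_filter, mem_fin, List.mem_filter]
    constructor
    · rintro ⟨⟨m, hm, rfl⟩, hne⟩
      exact ⟨m, ⟨hm, by simpa using (nonempty_iff m y (hl m hm)).mp hne⟩, rfl⟩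
    · rintro ⟨m, ⟨hm, hb⟩, rfl⟩
      exact ⟨⟨m, hm, rfl⟩, (nonempty_iff m y (hl m hm)).mpr (by simpa using hb)⟩
  rw [h1, card_fin (fun m hm => hl m (List.mem_filter.mp hm).1) (hnd.filter _)]

theorem c7 : (fsOf 7).card = 3 := by
  rw [card_fsOf _ (by norm_num)]
  decide

theorem base_counts : ∀ c < 3, ((rootsT.getD c []).filter (fun a => a &&& 7 != 0)).length
    = c + 1 := by decide +kernel

/-- sextets by the number of tetrads meeting a triad -/
theorem tri_sext (Y : Finset GolayPt) (hY : Y.card = 3) :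
    {S : Fam | S ∈ sextets ∧ (S.filter fun t => (t ∩ Y).Nonempty).card = 1}.ncard = 21 ∧
    {S : Fam | S ∈ sextets ∧ (S.filter fun t => (t ∩ Y).Nonempty).card = 2}.ncard = 630 ∧
    {S : Fam | S ∈ sextets ∧ (S.filter fun t => (t ∩ Y).Nonempty).card = 3}.ncard = 1120 ∧
    ∀ S S' : Fam, S ∈ sextets → S' ∈ sextets →
      (S.filter fun t => (t ∩ Y).Nonempty).card = (S'.filter fun t => (t ∩ Y).Nonempty).card →
      ∃ g ∈ M24, g • Y = Y ∧ g • S = S' := by
  obtain ⟨g, hgY⟩ := orbit_of_card (fsOf 7) Y (by rw [hY, c7]) (by rw [c7]; norm_num)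
  have hgY' : (g : Equiv.Perm GolayPt) • fsOf 7 = Y := hgY
  have hb : g • fin baseT = ({Y} : Fam) := by
    rw [show baseT = [7] from rfl, fin_single, Finset.smul_finset_singleton]
    exact congrArg _ hgY'
  have hlen : rootsT.length = 3 := by decide
  have hm : ∀ c, c < 3 → g • fin (rootsT.getD c []) ∈ sextets :=
    fun c hc => sextets_smul g.1 g.2 _
      (certTriSext.hmem _ (CertM.root_mem rootsT c (by rw [hlen]; exact hc)))
  have hcls : ∀ c, c < 3 → ∀ X ∈ MulAction.orbit ↥(MulAction.stabilizer ↥M24 ({Y} : Fam))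
      (g • fin (rootsT.getD c [])), (X.filter fun t => (t ∩ Y).Nonempty).card = c + 1 := by
    rintro c hc X ⟨⟨s, hs⟩, rfl⟩
    have hsY : (s : Equiv.Perm GolayPt) • Y = Y := by
      rw [stab_single, MulAction.mem_stabilizer_iff] at hs
      exact hs
    have e1 := tcount_smul (s : Equiv.Perm GolayPt) Y (g • fin (rootsT.getD c []))
    rw [hsY] at e1
    have e2 := tcount_smul (g : Equiv.Perm GolayPt) (fsOf 7) (fin (rootsT.getD c []))
    rw [hgY'] at e2
    have hr := certTriSext.hroots _ (CertM.root_mem rootsT c (by rw [hlen]; exact hc))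
    refine e1.trans (e2.trans ?_)
    rw [tcount_fin _ hr.1 hr.2]
    exact base_counts c hc
  have hset : ∀ c, c < 3 → {S : Fam | S ∈ sextets ∧
      (S.filter fun t => (t ∩ Y).Nonempty).card = c + 1}
      = MulAction.orbit ↥(MulAction.stabilizer ↥M24 ({Y} : Fam))
        (g • fin (rootsT.getD c [])) := by
    intro c hc
    ext X
    constructor
    · rintro ⟨hX, hf⟩
      obtain ⟨c', hc', hXc'⟩ := certTriSext.cover g X (sextets_smul _ (M24.inv_mem g.2) X hX)
      rw [hb] at hXc'
      rw [hlen] at hc'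
      have h1 := hcls c' hc' X hXc'
      have h2 : c' = c := by omega
      rw [← h2]
      exact hXc'
    · intro hX
      exact ⟨CertM.orbit_subset sextets_smul _ _ (hm c hc) hX, hcls c hc X hX⟩
  have hcard : ∀ c, c < 3 → (MulAction.orbit ↥(MulAction.stabilizer ↥M24 ({Y} : Fam))
      (g • fin (rootsT.getD c []))).ncard = sizeT c := by
    intro c hc
    have := certTriSext.orbit_card g c (by rw [hlen]; exact hc)
    rw [hb] at this
    exact this
  refine ⟨?_, ?_, ?_, ?_⟩
  · rw [hset 0 (by norm_num)]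
    exact hcard 0 (by norm_num)
  · rw [hset 1 (by norm_num)]
    exact hcard 1 (by norm_num)
  · rw [hset 2 (by norm_num)]
    exact hcard 2 (by norm_num)
  · intro S S' hS hS' hf
    obtain ⟨c, hc, hSc⟩ := certTriSext.cover g S (sextets_smul _ (M24.inv_mem g.2) S hS)
    obtain ⟨c', hc', hSc'⟩ := certTriSext.cover g S' (sextets_smul _ (M24.inv_mem g.2) S' hS')
    rw [hb] at hSc hSc'
    rw [hlen] at hc hc'
    have h1 := hcls c hc S hSc
    have h2 := hcls c' hc' S' hSc'
    have h3 : c' = c := by omega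
    rw [h3] at hSc'
    obtain ⟨a, rfl⟩ := hSc
    obtain ⟨b, rfl⟩ := hSc'
    refine ⟨((b * a⁻¹ : ↥(MulAction.stabilizer ↥M24 ({Y} : Fam))) : ↥M24),
      (b * a⁻¹ : ↥(MulAction.stabilizer ↥M24 ({Y} : Fam))).1.2, ?_, ?_⟩
    · have h4 : ((b * a⁻¹ : ↥(MulAction.stabilizer ↥M24 ({Y} : Fam))) : ↥M24)
          ∈ MulAction.stabilizer ↥M24 Y := by
        rw [← stab_single]
        exact (b * a⁻¹).2
      exact MulAction.mem_stabilizer_iff.mp h4
    · show (b * a⁻¹) • (a • (g • fin (rootsT.getD c []))) = b • (g • fin (rootsT.getD c []))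
      rw [mul_smul, inv_smul_smul]

end Cfsg.Agent.Lib_lead_MixOrb3
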