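import Mathlib
import Cfsg.Prelude.Def_Sporadic_a
import Cfsg.Agent.Lib_lead_LeechCountG
import Cfsg.Agent.Lib_lead_LeechShapes
import Cfsg.Agent.Lib_lead_M24Orb
import Cfsg.Agent.Lib_lead_M24Orb2
import Cfsg.Agent.Lib_lead_MixOrb3

/-! Counting the minimal vectors of the rank-24 lattice with a given sum of coordinate products
with a vector taking at most three values. -/

set_option autoImplicit false

namespace Cfsg.Agent.Lib_lead_LeechDot

open Cfsg Cfsg.Agent.Lib_lead_Golay Cfsg.Agent.Lib_lead_Leech Cfsg.Agent.Lib_lead_GFCount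
  Cfsg.Agent.Lib_lead_MinVec Cfsg.Agent.Lib_lead_LeechCount Cfsg.Agent.Lib_lead_LeechCountG
  Cfsg.Agent.Lib_lead_M24

/-- the integers of absolute value at most 4 -/
def Al4 : List ℤ := [-4, -3, -2, -1, 0, 1, 2, 3, 4]

theorem mem_Al4 (t : ℤ) : t ∈ Al4 ↔ -4 ≤ t ∧ t ≤ 4 := by
  unfold Al4
  simp only [List.mem_cons, List.not_mem_nil, or_false]
  omega

theorem hAl4 : ∀ t ∈ Al4, -10 ≤ t ∧ t ≤ 10 := by decide

/-- the cost of a coordinate value against a weight -/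
def cc (γ t : ℤ) : ℕ := t.natAbs ^ 2 + 385 * Int.toNat (γ * t + 4 * |γ|)

theorem cc_cast (γ t : ℤ) (ht : -4 ≤ t ∧ t ≤ 4) :
    ((cc γ t : ℕ) : ℤ) = t ^ 2 + 385 * (γ * t + 4 * |γ|) := by
  unfold cc
  have h0 : 0 ≤ γ * t + 4 * |γ| := by
    rcases abs_cases γ with ⟨h, h'⟩ | ⟨h, h'⟩
    · rw [h]
      nlinarith
    · rw [h]
      nlinarith
  push_cast
  rw [Int.toNat_of_nonneg h0, sq_abs]

theorem sum_cc (v w : GolayPt → ℤ) (hw : ∀ i, w i ∈ Al4) :
    ((∑ i, cc (v i) (w i) : ℕ) : ℤ) = sqNorm w + 385 * (dotInt v w + 4 * ∑ i, |v i|) := by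
  push_cast
  rw [Finset.sum_congr rfl (fun i _ => cc_cast (v i) (w i) ((mem_Al4 _).mp (hw i)))]
  unfold sqNorm dotInt
  rw [Finset.sum_add_distrib, ← Finset.mul_sum, Finset.sum_add_distrib, ← Finset.mul_sum]

theorem sqNorm_le (w : GolayPt → ℤ) (hw : ∀ i, w i ∈ Al4) : 0 ≤ sqNorm w ∧ sqNorm w ≤ 384 := by
  unfold sqNorm
  constructor
  · exact Finset.sum_nonneg (fun i _ => sq_nonneg _)
  · have h : ∀ i ∈ (Finset.univ : Finset GolayPt), w i ^ 2 ≤ 16 := by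
      intro i _
      have := (mem_Al4 _).mp (hw i)
      nlinarith
    have h2 := Finset.sum_le_card_nsmul _ _ _ h
    rw [Finset.card_univ, card_golayPt] at h2
    simpa using h2

theorem cost_iff (v w : GolayPt → ℤ) (hw : ∀ i, w i ∈ Al4) (d : ℤ) (E : ℕ)
    (hE : (E : ℤ) = 32 + 385 * (d + 4 * ∑ i, |v i|)) :
    (∑ i, cc (v i) (w i) = E) ↔ (sqNorm w = 32 ∧ dotInt v w = d) := by
  have h1 := sum_cc v w hw
  have h2 := sqNorm_le w hw
  constructor
  · intro h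
    rw [h] at h1
    constructor <;> omega
  · rintro ⟨h3, h4⟩
    have : ((∑ i, cc (v i) (w i) : ℕ) : ℤ) = (E : ℤ) := by rw [h1, hE, h3, h4]
    exact_mod_cast this

theorem min_coord {w : GolayPt → ℤ} (hw : w ∈ leechLattice) (hn : sqNorm w = 32) :
    ∀ i, w i ∈ Al4 := by
  intro i
  rw [mem_Al4]
  have h1 := Cfsg.Agent.Lib_lead_LeechNums.coord_sq_le w i
  rw [hn] at h1
  have hb : -5 ≤ w i ∧ w i ≤ 5 := by constructor <;> nlinarith
  by_contra hc
  have h5 : w i = 5 ∨ w i = -5 := by omega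
  have hodd : w i % 2 = 1 := by rcases h5 with h | h <;> rw [h] <;> rfl
  have hall := Cfsg.Agent.Lib_lead_LeechShapes.all_odd hw hodd
  have hnn : ∀ m ∈ (Finset.univ : Finset GolayPt), (0 : ℤ) ≤ w m ^ 2 - 1 := by
    intro m _
    have := hall m
    have h0 : w m ≠ 0 := by
      intro h
      rw [h] at this
      norm_num at this
    have : 0 < w m ^ 2 := by positivity
    omega
  have hs := Finset.single_le_sum hnn (Finset.mem_univ i)
  rw [Finset.sum_sub_distrib] at hs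
  have h32 : ∑ m : GolayPt, w m ^ 2 = 32 := hn
  rw [h32] at hs
  simp only [Finset.sum_const, Finset.card_univ, card_golayPt] at hs
  have h25 : w i ^ 2 = 25 := by rcases h5 with h | h <;> rw [h] <;> norm_num
  rw [h25] at hs
  norm_num at hs

theorem set_eq (v : GolayPt → ℤ) (d : ℤ) (E : ℕ)
    (hE : (E : ℤ) = 32 + 385 * (d + 4 * ∑ i, |v i|)) :
    {w : GolayPt → ℤ | w ∈ leechLattice ∧ sqNorm w = 32 ∧ dotInt v w = d} =
      {w : GolayPt → ℤ | w ∈ leechLattice ∧ ∑ i, cc (v i) (w i) = E ∧ ∀ i, w i ∈ Al4} := by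
  ext w
  constructor
  · rintro ⟨hw, hn, hd⟩
    have hal := min_coord hw hn
    exact ⟨hw, (cost_iff v w hal d E hE).mpr ⟨hn, hd⟩, hal⟩
  · rintro ⟨hw, hc, hal⟩
    have := (cost_iff v w hal d E hE).mp hc
    exact ⟨hw, this.1, this.2⟩

/-- the sum of the powers of the base over the allowed shifts -/
def QP (γ r : ℤ) : ℤ := ((shifts Al4 r).map (fun s => ((Bn ^ cc γ (r + 4 * s) : ℕ) : ℤ))).sum

/-- the signed sum of the powers of the base over the allowed shifts -/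
def QM (γ r : ℤ) : ℤ :=
  ((shifts Al4 r).map (fun s => sg s * ((Bn ^ cc γ (r + 4 * s) : ℕ) : ℤ))).sum

/-- a vector with at most three values -/
def repV (m1 m2 : ℕ) (γ1 γ2 γ0 : ℤ) : GolayPt → ℤ :=
  fun i => if m1.testBit (idx i) = true then γ1 else if m2.testBit (idx i) = true then γ2 else γ0

theorem prod_part (F : ℤ → ℤ) (a b : ℤ) (C S : Finset GolayPt) :
    ∏ i ∈ S, F (res a b C i) = F a ^ (S ∩ C).card * F b ^ (S \ C).card := by
  classical
  have h : ∀ i : GolayPt, F (res a b C i) = if i ∈ C then F a else F b := by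
    intro i
    unfold res
    split_ifs <;> rfl
  simp only [h]
  rw [Finset.prod_ite, Finset.prod_const, Finset.prod_const, Finset.filter_mem_eq_inter,
    Finset.filter_notMem_eq_sdiff]

/-- the product of three blocks of powers -/
def prodF (F : ℤ → ℤ → ℤ) (a b γ1 γ2 γ0 : ℤ) (n1 n2 n0 s1 s2 s0 : ℕ) : ℤ :=
  (F γ1 a ^ s1 * F γ1 b ^ (n1 - s1)) * (F γ2 a ^ s2 * F γ2 b ^ (n2 - s2)) *
    (F γ0 a ^ s0 * F γ0 b ^ (n0 - s0))

theorem card_parts (m k : ℕ) (hm : m < 2 ^ 24) :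
    (fsOf m ∩ fsOf (M k)).card = popc (m &&& M k) ∧
      (fsOf m \ fsOf (M k)).card = popc m - popc (m &&& M k) := by
  have h1 := Cfsg.Agent.Lib_lead_M24Orb.card_inter m (M k) hm
  have h2 := Finset.card_sdiff_add_card_inter (fsOf m) (fsOf (M k))
  rw [Cfsg.Agent.Lib_lead_M24Chain.card_fsOf m hm] at h2
  exact ⟨h1, by omega⟩

theorem prod_three (F : ℤ → ℤ → ℤ) (m1 m2 m0 : ℕ) (hm1 : m1 < 2 ^ 24) (hm2 : m2 < 2 ^ 24)
    (hm0' : m0 < 2 ^ 24) (hdisj : m1 &&& m2 = 0) (hm0 : m0 = 16777215 ^^^ (m1 ||| m2))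
    (γ1 γ2 γ0 a b : ℤ) (k : ℕ) :
    ∏ i, F (repV m1 m2 γ1 γ2 γ0 i) (res a b (fsOf (M k)) i) =
      prodF F a b γ1 γ2 γ0 (popc m1) (popc m2) (popc m0) (popc (m1 &&& M k))
        (popc (m2 &&& M k)) (popc (m0 &&& M k)) := by
  classical
  have h0 : fsOf m0 = (fsOf m1 ∪ fsOf m2)ᶜ := by
    rw [hm0, ← Cfsg.Agent.Lib_lead_M24Orb.fsOf_compl, ← Cfsg.Agent.Lib_lead_M24Orb.fsOf_union]
  have hd12 : Disjoint (fsOf m1) (fsOf m2) := by
    rw [Finset.disjoint_iff_inter_eq_empty, Cfsg.Agent.Lib_lead_M24Orb.fsOf_inter, hdisj]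
    exact Cfsg.Agent.Lib_lead_MixOrb3.fsOf_zero
  have hu : (Finset.univ : Finset GolayPt) = (fsOf m1 ∪ fsOf m2) ∪ fsOf m0 := by
    rw [h0, Finset.union_compl]
  have hd0 : Disjoint (fsOf m1 ∪ fsOf m2) (fsOf m0) := by
    rw [h0]
    exact disjoint_compl_right
  rw [hu, Finset.prod_union hd0, Finset.prod_union hd12]
  have e1 : ∏ i ∈ fsOf m1, F (repV m1 m2 γ1 γ2 γ0 i) (res a b (fsOf (M k)) i) =
      ∏ i ∈ fsOf m1, F γ1 (res a b (fsOf (M k)) i) := by
    apply Finset.prod_congr rfl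
    intro i hi
    unfold repV
    rw [if_pos ((Cfsg.Agent.Lib_lead_M24Chain.mem_fsOf _ _).mp hi)]
  have e2 : ∏ i ∈ fsOf m2, F (repV m1 m2 γ1 γ2 γ0 i) (res a b (fsOf (M k)) i) =
      ∏ i ∈ fsOf m2, F γ2 (res a b (fsOf (M k)) i) := by
    apply Finset.prod_congr rfl
    intro i hi
    have hn1 : ¬ m1.testBit (idx i) = true := by
      intro h
      exact (Finset.disjoint_left.mp hd12 ((Cfsg.Agent.Lib_lead_M24Chain.mem_fsOf _ _).mpr h)) hi
    unfold repV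
    rw [if_neg hn1, if_pos ((Cfsg.Agent.Lib_lead_M24Chain.mem_fsOf _ _).mp hi)]
  have e0 : ∏ i ∈ fsOf m0, F (repV m1 m2 γ1 γ2 γ0 i) (res a b (fsOf (M k)) i) =
      ∏ i ∈ fsOf m0, F γ0 (res a b (fsOf (M k)) i) := by
    apply Finset.prod_congr rfl
    intro i hi
    rw [h0, Finset.mem_compl, Finset.mem_union, not_or] at hi
    have hn1 : ¬ m1.testBit (idx i) = true := fun h =>
      hi.1 ((Cfsg.Agent.Lib_lead_M24Chain.mem_fsOf _ _).mpr h)
    have hn2 : ¬ m2.testBit (idx i) = true := fun h =>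
      hi.2 ((Cfsg.Agent.Lib_lead_M24Chain.mem_fsOf _ _).mpr h)
    unfold repV
    rw [if_neg hn1, if_neg hn2]
  rw [e1, e2, e0, prod_part, prod_part, prod_part, (card_parts m1 k hm1).1, (card_parts m1 k hm1).2,
    (card_parts m2 k hm2).1, (card_parts m2 k hm2).2, (card_parts m0 k hm0').1,
    (card_parts m0 k hm0').2]
  rfl

/-- the class of a codeword -/
def cls (m1 m2 m0 k : ℕ) : ℕ :=
  popc (m1 &&& M k) + 32 * popc (m2 &&& M k) + 1024 * popc (m0 &&& M k)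

/-- the number of vectors over a codeword of a given class -/
def GG (γ1 γ2 γ0 : ℤ) (n1 n2 n0 E c : ℕ) : ℕ :=
  Int.toNat ((prodF QP 2 0 γ1 γ2 γ0 n1 n2 n0 (c % 32) (c / 32 % 32) (c / 1024) +
    prodF QM 2 0 γ1 γ2 γ0 n1 n2 n0 (c % 32) (c / 32 % 32) (c / 1024)) / 2) / Bn ^ E % Bn +
  Int.toNat ((prodF QP 1 (-1) γ1 γ2 γ0 n1 n2 n0 (c % 32) (c / 32 % 32) (c / 1024) -
    prodF QM 1 (-1) γ1 γ2 γ0 n1 n2 n0 (c % 32) (c / 32 % 32) (c / 1024)) / 2) / Bn ^ E % Bn

theorem supp_eq (k : ℕ) : support₂ (W k) = fsOf (M k) := by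
  rw [support₂_eq, enc_W]

theorem digits_eq (m1 m2 m0 : ℕ) (hm1 : m1 < 2 ^ 24) (hm2 : m2 < 2 ^ 24)
    (hm0' : m0 < 2 ^ 24) (hdisj : m1 &&& m2 = 0) (hm0 : m0 = 16777215 ^^^ (m1 ||| m2))
    (γ1 γ2 γ0 : ℤ) (E k : ℕ) :
    dEg (fun i t => cc (repV m1 m2 γ1 γ2 γ0 i) t) Al4 E (support₂ (W k)) +
      dOg (fun i t => cc (repV m1 m2 γ1 γ2 γ0 i) t) Al4 E (support₂ (W k)) =
      GG γ1 γ2 γ0 (popc m1) (popc m2) (popc m0) E (cls m1 m2 m0 k) := by
  have b1 := Cfsg.Agent.Lib_lead_M24Orb2.popc_le (m1 &&& M k)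
  have b2 := Cfsg.Agent.Lib_lead_M24Orb2.popc_le (m2 &&& M k)
  have b0 := Cfsg.Agent.Lib_lead_M24Orb2.popc_le (m0 &&& M k)
  have c1 : cls m1 m2 m0 k % 32 = popc (m1 &&& M k) := by unfold cls; omega
  have c2 : cls m1 m2 m0 k / 32 % 32 = popc (m2 &&& M k) := by unfold cls; omega
  have c0 : cls m1 m2 m0 k / 1024 = popc (m0 &&& M k) := by unfold cls; omega
  unfold GG dEg dOg
  rw [c1, c2, c0, supp_eq,
    ← prod_three QP m1 m2 m0 hm1 hm2 hm0' hdisj hm0 γ1 γ2 γ0 2 0 k,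
    ← prod_three QM m1 m2 m0 hm1 hm2 hm0' hdisj hm0 γ1 γ2 γ0 2 0 k,
    ← prod_three QP m1 m2 m0 hm1 hm2 hm0' hdisj hm0 γ1 γ2 γ0 1 (-1) k,
    ← prod_three QM m1 m2 m0 hm1 hm2 hm0' hdisj hm0 γ1 γ2 γ0 1 (-1) k]
  rfl

theorem sum_classes (f : ℕ → ℕ) (G : ℕ → ℕ) (T : List ℕ) (hT : T.Nodup)
    (hmaps : ∀ k ∈ Finset.range 4096, f k ∈ T) :
    ∑ k ∈ Finset.range 4096, G (f k) =
      (T.map (fun c => ((Finset.range 4096).filter (fun k => f k = c)).card * G c)).sum := by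
  have hmaps' : ∀ k ∈ Finset.range 4096, f k ∈ T.toFinset := fun k hk =>
    List.mem_toFinset.mpr (hmaps k hk)
  rw [← Finset.sum_fiberwise_of_maps_to hmaps', List.sum_toFinset _ hT]
  refine congrArg List.sum (List.map_congr_left (fun c _ => ?_))
  rw [Finset.sum_congr rfl (fun k hk => by rw [(Finset.mem_filter.mp hk).2]), Finset.sum_const,
    smul_eq_mul]

set_option maxRecDepth 100000 in
/-- the number of minimal vectors with a given sum of coordinate products with a vector with at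
most three values -/
theorem main_count (m1 m2 m0 : ℕ) (hm1 : m1 < 2 ^ 24) (hm2 : m2 < 2 ^ 24)
    (hm0' : m0 < 2 ^ 24) (hdisj : m1 &&& m2 = 0) (hm0 : m0 = 16777215 ^^^ (m1 ||| m2))
    (γ1 γ2 γ0 d : ℤ) (E : ℕ)
    (hE : (E : ℤ) = 32 + 385 * (d + 4 * ∑ i, |repV m1 m2 γ1 γ2 γ0 i|))
    (T : List ℕ) (hT : T.Nodup) (hmaps : ∀ k ∈ Finset.range 4096, cls m1 m2 m0 k ∈ T) :
    {w : GolayPt → ℤ | w ∈ leechLattice ∧ sqNorm w = 32 ∧
      dotInt (repV m1 m2 γ1 γ2 γ0) w = d}.ncard =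
      (T.map (fun c => ((Finset.range 4096).filter (fun k => cls m1 m2 m0 k = c)).card *
        GG γ1 γ2 γ0 (popc m1) (popc m2) (popc m0) E c)).sum := by
  rw [set_eq _ d E hE, ncard_G (fun i t => cc (repV m1 m2 γ1 γ2 γ0 i) t) E Al4 hAl4,
    Finset.sum_congr rfl (fun k _ => digits_eq m1 m2 m0 hm1 hm2 hm0' hdisj hm0 γ1 γ2 γ0 E k),
    sum_classes (cls m1 m2 m0) (GG γ1 γ2 γ0 (popc m1) (popc m2) (popc m0) E) T hT hmaps]

/-- evaluate the first argument before applying the function -/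
def force {α : Type} (n : ℕ) (f : ℕ → α) : α :=
  match n with
  | 0 => f 0
  | k + 1 => f (k + 1)

theorem force_eq {α : Type} (n : ℕ) (f : ℕ → α) : force n f = f n := by
  cases n <;> rfl

/-- the class of a codeword, evaluated eagerly -/
def clsF (m1 m2 m0 k : ℕ) : ℕ :=
  force (M k) (fun x => force (m1 &&& x) popc + 32 * force (m2 &&& x) popc +
    1024 * force (m0 &&& x) popc)

theorem clsF_eq (m1 m2 m0 k : ℕ) : clsF m1 m2 m0 k = cls m1 m2 m0 k := by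
  unfold clsF cls
  rw [force_eq, force_eq, force_eq, force_eq]

set_option maxRecDepth 100000 in
theorem maps_of_sum (f : ℕ → ℕ) (T : List ℕ) (hT : T.Nodup)
    (h : (T.map (fun c => ((Finset.range 4096).filter (fun k => f k = c)).card)).sum = 4096) :
    ∀ k ∈ Finset.range 4096, f k ∈ T := by
  have h1 : ((Finset.range 4096).filter (fun k => f k ∈ T.toFinset)).card =
      ∑ c ∈ T.toFinset, ((Finset.range 4096).filter (fun k => f k = c)).card := by
    have hfib := Finset.card_eq_sum_card_fiberwise (f := f)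
      (s := (Finset.range 4096).filter (fun k => f k ∈ T.toFinset)) (t := T.toFinset)
      (by
        intro k hk
        exact Finset.mem_coe.mpr (Finset.mem_filter.mp (Finset.mem_coe.mp hk)).2)
    rw [hfib]
    apply Finset.sum_congr rfl
    intro c hc
    congr 1
    ext k
    simp only [Finset.mem_filter]
    constructor
    · rintro ⟨⟨h1, -⟩, h2⟩
      exact ⟨h1, h2⟩
    · rintro ⟨h1, h2⟩
      exact ⟨⟨h1, by rw [h2]; exact hc⟩, h2⟩
  rw [List.sum_toFinset _ hT, h] at h1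
  have h2 : ((Finset.range 4096).filter (fun k => f k ∈ T.toFinset)).card =
      (Finset.range 4096).card := by rw [h1, Finset.card_range]
  intro k hk
  have h3 := (Finset.card_filter_eq_iff.mp h2) k hk
  exact List.mem_toFinset.mp h3

/-- the histogram of the classes of the codewords -/
def hist (m1 m2 m0 : ℕ) : ℕ := ∑ k ∈ Finset.range 4096, 8192 ^ clsF m1 m2 m0 k

set_option maxRecDepth 100000 in
theorem hist_digit (m1 m2 m0 c : ℕ) :
    ((Finset.range 4096).filter (fun k => cls m1 m2 m0 k = c)).card =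
      hist m1 m2 m0 / 8192 ^ c % 8192 := by
  rw [digit_count (Finset.range 4096) (cls m1 m2 m0) 8192 (by rw [Finset.card_range]; norm_num) c]
  have e : hist m1 m2 m0 = ∑ k ∈ Finset.range 4096, 8192 ^ cls m1 m2 m0 k :=
    Finset.sum_congr rfl (fun k _ => by rw [clsF_eq])
  rw [e]

/-- the check performed by the kernel: the classes are exhausted and the counts are as stated -/
def evalOK (γ1 γ2 γ0 : ℤ) (n1 n2 n0 : ℕ) (T : List ℕ) (ds : List (ℤ × ℕ × ℕ)) (h : ℕ) : Bool :=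
  decide ((T.map (fun c => h / 8192 ^ c % 8192)).sum = 4096) &&
    ds.all (fun p => decide ((T.map (fun c => h / 8192 ^ c % 8192 *
      GG γ1 γ2 γ0 n1 n2 n0 p.2.1 c)).sum = p.2.2))

set_option maxRecDepth 100000 in
/-- the numbers of minimal vectors with given sums of coordinate products with a vector with at
most three values, from a single evaluation -/
theorem main_eval (m1 m2 m0 : ℕ) (hm1 : m1 < 2 ^ 24) (hm2 : m2 < 2 ^ 24)
    (hm0' : m0 < 2 ^ 24) (hdisj : m1 &&& m2 = 0) (hm0 : m0 = 16777215 ^^^ (m1 ||| m2))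
    (γ1 γ2 γ0 : ℤ) (T : List ℕ) (hT : T.Nodup) (ds : List (ℤ × ℕ × ℕ))
    (hE : ∀ p ∈ ds, (p.2.1 : ℤ) = 32 + 385 * (p.1 + 4 * ∑ i, |repV m1 m2 γ1 γ2 γ0 i|))
    (hev : force (hist m1 m2 m0)
      (evalOK γ1 γ2 γ0 (popc m1) (popc m2) (popc m0) T ds) = true) :
    ∀ p ∈ ds, {w : GolayPt → ℤ | w ∈ leechLattice ∧ sqNorm w = 32 ∧
      dotInt (repV m1 m2 γ1 γ2 γ0) w = p.1}.ncard = p.2.2 := by
  rw [force_eq] at hev
  unfold evalOK at hev
  rw [Bool.and_eq_true, decide_eq_true_eq, List.all_eq_true] at hev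
  obtain ⟨htot, hall⟩ := hev
  have hmaps : ∀ k ∈ Finset.range 4096, cls m1 m2 m0 k ∈ T := by
    apply maps_of_sum _ T hT
    exact (congrArg List.sum (List.map_congr_left (fun c _ => hist_digit m1 m2 m0 c))).trans htot
  intro p hp
  have h1 := hall p hp
  rw [decide_eq_true_eq] at h1
  rw [main_count m1 m2 m0 hm1 hm2 hm0' hdisj hm0 γ1 γ2 γ0 p.1 p.2.1 (hE p hp) T hT hmaps, ← h1]
  exact congrArg List.sum (List.map_congr_left (fun c _ => by rw [hist_digit]))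

end Cfsg.Agent.Lib_lead_LeechDot
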