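import Mathlib
import Cfsg.Prelude.Def_Sporadic_a
import Cfsg.Agent.Lib_lead_LeechDot

/-! Counting the minimal vectors of the rank-24 lattice with a given sum of coordinate products
with a vector given by a list of values on the parts of a partition of the points. -/

set_option autoImplicit false

namespace Cfsg.Agent.Lib_lead_LeechDotL

open Cfsg Cfsg.Agent.Lib_lead_Golay Cfsg.Agent.Lib_lead_Leech Cfsg.Agent.Lib_lead_GFCount
  Cfsg.Agent.Lib_lead_MinVec Cfsg.Agent.Lib_lead_LeechCount Cfsg.Agent.Lib_lead_LeechCountG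
  Cfsg.Agent.Lib_lead_M24 Cfsg.Agent.Lib_lead_LeechDot

/-- the vector with given values on the parts -/
def valL : List (ℤ × ℕ) → GolayPt → ℤ
  | [], _ => 0
  | p :: ps, i => if p.2.testBit (idx i) = true then p.1 else valL ps i

/-- the masks are pairwise disjoint with union `r` -/
def okParts : List (ℤ × ℕ) → ℕ → Prop
  | [], r => r = 0
  | p :: ps, r => p.2 &&& r = p.2 ∧ okParts ps (r ^^^ p.2)

instance : ∀ (ps : List (ℤ × ℕ)) (r : ℕ), Decidable (okParts ps r)
  | [], r => by unfold okParts; infer_instance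
  | p :: ps, r => by
      unfold okParts
      exact @instDecidableAnd _ _ _ (instDecidableOkParts ps (r ^^^ p.2))

/-- the product over the parts for a codeword -/
def prodK (F : ℤ → ℤ → ℤ) (a b : ℤ) : List (ℤ × ℕ) → ℕ → ℤ
  | [], _ => 1
  | p :: ps, k => F p.1 a ^ popc (p.2 &&& M k) * F p.1 b ^ (popc p.2 - popc (p.2 &&& M k)) *
      prodK F a b ps k

/-- the product over the parts for a class -/
def prodC (F : ℤ → ℤ → ℤ) (a b : ℤ) : List (ℤ × ℕ) → ℕ → ℤ
  | [], _ => 1
  | p :: ps, c => F p.1 a ^ (c % 32) * F p.1 b ^ (popc p.2 - c % 32) * prodC F a b ps (c / 32)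

/-- the class of a codeword -/
def clsL : List (ℤ × ℕ) → ℕ → ℕ
  | [], _ => 0
  | p :: ps, k => popc (p.2 &&& M k) + 32 * clsL ps k

theorem prodC_cls (F : ℤ → ℤ → ℤ) (a b : ℤ) (parts : List (ℤ × ℕ)) (k : ℕ) :
    prodC F a b parts (clsL parts k) = prodK F a b parts k := by
  induction parts with
  | nil => rfl
  | cons p ps ih =>
    have b1 := Cfsg.Agent.Lib_lead_M24Orb2.popc_le (p.2 &&& M k)
    have e1 : clsL (p :: ps) k % 32 = popc (p.2 &&& M k) := by
      show (popc (p.2 &&& M k) + 32 * clsL ps k) % 32 = popc (p.2 &&& M k)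
      omega
    have e2 : clsL (p :: ps) k / 32 = clsL ps k := by
      show (popc (p.2 &&& M k) + 32 * clsL ps k) / 32 = clsL ps k
      omega
    show F p.1 a ^ (clsL (p :: ps) k % 32) * F p.1 b ^ (popc p.2 - clsL (p :: ps) k % 32) *
      prodC F a b ps (clsL (p :: ps) k / 32) = _
    rw [e1, e2, ih]
    rfl

theorem split_mask (m r : ℕ) (h : m &&& r = m) :
    fsOf r = fsOf m ∪ fsOf (r ^^^ m) ∧ Disjoint (fsOf m) (fsOf (r ^^^ m)) := by
  have hbit : ∀ j, m.testBit j = true → r.testBit j = true := by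
    intro j hj
    have := congrArg (fun x => x.testBit j) h
    simp only [Nat.testBit_and] at this
    rw [hj] at this
    simpa using this
  constructor
  · ext i
    rw [Finset.mem_union, Cfsg.Agent.Lib_lead_M24Chain.mem_fsOf,
      Cfsg.Agent.Lib_lead_M24Chain.mem_fsOf, Cfsg.Agent.Lib_lead_M24Chain.mem_fsOf,
      Nat.testBit_xor]
    have := hbit (idx i)
    cases hm : m.testBit (idx i) <;> cases hr : r.testBit (idx i) <;> simp_all
  · rw [Finset.disjoint_left]
    intro i h1 h2
    rw [Cfsg.Agent.Lib_lead_M24Chain.mem_fsOf] at h1 h2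
    rw [Nat.testBit_xor, h1, hbit _ h1] at h2
    simp at h2

theorem prod_list (F : ℤ → ℤ → ℤ) (a b : ℤ) (k : ℕ) (parts : List (ℤ × ℕ)) (r : ℕ)
    (hr : r < 2 ^ 24) (hok : okParts parts r) :
    ∏ i ∈ fsOf r, F (valL parts i) (res a b (fsOf (M k)) i) = prodK F a b parts k := by
  induction parts generalizing r with
  | nil =>
    have h0 : r = 0 := hok
    rw [h0, Cfsg.Agent.Lib_lead_MixOrb3.fsOf_zero, Finset.prod_empty]
    rfl
  | cons p ps ih =>
    obtain ⟨hsub, hrest⟩ : p.2 &&& r = p.2 ∧ okParts ps (r ^^^ p.2) := hok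
    obtain ⟨hu, hd⟩ := split_mask p.2 r hsub
    have hp : p.2 < 2 ^ 24 := by
      rw [← hsub]
      exact lt_of_le_of_lt Nat.and_le_right hr
    have hr' : r ^^^ p.2 < 2 ^ 24 := Nat.xor_lt_two_pow hr hp
    rw [hu, Finset.prod_union hd]
    have e1 : ∏ i ∈ fsOf p.2, F (valL (p :: ps) i) (res a b (fsOf (M k)) i) =
        ∏ i ∈ fsOf p.2, F p.1 (res a b (fsOf (M k)) i) := by
      apply Finset.prod_congr rfl
      intro i hi
      show F (if p.2.testBit (idx i) = true then p.1 else valL ps i) _ = _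
      rw [if_pos ((Cfsg.Agent.Lib_lead_M24Chain.mem_fsOf _ _).mp hi)]
    have e2 : ∏ i ∈ fsOf (r ^^^ p.2), F (valL (p :: ps) i) (res a b (fsOf (M k)) i) =
        ∏ i ∈ fsOf (r ^^^ p.2), F (valL ps i) (res a b (fsOf (M k)) i) := by
      apply Finset.prod_congr rfl
      intro i hi
      have hn : ¬ p.2.testBit (idx i) = true := fun h =>
        (Finset.disjoint_left.mp hd ((Cfsg.Agent.Lib_lead_M24Chain.mem_fsOf _ _).mpr h)) hi
      show F (if p.2.testBit (idx i) = true then p.1 else valL ps i) _ = _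
      rw [if_neg hn]
    rw [e1, e2, ih (r ^^^ p.2) hr' hrest, prod_part, (card_parts p.2 k hp).1,
      (card_parts p.2 k hp).2]
    rfl

/-- the number of vectors over a codeword of a given class -/
def GGL (parts : List (ℤ × ℕ)) (E c : ℕ) : ℕ :=
  Int.toNat ((prodC QP 2 0 parts c + prodC QM 2 0 parts c) / 2) / Bn ^ E % Bn +
  Int.toNat ((prodC QP 1 (-1) parts c - prodC QM 1 (-1) parts c) / 2) / Bn ^ E % Bn

theorem univ_eq : (Finset.univ : Finset GolayPt) = fsOf 16777215 := by decide +kernel

theorem digits_eqL (parts : List (ℤ × ℕ)) (hok : okParts parts 16777215) (E k : ℕ) :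
    dEg (fun i t => cc (valL parts i) t) Al4 E (support₂ (W k)) +
      dOg (fun i t => cc (valL parts i) t) Al4 E (support₂ (W k)) =
      GGL parts E (clsL parts k) := by
  unfold GGL dEg dOg
  rw [prodC_cls, prodC_cls, prodC_cls, prodC_cls, supp_eq,
    ← prod_list QP 2 0 k parts 16777215 (by norm_num) hok,
    ← prod_list QM 2 0 k parts 16777215 (by norm_num) hok,
    ← prod_list QP 1 (-1) k parts 16777215 (by norm_num) hok,
    ← prod_list QM 1 (-1) k parts 16777215 (by norm_num) hok, ← univ_eq]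
  rfl

set_option maxRecDepth 100000 in
theorem main_countL (parts : List (ℤ × ℕ)) (hok : okParts parts 16777215) (d : ℤ) (E : ℕ)
    (hE : (E : ℤ) = 32 + 385 * (d + 4 * ∑ i, |valL parts i|))
    (T : List ℕ) (hT : T.Nodup) (hmaps : ∀ k ∈ Finset.range 4096, clsL parts k ∈ T) :
    {w : GolayPt → ℤ | w ∈ leechLattice ∧ sqNorm w = 32 ∧ dotInt (valL parts) w = d}.ncard =
      (T.map (fun c => ((Finset.range 4096).filter (fun k => clsL parts k = c)).card *
        GGL parts E c)).sum := by
  rw [set_eq _ d E hE, ncard_G (fun i t => cc (valL parts i) t) E Al4 hAl4,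
    Finset.sum_congr rfl (fun k _ => digits_eqL parts hok E k),
    sum_classes (clsL parts) (GGL parts E) T hT hmaps]

/-- the histogram of the classes of the codewords -/
def histL (parts : List (ℤ × ℕ)) : ℕ := ∑ k ∈ Finset.range 4096, 8192 ^ clsL parts k

set_option maxRecDepth 100000 in
theorem hist_digitL (parts : List (ℤ × ℕ)) (c : ℕ) :
    ((Finset.range 4096).filter (fun k => clsL parts k = c)).card =
      histL parts / 8192 ^ c % 8192 := by
  rw [digit_count (Finset.range 4096) (clsL parts) 8192 (by rw [Finset.card_range]; norm_num) c]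
  rfl

/-- the check performed by the kernel: the classes are exhausted and the counts are as stated -/
def evalOKL (parts : List (ℤ × ℕ)) (T : List ℕ) (ds : List (ℤ × ℕ × ℕ)) (h : ℕ) : Bool :=
  decide ((T.map (fun c => h / 8192 ^ c % 8192)).sum = 4096) &&
    ds.all (fun p => decide ((T.map (fun c => h / 8192 ^ c % 8192 * GGL parts p.2.1 c)).sum =
      p.2.2))

set_option maxRecDepth 100000 in
/-- the numbers of minimal vectors with given sums of coordinate products with a vector given by
parts, from a single evaluation -/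
theorem main_evalL (parts : List (ℤ × ℕ)) (hok : okParts parts 16777215)
    (T : List ℕ) (hT : T.Nodup) (ds : List (ℤ × ℕ × ℕ))
    (hE : ∀ p ∈ ds, (p.2.1 : ℤ) = 32 + 385 * (p.1 + 4 * ∑ i, |valL parts i|))
    (hev : force (histL parts) (evalOKL parts T ds) = true) :
    ∀ p ∈ ds, {w : GolayPt → ℤ | w ∈ leechLattice ∧ sqNorm w = 32 ∧
      dotInt (valL parts) w = p.1}.ncard = p.2.2 := by
  rw [force_eq] at hev
  unfold evalOKL at hev
  rw [Bool.and_eq_true, decide_eq_true_eq, List.all_eq_true] at hev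
  obtain ⟨htot, hall⟩ := hev
  have hmaps : ∀ k ∈ Finset.range 4096, clsL parts k ∈ T := by
    apply maps_of_sum _ T hT
    exact (congrArg List.sum (List.map_congr_left (fun c _ => hist_digitL parts c))).trans htot
  intro p hp
  have h1 := hall p hp
  rw [decide_eq_true_eq] at h1
  rw [main_countL parts hok p.1 p.2.1 (hE p hp) T hT hmaps, ← h1]
  exact congrArg List.sum (List.map_congr_left (fun c _ => by rw [hist_digitL]))

end Cfsg.Agent.Lib_lead_LeechDotL
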