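import Mathlib
import Cfsg.Prelude.Def_Sporadic_a
import Cfsg.Agent.Lib_lead_Leech2
import Cfsg.Agent.Lib_lead_LeechDot
import Cfsg.Agent.Lib_lead_M24Trans
import Cfsg.Agent.Lib_lead_OctConfig

/-! Monomial symmetries and counts of lattice vectors with given sums of coordinate products. -/

set_option autoImplicit false

namespace Cfsg.Agent.Lib_lead_LeechSym

open Cfsg Cfsg.Agent.Lib_lead_Golay Cfsg.Agent.Lib_lead_GolayPerm Cfsg.Agent.Lib_lead_Leech
  Cfsg.Agent.Lib_lead_Leech2 Cfsg.Agent.Lib_lead_M24 Cfsg.Agent.Lib_lead_LeechDot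
open scoped Pointwise

/-- the lattice vectors with given sum of squares and sum of products with a vector -/
def TT (v : GolayPt → ℤ) (n d : ℤ) : Set (GolayPt → ℤ) :=
  {w | w ∈ leechLattice ∧ sqNorm w = n ∧ dotInt v w = d}

/-- changing the signs on a set -/
def flip (c : Finset GolayPt) (x : GolayPt → ℤ) : GolayPt → ℤ :=
  fun i => if i ∈ c then -x i else x i

theorem flip_flip (c : Finset GolayPt) (x : GolayPt → ℤ) : flip c (flip c x) = x := by
  funext i
  unfold flip
  split_ifs <;> simp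

theorem sqNorm_flip (c : Finset GolayPt) (x : GolayPt → ℤ) : sqNorm (flip c x) = sqNorm x := by
  unfold sqNorm flip
  apply Finset.sum_congr rfl
  intro i _
  split_ifs <;> ring

theorem dot_flip (c : Finset GolayPt) (x y : GolayPt → ℤ) :
    dotInt (flip c x) (flip c y) = dotInt x y := by
  unfold dotInt flip
  apply Finset.sum_congr rfl
  intro i _
  split_ifs <;> ring

theorem ncard_flip {c : Finset GolayPt} (hc : c ∈ Supp) (v : GolayPt → ℤ) (n d : ℤ) :
    (TT (flip c v) n d).ncard = (TT v n d).ncard := by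
  have himg : TT (flip c v) n d = flip c '' TT v n d := by
    ext x
    constructor
    · rintro ⟨hx, hn, hd⟩
      refine ⟨flip c x, ⟨signflip_mem hc hx, ?_, ?_⟩, flip_flip c x⟩
      · rw [sqNorm_flip]
        exact hn
      · rw [← dot_flip c, flip_flip]
        exact hd
    · rintro ⟨w, ⟨hw, hn, hd⟩, rfl⟩
      refine ⟨signflip_mem hc hw, ?_, ?_⟩
      · rw [sqNorm_flip]
        exact hn
      · rw [dot_flip]
        exact hd
  rw [himg]
  apply Set.ncard_image_of_injective
  intro x y h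
  have := congrArg (flip c) h
  rwa [flip_flip, flip_flip] at this

theorem sqNorm_perm (σ : Equiv.Perm GolayPt) (x : GolayPt → ℤ) :
    sqNorm (fun i => x (σ i)) = sqNorm x := by
  unfold sqNorm
  exact Equiv.sum_comp σ (fun i => x i ^ 2)

theorem dot_perm (σ : Equiv.Perm GolayPt) (x y : GolayPt → ℤ) :
    dotInt (fun i => x (σ i)) (fun i => y (σ i)) = dotInt x y := by
  unfold dotInt
  exact Equiv.sum_comp σ (fun i => x i * y i)

theorem ncard_perm {σ : Equiv.Perm GolayPt} (hσ : σ ∈ M24) (v : GolayPt → ℤ) (n d : ℤ) :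
    (TT (fun i => v (σ i)) n d).ncard = (TT v n d).ncard := by
  have himg : TT (fun i => v (σ i)) n d = (fun (w : GolayPt → ℤ) i => w (σ i)) '' TT v n d := by
    ext x
    constructor
    · rintro ⟨hx, hn, hd⟩
      have e : (fun i => (fun j => x (σ⁻¹ j)) (σ i)) = x := by
        funext i
        simp
      refine ⟨fun j => x (σ⁻¹ j), ⟨perm_mem (M24.inv_mem hσ) hx, ?_, ?_⟩, e⟩
      · rw [sqNorm_perm]
        exact hn
      · rw [← dot_perm σ, e]
        exact hd
    · rintro ⟨w, ⟨hw, hn, hd⟩, rfl⟩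
      refine ⟨perm_mem hσ hw, ?_, ?_⟩
      · rw [sqNorm_perm]
        exact hn
      · rw [dot_perm]
        exact hd
  rw [himg]
  apply Set.ncard_image_of_injective
  intro x y h
  funext i
  have := congrFun h (σ⁻¹ i)
  simpa using this

/-- a vector is carried to another by a coordinate permutation of the code's group followed by
sign changes on a codeword -/
def Mono (v r : GolayPt → ℤ) : Prop :=
  ∃ σ ∈ M24, ∃ c ∈ Supp, flip c (fun i => v (σ i)) = r

theorem ncard_mono {v r : GolayPt → ℤ} (h : Mono v r) (n d : ℤ) :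
    (TT v n d).ncard = (TT r n d).ncard := by
  obtain ⟨σ, hσ, c, hc, rfl⟩ := h
  rw [ncard_flip hc, ncard_perm hσ]

theorem flip_fix (u r : GolayPt → ℤ) (S : Finset GolayPt) (hS : ∀ i, i ∉ S → r i = 0)
    (hur : ∀ i, u i = r i ∨ u i = -r i) (c : Finset GolayPt)
    (hc : c ∩ S = S.filter (fun i => u i ≠ r i)) : flip c u = r := by
  funext i
  unfold flip
  by_cases hi : i ∈ S
  · have hiff : i ∈ c ↔ u i ≠ r i := by
      have h1 : i ∈ c ∩ S ↔ i ∈ S.filter (fun i => u i ≠ r i) := by rw [hc]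
      rw [Finset.mem_inter, Finset.mem_filter] at h1
      constructor
      · intro h
        exact (h1.mp ⟨h, hi⟩).2
      · intro h
        exact (h1.mpr ⟨hi, h⟩).1
    by_cases hic : i ∈ c
    · rw [if_pos hic]
      rcases hur i with h | h
      · exact absurd h (hiff.mp hic)
      · rw [h]
        ring
    · rw [if_neg hic]
      by_contra hne
      exact hic (hiff.mpr hne)
  · have h0 := hS i hi
    have hu0 : u i = 0 := by
      rcases hur i with h | h <;> rw [h, h0] <;> rfl
    rw [hu0, h0]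
    split_ifs <;> rfl

/-- if a list of codewords meets a set in distinct ways, as many as a family has members, every
member of the family is the intersection of the set with a codeword -/
theorem exists_code_inter (mS : ℕ) (𝒜 : Finset (Finset GolayPt)) (L : List ℕ)
    (hnd : (L.map (fun k => M k &&& mS)).Nodup)
    (hsub : ∀ k, fsOf (M k) ∩ fsOf mS ∈ 𝒜) (hcard : L.length = 𝒜.card) :
    ∀ E ∈ 𝒜, ∃ c ∈ Supp, c ∩ fsOf mS = E := by
  classical
  have hnd2 : ((L.map (fun k => M k &&& mS)).map fsOf).Nodup := by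
    apply List.Nodup.map_on _ hnd
    intro a ha b hb hab
    rw [List.mem_map] at ha hb
    obtain ⟨k, -, rfl⟩ := ha
    obtain ⟨k', -, rfl⟩ := hb
    exact Cfsg.Agent.Lib_lead_M24Orb.fsOf_injOn
      (lt_of_le_of_lt Nat.and_le_left (Cfsg.Agent.Lib_lead_M24Chain.M_lt k))
      (lt_of_le_of_lt Nat.and_le_left (Cfsg.Agent.Lib_lead_M24Chain.M_lt k')) hab
  have hmap : (L.map (fun k => M k &&& mS)).map fsOf =
      L.map (fun k => fsOf (M k) ∩ fsOf mS) := by
    rw [List.map_map]
    apply List.map_congr_left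
    intro k _
    show fsOf (M k &&& mS) = fsOf (M k) ∩ fsOf mS
    rw [Cfsg.Agent.Lib_lead_M24Orb.fsOf_inter]
  rw [hmap] at hnd2
  have hc : (L.map (fun k => fsOf (M k) ∩ fsOf mS)).toFinset.card = 𝒜.card := by
    rw [List.toFinset_card_of_nodup hnd2, List.length_map, hcard]
  have hsub' : (L.map (fun k => fsOf (M k) ∩ fsOf mS)).toFinset ⊆ 𝒜 := by
    intro x hx
    rw [List.mem_toFinset, List.mem_map] at hx
    obtain ⟨k, -, rfl⟩ := hx
    exact hsub k
  have heq := Finset.eq_of_subset_of_card_le hsub' (le_of_eq hc.symm)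
  intro E hE
  rw [← heq, List.mem_toFinset, List.mem_map] at hE
  obtain ⟨k, -, hk⟩ := hE
  refine ⟨fsOf (M k), ?_, hk⟩
  rw [← supp_eq]
  exact Cfsg.Agent.Lib_lead_LeechCount.supp_W k

theorem repV_two (m1 : ℕ) (γ1 γ0 : ℤ) (i : GolayPt) :
    repV m1 0 γ1 0 γ0 i = if i ∈ fsOf m1 then γ1 else γ0 := by
  unfold repV
  by_cases h : i ∈ fsOf m1
  · rw [if_pos h, if_pos ((Cfsg.Agent.Lib_lead_M24Chain.mem_fsOf _ _).mp h)]
  · rw [if_neg h, if_neg (fun h' => h ((Cfsg.Agent.Lib_lead_M24Chain.mem_fsOf _ _).mpr h'))]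
    simp

end Cfsg.Agent.Lib_lead_LeechSym
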