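import Mathlib
import Cfsg.Prelude.Def_Sporadic_a
import Cfsg.Agent.Lib_lead_LeechSym
import Cfsg.Agent.Lib_lead_LeechDotNums

/-! Census of the minimal vectors by their sum of coordinate products with a fixed minimal
vector. -/

set_option autoImplicit false

namespace Cfsg.Agent.Lib_lead_LeechInner

open Cfsg Cfsg.Agent.Lib_lead_Golay Cfsg.Agent.Lib_lead_GolayPerm Cfsg.Agent.Lib_lead_Leech
  Cfsg.Agent.Lib_lead_Leech2 Cfsg.Agent.Lib_lead_M24 Cfsg.Agent.Lib_lead_LeechDot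
  Cfsg.Agent.Lib_lead_LeechSym Cfsg.Agent.Lib_lead_MinVec Cfsg.Agent.Lib_lead_LeechDotNums
open scoped Pointwise

theorem fs3 : fsOf 3 = {ptN 0, ptN 1} := by decide +kernel

theorem fs1 : fsOf 1 = {ptN 0} := by decide +kernel

theorem ne01 : ptN 0 ≠ ptN 1 := by decide

/-- codewords meeting the first two points in all ways -/
def wit3 : List ℕ := [0, 3, 2, 1]

/-- codewords meeting an octad in all even ways -/
def wit8 : List ℕ := [0, 60, 185, 133, 146, 174, 43, 23, 175, 147, 22, 42, 61, 1, 132, 184, 40, 20, 145, 173, 186, 134, 3, 63, 135, 187, 62, 2, 21, 41, 172, 144, 19, 47, 170, 150, 129, 189, 56, 4, 188, 128, 5, 57, 46, 18, 151, 171, 59, 7, 130, 190, 169, 149, 16, 44, 148, 168, 45, 17, 6, 58, 191, 131, 140, 176, 53, 9, 30, 34, 167, 155, 35, 31, 154, 166, 177, 141, 8, 52, 164, 152, 29, 33, 54, 10, 143, 179, 11, 55, 178, 142, 153, 165, 32, 28, 159, 163, 38, 26, 13, 49, 180, 136, 48, 12, 137, 181, 162, 158, 27, 39, 183, 139,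 14, 50, 37, 25, 156, 160, 24, 36, 161, 157, 138, 182, 51, 15]

theorem nd3 : (wit3.map (fun k => M k &&& 3)).Nodup := by decide +kernel

theorem nd8 : (wit8.map (fun k => M k &&& 3277413)).Nodup := by decide +kernel

theorem card_fs3 : (fsOf 3).card = 2 := by
  rw [fs3]
  exact Finset.card_pair ne01

/-- the vectors with two coordinates of absolute value 4 -/
theorem monoA (s P : Finset GolayPt) (hs : s.card = 2) (hP : P ⊆ s) :
    Mono (fA ⟨s, P⟩) (repV 3 0 4 0 0) := by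
  classical
  obtain ⟨a, b, hab, rfl⟩ := Finset.card_eq_two.mp hs
  obtain ⟨g, hg, ha, hb⟩ := Cfsg.Agent.Lib_lead_M24Trans.trans2 (ptN 0) (ptN 1) a b ne01 hab
  have hmem : ∀ i, g i ∈ ({a, b} : Finset GolayPt) ↔ i ∈ fsOf 3 := by
    intro i
    rw [fs3, Finset.mem_insert, Finset.mem_singleton, Finset.mem_insert, Finset.mem_singleton,
      ← ha, ← hb, g.injective.eq_iff, g.injective.eq_iff]
  have hur : ∀ i, fA ⟨{a, b}, P⟩ (g i) = repV 3 0 4 0 0 i ∨
      fA ⟨{a, b}, P⟩ (g i) = -repV 3 0 4 0 0 i := by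
    intro i
    rw [repV_two]
    rcases fA_cases {a, b} P hP (g i) with ⟨-, h2, e⟩ | ⟨-, h2, e⟩ | ⟨-, h2, e⟩
    · rw [if_pos ((hmem i).mp h2), e]
      left; rfl
    · rw [if_pos ((hmem i).mp h2), e]
      right; rfl
    · rw [if_neg (fun h => h2 ((hmem i).mpr h)), e]
      left; rfl
  obtain ⟨c, hc, hcE⟩ := exists_code_inter 3 (fsOf 3).powerset wit3 nd3
    (fun k => Finset.mem_powerset.mpr Finset.inter_subset_right)
    (by rw [Finset.card_powerset, card_fs3]; rfl)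
    ((fsOf 3).filter (fun i => fA ⟨{a, b}, P⟩ (g i) ≠ repV 3 0 4 0 0 i))
    (Finset.mem_powerset.mpr (Finset.filter_subset _ _))
  refine ⟨g, hg, c, hc, flip_fix _ _ (fsOf 3) (fun i hi => ?_) hur c hcE⟩
  rw [repV_two, if_neg hi]

/-- the vectors supported on an octad -/
theorem monoB (O E : Finset GolayPt) (hO : O ∈ octads) (hE : E ⊆ O) (hev : Even E.card) :
    Mono (fB ⟨O, E⟩) (repV 3277413 0 2 0 0) := by
  classical
  obtain ⟨g, hg, hgO⟩ := Cfsg.Agent.Lib_lead_OctConfig.exists_sigma8 O hO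
  have hmem : ∀ i, g i ∈ O ↔ i ∈ fsOf 3277413 := by
    intro i
    rw [← hgO]
    exact Finset.smul_mem_smul_finset_iff g
  have hur : ∀ i, fB ⟨O, E⟩ (g i) = repV 3277413 0 2 0 0 i ∨
      fB ⟨O, E⟩ (g i) = -repV 3277413 0 2 0 0 i := by
    intro i
    rw [repV_two]
    rcases fB_cases O E hE (g i) with ⟨-, h2, e⟩ | ⟨-, h2, e⟩ | ⟨-, h2, e⟩
    · rw [if_pos ((hmem i).mp h2), e]
      right; rfl
    · rw [if_pos ((hmem i).mp h2), e]
      left; rfl
    · rw [if_neg (fun h => h2 ((hmem i).mpr h)), e]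
      left; rfl
  have hEq : (fsOf 3277413).filter (fun i => fB ⟨O, E⟩ (g i) ≠ repV 3277413 0 2 0 0 i) =
      g⁻¹ • E := by
    ext i
    rw [Finset.mem_filter, Finset.mem_inv_smul_finset_iff, repV_two]
    constructor
    · rintro ⟨hi, hne⟩
      rw [if_pos hi] at hne
      rcases fB_cases O E hE (g i) with ⟨h1, -, e⟩ | ⟨-, -, e⟩ | ⟨-, h2, e⟩
      · exact h1
      · exact absurd e hne
      · exact absurd ((hmem i).mpr hi) h2
    · intro hi
      have hi' : g i ∈ E := hi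
      have hO' : i ∈ fsOf 3277413 := (hmem i).mp (hE hi')
      refine ⟨hO', ?_⟩
      rw [if_pos hO']
      rcases fB_cases O E hE (g i) with ⟨-, -, e⟩ | ⟨h1, -, e⟩ | ⟨h1, -, e⟩
      · rw [e]
        norm_num
      · exact absurd hi' h1
      · exact absurd hi' h1
  have h8 : (fsOf 3277413).card = 8 := (octads_sub Cfsg.Agent.Lib_lead_M24Oct.root_octad).2
  obtain ⟨c, hc, hcE⟩ := exists_code_inter 3277413
    ((fsOf 3277413).powerset.filter (fun E => Even E.card)) wit8 nd8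
    (fun k => Finset.mem_filter.mpr ⟨Finset.mem_powerset.mpr Finset.inter_subset_right, by
      have h1 : fsOf (M k) ∈ Supp := by
        rw [← supp_eq]
        exact Cfsg.Agent.Lib_lead_LeechCount.supp_W k
      exact even_card_inter h1 (octads_sub Cfsg.Agent.Lib_lead_M24Oct.root_octad).1⟩)
    (by rw [card_even_subsets _ h8]; rfl)
    ((fsOf 3277413).filter (fun i => fB ⟨O, E⟩ (g i) ≠ repV 3277413 0 2 0 0 i))
    (Finset.mem_filter.mpr ⟨Finset.mem_powerset.mpr (Finset.filter_subset _ _), by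
      rw [hEq, Finset.card_smul_finset]
      exact hev⟩)
  refine ⟨g, hg, c, hc, flip_fix _ _ (fsOf 3277413) (fun i hi => ?_) hur c hcE⟩
  rw [repV_two, if_neg hi]

/-- the odd vectors -/
theorem monoC (C : Finset GolayPt) (hC : C ∈ Supp) (j : GolayPt) :
    Mono (fC (C, j)) (repV 1 0 (-3) 0 1) := by
  classical
  obtain ⟨g, hg, hgj⟩ := Cfsg.Agent.Lib_lead_M24Trans.trans1 (ptN 0) j
  have hmem : ∀ i, g i = j ↔ i ∈ fsOf 1 := by
    intro i
    rw [fs1, Finset.mem_singleton, ← hgj, g.injective.eq_iff]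
  have hc : (g⁻¹ • C)ᶜ ∈ Supp := compl_mem (smul_mem_supports (M24.inv_mem hg) hC)
  refine ⟨g, hg, (g⁻¹ • C)ᶜ, hc, ?_⟩
  funext i
  have hiff : i ∈ (g⁻¹ • C)ᶜ ↔ g i ∉ C := by
    rw [Finset.mem_compl, Finset.mem_inv_smul_finset_iff]
    rfl
  show (if i ∈ (g⁻¹ • C)ᶜ then -fC (C, j) (g i) else fC (C, j) (g i)) = repV 1 0 (-3) 0 1 i
  rw [repV_two]
  rcases fC_cases C j (g i) with ⟨h1, h2, e⟩ | ⟨h1, h2, e⟩ | ⟨h1, h2, e⟩ | ⟨h1, h2, e⟩
  · rw [if_neg (fun h => (hiff.mp h) h2), if_neg (fun h => h1 ((hmem i).mpr h)), e]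
  · rw [if_pos (hiff.mpr h2), if_neg (fun h => h1 ((hmem i).mpr h)), e]
    rfl
  · rw [if_neg (fun h => (hiff.mp h) h2), if_pos ((hmem i).mp h1), e]
  · rw [if_pos (hiff.mpr h2), if_pos ((hmem i).mp h1), e]

/-- every minimal vector is carried to one of three vectors -/
theorem mono_cases {v : GolayPt → ℤ} (hv : v ∈ leechLattice) (hn : sqNorm v = 32) :
    Mono v (repV 3 0 4 0 0) ∨ Mono v (repV 3277413 0 2 0 0) ∨ Mono v (repV 1 0 (-3) 0 1) := by
  rcases (mem_leechLattice_iff v).mp hv with h | h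
  · by_cases h4 : ∀ i, v i % 4 = 0
    · obtain ⟨s, P, hs, hP, rfl⟩ := exists_fA hn h4
      exact Or.inl (monoA s P hs hP)
    · have hex : ∃ i, v i % 4 = 2 := by
        by_contra hne
        apply h4
        intro i
        have h1 := h.1 i
        have h2 : ¬ v i % 4 = 2 := fun h' => hne ⟨i, h'⟩
        omega
      obtain ⟨O, E, hO, hE, hev, rfl⟩ := exists_fB hv hn h.1 hex
      exact Or.inr (Or.inl (monoB O E hO hE hev))
  · obtain ⟨C, hC, j, rfl⟩ := exists_fC hv hn h.1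
    exact Or.inr (Or.inr (monoC C hC j))

theorem main (v : GolayPt → ℤ) (hv : v ∈ leechLattice) (hvn : sqNorm v = 32) :
    {w : GolayPt → ℤ | w ∈ leechLattice ∧ sqNorm w = 32 ∧ dotInt v w = -16}.ncard = 4600 ∧
    {w : GolayPt → ℤ | w ∈ leechLattice ∧ sqNorm w = 32 ∧ dotInt v w = -8}.ncard = 47104 ∧
    {w : GolayPt → ℤ | w ∈ leechLattice ∧ sqNorm w = 32 ∧ dotInt v w = 0}.ncard = 93150 := by
  rcases mono_cases hv hvn with h | h | h
  · exact ⟨(ncard_mono h 32 (-16)).trans cA16, (ncard_mono h 32 (-8)).trans cA8,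
      (ncard_mono h 32 0).trans cA0⟩
  · exact ⟨(ncard_mono h 32 (-16)).trans cB16, (ncard_mono h 32 (-8)).trans cB8,
      (ncard_mono h 32 0).trans cB0⟩
  · exact ⟨(ncard_mono h 32 (-16)).trans cC16, (ncard_mono h 32 (-8)).trans cC8,
      (ncard_mono h 32 0).trans cC0⟩

end Cfsg.Agent.Lib_lead_LeechInner
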