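import Mathlib
import Cfsg.Prelude.Def_Sporadic_a
import Cfsg.Agent.Lib_lead_LeechSym
import Cfsg.Agent.Lib_lead_LeechInner
import Cfsg.Agent.Lib_lead_LeechDotL
import Cfsg.Agent.Lib_lead_M12Thm
import Cfsg.Agent.Lib_lead_M24Sets

/-! Tools for reducing the vectors of sum of squares 48 of the rank-24 lattice to four particular
ones by monomial symmetries. -/

set_option autoImplicit false

namespace Cfsg.Agent.Lib_lead_LeechRed

open Cfsg Cfsg.Agent.Lib_lead_Golay Cfsg.Agent.Lib_lead_GolayPerm Cfsg.Agent.Lib_lead_Leech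
  Cfsg.Agent.Lib_lead_Leech2 Cfsg.Agent.Lib_lead_M24 Cfsg.Agent.Lib_lead_LeechDot
  Cfsg.Agent.Lib_lead_LeechSym Cfsg.Agent.Lib_lead_MinVec Cfsg.Agent.Lib_lead_LeechDotL
open scoped Pointwise

/-- two vectors have the same numbers of lattice vectors with given sum of squares and sum of
products -/
def Eqv (v r : GolayPt → ℤ) : Prop := ∀ n d, (TT v n d).ncard = (TT r n d).ncard

theorem Eqv.trans {u v w : GolayPt → ℤ} (h1 : Eqv u v) (h2 : Eqv v w) : Eqv u w :=
  fun n d => (h1 n d).trans (h2 n d)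

theorem eqv_of_eq {u v : GolayPt → ℤ} (h : u = v) : Eqv u v := fun _ _ => by rw [h]

theorem eqv_flip {c : Finset GolayPt} (hc : c ∈ Supp) (v : GolayPt → ℤ) : Eqv v (flip c v) :=
  fun n d => (ncard_flip hc v n d).symm

theorem eqv_perm {σ : Equiv.Perm GolayPt} (hσ : σ ∈ M24) (v : GolayPt → ℤ) :
    Eqv v (fun i => v (σ i)) :=
  fun n d => (ncard_perm hσ v n d).symm

theorem valL_cons (γ : ℤ) (m : ℕ) (ps : List (ℤ × ℕ)) (i : GolayPt) :
    valL ((γ, m) :: ps) i = if i ∈ fsOf m then γ else valL ps i := by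
  show (if m.testBit (idx i) = true then γ else valL ps i) = _
  by_cases h : i ∈ fsOf m
  · rw [if_pos h, if_pos ((Cfsg.Agent.Lib_lead_M24Chain.mem_fsOf _ _).mp h)]
  · rw [if_neg h, if_neg (fun h' => h ((Cfsg.Agent.Lib_lead_M24Chain.mem_fsOf _ _).mpr h'))]

theorem valL_nil (i : GolayPt) : valL [] i = 0 := rfl

theorem flip_fix_on (u r : GolayPt → ℤ) (S : Finset GolayPt)
    (hur : ∀ i ∈ S, u i = r i ∨ u i = -r i) (c : Finset GolayPt)
    (hc : c ∩ S = S.filter (fun i => u i ≠ r i)) : ∀ i ∈ S, flip c u i = r i := by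
  intro i hi
  unfold Cfsg.Agent.Lib_lead_LeechSym.flip
  have hiff : i ∈ c ↔ u i ≠ r i := by
    have h1 : i ∈ c ∩ S ↔ i ∈ S.filter (fun i => u i ≠ r i) := by rw [hc]
    rw [Finset.mem_inter, Finset.mem_filter] at h1
    constructor
    · intro h
      exact (h1.mp ⟨h, hi⟩).2
    · intro h
      exact (h1.mpr ⟨hi, h⟩).1
  by_cases hic : i ∈ c
  · rw [if_pos hic]
    rcases hur i hi with h | h
    · exact absurd h (hiff.mp hic)
    · rw [h]
      ring
  · rw [if_neg hic]
    by_contra hne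
    exact hic (hiff.mpr hne)

/-- the number of sign differences on the set of coordinates congruent to 2 modulo 4 is even -/
theorem even_diff (u r : GolayPt → ℤ) (O : Finset GolayPt) (hu : (∑ i, u i) % 8 = 0)
    (hr : (∑ i, r i) % 8 = 0) (hur : ∀ i, u i = r i ∨ u i = -r i)
    (hO : ∀ i ∈ O, r i % 4 = 2) (hO' : ∀ i, i ∉ O → r i % 4 = 0) :
    Even (O.filter (fun i => u i ≠ r i)).card := by
  classical
  have hterm : ∀ i : GolayPt, (r i - u i) % 8 =
      if i ∈ O.filter (fun i => u i ≠ r i) then 4 else 0 := by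
    intro i
    by_cases hi : i ∈ O
    · have h2 := hO i hi
      by_cases hne : u i ≠ r i
      · rw [if_pos (Finset.mem_filter.mpr ⟨hi, hne⟩)]
        rcases hur i with h | h
        · exact absurd h hne
        · rw [h]
          omega
      · have hnm : i ∉ O.filter (fun i => u i ≠ r i) := fun h => hne (Finset.mem_filter.mp h).2
        rw [if_neg hnm]
        rw [not_not] at hne
        rw [hne]
        simp
    · have h0 := hO' i hi
      have hnm : i ∉ O.filter (fun i => u i ≠ r i) := fun h => hi (Finset.mem_filter.mp h).1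
      rw [if_neg hnm]
      rcases hur i with h | h
      · rw [h]
        simp
      · rw [h]
        omega
  have hsum : (∑ i, (r i - u i)) % 8 = 0 := by
    rw [Finset.sum_sub_distrib]
    omega
  rw [Finset.sum_int_mod, Finset.sum_congr rfl (fun i _ => hterm i), sum_indicator] at hsum
  rw [Nat.even_iff]
  omega

theorem card_even_subsets12 (O : Finset GolayPt) (h : O.card = 12) :
    (O.powerset.filter (fun E => Even E.card)).card = 2048 := by
  classical
  have hne : O.Nonempty := by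
    rw [← Finset.card_pos, h]
    norm_num
  have h0 := Finset.sum_powerset_neg_one_pow_card_of_nonempty hne
  have h1 := Finset.sum_filter_add_sum_filter_not O.powerset (fun E => Even E.card)
    (fun E => (-1 : ℤ) ^ E.card)
  have h2 : ∑ E ∈ O.powerset.filter (fun E => Even E.card), (-1 : ℤ) ^ E.card =
      ((O.powerset.filter (fun E => Even E.card)).card : ℤ) := by
    rw [Finset.sum_congr rfl (fun E hE => Even.neg_one_pow (Finset.mem_filter.mp hE).2),
      Finset.sum_const, nsmul_eq_mul, mul_one]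
  have h3 : ∑ E ∈ O.powerset.filter (fun E => ¬ Even E.card), (-1 : ℤ) ^ E.card =
      -((O.powerset.filter (fun E => ¬ Even E.card)).card : ℤ) := by
    rw [Finset.sum_congr rfl (fun E hE => Odd.neg_one_pow
      (Nat.not_even_iff_odd.mp (Finset.mem_filter.mp hE).2)),
      Finset.sum_const, nsmul_eq_mul, mul_neg, mul_one]
  have h4 := Finset.card_filter_add_card_filter_not (s := O.powerset) (fun E => Even E.card)
  rw [Finset.card_powerset, h] at h4
  rw [h2, h3, h0] at h1
  omega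

set_option maxRecDepth 1000000 in
/-- codewords meeting a dodecad in all even ways -/
def wit12 : List ℕ := [0, 38, 1044, 1074, 1524, 1490, 480, 454, 1925, 1955, 913, 951, 625, 599, 1637, 1603, 1286, 1312, 274, 308, 242, 212, 1254, 1216, 643, 677, 1687, 1713, 1911, 1873, 867, 837, 941, 907, 1977, 1951, 1625, 1663, 589, 619, 1064, 1038, 60, 26, 476, 506, 1480, 1518, 1707, 1677, 703, 665, 863, 889, 1867, 1901, 302, 264, 1338, 1308, 1242, 1276, 206, 232, 285, 315, 1289, 1327, 1257, 1231, 253, 219, 1688, 1726, 652, 682, 876, 842, 1912, 1886, 1051, 1085, 15, 41, 495, 457, 1531, 1501, 926, 952, 1930, 1964, 1642, 1612, 638, 600, 688, 662, 1700, 1666, 1860, 1890, 848, 886, 1333, 1299, 289, 263, 193, 231, 1237, 1267, 1974, 1936, 930, 900, 578, 612, 1622, 1648, 51, 21, 1063, 1025, 1479, 1505, 467, 501, 1818, 1852, 782, 808, 750, 712, 1786, 1756, 159, 185, 1163, 1197, 1387, 1357, 383, 345, 540, 570, 1544, 1582, 2024, 1998, 1020, 986, 1433, 1471, 397, 427, 109, 75,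 1145, 1119, 1207, 1169, 163, 133, 323, 357, 1367, 1393, 818, 788, 1830, 1792, 1734, 1760, 722, 756, 433, 407, 1445, 1411, 1093, 1123, 81, 119, 1588, 1554, 544, 518, 960, 998, 2004, 2034, 1543, 1569, 531, 565, 1011, 981, 2023, 1985, 386, 420, 1430, 1456, 1142, 1104, 98, 68, 769, 807, 1813, 1843, 1781, 1747, 737, 711, 1156, 1186, 144, 182, 368, 342, 1380, 1346, 1450, 1420, 446, 408, 94, 120, 1098, 1132, 559, 521, 1595, 1565, 2011, 2045, 975, 1001, 172, 138, 1208, 1182, 1368, 1406, 332, 362, 1833, 1807, 829, 795, 733, 763, 1737, 1775, 1884, 1914, 840, 878, 680, 654, 1724, 1690, 217, 255, 1229, 1259, 1325, 1291, 313, 287, 602, 636, 1614, 1640, 1966, 1928, 954, 924, 1503, 1529, 459, 493, 43, 13, 1087, 1049, 1265, 1239, 229, 195, 261, 291, 1297, 1335, 884, 850, 1888, 1862, 1664, 1702, 660, 690, 503, 465, 1507, 1477, 1027, 1061, 23, 49, 1650, 1620, 614, 576, 902, 928, 1938, 1972, 1601, 1639, 597, 627, 949, 915, 1953, 1927, 452, 482, 1488, 1526, 1072, 1046, 36,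 2, 839, 865, 1875, 1909, 1715, 1685, 679, 641, 1218, 1252, 214, 240, 310, 272, 1314, 1284, 1516, 1482, 504, 478, 24, 62, 1036, 1066, 617, 591, 1661, 1627, 1949, 1979, 905, 943, 234, 204, 1278, 1240, 1310, 1336, 266, 300, 1903, 1865, 891, 861, 667, 701, 1679, 1705, 70, 96, 1106, 1140, 1458, 1428, 422, 384, 1987, 2021, 983, 1009, 567, 529, 1571, 1541, 1344, 1382, 340, 370, 180, 146, 1184, 1158, 709, 739, 1745, 1783, 1841, 1815, 805, 771, 1003, 973, 2047, 2009, 1567, 1593, 523, 557, 1134, 1096, 122, 92, 410, 444, 1422, 1448, 1773, 1739, 761, 735, 793, 831, 1805, 1835, 360, 334, 1404, 1370, 1180, 1210, 136, 174, 347, 381, 1359, 1385, 1199, 1161, 187, 157, 1758, 1784, 714, 748, 810, 780, 1854, 1816, 1117, 1147, 73, 111, 425, 399, 1469, 1435, 984, 1022, 1996, 2026, 1580, 1546, 568, 542, 758, 720, 1762, 1732, 1794, 1828, 790, 816, 1395, 1365, 359, 321, 135, 161, 1171, 1205, 2032, 2006, 996, 962, 516, 546, 1552, 1590, 117, 83, 1121, 1095, 1409, 1447, 405, 435,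 376, 350, 1388, 1354, 1164, 1194, 152, 190, 1789, 1755, 745, 719, 777, 815, 1821, 1851, 1150, 1112, 106, 76, 394, 428, 1438, 1464, 1019, 989, 2031, 1993, 1551, 1577, 539, 573, 725, 755, 1729, 1767, 1825, 1799, 821, 787, 1360, 1398, 324, 354, 164, 130, 1200, 1174, 2003, 2037, 967, 993, 551, 513, 1587, 1557, 86, 112, 1090, 1124, 1442, 1412, 438, 400, 101, 67, 1137, 1111, 1425, 1463, 389, 419, 2016, 1990, 1012, 978, 532, 562, 1536, 1574, 1379, 1349, 375, 337, 151, 177, 1155, 1189, 742, 704, 1778, 1748, 1810, 1844, 774, 800, 968, 1006, 2012, 2042, 1596, 1562, 552, 526, 1101, 1131, 89, 127, 441, 415, 1453, 1419, 1742, 1768, 730, 764, 826, 796, 1838, 1800, 331, 365, 1375, 1401, 1215, 1177, 171, 141, 1634, 1604, 630, 592, 918, 944, 1922, 1956, 487, 449, 1523, 1493, 1043, 1077, 7, 33, 868, 834, 1904, 1878, 1680, 1718, 644, 674, 1249, 1223, 245, 211, 277, 307, 1281, 1319, 1487, 1513, 475, 509, 59, 29, 1071, 1033, 586, 620, 1630, 1656, 1982, 1944, 938, 908, 201,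 239, 1245, 1275, 1341, 1307, 297, 271, 1868, 1898, 856, 894, 696, 670, 1708, 1674, 1919, 1881, 875, 845, 651, 685, 1695, 1721, 250, 220, 1262, 1224, 1294, 1320, 282, 316, 633, 607, 1645, 1611, 1933, 1963, 921, 959, 1532, 1498, 488, 462, 8, 46, 1052, 1082, 1234, 1268, 198, 224, 294, 256, 1330, 1300, 855, 881, 1859, 1893, 1699, 1669, 695, 657, 468, 498, 1472, 1510, 1056, 1030, 52, 18, 1617, 1655, 581, 611, 933, 899, 1969, 1943, 1572, 1538, 560, 534, 976, 1014, 1988, 2018, 417, 391, 1461, 1427, 1109, 1139, 65, 103, 802, 772, 1846, 1808, 1750, 1776, 706, 740, 1191, 1153, 179, 149, 339, 373, 1351, 1377, 1417, 1455, 413, 443, 125, 91, 1129, 1103, 524, 554, 1560, 1598, 2040, 2014, 1004, 970, 143, 169, 1179, 1213, 1403, 1373, 367, 329, 1802, 1836, 798, 824, 766, 728, 1770, 1740, 1849, 1823, 813, 779, 717, 747, 1753, 1791, 188, 154, 1192, 1166, 1352, 1390, 348, 378, 575, 537, 1579, 1549, 1995, 2029, 991, 1017, 1466, 1436, 430, 392, 78, 104, 1114, 1148, 1172, 1202,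 128, 166, 352, 326, 1396, 1362, 785, 823, 1797, 1827, 1765, 1731, 753, 727, 402, 436, 1414, 1440, 1126, 1088, 114, 84, 1559, 1585, 515, 549, 995, 965, 2039, 2001, 318, 280, 1322, 1292, 1226, 1260, 222, 248, 1723, 1693, 687, 649, 847, 873, 1883, 1917, 1080, 1054, 44, 10, 460, 490, 1496, 1534, 957, 923, 1961, 1935, 1609, 1647, 605, 635, 659, 693, 1671, 1697, 1895, 1857, 883, 853, 1302, 1328, 258, 292, 226, 196, 1270, 1232, 1941, 1971, 897, 935, 609, 583, 1653, 1619, 16, 54, 1028, 1058, 1508, 1474, 496, 470, 35, 5, 1079, 1041, 1495, 1521, 451, 485, 1958, 1920, 946, 916, 594, 628, 1606, 1632, 1317, 1283, 305, 279, 209, 247, 1221, 1251, 672, 646, 1716, 1682, 1876, 1906, 832, 870, 910, 936, 1946, 1980, 1658, 1628, 622, 584, 1035, 1069, 31, 57, 511, 473, 1515, 1485, 1672, 1710, 668, 698, 892, 858, 1896, 1870, 269, 299, 1305, 1343, 1273, 1247, 237, 203, 202, 236, 1246, 1272, 1342, 1304, 298, 268, 1871, 1897, 859, 893, 699, 669, 1711, 1673, 1484, 1514, 472, 510,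 56, 30, 1068, 1034, 585, 623, 1629, 1659, 1981, 1947, 937, 911, 871, 833, 1907, 1877, 1683, 1717, 647, 673, 1250, 1220, 246, 208, 278, 304, 1282, 1316, 1633, 1607, 629, 595, 917, 947, 1921, 1959, 484, 450, 1520, 1494, 1040, 1078, 4, 34, 471, 497, 1475, 1509, 1059, 1029, 55, 17, 1618, 1652, 582, 608, 934, 896, 1970, 1940, 1233, 1271, 197, 227, 293, 259, 1329, 1303, 852, 882, 1856, 1894, 1696, 1670, 692, 658, 634, 604, 1646, 1608, 1934, 1960, 922, 956, 1535, 1497, 491, 461, 11, 45, 1055, 1081, 1916, 1882, 872, 846, 648, 686, 1692, 1722, 249, 223, 1261, 1227, 1293, 1323, 281, 319, 2000, 2038, 964, 994, 548, 514, 1584, 1558, 85, 115, 1089, 1127, 1441, 1415, 437, 403, 726, 752, 1730, 1764, 1826, 1796, 822, 784, 1363, 1397, 327, 353, 167, 129, 1203, 1173, 1149, 1115, 105, 79, 393, 431, 1437, 1467, 1016, 990, 2028, 1994, 1548, 1578, 536, 574, 379, 349, 1391, 1353, 1167, 1193, 155, 189, 1790, 1752, 746, 716, 778, 812, 1822, 1848, 1741, 1771, 729, 767, 825, 799,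 1837, 1803, 328, 366, 1372, 1402, 1212, 1178, 168, 142, 971, 1005, 2015, 2041, 1599, 1561, 555, 525, 1102, 1128, 90, 124, 442, 412, 1454, 1416, 1376, 1350, 372, 338, 148, 178, 1152, 1190, 741, 707, 1777, 1751, 1809, 1847, 773, 803, 102, 64, 1138, 1108, 1426, 1460, 390, 416, 2019, 1989, 1015, 977, 535, 561, 1539, 1573, 1942, 1968, 898, 932, 610, 580, 1654, 1616, 19, 53, 1031, 1057, 1511, 1473, 499, 469, 656, 694, 1668, 1698, 1892, 1858, 880, 854, 1301, 1331, 257, 295, 225, 199, 1269, 1235, 1083, 1053, 47, 9, 463, 489, 1499, 1533, 958, 920, 1962, 1932, 1610, 1644, 606, 632, 317, 283, 1321, 1295, 1225, 1263, 221, 251, 1720, 1694, 684, 650, 844, 874, 1880, 1918, 1675, 1709, 671, 697, 895, 857, 1899, 1869, 270, 296, 1306, 1340, 1274, 1244, 238, 200, 909, 939, 1945, 1983, 1657, 1631, 621, 587, 1032, 1070, 28, 58, 508, 474, 1512, 1486, 1318, 1280, 306, 276, 210, 244, 1222, 1248, 675, 645, 1719, 1681, 1879, 1905, 835, 869, 32, 6, 1076, 1042, 1492, 1522, 448, 486,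 1957, 1923, 945, 919, 593, 631, 1605, 1635, 140, 170, 1176, 1214, 1400, 1374, 364, 330, 1801, 1839, 797, 827, 765, 731, 1769, 1743, 1418, 1452, 414, 440, 126, 88, 1130, 1100, 527, 553, 1563, 1597, 2043, 2013, 1007, 969, 801, 775, 1845, 1811, 1749, 1779, 705, 743, 1188, 1154, 176, 150, 336, 374, 1348, 1378, 1575, 1537, 563, 533, 979, 1013, 1991, 2017, 418, 388, 1462, 1424, 1110, 1136, 66, 100, 401, 439, 1413, 1443, 1125, 1091, 113, 87, 1556, 1586, 512, 550, 992, 966, 2036, 2002, 1175, 1201, 131, 165, 355, 325, 1399, 1361, 786, 820, 1798, 1824, 1766, 1728, 754, 724, 572, 538, 1576, 1550, 1992, 2030, 988, 1018, 1465, 1439, 429, 395, 77, 107, 1113, 1151, 1850, 1820, 814, 776, 718, 744, 1754, 1788, 191, 153, 1195, 1165, 1355, 1389, 351, 377, 434, 404, 1446, 1408, 1094, 1120, 82, 116, 1591, 1553, 547, 517, 963, 997, 2007, 2033, 1204, 1170, 160, 134, 320, 358, 1364, 1394, 817, 791, 1829, 1795, 1733, 1763, 721, 759, 543, 569, 1547, 1581, 2027, 1997, 1023, 985,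 1434, 1468, 398, 424, 110, 72, 1146, 1116, 1817, 1855, 781, 811, 749, 715, 1785, 1759, 156, 186, 1160, 1198, 1384, 1358, 380, 346, 175, 137, 1211, 1181, 1371, 1405, 335, 361, 1834, 1804, 830, 792, 734, 760, 1738, 1772, 1449, 1423, 445, 411, 93, 123, 1097, 1135, 556, 522, 1592, 1566, 2008, 2046, 972, 1002, 770, 804, 1814, 1840, 1782, 1744, 738, 708, 1159, 1185, 147, 181, 371, 341, 1383, 1345, 1540, 1570, 528, 566, 1008, 982, 2020, 1986, 385, 423, 1429, 1459, 1141, 1107, 97, 71, 1704, 1678, 700, 666, 860, 890, 1864, 1902, 301, 267, 1337, 1311, 1241, 1279, 205, 235, 942, 904, 1978, 1948, 1626, 1660, 590, 616, 1067, 1037, 63, 25, 479, 505, 1483, 1517, 1285, 1315, 273, 311, 241, 215, 1253, 1219, 640, 678, 1684, 1714, 1908, 1874, 864, 838, 3, 37, 1047, 1073, 1527, 1489, 483, 453, 1926, 1952, 914, 948, 626, 596, 1638, 1600, 1973, 1939, 929, 903, 577, 615, 1621, 1651, 48, 22, 1060, 1026, 1476, 1506, 464, 502, 691, 661, 1703, 1665, 1863, 1889, 851, 885, 1334, 1296,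 290, 260, 194, 228, 1238, 1264, 1048, 1086, 12, 42, 492, 458, 1528, 1502, 925, 955, 1929, 1967, 1641, 1615, 637, 603, 286, 312, 1290, 1324, 1258, 1228, 254, 216, 1691, 1725, 655, 681, 879, 841, 1915, 1885, 1774, 1736, 762, 732, 794, 828, 1806, 1832, 363, 333, 1407, 1369, 1183, 1209, 139, 173, 1000, 974, 2044, 2010, 1564, 1594, 520, 558, 1133, 1099, 121, 95, 409, 447, 1421, 1451, 1347, 1381, 343, 369, 183, 145, 1187, 1157, 710, 736, 1746, 1780, 1842, 1812, 806, 768, 69, 99, 1105, 1143, 1457, 1431, 421, 387, 1984, 2022, 980, 1010, 564, 530, 1568, 1542, 2035, 2005, 999, 961, 519, 545, 1555, 1589, 118, 80, 1122, 1092, 1410, 1444, 406, 432, 757, 723, 1761, 1735, 1793, 1831, 789, 819, 1392, 1366, 356, 322, 132, 162, 1168, 1206, 1118, 1144, 74, 108, 426, 396, 1470, 1432, 987, 1021, 1999, 2025, 1583, 1545, 571, 541, 344, 382, 1356, 1386, 1196, 1162, 184, 158, 1757, 1787, 713, 751, 809, 783, 1853, 1819, 500, 466, 1504, 1478, 1024, 1062, 20, 50, 1649, 1623, 613,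 579, 901, 931, 1937, 1975, 1266, 1236, 230, 192, 262, 288, 1298, 1332, 887, 849, 1891, 1861, 1667, 1701, 663, 689, 601, 639, 1613, 1643, 1965, 1931, 953, 927, 1500, 1530, 456, 494, 40, 14, 1084, 1050, 1887, 1913, 843, 877, 683, 653, 1727, 1689, 218, 252, 1230, 1256, 1326, 1288, 314, 284, 233, 207, 1277, 1243, 1309, 1339, 265, 303, 1900, 1866, 888, 862, 664, 702, 1676, 1706, 1519, 1481, 507, 477, 27, 61, 1039, 1065, 618, 588, 1662, 1624, 1950, 1976, 906, 940, 836, 866, 1872, 1910, 1712, 1686, 676, 642, 1217, 1255, 213, 243, 309, 275, 1313, 1287, 1602, 1636, 598, 624, 950, 912, 1954, 1924, 455, 481, 1491, 1525, 1075, 1045, 39, 1]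

/-- the list is strictly increasing -/
def incr : List ℕ → Bool
  | [] => true
  | [_] => true
  | a :: b :: l => decide (a < b) && incr (b :: l)

theorem incr_lt : ∀ (l : List ℕ) (a : ℕ), incr (a :: l) = true → ∀ x ∈ l, a < x
  | [], _, _ => fun x hx => absurd hx List.not_mem_nil
  | b :: l, a, h => by
    have h' : (decide (a < b) && incr (b :: l)) = true := h
    rw [Bool.and_eq_true, decide_eq_true_eq] at h'
    intro x hx
    rcases List.mem_cons.mp hx with rfl | hx'
    · exact h'.1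
    · exact lt_trans h'.1 (incr_lt l b h'.2 x hx')

theorem incr_nodup : ∀ (l : List ℕ), incr l = true → l.Nodup
  | [], _ => List.nodup_nil
  | [a], _ => List.nodup_singleton a
  | a :: b :: l, h => by
    have h' : (decide (a < b) && incr (b :: l)) = true := h
    rw [Bool.and_eq_true, decide_eq_true_eq] at h'
    rw [List.nodup_cons]
    refine ⟨fun hmem => ?_, incr_nodup (b :: l) h'.2⟩
    exact lt_irrefl a (incr_lt (b :: l) a h a hmem)

set_option maxRecDepth 1000000 in
theorem nd12 : (wit12.map (fun k => M k &&& 340831)).Nodup :=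
  incr_nodup _ (by decide +kernel)

set_option maxRecDepth 1000000 in
theorem len12 : wit12.length = 2048 := by decide +kernel

theorem mem_supp_M (k : ℕ) : fsOf (M k) ∈ Supp := by
  rw [← supp_eq]
  exact Cfsg.Agent.Lib_lead_LeechCount.supp_W k

theorem oct0 : fsOf 3277413 ∈ Supp ∧ (fsOf 3277413).card = 8 :=
  octads_sub Cfsg.Agent.Lib_lead_M24Oct.root_octad

theorem dod0 : fsOf 340831 ∈ Supp ∧ (fsOf 340831).card = 12 :=
  Cfsg.Agent.Lib_lead_M12Data.root_dodecad

/-- every even subset of the octad is cut by a codeword -/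
theorem cov8 (E : Finset GolayPt) (hE : E ⊆ fsOf 3277413) (hev : Even E.card) :
    ∃ c ∈ Supp, c ∩ fsOf 3277413 = E :=
  exists_code_inter 3277413 ((fsOf 3277413).powerset.filter (fun E => Even E.card))
    Cfsg.Agent.Lib_lead_LeechInner.wit8 Cfsg.Agent.Lib_lead_LeechInner.nd8
    (fun k => Finset.mem_filter.mpr ⟨Finset.mem_powerset.mpr Finset.inter_subset_right,
      even_card_inter (mem_supp_M k) oct0.1⟩)
    (by rw [card_even_subsets _ oct0.2]; rfl) E
    (Finset.mem_filter.mpr ⟨Finset.mem_powerset.mpr hE, hev⟩)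

/-- every even subset of the dodecad is cut by a codeword -/
theorem cov12 (E : Finset GolayPt) (hE : E ⊆ fsOf 340831) (hev : Even E.card) :
    ∃ c ∈ Supp, c ∩ fsOf 340831 = E :=
  exists_code_inter 340831 ((fsOf 340831).powerset.filter (fun E => Even E.card))
    wit12 nd12
    (fun k => Finset.mem_filter.mpr ⟨Finset.mem_powerset.mpr Finset.inter_subset_right,
      even_card_inter (mem_supp_M k) dod0.1⟩)
    (by rw [card_even_subsets12 _ dod0.2]; exact len12) E
    (Finset.mem_filter.mpr ⟨Finset.mem_powerset.mpr hE, hev⟩)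

theorem sqNorm_sub (x y : GolayPt → ℤ) :
    sqNorm (x - y) = sqNorm x - 2 * dotInt x y + sqNorm y := by
  unfold sqNorm dotInt
  rw [Finset.mul_sum, ← Finset.sum_sub_distrib, ← Finset.sum_add_distrib]
  apply Finset.sum_congr rfl
  intro i _
  simp only [Pi.sub_apply]
  ring

end Cfsg.Agent.Lib_lead_LeechRed
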