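import Mathlib
import Cfsg.Prelude.Def_Sporadic_a
import Cfsg.Agent.Lib_lead_LeechIndex
import Cfsg.Agent.Lib_lead_LeechNums
import Cfsg.Agent.Lib_lead_LeechRed
import Cfsg.Prelude.Def_SporadicCombinatorics

/-! The classes of the rank-24 lattice modulo twice the lattice. -/

set_option autoImplicit false

namespace Cfsg.Agent.Lib_lead_LeechCross

open Cfsg Cfsg.Agent.Lib_lead_Golay Cfsg.Agent.Lib_lead_Leech Cfsg.Agent.Lib_lead_LeechIndex

/-- twice the lattice -/
def D : AddSubgroup (GolayPt → ℤ) := leechLattice.map dbl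

theorem dbl_eq (z : GolayPt → ℤ) : dbl z = 2 • z := by
  ext i
  rw [dbl_apply]
  simp

theorem mem_D (x : GolayPt → ℤ) : x ∈ D ↔ ∃ z ∈ leechLattice, x = 2 • z := by
  unfold D
  rw [AddSubgroup.mem_map]
  constructor
  · rintro ⟨z, hz, rfl⟩
    exact ⟨z, hz, dbl_eq z⟩
  · rintro ⟨z, hz, rfl⟩
    exact ⟨z, hz, dbl_eq z⟩

theorem D_le : D ≤ leechLattice := by
  intro x hx
  obtain ⟨z, hz, rfl⟩ := (mem_D x).mp hx
  rw [two_nsmul]
  exact leechLattice.add_mem hz hz

theorem index_D : D.index = 2 ^ 60 := by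
  unfold D
  rw [AddSubgroup.index_map_of_injective _ dbl_inj, main, index_dbl]
  norm_num

theorem relIndex_D : D.relIndex leechLattice = 2 ^ 24 := by
  have h := AddSubgroup.relIndex_mul_index D_le
  rw [index_D, main] at h
  have e : (2 : ℕ) ^ 60 = 2 ^ 24 * 2 ^ 36 := by norm_num
  rw [e] at h
  exact Nat.eq_of_mul_eq_mul_right (by norm_num) h

theorem sqNorm_two (z : GolayPt → ℤ) : sqNorm (2 • z) = 4 * sqNorm z := by
  unfold sqNorm
  rw [Finset.mul_sum]
  apply Finset.sum_congr rfl
  intro i _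
  simp only [Pi.smul_apply, nsmul_eq_mul, Nat.cast_ofNat]
  ring

theorem sqNorm_add (x y : GolayPt → ℤ) :
    sqNorm (x + y) = sqNorm x + 2 * dotInt x y + sqNorm y := by
  unfold sqNorm dotInt
  rw [Finset.mul_sum, ← Finset.sum_add_distrib, ← Finset.sum_add_distrib]
  apply Finset.sum_congr rfl
  intro i _
  simp only [Pi.add_apply]
  ring

theorem sqNorm_neg (x : GolayPt → ℤ) : sqNorm (-x) = sqNorm x := by
  unfold sqNorm
  apply Finset.sum_congr rfl
  intro i _
  simp only [Pi.neg_apply]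
  ring

/-- two short vectors congruent modulo twice the lattice are equal, opposite, or orthogonal of
sum of squares 64 -/
theorem key {y y' : GolayPt → ℤ} (hy : y ∈ leechLattice) (hy' : y' ∈ leechLattice)
    (hn : sqNorm y ≤ 64) (hn' : sqNorm y' ≤ 64) (hD : y - y' ∈ D) (h1 : y ≠ y')
    (h2 : y ≠ -y') : sqNorm y = 64 ∧ sqNorm y' = 64 ∧ dotInt y y' = 0 := by
  obtain ⟨z, hz, hzz⟩ := (mem_D _).mp hD
  have hz0 : z ≠ 0 := by
    rintro rfl
    rw [smul_zero, sub_eq_zero] at hzz
    exact h1 hzz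
  have hadd : y + y' = 2 • (z + y') := by
    rw [smul_add, ← hzz, two_nsmul]
    abel
  have hz1 : z + y' ≠ 0 := by
    intro h
    rw [h, smul_zero] at hadd
    exact h2 (eq_neg_of_add_eq_zero_left hadd)
  have s1 := Cfsg.Agent.Lib_lead_Leech.sqNorm_ge hz hz0
  have s2 := Cfsg.Agent.Lib_lead_Leech.sqNorm_ge (leechLattice.add_mem hz hy') hz1
  have e1 := Cfsg.Agent.Lib_lead_LeechRed.sqNorm_sub y y'
  have e2 := sqNorm_add y y'
  rw [hzz, sqNorm_two] at e1
  rw [hadd, sqNorm_two] at e2
  refine ⟨?_, ?_, ?_⟩ <;> omega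

/-- a family of pairwise orthogonal nonzero vectors has at most 24 members -/
theorem orth_card (P : Finset (GolayPt → ℤ)) (h0 : ∀ y ∈ P, y ≠ 0)
    (ho : ∀ y ∈ P, ∀ y' ∈ P, y ≠ y' → dotInt y y' = 0) : P.card ≤ 24 := by
  classical
  let v : ↥P → (GolayPt → ℚ) := fun p i => (p.1 i : ℚ)
  have hdot : ∀ p q : ↥P, ∑ i, v p i * v q i = ((dotInt p.1 q.1 : ℤ) : ℚ) := by
    intro p q
    unfold dotInt
    push_cast
    rfl
  have hli : LinearIndependent ℚ v := by
    rw [linearIndependent_iff']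
    intro s g hg j hj
    have h1 : ∑ i, (∑ p ∈ s, g p • v p) i * v j i = 0 := by
      rw [hg]
      simp
    have h2 : ∑ i, (∑ p ∈ s, g p • v p) i * v j i = ∑ p ∈ s, g p * ∑ i, v p i * v j i := by
      simp only [Finset.sum_apply, Pi.smul_apply, smul_eq_mul, Finset.sum_mul, Finset.mul_sum]
      rw [Finset.sum_comm]
      apply Finset.sum_congr rfl
      intro p _
      apply Finset.sum_congr rfl
      intro i _
      ring
    rw [h2] at h1
    have h3 : ∑ p ∈ s, g p * ∑ i, v p i * v j i = g j * ∑ i, v j i * v j i := by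
      apply Finset.sum_eq_single_of_mem j hj
      intro p _ hpj
      rw [hdot, ho p.1 p.2 j.1 j.2 (fun h => hpj (Subtype.ext h))]
      simp
    rw [h3] at h1
    have h4 : ∑ i, v j i * v j i ≠ 0 := by
      intro h
      have hz : ∀ i ∈ (Finset.univ : Finset GolayPt), v j i * v j i = 0 :=
        (Finset.sum_eq_zero_iff_of_nonneg (fun i _ => mul_self_nonneg _)).mp h
      apply h0 j.1 j.2
      funext i
      have := hz i (Finset.mem_univ i)
      have h5 : ((j.1 i : ℤ) : ℚ) = 0 := mul_self_eq_zero.mp this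
      show j.1 i = 0
      exact_mod_cast h5
    exact (mul_eq_zero.mp h1).resolve_right h4
  have hc := hli.fintype_card_le_finrank
  rw [Fintype.card_coe, Module.finrank_fintype_fun_eq_card, card_golayPt] at hc
  exact hc

/-- a family of nonzero vectors, any two of which are equal, opposite or orthogonal, has at most
48 members -/
theorem frame_card (X : Finset (GolayPt → ℤ)) (h0 : ∀ y ∈ X, y ≠ 0)
    (ho : ∀ y ∈ X, ∀ y' ∈ X, y ≠ y' → y ≠ -y' → dotInt y y' = 0) : X.card ≤ 48 := by
  classical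
  have hne : ∀ y ∈ X, y ≠ -y := by
    intro y hy h
    apply h0 y hy
    funext i
    have := congrFun h i
    simp only [Pi.neg_apply] at this
    show y i = 0
    omega
  have hsplit := Finset.card_filter_add_card_filter_not (s := X)
    (fun y => WellOrderingRel y (-y))
  have hP : (X.filter (fun y => WellOrderingRel y (-y))).card ≤ 24 := by
    apply orth_card _ (fun y hy => h0 y (Finset.mem_filter.mp hy).1)
    intro y hy y' hy' hyy
    rw [Finset.mem_filter] at hy hy'
    apply ho y hy.1 y' hy'.1 hyy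
    intro h
    have h1 := hy.2
    have h2 := hy'.2
    rw [h, neg_neg] at h1
    exact asymm_of WellOrderingRel h1 h2
  have hP' : (X.filter (fun y => ¬ WellOrderingRel y (-y))).card ≤ 24 := by
    apply orth_card _ (fun y hy => h0 y (Finset.mem_filter.mp hy).1)
    intro y hy y' hy' hyy
    rw [Finset.mem_filter] at hy hy'
    apply ho y hy.1 y' hy'.1 hyy
    intro h
    have h1 := hy.2
    have h2 := hy'.2
    rw [h, neg_neg] at h1
    rcases trichotomous_of WellOrderingRel y' (-y') with h3 | h3 | h3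
    · exact h2 h3
    · exact hne y' hy'.1 h3
    · exact h1 h3
  omega

/-- the classes modulo twice the lattice -/
abbrev Q : Type := ↥leechLattice ⧸ D.addSubgroupOf leechLattice

theorem card_Q : Nat.card Q = 2 ^ 24 := relIndex_D

/-- the class of a lattice vector -/
def cQ (y : ↥leechLattice) : Q := QuotientAddGroup.mk y

theorem cQ_eq (y y' : ↥leechLattice) :
    cQ y = cQ y' ↔ (y : GolayPt → ℤ) - (y' : GolayPt → ℤ) ∈ D := by
  unfold cQ
  rw [QuotientAddGroup.eq, AddSubgroup.mem_addSubgroupOf]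
  have e : ((-y + y' : ↥leechLattice) : GolayPt → ℤ) =
      -((y : GolayPt → ℤ) - (y' : GolayPt → ℤ)) := by
    rw [AddSubgroup.coe_add, AddSubgroup.coe_neg]
    abel
  rw [e, D.neg_mem_iff]

/-- the lattice vectors of a given sum of squares -/
def Sn (n : ℤ) : Set ↥leechLattice := {y | sqNorm (y : GolayPt → ℤ) = n}

theorem ncard_Sn (n : ℤ) :
    (Sn n).ncard = {x : GolayPt → ℤ | x ∈ leechLattice ∧ sqNorm x = n}.ncard := by
  rw [← Set.ncard_image_of_injective _ Subtype.val_injective]
  congr 1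
  ext w
  constructor
  · rintro ⟨y, hy, rfl⟩
    exact ⟨y.2, hy⟩
  · rintro ⟨hw, hn⟩
    exact ⟨⟨w, hw⟩, hn, rfl⟩

theorem n32 : (Sn 32).ncard = 196560 := by
  rw [ncard_Sn]
  exact Cfsg.Agent.Lib_lead_MinVec.main

theorem n48 : (Sn 48).ncard = 16773120 := by
  rw [ncard_Sn]
  exact Cfsg.Agent.Lib_lead_LeechNums.n48

theorem n64 : (Sn 64).ncard = 398034000 := by
  rw [ncard_Sn]
  exact Cfsg.Agent.Lib_lead_LeechNums.n64

theorem fin32 : (Sn 32).Finite := Set.finite_of_ncard_ne_zero (by rw [n32]; norm_num)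

theorem fin48 : (Sn 48).Finite := Set.finite_of_ncard_ne_zero (by rw [n48]; norm_num)

theorem fin64 : (Sn 64).Finite := Set.finite_of_ncard_ne_zero (by rw [n64]; norm_num)

theorem ne_of_norm {y : ↥leechLattice} {n : ℤ} (hn : sqNorm (y : GolayPt → ℤ) = n) (h0 : n ≠ 0) :
    (y : GolayPt → ℤ) ≠ 0 := by
  intro h
  rw [h] at hn
  apply h0
  rw [← hn]
  unfold sqNorm
  simp

/-- a class contains at most two vectors of a given sum of squares less than 64 -/
theorem fiber_two (F : Finset ↥leechLattice) (n : ℤ) (hn : n < 64)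
    (hF : ∀ y ∈ F, sqNorm (y : GolayPt → ℤ) = n) (a : Q) [DecidablePred (fun y => cQ y = a)] :
    (F.filter (fun y => cQ y = a)).card ≤ 2 := by
  classical
  by_cases hne : (F.filter (fun y => cQ y = a)).Nonempty
  · obtain ⟨y0, hy0⟩ := hne
    rw [Finset.mem_filter] at hy0
    have hsub : F.filter (fun y => cQ y = a) ⊆ {y0, -y0} := by
      intro y hy
      rw [Finset.mem_filter] at hy
      rw [Finset.mem_insert, Finset.mem_singleton]
      by_contra hc
      rw [not_or] at hc
      have hD : (y : GolayPt → ℤ) - (y0 : GolayPt → ℤ) ∈ D := by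
        rw [← cQ_eq, hy.2, hy0.2]
      have h1 : (y : GolayPt → ℤ) ≠ (y0 : GolayPt → ℤ) := fun h => hc.1 (Subtype.ext h)
      have h2 : (y : GolayPt → ℤ) ≠ -(y0 : GolayPt → ℤ) := fun h => hc.2 (Subtype.ext h)
      have hk := key y.2 y0.2 (by rw [hF y hy.1]; omega) (by rw [hF y0 hy0.1]; omega) hD h1 h2
      rw [hF y hy.1] at hk
      omega
    exact (Finset.card_le_card hsub).trans Finset.card_le_two
  · rw [Finset.not_nonempty_iff_eq_empty] at hne
    rw [hne]
    simp

/-- a class contains at most 48 vectors of sum of squares 64 -/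
theorem fiber_48 (F : Finset ↥leechLattice) (hF : ∀ y ∈ F, sqNorm (y : GolayPt → ℤ) = 64)
    (a : Q) [DecidablePred (fun y => cQ y = a)] : (F.filter (fun y => cQ y = a)).card ≤ 48 := by
  classical
  rw [← Finset.card_map ⟨Subtype.val, Subtype.val_injective⟩]
  apply frame_card
  · intro w hw
    rw [Finset.mem_map] at hw
    obtain ⟨y, hy, rfl⟩ := hw
    rw [Finset.mem_filter] at hy
    exact ne_of_norm (hF y hy.1) (by norm_num)
  · intro w hw w' hw' h1 h2
    rw [Finset.mem_map] at hw hw'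
    obtain ⟨y, hy, rfl⟩ := hw
    obtain ⟨y', hy', rfl⟩ := hw'
    rw [Finset.mem_filter] at hy hy'
    have hD : (y : GolayPt → ℤ) - (y' : GolayPt → ℤ) ∈ D := by
      rw [← cQ_eq, hy.2, hy'.2]
    exact (key y.2 y'.2 (by rw [hF y hy.1]) (by rw [hF y' hy'.1]) hD h1 h2).2.2

/-- vectors of different sums of squares at most 64 lie in different classes -/
theorem class_ne {y y' : ↥leechLattice} {n n' : ℤ} (hn : sqNorm (y : GolayPt → ℤ) = n)
    (hn' : sqNorm (y' : GolayPt → ℤ) = n') (h64 : n ≤ 64) (h64' : n' ≤ 64) (hne : n ≠ n') :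
    cQ y ≠ cQ y' := by
  intro h
  rw [cQ_eq] at h
  have h1 : (y : GolayPt → ℤ) ≠ (y' : GolayPt → ℤ) := by
    intro e
    rw [e, hn'] at hn
    exact hne hn.symm
  have h2 : (y : GolayPt → ℤ) ≠ -(y' : GolayPt → ℤ) := by
    intro e
    rw [e, sqNorm_neg, hn'] at hn
    exact hne hn.symm
  have hk := key y.2 y'.2 (by rw [hn]; exact h64) (by rw [hn']; exact h64') h h1 h2
  rw [hn] at hk
  rw [hn'] at hk
  omega

theorem finite_Q : Finite Q := Nat.finite_of_card_ne_zero (by rw [card_Q]; norm_num)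

/-- the counting: the classes of the short vectors exhaust the classes, and there are exactly
8292375 classes of vectors of sum of squares 64 -/
theorem counting :
    (∀ x : ↥leechLattice, ∃ y : ↥leechLattice, sqNorm (y : GolayPt → ℤ) ≤ 64 ∧ cQ y = cQ x) ∧
    ∀ x : ↥leechLattice, sqNorm (x : GolayPt → ℤ) = 64 →
      {y : ↥leechLattice | sqNorm (y : GolayPt → ℤ) = 64 ∧ cQ y = cQ x}.ncard = 48 := by
  classical
  haveI := finite_Q
  letI : Fintype Q := Fintype.ofFinite Q
  have hcardQ : Fintype.card Q = 2 ^ 24 := by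
    rw [← Nat.card_eq_fintype_card, card_Q]
  have m32 : ∀ y, y ∈ fin32.toFinset ↔ sqNorm (y : GolayPt → ℤ) = 32 := fun y =>
    Set.Finite.mem_toFinset fin32
  have m48 : ∀ y, y ∈ fin48.toFinset ↔ sqNorm (y : GolayPt → ℤ) = 48 := fun y =>
    Set.Finite.mem_toFinset fin48
  have m64 : ∀ y, y ∈ fin64.toFinset ↔ sqNorm (y : GolayPt → ℤ) = 64 := fun y =>
    Set.Finite.mem_toFinset fin64
  have c32 : fin32.toFinset.card = 196560 := by
    rw [← Set.ncard_eq_toFinset_card (Sn 32) fin32, n32]
  have c48 : fin48.toFinset.card = 16773120 := by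
    rw [← Set.ncard_eq_toFinset_card (Sn 48) fin48, n48]
  have c64 : fin64.toFinset.card = 398034000 := by
    rw [← Set.ncard_eq_toFinset_card (Sn 64) fin64, n64]
  have b32 := Finset.card_le_mul_card_image (f := cQ) fin32.toFinset 2
    (fun a _ => fiber_two _ 32 (by norm_num) (fun y hy => (m32 y).mp hy) a)
  have b48 := Finset.card_le_mul_card_image (f := cQ) fin48.toFinset 2
    (fun a _ => fiber_two _ 48 (by norm_num) (fun y hy => (m48 y).mp hy) a)
  have b64 := Finset.card_le_mul_card_image (f := cQ) fin64.toFinset 48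
    (fun a _ => fiber_48 _ (fun y hy => (m64 y).mp hy) a)
  rw [c32] at b32
  rw [c48] at b48
  rw [c64] at b64
  have z0 : sqNorm ((0 : ↥leechLattice) : GolayPt → ℤ) = 0 := by
    unfold sqNorm
    simp
  have d1 : Disjoint ({cQ 0} : Finset Q) (fin32.toFinset.image cQ) := by
    rw [Finset.disjoint_singleton_left, Finset.mem_image]
    rintro ⟨y, hy, h⟩
    exact class_ne ((m32 y).mp hy) z0 (by norm_num) (by norm_num) (by norm_num) h
  have d2 : Disjoint (({cQ 0} : Finset Q) ∪ fin32.toFinset.image cQ) (fin48.toFinset.image cQ) := by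
    rw [Finset.disjoint_left]
    intro a ha ha'
    rw [Finset.mem_image] at ha'
    obtain ⟨y', hy', rfl⟩ := ha'
    rw [Finset.mem_union, Finset.mem_singleton, Finset.mem_image] at ha
    rcases ha with h | ⟨y, hy, h⟩
    · exact class_ne ((m48 y').mp hy') z0 (by norm_num) (by norm_num) (by norm_num) h
    · exact class_ne ((m32 y).mp hy) ((m48 y').mp hy') (by norm_num) (by norm_num) (by norm_num) h
  have d3 : Disjoint ((({cQ 0} : Finset Q) ∪ fin32.toFinset.image cQ) ∪ fin48.toFinset.image cQ)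
      (fin64.toFinset.image cQ) := by
    rw [Finset.disjoint_left]
    intro a ha ha'
    rw [Finset.mem_image] at ha'
    obtain ⟨y', hy', rfl⟩ := ha'
    rw [Finset.mem_union, Finset.mem_union, Finset.mem_singleton, Finset.mem_image,
      Finset.mem_image] at ha
    rcases ha with (h | ⟨y, hy, h⟩) | ⟨y, hy, h⟩
    · exact class_ne ((m64 y').mp hy') z0 (by norm_num) (by norm_num) (by norm_num) h
    · exact class_ne ((m32 y).mp hy) ((m64 y').mp hy') (by norm_num) (by norm_num) (by norm_num) h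
    · exact class_ne ((m48 y).mp hy) ((m64 y').mp hy') (by norm_num) (by norm_num) (by norm_num) h
  have hU := Finset.card_le_univ (((({cQ 0} : Finset Q) ∪ fin32.toFinset.image cQ) ∪
    fin48.toFinset.image cQ) ∪ fin64.toFinset.image cQ)
  rw [Finset.card_union_of_disjoint d3, Finset.card_union_of_disjoint d2,
    Finset.card_union_of_disjoint d1, Finset.card_singleton, hcardQ] at hU
  have e64 : (fin64.toFinset.image cQ).card = 8292375 := by
    norm_num at hU
    omega
  have hall : (((({cQ 0} : Finset Q) ∪ fin32.toFinset.image cQ) ∪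
      fin48.toFinset.image cQ) ∪ fin64.toFinset.image cQ) = Finset.univ := by
    apply Finset.eq_univ_of_card
    rw [Finset.card_union_of_disjoint d3, Finset.card_union_of_disjoint d2,
      Finset.card_union_of_disjoint d1, Finset.card_singleton, hcardQ]
    norm_num at hU ⊢
    omega
  constructor
  · intro x
    have hx : cQ x ∈ (((({cQ 0} : Finset Q) ∪ fin32.toFinset.image cQ) ∪
        fin48.toFinset.image cQ) ∪ fin64.toFinset.image cQ) := by
      rw [hall]
      exact Finset.mem_univ _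
    rw [Finset.mem_union, Finset.mem_union, Finset.mem_union, Finset.mem_singleton,
      Finset.mem_image, Finset.mem_image, Finset.mem_image] at hx
    rcases hx with ((h | ⟨y, hy, h⟩) | ⟨y, hy, h⟩) | ⟨y, hy, h⟩
    · exact ⟨0, by rw [z0]; norm_num, h.symm⟩
    · exact ⟨y, by rw [(m32 y).mp hy]; norm_num, h⟩
    · exact ⟨y, by rw [(m48 y).mp hy]; norm_num, h⟩
    · exact ⟨y, by rw [(m64 y).mp hy], h⟩
  · intro x hx
    have hset : {y : ↥leechLattice | sqNorm (y : GolayPt → ℤ) = 64 ∧ cQ y = cQ x} =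
        ((fin64.toFinset.filter (fun y => cQ y = cQ x) : Finset ↥leechLattice) :
          Set ↥leechLattice) := by
      ext y
      rw [Finset.mem_coe, Finset.mem_filter, m64]
      rfl
    rw [hset, Set.ncard_coe_finset]
    have hle := fiber_48 fin64.toFinset (fun y hy => (m64 y).mp hy) (cQ x)
    by_contra hne
    have hlt : (fin64.toFinset.filter (fun y => cQ y = cQ x)).card < 48 :=
      lt_of_le_of_ne hle hne
    have hsum := Finset.card_eq_sum_card_image cQ fin64.toFinset
    have hx' : cQ x ∈ fin64.toFinset.image cQ :=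
      Finset.mem_image.mpr ⟨x, (m64 x).mpr hx, rfl⟩
    have hlt2 : ∑ a ∈ fin64.toFinset.image cQ, (fin64.toFinset.filter (fun y => cQ y = a)).card <
        ∑ _a ∈ fin64.toFinset.image cQ, 48 :=
      Finset.sum_lt_sum (fun a _ => fiber_48 fin64.toFinset (fun y hy => (m64 y).mp hy) a)
        ⟨cQ x, hx', hlt⟩
    rw [← hsum, c64, Finset.sum_const, e64] at hlt2
    norm_num at hlt2

theorem short_rep (x : GolayPt → ℤ) (hx : x ∈ leechLattice) :
    ∃ y ∈ leechLattice, sqNorm y ≤ 64 ∧ ∃ z ∈ leechLattice, x - y = 2 • z := by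
  obtain ⟨y, hy, hc⟩ := counting.1 ⟨x, hx⟩
  rw [cQ_eq] at hc
  have h : x - (y : GolayPt → ℤ) ∈ D := by
    have := D.neg_mem hc
    rwa [neg_sub] at this
  exact ⟨y, y.2, hy, (mem_D _).mp h⟩

theorem cross_card (x : GolayPt → ℤ) (hx : x ∈ leechLattice) (hxn : sqNorm x = 64) :
    (cross x).ncard = 48 := by
  rw [← counting.2 ⟨x, hx⟩ hxn, ← Set.ncard_image_of_injective _ Subtype.val_injective]
  congr 1
  ext w
  constructor
  · rintro ⟨hw, hn, z, hz, hzz⟩
    refine ⟨⟨w, hw⟩, ⟨by rw [← hxn]; exact hn, ?_⟩, rfl⟩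
    rw [cQ_eq]
    have h : x - w ∈ D := (mem_D _).mpr ⟨z, hz, hzz⟩
    have := D.neg_mem h
    rwa [neg_sub] at this
  · rintro ⟨y, ⟨hn, hc⟩, rfl⟩
    rw [cQ_eq] at hc
    have h : x - (y : GolayPt → ℤ) ∈ D := by
      have := D.neg_mem hc
      rwa [neg_sub] at this
    exact ⟨y.2, by rw [hxn]; exact hn, (mem_D _).mp h⟩

end Cfsg.Agent.Lib_lead_LeechCross
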