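import Mathlib
import Cfsg.Prelude.Def_Sporadic_a
import Cfsg.Agent.Lib_lead_LeechDotL

/-! The numbers of minimal vectors having sum of coordinate products 24 with four particular
vectors of sum of squares 48. -/

set_option autoImplicit false

namespace Cfsg.Agent.Lib_lead_LeechDotNums2

open Cfsg Cfsg.Agent.Lib_lead_Golay Cfsg.Agent.Lib_lead_Leech Cfsg.Agent.Lib_lead_LeechDot
  Cfsg.Agent.Lib_lead_LeechDotL

/-- the parts of the vector `a` -/
def partsa : List (ℤ × ℕ) := [(2, 340831), (0, 16436384)]

/-- the classes of the codewords for the vector `a` -/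
def Ta : List ℕ := [0, 12, 70, 132, 136, 194, 198, 202, 260, 264, 326, 384, 396]

set_option maxRecDepth 100000 in
theorem alla : ∀ p ∈ [((24 : ℤ), 46232, 552)], {w : GolayPt → ℤ | w ∈ leechLattice ∧
    sqNorm w = 32 ∧ dotInt (valL partsa) w = p.1}.ncard = p.2.2 :=
  main_evalL partsa (by decide) Ta (by decide) [((24 : ℤ), 46232, 552)]
    (by decide +kernel) (by decide +kernel)

theorem ca : {w : GolayPt → ℤ | w ∈ leechLattice ∧ sqNorm w = 32 ∧
    dotInt (valL partsa) w = 24}.ncard = 552 :=
  alla (24, 46232, 552) (by simp)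

/-- the parts of the vector `b` -/
def partsb : List (ℤ × ℕ) := [((-3), 7), (1, 16777208)]

/-- the classes of the codewords for the vector `b` -/
def Tb : List ℕ := [0, 163, 194, 225, 256, 291, 322, 353, 384, 419, 450, 481, 512, 675]

set_option maxRecDepth 100000 in
theorem allb : ∀ p ∈ [((24 : ℤ), 55472, 552)], {w : GolayPt → ℤ | w ∈ leechLattice ∧
    sqNorm w = 32 ∧ dotInt (valL partsb) w = p.1}.ncard = p.2.2 :=
  main_evalL partsb (by decide) Tb (by decide) [((24 : ℤ), 55472, 552)]
    (by decide +kernel) (by decide +kernel)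

theorem cb : {w : GolayPt → ℤ | w ∈ leechLattice ∧ sqNorm w = 32 ∧
    dotInt (valL partsb) w = 24}.ncard = 552 :=
  allb (24, 55472, 552) (by simp)

/-- the parts of the vector `c` -/
def partsc : List (ℤ × ℕ) := [(0, 13499800), (2, 3277412), ((-2), 1), (4, 2)]

/-- the classes of the codewords for the vector `c` -/
def Tc : List ℕ := [0, 8, 70, 74, 132, 136, 140, 198, 202, 1062, 1066, 1124, 1128, 1132, 1190, 1194, 1248, 1256, 32775, 32783, 32837, 32841, 32899, 32903, 32907, 32965, 32969, 33829, 33833, 33891, 33895, 33899, 33957, 33961, 34023, 34031]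

set_option maxRecDepth 100000 in
theorem allc : ∀ p ∈ [((24 : ℤ), 40072, 552)], {w : GolayPt → ℤ | w ∈ leechLattice ∧
    sqNorm w = 32 ∧ dotInt (valL partsc) w = p.1}.ncard = p.2.2 :=
  main_evalL partsc (by decide) Tc (by decide) [((24 : ℤ), 40072, 552)]
    (by decide +kernel) (by decide +kernel)

theorem cc : {w : GolayPt → ℤ | w ∈ leechLattice ∧ sqNorm w = 32 ∧
    dotInt (valL partsc) w = 24}.ncard = 552 :=
  allc (24, 40072, 552) (by simp)

/-- the parts of the vector `d` -/
def partsd : List (ℤ × ℕ) := [(5, 1), (1, 16777214)]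

/-- the classes of the codewords for the vector `d` -/
def Td : List ℕ := [0, 225, 256, 353, 384, 481, 512, 737]

set_option maxRecDepth 100000 in
theorem alld : ∀ p ∈ [((24 : ℤ), 52392, 552)], {w : GolayPt → ℤ | w ∈ leechLattice ∧
    sqNorm w = 32 ∧ dotInt (valL partsd) w = p.1}.ncard = p.2.2 :=
  main_evalL partsd (by decide) Td (by decide) [((24 : ℤ), 52392, 552)]
    (by decide +kernel) (by decide +kernel)

theorem cd : {w : GolayPt → ℤ | w ∈ leechLattice ∧ sqNorm w = 32 ∧
    dotInt (valL partsd) w = 24}.ncard = 552 :=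
  alld (24, 52392, 552) (by simp)

end Cfsg.Agent.Lib_lead_LeechDotNums2
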