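import Mathlib
import Cfsg.Prelude.Def_Sporadic_a
import Cfsg.Agent.Lib_lead_GolayDual
import Cfsg.Agent.Lib_lead_LeechIndex

/-! A criterion for membership in the rank-24 lattice by sums of products with a few of its
vectors. -/

set_option autoImplicit false

namespace Cfsg.Agent.Lib_lead_LeechDual

open Cfsg Cfsg.Agent.Lib_lead_Golay Cfsg.Agent.Lib_lead_M24 Cfsg.Agent.Lib_lead_Leech
  Cfsg.Agent.Lib_lead_LeechIndex Cfsg.Agent.Lib_lead_GolayDual

theorem sqNorm_add' (x y : GolayPt → ℤ) :
    sqNorm (x + y) = sqNorm x + 2 * dotInt x y + sqNorm y := by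
  unfold sqNorm dotInt
  rw [Finset.mul_sum, ← Finset.sum_add_distrib, ← Finset.sum_add_distrib]
  apply Finset.sum_congr rfl
  intro i _
  simp only [Pi.add_apply]
  ring

theorem dot_dvd {x y : GolayPt → ℤ} (hx : x ∈ leechLattice) (hy : y ∈ leechLattice) :
    (8 : ℤ) ∣ dotInt x y := by
  have h1 := sqNorm_dvd (leechLattice.add_mem hx hy)
  have h2 := sqNorm_dvd hx
  have h3 := sqNorm_dvd hy
  rw [sqNorm_add'] at h1
  omega

theorem mem_supp_M' (k : ℕ) : fsOf (M k) ∈ Supp :=
  ⟨W k, W_mem k, by rw [support₂_eq, enc_W]⟩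

theorem crit_even (y : GolayPt → ℤ) (hev : ∀ i, y i % 2 = 0)
    (h2 : ∀ m ∈ basisMask, (∑ i ∈ fsOf m, y i) % 4 = 0)
    (h3 : (∑ i, y i) % 8 = 0) : y ∈ leechLattice := by
  rw [mem_leechLattice_iff]
  left
  refine ⟨hev, h3, ?_⟩
  have hx : dbl (fun i => y i / 2) = y := by
    ext i
    rw [dbl_apply]
    have := hev i
    omega
  rw [← hx, Sx_dbl]
  refine ⟨par (fun i => y i / 2), ?_, rfl⟩
  apply self_dual
  intro b hb
  have hm : enc b ∈ basisMask := by
    rw [← basis_enc]
    exact List.mem_map_of_mem hb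
  have h4 := h2 _ hm
  rw [← support₂_eq] at h4
  have hb' : b = Cfsg.Agent.Lib_lead_Coset.ind (support₂ b) :=
    (Cfsg.Agent.Lib_lead_Coset.ind_support b).symm
  have h5 : bdot (par fun i => y i / 2) b = ((∑ i ∈ support₂ b, y i / 2 : ℤ) : ZMod 2) := by
    unfold bdot
    rw [Int.cast_sum, ← Finset.sum_filter_of_ne (s := Finset.univ) (p := fun i => i ∈ support₂ b)]
    · have h6 : Finset.univ.filter (fun i => i ∈ support₂ b) = support₂ b := by
        ext i
        simp
      rw [h6]
      apply Finset.sum_congr rfl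
      intro i hi
      rw [par_apply]
      have h7 : b i = 1 := by
        rw [hb']
        unfold Cfsg.Agent.Lib_lead_Coset.ind
        rw [if_pos hi]
      rw [h7, mul_one]
    · intro i _ hne
      by_contra hi
      apply hne
      have h7 : b i = 0 := by
        rw [hb']
        unfold Cfsg.Agent.Lib_lead_Coset.ind
        rw [if_neg hi]
      rw [h7, mul_zero]
  rw [h5, ZMod.intCast_zmod_eq_zero_iff_dvd]
  have h8 : ∑ i ∈ support₂ b, y i = 2 * ∑ i ∈ support₂ b, y i / 2 := by
    rw [Finset.mul_sum]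
    apply Finset.sum_congr rfl
    intro i _
    have := hev i
    omega
  omega

theorem w0_odd (i : GolayPt) : w0 i % 2 = 1 := by
  unfold w0
  split_ifs <;> decide

theorem w0_sum : ∑ i, w0 i = 20 := by
  unfold w0
  rw [Finset.sum_add_distrib, sum_indicator, Finset.sum_const, Finset.card_univ, card_golayPt,
    Finset.card_singleton]
  decide

theorem w0_part (s : Finset GolayPt) (hs : s ∈ Supp) : (∑ i ∈ s, w0 i) % 4 = 0 := by
  unfold w0
  rw [Finset.sum_add_distrib, Finset.sum_const]
  obtain ⟨k, hk⟩ := four_dvd_card hs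
  have h1 : (∑ i ∈ s, (if i ∈ ({none} : Finset GolayPt) then (-4 : ℤ) else 0)) % 4 = 0 := by
    rw [Finset.sum_int_mod]
    have h2 : ∀ i ∈ s, (if i ∈ ({none} : Finset GolayPt) then (-4 : ℤ) else 0) % 4 = 0 := by
      intro i _
      split_ifs <;> decide
    rw [Finset.sum_congr rfl h2]
    simp
  rw [hk]
  simp only [nsmul_eq_mul, mul_one, Nat.cast_mul, Nat.cast_ofNat]
  omega

/-- the membership criterion -/
theorem crit (y : GolayPt → ℤ) (h1 : ∀ i, (y i + y none) % 2 = 0)
    (h2 : ∀ m ∈ basisMask, (∑ i ∈ fsOf m, y i) % 4 = 0)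
    (h3 : (∑ i, y i - 4 * y none) % 8 = 0) : y ∈ leechLattice := by
  rcases Int.emod_two_eq_zero_or_one (y none) with h0 | h0
  · exact crit_even y (fun i => by have := h1 i; omega) h2 (by omega)
  · have hy' : y - w0 ∈ leechLattice := by
      apply crit_even
      · intro i
        rw [Pi.sub_apply]
        have := h1 i
        have := w0_odd i
        omega
      · intro m hm
        have e : ∑ i ∈ fsOf m, (y - w0) i = ∑ i ∈ fsOf m, y i - ∑ i ∈ fsOf m, w0 i := by
          rw [← Finset.sum_sub_distrib]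
          rfl
        rw [e]
        have h4 := h2 m hm
        have h5 : (∑ i ∈ fsOf m, w0 i) % 4 = 0 := by
          apply w0_part
          have hm' : m ∈ basisW.map enc := by
            rw [basis_enc]
            exact hm
          obtain ⟨b, hb, rfl⟩ := List.mem_map.mp hm'
          rw [← support₂_eq]
          exact ⟨b, basis_mem b hb, rfl⟩
        omega
      · have e : ∑ i, (y - w0) i = ∑ i, y i - ∑ i, w0 i := by
          rw [← Finset.sum_sub_distrib]
          rfl
        rw [e, w0_sum]
        omega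
    have h6 := leechLattice.add_mem hy' w0_mem
    rwa [sub_add_cancel] at h6

end Cfsg.Agent.Lib_lead_LeechDual
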