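import Mathlib
import Cfsg.Prelude.Def_Sporadic_a
import Cfsg.Agent.Lib_lead_LeechDual

/-! An automorphism of the rank-24 lattice attached to a sextet, outside the monomial group. -/

set_option autoImplicit false

namespace Cfsg.Agent.Lib_lead_LeechXi

open Cfsg Cfsg.Agent.Lib_lead_Golay Cfsg.Agent.Lib_lead_M24 Cfsg.Agent.Lib_lead_Leech
  Cfsg.Agent.Lib_lead_LeechIndex Cfsg.Agent.Lib_lead_GolayDual Cfsg.Agent.Lib_lead_LeechDual

/-- the tetrad of each point -/
def tauL : List ℕ := [0, 3, 0, 4, 5, 0, 0, 4, 4, 1, 5, 5, 3, 3, 2, 3, 2, 1, 4, 2, 1, 1, 2, 5]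

/-- the tetrad of a point -/
def tau (p : GolayPt) : ℕ := tauL.getD (idx p) 0

/-- the sign: negative on the first tetrad -/
def sg (p : GolayPt) : ℤ := if tau p = 0 then -1 else 1

theorem sg_cases (p : GolayPt) : sg p = 1 ∨ sg p = -1 := by
  unfold sg
  split_ifs
  · right; rfl
  · left; rfl

/-- the sum of a vector over the tetrad of a point -/
def tsum (x : GolayPt → ℤ) (p : GolayPt) : ℤ := ∑ q, if tau q = tau p then x q else 0

/-- the map -/
def xi (x : GolayPt → ℤ) : GolayPt → ℤ := fun p => sg p * (x p - tsum x p / 2)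

/-- vectors with even tetrad sums -/
def Ev2 (x : GolayPt → ℤ) : Prop := ∀ p, tsum x p % 2 = 0

theorem tsum_add (x y : GolayPt → ℤ) (p : GolayPt) : tsum (x + y) p = tsum x p + tsum y p := by
  unfold tsum
  rw [← Finset.sum_add_distrib]
  apply Finset.sum_congr rfl
  intro q _
  rw [Pi.add_apply]
  split_ifs <;> ring

theorem xi_add {x y : GolayPt → ℤ} (hx : Ev2 x) (hy : Ev2 y) : xi (x + y) = xi x + xi y := by
  funext p
  show sg p * ((x + y) p - tsum (x + y) p / 2)
    = sg p * (x p - tsum x p / 2) + sg p * (y p - tsum y p / 2)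
  rw [tsum_add, Pi.add_apply]
  have h1 := hx p
  have h2 := hy p
  have h3 : (tsum x p + tsum y p) / 2 = tsum x p / 2 + tsum y p / 2 := by omega
  rw [h3]
  ring

set_option maxRecDepth 100000 in
theorem card_T : ∀ p : GolayPt, (Finset.univ.filter (fun q => tau q = tau p)).card = 4 := by
  decide +kernel

theorem ev2_of_even {x : GolayPt → ℤ} (h : ∀ p, x p % 2 = 0) : Ev2 x := by
  intro p
  unfold tsum
  rw [Finset.sum_int_mod]
  have h1 : ∀ q ∈ (Finset.univ : Finset GolayPt), (if tau q = tau p then x q else 0) % 2 = 0 := by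
    intro q _
    split_ifs
    · exact h q
    · rfl
  rw [Finset.sum_congr rfl h1]
  simp

theorem ev2_of_odd {x : GolayPt → ℤ} (h : ∀ p, x p % 2 = 1) : Ev2 x := by
  intro p
  unfold tsum
  rw [Finset.sum_int_mod]
  have h1 : ∀ q ∈ (Finset.univ : Finset GolayPt), (if tau q = tau p then x q else 0) % 2
      = if tau q = tau p then 1 else 0 := by
    intro q _
    split_ifs
    · exact h q
    · rfl
  rw [Finset.sum_congr rfl h1, Finset.sum_boole, card_T p]
  rfl

theorem ev2_of_mem {x : GolayPt → ℤ} (hx : x ∈ leechLattice) : Ev2 x := by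
  rcases (mem_leechLattice_iff x).mp hx with h | h
  · exact ev2_of_even h.1
  · exact ev2_of_odd h.1

/-- the correction term -/
def Bt (g x : GolayPt → ℤ) : ℤ := ∑ p, sg p * g p * tsum x p

theorem Bt_expand (g x : GolayPt → ℤ) :
    Bt g x = ∑ p, ∑ q, if tau q = tau p then sg p * g p * x q else 0 := by
  unfold Bt tsum
  apply Finset.sum_congr rfl
  intro p _
  rw [Finset.mul_sum]
  apply Finset.sum_congr rfl
  intro q _
  split_ifs
  · rfl
  · ring

theorem sg_congr {p q : GolayPt} (h : tau q = tau p) : sg q = sg p := by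
  unfold sg
  rw [h]

theorem Bt_symm (g x : GolayPt → ℤ) : Bt g x = Bt x g := by
  rw [Bt_expand, Bt_expand, Finset.sum_comm]
  apply Finset.sum_congr rfl
  intro q _
  apply Finset.sum_congr rfl
  intro p _
  by_cases h : tau q = tau p
  · rw [if_pos h, if_pos h.symm, sg_congr h]
    ring
  · rw [if_neg h, if_neg (fun e => h e.symm)]

theorem two_dot_xi (g : GolayPt → ℤ) {x : GolayPt → ℤ} (hx : Ev2 x) :
    2 * dotInt g (xi x) = 2 * (∑ p, sg p * g p * x p) - Bt g x := by
  unfold dotInt Bt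
  rw [Finset.mul_sum, Finset.mul_sum, ← Finset.sum_sub_distrib]
  apply Finset.sum_congr rfl
  intro p _
  have h := hx p
  have h2 : tsum x p = 2 * (tsum x p / 2) := by omega
  show 2 * (g p * (sg p * (x p - tsum x p / 2))) = 2 * (sg p * g p * x p) - sg p * g p * tsum x p
  generalize tsum x p / 2 = a at h2 ⊢
  rw [h2]
  ring

theorem dotInt_comm (x y : GolayPt → ℤ) : dotInt x y = dotInt y x := by
  unfold dotInt
  apply Finset.sum_congr rfl
  intro i _
  ring

/-- the map is symmetric -/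
theorem dot_xi {g x : GolayPt → ℤ} (hg : Ev2 g) (hx : Ev2 x) :
    dotInt g (xi x) = dotInt (xi g) x := by
  have h1 := two_dot_xi g hx
  have h2 := two_dot_xi x hg
  rw [dotInt_comm x (xi g), Bt_symm x g] at h2
  have h3 : ∑ p, sg p * x p * g p = ∑ p, sg p * g p * x p := by
    apply Finset.sum_congr rfl
    intro p _
    ring
  rw [h3] at h2
  omega

theorem tsum_congr (x : GolayPt → ℤ) {p q : GolayPt} (h : tau q = tau p) : tsum x q = tsum x p := by
  unfold tsum
  rw [h]

theorem tsum_xi {x : GolayPt → ℤ} (hx : Ev2 x) (p : GolayPt) :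
    tsum (xi x) p = -(sg p * tsum x p) := by
  have h1 : ∀ q, (if tau q = tau p then xi x q else 0)
      = sg p * (if tau q = tau p then x q else 0)
        - sg p * (tsum x p / 2) * (if tau q = tau p then 1 else 0) := by
    intro q
    by_cases h : tau q = tau p
    · rw [if_pos h, if_pos h, if_pos h]
      show sg q * (x q - tsum x q / 2) = _
      rw [sg_congr h, tsum_congr x h]
      ring
    · rw [if_neg h, if_neg h, if_neg h]
      ring
  have h0 : tsum (xi x) p = ∑ q, if tau q = tau p then xi x q else 0 := rfl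
  rw [h0, Finset.sum_congr rfl (fun q _ => h1 q), Finset.sum_sub_distrib, ← Finset.mul_sum,
    ← Finset.mul_sum, Finset.sum_boole, card_T p]
  have e : ∑ q, (if tau q = tau p then x q else 0) = tsum x p := rfl
  rw [e]
  have h := hx p
  have h2 : tsum x p = 2 * (tsum x p / 2) := by omega
  generalize tsum x p / 2 = a at h2 ⊢
  rw [h2]
  push_cast
  ring

theorem ev2_xi {x : GolayPt → ℤ} (hx : Ev2 x) : Ev2 (xi x) := by
  intro p
  rw [tsum_xi hx p]
  have h := hx p
  rcases sg_cases p with hs | hs <;> rw [hs] <;> omega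

theorem xi_xi {x : GolayPt → ℤ} (hx : Ev2 x) : xi (xi x) = x := by
  funext p
  have h := hx p
  have ht := tsum_xi hx p
  show sg p * (xi x p - tsum (xi x) p / 2) = x p
  rw [ht]
  show sg p * (sg p * (x p - tsum x p / 2) - -(sg p * tsum x p) / 2) = x p
  rcases sg_cases p with hs | hs <;> rw [hs] <;> omega

theorem sqNorm_eq_dot (x : GolayPt → ℤ) : sqNorm x = dotInt x x := by
  unfold sqNorm dotInt
  apply Finset.sum_congr rfl
  intro i _
  ring

theorem sqNorm_xi {x : GolayPt → ℤ} (hx : Ev2 x) : sqNorm (xi x) = sqNorm x := by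
  rw [sqNorm_eq_dot, sqNorm_eq_dot, dot_xi (ev2_xi hx) hx, xi_xi hx]

/-! ### the images of the test vectors lie in the lattice -/

/-- a certificate of membership in the lattice -/
def ChkP (x : GolayPt → ℤ) (k : ℕ) : Prop :=
  ((∀ p, x p % 2 = 0) ∧ (∑ p, x p) % 8 = 0 ∧ ∀ p, x p % 4 = 2 % 4 ↔ p ∈ fsOf (M k)) ∨
  ((∀ p, x p % 2 = 1) ∧ (∑ p, x p) % 8 = 4 ∧ ∀ p, x p % 4 = 1 % 4 ↔ p ∈ fsOf (M k))

instance (x : GolayPt → ℤ) (k : ℕ) : Decidable (ChkP x k) := by
  unfold ChkP
  infer_instance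

theorem of_chk {x : GolayPt → ℤ} {k : ℕ} (h : ChkP x k) : x ∈ leechLattice := by
  rw [mem_leechLattice_iff]
  rcases h with ⟨h1, h2, h3⟩ | ⟨h1, h2, h3⟩
  · left
    refine ⟨h1, h2, ?_⟩
    rw [Sx_eq x 2 _ h3]
    exact mem_supp_M' k
  · right
    refine ⟨h1, h2, ?_⟩
    rw [Sx_eq x 1 _ h3]
    exact mem_supp_M' k

/-- test vectors of the first kind -/
def gA (i : GolayPt) : GolayPt → ℤ := fun p => (if p = i then 4 else 0) + (if p = none then 4 else 0)

/-- test vectors of the second kind -/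
def gB (m : ℕ) : GolayPt → ℤ := fun p => if p ∈ fsOf m then 2 else 0

/-- certificates -/
def kA : List ℕ := [3734, 4068, 3734, 2327, 0, 3734, 3734, 2327, 2327, 3737, 0, 0, 4068, 4068, 3836, 4068, 3836, 3737, 2327, 3836, 3737, 3737, 3836, 0]

/-- certificates -/
def kB : List ℕ := [1778, 2050, 2323, 2056, 2064, 1966, 1753, 2176, 2319, 3563, 3173, 2048]

/-- certificate lookup -/
def kOf (m : ℕ) : ℕ := ((basisMask.zip kB).lookup m).getD 0

set_option maxRecDepth 100000 in
theorem chkA : ∀ i : GolayPt, ChkP (xi (gA i)) (kA.getD (idx i) 0) := by decide +kernel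

set_option maxRecDepth 100000 in
theorem chkB : ∀ m ∈ basisMask, ChkP (xi (gB m)) (kOf m) := by decide +kernel

set_option maxRecDepth 100000 in
theorem chkW : ChkP (xi w0) 3734 := by decide +kernel

theorem dot_gA (i : GolayPt) (y : GolayPt → ℤ) : dotInt (gA i) y = 4 * y i + 4 * y none := by
  unfold dotInt gA
  simp only [add_mul, ite_mul, zero_mul, Finset.sum_add_distrib, Finset.sum_ite_eq',
    Finset.mem_univ, if_true]

theorem dot_gB (m : ℕ) (y : GolayPt → ℤ) : dotInt (gB m) y = 2 * ∑ i ∈ fsOf m, y i := by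
  unfold dotInt gB
  simp only [ite_mul, zero_mul]
  rw [Finset.sum_ite_mem, Finset.univ_inter, Finset.mul_sum]

theorem dot_w0 (y : GolayPt → ℤ) : dotInt w0 y = ∑ i, y i - 4 * y none := by
  unfold dotInt w0
  simp only [add_mul, one_mul, ite_mul, zero_mul, Finset.sum_add_distrib, Finset.mem_singleton,
    Finset.sum_ite_eq', Finset.mem_univ, if_true]
  ring

theorem ev2_gA (i : GolayPt) : Ev2 (gA i) := by
  apply ev2_of_even
  intro p
  unfold gA
  split_ifs <;> decide

theorem ev2_gB (m : ℕ) : Ev2 (gB m) := by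
  apply ev2_of_even
  intro p
  unfold gB
  split_ifs <;> decide

/-- the map preserves the lattice -/
theorem xi_mem {x : GolayPt → ℤ} (hx : x ∈ leechLattice) : xi x ∈ leechLattice := by
  have he := ev2_of_mem hx
  apply crit
  · intro i
    have h1 : (8 : ℤ) ∣ dotInt (gA i) (xi x) := by
      rw [dot_xi (ev2_gA i) he]
      exact dot_dvd (of_chk (chkA i)) hx
    rw [dot_gA] at h1
    omega
  · intro m hm
    have h1 : (8 : ℤ) ∣ dotInt (gB m) (xi x) := by
      rw [dot_xi (ev2_gB m) he]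
      exact dot_dvd (of_chk (chkB m hm)) hx
    rw [dot_gB] at h1
    omega
  · have h1 : (8 : ℤ) ∣ dotInt w0 (xi x) := by
      rw [dot_xi (ev2_of_mem w0_mem) he]
      exact dot_dvd (of_chk chkW) hx
    rw [dot_w0] at h1
    omega

/-- the map as a permutation of the lattice -/
def xiL : Equiv.Perm ↥leechLattice where
  toFun v := ⟨xi v, xi_mem v.2⟩
  invFun v := ⟨xi v, xi_mem v.2⟩
  left_inv v := Subtype.ext (xi_xi (ev2_of_mem v.2))
  right_inv v := Subtype.ext (xi_xi (ev2_of_mem v.2))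

theorem xiL_mem : xiL ∈ Co0 := by
  refine ⟨fun v w => ?_, fun v => ?_⟩
  · apply Subtype.ext
    show xi ((v + w : ↥leechLattice) : GolayPt → ℤ) = xi v + xi w
    rw [AddSubgroup.coe_add]
    exact xi_add (ev2_of_mem v.2) (ev2_of_mem w.2)
  · exact sqNorm_xi (ev2_of_mem v.2)

/-- the automorphism -/
def xiC : ↥Co0 := ⟨xiL, xiL_mem⟩

theorem xiC_apply (v : ↥leechLattice) : ((xiC • v : ↥leechLattice) : GolayPt → ℤ) = xi v := rfl

end Cfsg.Agent.Lib_lead_LeechXi
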