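import Mathlib
import Cfsg.Prelude.Def_SporadicCombinatorics
import Cfsg.Agent.Lib_lead_LeechXi
import Cfsg.Agent.Lib_lead_LeechMono
import Cfsg.Agent.Lib_lead_LeechInner

/-! Orbits of the automorphism group of the rank-24 lattice on short vectors. -/

set_option autoImplicit false

namespace Cfsg.Agent.Lib_lead_LeechOrb

open Cfsg Cfsg.Agent.Lib_lead_Golay Cfsg.Agent.Lib_lead_M24 Cfsg.Agent.Lib_lead_Leech
  Cfsg.Agent.Lib_lead_Leech2 Cfsg.Agent.Lib_lead_LeechIndex Cfsg.Agent.Lib_lead_LeechXi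
  Cfsg.Agent.Lib_lead_LeechMono Cfsg.Agent.Lib_lead_LeechSym Cfsg.Agent.Lib_lead_LeechDot
  Cfsg.Agent.Lib_lead_LeechInner

/-- two lattice vectors in the same orbit -/
def Orb (v w : ↥leechLattice) : Prop := ∃ g : ↥Co0, g • v = w

theorem Orb.refl (v : ↥leechLattice) : Orb v v := ⟨1, one_smul _ v⟩

theorem Orb.symm {v w : ↥leechLattice} (h : Orb v w) : Orb w v := by
  obtain ⟨g, rfl⟩ := h
  exact ⟨g⁻¹, inv_smul_smul g v⟩

theorem Orb.trans {u v w : ↥leechLattice} (h1 : Orb u v) (h2 : Orb v w) : Orb u w := by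
  obtain ⟨g, rfl⟩ := h1
  obtain ⟨h, rfl⟩ := h2
  exact ⟨h * g, mul_smul h g u⟩

/-- carried by an automorphism (as vectors, when the first lies in the lattice) -/
def GRel (u r : GolayPt → ℤ) : Prop :=
  ∃ g : ↥Co0, ∀ hu : u ∈ leechLattice, ∃ hr : r ∈ leechLattice,
    g • (⟨u, hu⟩ : ↥leechLattice) = ⟨r, hr⟩

theorem GRel.trans {u v w : GolayPt → ℤ} (h1 : GRel u v) (h2 : GRel v w) : GRel u w := by
  obtain ⟨g, hg⟩ := h1
  obtain ⟨h, hh⟩ := h2
  refine ⟨h * g, fun hu => ?_⟩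
  obtain ⟨hv, e1⟩ := hg hu
  obtain ⟨hw, e2⟩ := hh hv
  exact ⟨hw, by rw [mul_smul, e1, e2]⟩

theorem grel_refl (u : GolayPt → ℤ) : GRel u u := ⟨1, fun hu => ⟨hu, one_smul _ _⟩⟩

theorem grel_flip {c : Finset GolayPt} (hc : c ∈ Supp) (u : GolayPt → ℤ) : GRel u (flip c u) :=
  ⟨⟨mono 1 (Subgroup.one_mem _) c hc, mono_mem _ _ _ _⟩,
    fun hu => ⟨signflip_mem hc hu, Subtype.ext rfl⟩⟩

theorem grel_perm {σ : Equiv.Perm GolayPt} (hσ : σ ∈ M24) (u : GolayPt → ℤ) :
    GRel u (fun i => u (σ i)) :=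
  ⟨⟨mono σ⁻¹ (M24.inv_mem hσ) ∅ empty_mem, mono_mem _ _ _ _⟩,
    fun hu => ⟨perm_mem hσ hu, Subtype.ext (by
      funext i
      show signedPerm σ⁻¹ ∅ u i = u (σ i)
      unfold signedPerm
      rw [if_neg (Finset.notMem_empty i)]
      rfl)⟩⟩

theorem grel_xi (u : GolayPt → ℤ) : GRel u (xi u) := ⟨xiC, fun hu => ⟨xi_mem hu, rfl⟩⟩

theorem orb_of_grel {u r : GolayPt → ℤ} (h : GRel u r) (hu : u ∈ leechLattice) :
    ∃ hr : r ∈ leechLattice, Orb ⟨u, hu⟩ ⟨r, hr⟩ := by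
  obtain ⟨g, hg⟩ := h
  obtain ⟨hr, e⟩ := hg hu
  exact ⟨hr, g, e⟩

/-- the same absolute values occur among the coordinates -/
def Inv (u r : GolayPt → ℤ) : Prop :=
  ∀ a : ℤ, (∃ i, u i = a ∨ u i = -a) ↔ (∃ i, r i = a ∨ r i = -a)

theorem Inv.trans {u v w : GolayPt → ℤ} (h1 : Inv u v) (h2 : Inv v w) : Inv u w :=
  fun a => (h1 a).trans (h2 a)

theorem inv_refl (u : GolayPt → ℤ) : Inv u u := fun _ => Iff.rfl

theorem inv_flip (c : Finset GolayPt) (u : GolayPt → ℤ) : Inv u (flip c u) := by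
  intro a
  constructor
  · rintro ⟨i, hi⟩
    refine ⟨i, ?_⟩
    show (if i ∈ c then -u i else u i) = a ∨ (if i ∈ c then -u i else u i) = -a
    split_ifs <;> omega
  · rintro ⟨i, hi⟩
    refine ⟨i, ?_⟩
    have hi' : (if i ∈ c then -u i else u i) = a ∨ (if i ∈ c then -u i else u i) = -a := hi
    split_ifs at hi' <;> omega

theorem inv_perm (σ : Equiv.Perm GolayPt) (u : GolayPt → ℤ) : Inv u (fun i => u (σ i)) := by
  intro a
  constructor
  · rintro ⟨i, hi⟩
    exact ⟨σ.symm i, by simpa using hi⟩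
  · rintro ⟨i, hi⟩
    exact ⟨σ i, hi⟩

/-- carried by a monomial automorphism, remembering the absolute values -/
def Rel (u r : GolayPt → ℤ) : Prop := GRel u r ∧ Inv u r

theorem Rel.trans {u v w : GolayPt → ℤ} (h1 : Rel u v) (h2 : Rel v w) : Rel u w :=
  ⟨h1.1.trans h2.1, h1.2.trans h2.2⟩

theorem rel_refl (u : GolayPt → ℤ) : Rel u u := ⟨grel_refl u, inv_refl u⟩

theorem rel_of_eq {u v : GolayPt → ℤ} (h : u = v) : Rel u v := h ▸ rel_refl u

theorem rel_flip {c : Finset GolayPt} (hc : c ∈ Supp) (u : GolayPt → ℤ) : Rel u (flip c u) :=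
  ⟨grel_flip hc u, inv_flip c u⟩

theorem rel_perm {σ : Equiv.Perm GolayPt} (hσ : σ ∈ M24) (u : GolayPt → ℤ) :
    Rel u (fun i => u (σ i)) :=
  ⟨grel_perm hσ u, inv_perm σ u⟩

theorem rel_of_mono {v r : GolayPt → ℤ} (h : Mono v r) : Rel v r := by
  obtain ⟨σ, hσ, c, hc, rfl⟩ := h
  exact (rel_perm hσ v).trans (rel_flip hc _)

/-! ### minimal vectors -/

/-- representatives -/
def rA : GolayPt → ℤ := repV 3 0 4 0 0

/-- representatives -/
def rB : GolayPt → ℤ := repV 3277413 0 2 0 0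

/-- representatives -/
def rC : GolayPt → ℤ := repV 1 0 (-3) 0 1

/-- a vector supported on an octad meeting the tetrads in 3, 1, 1, 1, 1, 1 points -/
def vB : GolayPt → ℤ := gB 1384564

set_option maxRecDepth 100000 in
theorem rA_chk : ChkP rA 0 := by decide +kernel

set_option maxRecDepth 100000 in
theorem rB_chk : ChkP rB 15 := by decide +kernel

set_option maxRecDepth 100000 in
theorem rC_chk : ChkP rC 2048 := by decide +kernel

set_option maxRecDepth 100000 in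
theorem vB_chk : ChkP vB 121 := by decide +kernel

theorem rA_norm : sqNorm rA = 32 := by decide +kernel

theorem vB_norm : sqNorm vB = 32 := by decide +kernel

theorem hA2 : ¬ ∃ i, rA i = 2 ∨ rA i = -2 := by decide +kernel

theorem hC2 : ¬ ∃ i, rC i = 2 ∨ rC i = -2 := by decide +kernel

theorem hA3 : ¬ ∃ i, rA i = 3 ∨ rA i = -3 := by decide +kernel

theorem hB3 : ¬ ∃ i, rB i = 3 ∨ rB i = -3 := by decide +kernel

set_option maxRecDepth 100000 in
theorem hx1 : ∃ i, xi rA i = 2 ∨ xi rA i = -2 := by decide +kernel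

theorem hv1 : ∃ i, vB i = 2 ∨ vB i = -2 := by decide +kernel

set_option maxRecDepth 100000 in
theorem hx2 : ∃ i, xi vB i = 3 ∨ xi vB i = -3 := by decide +kernel

theorem min_cases {v : GolayPt → ℤ} (hv : v ∈ leechLattice) (hn : sqNorm v = 32) :
    Rel v rA ∨ Rel v rB ∨ Rel v rC := by
  rcases mono_cases hv hn with h | h | h
  · exact Or.inl (rel_of_mono h)
  · exact Or.inr (Or.inl (rel_of_mono h))
  · exact Or.inr (Or.inr (rel_of_mono h))

theorem xi_norm {v : GolayPt → ℤ} (hv : v ∈ leechLattice) : sqNorm (xi v) = sqNorm v :=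
  sqNorm_xi (ev2_of_mem hv)

theorem grel_AB : GRel rA rB := by
  have hA := of_chk rA_chk
  have h1 := grel_xi rA
  refine h1.trans ?_
  rcases min_cases (xi_mem hA) ((xi_norm hA).trans rA_norm) with h | h | h
  · exact absurd ((h.2 2).mp hx1) hA2
  · exact h.1
  · exact absurd ((h.2 2).mp hx1) hC2

theorem grel_vB : GRel vB rB := by
  rcases min_cases (of_chk vB_chk) vB_norm with h | h | h
  · exact absurd ((h.2 2).mp hv1) hA2
  · exact h.1
  · exact absurd ((h.2 2).mp hv1) hC2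

theorem grel_vC : GRel vB rC := by
  have hV := of_chk vB_chk
  refine (grel_xi vB).trans ?_
  rcases min_cases (xi_mem hV) ((xi_norm hV).trans vB_norm) with h | h | h
  · exact absurd ((h.2 3).mp hx2) hA3
  · exact absurd ((h.2 3).mp hx2) hB3
  · exact h.1

/-- every minimal vector is in the orbit of one vector -/
theorem min_orb (v : ↥leechLattice) (hn : sqNorm (v : GolayPt → ℤ) = 32) :
    Orb v ⟨rC, of_chk rC_chk⟩ := by
  obtain ⟨_, oAB⟩ := orb_of_grel grel_AB (of_chk rA_chk)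
  obtain ⟨_, oVB⟩ := orb_of_grel grel_vB (of_chk vB_chk)
  obtain ⟨_, oVC⟩ := orb_of_grel grel_vC (of_chk vB_chk)
  have oBC : Orb ⟨rB, of_chk rB_chk⟩ ⟨rC, of_chk rC_chk⟩ := oVB.symm.trans oVC
  rcases min_cases v.2 hn with h | h | h
  · obtain ⟨_, o⟩ := orb_of_grel h.1 v.2
    exact (o.trans oAB).trans oBC
  · obtain ⟨_, o⟩ := orb_of_grel h.1 v.2
    exact o.trans oBC
  · obtain ⟨_, o⟩ := orb_of_grel h.1 v.2
    exact o

/-- the automorphism group is transitive on the minimal vectors -/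
theorem min_trans (v w : ↥leechLattice) (hv : sqNorm (v : GolayPt → ℤ) = 32)
    (hw : sqNorm (w : GolayPt → ℤ) = 32) : ∃ g : ↥Co0, g • v = w :=
  (min_orb v hv).trans (min_orb w hw).symm

end Cfsg.Agent.Lib_lead_LeechOrb
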