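import Mathlib
import Cfsg.Prelude.Def_SporadicCombinatorics
import Cfsg.Agent.Lib_lead_LeechOrb
import Cfsg.Agent.Lib_lead_LeechDecomp

/-! The automorphism group of the rank-24 lattice is transitive on the vectors of sum of
squares 48. -/

set_option autoImplicit false

namespace Cfsg.Agent.Lib_lead_LeechOrb48

open Cfsg Cfsg.Agent.Lib_lead_Golay Cfsg.Agent.Lib_lead_GolayPerm Cfsg.Agent.Lib_lead_Leech
  Cfsg.Agent.Lib_lead_Leech2 Cfsg.Agent.Lib_lead_M24 Cfsg.Agent.Lib_lead_LeechDot
  Cfsg.Agent.Lib_lead_LeechSym Cfsg.Agent.Lib_lead_MinVec Cfsg.Agent.Lib_lead_LeechDotL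
  Cfsg.Agent.Lib_lead_LeechDotNums2 Cfsg.Agent.Lib_lead_LeechXi Cfsg.Agent.Lib_lead_LeechOrb
open Cfsg.Agent.Lib_lead_LeechRed (valL_cons valL_nil flip_fix_on even_diff card_even_subsets12
  wit12 incr incr_lt incr_nodup nd12 len12 mem_supp_M oct0 dod0 cov8 cov12 sqNorm_sub)
open Cfsg.Agent.Lib_lead_LeechDecomp (ra_val rb_val rc_val rd_val ra_sum rc_sum p0_mem q0_not_mem
  nd012)
open scoped Pointwise

theorem odd_case {u : GolayPt → ℤ} (hu : u ∈ leechLattice) (hn : sqNorm u = 48)
    (hodd : ∀ i, u i % 2 = 1) : Rel u (valL partsb) ∨ Rel u (valL partsd) := by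
  classical
  have hO : IsOddVec u := by
    rcases (mem_leechLattice_iff u).mp hu with h | h
    · have h1 := h.1 (none : GolayPt)
      have h3 := hodd (none : GolayPt)
      omega
    · exact h
  have hC : Sx u 1 ∈ Supp := hO.2.2
  have hcc : (Sx u 1)ᶜ ∈ Supp := compl_mem hC
  have h1 : ∀ i, flip (Sx u 1)ᶜ u i % 4 = 1 := by
    intro i
    have ho := hodd i
    show (if i ∈ (Sx u 1)ᶜ then -u i else u i) % 4 = 1
    by_cases hi : i ∈ (Sx u 1)ᶜ
    · rw [if_pos hi]
      rw [Finset.mem_compl, mem_Sx] at hi
      omega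
    · rw [if_neg hi]
      rw [Finset.mem_compl, not_not, mem_Sx] at hi
      omega
  have hn' : sqNorm (flip (Sx u 1)ᶜ u) = 48 := by
    rw [sqNorm_flip]
    exact hn
  have hb : ∀ i, flip (Sx u 1)ᶜ u i = -3 ∨ flip (Sx u 1)ᶜ u i = 1 ∨ flip (Sx u 1)ᶜ u i = 5 := by
    intro i
    have := Cfsg.Agent.Lib_lead_LeechShapes.bound6 hn' i
    have := h1 i
    omega
  have e1 : Rel u (flip (Sx u 1)ᶜ u) := rel_flip hcc u
  generalize flip (Sx u 1)ᶜ u = u' at hb hn' e1
  have hsq : ∀ i, u' i ^ 2 = 1 + 8 * (if u' i = -3 then 1 else 0) +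
      24 * (if u' i = 5 then 1 else 0) := by
    intro i
    rcases hb i with h | h | h <;> rw [h] <;> norm_num
  have hsum : (48 : ℤ) = 24 + 8 * ((Finset.univ.filter (fun i => u' i = -3)).card : ℤ) +
      24 * ((Finset.univ.filter (fun i => u' i = 5)).card : ℤ) := by
    have h48 : ∑ i : GolayPt, u' i ^ 2 = 48 := hn'
    rw [← h48, Finset.sum_congr rfl (fun i _ => hsq i), Finset.sum_add_distrib,
      Finset.sum_add_distrib, ← Finset.mul_sum, ← Finset.mul_sum, Finset.sum_boole,
      Finset.sum_boole]
    simp [card_golayPt]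
  have hcases : ((Finset.univ.filter (fun i => u' i = -3)).card = 3 ∧
      (Finset.univ.filter (fun i => u' i = 5)).card = 0) ∨
      ((Finset.univ.filter (fun i => u' i = -3)).card = 0 ∧
      (Finset.univ.filter (fun i => u' i = 5)).card = 1) := by
    omega
  rcases hcases with ⟨hA, hB⟩ | ⟨hA, hB⟩
  · left
    obtain ⟨x, y, z, hxy, hxz, hyz, hAe⟩ := Finset.card_eq_three.mp hA
    have hBe := Finset.card_eq_zero.mp hB
    obtain ⟨g, hg, hgl⟩ := Cfsg.Agent.Lib_lead_M24Sets.transL [ptN 0, ptN 1, ptN 2] [x, y, z]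
      nd012 (by simp [hxy, hxz, hyz]) rfl (by norm_num)
    simp only [List.map_cons, List.map_nil, List.cons.injEq, and_true] at hgl
    obtain ⟨g0, g1, g2⟩ := hgl
    have hmem : ∀ i, u' i = -3 ↔ i = x ∨ i = y ∨ i = z := by
      intro i
      have : i ∈ Finset.univ.filter (fun i => u' i = -3) ↔ i ∈ ({x, y, z} : Finset GolayPt) := by
        rw [hAe]
      simpa using this
    have h5 : ∀ i, u' i ≠ 5 := by
      intro i h
      have : i ∈ Finset.univ.filter (fun i => u' i = 5) := by simp [h]
      rw [hBe] at this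
      exact absurd this (Finset.notMem_empty i)
    have heq : (fun i => u' (g i)) = valL partsb := by
      funext i
      rw [rb_val]
      by_cases hi : i = ptN 0 ∨ i = ptN 1 ∨ i = ptN 2
      · rw [if_pos hi]
        apply (hmem (g i)).mpr
        rcases hi with h | h | h
        · left; rw [h]; exact g0
        · right; left; rw [h]; exact g1
        · right; right; rw [h]; exact g2
      · rw [if_neg hi]
        have hne : ¬ u' (g i) = -3 := by
          intro h
          apply hi
          rcases (hmem (g i)).mp h with h' | h' | h'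
          · left; exact g.injective (h'.trans g0.symm)
          · right; left; exact g.injective (h'.trans g1.symm)
          · right; right; exact g.injective (h'.trans g2.symm)
        rcases hb (g i) with h | h | h
        · exact absurd h hne
        · exact h
        · exact absurd h (h5 (g i))
    exact e1.trans ((rel_perm hg u').trans (rel_of_eq heq))
  · right
    obtain ⟨x, hBe⟩ := Finset.card_eq_one.mp hB
    have hAe := Finset.card_eq_zero.mp hA
    obtain ⟨g, hg, g0⟩ := Cfsg.Agent.Lib_lead_M24Trans.trans1 (ptN 0) x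
    have hmem : ∀ i, u' i = 5 ↔ i = x := by
      intro i
      have : i ∈ Finset.univ.filter (fun i => u' i = 5) ↔ i ∈ ({x} : Finset GolayPt) := by
        rw [hBe]
      simpa using this
    have h3 : ∀ i, u' i ≠ -3 := by
      intro i h
      have : i ∈ Finset.univ.filter (fun i => u' i = -3) := by simp [h]
      rw [hAe] at this
      exact absurd this (Finset.notMem_empty i)
    have heq : (fun i => u' (g i)) = valL partsd := by
      funext i
      rw [rd_val]
      by_cases hi : i = ptN 0
      · rw [if_pos hi]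
        apply (hmem (g i)).mpr
        rw [hi]
        exact g0
      · rw [if_neg hi]
        have hne : ¬ u' (g i) = 5 := by
          intro h
          apply hi
          exact g.injective (((hmem (g i)).mp h).trans g0.symm)
        rcases hb (g i) with h | h | h
        · exact absurd h (h3 (g i))
        · exact h
        · exact absurd h hne
    exact e1.trans ((rel_perm hg u').trans (rel_of_eq heq))

/-- the even vectors of sum of squares 48 -/
theorem even_case {u : GolayPt → ℤ} (hu : u ∈ leechLattice) (hn : sqNorm u = 48)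
    (hev : ∀ i, u i % 2 = 0) : Rel u (valL partsa) ∨ Rel u (valL partsc) := by
  classical
  have hE : IsEvenVec u := by
    rcases (mem_leechLattice_iff u).mp hu with h | h
    · exact h
    · have h1 := h.1 (none : GolayPt)
      have h3 := hev (none : GolayPt)
      omega
  have hC : Sx u 2 ∈ Supp := hE.2.2
  have hs8 : (∑ i, u i) % 8 = 0 := hE.2.1
  have hb : ∀ i, u i = 0 ∨ |u i| = 2 ∨ |u i| = 4 ∨ |u i| = 6 := by
    intro i
    have h6 := Cfsg.Agent.Lib_lead_LeechShapes.bound6 hn i
    have h2 := hev i
    rcases abs_cases (u i) with ⟨h, _⟩ | ⟨h, _⟩ <;> rw [h] <;> omega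
  have hsq : ∀ i, u i ^ 2 = 4 * (if |u i| = 2 then 1 else 0) + 16 * (if |u i| = 4 then 1 else 0) +
      36 * (if |u i| = 6 then 1 else 0) := by
    intro i
    rw [← sq_abs]
    rcases hb i with h | h | h | h
    · rw [h]
      norm_num
    · rw [h]
      norm_num
    · rw [h]
      norm_num
    · rw [h]
      norm_num
  have hsum : (48 : ℤ) = 4 * ((Finset.univ.filter (fun i => |u i| = 2)).card : ℤ) +
      16 * ((Finset.univ.filter (fun i => |u i| = 4)).card : ℤ) +
      36 * ((Finset.univ.filter (fun i => |u i| = 6)).card : ℤ) := by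
    have h48 : ∑ i : GolayPt, u i ^ 2 = 48 := hn
    rw [← h48, Finset.sum_congr rfl (fun i _ => hsq i), Finset.sum_add_distrib,
      Finset.sum_add_distrib, ← Finset.mul_sum, ← Finset.mul_sum, ← Finset.mul_sum,
      Finset.sum_boole, Finset.sum_boole, Finset.sum_boole]
  have hCmem : ∀ i, i ∈ Sx u 2 ↔ (|u i| = 2 ∨ |u i| = 6) := by
    intro i
    rw [mem_Sx]
    have h6 := Cfsg.Agent.Lib_lead_LeechShapes.bound6 hn i
    have h2 := hev i
    rcases abs_cases (u i) with ⟨h, _⟩ | ⟨h, _⟩ <;> rw [h] <;> omega
  have hCcard : (Sx u 2).card = (Finset.univ.filter (fun i => |u i| = 2)).card +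
      (Finset.univ.filter (fun i => |u i| = 6)).card := by
    rw [← Finset.card_union_of_disjoint]
    · congr 1
      ext i
      rw [hCmem, Finset.mem_union, Finset.mem_filter, Finset.mem_filter]
      simp
    · rw [Finset.disjoint_left]
      intro i h1 h2
      rw [Finset.mem_filter] at h1 h2
      have := h1.2
      have := h2.2
      omega
  have hcm := card_mem hC
  have hcases : ((Finset.univ.filter (fun i => |u i| = 2)).card = 12 ∧
      (Finset.univ.filter (fun i => |u i| = 4)).card = 0 ∧
      (Finset.univ.filter (fun i => |u i| = 6)).card = 0) ∨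
      ((Finset.univ.filter (fun i => |u i| = 2)).card = 8 ∧
      (Finset.univ.filter (fun i => |u i| = 4)).card = 1 ∧
      (Finset.univ.filter (fun i => |u i| = 6)).card = 0) ∨
      ((Finset.univ.filter (fun i => |u i| = 2)).card = 0 ∧
      (Finset.univ.filter (fun i => |u i| = 4)).card = 3 ∧
      (Finset.univ.filter (fun i => |u i| = 6)).card = 0) := by
    omega
  have mem4 : ∀ i, i ∈ Finset.univ.filter (fun i => |u i| = 4) ↔ |u i| = 4 := by
    intro i
    simp
  have mem6 : ∀ i, i ∈ Finset.univ.filter (fun i => |u i| = 6) ↔ |u i| = 6 := by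
    intro i
    simp
  have mem2 : ∀ i, i ∈ Finset.univ.filter (fun i => |u i| = 2) ↔ |u i| = 2 := by
    intro i
    simp
  rcases hcases with ⟨h2c, h4c, h6c⟩ | ⟨h2c, h4c, h6c⟩ | ⟨h2c, h4c, h6c⟩
  · -- twelve coordinates of absolute value 2
    left
    have h4e := Finset.card_eq_zero.mp h4c
    have h6e := Finset.card_eq_zero.mp h6c
    have no4 : ∀ i, ¬ |u i| = 4 := fun i h => by
      have := (mem4 i).mpr h
      rw [h4e] at this
      exact absurd this (Finset.notMem_empty i)
    have no6 : ∀ i, ¬ |u i| = 6 := fun i h => by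
      have := (mem6 i).mpr h
      rw [h6e] at this
      exact absurd this (Finset.notMem_empty i)
    have hd : Sx u 2 ∈ dodecads := ⟨hC, by rw [hCcard, h2c, h6c]⟩
    obtain ⟨σ, hσ, hσd⟩ := Cfsg.Agent.Lib_lead_M12Thm.exists_sigma _ hd
    have hmem : ∀ i, σ i ∈ Sx u 2 ↔ i ∈ fsOf 340831 := by
      intro i
      rw [← hσd]
      exact Finset.smul_mem_smul_finset_iff σ
    have hur : ∀ i, u (σ i) = valL partsa i ∨ u (σ i) = -valL partsa i := by
      intro i
      rw [ra_val]
      by_cases hi : i ∈ fsOf 340831
      · rw [if_pos hi]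
        have h := (hCmem (σ i)).mp ((hmem i).mpr hi)
        rcases h with h | h
        · rcases abs_eq (by norm_num : (0 : ℤ) ≤ 2) |>.mp h with h' | h'
          · left; exact h'
          · right; exact h'
        · exact absurd h (no6 _)
      · rw [if_neg hi]
        have hnC : ¬ (|u (σ i)| = 2 ∨ |u (σ i)| = 6) := fun h => hi ((hmem i).mp ((hCmem _).mpr h))
        left
        rcases hb (σ i) with h | h | h | h
        · exact h
        · exact absurd (Or.inl h) hnC
        · exact absurd h (no4 _)
        · exact absurd (Or.inr h) hnC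
    have hs1 : (∑ i, u (σ i)) % 8 = 0 := by
      rw [Equiv.sum_comp σ u]
      exact hs8
    have hevn := even_diff (fun i => u (σ i)) (valL partsa) (fsOf 340831) hs1 ra_sum hur
      (fun i hi => by rw [ra_val, if_pos hi]; rfl) (fun i hi => by rw [ra_val, if_neg hi]; rfl)
    obtain ⟨c, hc, hcE⟩ := cov12 _ (Finset.filter_subset _ _) hevn
    have hfix := flip_fix (fun i => u (σ i)) (valL partsa) (fsOf 340831)
      (fun i hi => by rw [ra_val, if_neg hi]) hur c hcE
    exact (rel_perm hσ u).trans ((rel_flip hc _).trans (rel_of_eq hfix))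
  · -- eight coordinates of absolute value 2 and one of absolute value 4
    right
    obtain ⟨q, h4e⟩ := Finset.card_eq_one.mp h4c
    have h6e := Finset.card_eq_zero.mp h6c
    have is4 : ∀ i, |u i| = 4 ↔ i = q := by
      intro i
      rw [← mem4, h4e, Finset.mem_singleton]
    have no6 : ∀ i, ¬ |u i| = 6 := fun i h => by
      have := (mem6 i).mpr h
      rw [h6e] at this
      exact absurd this (Finset.notMem_empty i)
    have ho : Sx u 2 ∈ octads := ⟨hC, by rw [hCcard, h2c, h6c]⟩
    have hq : q ∉ Sx u 2 := by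
      intro h
      have h4 := (is4 q).mpr rfl
      rcases (hCmem q).mp h with h' | h' <;> omega
    obtain ⟨σ, hσ, hσo, hσq⟩ := Cfsg.Agent.Lib_lead_OctConfig.config1' _ ho q hq
    have hmem : ∀ i, σ i ∈ Sx u 2 ↔ i ∈ fsOf 3277413 := by
      intro i
      rw [← hσo]
      exact Finset.smul_mem_smul_finset_iff σ
    have v2 : ∀ i, i ∈ fsOf 3277413 → (u (σ i) = 2 ∨ u (σ i) = -2) := by
      intro i hi
      rcases (hCmem (σ i)).mp ((hmem i).mpr hi) with h | h
      · exact abs_eq (by norm_num : (0 : ℤ) ≤ 2) |>.mp h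
      · exact absurd h (no6 _)
    have v4 : u (σ (ptN 1)) = 4 ∨ u (σ (ptN 1)) = -4 := by
      have h : |u (σ (ptN 1))| = 4 := (is4 _).mpr hσq
      exact abs_eq (by norm_num : (0 : ℤ) ≤ 4) |>.mp h
    have v0 : ∀ i, i ∉ fsOf 3277413 → i ≠ ptN 1 → u (σ i) = 0 := by
      intro i hi hne
      have hnC : ¬ (|u (σ i)| = 2 ∨ |u (σ i)| = 6) := fun h => hi ((hmem i).mp ((hCmem _).mpr h))
      have hn4 : ¬ |u (σ i)| = 4 := fun h =>
        hne (σ.injective (((is4 _).mp h).trans hσq.symm))
      rcases hb (σ i) with h | h | h | h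
      · exact h
      · exact absurd (Or.inl h) hnC
      · exact absurd h hn4
      · exact absurd (Or.inr h) hnC
    have hur : ∀ i, u (σ i) = valL partsc i ∨ u (σ i) = -valL partsc i := by
      intro i
      rw [rc_val]
      by_cases h0 : i = ptN 0
      · rw [if_pos h0]
        rcases v2 i (by rw [h0]; exact p0_mem) with h | h
        · right; rw [h]; rfl
        · left; exact h
      · rw [if_neg h0]
        by_cases hi : i ∈ fsOf 3277413
        · rw [if_pos hi]
          exact v2 i hi
        · rw [if_neg hi]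
          by_cases h1 : i = ptN 1
          · rw [if_pos h1, h1]
            exact v4
          · rw [if_neg h1]
            left
            exact v0 i hi h1
    have hs1 : (∑ i, u (σ i)) % 8 = 0 := by
      rw [Equiv.sum_comp σ u]
      exact hs8
    have hevn := even_diff (fun i => u (σ i)) (valL partsc) (fsOf 3277413) hs1 rc_sum hur
      (fun i hi => by
        rw [rc_val]
        by_cases h0 : i = ptN 0
        · rw [if_pos h0]; rfl
        · rw [if_neg h0, if_pos hi]; rfl)
      (fun i hi => by
        have h0 : i ≠ ptN 0 := fun h => hi (by rw [h]; exact p0_mem)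
        rw [rc_val, if_neg h0, if_neg hi]
        by_cases h1 : i = ptN 1
        · rw [if_pos h1]; rfl
        · rw [if_neg h1]; rfl)
    obtain ⟨c, hc, hcE⟩ := cov8 _ (Finset.filter_subset _ _) hevn
    have hon := flip_fix_on (fun i => u (σ i)) (valL partsc) (fsOf 3277413)
      (fun i _ => hur i) c hcE
    have e1 : Rel u (flip c (fun i => u (σ i))) := (rel_perm hσ u).trans (rel_flip hc _)
    have hoff : ∀ i, i ∉ fsOf 3277413 → i ≠ ptN 1 → flip c (fun i => u (σ i)) i = 0 := by
      intro i hi hne
      show (if i ∈ c then -u (σ i) else u (σ i)) = 0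
      rw [v0 i hi hne]
      split_ifs <;> rfl
    have hq4 : flip c (fun i => u (σ i)) (ptN 1) = 4 ∨ flip c (fun i => u (σ i)) (ptN 1) = -4 := by
      show (if ptN 1 ∈ c then -u (σ (ptN 1)) else u (σ (ptN 1))) = 4 ∨
        (if ptN 1 ∈ c then -u (σ (ptN 1)) else u (σ (ptN 1))) = -4
      rcases v4 with h | h <;> rw [h] <;> split_ifs <;> simp
    generalize flip c (fun i => u (σ i)) = u2 at hon e1 hoff hq4
    have rc_off : ∀ i, i ∉ fsOf 3277413 → i ≠ ptN 1 → valL partsc i = 0 := by
      intro i hi hne
      have h0 : i ≠ ptN 0 := fun h => hi (by rw [h]; exact p0_mem)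
      rw [rc_val, if_neg h0, if_neg hi, if_neg hne]
    have rc_q : valL partsc (ptN 1) = 4 := by
      rw [rc_val]
      rfl
    rcases hq4 with h | h
    · have heq : u2 = valL partsc := by
        funext i
        by_cases hi : i ∈ fsOf 3277413
        · exact hon i hi
        · by_cases h1 : i = ptN 1
          · rw [h1, h, rc_q]
          · rw [hoff i hi h1, rc_off i hi h1]
      exact e1.trans (rel_of_eq heq)
    · have heq : flip (fsOf 3277413)ᶜ u2 = valL partsc := by
        funext i
        show (if i ∈ (fsOf 3277413)ᶜ then -u2 i else u2 i) = valL partsc i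
        by_cases hi : i ∈ fsOf 3277413
        · rw [if_neg (by rw [Finset.mem_compl, not_not]; exact hi)]
          exact hon i hi
        · rw [if_pos (Finset.mem_compl.mpr hi)]
          by_cases h1 : i = ptN 1
          · rw [h1, h, rc_q]
            rfl
          · rw [hoff i hi h1, rc_off i hi h1]
            rfl
      exact e1.trans ((rel_flip (compl_mem oct0.1) u2).trans (rel_of_eq heq))
  · -- three coordinates of absolute value 4: impossible
    exfalso
    have h2e := Finset.card_eq_zero.mp h2c
    have h6e := Finset.card_eq_zero.mp h6c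
    have no2 : ∀ i, ¬ |u i| = 2 := fun i h => by
      have := (mem2 i).mpr h
      rw [h2e] at this
      exact absurd this (Finset.notMem_empty i)
    have no6 : ∀ i, ¬ |u i| = 6 := fun i h => by
      have := (mem6 i).mpr h
      rw [h6e] at this
      exact absurd this (Finset.notMem_empty i)
    have hterm : ∀ i : GolayPt, u i % 8 =
        if i ∈ Finset.univ.filter (fun i => |u i| = 4) then 4 else 0 := by
      intro i
      rcases hb i with h | h | h | h
      · have hn4 : i ∉ Finset.univ.filter (fun i => |u i| = 4) := by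
          rw [mem4, h]
          norm_num
        rw [if_neg hn4, h]
        rfl
      · exact absurd h (no2 i)
      · rw [if_pos ((mem4 i).mpr h)]
        rcases abs_eq (by norm_num : (0 : ℤ) ≤ 4) |>.mp h with h' | h' <;> rw [h'] <;> rfl
      · exact absurd h (no6 i)
    rw [Finset.sum_int_mod, Finset.sum_congr rfl (fun i _ => hterm i), sum_indicator, h4c] at hs8
    norm_num at hs8


/-! ### fusion of the four classes -/

/-- a vector of the third class whose image is odd -/
def vc : GolayPt → ℤ := valL [(2, 1384548), (-2, 16), (4, 1)]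

set_option maxRecDepth 100000 in
theorem ra_chk : ChkP (valL partsa) 1 := by decide +kernel

set_option maxRecDepth 100000 in
theorem rb_chk : ChkP (valL partsb) 2048 := by decide +kernel

set_option maxRecDepth 100000 in
theorem rc_chk : ChkP (valL partsc) 15 := by decide +kernel

set_option maxRecDepth 100000 in
theorem rd_chk : ChkP (valL partsd) 2048 := by decide +kernel

set_option maxRecDepth 100000 in
theorem vc_chk : ChkP vc 121 := by decide +kernel

theorem ra_norm : sqNorm (valL partsa) = 48 := by decide +kernel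

theorem rd_norm : sqNorm (valL partsd) = 48 := by decide +kernel

theorem vc_norm : sqNorm vc = 48 := by decide +kernel

theorem vc_even : ∀ i, vc i % 2 = 0 := by decide +kernel

set_option maxRecDepth 100000 in
theorem xa_odd : ∀ i, xi (valL partsa) i % 2 = 1 := by decide +kernel

set_option maxRecDepth 100000 in
theorem xd_odd : ∀ i, xi (valL partsd) i % 2 = 1 := by decide +kernel

set_option maxRecDepth 100000 in
theorem xc_odd : ∀ i, xi vc i % 2 = 1 := by decide +kernel

set_option maxRecDepth 100000 in
theorem xa3 : ∃ i, xi (valL partsa) i = 3 ∨ xi (valL partsa) i = -3 := by decide +kernel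

set_option maxRecDepth 100000 in
theorem xd3 : ∃ i, xi (valL partsd) i = 3 ∨ xi (valL partsd) i = -3 := by decide +kernel

set_option maxRecDepth 100000 in
theorem xc3 : ∃ i, xi vc i = 3 ∨ xi vc i = -3 := by decide +kernel

theorem vc4 : ∃ i, vc i = 4 ∨ vc i = -4 := by decide +kernel

theorem rd3 : ¬ ∃ i, valL partsd i = 3 ∨ valL partsd i = -3 := by decide +kernel

theorem ra4 : ¬ ∃ i, valL partsa i = 4 ∨ valL partsa i = -4 := by decide +kernel

/-- an odd vector of sum of squares 48 with a coordinate of absolute value 3 -/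
theorem odd3 {u : GolayPt → ℤ} (hu : u ∈ leechLattice) (hn : sqNorm u = 48)
    (hodd : ∀ i, u i % 2 = 1) (h3 : ∃ i, u i = 3 ∨ u i = -3) : GRel u (valL partsb) := by
  rcases odd_case hu hn hodd with h | h
  · exact h.1
  · exact absurd ((h.2 3).mp h3) rd3

theorem grel_ab : GRel (valL partsa) (valL partsb) := by
  have hA := of_chk ra_chk
  exact (grel_xi _).trans (odd3 (xi_mem hA) ((xi_norm hA).trans ra_norm) xa_odd xa3)

theorem grel_db : GRel (valL partsd) (valL partsb) := by
  have hD := of_chk rd_chk
  exact (grel_xi _).trans (odd3 (xi_mem hD) ((xi_norm hD).trans rd_norm) xd_odd xd3)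

theorem grel_vb : GRel vc (valL partsb) := by
  have hV := of_chk vc_chk
  exact (grel_xi _).trans (odd3 (xi_mem hV) ((xi_norm hV).trans vc_norm) xc_odd xc3)

theorem grel_vc : GRel vc (valL partsc) := by
  rcases even_case (of_chk vc_chk) vc_norm vc_even with h | h
  · exact absurd ((h.2 4).mp vc4) ra4
  · exact h.1

/-- every vector of sum of squares 48 is in the orbit of one vector -/
theorem orb48 (u : ↥leechLattice) (hn : sqNorm (u : GolayPt → ℤ) = 48) :
    Orb u ⟨valL partsb, of_chk rb_chk⟩ := by
  obtain ⟨_, oab⟩ := orb_of_grel grel_ab (of_chk ra_chk)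
  obtain ⟨_, odb⟩ := orb_of_grel grel_db (of_chk rd_chk)
  obtain ⟨_, ovb⟩ := orb_of_grel grel_vb (of_chk vc_chk)
  obtain ⟨_, ovc⟩ := orb_of_grel grel_vc (of_chk vc_chk)
  have ocb : Orb ⟨valL partsc, of_chk rc_chk⟩ ⟨valL partsb, of_chk rb_chk⟩ := ovc.symm.trans ovb
  rcases (mem_leechLattice_iff (u : GolayPt → ℤ)).mp u.2 with he | ho
  · rcases even_case u.2 hn he.1 with h | h
    · obtain ⟨_, o⟩ := orb_of_grel h.1 u.2
      exact o.trans oab
    · obtain ⟨_, o⟩ := orb_of_grel h.1 u.2
      exact o.trans ocb
  · rcases odd_case u.2 hn ho.1 with h | h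
    · obtain ⟨_, o⟩ := orb_of_grel h.1 u.2
      exact o
    · obtain ⟨_, o⟩ := orb_of_grel h.1 u.2
      exact o.trans odb

/-- the automorphism group is transitive on the vectors of sum of squares 48 -/
theorem trans48 (v w : ↥leechLattice) (hv : sqNorm (v : GolayPt → ℤ) = 48)
    (hw : sqNorm (w : GolayPt → ℤ) = 48) : ∃ g : ↥Co0, g • v = w :=
  (orb48 v hv).trans (orb48 w hw).symm

end Cfsg.Agent.Lib_lead_LeechOrb48
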