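import Mathlib
import Cfsg.Prelude.Def_SporadicCombinatorics
import Cfsg.Agent.Lib_lead_LeechOrb48
import Cfsg.Agent.Lib_lead_LeechCross
import Cfsg.Agent.Lib_lead_M24Data
import Cfsg.Agent.Lib_lead_LeechShapes

/-! The automorphism group of the rank-24 lattice is transitive on the classes modulo twice the
lattice of the vectors of sum of squares 64. -/

set_option autoImplicit false

namespace Cfsg.Agent.Lib_lead_LeechFrame

open Cfsg Cfsg.Agent.Lib_lead_Golay Cfsg.Agent.Lib_lead_GolayPerm Cfsg.Agent.Lib_lead_Leech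
  Cfsg.Agent.Lib_lead_Leech2 Cfsg.Agent.Lib_lead_M24 Cfsg.Agent.Lib_lead_LeechDot
  Cfsg.Agent.Lib_lead_LeechSym Cfsg.Agent.Lib_lead_MinVec Cfsg.Agent.Lib_lead_LeechDotL
  Cfsg.Agent.Lib_lead_LeechXi Cfsg.Agent.Lib_lead_LeechOrb
open scoped Pointwise

/-- congruent to the standard vector after an automorphism -/
def Good (v : ↥leechLattice) : Prop :=
  ∃ g : ↥Co0, ∃ z ∈ leechLattice,
    ((g • v : ↥leechLattice) : GolayPt → ℤ) - (Pi.single none 8 : GolayPt → ℤ) = 2 • z

theorem good_of_orb {v w : ↥leechLattice} (h : Orb v w) (hw : Good w) : Good v := by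
  obtain ⟨g1, rfl⟩ := h
  obtain ⟨g2, z, hz, e⟩ := hw
  exact ⟨g2 * g1, z, hz, by rw [mul_smul]; exact e⟩

/-- the same for vectors, when they lie in the lattice -/
def GoodF (u : GolayPt → ℤ) : Prop := ∀ hu : u ∈ leechLattice, Good ⟨u, hu⟩

theorem goodF_of_grel {u r : GolayPt → ℤ} (h : GRel u r) (hr : GoodF r) : GoodF u := by
  intro hu
  obtain ⟨hr', o⟩ := orb_of_grel h hu
  exact good_of_orb o (hr hr')

theorem goodF_of_grel' {u r : GolayPt → ℤ} (h : GRel u r) (hu : u ∈ leechLattice)
    (hg : GoodF u) : GoodF r := by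
  intro hr
  obtain ⟨hr', o⟩ := orb_of_grel h hu
  exact good_of_orb o.symm (hg hu)

theorem mem_of_four (x : GolayPt → ℤ) (h4 : ∀ i, x i % 4 = 0) (h8 : (∑ i, x i) % 8 = 0) :
    x ∈ leechLattice := by
  rw [mem_leechLattice_iff]
  left
  refine ⟨fun i => by have := h4 i; omega, h8, ?_⟩
  have h0 : Sx x 2 = ∅ := by
    apply Sx_eq
    intro i
    have := h4 i
    simp only [Finset.notMem_empty, iff_false]
    omega
  rw [h0]
  exact empty_mem

theorem goodF_single (i : GolayPt) (s : ℤ) (hs : s = 8 ∨ s = -8) : GoodF (Pi.single i s) := by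
  intro hu
  refine ⟨1, ?_⟩
  rw [one_smul]
  show ∃ z ∈ leechLattice, (Pi.single i s : GolayPt → ℤ) - Pi.single none 8 = 2 • z
  rcases hs with rfl | rfl
  · refine ⟨Pi.single i 4 - Pi.single none 4, ?_, ?_⟩
    · apply mem_of_four
      · intro j
        simp only [Pi.sub_apply, Pi.single_apply]
        split_ifs <;> decide
      · simp [Finset.sum_sub_distrib, Finset.sum_pi_single']
    · funext j
      simp only [Pi.sub_apply, Pi.single_apply, Pi.smul_apply, nsmul_eq_mul, Nat.cast_ofNat]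
      split_ifs <;> ring
  · refine ⟨-Pi.single i 4 - Pi.single none 4, ?_, ?_⟩
    · apply mem_of_four
      · intro j
        simp only [Pi.sub_apply, Pi.neg_apply, Pi.single_apply]
        split_ifs <;> decide
      · simp [Finset.sum_sub_distrib, Finset.sum_pi_single']
    · funext j
      simp only [Pi.sub_apply, Pi.neg_apply, Pi.single_apply, Pi.smul_apply, nsmul_eq_mul,
        Nat.cast_ofNat]
      split_ifs <;> ring

theorem map_iff {g : Equiv.Perm GolayPt} {l : List GolayPt} {A : Finset GolayPt}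
    (h : l.map (fun p => g p) = A.toList) (i : GolayPt) : g i ∈ A ↔ i ∈ l := by
  rw [← Finset.mem_toList, ← h, List.mem_map]
  constructor
  · rintro ⟨t, ht, e⟩
    rw [← g.injective e]
    exact ht
  · intro hi
    exact ⟨i, hi, rfl⟩

theorem bound8 {x : GolayPt → ℤ} (hn : sqNorm x = 64) (i : GolayPt) : -8 ≤ x i ∧ x i ≤ 8 := by
  have h := Cfsg.Agent.Lib_lead_LeechNums.coord_sq_le x i
  rw [hn] at h
  constructor <;> nlinarith

/-! ### vectors with all coordinates divisible by 4 -/

/-- the representative: `4, 4, 4, -4` on the first tetrad -/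
def w4 : GolayPt → ℤ := valL [(-4, 64), (4, 37)]

/-- codewords meeting the first tetrad in all possible ways -/
def wit4 : List ℕ := [0, 11, 12, 7, 14, 5, 2, 9, 6, 13, 10, 1, 8, 3, 4, 15]

theorem nd4 : (wit4.map (fun k => M k &&& 101)).Nodup := by decide +kernel

theorem card_fs101 : (fsOf 101).card = 4 := by decide +kernel

theorem fs101 : ∀ i : GolayPt, i ∈ fsOf 101 ↔ i ∈ [ptN 0, ptN 2, ptN 5, ptN 6] := by
  decide +kernel

theorem nd101 : [ptN 0, ptN 2, ptN 5, ptN 6].Nodup := by decide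

theorem w4_off : ∀ i : GolayPt, i ∉ fsOf 101 → w4 i = 0 := by decide +kernel

theorem w4_on : ∀ i : GolayPt, i ∈ fsOf 101 → (w4 i = 4 ∨ w4 i = -4) := by decide +kernel

set_option maxRecDepth 100000 in
theorem xi_w4 : ∀ i : GolayPt, xi w4 i = (Pi.single (ptN 6) 8 : GolayPt → ℤ) i := by
  decide +kernel

theorem four_cases {v : GolayPt → ℤ} (hn : sqNorm v = 64) (h4 : ∀ i, v i % 4 = 0) :
    (∃ i s, (s = 8 ∨ s = -8) ∧ v = Pi.single i s) ∨ Rel v w4 := by
  classical
  have hb : ∀ i, v i = 0 ∨ (v i = 4 ∨ v i = -4) ∨ (v i = 8 ∨ v i = -8) := by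
    intro i
    have h1 := bound8 hn i
    have h2 := h4 i
    omega
  have hsq : ∀ i, v i ^ 2 = 16 * (if v i = 4 ∨ v i = -4 then 1 else 0) +
      64 * (if v i = 8 ∨ v i = -8 then 1 else 0) := by
    intro i
    rcases hb i with h | (h | h) | (h | h) <;> rw [h] <;> norm_num
  have hsum0 : ∑ i : GolayPt, v i ^ 2
      = 16 * ((Finset.univ.filter (fun i => v i = 4 ∨ v i = -4)).card : ℤ) +
      64 * ((Finset.univ.filter (fun i => v i = 8 ∨ v i = -8)).card : ℤ) := by
    rw [Finset.sum_congr rfl (fun i _ => hsq i), Finset.sum_add_distrib,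
      ← Finset.mul_sum, ← Finset.mul_sum, Finset.sum_boole, Finset.sum_boole]
  have h64 : ∑ i : GolayPt, v i ^ 2 = 64 := hn
  have hsum : (64 : ℤ) = 16 * ((Finset.univ.filter (fun i => v i = 4 ∨ v i = -4)).card : ℤ) +
      64 * ((Finset.univ.filter (fun i => v i = 8 ∨ v i = -8)).card : ℤ) := by
    rw [← hsum0, h64]
  have hcases : ((Finset.univ.filter (fun i => v i = 4 ∨ v i = -4)).card = 0 ∧
      (Finset.univ.filter (fun i => v i = 8 ∨ v i = -8)).card = 1) ∨
      ((Finset.univ.filter (fun i => v i = 4 ∨ v i = -4)).card = 4 ∧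
      (Finset.univ.filter (fun i => v i = 8 ∨ v i = -8)).card = 0) := by
    omega
  rcases hcases with ⟨hA, hB⟩ | ⟨hA, hB⟩
  · left
    obtain ⟨x, hBe⟩ := Finset.card_eq_one.mp hB
    have hAe := Finset.card_eq_zero.mp hA
    have hx : v x = 8 ∨ v x = -8 := by
      have : x ∈ Finset.univ.filter (fun i => v i = 8 ∨ v i = -8) := by
        rw [hBe]
        exact Finset.mem_singleton_self x
      simpa using this
    refine ⟨x, v x, hx, ?_⟩
    funext j
    by_cases hj : j = x
    · rw [hj, Pi.single_eq_same]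
    · rw [Pi.single_eq_of_ne hj]
      rcases hb j with h | h | h
      · exact h
      · have : j ∈ Finset.univ.filter (fun i => v i = 4 ∨ v i = -4) := by simp [h]
        rw [hAe] at this
        exact absurd this (Finset.notMem_empty j)
      · have : j ∈ Finset.univ.filter (fun i => v i = 8 ∨ v i = -8) := by simp [h]
        rw [hBe, Finset.mem_singleton] at this
        exact absurd this hj
  · right
    have hBe := Finset.card_eq_zero.mp hB
    obtain ⟨g, hg, hgl⟩ := Cfsg.Agent.Lib_lead_M24Sets.transL [ptN 0, ptN 2, ptN 5, ptN 6]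
      (Finset.univ.filter (fun i => v i = 4 ∨ v i = -4)).toList nd101 (Finset.nodup_toList _)
      (by rw [Finset.length_toList, hA]; rfl) (by norm_num)
    have hmem : ∀ i, (v (g i) = 4 ∨ v (g i) = -4) ↔ i ∈ fsOf 101 := by
      intro i
      rw [fs101, ← map_iff hgl i]
      simp
    have h8 : ∀ i, ¬ (v i = 8 ∨ v i = -8) := by
      intro i h
      have : i ∈ Finset.univ.filter (fun i => v i = 8 ∨ v i = -8) := by simp [h]
      rw [hBe] at this
      exact absurd this (Finset.notMem_empty i)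
    have hur : ∀ i, v (g i) = w4 i ∨ v (g i) = -w4 i := by
      intro i
      by_cases hi : i ∈ fsOf 101
      · have h1 := (hmem i).mpr hi
        have h2 := w4_on i hi
        omega
      · have h1 : ¬ (v (g i) = 4 ∨ v (g i) = -4) := fun h => hi ((hmem i).mp h)
        have h2 := w4_off i hi
        have h3 := h8 (g i)
        have h5 := hb (g i)
        omega
    obtain ⟨c, hc, hcE⟩ := exists_code_inter 101 (fsOf 101).powerset wit4 nd4
      (fun k => Finset.mem_powerset.mpr Finset.inter_subset_right)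
      (by rw [Finset.card_powerset, card_fs101]; rfl)
      ((fsOf 101).filter (fun i => v (g i) ≠ w4 i))
      (Finset.mem_powerset.mpr (Finset.filter_subset _ _))
    have hfix : flip c (fun i => v (g i)) = w4 :=
      flip_fix _ _ (fsOf 101) (fun i hi => w4_off i hi) hur c hcE
    exact (rel_perm hg v).trans ((rel_flip hc _).trans (rel_of_eq hfix))

set_option maxRecDepth 100000 in
theorem w4_chk : ChkP w4 0 := by decide +kernel

theorem goodF_w4 : GoodF w4 := by
  apply goodF_of_grel (grel_xi w4)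
  have e : xi w4 = Pi.single (ptN 6) 8 := funext xi_w4
  rw [e]
  exact goodF_single _ _ (Or.inl rfl)

theorem goodF_four {v : GolayPt → ℤ} (hn : sqNorm v = 64) (h4 : ∀ i, v i % 4 = 0) :
    GoodF v := by
  rcases four_cases hn h4 with ⟨i, s, hs, rfl⟩ | h
  · exact goodF_single i s hs
  · exact goodF_of_grel h.1 goodF_w4

/-! ### odd vectors -/

/-- representative with five coordinates `-3` -/
def r35 : GolayPt → ℤ := valL [(-3, 31), (1, 16777184)]

/-- representative with coordinates `5, -3, -3` -/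
def r533 : GolayPt → ℤ := valL [(5, 1), (-3, 6), (1, 16777208)]

theorem nd5 : [ptN 0, ptN 1, ptN 2, ptN 3, ptN 4].Nodup := by decide

theorem nd3' : [ptN 0, ptN 1, ptN 2].Nodup := by decide

theorem r35_val : ∀ i : GolayPt,
    r35 i = if i ∈ [ptN 0, ptN 1, ptN 2, ptN 3, ptN 4] then -3 else 1 := by decide +kernel

theorem r533_val : ∀ i : GolayPt,
    r533 i = if i = ptN 0 then 5 else if i = ptN 1 ∨ i = ptN 2 then -3 else 1 := by
  decide +kernel

theorem odd_cases {u : GolayPt → ℤ} (hu : u ∈ leechLattice) (hn : sqNorm u = 64)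
    (hodd : ∀ i, u i % 2 = 1) : Rel u r35 ∨ Rel u r533 := by
  classical
  have hO : IsOddVec u := by
    rcases (mem_leechLattice_iff u).mp hu with h | h
    · have h1 := h.1 (none : GolayPt)
      have h3 := hodd (none : GolayPt)
      omega
    · exact h
  have hC : Sx u 1 ∈ Supp := hO.2.2
  have hcc : (Sx u 1)ᶜ ∈ Supp := compl_mem hC
  have h1 : ∀ i, flip (Sx u 1)ᶜ u i % 4 = 1 := by
    intro i
    have ho := hodd i
    show (if i ∈ (Sx u 1)ᶜ then -u i else u i) % 4 = 1
    by_cases hi : i ∈ (Sx u 1)ᶜ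
    · rw [if_pos hi]
      rw [Finset.mem_compl, mem_Sx] at hi
      omega
    · rw [if_neg hi]
      rw [Finset.mem_compl, not_not, mem_Sx] at hi
      omega
  have hn' : sqNorm (flip (Sx u 1)ᶜ u) = 64 := by
    rw [sqNorm_flip]
    exact hn
  have hb : ∀ i, flip (Sx u 1)ᶜ u i = -7 ∨ flip (Sx u 1)ᶜ u i = -3 ∨
      flip (Sx u 1)ᶜ u i = 1 ∨ flip (Sx u 1)ᶜ u i = 5 := by
    intro i
    have := bound8 hn' i
    have := h1 i
    omega
  have e1 : Rel u (flip (Sx u 1)ᶜ u) := rel_flip hcc u
  generalize flip (Sx u 1)ᶜ u = u' at hb hn' e1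
  have hsq : ∀ i, u' i ^ 2 = 1 + 8 * (if u' i = -3 then 1 else 0) +
      24 * (if u' i = 5 then 1 else 0) + 48 * (if u' i = -7 then 1 else 0) := by
    intro i
    rcases hb i with h | h | h | h <;> rw [h] <;> norm_num
  have hsum : (64 : ℤ) = 24 + 8 * ((Finset.univ.filter (fun i => u' i = -3)).card : ℤ) +
      24 * ((Finset.univ.filter (fun i => u' i = 5)).card : ℤ) +
      48 * ((Finset.univ.filter (fun i => u' i = -7)).card : ℤ) := by
    have h64 : ∑ i : GolayPt, u' i ^ 2 = 64 := hn'
    rw [← h64, Finset.sum_congr rfl (fun i _ => hsq i), Finset.sum_add_distrib,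
      Finset.sum_add_distrib, Finset.sum_add_distrib, ← Finset.mul_sum, ← Finset.mul_sum,
      ← Finset.mul_sum, Finset.sum_boole, Finset.sum_boole, Finset.sum_boole]
    simp [card_golayPt]
  have hcases : ((Finset.univ.filter (fun i => u' i = -3)).card = 5 ∧
      (Finset.univ.filter (fun i => u' i = 5)).card = 0 ∧
      (Finset.univ.filter (fun i => u' i = -7)).card = 0) ∨
      ((Finset.univ.filter (fun i => u' i = -3)).card = 2 ∧
      (Finset.univ.filter (fun i => u' i = 5)).card = 1 ∧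
      (Finset.univ.filter (fun i => u' i = -7)).card = 0) := by
    omega
  have h7 : ∀ i, u' i ≠ -7 := by
    intro i h
    have hC0 : (Finset.univ.filter (fun i => u' i = -7)).card = 0 := by
      rcases hcases with h' | h'
      · exact h'.2.2
      · exact h'.2.2
    have : i ∈ Finset.univ.filter (fun i => u' i = -7) := by simp [h]
    rw [Finset.card_eq_zero.mp hC0] at this
    exact absurd this (Finset.notMem_empty i)
  rcases hcases with ⟨hA, hB, -⟩ | ⟨hA, hB, -⟩
  · left
    have hBe := Finset.card_eq_zero.mp hB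
    obtain ⟨g, hg, hgl⟩ := Cfsg.Agent.Lib_lead_M24Sets.transL
      [ptN 0, ptN 1, ptN 2, ptN 3, ptN 4]
      (Finset.univ.filter (fun i => u' i = -3)).toList nd5 (Finset.nodup_toList _)
      (by rw [Finset.length_toList, hA]; rfl) (by norm_num)
    have hmem : ∀ i, u' (g i) = -3 ↔ i ∈ [ptN 0, ptN 1, ptN 2, ptN 3, ptN 4] := by
      intro i
      rw [← map_iff hgl i]
      simp
    have h5 : ∀ i, u' i ≠ 5 := by
      intro i h
      have : i ∈ Finset.univ.filter (fun i => u' i = 5) := by simp [h]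
      rw [hBe] at this
      exact absurd this (Finset.notMem_empty i)
    have heq : (fun i => u' (g i)) = r35 := by
      funext i
      rw [r35_val]
      by_cases hi : i ∈ [ptN 0, ptN 1, ptN 2, ptN 3, ptN 4]
      · rw [if_pos hi]
        exact (hmem i).mpr hi
      · rw [if_neg hi]
        have hne : ¬ u' (g i) = -3 := fun h => hi ((hmem i).mp h)
        rcases hb (g i) with h | h | h | h
        · exact absurd h (h7 (g i))
        · exact absurd h hne
        · exact h
        · exact absurd h (h5 (g i))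
    exact e1.trans ((rel_perm hg u').trans (rel_of_eq heq))
  · right
    obtain ⟨x, y, hxy, hAe⟩ := Finset.card_eq_two.mp hA
    obtain ⟨z, hBe⟩ := Finset.card_eq_one.mp hB
    have hmemA : ∀ i, u' i = -3 ↔ i = x ∨ i = y := by
      intro i
      have : i ∈ Finset.univ.filter (fun i => u' i = -3) ↔ i ∈ ({x, y} : Finset GolayPt) := by
        rw [hAe]
      simpa using this
    have hmemB : ∀ i, u' i = 5 ↔ i = z := by
      intro i
      have : i ∈ Finset.univ.filter (fun i => u' i = 5) ↔ i ∈ ({z} : Finset GolayPt) := by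
        rw [hBe]
      simpa using this
    have hzx : z ≠ x := by
      intro h
      have h1 := (hmemB z).mpr rfl
      have h2 := (hmemA x).mpr (Or.inl rfl)
      rw [h] at h1
      omega
    have hzy : z ≠ y := by
      intro h
      have h1 := (hmemB z).mpr rfl
      have h2 := (hmemA y).mpr (Or.inr rfl)
      rw [h] at h1
      omega
    obtain ⟨g, hg, hgl⟩ := Cfsg.Agent.Lib_lead_M24Sets.transL [ptN 0, ptN 1, ptN 2] [z, x, y]
      nd3' (by simp [hxy, hzx, hzy]) rfl (by norm_num)
    simp only [List.map_cons, List.map_nil, List.cons.injEq, and_true] at hgl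
    obtain ⟨g0, g1, g2⟩ := hgl
    have heq : (fun i => u' (g i)) = r533 := by
      funext i
      rw [r533_val]
      by_cases hi0 : i = ptN 0
      · rw [if_pos hi0]
        apply (hmemB (g i)).mpr
        rw [hi0]
        exact g0
      · rw [if_neg hi0]
        have hne5 : ¬ u' (g i) = 5 := by
          intro h
          apply hi0
          exact g.injective (((hmemB (g i)).mp h).trans g0.symm)
        by_cases hi : i = ptN 1 ∨ i = ptN 2
        · rw [if_pos hi]
          apply (hmemA (g i)).mpr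
          rcases hi with h | h
          · left; rw [h]; exact g1
          · right; rw [h]; exact g2
        · rw [if_neg hi]
          have hne : ¬ u' (g i) = -3 := by
            intro h
            apply hi
            rcases (hmemA (g i)).mp h with h' | h'
            · left; exact g.injective (h'.trans g1.symm)
            · right; exact g.injective (h'.trans g2.symm)
          rcases hb (g i) with h | h | h | h
          · exact absurd h (h7 (g i))
          · exact absurd h hne
          · exact h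
          · exact absurd h hne5
    exact e1.trans ((rel_perm hg u').trans (rel_of_eq heq))

/-! ### the two odd representatives are good -/

/-- a vector with four coordinates 4 -/
def u4 : GolayPt → ℤ := valL [(4, 612)]

/-- tables of two elements of the group of the code -/
def tab3 : List ℕ := [6, 10, 20, 11, 1, 13, 5, 0, 3, 18, 21, 7, 12, 9, 19, 23, 22, 4, 14, 15, 2, 16, 17, 8]

/-- inverse table -/
def itab3 : List ℕ := [7, 4, 20, 8, 17, 6, 0, 11, 23, 13, 1, 3, 12, 5, 18, 19, 21, 22, 9, 14, 2, 10, 16, 15]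

/-- tables of two elements of the group of the code -/
def tab1 : List ℕ := [16, 3, 18, 14, 17, 5, 13, 1, 8, 20, 15, 12, 21, 11, 23, 7, 22, 6, 0, 19, 2, 4, 9, 10]

/-- inverse table -/
def itab1 : List ℕ := [18, 7, 20, 1, 21, 5, 17, 15, 8, 22, 23, 13, 11, 6, 3, 10, 0, 4, 2, 19, 9, 12, 16, 14]

theorem ok3 : genOK (tab3, itab3) = true := by decide +kernel

theorem ok1 : genOK (tab1, itab1) = true := by decide +kernel

/-- the vectors obtained from `u4` -/
def y3 : GolayPt → ℤ := fun i => xi u4 (tabFun itab3 i)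

/-- the vectors obtained from `u4` -/
def y1 : GolayPt → ℤ := fun i => xi u4 (tabFun itab1 i)

set_option maxRecDepth 100000 in
theorem u4_chk : ChkP u4 0 := by decide +kernel

theorem u4_norm : sqNorm u4 = 64 := by decide +kernel

theorem u4_four : ∀ i, u4 i % 4 = 0 := by decide +kernel

set_option maxRecDepth 100000 in
theorem x3_odd : ∀ i, xi y3 i % 2 = 1 := by decide +kernel

set_option maxRecDepth 100000 in
theorem x1_odd : ∀ i, xi y1 i % 2 = 1 := by decide +kernel

set_option maxRecDepth 100000 in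
theorem x3_five : ∃ i, xi y3 i = 5 ∨ xi y3 i = -5 := by decide +kernel

set_option maxRecDepth 100000 in
theorem x1_five : ¬ ∃ i, xi y1 i = 5 ∨ xi y1 i = -5 := by decide +kernel

theorem r35_five : ¬ ∃ i, r35 i = 5 ∨ r35 i = -5 := by decide +kernel

theorem r533_five : ∃ i, r533 i = 5 ∨ r533 i = -5 := by decide +kernel

theorem grel_tab {tab itab : List ℕ} (h : genOK (tab, itab) = true) (u : GolayPt → ℤ) :
    GRel u (fun i => u (tabFun itab i)) := by
  unfold genOK at h
  rw [Bool.and_eq_true] at h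
  exact grel_perm (M24.inv_mem (mem_M24_of_chk h.1 h.2)) u

theorem goodF_r533 : GoodF r533 := by
  have hU := of_chk u4_chk
  have hX := xi_mem hU
  have nX : sqNorm (xi u4) = 64 := (xi_norm hU).trans u4_norm
  have g1 : GoodF (xi u4) := goodF_of_grel' (grel_xi u4) hU (goodF_four u4_norm u4_four)
  obtain ⟨hY, oY⟩ := orb_of_grel (grel_tab ok3 (xi u4)) hX
  have nY : sqNorm y3 = 64 := by
    have h1 : sqNorm y3 = sqNorm (xi u4) := by
      have hv := ok3
      unfold genOK at hv
      rw [Bool.and_eq_true] at hv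
      exact Cfsg.Agent.Lib_lead_LeechSym.sqNorm_perm (permOf tab3 itab3 hv.1)⁻¹ (xi u4)
    rw [h1, nX]
  have g2 : GoodF y3 := goodF_of_grel' (grel_tab ok3 (xi u4)) hX g1
  have g3 : GoodF (xi y3) := goodF_of_grel' (grel_xi y3) hY g2
  rcases odd_cases (xi_mem hY) ((xi_norm hY).trans nY) x3_odd with h | h
  · exact absurd ((h.2 5).mp x3_five) r35_five
  · exact goodF_of_grel' h.1 (xi_mem hY) g3

theorem goodF_r35 : GoodF r35 := by
  have hU := of_chk u4_chk
  have hX := xi_mem hU
  have nX : sqNorm (xi u4) = 64 := (xi_norm hU).trans u4_norm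
  have g1 : GoodF (xi u4) := goodF_of_grel' (grel_xi u4) hU (goodF_four u4_norm u4_four)
  obtain ⟨hY, oY⟩ := orb_of_grel (grel_tab ok1 (xi u4)) hX
  have nY : sqNorm y1 = 64 := by
    have h1 : sqNorm y1 = sqNorm (xi u4) := by
      have hv := ok1
      unfold genOK at hv
      rw [Bool.and_eq_true] at hv
      exact Cfsg.Agent.Lib_lead_LeechSym.sqNorm_perm (permOf tab1 itab1 hv.1)⁻¹ (xi u4)
    rw [h1, nX]
  have g2 : GoodF y1 := goodF_of_grel' (grel_tab ok1 (xi u4)) hX g1
  have g3 : GoodF (xi y1) := goodF_of_grel' (grel_xi y1) hY g2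
  rcases odd_cases (xi_mem hY) ((xi_norm hY).trans nY) x1_odd with h | h
  · exact goodF_of_grel' h.1 (xi_mem hY) g3
  · exact absurd ((h.2 5).mpr r533_five) x1_five

theorem goodF_odd {v : GolayPt → ℤ} (hv : v ∈ leechLattice) (hn : sqNorm v = 64)
    (hodd : ∀ i, v i % 2 = 1) : GoodF v := by
  rcases odd_cases hv hn hodd with h | h
  · exact goodF_of_grel h.1 goodF_r35
  · exact goodF_of_grel h.1 goodF_r533

/-! ### even vectors with a coordinate not divisible by 4 -/

theorem odd_of_pattern (v : GolayPt → ℤ) (hev : ∀ i, v i % 2 = 0) (D : Finset GolayPt)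
    (hD : ∀ i, v i % 4 = 2 ↔ i ∈ D)
    (hpat : ∀ p, (Finset.univ.filter (fun q => tau q = tau p ∧ q ∈ D)).card % 2 = 1) :
    ∀ p, xi v p % 2 = 1 := by
  classical
  intro p
  have h1 : Cfsg.Agent.Lib_lead_LeechXi.tsum v p % 4 = 2 := by
    unfold Cfsg.Agent.Lib_lead_LeechXi.tsum
    rw [Finset.sum_int_mod]
    have h2 : ∀ q ∈ (Finset.univ : Finset GolayPt), (if tau q = tau p then v q else 0) % 4
        = 2 * (if tau q = tau p ∧ q ∈ D then 1 else 0) := by
      intro q _
      by_cases hq : tau q = tau p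
      · rw [if_pos hq]
        by_cases hqD : q ∈ D
        · rw [if_pos ⟨hq, hqD⟩]
          have := (hD q).mpr hqD
          omega
        · rw [if_neg (fun h => hqD h.2)]
          have h3 : ¬ v q % 4 = 2 := fun h => hqD ((hD q).mp h)
          have := hev q
          omega
      · rw [if_neg hq, if_neg (fun h => hq h.1)]
        rfl
    rw [Finset.sum_congr rfl h2, ← Finset.mul_sum, Finset.sum_boole]
    have h4 := hpat p
    omega
  have h5 := hev p
  show (sg p * (v p - Cfsg.Agent.Lib_lead_LeechXi.tsum v p / 2)) % 2 = 1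
  rcases sg_cases p with hs | hs <;> rw [hs] <;> omega

set_option maxRecDepth 100000 in
theorem pat8 : ∀ p : GolayPt,
    (Finset.univ.filter (fun q => tau q = tau p ∧ q ∈ fsOf (M 121))).card % 2 = 1 := by
  decide +kernel

set_option maxRecDepth 100000 in
theorem pat12 : ∀ p : GolayPt,
    (Finset.univ.filter (fun q => tau q = tau p ∧ q ∈ fsOf (M 1))).card % 2 = 1 := by
  decide +kernel

set_option maxRecDepth 100000 in
theorem pat16 : ∀ p : GolayPt,
    (Finset.univ.filter (fun q => tau q = tau p ∧ q ∈ (fsOf (M 121))ᶜ)).card % 2 = 1 := by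
  decide +kernel

theorem goodF_moved {v : GolayPt → ℤ} (hv : v ∈ leechLattice) (hn : sqNorm v = 64)
    (hev : ∀ i, v i % 2 = 0) (g : Equiv.Perm GolayPt) (hg : g ∈ M24) (D : Finset GolayPt)
    (hD : ∀ i, v (g i) % 4 = 2 ↔ i ∈ D)
    (hpat : ∀ p, (Finset.univ.filter (fun q => tau q = tau p ∧ q ∈ D)).card % 2 = 1) :
    GoodF v := by
  have hv' : (fun i => v (g i)) ∈ leechLattice := perm_mem hg hv
  have hn' : sqNorm (fun i => v (g i)) = 64 := by
    rw [Cfsg.Agent.Lib_lead_LeechSym.sqNorm_perm g v]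
    exact hn
  have hodd := odd_of_pattern (fun i => v (g i)) (fun i => hev (g i)) D hD hpat
  have h1 : GoodF (xi (fun i => v (g i))) :=
    goodF_odd (xi_mem hv') ((xi_norm hv').trans hn') hodd
  exact goodF_of_grel ((grel_perm hg v).trans (grel_xi _)) h1

theorem goodF_all {v : GolayPt → ℤ} (hv : v ∈ leechLattice) (hn : sqNorm v = 64) : GoodF v := by
  classical
  rcases (mem_leechLattice_iff v).mp hv with he | ho
  · have hC : Sx v 2 ∈ Supp := he.2.2
    have hmem : ∀ i, v i % 4 = 2 ↔ i ∈ Sx v 2 := by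
      intro i
      rw [mem_Sx]
      rfl
    rcases card_mem hC with h0 | h8 | h12 | h16 | h24
    · apply goodF_four hn
      intro i
      have h1 : i ∉ Sx v 2 := by
        rw [Finset.card_eq_zero.mp h0]
        exact Finset.notMem_empty i
      have h2 : ¬ v i % 4 = 2 := fun h => h1 ((hmem i).mp h)
      have := he.1 i
      omega
    · obtain ⟨g, hg⟩ := Cfsg.Agent.Lib_lead_M24Data.octads_trans (fsOf (M 121)) (Sx v 2)
        (Cfsg.Agent.Lib_lead_M24Chain.fsOf_mem_weight 121 8 (by decide +kernel)) ⟨hC, h8⟩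
      apply goodF_moved hv hn he.1 g.1 g.2 (fsOf (M 121)) _ pat8
      intro i
      rw [hmem, ← hg]
      exact Finset.smul_mem_smul_finset_iff (g : Equiv.Perm GolayPt)
    · obtain ⟨g, hg⟩ := Cfsg.Agent.Lib_lead_M24Data.dodecads_trans (fsOf (M 1)) (Sx v 2)
        (Cfsg.Agent.Lib_lead_M24Chain.fsOf_mem_weight 1 12 (by decide +kernel)) ⟨hC, h12⟩
      apply goodF_moved hv hn he.1 g.1 g.2 (fsOf (M 1)) _ pat12
      intro i
      rw [hmem, ← hg]
      exact Finset.smul_mem_smul_finset_iff (g : Equiv.Perm GolayPt)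
    · have hcc : (Sx v 2)ᶜ ∈ Supp := compl_mem hC
      have hc8 : ((Sx v 2)ᶜ).card = 8 := by
        rw [Finset.card_compl, card_golayPt, h16]
      obtain ⟨g, hg⟩ := Cfsg.Agent.Lib_lead_M24Data.octads_trans (fsOf (M 121)) (Sx v 2)ᶜ
        (Cfsg.Agent.Lib_lead_M24Chain.fsOf_mem_weight 121 8 (by decide +kernel)) ⟨hcc, hc8⟩
      apply goodF_moved hv hn he.1 g.1 g.2 (fsOf (M 121))ᶜ _ pat16
      intro i
      rw [hmem, Finset.mem_compl]
      have h1 : (g : Equiv.Perm GolayPt) i ∈ (Sx v 2)ᶜ ↔ i ∈ fsOf (M 121) := by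
        rw [← hg]
        exact Finset.smul_mem_smul_finset_iff (g : Equiv.Perm GolayPt)
      rw [← h1, Finset.mem_compl, not_not]
    · exfalso
      have hall : ∀ i, i ∈ Sx v 2 := by
        intro i
        have h1 : Sx v 2 = Finset.univ := by
          apply Finset.eq_univ_of_card
          rw [h24, card_golayPt]
        rw [h1]
        exact Finset.mem_univ i
      have h4 : ∀ i ∈ (Finset.univ : Finset GolayPt), (4 : ℤ) ≤ v i ^ 2 := by
        intro i _
        have h1 := (hmem i).mpr (hall i)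
        have h2 : v i ≤ -2 ∨ 2 ≤ v i := by omega
        rcases h2 with h2 | h2 <;> nlinarith
      have h5 := Finset.sum_le_sum h4
      rw [Finset.sum_const, Finset.card_univ, card_golayPt] at h5
      have h6 : ∑ i : GolayPt, v i ^ 2 = 64 := hn
      rw [h6] at h5
      norm_num at h5
  · exact goodF_odd hv hn ho.1

/-- transitivity on the classes of the vectors of sum of squares 64 -/
theorem cross_trans (v w : ↥leechLattice) (hv : sqNorm (v : GolayPt → ℤ) = 64)
    (hw : sqNorm (w : GolayPt → ℤ) = 64) :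
    ∃ g : ↥Co0, ∃ z ∈ leechLattice,
      ((g • v : ↥leechLattice) : GolayPt → ℤ) - (w : GolayPt → ℤ) = 2 • z := by
  obtain ⟨g1, z1, hz1, e1⟩ := goodF_all v.2 hv v.2
  obtain ⟨g2, z2, hz2, e2⟩ := goodF_all w.2 hw w.2
  -- g2⁻¹ (g1 v) - w = g2⁻¹ (g1 v - g2 w) = g2⁻¹ (2 (z1 - z2))
  have hd : (g1 • (⟨v, v.2⟩ : ↥leechLattice)) - g2 • (⟨w, w.2⟩ : ↥leechLattice)
      = (⟨z1, hz1⟩ - ⟨z2, hz2⟩ : ↥leechLattice) + (⟨z1, hz1⟩ - ⟨z2, hz2⟩ : ↥leechLattice) := by
    apply Subtype.ext
    show ((g1 • (⟨v, v.2⟩ : ↥leechLattice) : ↥leechLattice) : GolayPt → ℤ)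
      - ((g2 • (⟨w, w.2⟩ : ↥leechLattice) : ↥leechLattice) : GolayPt → ℤ)
      = (z1 - z2) + (z1 - z2)
    have e3 : ((g1 • (⟨v, v.2⟩ : ↥leechLattice) : ↥leechLattice) : GolayPt → ℤ)
        = 2 • z1 + Pi.single none 8 := by
      rw [← e1]
      abel
    have e4 : ((g2 • (⟨w, w.2⟩ : ↥leechLattice) : ↥leechLattice) : GolayPt → ℤ)
        = 2 • z2 + Pi.single none 8 := by
      rw [← e2]
      abel
    rw [e3, e4, two_nsmul, two_nsmul]
    abel
  have hadd : ∀ a b : ↥leechLattice, g2⁻¹ • (a - b) = g2⁻¹ • a - g2⁻¹ • b := by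
    intro a b
    exact map_sub (AddMonoidHom.mk' (g2⁻¹ : ↥Co0).1 (g2⁻¹ : ↥Co0).2.1) a b
  have hadd2 : ∀ a b : ↥leechLattice, g2⁻¹ • (a + b) = g2⁻¹ • a + g2⁻¹ • b := by
    intro a b
    exact (g2⁻¹ : ↥Co0).2.1 a b
  refine ⟨g2⁻¹ * g1, ((g2⁻¹ • (⟨z1, hz1⟩ - ⟨z2, hz2⟩ : ↥leechLattice) : ↥leechLattice)
    : GolayPt → ℤ), (g2⁻¹ • (⟨z1, hz1⟩ - ⟨z2, hz2⟩ : ↥leechLattice)).2, ?_⟩
  have h3 : (g2⁻¹ * g1) • v - w
      = g2⁻¹ • (⟨z1, hz1⟩ - ⟨z2, hz2⟩ : ↥leechLattice)
        + g2⁻¹ • (⟨z1, hz1⟩ - ⟨z2, hz2⟩ : ↥leechLattice) := by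
    rw [← hadd2, ← hd, hadd, inv_smul_smul, mul_smul]
  have h4 := congrArg (fun x : ↥leechLattice => (x : GolayPt → ℤ)) h3
  rw [two_nsmul]
  exact h4

end Cfsg.Agent.Lib_lead_LeechFrame
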