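import Mathlib
import Cfsg.Prelude.Def_Sporadic_a
import Cfsg.Agent.Lib_lead_LeechCount

/-! The rank-24 lattice is generated by its vectors of sum of squares 32. -/

set_option autoImplicit false

namespace Cfsg.Agent.Lib_lead_LeechGen

open Cfsg Cfsg.Agent.Lib_lead_Golay Cfsg.Agent.Lib_lead_Leech Cfsg.Agent.Lib_lead_MinVec
  Cfsg.Agent.Lib_lead_LeechCount

/-- the subgroup generated by the minimal vectors -/
def H : AddSubgroup (GolayPt → ℤ) :=
  AddSubgroup.closure {x : GolayPt → ℤ | x ∈ leechLattice ∧ sqNorm x = 32}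

theorem H_le : H ≤ leechLattice := by
  unfold H
  rw [AddSubgroup.closure_le]
  exact fun x hx => hx.1

theorem mem_H {x : GolayPt → ℤ} (hx : x ∈ leechLattice) (hn : sqNorm x = 32) : x ∈ H :=
  AddSubgroup.subset_closure ⟨hx, hn⟩

/-- the base point -/
def p0 : GolayPt := none

/-- another point -/
def q0 : GolayPt := some 0

theorem q0_ne : q0 ≠ p0 := by decide

theorem eA_mem (i : GolayPt) (hi : i ≠ p0) : fA ⟨{i, p0}, {i}⟩ ∈ H := by
  have h := fA_mem {i, p0} {i} (Finset.card_pair hi) (by simp)
  exact mem_H h.1 h.2.1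

theorem eB_mem (i : GolayPt) (hi : i ≠ p0) : fA ⟨{i, p0}, {i, p0}⟩ ∈ H := by
  have h := fA_mem {i, p0} {i, p0} (Finset.card_pair hi) (Finset.Subset.refl _)
  exact mem_H h.1 h.2.1

theorem eA_apply (i j : GolayPt) :
    fA ⟨{i, p0}, {i}⟩ j = if j = i then 4 else if j = p0 then -4 else 0 := by
  unfold fA
  by_cases h1 : j = i
  · simp [h1]
  · by_cases h2 : j = p0
    · simp [h1, h2]
    · simp [h1, h2]

theorem eB_apply (i j : GolayPt) :
    fA ⟨{i, p0}, {i, p0}⟩ j = if j = i then 4 else if j = p0 then 4 else 0 := by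
  unfold fA
  by_cases h1 : j = i
  · simp [h1]
  · by_cases h2 : j = p0
    · simp [h1, h2]
    · simp [h1, h2]

theorem base_eq (x : GolayPt → ℤ) (h4 : ∀ i, x i % 4 = 0) (h8 : (∑ i, x i) % 8 = 0) :
    x = ∑ i, (x i / 4) • (if i = p0 then (0 : GolayPt → ℤ) else fA ⟨{i, p0}, {i}⟩) +
      ((∑ i, x i) / 8) • (fA ⟨{q0, p0}, {q0, p0}⟩ - fA ⟨{q0, p0}, {q0}⟩) := by
  funext j
  simp only [Pi.add_apply, Finset.sum_apply, Pi.smul_apply, smul_eq_mul, Pi.sub_apply]
  rw [eA_apply q0 j, eB_apply q0 j]
  by_cases hj : j = p0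
  · subst hj
    have hterm : ∀ i : GolayPt,
        x i / 4 * (if i = p0 then (0 : GolayPt → ℤ) else fA ⟨{i, p0}, {i}⟩) p0 =
          -x i + (if i = p0 then x i else 0) := by
      intro i
      by_cases hi : i = p0
      · rw [if_pos hi, if_pos hi]
        simp
      · rw [if_neg hi, if_neg hi, eA_apply, if_neg (Ne.symm hi), if_pos rfl]
        have := h4 i
        omega
    rw [Finset.sum_congr rfl (fun i _ => hterm i), Finset.sum_add_distrib, Finset.sum_neg_distrib,
      Finset.sum_ite_eq' Finset.univ p0 x, if_pos (Finset.mem_univ _), if_neg (Ne.symm q0_ne),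
      if_pos rfl, if_neg (Ne.symm q0_ne), if_pos rfl]
    omega
  · have hterm : ∀ i : GolayPt,
        x i / 4 * (if i = p0 then (0 : GolayPt → ℤ) else fA ⟨{i, p0}, {i}⟩) j =
          (if i = j then x i else 0) := by
      intro i
      by_cases hi : i = p0
      · rw [if_pos hi, if_neg (by rw [hi]; exact Ne.symm hj)]
        simp
      · rw [if_neg hi, eA_apply]
        by_cases hij : i = j
        · rw [if_pos hij.symm, if_pos hij]
          have := h4 i
          omega
        · rw [if_neg (Ne.symm hij), if_neg hj, if_neg hij]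
          simp
    rw [Finset.sum_congr rfl (fun i _ => hterm i), Finset.sum_ite_eq' Finset.univ j x,
      if_pos (Finset.mem_univ _), if_neg hj, if_neg hj]
    by_cases hq : j = q0
    · rw [if_pos hq]
      simp
    · rw [if_neg hq]
      simp

theorem base_mem (x : GolayPt → ℤ) (h4 : ∀ i, x i % 4 = 0) (h8 : (∑ i, x i) % 8 = 0) : x ∈ H := by
  rw [base_eq x h4 h8]
  refine H.add_mem (H.sum_mem (fun i _ => H.zsmul_mem ?_ _))
    (H.zsmul_mem (H.sub_mem (eB_mem q0 q0_ne) (eA_mem q0 q0_ne)) _)
  by_cases hi : i = p0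
  · rw [if_pos hi]
    exact H.zero_mem
  · rw [if_neg hi]
    exact eA_mem i hi

/-- the even vectors over a given set are generated -/
def Q (C : Finset GolayPt) : Prop :=
  ∀ x ∈ leechLattice, (∀ i, x i % 2 = 0) → Sx x 2 = C → x ∈ H

theorem even_sum {x : GolayPt → ℤ} (hx : x ∈ leechLattice) (h2 : ∀ i, x i % 2 = 0) :
    IsEvenVec x := by
  rcases (mem_leechLattice_iff x).mp hx with h | h
  · exact h
  · have h1 := h.1 p0
    have h3 := h2 p0
    omega

theorem Q_empty : Q ∅ := by
  intro x hx h2 hS
  have hE := even_sum hx h2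
  refine base_mem x (fun i => ?_) hE.2.1
  have hi : i ∉ Sx x 2 := by rw [hS]; exact Finset.notMem_empty i
  rw [mem_Sx] at hi
  have := h2 i
  omega

theorem Q_step {C O : Finset GolayPt} (hC : Q C) (hO : O ∈ octads) : Q (symmDiff C O) := by
  intro x hx h2 hS
  have hB := fB_mem O ∅ hO (Finset.empty_subset _) (by simp)
  have hval : ∀ i, fB ⟨O, ∅⟩ i = if i ∈ O then 2 else 0 := by
    intro i
    unfold fB
    simp
  have hy : x - fB ⟨O, ∅⟩ ∈ H := by
    apply hC _ (leechLattice.sub_mem hx hB.1)
    · intro i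
      have h1 := h2 i
      have h3 := hB.2.2.1 i
      show (x i - fB ⟨O, ∅⟩ i) % 2 = 0
      omega
    · apply Sx_eq
      intro i
      show (x i - fB ⟨O, ∅⟩ i) % 4 = 2 % 4 ↔ i ∈ C
      have hi : i ∈ Sx x 2 ↔ i ∈ symmDiff C O := by rw [hS]
      rw [mem_Sx, Finset.mem_symmDiff] at hi
      have h1 := h2 i
      rw [hval i]
      by_cases hO' : i ∈ O
      · rw [if_pos hO']
        constructor
        · intro h
          by_contra hc
          have : x i % 4 = 2 % 4 := hi.mpr (Or.inr ⟨hO', hc⟩)
          omega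
        · intro h
          have : ¬ (x i % 4 = 2 % 4) := by
            intro h'
            rcases hi.mp h' with ⟨-, h''⟩ | ⟨-, h''⟩
            · exact h'' hO'
            · exact h'' h
          omega
      · rw [if_neg hO']
        constructor
        · intro h
          have h' : x i % 4 = 2 % 4 := by omega
          rcases hi.mp h' with ⟨h'', -⟩ | ⟨h'', -⟩
          · exact h''
          · exact absurd h'' hO'
        · intro h
          have : x i % 4 = 2 % 4 := hi.mpr (Or.inl ⟨h, hO'⟩)
          omega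
  have e : x = (x - fB ⟨O, ∅⟩) + fB ⟨O, ∅⟩ := by abel
  rw [e]
  exact H.add_mem hy (mem_H hB.1 hB.2.1)

/-- the even vectors over the support of a word are generated -/
def R (w : GolayPt → ZMod 2) : Prop := Q (support₂ w)

theorem R_zero : R 0 := by
  unfold R
  have : support₂ (0 : GolayPt → ZMod 2) = ∅ := by simp [support₂]
  rw [this]
  exact Q_empty

theorem R_add_W (k : ℕ) (hk : popc (M k) = 8) (w : GolayPt → ZMod 2) (h : R w) : R (w + W k) := by
  unfold R
  rw [support₂_add]
  exact Q_step h ⟨supp_W k, by rw [card_supp_W, hk]⟩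

theorem R_add_list (ks : List ℕ) (h8 : ∀ k ∈ ks, popc (M k) = 8) (w : GolayPt → ZMod 2)
    (h : R w) : R (w + (ks.map W).sum) := by
  induction ks generalizing w with
  | nil => simpa using h
  | cons k ks ih =>
    rw [List.map_cons, List.sum_cons, ← add_assoc]
    exact ih (fun k' hk' => h8 k' (List.mem_cons_of_mem _ hk')) _
      (R_add_W k (h8 k List.mem_cons_self) w h)

theorem enc_sumW (ks : List ℕ) :
    enc ((ks.map W).sum) = ks.foldr (fun k acc => M k ^^^ acc) 0 := by
  induction ks with
  | nil => simp [enc_zero]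
  | cons k ks ih => rw [List.map_cons, List.sum_cons, enc_add, enc_W, ih, List.foldr_cons]

theorem R_add_of_enc (b : GolayPt → ZMod 2) (ks : List ℕ) (h8 : ∀ k ∈ ks, popc (M k) = 8)
    (he : enc b = ks.foldr (fun k acc => M k ^^^ acc) 0) (w : GolayPt → ZMod 2) (h : R w) :
    R (w + b) := by
  have hb : b = (ks.map W).sum := by
    apply enc_injective
    rw [enc_sumW, he]
  rw [hb]
  exact R_add_list ks h8 w h

theorem R_basis : ∀ b ∈ basisW, ∀ w, R w → R (w + b) := by
  intro b hb
  simp only [basisW, List.mem_cons, List.not_mem_nil, or_false] at hb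
  rcases hb with rfl | rfl | rfl | rfl | rfl | rfl | rfl | rfl | rfl | rfl | rfl | rfl
  · exact R_add_of_enc _ [118, 119] (by decide +kernel) (by rw [enc_qr]; decide +kernel)
  · exact R_add_of_enc _ [41, 43] (by decide +kernel) (by rw [enc_qr]; decide +kernel)
  · exact R_add_of_enc _ [43, 47] (by decide +kernel) (by rw [enc_qr]; decide +kernel)
  · exact R_add_of_enc _ [35, 43] (by decide +kernel) (by rw [enc_qr]; decide +kernel)
  · exact R_add_of_enc _ [43, 59] (by decide +kernel) (by rw [enc_qr]; decide +kernel)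
  · exact R_add_of_enc _ [15, 47] (by decide +kernel) (by rw [enc_qr]; decide +kernel)
  · exact R_add_of_enc _ [30, 94] (by decide +kernel) (by rw [enc_qr]; decide +kernel)
  · exact R_add_of_enc _ [35, 163] (by decide +kernel) (by rw [enc_qr]; decide +kernel)
  · exact R_add_of_enc _ [35, 291] (by decide +kernel) (by rw [enc_qr]; decide +kernel)
  · exact R_add_of_enc _ [35, 547] (by decide +kernel) (by rw [enc_qr]; decide +kernel)
  · exact R_add_of_enc _ [19, 1043] (by decide +kernel) (by rw [enc_qr]; decide +kernel)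
  · exact R_add_of_enc _ [15, 125, 2162] (by decide +kernel) (by rw [enc_one]; decide +kernel)

theorem R_comb (bs : List (GolayPt → ZMod 2)) (hbs : ∀ b ∈ bs, ∀ w, R w → R (w + b)) (k : ℕ) :
    R (combW bs k) := by
  induction bs generalizing k with
  | nil => exact R_zero
  | cons b bs ih =>
    have h1 := ih (fun b' hb' => hbs b' (List.mem_cons_of_mem _ hb')) (k / 2)
    show R ((if k % 2 = 1 then b else 0) + combW bs (k / 2))
    by_cases hk : k % 2 = 1
    · rw [if_pos hk, add_comm]
      exact hbs b List.mem_cons_self _ h1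
    · rw [if_neg hk, zero_add]
      exact h1

theorem R_W (k : ℕ) : R (W k) := R_comb basisW R_basis k

theorem even_mem {x : GolayPt → ℤ} (hx : x ∈ leechLattice) (h2 : ∀ i, x i % 2 = 0) : x ∈ H := by
  have hE := even_sum hx h2
  obtain ⟨k, -, hk⟩ := exists_W hE.2.2
  exact R_W k x hx h2 hk

theorem all_mem {x : GolayPt → ℤ} (hx : x ∈ leechLattice) : x ∈ H := by
  rcases (mem_leechLattice_iff x).mp hx with h | h
  · exact even_mem hx h.1
  · have hC := fC_mem Finset.univ univ_mem p0
    have hy : x - fC (Finset.univ, p0) ∈ H := by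
      apply even_mem (leechLattice.sub_mem hx hC.1)
      intro i
      have h1 := h.1 i
      have h3 := fC_odd Finset.univ p0 i
      show (x i - fC (Finset.univ, p0) i) % 2 = 0
      omega
    have e : x = (x - fC (Finset.univ, p0)) + fC (Finset.univ, p0) := by abel
    rw [e]
    exact H.add_mem hy (mem_H hC.1 hC.2)

theorem main : AddSubgroup.closure {x : GolayPt → ℤ | x ∈ leechLattice ∧ sqNorm x = 32} =
    leechLattice :=
  le_antisymm H_le (fun _ hx => all_mem hx)

end Cfsg.Agent.Lib_lead_LeechGen
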