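import Mathlib
import Cfsg.Prelude.Def_SporadicCombinatorics
import Cfsg.Agent.Lib_lead_LeechFrame
import Cfsg.Agent.Lib_lead_LeechCenter

/-! The order of the automorphism group of the rank-24 lattice. -/

set_option autoImplicit false

namespace Cfsg.Agent.Lib_lead_LeechOrder

open Cfsg Cfsg.Agent.Lib_lead_Golay Cfsg.Agent.Lib_lead_GolayPerm Cfsg.Agent.Lib_lead_Leech
  Cfsg.Agent.Lib_lead_Leech2 Cfsg.Agent.Lib_lead_M24 Cfsg.Agent.Lib_lead_LeechMono
  Cfsg.Agent.Lib_lead_LeechXi Cfsg.Agent.Lib_lead_LeechOrb Cfsg.Agent.Lib_lead_LeechFrame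
  Cfsg.Agent.Lib_lead_LeechCenter
open scoped Pointwise

/-- a vector of sum of squares 64 congruent to `8 e` modulo twice the lattice has a single
nonzero coordinate -/
theorem std_of_congr {y : GolayPt → ℤ} (hy : y ∈ leechLattice) (hn : sqNorm y = 64)
    (hD : y - (Pi.single none 8 : GolayPt → ℤ) ∈ Cfsg.Agent.Lib_lead_LeechCross.D) :
    y ∈ stdCross := by
  by_contra hns
  have h0 : ∀ j, y j = 0 := by
    intro j
    have hj : (Pi.single j 8 : GolayPt → ℤ) ∈ leechLattice := single_mem j 8 (by decide)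
    have hDj : y - (Pi.single j 8 : GolayPt → ℤ) ∈ Cfsg.Agent.Lib_lead_LeechCross.D := by
      have h1 : (Pi.single none 8 : GolayPt → ℤ) - Pi.single j 8
          ∈ Cfsg.Agent.Lib_lead_LeechCross.D := by
        rw [Cfsg.Agent.Lib_lead_LeechCross.mem_D]
        refine ⟨Pi.single none 4 - Pi.single j 4, ?_, ?_⟩
        · apply mem_of_four
          · intro k
            simp only [Pi.sub_apply, Pi.single_apply]
            split_ifs <;> decide
          · simp [Finset.sum_sub_distrib, Finset.sum_pi_single']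
        · funext k
          simp only [Pi.sub_apply, Pi.single_apply, Pi.smul_apply, nsmul_eq_mul, Nat.cast_ofNat]
          split_ifs <;> ring
      have h2 := Cfsg.Agent.Lib_lead_LeechCross.D.add_mem hD h1
      have e : y - (Pi.single none 8 : GolayPt → ℤ) + (Pi.single none 8 - Pi.single j 8)
          = y - Pi.single j 8 := by abel
      rwa [e] at h2
    have hnj : sqNorm (Pi.single j 8 : GolayPt → ℤ) = 64 := by
      rw [sqNorm_single]
      norm_num
    have k := Cfsg.Agent.Lib_lead_LeechCross.key hy hj (le_of_eq hn) (le_of_eq hnj) hDj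
      (fun h => hns ⟨j, 8, Or.inl rfl, h⟩)
      (fun h => hns ⟨j, -8, Or.inr rfl, by rw [h, Pi.single_neg]⟩)
    have hd := k.2.2
    unfold dotInt at hd
    rw [Finset.sum_eq_single j] at hd
    · rw [Pi.single_eq_same] at hd
      omega
    · intro b _ hb
      rw [Pi.single_eq_of_ne hb, mul_zero]
    · intro h
      exact absurd (Finset.mem_univ j) h
  have hz : y = 0 := funext h0
  rw [hz] at hn
  unfold sqNorm at hn
  simp at hn

theorem single_congr (i : GolayPt) (s : ℤ) (hs : s = 8 ∨ s = -8) :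
    ∃ z ∈ leechLattice, (Pi.single i s : GolayPt → ℤ) - Pi.single none 8 = 2 • z := by
  rcases hs with rfl | rfl
  · refine ⟨Pi.single i 4 - Pi.single none 4, ?_, ?_⟩
    · apply mem_of_four
      · intro j
        simp only [Pi.sub_apply, Pi.single_apply]
        split_ifs <;> decide
      · simp [Finset.sum_sub_distrib, Finset.sum_pi_single']
    · funext j
      simp only [Pi.sub_apply, Pi.single_apply, Pi.smul_apply, nsmul_eq_mul, Nat.cast_ofNat]
      split_ifs <;> ring
  · refine ⟨-Pi.single i 4 - Pi.single none 4, ?_, ?_⟩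
    · apply mem_of_four
      · intro j
        simp only [Pi.sub_apply, Pi.neg_apply, Pi.single_apply]
        split_ifs <;> decide
      · simp [Finset.sum_sub_distrib, Finset.sum_pi_single']
    · funext j
      simp only [Pi.sub_apply, Pi.neg_apply, Pi.single_apply, Pi.smul_apply, nsmul_eq_mul,
        Nat.cast_ofNat]
      split_ifs <;> ring

/-- the base vector -/
def E : ↥leechLattice := Ev none

theorem E_coe : ((E : ↥leechLattice) : GolayPt → ℤ) = Pi.single none 8 := rfl

theorem E_norm : sqNorm ((E : ↥leechLattice) : GolayPt → ℤ) = 64 := by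
  rw [E_coe, sqNorm_single]
  norm_num

/-- the automorphism group is transitive on the vectors of sum of squares 64 -/
theorem orb64 (v : ↥leechLattice) (hn : sqNorm (v : GolayPt → ℤ) = 64) : Orb v E := by
  obtain ⟨g, z, hz, e⟩ := goodF_all v.2 hn v.2
  have hg : sqNorm ((g • (⟨v, v.2⟩ : ↥leechLattice) : ↥leechLattice) : GolayPt → ℤ) = 64 :=
    (g.2.2 _).trans hn
  have hstd := std_of_congr (g • (⟨v, v.2⟩ : ↥leechLattice)).2 hg
    ((Cfsg.Agent.Lib_lead_LeechCross.mem_D _).mpr ⟨z, hz, e⟩)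
  obtain ⟨j, s, hs, hj⟩ := hstd
  obtain ⟨σ, hσ, hσj⟩ := Cfsg.Agent.Lib_lead_M24Trans.trans1 j none
  have o1 : Orb v (g • (⟨v, v.2⟩ : ↥leechLattice)) := ⟨g, rfl⟩
  refine o1.trans ?_
  rcases hs with rfl | rfl
  · refine ⟨⟨mono σ hσ ∅ empty_mem, mono_mem _ _ _ _⟩, ?_⟩
    apply Subtype.ext
    show signedPerm σ ∅ ((g • (⟨v, v.2⟩ : ↥leechLattice) : ↥leechLattice) : GolayPt → ℤ)
      = Pi.single none 8
    rw [hj, signedPerm_single, if_neg (Finset.notMem_empty _), hσj]
  · refine ⟨⟨mono σ hσ Finset.univ univ_mem, mono_mem _ _ _ _⟩, ?_⟩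
    apply Subtype.ext
    show signedPerm σ Finset.univ
      ((g • (⟨v, v.2⟩ : ↥leechLattice) : ↥leechLattice) : GolayPt → ℤ) = Pi.single none 8
    rw [hj, signedPerm_single, if_pos (Finset.mem_univ _), hσj]
    norm_num

theorem orbit_eq : MulAction.orbit ↥Co0 E = Cfsg.Agent.Lib_lead_LeechCross.Sn 64 := by
  ext v
  constructor
  · rintro ⟨g, rfl⟩
    exact (g.2.2 E).trans E_norm
  · intro hv
    obtain ⟨g, hg⟩ := (orb64 v hv).symm
    exact ⟨g, hg⟩

/-- an automorphism fixing the base vector preserves the standard cross -/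
theorem pres_of_fix (g : ↥Co0) (hg : g • E = E) (v : ↥leechLattice)
    (hv : (v : GolayPt → ℤ) ∈ stdCross) : ((g • v : ↥leechLattice) : GolayPt → ℤ) ∈ stdCross := by
  obtain ⟨i, s, hs, hvs⟩ := hv
  have hnv : sqNorm (v : GolayPt → ℤ) = 64 := by
    rw [hvs, sqNorm_single]
    rcases hs with rfl | rfl <;> norm_num
  apply std_of_congr (g • v).2 ((g.2.2 v).trans hnv)
  obtain ⟨z, hz, e⟩ := single_congr i s hs
  have e' : (v : GolayPt → ℤ) - Pi.single none 8 = 2 • z := by
    rw [hvs]
    exact e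
  have h1 : v = E + (⟨z, hz⟩ + ⟨z, hz⟩) := by
    apply Subtype.ext
    show (v : GolayPt → ℤ) = Pi.single none 8 + (z + z)
    rw [← two_nsmul, ← e']
    abel
  have h2 : g • v = E + (g • (⟨z, hz⟩ : ↥leechLattice) + g • (⟨z, hz⟩ : ↥leechLattice)) := by
    rw [h1]
    have a1 : g • (E + (⟨z, hz⟩ + ⟨z, hz⟩ : ↥leechLattice))
        = g • E + g • (⟨z, hz⟩ + ⟨z, hz⟩ : ↥leechLattice) := g.2.1 _ _
    have a2 : g • ((⟨z, hz⟩ : ↥leechLattice) + ⟨z, hz⟩)
        = g • (⟨z, hz⟩ : ↥leechLattice) + g • (⟨z, hz⟩ : ↥leechLattice) := g.2.1 _ _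
    rw [a1, a2, hg]
  rw [Cfsg.Agent.Lib_lead_LeechCross.mem_D]
  refine ⟨((g • (⟨z, hz⟩ : ↥leechLattice) : ↥leechLattice) : GolayPt → ℤ),
    (g • (⟨z, hz⟩ : ↥leechLattice)).2, ?_⟩
  have h3 := congrArg (fun x : ↥leechLattice => (x : GolayPt → ℤ)) h2
  have h4 : ((g • v : ↥leechLattice) : GolayPt → ℤ) = Pi.single none 8
      + (((g • (⟨z, hz⟩ : ↥leechLattice) : ↥leechLattice) : GolayPt → ℤ)
        + ((g • (⟨z, hz⟩ : ↥leechLattice) : ↥leechLattice) : GolayPt → ℤ)) := h3
  rw [h4, two_nsmul]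
  abel

/-- codewords avoiding the point at infinity -/
def SuppA : Set (Finset GolayPt) := {c | c ∈ Supp ∧ none ∉ c}

theorem ncard_SuppA : SuppA.ncard = 2048 := by
  have hfin : (Supp : Set (Finset GolayPt)).Finite := Set.toFinite _
  have hu : (Supp : Set (Finset GolayPt)) = SuppA ∪ compl '' SuppA := by
    ext c
    constructor
    · intro hc
      by_cases hn : none ∈ c
      · right
        refine ⟨cᶜ, ⟨compl_mem hc, ?_⟩, compl_compl c⟩
        rw [Finset.mem_compl, not_not]
        exact hn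
      · left
        exact ⟨hc, hn⟩
    · rintro (⟨hc, -⟩ | ⟨d, ⟨hd, -⟩, rfl⟩)
      · exact hc
      · exact compl_mem hd
  have hdisj : Disjoint SuppA (compl '' SuppA) := by
    rw [Set.disjoint_left]
    rintro c ⟨-, hn⟩ ⟨d, ⟨-, hdn⟩, rfl⟩
    apply hn
    rw [Finset.mem_compl]
    exact hdn
  have hA : SuppA.Finite := hfin.subset (fun c hc => hc.1)
  have h1 := Set.ncard_union_eq hdisj hA (hA.image _)
  rw [← hu, Cfsg.Agent.Lib_lead_MinVec.ncard_Supp,
    Set.ncard_image_of_injective _ compl_injective] at h1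
  omega

theorem stab_card : Nat.card (MulAction.stabilizer ↥Co0 E) = 10200960 * 2048 := by
  let Φ : ↥(MulAction.stabilizer ↥M24 (none : GolayPt)) × ↥SuppA →
      ↥(MulAction.stabilizer ↥Co0 E) :=
    fun p => ⟨⟨mono p.1.1.1 p.1.1.2 p.2.1 p.2.2.1, mono_mem _ _ _ _⟩, by
      rw [MulAction.mem_stabilizer_iff]
      apply Subtype.ext
      show signedPerm p.1.1.1 p.2.1 (Pi.single none 8) = Pi.single none 8
      have h1 : (p.1.1.1 : Equiv.Perm GolayPt) none = none := p.1.2
      rw [signedPerm_single, h1, if_neg p.2.2.2]⟩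
  have hbij : Function.Bijective Φ := by
    constructor
    · rintro ⟨⟨⟨σ, hσ⟩, hσn⟩, ⟨c, hc⟩⟩ ⟨⟨⟨σ', hσ'⟩, hσn'⟩, ⟨c', hc'⟩⟩ hpp
      have h1 : mono σ hσ c hc.1 = mono σ' hσ' c' hc'.1 :=
        congrArg (fun g : ↥(MulAction.stabilizer ↥Co0 E) => (g.1.1 : Equiv.Perm ↥leechLattice)) hpp
      have h2 : ∀ i, signedPerm σ c (Pi.single i 8) = signedPerm σ' c' (Pi.single i 8) := by
        intro i
        exact congrArg (fun m : Equiv.Perm ↥leechLattice =>
          ((m (Ev i) : ↥leechLattice) : GolayPt → ℤ)) h1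
      obtain ⟨rfl, rfl⟩ := mono_inj h2
      rfl
    · rintro ⟨g, hg⟩
      rw [MulAction.mem_stabilizer_iff] at hg
      obtain ⟨σ, c, h⟩ := core g.1 g.2 (pres_of_fix g hg)
      have hpres : ∀ v ∈ leechLattice, signedPerm σ c v ∈ leechLattice := by
        intro v hv
        rw [← h ⟨v, hv⟩]
        exact (g.1 ⟨v, hv⟩).2
      obtain ⟨hσ, hc⟩ := supp_of_pres σ c hpres
      have hE : signedPerm σ c (Pi.single none 8) = Pi.single none 8 :=
        (h (Ev none)).symm.trans (congrArg (fun x : ↥leechLattice => (x : GolayPt → ℤ)) hg)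
      rw [signedPerm_single] at hE
      have hσn : σ none = none := by
        by_contra hne
        have h1 := congrFun hE (σ none)
        rw [Pi.single_eq_same, Pi.single_eq_of_ne hne] at h1
        split_ifs at h1 <;> omega
      have hcn : none ∉ c := by
        intro hn
        have h1 := congrFun hE none
        rw [hσn, if_pos hn, Pi.single_eq_same, Pi.single_eq_same] at h1
        omega
      refine ⟨(⟨⟨σ, hσ⟩, hσn⟩, ⟨c, hc, hcn⟩), ?_⟩
      apply Subtype.ext
      apply Subtype.ext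
      apply Equiv.ext
      intro v
      apply Subtype.ext
      exact (h v).symm
  rw [← Nat.card_eq_of_bijective Φ hbij, Nat.card_prod,
    Cfsg.Agent.Lib_lead_M24Trans.card_stab1 none, Nat.card_coe_set_eq, ncard_SuppA]

/-- the order of the automorphism group -/
theorem card_Co0 : Nat.card ↥Co0 = 8315553613086720000 := by
  have h1 := Subgroup.card_eq_card_quotient_mul_card_subgroup (MulAction.stabilizer ↥Co0 E)
  have h2 : Nat.card (↥Co0 ⧸ MulAction.stabilizer ↥Co0 E) = 398034000 := by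
    rw [← Nat.card_congr (MulAction.orbitEquivQuotientStabilizer ↥Co0 E), Nat.card_coe_set_eq,
      orbit_eq, Cfsg.Agent.Lib_lead_LeechCross.n64]
  rw [h2, stab_card] at h1
  rw [h1]

end Cfsg.Agent.Lib_lead_LeechOrder
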