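import Mathlib
import Cfsg.Prelude.Def_SporadicCombinatorics
import Cfsg.Agent.Lib_lead_LeechOrder

/-! Orthogonal pairs of minimal vectors of the rank-24 lattice. -/

set_option autoImplicit false

namespace Cfsg.Agent.Lib_lead_LeechOrth

open Cfsg Cfsg.Agent.Lib_lead_Golay Cfsg.Agent.Lib_lead_GolayPerm Cfsg.Agent.Lib_lead_Leech
  Cfsg.Agent.Lib_lead_Leech2 Cfsg.Agent.Lib_lead_M24 Cfsg.Agent.Lib_lead_LeechMono
  Cfsg.Agent.Lib_lead_LeechXi Cfsg.Agent.Lib_lead_LeechOrb Cfsg.Agent.Lib_lead_LeechFrame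
  Cfsg.Agent.Lib_lead_LeechCenter Cfsg.Agent.Lib_lead_LeechOrder

/-- a set of the code containing one point and not another -/
theorem sepc (i j : GolayPt) (h : i ≠ j) : ∃ c ∈ Supp, i ∈ c ∧ j ∉ c := by
  obtain ⟨t, ht⟩ := sep i j h
  have z2 : ∀ x : ZMod 2, x ≠ 0 → x = 1 := by decide
  by_cases hi : qrWord t i = 0
  · have hj : qrWord t j ≠ 0 := fun hj => ht (hi.trans hj.symm)
    refine ⟨symmDiff Finset.univ (support₂ (qrWord t)), symmDiff_mem univ_mem (qr_mem t), ?_, ?_⟩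
    · rw [Finset.mem_symmDiff]
      left
      exact ⟨Finset.mem_univ _, fun hh => ((mem_qr t i).mp hh) hi⟩
    · rw [Finset.mem_symmDiff]
      rintro (⟨_, h2⟩ | ⟨_, h2⟩)
      · exact h2 ((mem_qr t j).mpr hj)
      · exact h2 (Finset.mem_univ _)
  · have hj : qrWord t j = 0 := by
      by_contra hj
      exact ht ((z2 _ hi).trans (z2 _ hj).symm)
    exact ⟨support₂ (qrWord t), qr_mem t, (mem_qr t i).mpr hi, fun hh => (mem_qr t j).mp hh hj⟩

theorem co_add (g : ↥Co0) (x y : ↥leechLattice) : g • (x + y) = g • x + g • y := g.2.1 x y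

theorem co_sub (g : ↥Co0) (x y : ↥leechLattice) : g • (x - y) = g • x - g • y :=
  map_sub (AddMonoidHom.mk' (g : Equiv.Perm ↥leechLattice) g.2.1) x y

theorem co_neg (g : ↥Co0) (x : ↥leechLattice) : g • (-x) = -(g • x) :=
  map_neg (AddMonoidHom.mk' (g : Equiv.Perm ↥leechLattice) g.2.1) x

theorem co_norm (g : ↥Co0) (x : ↥leechLattice) :
    sqNorm ((g • x : ↥leechLattice) : GolayPt → ℤ) = sqNorm (x : GolayPt → ℤ) := g.2.2 x

theorem co_dot (g : ↥Co0) (x y : ↥leechLattice) :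
    dotInt ((g • x : ↥leechLattice) : GolayPt → ℤ) ((g • y : ↥leechLattice) : GolayPt → ℤ)
      = dotInt (x : GolayPt → ℤ) (y : GolayPt → ℤ) := by
  have h1 := co_norm g (x + y)
  rw [co_add] at h1
  have h2 : sqNorm (((g • x : ↥leechLattice) : GolayPt → ℤ)
      + ((g • y : ↥leechLattice) : GolayPt → ℤ))
      = sqNorm ((x : GolayPt → ℤ) + (y : GolayPt → ℤ)) := h1
  rw [Cfsg.Agent.Lib_lead_LeechCross.sqNorm_add, Cfsg.Agent.Lib_lead_LeechCross.sqNorm_add,
    co_norm, co_norm] at h2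
  linarith

theorem signedPerm_add (σ : Equiv.Perm GolayPt) (c : Finset GolayPt) (x y : GolayPt → ℤ) :
    signedPerm σ c (x + y) = signedPerm σ c x + signedPerm σ c y := by
  funext k
  unfold signedPerm
  simp only [Pi.add_apply]
  split_ifs <;> ring

/-- the standard orthogonal pair -/
def pv : GolayPt → ℤ := Pi.single none 4 + Pi.single (some 0) 4

/-- the standard orthogonal pair -/
def pw : GolayPt → ℤ := Pi.single none 4 + Pi.single (some 0) (-4)

theorem orth_pair (v w : ↥leechLattice) (hv : sqNorm (v : GolayPt → ℤ) = 32)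
    (hw : sqNorm (w : GolayPt → ℤ) = 32)
    (hd : dotInt (v : GolayPt → ℤ) (w : GolayPt → ℤ) = 0) :
    ∃ g : ↥Co0, ((g • v : ↥leechLattice) : GolayPt → ℤ) = pv ∧
      ((g • w : ↥leechLattice) : GolayPt → ℤ) = pw := by
  have hs : sqNorm ((v + w : ↥leechLattice) : GolayPt → ℤ) = 64 := by
    show sqNorm ((v : GolayPt → ℤ) + (w : GolayPt → ℤ)) = 64
    rw [Cfsg.Agent.Lib_lead_LeechCross.sqNorm_add, hv, hw, hd]
    norm_num
  obtain ⟨g1, hg1⟩ := orb64 (v + w) hs
  have hdn : sqNorm ((g1 • (v - w) : ↥leechLattice) : GolayPt → ℤ) = 64 := by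
    rw [co_norm]
    show sqNorm ((v : GolayPt → ℤ) - (w : GolayPt → ℤ)) = 64
    rw [Cfsg.Agent.Lib_lead_LeechRed.sqNorm_sub, hv, hw, hd]
    norm_num
  have hab : ((g1 • v : ↥leechLattice) : GolayPt → ℤ) + ((g1 • w : ↥leechLattice) : GolayPt → ℤ)
      = Pi.single none 8 := by
    rw [co_add] at hg1
    exact congrArg (fun x : ↥leechLattice => (x : GolayPt → ℤ)) hg1
  have hsub : ((g1 • (v - w) : ↥leechLattice) : GolayPt → ℤ)
      = ((g1 • v : ↥leechLattice) : GolayPt → ℤ) - ((g1 • w : ↥leechLattice) : GolayPt → ℤ) := by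
    rw [co_sub]
    rfl
  have hna : sqNorm ((g1 • v : ↥leechLattice) : GolayPt → ℤ) = 32 := (co_norm g1 v).trans hv
  generalize ha : ((g1 • v : ↥leechLattice) : GolayPt → ℤ) = a at hab hsub hna
  generalize hb : ((g1 • w : ↥leechLattice) : GolayPt → ℤ) = b at hab hsub
  have hbL : b ∈ leechLattice := by
    rw [← hb]
    exact (g1 • w).2
  have hD : (a - b) - (Pi.single none 8 : GolayPt → ℤ) ∈ Cfsg.Agent.Lib_lead_LeechCross.D := by
    rw [Cfsg.Agent.Lib_lead_LeechCross.mem_D]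
    refine ⟨-b, leechLattice.neg_mem hbL, ?_⟩
    rw [← hab]
    funext k
    simp only [Pi.sub_apply, Pi.add_apply, Pi.smul_apply, Pi.neg_apply, nsmul_eq_mul,
      Nat.cast_ofNat]
    ring
  have hstd := std_of_congr (by rw [← hsub]; exact (g1 • (v - w)).2)
    (by rw [← hsub]; exact hdn) hD
  obtain ⟨j, s, hs8, hj⟩ := hstd
  obtain ⟨t, ht, rfl⟩ : ∃ t : ℤ, (t = 4 ∨ t = -4) ∧ s = 2 * t := by
    rcases hs8 with rfl | rfl
    exacts [⟨4, Or.inl rfl, rfl⟩, ⟨-4, Or.inr rfl, rfl⟩]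
  have hA : a = Pi.single none 4 + Pi.single j t := by
    funext k
    have h1 := congrFun hab k
    have h2 := congrFun hj k
    simp only [Pi.add_apply, Pi.sub_apply, Pi.single_apply] at h1 h2 ⊢
    split_ifs at h1 h2 ⊢ <;> omega
  have hB : b = Pi.single none 4 + Pi.single j (-t) := by
    funext k
    have h1 := congrFun hab k
    have h2 := congrFun hj k
    simp only [Pi.add_apply, Pi.sub_apply, Pi.single_apply] at h1 h2 ⊢
    split_ifs at h1 h2 ⊢ <;> omega
  have hjn : j ≠ none := by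
    rintro rfl
    rw [hA, ← Pi.single_add, sqNorm_single] at hna
    rcases ht with rfl | rfl <;> norm_num at hna
  obtain ⟨σ, hσ, hσn, hσj⟩ := Cfsg.Agent.Lib_lead_M24Trans.trans2 none j none (some 0)
    (Ne.symm hjn) (by decide)
  rcases ht with rfl | rfl
  · refine ⟨⟨mono σ hσ ∅ empty_mem, mono_mem _ _ _ _⟩ * g1, ?_, ?_⟩
    · rw [mul_smul]
      show signedPerm σ ∅ ((g1 • v : ↥leechLattice) : GolayPt → ℤ) = pv
      rw [ha, hA, signedPerm_add, signedPerm_single, signedPerm_single,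
        if_neg (Finset.notMem_empty _), if_neg (Finset.notMem_empty _), hσn, hσj]
      rfl
    · rw [mul_smul]
      show signedPerm σ ∅ ((g1 • w : ↥leechLattice) : GolayPt → ℤ) = pw
      rw [hb, hB, signedPerm_add, signedPerm_single, signedPerm_single,
        if_neg (Finset.notMem_empty _), if_neg (Finset.notMem_empty _), hσn, hσj]
      rfl
  · obtain ⟨c, hc, hc0, hcn⟩ := sepc (some 0) none (by decide)
    refine ⟨⟨mono σ hσ c hc, mono_mem _ _ _ _⟩ * g1, ?_, ?_⟩
    · rw [mul_smul]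
      show signedPerm σ c ((g1 • v : ↥leechLattice) : GolayPt → ℤ) = pv
      rw [ha, hA, signedPerm_add, signedPerm_single, signedPerm_single, hσn, hσj,
        if_neg hcn, if_pos hc0]
      rfl
    · rw [mul_smul]
      show signedPerm σ c ((g1 • w : ↥leechLattice) : GolayPt → ℤ) = pw
      rw [hb, hB, signedPerm_add, signedPerm_single, signedPerm_single, hσn, hσj,
        if_neg hcn, if_pos hc0]
      rfl

/-- the automorphism group is transitive on ordered orthogonal pairs of minimal vectors -/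
theorem pair_trans (v w w' : ↥leechLattice) (hv : sqNorm (v : GolayPt → ℤ) = 32)
    (hw : sqNorm (w : GolayPt → ℤ) = 32) (hw' : sqNorm (w' : GolayPt → ℤ) = 32)
    (hd : dotInt (v : GolayPt → ℤ) (w : GolayPt → ℤ) = 0)
    (hd' : dotInt (v : GolayPt → ℤ) (w' : GolayPt → ℤ) = 0) :
    ∃ g : ↥Co0, g • v = v ∧ g • w = w' := by
  obtain ⟨g1, h1v, h1w⟩ := orth_pair v w hv hw hd
  obtain ⟨g2, h2v, h2w⟩ := orth_pair v w' hv hw' hd'
  refine ⟨g2⁻¹ * g1, ?_, ?_⟩
  · rw [mul_smul, inv_smul_eq_iff]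
    exact Subtype.ext (h1v.trans h2v.symm)
  · rw [mul_smul, inv_smul_eq_iff]
    exact Subtype.ext (h1w.trans h2w.symm)

end Cfsg.Agent.Lib_lead_LeechOrth
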