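import Mathlib
import Cfsg.Prelude.Def_SporadicCombinatorics
import Cfsg.Agent.Lib_lead_LeechOrth
import Cfsg.Agent.Lib_lead_M24Sets
import Cfsg.Agent.Lib_lead_OctConfig

/-! Pairs of minimal vectors of the rank-24 lattice: reduction to a normal form. -/

set_option autoImplicit false

namespace Cfsg.Agent.Lib_lead_LeechPair

open Cfsg Cfsg.Agent.Lib_lead_Golay Cfsg.Agent.Lib_lead_GolayPerm Cfsg.Agent.Lib_lead_Leech
  Cfsg.Agent.Lib_lead_Leech2 Cfsg.Agent.Lib_lead_M24 Cfsg.Agent.Lib_lead_LeechMono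
  Cfsg.Agent.Lib_lead_LeechXi Cfsg.Agent.Lib_lead_LeechOrb Cfsg.Agent.Lib_lead_LeechFrame
  Cfsg.Agent.Lib_lead_LeechCenter Cfsg.Agent.Lib_lead_LeechOrder Cfsg.Agent.Lib_lead_LeechOrth
  Cfsg.Agent.Lib_lead_MinVec Cfsg.Agent.Lib_lead_M24Chain
open scoped Pointwise

theorem dot_single (i : GolayPt) (s : ℤ) (x : GolayPt → ℤ) :
    dotInt (Pi.single i s) x = s * x i := by
  unfold dotInt
  rw [Finset.sum_eq_single i]
  · rw [Pi.single_eq_same]
  · intro j _ hj
    rw [Pi.single_eq_of_ne hj, zero_mul]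
  · intro h
    exact absurd (Finset.mem_univ i) h

theorem dot_add_left (x y z : GolayPt → ℤ) : dotInt (x + y) z = dotInt x z + dotInt y z := by
  unfold dotInt
  rw [← Finset.sum_add_distrib]
  apply Finset.sum_congr rfl
  intro i _
  simp only [Pi.add_apply]
  ring

/-- the standard vectors on two points -/
def sv (a b : GolayPt) (t : ℤ) : GolayPt → ℤ := Pi.single a 4 + Pi.single b t

theorem dot_sv (a b : GolayPt) (t : ℤ) (x : GolayPt → ℤ) :
    dotInt (sv a b t) x = 4 * x a + t * x b := by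
  unfold sv
  rw [dot_add_left, dot_single, dot_single]

theorem sv_mem (a b : GolayPt) (t : ℤ) (ht : t = 4 ∨ t = -4) : sv a b t ∈ leechLattice := by
  apply mem_of_four
  · intro k
    unfold sv
    simp only [Pi.add_apply, Pi.single_apply]
    split_ifs <;> omega
  · unfold sv
    have e : ∑ i, (Pi.single a 4 + Pi.single b t : GolayPt → ℤ) i = 4 + t := by
      simp [Finset.sum_add_distrib, Finset.sum_pi_single']
    rw [e]
    omega

theorem sv_norm (a b : GolayPt) (hab : a ≠ b) (t : ℤ) (ht : t = 4 ∨ t = -4) :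
    sqNorm (sv a b t) = 32 := by
  unfold sv
  rw [Cfsg.Agent.Lib_lead_LeechCross.sqNorm_add, sqNorm_single, sqNorm_single, dot_single,
    Pi.single_eq_of_ne hab]
  rcases ht with rfl | rfl <;> norm_num

theorem sv_left (a b : GolayPt) (hab : a ≠ b) (t : ℤ) : sv a b t a = 4 := by
  unfold sv
  rw [Pi.add_apply, Pi.single_eq_same, Pi.single_eq_of_ne hab, add_zero]

theorem sv_right (a b : GolayPt) (hab : a ≠ b) (t : ℤ) : sv a b t b = t := by
  unfold sv
  rw [Pi.add_apply, Pi.single_eq_same, Pi.single_eq_of_ne (Ne.symm hab), zero_add]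

/-- the standard vector as a lattice element -/
def svL (a b : GolayPt) : ↥leechLattice := ⟨sv a b 4, sv_mem a b 4 (Or.inl rfl)⟩

theorem orth_pair' (a b : GolayPt) (hab : a ≠ b) (v w : ↥leechLattice)
    (hv : sqNorm (v : GolayPt → ℤ) = 32) (hw : sqNorm (w : GolayPt → ℤ) = 32)
    (hd : dotInt (v : GolayPt → ℤ) (w : GolayPt → ℤ) = 0) :
    ∃ g : ↥Co0, ((g • v : ↥leechLattice) : GolayPt → ℤ) = sv a b 4 ∧
      ((g • w : ↥leechLattice) : GolayPt → ℤ) = sv a b (-4) := by
  obtain ⟨g, h1, h2⟩ := orth_pair v w hv hw hd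
  obtain ⟨σ, hσ, hσn, hσ0⟩ := Cfsg.Agent.Lib_lead_M24Trans.trans2 none (some 0) a b
    (by decide) hab
  refine ⟨⟨mono σ hσ ∅ empty_mem, mono_mem _ _ _ _⟩ * g, ?_, ?_⟩
  · rw [mul_smul]
    show signedPerm σ ∅ ((g • v : ↥leechLattice) : GolayPt → ℤ) = sv a b 4
    rw [h1]
    unfold pv sv
    rw [signedPerm_add, signedPerm_single, signedPerm_single,
      if_neg (Finset.notMem_empty _), if_neg (Finset.notMem_empty _), hσn, hσ0]
  · rw [mul_smul]
    show signedPerm σ ∅ ((g • w : ↥leechLattice) : GolayPt → ℤ) = sv a b (-4)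
    rw [h2]
    unfold pw sv
    rw [signedPerm_add, signedPerm_single, signedPerm_single,
      if_neg (Finset.notMem_empty _), if_neg (Finset.notMem_empty _), hσn, hσ0]

/-- reduction of the transitivity of a vector stabiliser to a normal form -/
theorem trans_of_normal (a b : GolayPt) (hab : a ≠ b) (c : ℤ) (R : GolayPt → ℤ)
    (K : ∀ W : ↥leechLattice, sqNorm (W : GolayPt → ℤ) = 32 →
      dotInt (sv a b 4) (W : GolayPt → ℤ) = c →
      ∃ g : ↥Co0, ((g • svL a b : ↥leechLattice) : GolayPt → ℤ) = sv a b 4 ∧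
        ((g • W : ↥leechLattice) : GolayPt → ℤ) = R)
    (v w w' : ↥leechLattice) (hv : sqNorm (v : GolayPt → ℤ) = 32)
    (hw : sqNorm (w : GolayPt → ℤ) = 32) (hw' : sqNorm (w' : GolayPt → ℤ) = 32)
    (hd : dotInt (v : GolayPt → ℤ) (w : GolayPt → ℤ) = c)
    (hd' : dotInt (v : GolayPt → ℤ) (w' : GolayPt → ℤ) = c) :
    ∃ g : ↥Co0, g • v = v ∧ g • w = w' := by
  have hV0 : sqNorm ((svL a b : ↥leechLattice) : GolayPt → ℤ) = 32 :=
    sv_norm a b hab 4 (Or.inl rfl)
  obtain ⟨h, hh⟩ := min_trans v (svL a b) hv hV0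
  have d1 : dotInt (sv a b 4) ((h • w : ↥leechLattice) : GolayPt → ℤ) = c := by
    have := co_dot h v w
    rw [hh] at this
    exact this.trans hd
  have d2 : dotInt (sv a b 4) ((h • w' : ↥leechLattice) : GolayPt → ℤ) = c := by
    have := co_dot h v w'
    rw [hh] at this
    exact this.trans hd'
  obtain ⟨g1, e1, r1⟩ := K (h • w) ((co_norm h w).trans hw) d1
  obtain ⟨g2, e2, r2⟩ := K (h • w') ((co_norm h w').trans hw') d2
  have e1' : g1 • svL a b = svL a b := Subtype.ext e1
  have e2' : g2 • svL a b = svL a b := Subtype.ext e2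
  have e3 : g1 • (h • w) = g2 • (h • w') := Subtype.ext (r1.trans r2.symm)
  refine ⟨h⁻¹ * (g2⁻¹ * (g1 * h)), ?_, ?_⟩
  · rw [mul_smul, mul_smul, mul_smul, hh, e1', inv_smul_eq_iff.mpr e2'.symm, inv_smul_eq_iff]
    exact hh.symm
  · rw [mul_smul, mul_smul, mul_smul, e3, inv_smul_smul, inv_smul_smul]

/-- the normal form from an auxiliary orthogonal vector and a monomial reduction -/
theorem normal_of (a b : GolayPt) (hab : a ≠ b) (c d pa pb : ℤ) (R : GolayPt → ℤ)
    (hpa : c + d = 8 * pa) (hpb : c - d = 8 * pb)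
    (hY : ∀ W : GolayPt → ℤ, W ∈ leechLattice → sqNorm W = 32 → dotInt (sv a b 4) W = c →
      ∃ Y ∈ leechLattice, sqNorm Y = 32 ∧ dotInt (sv a b 4) Y = 0 ∧ dotInt Y W = d)
    (hR : ∀ W : GolayPt → ℤ, W ∈ leechLattice → sqNorm W = 32 → W a = pa → W b = pb →
      ∃ σ ∈ M24, ∃ cc ∈ Supp, signedPerm σ cc (sv a b 4) = sv a b 4 ∧ signedPerm σ cc W = R)
    (W : ↥leechLattice) (hWn : sqNorm (W : GolayPt → ℤ) = 32)
    (hWd : dotInt (sv a b 4) (W : GolayPt → ℤ) = c) :
    ∃ g : ↥Co0, ((g • svL a b : ↥leechLattice) : GolayPt → ℤ) = sv a b 4 ∧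
      ((g • W : ↥leechLattice) : GolayPt → ℤ) = R := by
  obtain ⟨Y, hYL, hYn, hY0, hYW⟩ := hY W W.2 hWn hWd
  obtain ⟨g1, h1, h2⟩ := orth_pair' a b hab (svL a b) ⟨Y, hYL⟩
    (sv_norm a b hab 4 (Or.inl rfl)) hYn hY0
  have d1 : dotInt (sv a b 4) ((g1 • W : ↥leechLattice) : GolayPt → ℤ) = c := by
    have := co_dot g1 (svL a b) W
    rw [h1] at this
    exact this.trans hWd
  have d2 : dotInt (sv a b (-4)) ((g1 • W : ↥leechLattice) : GolayPt → ℤ) = d := by
    have := co_dot g1 ⟨Y, hYL⟩ W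
    rw [h2] at this
    exact this.trans hYW
  rw [dot_sv] at d1 d2
  obtain ⟨σ, hσ, cc, hcc, m1, m2⟩ := hR _ (g1 • W).2 ((co_norm g1 W).trans hWn)
    (by linarith) (by linarith)
  refine ⟨⟨mono σ hσ cc hcc, mono_mem _ _ _ _⟩ * g1, ?_, ?_⟩
  · rw [mul_smul]
    show signedPerm σ cc ((g1 • svL a b : ↥leechLattice) : GolayPt → ℤ) = sv a b 4
    rw [h1, m1]
  · rw [mul_smul]
    exact m2

/-! ### inner product `-16` -/

/-- base points -/
def qa : GolayPt := ptN 1

/-- base points -/
def qb : GolayPt := ptN 3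

/-- base points -/
def qk : GolayPt := ptN 0

theorem qab : qa ≠ qb := by decide

theorem qa_root : qa ∉ fsOf 3277413 := by
  rw [mem_fsOf]
  decide

theorem qb_root : qb ∉ fsOf 3277413 := by
  rw [mem_fsOf]
  decide

theorem qk_root : qk ∈ fsOf 3277413 := by
  rw [mem_fsOf]
  decide

theorem coord_bound {W : GolayPt → ℤ} (hn : sqNorm W = 32) (i : GolayPt) : -6 < W i ∧ W i < 6 := by
  have hle : W i ^ 2 ≤ ∑ k, W k ^ 2 :=
    Finset.single_le_sum (f := fun k => W k ^ 2) (fun k _ => sq_nonneg _) (Finset.mem_univ i)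
  unfold sqNorm at hn
  rw [hn] at hle
  constructor <;> nlinarith

theorem exY16 (W : GolayPt → ℤ) (hW : W ∈ leechLattice) (hn : sqNorm W = 32)
    (hd : dotInt (sv qa qb 4) W = -16) :
    ∃ Y ∈ leechLattice, sqNorm Y = 32 ∧ dotInt (sv qa qb 4) Y = 0 ∧ dotInt Y W = 16 := by
  classical
  rw [dot_sv] at hd
  have hsum : W qa + W qb = -4 := by linarith
  rcases (mem_leechLattice_iff W).mp hW with he | ho
  · by_cases h4 : ∀ i, W i % 4 = 0
    · have h1 := h4 qa
      have h2 := h4 qb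
      have h3 := coord_bound hn qa
      have h5 := coord_bound hn qb
      have hc : (W qa = -4 ∧ W qb = 0) ∨ (W qa = 0 ∧ W qb = -4) := by omega
      rcases hc with ⟨e1, e2⟩ | ⟨e1, e2⟩
      · refine ⟨sv qb qa (-4), sv_mem _ _ _ (Or.inr rfl), sv_norm _ _ (Ne.symm qab) _ (Or.inr rfl),
          ?_, ?_⟩
        · rw [dot_sv, sv_left _ _ (Ne.symm qab), sv_right _ _ (Ne.symm qab)]
          norm_num
        · rw [dot_sv, e1, e2]
          norm_num
      · refine ⟨sv qa qb (-4), sv_mem _ _ _ (Or.inr rfl), sv_norm _ _ qab _ (Or.inr rfl), ?_, ?_⟩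
        · rw [dot_sv, sv_left _ _ qab, sv_right _ _ qab]
          norm_num
        · rw [dot_sv, e1, e2]
          norm_num
    · have hex : ∃ i, W i % 4 = 2 := by
        by_contra hne
        apply h4
        intro i
        have h1 := he.1 i
        have h2 : ¬ W i % 4 = 2 := fun h' => hne ⟨i, h'⟩
        omega
      obtain ⟨O, E, hO, hE, hev, rfl⟩ := exists_fB hW hn he.1 hex
      have ha2 : fB ⟨O, E⟩ qa = -2 := by
        rcases fB_cases O E hE qa with ⟨_, _, e1⟩ | ⟨_, _, e1⟩ | ⟨_, _, e1⟩ <;>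
          rcases fB_cases O E hE qb with ⟨_, _, e2⟩ | ⟨_, _, e2⟩ | ⟨_, _, e2⟩ <;> omega
      have hb2 : fB ⟨O, E⟩ qb = -2 := by omega
      have haO : qa ∈ O := by
        rcases fB_cases O E hE qa with ⟨_, h, _⟩ | ⟨_, h, _⟩ | ⟨_, _, e⟩
        · exact h
        · exact h
        · omega
      have hbO : qb ∈ O := by
        rcases fB_cases O E hE qb with ⟨_, h, _⟩ | ⟨_, h, _⟩ | ⟨_, _, e⟩
        · exact h
        · exact h
        · omega
      have hcard : 1 < ((O.erase qa).erase qb).card := by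
        rw [Finset.card_erase_of_mem (Finset.mem_erase.mpr ⟨Ne.symm qab, hbO⟩),
          Finset.card_erase_of_mem haO, (octads_sub hO).2]
        norm_num
      obtain ⟨k, hk, l, hl, hkl⟩ := Finset.one_lt_card.mp hcard
      rw [Finset.mem_erase, Finset.mem_erase] at hk hl
      have vals : ∀ i, i ∈ O → fB ⟨O, E⟩ i = 2 ∨ fB ⟨O, E⟩ i = -2 := by
        intro i hi
        rcases fB_cases O E hE i with ⟨_, _, e⟩ | ⟨_, _, e⟩ | ⟨_, h, _⟩
        · exact Or.inr e
        · exact Or.inl e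
        · exact absurd hi h
      have hx := vals k hk.2.2
      have hy := vals l hl.2.2
      refine ⟨Pi.single k (2 * fB ⟨O, E⟩ k) + Pi.single l (2 * fB ⟨O, E⟩ l), ?_, ?_, ?_, ?_⟩
      · apply mem_of_four
        · intro i
          simp only [Pi.add_apply, Pi.single_apply]
          split_ifs <;> omega
        · have e : ∑ i, (Pi.single k (2 * fB ⟨O, E⟩ k) + Pi.single l (2 * fB ⟨O, E⟩ l) :
              GolayPt → ℤ) i = 2 * fB ⟨O, E⟩ k + 2 * fB ⟨O, E⟩ l := by
            simp [Finset.sum_add_distrib, Finset.sum_pi_single']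
          rw [e]
          omega
      · rw [Cfsg.Agent.Lib_lead_LeechCross.sqNorm_add, sqNorm_single, sqNorm_single, dot_single,
          Pi.single_eq_of_ne hkl]
        rcases hx with e | e <;> rcases hy with e' | e' <;> rw [e, e'] <;> norm_num
      · rw [dot_sv]
        simp only [Pi.add_apply, Pi.single_apply, if_neg (Ne.symm hk.2.1), if_neg (Ne.symm hl.2.1),
          if_neg (Ne.symm hk.1), if_neg (Ne.symm hl.1)]
        norm_num
      · rw [dot_add_left, dot_single, dot_single]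
        rcases hx with e | e <;> rcases hy with e' | e' <;> rw [e, e'] <;> norm_num
  · obtain ⟨C, hC, j, rfl⟩ := exists_fC hW hn ho.1
    have hj : j = qa ∨ j = qb := by
      rcases fC_cases C j qa with ⟨h, _, e1⟩ | ⟨h, _, e1⟩ | ⟨h, _, e1⟩ | ⟨h, _, e1⟩ <;>
        rcases fC_cases C j qb with ⟨h', _, e2⟩ | ⟨h', _, e2⟩ | ⟨h', _, e2⟩ | ⟨h', _, e2⟩ <;>
        first | omega | exact Or.inl h.symm | exact Or.inr h'.symm
    have hjR : j ∉ fsOf 3277413 := by
      rcases hj with rfl | rfl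
      · exact qa_root
      · exact qb_root
    have hRS := octads_sub Cfsg.Agent.Lib_lead_M24Oct.root_octad
    have hE : fsOf 3277413 ∩ Cᶜ ⊆ fsOf 3277413 := Finset.inter_subset_left
    obtain ⟨YL, Yn, _, _⟩ := fB_mem (fsOf 3277413) (fsOf 3277413 ∩ Cᶜ)
      Cfsg.Agent.Lib_lead_M24Oct.root_octad hE (even_card_inter hRS.1 (compl_mem hC))
    have y0 : ∀ i, i ∉ fsOf 3277413 → fB ⟨fsOf 3277413, fsOf 3277413 ∩ Cᶜ⟩ i = 0 := by
      intro i hi
      rcases fB_cases _ _ hE i with ⟨_, h, _⟩ | ⟨_, h, _⟩ | ⟨_, _, e⟩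
      · exact absurd h hi
      · exact absurd h hi
      · exact e
    refine ⟨_, YL, Yn, ?_, ?_⟩
    · rw [dot_sv, y0 _ qa_root, y0 _ qb_root]
      norm_num
    · unfold dotInt
      have hterm : ∀ i, fB ⟨fsOf 3277413, fsOf 3277413 ∩ Cᶜ⟩ i * fC (C, j) i
          = if i ∈ fsOf 3277413 then 2 else 0 := by
        intro i
        rcases fB_cases _ _ hE i with ⟨h1, h2, e⟩ | ⟨h1, h2, e⟩ | ⟨h1, h2, e⟩
        · have hiC : i ∉ C := by
            rw [Finset.mem_inter, Finset.mem_compl] at h1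
            exact h1.2
          have hij : i ≠ j := fun h => hjR (h ▸ h2)
          rcases fC_cases C j i with ⟨_, h3, e'⟩ | ⟨_, _, e'⟩ | ⟨h3, _, _⟩ | ⟨h3, _, _⟩
          · exact absurd h3 hiC
          · rw [e, e', if_pos h2]
            norm_num
          · exact absurd h3 hij
          · exact absurd h3 hij
        · have hiC : i ∈ C := by
            by_contra hc
            exact h1 (Finset.mem_inter.mpr ⟨h2, Finset.mem_compl.mpr hc⟩)
          have hij : i ≠ j := fun h => hjR (h ▸ h2)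
          rcases fC_cases C j i with ⟨_, _, e'⟩ | ⟨_, h3, e'⟩ | ⟨h3, _, _⟩ | ⟨h3, _, _⟩
          · rw [e, e', if_pos h2]
            norm_num
          · exact absurd hiC h3
          · exact absurd h3 hij
          · exact absurd h3 hij
        · rw [e, if_neg h2, zero_mul]
      rw [Finset.sum_congr rfl (fun i _ => hterm i), sum_indicator, hRS.2]
      norm_num

/-- a minimal vector with a coordinate `-4` -/
theorem shapeA (x : GolayPt → ℤ) (hx : x ∈ leechLattice) (hn : sqNorm x = 32) (b : GolayPt)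
    (hb : x b = -4) :
    ∃ k t, k ≠ b ∧ (t = 4 ∨ t = -4) ∧ x = Pi.single b (-4) + Pi.single k t := by
  classical
  rcases (mem_leechLattice_iff x).mp hx with he | ho
  · have h4 : ∀ i, x i % 4 = 0 := by
      by_contra hne
      have hex : ∃ i, x i % 4 = 2 := by
        by_contra hne2
        apply hne
        intro i
        have h1 := he.1 i
        have h2 : ¬ x i % 4 = 2 := fun h' => hne2 ⟨i, h'⟩
        omega
      obtain ⟨O, E, hO, hE, hev, rfl⟩ := exists_fB hx hn he.1 hex
      rcases fB_cases O E hE b with ⟨_, _, e⟩ | ⟨_, _, e⟩ | ⟨_, _, e⟩ <;> omega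
    obtain ⟨s, P, hs, hP, rfl⟩ := exists_fA hn h4
    obtain ⟨p, q, hpq, rfl⟩ := Finset.card_eq_two.mp hs
    have hbs : b ∈ ({p, q} : Finset GolayPt) := by
      rcases fA_cases {p, q} P hP b with ⟨_, h, _⟩ | ⟨_, h, _⟩ | ⟨_, _, e⟩
      · exact h
      · exact h
      · omega
    have key : ∀ k, k ≠ b → ({p, q} : Finset GolayPt) = {b, k} →
        ∃ k t, k ≠ b ∧ (t = 4 ∨ t = -4) ∧
          fA ⟨{p, q}, P⟩ = Pi.single b (-4) + Pi.single k t := by
      intro k hkb hset
      have hks : k ∈ ({p, q} : Finset GolayPt) := by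
        rw [hset, Finset.mem_insert, Finset.mem_singleton]
        exact Or.inr rfl
      have ht : fA ⟨{p, q}, P⟩ k = 4 ∨ fA ⟨{p, q}, P⟩ k = -4 := by
        rcases fA_cases {p, q} P hP k with ⟨_, _, e⟩ | ⟨_, _, e⟩ | ⟨_, h, _⟩
        · exact Or.inl e
        · exact Or.inr e
        · exact absurd hks h
      refine ⟨k, fA ⟨{p, q}, P⟩ k, hkb, ht, ?_⟩
      funext i
      simp only [Pi.add_apply, Pi.single_apply]
      by_cases hib : i = b
      · rw [if_pos hib, if_neg (fun h : i = k => hkb (h.symm.trans hib)), add_zero, hib]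
        exact hb
      · by_cases hik : i = k
        · rw [if_neg hib, if_pos hik, zero_add, hik]
        · rw [if_neg hib, if_neg hik, add_zero]
          rcases fA_cases {p, q} P hP i with ⟨_, h, _⟩ | ⟨_, h, _⟩ | ⟨_, _, e⟩
          · rw [hset, Finset.mem_insert, Finset.mem_singleton] at h
            rcases h with h | h
            · exact absurd h hib
            · exact absurd h hik
          · rw [hset, Finset.mem_insert, Finset.mem_singleton] at h
            rcases h with h | h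
            · exact absurd h hib
            · exact absurd h hik
          · exact e
    rw [Finset.mem_insert, Finset.mem_singleton] at hbs
    rcases hbs with h | h
    · exact key q (fun hq => hpq (h.symm.trans hq.symm)) (by rw [h])
    · exact key p (fun hp => hpq (hp.trans h)) (by rw [h, Finset.pair_comm])
  · have := ho.1 b
    omega

theorem red16 (W : GolayPt → ℤ) (hW : W ∈ leechLattice) (hn : sqNorm W = 32) (ha : W qa = 0)
    (hb : W qb = -4) :
    ∃ σ ∈ M24, ∃ cc ∈ Supp, signedPerm σ cc (sv qa qb 4) = sv qa qb 4 ∧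
      signedPerm σ cc W = Pi.single qb (-4) + Pi.single qk 4 := by
  obtain ⟨k, t, hkb, ht, rfl⟩ := shapeA W hW hn qb hb
  have hka : k ≠ qa := by
    rintro rfl
    have e : (Pi.single qb (-4) + Pi.single qa t : GolayPt → ℤ) qa = t := by
      rw [Pi.add_apply, Pi.single_eq_of_ne qab, Pi.single_eq_same, zero_add]
    rw [e] at ha
    rcases ht with rfl | rfl <;> omega
  obtain ⟨σ, hσ, hmap⟩ := Cfsg.Agent.Lib_lead_M24Sets.transL [qa, qb, k] [qa, qb, qk]
    (by simp [qab, Ne.symm hka, Ne.symm hkb]) (by decide) rfl (by simp)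
  simp only [List.map_cons, List.map_nil, List.cons.injEq, and_true] at hmap
  obtain ⟨sa, sb, sk⟩ := hmap
  rcases ht with rfl | rfl
  · refine ⟨σ, hσ, ∅, empty_mem, ?_, ?_⟩
    · unfold sv
      rw [signedPerm_add, signedPerm_single, signedPerm_single, if_neg (Finset.notMem_empty _),
        if_neg (Finset.notMem_empty _), sa, sb]
    · rw [signedPerm_add, signedPerm_single, signedPerm_single, if_neg (Finset.notMem_empty _),
        if_neg (Finset.notMem_empty _), sb, sk]
  · refine ⟨σ, hσ, fsOf 3277413, (octads_sub Cfsg.Agent.Lib_lead_M24Oct.root_octad).1, ?_, ?_⟩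
    · unfold sv
      rw [signedPerm_add, signedPerm_single, signedPerm_single, sa, sb, if_neg qa_root,
        if_neg qb_root]
    · rw [signedPerm_add, signedPerm_single, signedPerm_single, sb, sk, if_neg qb_root,
        if_pos qk_root]
      norm_num

/-- the stabiliser of a minimal vector is transitive on the minimal vectors of inner product
`-16` with it -/
theorem trans16 (v w w' : ↥leechLattice) (hv : sqNorm (v : GolayPt → ℤ) = 32)
    (hw : sqNorm (w : GolayPt → ℤ) = 32) (hw' : sqNorm (w' : GolayPt → ℤ) = 32)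
    (hd : dotInt (v : GolayPt → ℤ) (w : GolayPt → ℤ) = -16)
    (hd' : dotInt (v : GolayPt → ℤ) (w' : GolayPt → ℤ) = -16) :
    ∃ g : ↥Co0, g • v = v ∧ g • w = w' :=
  trans_of_normal qa qb qab (-16) (Pi.single qb (-4) + Pi.single qk 4)
    (normal_of qa qb qab (-16) 16 0 (-4) _ (by norm_num) (by norm_num) exY16 red16)
    v w w' hv hw hw' hd hd'

end Cfsg.Agent.Lib_lead_LeechPair
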