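import Mathlib
import Cfsg.Prelude.Def_SporadicCombinatorics
import Cfsg.Agent.Lib_lead_LeechPair

/-! Pairs of minimal vectors of the rank-24 lattice with inner product `-8`. -/

set_option autoImplicit false

namespace Cfsg.Agent.Lib_lead_LeechPair8

open Cfsg Cfsg.Agent.Lib_lead_Golay Cfsg.Agent.Lib_lead_GolayPerm Cfsg.Agent.Lib_lead_Leech
  Cfsg.Agent.Lib_lead_Leech2 Cfsg.Agent.Lib_lead_M24 Cfsg.Agent.Lib_lead_LeechDot
  Cfsg.Agent.Lib_lead_LeechSym Cfsg.Agent.Lib_lead_MinVec Cfsg.Agent.Lib_lead_LeechInner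
  Cfsg.Agent.Lib_lead_LeechMono Cfsg.Agent.Lib_lead_LeechOrb Cfsg.Agent.Lib_lead_LeechFrame
  Cfsg.Agent.Lib_lead_LeechCenter Cfsg.Agent.Lib_lead_LeechOrth Cfsg.Agent.Lib_lead_LeechPair
  Cfsg.Agent.Lib_lead_M24Chain
open scoped Pointwise

/-- base points -/
def ra : GolayPt := ptN 0

/-- base points -/
def rb : GolayPt := ptN 1

theorem rab : ra ≠ rb := by decide

theorem ra_root : ra ∈ fsOf 3277413 := by
  rw [mem_fsOf]
  decide

theorem rb_root : rb ∉ fsOf 3277413 := by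
  rw [mem_fsOf]
  decide

theorem pick2 : ∀ j : GolayPt, ∃ k l : GolayPt,
    k ≠ l ∧ k ≠ j ∧ l ≠ j ∧ k ≠ ra ∧ k ≠ rb ∧ l ≠ ra ∧ l ≠ rb := by
  decide +kernel

theorem exY8 (W : GolayPt → ℤ) (hW : W ∈ leechLattice) (hn : sqNorm W = 32)
    (hd : dotInt (sv ra rb 4) W = -8) :
    ∃ Y ∈ leechLattice, sqNorm Y = 32 ∧ dotInt (sv ra rb 4) Y = 0 ∧ dotInt Y W = -8 := by
  classical
  rw [dot_sv] at hd
  have hsum : W ra + W rb = -2 := by linarith
  rcases (mem_leechLattice_iff W).mp hW with he | ho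
  · by_cases h4 : ∀ i, W i % 4 = 0
    · have h1 := h4 ra
      have h2 := h4 rb
      omega
    · have hex : ∃ i, W i % 4 = 2 := by
        by_contra hne
        apply h4
        intro i
        have h1 := he.1 i
        have h2 : ¬ W i % 4 = 2 := fun h' => hne ⟨i, h'⟩
        omega
      obtain ⟨O, E, hO, hE, hev, rfl⟩ := exists_fB hW hn he.1 hex
      have hc : (fB ⟨O, E⟩ ra = -2 ∧ fB ⟨O, E⟩ rb = 0) ∨
          (fB ⟨O, E⟩ ra = 0 ∧ fB ⟨O, E⟩ rb = -2) := by
        rcases fB_cases O E hE ra with ⟨_, _, e1⟩ | ⟨_, _, e1⟩ | ⟨_, _, e1⟩ <;>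
          rcases fB_cases O E hE rb with ⟨_, _, e2⟩ | ⟨_, _, e2⟩ | ⟨_, _, e2⟩ <;> omega
      rcases hc with ⟨e1, e2⟩ | ⟨e1, e2⟩
      · refine ⟨sv ra rb (-4), sv_mem _ _ _ (Or.inr rfl), sv_norm _ _ rab _ (Or.inr rfl), ?_, ?_⟩
        · rw [dot_sv, sv_left _ _ rab, sv_right _ _ rab]
          norm_num
        · rw [dot_sv, e1, e2]
          norm_num
      · refine ⟨sv rb ra (-4), sv_mem _ _ _ (Or.inr rfl), sv_norm _ _ (Ne.symm rab) _ (Or.inr rfl),
          ?_, ?_⟩
        · rw [dot_sv, sv_left _ _ (Ne.symm rab), sv_right _ _ (Ne.symm rab)]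
          norm_num
        · rw [dot_sv, e1, e2]
          norm_num
  · obtain ⟨C, hC, j, rfl⟩ := exists_fC hW hn ho.1
    obtain ⟨k, l, hkl, hkj, hlj, hka, hkb, hla, hlb⟩ := pick2 j
    have vals : ∀ i, i ≠ j → fC (C, j) i = 1 ∨ fC (C, j) i = -1 := by
      intro i hi
      rcases fC_cases C j i with ⟨_, _, e⟩ | ⟨_, _, e⟩ | ⟨h, _, _⟩ | ⟨h, _, _⟩
      · exact Or.inl e
      · exact Or.inr e
      · exact absurd h hi
      · exact absurd h hi
    have hx := vals k hkj
    have hy := vals l hlj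
    refine ⟨Pi.single k (-4 * fC (C, j) k) + Pi.single l (-4 * fC (C, j) l), ?_, ?_, ?_, ?_⟩
    · apply mem_of_four
      · intro i
        simp only [Pi.add_apply, Pi.single_apply]
        split_ifs <;> omega
      · have e : ∑ i, (Pi.single k (-4 * fC (C, j) k) + Pi.single l (-4 * fC (C, j) l) :
            GolayPt → ℤ) i = -4 * fC (C, j) k + -4 * fC (C, j) l := by
          simp [Finset.sum_add_distrib, Finset.sum_pi_single']
        rw [e]
        omega
    · rw [Cfsg.Agent.Lib_lead_LeechCross.sqNorm_add, sqNorm_single, sqNorm_single, dot_single,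
        Pi.single_eq_of_ne hkl]
      rcases hx with e | e <;> rcases hy with e' | e' <;> rw [e, e'] <;> norm_num
    · rw [dot_sv]
      simp only [Pi.add_apply, Pi.single_apply, if_neg (Ne.symm hka), if_neg (Ne.symm hla),
        if_neg (Ne.symm hkb), if_neg (Ne.symm hlb)]
      norm_num
    · rw [dot_add_left, dot_single, dot_single]
      rcases hx with e | e <;> rcases hy with e' | e' <;> rw [e, e'] <;> norm_num

/-- the vectors supported on an octad, with a prescribed permutation to the base octad -/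
theorem monoB' (O E : Finset GolayPt) (hE : E ⊆ O) (hev : Even E.card)
    (g : Equiv.Perm GolayPt) (hgO : g • fsOf 3277413 = O) :
    ∃ c ∈ Supp, flip c (fun i => fB ⟨O, E⟩ (g i)) = repV 3277413 0 2 0 0 := by
  classical
  have hmem : ∀ i, g i ∈ O ↔ i ∈ fsOf 3277413 := by
    intro i
    rw [← hgO]
    exact Finset.smul_mem_smul_finset_iff g
  have hur : ∀ i, fB ⟨O, E⟩ (g i) = repV 3277413 0 2 0 0 i ∨
      fB ⟨O, E⟩ (g i) = -repV 3277413 0 2 0 0 i := by
    intro i
    rw [repV_two]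
    rcases fB_cases O E hE (g i) with ⟨-, h2, e⟩ | ⟨-, h2, e⟩ | ⟨-, h2, e⟩
    · rw [if_pos ((hmem i).mp h2), e]
      right; rfl
    · rw [if_pos ((hmem i).mp h2), e]
      left; rfl
    · rw [if_neg (fun h => h2 ((hmem i).mpr h)), e]
      left; rfl
  have hEq : (fsOf 3277413).filter (fun i => fB ⟨O, E⟩ (g i) ≠ repV 3277413 0 2 0 0 i) =
      g⁻¹ • E := by
    ext i
    rw [Finset.mem_filter, Finset.mem_inv_smul_finset_iff, repV_two]
    constructor
    · rintro ⟨hi, hne⟩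
      rw [if_pos hi] at hne
      rcases fB_cases O E hE (g i) with ⟨h1, -, e⟩ | ⟨-, -, e⟩ | ⟨-, h2, e⟩
      · exact h1
      · exact absurd e hne
      · exact absurd ((hmem i).mpr hi) h2
    · intro hi
      have hi' : g i ∈ E := hi
      have hO' : i ∈ fsOf 3277413 := (hmem i).mp (hE hi')
      refine ⟨hO', ?_⟩
      rw [if_pos hO']
      rcases fB_cases O E hE (g i) with ⟨-, -, e⟩ | ⟨h1, -, e⟩ | ⟨h1, -, e⟩
      · rw [e]
        norm_num
      · exact absurd hi' h1
      · exact absurd hi' h1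
  have h8 : (fsOf 3277413).card = 8 := (octads_sub Cfsg.Agent.Lib_lead_M24Oct.root_octad).2
  obtain ⟨c, hc, hcE⟩ := exists_code_inter 3277413
    ((fsOf 3277413).powerset.filter (fun E => Even E.card)) wit8 nd8
    (fun k => Finset.mem_filter.mpr ⟨Finset.mem_powerset.mpr Finset.inter_subset_right, by
      have h1 : fsOf (M k) ∈ Supp := by
        rw [← supp_eq]
        exact Cfsg.Agent.Lib_lead_LeechCount.supp_W k
      exact even_card_inter h1 (octads_sub Cfsg.Agent.Lib_lead_M24Oct.root_octad).1⟩)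
    (by rw [card_even_subsets _ h8]; rfl)
    ((fsOf 3277413).filter (fun i => fB ⟨O, E⟩ (g i) ≠ repV 3277413 0 2 0 0 i))
    (Finset.mem_filter.mpr ⟨Finset.mem_powerset.mpr (Finset.filter_subset _ _), by
      rw [hEq, Finset.card_smul_finset]
      exact hev⟩)
  exact ⟨c, hc, flip_fix _ _ (fsOf 3277413) (fun i hi => by rw [repV_two, if_neg hi]) hur c hcE⟩

/-- the normal form -/
def R8 : GolayPt → ℤ := fun i => if i ∈ fsOf 3277413 then -2 else 0

theorem red8 (W : GolayPt → ℤ) (hW : W ∈ leechLattice) (hn : sqNorm W = 32) (ha : W ra = -2)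
    (hb : W rb = 0) :
    ∃ σ ∈ M24, ∃ cc ∈ Supp, signedPerm σ cc (sv ra rb 4) = sv ra rb 4 ∧
      signedPerm σ cc W = R8 := by
  classical
  have he : ∀ i, W i % 2 = 0 := by
    rcases (mem_leechLattice_iff W).mp hW with he | ho
    · exact he.1
    · have := ho.1 ra
      omega
  obtain ⟨O, E, hO, hE, hev, rfl⟩ := exists_fB hW hn he ⟨ra, by rw [ha]; rfl⟩
  have haO : ra ∈ O := by
    rcases fB_cases O E hE ra with ⟨_, h, _⟩ | ⟨_, h, _⟩ | ⟨_, _, e⟩
    · exact h
    · exact h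
    · omega
  have hbO : rb ∉ O := by
    rcases fB_cases O E hE rb with ⟨_, _, e⟩ | ⟨_, _, e⟩ | ⟨_, h, _⟩
    · omega
    · omega
    · exact h
  obtain ⟨g, hg, hgO, hga, hgb⟩ := Cfsg.Agent.Lib_lead_OctConfig.config11 O hO ra rb haO hbO
  have hga' : g ra = ra := hga
  have hgb' : g rb = rb := hgb
  obtain ⟨c, hc, hflip⟩ := monoB' O E hE hev g hgO
  have hpt : ∀ i, (if i ∈ c then -fB ⟨O, E⟩ (g i) else fB ⟨O, E⟩ (g i))
      = if i ∈ fsOf 3277413 then 2 else 0 := by
    intro i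
    have := congrFun hflip i
    rw [repV_two] at this
    exact this
  have hac : ra ∈ c := by
    by_contra hna
    have := hpt ra
    rw [if_neg hna, if_pos ra_root, hga', ha] at this
    omega
  have hcc : ∃ cc ∈ Supp, rb ∉ cc ∧ ∀ i, i ∈ fsOf 3277413 → (i ∈ cc ↔ i ∉ c) := by
    have hRc : (fsOf 3277413)ᶜ ∈ Supp :=
      compl_mem (octads_sub Cfsg.Agent.Lib_lead_M24Oct.root_octad).1
    by_cases hbc : rb ∈ c
    · exact ⟨cᶜ, compl_mem hc, fun h => (Finset.mem_compl.mp h) hbc, fun i _ => Finset.mem_compl⟩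
    · refine ⟨symmDiff cᶜ (fsOf 3277413)ᶜ, symmDiff_mem (compl_mem hc) hRc, ?_, ?_⟩
      · rw [Finset.mem_symmDiff]
        rintro (⟨_, h2⟩ | ⟨_, h2⟩)
        · exact h2 (Finset.mem_compl.mpr rb_root)
        · exact h2 (Finset.mem_compl.mpr hbc)
      · intro i hi
        rw [Finset.mem_symmDiff, Finset.mem_compl, Finset.mem_compl]
        constructor
        · rintro (⟨h1, _⟩ | ⟨h1, _⟩)
          · exact h1
          · exact absurd hi h1
        · intro h
          exact Or.inl ⟨h, fun h2 => h2 hi⟩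
  obtain ⟨cc, hccS, hbcc, hiff⟩ := hcc
  have hacc : ra ∉ cc := fun h => ((hiff ra ra_root).mp h) hac
  refine ⟨g⁻¹, M24.inv_mem hg, cc, hccS, ?_, ?_⟩
  · unfold sv
    have e1 : g⁻¹ ra = ra := by
      rw [Equiv.Perm.inv_eq_iff_eq]
      exact hga'.symm
    have e2 : g⁻¹ rb = rb := by
      rw [Equiv.Perm.inv_eq_iff_eq]
      exact hgb'.symm
    rw [signedPerm_add, signedPerm_single, signedPerm_single, e1, e2, if_neg hacc, if_neg hbcc]
  · funext i
    show (if i ∈ cc then -fB ⟨O, E⟩ (g i) else fB ⟨O, E⟩ (g i)) = R8 i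
    unfold R8
    have h := hpt i
    by_cases hi : i ∈ fsOf 3277413
    · rw [if_pos hi] at h ⊢
      by_cases hic : i ∈ c
      · rw [if_pos hic] at h
        rw [if_neg (fun h' => ((hiff i hi).mp h') hic)]
        omega
      · rw [if_neg hic] at h
        rw [if_pos ((hiff i hi).mpr hic)]
        omega
    · rw [if_neg hi] at h ⊢
      split_ifs at h ⊢ <;> omega

/-- the stabiliser of a minimal vector is transitive on the minimal vectors of inner product
`-8` with it -/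
theorem trans8 (v w w' : ↥leechLattice) (hv : sqNorm (v : GolayPt → ℤ) = 32)
    (hw : sqNorm (w : GolayPt → ℤ) = 32) (hw' : sqNorm (w' : GolayPt → ℤ) = 32)
    (hd : dotInt (v : GolayPt → ℤ) (w : GolayPt → ℤ) = -8)
    (hd' : dotInt (v : GolayPt → ℤ) (w' : GolayPt → ℤ) = -8) :
    ∃ g : ↥Co0, g • v = v ∧ g • w = w' :=
  trans_of_normal ra rb rab (-8) R8
    (normal_of ra rb rab (-8) (-8) (-2) 0 R8 (by norm_num) (by norm_num) exY8 red8)
    v w w' hv hw hw' hd hd'

/-- the stabiliser of a vector of sum of squares 48 is transitive on its decompositions into two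
minimal vectors -/
theorem trans552 (u v v' : ↥leechLattice) (hu : sqNorm (u : GolayPt → ℤ) = 48)
    (hv : sqNorm (v : GolayPt → ℤ) = 32 ∧ sqNorm ((u - v : ↥leechLattice) : GolayPt → ℤ) = 32)
    (hv' : sqNorm (v' : GolayPt → ℤ) = 32 ∧
      sqNorm ((u - v' : ↥leechLattice) : GolayPt → ℤ) = 32) :
    ∃ g : ↥Co0, g • u = u ∧ g • v = v' := by
  have dotf : ∀ x : ↥leechLattice, sqNorm (x : GolayPt → ℤ) = 32 →
      sqNorm ((u - x : ↥leechLattice) : GolayPt → ℤ) = 32 →
      dotInt (x : GolayPt → ℤ) ((u - x : ↥leechLattice) : GolayPt → ℤ) = -8 := by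
    intro x h1 h2
    have e : sqNorm ((x : GolayPt → ℤ) + ((u - x : ↥leechLattice) : GolayPt → ℤ)) = 48 := by
      have e' : (x : GolayPt → ℤ) + ((u - x : ↥leechLattice) : GolayPt → ℤ) = (u : GolayPt → ℤ) := by
        show (x : GolayPt → ℤ) + ((u : GolayPt → ℤ) - (x : GolayPt → ℤ)) = (u : GolayPt → ℤ)
        abel
      rw [e']
      exact hu
    rw [Cfsg.Agent.Lib_lead_LeechCross.sqNorm_add, h1, h2] at e
    linarith
  obtain ⟨h, hh⟩ := min_trans v v' hv.1 hv'.1
  have d1 : dotInt (v' : GolayPt → ℤ) ((h • (u - v) : ↥leechLattice) : GolayPt → ℤ) = -8 := by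
    have := co_dot h v (u - v)
    rw [hh] at this
    exact this.trans (dotf v hv.1 hv.2)
  obtain ⟨g, hg1, hg2⟩ := trans8 v' (h • (u - v)) (u - v') hv'.1
    ((co_norm h (u - v)).trans hv.2) hv'.2 d1 (dotf v' hv'.1 hv'.2)
  refine ⟨g * h, ?_, ?_⟩
  · have key : (g * h) • (v + (u - v)) = v' + (u - v') := by
      rw [co_add, mul_smul, mul_smul, hh, hg1, hg2]
    have eu : v + (u - v) = u := by abel
    rw [eu] at key
    rw [key]
    abel
  · rw [mul_smul, hh, hg1]

end Cfsg.Agent.Lib_lead_LeechPair8
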