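import Mathlib
import Cfsg.Prelude.Def_SporadicCombinatorics
import Cfsg.Agent.Lib_lead_LeechPair8
import Cfsg.Agent.Lib_lead_LeechOrb48

/-! Pairs of a vector of sum of squares 48 and a minimal vector of the rank-24 lattice with
inner product `-16`. -/

set_option autoImplicit false

namespace Cfsg.Agent.Lib_lead_LeechHS

open Cfsg Cfsg.Agent.Lib_lead_Golay Cfsg.Agent.Lib_lead_GolayPerm Cfsg.Agent.Lib_lead_Leech
  Cfsg.Agent.Lib_lead_Leech2 Cfsg.Agent.Lib_lead_M24 Cfsg.Agent.Lib_lead_LeechDot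
  Cfsg.Agent.Lib_lead_LeechSym Cfsg.Agent.Lib_lead_MinVec Cfsg.Agent.Lib_lead_LeechInner
  Cfsg.Agent.Lib_lead_LeechMono Cfsg.Agent.Lib_lead_LeechOrb Cfsg.Agent.Lib_lead_LeechFrame
  Cfsg.Agent.Lib_lead_LeechCenter Cfsg.Agent.Lib_lead_LeechOrth Cfsg.Agent.Lib_lead_LeechPair
  Cfsg.Agent.Lib_lead_M24Chain Cfsg.Agent.Lib_lead_LeechPair8 Cfsg.Agent.Lib_lead_LeechDotL
  Cfsg.Agent.Lib_lead_LeechDotNums2 Cfsg.Agent.Lib_lead_LeechOrb48 Cfsg.Agent.Lib_lead_LeechXi
open scoped Pointwise

/-- the base vector of sum of squares 48 -/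
def U0 : GolayPt → ℤ := fun i => if i = ra then 5 else 1

theorem U0_eq : valL partsd = U0 := by
  funext i
  revert i
  decide

theorem dotU (w : GolayPt → ℤ) : dotInt U0 w = 4 * w ra + ∑ i, w i := by
  unfold dotInt U0
  have h : ∀ i : GolayPt, (if i = ra then (5 : ℤ) else 1) * w i
      = w i + (if i = ra then 4 * w i else 0) := by
    intro i
    split_ifs <;> ring
  rw [Finset.sum_congr rfl (fun i _ => h i), Finset.sum_add_distrib,
    Finset.sum_ite_eq' Finset.univ ra, if_pos (Finset.mem_univ ra)]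
  ring

/-- the vector with one coordinate `-3` and the others `1` -/
def JM (m : GolayPt) : GolayPt → ℤ := fun i => if i = m then -3 else 1

theorem dotJ (m : GolayPt) (w : GolayPt → ℤ) : dotInt (JM m) w = ∑ i, w i - 4 * w m := by
  unfold dotInt JM
  have h : ∀ i : GolayPt, (if i = m then (-3 : ℤ) else 1) * w i
      = w i + (if i = m then -4 * w i else 0) := by
    intro i
    split_ifs <;> ring
  rw [Finset.sum_congr rfl (fun i _ => h i), Finset.sum_add_distrib,
    Finset.sum_ite_eq' Finset.univ m, if_pos (Finset.mem_univ m)]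
  ring

theorem JM_eq (m : GolayPt) : JM m = fC (Finset.univ, m) := by
  funext i
  unfold JM fC
  simp only [Finset.mem_univ, if_true]
  split_ifs <;> norm_num

theorem JM_mem (m : GolayPt) : JM m ∈ leechLattice ∧ sqNorm (JM m) = 32 := by
  rw [JM_eq]
  exact fC_mem _ univ_mem m

theorem JM_sum (m : GolayPt) : ∑ i, JM m i = 20 := by
  rw [JM_eq, fC_sum, if_pos (Finset.mem_univ m), Finset.card_univ, card_golayPt]
  norm_num

theorem sv_sum (a b : GolayPt) (t : ℤ) : ∑ i, sv a b t i = 4 + t := by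
  unfold sv
  simp [Finset.sum_add_distrib, Finset.sum_pi_single']

/-- an auxiliary minimal vector orthogonal to `x` whose difference from the base vector is
minimal -/
theorem exB (x : GolayPt → ℤ) (hx : x ∈ leechLattice) (hn : sqNorm x = 32)
    (hd : dotInt U0 x = -16) :
    ∃ b ∈ leechLattice, sqNorm b = 32 ∧ dotInt b x = 0 ∧ dotInt U0 b = 24 := by
  classical
  rw [dotU] at hd
  have bsv : ∀ k, k ≠ ra → x k = -x ra →
      ∃ b ∈ leechLattice, sqNorm b = 32 ∧ dotInt b x = 0 ∧ dotInt U0 b = 24 := by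
    intro k hk hxk
    refine ⟨sv ra k 4, sv_mem _ _ _ (Or.inl rfl), sv_norm _ _ (Ne.symm hk) _ (Or.inl rfl), ?_, ?_⟩
    · rw [dot_sv, hxk]
      ring
    · rw [dotU, sv_left _ _ (Ne.symm hk), sv_sum]
      norm_num
  have bJM : ∀ m, m ≠ ra → 4 * x m = ∑ i, x i →
      ∃ b ∈ leechLattice, sqNorm b = 32 ∧ dotInt b x = 0 ∧ dotInt U0 b = 24 := by
    intro m hm hxm
    refine ⟨JM m, (JM_mem m).1, (JM_mem m).2, ?_, ?_⟩
    · rw [dotJ]
      linarith
    · rw [dotU, JM_sum]
      unfold JM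
      rw [if_neg (Ne.symm hm)]
      norm_num
  rcases (mem_leechLattice_iff x).mp hx with he | ho
  · by_cases h4 : ∀ i, x i % 4 = 0
    · obtain ⟨s, P, hs, hP, hxe⟩ := exists_fA hn h4
      have hS : ∑ i, x i = 8 * (P.card : ℤ) - 8 := by
        rw [← hxe, fA_sum s P hP, hs]
        norm_num
      have h1 := h4 ra
      have h3 := coord_bound hn ra
      have hra : x ra = -4 := by omega
      obtain ⟨k, t, hk, ht, hxe2⟩ := shapeA x hx hn ra hra
      have hS2 : ∑ i, x i = -4 + t := by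
        rw [hxe2]
        simp [Finset.sum_add_distrib, Finset.sum_pi_single']
      have hxk : x k = t := by
        rw [hxe2, Pi.add_apply, Pi.single_eq_of_ne hk, Pi.single_eq_same, zero_add]
      exact bsv k hk (by rw [hxk, hra]; linarith)
    · have hex : ∃ i, x i % 4 = 2 := by
        by_contra hne
        apply h4
        intro i
        have h1 := he.1 i
        have h2 : ¬ x i % 4 = 2 := fun h' => hne ⟨i, h'⟩
        omega
      obtain ⟨O, E, hO, hE, hev, hxe⟩ := exists_fB hx hn he.1 hex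
      have hO8 := (octads_sub hO).2
      have hS : ∑ i, x i = 16 - 4 * (E.card : ℤ) := by
        rw [← hxe, fB_sum O E hE, hO8]
        norm_num
      have hEle : E.card ≤ 8 := hO8 ▸ Finset.card_le_card hE
      have hval : ∀ i, x i = fB ⟨O, E⟩ i := fun i => by rw [hxe]
      rcases fB_cases O E hE ra with ⟨h1, h2, e⟩ | ⟨h1, h2, e⟩ | ⟨h1, h2, e⟩
      · have hra : x ra = -2 := (hval ra).trans e
        have hE6 : E.card < O.card := by
          rw [hO8]
          omega
        obtain ⟨k, hkO, hkE⟩ := Finset.exists_mem_notMem_of_card_lt_card hE6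
        have hxk : x k = 2 := by
          rcases fB_cases O E hE k with ⟨h, _, _⟩ | ⟨_, _, e'⟩ | ⟨_, h, _⟩
          · exact absurd h hkE
          · exact (hval k).trans e'
          · exact absurd hkO h
        exact bsv k (fun h => hkE (by rw [h]; exact h1)) (by rw [hxk, hra]; norm_num)
      · have hra : x ra = 2 := (hval ra).trans e
        omega
      · have hra : x ra = 0 := (hval ra).trans e
        have hc : (insert ra O).card < (Finset.univ : Finset GolayPt).card := by
          have := Finset.card_insert_le ra O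
          rw [Finset.card_univ, card_golayPt]
          omega
        obtain ⟨k, _, hk⟩ := Finset.exists_mem_notMem_of_card_lt_card hc
        rw [Finset.mem_insert, not_or] at hk
        have hxk : x k = 0 := by
          rcases fB_cases O E hE k with ⟨_, h, _⟩ | ⟨_, h, _⟩ | ⟨_, _, e'⟩
          · exact absurd h hk.2
          · exact absurd h hk.2
          · exact (hval k).trans e'
        exact bsv k hk.1 (by rw [hxk, hra]; norm_num)
  · obtain ⟨C, hC, j, hxe⟩ := exists_fC hx hn ho.1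
    have hval : ∀ i, x i = fC (C, j) i := fun i => by rw [hxe]
    have hS : ∑ i, x i = 2 * (C.card : ℤ) - 24 + (if j ∈ C then -4 else 4) := by
      rw [← hxe, fC_sum]
    have hcard := card_mem hC
    rcases fC_cases C j ra with ⟨h1, h2, e⟩ | ⟨h1, h2, e⟩ | ⟨h1, h2, e⟩ | ⟨h1, h2, e⟩
    · have hra : x ra = 1 := (hval ra).trans e
      have hpos : 0 < C.card := Finset.card_pos.mpr ⟨ra, h2⟩
      split_ifs at hS <;> omega
    · have hra : x ra = -1 := (hval ra).trans e
      by_cases hjC : j ∈ C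
      · rw [if_pos hjC] at hS
        have hxj : x j = -3 := by
          rcases fC_cases C j j with ⟨h, _, _⟩ | ⟨h, _, _⟩ | ⟨_, _, e'⟩ | ⟨_, h, _⟩
          · exact absurd rfl h
          · exact absurd rfl h
          · exact (hval j).trans e'
          · exact absurd hjC h
        exact bJM j (Ne.symm h1) (by rw [hxj]; linarith)
      · rw [if_neg hjC] at hS
        omega
    · have hra : x ra = -3 := (hval ra).trans e
      rw [← h1, if_pos h2] at hS
      have hc : C.card < (Finset.univ : Finset GolayPt).card := by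
        rw [Finset.card_univ, card_golayPt]
        omega
      obtain ⟨m, _, hm⟩ := Finset.exists_mem_notMem_of_card_lt_card hc
      have hmj : m ≠ j := fun h => hm (by rw [h, ← h1]; exact h2)
      have hxm : x m = -1 := by
        rcases fC_cases C j m with ⟨_, h, _⟩ | ⟨_, _, e'⟩ | ⟨h, _, _⟩ | ⟨h, _, _⟩
        · exact absurd h hm
        · exact (hval m).trans e'
        · exact absurd h hmj
        · exact absurd h hmj
      exact bJM m (by rw [h1]; exact hmj) (by rw [hxm]; linarith)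
    · have hra : x ra = 3 := (hval ra).trans e
      rw [← h1, if_neg h2] at hS
      omega

theorem fC_at (C : Finset GolayPt) (j : GolayPt) (hj : j ∈ C) : fC (C, j) j = -3 := by
  rcases fC_cases C j j with ⟨h, _, _⟩ | ⟨h, _, _⟩ | ⟨_, _, e⟩ | ⟨_, h, _⟩
  · exact absurd rfl h
  · exact absurd rfl h
  · exact e
  · exact absurd hj h

theorem fC_in (C : Finset GolayPt) (j i : GolayPt) (hij : i ≠ j) (hi : i ∈ C) :
    fC (C, j) i = 1 := by
  rcases fC_cases C j i with ⟨_, _, e⟩ | ⟨_, h, _⟩ | ⟨h, _, _⟩ | ⟨h, _, _⟩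
  · exact e
  · exact absurd hi h
  · exact absurd h hij
  · exact absurd h hij

theorem fC_out (C : Finset GolayPt) (j i : GolayPt) (hij : i ≠ j) (hi : i ∉ C) :
    fC (C, j) i = -1 := by
  rcases fC_cases C j i with ⟨_, h, _⟩ | ⟨_, _, e⟩ | ⟨h, _, _⟩ | ⟨h, _, _⟩
  · exact absurd h hi
  · exact e
  · exact absurd h hij
  · exact absurd h hij

/-- the normal form of the third vector -/
def A0 : GolayPt → ℤ := fC (fsOf 3277413, ra)

/-- triples of minimal vectors with inner products `0`, `-16`, `-8` have a normal form -/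
theorem triple_normal (x b a : ↥leechLattice) (hx : sqNorm (x : GolayPt → ℤ) = 32)
    (hb : sqNorm (b : GolayPt → ℤ) = 32) (ha : sqNorm (a : GolayPt → ℤ) = 32)
    (hxb : dotInt (x : GolayPt → ℤ) (b : GolayPt → ℤ) = 0)
    (hxa : dotInt (x : GolayPt → ℤ) (a : GolayPt → ℤ) = -16)
    (hba : dotInt (b : GolayPt → ℤ) (a : GolayPt → ℤ) = -8) :
    ∃ g : ↥Co0, ((g • x : ↥leechLattice) : GolayPt → ℤ) = sv ra rb 4 ∧
      ((g • b : ↥leechLattice) : GolayPt → ℤ) = sv ra rb (-4) ∧
      ((g • a : ↥leechLattice) : GolayPt → ℤ) = A0 := by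
  classical
  obtain ⟨g1, h1, h2⟩ := orth_pair' ra rb rab x b hx hb hxb
  have d1 : dotInt (sv ra rb 4) ((g1 • a : ↥leechLattice) : GolayPt → ℤ) = -16 := by
    have := co_dot g1 x a
    rw [h1] at this
    exact this.trans hxa
  have d2 : dotInt (sv ra rb (-4)) ((g1 • a : ↥leechLattice) : GolayPt → ℤ) = -8 := by
    have := co_dot g1 b a
    rw [h2] at this
    exact this.trans hba
  rw [dot_sv] at d1 d2
  have hna : sqNorm ((g1 • a : ↥leechLattice) : GolayPt → ℤ) = 32 := (co_norm g1 a).trans ha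
  obtain ⟨y, hy⟩ : ∃ y, y = ((g1 • a : ↥leechLattice) : GolayPt → ℤ) := ⟨_, rfl⟩
  have hmem : y ∈ leechLattice := by
    rw [hy]
    exact (g1 • a).2
  rw [← hy] at d1 d2 hna
  have e1 : y ra = -3 := by linarith
  have e2 : y rb = -1 := by linarith
  have hodd : ∀ i, y i % 2 = 1 := by
    rcases (mem_leechLattice_iff y).mp hmem with he | ho
    · have := he.1 ra
      omega
    · exact ho.1
  obtain ⟨C, hC, j, hxe⟩ := exists_fC hmem hna hodd
  have hj : j = ra ∧ ra ∈ C := by
    rcases fC_cases C j ra with ⟨_, _, e⟩ | ⟨_, _, e⟩ | ⟨h, h', _⟩ | ⟨_, _, e⟩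
    · rw [hxe] at e
      omega
    · rw [hxe] at e
      omega
    · exact ⟨h.symm, h'⟩
    · rw [hxe] at e
      omega
  obtain ⟨rfl, haC⟩ := hj
  have hbC : rb ∉ C := by
    rcases fC_cases C ra rb with ⟨_, _, e⟩ | ⟨_, h, _⟩ | ⟨h, _, _⟩ | ⟨h, _, _⟩
    · rw [hxe] at e
      omega
    · exact h
    · exact absurd h.symm rab
    · exact absurd h.symm rab
  have hR := (octads_sub Cfsg.Agent.Lib_lead_M24Oct.root_octad).1
  have hcc : symmDiff C (fsOf 3277413) ∈ Supp := symmDiff_mem hC hR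
  have hacc : ra ∉ symmDiff C (fsOf 3277413) := by
    rw [Finset.mem_symmDiff]
    rintro (⟨_, h⟩ | ⟨_, h⟩)
    · exact h ra_root
    · exact h haC
  have hbcc : rb ∉ symmDiff C (fsOf 3277413) := by
    rw [Finset.mem_symmDiff]
    rintro (⟨h, _⟩ | ⟨h, _⟩)
    · exact hbC h
    · exact rb_root h
  refine ⟨⟨mono 1 (Subgroup.one_mem _) _ hcc, mono_mem _ _ _ _⟩ * g1, ?_, ?_, ?_⟩
  · rw [mul_smul]
    show signedPerm 1 _ ((g1 • x : ↥leechLattice) : GolayPt → ℤ) = sv ra rb 4
    rw [h1]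
    unfold sv
    rw [signedPerm_add, signedPerm_single, signedPerm_single, Equiv.Perm.one_apply,
      Equiv.Perm.one_apply, if_neg hacc, if_neg hbcc]
  · rw [mul_smul]
    show signedPerm 1 _ ((g1 • b : ↥leechLattice) : GolayPt → ℤ) = sv ra rb (-4)
    rw [h2]
    unfold sv
    rw [signedPerm_add, signedPerm_single, signedPerm_single, Equiv.Perm.one_apply,
      Equiv.Perm.one_apply, if_neg hacc, if_neg hbcc]
  · rw [mul_smul]
    show signedPerm 1 _ ((g1 • a : ↥leechLattice) : GolayPt → ℤ) = A0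
    rw [← hy, ← hxe]
    funext i
    show (if i ∈ symmDiff C (fsOf 3277413) then -fC (C, ra) i else fC (C, ra) i)
      = fC (fsOf 3277413, ra) i
    by_cases hi : i = ra
    · rw [hi, if_neg hacc, fC_at C ra haC, fC_at _ ra ra_root]
    · by_cases hiC : i ∈ C <;> by_cases hiR : i ∈ fsOf 3277413
      · rw [if_neg (fun h => by
          rw [Finset.mem_symmDiff] at h
          rcases h with ⟨_, h⟩ | ⟨_, h⟩
          · exact h hiR
          · exact h hiC), fC_in C ra i hi hiC, fC_in _ ra i hi hiR]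
      · rw [if_pos (Finset.mem_symmDiff.mpr (Or.inl ⟨hiC, hiR⟩)), fC_in C ra i hi hiC,
          fC_out _ ra i hi hiR]
      · rw [if_pos (Finset.mem_symmDiff.mpr (Or.inr ⟨hiR, hiC⟩)), fC_out C ra i hi hiC,
          fC_in _ ra i hi hiR]
        norm_num
      · rw [if_neg (fun h => by
          rw [Finset.mem_symmDiff] at h
          rcases h with ⟨h, _⟩ | ⟨h, _⟩
          · exact hiC h
          · exact hiR h), fC_out C ra i hi hiC, fC_out _ ra i hi hiR]

theorem dot_comm' (x y : GolayPt → ℤ) : dotInt x y = dotInt y x := by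
  unfold dotInt
  apply Finset.sum_congr rfl
  intro i _
  ring

theorem dot_sub_right' (x y z : GolayPt → ℤ) : dotInt x (y - z) = dotInt x y - dotInt x z := by
  unfold dotInt
  rw [← Finset.sum_sub_distrib]
  apply Finset.sum_congr rfl
  intro i _
  simp only [Pi.sub_apply]
  ring

theorem dot_self (x : GolayPt → ℤ) : dotInt x x = sqNorm x := by
  unfold dotInt sqNorm
  apply Finset.sum_congr rfl
  intro i _
  ring

theorem U0_norm : sqNorm U0 = 48 := U0_eq ▸ rd_norm

/-- the normal form of the vector of sum of squares 48 -/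
def U1 : GolayPt → ℤ := A0 + sv ra rb (-4)

/-- pairs of a vector of sum of squares 48 and a minimal vector with inner product `-16` have a
normal form -/
theorem pair_normal (u x : ↥leechLattice) (hu : sqNorm (u : GolayPt → ℤ) = 48)
    (hx : sqNorm (x : GolayPt → ℤ) = 32)
    (hd : dotInt (u : GolayPt → ℤ) (x : GolayPt → ℤ) = -16) :
    ∃ g : ↥Co0, ((g • u : ↥leechLattice) : GolayPt → ℤ) = U1 ∧
      ((g • x : ↥leechLattice) : GolayPt → ℤ) = sv ra rb 4 := by
  obtain ⟨h, hh⟩ := trans48 u ⟨valL partsd, of_chk rd_chk⟩ hu rd_norm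
  have hh' : ((h • u : ↥leechLattice) : GolayPt → ℤ) = U0 := by
    rw [hh]
    exact U0_eq
  have d1 : dotInt U0 ((h • x : ↥leechLattice) : GolayPt → ℤ) = -16 := by
    have := co_dot h u x
    rw [hh'] at this
    exact this.trans hd
  obtain ⟨b, hbL, hbn, hbx, hUb⟩ := exB _ (h • x).2 ((co_norm h x).trans hx) d1
  have han : sqNorm ((h • u - ⟨b, hbL⟩ : ↥leechLattice) : GolayPt → ℤ) = 32 := by
    show sqNorm (((h • u : ↥leechLattice) : GolayPt → ℤ) - b) = 32
    rw [hh', Cfsg.Agent.Lib_lead_LeechRed.sqNorm_sub, hbn, hUb, U0_norm]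
    norm_num
  have hxa : dotInt ((h • x : ↥leechLattice) : GolayPt → ℤ)
      ((h • u - ⟨b, hbL⟩ : ↥leechLattice) : GolayPt → ℤ) = -16 := by
    show dotInt ((h • x : ↥leechLattice) : GolayPt → ℤ)
      (((h • u : ↥leechLattice) : GolayPt → ℤ) - b) = -16
    rw [hh', dot_sub_right', dot_comm' _ U0, d1, dot_comm' _ b, hbx]
    norm_num
  have hba : dotInt b ((h • u - ⟨b, hbL⟩ : ↥leechLattice) : GolayPt → ℤ) = -8 := by
    show dotInt b (((h • u : ↥leechLattice) : GolayPt → ℤ) - b) = -8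
    rw [hh', dot_sub_right', dot_comm' b U0, hUb, dot_self, hbn]
    norm_num
  obtain ⟨g, t1, t2, t3⟩ := triple_normal (h • x) ⟨b, hbL⟩ (h • u - ⟨b, hbL⟩)
    ((co_norm h x).trans hx) hbn han (by rw [dot_comm']; exact hbx) hxa hba
  refine ⟨g * h, ?_, ?_⟩
  · have e : h • u = (h • u - ⟨b, hbL⟩) + ⟨b, hbL⟩ := by abel
    rw [mul_smul, e, co_add]
    show ((g • (h • u - ⟨b, hbL⟩) : ↥leechLattice) : GolayPt → ℤ)
      + ((g • (⟨b, hbL⟩ : ↥leechLattice) : ↥leechLattice) : GolayPt → ℤ) = U1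
    rw [t3, t2]
    rfl
  · rw [mul_smul]
    exact t1

/-- the automorphism group is transitive on the pairs of a vector of sum of squares 48 and a
minimal vector with inner product `-16` -/
theorem trans_pair (u u' x x' : ↥leechLattice) (hu : sqNorm (u : GolayPt → ℤ) = 48)
    (hu' : sqNorm (u' : GolayPt → ℤ) = 48) (hx : sqNorm (x : GolayPt → ℤ) = 32)
    (hx' : sqNorm (x' : GolayPt → ℤ) = 32)
    (hd : dotInt (u : GolayPt → ℤ) (x : GolayPt → ℤ) = -16)
    (hd' : dotInt (u' : GolayPt → ℤ) (x' : GolayPt → ℤ) = -16) :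
    ∃ g : ↥Co0, g • u = u' ∧ g • x = x' := by
  obtain ⟨g1, a1, b1⟩ := pair_normal u x hu hx hd
  obtain ⟨g2, a2, b2⟩ := pair_normal u' x' hu' hx' hd'
  refine ⟨g2⁻¹ * g1, ?_, ?_⟩
  · rw [mul_smul, inv_smul_eq_iff]
    exact Subtype.ext (a1.trans a2.symm)
  · rw [mul_smul, inv_smul_eq_iff]
    exact Subtype.ext (b1.trans b2.symm)

set_option maxRecDepth 100000 in
theorem alld16 : ∀ p ∈ [((-16 : ℤ), 36992, 11178)], {w : GolayPt → ℤ | w ∈ leechLattice ∧
    sqNorm w = 32 ∧ dotInt (valL partsd) w = p.1}.ncard = p.2.2 :=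
  main_evalL partsd (by decide) Td (by decide) [((-16 : ℤ), 36992, 11178)]
    (by decide +kernel) (by decide +kernel)

theorem cnt_sub (v : GolayPt → ℤ) (n d : ℤ) :
    {x : ↥leechLattice | sqNorm (x : GolayPt → ℤ) = n ∧ dotInt v (x : GolayPt → ℤ) = d}.ncard
      = {w : GolayPt → ℤ | w ∈ leechLattice ∧ sqNorm w = n ∧ dotInt v w = d}.ncard := by
  rw [← Set.ncard_image_of_injective _ Subtype.val_injective]
  congr 1
  ext w
  constructor
  · rintro ⟨x, ⟨h1, h2⟩, rfl⟩
    exact ⟨x.2, h1, h2⟩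
  · rintro ⟨hw, h1, h2⟩
    exact ⟨⟨w, hw⟩, ⟨h1, h2⟩, rfl⟩

theorem cnt_co (g : ↥Co0) (u : ↥leechLattice) (n d : ℤ) :
    {x : ↥leechLattice | sqNorm (x : GolayPt → ℤ) = n ∧
      dotInt ((g • u : ↥leechLattice) : GolayPt → ℤ) (x : GolayPt → ℤ) = d}.ncard
      = {x : ↥leechLattice | sqNorm (x : GolayPt → ℤ) = n ∧
        dotInt (u : GolayPt → ℤ) (x : GolayPt → ℤ) = d}.ncard := by
  have himg : (fun x : ↥leechLattice => g • x) '' {x : ↥leechLattice |
      sqNorm (x : GolayPt → ℤ) = n ∧ dotInt (u : GolayPt → ℤ) (x : GolayPt → ℤ) = d}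
      = {x : ↥leechLattice | sqNorm (x : GolayPt → ℤ) = n ∧
        dotInt ((g • u : ↥leechLattice) : GolayPt → ℤ) (x : GolayPt → ℤ) = d} := by
    ext y
    constructor
    · rintro ⟨x, ⟨h1, h2⟩, rfl⟩
      exact ⟨(co_norm g x).trans h1, (co_dot g u x).trans h2⟩
    · rintro ⟨h1, h2⟩
      refine ⟨g⁻¹ • y, ⟨?_, ?_⟩, smul_inv_smul g y⟩
      · exact (co_norm g⁻¹ y).trans h1
      · have := co_dot g u (g⁻¹ • y)
        rw [smul_inv_smul] at this
        exact this.symm.trans h2
  rw [← himg, Set.ncard_image_of_injective _ (MulAction.injective g)]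

/-- the number of minimal vectors of inner product `-16` with a vector of sum of squares 48 -/
theorem count16 (u : ↥leechLattice) (hu : sqNorm (u : GolayPt → ℤ) = 48) :
    {x : ↥leechLattice | sqNorm (x : GolayPt → ℤ) = 32 ∧
      dotInt (u : GolayPt → ℤ) (x : GolayPt → ℤ) = -16}.ncard = 11178 := by
  obtain ⟨h, hh⟩ := trans48 u ⟨valL partsd, of_chk rd_chk⟩ hu rd_norm
  rw [← cnt_co h u, hh, cnt_sub]
  exact alld16 ((-16 : ℤ), 36992, 11178) (by simp)

/-- two vectors of sum of squares 48 with inner product `-32` are exchanged -/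
theorem swap (v w : ↥leechLattice) (hv : sqNorm (v : GolayPt → ℤ) = 48)
    (hw : sqNorm (w : GolayPt → ℤ) = 48)
    (hvw : dotInt (v : GolayPt → ℤ) (w : GolayPt → ℤ) = -32) :
    ∃ g : ↥Co0, g • v = w ∧ g • w = v := by
  have hxn : sqNorm ((-(v + w) : ↥leechLattice) : GolayPt → ℤ) = 32 := by
    show sqNorm (-((v : GolayPt → ℤ) + (w : GolayPt → ℤ))) = 32
    rw [Cfsg.Agent.Lib_lead_LeechCross.sqNorm_neg, Cfsg.Agent.Lib_lead_LeechCross.sqNorm_add,
      hv, hw, hvw]
    norm_num
  have hneg : ∀ a b : GolayPt → ℤ, dotInt a (-b) = -dotInt a b := by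
    intro a b
    unfold dotInt
    rw [← Finset.sum_neg_distrib]
    apply Finset.sum_congr rfl
    intro i _
    simp only [Pi.neg_apply]
    ring
  have hadd : ∀ a b c : GolayPt → ℤ, dotInt a (b + c) = dotInt a b + dotInt a c := by
    intro a b c
    rw [dot_comm' a, dot_add_left, dot_comm' b, dot_comm' c]
  have d1 : dotInt (v : GolayPt → ℤ) ((-(v + w) : ↥leechLattice) : GolayPt → ℤ) = -16 := by
    show dotInt (v : GolayPt → ℤ) (-((v : GolayPt → ℤ) + (w : GolayPt → ℤ))) = -16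
    rw [hneg, hadd, dot_self, hv, hvw]
    norm_num
  have d2 : dotInt (w : GolayPt → ℤ) ((-(v + w) : ↥leechLattice) : GolayPt → ℤ) = -16 := by
    show dotInt (w : GolayPt → ℤ) (-((v : GolayPt → ℤ) + (w : GolayPt → ℤ))) = -16
    rw [hneg, hadd, dot_self, hw, dot_comm' _ (v : GolayPt → ℤ), hvw]
    norm_num
  obtain ⟨g, g1, g2⟩ := trans_pair v w (-(v + w)) (-(v + w)) hv hw hxn hxn d1 d2
  refine ⟨g, g1, ?_⟩
  rw [co_neg, co_add, g1] at g2
  have e : g • w = -(-(w + g • w)) - w := by abel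
  rw [e, g2]
  abel

end Cfsg.Agent.Lib_lead_LeechHS
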