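import Mathlib
import Cfsg.Prelude.Def_SporadicCombinatorics
import Cfsg.Agent.Lib_lead_LeechHS

/-! The 100 minimal vectors attached to two vectors of sum of squares 48 with inner product
`-32` in the rank-24 lattice. -/

set_option autoImplicit false

namespace Cfsg.Agent.Lib_lead_LeechHS2

open Cfsg Cfsg.Agent.Lib_lead_Golay Cfsg.Agent.Lib_lead_GolayPerm Cfsg.Agent.Lib_lead_Leech
  Cfsg.Agent.Lib_lead_Leech2 Cfsg.Agent.Lib_lead_M24 Cfsg.Agent.Lib_lead_LeechDot
  Cfsg.Agent.Lib_lead_LeechSym Cfsg.Agent.Lib_lead_MinVec Cfsg.Agent.Lib_lead_LeechInner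
  Cfsg.Agent.Lib_lead_LeechMono Cfsg.Agent.Lib_lead_LeechOrb Cfsg.Agent.Lib_lead_LeechFrame
  Cfsg.Agent.Lib_lead_LeechCenter Cfsg.Agent.Lib_lead_LeechOrth Cfsg.Agent.Lib_lead_LeechPair
  Cfsg.Agent.Lib_lead_M24Chain Cfsg.Agent.Lib_lead_LeechPair8 Cfsg.Agent.Lib_lead_LeechDotL
  Cfsg.Agent.Lib_lead_LeechDotNums2 Cfsg.Agent.Lib_lead_LeechOrb48 Cfsg.Agent.Lib_lead_LeechXi
  Cfsg.Agent.Lib_lead_LeechHS
open scoped Pointwise

/-- the standard minimal vector of inner product `-16` with the base vector -/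
def X0 : GolayPt → ℤ := sv rb ra (-4)

/-- the parts of the base vector plus eight times the standard minimal vector -/
def partsh : List (ℤ × ℕ) := [(-27, 1), (33, 2), (1, 16777212)]

theorem partsh_eq : valL partsh = U0 + (8 : ℤ) • X0 := by
  funext i
  revert i
  decide

/-- the classes of the codewords -/
def Th : List ℕ := [0, 6177, 7169, 7200, 8192, 10273, 11265, 11296, 12288, 14369, 15361, 15392,
  16384, 22561]

set_option maxRecDepth 100000 in
theorem allh : ∀ p ∈ [((24 : ℤ), 135552, 100)], {w : GolayPt → ℤ | w ∈ leechLattice ∧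
    sqNorm w = 32 ∧ dotInt (valL partsh) w = p.1}.ncard = p.2.2 :=
  main_evalL partsh (by decide) Th (by decide) [((24 : ℤ), 135552, 100)]
    (by decide +kernel) (by decide +kernel)

theorem dot_smul_left (c : ℤ) (a b : GolayPt → ℤ) : dotInt (c • a) b = c * dotInt a b := by
  unfold dotInt
  rw [Finset.mul_sum]
  apply Finset.sum_congr rfl
  intro i _
  simp only [Pi.smul_apply, smul_eq_mul]
  ring

theorem dot_neg_left (a b : GolayPt → ℤ) : dotInt (-a) b = -dotInt a b := by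
  unfold dotInt
  rw [← Finset.sum_neg_distrib]
  apply Finset.sum_congr rfl
  intro i _
  simp only [Pi.neg_apply]
  ring

theorem U0_mem : U0 ∈ leechLattice := U0_eq ▸ of_chk rd_chk

theorem X0_mem : X0 ∈ leechLattice := sv_mem _ _ _ (Or.inr rfl)

theorem X0_norm : sqNorm X0 = 32 := sv_norm _ _ (Ne.symm rab) _ (Or.inr rfl)

theorem dot_U0_X0 : dotInt U0 X0 = -16 := by
  rw [dotU]
  unfold X0
  rw [sv_right _ _ (Ne.symm rab), sv_sum]
  norm_num

/-- the two conditions are one condition -/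
theorem combine (y : GolayPt → ℤ) (hy : y ∈ leechLattice) (hn : sqNorm y = 32) :
    dotInt (valL partsh) y = 24 ↔ dotInt U0 y = 24 ∧ dotInt X0 y = 0 := by
  rw [partsh_eq, dot_add_left, dot_smul_left]
  constructor
  · intro h
    obtain ⟨p, hp⟩ := Cfsg.Agent.Lib_lead_LeechDual.dot_dvd U0_mem hy
    obtain ⟨q, hq⟩ := Cfsg.Agent.Lib_lead_LeechDual.dot_dvd X0_mem hy
    have hcs : dotInt U0 y ^ 2 ≤ sqNorm U0 * sqNorm y := by
      unfold dotInt sqNorm
      exact Finset.sum_mul_sq_le_sq_mul_sq Finset.univ U0 y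
    rw [U0_norm, hn] at hcs
    have hb : -40 < dotInt U0 y ∧ dotInt U0 y < 40 := by
      constructor <;> nlinarith
    omega
  · rintro ⟨h1, h2⟩
    rw [h1, h2]
    norm_num

theorem cnt_std : {y : ↥leechLattice | sqNorm (y : GolayPt → ℤ) = 32 ∧
    dotInt U0 (y : GolayPt → ℤ) = 24 ∧ dotInt X0 (y : GolayPt → ℤ) = 0}.ncard = 100 := by
  rw [← Set.ncard_image_of_injective _ Subtype.val_injective]
  have h100 : {w : GolayPt → ℤ | w ∈ leechLattice ∧ sqNorm w = 32 ∧
      dotInt (valL partsh) w = 24}.ncard = 100 := allh ((24 : ℤ), 135552, 100) (by simp)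
  rw [← h100]
  congr 1
  ext w
  constructor
  · rintro ⟨y, ⟨h1, h2⟩, rfl⟩
    exact ⟨y.2, h1, (combine _ y.2 h1).mpr h2⟩
  · rintro ⟨hw, h1, h2⟩
    exact ⟨⟨w, hw⟩, ⟨h1, (combine w hw h1).mp h2⟩, rfl⟩

/-- the configuration of 100 minimal vectors -/
theorem hs100 (v w : ↥leechLattice) (hv : sqNorm (v : GolayPt → ℤ) = 48)
    (hw : sqNorm (w : GolayPt → ℤ) = 48)
    (hvw : dotInt (v : GolayPt → ℤ) (w : GolayPt → ℤ) = -32) :
    {x : ↥leechLattice | sqNorm (x : GolayPt → ℤ) = 32 ∧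
      dotInt (v : GolayPt → ℤ) (x : GolayPt → ℤ) = 24 ∧
      dotInt (w : GolayPt → ℤ) (x : GolayPt → ℤ) = -24}.ncard = 100 ∧
    ∀ x ∈ {x : ↥leechLattice | sqNorm (x : GolayPt → ℤ) = 32 ∧
      dotInt (v : GolayPt → ℤ) (x : GolayPt → ℤ) = 24 ∧
      dotInt (w : GolayPt → ℤ) (x : GolayPt → ℤ) = -24},
    ∀ x' ∈ {x : ↥leechLattice | sqNorm (x : GolayPt → ℤ) = 32 ∧
      dotInt (v : GolayPt → ℤ) (x : GolayPt → ℤ) = 24 ∧
      dotInt (w : GolayPt → ℤ) (x : GolayPt → ℤ) = -24},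
    ∃ g : ↥Co0, g • v = v ∧ g • w = w ∧ g • x = x' := by
  have hxn : sqNorm ((-(v + w) : ↥leechLattice) : GolayPt → ℤ) = 32 := by
    show sqNorm (-((v : GolayPt → ℤ) + (w : GolayPt → ℤ))) = 32
    rw [Cfsg.Agent.Lib_lead_LeechCross.sqNorm_neg, Cfsg.Agent.Lib_lead_LeechCross.sqNorm_add,
      hv, hw, hvw]
    norm_num
  have hx0 : ∀ x : ↥leechLattice, dotInt ((-(v + w) : ↥leechLattice) : GolayPt → ℤ)
      (x : GolayPt → ℤ) = -(dotInt (v : GolayPt → ℤ) (x : GolayPt → ℤ)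
        + dotInt (w : GolayPt → ℤ) (x : GolayPt → ℤ)) := by
    intro x
    show dotInt (-((v : GolayPt → ℤ) + (w : GolayPt → ℤ))) (x : GolayPt → ℤ) = _
    rw [dot_neg_left, dot_add_left]
  have d1 : dotInt (v : GolayPt → ℤ) ((-(v + w) : ↥leechLattice) : GolayPt → ℤ) = -16 := by
    rw [dot_comm', hx0, dot_self, hv, dot_comm', hvw]
    norm_num
  constructor
  · obtain ⟨g, g1, g2⟩ := trans_pair v ⟨U0, U0_mem⟩ (-(v + w)) ⟨X0, X0_mem⟩ hv U0_norm hxn
      X0_norm d1 dot_U0_X0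
    have himg : (fun x : ↥leechLattice => g • x) '' {x : ↥leechLattice |
        sqNorm (x : GolayPt → ℤ) = 32 ∧ dotInt (v : GolayPt → ℤ) (x : GolayPt → ℤ) = 24 ∧
        dotInt (w : GolayPt → ℤ) (x : GolayPt → ℤ) = -24}
        = {y : ↥leechLattice | sqNorm (y : GolayPt → ℤ) = 32 ∧
          dotInt U0 (y : GolayPt → ℤ) = 24 ∧ dotInt X0 (y : GolayPt → ℤ) = 0} := by
      ext y
      constructor
      · rintro ⟨x, ⟨h1, h2, h3⟩, rfl⟩
        refine ⟨(co_norm g x).trans h1, ?_, ?_⟩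
        · have := co_dot g v x
          rw [g1] at this
          exact this.trans h2
        · have := co_dot g (-(v + w)) x
          rw [g2] at this
          rw [show dotInt X0 ((g • x : ↥leechLattice) : GolayPt → ℤ) = _ from this, hx0, h2, h3]
          norm_num
      · rintro ⟨h1, h2, h3⟩
        have e1 := co_dot g v (g⁻¹ • y)
        rw [smul_inv_smul, g1] at e1
        have e2 := co_dot g (-(v + w)) (g⁻¹ • y)
        rw [smul_inv_smul, g2, hx0] at e2
        have e1' : dotInt (v : GolayPt → ℤ) ((g⁻¹ • y : ↥leechLattice) : GolayPt → ℤ) = 24 :=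
          e1.symm.trans h2
        have e2' : dotInt X0 (y : GolayPt → ℤ) = _ := e2
        refine ⟨g⁻¹ • y, ⟨(co_norm g⁻¹ y).trans h1, e1', ?_⟩, smul_inv_smul g y⟩
        rw [h3] at e2'
        linarith
    rw [← Set.ncard_image_of_injective _ (MulAction.injective g), himg]
    exact cnt_std
  · rintro x ⟨hx, hvx, hwx⟩ x' ⟨hx', hvx', hwx'⟩
    have tri : ∀ z : ↥leechLattice, sqNorm (z : GolayPt → ℤ) = 32 →
        dotInt (v : GolayPt → ℤ) (z : GolayPt → ℤ) = 24 →
        dotInt (w : GolayPt → ℤ) (z : GolayPt → ℤ) = -24 →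
        ∃ g : ↥Co0, ((g • (-(v + w)) : ↥leechLattice) : GolayPt → ℤ) = sv ra rb 4 ∧
          ((g • z : ↥leechLattice) : GolayPt → ℤ) = sv ra rb (-4) ∧
          ((g • (v - z) : ↥leechLattice) : GolayPt → ℤ) = A0 := by
      intro z hz hvz hwz
      have han : sqNorm ((v - z : ↥leechLattice) : GolayPt → ℤ) = 32 := by
        show sqNorm ((v : GolayPt → ℤ) - (z : GolayPt → ℤ)) = 32
        rw [Cfsg.Agent.Lib_lead_LeechRed.sqNorm_sub, hv, hz, hvz]
        norm_num
      have h0z : dotInt ((-(v + w) : ↥leechLattice) : GolayPt → ℤ) (z : GolayPt → ℤ) = 0 := by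
        rw [hx0, hvz, hwz]
        norm_num
      have h0a : dotInt ((-(v + w) : ↥leechLattice) : GolayPt → ℤ)
          ((v - z : ↥leechLattice) : GolayPt → ℤ) = -16 := by
        show dotInt ((-(v + w) : ↥leechLattice) : GolayPt → ℤ)
          ((v : GolayPt → ℤ) - (z : GolayPt → ℤ)) = -16
        rw [dot_sub_right', h0z, dot_comm', d1]
        norm_num
      have hza : dotInt (z : GolayPt → ℤ) ((v - z : ↥leechLattice) : GolayPt → ℤ) = -8 := by
        show dotInt (z : GolayPt → ℤ) ((v : GolayPt → ℤ) - (z : GolayPt → ℤ)) = -8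
        rw [dot_sub_right', dot_self, hz, dot_comm', hvz]
        norm_num
      exact triple_normal (-(v + w)) z (v - z) hxn hz han h0z h0a hza
    obtain ⟨g1, a1, b1, c1⟩ := tri x hx hvx hwx
    obtain ⟨g2, a2, b2, c2⟩ := tri x' hx' hvx' hwx'
    have ea : (g2⁻¹ * g1) • (-(v + w)) = -(v + w) := by
      rw [mul_smul, inv_smul_eq_iff]
      exact Subtype.ext (a1.trans a2.symm)
    have eb : (g2⁻¹ * g1) • x = x' := by
      rw [mul_smul, inv_smul_eq_iff]
      exact Subtype.ext (b1.trans b2.symm)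
    have ec : (g2⁻¹ * g1) • (v - x) = v - x' := by
      rw [mul_smul, inv_smul_eq_iff]
      exact Subtype.ext (c1.trans c2.symm)
    have ev : (g2⁻¹ * g1) • v = v := by
      have e : v = (v - x) + x := by abel
      have key : (g2⁻¹ * g1) • ((v - x) + x) = (v - x') + x' := by
        rw [co_add, ec, eb]
      rw [← e] at key
      rw [key]
      abel
    refine ⟨g2⁻¹ * g1, ev, ?_, eb⟩
    have e : w = -(-(v + w)) - v := by abel
    have key : (g2⁻¹ * g1) • (-(-(v + w)) - v) = -(-(v + w)) - v := by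
      rw [co_sub, co_neg, ea, ev]
    rw [← e] at key
    exact key

end Cfsg.Agent.Lib_lead_LeechHS2
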