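import Mathlib
import Cfsg.Prelude.Def_SporadicCombinatorics
import Cfsg.Agent.Lib_lead_LeechHS2

/-! The rank-3 action on the 100 minimal vectors attached to two vectors of sum of squares 48
with inner product `-32` in the rank-24 lattice. -/

set_option autoImplicit false

namespace Cfsg.Agent.Lib_lead_LeechHS3

open Cfsg Cfsg.Agent.Lib_lead_Golay Cfsg.Agent.Lib_lead_GolayPerm Cfsg.Agent.Lib_lead_Leech
  Cfsg.Agent.Lib_lead_Leech2 Cfsg.Agent.Lib_lead_M24 Cfsg.Agent.Lib_lead_LeechDot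
  Cfsg.Agent.Lib_lead_LeechSym Cfsg.Agent.Lib_lead_MinVec Cfsg.Agent.Lib_lead_LeechInner
  Cfsg.Agent.Lib_lead_LeechMono Cfsg.Agent.Lib_lead_LeechOrb Cfsg.Agent.Lib_lead_LeechFrame
  Cfsg.Agent.Lib_lead_LeechCenter Cfsg.Agent.Lib_lead_LeechOrth Cfsg.Agent.Lib_lead_LeechPair
  Cfsg.Agent.Lib_lead_M24Chain Cfsg.Agent.Lib_lead_LeechPair8 Cfsg.Agent.Lib_lead_LeechDotL
  Cfsg.Agent.Lib_lead_LeechDotNums2 Cfsg.Agent.Lib_lead_LeechOrb48 Cfsg.Agent.Lib_lead_LeechXi
  Cfsg.Agent.Lib_lead_LeechHS Cfsg.Agent.Lib_lead_LeechHS2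
open scoped Pointwise

theorem root_supp : fsOf 3277413 ∈ Supp := (octads_sub Cfsg.Agent.Lib_lead_M24Oct.root_octad).1

theorem A0_mem : A0 ∈ leechLattice := (fC_mem _ root_supp ra).1

theorem A0_norm : sqNorm A0 = 32 := (fC_mem _ root_supp ra).2

theorem A0_ra : A0 ra = -3 := fC_at _ ra ra_root

theorem A0_rb : A0 rb = -1 := fC_out _ ra rb (Ne.symm rab) rb_root

theorem A0_val (i : GolayPt) (hi : i ≠ ra) : A0 i = 1 ∨ A0 i = -1 := by
  by_cases h : i ∈ fsOf 3277413
  · exact Or.inl (fC_in _ ra i hi h)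
  · exact Or.inr (fC_out _ ra i hi h)

/-- two minimal vectors are equal or have inner product at most 16 -/
theorem dot_le {a b : GolayPt → ℤ} (ha : a ∈ leechLattice) (hb : b ∈ leechLattice)
    (han : sqNorm a = 32) (hbn : sqNorm b = 32) : a = b ∨ dotInt a b ≤ 16 := by
  by_cases h : a = b
  · exact Or.inl h
  · right
    have h0 : a - b ≠ 0 := sub_ne_zero.mpr h
    have h1 := sqNorm_ge (leechLattice.sub_mem ha hb) h0
    rw [Cfsg.Agent.Lib_lead_LeechRed.sqNorm_sub, han, hbn] at h1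
    linarith

theorem pair_bound {y : GolayPt → ℤ} (hn : sqNorm y = 32) (a b : GolayPt) (hab : a ≠ b) :
    y a ^ 2 + y b ^ 2 ≤ 32 := by
  unfold sqNorm at hn
  rw [← Finset.add_sum_erase Finset.univ (fun k => y k ^ 2) (Finset.mem_univ a)] at hn
  have hle : y b ^ 2 ≤ ∑ k ∈ Finset.univ.erase a, y k ^ 2 :=
    Finset.single_le_sum (f := fun k => y k ^ 2) (fun k _ => sq_nonneg _)
      (Finset.mem_erase.mpr ⟨Ne.symm hab, Finset.mem_univ b⟩)
  linarith

theorem dot_sub_left' (x y z : GolayPt → ℤ) : dotInt (x - y) z = dotInt x z - dotInt y z := by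
  unfold dotInt
  rw [← Finset.sum_sub_distrib]
  apply Finset.sum_congr rfl
  intro i _
  simp only [Pi.sub_apply]
  ring

/-- the points of the first kind -/
def ZK (k : GolayPt) : GolayPt → ℤ := A0 - (Pi.single ra (-4) + Pi.single k (4 * A0 k))

/-- the points of the second kind, minus the base point -/
def EO (O : Finset GolayPt) : GolayPt → ℤ :=
  fun i => if i = ra then -2 else if i = rb then 2 else if i ∈ O then 2 * A0 i else 0

theorem dotB (y : GolayPt → ℤ) (h0 : y ra + y rb = 0) : dotInt (sv ra rb (-4)) y = 8 * y ra := by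
  rw [dot_sv]
  linarith

/-- the classification of the points in the normal form -/
theorem classify (y : GolayPt → ℤ) (hy : y ∈ leechLattice) (hn : sqNorm y = 32)
    (h0 : dotInt (sv ra rb 4) y = 0) (h24 : dotInt A0 y + dotInt (sv ra rb (-4)) y = 24) :
    y = sv ra rb (-4) ∨ (∃ k, k ≠ ra ∧ k ≠ rb ∧ y = ZK k) ∨
      (∃ O ∈ octads, ra ∈ O ∧ rb ∈ O ∧ y = sv ra rb (-4) + EO O) := by
  classical
  rw [dot_sv] at h0
  have hs : y ra + y rb = 0 := by linarith
  rw [dotB y hs] at h24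
  have hne : A0 ≠ y := by
    intro h
    have h1 := A0_ra
    have h2 := A0_rb
    rw [h] at h1 h2
    omega
  have hle : dotInt A0 y ≤ 16 := by
    rcases dot_le A0_mem hy A0_norm hn with h | h
    · exact absurd h hne
    · exact h
  have hpb := pair_bound hn ra rb rab
  have hrb : y rb = -y ra := by linarith
  rw [hrb] at hpb
  have hcases : y ra = 1 ∨ y ra = 2 ∨ y ra = 3 ∨ y ra = 4 := by
    have h1 : 1 ≤ y ra := by linarith
    have h2 : y ra ≤ 4 := by nlinarith
    omega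
  rcases hcases with h1 | h2 | h3 | h4
  · -- first kind
    right; left
    have hAy : dotInt A0 y = 16 := by linarith
    have hm : A0 - y ∈ leechLattice := leechLattice.sub_mem A0_mem hy
    have hmn : sqNorm (A0 - y) = 32 := by
      rw [Cfsg.Agent.Lib_lead_LeechRed.sqNorm_sub, A0_norm, hn, hAy]
      norm_num
    have hmra : (A0 - y) ra = -4 := by
      rw [Pi.sub_apply, A0_ra, h1]
      norm_num
    obtain ⟨k, t, hk, ht, hme⟩ := shapeA (A0 - y) hm hmn ra hmra
    have hmrb : (A0 - y) rb = 0 := by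
      rw [Pi.sub_apply, A0_rb, hrb, h1]
      norm_num
    have hkb : k ≠ rb := by
      rintro rfl
      rw [hme, Pi.add_apply, Pi.single_eq_of_ne (Ne.symm rab), Pi.single_eq_same, zero_add] at hmrb
      rcases ht with rfl | rfl <;> omega
    have hAm : dotInt (A0 - y) A0 = 16 := by
      rw [dot_sub_left', dot_self, A0_norm, dot_comm' y A0, hAy]
      norm_num
    rw [hme, dot_add_left, dot_single, dot_single, A0_ra] at hAm
    have ht4 : t = 4 * A0 k := by
      rcases A0_val k hk with e | e <;> rw [e] at hAm ⊢ <;> linarith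
    refine ⟨k, hk, hkb, ?_⟩
    unfold ZK
    rw [← ht4, ← hme]
    abel
  · -- second kind
    right; right
    have hBy : dotInt (sv ra rb (-4)) y = 16 := by
      rw [dotB y hs, h2]
      norm_num
    have hAy : dotInt A0 y = 8 := by linarith
    have hBmem : sv ra rb (-4) ∈ leechLattice := sv_mem _ _ _ (Or.inr rfl)
    have hBn : sqNorm (sv ra rb (-4)) = 32 := sv_norm _ _ rab _ (Or.inr rfl)
    have hem : y - sv ra rb (-4) ∈ leechLattice := leechLattice.sub_mem hy hBmem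
    have hen : sqNorm (y - sv ra rb (-4)) = 32 := by
      rw [Cfsg.Agent.Lib_lead_LeechRed.sqNorm_sub, hn, hBn, dot_comm' y, hBy]
      norm_num
    have hera : (y - sv ra rb (-4)) ra = -2 := by
      rw [Pi.sub_apply, sv_left _ _ rab, h2]
      norm_num
    have herb : (y - sv ra rb (-4)) rb = 2 := by
      rw [Pi.sub_apply, sv_right _ _ rab, hrb, h2]
      norm_num
    have hAB : dotInt A0 (sv ra rb (-4)) = -8 := by
      rw [dot_comm', dot_sv, A0_ra, A0_rb]
      norm_num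
    have hAe : dotInt A0 (y - sv ra rb (-4)) = 16 := by
      rw [dot_sub_right', hAy, hAB]
      norm_num
    obtain ⟨e, hee⟩ : ∃ e, e = y - sv ra rb (-4) := ⟨_, rfl⟩
    rw [← hee] at hem hen hera herb hAe
    have hev : ∀ i, e i % 2 = 0 := by
      rcases (mem_leechLattice_iff e).mp hem with he | ho
      · exact he.1
      · have := ho.1 ra
        omega
    obtain ⟨O, E, hO, hE, hevE, hfe⟩ := exists_fB hem hen hev ⟨ra, by rw [hera]; rfl⟩
    have hval : ∀ i, e i = fB ⟨O, E⟩ i := fun i => by rw [hfe]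
    have haO : ra ∈ O := by
      rcases fB_cases O E hE ra with ⟨_, h, _⟩ | ⟨_, h, _⟩ | ⟨_, _, e'⟩
      · exact h
      · exact h
      · have := (hval ra).trans e'
        omega
    have hbO : rb ∈ O := by
      rcases fB_cases O E hE rb with ⟨_, h, _⟩ | ⟨_, h, _⟩ | ⟨_, _, e'⟩
      · exact h
      · exact h
      · have := (hval rb).trans e'
        omega
    have hoff : ∀ i, i ∉ O → e i = 0 := by
      intro i hi
      rcases fB_cases O E hE i with ⟨_, h, _⟩ | ⟨_, h, _⟩ | ⟨_, _, e'⟩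
      · exact absurd h hi
      · exact absurd h hi
      · exact (hval i).trans e'
    have hon : ∀ i, i ∈ O → e i = 2 ∨ e i = -2 := by
      intro i hi
      rcases fB_cases O E hE i with ⟨_, _, e'⟩ | ⟨_, _, e'⟩ | ⟨_, h, _⟩
      · exact Or.inr ((hval i).trans e')
      · exact Or.inl ((hval i).trans e')
      · exact absurd hi h
    have hbO' : rb ∈ O.erase ra := Finset.mem_erase.mpr ⟨Ne.symm rab, hbO⟩
    have hc : ((O.erase ra).erase rb).card = 6 := by
      rw [Finset.card_erase_of_mem hbO', Finset.card_erase_of_mem haO, (octads_sub hO).2]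
    have h1 : dotInt A0 e = ∑ i ∈ O, A0 i * e i := by
      unfold dotInt
      symm
      apply Finset.sum_subset (Finset.subset_univ O)
      intro i _ hi
      rw [hoff i hi, mul_zero]
    rw [← Finset.add_sum_erase O _ haO, ← Finset.add_sum_erase (O.erase ra) _ hbO'] at h1
    beta_reduce at h1
    rw [A0_ra, A0_rb, hera, herb, hAe] at h1
    have hS : ∑ i ∈ (O.erase ra).erase rb, A0 i * e i = 12 := by linarith
    have hsum : ∑ i ∈ (O.erase ra).erase rb, (2 - A0 i * e i) = 0 := by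
      rw [Finset.sum_sub_distrib, Finset.sum_const, hc, hS]
      norm_num
    have hnn : ∀ i ∈ (O.erase ra).erase rb, 0 ≤ 2 - A0 i * e i := by
      intro i hi
      rw [Finset.mem_erase, Finset.mem_erase] at hi
      rcases A0_val i hi.2.1 with a | a <;> rcases hon i hi.2.2 with b | b <;> rw [a, b] <;>
        norm_num
    have hall := (Finset.sum_eq_zero_iff_of_nonneg hnn).mp hsum
    have hform : ∀ i, i ≠ ra → i ≠ rb → i ∈ O → e i = 2 * A0 i := by
      intro i h1' h2' h3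
      have := hall i (Finset.mem_erase.mpr ⟨h2', Finset.mem_erase.mpr ⟨h1', h3⟩⟩)
      rcases A0_val i h1' with a | a <;> rw [a] at this ⊢ <;> linarith
    refine ⟨O, hO, haO, hbO, ?_⟩
    have hye : y = sv ra rb (-4) + e := by
      rw [hee]
      abel
    rw [hye]
    congr 1
    funext i
    unfold EO
    by_cases hi1 : i = ra
    · rw [if_pos hi1, hi1]
      exact hera
    · rw [if_neg hi1]
      by_cases hi2 : i = rb
      · rw [if_pos hi2, hi2]
        exact herb
      · rw [if_neg hi2]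
        by_cases hi3 : i ∈ O
        · rw [if_pos hi3]
          exact hform i hi1 hi2 hi3
        · rw [if_neg hi3]
          exact hoff i hi3
  · -- impossible
    exfalso
    have hodd : ∀ i, y i % 2 = 1 := by
      rcases (mem_leechLattice_iff y).mp hy with he | ho
      · have := he.1 ra
        omega
      · exact ho.1
    obtain ⟨C, hC, j, hxe⟩ := exists_fC hy hn hodd
    have e1 : j = ra := by
      rcases fC_cases C j ra with ⟨_, _, e⟩ | ⟨_, _, e⟩ | ⟨h, _, _⟩ | ⟨h, _, _⟩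
      · rw [hxe] at e
        omega
      · rw [hxe] at e
        omega
      · exact h.symm
      · exact h.symm
    have e2 : j = rb := by
      rcases fC_cases C j rb with ⟨_, _, e⟩ | ⟨_, _, e⟩ | ⟨h, _, _⟩ | ⟨h, _, _⟩
      · rw [hxe] at e
        omega
      · rw [hxe] at e
        omega
      · exact h.symm
      · exact h.symm
    exact rab (e1.symm.trans e2)
  · left
    have hrb4 : y rb = -4 := by linarith
    obtain ⟨k, t, hk, ht, hye⟩ := shapeA y hy hn rb hrb4
    have hra4 := h4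
    rw [hye, Pi.add_apply, Pi.single_eq_of_ne rab] at hra4
    have hkra : k = ra := by
      by_contra hne'
      rw [Pi.single_eq_of_ne (fun h => hne' h.symm)] at hra4
      omega
    rw [hkra, Pi.single_eq_same, zero_add] at hra4
    rw [hye, hkra, hra4]
    unfold sv
    abel

theorem mem_smul' (σ : Equiv.Perm GolayPt) (s : Finset GolayPt) (i : GolayPt) :
    i ∈ σ • s ↔ σ.symm i ∈ s := by
  constructor
  · intro h
    obtain ⟨x, hx, rfl⟩ := Finset.mem_smul_finset.mp h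
    simpa using hx
  · intro h
    exact Finset.mem_smul_finset.mpr ⟨σ.symm i, h, by simp⟩

theorem signedPerm_sub (σ : Equiv.Perm GolayPt) (c : Finset GolayPt) (x y : GolayPt → ℤ) :
    signedPerm σ c (x - y) = signedPerm σ c x - signedPerm σ c y := by
  funext k
  unfold signedPerm
  simp only [Pi.sub_apply]
  split_ifs <;> ring

/-- the set of sign changes attached to a permutation -/
def cs (σ : Equiv.Perm GolayPt) : Finset GolayPt :=
  symmDiff (fsOf 3277413) (σ • fsOf 3277413)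

theorem cs_mem {σ : Equiv.Perm GolayPt} (hσ : σ ∈ M24) : cs σ ∈ Supp :=
  symmDiff_mem root_supp (smul_mem_supports hσ root_supp)

theorem symm_fix {σ : Equiv.Perm GolayPt} {a : GolayPt} (h : σ a = a) : σ.symm a = a := by
  rw [Equiv.symm_apply_eq]
  exact h.symm

theorem ra_cs {σ : Equiv.Perm GolayPt} (hp : σ ra = ra) : ra ∉ cs σ := by
  unfold cs
  rw [Finset.mem_symmDiff]
  rintro (⟨_, h⟩ | ⟨_, h⟩)
  · apply h
    rw [mem_smul', symm_fix hp]
    exact ra_root
  · exact h ra_root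

theorem rb_cs {σ : Equiv.Perm GolayPt} (hq : σ rb = rb) : rb ∉ cs σ := by
  unfold cs
  rw [Finset.mem_symmDiff]
  rintro (⟨h, _⟩ | ⟨h, _⟩)
  · exact rb_root h
  · rw [mem_smul', symm_fix hq] at h
    exact rb_root h

theorem mA (σ : Equiv.Perm GolayPt) (hp : σ ra = ra) : signedPerm σ (cs σ) A0 = A0 := by
  funext i
  show (if i ∈ cs σ then -A0 (σ.symm i) else A0 (σ.symm i)) = A0 i
  by_cases hi : i = ra
  · rw [hi, if_neg (ra_cs hp), symm_fix hp]
  · have hsi : σ.symm i ≠ ra := by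
      intro h
      apply hi
      rw [Equiv.symm_apply_eq] at h
      rw [h, hp]
    have hmem : i ∈ cs σ ↔ (i ∈ fsOf 3277413 ∧ σ.symm i ∉ fsOf 3277413) ∨
        (σ.symm i ∈ fsOf 3277413 ∧ i ∉ fsOf 3277413) := by
      unfold cs
      rw [Finset.mem_symmDiff, mem_smul']
    by_cases h1 : i ∈ fsOf 3277413 <;> by_cases h2 : σ.symm i ∈ fsOf 3277413
    · have hn : i ∉ cs σ := by
        intro h
        rcases hmem.mp h with ⟨_, h'⟩ | ⟨_, h'⟩
        · exact h' h2
        · exact h' h1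
      rw [if_neg hn, show A0 (σ.symm i) = 1 from fC_in _ ra _ hsi h2,
        show A0 i = 1 from fC_in _ ra _ hi h1]
    · rw [if_pos (hmem.mpr (Or.inl ⟨h1, h2⟩)),
        show A0 (σ.symm i) = -1 from fC_out _ ra _ hsi h2,
        show A0 i = 1 from fC_in _ ra _ hi h1]
      norm_num
    · rw [if_pos (hmem.mpr (Or.inr ⟨h2, h1⟩)),
        show A0 (σ.symm i) = 1 from fC_in _ ra _ hsi h2,
        show A0 i = -1 from fC_out _ ra _ hi h1]
    · have hn : i ∉ cs σ := by
        intro h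
        rcases hmem.mp h with ⟨h', _⟩ | ⟨h', _⟩
        · exact h1 h'
        · exact h2 h'
      rw [if_neg hn, show A0 (σ.symm i) = -1 from fC_out _ ra _ hsi h2,
        show A0 i = -1 from fC_out _ ra _ hi h1]

theorem mB (σ : Equiv.Perm GolayPt) (hp : σ ra = ra) (hq : σ rb = rb) (t : ℤ) :
    signedPerm σ (cs σ) (sv ra rb t) = sv ra rb t := by
  unfold sv
  rw [signedPerm_add, signedPerm_single, signedPerm_single, hp, hq, if_neg (ra_cs hp),
    if_neg (rb_cs hq)]

theorem mZ (σ : Equiv.Perm GolayPt) (hp : σ ra = ra) (k : GolayPt) :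
    signedPerm σ (cs σ) (ZK k) = ZK (σ k) := by
  unfold ZK
  rw [signedPerm_sub, signedPerm_add, signedPerm_single, signedPerm_single, mA σ hp, hp,
    if_neg (ra_cs hp)]
  have h' : (if σ k ∈ cs σ then -A0 (σ.symm (σ k)) else A0 (σ.symm (σ k))) = A0 (σ k) :=
    congrFun (mA σ hp) (σ k)
  rw [Equiv.symm_apply_apply] at h'
  have e : (if σ k ∈ cs σ then -(4 * A0 k) else 4 * A0 k) = 4 * A0 (σ k) := by
    split_ifs at h' ⊢ <;> linarith
  rw [e]

theorem mE (σ : Equiv.Perm GolayPt) (hp : σ ra = ra) (hq : σ rb = rb) (O : Finset GolayPt) :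
    signedPerm σ (cs σ) (EO O) = EO (σ • O) := by
  funext i
  show (if i ∈ cs σ then -EO O (σ.symm i) else EO O (σ.symm i)) = EO (σ • O) i
  have hA : (if i ∈ cs σ then -A0 (σ.symm i) else A0 (σ.symm i)) = A0 i := congrFun (mA σ hp) i
  by_cases hi1 : i = ra
  · have e1 : EO O ra = -2 := by
      unfold EO
      rw [if_pos rfl]
    have e2 : EO (σ • O) ra = -2 := by
      unfold EO
      rw [if_pos rfl]
    rw [hi1, if_neg (ra_cs hp), symm_fix hp, e1, e2]
  · by_cases hi2 : i = rb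
    · have e1 : EO O rb = 2 := by
        unfold EO
        rw [if_neg (Ne.symm rab), if_pos rfl]
      have e2 : EO (σ • O) rb = 2 := by
        unfold EO
        rw [if_neg (Ne.symm rab), if_pos rfl]
      rw [hi2, if_neg (rb_cs hq), symm_fix hq, e1, e2]
    · have hs1 : σ.symm i ≠ ra := by
        intro h
        apply hi1
        rw [Equiv.symm_apply_eq] at h
        rw [h, hp]
      have hs2 : σ.symm i ≠ rb := by
        intro h
        apply hi2
        rw [Equiv.symm_apply_eq] at h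
        rw [h, hq]
      have e1 : EO O (σ.symm i) = if σ.symm i ∈ O then 2 * A0 (σ.symm i) else 0 := by
        unfold EO
        rw [if_neg hs1, if_neg hs2]
      have e2 : EO (σ • O) i = if i ∈ σ • O then 2 * A0 i else 0 := by
        unfold EO
        rw [if_neg hi1, if_neg hi2]
      rw [e1, e2]
      by_cases hO : σ.symm i ∈ O
      · rw [if_pos hO, if_pos ((mem_smul' σ O i).mpr hO)]
        split_ifs at hA ⊢ <;> linarith
      · rw [if_neg hO, if_neg (fun h => hO ((mem_smul' σ O i).mp h))]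
        split_ifs <;> norm_num

theorem ZK_facts (k : GolayPt) (hk : k ≠ ra) (hkb : k ≠ rb) :
    ZK k ∈ leechLattice ∧ sqNorm (ZK k) = 32 ∧ dotInt (sv ra rb 4) (ZK k) = 0 ∧
      dotInt A0 (ZK k) + dotInt (sv ra rb (-4)) (ZK k) = 24 ∧
      dotInt (sv ra rb (-4)) (ZK k) = 8 := by
  have hv := A0_val k hk
  obtain ⟨m, hm⟩ : ∃ m : GolayPt → ℤ, m = Pi.single ra (-4) + Pi.single k (4 * A0 k) := ⟨_, rfl⟩
  have hmL : m ∈ leechLattice := by
    apply mem_of_four
    · intro i
      simp only [hm, Pi.add_apply, Pi.single_apply]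
      split_ifs <;> omega
    · have e : ∑ i, m i = -4 + 4 * A0 k := by
        simp [hm, Finset.sum_add_distrib, Finset.sum_pi_single']
      rw [e]
      omega
  have hmA : dotInt m A0 = 16 := by
    rw [hm, dot_add_left, dot_single, dot_single, A0_ra]
    rcases hv with e | e <;> rw [e] <;> norm_num
  have hmn : sqNorm m = 32 := by
    rw [hm, Cfsg.Agent.Lib_lead_LeechCross.sqNorm_add, sqNorm_single, sqNorm_single, dot_single,
      Pi.single_eq_of_ne (Ne.symm hk)]
    rcases hv with e | e <;> rw [e] <;> norm_num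
  have hmra : m ra = -4 := by
    rw [hm, Pi.add_apply, Pi.single_eq_same, Pi.single_eq_of_ne (Ne.symm hk), add_zero]
  have hmrb : m rb = 0 := by
    rw [hm, Pi.add_apply, Pi.single_eq_of_ne (Ne.symm rab), Pi.single_eq_of_ne (Ne.symm hkb),
      add_zero]
  have hZ : ZK k = A0 - m := by
    unfold ZK
    rw [hm]
  have zra : ZK k ra = 1 := by
    rw [hZ, Pi.sub_apply, A0_ra, hmra]
    norm_num
  have zrb : ZK k rb = -1 := by
    rw [hZ, Pi.sub_apply, A0_rb, hmrb]
    norm_num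
  have hAZ : dotInt A0 (ZK k) = 16 := by
    rw [hZ, dot_sub_right', dot_self, A0_norm, dot_comm' A0 m, hmA]
    norm_num
  refine ⟨?_, ?_, ?_, ?_, ?_⟩
  · rw [hZ]
    exact leechLattice.sub_mem A0_mem hmL
  · rw [hZ, Cfsg.Agent.Lib_lead_LeechRed.sqNorm_sub, A0_norm, hmn, dot_comm' A0 m, hmA]
    norm_num
  · rw [dot_sv, zra, zrb]
    norm_num
  · rw [hAZ, dot_sv, zra, zrb]
    norm_num
  · rw [dot_sv, zra, zrb]
    norm_num

theorem ZK_inj (k k' : GolayPt) (hk : k ≠ ra) (h : ZK k = ZK k') : k = k' := by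
  by_contra hne
  have h1 := congrFun h k
  unfold ZK at h1
  simp only [Pi.sub_apply, Pi.add_apply] at h1
  rw [Pi.single_eq_of_ne hk, Pi.single_eq_same, Pi.single_eq_of_ne hne] at h1
  rcases A0_val k hk with e | e <;> rw [e] at h1 <;> omega

theorem EO_ra (O : Finset GolayPt) : EO O ra = -2 := by
  unfold EO
  rw [if_pos rfl]

theorem EO_rb (O : Finset GolayPt) : EO O rb = 2 := by
  unfold EO
  rw [if_neg (Ne.symm rab), if_pos rfl]

theorem dotB_EO (O : Finset GolayPt) :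
    dotInt (sv ra rb (-4)) (sv ra rb (-4) + EO O) = 16 := by
  rw [dot_sv, Pi.add_apply, Pi.add_apply, sv_left _ _ rab, sv_right _ _ rab, EO_ra, EO_rb]
  norm_num

theorem oct_trans (O O' : Finset GolayPt) (hO : O ∈ octads) (hO' : O' ∈ octads) (ha : ra ∈ O)
    (hb : rb ∈ O) (ha' : ra ∈ O') (hb' : rb ∈ O') :
    ∃ σ ∈ M24, σ ra = ra ∧ σ rb = rb ∧ σ • O = O' := by
  obtain ⟨σ1, h1, o1, a1, b1⟩ := Cfsg.Agent.Lib_lead_OctConfig.config2 O hO ra rb ha hb rab
  obtain ⟨σ2, h2, o2, a2, b2⟩ := Cfsg.Agent.Lib_lead_OctConfig.config2 O' hO' ra rb ha' hb' rab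
  have i1 : σ1⁻¹ ra = ptN 0 := by
    rw [Equiv.Perm.inv_eq_iff_eq]
    exact a1.symm
  have i2 : σ1⁻¹ rb = ptN 2 := by
    rw [Equiv.Perm.inv_eq_iff_eq]
    exact b1.symm
  refine ⟨σ2 * σ1⁻¹, M24.mul_mem h2 (M24.inv_mem h1), ?_, ?_, ?_⟩
  · rw [Equiv.Perm.mul_apply, i1, a2]
  · rw [Equiv.Perm.mul_apply, i2, b2]
  · rw [mul_smul, inv_smul_eq_iff.mpr o1.symm, o2]

/-- the configuration -/
def SS (v w : ↥leechLattice) : Set ↥leechLattice :=
  {x | sqNorm (x : GolayPt → ℤ) = 32 ∧ dotInt (v : GolayPt → ℤ) (x : GolayPt → ℤ) = 24 ∧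
    dotInt (w : GolayPt → ℤ) (x : GolayPt → ℤ) = -24}

theorem hx0' (v w x : ↥leechLattice) :
    dotInt ((-(v + w) : ↥leechLattice) : GolayPt → ℤ) (x : GolayPt → ℤ)
      = -(dotInt (v : GolayPt → ℤ) (x : GolayPt → ℤ)
        + dotInt (w : GolayPt → ℤ) (x : GolayPt → ℤ)) := by
  show dotInt (-((v : GolayPt → ℤ) + (w : GolayPt → ℤ))) (x : GolayPt → ℤ) = _
  rw [dot_neg_left, dot_add_left]

theorem tri (v w : ↥leechLattice) (hv : sqNorm (v : GolayPt → ℤ) = 48)
    (hw : sqNorm (w : GolayPt → ℤ) = 48)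
    (hvw : dotInt (v : GolayPt → ℤ) (w : GolayPt → ℤ) = -32) (z : ↥leechLattice)
    (hzS : z ∈ SS v w) :
    ∃ g : ↥Co0, ((g • (-(v + w)) : ↥leechLattice) : GolayPt → ℤ) = sv ra rb 4 ∧
      ((g • z : ↥leechLattice) : GolayPt → ℤ) = sv ra rb (-4) ∧
      ((g • (v - z) : ↥leechLattice) : GolayPt → ℤ) = A0 := by
  obtain ⟨hz, hvz, hwz⟩ := hzS
  have hxn : sqNorm ((-(v + w) : ↥leechLattice) : GolayPt → ℤ) = 32 := by
    show sqNorm (-((v : GolayPt → ℤ) + (w : GolayPt → ℤ))) = 32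
    rw [Cfsg.Agent.Lib_lead_LeechCross.sqNorm_neg, Cfsg.Agent.Lib_lead_LeechCross.sqNorm_add,
      hv, hw, hvw]
    norm_num
  have d1 : dotInt (v : GolayPt → ℤ) ((-(v + w) : ↥leechLattice) : GolayPt → ℤ) = -16 := by
    rw [dot_comm', hx0', dot_self, hv, dot_comm', hvw]
    norm_num
  have han : sqNorm ((v - z : ↥leechLattice) : GolayPt → ℤ) = 32 := by
    show sqNorm ((v : GolayPt → ℤ) - (z : GolayPt → ℤ)) = 32
    rw [Cfsg.Agent.Lib_lead_LeechRed.sqNorm_sub, hv, hz, hvz]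
    norm_num
  have h0z : dotInt ((-(v + w) : ↥leechLattice) : GolayPt → ℤ) (z : GolayPt → ℤ) = 0 := by
    rw [hx0', hvz, hwz]
    norm_num
  have h0a : dotInt ((-(v + w) : ↥leechLattice) : GolayPt → ℤ)
      ((v - z : ↥leechLattice) : GolayPt → ℤ) = -16 := by
    show dotInt ((-(v + w) : ↥leechLattice) : GolayPt → ℤ)
      ((v : GolayPt → ℤ) - (z : GolayPt → ℤ)) = -16
    rw [dot_sub_right', h0z, dot_comm', d1]
    norm_num
  have hza : dotInt (z : GolayPt → ℤ) ((v - z : ↥leechLattice) : GolayPt → ℤ) = -8 := by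
    show dotInt (z : GolayPt → ℤ) ((v : GolayPt → ℤ) - (z : GolayPt → ℤ)) = -8
    rw [dot_sub_right', dot_self, hz, dot_comm', hvz]
    norm_num
  exact triple_normal (-(v + w)) z (v - z) hxn hz han h0z h0a hza

theorem nf (v w x : ↥leechLattice) (g0 : ↥Co0)
    (e1 : ((g0 • (-(v + w)) : ↥leechLattice) : GolayPt → ℤ) = sv ra rb 4)
    (e2 : ((g0 • x : ↥leechLattice) : GolayPt → ℤ) = sv ra rb (-4))
    (e3 : ((g0 • (v - x) : ↥leechLattice) : GolayPt → ℤ) = A0) (y : ↥leechLattice) :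
    dotInt (sv ra rb 4) ((g0 • y : ↥leechLattice) : GolayPt → ℤ)
      = -(dotInt (v : GolayPt → ℤ) (y : GolayPt → ℤ)
        + dotInt (w : GolayPt → ℤ) (y : GolayPt → ℤ)) ∧
    dotInt (sv ra rb (-4)) ((g0 • y : ↥leechLattice) : GolayPt → ℤ)
      = dotInt (x : GolayPt → ℤ) (y : GolayPt → ℤ) ∧
    dotInt A0 ((g0 • y : ↥leechLattice) : GolayPt → ℤ)
      = dotInt (v : GolayPt → ℤ) (y : GolayPt → ℤ)
        - dotInt (x : GolayPt → ℤ) (y : GolayPt → ℤ) := by
  refine ⟨?_, ?_, ?_⟩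
  · have := co_dot g0 (-(v + w)) y
    rw [e1, hx0'] at this
    exact this
  · have := co_dot g0 x y
    rw [e2] at this
    exact this
  · have := co_dot g0 (v - x) y
    rw [e3] at this
    rw [this]
    show dotInt ((v : GolayPt → ℤ) - (x : GolayPt → ℤ)) (y : GolayPt → ℤ) = _
    rw [dot_sub_left']

theorem conj_fix (v w x y y' : ↥leechLattice) (g0 M : ↥Co0)
    (h1 : M • (g0 • (-(v + w))) = g0 • (-(v + w))) (h2 : M • (g0 • x) = g0 • x)
    (h3 : M • (g0 • (v - x)) = g0 • (v - x)) (h4 : M • (g0 • y) = g0 • y') :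
    ∃ g : ↥Co0, g • v = v ∧ g • w = w ∧ g • x = x ∧ g • y = y' := by
  have ex0 : (g0⁻¹ * M * g0) • (-(v + w)) = -(v + w) := by
    rw [mul_smul, mul_smul, h1, inv_smul_smul]
  have ex : (g0⁻¹ * M * g0) • x = x := by
    rw [mul_smul, mul_smul, h2, inv_smul_smul]
  have ea : (g0⁻¹ * M * g0) • (v - x) = v - x := by
    rw [mul_smul, mul_smul, h3, inv_smul_smul]
  have ev : (g0⁻¹ * M * g0) • v = v := by
    have key : (g0⁻¹ * M * g0) • ((v - x) + x) = (v - x) + x := by
      rw [co_add, ea, ex]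
    rwa [sub_add_cancel] at key
  refine ⟨g0⁻¹ * M * g0, ev, ?_, ex, ?_⟩
  · have key : (g0⁻¹ * M * g0) • (-(-(v + w)) - v) = -(-(v + w)) - v := by
      rw [co_sub, co_neg, ex0, ev]
    have e : -(-(v + w)) - v = w := by abel
    rwa [e] at key
  · rw [mul_smul, mul_smul, h4, inv_smul_smul]

/-- the points of the first kind as lattice elements -/
def ZKL (k : {k : GolayPt // k ≠ ra ∧ k ≠ rb}) : ↥leechLattice :=
  ⟨ZK k.1, (ZK_facts k.1 k.2.1 k.2.2).1⟩

theorem ZKL_coe (k : {k : GolayPt // k ≠ ra ∧ k ≠ rb}) :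
    ((ZKL k : ↥leechLattice) : GolayPt → ℤ) = ZK k.1 := rfl

theorem ZKL_inj : Function.Injective ZKL := by
  intro k k' h
  exact Subtype.ext (ZK_inj k.1 k'.1 k.2.1 (congrArg Subtype.val h))

theorem card22 : Nat.card {k : GolayPt // k ≠ ra ∧ k ≠ rb} = 22 := by
  rw [Nat.card_eq_fintype_card]
  decide +kernel

/-- the classification of the points other than the base point -/
theorem cl (v w x : ↥leechLattice) (g0 : ↥Co0)
    (e1 : ((g0 • (-(v + w)) : ↥leechLattice) : GolayPt → ℤ) = sv ra rb 4)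
    (e2 : ((g0 • x : ↥leechLattice) : GolayPt → ℤ) = sv ra rb (-4))
    (e3 : ((g0 • (v - x) : ↥leechLattice) : GolayPt → ℤ) = A0) (z : ↥leechLattice)
    (hz : z ∈ SS v w) :
    (z = x) ∨
    (∃ k, k ≠ ra ∧ k ≠ rb ∧ ((g0 • z : ↥leechLattice) : GolayPt → ℤ) = ZK k ∧
      dotInt (x : GolayPt → ℤ) (z : GolayPt → ℤ) = 8) ∨
    (∃ O ∈ octads, ra ∈ O ∧ rb ∈ O ∧
      ((g0 • z : ↥leechLattice) : GolayPt → ℤ) = sv ra rb (-4) + EO O ∧
      dotInt (x : GolayPt → ℤ) (z : GolayPt → ℤ) = 16) := by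
  obtain ⟨f1, f2, f3⟩ := nf v w x g0 e1 e2 e3 z
  have c := classify _ (g0 • z).2 ((co_norm g0 z).trans hz.1)
    (by rw [f1, hz.2.1, hz.2.2]; norm_num) (by rw [f3, f2]; linarith [hz.2.1])
  rcases c with c | ⟨k, hk, hkb, c⟩ | ⟨O, hO, haO, hbO, c⟩
  · left
    apply MulAction.injective g0
    exact Subtype.ext (c.trans e2.symm)
  · right; left
    refine ⟨k, hk, hkb, c, ?_⟩
    rw [← f2, c]
    exact (ZK_facts k hk hkb).2.2.2.2
  · right; right
    refine ⟨O, hO, haO, hbO, c, ?_⟩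
    rw [← f2, c]
    exact dotB_EO O

theorem count22 (v w x : ↥leechLattice) (hv : sqNorm (v : GolayPt → ℤ) = 48)
    (hw : sqNorm (w : GolayPt → ℤ) = 48)
    (hvw : dotInt (v : GolayPt → ℤ) (w : GolayPt → ℤ) = -32) (hx : x ∈ SS v w) :
    {y : ↥leechLattice | y ∈ SS v w ∧
      dotInt (x : GolayPt → ℤ) (y : GolayPt → ℤ) = 8}.ncard = 22 := by
  obtain ⟨g0, e1, e2, e3⟩ := tri v w hv hw hvw x hx
  have himg : (fun y : ↥leechLattice => g0 • y) '' {y : ↥leechLattice | y ∈ SS v w ∧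
      dotInt (x : GolayPt → ℤ) (y : GolayPt → ℤ) = 8} = ZKL '' Set.univ := by
    ext y1
    constructor
    · rintro ⟨y, ⟨hy, hd⟩, rfl⟩
      rcases cl v w x g0 e1 e2 e3 y hy with c | ⟨k, hk, hkb, c, d⟩ | ⟨O, hO, haO, hbO, c, d⟩
      · exfalso
        rw [c, dot_self, hx.1] at hd
        norm_num at hd
      · exact ⟨⟨k, hk, hkb⟩, Set.mem_univ _, Subtype.ext c.symm⟩
      · exfalso
        rw [d] at hd
        norm_num at hd
    · rintro ⟨⟨k, hk, hkb⟩, _, rfl⟩
      obtain ⟨z1, z2, z3, z4, z5⟩ := ZK_facts k hk hkb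
      refine ⟨g0⁻¹ • ZKL ⟨k, hk, hkb⟩, ?_, smul_inv_smul g0 _⟩
      obtain ⟨f1, f2, f3⟩ := nf v w x g0 e1 e2 e3 (g0⁻¹ • ZKL ⟨k, hk, hkb⟩)
      rw [smul_inv_smul, ZKL_coe] at f1 f2 f3
      rw [z3] at f1
      rw [z5] at f2
      refine ⟨⟨(co_norm g0⁻¹ _).trans z2, ?_, ?_⟩, ?_⟩ <;> linarith
  rw [← Set.ncard_image_of_injective _ (MulAction.injective g0), himg,
    Set.ncard_image_of_injective _ ZKL_inj, Set.ncard_univ, card22]

theorem count77 (v w x : ↥leechLattice) (hv : sqNorm (v : GolayPt → ℤ) = 48)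
    (hw : sqNorm (w : GolayPt → ℤ) = 48)
    (hvw : dotInt (v : GolayPt → ℤ) (w : GolayPt → ℤ) = -32) (hx : x ∈ SS v w) :
    {y : ↥leechLattice | y ∈ SS v w ∧ y ≠ x ∧
      dotInt (x : GolayPt → ℤ) (y : GolayPt → ℤ) ≠ 8}.ncard = 77 := by
  have h100 : (SS v w).ncard = 100 := (hs100 v w hv hw hvw).1
  have h22 := count22 v w x hv hw hvw hx
  have hfin : {y : ↥leechLattice | y ∈ SS v w ∧
      dotInt (x : GolayPt → ℤ) (y : GolayPt → ℤ) = 8}.Finite :=
    Set.finite_of_ncard_ne_zero (by rw [h22]; norm_num)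
  have hxn : x ∉ {y : ↥leechLattice | y ∈ SS v w ∧
      dotInt (x : GolayPt → ℤ) (y : GolayPt → ℤ) = 8} := by
    rintro ⟨_, h⟩
    rw [dot_self, hx.1] at h
    norm_num at h
  have h23 : (insert x {y : ↥leechLattice | y ∈ SS v w ∧
      dotInt (x : GolayPt → ℤ) (y : GolayPt → ℤ) = 8}).ncard = 23 := by
    rw [Set.ncard_insert_of_notMem hxn hfin, h22]
  have hsub : insert x {y : ↥leechLattice | y ∈ SS v w ∧
      dotInt (x : GolayPt → ℤ) (y : GolayPt → ℤ) = 8} ⊆ SS v w := by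
    intro y hy
    rcases hy with rfl | ⟨h, _⟩
    · exact hx
    · exact h
  have heq : {y : ↥leechLattice | y ∈ SS v w ∧ y ≠ x ∧
      dotInt (x : GolayPt → ℤ) (y : GolayPt → ℤ) ≠ 8}
      = SS v w \ insert x {y : ↥leechLattice | y ∈ SS v w ∧
        dotInt (x : GolayPt → ℤ) (y : GolayPt → ℤ) = 8} := by
    ext y
    constructor
    · rintro ⟨h1, h2, h3⟩
      refine ⟨h1, ?_⟩
      rintro (h | ⟨_, h⟩)
      · exact h2 h
      · exact h3 h
    · rintro ⟨h1, h2⟩
      exact ⟨h1, fun h => h2 (Or.inl h), fun h => h2 (Or.inr ⟨h1, h⟩)⟩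
  rw [heq, Set.ncard_diff hsub (hfin.insert x), h100, h23]

end Cfsg.Agent.Lib_lead_LeechHS3
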