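import Mathlib
import Cfsg.Prelude.Def_SporadicCombinatorics
import Cfsg.Agent.Lib_lead_LeechHS3

/-! The rank-3 action on the 100 minimal vectors: transitivity of the stabiliser on the two
classes of points. -/

set_option autoImplicit false

namespace Cfsg.Agent.Lib_lead_LeechHS3b

open Cfsg Cfsg.Agent.Lib_lead_Golay Cfsg.Agent.Lib_lead_GolayPerm Cfsg.Agent.Lib_lead_Leech
  Cfsg.Agent.Lib_lead_Leech2 Cfsg.Agent.Lib_lead_M24 Cfsg.Agent.Lib_lead_LeechDot
  Cfsg.Agent.Lib_lead_LeechSym Cfsg.Agent.Lib_lead_MinVec Cfsg.Agent.Lib_lead_LeechInner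
  Cfsg.Agent.Lib_lead_LeechMono Cfsg.Agent.Lib_lead_LeechOrb Cfsg.Agent.Lib_lead_LeechFrame
  Cfsg.Agent.Lib_lead_LeechCenter Cfsg.Agent.Lib_lead_LeechOrth Cfsg.Agent.Lib_lead_LeechPair
  Cfsg.Agent.Lib_lead_M24Chain Cfsg.Agent.Lib_lead_LeechPair8 Cfsg.Agent.Lib_lead_LeechDotL
  Cfsg.Agent.Lib_lead_LeechDotNums2 Cfsg.Agent.Lib_lead_LeechOrb48 Cfsg.Agent.Lib_lead_LeechXi
  Cfsg.Agent.Lib_lead_LeechHS Cfsg.Agent.Lib_lead_LeechHS2 Cfsg.Agent.Lib_lead_LeechHS3
open scoped Pointwise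

/-- the action of a monomial element on the coordinates -/
theorem mono_co (σ : Equiv.Perm GolayPt) (hσ : σ ∈ M24) (c : Finset GolayPt) (hc : c ∈ Supp)
    (y : ↥leechLattice) :
    (((⟨mono σ hσ c hc, mono_mem σ hσ c hc⟩ : ↥Co0) • y : ↥leechLattice) : GolayPt → ℤ)
      = signedPerm σ c (y : GolayPt → ℤ) := rfl

/-- a monomial element fixing the normal forms -/
theorem mono_fix (σ : Equiv.Perm GolayPt) (hσ : σ ∈ M24) (z z' : ↥leechLattice)
    (h : signedPerm σ (cs σ) (z : GolayPt → ℤ) = (z' : GolayPt → ℤ)) :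
    (⟨mono σ hσ (cs σ) (cs_mem hσ), mono_mem σ hσ (cs σ) (cs_mem hσ)⟩ : ↥Co0) • z = z' :=
  Subtype.ext ((mono_co σ hσ (cs σ) (cs_mem hσ) z).trans h)

/-- conjugating a monomial element fixing the normal forms -/
theorem conj_mono (v w x y y' : ↥leechLattice) (g0 : ↥Co0)
    (e1 : ((g0 • (-(v + w)) : ↥leechLattice) : GolayPt → ℤ) = sv ra rb 4)
    (e2 : ((g0 • x : ↥leechLattice) : GolayPt → ℤ) = sv ra rb (-4))
    (e3 : ((g0 • (v - x) : ↥leechLattice) : GolayPt → ℤ) = A0)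
    (σ : Equiv.Perm GolayPt) (hσ : σ ∈ M24) (sa : σ ra = ra) (sb : σ rb = rb)
    (h4 : signedPerm σ (cs σ) ((g0 • y : ↥leechLattice) : GolayPt → ℤ)
      = ((g0 • y' : ↥leechLattice) : GolayPt → ℤ)) :
    ∃ g : ↥Co0, g • v = v ∧ g • w = w ∧ g • x = x ∧ g • y = y' := by
  have h1 : signedPerm σ (cs σ) ((g0 • (-(v + w)) : ↥leechLattice) : GolayPt → ℤ)
      = ((g0 • (-(v + w)) : ↥leechLattice) : GolayPt → ℤ) := by
    rw [e1, mB σ sa sb]
  have h2 : signedPerm σ (cs σ) ((g0 • x : ↥leechLattice) : GolayPt → ℤ)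
      = ((g0 • x : ↥leechLattice) : GolayPt → ℤ) := by
    rw [e2, mB σ sa sb]
  have h3 : signedPerm σ (cs σ) ((g0 • (v - x) : ↥leechLattice) : GolayPt → ℤ)
      = ((g0 • (v - x) : ↥leechLattice) : GolayPt → ℤ) := by
    rw [e3, mA σ sa]
  exact conj_fix v w x y y' g0 ⟨mono σ hσ (cs σ) (cs_mem hσ), mono_mem σ hσ (cs σ) (cs_mem hσ)⟩
    (mono_fix σ hσ _ _ h1) (mono_fix σ hσ _ _ h2) (mono_fix σ hσ _ _ h3) (mono_fix σ hσ _ _ h4)

theorem rank3_trans (v w x : ↥leechLattice) (hv : sqNorm (v : GolayPt → ℤ) = 48)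
    (hw : sqNorm (w : GolayPt → ℤ) = 48)
    (hvw : dotInt (v : GolayPt → ℤ) (w : GolayPt → ℤ) = -32) (hx : x ∈ SS v w)
    (y : ↥leechLattice) (hy : y ∈ SS v w) (y' : ↥leechLattice) (hy' : y' ∈ SS v w)
    (hyx : y ≠ x) (hyx' : y' ≠ x)
    (hiff : dotInt (x : GolayPt → ℤ) (y : GolayPt → ℤ) = 8 ↔
      dotInt (x : GolayPt → ℤ) (y' : GolayPt → ℤ) = 8) :
    ∃ g : ↥Co0, g • v = v ∧ g • w = w ∧ g • x = x ∧ g • y = y' := by
  obtain ⟨g0, e1, e2, e3⟩ := tri v w hv hw hvw x hx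
  rcases cl v w x g0 e1 e2 e3 y hy with c | ⟨k, hk, hkb, c, d⟩ | ⟨O, hO, haO, hbO, c, d⟩
  · exact absurd c hyx
  · rcases cl v w x g0 e1 e2 e3 y' hy' with c' | ⟨k', hk', hkb', c', d'⟩ |
      ⟨O', hO', haO', hbO', c', d'⟩
    · exact absurd c' hyx'
    · have hnd : [ra, rb, k].Nodup := by
        rw [List.nodup_cons, List.nodup_cons]
        refine ⟨?_, ?_, List.nodup_singleton k⟩
        · intro h
          rw [List.mem_cons, List.mem_singleton] at h
          rcases h with h | h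
          · exact rab h
          · exact hk h.symm
        · intro h
          rw [List.mem_singleton] at h
          exact hkb h.symm
      have hnd' : [ra, rb, k'].Nodup := by
        rw [List.nodup_cons, List.nodup_cons]
        refine ⟨?_, ?_, List.nodup_singleton k'⟩
        · intro h
          rw [List.mem_cons, List.mem_singleton] at h
          rcases h with h | h
          · exact rab h
          · exact hk' h.symm
        · intro h
          rw [List.mem_singleton] at h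
          exact hkb' h.symm
      obtain ⟨σ, hσ, hmap⟩ := Cfsg.Agent.Lib_lead_M24Sets.transL [ra, rb, k] [ra, rb, k']
        hnd hnd' rfl (by show 3 ≤ 5; norm_num)
      have sa : σ ra = ra := by
        have h := congrArg (fun l : List GolayPt => l.head?) hmap
        exact Option.some.inj h
      have sb : σ rb = rb := by
        have h := congrArg (fun l : List GolayPt => l.tail.head?) hmap
        exact Option.some.inj h
      have sk : σ k = k' := by
        have h := congrArg (fun l : List GolayPt => l.tail.tail.head?) hmap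
        exact Option.some.inj h
      refine conj_mono v w x y y' g0 e1 e2 e3 σ hσ sa sb ?_
      rw [c, c', mZ σ sa, sk]
    · exfalso
      have := hiff.mp d
      rw [d'] at this
      norm_num at this
  · rcases cl v w x g0 e1 e2 e3 y' hy' with c' | ⟨k', hk', hkb', c', d'⟩ |
      ⟨O', hO', haO', hbO', c', d'⟩
    · exact absurd c' hyx'
    · exfalso
      have := hiff.mpr d'
      rw [d] at this
      norm_num at this
    · obtain ⟨σ, hσ, sa, sb, sO⟩ := oct_trans O O' hO hO' haO hbO haO' hbO'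
      refine conj_mono v w x y y' g0 e1 e2 e3 σ hσ sa sb ?_
      rw [c, c', signedPerm_add, mB σ sa sb, mE σ sa sb, sO]

/-- the rank-3 action on the 100 minimal vectors -/
theorem rank3 (v w x : ↥leechLattice) (hv : sqNorm (v : GolayPt → ℤ) = 48)
    (hw : sqNorm (w : GolayPt → ℤ) = 48)
    (hvw : dotInt (v : GolayPt → ℤ) (w : GolayPt → ℤ) = -32) (hx : x ∈ SS v w) :
    {y : ↥leechLattice | y ∈ SS v w ∧
      dotInt (x : GolayPt → ℤ) (y : GolayPt → ℤ) = 8}.ncard = 22 ∧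
    {y : ↥leechLattice | y ∈ SS v w ∧ y ≠ x ∧
      dotInt (x : GolayPt → ℤ) (y : GolayPt → ℤ) ≠ 8}.ncard = 77 ∧
    ∀ y ∈ SS v w, ∀ y' ∈ SS v w, y ≠ x → y' ≠ x →
      (dotInt (x : GolayPt → ℤ) (y : GolayPt → ℤ) = 8 ↔
        dotInt (x : GolayPt → ℤ) (y' : GolayPt → ℤ) = 8) →
      ∃ g : ↥Co0, g • v = v ∧ g • w = w ∧ g • x = x ∧ g • y = y' :=
  ⟨count22 v w x hv hw hvw hx, count77 v w x hv hw hvw hx,
    fun y hy y' hy' h1 h2 h3 => rank3_trans v w x hv hw hvw hx y hy y' hy' h1 h2 h3⟩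


end Cfsg.Agent.Lib_lead_LeechHS3b
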