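import Mathlib
import Cfsg.Prelude.Def_SporadicCombinatorics
import Cfsg.Agent.Lib_lead_LeechOrb48
import Cfsg.Agent.Lib_lead_LeechCross

/-! The invariant quadratic form modulo 2 on the rank-24 lattice is unique. -/

set_option autoImplicit false

namespace Cfsg.Agent.Lib_lead_LeechQuad

open Cfsg Cfsg.Agent.Lib_lead_Golay Cfsg.Agent.Lib_lead_M24 Cfsg.Agent.Lib_lead_Leech
  Cfsg.Agent.Lib_lead_LeechIndex Cfsg.Agent.Lib_lead_LeechXi Cfsg.Agent.Lib_lead_LeechOrb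
  Cfsg.Agent.Lib_lead_LeechOrb48 Cfsg.Agent.Lib_lead_LeechDotL Cfsg.Agent.Lib_lead_LeechDotNums2
  Cfsg.Agent.Lib_lead_LeechDual

theorem dot_sub_left (x y z : GolayPt → ℤ) : dotInt (x - y) z = dotInt x z - dotInt y z := by
  unfold dotInt
  rw [← Finset.sum_sub_distrib]
  apply Finset.sum_congr rfl
  intro i _
  rw [Pi.sub_apply]
  ring

theorem dot_sub_right (x y z : GolayPt → ℤ) : dotInt x (y - z) = dotInt x y - dotInt x z := by
  unfold dotInt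
  rw [← Finset.sum_sub_distrib]
  apply Finset.sum_congr rfl
  intro i _
  rw [Pi.sub_apply]
  ring

theorem dot_two_left (x z : GolayPt → ℤ) : dotInt (2 • x) z = 2 * dotInt x z := by
  unfold dotInt
  rw [Finset.mul_sum]
  apply Finset.sum_congr rfl
  intro i _
  simp only [Pi.smul_apply, nsmul_eq_mul, Nat.cast_ofNat]
  ring

theorem dot_two_right (x z : GolayPt → ℤ) : dotInt x (2 • z) = 2 * dotInt x z := by
  unfold dotInt
  rw [Finset.mul_sum]
  apply Finset.sum_congr rfl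
  intro i _
  simp only [Pi.smul_apply, nsmul_eq_mul, Nat.cast_ofNat]
  ring

theorem ncard_pair_le (a b : GolayPt → ℤ) : ({a, b} : Set (GolayPt → ℤ)).ncard ≤ 2 := by
  have h := Set.ncard_insert_le a ({b} : Set (GolayPt → ℤ))
  rw [Set.ncard_singleton] at h
  exact h

theorem ncard_four_le (a b c d : GolayPt → ℤ) : ({a, b, c, d} : Set (GolayPt → ℤ)).ncard ≤ 4 := by
  have h1 := Set.ncard_insert_le a ({b, c, d} : Set (GolayPt → ℤ))
  have h2 := Set.ncard_insert_le b ({c, d} : Set (GolayPt → ℤ))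
  have h3 := ncard_pair_le c d
  omega

/-- a vector of sum of squares 64 in terms of two minimal vectors -/
theorem frame3 (v : GolayPt → ℤ) (hv : v ∈ leechLattice) (hn : sqNorm v = 64) :
    ∃ p ∈ leechLattice, ∃ q ∈ leechLattice, sqNorm p = 32 ∧ sqNorm q = 32 ∧ dotInt v p = 32 ∧
      dotInt v q = 32 ∧ dotInt p q = 16 := by
  have hcard := Cfsg.Agent.Lib_lead_LeechCross.cross_card v hv hn
  obtain ⟨y2, hy2, hy2n⟩ := Set.exists_mem_notMem_of_ncard_lt_ncard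
    (s := ({v, -v} : Set (GolayPt → ℤ))) (t := cross v)
    (by rw [hcard]; exact lt_of_le_of_lt (ncard_pair_le _ _) (by norm_num)) (Set.toFinite _)
  obtain ⟨y3, hy3, hy3n⟩ := Set.exists_mem_notMem_of_ncard_lt_ncard
    (s := ({v, -v, y2, -y2} : Set (GolayPt → ℤ))) (t := cross v)
    (by rw [hcard]; exact lt_of_le_of_lt (ncard_four_le _ _ _ _) (by norm_num)) (Set.toFinite _)
  simp only [Set.mem_insert_iff, Set.mem_singleton_iff, not_or] at hy2n hy3n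
  obtain ⟨hy2L, hy2s, p, hp, hpp⟩ := hy2
  obtain ⟨hy3L, hy3s, q, hq, hqq⟩ := hy3
  rw [hn] at hy2s hy3s
  have hD2 : v - y2 ∈ Cfsg.Agent.Lib_lead_LeechCross.D :=
    (Cfsg.Agent.Lib_lead_LeechCross.mem_D _).mpr ⟨p, hp, hpp⟩
  have hD3 : v - y3 ∈ Cfsg.Agent.Lib_lead_LeechCross.D :=
    (Cfsg.Agent.Lib_lead_LeechCross.mem_D _).mpr ⟨q, hq, hqq⟩
  have hD23 : y2 - y3 ∈ Cfsg.Agent.Lib_lead_LeechCross.D := by
    have h := Cfsg.Agent.Lib_lead_LeechCross.D.sub_mem hD3 hD2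
    have e : v - y3 - (v - y2) = y2 - y3 := by abel
    rwa [e] at h
  have k2 := Cfsg.Agent.Lib_lead_LeechCross.key hv hy2L (le_of_eq hn) (le_of_eq hy2s) hD2
    (fun h => hy2n.1 h.symm) (fun h => hy2n.2 (by rw [h, neg_neg]))
  have k3 := Cfsg.Agent.Lib_lead_LeechCross.key hv hy3L (le_of_eq hn) (le_of_eq hy3s) hD3
    (fun h => hy3n.1 h.symm) (fun h => hy3n.2.1 (by rw [h, neg_neg]))
  have k23 := Cfsg.Agent.Lib_lead_LeechCross.key hy2L hy3L (le_of_eq hy2s) (le_of_eq hy3s) hD23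
    (fun h => hy3n.2.2.1 h.symm) (fun h => hy3n.2.2.2 (by rw [h, neg_neg]))
  have e2 : y2 = v - 2 • p := by
    rw [← hpp]
    abel
  have e3 : y3 = v - 2 • q := by
    rw [← hqq]
    abel
  have d2 := k2.2.2
  have d3 := k3.2.2
  have d23 := k23.2.2
  rw [e2, dot_sub_right, dot_two_right, ← sqNorm_eq_dot, hn] at d2
  rw [e3, dot_sub_right, dot_two_right, ← sqNorm_eq_dot, hn] at d3
  rw [e2, e3, dot_sub_left, dot_sub_right, dot_sub_right, dot_two_right, dot_two_left,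
    dot_two_left, dot_two_right, ← sqNorm_eq_dot, hn, dotInt_comm p v] at d23
  have s2 := hy2s
  rw [e2, Cfsg.Agent.Lib_lead_LeechRed.sqNorm_sub, dot_two_right,
    Cfsg.Agent.Lib_lead_LeechCross.sqNorm_two, hn] at s2
  have s3 := hy3s
  rw [e3, Cfsg.Agent.Lib_lead_LeechRed.sqNorm_sub, dot_two_right,
    Cfsg.Agent.Lib_lead_LeechCross.sqNorm_two, hn] at s3
  exact ⟨p, hp, q, hq, by omega, by omega, by omega, by omega, by omega⟩

/-- three minimal vectors with pairwise sums of products `-8` -/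
def tx : GolayPt → ℤ := valL [(4, 3)]

/-- three minimal vectors with pairwise sums of products `-8` -/
def ty : GolayPt → ℤ := valL [(-3, 1), (-1, 1384564), (1, 15392650)]

/-- three minimal vectors with pairwise sums of products `-8` -/
def tz : GolayPt → ℤ := valL [(-1, 16777211), (3, 4)]

set_option maxRecDepth 100000 in
theorem tx_chk : ChkP tx 0 := by decide +kernel

set_option maxRecDepth 100000 in
theorem ty_chk : ChkP ty 2169 := by decide +kernel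

set_option maxRecDepth 100000 in
theorem tz_chk : ChkP tz 0 := by decide +kernel

theorem tx_n : sqNorm tx = 32 := by decide +kernel

theorem ty_n : sqNorm ty = 32 := by decide +kernel

theorem tz_n : sqNorm tz = 32 := by decide +kernel

theorem txy_n : sqNorm (tx + ty) = 48 := by decide +kernel

theorem txz_n : sqNorm (tx + tz) = 48 := by decide +kernel

theorem tyz_n : sqNorm (ty + tz) = 48 := by decide +kernel

theorem txyz_n : sqNorm (tx + ty + tz) = 48 := by decide +kernel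

theorem sqNorm_neg' (x : GolayPt → ℤ) : sqNorm (-x) = sqNorm x := by
  unfold sqNorm
  apply Finset.sum_congr rfl
  intro i _
  rw [Pi.neg_apply]
  ring

theorem sqNorm_zero' : sqNorm (0 : GolayPt → ℤ) = 0 := by
  unfold sqNorm
  simp

theorem quad_unique (Q : ↥leechLattice → ZMod 2)
    (hcoset : ∀ v w : ↥leechLattice, Q (v + (w + w)) = Q v)
    (hquad : ∀ u v w : ↥leechLattice,
      Q (u + v + w) + Q u + Q v + Q w = Q (u + v) + Q (u + w) + Q (v + w))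
    (hinv : ∀ (g : ↥Co0) (v : ↥leechLattice), Q (g • v) = Q v)
    (hne : ∃ v : ↥leechLattice, Q v ≠ 0) (v : ↥leechLattice) :
    Q v = ((sqNorm (v : GolayPt → ℤ) / 16 : ℤ) : ZMod 2) := by
  have hmin : ∀ u : ↥leechLattice, sqNorm (u : GolayPt → ℤ) = 32 →
      Q u = Q ⟨rC, of_chk rC_chk⟩ := by
    intro u hu
    obtain ⟨g, hg⟩ := min_orb u hu
    rw [← hg, hinv]
  have h48 : ∀ u : ↥leechLattice, sqNorm (u : GolayPt → ℤ) = 48 →
      Q u = Q ⟨valL partsb, of_chk rb_chk⟩ := by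
    intro u hu
    obtain ⟨g, hg⟩ := orb48 u hu
    rw [← hg, hinv]
  have hQ0 : Q 0 = 0 := by
    have h := hquad 0 0 0
    simp only [add_zero] at h
    have key : ∀ t : ZMod 2, t + t + t + t = t + t + t → t = 0 := by decide
    exact key _ h
  have ha : Q ⟨rC, of_chk rC_chk⟩ = 0 := by
    have h := hquad ⟨tx, of_chk tx_chk⟩ ⟨ty, of_chk ty_chk⟩ ⟨tz, of_chk tz_chk⟩
    have s1 := h48 ((⟨tx, of_chk tx_chk⟩ : ↥leechLattice) + ⟨ty, of_chk ty_chk⟩
      + ⟨tz, of_chk tz_chk⟩) txyz_n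
    have s2 := h48 ((⟨tx, of_chk tx_chk⟩ : ↥leechLattice) + ⟨ty, of_chk ty_chk⟩) txy_n
    have s3 := h48 ((⟨tx, of_chk tx_chk⟩ : ↥leechLattice) + ⟨tz, of_chk tz_chk⟩) txz_n
    have s4 := h48 ((⟨ty, of_chk ty_chk⟩ : ↥leechLattice) + ⟨tz, of_chk tz_chk⟩) tyz_n
    rw [hmin ⟨tx, of_chk tx_chk⟩ tx_n, hmin ⟨ty, of_chk ty_chk⟩ ty_n,
      hmin ⟨tz, of_chk tz_chk⟩ tz_n, s1, s2, s3, s4] at h
    have key : ∀ a b : ZMod 2, b + a + a + a = b + b + b → a = 0 := by decide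
    exact key _ _ h
  have h64 : ∀ u : ↥leechLattice, sqNorm (u : GolayPt → ℤ) = 64 → Q u = 0 := by
    intro u hu
    obtain ⟨p, hp, q, hq, np, nq, dvp, dvq, dpq⟩ := frame3 u u.2 hu
    have h := hquad (u - ⟨p, hp⟩) ⟨p, hp⟩ (u - ⟨p, hp⟩ - ⟨q, hq⟩)
    have n1 : sqNorm (((u - ⟨p, hp⟩ : ↥leechLattice) : GolayPt → ℤ)) = 32 := by
      show sqNorm ((u : GolayPt → ℤ) - p) = 32
      rw [Cfsg.Agent.Lib_lead_LeechRed.sqNorm_sub]
      omega
    have n2 : sqNorm (((u - ⟨p, hp⟩ - ⟨q, hq⟩ : ↥leechLattice) : GolayPt → ℤ)) = 32 := by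
      show sqNorm ((u : GolayPt → ℤ) - p - q) = 32
      rw [Cfsg.Agent.Lib_lead_LeechRed.sqNorm_sub, dot_sub_left,
        Cfsg.Agent.Lib_lead_LeechRed.sqNorm_sub]
      omega
    have n3 : sqNorm ((((⟨p, hp⟩ : ↥leechLattice) - ⟨q, hq⟩ : ↥leechLattice) : GolayPt → ℤ))
        = 32 := by
      show sqNorm (p - q) = 32
      rw [Cfsg.Agent.Lib_lead_LeechRed.sqNorm_sub]
      omega
    have n4 : sqNorm (((-(⟨q, hq⟩ : ↥leechLattice) : ↥leechLattice) : GolayPt → ℤ)) = 32 := by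
      show sqNorm (-q) = 32
      rw [sqNorm_neg']
      exact nq
    have n5 : sqNorm (((u - ⟨q, hq⟩ : ↥leechLattice) : GolayPt → ℤ)) = 32 := by
      show sqNorm ((u : GolayPt → ℤ) - q) = 32
      rw [Cfsg.Agent.Lib_lead_LeechRed.sqNorm_sub]
      omega
    have e1 : u - ⟨p, hp⟩ + ⟨p, hp⟩ + (u - ⟨p, hp⟩ - ⟨q, hq⟩)
        = ((⟨p, hp⟩ : ↥leechLattice) - ⟨q, hq⟩)
          + ((u - ⟨p, hp⟩) + (u - ⟨p, hp⟩)) := by abel
    have e2 : u - ⟨p, hp⟩ + ⟨p, hp⟩ = u := by abel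
    have e3 : u - ⟨p, hp⟩ + (u - ⟨p, hp⟩ - ⟨q, hq⟩)
        = -(⟨q, hq⟩ : ↥leechLattice) + ((u - ⟨p, hp⟩) + (u - ⟨p, hp⟩)) := by abel
    have e4 : (⟨p, hp⟩ : ↥leechLattice) + (u - ⟨p, hp⟩ - ⟨q, hq⟩) = u - ⟨q, hq⟩ := by abel
    have q1 : Q (u - ⟨p, hp⟩ + ⟨p, hp⟩ + (u - ⟨p, hp⟩ - ⟨q, hq⟩)) = 0 := by
      rw [e1, hcoset, hmin _ n3, ha]
    have q2 : Q (u - ⟨p, hp⟩ + ⟨p, hp⟩) = Q u := by rw [e2]
    have q3 : Q (u - ⟨p, hp⟩ + (u - ⟨p, hp⟩ - ⟨q, hq⟩)) = 0 := by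
      rw [e3, hcoset, hmin _ n4, ha]
    have q4 : Q ((⟨p, hp⟩ : ↥leechLattice) + (u - ⟨p, hp⟩ - ⟨q, hq⟩)) = 0 := by
      rw [e4, hmin _ n5, ha]
    rw [q1, q2, q3, q4, hmin _ n1, hmin ⟨p, hp⟩ np, hmin _ n2, ha] at h
    simpa using h.symm
  have hrep : ∀ w : ↥leechLattice, ∃ r : ↥leechLattice, sqNorm (r : GolayPt → ℤ) ≤ 64 ∧
      Q w = Q r ∧ (32 : ℤ) ∣ sqNorm (w : GolayPt → ℤ) - sqNorm (r : GolayPt → ℤ) := by
    intro w
    obtain ⟨y, hy, hle, z, hz, hzz⟩ := Cfsg.Agent.Lib_lead_LeechCross.short_rep w w.2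
    have e : (w : GolayPt → ℤ) = y + 2 • z := by
      rw [← hzz]
      abel
    refine ⟨⟨y, hy⟩, hle, ?_, ?_⟩
    · have e' : w = ⟨y, hy⟩ + (⟨z, hz⟩ + ⟨z, hz⟩) := by
        apply Subtype.ext
        show (w : GolayPt → ℤ) = y + (z + z)
        rw [e, two_nsmul]
      rw [e', hcoset]
    · show (32 : ℤ) ∣ sqNorm (w : GolayPt → ℤ) - sqNorm y
      rw [e, sqNorm_add', dot_two_right, Cfsg.Agent.Lib_lead_LeechCross.sqNorm_two]
      have h1 := dot_dvd hy hz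
      have h2 := sqNorm_dvd hz
      omega
  have hval : ∀ r : ↥leechLattice, sqNorm (r : GolayPt → ℤ) ≤ 64 →
      (sqNorm (r : GolayPt → ℤ) = 0 ∧ Q r = 0) ∨ (sqNorm (r : GolayPt → ℤ) = 32 ∧ Q r = 0) ∨
      (sqNorm (r : GolayPt → ℤ) = 48 ∧ Q r = Q ⟨valL partsb, of_chk rb_chk⟩) ∨
      (sqNorm (r : GolayPt → ℤ) = 64 ∧ Q r = 0) := by
    intro r hle
    by_cases h0 : (r : GolayPt → ℤ) = 0
    · left
      refine ⟨by rw [h0]; exact sqNorm_zero', ?_⟩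
      have e : r = 0 := Subtype.ext h0
      rw [e]
      exact hQ0
    · have h1 := sqNorm_ge r.2 h0
      have h2 := sqNorm_dvd r.2
      have h3 : sqNorm (r : GolayPt → ℤ) = 32 ∨ sqNorm (r : GolayPt → ℤ) = 48 ∨
          sqNorm (r : GolayPt → ℤ) = 64 := by omega
      rcases h3 with h | h | h
      · right; left
        exact ⟨h, (hmin r h).trans ha⟩
      · right; right; left
        exact ⟨h, h48 r h⟩
      · right; right; right
        exact ⟨h, h64 r h⟩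
  have hb : Q ⟨valL partsb, of_chk rb_chk⟩ = 1 := by
    obtain ⟨w, hw⟩ := hne
    obtain ⟨r, hle, hQ, _⟩ := hrep w
    rcases hval r hle with ⟨_, h⟩ | ⟨_, h⟩ | ⟨_, h⟩ | ⟨_, h⟩
    · exact absurd (hQ.trans h) hw
    · exact absurd (hQ.trans h) hw
    · have h' : Q ⟨valL partsb, of_chk rb_chk⟩ ≠ 0 := by
        rw [← h, ← hQ]
        exact hw
      have key : ∀ t : ZMod 2, t ≠ 0 → t = 1 := by decide
      exact key _ h'
    · exact absurd (hQ.trans h) hw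
  obtain ⟨r, hle, hQ, hdvd⟩ := hrep v
  rw [hQ]
  rcases hval r hle with ⟨hn, h⟩ | ⟨hn, h⟩ | ⟨hn, h⟩ | ⟨hn, h⟩
  · rw [h]
    symm
    rw [ZMod.intCast_zmod_eq_zero_iff_dvd]
    omega
  · rw [h]
    symm
    rw [ZMod.intCast_zmod_eq_zero_iff_dvd]
    omega
  · rw [h, hb]
    symm
    have e : ((sqNorm (v : GolayPt → ℤ) / 16 : ℤ) : ZMod 2) = ((1 : ℤ) : ZMod 2) := by
      rw [ZMod.intCast_eq_intCast_iff_dvd_sub]
      omega
    rw [e, Int.cast_one]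
  · rw [h]
    symm
    rw [ZMod.intCast_zmod_eq_zero_iff_dvd]
    omega

end Cfsg.Agent.Lib_lead_LeechQuad
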