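import Mathlib
import Cfsg.Prelude.Def_SporadicCombinatorics
import Cfsg.Agent.Lib_lead_LeechOrder
import Cfsg.Agent.Lib_lead_LeechQuad
import Cfsg.Agent.Lib_lead_LeechGen

/-! The rank-24 lattice modulo twice itself is a faithful irreducible module for the
automorphism group modulo its centre. -/

set_option autoImplicit false

namespace Cfsg.Agent.Lib_lead_LeechIrr

open Cfsg Cfsg.Agent.Lib_lead_Golay Cfsg.Agent.Lib_lead_GolayPerm Cfsg.Agent.Lib_lead_Leech
  Cfsg.Agent.Lib_lead_Leech2 Cfsg.Agent.Lib_lead_M24 Cfsg.Agent.Lib_lead_LeechMono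
  Cfsg.Agent.Lib_lead_LeechXi Cfsg.Agent.Lib_lead_LeechOrb Cfsg.Agent.Lib_lead_LeechFrame
  Cfsg.Agent.Lib_lead_LeechCenter Cfsg.Agent.Lib_lead_LeechOrb48 Cfsg.Agent.Lib_lead_LeechQuad
  Cfsg.Agent.Lib_lead_LeechDotL Cfsg.Agent.Lib_lead_LeechDotNums2
open scoped Pointwise

/-- the vectors `4 e_i + 4 e_j` and `4 e_i - 4 e_j` -/
theorem pm_mem (i j : GolayPt) (hij : i ≠ j) :
    (Pi.single i 4 + Pi.single j 4 : GolayPt → ℤ) ∈ leechLattice ∧
    (Pi.single i 4 - Pi.single j 4 : GolayPt → ℤ) ∈ leechLattice := by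
  constructor
  · apply mem_of_four
    · intro k
      simp only [Pi.add_apply, Pi.single_apply]
      split_ifs <;> decide
    · simp [Finset.sum_add_distrib, Finset.sum_pi_single']
  · apply mem_of_four
    · intro k
      simp only [Pi.sub_apply, Pi.single_apply]
      split_ifs <;> decide
    · simp [Finset.sum_sub_distrib, Finset.sum_pi_single']

theorem pm_norm (i j : GolayPt) (hij : i ≠ j) :
    sqNorm (Pi.single i 4 + Pi.single j 4 : GolayPt → ℤ) = 32 ∧
    sqNorm (Pi.single i 4 - Pi.single j 4 : GolayPt → ℤ) = 32 := by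
  have hd : dotInt (Pi.single i 4 : GolayPt → ℤ) (Pi.single j 4) = 0 := by
    unfold dotInt
    apply Finset.sum_eq_zero
    intro k _
    by_cases hk : k = i
    · rw [hk, Pi.single_eq_of_ne hij, mul_zero]
    · rw [Pi.single_eq_of_ne hk, zero_mul]
  constructor
  · rw [Cfsg.Agent.Lib_lead_LeechDual.sqNorm_add', sqNorm_single, sqNorm_single, hd]
    norm_num
  · rw [Cfsg.Agent.Lib_lead_LeechRed.sqNorm_sub, sqNorm_single, sqNorm_single, hd]
    norm_num

/-- an automorphism acting trivially modulo twice the lattice is the identity or negation -/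
theorem trivial_mod_two (g : ↥Co0)
    (h : ∀ v : ↥leechLattice, ∃ w : ↥leechLattice,
      ((g • v : ↥leechLattice) : GolayPt → ℤ) - (v : GolayPt → ℤ) = 2 • (w : GolayPt → ℤ)) :
    (∀ v : ↥leechLattice, g • v = v) ∨ (∀ v : ↥leechLattice, g • v = -v) := by
  have hneg : ∀ v : ↥leechLattice, g • (-v) = -(g • v) := fun v => map_neg' g.1 g.2 v
  have hadd : ∀ v w : ↥leechLattice, g • (v + w) = g • v + g • w := g.2.1
  -- minimal vectors go to themselves or their negatives
  have hpm : ∀ m : ↥leechLattice, sqNorm (m : GolayPt → ℤ) = 32 → g • m = m ∨ g • m = -m := by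
    intro m hm
    obtain ⟨w, hw⟩ := h m
    by_contra hcon
    rw [not_or] at hcon
    have hn : sqNorm ((g • m : ↥leechLattice) : GolayPt → ℤ) = 32 := (g.2.2 m).trans hm
    have k := Cfsg.Agent.Lib_lead_LeechCross.key (g • m).2 m.2 (by rw [hn]; norm_num)
      (by rw [hm]; norm_num)
      ((Cfsg.Agent.Lib_lead_LeechCross.mem_D _).mpr ⟨w, w.2, hw⟩)
      (fun e => hcon.1 (Subtype.ext e))
      (fun e => hcon.2 (Subtype.ext e))
    rw [hn] at k
    omega
  -- images of the vectors 8 e_i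
  have hE : ∀ i j : GolayPt, i ≠ j → ∀ k, k ≠ i → k ≠ j →
      ((g • Ev i : ↥leechLattice) : GolayPt → ℤ) k = 0 := by
    intro i j hij k hki hkj
    have hm := pm_mem i j hij
    have hnm := pm_norm i j hij
    have e : Ev i = (⟨_, hm.1⟩ : ↥leechLattice) + ⟨_, hm.2⟩ := by
      apply Subtype.ext
      show (Pi.single i 8 : GolayPt → ℤ) = (Pi.single i 4 + Pi.single j 4)
        + (Pi.single i 4 - Pi.single j 4)
      funext l
      simp only [Pi.add_apply, Pi.sub_apply, Pi.single_apply]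
      split_ifs <;> ring
    rw [e, hadd]
    have c1 : (Pi.single i 4 + Pi.single j 4 : GolayPt → ℤ) k = 0 := by
      rw [Pi.add_apply, Pi.single_eq_of_ne hki, Pi.single_eq_of_ne hkj]
      rfl
    have c2 : (Pi.single i 4 - Pi.single j 4 : GolayPt → ℤ) k = 0 := by
      rw [Pi.sub_apply, Pi.single_eq_of_ne hki, Pi.single_eq_of_ne hkj]
      rfl
    rw [AddSubgroup.coe_add, Pi.add_apply]
    rcases hpm ⟨_, hm.1⟩ hnm.1 with h1 | h1
    · rcases hpm ⟨_, hm.2⟩ hnm.2 with h2 | h2
      · rw [h1, h2]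
        show (Pi.single i 4 + Pi.single j 4 : GolayPt → ℤ) k
          + (Pi.single i 4 - Pi.single j 4 : GolayPt → ℤ) k = 0
        rw [c1, c2]
        rfl
      · rw [h1, h2]
        show (Pi.single i 4 + Pi.single j 4 : GolayPt → ℤ) k
          + -((Pi.single i 4 - Pi.single j 4 : GolayPt → ℤ) k) = 0
        rw [c1, c2]
        rfl
    · rcases hpm ⟨_, hm.2⟩ hnm.2 with h2 | h2
      · rw [h1, h2]
        show -((Pi.single i 4 + Pi.single j 4 : GolayPt → ℤ) k)
          + (Pi.single i 4 - Pi.single j 4 : GolayPt → ℤ) k = 0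
        rw [c1, c2]
        rfl
      · rw [h1, h2]
        show -((Pi.single i 4 + Pi.single j 4 : GolayPt → ℤ) k)
          + -((Pi.single i 4 - Pi.single j 4 : GolayPt → ℤ) k) = 0
        rw [c1, c2]
        rfl
  have h1 : ∀ i k, k ≠ i → ((g • Ev i : ↥leechLattice) : GolayPt → ℤ) k = 0 := by
    intro i k hki
    have hex : ∃ j : GolayPt, j ≠ i ∧ j ≠ k := by
      have key : ∀ a b : GolayPt, ∃ j : GolayPt, j ≠ a ∧ j ≠ b := by decide +kernel
      exact key i k
    obtain ⟨j, hji, hjk⟩ := hex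
    exact hE i j (Ne.symm hji) k hki (Ne.symm hjk)
  have h2 : ∀ i, ((g • Ev i : ↥leechLattice) : GolayPt → ℤ)
      = Pi.single i (((g • Ev i : ↥leechLattice) : GolayPt → ℤ) i) := by
    intro i
    funext k
    by_cases hki : k = i
    · rw [hki, Pi.single_eq_same]
    · rw [Pi.single_eq_of_ne hki, h1 i k hki]
  -- the scalars agree
  have h4 : ∀ i j, i ≠ j → ((g • Ev i : ↥leechLattice) : GolayPt → ℤ) i
      = ((g • Ev j : ↥leechLattice) : GolayPt → ℤ) j := by
    intro i j hij
    have hm := pm_mem i j hij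
    have hnm := pm_norm i j hij
    have e : Ev i + Ev j = (⟨_, hm.1⟩ : ↥leechLattice) + ⟨_, hm.1⟩ := by
      apply Subtype.ext
      show (Pi.single i 8 + Pi.single j 8 : GolayPt → ℤ) = (Pi.single i 4 + Pi.single j 4)
        + (Pi.single i 4 + Pi.single j 4)
      funext l
      simp only [Pi.add_apply, Pi.single_apply]
      split_ifs <;> ring
    have e2 := congrArg (fun x : ↥leechLattice => g • x) e
    simp only [hadd] at e2
    have e3 := congrArg (fun x : ↥leechLattice => (x : GolayPt → ℤ)) e2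
    simp only [AddSubgroup.coe_add] at e3
    have ei := congrFun e3 i
    have ej := congrFun e3 j
    rw [Pi.add_apply, Pi.add_apply, h1 j i hij] at ei
    rw [Pi.add_apply, Pi.add_apply, h1 i j (Ne.symm hij)] at ej
    have ci : (Pi.single i 4 + Pi.single j 4 : GolayPt → ℤ) i = 4 := by
      rw [Pi.add_apply, Pi.single_eq_same, Pi.single_eq_of_ne hij]
      rfl
    have cj : (Pi.single i 4 + Pi.single j 4 : GolayPt → ℤ) j = 4 := by
      rw [Pi.add_apply, Pi.single_eq_same, Pi.single_eq_of_ne (Ne.symm hij)]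
      rfl
    rcases hpm ⟨_, hm.1⟩ hnm.1 with h5 | h5
    · rw [h5] at ei ej
      have ei' : ((g • Ev i : ↥leechLattice) : GolayPt → ℤ) i + 0
          = (Pi.single i 4 + Pi.single j 4 : GolayPt → ℤ) i
            + (Pi.single i 4 + Pi.single j 4 : GolayPt → ℤ) i := ei
      have ej' : 0 + ((g • Ev j : ↥leechLattice) : GolayPt → ℤ) j
          = (Pi.single i 4 + Pi.single j 4 : GolayPt → ℤ) j
            + (Pi.single i 4 + Pi.single j 4 : GolayPt → ℤ) j := ej
      rw [ci] at ei'
      rw [cj] at ej'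
      omega
    · rw [h5] at ei ej
      have ei' : ((g • Ev i : ↥leechLattice) : GolayPt → ℤ) i + 0
          = -((Pi.single i 4 + Pi.single j 4 : GolayPt → ℤ) i)
            + -((Pi.single i 4 + Pi.single j 4 : GolayPt → ℤ) i) := ei
      have ej' : 0 + ((g • Ev j : ↥leechLattice) : GolayPt → ℤ) j
          = -((Pi.single i 4 + Pi.single j 4 : GolayPt → ℤ) j)
            + -((Pi.single i 4 + Pi.single j 4 : GolayPt → ℤ) j) := ej
      rw [ci] at ei'
      rw [cj] at ej'
      omega
  have h4' : ∀ i, ((g • Ev i : ↥leechLattice) : GolayPt → ℤ) i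
      = ((g • Ev none : ↥leechLattice) : GolayPt → ℤ) none := by
    intro i
    by_cases hi : i = none
    · rw [hi]
    · exact h4 i none hi
  have h3 : ((g • Ev none : ↥leechLattice) : GolayPt → ℤ) none = 8
      ∨ ((g • Ev none : ↥leechLattice) : GolayPt → ℤ) none = -8 := by
    have hn := g.2.2 (Ev none)
    have hn2 : sqNorm ((g • Ev none : ↥leechLattice) : GolayPt → ℤ)
        = sqNorm ((Ev none : ↥leechLattice) : GolayPt → ℤ) := hn
    rw [h2 none, sqNorm_single] at hn2
    have hn' : sqNorm ((Ev none : ↥leechLattice) : GolayPt → ℤ) = 64 := by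
      show sqNorm (Pi.single none 8 : GolayPt → ℤ) = 64
      rw [sqNorm_single]
      norm_num
    rw [hn'] at hn2
    have h5 : (((g • Ev none : ↥leechLattice) : GolayPt → ℤ) none - 8)
        * (((g • Ev none : ↥leechLattice) : GolayPt → ℤ) none + 8) = 0 := by
      ring_nf
      ring_nf at hn2
      omega
    rcases mul_eq_zero.mp h5 with h6 | h6
    · left
      omega
    · right
      omega
  have h5 : ∀ (v : ↥leechLattice) (j : GolayPt),
      8 * ((g • v : ↥leechLattice) : GolayPt → ℤ) j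
      = (v : GolayPt → ℤ) j * ((g • Ev none : ↥leechLattice) : GolayPt → ℤ) none := by
    intro v j
    have hx := expand g.1 g.2 v j
    have hx' : 8 * ((g • v : ↥leechLattice) : GolayPt → ℤ) j
        = ∑ i, (v : GolayPt → ℤ) i * ((g • Ev i : ↥leechLattice) : GolayPt → ℤ) j := hx
    rw [hx', Finset.sum_eq_single j]
    · rw [h4' j]
    · intro i _ hij
      rw [h1 i j (Ne.symm hij), mul_zero]
    · intro h
      exact absurd (Finset.mem_univ j) h
  rcases h3 with h8 | h8
  · left
    intro v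
    apply Subtype.ext
    funext j
    have := h5 v j
    rw [h8] at this
    omega
  · right
    intro v
    apply Subtype.ext
    funext j
    have := h5 v j
    rw [h8] at this
    rw [AddSubgroup.coe_neg, Pi.neg_apply]
    omega

/-- two vectors of sum of squares 64 whose difference is minimal -/
def ua : GolayPt → ℤ := valL [(4, 15)]

/-- two vectors of sum of squares 64 whose difference is minimal -/
def ub : GolayPt → ℤ := valL [(4, 30)]

set_option maxRecDepth 100000 in
theorem ua_chk : ChkP ua 0 := by decide +kernel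

set_option maxRecDepth 100000 in
theorem ub_chk : ChkP ub 0 := by decide +kernel

theorem ua_n : sqNorm ua = 64 := by decide +kernel

theorem ub_n : sqNorm ub = 64 := by decide +kernel

theorem uab_n : sqNorm (ua - ub) = 32 := by decide +kernel

theorem two_zsmul' (z : GolayPt → ℤ) : (2 : ℤ) • z = 2 • z := by
  ext i
  simp

theorem irreducible (M : AddSubgroup (GolayPt → ℤ))
    (h2 : ∀ v ∈ leechLattice, (2 : ℤ) • v ∈ M) (hle : M ≤ leechLattice)
    (hinv : ∀ g : ↥Co0, ∀ v : ↥leechLattice, (v : GolayPt → ℤ) ∈ M →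
      ((g • v : ↥leechLattice) : GolayPt → ℤ) ∈ M) :
    (∀ x ∈ M, ∃ w ∈ leechLattice, x = (2 : ℤ) • w) ∨ M = leechLattice := by
  by_cases hall : ∀ x ∈ M, ∃ w ∈ leechLattice, x = (2 : ℤ) • w
  · exact Or.inl hall
  right
  push Not at hall
  obtain ⟨x, hxM, hx⟩ := hall
  have h2' : ∀ v ∈ leechLattice, 2 • v ∈ M := by
    intro v hv
    rw [← two_zsmul']
    exact h2 v hv
  -- a minimal vector in M gives everything
  have hmin : (∃ m ∈ M, sqNorm m = 32) → M = leechLattice := by
    rintro ⟨m, hmM, hmn⟩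
    apply le_antisymm hle
    rw [← Cfsg.Agent.Lib_lead_LeechGen.main, AddSubgroup.closure_le]
    rintro y ⟨hy, hyn⟩
    obtain ⟨g, hg⟩ := min_trans ⟨m, hle hmM⟩ ⟨y, hy⟩ hmn hyn
    have h3 := hinv g ⟨m, hle hmM⟩ hmM
    rw [hg] at h3
    exact h3
  obtain ⟨y, hy, hyle, z, hz, hzz⟩ := Cfsg.Agent.Lib_lead_LeechCross.short_rep x (hle hxM)
  have hyM : y ∈ M := by
    have e : y = x - 2 • z := by
      rw [← hzz]
      abel
    rw [e]
    exact M.sub_mem hxM (h2' z hz)
  have hy0 : y ≠ 0 := by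
    rintro rfl
    apply hx z hz
    rw [two_zsmul', ← hzz, sub_zero]
  have s1 := sqNorm_ge hy hy0
  have s2 := sqNorm_dvd hy
  have hcase : sqNorm y = 32 ∨ sqNorm y = 48 ∨ sqNorm y = 64 := by omega
  rcases hcase with h32 | h48 | h64
  · exact hmin ⟨y, hyM, h32⟩
  · apply hmin
    have a1 : (tx + ty + tz : GolayPt → ℤ) ∈ M := by
      obtain ⟨g, hg⟩ := trans48 ⟨y, hy⟩
        ((⟨tx, of_chk tx_chk⟩ : ↥leechLattice) + ⟨ty, of_chk ty_chk⟩ + ⟨tz, of_chk tz_chk⟩)
        h48 txyz_n
      have h3 := hinv g ⟨y, hy⟩ hyM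
      rw [hg] at h3
      exact h3
    have a2 : (tx + ty : GolayPt → ℤ) ∈ M := by
      obtain ⟨g, hg⟩ := trans48 ⟨y, hy⟩
        ((⟨tx, of_chk tx_chk⟩ : ↥leechLattice) + ⟨ty, of_chk ty_chk⟩) h48 txy_n
      have h3 := hinv g ⟨y, hy⟩ hyM
      rw [hg] at h3
      exact h3
    refine ⟨tz, ?_, tz_n⟩
    have h3 := M.sub_mem a1 a2
    have e : tx + ty + tz - (tx + ty) = tz := by abel
    rwa [e] at h3
  · apply hmin
    have key : ∀ w : GolayPt → ℤ, w ∈ leechLattice → sqNorm w = 64 → w ∈ M := by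
      intro w hw hwn
      obtain ⟨g, z', hz', e⟩ := cross_trans ⟨y, hy⟩ ⟨w, hw⟩ h64 hwn
      have h3 := hinv g ⟨y, hy⟩ hyM
      have e2 : w = ((g • (⟨y, hy⟩ : ↥leechLattice) : ↥leechLattice) : GolayPt → ℤ) - 2 • z' := by
        rw [← e]
        abel
      rw [e2]
      exact M.sub_mem h3 (h2' z' hz')
    exact ⟨ua - ub, M.sub_mem (key ua (of_chk ua_chk) ua_n) (key ub (of_chk ub_chk) ub_n), uab_n⟩

theorem main : (∀ g : ↥Co0, (∀ v : ↥leechLattice, ∃ w : ↥leechLattice,
      ((g • v : ↥leechLattice) : GolayPt → ℤ) - (v : GolayPt → ℤ) = 2 • (w : GolayPt → ℤ)) →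
      g ∈ Subgroup.center ↥Co0) ∧
    ∀ M : AddSubgroup (GolayPt → ℤ), (∀ v ∈ leechLattice, (2 : ℤ) • v ∈ M) → M ≤ leechLattice →
      (∀ g : ↥Co0, ∀ v : ↥leechLattice, (v : GolayPt → ℤ) ∈ M →
        ((g • v : ↥leechLattice) : GolayPt → ℤ) ∈ M) →
      (∀ x ∈ M, ∃ w ∈ leechLattice, x = (2 : ℤ) • w) ∨ M = leechLattice := by
  refine ⟨fun g h => ?_, irreducible⟩
  have hc : g ∈ (Subgroup.center ↥Co0 : Set ↥Co0) := by
    rw [center_eq]
    rcases trivial_mod_two g h with h1 | h1
    · left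
      apply Subtype.ext
      apply Equiv.ext
      intro v
      exact h1 v
    · right
      apply Subtype.ext
      apply Equiv.ext
      intro v
      exact h1 v
  exact hc

end Cfsg.Agent.Lib_lead_LeechIrr
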