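import Mathlib
import Cfsg.Prelude.Def_Sporadic_a
import Cfsg.Agent.Lib_lead_LeechIndex

/-! A sublattice of index `2 ^ 12` of the rank-24 lattice, containing twice the lattice,
all of whose vectors have sum of squares divisible by 32. -/

set_option autoImplicit false

namespace Cfsg.Agent.Lib_lead_LeechPlus

open Cfsg Cfsg.Agent.Lib_lead_Leech Cfsg.Agent.Lib_lead_LeechIndex

/-- the repetition code -/
def R : AddSubgroup (GolayPt → ZMod 2) where
  carrier := {w | w = 0 ∨ w = 1}
  zero_mem' := Or.inl rfl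
  add_mem' := by
    rintro a b (rfl | rfl) (rfl | rfl)
    · left
      simp
    · right
      simp
    · right
      simp
    · left
      ext i
      show (1 : ZMod 2) + 1 = 0
      decide
  neg_mem' := by
    rintro a (rfl | rfl)
    · left
      simp
    · right
      ext i
      show -(1 : ZMod 2) = 1
      decide

theorem mem_R (w : GolayPt → ZMod 2) : w ∈ R ↔ w = 0 ∨ w = 1 := Iff.rfl

theorem card_R : Nat.card R = 2 := by
  show Set.ncard ({0, 1} : Set (GolayPt → ZMod 2)) = 2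
  apply Set.ncard_pair
  intro h
  have h1 := congrFun h none
  simp at h1

theorem index_R : R.index = 2 ^ 23 := by
  have h := AddSubgroup.card_mul_index R
  have hV : Nat.card (GolayPt → ZMod 2) = 2 ^ 24 := by
    rw [Nat.card_eq_fintype_card, Fintype.card_fun, ZMod.card, card_golayPt]
  rw [card_R, hV] at h
  omega

theorem par_zero_iff (x : GolayPt → ℤ) : par x = 0 ↔ ∀ i, x i % 2 = 0 := by
  constructor
  · intro h i
    have h1 := congrFun h i
    rw [par_apply, Pi.zero_apply, ZMod.intCast_zmod_eq_zero_iff_dvd] at h1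
    omega
  · intro h
    ext i
    rw [par_apply, Pi.zero_apply, ZMod.intCast_zmod_eq_zero_iff_dvd]
    have := h i
    omega

theorem par_one_iff (x : GolayPt → ℤ) : par x = 1 ↔ ∀ i, x i % 2 = 1 := by
  constructor
  · intro h i
    have h1 := congrFun h i
    rw [par_apply, Pi.one_apply] at h1
    have h2 : ((x i : ℤ) : ZMod 2) ≠ 0 := by
      rw [h1]
      decide
    exact (cast_ne_zero_iff _).mp h2
  · intro h
    ext i
    rw [par_apply, Pi.one_apply]
    have h2 := (cast_ne_zero_iff (x i)).mpr (h i)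
    have key : ∀ a : ZMod 2, a ≠ 0 → a = 1 := by decide
    exact key _ h2

theorem sum_mod_of_const (x : GolayPt → ℤ) (n r : ℤ) (h : ∀ i, x i % n = r) :
    (∑ i, x i) % n = (24 * r) % n := by
  rw [Finset.sum_int_mod, Finset.sum_congr rfl (fun i _ => h i), Finset.sum_const,
    Finset.card_univ, card_golayPt]
  simp

/-- vectors with all coordinates of the same parity -/
def E : AddSubgroup (GolayPt → ℤ) := R.comap par

theorem mem_E (x : GolayPt → ℤ) : x ∈ E ↔ (∀ i, x i % 2 = 0) ∨ (∀ i, x i % 2 = 1) := by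
  show par x = 0 ∨ par x = 1 ↔ _
  rw [par_zero_iff, par_one_iff]

theorem index_E : E.index = 2 ^ 23 := by
  unfold E
  rw [AddSubgroup.index_comap_of_surjective _ par_surj, index_R]

theorem sum_even {x : GolayPt → ℤ} (hx : x ∈ E) : (∑ i, x i) % 2 = 0 := by
  rw [mem_E] at hx
  rcases hx with h | h
  · rw [sum_mod_of_const x 2 0 h]
    decide
  · rw [sum_mod_of_const x 2 1 h]
    decide

theorem map_E : ((E.map sm : AddSubgroup (ZMod 4)) : Set (ZMod 4)) = {0, 2} := by
  ext z
  constructor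
  · rintro ⟨x, hx, rfl⟩
    have h1 := sum_even hx
    rw [sm_apply]
    have h2 : (∑ i, x i) % 4 = 0 ∨ (∑ i, x i) % 4 = 2 := by omega
    rcases h2 with h2 | h2
    · left
      rw [ZMod.intCast_zmod_eq_zero_iff_dvd]
      omega
    · right
      have h3 : ((∑ i, x i : ℤ) : ZMod 4) = ((2 : ℤ) : ZMod 4) := by
        rw [ZMod.intCast_eq_intCast_iff_dvd_sub]
        omega
      rw [h3]
      rfl
  · intro hz
    rcases hz with rfl | rfl
    · exact ⟨0, E.zero_mem, map_zero sm⟩
    · refine ⟨Pi.single none 2, ?_, ?_⟩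
      · rw [SetLike.mem_coe, mem_E]
        left
        intro i
        rw [Pi.single_apply]
        split_ifs <;> decide
      · rw [sm_apply, Finset.sum_pi_single']
        simp

/-- same parity, coordinate sum divisible by 4 -/
def A1 : AddSubgroup (GolayPt → ℤ) := sm.ker ⊓ E

theorem relIndex_A1 : A1.relIndex E = 2 := by
  unfold A1
  rw [AddSubgroup.inf_relIndex_right, AddSubgroup.relIndex_ker]
  have h : Nat.card ↥(E.map sm) = Set.ncard ((E.map sm : AddSubgroup (ZMod 4)) : Set (ZMod 4)) :=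
    rfl
  rw [h, map_E, Set.ncard_pair (by decide)]

theorem index_A1 : A1.index = 2 ^ 24 := by
  have h := AddSubgroup.relIndex_mul_index (H := A1) (K := E) inf_le_right
  rw [relIndex_A1, index_E] at h
  omega

/-- the sublattice -/
def A : AddSubgroup (GolayPt → ℤ) := A1.map dbl

theorem index_A : A.index = 2 ^ 48 := by
  unfold A
  rw [AddSubgroup.index_map_of_injective A1 dbl_inj, index_A1, index_dbl]
  norm_num

theorem mem_A1 (y : GolayPt → ℤ) :
    y ∈ A1 ↔ (∑ i, y i) % 4 = 0 ∧ ((∀ i, y i % 2 = 0) ∨ (∀ i, y i % 2 = 1)) := by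
  unfold A1
  rw [AddSubgroup.mem_inf, AddMonoidHom.mem_ker, sm_eq_zero, mem_E]

theorem sum_dbl (y : GolayPt → ℤ) : ∑ i, dbl y i = 2 * ∑ i, y i := by
  rw [Finset.mul_sum]
  rfl

theorem A_le : A ≤ leechLattice := by
  intro x hx
  obtain ⟨y, hy, rfl⟩ := hx
  rw [SetLike.mem_coe, mem_A1] at hy
  obtain ⟨h4, hpar⟩ := hy
  rw [mem_leechLattice_iff]
  left
  refine ⟨fun i => ?_, ?_, ?_⟩
  · rw [dbl_apply]
    omega
  · rw [sum_dbl]
    omega
  · rw [Sx_dbl]
    rcases hpar with h | h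
    · rw [(par_zero_iff y).mpr h]
      have h0 : support₂ (0 : GolayPt → ZMod 2) = ∅ := by simp [support₂]
      rw [h0]
      exact empty_mem
    · rw [(par_one_iff y).mpr h]
      have h0 : support₂ (1 : GolayPt → ZMod 2) = Finset.univ := by
        ext p
        simp [support₂]
      rw [h0]
      exact univ_mem

theorem two_mem (v : GolayPt → ℤ) (hv : v ∈ leechLattice) : (2 : ℤ) • v ∈ A := by
  refine ⟨v, ?_, ?_⟩
  · rw [SetLike.mem_coe, mem_A1]
    rw [mem_leechLattice_iff] at hv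
    rcases hv with ⟨h2, h8, _⟩ | ⟨h2, h8, _⟩
    · exact ⟨by omega, Or.inl h2⟩
    · exact ⟨by omega, Or.inr h2⟩
  · ext i
    rw [dbl_apply]
    simp

theorem sq_mod_even (a : ℤ) (h : a % 2 = 0) : a ^ 2 % 8 = (2 * a) % 8 := by
  have h1 : a % 8 = 0 ∨ a % 8 = 2 ∨ a % 8 = 4 ∨ a % 8 = 6 := by omega
  rcases h1 with h1 | h1 | h1 | h1 <;> simp [pow_two, Int.mul_emod, h1]

theorem sq_mod_odd (a : ℤ) (h : a % 2 = 1) : a ^ 2 % 8 = 1 := by
  have h1 : a % 8 = 1 ∨ a % 8 = 3 ∨ a % 8 = 5 ∨ a % 8 = 7 := by omega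
  rcases h1 with h1 | h1 | h1 | h1 <;> simp [pow_two, Int.mul_emod, h1]

theorem norm_dvd (v : GolayPt → ℤ) (hv : v ∈ A) : (32 : ℤ) ∣ sqNorm v := by
  obtain ⟨y, hy, rfl⟩ := hv
  rw [SetLike.mem_coe, mem_A1] at hy
  obtain ⟨h4, hpar⟩ := hy
  have h1 : sqNorm (dbl y) = 4 * ∑ i, y i ^ 2 := by
    unfold sqNorm
    rw [Finset.mul_sum]
    apply Finset.sum_congr rfl
    intro i _
    rw [dbl_apply]
    ring
  have h2 : (∑ i, y i ^ 2) % 8 = 0 := by
    rcases hpar with h | h
    · rw [Finset.sum_int_mod, Finset.sum_congr rfl (fun i _ => sq_mod_even (y i) (h i)),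
        ← Finset.sum_int_mod, ← Finset.mul_sum]
      omega
    · rw [Finset.sum_int_mod, Finset.sum_congr rfl (fun i _ => sq_mod_odd (y i) (h i)),
        Finset.sum_const, Finset.card_univ, card_golayPt]
      decide
  rw [h1]
  omega

theorem main : ∃ A : AddSubgroup (GolayPt → ℤ), A ≤ leechLattice ∧
    (∀ v ∈ leechLattice, (2 : ℤ) • v ∈ A) ∧
    (A.addSubgroupOf leechLattice).index = 2 ^ 12 ∧ ∀ v ∈ A, (32 : ℤ) ∣ sqNorm v := by
  refine ⟨A, A_le, two_mem, ?_, norm_dvd⟩
  have h := AddSubgroup.relIndex_mul_index A_le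
  rw [index_A, Cfsg.Agent.Lib_lead_LeechIndex.main] at h
  have e : (2 : ℕ) ^ 48 = 2 ^ 12 * 2 ^ 36 := by norm_num
  rw [e] at h
  exact Nat.eq_of_mul_eq_mul_right (by norm_num) h

end Cfsg.Agent.Lib_lead_LeechPlus
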