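import Mathlib
import Cfsg.Prelude.Def_SporadicCombinatorics
import Cfsg.Prelude.Def_Spor_Mathieu
import Cfsg.Agent.Lib_lead_Cls2

/-! The stabilizer of two points in the group of the binary Golay code has index two in the
stabilizer of the pair, and an element exchanging the two points induces a non-inner
automorphism. -/

set_option autoImplicit false

namespace Cfsg.Agent.Lib_lead_M22Out

open Cfsg Cfsg.Agent.Lib_lead_Golay Cfsg.Agent.Lib_lead_GolayPerm Cfsg.Agent.Lib_lead_M24
  Cfsg.Agent.Lib_lead_M24Chain Cfsg.Agent.Lib_lead_M24ChainData Cfsg.Agent.Lib_lead_M24Sets2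
  Cfsg.Agent.Lib_lead_SixSet Cfsg.Agent.Lib_lead_M24Trans Cfsg.Agent.Lib_lead_Cls
  Cfsg.Agent.Lib_lead_ClsData Cfsg.Agent.Lib_lead_Cls2
open scoped Pointwise

theorem mem_M22 (x : Equiv.Perm GolayPt) :
    x ∈ Cfsg.Spor.M22 ↔ x ∈ M24 ∧ x none = none ∧ x (some 0) = some 0 := by
  unfold Cfsg.Spor.M22 Cfsg.Spor.M23
  rw [Subgroup.mem_inf, Subgroup.mem_inf, MulAction.mem_stabilizer_iff,
    MulAction.mem_stabilizer_iff]
  exact ⟨fun h => ⟨h.1.1, h.1.2, h.2⟩, fun h => ⟨⟨h.1, h.2.1⟩, h.2.2⟩⟩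

/-- transitivity on the fourth point -/
theorem trans4 (a b c d d' : GolayPt) (hab : a ≠ b) (hac : a ≠ c) (hbc : b ≠ c) (had : a ≠ d)
    (hbd : b ≠ d) (hcd : c ≠ d) (had' : a ≠ d') (hbd' : b ≠ d') (hcd' : c ≠ d') :
    ∃ x ∈ M24, x a = a ∧ x b = b ∧ x c = c ∧ x d = d' := by
  obtain ⟨g, hg, h1, h2, h3, h4⟩ := t4 a b c d hab hac hbc had hbd hcd
  obtain ⟨g', hg', h1', h2', h3', h4'⟩ := t4 a b c d' hab hac hbc had' hbd' hcd'
  refine ⟨g'⁻¹ * g, M24.mul_mem (M24.inv_mem (C3_le hg')) (C3_le hg), ?_, ?_, ?_, ?_⟩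
  · rw [Equiv.Perm.mul_apply, h1, ← h1', perm_inv_apply]
  · rw [Equiv.Perm.mul_apply, h2, ← h2', perm_inv_apply]
  · rw [Equiv.Perm.mul_apply, h3, ← h3', perm_inv_apply]
  · rw [Equiv.Perm.mul_apply, h4, ← h4', perm_inv_apply]

/-- an element of the group centralizing the two-point stabilizer does not exchange the two
points -/
theorem no_central (c : Equiv.Perm GolayPt) (hc : c ∈ M24) (h1 : c none = some 0)
    (h2 : c (some 0) = none) (hcomm : ∀ x ∈ Cfsg.Spor.M22, c * x = x * c) : False := by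
  have hfix : ∀ p : GolayPt, p ≠ none → p ≠ some 0 → c p = p := by
    intro p hp1 hp2
    by_contra hne
    have hq1 : c p ≠ none := fun h => hp2 (c.injective (h.trans h2.symm))
    have hq2 : c p ≠ some 0 := fun h => hp1 (c.injective (h.trans h1.symm))
    obtain ⟨q', -, hq'⟩ := Finset.exists_mem_notMem_of_card_lt_card
      (s := ({none, some 0, p, c p} : Finset GolayPt)) (t := Finset.univ)
      (lt_of_le_of_lt (Finset.card_le_four) (by rw [Finset.card_univ, card24]; norm_num))
    simp only [Finset.mem_insert, Finset.mem_singleton, not_or] at hq'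
    obtain ⟨n1, n2, n3, n4⟩ := hq'
    obtain ⟨x, hx, x1, x2, x3, x4⟩ := trans4 none (some 0) p (c p) q' (by decide)
      (fun h => hp1 h.symm) (fun h => hp2 h.symm) (fun h => hq1 h.symm) (fun h => hq2 h.symm)
      (fun h => hne h.symm) (fun h => n1 h.symm) (fun h => n2 h.symm) (fun h => n3 h.symm)
    have hx22 : x ∈ Cfsg.Spor.M22 := (mem_M22 x).mpr ⟨hx, x1, x2⟩
    have e := congrArg (fun f : Equiv.Perm GolayPt => f p) (hcomm x hx22)
    simp only [Equiv.Perm.mul_apply] at e
    rw [x3, x4] at e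
    exact n4 e.symm
  have hc2 : c ^ 2 = 1 := by
    apply Equiv.ext
    intro p
    rw [pow_two, Equiv.Perm.mul_apply]
    by_cases hp1 : p = none
    · rw [hp1, h1, h2]; rfl
    by_cases hp2 : p = some 0
    · rw [hp2, h2, h1]; rfl
    rw [hfix p hp1 hp2, hfix p hp1 hp2]
    rfl
  have hc1 : c ≠ 1 := by
    intro h
    rw [h] at h1
    exact absurd h1 (by decide)
  have hmv : (Finset.univ.filter fun p => c p ≠ p).card ≤ 2 := by
    have hsub : (Finset.univ.filter fun p => c p ≠ p) ⊆ ({none, some 0} : Finset GolayPt) := by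
      intro p hp
      rw [Finset.mem_filter] at hp
      rw [Finset.mem_insert, Finset.mem_singleton]
      by_contra hcon
      rw [not_or] at hcon
      exact hp.2 (hfix p hcon.1 hcon.2)
    exact le_trans (Finset.card_le_card hsub) Finset.card_le_two
  have hcm := card_moved c
  have hle : (Fx c).card ≤ 24 := by
    rw [← card24, ← Finset.card_univ]
    exact Finset.card_le_card (Finset.subset_univ _)
  rcases inv_fix c hc hc2 hc1 with ⟨σ, -, -, hF⟩ | ⟨σ, -, -, hF⟩
  · rw [hF, Finset.card_smul_finset, c3277413] at hcm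
    omega
  · rw [hF, Finset.card_empty] at hcm
    omega

theorem main (g : Equiv.Perm GolayPt) (hg : g ∈ M24) (h₁ : g none = some 0)
    (h₂ : g (some 0) = none) :
    Cfsg.Spor.M22.relIndex (M24 ⊓ MulAction.stabilizer (Equiv.Perm GolayPt)
      ({none, some 0} : Finset GolayPt)) = 2 ∧
    (∀ x ∈ Cfsg.Spor.M22, g * x * g⁻¹ ∈ Cfsg.Spor.M22) ∧
    ¬ ∃ h ∈ Cfsg.Spor.M22, ∀ x ∈ Cfsg.Spor.M22, g * x * g⁻¹ = h * x * h⁻¹ := by
  have hgi1 : g⁻¹ none = some 0 := by rw [← h₂, perm_inv_apply]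
  have hgi2 : g⁻¹ (some 0) = none := by rw [← h₁, perm_inv_apply]
  refine ⟨?_, ?_, ?_⟩
  · rw [Subgroup.relIndex_eq_two_iff_exists_notMem_and]
    refine ⟨g, ?_, ?_, ?_⟩
    · rw [Subgroup.mem_inf, MulAction.mem_stabilizer_iff]
      refine ⟨hg, ?_⟩
      ext p
      rw [Finset.mem_smul_finset]
      simp only [Finset.mem_insert, Finset.mem_singleton]
      constructor
      · rintro ⟨y, rfl | rfl, rfl⟩
        · right; exact h₁
        · left; exact h₂
      · rintro (rfl | rfl)
        · exact ⟨some 0, Or.inr rfl, h₂⟩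
        · exact ⟨none, Or.inl rfl, h₁⟩
    · intro h
      have := ((mem_M22 g).mp h).2.1
      rw [h₁] at this
      exact absurd this (by decide)
    · intro b hb
      rw [Subgroup.mem_inf, MulAction.mem_stabilizer_iff] at hb
      obtain ⟨hbM, hbS⟩ := hb
      have m1 : b none ∈ ({none, some 0} : Finset GolayPt) := by
        have : b • (none : GolayPt) ∈ b • ({none, some 0} : Finset GolayPt) :=
          Finset.smul_mem_smul_finset (by simp)
        rwa [hbS] at this
      have m2 : b (some 0) ∈ ({none, some 0} : Finset GolayPt) := by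
        have : b • (some 0 : GolayPt) ∈ b • ({none, some 0} : Finset GolayPt) :=
          Finset.smul_mem_smul_finset (by simp)
        rwa [hbS] at this
      rw [Finset.mem_insert, Finset.mem_singleton] at m1 m2
      have hne : b none ≠ b (some 0) := fun h => absurd (b.injective h) (by decide)
      rcases m1 with m1 | m1
      · right
        rcases m2 with m2 | m2
        · exact absurd (m1.trans m2.symm) hne
        · exact (mem_M22 b).mpr ⟨hbM, m1, m2⟩
      · left
        rcases m2 with m2 | m2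
        · refine (mem_M22 _).mpr ⟨M24.mul_mem hbM hg, ?_, ?_⟩
          · rw [Equiv.Perm.mul_apply, h₁, m2]
          · rw [Equiv.Perm.mul_apply, h₂, m1]
        · exact absurd (m1.trans m2.symm) hne
  · intro x hx
    obtain ⟨hxM, x1, x2⟩ := (mem_M22 x).mp hx
    refine (mem_M22 _).mpr ⟨M24.mul_mem (M24.mul_mem hg hxM) (M24.inv_mem hg), ?_, ?_⟩
    · rw [Equiv.Perm.mul_apply, Equiv.Perm.mul_apply, hgi1, x2, h₂]
    · rw [Equiv.Perm.mul_apply, Equiv.Perm.mul_apply, hgi2, x1, h₁]
  · rintro ⟨h, hh, hall⟩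
    obtain ⟨hhM, hh1, hh2⟩ := (mem_M22 h).mp hh
    have hi1 : h⁻¹ none = none := by
      nth_rewrite 1 [← hh1]
      rw [perm_inv_apply]
    have hi2 : h⁻¹ (some 0) = some 0 := by
      nth_rewrite 1 [← hh2]
      rw [perm_inv_apply]
    apply no_central (h⁻¹ * g) (M24.mul_mem (M24.inv_mem hhM) hg)
    · rw [Equiv.Perm.mul_apply, h₁, hi2]
    · rw [Equiv.Perm.mul_apply, h₂, hi1]
    · intro x hx
      have e := hall x hx
      have e2 : g * x = h * x * h⁻¹ * g := by rw [← e]; group
      calc h⁻¹ * g * x = h⁻¹ * (g * x) := by group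
        _ = h⁻¹ * (h * x * h⁻¹ * g) := by rw [e2]
        _ = x * (h⁻¹ * g) := by group

end Cfsg.Agent.Lib_lead_M22Out
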