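import Mathlib
import Cfsg.Prelude.Def_Sporadic_a
import Cfsg.Agent.Lib_lead_M24Sets2

/-! Orbits of the stabilizer of two points and a pair on the pairs of the remaining points. -/

set_option autoImplicit false

namespace Cfsg.Agent.Lib_lead_M24Sets3

open Cfsg Cfsg.Agent.Lib_lead_Golay Cfsg.Agent.Lib_lead_GolayPerm Cfsg.Agent.Lib_lead_M24
  Cfsg.Agent.Lib_lead_M24Chain Cfsg.Agent.Lib_lead_M24ChainData Cfsg.Agent.Lib_lead_M24Trans
  Cfsg.Agent.Lib_lead_M24Sets Cfsg.Agent.Lib_lead_M24Sets2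
open scoped Pointwise

/-- the pairs disjoint from a 4-set and in a common octad with it -/
theorem card_common4 (T : Finset GolayPt) (hT : T.card = 4) :
    {U : Finset GolayPt | U.card = 2 ∧ Disjoint T U ∧ (∃ o ∈ octads, T ∪ U ⊆ o)}.ncard
      = 30 := by
  classical
  obtain ⟨BF, hBF⟩ := Cfsg.Agent.Lib_lead_Steiner.exists_finset (octads : Set (Finset GolayPt))
  have hcount := Cfsg.Agent.Lib_lead_Steiner.through_count Cfsg.Agent.S0363.result BF hBF T
    (by omega)
  have h24 : Fintype.card GolayPt = 24 := by decide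
  rw [hT, h24] at hcount
  have hch1 : (8 - 4 : ℕ).choose (5 - 4) = 4 := by decide
  have hch2 : (24 - 4 : ℕ).choose (5 - 4) = 20 := by decide
  rw [hch1, hch2] at hcount
  have h5 : (BF.filter (fun b => T ⊆ b)).card = 5 := by omega
  have hset : {U : Finset GolayPt | U.card = 2 ∧ Disjoint T U ∧ (∃ o ∈ octads, T ∪ U ⊆ o)}
      = ↑((BF.filter (fun b => T ⊆ b)).biUnion (fun o => Finset.powersetCard 2 (o \ T))) := by
    ext U
    simp only [Set.mem_setOf_eq, Finset.coe_biUnion, Finset.mem_coe, Finset.mem_filter,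
      Set.mem_iUnion, Finset.mem_powersetCard, exists_prop]
    constructor
    · rintro ⟨hU, hd, o, ho, hsub⟩
      refine ⟨o, ⟨(hBF o).mpr ho, (Finset.union_subset_iff.mp hsub).1⟩, ?_, hU⟩
      intro p hp
      rw [Finset.mem_sdiff]
      exact ⟨(Finset.union_subset_iff.mp hsub).2 hp,
        fun hpT => Finset.disjoint_left.mp hd hpT hp⟩
    · rintro ⟨o, ⟨ho, hTo⟩, hUo, hU⟩
      refine ⟨hU, ?_, o, (hBF o).mp ho,
        Finset.union_subset hTo (fun p hp => (Finset.mem_sdiff.mp (hUo hp)).1)⟩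
      rw [Finset.disjoint_left]
      intro p hpT hpU
      exact (Finset.mem_sdiff.mp (hUo hpU)).2 hpT
  have hc6 : ∀ o ∈ BF.filter (fun b => T ⊆ b), (Finset.powersetCard 2 (o \ T)).card = 6 := by
    intro o ho
    rw [Finset.mem_filter] at ho
    have h8 : o.card = 8 := ((hBF o).mp ho.1).2
    rw [Finset.card_powersetCard, Finset.card_sdiff_of_subset ho.2, h8, hT]
    decide
  rw [hset, Set.ncard_coe_finset, Finset.card_biUnion]
  · rw [Finset.sum_congr rfl hc6, Finset.sum_const, h5]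
    rfl
  · intro o ho o' ho' hne
    show Disjoint (Finset.powersetCard 2 (o \ T)) (Finset.powersetCard 2 (o' \ T))
    rw [Finset.disjoint_left]
    intro U hU hU'
    apply hne
    rw [Finset.mem_coe, Finset.mem_filter] at ho ho'
    rw [Finset.mem_powersetCard] at hU hU'
    apply Cfsg.Agent.Lib_lead_Steiner.eq_of_inter_ge Cfsg.Agent.S0363.result ((hBF o).mp ho.1)
      ((hBF o').mp ho'.1)
    have hsub : T ∪ U ⊆ o ∩ o' := by
      intro p hp
      rw [Finset.mem_union] at hp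
      rw [Finset.mem_inter]
      rcases hp with hp | hp
      · exact ⟨ho.2 hp, ho'.2 hp⟩
      · exact ⟨(Finset.mem_sdiff.mp (hU.1 hp)).1, (Finset.mem_sdiff.mp (hU'.1 hp)).1⟩
    have hdis : Disjoint T U := by
      rw [Finset.disjoint_left]
      intro p hpT hpU
      exact (Finset.mem_sdiff.mp (hU.1 hpU)).2 hpT
    have hcard : (T ∪ U).card = 6 := by
      rw [Finset.card_union_of_disjoint hdis, hT, hU.2]
    calc 5 ≤ 6 := by norm_num
      _ = (T ∪ U).card := hcard.symm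
      _ ≤ _ := Finset.card_le_card hsub

theorem card_not_common4 (T : Finset GolayPt) (hT : T.card = 4) :
    {U : Finset GolayPt | U.card = 2 ∧ Disjoint T U ∧ ¬ (∃ o ∈ octads, T ∪ U ⊆ o)}.ncard
      = 160 := by
  classical
  have h1 := card_common4 T hT
  have h24 : Fintype.card GolayPt = 24 := by decide
  have htot : {U : Finset GolayPt | U.card = 2 ∧ Disjoint T U}.ncard = 190 := by
    have hs : {U : Finset GolayPt | U.card = 2 ∧ Disjoint T U}
        = ↑(Finset.powersetCard 2 Tᶜ) := by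
      ext U
      simp only [Set.mem_setOf_eq, Finset.mem_coe, Finset.mem_powersetCard]
      constructor
      · rintro ⟨hU, hd⟩
        exact ⟨fun p hp => Finset.mem_compl.mpr
          (fun hpT => Finset.disjoint_left.mp hd hpT hp), hU⟩
      · rintro ⟨hsub, hU⟩
        exact ⟨hU, Finset.disjoint_left.mpr
          (fun p hpT hpU => Finset.mem_compl.mp (hsub hpU) hpT)⟩
    rw [hs, Set.ncard_coe_finset, Finset.card_powersetCard, Finset.card_compl, hT, h24]
    decide
  have hU : {U : Finset GolayPt | U.card = 2 ∧ Disjoint T U ∧ (∃ o ∈ octads, T ∪ U ⊆ o)} ∪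
      {U : Finset GolayPt | U.card = 2 ∧ Disjoint T U ∧ ¬ (∃ o ∈ octads, T ∪ U ⊆ o)}
      = {U : Finset GolayPt | U.card = 2 ∧ Disjoint T U} := by
    ext U
    simp only [Set.mem_union, Set.mem_setOf_eq]
    constructor
    · rintro (⟨a, b, -⟩ | ⟨a, b, -⟩) <;> exact ⟨a, b⟩
    · rintro ⟨a, b⟩
      by_cases h : ∃ o ∈ octads, T ∪ U ⊆ o
      · exact Or.inl ⟨a, b, h⟩
      · exact Or.inr ⟨a, b, h⟩
  have hD : Disjoint
      {U : Finset GolayPt | U.card = 2 ∧ Disjoint T U ∧ (∃ o ∈ octads, T ∪ U ⊆ o)}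
      {U : Finset GolayPt | U.card = 2 ∧ Disjoint T U ∧ ¬ (∃ o ∈ octads, T ∪ U ⊆ o)} := by
    rw [Set.disjoint_left]
    rintro U ⟨-, -, h⟩ ⟨-, -, h'⟩
    exact h' h
  have h2 := Set.ncard_union_eq hD
  rw [hU, htot, h1] at h2
  omega

theorem conv (p q : GolayPt) (s t : Finset GolayPt) :
    ((t.card = 2 ∧ p ∉ t ∧ q ∉ t) ∧ Disjoint s t ∧
      (∃ o ∈ octads, p ∈ o ∧ q ∈ o ∧ s ∪ t ⊆ o)) ↔
    (t.card = 2 ∧ Disjoint (insert p (insert q s)) t ∧
      (∃ o ∈ octads, insert p (insert q s) ∪ t ⊆ o)) := by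
  simp only [Finset.disjoint_insert_left, Finset.insert_union, Finset.insert_subset_iff,
    and_assoc]

theorem conv' (p q : GolayPt) (s t : Finset GolayPt) :
    ((t.card = 2 ∧ p ∉ t ∧ q ∉ t) ∧ Disjoint s t ∧
      ¬ (∃ o ∈ octads, p ∈ o ∧ q ∈ o ∧ s ∪ t ⊆ o)) ↔
    (t.card = 2 ∧ Disjoint (insert p (insert q s)) t ∧
      ¬ (∃ o ∈ octads, insert p (insert q s) ∪ t ⊆ o)) := by
  simp only [Finset.disjoint_insert_left, Finset.insert_union, Finset.insert_subset_iff,
    and_assoc]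

theorem smul_two (g : Equiv.Perm GolayPt) (a b a' b' : GolayPt) (ha : g a = a')
    (hb : g b = b') : g • ({a, b} : Finset GolayPt) = {a', b'} := by
  rw [Finset.smul_finset_insert, Finset.smul_finset_singleton,
    Equiv.Perm.smul_def, Equiv.Perm.smul_def, ha, hb]

theorem six_iff' (p q a b c d : GolayPt) :
    (∃ o ∈ octads, p ∈ o ∧ q ∈ o ∧ ({a, b} : Finset GolayPt) ∪ {c, d} ⊆ o) ↔
      (∃ o ∈ octads, p ∈ o ∧ q ∈ o ∧ a ∈ o ∧ b ∈ o ∧ c ∈ o ∧ d ∈ o) := by
  simp only [Finset.union_subset_iff, Finset.insert_subset_iff, Finset.singleton_subset_iff,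
    and_assoc]

set_option maxHeartbeats 400000 in
/-- transitivity of the stabilizer of `p`, `q` and the pair `s` -/
theorem pair_trans (p q : GolayPt) (hpq : p ≠ q) (s : Finset GolayPt)
    (hs : s.card = 2 ∧ p ∉ s ∧ q ∉ s) (t t' : Finset GolayPt)
    (ht : t.card = 2 ∧ p ∉ t ∧ q ∉ t) (ht' : t'.card = 2 ∧ p ∉ t' ∧ q ∉ t')
    (hts : t ≠ s) (hts' : t' ≠ s) (hc : (s ∩ t).card = (s ∩ t').card)
    (hiff : (∃ o ∈ octads, p ∈ o ∧ q ∈ o ∧ s ∪ t ⊆ o) ↔
      (∃ o ∈ octads, p ∈ o ∧ q ∈ o ∧ s ∪ t' ⊆ o)) :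
    ∃ g : Equiv.Perm GolayPt, g ∈ M24 ∧ g p = p ∧ g q = q ∧ g • s = s ∧ g • t = t' := by
  have hlt := inter_lt (ht.1.trans hs.1.symm) hts
  rw [hs.1, Finset.inter_comm] at hlt
  by_cases h0 : (s ∩ t).card = 0
  · -- disjoint pairs
    have h0' : (s ∩ t').card = 0 := by rw [← hc, h0]
    rw [Finset.card_eq_zero, ← Finset.disjoint_iff_inter_eq_empty] at h0 h0'
    obtain ⟨hs2, hps, hqs⟩ := hs
    obtain ⟨ht2, hpt, hqt⟩ := ht
    obtain ⟨ht2', hpt', hqt'⟩ := ht'
    obtain ⟨a, b, hab, rfl⟩ := Finset.card_eq_two.mp hs2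
    obtain ⟨u1, u2, hu, rfl⟩ := Finset.card_eq_two.mp ht2
    obtain ⟨v1, v2, hv, rfl⟩ := Finset.card_eq_two.mp ht2'
    simp only [Finset.mem_insert, Finset.mem_singleton, not_or] at hps hqs hpt hqt hpt' hqt'
    simp only [Finset.disjoint_left, Finset.mem_insert, Finset.mem_singleton] at h0 h0'
    have nd1 : [p, q, a, b, u1, u2].Nodup := by
      simp only [List.nodup_cons, List.mem_cons, List.not_mem_nil, or_false, not_or,
        List.nodup_nil, and_true, not_false_eq_true]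
      exact ⟨⟨hpq, hps.1, hps.2, hpt.1, hpt.2⟩, ⟨hqs.1, hqs.2, hqt.1, hqt.2⟩,
        ⟨hab, fun h => h0 (Or.inl rfl) (Or.inl h), fun h => h0 (Or.inl rfl) (Or.inr h)⟩,
        ⟨fun h => h0 (Or.inr rfl) (Or.inl h), fun h => h0 (Or.inr rfl) (Or.inr h)⟩, hu⟩
    have nd2 : [p, q, a, b, v1, v2].Nodup := by
      simp only [List.nodup_cons, List.mem_cons, List.not_mem_nil, or_false, not_or,
        List.nodup_nil, and_true, not_false_eq_true]
      exact ⟨⟨hpq, hps.1, hps.2, hpt'.1, hpt'.2⟩, ⟨hqs.1, hqs.2, hqt'.1, hqt'.2⟩,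
        ⟨hab, fun h => h0' (Or.inl rfl) (Or.inl h), fun h => h0' (Or.inl rfl) (Or.inr h)⟩,
        ⟨fun h => h0' (Or.inr rfl) (Or.inl h), fun h => h0' (Or.inr rfl) (Or.inr h)⟩, hv⟩
    obtain ⟨g, hg, e1, e2, e3, e4, e5, hcase⟩ := six p q a b u1 u2 nd1
    obtain ⟨g', hg', e1', e2', e3', e4', e5', hcase'⟩ := six p q a b v1 v2 nd2
    have key : ∃ z, g u2 = z ∧ g' v2 = z := by
      rcases hcase with ⟨ho, h⟩ | ⟨hno, h⟩ <;> rcases hcase' with ⟨ho', h'⟩ | ⟨hno', h'⟩
      · exact ⟨_, h, h'⟩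
      · exact absurd ((six_iff' _ _ _ _ _ _).mp (hiff.mp ((six_iff' _ _ _ _ _ _).mpr ho))) hno'
      · exact absurd ((six_iff' _ _ _ _ _ _).mp (hiff.mpr ((six_iff' _ _ _ _ _ _).mpr ho'))) hno
      · exact ⟨_, h, h'⟩
    obtain ⟨z, hz, hz'⟩ := key
    refine ⟨g'⁻¹ * g, M24.mul_mem (M24.inv_mem (C3_le hg')) (C3_le hg), conj_map e1 e1',
      conj_map e2 e2', ?_, ?_⟩
    · exact smul_two _ _ _ _ _ (conj_map e3 e3') (conj_map e4 e4')
    · exact smul_two _ _ _ _ _ (conj_map e5 e5') (conj_map hz hz')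
  · -- pairs meeting `s` in one point
    have h1 : (s ∩ t).card = 1 := by omega
    have h1' : (s ∩ t').card = 1 := by rw [← hc, h1]
    have e1 := Finset.card_sdiff_add_card_inter s t
    have e2 := Finset.card_sdiff_add_card_inter s t'
    have e3 := Finset.card_sdiff_add_card_inter t s
    have e4 := Finset.card_sdiff_add_card_inter t' s
    have e5 : (t ∩ s).card = (s ∩ t).card := by rw [Finset.inter_comm]
    have e6 : (t' ∩ s).card = (s ∩ t').card := by rw [Finset.inter_comm]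
    have nd : ∀ x : Finset GolayPt, p ∉ x → q ∉ x → p ∉ s → q ∉ s →
        (p :: q :: ((s ∩ x).toList ++ ((s \ x).toList ++ (x \ s).toList))).Nodup := by
      intro x hpx hqx hps hqs
      rw [List.nodup_cons, List.nodup_cons]
      refine ⟨?_, ?_, ?_⟩
      · simp only [List.mem_cons, List.mem_append, Finset.mem_toList, Finset.mem_inter,
          Finset.mem_sdiff, not_or]
        exact ⟨hpq, fun h => hps h.1, fun h => hps h.1, fun h => hpx h.1⟩
      · simp only [List.mem_append, Finset.mem_toList, Finset.mem_inter,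
          Finset.mem_sdiff, not_or]
        exact ⟨fun h => hqs h.1, fun h => hqs h.1, fun h => hqx h.1⟩
      · rw [List.nodup_append]
        refine ⟨Finset.nodup_toList _, ?_, ?_⟩
        · rw [List.nodup_append]
          refine ⟨Finset.nodup_toList _, Finset.nodup_toList _, ?_⟩
          intro a ha b hb hab
          rw [Finset.mem_toList, Finset.mem_sdiff] at ha hb
          subst hab
          exact hb.2 ha.1
        · intro a ha b hb hab
          rw [Finset.mem_toList, Finset.mem_inter] at ha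
          rw [List.mem_append, Finset.mem_toList, Finset.mem_toList, Finset.mem_sdiff,
            Finset.mem_sdiff] at hb
          subst hab
          rcases hb with hb | hb
          · exact hb.2 ha.2
          · exact hb.2 ha.1
    obtain ⟨g, hg, hmap⟩ := transL
      (p :: q :: ((s ∩ t).toList ++ ((s \ t).toList ++ (t \ s).toList)))
      (p :: q :: ((s ∩ t').toList ++ ((s \ t').toList ++ (t' \ s).toList)))
      (nd t ht.2.1 ht.2.2 hs.2.1 hs.2.2) (nd t' ht'.2.1 ht'.2.2 hs.2.1 hs.2.2)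
      (by simp only [List.length_cons, List.length_append, Finset.length_toList]; omega)
      (by simp only [List.length_cons, List.length_append, Finset.length_toList]; omega)
    rw [List.map_cons, List.map_cons, List.map_append, List.map_append, List.cons.injEq,
      List.cons.injEq] at hmap
    obtain ⟨hgp, hgq, hrest⟩ := hmap
    have k1 := List.append_inj hrest
      (by simp only [List.length_map, Finset.length_toList]; omega)
    have k2 := List.append_inj k1.2
      (by simp only [List.length_map, Finset.length_toList]; omega)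
    have hA := smul_eq_of_map k1.1
    have hB := smul_eq_of_map k2.1
    have hC := smul_eq_of_map k2.2
    refine ⟨g, hg, hgp, hgq, ?_, ?_⟩
    · calc g • s = g • (s \ t ∪ s ∩ t) := by rw [Finset.sdiff_union_inter]
        _ = s \ t' ∪ s ∩ t' := by rw [Finset.smul_finset_union, hA, hB]
        _ = s := Finset.sdiff_union_inter s t'
    · calc g • t = g • (t \ s ∪ t ∩ s) := by rw [Finset.sdiff_union_inter]
        _ = t' \ s ∪ t' ∩ s := by
          rw [Finset.smul_finset_union, hC, Finset.inter_comm t s, hA, Finset.inter_comm s t']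
        _ = t' := Finset.sdiff_union_inter t' s

/-- orbits of the stabilizer of two points and a pair on the other pairs -/
theorem pair_orbits (p q : GolayPt) (hpq : p ≠ q) (s : Finset GolayPt)
    (hs : s.card = 2 ∧ p ∉ s ∧ q ∉ s) :
    {t : Finset GolayPt | (t.card = 2 ∧ p ∉ t ∧ q ∉ t) ∧ Disjoint s t ∧
      (∃ o ∈ octads, p ∈ o ∧ q ∈ o ∧ s ∪ t ⊆ o)}.ncard = 30 ∧
    {t : Finset GolayPt | (t.card = 2 ∧ p ∉ t ∧ q ∉ t) ∧ Disjoint s t ∧
      ¬ (∃ o ∈ octads, p ∈ o ∧ q ∈ o ∧ s ∪ t ⊆ o)}.ncard = 160 ∧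
    ∀ t t' : Finset GolayPt, (t.card = 2 ∧ p ∉ t ∧ q ∉ t) → (t'.card = 2 ∧ p ∉ t' ∧ q ∉ t') →
      t ≠ s → t' ≠ s → (s ∩ t).card = (s ∩ t').card →
      ((∃ o ∈ octads, p ∈ o ∧ q ∈ o ∧ s ∪ t ⊆ o) ↔
        (∃ o ∈ octads, p ∈ o ∧ q ∈ o ∧ s ∪ t' ⊆ o)) →
      ∃ g : Equiv.Perm GolayPt, g ∈ M24 ∧ g p = p ∧ g q = q ∧ g • s = s ∧ g • t = t' := by
  have hT : (insert p (insert q s)).card = 4 := by
    rw [Finset.card_insert_of_notMem, Finset.card_insert_of_notMem hs.2.2, hs.1]
    rw [Finset.mem_insert, not_or]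
    exact ⟨hpq, hs.2.1⟩
  refine ⟨?_, ?_, fun t t' ht ht' hts hts' hc hiff => pair_trans p q hpq s hs t t' ht ht' hts hts' hc hiff⟩
  · rw [← card_common4 _ hT]
    congr 1
    ext t
    exact conv p q s t
  · rw [← card_not_common4 _ hT]
    congr 1
    ext t
    exact conv' p q s t

end Cfsg.Agent.Lib_lead_M24Sets3
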