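import Mathlib
import Cfsg.Prelude.Def_SporadicCombinatorics
import Cfsg.Agent.Lib_lead_Cent
import Cfsg.Agent.Lib_lead_M12Thm2

/-! The pointwise stabilizer of three points of a dodecad in the stabilizer of the dodecad:
a group of order 72 with a normal elementary abelian subgroup of order 9 and quaternion
Sylow 2-subgroups. -/

set_option autoImplicit false

namespace Cfsg.Agent.Lib_lead_M9

open Cfsg Cfsg.Agent.Lib_lead_Golay Cfsg.Agent.Lib_lead_GolayPerm Cfsg.Agent.Lib_lead_M24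
  Cfsg.Agent.Lib_lead_M24Chain Cfsg.Agent.Lib_lead_Cls Cfsg.Agent.Lib_lead_ClsData
  Cfsg.Agent.Lib_lead_Cls2 Cfsg.Agent.Lib_lead_Cls3
  Cfsg.Agent.Lib_lead_ObjOrb Cfsg.Agent.Lib_lead_ClsCount
  Cfsg.Agent.Lib_lead_SixSet Cfsg.Agent.Lib_lead_M12Thm Cfsg.Agent.Lib_lead_M12Thm2
open scoped Pointwise

/-! ### An abstract lemma on groups of order 72 -/

theorem sylow_struct {H : Type} [Group H] [Finite H] (hcard : Nat.card H = 72)
    {A B : Type} [Group A] [Group B] (FΦ : A →* H) (FΨ : B →* H)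
    (hΦ : Function.Injective FΦ) (hΨ : Function.Injective FΨ) (hA : Nat.card A = 9)
    (hB : Nat.card B = 8) (hexp : ∀ a : A, a ^ 3 = 1)
    (hnorm : ∀ b y, ∃ y', FΨ b * FΦ y = FΦ y' * FΨ b) :
    (∀ Q : Sylow 3 H, (Q : Subgroup H).Normal ∧ Nat.card (Q : Subgroup H) = 9 ∧
      ∀ x ∈ (Q : Subgroup H), x ^ 3 = 1) ∧
    ∀ P : Sylow 2 H, Nonempty (↥(P : Subgroup H) ≃* B) := by
  have cN : Nat.card FΦ.range = 9 := by
    rw [← hA]
    exact Nat.card_congr (MonoidHom.ofInjective hΦ).toEquiv.symm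
  have cP : Nat.card FΨ.range = 8 := by
    rw [← hB]
    exact Nat.card_congr (MonoidHom.ofInjective hΨ).toEquiv.symm
  have hPN : FΨ.range ≤ Subgroup.normalizer (FΦ.range : Set H) := by
    intro x hx
    obtain ⟨b, rfl⟩ := MonoidHom.mem_range.mp hx
    apply Subgroup.mem_normalizer_fintype
    intro n hn
    obtain ⟨y, rfl⟩ := MonoidHom.mem_range.mp hn
    obtain ⟨y', h⟩ := hnorm b y
    exact MonoidHom.mem_range.mpr ⟨y', by rw [h, mul_inv_cancel_right]⟩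
  have hNn : FΦ.range ≤ Subgroup.normalizer (FΦ.range : Set H) := Subgroup.le_normalizer
  have hK : Nat.card (Subgroup.normalizer (FΦ.range : Set H)) = 72 := by
    have h9 := Subgroup.card_dvd_of_le hNn
    have h8 := Subgroup.card_dvd_of_le hPN
    have h72 := Subgroup.card_subgroup_dvd_card (Subgroup.normalizer (FΦ.range : Set H))
    rw [cN] at h9
    rw [cP] at h8
    rw [hcard] at h72
    have hc : Nat.Coprime 9 8 := by norm_num
    exact Nat.dvd_antisymm h72 (hc.mul_dvd_of_dvd_of_dvd h9 h8)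
  have hNormal : FΦ.range.Normal :=
    Subgroup.normalizer_eq_top_iff.mp (Subgroup.eq_top_of_card_eq _ (by rw [hK, hcard]))
  haveI : Fact (Nat.Prime 3) := ⟨by norm_num⟩
  haveI : Fact (Nat.Prime 2) := ⟨by norm_num⟩
  have hfac3 : (Nat.card H).factorization 3 = 2 := by
    rw [hcard, show (72 : ℕ) = 8 * 3 ^ 2 by norm_num,
      Nat.factorization_mul (by norm_num) (by norm_num), Finsupp.add_apply,
      Nat.factorization_eq_zero_of_not_dvd (by norm_num), zero_add,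
      Nat.Prime.factorization_pow (by norm_num), Finsupp.single_eq_same]
  have hfac2 : (Nat.card H).factorization 2 = 3 := by
    rw [hcard, show (72 : ℕ) = 9 * 2 ^ 3 by norm_num,
      Nat.factorization_mul (by norm_num) (by norm_num), Finsupp.add_apply,
      Nat.factorization_eq_zero_of_not_dvd (by norm_num), zero_add,
      Nat.Prime.factorization_pow (by norm_num), Finsupp.single_eq_same]
  constructor
  · intro Q
    obtain ⟨g, hg⟩ := MulAction.exists_smul_eq H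
      (Sylow.ofCard FΦ.range (by rw [cN, hfac3]; norm_num)) Q
    haveI : ((Sylow.ofCard FΦ.range (by rw [cN, hfac3]; norm_num) : Sylow 3 H) :
        Subgroup H).Normal := hNormal
    rw [Sylow.smul_eq_of_normal] at hg
    rw [← hg]
    refine ⟨hNormal, cN, ?_⟩
    intro x hx
    obtain ⟨a, rfl⟩ := MonoidHom.mem_range.mp hx
    rw [← map_pow, hexp, map_one]
  · intro P
    obtain ⟨g, hg⟩ := MulAction.exists_smul_eq H
      (Sylow.ofCard FΨ.range (by rw [cP, hfac2]; norm_num)) P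
    have e : (P : Subgroup H) = MulAut.conj g • FΨ.range := by
      rw [← hg]
      rfl
    exact ⟨(MulEquiv.subgroupCongr e).trans
      ((Subgroup.equivSMul (MulAut.conj g) FΨ.range).symm.trans
        (MonoidHom.ofInjective hΨ).symm)⟩

/-! ### Lifting homomorphisms into the stabilizer -/

theorem lift_hom {A : Type} [Group A] (f : A →* Equiv.Perm GolayPt) (hM : ∀ y, f y ∈ M24)
    (hd0 : ∀ y, f y • fsOf 340831 = fsOf 340831) (h0 : ∀ y, f y (ptN 0) = ptN 0)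
    (h1 : ∀ y, f y (ptN 1) = ptN 1) (h2 : ∀ y, f y (ptN 2) = ptN 2)
    (hinj : Function.Injective f)
    (σ : Equiv.Perm GolayPt) (hσ : σ ∈ M24) {d : Finset GolayPt} {p q r : GolayPt}
    (hσd : σ • fsOf 340831 = d) (hσp : σ (ptN 0) = p) (hσq : σ (ptN 1) = q)
    (hσr : σ (ptN 2) = r) :
    ∃ F : A →* ↥(MulAction.stabilizer M24 d ⊓ MulAction.stabilizer M24 p ⊓
        MulAction.stabilizer M24 q ⊓ MulAction.stabilizer M24 r),
      Function.Injective F ∧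
        ∀ y, (((F y : ↥(MulAction.stabilizer M24 d ⊓ MulAction.stabilizer M24 p ⊓
          MulAction.stabilizer M24 q ⊓ MulAction.stabilizer M24 r)) : ↥M24) :
            Equiv.Perm GolayPt) = σ * f y * σ⁻¹ := by
  have hm : ∀ y, σ * f y * σ⁻¹ ∈ M24 := fun y =>
    M24.mul_mem (M24.mul_mem hσ (hM y)) (M24.inv_mem hσ)
  let F1 : A →* ↥M24 :=
    { toFun := fun y => ⟨σ * f y * σ⁻¹, hm y⟩
      map_one' := by
        apply Subtype.ext
        show σ * f 1 * σ⁻¹ = 1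
        rw [map_one, mul_one, mul_inv_cancel]
      map_mul' := by
        intro a b
        apply Subtype.ext
        show σ * f (a * b) * σ⁻¹ = σ * f a * σ⁻¹ * (σ * f b * σ⁻¹)
        rw [map_mul]
        group }
  have hH : ∀ y, F1 y ∈ MulAction.stabilizer M24 d ⊓ MulAction.stabilizer M24 p ⊓
      MulAction.stabilizer M24 q ⊓ MulAction.stabilizer M24 r := by
    intro y
    rw [Subgroup.mem_inf, Subgroup.mem_inf, Subgroup.mem_inf, MulAction.mem_stabilizer_iff,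
      MulAction.mem_stabilizer_iff, MulAction.mem_stabilizer_iff, MulAction.mem_stabilizer_iff]
    refine ⟨⟨⟨?_, ?_⟩, ?_⟩, ?_⟩
    · show (σ * f y * σ⁻¹) • d = d
      rw [← hσd, mul_smul, mul_smul, inv_smul_smul, hd0]
    · show (σ * f y * σ⁻¹) p = p
      rw [← hσp, Equiv.Perm.mul_apply, Equiv.Perm.mul_apply, perm_inv_apply, h0]
    · show (σ * f y * σ⁻¹) q = q
      rw [← hσq, Equiv.Perm.mul_apply, Equiv.Perm.mul_apply, perm_inv_apply, h1]
    · show (σ * f y * σ⁻¹) r = r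
      rw [← hσr, Equiv.Perm.mul_apply, Equiv.Perm.mul_apply, perm_inv_apply, h2]
  refine ⟨F1.codRestrict _ hH, ?_, fun y => rfl⟩
  intro a b hab
  have h3 : σ * f a * σ⁻¹ = σ * f b * σ⁻¹ :=
    congrArg (fun z : ↥(MulAction.stabilizer M24 d ⊓ MulAction.stabilizer M24 p ⊓
      MulAction.stabilizer M24 q ⊓ MulAction.stabilizer M24 r) =>
        ((z : ↥M24) : Equiv.Perm GolayPt)) hab
  exact hinj (mul_left_cancel (mul_right_cancel h3))

/-- a standard configuration is carried onto any dodecad with three of its points -/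
theorem exists_sigma3 (d : Finset GolayPt) (hd : d ∈ dodecads) (p q r : GolayPt) (hp : p ∈ d)
    (hq : q ∈ d) (hr : r ∈ d) (hpq : p ≠ q) (hpr : p ≠ r) (hqr : q ≠ r) :
    ∃ σ ∈ M24, σ • fsOf 340831 = d ∧ σ (ptN 0) = p ∧ σ (ptN 1) = q ∧ σ (ptN 2) = r := by
  obtain ⟨σ, hσ, hσd⟩ := exists_sigma d hd
  have m0 : σ (ptN 0) ∈ d := by
    rw [← hσd]
    exact Finset.smul_mem_smul_finset (a := σ) ((mem_fsOf _ _).mpr (by decide))
  have m1 : σ (ptN 1) ∈ d := by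
    rw [← hσd]
    exact Finset.smul_mem_smul_finset (a := σ) ((mem_fsOf _ _).mpr (by decide))
  have m2 : σ (ptN 2) ∈ d := by
    rw [← hσd]
    exact Finset.smul_mem_smul_finset (a := σ) ((mem_fsOf _ _).mpr (by decide))
  obtain ⟨g, hg, hgd, g0, g1, g2⟩ := stab_trans3 d hd (σ (ptN 0)) (σ (ptN 1)) (σ (ptN 2)) p q r
    m0 m1 m2 hp hq hr (fun h => by have := σ.injective h; revert this; decide)
    (fun h => by have := σ.injective h; revert this; decide)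
    (fun h => by have := σ.injective h; revert this; decide) hpq hpr hqr
  refine ⟨g * σ, M24.mul_mem hg hσ, ?_, ?_, ?_, ?_⟩
  · rw [mul_smul, hσd, hgd]
  · rw [Equiv.Perm.mul_apply, g0]
  · rw [Equiv.Perm.mul_apply, g1]
  · rw [Equiv.Perm.mul_apply, g2]

/-! ### The data -/

/-- the nine elements of the normal subgroup of order 9, indexed by pairs modulo 3 -/
def Ns9 : List Tb :=
  [([0, 1, 2, 3, 4, 5, 6, 7, 8, 9, 10, 11, 12, 13, 14, 15, 16, 17, 18, 19, 20, 21, 22, 23], [0, 1, 2, 3, 4, 5, 6, 7, 8, 9, 10, 11, 12, 13, 14, 15, 16, 17, 18, 19, 20, 21, 22, 23]),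
   ([0, 1, 2, 13, 8, 19, 4, 17, 6, 16, 7, 22, 9, 18, 14, 5, 12, 10, 3, 15, 20, 21, 23, 11], [0, 1, 2, 18, 6, 15, 8, 10, 4, 12, 17, 23, 16, 3, 14, 19, 9, 7, 13, 5, 20, 21, 11, 22]),
   ([0, 1, 2, 18, 6, 15, 8, 10, 4, 12, 17, 23, 16, 3, 14, 19, 9, 7, 13, 5, 20, 21, 11, 22], [0, 1, 2, 13, 8, 19, 4, 17, 6, 16, 7, 22, 9, 18, 14, 5, 12, 10, 3, 15, 20, 21, 23, 11]),
   ([0, 1, 2, 16, 18, 5, 13, 10, 3, 4, 17, 22, 6, 12, 20, 15, 8, 7, 9, 19, 21, 14, 23, 11], [0, 1, 2, 8, 9, 5, 12, 17, 16, 18, 7, 23, 13, 6, 21, 15, 3, 10, 4, 19, 14, 20, 11, 22]),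
   ([0, 1, 2, 12, 3, 19, 18, 7, 13, 8, 10, 23, 4, 9, 20, 5, 6, 17, 16, 15, 21, 14, 11, 22], [0, 1, 2, 4, 12, 15, 16, 7, 9, 13, 10, 22, 3, 8, 21, 19, 18, 17, 6, 5, 14, 20, 23, 11]),
   ([0, 1, 2, 9, 13, 15, 3, 17, 18, 6, 7, 11, 8, 16, 20, 19, 4, 10, 12, 5, 21, 14, 22, 23], [0, 1, 2, 6, 16, 19, 9, 10, 12, 3, 17, 11, 18, 4, 21, 5, 13, 7, 8, 15, 14, 20, 22, 23]),
   ([0, 1, 2, 8, 9, 5, 12, 17, 16, 18, 7, 23, 13, 6, 21, 15, 3, 10, 4, 19, 14, 20, 11, 22], [0, 1, 2, 16, 18, 5, 13, 10, 3, 4, 17, 22, 6, 12, 20, 15, 8, 7, 9, 19, 21, 14, 23, 11]),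
   ([0, 1, 2, 6, 16, 19, 9, 10, 12, 3, 17, 11, 18, 4, 21, 5, 13, 7, 8, 15, 14, 20, 22, 23], [0, 1, 2, 9, 13, 15, 3, 17, 18, 6, 7, 11, 8, 16, 20, 19, 4, 10, 12, 5, 21, 14, 22, 23]),
   ([0, 1, 2, 4, 12, 15, 16, 7, 9, 13, 10, 22, 3, 8, 21, 19, 18, 17, 6, 5, 14, 20, 23, 11], [0, 1, 2, 12, 3, 19, 18, 7, 13, 8, 10, 23, 4, 9, 20, 5, 6, 17, 16, 15, 21, 14, 11, 22])]

/-- the eight elements of a quaternion subgroup: the powers of `a`, then `x` times them -/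
def Qs9 : List Tb :=
  [([0, 1, 2, 3, 4, 5, 6, 7, 8, 9, 10, 11, 12, 13, 14, 15, 16, 17, 18, 19, 20, 21, 22, 23], [0, 1, 2, 3, 4, 5, 6, 7, 8, 9, 10, 11, 12, 13, 14, 15, 16, 17, 18, 19, 20, 21, 22, 23]),
   ([0, 1, 2, 3, 18, 23, 16, 20, 6, 8, 21, 15, 13, 4, 17, 22, 9, 14, 12, 11, 10, 7, 19, 5], [0, 1, 2, 3, 13, 23, 8, 21, 9, 16, 20, 19, 18, 12, 17, 11, 6, 14, 4, 22, 7, 10, 15, 5]),
   ([0, 1, 2, 3, 12, 5, 9, 10, 16, 6, 7, 22, 4, 18, 14, 19, 8, 17, 13, 15, 21, 20, 11, 23], [0, 1, 2, 3, 12, 5, 9, 10, 16, 6, 7, 22, 4, 18, 14, 19, 8, 17, 13, 15, 21, 20, 11, 23]),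
   ([0, 1, 2, 3, 13, 23, 8, 21, 9, 16, 20, 19, 18, 12, 17, 11, 6, 14, 4, 22, 7, 10, 15, 5], [0, 1, 2, 3, 18, 23, 16, 20, 6, 8, 21, 15, 13, 4, 17, 22, 9, 14, 12, 11, 10, 7, 19, 5]),
   ([0, 1, 2, 3, 16, 17, 13, 19, 4, 18, 15, 20, 8, 9, 23, 7, 12, 5, 6, 10, 22, 11, 21, 14], [0, 1, 2, 3, 8, 17, 18, 15, 12, 13, 19, 21, 16, 6, 23, 10, 4, 5, 9, 7, 11, 22, 20, 14]),
   ([0, 1, 2, 3, 6, 14, 12, 22, 13, 4, 11, 7, 9, 16, 5, 21, 18, 23, 8, 20, 15, 19, 10, 17], [0, 1, 2, 3, 9, 14, 4, 11, 18, 12, 22, 10, 6, 8, 5, 20, 13, 23, 16, 21, 19, 15, 7, 17]),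
   ([0, 1, 2, 3, 8, 17, 18, 15, 12, 13, 19, 21, 16, 6, 23, 10, 4, 5, 9, 7, 11, 22, 20, 14], [0, 1, 2, 3, 16, 17, 13, 19, 4, 18, 15, 20, 8, 9, 23, 7, 12, 5, 6, 10, 22, 11, 21, 14]),
   ([0, 1, 2, 3, 9, 14, 4, 11, 18, 12, 22, 10, 6, 8, 5, 20, 13, 23, 16, 21, 19, 15, 7, 17], [0, 1, 2, 3, 6, 14, 12, 22, 13, 4, 11, 7, 9, 16, 5, 21, 18, 23, 8, 20, 15, 19, 10, 17])]

/-- the index of a pair modulo 3 -/
def ncode (y : ZMod 3 × ZMod 3) : ℕ := 3 * y.1.val + y.2.val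

/-- the index of an element of the quaternion group -/
def qcode : QuaternionGroup 2 → ℕ
  | .a i => i.val
  | .xa i => 4 + i.val

/-- the table `C` is the composite of the tables `A` and `B` -/
def mulChk (A B C : Tb) : Bool := (List.range 24).all fun j => ap C j == ap A (ap B j)

theorem mul_of_chk {A B C : Tb} (hA : genOK A = true) (hB : genOK B = true)
    (hC : genOK C = true) (h : mulChk A B C = true) : P C = P A * P B := by
  apply ext_pt
  intro j hj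
  unfold mulChk at h
  rw [List.all_eq_true] at h
  have := h j (List.mem_range.mpr hj)
  rw [beq_iff_eq] at this
  rw [P_apply hC j hj, Equiv.Perm.mul_apply, P_apply hB j hj, P_apply hA _ (ap_lt hB j hj), this]

/-- the table is in the group, fixes the standard dodecad and the points 0, 1, 2 -/
def stdChk (T : Tb) : Bool :=
  genOK T && (pull T.2 340831 == 340831) && (ap T 0 == 0) && (ap T 1 == 1) && (ap T 2 == 2)

theorem std_of_chk {T : Tb} (h : stdChk T = true) :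
    genOK T = true ∧ P T • fsOf 340831 = fsOf 340831 ∧ P T (ptN 0) = ptN 0 ∧
      P T (ptN 1) = ptN 1 ∧ P T (ptN 2) = ptN 2 := by
  unfold stdChk at h
  simp only [Bool.and_eq_true, beq_iff_eq] at h
  obtain ⟨⟨⟨⟨h1, h2⟩, h3⟩, h4⟩, h5⟩ := h
  refine ⟨h1, ?_, ?_, ?_, ?_⟩
  · rw [P_smul h1 _ (by norm_num), h2]
  · rw [P_apply h1 0 (by norm_num), h3]
  · rw [P_apply h1 1 (by norm_num), h4]
  · rw [P_apply h1 2 (by norm_num), h5]

theorem Ns_std : ∀ y : ZMod 3 × ZMod 3, stdChk (Ns9.getD (ncode y) ([], [])) = true := by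
  decide +kernel

theorem Qs_std : ∀ q : QuaternionGroup 2, stdChk (Qs9.getD (qcode q) ([], [])) = true := by
  decide +kernel

theorem Ns_mul : ∀ y1 y2 : ZMod 3 × ZMod 3, mulChk (Ns9.getD (ncode y1) ([], []))
    (Ns9.getD (ncode y2) ([], [])) (Ns9.getD (ncode (y1 + y2)) ([], [])) = true := by
  decide +kernel

theorem Qs_mul : ∀ q1 q2 : QuaternionGroup 2, mulChk (Qs9.getD (qcode q1) ([], []))
    (Qs9.getD (qcode q2) ([], [])) (Qs9.getD (qcode (q1 * q2)) ([], [])) = true := by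
  decide +kernel

theorem Ns_ne : ∀ y : ZMod 3 × ZMod 3, y ≠ 0 →
    ∃ j < 24, ap (Ns9.getD (ncode y) ([], [])) j ≠ j := by decide +kernel

theorem Qs_ne : ∀ q : QuaternionGroup 2, q ≠ 1 →
    ∃ j < 24, ap (Qs9.getD (qcode q) ([], [])) j ≠ j := by decide +kernel

/-- the tables `Q` and `N` satisfy `Q N = N' Q` -/
def nrmChk (Q N N' : Tb) : Bool := (List.range 24).all fun j => ap Q (ap N j) == ap N' (ap Q j)

theorem QN_nrm : ∀ q : QuaternionGroup 2, ∀ y : ZMod 3 × ZMod 3, ∃ y' : ZMod 3 × ZMod 3,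
    nrmChk (Qs9.getD (qcode q) ([], [])) (Ns9.getD (ncode y) ([], []))
      (Ns9.getD (ncode y') ([], [])) = true := by decide +kernel

theorem nrm_of_chk {Q N N' : Tb} (hQ : genOK Q = true) (hN : genOK N = true)
    (hN' : genOK N' = true) (h : nrmChk Q N N' = true) : P Q * P N = P N' * P Q := by
  apply ext_pt
  intro j hj
  unfold nrmChk at h
  rw [List.all_eq_true] at h
  have := h j (List.mem_range.mpr hj)
  rw [beq_iff_eq] at this
  rw [Equiv.Perm.mul_apply, P_apply hN j hj, P_apply hQ _ (ap_lt hN j hj), Equiv.Perm.mul_apply,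
    P_apply hQ j hj, P_apply hN' _ (ap_lt hQ j hj), this]

/-- the homomorphism from the elementary abelian group of order 9 -/
def φ0 : Multiplicative (ZMod 3 × ZMod 3) →* Equiv.Perm GolayPt :=
  MonoidHom.mk' (fun y => P (Ns9.getD (ncode (Multiplicative.toAdd y)) ([], []))) (by
    intro a b
    exact mul_of_chk (std_of_chk (Ns_std _)).1 (std_of_chk (Ns_std _)).1
      (std_of_chk (Ns_std _)).1 (Ns_mul (Multiplicative.toAdd a) (Multiplicative.toAdd b)))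

/-- the homomorphism from the quaternion group -/
def ψ0 : QuaternionGroup 2 →* Equiv.Perm GolayPt :=
  MonoidHom.mk' (fun q => P (Qs9.getD (qcode q) ([], []))) (by
    intro a b
    exact mul_of_chk (std_of_chk (Qs_std _)).1 (std_of_chk (Qs_std _)).1
      (std_of_chk (Qs_std _)).1 (Qs_mul a b))

theorem φ0_inj : Function.Injective φ0 := by
  rw [injective_iff_map_eq_one]
  intro y hy
  by_contra hne
  have hne' : Multiplicative.toAdd y ≠ 0 := fun h => hne (by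
    rw [← ofAdd_toAdd y, h]
    rfl)
  obtain ⟨j, hj, hmv⟩ := Ns_ne _ hne'
  exact P_ne_one (std_of_chk (Ns_std _)).1 j hj hmv hy

theorem ψ0_inj : Function.Injective ψ0 := by
  rw [injective_iff_map_eq_one]
  intro q hq
  by_contra hne
  obtain ⟨j, hj, hmv⟩ := Qs_ne q hne
  exact P_ne_one (std_of_chk (Qs_std _)).1 j hj hmv hq

theorem main (d : Finset GolayPt) (hd : d ∈ dodecads) (p q r : GolayPt) (hp : p ∈ d)
    (hq : q ∈ d) (hr : r ∈ d) (hpq : p ≠ q) (hpr : p ≠ r) (hqr : q ≠ r) :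
    (∀ Q : Sylow 3 ↥(MulAction.stabilizer M24 d ⊓ MulAction.stabilizer M24 p ⊓
        MulAction.stabilizer M24 q ⊓ MulAction.stabilizer M24 r),
      (Q : Subgroup ↥(MulAction.stabilizer M24 d ⊓ MulAction.stabilizer M24 p ⊓
        MulAction.stabilizer M24 q ⊓ MulAction.stabilizer M24 r)).Normal ∧ Nat.card ↥Q = 9 ∧
      ∀ x ∈ (Q : Subgroup ↥(MulAction.stabilizer M24 d ⊓ MulAction.stabilizer M24 p ⊓
        MulAction.stabilizer M24 q ⊓ MulAction.stabilizer M24 r)), x ^ 3 = 1) ∧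
    ∀ P : Sylow 2 ↥(MulAction.stabilizer M24 d ⊓ MulAction.stabilizer M24 p ⊓
        MulAction.stabilizer M24 q ⊓ MulAction.stabilizer M24 r),
      Nonempty (↥P ≃* QuaternionGroup 2) := by
  haveI : Finite ↥M24 := Finite.of_injective (fun g : ↥M24 => (g : Equiv.Perm GolayPt))
    Subtype.val_injective
  obtain ⟨σ, hσ, hσd, hσp, hσq, hσr⟩ := exists_sigma3 d hd p q r hp hq hr hpq hpr hqr
  obtain ⟨FΦ, hΦ, eΦ⟩ := lift_hom φ0 (fun y => P_mem (std_of_chk (Ns_std _)).1)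
    (fun y => (std_of_chk (Ns_std _)).2.1) (fun y => (std_of_chk (Ns_std _)).2.2.1)
    (fun y => (std_of_chk (Ns_std _)).2.2.2.1) (fun y => (std_of_chk (Ns_std _)).2.2.2.2)
    φ0_inj σ hσ hσd hσp hσq hσr
  obtain ⟨FΨ, hΨ, eΨ⟩ := lift_hom ψ0 (fun y => P_mem (std_of_chk (Qs_std _)).1)
    (fun y => (std_of_chk (Qs_std _)).2.1) (fun y => (std_of_chk (Qs_std _)).2.2.1)
    (fun y => (std_of_chk (Qs_std _)).2.2.2.1) (fun y => (std_of_chk (Qs_std _)).2.2.2.2)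
    ψ0_inj σ hσ hσd hσp hσq hσr
  refine sylow_struct (card_stab_dpqr d hd p q r hp hq hr hpq hpr hqr) FΦ FΨ hΦ hΨ
    (by rw [Nat.card_eq_fintype_card]; rfl)
    (by rw [Nat.card_eq_fintype_card, QuaternionGroup.card])
    (by decide) ?_
  intro b y
  obtain ⟨y', hy'⟩ := QN_nrm b (Multiplicative.toAdd y)
  refine ⟨Multiplicative.ofAdd y', ?_⟩
  apply Subtype.ext
  apply Subtype.ext
  show ((FΨ b : ↥M24) : Equiv.Perm GolayPt) * ((FΦ y : ↥M24) : Equiv.Perm GolayPt)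
    = ((FΦ (Multiplicative.ofAdd y') : ↥M24) : Equiv.Perm GolayPt) *
      ((FΨ b : ↥M24) : Equiv.Perm GolayPt)
  rw [eΨ, eΦ, eΦ]
  have h := nrm_of_chk (std_of_chk (Qs_std b)).1 (std_of_chk (Ns_std _)).1
    (std_of_chk (Ns_std _)).1 hy'
  have h' : ψ0 b * φ0 y = φ0 (Multiplicative.ofAdd y') * ψ0 b := h
  have e1 : σ * ψ0 b * σ⁻¹ * (σ * φ0 y * σ⁻¹) = σ * (ψ0 b * φ0 y) * σ⁻¹ := by group
  have e2 : σ * φ0 (Multiplicative.ofAdd y') * σ⁻¹ * (σ * ψ0 b * σ⁻¹)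
      = σ * (φ0 (Multiplicative.ofAdd y') * ψ0 b) * σ⁻¹ := by group
  rw [e1, e2, h']

end Cfsg.Agent.Lib_lead_M9
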