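import Mathlib
import Cfsg.Prelude.Def_SporadicCombinatorics
import Cfsg.Agent.Lib_lead_ObjOrb4
import Cfsg.Agent.Lib_lead_Sextet
import Cfsg.Agent.Lib_lead_M24Oct
import Cfsg.Agent.Lib_lead_M12Data
import Cfsg.Agent.Lib_lead_OrbOct
import Cfsg.Agent.Lib_lead_OctA8
import Cfsg.Agent.Lib_lead_MixDdSext

/-! Orbits on sextets of the stabilizer of a triad and of a pair of complementary dodecads;
joint stabilizers of two octads. -/

set_option autoImplicit false

namespace Cfsg.Agent.Lib_lead_MixOrb2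

open Cfsg Cfsg.Agent.Lib_lead_Golay Cfsg.Agent.Lib_lead_GolayPerm Cfsg.Agent.Lib_lead_M24
  Cfsg.Agent.Lib_lead_M24Chain Cfsg.Agent.Lib_lead_M24Orb Cfsg.Agent.Lib_lead_ObjOrb
  Cfsg.Agent.Lib_lead_ObjOrb3 Cfsg.Agent.Lib_lead_ObjOrb4 Cfsg.Agent.Lib_lead_Sextet
open scoped Pointwise

theorem sextets_smul : ∀ h ∈ M24, ∀ X ∈ sextets, h • X ∈ sextets :=
  fun _ hh _ hX => smul_sextet hh hX

section DdSext
open Cfsg.Agent.Lib_lead_MixDdSext

theorem chkDdSext : ∀ r ∈ rootsT, sextChk r = true := by decide +kernel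

theorem certDdSext : CertM sextets baseT gensT rootsT tabT sizeT 2 where
  hbase := hbaseT
  hgen := hgenT
  hroots := hrootsT
  hmem := fun r hr => sextet_of_chk r (chkDdSext r hr)
  hcls := hclsT
  hinc := hincT
  hinv := hinvT
  hsmul := fun g hg X hX => smul_sextet ((mem_StabK _ g).mp hg).1 hX
  hcard := by rw [ncard_sextets, hlenT]
  hcount := hcountT

theorem fin_pair (a b : ℕ) : fin [a, b] = {fsOf a, fsOf b} := by
  simp [fin]

theorem compl_root : fsOf 16436384 = Finset.univ \ fsOf 340831 := by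
  rw [← Finset.compl_eq_univ_sdiff, fsOf_compl]
  rfl

/-- orbits on sextets of the stabilizer of a pair of complementary dodecads -/
theorem dd_orbits (d : Finset GolayPt) (hd : d ∈ dodecads) :
    ∃ X₁ ∈ sextets, ∃ X₂ ∈ sextets, ∃ X₃ ∈ sextets,
      (MulAction.orbit ↥(MulAction.stabilizer M24 ({d, Finset.univ \ d} : Fam)) X₁).ncard
        = 396 ∧
      (MulAction.orbit ↥(MulAction.stabilizer M24 ({d, Finset.univ \ d} : Fam)) X₂).ncard
        = 495 ∧
      (MulAction.orbit ↥(MulAction.stabilizer M24 ({d, Finset.univ \ d} : Fam)) X₃).ncard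
        = 880 ∧
      sextets = MulAction.orbit ↥(MulAction.stabilizer M24 ({d, Finset.univ \ d} : Fam)) X₁ ∪
        MulAction.orbit ↥(MulAction.stabilizer M24 ({d, Finset.univ \ d} : Fam)) X₂ ∪
        MulAction.orbit ↥(MulAction.stabilizer M24 ({d, Finset.univ \ d} : Fam)) X₃ := by
  obtain ⟨g, hg⟩ := Cfsg.Agent.Lib_lead_M24Data.dodecads_trans (fsOf 340831) d
    Cfsg.Agent.Lib_lead_M12Data.root_dodecad hd
  have hb : g • fin [340831, 16436384] = ({d, Finset.univ \ d} : Fam) := by
    rw [fin_pair, Finset.smul_finset_insert, Finset.smul_finset_singleton, compl_root,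
      Finset.smul_finset_sdiff, Finset.smul_finset_univ, hg]
  have h1 := certDdSext.orbits3 (by decide) sextets_smul g
  rw [show baseT = [340831, 16436384] from rfl, hb] at h1
  exact h1

end DdSext

/-! ### Joint stabilizers of two octads -/

theorem joint (o o' : Finset GolayPt) (ho : o ∈ octads) (ho' : o' ∈ octads) (j : Fin 3)
    (hj : (o ∩ o').card = 2 * j.val) :
    322560 = ![30, 448, 280] j *
      Nat.card ↥(MulAction.stabilizer M24 o ⊓ MulAction.stabilizer M24 o') := by
  have h := orbit_count (G := M24) (MulAction.stabilizer M24 o) o'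
    (Cfsg.Agent.Lib_lead_OrbOct.Cl o j)
    (fun g hg => by
      rw [MulAction.mem_stabilizer_iff] at hg
      rw [Cfsg.Agent.Lib_lead_OrbOct.mem_Cl]
      refine ⟨smul_mem_weight g.2 ho', ?_⟩
      have h1 : (o ∩ g • o').card = (g • o ∩ g • o').card := by rw [hg]
      rw [h1]
      exact (inter_smul (g : Equiv.Perm GolayPt) o o').trans hj)
    (fun z hz => by
      rw [Cfsg.Agent.Lib_lead_OrbOct.mem_Cl] at hz
      obtain ⟨g, hg, hgo, hgz⟩ := Cfsg.Agent.Lib_lead_OrbOct.orbit_thm o o' z ho ho' hz.1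
        (by rw [hj, hz.2])
      exact ⟨⟨g, hg⟩, hgo, hgz⟩)
  rw [Cfsg.Agent.Lib_lead_OctA8.card_stab_octad o ho,
    Cfsg.Agent.Lib_lead_OrbOct.card_Cl o ho j] at h
  exact h

theorem joint_orders (o o' : Finset GolayPt) (ho : o ∈ octads) (ho' : o' ∈ octads) :
    ((o ∩ o').card = 0 →
      Nat.card ↥(MulAction.stabilizer M24 o ⊓ MulAction.stabilizer M24 o') = 10752) ∧
    ((o ∩ o').card = 4 →
      Nat.card ↥(MulAction.stabilizer M24 o ⊓ MulAction.stabilizer M24 o') = 1152) ∧
    ((o ∩ o').card = 2 →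
      Nat.card ↥(MulAction.stabilizer M24 o ⊓ MulAction.stabilizer M24 o') = 720) := by
  refine ⟨fun h => ?_, fun h => ?_, fun h => ?_⟩
  · have := joint o o' ho ho' 0 (by rw [h]; rfl)
    simp only [Matrix.cons_val_zero] at this
    omega
  · have := joint o o' ho ho' 2 (by rw [h]; rfl)
    simp only [Matrix.cons_val_two, Matrix.cons_val_zero, Matrix.head_cons, Matrix.tail_cons]
      at this
    omega
  · have := joint o o' ho ho' 1 (by rw [h]; rfl)
    simp only [Matrix.cons_val_one, Matrix.cons_val_zero, Matrix.head_cons] at this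
    omega

end Cfsg.Agent.Lib_lead_MixOrb2
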