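import Mathlib
import Cfsg.Prelude.Def_SporadicCombinatorics
import Cfsg.Agent.Lib_lead_Cent

/-! Elements of the group of the binary Golay code intertwining a table `t` with
`0 → 2 → 5 → 6 → 9` and one of a list of tables: an enumeration engine. -/

set_option autoImplicit false

namespace Cfsg.Agent.Lib_lead_Norm7

open Cfsg Cfsg.Agent.Lib_lead_Golay Cfsg.Agent.Lib_lead_GolayPerm Cfsg.Agent.Lib_lead_M24
  Cfsg.Agent.Lib_lead_M24Chain Cfsg.Agent.Lib_lead_M24ChainData Cfsg.Agent.Lib_lead_M24Sets2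
  Cfsg.Agent.Lib_lead_SixSet Cfsg.Agent.Lib_lead_M24Trans Cfsg.Agent.Lib_lead_Cls
  Cfsg.Agent.Lib_lead_ClsData Cfsg.Agent.Lib_lead_Cls2 Cfsg.Agent.Lib_lead_Cls3
  Cfsg.Agent.Lib_lead_ObjOrb Cfsg.Agent.Lib_lead_ClsCount Cfsg.Agent.Lib_lead_Cent
open scoped Pointwise

/-- the function `f` intertwines the tables `t` and `u` -/
def relT (f : ℕ → ℕ) (t u : Tb) : Bool := (List.range 24).all fun j => f (ap t j) == ap u (f j)

theorem relT_of {X E t u : Tb} (hX : genOK X = true) (hE : genOK E = true)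
    (ht : genOK t = true) (hu : genOK u = true)
    (h : P X * P E * P t = P u * (P X * P E)) : relT (cmp X E) t u = true := by
  unfold relT
  rw [List.all_eq_true]
  intro j hj
  rw [List.mem_range] at hj
  rw [beq_iff_eq]
  have e : (P X * P E * P t) (ptN j) = (P u * (P X * P E)) (ptN j) := by rw [h]
  rw [Equiv.Perm.mul_apply, P_apply ht j hj, P_mul_apply hX hE _ (ap_lt ht j hj),
    Equiv.Perm.mul_apply, P_mul_apply hX hE j hj, P_apply hu _ (cmp_lt hX hE j hj)] at e
  exact ptN_inj (cmp_lt hX hE _ (ap_lt ht j hj)) (ap_lt hu _ (cmp_lt hX hE j hj)) e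

theorem rel_of_T {X E t u : Tb} (hX : genOK X = true) (hE : genOK E = true)
    (ht : genOK t = true) (hu : genOK u = true) (h : relT (cmp X E) t u = true) :
    P X * P E * P t = P u * (P X * P E) := by
  apply ext_pt
  intro j hj
  unfold relT at h
  rw [List.all_eq_true] at h
  have := h j (List.mem_range.mpr hj)
  rw [beq_iff_eq] at this
  rw [Equiv.Perm.mul_apply, P_apply ht j hj, P_mul_apply hX hE _ (ap_lt ht j hj),
    Equiv.Perm.mul_apply, P_mul_apply hX hE j hj, P_apply hu _ (cmp_lt hX hE j hj), this]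

/-- the table `X` has the images of the base points forced by `a` and `u` -/
def repOne (a : ℕ) (u X : Tb) : Bool :=
  (ap u a == a) || (genOK X && (ap X 0 == a) && (ap X 2 == ap u a) &&
    (ap X 5 == ap u (ap u a)) && (ap X 6 == ap u (ap u (ap u a))) &&
    (ap X 9 == ap u (ap u (ap u (ap u a)))))

/-- the representatives: one for each target table and each image of the point 0 -/
def repChk (us Xs : List Tb) : Bool :=
  (List.range us.length).all fun k => (List.range 24).all fun a =>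
    repOne a (us.getD k ([], [])) (Xs.getD (24 * k + a) ([], []))

/-- one step of the list check, forcing the tables -/
def listOne (t : Tb) (L : List (ℕ × ℕ × ℕ)) (k a : ℕ) : Tb → Tb → ℕ → Tb → Bool
  | (u1, _), (x1, _), e, (e1, _) =>
    !((List.range 24).all fun j =>
        x1.getD (e1.getD (ap t j) 0) 0 == u1.getD (x1.getD (e1.getD j 0) 0) 0) ||
      L.contains (k, a, e)

theorem listOne_eq (t : Tb) (L : List (ℕ × ℕ × ℕ)) (k a e : ℕ) (u X E : Tb) :
    listOne t L k a u X e E = (!relT (cmp X E) t u || L.contains (k, a, e)) := by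
  obtain ⟨u1, u2⟩ := u
  obtain ⟨x1, x2⟩ := X
  obtain ⟨e1, e2⟩ := E
  rfl

/-- all intertwining elements of the cosets are in the list -/
def listChk (t : Tb) (us Xs E : List Tb) (L : List (ℕ × ℕ × ℕ)) : Bool :=
  (List.range us.length).all fun k => (List.range 24).all fun a =>
    (ap (us.getD k ([], [])) a == a) || (List.range 48).all fun e =>
      listOne t L k a (us.getD k ([], [])) (Xs.getD (24 * k + a) ([], [])) e (E.getD e ([], []))

/-- the element with the given indices -/
def elt (Xs E : List Tb) (τ : ℕ × ℕ × ℕ) : Equiv.Perm GolayPt :=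
  P (Xs.getD (24 * τ.1 + τ.2.1) ([], [])) * P (E.getD τ.2.2 ([], []))

/-- the composite table with the given indices -/
def eltF (Xs E : List Tb) (τ : ℕ × ℕ × ℕ) (j : ℕ) : ℕ :=
  cmp (Xs.getD (24 * τ.1 + τ.2.1) ([], [])) (E.getD τ.2.2 ([], [])) j

/-- the elements intertwining `t` with the `k`-th target table are in the list -/
theorem norm_enum {t : Tb} {us Xs : List Tb} {L : List (ℕ × ℕ × ℕ)} (ht : genOK t = true)
    (h02 : ap t 0 = 2) (h25 : ap t 2 = 5) (h56 : ap t 5 = 6) (h69 : ap t 6 = 9)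
    (hus : allOK us = true) (hrep : repChk us Xs = true) (hlist : listChk t us Xs E48 L = true)
    (n : Equiv.Perm GolayPt) (hn : n ∈ M24) (k : ℕ) (hk : k < us.length)
    (hrel : n * P t = P (us.getD k ([], [])) * n) :
    ∃ τ ∈ L, τ.1 = k ∧ n = elt Xs E48 τ := by
  have hu := allOK_of hus k hk
  obtain ⟨u, hu_def⟩ : ∃ u, u = us.getD k ([], []) := ⟨_, rfl⟩
  rw [← hu_def] at hu hrel
  have hnt : ∀ j < 24, n (ptN (ap t j)) = P u (n (ptN j)) := by
    intro j hj
    have e : (n * P t) (ptN j) = (P u * n) (ptN j) := by rw [hrel]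
    rw [Equiv.Perm.mul_apply, P_apply ht j hj, Equiv.Perm.mul_apply] at e
    exact e
  have h0 : n (ptN 0) = ptN (idx (n (ptN 0))) := (ptN_idx _).symm
  have halt : idx (n (ptN 0)) < 24 := idx_lt _
  generalize idx (n (ptN 0)) = a at h0 halt
  have h2 : n (ptN 2) = ptN (ap u a) := by
    have := hnt 0 (by norm_num)
    rw [h02, h0, P_apply hu a halt] at this
    exact this
  have h5 : n (ptN 5) = ptN (ap u (ap u a)) := by
    have := hnt 2 (by norm_num)
    rw [h25, h2, P_apply hu _ (ap_lt hu a halt)] at this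
    exact this
  have h6 : n (ptN 6) = ptN (ap u (ap u (ap u a))) := by
    have := hnt 5 (by norm_num)
    rw [h56, h5, P_apply hu _ (ap_lt hu _ (ap_lt hu a halt))] at this
    exact this
  have h9 : n (ptN 9) = ptN (ap u (ap u (ap u (ap u a)))) := by
    have := hnt 6 (by norm_num)
    rw [h69, h6, P_apply hu _ (ap_lt hu _ (ap_lt hu _ (ap_lt hu a halt)))] at this
    exact this
  unfold repChk at hrep
  rw [List.all_eq_true] at hrep
  have h1 := hrep k (List.mem_range.mpr hk)
  rw [List.all_eq_true] at h1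
  have h1 := h1 a (List.mem_range.mpr halt)
  rw [← hu_def] at h1
  unfold repOne at h1
  have hne : ap u a ≠ a := by
    intro h
    rw [h] at h2
    have := n.injective (h2.trans h0.symm)
    exact absurd (ptN_inj (by norm_num) (by norm_num) this) (by norm_num)
  simp only [Bool.or_eq_true, beq_iff_eq, hne, false_or, Bool.and_eq_true] at h1
  obtain ⟨⟨⟨⟨⟨hX, x0⟩, x2⟩, x5⟩, x6⟩, x9⟩ := h1
  obtain ⟨e, he, hne'⟩ := coset48 E48 E48_ok E48_enum hn _ hX (by rw [h0, x0]) (by rw [h2, x2])
    (by rw [h5, x5]) (by rw [h6, x6]) (by rw [h9, x9])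
  have hE := E48_ok e he
  have hr := relT_of hX hE ht hu (hne' ▸ hrel)
  unfold listChk at hlist
  rw [List.all_eq_true] at hlist
  have h3 := hlist k (List.mem_range.mpr hk)
  rw [List.all_eq_true] at h3
  have h3 := h3 a (List.mem_range.mpr halt)
  rw [← hu_def] at h3
  simp only [Bool.or_eq_true, beq_iff_eq, hne, false_or] at h3
  rw [List.all_eq_true] at h3
  have h3 := h3 e (List.mem_range.mpr he)
  rw [listOne_eq, hr] at h3
  simp only [Bool.not_true, Bool.false_or, List.contains_iff_mem] at h3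
  exact ⟨(k, a, e), h3, rfl, hne'⟩

/-- the members of the list are valid and intertwine -/
def memChk (t : Tb) (us Xs E : List Tb) (L : List (ℕ × ℕ × ℕ)) : Bool :=
  L.all fun τ => decide (τ.1 < us.length) && decide (τ.2.1 < 24) && decide (τ.2.2 < 48) &&
    !(ap (us.getD τ.1 ([], [])) τ.2.1 == τ.2.1) &&
    relT (eltF Xs E τ) t (us.getD τ.1 ([], []))

theorem mem_of_chk {t : Tb} {us Xs : List Tb} {L : List (ℕ × ℕ × ℕ)}
    (hus : allOK us = true) (hrep : repChk us Xs = true) (hmem : memChk t us Xs E48 L = true)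
    (τ : ℕ × ℕ × ℕ) (hτ : τ ∈ L) :
    τ.1 < us.length ∧ genOK (us.getD τ.1 ([], [])) = true ∧
      genOK (Xs.getD (24 * τ.1 + τ.2.1) ([], [])) = true ∧
      genOK (E48.getD τ.2.2 ([], [])) = true ∧
      relT (eltF Xs E48 τ) t (us.getD τ.1 ([], [])) = true := by
  unfold memChk at hmem
  rw [List.all_eq_true] at hmem
  have := hmem τ hτ
  simp only [Bool.and_eq_true, beq_iff_eq, decide_eq_true_eq, Bool.not_eq_true',
    beq_eq_false_iff_ne] at this
  obtain ⟨⟨⟨⟨h1, h2⟩, h3⟩, h4⟩, h5⟩ := this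
  unfold repChk at hrep
  rw [List.all_eq_true] at hrep
  have h6 := hrep τ.1 (List.mem_range.mpr h1)
  rw [List.all_eq_true] at h6
  have h6 := h6 τ.2.1 (List.mem_range.mpr h2)
  unfold repOne at h6
  simp only [Bool.or_eq_true, beq_iff_eq, h4, false_or, Bool.and_eq_true] at h6
  exact ⟨h1, allOK_of hus _ h1, h6.1.1.1.1.1, E48_ok _ h3, h5⟩

/-- the key of an element: the images of four points -/
def keyN (f : ℕ → ℕ) : ℕ × ℕ × ℕ × ℕ := (f 0, f 2, f 1, f 17)

theorem elt_nodup {t : Tb} {us Xs : List Tb} {L : List (ℕ × ℕ × ℕ)}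
    (hus : allOK us = true) (hrep : repChk us Xs = true) (hmem : memChk t us Xs E48 L = true)
    (hdis : (L.map (fun τ => keyN (eltF Xs E48 τ))).Nodup) :
    (L.map (elt Xs E48)).Nodup := by
  have hL : L.Nodup := List.Nodup.of_map _ hdis
  apply List.Nodup.map_on _ hL
  intro τ hτ τ' hτ' he
  apply List.inj_on_of_nodup_map hdis hτ hτ'
  obtain ⟨-, -, a2, a3, -⟩ := mem_of_chk hus hrep hmem τ hτ
  obtain ⟨-, -, b2, b3, -⟩ := mem_of_chk hus hrep hmem τ' hτ'
  have key : ∀ j < 24, eltF Xs E48 τ j = eltF Xs E48 τ' j := by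
    intro j hj
    have e : elt Xs E48 τ (ptN j) = elt Xs E48 τ' (ptN j) := by rw [he]
    unfold elt at e
    rw [P_mul_apply a2 a3 j hj, P_mul_apply b2 b3 j hj] at e
    exact ptN_inj (cmp_lt a2 a3 j hj) (cmp_lt b2 b3 j hj) e
  unfold keyN
  rw [key 0 (by norm_num), key 2 (by norm_num), key 1 (by norm_num), key 17 (by norm_num)]

/-- the elements of the group intertwining `t` with one of the target tables -/
def NP (t : Tb) (us : List Tb) : Set (Equiv.Perm GolayPt) :=
  {n | n ∈ M24 ∧ ∃ k < us.length, n * P t = P (us.getD k ([], [])) * n}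

/-- the elements of the group commuting with `t` -/
def CP (t : Tb) : Set (Equiv.Perm GolayPt) := {n | n ∈ M24 ∧ n * P t = P t * n}

theorem mem_NP_of {t : Tb} {us Xs : List Tb} {L : List (ℕ × ℕ × ℕ)} (ht : genOK t = true)
    (hus : allOK us = true) (hrep : repChk us Xs = true) (hmem : memChk t us Xs E48 L = true)
    (τ : ℕ × ℕ × ℕ) (hτ : τ ∈ L) :
    elt Xs E48 τ ∈ M24 ∧ τ.1 < us.length ∧
      elt Xs E48 τ * P t = P (us.getD τ.1 ([], [])) * elt Xs E48 τ := by
  obtain ⟨a0, a1, a2, a3, a4⟩ := mem_of_chk hus hrep hmem τ hτ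
  exact ⟨M24.mul_mem (P_mem a2) (P_mem a3), a0, rel_of_T a2 a3 ht a1 a4⟩

theorem NP_eq {t : Tb} {us Xs : List Tb} {L : List (ℕ × ℕ × ℕ)} (ht : genOK t = true)
    (h02 : ap t 0 = 2) (h25 : ap t 2 = 5) (h56 : ap t 5 = 6) (h69 : ap t 6 = 9)
    (hus : allOK us = true) (hrep : repChk us Xs = true) (hlist : listChk t us Xs E48 L = true)
    (hmem : memChk t us Xs E48 L = true) :
    NP t us = ↑((L.map (elt Xs E48)).toFinset) := by
  ext n
  rw [Finset.mem_coe, List.mem_toFinset, List.mem_map]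
  constructor
  · rintro ⟨hn, k, hk, hrel⟩
    obtain ⟨τ, hτ, -, rfl⟩ := norm_enum ht h02 h25 h56 h69 hus hrep hlist n hn k hk hrel
    exact ⟨τ, hτ, rfl⟩
  · rintro ⟨τ, hτ, rfl⟩
    obtain ⟨b0, b1, b2⟩ := mem_NP_of ht hus hrep hmem τ hτ
    exact ⟨b0, τ.1, b1, b2⟩

theorem card_NP {t : Tb} {us Xs : List Tb} {L : List (ℕ × ℕ × ℕ)} (ht : genOK t = true)
    (h02 : ap t 0 = 2) (h25 : ap t 2 = 5) (h56 : ap t 5 = 6) (h69 : ap t 6 = 9)
    (hus : allOK us = true) (hrep : repChk us Xs = true) (hlist : listChk t us Xs E48 L = true)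
    (hmem : memChk t us Xs E48 L = true)
    (hdis : (L.map (fun τ => keyN (eltF Xs E48 τ))).Nodup) :
    (NP t us).ncard = L.length := by
  rw [NP_eq ht h02 h25 h56 h69 hus hrep hlist hmem, Set.ncard_coe_finset,
    List.toFinset_card_of_nodup (elt_nodup hus hrep hmem hdis), List.length_map]

theorem CP_eq {t : Tb} {us Xs : List Tb} {L : List (ℕ × ℕ × ℕ)} (ht : genOK t = true)
    (h02 : ap t 0 = 2) (h25 : ap t 2 = 5) (h56 : ap t 5 = 6) (h69 : ap t 6 = 9)
    (hus : allOK us = true) (hrep : repChk us Xs = true) (hlist : listChk t us Xs E48 L = true)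
    (hmem : memChk t us Xs E48 L = true) (hpos : 0 < us.length)
    (h0 : P (us.getD 0 ([], [])) = P t) :
    CP t = ↑(((L.filter (fun τ => τ.1 == 0)).map (elt Xs E48)).toFinset) := by
  ext n
  rw [Finset.mem_coe, List.mem_toFinset, List.mem_map]
  constructor
  · rintro ⟨hn, hrel⟩
    obtain ⟨τ, hτ, hk, rfl⟩ := norm_enum ht h02 h25 h56 h69 hus hrep hlist n hn 0 hpos
      (by rw [h0]; exact hrel)
    exact ⟨τ, List.mem_filter.mpr ⟨hτ, by rw [beq_iff_eq]; exact hk⟩, rfl⟩
  · rintro ⟨τ, hτ, rfl⟩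
    rw [List.mem_filter, beq_iff_eq] at hτ
    obtain ⟨b0, -, b2⟩ := mem_NP_of ht hus hrep hmem τ hτ.1
    rw [hτ.2, h0] at b2
    exact ⟨b0, b2⟩

theorem card_CP {t : Tb} {us Xs : List Tb} {L : List (ℕ × ℕ × ℕ)} (ht : genOK t = true)
    (h02 : ap t 0 = 2) (h25 : ap t 2 = 5) (h56 : ap t 5 = 6) (h69 : ap t 6 = 9)
    (hus : allOK us = true) (hrep : repChk us Xs = true) (hlist : listChk t us Xs E48 L = true)
    (hmem : memChk t us Xs E48 L = true) (hpos : 0 < us.length)
    (h0 : P (us.getD 0 ([], [])) = P t)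
    (hdis : (L.map (fun τ => keyN (eltF Xs E48 τ))).Nodup) :
    (CP t).ncard = (L.filter (fun τ => τ.1 == 0)).length := by
  rw [CP_eq ht h02 h25 h56 h69 hus hrep hlist hmem hpos h0, Set.ncard_coe_finset,
    List.toFinset_card_of_nodup
      ((elt_nodup hus hrep hmem hdis).sublist (List.Sublist.map _ List.filter_sublist)),
    List.length_map]

/-- the tables of the list are the successive powers of `t` -/
def powChk (t : Tb) (us : List Tb) : Bool :=
  ((List.range 24).all fun j => ap (us.getD 0 ([], [])) j == ap t j) &&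
  (List.range (us.length - 1)).all fun k => (List.range 24).all fun j =>
    ap (us.getD (k + 1) ([], [])) j == ap (us.getD k ([], [])) (ap t j)

theorem pow_of_chk {t : Tb} {us : List Tb} (ht : genOK t = true) (hus : allOK us = true)
    (h : powChk t us = true) : ∀ k < us.length, P (us.getD k ([], [])) = P t ^ (k + 1) := by
  unfold powChk at h
  rw [Bool.and_eq_true, List.all_eq_true, List.all_eq_true] at h
  obtain ⟨h0, hs⟩ := h
  intro k
  induction k with
  | zero =>
    intro hk
    rw [zero_add, pow_one]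
    apply ext_pt
    intro j hj
    have := h0 j (List.mem_range.mpr hj)
    rw [beq_iff_eq] at this
    rw [P_apply (allOK_of hus 0 hk) j hj, P_apply ht j hj, this]
  | succ k ih =>
    intro hk
    have hk' : k < us.length := by omega
    rw [pow_succ, ← ih hk']
    apply ext_pt
    intro j hj
    have := hs k (List.mem_range.mpr (by omega))
    rw [List.all_eq_true] at this
    have := this j (List.mem_range.mpr hj)
    rw [beq_iff_eq] at this
    rw [P_apply (allOK_of hus _ hk) j hj, Equiv.Perm.mul_apply, P_apply ht j hj,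
      P_apply (allOK_of hus _ hk') _ (ap_lt ht j hj), this]

/-- the composite of two tables maps the list of masks to itself -/
def fix2 (Xs E : List Tb) (l : List ℕ) (τ : ℕ × ℕ × ℕ) : Bool :=
  (l.map (fun m => pull (Xs.getD (24 * τ.1 + τ.2.1) ([], [])).2
    (pull (E.getD τ.2.2 ([], [])).2 m))).all (fun m => l.contains m)

theorem fix2_sound {X E : Tb} (hX : genOK X = true) (hE : genOK E = true) (l : List ℕ)
    (hl : ∀ m ∈ l, m < 2 ^ 24)
    (h : ((l.map (fun m => pull X.2 (pull E.2 m))).all (fun m => l.contains m)) = true) :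
    (P X * P E) • fin l = fin l := by
  have hsm : (P X * P E) • fin l = fin (l.map (fun m => pull X.2 (pull E.2 m))) :=
    smul_fin_of _ l _ (fun m hm => by
      rw [mul_smul, P_smul hE m (hl m hm), P_smul hX _ (pull_lt' hE _)])
  rw [List.all_eq_true] at h
  apply Finset.eq_of_subset_of_card_le
  · rw [hsm]
    intro s hs
    obtain ⟨m, hm, rfl⟩ := (mem_fin _ _).mp hs
    exact (mem_fin _ _).mpr ⟨m, by simpa using h m hm, rfl⟩
  · rw [Finset.card_smul_finset]

/-- a family of sets fixed by the list is fixed by all the intertwining elements -/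
theorem NP_fix {t : Tb} {us Xs : List Tb} {L : List (ℕ × ℕ × ℕ)} (ht : genOK t = true)
    (h02 : ap t 0 = 2) (h25 : ap t 2 = 5) (h56 : ap t 5 = 6) (h69 : ap t 6 = 9)
    (hus : allOK us = true) (hrep : repChk us Xs = true) (hlist : listChk t us Xs E48 L = true)
    (hmem : memChk t us Xs E48 L = true) (S0 : List ℕ) (hS : ∀ x ∈ S0, x < 2 ^ 24)
    (hfix : (L.all fun τ => fix2 Xs E48 S0 τ) = true) (n : Equiv.Perm GolayPt)
    (hn : n ∈ NP t us) : n • fin S0 = fin S0 := by
  obtain ⟨hnM, k, hk, hrel⟩ := hn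
  obtain ⟨τ, hτ, -, rfl⟩ := norm_enum ht h02 h25 h56 h69 hus hrep hlist n hnM k hk hrel
  rw [List.all_eq_true] at hfix
  obtain ⟨-, -, a2, a3, -⟩ := mem_of_chk hus hrep hmem τ hτ
  exact fix2_sound a2 a3 S0 hS (hfix τ hτ)

/-! ### Abstract lemmas on cyclic subgroups of order 7 -/

theorem mem_norm_iff {G : Type} [Group G] [Finite G] (x : G) (h7 : orderOf x = 7) (n : G) :
    n ∈ Subgroup.normalizer ((Subgroup.zpowers x : Subgroup G) : Set G) ↔
      ∃ k < 6, n * x = x ^ (k + 1) * n := by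
  constructor
  · intro hn
    have h1 : n * x * n⁻¹ ∈ Subgroup.zpowers x :=
      (Subgroup.mem_normalizer_iff.mp hn x).mp (Subgroup.mem_zpowers x)
    rw [← mem_powers_iff_mem_zpowers] at h1
    obtain ⟨j, hj⟩ := h1
    have hj' : x ^ (j % 7) = n * x * n⁻¹ := by
      rw [← hj, ← h7, pow_mod_orderOf]
    have hne : j % 7 ≠ 0 := by
      intro h0
      rw [h0, pow_zero] at hj'
      have hx1 : x = 1 := by
        have h2 : n⁻¹ * (n * x * n⁻¹) * n = x := by group
        rw [← h2, ← hj']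
        group
      rw [hx1, orderOf_one] at h7
      norm_num at h7
    refine ⟨j % 7 - 1, by omega, ?_⟩
    rw [show j % 7 - 1 + 1 = j % 7 by omega, hj']
    group
  · rintro ⟨k, hk, h⟩
    apply Subgroup.mem_normalizer_fintype
    intro y hy
    obtain ⟨z, rfl⟩ := Subgroup.mem_zpowers_iff.mp hy
    have e : n * x * n⁻¹ = x ^ (k + 1) := by rw [h, mul_inv_cancel_right]
    have e2 : n * x ^ z * n⁻¹ = (x ^ (k + 1)) ^ z := by rw [← e, conj_zpow]
    rw [e2]
    exact Subgroup.zpow_mem _ (Subgroup.pow_mem _ (Subgroup.mem_zpowers x) _) _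

theorem mem_cent_iff {G : Type} [Group G] (x n : G) :
    n ∈ Subgroup.centralizer ((Subgroup.zpowers x : Subgroup G) : Set G) ↔ n * x = x * n := by
  rw [Subgroup.mem_centralizer_iff]
  constructor
  · intro h
    exact (h x (Subgroup.mem_zpowers x)).symm
  · intro h y hy
    obtain ⟨z, rfl⟩ := Subgroup.mem_zpowers_iff.mp hy
    have hc : Commute x n := h.symm
    exact (hc.zpow_left z).eq

theorem conj_rel {G : Type} [Group G] (g s n y : G) :
    n * (g * s * g⁻¹) = g * y * g⁻¹ * n ↔ g⁻¹ * n * g * s = y * (g⁻¹ * n * g) := by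
  constructor
  · intro h
    calc g⁻¹ * n * g * s = g⁻¹ * (n * (g * s * g⁻¹)) * g := by group
      _ = g⁻¹ * (g * y * g⁻¹ * n) * g := by rw [h]
      _ = y * (g⁻¹ * n * g) := by group
  · intro h
    calc n * (g * s * g⁻¹) = g * (g⁻¹ * n * g * s) * g⁻¹ := by group
      _ = g * (y * (g⁻¹ * n * g)) * g⁻¹ := by rw [h]
      _ = g * y * g⁻¹ * n := by group

end Cfsg.Agent.Lib_lead_Norm7
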