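import Mathlib
import Cfsg.Prelude.Def_SporadicCombinatorics
import Cfsg.Agent.Lib_lead_Norm7Data

/-! The normalizer and the centralizer of a subgroup of order 7 of the group of the binary
Golay code. -/

set_option autoImplicit false

namespace Cfsg.Agent.Lib_lead_Norm7Thm

open Cfsg Cfsg.Agent.Lib_lead_Golay Cfsg.Agent.Lib_lead_GolayPerm Cfsg.Agent.Lib_lead_M24
  Cfsg.Agent.Lib_lead_M24Chain Cfsg.Agent.Lib_lead_M24ChainData Cfsg.Agent.Lib_lead_Cls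
  Cfsg.Agent.Lib_lead_ClsData Cfsg.Agent.Lib_lead_Cls2 Cfsg.Agent.Lib_lead_Cls3
  Cfsg.Agent.Lib_lead_ObjOrb Cfsg.Agent.Lib_lead_ClsCount Cfsg.Agent.Lib_lead_Trio
  Cfsg.Agent.Lib_lead_SixSet Cfsg.Agent.Lib_lead_Norm7 Cfsg.Agent.Lib_lead_Norm7Data
open scoped Pointwise

/-- the standard element of order 7 -/
def s0 : ↥M24 := ⟨P t7, P_mem t7_ok⟩

theorem s0_pow : s0 ^ 7 = 1 := Subtype.ext (P_pow t7_ok 7 t7_pow)

theorem s0_ne : s0 ≠ 1 := fun h =>
  P_ne_one t7_ok 0 (by norm_num) (by decide) (congrArg Subtype.val h)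

theorem s0_ord : orderOf s0 = 7 := by
  haveI : Fact (Nat.Prime 7) := ⟨by norm_num⟩
  exact orderOf_eq_prime s0_pow s0_ne

theorem rel_coe (m : ↥M24) (k : ℕ) (hk : k < 6) :
    m * s0 = s0 ^ (k + 1) * m ↔
      (m : Equiv.Perm GolayPt) * P t7 = P (us7.getD k ([], [])) * (m : Equiv.Perm GolayPt) := by
  rw [pow_of_chk t7_ok us7_ok pow7 k (by rw [us7_len]; exact hk)]
  constructor
  · intro h
    exact congrArg Subtype.val h
  · intro h
    exact Subtype.ext h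

theorem comm_coe (m : ↥M24) :
    m * s0 = s0 * m ↔ (m : Equiv.Perm GolayPt) * P t7 = P t7 * (m : Equiv.Perm GolayPt) :=
  ⟨fun h => congrArg Subtype.val h, fun h => Subtype.ext h⟩

theorem u0_eq : P (us7.getD 0 ([], [])) = P t7 := by
  rw [pow_of_chk t7_ok us7_ok pow7 0 (by rw [us7_len]; norm_num), zero_add, pow_one]

theorem elt_CP (τ : ℕ × ℕ × ℕ) (hτ : τ ∈ L7) (h0 : τ.1 = 0) : elt Xs7 E48 τ ∈ CP t7 := by
  obtain ⟨b0, -, b2⟩ := mem_NP_of t7_ok us7_ok rep7 mem7 τ hτ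
  rw [h0, u0_eq] at b2
  exact ⟨b0, b2⟩

theorem elt_apply (τ : ℕ × ℕ × ℕ) (hτ : τ ∈ L7) (j : ℕ) (hj : j < 24) :
    elt Xs7 E48 τ (ptN j) = ptN (eltF Xs7 E48 τ j) ∧ eltF Xs7 E48 τ j < 24 := by
  obtain ⟨-, -, a2, a3, -⟩ := mem_of_chk us7_ok rep7 mem7 τ hτ
  exact ⟨P_mul_apply a2 a3 j hj, cmp_lt a2 a3 j hj⟩

theorem main (S : Subgroup ↥M24) (hS : Nat.card S = 7) :
    Nat.card ↥(Subgroup.normalizer (S : Set ↥M24)) = 126 ∧
    Nat.card ↥(Subgroup.centralizer (S : Set ↥M24)) = 42 ∧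
    (∃ x ∈ Subgroup.centralizer (S : Set ↥M24), ∃ y ∈ Subgroup.centralizer (S : Set ↥M24),
      x * y ≠ y * x) ∧
    ∃ T ∈ trios, ∀ n ∈ Subgroup.normalizer (S : Set ↥M24),
      ((n : ↥M24) : Equiv.Perm GolayPt) • T = T := by
  haveI : Finite ↥M24 := Finite.of_injective (fun g : ↥M24 => (g : Equiv.Perm GolayPt))
    Subtype.val_injective
  haveI : Fact (Nat.Prime 7) := ⟨by norm_num⟩
  have hc0 : Nat.card (Subgroup.zpowers s0) = 7 := by rw [Nat.card_zpowers, s0_ord]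
  have hfac : (Nat.card ↥M24).factorization 7 = 1 := by
    rw [card_M24, show (244823040 : ℕ) = 34974720 * 7 ^ 1 by norm_num,
      Nat.factorization_mul (by norm_num) (by norm_num), Finsupp.add_apply,
      Nat.factorization_eq_zero_of_not_dvd (by norm_num), zero_add,
      Nat.Prime.factorization_pow (by norm_num), Finsupp.single_eq_same]
  obtain ⟨g, hg⟩ := MulAction.exists_smul_eq ↥M24
    (Sylow.ofCard (Subgroup.zpowers s0) (by rw [hc0, hfac, pow_one]))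
    (Sylow.ofCard S (by rw [hS, hfac, pow_one]))
  have hS' : S = Subgroup.zpowers (g * s0 * g⁻¹) := by
    have h := congrArg Sylow.toSubgroup hg
    rw [Sylow.coe_subgroup_smul] at h
    rw [← conj_zpowers]
    exact h.symm
  subst hS'
  have hx7 : orderOf (g * s0 * g⁻¹) = 7 := by rw [← Nat.card_zpowers]; exact hS
  have hN : ∀ n : ↥M24, n ∈ Subgroup.normalizer
      ((Subgroup.zpowers (g * s0 * g⁻¹) : Subgroup ↥M24) : Set ↥M24) ↔
      ((g⁻¹ * n * g : ↥M24) : Equiv.Perm GolayPt) ∈ NP t7 us7 := by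
    intro n
    rw [mem_norm_iff _ hx7]
    constructor
    · rintro ⟨k, hk, h⟩
      rw [conj_pow, conj_rel] at h
      exact ⟨(g⁻¹ * n * g).2, k, by rw [us7_len]; exact hk, (rel_coe _ k hk).mp h⟩
    · rintro ⟨-, k, hk, h⟩
      rw [us7_len] at hk
      refine ⟨k, hk, ?_⟩
      rw [conj_pow, conj_rel]
      exact (rel_coe _ k hk).mpr h
  have hC : ∀ n : ↥M24, n ∈ Subgroup.centralizer
      ((Subgroup.zpowers (g * s0 * g⁻¹) : Subgroup ↥M24) : Set ↥M24) ↔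
      ((g⁻¹ * n * g : ↥M24) : Equiv.Perm GolayPt) ∈ CP t7 := by
    intro n
    rw [mem_cent_iff]
    constructor
    · intro h
      exact ⟨(g⁻¹ * n * g).2, (comm_coe _).mp ((conj_rel g s0 n s0).mp h)⟩
    · rintro ⟨-, h⟩
      exact (conj_rel g s0 n s0).mpr ((comm_coe _).mpr h)
  have hf : Function.Injective
      (fun n : ↥M24 => ((g⁻¹ * n * g : ↥M24) : Equiv.Perm GolayPt)) := by
    intro a b h
    have h' : g⁻¹ * a * g = g⁻¹ * b * g := Subtype.ext h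
    exact mul_left_cancel (mul_right_cancel h')
  have hsurj : ∀ (p : Equiv.Perm GolayPt) (hp : p ∈ M24),
      ((g⁻¹ * (g * ⟨p, hp⟩ * g⁻¹) * g : ↥M24) : Equiv.Perm GolayPt) = p := by
    intro p hp
    have : g⁻¹ * (g * ⟨p, hp⟩ * g⁻¹) * g = (⟨p, hp⟩ : ↥M24) := by group
    rw [this]
  have imgN : (fun n : ↥M24 => ((g⁻¹ * n * g : ↥M24) : Equiv.Perm GolayPt)) ''
      ((Subgroup.normalizer ((Subgroup.zpowers (g * s0 * g⁻¹) : Subgroup ↥M24) : Set ↥M24) :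
        Subgroup ↥M24) : Set ↥M24) = NP t7 us7 := by
    ext p
    constructor
    · rintro ⟨n, hn, rfl⟩
      exact (hN n).mp hn
    · intro hp
      refine ⟨g * ⟨p, hp.1⟩ * g⁻¹, (hN _).mpr ?_, hsurj p hp.1⟩
      rw [hsurj p hp.1]
      exact hp
  have imgC : (fun n : ↥M24 => ((g⁻¹ * n * g : ↥M24) : Equiv.Perm GolayPt)) ''
      ((Subgroup.centralizer ((Subgroup.zpowers (g * s0 * g⁻¹) : Subgroup ↥M24) : Set ↥M24) :
        Subgroup ↥M24) : Set ↥M24) = CP t7 := by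
    ext p
    constructor
    · rintro ⟨n, hn, rfl⟩
      exact (hC n).mp hn
    · intro hp
      refine ⟨g * ⟨p, hp.1⟩ * g⁻¹, (hC _).mpr ?_, hsurj p hp.1⟩
      rw [hsurj p hp.1]
      exact hp
  refine ⟨?_, ?_, ?_, ?_⟩
  · have h1 : Nat.card ↥(Subgroup.normalizer
        ((Subgroup.zpowers (g * s0 * g⁻¹) : Subgroup ↥M24) : Set ↥M24))
        = Set.ncard ((Subgroup.normalizer
          ((Subgroup.zpowers (g * s0 * g⁻¹) : Subgroup ↥M24) : Set ↥M24) :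
            Subgroup ↥M24) : Set ↥M24) := Nat.card_coe_set_eq _
    rw [h1, ← Set.ncard_image_of_injective _ hf, imgN,
      card_NP t7_ok t7_02 t7_25 t7_56 t7_69 us7_ok rep7 list7 mem7 dis7, len7]
  · have h1 : Nat.card ↥(Subgroup.centralizer
        ((Subgroup.zpowers (g * s0 * g⁻¹) : Subgroup ↥M24) : Set ↥M24))
        = Set.ncard ((Subgroup.centralizer
          ((Subgroup.zpowers (g * s0 * g⁻¹) : Subgroup ↥M24) : Set ↥M24) :
            Subgroup ↥M24) : Set ↥M24) := Nat.card_coe_set_eq _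
    rw [h1, ← Set.ncard_image_of_injective _ hf, imgC,
      card_CP t7_ok t7_02 t7_25 t7_56 t7_69 us7_ok rep7 list7 mem7
        (by rw [us7_len]; norm_num) u0_eq dis7, lenC7]
  · have ha := elt_CP _ pa7 rfl
    have hb := elt_CP _ pb7 rfl
    refine ⟨g * ⟨_, ha.1⟩ * g⁻¹, (hC _).mpr (by rw [hsurj _ ha.1]; exact ha),
      g * ⟨_, hb.1⟩ * g⁻¹, (hC _).mpr (by rw [hsurj _ hb.1]; exact hb), ?_⟩
    intro h
    have h2 : (⟨_, ha.1⟩ : ↥M24) * ⟨_, hb.1⟩ = ⟨_, hb.1⟩ * ⟨_, ha.1⟩ := by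
      have e1 : g * ⟨_, ha.1⟩ * g⁻¹ * (g * ⟨_, hb.1⟩ * g⁻¹)
          = g * ((⟨_, ha.1⟩ : ↥M24) * ⟨_, hb.1⟩) * g⁻¹ := by group
      have e2 : g * ⟨_, hb.1⟩ * g⁻¹ * (g * ⟨_, ha.1⟩ * g⁻¹)
          = g * ((⟨_, hb.1⟩ : ↥M24) * ⟨_, ha.1⟩) * g⁻¹ := by group
      rw [e1, e2] at h
      exact mul_left_cancel (mul_right_cancel h)
    have h3 := congrArg Subtype.val h2
    have h4 := congrArg (fun f : Equiv.Perm GolayPt => f (ptN 0)) h3
    simp only [Subgroup.coe_mul, Equiv.Perm.mul_apply] at h4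
    rw [(elt_apply _ pb7 0 (by norm_num)).1, (elt_apply _ pa7 0 (by norm_num)).1,
      (elt_apply _ pa7 _ (elt_apply _ pb7 0 (by norm_num)).2).1,
      (elt_apply _ pb7 _ (elt_apply _ pa7 0 (by norm_num)).2).1] at h4
    exact pab7 (ptN_inj (elt_apply _ pa7 _ (elt_apply _ pb7 0 (by norm_num)).2).2
      (elt_apply _ pb7 _ (elt_apply _ pa7 0 (by norm_num)).2).2 h4)
  · refine ⟨(g : Equiv.Perm GolayPt) • fin T07, smul_trio g.2 (trio_of_chk _ trio7), ?_⟩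
    intro n hn
    have hfix := NP_fix t7_ok t7_02 t7_25 t7_56 t7_69 us7_ok rep7 list7 mem7 T07 lt7 fix7 _
      ((hN n).mp hn)
    have e : (n : Equiv.Perm GolayPt) = (g : Equiv.Perm GolayPt) *
        ((g⁻¹ * n * g : ↥M24) : Equiv.Perm GolayPt) * (g : Equiv.Perm GolayPt)⁻¹ := by
      have : n = g * (g⁻¹ * n * g) * g⁻¹ := by group
      exact congrArg Subtype.val this
    rw [e, mul_smul, mul_smul, inv_smul_smul, hfix]

end Cfsg.Agent.Lib_lead_Norm7Thm
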