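import Mathlib
import Cfsg.Prelude.Def_Sporadic_a
import Cfsg.Agent.Lib_lead_ObjOrb

/-! Consequences of an orbit certificate for a family of sets of points. -/

set_option autoImplicit false

namespace Cfsg.Agent.Lib_lead_ObjOrb2

open Cfsg Cfsg.Agent.Lib_lead_Golay Cfsg.Agent.Lib_lead_GolayPerm Cfsg.Agent.Lib_lead_M24
  Cfsg.Agent.Lib_lead_M24Chain Cfsg.Agent.Lib_lead_M24Orb Cfsg.Agent.Lib_lead_ObjOrb
open scoped Pointwise

/-- an orbit certificate: `tab` lists, sorted by key, all members of `𝒳` as images of the roots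
under words in generators of the stabilizer of the first root -/
structure Cert (𝒳 : Set Fam) (gens : List (List ℕ × List ℕ)) (roots : List (List ℕ))
    (tab : List (ℕ × List ℕ)) (m : ℕ → ℕ) : Prop where
  hgen : ∀ g ∈ gens, genChkS (roots.getD 0 []) g = true
  hroots : ∀ r ∈ roots, (∀ x ∈ r, x < 2 ^ 24) ∧ r.Nodup
  hpos : 0 < roots.length
  hmem : ∀ r ∈ roots, fin r ∈ 𝒳
  hcls : ∀ e ∈ tab, e.1 < roots.length
  hinc : incChk (tabKeys gens roots tab) 0 = true
  hinv : ∀ c < roots.length, ∀ c' < roots.length,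
    invL (roots.getD 0 []) (roots.getD c []) = invL (roots.getD 0 []) (roots.getD c' []) → c = c'
  hsmul : ∀ g ∈ M24, ∀ X ∈ 𝒳, g • X ∈ 𝒳
  htrans : ∀ X ∈ 𝒳, ∀ Y ∈ 𝒳, ∃ g ∈ M24, g • X = Y
  hcard : 𝒳.ncard = tab.length
  hcount : ∀ c < roots.length, (tab.filter (fun e => e.1 == c)).length = m c

/-- the members of class `c` -/
def Cl (gens : List (List ℕ × List ℕ)) (roots : List (List ℕ)) (tab : List (ℕ × List ℕ))
    (c : ℕ) : Finset Fam :=
  ((tab.filter (fun e => e.1 == c)).map (entObj gens roots)).toFinset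

theorem mem_Cl (gens : List (List ℕ × List ℕ)) (roots : List (List ℕ)) (tab : List (ℕ × List ℕ))
    (c : ℕ) (X : Fam) :
    X ∈ Cl gens roots tab c ↔ ∃ e ∈ tab, e.1 = c ∧ entObj gens roots e = X := by
  unfold Cl
  rw [List.mem_toFinset, List.mem_map]
  constructor
  · rintro ⟨e, he, rfl⟩
    rw [List.mem_filter] at he
    exact ⟨e, he.1, by simpa using he.2, rfl⟩
  · rintro ⟨e, he, hc, rfl⟩
    exact ⟨e, List.mem_filter.mpr ⟨he, by simpa using hc⟩, rfl⟩

namespace Cert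

variable {𝒳 : Set Fam} {gens : List (List ℕ × List ℕ)} {roots : List (List ℕ)}
  {tab : List (ℕ × List ℕ)} {m : ℕ → ℕ}

theorem root_mem (roots : List (List ℕ)) (c : ℕ) (hc : c < roots.length) :
    roots.getD c [] ∈ roots := by
  rw [List.getD_eq_getElem _ _ hc]
  exact List.getElem_mem hc

theorem hg (C : Cert 𝒳 gens roots tab m) : ∀ g ∈ gens,
    validTab g.1 g.2 = true ∧ permD g.1 g.2 ∈ StabK (fin (roots.getD 0 [])) :=
  fun g hgm => gen_of_chk _ (C.hroots _ (root_mem roots 0 C.hpos)).1 g (C.hgen g hgm)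

theorem ent_sound (C : Cert 𝒳 gens roots tab m) (e : ℕ × List ℕ) (he : e ∈ tab) :
    ∃ σ ∈ StabK (fin (roots.getD 0 [])), σ • fin (roots.getD e.1 []) = entObj gens roots e ∧
      Key (entObj gens roots e) = objKey gens e.2 (roots.getD e.1 []) 0 := by
  have hr := C.hroots _ (root_mem roots e.1 (C.hcls e he))
  obtain ⟨σ, hσ, h1, h2, h3⟩ :=
    objOf_sound (StabK (fin (roots.getD 0 []))) gens C.hg (roots.getD e.1 []) hr.1 e.2
  refine ⟨σ, hσ, h1, ?_⟩
  unfold entObj
  rw [Key_fin h2 (h3 hr.2), objKey_eq, zero_add]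

theorem keys_nodup (C : Cert 𝒳 gens roots tab m) : (tabKeys gens roots tab).Nodup :=
  List.nodup_iff_pairwise_ne.mpr
    ((incChk_sound _ _ C.hinc).2.imp (fun h => ne_of_lt h))

theorem tab_nodup (C : Cert 𝒳 gens roots tab m) : tab.Nodup :=
  List.Nodup.of_map _ C.keys_nodup

theorem ent_inj (C : Cert 𝒳 gens roots tab m) (e e' : ℕ × List ℕ) (he : e ∈ tab)
    (he' : e' ∈ tab) (h : entObj gens roots e = entObj gens roots e') : e = e' := by
  obtain ⟨-, -, -, h1⟩ := C.ent_sound e he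
  obtain ⟨-, -, -, h2⟩ := C.ent_sound e' he'
  rw [h, h2] at h1
  exact List.inj_on_of_nodup_map C.keys_nodup he he' h1.symm

theorem ent_mem (C : Cert 𝒳 gens roots tab m) (e : ℕ × List ℕ) (he : e ∈ tab) :
    entObj gens roots e ∈ 𝒳 := by
  obtain ⟨σ, hσ, h1, -⟩ := C.ent_sound e he
  rw [← h1]
  exact C.hsmul σ hσ.1 _ (C.hmem _ (root_mem roots e.1 (C.hcls e he)))

theorem complete (C : Cert 𝒳 gens roots tab m) (X : Fam) (hX : X ∈ 𝒳) :
    ∃ e ∈ tab, entObj gens roots e = X := by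
  have hcardAll : ((tab.map (entObj gens roots)).toFinset).card = tab.length := by
    rw [List.toFinset_card_of_nodup
      (List.Nodup.map_on (fun x hx y hy h => C.ent_inj x y hx hy h) C.tab_nodup),
      List.length_map]
  have hsub : (↑((tab.map (entObj gens roots)).toFinset) : Set Fam) ⊆ 𝒳 := by
    intro Y hY
    rw [Finset.mem_coe, List.mem_toFinset, List.mem_map] at hY
    obtain ⟨e, he, rfl⟩ := hY
    exact C.ent_mem e he
  have heq : (↑((tab.map (entObj gens roots)).toFinset) : Set Fam) = 𝒳 :=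
    Set.eq_of_subset_of_ncard_le hsub
      (by rw [Set.ncard_coe_finset, hcardAll, C.hcard]) (Set.toFinite _)
  rw [← heq, Finset.mem_coe, List.mem_toFinset, List.mem_map] at hX
  exact hX

theorem cls_unique (C : Cert 𝒳 gens roots tab m) (e : ℕ × List ℕ) (he : e ∈ tab) (c : ℕ)
    (hc : c < roots.length) (σ : Equiv.Perm GolayPt) (hσ : σ ∈ StabK (fin (roots.getD 0 [])))
    (h : σ • fin (roots.getD c []) = entObj gens roots e) : e.1 = c := by
  obtain ⟨τ, hτ, hτe, -⟩ := C.ent_sound e he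
  have h0 := C.hroots _ (root_mem roots 0 C.hpos)
  have h1 := C.hroots _ (root_mem roots c hc)
  have h2 := C.hroots _ (root_mem roots e.1 (C.hcls e he))
  apply C.hinv _ (C.hcls e he) _ hc
  rw [← Inv_fin h0.1 h0.2 h1.1 h1.2, ← Inv_fin h0.1 h0.2 h2.1 h2.2,
    ← Inv_smul σ _ (fin (roots.getD c [])) hσ.2, ← Inv_smul τ _ (fin (roots.getD e.1 [])) hτ.2,
    h, hτe]

theorem card_Cl (C : Cert 𝒳 gens roots tab m) (c : ℕ) (hc : c < roots.length) :
    (Cl gens roots tab c).card = m c := by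
  unfold Cl
  rw [List.toFinset_card_of_nodup
    (List.Nodup.map_on (fun x hx y hy h =>
      C.ent_inj x y (List.mem_filter.mp hx).1 (List.mem_filter.mp hy).1 h)
      (C.tab_nodup.filter _)),
    List.length_map, C.hcount c hc]

/-- the orbits of the stabilizer of the base family are the classes -/
theorem orbit_base (C : Cert 𝒳 gens roots tab m) (c : ℕ) (hc : c < roots.length) :
    MulAction.orbit ↥(MulAction.stabilizer ↥M24 (fin (roots.getD 0 []))) (fin (roots.getD c []))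
      = ↑(Cl gens roots tab c) := by
  ext y
  constructor
  · rintro ⟨⟨⟨s, hsM⟩, hsS⟩, rfl⟩
    have hsS' : s • fin (roots.getD 0 []) = fin (roots.getD 0 []) := hsS
    have hy : s • fin (roots.getD c []) ∈ 𝒳 := C.hsmul _ hsM _ (C.hmem _ (root_mem roots c hc))
    obtain ⟨e, he, hee⟩ := C.complete _ hy
    have hcl := C.cls_unique e he c hc s ⟨hsM, hsS'⟩ hee.symm
    show s • fin (roots.getD c []) ∈ _
    rw [Finset.mem_coe, mem_Cl]
    exact ⟨e, he, hcl, hee⟩
  · intro hy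
    rw [Finset.mem_coe, mem_Cl] at hy
    obtain ⟨e, he, hec, rfl⟩ := hy
    obtain ⟨σ, hσ, hσe, -⟩ := C.ent_sound e he
    rw [hec] at hσe
    exact ⟨⟨⟨σ, hσ.1⟩, hσ.2⟩, hσe⟩

theorem orbit_card (C : Cert 𝒳 gens roots tab m) (g : ↥M24) (c : ℕ) (hc : c < roots.length) :
    (MulAction.orbit ↥(MulAction.stabilizer ↥M24 (g • fin (roots.getD 0 [])))
      (g • fin (roots.getD c []))).ncard = m c := by
  rw [orbit_conj, Set.ncard_image_of_injective _ (MulAction.injective g), C.orbit_base c hc,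
    Set.ncard_coe_finset, C.card_Cl c hc]

theorem cover (C : Cert 𝒳 gens roots tab m) (g : ↥M24) (X : Fam) (hX : X ∈ 𝒳) :
    ∃ c < roots.length, X ∈ MulAction.orbit
      ↥(MulAction.stabilizer ↥M24 (g • fin (roots.getD 0 []))) (g • fin (roots.getD c [])) := by
  have h1 : g⁻¹ • X ∈ 𝒳 := C.hsmul _ (g⁻¹).2 _ hX
  obtain ⟨e, he, hee⟩ := C.complete _ h1
  refine ⟨e.1, C.hcls e he, ?_⟩
  rw [orbit_conj, C.orbit_base _ (C.hcls e he)]
  refine ⟨g⁻¹ • X, ?_, smul_inv_smul g X⟩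
  rw [Finset.mem_coe, mem_Cl]
  exact ⟨e, he, rfl, hee⟩

theorem coatom_base (C : Cert 𝒳 gens roots tab m)
    (hdiv : ∀ J : Finset (Fin (roots.length - 1)),
      (1 + ∑ j ∈ J, m (j.val + 1)) ∣ (1 + ∑ j : Fin (roots.length - 1), m (j.val + 1)) →
        J = ∅ ∨ J = Finset.univ)
    (hpos' : 0 < ∑ j : Fin (roots.length - 1), m (j.val + 1)) :
    IsCoatom (MulAction.stabilizer ↥M24 (fin (roots.getD 0 []))) := by
  have hlt : ∀ j : Fin (roots.length - 1), j.val + 1 < roots.length := fun j => by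
    have := j.2
    omega
  apply Cfsg.Agent.Lib_lead_Coatom.coatom_of_orbits (fin (roots.getD 0 []))
    (fun j : Fin (roots.length - 1) => Cl gens roots tab (j.val + 1)) (fun j => m (j.val + 1))
    (fun j => C.card_Cl _ (hlt j)) _ _ _ _ hdiv hpos'
  · -- hcover
    rintro x ⟨⟨h, hh⟩, rfl⟩ hne
    have hx : h • fin (roots.getD 0 []) ∈ 𝒳 :=
      C.hsmul _ hh _ (C.hmem _ (root_mem roots 0 C.hpos))
    obtain ⟨e, he, hee⟩ := C.complete _ hx
    have hc := C.hcls e he
    by_cases h0 : e.1 = 0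
    · exfalso
      apply hne
      have hmem : h • fin (roots.getD 0 []) ∈ (↑(Cl gens roots tab 0) : Set Fam) := by
        rw [Finset.mem_coe, mem_Cl]
        exact ⟨e, he, h0, hee⟩
      rw [← C.orbit_base 0 C.hpos, orbit_self] at hmem
      exact hmem
    · refine ⟨⟨e.1 - 1, by omega⟩, ?_⟩
      show h • fin (roots.getD 0 []) ∈ Cl gens roots tab (e.1 - 1 + 1)
      rw [mem_Cl]
      exact ⟨e, he, by omega, hee⟩
  · -- hsub
    intro j x hx
    rw [mem_Cl] at hx
    obtain ⟨e, he, hec, rfl⟩ := hx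
    constructor
    · obtain ⟨g, hg, hgx⟩ := C.htrans _ (C.hmem _ (root_mem roots 0 C.hpos)) _ (C.ent_mem e he)
      exact ⟨⟨g, hg⟩, hgx⟩
    · intro heq
      have := C.cls_unique e he 0 C.hpos 1 (Subgroup.one_mem _) (by rw [one_smul, heq])
      omega
  · -- hdisj
    intro i j hij
    rw [Finset.disjoint_left]
    intro x hxi hxj
    rw [mem_Cl] at hxi hxj
    obtain ⟨e, he, hec, rfl⟩ := hxi
    obtain ⟨e', he', hec', hee'⟩ := hxj
    have := C.ent_inj e' e he' he hee'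
    rw [this] at hec'
    apply hij
    apply Fin.ext
    omega
  · -- htrans
    intro j x hx y hy
    rw [mem_Cl] at hx hy
    obtain ⟨e, he, hec, rfl⟩ := hx
    obtain ⟨e', he', hec', rfl⟩ := hy
    obtain ⟨σ, hσ, hσe, -⟩ := C.ent_sound e he
    obtain ⟨τ, hτ, hτe, -⟩ := C.ent_sound e' he'
    rw [hec] at hσe
    rw [hec'] at hτe
    have hs := (StabK (fin (roots.getD 0 []))).mul_mem hτ
      ((StabK (fin (roots.getD 0 []))).inv_mem hσ)
    refine ⟨⟨τ * σ⁻¹, hs.1⟩, hs.2, ?_⟩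
    show (τ * σ⁻¹) • entObj gens roots e = entObj gens roots e'
    rw [← hσe, ← hτe, mul_smul, inv_smul_smul]

theorem coatom (C : Cert 𝒳 gens roots tab m)
    (hdiv : ∀ J : Finset (Fin (roots.length - 1)),
      (1 + ∑ j ∈ J, m (j.val + 1)) ∣ (1 + ∑ j : Fin (roots.length - 1), m (j.val + 1)) →
        J = ∅ ∨ J = Finset.univ)
    (hpos' : 0 < ∑ j : Fin (roots.length - 1), m (j.val + 1)) (g : ↥M24) :
    IsCoatom (MulAction.stabilizer ↥M24 (g • fin (roots.getD 0 []))) := by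
  rw [MulAction.stabilizer_smul_eq_stabilizer_map_conj]
  exact ((MulEquiv.mapSubgroup (MulAut.conj g)).isCoatom_iff _).mpr (C.coatom_base hdiv hpos')

end Cert

end Cfsg.Agent.Lib_lead_ObjOrb2
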