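import Mathlib
import Cfsg.Prelude.Def_SporadicCombinatorics
import Cfsg.Agent.Lib_lead_Restrict
import Cfsg.Agent.Lib_lead_MixOrb2

/-! The joint stabilizer of two octads meeting in two points is a symmetric group of degree 6:
it is the stabilizer of a hexad in the stabilizer of the dodecad which is their symmetric
difference. -/

set_option autoImplicit false

namespace Cfsg.Agent.Lib_lead_TwoOct

open Cfsg Cfsg.Agent.Lib_lead_Golay Cfsg.Agent.Lib_lead_GolayPerm Cfsg.Agent.Lib_lead_M24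
  Cfsg.Agent.Lib_lead_M24Chain Cfsg.Agent.Lib_lead_M24Orb Cfsg.Agent.Lib_lead_M24Data
  Cfsg.Agent.Lib_lead_Restrict Cfsg.Agent.Lib_lead_MixOrb2
open scoped Pointwise

theorem fsOf_xor (a b : ℕ) : fsOf (a ^^^ b) = (fsOf a ∪ fsOf b) \ (fsOf a ∩ fsOf b) := by
  ext p
  simp only [Finset.mem_sdiff, Finset.mem_union, Finset.mem_inter, mem_fsOf, Nat.testBit_xor]
  cases (a.testBit (idx p)) <;> cases (b.testBit (idx p)) <;> simp

/-- the symmetric difference of two octads meeting in two points is a dodecad -/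
theorem symm_dodecad (o o' : Finset GolayPt) (ho : o ∈ octads) (ho' : o' ∈ octads)
    (h₂ : (o ∩ o').card = 2) : (o ∪ o') \ (o ∩ o') ∈ dodecads := by
  have hc : ((o ∪ o') \ (o ∩ o')).card = 12 := by
    have h1 := Finset.card_union_add_card_inter o o'
    have h2 : o ∩ o' ⊆ o ∪ o' := fun p hp => Finset.mem_union_left _ (Finset.mem_inter.mp hp).1
    rw [Finset.card_sdiff_of_subset h2]
    have h3 := ho.2
    have h4 := ho'.2
    omega
  obtain ⟨k, hk, hp, rfl⟩ := weight_eq ho
  obtain ⟨k', hk', hp', rfl⟩ := weight_eq ho'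
  rw [← fsOf_xor, ← M_xor] at hc ⊢
  rw [card_fsOf _ (Cfsg.Agent.Lib_lead_M24Chain.M_lt _)] at hc
  exact fsOf_mem_weight _ 12 hc

theorem two_octads_S6 (o o' : Finset GolayPt) (ho : o ∈ octads) (ho' : o' ∈ octads)
    (h₂ : (o ∩ o').card = 2) :
    Nonempty (↥(MulAction.stabilizer M24 o ⊓ MulAction.stabilizer M24 o') ≃*
      Equiv.Perm (Fin 6)) := by
  have hdd := symm_dodecad o o' ho ho' h₂
  have hC : o \ o' ∈ hexadsOn ((o ∪ o') \ (o ∩ o')) := by
    refine ⟨?_, o, ho, ?_⟩
    · have h1 := Finset.card_sdiff_add_card_inter o o'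
      have h3 := ho.2
      omega
    · ext p
      simp only [Finset.mem_inter, Finset.mem_sdiff, Finset.mem_union]
      tauto
  have hle : MulAction.stabilizer M24 o ⊓ MulAction.stabilizer M24 o'
      ≤ MulAction.stabilizer M24 ((o ∪ o') \ (o ∩ o')) ⊓ MulAction.stabilizer M24 (o \ o') := by
    intro g hg
    have h1 : g • o = o := MulAction.mem_stabilizer_iff.mp hg.1
    have h2 : g • o' = o' := MulAction.mem_stabilizer_iff.mp hg.2
    refine ⟨MulAction.mem_stabilizer_iff.mpr ?_, MulAction.mem_stabilizer_iff.mpr ?_⟩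
    · rw [Finset.smul_finset_sdiff, Finset.smul_finset_union, Finset.smul_finset_inter, h1, h2]
    · rw [Finset.smul_finset_sdiff, h1, h2]
  have heq : MulAction.stabilizer M24 o ⊓ MulAction.stabilizer M24 o'
      = MulAction.stabilizer M24 ((o ∪ o') \ (o ∩ o')) ⊓ MulAction.stabilizer M24 (o \ o') :=
    Subgroup.eq_of_le_of_card_ge hle
      (by rw [card_hex_stab _ hdd _ hC, (joint_orders o o' ho ho').2.2 h₂])
  rw [heq]
  exact (hex_S6 _ hdd _ hC).1

end Cfsg.Agent.Lib_lead_TwoOct
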