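import Mathlib
import Cfsg.Prelude.Def_SporadicCombinatorics
import Cfsg.Agent.Lib_lead_OrbOct
import Cfsg.Agent.Lib_lead_TwoOct

/-! The graph of disjoint octads: distances 1, 2, 3 correspond to intersections of
size 0, 4, 2. -/

set_option autoImplicit false

namespace Cfsg.Agent.Lib_lead_OctGraph

open Cfsg Cfsg.Agent.Lib_lead_Golay Cfsg.Agent.Lib_lead_GolayPerm Cfsg.Agent.Lib_lead_M24
  Cfsg.Agent.Lib_lead_M24Data Cfsg.Agent.Lib_lead_M24Chain
  Cfsg.Agent.Lib_lead_M24Orb Cfsg.Agent.Lib_lead_M24Orb2 Cfsg.Agent.Lib_lead_M24Orb3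
  Cfsg.Agent.Lib_lead_OctConfig Cfsg.Agent.Lib_lead_OrbOct Cfsg.Agent.Lib_lead_TwoOct
open scoped Pointwise

/-- an octad and a dodecad always meet -/
theorem no_disj (o d : Finset GolayPt) (ho : o ∈ octads) (hd : d ∈ dodecads) :
    ¬ Disjoint o d := by
  intro hdis
  obtain ⟨k, hk, hp, rfl⟩ := weight_eq ho
  obtain ⟨k', hk', hp', rfl⟩ := weight_eq hd
  have hc : (fsOf (M (k ^^^ k'))).card = 20 := by
    rw [M_xor, fsOf_xor, Finset.disjoint_iff_inter_eq_empty.mp hdis, Finset.sdiff_empty,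
      Finset.card_union_of_disjoint hdis, card_fsOf _ (Cfsg.Agent.Lib_lead_M24Chain.M_lt k),
      card_fsOf _ (Cfsg.Agent.Lib_lead_M24Chain.M_lt k'), hp, hp']
  rw [card_fsOf _ (Cfsg.Agent.Lib_lead_M24Chain.M_lt _)] at hc
  have hlt : k ^^^ k' < 4096 := Nat.xor_lt_two_pow (n := 12) hk hk'
  rcases weights _ hlt with h | h | h | h | h <;> omega

/-- two octads meeting in two points have no common disjoint octad -/
theorem no_common2 (o o' w : Finset GolayPt) (ho : o ∈ octads) (ho' : o' ∈ octads)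
    (hw : w ∈ octads) (h₂ : (o ∩ o').card = 2) (h1 : Disjoint o w) (h2 : Disjoint o' w) :
    False := by
  apply no_disj w _ hw (symm_dodecad o o' ho ho' h₂)
  rw [Finset.disjoint_left]
  intro p hp hq
  rw [Finset.mem_sdiff, Finset.mem_union] at hq
  rcases hq.1 with h | h
  · exact Finset.disjoint_left.mp h1 h hp
  · exact Finset.disjoint_left.mp h2 h hp

/-- transitivity on pairs of octads with a given intersection size -/
theorem pair_trans (o o' : Finset GolayPt) (ho : o ∈ octads) (ho' : o' ∈ octads) (m : ℕ)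
    (hm : fsOf m ∈ octads) (hc : (o ∩ o').card = popc (3277413 &&& m)) :
    ∃ h ∈ M24, h • fsOf 3277413 = o ∧ h • fsOf m = o' := by
  obtain ⟨σ, hσ, hσo⟩ := exists_sigma8 o ho
  have h1 : σ • fsOf m ∈ octads := smul_mem_weight hσ hm
  subst hσo
  obtain ⟨g, hg, hgo, hgo'⟩ := orbit_thm _ (σ • fsOf m) o' ho h1 ho' (by
    rw [card_inter_smul _ _ _ (by norm_num), hc])
  refine ⟨g * σ, M24.mul_mem hg hσ, ?_, ?_⟩
  · rw [mul_smul, hgo]
  · rw [mul_smul, hgo']

theorem disj_smul (σ : Equiv.Perm GolayPt) (a b : ℕ) (ha : a < 2 ^ 24)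
    (h : popc (a &&& b) = 0) : Disjoint (σ • fsOf a) (σ • fsOf b) := by
  rw [Finset.disjoint_iff_inter_eq_empty, ← Finset.card_eq_zero, card_inter_smul _ _ _ ha, h]

theorem m15 : M 15 = 3277413 := by decide
theorem m38 : M 38 = 3719203 := by decide
theorem m1500 : M 1500 = 4536592 := by decide
theorem m19 : M 19 = 6053905 := by decide
theorem m280 : M 280 = 4845570 := by decide
theorem m578 : M 578 = 2101096 := by decide

theorem o38 : fsOf 3719203 ∈ octads := by
  rw [← m38]; exact fsOf_mem_weight _ 8 (by decide)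
theorem o1500 : fsOf 4536592 ∈ octads := by
  rw [← m1500]; exact fsOf_mem_weight _ 8 (by decide)
theorem o19 : fsOf 6053905 ∈ octads := by
  rw [← m19]; exact fsOf_mem_weight _ 8 (by decide)
theorem o280 : fsOf 4845570 ∈ octads := by
  rw [← m280]; exact fsOf_mem_weight _ 8 (by decide)
theorem o578 : fsOf 2101096 ∈ octads := by
  rw [← m578]; exact fsOf_mem_weight _ 8 (by decide)

/-- two octads meeting in four points have a common disjoint octad -/
theorem common4 (o o' : Finset GolayPt) (ho : o ∈ octads) (ho' : o' ∈ octads)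
    (h₄ : (o ∩ o').card = 4) : ∃ w ∈ octads, Disjoint o w ∧ Disjoint w o' := by
  obtain ⟨h, hh, rfl, rfl⟩ := pair_trans o o' ho ho' 3719203 o38 (by rw [h₄]; decide)
  exact ⟨h • fsOf 4536592, smul_mem_weight hh o1500, disj_smul _ _ _ (by norm_num) (by decide),
    disj_smul _ _ _ (by norm_num) (by decide)⟩

/-- two octads meeting in two points are joined by a path of length three -/
theorem path2 (o o' : Finset GolayPt) (ho : o ∈ octads) (ho' : o' ∈ octads)
    (h₂ : (o ∩ o').card = 2) : ∃ a ∈ octads, ∃ b ∈ octads,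
      Disjoint o a ∧ Disjoint a b ∧ Disjoint b o' := by
  obtain ⟨h, hh, rfl, rfl⟩ := pair_trans o o' ho ho' 6053905 o19 (by rw [h₂]; decide)
  exact ⟨h • fsOf 4845570, smul_mem_weight hh o280, h • fsOf 2101096, smul_mem_weight hh o578,
    disj_smul _ _ _ (by norm_num) (by decide), disj_smul _ _ _ (by norm_num) (by decide),
    disj_smul _ _ _ (by norm_num) (by decide)⟩

theorem adj_iff (u v : ↥octads) : (blockGraph octads).Adj u v ↔ Disjoint u.1 v.1 := by
  unfold blockGraph
  rw [SimpleGraph.fromRel_adj]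
  constructor
  · rintro ⟨-, h | h⟩
    · exact h
    · exact h.symm
  · intro h
    refine ⟨?_, Or.inl h⟩
    intro huv
    rw [huv, disjoint_self, Finset.bot_eq_empty] at h
    have := v.2.2
    rw [h] at this
    simp at this

theorem disj_iff (o o' : Finset GolayPt) : Disjoint o o' ↔ (o ∩ o').card = 0 := by
  rw [Finset.disjoint_iff_inter_eq_empty, Finset.card_eq_zero]

theorem dist_two_iff (u v : ↥octads) : (blockGraph octads).dist u v = 2 ↔
    u ≠ v ∧ ¬ (blockGraph octads).Adj u v ∧ ((blockGraph octads).commonNeighbors u v).Nonempty := by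
  rw [SimpleGraph.dist, ENat.toNat_eq_iff (by norm_num)]
  exact SimpleGraph.edist_eq_two_iff

theorem reach (u v : ↥octads) : (blockGraph octads).Reachable u v := by
  by_cases huv : u = v
  · rw [huv]
  have hne : v.1 ≠ u.1 := fun h => huv (Subtype.ext h.symm)
  rcases inter_sizes u.1 v.1 u.2 v.2 hne with h | h | h
  · exact ((adj_iff u v).mpr ((disj_iff _ _).mpr h)).reachable
  · obtain ⟨a, ha, b, hb, h1, h2, h3⟩ := path2 u.1 v.1 u.2 v.2 h
    have e1 : (blockGraph octads).Adj u ⟨a, ha⟩ := (adj_iff _ _).mpr h1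
    have e2 : (blockGraph octads).Adj ⟨a, ha⟩ ⟨b, hb⟩ := (adj_iff _ _).mpr h2
    have e3 : (blockGraph octads).Adj ⟨b, hb⟩ v := (adj_iff _ _).mpr h3
    exact e1.reachable.trans (e2.reachable.trans e3.reachable)
  · obtain ⟨w, hw, h1, h2⟩ := common4 u.1 v.1 u.2 v.2 h
    have e1 : (blockGraph octads).Adj u ⟨w, hw⟩ := (adj_iff _ _).mpr h1
    have e2 : (blockGraph octads).Adj ⟨w, hw⟩ v := (adj_iff _ _).mpr h2
    exact e1.reachable.trans e2.reachable

theorem connected : (blockGraph octads).Connected := by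
  haveI : Nonempty ↥octads := ⟨⟨_, o38⟩⟩
  exact ⟨fun u v => reach u v⟩

theorem dist1 (u v : ↥octads) : (blockGraph octads).dist u v = 1 ↔ (u.1 ∩ v.1).card = 0 := by
  rw [SimpleGraph.dist_eq_one_iff_adj, adj_iff, disj_iff]

theorem dist2 (u v : ↥octads) (huv : u ≠ v) :
    (blockGraph octads).dist u v = 2 ↔ (u.1 ∩ v.1).card = 4 := by
  have hne : v.1 ≠ u.1 := fun h => huv (Subtype.ext h.symm)
  rw [dist_two_iff]
  constructor
  · rintro ⟨-, hna, ⟨w, hw⟩⟩
    rw [SimpleGraph.mem_commonNeighbors, adj_iff, adj_iff] at hw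
    rw [adj_iff, disj_iff] at hna
    rcases inter_sizes u.1 v.1 u.2 v.2 hne with h | h | h
    · exact absurd h hna
    · exact (no_common2 u.1 v.1 w.1 u.2 v.2 w.2 h hw.1 hw.2).elim
    · exact h
  · intro h
    refine ⟨huv, ?_, ?_⟩
    · rw [adj_iff, disj_iff, h]
      norm_num
    · obtain ⟨w, hw, h1, h2⟩ := common4 u.1 v.1 u.2 v.2 h
      refine ⟨⟨w, hw⟩, ?_⟩
      rw [SimpleGraph.mem_commonNeighbors, adj_iff, adj_iff]
      exact ⟨h1, h2.symm⟩

theorem dist3 (u v : ↥octads) (huv : u ≠ v) :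
    (blockGraph octads).dist u v = 3 ↔ (u.1 ∩ v.1).card = 2 := by
  have hne : v.1 ≠ u.1 := fun h => huv (Subtype.ext h.symm)
  constructor
  · intro hd
    rcases inter_sizes u.1 v.1 u.2 v.2 hne with h | h | h
    · have := (dist1 u v).mpr h
      omega
    · exact h
    · have := (dist2 u v huv).mpr h
      omega
  · intro h
    obtain ⟨a, ha, b, hb, h1, h2, h3⟩ := path2 u.1 v.1 u.2 v.2 h
    have e1 : (blockGraph octads).Adj u ⟨a, ha⟩ := (adj_iff _ _).mpr h1
    have e2 : (blockGraph octads).Adj ⟨a, ha⟩ ⟨b, hb⟩ := (adj_iff _ _).mpr h2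
    have e3 : (blockGraph octads).Adj ⟨b, hb⟩ v := (adj_iff _ _).mpr h3
    have hle := SimpleGraph.dist_le
      (SimpleGraph.Walk.cons e1 (SimpleGraph.Walk.cons e2 (SimpleGraph.Walk.cons e3 SimpleGraph.Walk.nil)))
    have hl : (SimpleGraph.Walk.cons e1 (SimpleGraph.Walk.cons e2
      (SimpleGraph.Walk.cons e3 SimpleGraph.Walk.nil))).length = 3 := rfl
    rw [hl] at hle
    have h0 : (blockGraph octads).dist u v ≠ 0 := by
      rw [Ne, (reach u v).dist_eq_zero_iff]
      exact huv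
    have h1' : (blockGraph octads).dist u v ≠ 1 := by
      rw [Ne, dist1, h]
      norm_num
    have h2' : (blockGraph octads).dist u v ≠ 2 := by
      rw [Ne, dist2 u v huv, h]
      norm_num
    omega

end Cfsg.Agent.Lib_lead_OctGraph
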