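import Mathlib
import Cfsg.Prelude.Def_SporadicCombinatorics
import Cfsg.Agent.Lib_lead_MixOrb
import Cfsg.Agent.Lib_lead_MixOctTrio2
import Cfsg.Agent.Lib_lead_OctA8
import Cfsg.Agent.Lib_lead_ClsCount
import Cfsg.Agent.Lib_lead_ClsData
import Cfsg.Agent.Lib_lead_DodPair
import Cfsg.Agent.Lib_lead_M24Data

/-! The fifteen trios through an octad: the stabilizer of the octad is doubly transitive on them,
with kernel the pointwise stabilizer of the octad. -/

set_option autoImplicit false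

namespace Cfsg.Agent.Lib_lead_OctTrios

open Cfsg Cfsg.Agent.Lib_lead_Golay Cfsg.Agent.Lib_lead_GolayPerm Cfsg.Agent.Lib_lead_M24
  Cfsg.Agent.Lib_lead_M24Chain Cfsg.Agent.Lib_lead_M24Orb Cfsg.Agent.Lib_lead_ObjOrb
  Cfsg.Agent.Lib_lead_ObjOrb3 Cfsg.Agent.Lib_lead_ObjOrb4 Cfsg.Agent.Lib_lead_Trio
  Cfsg.Agent.Lib_lead_MixOrb Cfsg.Agent.Lib_lead_M24Oct Cfsg.Agent.Lib_lead_OctA8
  Cfsg.Agent.Lib_lead_Cls Cfsg.Agent.Lib_lead_ClsData Cfsg.Agent.Lib_lead_ClsCount
open scoped Pointwise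

/-- the root octad -/
abbrev o0 : Finset GolayPt := fsOf 3277413

/-- the first root trio -/
def R0 : List ℕ := [126216, 3277413, 13373586]

/-- the second root trio -/
def R1 : List ℕ := [628112, 3277413, 12871690]

theorem mem_fin_iff (l : List ℕ) (hl : ∀ x ∈ l, x < 2 ^ 24) (a : ℕ) (ha : a < 2 ^ 24) :
    fsOf a ∈ fin l ↔ a ∈ l := by
  rw [mem_fin]
  constructor
  · rintro ⟨m, hm, he⟩
    rw [← fsOf_injOn (hl m hm) ha he]
    exact hm
  · intro h
    exact ⟨a, h, rfl⟩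

theorem R0_trio : fin R0 ∈ trios := trio_of_chk R0 (by decide +kernel)

theorem R1_trio : fin R1 ∈ trios := trio_of_chk R1 (by decide +kernel)

theorem R0_lt : ∀ x ∈ R0, x < 2 ^ 24 := by decide

theorem R1_lt : ∀ x ∈ R1, x < 2 ^ 24 := by decide

theorem o0_R0 : o0 ∈ fin R0 := (mem_fin_iff R0 R0_lt _ (by norm_num)).mpr (by decide)

theorem o0_R1 : o0 ∈ fin R1 := (mem_fin_iff R1 R1_lt _ (by norm_num)).mpr (by decide)

theorem R0_ne_R1 : fin R0 ≠ fin R1 := by
  intro h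
  have h1 : fsOf 126216 ∈ fin R0 := (mem_fin_iff R0 R0_lt _ (by norm_num)).mpr (by decide)
  rw [h, mem_fin_iff R1 R1_lt _ (by norm_num)] at h1
  revert h1
  decide

theorem popR0 : ∀ m ∈ R0, popc m = 8 := by decide +kernel

theorem pop16 : popc 13499802 = 16 := by decide +kernel

section one
open Cfsg.Agent.Lib_lead_MixOctTrio

theorem stab1 (s : Equiv.Perm GolayPt) (h : s • fin baseT = fin baseT) : s • o0 = o0 := by
  have h0 : fin baseT = {o0} := fin_single 3277413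
  rw [h0, Finset.smul_finset_singleton, Finset.singleton_inj] at h
  exact h

theorem root1 (c : ℕ) (hc : c < rootsT.length) (h : 3277413 ∈ rootsT.getD c []) : c = 0 := by
  have hc' : c < 3 := hc
  interval_cases c
  · rfl
  · revert h
    decide
  · revert h
    decide

/-- the stabilizer of the root octad is transitive on the trios through it -/
theorem A0s (T : Fam) (hT : T ∈ trios) (ho : o0 ∈ T) :
    T ∈ MulAction.orbit ↥(MulAction.stabilizer ↥M24 (fin baseT)) (fin (rootsT.getD 0 [])) := by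
  obtain ⟨e, he, hee⟩ := certOctTrio.complete T hT
  have hc := certOctTrio.hcls e he
  have hmem : T ∈ MulAction.orbit ↥(MulAction.stabilizer ↥M24 (fin baseT))
      (fin (rootsT.getD e.1 [])) := by
    rw [certOctTrio.orbit_base _ hc, Finset.mem_coe, mem_Cl]
    exact ⟨e, he, rfl, hee⟩
  obtain ⟨s, hs⟩ := hmem
  have hs' : (s.1.1 : Equiv.Perm GolayPt) • fin (rootsT.getD e.1 []) = T := hs
  have hfix : (s.1.1 : Equiv.Perm GolayPt) • fin baseT = fin baseT :=
    MulAction.mem_stabilizer_iff.mp s.2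
  have h1 := stab1 _ hfix
  have h3 : o0 ∈ fin (rootsT.getD e.1 []) := by
    have h4 : o0 ∈ (s.1.1 : Equiv.Perm GolayPt) • fin (rootsT.getD e.1 []) := by
      rw [hs']
      exact ho
    rw [← Finset.inv_smul_mem_iff] at h4
    have h5 : (s.1.1 : Equiv.Perm GolayPt)⁻¹ • o0 = o0 := by
      rw [inv_smul_eq_iff]
      exact h1.symm
    rwa [h5] at h4
  have h6 := (mem_fin_iff _ (certOctTrio.hroots _ (CertM.root_mem rootsT e.1 hc)).1 _
    (by norm_num)).mp h3
  have h7 := root1 e.1 hc h6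
  rw [h7] at hs'
  exact ⟨s, hs'⟩

theorem A0 (T : Fam) (hT : T ∈ trios) (ho : o0 ∈ T) :
    ∃ s ∈ M24, s • o0 = o0 ∧ s • fin R0 = T := by
  obtain ⟨s, hs⟩ := A0s T hT ho
  have hs' : (s.1.1 : Equiv.Perm GolayPt) • fin R0 = T := hs
  exact ⟨s.1.1, s.1.2, stab1 _ (MulAction.mem_stabilizer_iff.mp s.2), hs'⟩

theorem N0 : {T : Fam | T ∈ trios ∧ o0 ∈ T}.ncard = 15 := by
  have hset : {T : Fam | T ∈ trios ∧ o0 ∈ T}
      = MulAction.orbit ↥(MulAction.stabilizer ↥M24 (fin baseT)) (fin (rootsT.getD 0 [])) := by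
    ext T
    constructor
    · rintro ⟨hT, ho⟩
      exact A0s T hT ho
    · rintro ⟨s, hs⟩
      have hs' : (s.1.1 : Equiv.Perm GolayPt) • fin R0 = T := hs
      have h1 := stab1 _ (MulAction.mem_stabilizer_iff.mp s.2)
      rw [← hs']
      refine ⟨smul_trio s.1.2 R0_trio, ?_⟩
      rw [← Finset.inv_smul_mem_iff]
      have h5 : (s.1.1 : Equiv.Perm GolayPt)⁻¹ • o0 = o0 := by
        rw [inv_smul_eq_iff]
        exact h1.symm
      rw [h5]
      exact o0_R0
  rw [hset, certOctTrio.orbit_base 0 (by decide), Set.ncard_coe_finset,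
    certOctTrio.card_Cl 0 (by decide)]
  rfl

end one

section two
open Cfsg.Agent.Lib_lead_MixOctTrio2

theorem chkOT2 : ∀ r ∈ rootsT, trioChk r = true := by decide +kernel

theorem certOT2 : CertM trios baseT gensT rootsT tabT sizeT 2 where
  hbase := hbaseT
  hgen := hgenT
  hroots := hrootsT
  hmem := fun r hr => trio_of_chk r (chkOT2 r hr)
  hcls := hclsT
  hinc := hincT
  hinv := hinvT
  hsmul := fun g hg X hX => smul_trio ((mem_StabK _ g).mp hg).1 hX
  hcard := by rw [ncard_trios, hlenT]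
  hcount := hcountT

theorem mem_base2 (X : Finset GolayPt) :
    X ∈ fin baseT ↔ X ∈ fin R0 ∨ X = fsOf 13499802 := by
  simp only [fin, baseT, R0, List.map_cons, List.map_nil, List.toFinset_cons, List.toFinset_nil,
    Finset.mem_insert, Finset.mem_singleton, insert_empty_eq]
  tauto

theorem L2 (s : Equiv.Perm GolayPt) (hs : s • fin baseT = fin baseT) :
    s • o0 = o0 ∧ s • fin R0 = fin R0 := by
  have hu : s • fsOf 13499802 = fsOf 13499802 := by
    have h1 : s • fsOf 13499802 ∈ fin baseT := by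
      rw [← hs]
      exact Finset.smul_mem_smul_finset ((mem_base2 _).mpr (Or.inr rfl))
    rcases (mem_base2 _).mp h1 with h2 | h2
    · exfalso
      obtain ⟨m, hm, he⟩ := (mem_fin _ _).mp h2
      have hc := congrArg Finset.card he
      rw [Finset.card_smul_finset, card_fsOf _ (R0_lt m hm), card_fsOf _ (by norm_num),
        popR0 m hm, pop16] at hc
      omega
    · exact h2
  refine ⟨?_, ?_⟩
  · have hx : (16777215 ^^^ 13499802 : ℕ) = 3277413 := by decide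
    have hc : (fsOf 13499802)ᶜ = o0 := by
      rw [fsOf_compl, hx]
    rw [← hc, Cfsg.Agent.Lib_lead_DodPair.smul_compl, hu]
  · apply Finset.eq_of_subset_of_card_le
    · intro X hX
      obtain ⟨Y, hY, rfl⟩ := Finset.mem_smul_finset.mp hX
      have h1 : s • Y ∈ fin baseT := by
        rw [← hs]
        exact Finset.smul_mem_smul_finset ((mem_base2 _).mpr (Or.inl hY))
      rcases (mem_base2 _).mp h1 with h2 | h2
      · exact h2
      · exfalso
        obtain ⟨m, hm, rfl⟩ := (mem_fin _ _).mp hY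
        have hc := congrArg Finset.card h2
        rw [Finset.card_smul_finset, card_fsOf _ (R0_lt m hm), card_fsOf _ (by norm_num),
          popR0 m hm, pop16] at hc
        omega
    · rw [Finset.card_smul_finset]

theorem root2 (c : ℕ) (hc : c < rootsT.length) (h : 3277413 ∈ rootsT.getD c []) :
    c = 0 ∨ c = 1 := by
  have hc' : c < 7 := hc
  interval_cases c
  · exact Or.inl rfl
  · exact Or.inr rfl
  all_goals (exfalso; revert h; decide)

/-- the stabilizer of the root octad and the first root trio is transitive on the other trios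
through the octad -/
theorem B0 (T : Fam) (hT : T ∈ trios) (ho : o0 ∈ T) (hne : T ≠ fin R0) :
    ∃ s ∈ M24, s • o0 = o0 ∧ s • fin R0 = fin R0 ∧ s • fin R1 = T := by
  obtain ⟨e, he, hee⟩ := certOT2.complete T hT
  have hc := certOT2.hcls e he
  have hmem : T ∈ MulAction.orbit ↥(MulAction.stabilizer ↥M24 (fin baseT))
      (fin (rootsT.getD e.1 [])) := by
    rw [certOT2.orbit_base _ hc, Finset.mem_coe, mem_Cl]
    exact ⟨e, he, rfl, hee⟩
  obtain ⟨s, hs⟩ := hmem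
  have hs' : (s.1.1 : Equiv.Perm GolayPt) • fin (rootsT.getD e.1 []) = T := hs
  have hfix : (s.1.1 : Equiv.Perm GolayPt) • fin baseT = fin baseT :=
    MulAction.mem_stabilizer_iff.mp s.2
  obtain ⟨h1, h2⟩ := L2 _ hfix
  have h3 : o0 ∈ fin (rootsT.getD e.1 []) := by
    have h4 : o0 ∈ (s.1.1 : Equiv.Perm GolayPt) • fin (rootsT.getD e.1 []) := by
      rw [hs']
      exact ho
    rw [← Finset.inv_smul_mem_iff] at h4
    have h5 : (s.1.1 : Equiv.Perm GolayPt)⁻¹ • o0 = o0 := by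
      rw [inv_smul_eq_iff]
      exact h1.symm
    rwa [h5] at h4
  have h6 := (mem_fin_iff _ (certOT2.hroots _ (CertM.root_mem rootsT e.1 hc)).1 _
    (by norm_num)).mp h3
  rcases root2 e.1 hc h6 with h7 | h7
  · exfalso
    rw [h7] at hs'
    exact hne (hs'.symm.trans h2)
  · rw [h7] at hs'
    exact ⟨s.1.1, s.1.2, h1, h2, hs'⟩

end two

theorem D0 (U₁ U₂ : Fam) (h1 : U₁ ∈ trios) (h2 : U₂ ∈ trios) (ho1 : o0 ∈ U₁) (ho2 : o0 ∈ U₂)
    (hne : U₁ ≠ U₂) : ∃ s ∈ M24, s • o0 = o0 ∧ s • fin R0 = U₁ ∧ s • fin R1 = U₂ := by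
  obtain ⟨a, haM, ha0, ha1⟩ := A0 U₁ h1 ho1
  have hV : a⁻¹ • U₂ ∈ trios := smul_trio (M24.inv_mem haM) h2
  have hVo : o0 ∈ a⁻¹ • U₂ := by
    rw [← Finset.inv_smul_mem_iff, inv_inv, ha0]
    exact ho2
  have hVne : a⁻¹ • U₂ ≠ fin R0 := by
    intro h
    apply hne
    rw [← ha1, ← h, smul_inv_smul]
  obtain ⟨b, hbM, hb0, hb1, hb2⟩ := B0 _ hV hVo hVne
  refine ⟨a * b, M24.mul_mem haM hbM, ?_, ?_, ?_⟩
  · rw [mul_smul, hb0, ha0]
  · rw [mul_smul, hb1, ha1]
  · rw [mul_smul, hb2, smul_inv_smul]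

theorem chk48 : ∀ i < 48, ap (E48.getD i ([], [])) 17 = 17 → ap (E48.getD i ([], [])) 20 = 20 →
    ap (E48.getD i ([], [])) 21 = 21 → fixChk (E48.getD i ([], [])) R0 = true := by
  decide +kernel

/-- an element fixing the root octad pointwise fixes the first root trio -/
theorem K0 (k : Equiv.Perm GolayPt) (hk : k ∈ M24) (hfix : ∀ p ∈ o0, k p = p) :
    k • fin R0 = fin R0 := by
  have hk613 : k ∈ stabM 613 := by
    refine ⟨hk, ?_⟩
    intro j hj hbit
    apply hfix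
    rw [mem_fsOf, idx_ptN' j hj]
    rcases bits5 j hj hbit with rfl | rfl | rfl | rfl | rfl <;> decide
  obtain ⟨i, hi, rfl⟩ := enum48 E48 E48_ok E48_enum k hk613
  have hg := E48_ok i hi
  have hpt : ∀ j < 24, (3277413 : ℕ).testBit j = true → ap (E48.getD i ([], [])) j = j := by
    intro j hj hbit
    have h1 := hfix (ptN j) (by rw [mem_fsOf, idx_ptN' j hj]; exact hbit)
    rw [P_apply hg j hj] at h1
    exact ptN_inj (ap_lt hg j hj) hj h1
  exact (smul_fin_iff hg R0 R0_lt).mpr (chk48 i hi (hpt 17 (by norm_num) (by decide))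
    (hpt 20 (by norm_num) (by decide)) (hpt 21 (by norm_num) (by decide)))

/-! ### Any octad -/

theorem A (o : Finset GolayPt) (ho : o ∈ octads) (T : Fam) (hT : T ∈ trios) (hoT : o ∈ T) :
    ∃ t ∈ M24, t • o0 = o ∧ t • fin R0 = T := by
  obtain ⟨g, hg⟩ := Cfsg.Agent.Lib_lead_M24Data.octads_trans o0 o root_octad ho
  have hg' : (g : Equiv.Perm GolayPt) • o0 = o := hg
  have hU : (g : Equiv.Perm GolayPt)⁻¹ • T ∈ trios := smul_trio (M24.inv_mem g.2) hT
  have hUo : o0 ∈ (g : Equiv.Perm GolayPt)⁻¹ • T := by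
    rw [← Finset.inv_smul_mem_iff, inv_inv, hg']
    exact hoT
  obtain ⟨s, hsM, hs0, hs1⟩ := A0 _ hU hUo
  refine ⟨g * s, M24.mul_mem g.2 hsM, ?_, ?_⟩
  · rw [mul_smul, hs0, hg']
  · rw [mul_smul, hs1, smul_inv_smul]

theorem D (o : Finset GolayPt) (ho : o ∈ octads) (T₁ T₂ : Fam) (h1 : T₁ ∈ trios)
    (h2 : T₂ ∈ trios) (ho1 : o ∈ T₁) (ho2 : o ∈ T₂) (hne : T₁ ≠ T₂) :
    ∃ t ∈ M24, t • o0 = o ∧ t • fin R0 = T₁ ∧ t • fin R1 = T₂ := by
  obtain ⟨g, hg⟩ := Cfsg.Agent.Lib_lead_M24Data.octads_trans o0 o root_octad ho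
  have hg' : (g : Equiv.Perm GolayPt) • o0 = o := hg
  have hU1 : (g : Equiv.Perm GolayPt)⁻¹ • T₁ ∈ trios := smul_trio (M24.inv_mem g.2) h1
  have hU2 : (g : Equiv.Perm GolayPt)⁻¹ • T₂ ∈ trios := smul_trio (M24.inv_mem g.2) h2
  have hUo1 : o0 ∈ (g : Equiv.Perm GolayPt)⁻¹ • T₁ := by
    rw [← Finset.inv_smul_mem_iff, inv_inv, hg']
    exact ho1
  have hUo2 : o0 ∈ (g : Equiv.Perm GolayPt)⁻¹ • T₂ := by
    rw [← Finset.inv_smul_mem_iff, inv_inv, hg']
    exact ho2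
  have hUne : (g : Equiv.Perm GolayPt)⁻¹ • T₁ ≠ (g : Equiv.Perm GolayPt)⁻¹ • T₂ :=
    fun h => hne (MulAction.injective _ h)
  obtain ⟨s, hsM, hs0, hs1, hs2⟩ := D0 _ _ hU1 hU2 hUo1 hUo2 hUne
  refine ⟨g * s, M24.mul_mem g.2 hsM, ?_, ?_, ?_⟩
  · rw [mul_smul, hs0, hg']
  · rw [mul_smul, hs1, smul_inv_smul]
  · rw [mul_smul, hs2, smul_inv_smul]

theorem N (o : Finset GolayPt) (ho : o ∈ octads) : {T : Fam | T ∈ trios ∧ o ∈ T}.ncard = 15 := by
  obtain ⟨g, hg⟩ := Cfsg.Agent.Lib_lead_M24Data.octads_trans o0 o root_octad ho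
  have hg' : (g : Equiv.Perm GolayPt) • o0 = o := hg
  have hset : {T : Fam | T ∈ trios ∧ o ∈ T}
      = (fun T : Fam => (g : Equiv.Perm GolayPt) • T) '' {T : Fam | T ∈ trios ∧ o0 ∈ T} := by
    ext T
    constructor
    · rintro ⟨hT, hoT⟩
      refine ⟨(g : Equiv.Perm GolayPt)⁻¹ • T, ⟨smul_trio (M24.inv_mem g.2) hT, ?_⟩,
        smul_inv_smul _ _⟩
      rw [← Finset.inv_smul_mem_iff, inv_inv, hg']
      exact hoT
    · rintro ⟨U, ⟨hU, hoU⟩, rfl⟩
      refine ⟨smul_trio g.2 hU, ?_⟩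
      rw [← hg']
      exact Finset.smul_mem_smul_finset hoU
  rw [hset, Set.ncard_image_of_injective _ (MulAction.injective _), N0]

theorem two_trans (o : Finset GolayPt) (ho : o ∈ octads) (T₁ T₂ T₁' T₂' : Fam)
    (h1 : T₁ ∈ trios) (h2 : T₂ ∈ trios) (h1' : T₁' ∈ trios) (h2' : T₂' ∈ trios)
    (ho1 : o ∈ T₁) (ho2 : o ∈ T₂) (ho1' : o ∈ T₁') (ho2' : o ∈ T₂')
    (hne : T₁ ≠ T₂) (hne' : T₁' ≠ T₂') :
    ∃ g ∈ M24, g • o = o ∧ g • T₁ = T₁' ∧ g • T₂ = T₂' := by
  obtain ⟨t, htM, ht0, ht1, ht2⟩ := D o ho T₁ T₂ h1 h2 ho1 ho2 hne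
  obtain ⟨t', htM', ht0', ht1', ht2'⟩ := D o ho T₁' T₂' h1' h2' ho1' ho2' hne'
  refine ⟨t' * t⁻¹, M24.mul_mem htM' (M24.inv_mem htM), ?_, ?_, ?_⟩
  · rw [mul_smul, inv_smul_eq_iff.mpr ht0.symm, ht0']
  · rw [mul_smul, inv_smul_eq_iff.mpr ht1.symm, ht1']
  · rw [mul_smul, inv_smul_eq_iff.mpr ht2.symm, ht2']

theorem fix_of_pointwise (o : Finset GolayPt) (ho : o ∈ octads) (a : Equiv.Perm GolayPt)
    (haM : a ∈ M24) (hfix : ∀ p ∈ o, a p = p) (T : Fam) (hT : T ∈ trios) (hoT : o ∈ T) :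
    a • T = T := by
  obtain ⟨t, htM, ht0, ht1⟩ := A o ho T hT hoT
  have hk : (t⁻¹ * a * t) • fin R0 = fin R0 := by
    apply K0 _ (M24.mul_mem (M24.mul_mem (M24.inv_mem htM) haM) htM)
    intro p hp
    have hp' : t p ∈ o := by
      rw [← ht0]
      exact Finset.smul_mem_smul_finset hp
    rw [Equiv.Perm.mul_apply, Equiv.Perm.mul_apply, hfix _ hp', Equiv.Perm.inv_def, Equiv.symm_apply_apply]
  have h1 : a • t • fin R0 = t • (t⁻¹ * a * t) • fin R0 := by
    rw [← mul_smul, ← mul_smul]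
    congr 1
    group
  rw [← ht1, h1, hk]

/-- the elements of the stabilizer of the octad fixing every trio through it -/
def NT (o : Finset GolayPt) : Subgroup ↥(HS o) where
  carrier := {x | ∀ T ∈ trios, o ∈ T → (x : Equiv.Perm GolayPt) • T = T}
  mul_mem' := by
    intro a b ha hb T hT hoT
    rw [Subgroup.coe_mul, mul_smul, hb T hT hoT, ha T hT hoT]
  one_mem' := fun T _ _ => one_smul _ T
  inv_mem' := by
    intro a ha T hT hoT
    rw [Subgroup.coe_inv, inv_smul_eq_iff, ha T hT hoT]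

theorem NT_normal (o : Finset GolayPt) : (NT o).Normal := by
  constructor
  intro n hn g T hT hoT
  have hg := (mem_HS o _).mp g.2
  have hT' : (g : Equiv.Perm GolayPt)⁻¹ • T ∈ trios := smul_trio (M24.inv_mem hg.1) hT
  have hoT' : o ∈ (g : Equiv.Perm GolayPt)⁻¹ • T := by
    rw [← Finset.inv_smul_mem_iff, inv_inv, hg.2]
    exact hoT
  have h := hn _ hT' hoT'
  rw [Subgroup.coe_mul, Subgroup.coe_mul, Subgroup.coe_inv, mul_smul, mul_smul, h,
    smul_inv_smul]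

theorem pointwise_of_fix (o : Finset GolayPt) (ho : o ∈ octads) (a : Equiv.Perm GolayPt)
    (haM : a ∈ M24) (hao : a • o = o) (hfix : ∀ T ∈ trios, o ∈ T → a • T = T) :
    ∀ p ∈ o, a p = p := by
  have hsimple : IsSimpleGroup ↥(res o).range := by
    rw [range_eq o ho]
    exact alternatingGroup.isSimpleGroup
      (by rw [Nat.card_eq_fintype_card, Fintype.card_coe, ho.2]; norm_num)
  have hnorm : ((NT o).map (res o).rangeRestrict).Normal :=
    Subgroup.Normal.map (NT_normal o) _ (res o).rangeRestrict_surjective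
  rcases hsimple.eq_bot_or_eq_top_of_normal _ hnorm with hbot | htop
  · have ha : (⟨a, (mem_HS o a).mpr ⟨haM, hao⟩⟩ : ↥(HS o)) ∈ NT o := hfix
    have h1 : (res o).rangeRestrict ⟨a, (mem_HS o a).mpr ⟨haM, hao⟩⟩
        ∈ (NT o).map (res o).rangeRestrict := Subgroup.mem_map_of_mem _ ha
    rw [hbot, Subgroup.mem_bot] at h1
    have h2 : res o ⟨a, (mem_HS o a).mpr ⟨haM, hao⟩⟩ = 1 := congrArg Subtype.val h1
    intro p hp
    have h3 := congrArg (fun e : Equiv.Perm ↥o => ((e ⟨p, hp⟩ : ↥o) : GolayPt)) h2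
    exact h3
  · exfalso
    have hall : ∀ y : ↥(HS o), y ∈ NT o := by
      intro y
      have h1 : (res o).rangeRestrict y ∈ (NT o).map (res o).rangeRestrict := by
        rw [htop]
        exact Subgroup.mem_top _
      obtain ⟨x, hx, hxy⟩ := Subgroup.mem_map.mp h1
      have h2 : res o x = res o y := congrArg Subtype.val hxy
      have hk : (x⁻¹ * y) ∈ (res o).ker := by
        rw [MonoidHom.mem_ker, map_mul, map_inv, h2, inv_mul_cancel]
      have hkK : ((x⁻¹ * y : ↥(HS o)) : Equiv.Perm GolayPt) ∈ KK o := by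
        rw [← ker_res o]
        exact Subgroup.mem_map_of_mem _ hk
      have hkfix := (mem_KK o _).mp hkK
      intro T hT hoT
      have h3 := fix_of_pointwise o ho _ hkfix.1 hkfix.2 T hT hoT
      have h4 : (y : Equiv.Perm GolayPt)
          = (x : Equiv.Perm GolayPt) * ((x⁻¹ * y : ↥(HS o)) : Equiv.Perm GolayPt) := by
        rw [← Subgroup.coe_mul, mul_inv_cancel_left]
      rw [h4, mul_smul, h3, hx T hT hoT]
    obtain ⟨g, hg⟩ := Cfsg.Agent.Lib_lead_M24Data.octads_trans o0 o root_octad ho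
    have hg' : (g : Equiv.Perm GolayPt) • o0 = o := hg
    have hT1 : (g : Equiv.Perm GolayPt) • fin R0 ∈ trios := smul_trio g.2 R0_trio
    have hT2 : (g : Equiv.Perm GolayPt) • fin R1 ∈ trios := smul_trio g.2 R1_trio
    have ho1 : o ∈ (g : Equiv.Perm GolayPt) • fin R0 := by
      rw [← hg']
      exact Finset.smul_mem_smul_finset o0_R0
    have ho2 : o ∈ (g : Equiv.Perm GolayPt) • fin R1 := by
      rw [← hg']
      exact Finset.smul_mem_smul_finset o0_R1
    obtain ⟨t, htM, ht0, ht1⟩ := A o ho _ hT2 ho2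
    have hyo : (t * (g : Equiv.Perm GolayPt)⁻¹) • o = o := by
      rw [mul_smul, inv_smul_eq_iff.mpr hg'.symm, ht0]
    have hy := hall ⟨t * (g : Equiv.Perm GolayPt)⁻¹,
      (mem_HS o _).mpr ⟨M24.mul_mem htM (M24.inv_mem g.2), hyo⟩⟩ _ hT1 ho1
    have hy' : (t * (g : Equiv.Perm GolayPt)⁻¹) • ((g : Equiv.Perm GolayPt) • fin R0)
        = (g : Equiv.Perm GolayPt) • fin R0 := hy
    rw [mul_smul, inv_smul_smul, ht1] at hy'
    exact R0_ne_R1 (MulAction.injective _ hy').symm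

/-- the trios through an octad -/
theorem main (o : Finset GolayPt) (ho : o ∈ octads) :
    {T : Finset (Finset GolayPt) | T ∈ trios ∧ o ∈ T}.ncard = 15 ∧
    (∀ T₁ T₂ T₁' T₂' : Finset (Finset GolayPt), T₁ ∈ trios → T₂ ∈ trios → T₁' ∈ trios →
      T₂' ∈ trios → o ∈ T₁ → o ∈ T₂ → o ∈ T₁' → o ∈ T₂' → T₁ ≠ T₂ → T₁' ≠ T₂' →
      ∃ g ∈ M24, g • o = o ∧ g • T₁ = T₁' ∧ g • T₂ = T₂') ∧
    ∀ g ∈ M24, g • o = o → ((∀ T ∈ trios, o ∈ T → g • T = T) ↔ ∀ p ∈ o, g p = p) := by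
  refine ⟨N o ho, ?_, ?_⟩
  · intro T₁ T₂ T₁' T₂' h1 h2 h1' h2' ho1 ho2 ho1' ho2' hne hne'
    exact two_trans o ho T₁ T₂ T₁' T₂' h1 h2 h1' h2' ho1 ho2 ho1' ho2' hne hne'
  · intro g hg hgo
    exact ⟨pointwise_of_fix o ho g hg hgo, fun h T hT hoT => fix_of_pointwise o ho g hg h T hT hoT⟩

end Cfsg.Agent.Lib_lead_OctTrios
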