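import Mathlib
import Cfsg.Prelude.Def_Sporadic_a
import Cfsg.Agent.Lib_lead_Golay
import Cfsg.Agent.Lib_lead_GolayPerm
import Cfsg.Agent.Lib_lead_M24
import Cfsg.Agent.Lib_lead_M24Data
import Cfsg.Agent.Lib_lead_M24Chain
import Cfsg.Agent.Lib_lead_M12
import Cfsg.Agent.Lib_lead_M12Data
import Cfsg.Agent.Lib_lead_M12Thm
import Cfsg.Agent.Lib_lead_M24Orb
import Cfsg.Agent.Lib_lead_M24Orb2
import Cfsg.Agent.Lib_lead_M24Orb3
import Cfsg.Agent.Lib_lead_OrbDod1Data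

/-! Orbits of the stabilizer of a dodecad and one of its points on the dodecads through the
point. -/

set_option autoImplicit false

namespace Cfsg.Agent.Lib_lead_OrbDod1

open Cfsg Cfsg.Agent.Lib_lead_Golay Cfsg.Agent.Lib_lead_GolayPerm Cfsg.Agent.Lib_lead_M24
  Cfsg.Agent.Lib_lead_M24Data Cfsg.Agent.Lib_lead_M24Chain Cfsg.Agent.Lib_lead_M12
  Cfsg.Agent.Lib_lead_M24Orb Cfsg.Agent.Lib_lead_M24Orb2 Cfsg.Agent.Lib_lead_M24Orb3
  Cfsg.Agent.Lib_lead_OrbDod1Data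
open scoped Pointwise

theorem root_orbit (k k' : ℕ) (hk : k < 4096) (hk' : k' < 4096)
    (hc : cls (M k) = cls (M k')) (hne : cls (M k) ≠ 99) :
    ∃ τ ∈ stabD 340831 1, τ • fsOf (M k) = fsOf (M k') := by
  apply same_class _ gens gens_mem T cls roots T_ok k k' hk hk' hc
  have hlen : roots.length = 25 := by decide
  rw [hlen]
  unfold cls at hne ⊢
  split_ifs at hne ⊢ with h
  · exact lt_of_le_of_lt (popc_le _) (by norm_num)
  · exact absurd rfl hne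

theorem cls_ne (m : ℕ) (h : popc m = 12 ∧ m.testBit 0 = true) :
    cls m = popc (340831 &&& m) ∧ cls m ≠ 99 := by
  unfold cls
  rw [if_pos h]
  refine ⟨rfl, ?_⟩
  have := popc_le (340831 &&& m)
  omega

/-- a dodecad with a point on it is the image of the root configuration -/
theorem configD1 (d : Finset GolayPt) (hd : d ∈ dodecads) (x : GolayPt) (hx : x ∈ d) :
    ∃ σ ∈ M24, σ • fsOf 340831 = d ∧ σ (ptN 0) = x := by
  obtain ⟨σ, hσ, hσd⟩ := Cfsg.Agent.Lib_lead_M12Thm.exists_sigma d hd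
  obtain ⟨τ, hτ, h1⟩ := Cfsg.Agent.Lib_lead_M12Data.rA1 (σ⁻¹ x)
    ((Cfsg.Agent.Lib_lead_M12Thm.bit_iff hσd x).mpr hx)
  refine ⟨σ * τ⁻¹, M24.mul_mem hσ (M24.inv_mem hτ.1), ?_, ?_⟩
  · rw [mul_smul, inv_smul_eq_iff.mpr hτ.2.1.symm, hσd]
  · rw [Equiv.Perm.mul_apply, ← h1, Equiv.Perm.inv_def τ, Equiv.symm_apply_apply,
      Equiv.Perm.inv_def σ, Equiv.apply_symm_apply]

theorem ncard_cls (σ : Equiv.Perm GolayPt) (hσ : σ ∈ M24) (j : ℕ) :
    {d' : Finset GolayPt | d' ∈ dodecads ∧ σ (ptN 0) ∈ d' ∧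
        (σ • fsOf 340831 ∩ d').card = j}.ncard
      = ((Finset.range 4096).filter
          (fun k => popc (M k) = 12 ∧ ((M k).testBit 0 = true ∧
            popc (340831 &&& M k) = j))).card :=
  ncard_root hσ 12 (fun o' => σ (ptN 0) ∈ o' ∧ (σ • fsOf 340831 ∩ o').card = j)
    (fun m => m.testBit 0 = true ∧ popc (340831 &&& m) = j) (fun k _ _ => by
      show (σ (ptN 0) ∈ σ • fsOf (M k) ∧ (σ • fsOf 340831 ∩ σ • fsOf (M k)).card = j) ↔ _
      rw [mem_smul_root _ _ _ (by norm_num), card_inter_smul _ _ _ (by norm_num)])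

/-- the point stabiliser on the dodecads through the point: subdegrees 165, 330, 792 -/
theorem thm (x : GolayPt) (d : Finset GolayPt) (hd : d ∈ dodecads) (hx : x ∈ d) :
    {d' : Finset GolayPt | d' ∈ dodecads ∧ x ∈ d' ∧ (d ∩ d').card = 4}.ncard = 165 ∧
    {d' : Finset GolayPt | d' ∈ dodecads ∧ x ∈ d' ∧ (d ∩ d').card = 8}.ncard = 330 ∧
    {d' : Finset GolayPt | d' ∈ dodecads ∧ x ∈ d' ∧ (d ∩ d').card = 6}.ncard = 792 ∧
    ∀ d' d'' : Finset GolayPt, d' ∈ dodecads → d'' ∈ dodecads → x ∈ d' → x ∈ d'' →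
      (d ∩ d').card = (d ∩ d'').card →
      ∃ g : Equiv.Perm GolayPt, g ∈ M24 ∧ g x = x ∧ g • d = d ∧ g • d' = d'' := by
  obtain ⟨σ, hσ, hσo, hσx⟩ := configD1 d hd x hx
  subst hσo
  subst hσx
  refine ⟨?_, ?_, ?_, ?_⟩
  · rw [ncard_cls σ hσ 4]
    exact cnt4
  · rw [ncard_cls σ hσ 8]
    exact cnt8
  · rw [ncard_cls σ hσ 6]
    exact cnt6
  · intro o' o'' ho' ho'' hx' hx'' h
    obtain ⟨k', hk', hp', rfl⟩ := exists_root hσ ho'
    obtain ⟨k'', hk'', hp'', rfl⟩ := exists_root hσ ho''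
    rw [mem_smul_root _ _ _ (by norm_num)] at hx' hx''
    rw [card_inter_smul _ _ _ (by norm_num), card_inter_smul _ _ _ (by norm_num)] at h
    have c' := cls_ne (M k') ⟨hp', hx'⟩
    have c'' := cls_ne (M k'') ⟨hp'', hx''⟩
    obtain ⟨τ, hτ, hτe⟩ := root_orbit k' k'' hk' hk'' (by rw [c'.1, c''.1, h]) c'.2
    exact ⟨σ * τ * σ⁻¹, M24.mul_mem (M24.mul_mem hσ hτ.1) (M24.inv_mem hσ),
      conj_fix (hτ.2.2 0 (by norm_num) (by decide)) rfl, conj_stab hτ.2.1 rfl,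
      orbit_transport hτ hτe⟩

end Cfsg.Agent.Lib_lead_OrbDod1
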