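import Mathlib
import Cfsg.Prelude.Def_Sporadic_a
import Cfsg.Agent.Lib_lead_Golay
import Cfsg.Agent.Lib_lead_GolayPerm
import Cfsg.Agent.Lib_lead_M24
import Cfsg.Agent.Lib_lead_M24Data
import Cfsg.Agent.Lib_lead_M24Chain
import Cfsg.Agent.Lib_lead_M24Trans
import Cfsg.Agent.Lib_lead_M12
import Cfsg.Agent.Lib_lead_M24Orb
import Cfsg.Agent.Lib_lead_M24Orb2
import Cfsg.Agent.Lib_lead_M24Orb3
import Cfsg.Agent.Lib_lead_OctConfig
import Cfsg.Agent.Lib_lead_OrbOct3Data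

/-! Orbits of a stabilizer inside an octad stabilizer on octads. -/

set_option autoImplicit false

namespace Cfsg.Agent.Lib_lead_OrbOct3

open Cfsg Cfsg.Agent.Lib_lead_Golay Cfsg.Agent.Lib_lead_GolayPerm Cfsg.Agent.Lib_lead_M24
  Cfsg.Agent.Lib_lead_M24Data Cfsg.Agent.Lib_lead_M24Chain Cfsg.Agent.Lib_lead_M12
  Cfsg.Agent.Lib_lead_M24Orb Cfsg.Agent.Lib_lead_M24Orb2 Cfsg.Agent.Lib_lead_M24Orb3
  Cfsg.Agent.Lib_lead_OctConfig Cfsg.Agent.Lib_lead_OrbOct3Data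
open scoped Pointwise

theorem root_orbit (k k' : ℕ) (hk : k < 4096) (hk' : k' < 4096)
    (hc : cls (M k) = cls (M k')) (hne : cls (M k) ≠ 99) :
    ∃ τ ∈ stabD 3277413 3, τ • fsOf (M k) = fsOf (M k') := by
  apply same_class _ gens gens_mem T cls roots T_ok k k' hk hk' hc
  have hlen : roots.length = 25 := by decide
  rw [hlen]
  unfold cls at hne ⊢
  split_ifs at hne ⊢ with h
  · exact lt_of_le_of_lt (popc_le _) (by norm_num)
  · exact absurd rfl hne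

theorem cls_ne (m : ℕ) (h : popc m = 8 ∧ m.testBit 0 = true ∧ m.testBit 1 = false) : cls m = popc (3277413 &&& m) ∧ cls m ≠ 99 := by
  unfold cls
  rw [if_pos h]
  refine ⟨rfl, ?_⟩
  have := popc_le (3277413 &&& m)
  omega

theorem ncard_cls (σ : Equiv.Perm GolayPt) (hσ : σ ∈ M24) (j : ℕ) :
    {o' : Finset GolayPt | (o' ∈ octads ∧ σ (ptN 0) ∈ o' ∧ σ (ptN 1) ∉ o') ∧
        (σ • fsOf 3277413 ∩ o').card = j}.ncard
      = ((Finset.range 4096).filter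
          (fun k => popc (M k) = 8 ∧ ((M k).testBit 0 = true ∧ (M k).testBit 1 = false ∧
            popc (3277413 &&& M k) = j))).card := by
  have hset : {o' : Finset GolayPt | (o' ∈ octads ∧ σ (ptN 0) ∈ o' ∧ σ (ptN 1) ∉ o') ∧
        (σ • fsOf 3277413 ∩ o').card = j}
      = {o' : Finset GolayPt | o' ∈ octads ∧ (σ (ptN 0) ∈ o' ∧ σ (ptN 1) ∉ o' ∧
        (σ • fsOf 3277413 ∩ o').card = j)} := by
    ext x
    simp only [Set.mem_setOf_eq, and_assoc]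
  rw [hset]
  exact ncard_root hσ 8
    (fun o' => σ (ptN 0) ∈ o' ∧ σ (ptN 1) ∉ o' ∧ (σ • fsOf 3277413 ∩ o').card = j)
    (fun m => m.testBit 0 = true ∧ m.testBit 1 = false ∧ popc (3277413 &&& m) = j)
    (fun k _ _ => by
      show (σ (ptN 0) ∈ σ • fsOf (M k) ∧ σ (ptN 1) ∉ σ • fsOf (M k) ∧
        (σ • fsOf 3277413 ∩ σ • fsOf (M k)).card = j) ↔ _
      rw [mem_smul_root _ _ _ (by norm_num), not_mem_smul_root _ _ _ (by norm_num),
        card_inter_smul _ _ _ (by norm_num)])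

theorem cnt176 : ((Finset.range 4096).filter
    (fun k => popc (M k) = 8 ∧ ((M k).testBit 0 = true ∧ (M k).testBit 1 = false))).card
      = 176 := by decide +kernel

theorem pts_ne : ptN 0 ≠ ptN 1 := by decide

/-- the two-point stabiliser on the 176 octads through the first point avoiding the second -/
theorem thm (p q : GolayPt) (hpq : p ≠ q) :
    {x : Finset GolayPt | (x ∈ octads ∧ p ∈ x ∧ q ∉ x)}.ncard = 176 ∧
    (∀ o o' : Finset GolayPt, (o ∈ octads ∧ p ∈ o ∧ q ∉ o) → (o' ∈ octads ∧ p ∈ o' ∧ q ∉ o') →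
      ∃ g : Equiv.Perm GolayPt, g ∈ M24 ∧ g p = p ∧ g q = q ∧ g • o = o') ∧
    ∀ o : Finset GolayPt, (o ∈ octads ∧ p ∈ o ∧ q ∉ o) →
      {x : Finset GolayPt | (x ∈ octads ∧ p ∈ x ∧ q ∉ x) ∧ (o ∩ x).card = 2}.ncard = 70 ∧
      {x : Finset GolayPt | (x ∈ octads ∧ p ∈ x ∧ q ∉ x) ∧ (o ∩ x).card = 4}.ncard = 105 ∧
      ∀ o' o'' : Finset GolayPt, (o' ∈ octads ∧ p ∈ o' ∧ q ∉ o') →
        (o'' ∈ octads ∧ p ∈ o'' ∧ q ∉ o'') → (o ∩ o').card = (o ∩ o'').card →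
        ∃ g : Equiv.Perm GolayPt, g ∈ M24 ∧ g p = p ∧ g q = q ∧ g • o = o ∧ g • o' = o'' := by
  refine ⟨?_, ?_, ?_⟩
  · obtain ⟨σ, hσ, hσp, hσq⟩ :=
      Cfsg.Agent.Lib_lead_M24Trans.trans2 (ptN 0) (ptN 1) p q pts_ne hpq
    subst hσp
    subst hσq
    have h1 := ncard_root hσ 8 (fun o' => σ (ptN 0) ∈ o' ∧ σ (ptN 1) ∉ o')
      (fun m => m.testBit 0 = true ∧ m.testBit 1 = false) (fun k _ _ => by
        show (σ (ptN 0) ∈ σ • fsOf (M k) ∧ σ (ptN 1) ∉ σ • fsOf (M k)) ↔ _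
        rw [mem_smul_root _ _ _ (by norm_num), not_mem_smul_root _ _ _ (by norm_num)])
    exact h1.trans cnt176
  · rintro o o' ⟨ho, hp, hq⟩ ⟨ho', hp', hq'⟩
    obtain ⟨σ, hσ, hσo, hσp, hσq⟩ := config11 o ho p q hp hq
    obtain ⟨σ', hσ', hσo', hσp', hσq'⟩ := config11 o' ho' p q hp' hq'
    refine ⟨σ' * σ⁻¹, M24.mul_mem hσ' (M24.inv_mem hσ), ?_, ?_, ?_⟩
    · rw [Equiv.Perm.mul_apply, ← hσp, Equiv.Perm.inv_def, Equiv.symm_apply_apply, hσp, hσp']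
    · rw [Equiv.Perm.mul_apply, ← hσq, Equiv.Perm.inv_def, Equiv.symm_apply_apply, hσq, hσq']
    · rw [mul_smul, ← hσo, inv_smul_smul, hσo']
  · rintro o ⟨ho, hp, hq⟩
    obtain ⟨σ, hσ, hσo, hσp, hσq⟩ := config11 o ho p q hp hq
    subst hσo
    subst hσp
    subst hσq
    refine ⟨?_, ?_, ?_⟩
    · rw [ncard_cls σ hσ 2]
      exact cnt2
    · rw [ncard_cls σ hσ 4]
      exact cnt4
    · rintro o' o'' ⟨ho', hp1, hq1⟩ ⟨ho'', hp2, hq2⟩ h
      obtain ⟨k', hk', hp', rfl⟩ := exists_root hσ ho'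
      obtain ⟨k'', hk'', hp'', rfl⟩ := exists_root hσ ho''
      rw [mem_smul_root _ _ _ (by norm_num)] at hp1 hp2
      rw [not_mem_smul_root _ _ _ (by norm_num)] at hq1 hq2
      rw [card_inter_smul _ _ _ (by norm_num), card_inter_smul _ _ _ (by norm_num)] at h
      have c' := cls_ne (M k') ⟨hp', hp1, hq1⟩
      have c'' := cls_ne (M k'') ⟨hp'', hp2, hq2⟩
      obtain ⟨τ, hτ, hτe⟩ := root_orbit k' k'' hk' hk'' (by rw [c'.1, c''.1, h]) c'.2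
      exact ⟨σ * τ * σ⁻¹, M24.mul_mem (M24.mul_mem hσ hτ.1) (M24.inv_mem hσ),
        conj_fix (hτ.2.2 0 (by norm_num) (by decide)) rfl,
        conj_fix (hτ.2.2 1 (by norm_num) (by decide)) rfl, conj_stab hτ.2.1 rfl,
        orbit_transport hτ hτe⟩

end Cfsg.Agent.Lib_lead_OrbOct3
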