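import Mathlib
import Cfsg.Prelude.Def_Sporadic_a
import Cfsg.Agent.Lib_lead_Golay
import Cfsg.Agent.Lib_lead_GolayPerm
import Cfsg.Agent.Lib_lead_M24
import Cfsg.Agent.Lib_lead_M24Data
import Cfsg.Agent.Lib_lead_M24Chain
import Cfsg.Agent.Lib_lead_M24Trans
import Cfsg.Agent.Lib_lead_M12
import Cfsg.Agent.Lib_lead_M24Orb
import Cfsg.Agent.Lib_lead_M24Orb2
import Cfsg.Agent.Lib_lead_M24Orb3
import Cfsg.Agent.Lib_lead_OctConfig
import Cfsg.Agent.Lib_lead_OrbOct5Data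

/-! Orbits of a stabilizer inside an octad stabilizer on octads. -/

set_option autoImplicit false

namespace Cfsg.Agent.Lib_lead_OrbOct5

open Cfsg Cfsg.Agent.Lib_lead_Golay Cfsg.Agent.Lib_lead_GolayPerm Cfsg.Agent.Lib_lead_M24
  Cfsg.Agent.Lib_lead_M24Data Cfsg.Agent.Lib_lead_M24Chain Cfsg.Agent.Lib_lead_M12
  Cfsg.Agent.Lib_lead_M24Orb Cfsg.Agent.Lib_lead_M24Orb2 Cfsg.Agent.Lib_lead_M24Orb3
  Cfsg.Agent.Lib_lead_OctConfig Cfsg.Agent.Lib_lead_OrbOct5Data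
open scoped Pointwise

theorem root_orbit (k k' : ℕ) (hk : k < 4096) (hk' : k' < 4096)
    (hc : cls (M k) = cls (M k')) (hne : cls (M k) ≠ 99) :
    ∃ τ ∈ stabD 3277413 5, τ • fsOf (M k) = fsOf (M k') := by
  apply same_class _ gens gens_mem T cls roots T_ok k k' hk hk' hc
  have hlen : roots.length = 25 := by decide
  rw [hlen]
  unfold cls at hne ⊢
  split_ifs at hne ⊢ with h
  · exact lt_of_le_of_lt (popc_le _) (by norm_num)
  · exact absurd rfl hne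

theorem cls_ne (m : ℕ) (h : popc m = 8 ∧ m.testBit 0 = true ∧ m.testBit 2 = true) : cls m = popc (3277413 &&& m) ∧ cls m ≠ 99 := by
  unfold cls
  rw [if_pos h]
  refine ⟨rfl, ?_⟩
  have := popc_le (3277413 &&& m)
  omega

theorem ncard_cls (σ : Equiv.Perm GolayPt) (hσ : σ ∈ M24) (j : ℕ) :
    {o' : Finset GolayPt | o' ∈ octads ∧ σ (ptN 0) ∈ o' ∧ σ (ptN 2) ∈ o' ∧
        (σ • fsOf 3277413 ∩ o').card = j}.ncard
      = ((Finset.range 4096).filter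
          (fun k => popc (M k) = 8 ∧ ((M k).testBit 0 = true ∧ (M k).testBit 2 = true ∧
            popc (3277413 &&& M k) = j))).card :=
  ncard_root hσ 8
    (fun o' => σ (ptN 0) ∈ o' ∧ σ (ptN 2) ∈ o' ∧ (σ • fsOf 3277413 ∩ o').card = j)
    (fun m => m.testBit 0 = true ∧ m.testBit 2 = true ∧ popc (3277413 &&& m) = j)
    (fun k _ _ => by
      show (σ (ptN 0) ∈ σ • fsOf (M k) ∧ σ (ptN 2) ∈ σ • fsOf (M k) ∧
        (σ • fsOf 3277413 ∩ σ • fsOf (M k)).card = j) ↔ _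
      rw [mem_smul_root _ _ _ (by norm_num), mem_smul_root _ _ _ (by norm_num),
        card_inter_smul _ _ _ (by norm_num)])

/-- a hexad stabiliser in the two-point stabiliser: orbits of sizes 16 and 60 -/
theorem thm (p q : GolayPt) (hpq : p ≠ q) (o o' o'' : Finset GolayPt) (ho : o ∈ octads)
    (ho' : o' ∈ octads) (ho'' : o'' ∈ octads) (hp : p ∈ o ∧ p ∈ o' ∧ p ∈ o'')
    (hq : q ∈ o ∧ q ∈ o' ∧ q ∈ o'') (h : (o ∩ o').card = (o ∩ o'').card) :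
    {x : Finset GolayPt | x ∈ octads ∧ p ∈ x ∧ q ∈ x ∧ (o ∩ x).card = 2}.ncard = 16 ∧
    {x : Finset GolayPt | x ∈ octads ∧ p ∈ x ∧ q ∈ x ∧ (o ∩ x).card = 4}.ncard = 60 ∧
    ∃ g : Equiv.Perm GolayPt, g ∈ M24 ∧ g p = p ∧ g q = q ∧ g • o = o ∧ g • o' = o'' := by
  obtain ⟨σ, hσ, hσo, hσp, hσq⟩ := config2 o ho p q hp.1 hq.1 hpq
  subst hσo
  subst hσp
  subst hσq
  refine ⟨?_, ?_, ?_⟩
  · rw [ncard_cls σ hσ 2]
    exact cnt2
  · rw [ncard_cls σ hσ 4]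
    exact cnt4
  · obtain ⟨k', hk', hp', rfl⟩ := exists_root hσ ho'
    obtain ⟨k'', hk'', hp'', rfl⟩ := exists_root hσ ho''
    obtain ⟨-, hp1, hp2⟩ := hp
    obtain ⟨-, hq1, hq2⟩ := hq
    rw [mem_smul_root _ _ _ (by norm_num)] at hp1 hp2 hq1 hq2
    rw [card_inter_smul _ _ _ (by norm_num), card_inter_smul _ _ _ (by norm_num)] at h
    have c' := cls_ne (M k') ⟨hp', hp1, hq1⟩
    have c'' := cls_ne (M k'') ⟨hp'', hp2, hq2⟩
    obtain ⟨τ, hτ, hτe⟩ := root_orbit k' k'' hk' hk'' (by rw [c'.1, c''.1, h]) c'.2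
    exact ⟨σ * τ * σ⁻¹, M24.mul_mem (M24.mul_mem hσ hτ.1) (M24.inv_mem hσ),
      conj_fix (hτ.2.2 0 (by norm_num) (by decide)) rfl,
      conj_fix (hτ.2.2 2 (by norm_num) (by decide)) rfl, conj_stab hτ.2.1 rfl,
      orbit_transport hτ hτe⟩

end Cfsg.Agent.Lib_lead_OrbOct5
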