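import Mathlib
import Cfsg.Prelude.Def_SporadicCombinatorics
import Cfsg.Agent.Lib_lead_Coset

/-! The length-23 code obtained by deleting the extra coordinate of the length-24 code. -/

set_option autoImplicit false

namespace Cfsg.Agent.Lib_lead_Punct

open Cfsg Cfsg.Agent.Lib_lead_Golay Cfsg.Agent.Lib_lead_GolayPerm Cfsg.Agent.Lib_lead_M24
  Cfsg.Agent.Lib_lead_M24Chain Cfsg.Agent.Lib_lead_Leech Cfsg.Agent.Lib_lead_Coset

/-- deleting the extra coordinate -/
def punct (w : GolayPt → ZMod 2) : ZMod 23 → ZMod 2 := fun x => w (some x)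

/-- the punctured code -/
def P23 : Set (ZMod 23 → ZMod 2) := {u | ∃ w ∈ golayCode, ∀ x : ZMod 23, u x = w (some x)}

theorem mem_P23 (u : ZMod 23 → ZMod 2) : u ∈ P23 ↔ ∃ w ∈ golayCode, u = punct w := by
  constructor
  · rintro ⟨w, hw, h⟩
    exact ⟨w, hw, funext h⟩
  · rintro ⟨w, hw, rfl⟩
    exact ⟨w, hw, fun _ => rfl⟩

theorem norm_punct (w : GolayPt → ZMod 2) :
    hammingNorm w = hammingNorm (punct w) + (if w none = 0 then 0 else 1) := by
  unfold hammingNorm punct
  rw [Finset.card_filter, Finset.card_filter, Fintype.sum_option, add_comm]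
  congr 1
  by_cases h : w none = 0 <;> simp [h]

theorem punct_sub (v w : GolayPt → ZMod 2) : punct (v - w) = punct v - punct w := rfl

theorem punct_injOn {w w' : GolayPt → ZMod 2} (hw : w ∈ golayCode) (hw' : w' ∈ golayCode)
    (h : punct w = punct w') : w = w' := by
  by_contra hne
  have h8 := wt_ge (golayCode.sub_mem hw hw') (sub_ne_zero.mpr hne)
  have h1 := norm_punct (w - w')
  rw [punct_sub, h, sub_self, hammingNorm_zero] at h1
  split_ifs at h1 <;> omega

theorem dist_punct (v w : GolayPt → ZMod 2) :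
    hammingDist (punct v) (punct w) = hammingNorm (punct (v - w)) := by
  unfold hammingDist hammingNorm punct
  congr 1
  ext x
  simp only [Finset.mem_filter, Finset.mem_univ, true_and, Pi.sub_apply]
  exact sub_ne_zero.symm

/-- counting codewords through the enumeration `W` -/
theorem ncard_code (P : (GolayPt → ZMod 2) → Prop) (P' : ℕ → Prop) [DecidablePred P']
    (h : ∀ k < 4096, P (W k) ↔ P' (M k)) :
    {w : GolayPt → ZMod 2 | w ∈ golayCode ∧ P w}.ncard
      = ((Finset.range 4096).filter (fun k => P' (M k))).card := by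
  have h1 : {w : GolayPt → ZMod 2 | w ∈ golayCode ∧ P w}
      = (fun k => W k) '' ((Finset.range 4096).filter (fun k => P' (M k)) : Set ℕ) := by
    ext w
    constructor
    · rintro ⟨hw, hP⟩
      obtain ⟨k, hk, rfl⟩ := (mem_iff w).mp hw
      refine ⟨k, ?_, rfl⟩
      rw [Finset.mem_coe, Finset.mem_filter, Finset.mem_range]
      exact ⟨hk, (h k hk).mp hP⟩
    · rintro ⟨k, hk, rfl⟩
      rw [Finset.mem_coe, Finset.mem_filter, Finset.mem_range] at hk
      exact ⟨W_mem k, (h k hk.1).mpr hk.2⟩
  rw [h1, Set.InjOn.ncard_image, Set.ncard_coe_finset]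
  intro k hk k' hk' hkk
  rw [Finset.mem_coe, Finset.mem_filter, Finset.mem_range] at hk hk'
  exact W_injOn hk.1 hk'.1 hkk

theorem W_none (k : ℕ) : W k none = 0 ↔ (M k).testBit 23 = false := by
  have h := testBit_enc (W k) (23 : Fin 24)
  rw [enc_W] at h
  have hp : pt (23 : Fin 24) = none := rfl
  rw [hp] at h
  have h23 : ((23 : Fin 24) : ℕ) = 23 := rfl
  rw [h23] at h
  rw [h]
  have key : ∀ a : ZMod 2, a = 0 ↔ decide (a = 1) = false := by decide
  exact key _

/-- weight of a punctured codeword in terms of its mask -/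
def pw (m : ℕ) : ℕ := popc m - (if m.testBit 23 then 1 else 0)

theorem norm_punct_W (k : ℕ) : hammingNorm (punct (W k)) = pw (M k) := by
  have h1 := norm_punct (W k)
  rw [hammingNorm_W] at h1
  unfold pw
  by_cases hb : (M k).testBit 23 = true
  · rw [if_neg (fun h0 => by rw [(W_none k).mp h0] at hb; exact Bool.false_ne_true hb)] at h1
    rw [if_pos hb]
    omega
  · rw [Bool.not_eq_true] at hb
    rw [if_pos ((W_none k).mpr hb)] at h1
    rw [hb]
    simp only [Bool.false_eq_true, if_false]
    omega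

theorem ncard_P23_weight (n : ℕ) :
    {u : ZMod 23 → ZMod 2 | u ∈ P23 ∧ hammingNorm u = n}.ncard
      = ((Finset.range 4096).filter (fun k => pw (M k) = n)).card := by
  have h1 : {u : ZMod 23 → ZMod 2 | u ∈ P23 ∧ hammingNorm u = n}
      = punct '' {w : GolayPt → ZMod 2 | w ∈ golayCode ∧ hammingNorm (punct w) = n} := by
    ext u
    constructor
    · rintro ⟨hu, hn⟩
      obtain ⟨w, hw, rfl⟩ := (mem_P23 u).mp hu
      exact ⟨w, ⟨hw, hn⟩, rfl⟩
    · rintro ⟨w, ⟨hw, hn⟩, rfl⟩
      exact ⟨(mem_P23 _).mpr ⟨w, hw, rfl⟩, hn⟩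
  rw [h1, Set.InjOn.ncard_image (fun w hw w' hw' h => punct_injOn hw.1 hw'.1 h)]
  exact ncard_code (fun w => hammingNorm (punct w) = n) (fun m => pw m = n)
    (fun k _ => by rw [norm_punct_W])

theorem ncard_P23 : P23.ncard = 4096 := by
  have h1 : P23 = punct '' (golayCode : Set (GolayPt → ZMod 2)) := by
    ext u
    rw [mem_P23]
    constructor
    · rintro ⟨w, hw, rfl⟩
      exact ⟨w, hw, rfl⟩
    · rintro ⟨w, hw, rfl⟩
      exact ⟨w, hw, rfl⟩
  rw [h1, Set.InjOn.ncard_image (fun w hw w' hw' h => punct_injOn hw hw' h),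
    ← Nat.card_coe_set_eq]
  exact card_code

theorem min_weight (u : ZMod 23 → ZMod 2) (hu : u ∈ P23) (h0 : u ≠ 0) : 7 ≤ hammingNorm u := by
  obtain ⟨w, hw, rfl⟩ := (mem_P23 u).mp hu
  have hw0 : w ≠ 0 := by
    rintro rfl
    exact h0 rfl
  have h8 := wt_ge hw hw0
  have h1 := norm_punct w
  split_ifs at h1 <;> omega

theorem c7 : ((Finset.range 4096).filter (fun k => pw (M k) = 7)).card = 253 := by decide +kernel
theorem c8 : ((Finset.range 4096).filter (fun k => pw (M k) = 8)).card = 506 := by decide +kernel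
theorem c11 : ((Finset.range 4096).filter (fun k => pw (M k) = 11)).card = 1288 := by
  decide +kernel
theorem c12 : ((Finset.range 4096).filter (fun k => pw (M k) = 12)).card = 1288 := by
  decide +kernel
theorem c15 : ((Finset.range 4096).filter (fun k => pw (M k) = 15)).card = 506 := by
  decide +kernel
theorem c16 : ((Finset.range 4096).filter (fun k => pw (M k) = 16)).card = 253 := by
  decide +kernel

end Cfsg.Agent.Lib_lead_Punct
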