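import Mathlib
import Cfsg.Prelude.Def_SporadicCombinatorics
import Cfsg.Agent.Lib_lead_Punct

/-! The punctured length-23 code is perfect. -/

set_option autoImplicit false

namespace Cfsg.Agent.Lib_lead_Punct2

open Cfsg Cfsg.Agent.Lib_lead_Golay Cfsg.Agent.Lib_lead_GolayPerm Cfsg.Agent.Lib_lead_M24
  Cfsg.Agent.Lib_lead_M24Chain Cfsg.Agent.Lib_lead_Leech Cfsg.Agent.Lib_lead_Coset
  Cfsg.Agent.Lib_lead_Punct

/-- extending a word of length 23 by a value at the extra coordinate -/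
def ext0 (u : ZMod 23 → ZMod 2) (b : ZMod 2) : GolayPt → ZMod 2 := fun p =>
  match p with
  | none => b
  | some x => u x

theorem wt_code {c : GolayPt → ZMod 2} (hc : c ∈ golayCode) :
    hammingNorm c = 0 ∨ hammingNorm c = 8 ∨ hammingNorm c = 12 ∨ hammingNorm c = 16 ∨
      hammingNorm c = 24 := by
  obtain ⟨k, hk, rfl⟩ := (mem_iff c).mp hc
  rw [hammingNorm_W]
  exact weights k hk

theorem close_of_light (u : ZMod 23 → ZMod 2) (b : ZMod 2) (v : GolayPt → ZMod 2)
    (hc : ext0 u b - v ∈ golayCode) (h3 : hammingNorm (punct v) ≤ 3) :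
    ∃ c : ZMod 23 → ZMod 2, c ∈ P23 ∧ hammingDist u c ≤ 3 := by
  refine ⟨punct (ext0 u b - v), (mem_P23 _).mpr ⟨_, hc, rfl⟩, ?_⟩
  show hammingDist (punct (ext0 u b)) (punct (ext0 u b - v)) ≤ 3
  rw [dist_punct, sub_sub_cancel]
  exact h3

theorem exists_close (u : ZMod 23 → ZMod 2) :
    ∃ c : ZMod 23 → ZMod 2, c ∈ P23 ∧ hammingDist u c ≤ 3 := by
  obtain ⟨v0, hv0, hc0⟩ := exists_light (ext0 u 0)
  by_cases h0 : hammingNorm (punct v0) ≤ 3
  · exact close_of_light u 0 v0 hc0 h0
  obtain ⟨v1, hv1, hc1⟩ := exists_light (ext0 u 1)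
  by_cases h1 : hammingNorm (punct v1) ≤ 3
  · exact close_of_light u 1 v1 hc1 h1
  exfalso
  have n0 := norm_punct v0
  have n1 := norm_punct v1
  have e0 : v0 none = 0 := by
    by_contra h
    rw [if_neg h] at n0
    omega
  have e1 : v1 none = 0 := by
    by_contra h
    rw [if_neg h] at n1
    omega
  rw [if_pos e0] at n0
  rw [if_pos e1] at n1
  have hz := golayCode.sub_mem hc1 hc0
  have hzn : (ext0 u 1 - v1 - (ext0 u 0 - v0)) none ≠ 0 := by
    show (1 : ZMod 2) - v1 none - (0 - v0 none) ≠ 0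
    rw [e0, e1]
    decide
  have hzp : punct (ext0 u 1 - v1 - (ext0 u 0 - v0)) = punct (v0 - v1) := by
    funext x
    show u x - v1 (some x) - (u x - v0 (some x)) = v0 (some x) - v1 (some x)
    ring
  have nz := norm_punct (ext0 u 1 - v1 - (ext0 u 0 - v0))
  rw [if_neg hzn, hzp] at nz
  have nd := norm_punct (v0 - v1)
  have hd0 : (v0 - v1) none = 0 := by
    show v0 none - v1 none = 0
    rw [e0, e1, sub_self]
  rw [if_pos hd0] at nd
  have hs := card_symmDiff_add (support₂ v0) (support₂ v1)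
  rw [← support₂_add, card_support₂, card_support₂, card_support₂, ← sub_eq_add₂] at hs
  rcases wt_code hz with h | h | h | h | h <;> omega

/-- every word of length 23 is within distance 3 of exactly one word of the punctured code -/
theorem perfect (u : ZMod 23 → ZMod 2) :
    ∃! c : ZMod 23 → ZMod 2, c ∈ P23 ∧ hammingDist u c ≤ 3 := by
  obtain ⟨c, hc, hd⟩ := exists_close u
  refine ⟨c, ⟨hc, hd⟩, ?_⟩
  rintro c' ⟨hc', hd'⟩
  obtain ⟨w, hw, rfl⟩ := (mem_P23 c).mp hc
  obtain ⟨w', hw', rfl⟩ := (mem_P23 c').mp hc'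
  have ht := hammingDist_triangle (punct w') u (punct w)
  rw [hammingDist_comm (punct w') u, dist_punct] at ht
  have hn := norm_punct (w' - w)
  have hle : hammingNorm (w' - w) ≤ 7 := by
    split_ifs at hn <;> omega
  by_contra hne
  have h8 := wt_ge (golayCode.sub_mem hw' hw) (sub_ne_zero.mpr (fun h => hne (by rw [h])))
  omega

end Cfsg.Agent.Lib_lead_Punct2
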