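import Mathlib
import Cfsg.Prelude.Def_SporadicCombinatorics
import Cfsg.Agent.Lib_lead_ObjOrb3
import Cfsg.Agent.Lib_lead_Quartet
import Cfsg.Agent.Lib_lead_QuartetData

/-! The number of quartets of a dodecad and the orbits of a quartet stabilizer on them. -/

set_option autoImplicit false

namespace Cfsg.Agent.Lib_lead_Quartet2

open Cfsg Cfsg.Agent.Lib_lead_Golay Cfsg.Agent.Lib_lead_GolayPerm Cfsg.Agent.Lib_lead_M24
  Cfsg.Agent.Lib_lead_M24Chain Cfsg.Agent.Lib_lead_M24Orb Cfsg.Agent.Lib_lead_ObjOrb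
  Cfsg.Agent.Lib_lead_ObjOrb3 Cfsg.Agent.Lib_lead_Quartet Cfsg.Agent.Lib_lead_QuartetData
  Cfsg.Agent.Lib_lead_M12Data
open scoped Pointwise

theorem quartet_disj {d : Finset GolayPt} {Q : Fam} (hQ : Q ∈ quartets d) :
    ∀ t ∈ Q, ∀ u ∈ Q, t ≠ u → Disjoint t u :=
  fun t ht u hu hne => disj_of_hex (hQ.2.1 t ht).1 (hQ.2.1 u hu).1 (hQ.2.2 t ht u hu hne)

theorem quartet_union {d : Finset GolayPt} (hd : d.card = 12) {Q : Fam} (hQ : Q ∈ quartets d) :
    Q.biUnion id = d := by
  apply Finset.eq_of_subset_of_card_le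
  · intro x hx
    rw [Finset.mem_biUnion] at hx
    obtain ⟨t, ht, hxt⟩ := hx
    exact (hQ.2.1 t ht).2 hxt
  · have hc : (Q.biUnion id).card = ∑ u ∈ Q, (id u).card :=
      Finset.card_biUnion (fun t ht u hu hne => quartet_disj hQ t ht u hu hne)
    have hs : ∑ u ∈ Q, (id u).card = ∑ u ∈ Q, 3 :=
      Finset.sum_congr rfl (fun t ht => (hQ.2.1 t ht).1)
    rw [hc, hs, Finset.sum_const, hQ.1, hd]
    decide

theorem smul_biUnion (g : Equiv.Perm GolayPt) (Q : Fam) :
    g • Q.biUnion id = (g • Q).biUnion id := by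
  have h1 : g • Q = Q.image (fun t => g • t) := Finset.smul_finset_def
  have h2 : g • Q.biUnion id = (Q.biUnion id).image (fun x => g • x) := Finset.smul_finset_def
  rw [h1, h2, Finset.image_biUnion, Finset.biUnion_image]
  rfl

theorem stab_quartet {d : Finset GolayPt} (hd : d.card = 12) {Q : Fam} (hQ : Q ∈ quartets d)
    {g : Equiv.Perm GolayPt} (hg : g • Q = Q) : g • d = d := by
  rw [← quartet_union hd hQ, smul_biUnion, hg]

/-- a dodecad has 220 quartets -/
theorem ncard_quartets (d : Finset GolayPt) (hd : d ∈ dodecads) : (quartets d).ncard = 220 := by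
  classical
  have hHFm : ∀ h, h ∈ (Set.toFinite (hexadsOn d)).toFinset ↔ h ∈ hexadsOn d :=
    fun h => Set.Finite.mem_toFinset _
  have hQFm : ∀ Q, Q ∈ (Set.toFinite (quartets d)).toFinset ↔ Q ∈ quartets d :=
    fun Q => Set.Finite.mem_toFinset _
  have hHFc : (Set.toFinite (hexadsOn d)).toFinset.card = 132 := by
    rw [← Set.ncard_eq_toFinset_card _ (Set.toFinite _)]
    exact ncard_hexads d hd
  obtain ⟨P, hPm⟩ : ∃ P : Finset (Finset GolayPt × Finset GolayPt), ∀ p, p ∈ P ↔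
      p.1.card = 3 ∧ p.2.card = 3 ∧ Disjoint p.1 p.2 ∧ p.1 ∪ p.2 ∈ hexadsOn d := by
    refine ⟨((d.powersetCard 3) ×ˢ (d.powersetCard 3)).filter
      (fun p => Disjoint p.1 p.2 ∧ p.1 ∪ p.2 ∈ hexadsOn d), ?_⟩
    intro p
    simp only [Finset.mem_filter, Finset.mem_product, Finset.mem_powersetCard]
    constructor
    · rintro ⟨⟨⟨-, h1⟩, -, h2⟩, h3, h4⟩
      exact ⟨h1, h2, h3, h4⟩
    · rintro ⟨h1, h2, h3, h4⟩
      have hs := sub_of_hex h4
      exact ⟨⟨⟨Finset.union_subset_left hs, h1⟩, Finset.union_subset_right hs, h2⟩, h3, h4⟩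
  have hPc : P.card = 2640 := by
    rw [Finset.card_eq_sum_card_fiberwise (f := fun p => p.1 ∪ p.2)
      (t := (Set.toFinite (hexadsOn d)).toFinset)
      (fun p hp => (hHFm _).mpr ((hPm p).mp hp).2.2.2)]
    have hfib : ∀ h ∈ (Set.toFinite (hexadsOn d)).toFinset,
        (P.filter (fun p => p.1 ∪ p.2 = h)).card = 20 := by
      intro h hh
      have hh' := (hHFm h).mp hh
      have himg : P.filter (fun p => p.1 ∪ p.2 = h) =
          (h.powersetCard 3).image (fun t => (t, h \ t)) := by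
        ext ⟨t, u⟩
        simp only [Finset.mem_filter, hPm, Finset.mem_image, Finset.mem_powersetCard,
          Prod.mk.injEq]
        constructor
        · rintro ⟨⟨h1, h2, h3, h4⟩, rfl⟩
          exact ⟨t, ⟨Finset.subset_union_left, h1⟩, rfl, Finset.union_sdiff_cancel_left h3⟩
        · rintro ⟨t', ⟨hsub, hc⟩, rfl, rfl⟩
          have hu : t' ∪ h \ t' = h := Finset.union_sdiff_of_subset hsub
          refine ⟨⟨hc, ?_, Finset.disjoint_sdiff, by rw [hu]; exact hh'⟩, hu⟩
          rw [Finset.card_sdiff_of_subset hsub, hh'.1, hc]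
      rw [himg, Finset.card_image_of_injective _ (fun a b hab => (Prod.mk.inj hab).1),
        Finset.card_powersetCard, hh'.1]
      rfl
    rw [Finset.sum_congr rfl hfib, Finset.sum_const, hHFc]
    rfl
  have key := Finset.sum_card_bipartiteAbove_eq_sum_card_bipartiteBelow
    (s := (Set.toFinite (quartets d)).toFinset) (t := P)
    (fun (Q : Fam) (p : Finset GolayPt × Finset GolayPt) => p.1 ∈ Q ∧ p.2 ∈ Q)
  have h1 : ∀ Q ∈ (Set.toFinite (quartets d)).toFinset,
      (Finset.bipartiteAbove (fun (Q : Fam) (p : Finset GolayPt × Finset GolayPt) =>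
        p.1 ∈ Q ∧ p.2 ∈ Q) P Q).card = 12 := by
    intro Q hQ
    have hQ' := (hQFm Q).mp hQ
    have : Finset.bipartiteAbove (fun (Q : Fam) (p : Finset GolayPt × Finset GolayPt) =>
        p.1 ∈ Q ∧ p.2 ∈ Q) P Q = Q.offDiag := by
      ext ⟨t, u⟩
      simp only [Finset.mem_bipartiteAbove, Finset.mem_offDiag, hPm]
      constructor
      · rintro ⟨⟨h1, h2, h3, h4⟩, ht, hu⟩
        refine ⟨ht, hu, ?_⟩
        rintro rfl
        rw [disjoint_self, Finset.bot_eq_empty] at h3
        rw [h3] at h1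
        simp at h1
      · rintro ⟨ht, hu, hne⟩
        have a1 := (hQ'.2.1 t ht).1
        have a2 := (hQ'.2.1 u hu).1
        have a3 := hQ'.2.2 t ht u hu hne
        exact ⟨⟨a1, a2, disj_of_hex a1 a2 a3, a3⟩, ht, hu⟩
    rw [this, Finset.offDiag_card, hQ'.1]
  have h2 : ∀ p ∈ P, (Finset.bipartiteBelow (fun (Q : Fam)
      (p : Finset GolayPt × Finset GolayPt) => p.1 ∈ Q ∧ p.2 ∈ Q)
        (Set.toFinite (quartets d)).toFinset p).card = 1 := by
    intro p hp
    obtain ⟨a1, a2, a3, a4⟩ := (hPm p).mp hp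
    obtain ⟨Q, ⟨hQ, htQ, huQ⟩, huniq⟩ := quartet_unique d hd p.1 p.2 a1 a2 a3 a4
    rw [Finset.card_eq_one]
    refine ⟨Q, ?_⟩
    ext Q'
    simp only [Finset.mem_bipartiteBelow, Finset.mem_singleton, hQFm]
    exact ⟨fun h => huniq Q' ⟨h.1, h.2.1, h.2.2⟩, fun h => by rw [h]; exact ⟨hQ, htQ, huQ⟩⟩
  rw [Finset.sum_congr rfl h1, Finset.sum_congr rfl h2] at key
  simp only [Finset.sum_const, smul_eq_mul, hPc] at key
  rw [Set.ncard_eq_toFinset_card (quartets d) (Set.toFinite _)]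
  omega

set_option maxRecDepth 100000 in
theorem rootsT_chk : ∀ r ∈ rootsT, quartChk r = true := by decide +kernel

theorem cert : CertR (quartets (fsOf 340831)) gensT rootsT tabT sizeT 4 where
  hgen := hgenT
  hroots := hrootsT
  hpos := by decide
  hmem := fun r hr => quartet_of_chk r (rootsT_chk r hr)
  hcls := hclsT
  hinc := hincT
  hinv := hinvT
  hsmul := fun g hg X hX => by
    have hg' := (mem_StabK _ g).mp hg
    have h1 : g • fsOf 340831 = fsOf 340831 :=
      stab_quartet root_dodecad.2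
        (quartet_of_chk _ (rootsT_chk _ (CertR.root_mem rootsT 0 (by decide)))) hg'.2
    have := smul_quartet hg'.1 hX
    rwa [h1] at this
  hcard := by rw [ncard_quartets _ root_dodecad, hlenT]
  hcount := hcountT

/-- the orbits of a quartet stabilizer on the quartets of its dodecad -/
theorem quartet_orbits (d : Finset GolayPt) (hd : d ∈ dodecads) (Q : Fam)
    (hQ : Q ∈ quartets d) :
    ∃ X₁ ∈ quartets d, ∃ X₂ ∈ quartets d, ∃ X₃ ∈ quartets d, ∃ X₄ ∈ quartets d,
      (MulAction.orbit ↥(MulAction.stabilizer M24 d ⊓ MulAction.stabilizer M24 Q) X₁).ncard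
        = 12 ∧
      (MulAction.orbit ↥(MulAction.stabilizer M24 d ⊓ MulAction.stabilizer M24 Q) X₂).ncard
        = 27 ∧
      (MulAction.orbit ↥(MulAction.stabilizer M24 d ⊓ MulAction.stabilizer M24 Q) X₃).ncard
        = 72 ∧
      (MulAction.orbit ↥(MulAction.stabilizer M24 d ⊓ MulAction.stabilizer M24 Q) X₄).ncard
        = 108 ∧
      quartets d = {Q} ∪
        MulAction.orbit ↥(MulAction.stabilizer M24 d ⊓ MulAction.stabilizer M24 Q) X₁ ∪
        MulAction.orbit ↥(MulAction.stabilizer M24 d ⊓ MulAction.stabilizer M24 Q) X₂ ∪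
        MulAction.orbit ↥(MulAction.stabilizer M24 d ⊓ MulAction.stabilizer M24 Q) X₃ ∪
        MulAction.orbit ↥(MulAction.stabilizer M24 d ⊓ MulAction.stabilizer M24 Q) X₄ := by
  have hstab : MulAction.stabilizer M24 d ⊓ MulAction.stabilizer M24 Q
      = MulAction.stabilizer M24 Q := by
    apply inf_eq_right.mpr
    intro g hg
    rw [MulAction.mem_stabilizer_iff] at hg ⊢
    exact stab_quartet hd.2 hQ hg
  rw [hstab]
  obtain ⟨τ, hτ, hτd, hτQ⟩ := quartet_norm d hd Q hQ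
  have hQ' : Q = (⟨τ, hτ⟩ : ↥M24) • fin (rootsT.getD 0 []) := hτQ.symm
  subst hQ'
  have hm : ∀ c, c < rootsT.length → (⟨τ, hτ⟩ : ↥M24) • fin (rootsT.getD c []) ∈ quartets d := by
    intro c hc
    rw [← hτd]
    exact smul_quartet hτ (cert.hmem _ (CertR.root_mem rootsT c hc))
  have hsub : ∀ x ∈ quartets d, MulAction.orbit
      ↥(MulAction.stabilizer ↥M24 ((⟨τ, hτ⟩ : ↥M24) • fin (rootsT.getD 0 []))) x ⊆ quartets d := by
    rintro x hx y ⟨⟨⟨s, hsM⟩, hsS⟩, rfl⟩
    have h1 : s • d = d := stab_quartet hd.2 hQ hsS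
    have := smul_quartet hsM hx
    rwa [h1] at this
  refine ⟨_, hm 1 (by decide), _, hm 2 (by decide), _, hm 3 (by decide), _, hm 4 (by decide),
    cert.orbit_card ⟨τ, hτ⟩ 1 (by decide), cert.orbit_card ⟨τ, hτ⟩ 2 (by decide),
    cert.orbit_card ⟨τ, hτ⟩ 3 (by decide), cert.orbit_card ⟨τ, hτ⟩ 4 (by decide), ?_⟩
  ext X
  constructor
  · intro hX
    have hX' : (⟨τ, hτ⟩ : ↥M24)⁻¹ • X ∈ quartets (fsOf 340831) := by
      have := smul_quartet (M24.inv_mem hτ) hX
      rwa [← hτd, inv_smul_smul] at this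
    obtain ⟨c, hc, hXc⟩ := cert.cover ⟨τ, hτ⟩ X hX'
    have hc5 : c < 5 := hc
    interval_cases c
    · rw [orbit_self] at hXc
      exact Or.inl (Or.inl (Or.inl (Or.inl hXc)))
    · exact Or.inl (Or.inl (Or.inl (Or.inr hXc)))
    · exact Or.inl (Or.inl (Or.inr hXc))
    · exact Or.inl (Or.inr hXc)
    · exact Or.inr hXc
  · rintro ((((h | h) | h) | h) | h)
    · rw [Set.mem_singleton_iff] at h
      rw [h]
      exact hQ
    · exact hsub _ (hm 1 (by decide)) h
    · exact hsub _ (hm 2 (by decide)) h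
    · exact hsub _ (hm 3 (by decide)) h
    · exact hsub _ (hm 4 (by decide)) h

end Cfsg.Agent.Lib_lead_Quartet2
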