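import Mathlib
import Cfsg.Prelude.Def_SporadicCombinatorics
import Cfsg.Agent.Lib_lead_Q432Data
import Cfsg.Agent.Lib_lead_M11Cent
import Cfsg.Agent.Lib_lead_Quartet2

/-! The stabilizer of a quartet in the stabilizer of a dodecad: order 432, a normal subgroup of
order 9 with quotient the general linear group of degree two over the field of three elements,
transitive on the dodecad. -/

set_option autoImplicit false

namespace Cfsg.Agent.Lib_lead_Q432

open Cfsg Cfsg.Agent.Lib_lead_Golay Cfsg.Agent.Lib_lead_GolayPerm Cfsg.Agent.Lib_lead_M24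
  Cfsg.Agent.Lib_lead_M24Chain Cfsg.Agent.Lib_lead_Cls Cfsg.Agent.Lib_lead_Enum
  Cfsg.Agent.Lib_lead_EnumD Cfsg.Agent.Lib_lead_EnumFam Cfsg.Agent.Lib_lead_Q432Data
  Cfsg.Agent.Lib_lead_M12 Cfsg.Agent.Lib_lead_M12Data Cfsg.Agent.Lib_lead_M12Thm
  Cfsg.Agent.Lib_lead_Quartet Cfsg.Agent.Lib_lead_ObjOrb
open scoped Pointwise

/-- the linear part of a map -/
def mat (f : ℕ → ℕ) : Matrix (Fin 2) (Fin 2) (ZMod 3) :=
  !![((bxN (f 11) + 2 * bxN (f 5) : ℕ) : ZMod 3), ((bxN (f 15) + 2 * bxN (f 5) : ℕ) : ZMod 3);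
    ((byN (f 11) + 2 * byN (f 5) : ℕ) : ZMod 3), ((byN (f 15) + 2 * byN (f 5) : ℕ) : ZMod 3)]

theorem aff_apply {f : ℕ → ℕ} (h : aff f = true) {j : ℕ} (hj : j ∈ nine) :
    (bxN (f j) : ZMod 3) = ((bxN (f 11) : ZMod 3) + 2 * bxN (f 5)) * bxN j +
        ((bxN (f 15) : ZMod 3) + 2 * bxN (f 5)) * byN j + bxN (f 5) ∧
      (byN (f j) : ZMod 3) = ((byN (f 11) : ZMod 3) + 2 * byN (f 5)) * bxN j +
        ((byN (f 15) : ZMod 3) + 2 * byN (f 5)) * byN j + byN (f 5) := by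
  unfold aff at h
  rw [List.all_eq_true] at h
  have h1 := h j hj
  simp only [Bool.and_eq_true, beq_iff_eq] at h1
  constructor
  · have h2 := (ZMod.natCast_eq_natCast_iff' _ _ 3).mpr h1.1
    push_cast at h2
    exact h2
  · have h2 := (ZMod.natCast_eq_natCast_iff' _ _ 3).mpr h1.2
    push_cast at h2
    exact h2

theorem mat_comp (f f' : ℕ → ℕ) (h : aff f = true) (h' : mvd f' = true) :
    mat (fun j => f (f' j)) = mat f * mat f' := by
  unfold mvd at h'
  rw [List.all_eq_true] at h'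
  have m5 : f' 5 ∈ nine := by simpa using h' 5 (by decide)
  have m11 : f' 11 ∈ nine := by simpa using h' 11 (by decide)
  have m15 : f' 15 ∈ nine := by simpa using h' 15 (by decide)
  obtain ⟨a5, b5⟩ := aff_apply h m5
  obtain ⟨a11, b11⟩ := aff_apply h m11
  obtain ⟨a15, b15⟩ := aff_apply h m15
  have h3 : (3 : ZMod 3) = 0 := by decide
  have e00 : ((bxN (f (f' 11)) + 2 * bxN (f (f' 5)) : ℕ) : ZMod 3) =
      ((bxN (f 11) + 2 * bxN (f 5) : ℕ) : ZMod 3) * ((bxN (f' 11) + 2 * bxN (f' 5) : ℕ) : ZMod 3)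
        + ((bxN (f 15) + 2 * bxN (f 5) : ℕ) : ZMod 3) *
          ((byN (f' 11) + 2 * byN (f' 5) : ℕ) : ZMod 3) := by
    push_cast
    rw [a11, a5]
    linear_combination (bxN (f 5) : ZMod 3) * h3
  have e01 : ((bxN (f (f' 15)) + 2 * bxN (f (f' 5)) : ℕ) : ZMod 3) =
      ((bxN (f 11) + 2 * bxN (f 5) : ℕ) : ZMod 3) * ((bxN (f' 15) + 2 * bxN (f' 5) : ℕ) : ZMod 3)
        + ((bxN (f 15) + 2 * bxN (f 5) : ℕ) : ZMod 3) *
          ((byN (f' 15) + 2 * byN (f' 5) : ℕ) : ZMod 3) := by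
    push_cast
    rw [a15, a5]
    linear_combination (bxN (f 5) : ZMod 3) * h3
  have e10 : ((byN (f (f' 11)) + 2 * byN (f (f' 5)) : ℕ) : ZMod 3) =
      ((byN (f 11) + 2 * byN (f 5) : ℕ) : ZMod 3) * ((bxN (f' 11) + 2 * bxN (f' 5) : ℕ) : ZMod 3)
        + ((byN (f 15) + 2 * byN (f 5) : ℕ) : ZMod 3) *
          ((byN (f' 11) + 2 * byN (f' 5) : ℕ) : ZMod 3) := by
    push_cast
    rw [b11, b5]
    linear_combination (byN (f 5) : ZMod 3) * h3
  have e11 : ((byN (f (f' 15)) + 2 * byN (f (f' 5)) : ℕ) : ZMod 3) =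
      ((byN (f 11) + 2 * byN (f 5) : ℕ) : ZMod 3) * ((bxN (f' 15) + 2 * bxN (f' 5) : ℕ) : ZMod 3)
        + ((byN (f 15) + 2 * byN (f 5) : ℕ) : ZMod 3) *
          ((byN (f' 15) + 2 * byN (f' 5) : ℕ) : ZMod 3) := by
    push_cast
    rw [b15, b5]
    linear_combination (byN (f 5) : ZMod 3) * h3
  unfold mat
  rw [Matrix.mul_fin_two]
  simp only [e00, e01, e10, e11]

theorem mat2_ext {R : Type*} {a b c d a' b' c' d' : R}
    (h : (!![a, b; c, d] : Matrix (Fin 2) (Fin 2) R) = !![a', b'; c', d']) :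
    a = a' ∧ b = b' ∧ c = c' ∧ d = d' := by
  have h00 := congrFun (congrFun h 0) 0
  have h01 := congrFun (congrFun h 0) 1
  have h10 := congrFun (congrFun h 1) 0
  have h11 := congrFun (congrFun h 1) 1
  simp only [Matrix.of_apply, Matrix.cons_val_zero, Matrix.cons_val_one, Matrix.cons_val',
    Matrix.cons_val_fin_one] at h00 h01 h10 h11
  exact ⟨h00, h01, h10, h11⟩

theorem one_eq : (1 : Matrix (Fin 2) (Fin 2) (ZMod 3)) =
    !![((1 : ℕ) : ZMod 3), ((0 : ℕ) : ZMod 3); ((0 : ℕ) : ZMod 3), ((1 : ℕ) : ZMod 3)] := by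
  rw [Matrix.one_fin_two, Nat.cast_one, Nat.cast_zero]

theorem mat_eq_one_iff (f : ℕ → ℕ) : mat f = 1 ↔ (keyM f == [1, 0, 0, 1]) = true := by
  rw [beq_iff_eq, one_eq]
  unfold mat keyM
  constructor
  · intro h
    obtain ⟨h1, h2, h3, h4⟩ := mat2_ext h
    rw [ZMod.natCast_eq_natCast_iff'] at h1 h2 h3 h4
    rw [h1, h2, h3, h4]
  · intro h
    simp only [List.cons.injEq, and_true] at h
    obtain ⟨h1, h2, h3, h4⟩ := h
    rw [← ZMod.natCast_mod (bxN (f 11) + 2 * bxN (f 5)), ← ZMod.natCast_mod (bxN (f 15) + 2 * bxN (f 5)),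
      ← ZMod.natCast_mod (byN (f 11) + 2 * byN (f 5)), ← ZMod.natCast_mod (byN (f 15) + 2 * byN (f 5)),
      h1, h2, h3, h4]

/-- the linear part of a permutation -/
def matP (g : Equiv.Perm GolayPt) : Matrix (Fin 2) (Fin 2) (ZMod 3) :=
  mat (fun j => idx (g (ptN j)))

theorem matP_desc {g : Equiv.Perm GolayPt} {f : ℕ → ℕ} (h : Desc g f) : matP g = mat f := by
  have e5 : idx (g (ptN 5)) = f 5 := by
    rw [h.1 5 (by norm_num), idx_ptN' _ (h.2 5 (by norm_num))]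
  have e11 : idx (g (ptN 11)) = f 11 := by
    rw [h.1 11 (by norm_num), idx_ptN' _ (h.2 11 (by norm_num))]
  have e15 : idx (g (ptN 15)) = f 15 := by
    rw [h.1 15 (by norm_num), idx_ptN' _ (h.2 15 (by norm_num))]
  show mat (fun j => idx (g (ptN j))) = mat f
  unfold mat
  simp only [e5, e11, e15]

theorem matP_one : matP 1 = 1 := by
  have hd : Desc (1 : Equiv.Perm GolayPt) (fun j => j) := ⟨fun j _ => rfl, fun j hj => hj⟩
  rw [matP_desc hd, mat_eq_one_iff]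
  decide

theorem cards3 : ∀ m ∈ root0, (fsOf m).card = 3 := by
  intro m hm
  simp only [root0, List.mem_cons, List.not_mem_nil, or_false] at hm
  rcases hm with rfl | rfl | rfl | rfl <;> (rw [card_fsOf _ (by norm_num)]; decide)

theorem cardsLe : ∀ m ∈ root0, ∀ m' ∈ root0, (fsOf m').card ≤ (fsOf m).card := by
  intro m hm m' hm'
  rw [cards3 m hm, cards3 m' hm']

/-- the defining property of the root stabilizer -/
def PhiQ (g : Equiv.Perm GolayPt) : Prop := g • fin root0 = fin root0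

/-- the defining property of the root translations -/
def PhiK (g : Equiv.Perm GolayPt) : Prop := g • fin root0 = fin root0 ∧ matP g = 1

theorem phiQ_iff (g : Equiv.Perm GolayPt) (f : ℕ → ℕ) (_hg : g ∈ M24) (h : Desc g f) :
    PhiQ g ↔ phiQ f = true := permFam_iff h root0 cardsLe

theorem phiK_iff (g : Equiv.Perm GolayPt) (f : ℕ → ℕ) (_hg : g ∈ M24) (h : Desc g f) :
    PhiK g ↔ phiK f = true := by
  unfold PhiK phiK
  rw [Bool.and_eq_true, ← permFam_iff h root0 cardsLe, matP_desc h, mat_eq_one_iff]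

/-- the root stabilizer -/
def G0Set : Set (Equiv.Perm GolayPt) :=
  {g | g ∈ M24 ∧ (g • fsOf 340831 = fsOf 340831 ∧ PhiQ g)}

/-- the root translations -/
def K0Set : Set (Equiv.Perm GolayPt) :=
  {g | g ∈ M24 ∧ (g • fsOf 340831 = fsOf 340831 ∧ PhiK g)}

theorem ne_of_idx {g : Equiv.Perm GolayPt} {i j : ℕ} (hij : ptN i ≠ ptN j) :
    idx (g (ptN i)) ≠ idx (g (ptN j)) := by
  intro h
  have h1 : g (ptN i) = g (ptN j) := by rw [← ptN_idx (g (ptN i)), h, ptN_idx]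
  exact hij (g.injective h1)

theorem cov (g : Equiv.Perm GolayPt) (_hg : g ∈ M24) (_hgd : g • fsOf 340831 = fsOf 340831)
    (hΦ : PhiQ g) :
    coversD XsQ (idx (g (ptN 0))) (idx (g (ptN 1))) (idx (g (ptN 2)))
      (idx (g (ptN 3))) (idx (g (ptN 4))) = true := by
  have h7 : g • fsOf 7 ∈ g • fin root0 :=
    Finset.smul_mem_smul_finset ((mem_fin _ _).mpr ⟨7, by decide, rfl⟩)
  have h8 : g • fsOf 4120 ∈ g • fin root0 :=
    Finset.smul_mem_smul_finset ((mem_fin _ _).mpr ⟨4120, by decide, rfl⟩)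
  unfold PhiQ at hΦ
  rw [hΦ, mem_fin] at h7 h8
  obtain ⟨t, ht, e⟩ := h7
  obtain ⟨t', ht', e'⟩ := h8
  have htt' : t ≠ t' := by
    rintro rfl
    have h1 : g • fsOf 7 = g • fsOf 4120 := e.symm.trans e'
    have h2 : fsOf 7 = fsOf 4120 := smul_left_cancel g h1
    have h0 : ptN 0 ∈ fsOf 7 := by rw [mem_fsOf]; decide
    rw [h2, mem_fsOf] at h0
    exact absurd h0 (by decide)
  have b0 := idx_mem_of_map e.symm (j := 0) (by norm_num) (by decide)
  have b1 := idx_mem_of_map e.symm (j := 1) (by norm_num) (by decide)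
  have b2 := idx_mem_of_map e.symm (j := 2) (by norm_num) (by decide)
  have b3 := idx_mem_of_map e'.symm (j := 3) (by norm_num) (by decide)
  have b4 := idx_mem_of_map e'.symm (j := 4) (by norm_num) (by decide)
  have d01 : idx (g (ptN 0)) ≠ idx (g (ptN 1)) := ne_of_idx (by decide)
  have d02 : idx (g (ptN 0)) ≠ idx (g (ptN 2)) := ne_of_idx (by decide)
  have d12 : idx (g (ptN 1)) ≠ idx (g (ptN 2)) := ne_of_idx (by decide)
  have d34 : idx (g (ptN 3)) ≠ idx (g (ptN 4)) := ne_of_idx (by decide)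
  have h := covQ
  unfold covAll at h
  rw [List.all_eq_true] at h
  have h1 := h t ht
  rw [List.all_eq_true] at h1
  have h2 := h1 t' ht'
  rw [Bool.or_eq_true] at h2
  rcases h2 with h2 | h2
  · exact absurd (beq_iff_eq.mp h2) htt'
  rw [List.all_eq_true] at h2
  have h3 := h2 _ ((mem_ptsOf _ _).mpr ⟨idx_lt _, b0⟩)
  rw [List.all_eq_true] at h3
  have h4 := h3 _ ((mem_ptsOf _ _).mpr ⟨idx_lt _, b1⟩)
  rw [List.all_eq_true] at h4
  have h5 := h4 _ ((mem_ptsOf _ _).mpr ⟨idx_lt _, b2⟩)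
  rw [List.all_eq_true] at h5
  have h6 := h5 _ ((mem_ptsOf _ _).mpr ⟨idx_lt _, b3⟩)
  rw [List.all_eq_true] at h6
  have h7 := h6 _ ((mem_ptsOf _ _).mpr ⟨idx_lt _, b4⟩)
  simpa [d01, d02, d12, d34] using h7

theorem ncard_G0 : G0Set.ncard = 432 :=
  (ncardD XsQ_ok phiQ PhiQ phiQ_iff cov ndQ).trans selQ

theorem ncard_K0 : K0Set.ncard = 9 :=
  (ncardD XsQ_ok phiK PhiK phiK_iff (fun g hg hgd hΦ => cov g hg hgd hΦ.1) ndQ).trans selK

theorem enumQ {g : Equiv.Perm GolayPt} (hg : g ∈ G0Set) :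
    ∃ k < XsQ.length, g = P (XsQ.getD k ([], [])) ∧ Desc g (ap (XsQ.getD k ([], []))) ∧
      aff (ap (XsQ.getD k ([], []))) = true ∧ mvd (ap (XsQ.getD k ([], []))) = true := by
  obtain ⟨hM, hd, hΦ⟩ := hg
  obtain ⟨k, hk, hgP, hdesc⟩ := enumD XsQ_ok phiQ PhiQ phiQ_iff g hM hd hΦ (cov g hM hd hΦ)
  have hk' := ((mem_selD _ _ _).mp hk).1
  have hl := affQ
  rw [List.all_eq_true] at hl
  have h1 := hl (XsQ.getD k ([], [])) (by
    rw [List.getD_eq_getElem _ _ hk']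
    exact List.getElem_mem hk')
  rw [Bool.and_eq_true] at h1
  exact ⟨k, hk', hgP, hdesc, h1.1, h1.2⟩

theorem matP_mul {g g' : Equiv.Perm GolayPt} (hg : g ∈ G0Set) (hg' : g' ∈ G0Set) :
    matP (g * g') = matP g * matP g' := by
  obtain ⟨k, -, -, hd, hl, -⟩ := enumQ hg
  obtain ⟨k', -, -, hd', -, hm'⟩ := enumQ hg'
  rw [matP_desc (desc_mul hd hd'), matP_desc hd, matP_desc hd', mat_comp _ _ hl hm']

set_option maxRecDepth 100000 in
theorem allQ : XsQ.all (fun X => phiQ (ap X)) = true := by decide +kernel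

/-- the root stabilizer is transitive on the root dodecad -/
theorem trans_root (a b : GolayPt) (ha : (340831 : ℕ).testBit (idx a) = true)
    (hb : (340831 : ℕ).testBit (idx b) = true) : ∃ g ∈ G0Set, g a = b := by
  have h := transQ
  unfold transAll at h
  rw [List.all_eq_true] at h
  have h1 := h (idx a) (List.mem_range.mpr (idx_lt a))
  rw [List.all_eq_true] at h1
  have h2 := h1 (idx b) (List.mem_range.mpr (idx_lt b))
  rw [ha, hb] at h2
  simp only [Bool.not_true, Bool.false_or, List.any_eq_true, beq_iff_eq] at h2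
  obtain ⟨X, hX, hXa⟩ := h2
  obtain ⟨k, hk, rfl⟩ : ∃ k < XsQ.length, XsQ.getD k ([], []) = X := by
    obtain ⟨i, hi, rfl⟩ := List.mem_iff_getElem.mp hX
    exact ⟨i, hi, by rw [List.getD_eq_getElem _ _ hi]⟩
  obtain ⟨hok, hD⟩ := allD_of XsQ_ok k hk
  have hq := allQ
  rw [List.all_eq_true] at hq
  have hq1 := hq _ hX
  refine ⟨P (XsQ.getD k ([], [])), ⟨hD.1, hD.2.1, (phiQ_iff _ _ hD.1 (desc_P hok)).mpr hq1⟩, ?_⟩
  rw [desc_apply (desc_P hok) a, hXa, ptN_idx]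

/-- a dodecad with a quartet is an image of the root ones -/
theorem exists_std (d : Finset GolayPt) (hd : d ∈ dodecads) (Q : Fam) (hQ : Q ∈ quartets d) :
    ∃ σ ∈ M24, σ • fsOf 340831 = d ∧ σ • fin root0 = Q := by
  obtain ⟨σ0, hσ0, hσ0d⟩ := exists_sigma d hd
  have h1 : σ0⁻¹ • Q ∈ quartets (σ0⁻¹ • d) := smul_quartet (M24.inv_mem hσ0) hQ
  have h2 : σ0⁻¹ • d = fsOf 340831 := by rw [inv_smul_eq_iff, hσ0d]
  rw [h2] at h1
  obtain ⟨g, hg, hgd, hgQ⟩ := quartets_trans (fsOf 340831) root_dodecad (fin root0) root0_mem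
    (σ0⁻¹ • Q) h1
  refine ⟨σ0 * g, M24.mul_mem hσ0 hg, ?_, ?_⟩
  · rw [mul_smul, hgd, hσ0d]
  · rw [mul_smul, hgQ, smul_inv_smul]

/-- the stabilizer of a quartet -/
theorem main (d : Finset GolayPt) (hd : d ∈ dodecads) (Q : Finset (Finset GolayPt))
    (hQ : Q ∈ quartets d) :
    Nat.card ↥(MulAction.stabilizer M24 d ⊓ MulAction.stabilizer M24 Q) = 432 ∧
    (∃ (N : Subgroup ↥(MulAction.stabilizer M24 d ⊓ MulAction.stabilizer M24 Q))
      (_ : N.Normal), Nat.card N = 9 ∧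
        Nonempty (↥(MulAction.stabilizer M24 d ⊓ MulAction.stabilizer M24 Q) ⧸ N ≃*
          GL (Fin 2) (ZMod 3))) ∧
    ∀ p ∈ d, ∀ q ∈ d, ∃ g ∈ (MulAction.stabilizer M24 d ⊓ MulAction.stabilizer M24 Q),
      ((g : ↥M24) : Equiv.Perm GolayPt) p = q := by
  classical
  obtain ⟨σ, hσM, hσd, hσQ⟩ := exists_std d hd Q hQ
  have hσd' : σ⁻¹ • d = fsOf 340831 := by rw [inv_smul_eq_iff, hσd]
  have hσQ' : σ⁻¹ • Q = fin root0 := by rw [inv_smul_eq_iff, hσQ]
  -- the conjugation map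
  have hconj : ∀ c : ↥(MulAction.stabilizer M24 d ⊓ MulAction.stabilizer M24 Q),
      σ⁻¹ * ((c : M24) : Equiv.Perm GolayPt) * σ ∈ G0Set := by
    intro c
    have hcM : ((c : M24) : Equiv.Perm GolayPt) ∈ M24 := c.1.2
    have hcd : ((c : M24) : Equiv.Perm GolayPt) • d = d := (Subgroup.mem_inf.mp c.2).1
    have hcQ : ((c : M24) : Equiv.Perm GolayPt) • Q = Q := (Subgroup.mem_inf.mp c.2).2
    refine ⟨M24.mul_mem (M24.mul_mem (M24.inv_mem hσM) hcM) hσM, ?_, ?_⟩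
    · rw [mul_smul, mul_smul, hσd, hcd, hσd']
    · show (σ⁻¹ * ((c : M24) : Equiv.Perm GolayPt) * σ) • fin root0 = fin root0
      rw [mul_smul, mul_smul, hσQ, hcQ, hσQ']
  -- an element of the root stabilizer gives an element of the stabilizer
  have hback : ∀ g ∈ G0Set, ∃ c : ↥(MulAction.stabilizer M24 d ⊓ MulAction.stabilizer M24 Q),
      ((c : M24) : Equiv.Perm GolayPt) = σ * g * σ⁻¹ := by
    intro g hg
    obtain ⟨hgM, hgd, hgQ⟩ := hg
    have hM : σ * g * σ⁻¹ ∈ M24 := M24.mul_mem (M24.mul_mem hσM hgM) (M24.inv_mem hσM)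
    have hsd : (σ * g * σ⁻¹) • d = d := by rw [mul_smul, mul_smul, hσd', hgd, hσd]
    have hsQ : (σ * g * σ⁻¹) • Q = Q := by
      unfold PhiQ at hgQ
      rw [mul_smul, mul_smul, hσQ', hgQ, hσQ]
    exact ⟨⟨⟨σ * g * σ⁻¹, hM⟩, Subgroup.mem_inf.mpr ⟨hsd, hsQ⟩⟩, rfl⟩
  have hinj2 : Function.Injective
      (fun c : ↥(MulAction.stabilizer M24 d ⊓ MulAction.stabilizer M24 Q) =>
        σ⁻¹ * ((c : M24) : Equiv.Perm GolayPt) * σ) := by
    intro c c' h
    exact Subtype.ext (Subtype.ext (mul_left_cancel (mul_right_cancel h)))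
  -- the order
  have hcard : Nat.card ↥(MulAction.stabilizer M24 d ⊓ MulAction.stabilizer M24 Q) = 432 := by
    have himg : (fun c : ↥(MulAction.stabilizer M24 d ⊓ MulAction.stabilizer M24 Q) =>
        σ⁻¹ * ((c : M24) : Equiv.Perm GolayPt) * σ) '' Set.univ = G0Set := by
      ext g
      constructor
      · rintro ⟨c, -, rfl⟩
        exact hconj c
      · intro hg
        obtain ⟨c, hc⟩ := hback g hg
        refine ⟨c, Set.mem_univ _, ?_⟩
        show σ⁻¹ * ((c : M24) : Equiv.Perm GolayPt) * σ = g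
        rw [hc]
        group
    rw [← Set.ncard_univ, ← Set.ncard_image_of_injective _ hinj2, himg, ncard_G0]
  -- the homomorphism
  let ψ : ↥(MulAction.stabilizer M24 d ⊓ MulAction.stabilizer M24 Q) →*
      Matrix (Fin 2) (Fin 2) (ZMod 3) :=
    { toFun := fun c => matP (σ⁻¹ * ((c : M24) : Equiv.Perm GolayPt) * σ)
      map_one' := by
        show matP (σ⁻¹ * 1 * σ) = 1
        rw [mul_one, inv_mul_cancel, matP_one]
      map_mul' := fun c c' => by
        show matP (σ⁻¹ * (((c : M24) : Equiv.Perm GolayPt) *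
          ((c' : M24) : Equiv.Perm GolayPt)) * σ) = _
        rw [Cfsg.Agent.Lib_lead_M11Cent.conj_mul, matP_mul (hconj c) (hconj c')] }
  have hker : ∀ c : ↥(MulAction.stabilizer M24 d ⊓ MulAction.stabilizer M24 Q),
      c ∈ ψ.toHomUnits.ker ↔ matP (σ⁻¹ * ((c : M24) : Equiv.Perm GolayPt) * σ) = 1 := by
    intro c
    rw [MonoidHom.mem_ker, Units.ext_iff, MonoidHom.coe_toHomUnits]
    rfl
  have hcardN : Nat.card ↥ψ.toHomUnits.ker = 9 := by
    have hinj3 : Function.Injective (fun c : ↥ψ.toHomUnits.ker =>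
        σ⁻¹ * (((c : ↥(MulAction.stabilizer M24 d ⊓ MulAction.stabilizer M24 Q)) : M24) :
          Equiv.Perm GolayPt) * σ) := by
      intro c c' h
      exact Subtype.ext (hinj2 h)
    have himg : (fun c : ↥ψ.toHomUnits.ker =>
        σ⁻¹ * (((c : ↥(MulAction.stabilizer M24 d ⊓ MulAction.stabilizer M24 Q)) : M24) :
          Equiv.Perm GolayPt) * σ) '' Set.univ = K0Set := by
      ext g
      constructor
      · rintro ⟨c, -, rfl⟩
        obtain ⟨h1, h2, h3⟩ := hconj c.1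
        exact ⟨h1, h2, h3, (hker c.1).mp c.2⟩
      · intro hg
        obtain ⟨hgM, hgd, hgQ, hg1⟩ := hg
        obtain ⟨c, hc⟩ := hback g ⟨hgM, hgd, hgQ⟩
        have hcg : σ⁻¹ * ((c : M24) : Equiv.Perm GolayPt) * σ = g := by
          rw [hc]
          group
        refine ⟨⟨c, (hker c).mpr (by rw [hcg]; exact hg1)⟩, Set.mem_univ _, hcg⟩
    rw [← Set.ncard_univ, ← Set.ncard_image_of_injective _ hinj3, himg, ncard_K0]
  refine ⟨hcard, ⟨ψ.toHomUnits.ker, MonoidHom.normal_ker _, hcardN, ?_⟩, ?_⟩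
  · have hq := Subgroup.card_eq_card_quotient_mul_card_subgroup ψ.toHomUnits.ker
    rw [hcard, hcardN] at hq
    have hq48 : Nat.card (↥(MulAction.stabilizer M24 d ⊓ MulAction.stabilizer M24 Q) ⧸
        ψ.toHomUnits.ker) = 48 := by omega
    have hbij : Function.Bijective (QuotientGroup.kerLift ψ.toHomUnits) := by
      apply Function.Injective.bijective_of_nat_card_le (QuotientGroup.kerLift_injective _)
      rw [hq48]
      exact Cfsg.Agent.Lib_lead_M11Cent.card_GL23.le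
    exact ⟨MulEquiv.ofBijective (QuotientGroup.kerLift ψ.toHomUnits) hbij⟩
  · intro p hp q hq
    obtain ⟨g, hg, hgpq⟩ := trans_root (σ⁻¹ p) (σ⁻¹ q) ((bit_iff hσd p).mpr hp)
      ((bit_iff hσd q).mpr hq)
    obtain ⟨c, hc⟩ := hback g hg
    refine ⟨(c : M24), c.2, ?_⟩
    rw [hc, Equiv.Perm.mul_apply, Equiv.Perm.mul_apply, hgpq,
      Cfsg.Agent.Lib_lead_M11Cent.app_inv]

end Cfsg.Agent.Lib_lead_Q432
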