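import Mathlib

/-! The centralizer of a transvection in the special linear group of dimension 5 over the field
with two elements. -/

set_option autoImplicit false

namespace Cfsg.Agent.Lib_lead_SL5

open Matrix

/-- square matrices of size 5 -/
abbrev M5 := Matrix (Fin 5) (Fin 5) (ZMod 2)

/-- square matrices of size 3 -/
abbrev M3 := Matrix (Fin 3) (Fin 3) (ZMod 2)

/-- the matrix with prescribed first row, second column and lower right block -/
def build (a : Fin 4 → ZMod 2) (c : Fin 3 → ZMod 2) (D : M3) : M5 :=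
  !![1, a 0, a 1, a 2, a 3;
     0, 1, 0, 0, 0;
     0, c 0, D 0 0, D 0 1, D 0 2;
     0, c 1, D 1 0, D 1 1, D 1 2;
     0, c 2, D 2 0, D 2 1, D 2 2]

theorem det_build (a : Fin 4 → ZMod 2) (c : Fin 3 → ZMod 2) (D : M3) :
    (build a c D).det = D.det := by
  rw [Matrix.det_succ_column_zero, Fin.sum_univ_succ]
  have h0 : ∀ i : Fin 4, build a c D i.succ 0 = 0 := by
    intro i
    fin_cases i <;> rfl
  have h1 : build a c D 0 0 = 1 := rfl
  rw [Finset.sum_eq_zero (fun i _ => by rw [h0 i]; ring), h1]
  rw [Matrix.det_succ_row_zero, Fin.sum_univ_succ]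
  have h2 : ∀ j : Fin 3, ((build a c D).submatrix (Fin.succAbove 0) Fin.succ) 0 j.succ = 0 := by
    intro j
    fin_cases j <;> rfl
  have h3 : ((build a c D).submatrix (Fin.succAbove 0) Fin.succ) 0 0 = 1 := rfl
  rw [Finset.sum_eq_zero (fun j _ => by rw [h2 j]; ring), h3]
  have h4 : (((build a c D).submatrix (Fin.succAbove 0) Fin.succ).submatrix Fin.succ
      (Fin.succAbove 0)) = D := by
    ext i j
    fin_cases i <;> fin_cases j <;> rfl
  rw [h4]
  simp

/-- the transvection -/
def T5 : M5 := Matrix.transvection 0 1 1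

theorem mul_E (g : M5) (i j : Fin 5) :
    (g * (Matrix.single 0 1 (1 : ZMod 2) : M5)) i j = if j = 1 then g i 0 else 0 := by
  rw [Matrix.mul_apply]
  simp only [Matrix.single_apply]
  by_cases h : j = 1
  · subst h
    simp [Fin.sum_univ_five]
  · have h' : ¬ (1 : Fin 5) = j := fun e => h e.symm
    simp [h, h']

theorem E_mul (g : M5) (i j : Fin 5) :
    ((Matrix.single 0 1 (1 : ZMod 2) : M5) * g) i j = if i = 0 then g 1 j else 0 := by
  rw [Matrix.mul_apply]
  simp only [Matrix.single_apply]
  by_cases h : i = 0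
  · subst h
    simp [Fin.sum_univ_five]
  · have h' : ¬ (0 : Fin 5) = i := fun e => h e.symm
    simp [h, h']

theorem comm_iff (g : M5) : g * T5 = T5 * g ↔
    ∀ i j : Fin 5, (if j = 1 then g i 0 else 0) = (if i = 0 then g 1 j else 0) := by
  unfold T5 Matrix.transvection
  rw [mul_add, add_mul, mul_one, one_mul, add_right_inj]
  constructor
  · intro h i j
    rw [← mul_E, ← E_mul, h]
  · intro h
    ext i j
    rw [mul_E, E_mul, h]

theorem comm_build (a : Fin 4 → ZMod 2) (c : Fin 3 → ZMod 2) (D : M3) :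
    build a c D * T5 = T5 * build a c D := by
  rw [comm_iff]
  intro i j
  fin_cases i <;> fin_cases j <;> rfl

/-- the matrices commuting with the transvection, of determinant 1 -/
abbrev S5 : Type := {g : M5 // g * T5 = T5 * g ∧ g.det = 1}

theorem eq_build (g : S5) :
    g.1 = build (fun k => g.1 0 k.succ) (fun k => g.1 k.succ.succ 1)
      (g.1.submatrix (fun k => k.succ.succ) (fun k => k.succ.succ)) := by
  obtain ⟨g, hc, hd⟩ := g
  rw [comm_iff] at hc
  have c10 : g 1 0 = 0 := by simpa using hc 1 1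
  have c20 : g 2 0 = 0 := by simpa using hc 2 1
  have c30 : g 3 0 = 0 := by simpa using hc 3 1
  have c40 : g 4 0 = 0 := by simpa using hc 4 1
  have r12 : g 1 2 = 0 := by simpa using (hc 0 2).symm
  have r13 : g 1 3 = 0 := by simpa using (hc 0 3).symm
  have r14 : g 1 4 = 0 := by simpa using (hc 0 4).symm
  have d01 : g 0 0 = g 1 1 := by simpa using hc 0 1
  have h00 : g 0 0 = 1 := by
    have key : ∀ z : ZMod 2, z ≠ 0 → z = 1 := by decide
    apply key
    intro h0
    have hz : g.det = 0 := by
      apply Matrix.det_eq_zero_of_column_eq_zero 0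
      intro i
      fin_cases i
      · exact h0
      · exact c10
      · exact c20
      · exact c30
      · exact c40
    rw [hz] at hd
    exact absurd hd (by decide)
  have h11 : g 1 1 = 1 := by rw [← d01, h00]
  ext i j
  fin_cases i <;> fin_cases j <;>
    simp [build, c10, c20, c30, c40, r12, r13, r14, h00, h11]

/-- the parameters -/
def eS : S5 ≃ (Fin 4 → ZMod 2) × (Fin 3 → ZMod 2) × {D : M3 // D.det = 1} where
  toFun g := (fun k => g.1 0 k.succ, fun k => g.1 k.succ.succ 1,
    ⟨g.1.submatrix (fun k => k.succ.succ) (fun k => k.succ.succ), by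
      rw [← det_build (fun k => g.1 0 k.succ) (fun k => g.1 k.succ.succ 1), ← eq_build g]
      exact g.2.2⟩)
  invFun x := ⟨build x.1 x.2.1 x.2.2.1, comm_build _ _ _, by
    rw [det_build]
    exact x.2.2.2⟩
  left_inv g := Subtype.ext (eq_build g).symm
  right_inv x := by
    obtain ⟨a, c, D, hD⟩ := x
    refine Prod.ext ?_ (Prod.ext ?_ (Subtype.ext ?_))
    · funext k
      fin_cases k <;> rfl
    · funext k
      fin_cases k <;> rfl
    · ext i j
      fin_cases i <;> fin_cases j <;> rfl

/-- invertible matrices over the field with two elements have determinant 1 -/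
noncomputable def eGL : GL (Fin 3) (ZMod 2) ≃ {D : M3 // D.det = 1} where
  toFun u := ⟨u.1, by
    have key : ∀ z : ZMod 2, z ≠ 0 → z = 1 := by decide
    exact key _ ((Matrix.isUnit_iff_isUnit_det _).mp u.isUnit).ne_zero⟩
  invFun D := ((Matrix.isUnit_iff_isUnit_det D.1).mpr (by rw [D.2]; exact isUnit_one)).unit
  left_inv u := Units.ext rfl
  right_inv D := Subtype.ext rfl

theorem card_D : Nat.card {D : M3 // D.det = 1} = 168 := by
  rw [← Nat.card_congr eGL, Matrix.card_GL_field]
  simp [Fin.prod_univ_succ, ZMod.card]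

theorem card_S5 : Nat.card S5 = 21504 := by
  rw [Nat.card_congr eS, Nat.card_prod, Nat.card_prod, card_D, Nat.card_eq_fintype_card,
    Nat.card_eq_fintype_card, Fintype.card_fun, Fintype.card_fun, ZMod.card, Fintype.card_fin,
    Fintype.card_fin]
  norm_num

/-- a matrix of determinant 1 as an element of the special linear group -/
def toSL (x : S5) : Matrix.SpecialLinearGroup (Fin 5) (ZMod 2) := ⟨x.1, x.2.2⟩

theorem toSL_coe (x : S5) : ((toSL x : Matrix.SpecialLinearGroup (Fin 5) (ZMod 2)) : M5) = x.1 :=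
  rfl

theorem toSL_mem (s : Matrix.SpecialLinearGroup (Fin 5) (ZMod 2))
    (hs : (s : Matrix (Fin 5) (Fin 5) (ZMod 2)) = Matrix.transvection 0 1 1) (x : S5) :
    toSL x ∈ Subgroup.centralizer ({s} : Set (Matrix.SpecialLinearGroup (Fin 5) (ZMod 2))) := by
  rw [Subgroup.mem_centralizer_iff]
  intro h hh
  rw [Set.mem_singleton_iff] at hh
  subst hh
  apply Subtype.ext
  rw [Matrix.SpecialLinearGroup.coe_mul, Matrix.SpecialLinearGroup.coe_mul, hs, toSL_coe]
  exact x.2.1.symm

/-- the centralizer, as a set of matrices -/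
def eC (s : Matrix.SpecialLinearGroup (Fin 5) (ZMod 2))
    (hs : (s : Matrix (Fin 5) (Fin 5) (ZMod 2)) = Matrix.transvection 0 1 1) :
    ↥(Subgroup.centralizer ({s} : Set (Matrix.SpecialLinearGroup (Fin 5) (ZMod 2)))) ≃ S5 where
  toFun g := ⟨(g.1 : M5), by
    have h := Subgroup.mem_centralizer_iff.mp g.2 s rfl
    have h1 := congrArg (fun x : Matrix.SpecialLinearGroup (Fin 5) (ZMod 2) => (x : M5)) h
    simp only [Matrix.SpecialLinearGroup.coe_mul, hs] at h1
    exact h1.symm, g.1.2⟩
  invFun x := ⟨toSL x, toSL_mem s hs x⟩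
  left_inv _ := rfl
  right_inv _ := rfl

theorem main (s : Matrix.SpecialLinearGroup (Fin 5) (ZMod 2))
    (hs : (s : Matrix (Fin 5) (Fin 5) (ZMod 2)) = Matrix.transvection 0 1 1) :
    Nat.card (Subgroup.centralizer ({s} : Set (Matrix.SpecialLinearGroup (Fin 5) (ZMod 2))))
      = 21504 := by
  rw [Nat.card_congr (eC s hs), card_S5]

end Cfsg.Agent.Lib_lead_SL5
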