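import Mathlib
import Cfsg.Prelude.Def_SporadicCombinatorics
import Cfsg.Agent.Lib_lead_SextStabData
import Cfsg.Agent.Lib_lead_OctA8

/-! The structure of the stabilizer of a sextet. -/

set_option autoImplicit false

namespace Cfsg.Agent.Lib_lead_SextStab

open Cfsg Cfsg.Agent.Lib_lead_Golay Cfsg.Agent.Lib_lead_GolayPerm Cfsg.Agent.Lib_lead_M24
  Cfsg.Agent.Lib_lead_M24Chain Cfsg.Agent.Lib_lead_M24ChainData Cfsg.Agent.Lib_lead_Cls
  Cfsg.Agent.Lib_lead_ClsData Cfsg.Agent.Lib_lead_Enum Cfsg.Agent.Lib_lead_Sextet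
  Cfsg.Agent.Lib_lead_SextStabData Cfsg.Agent.Lib_lead_ObjOrb
open scoped Pointwise

/-- the elements fixing every member of a family -/
def KSet (S : Fam) : Set (Equiv.Perm GolayPt) := {g | g ∈ M24 ∧ ∀ t ∈ S, g • t = t}

/-- the elements fixing every member of a family and squaring to the identity -/
def NSet (S : Fam) : Set (Equiv.Perm GolayPt) :=
  {g | g ∈ M24 ∧ ((∀ t ∈ S, g • t = t) ∧ g * g = 1)}

theorem hΦ : ∀ g f, g ∈ M24 → Desc g f →
    ((∀ t ∈ fin root0, g • t = t) ↔ fixAll root0 f = true) :=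
  fun _ _ _ hd => fixAll_iff hd root0

theorem hΨ : ∀ g f, g ∈ M24 → Desc g f → (g * g = 1 ↔ invo f = true) :=
  fun _ _ _ hd => invo_iff hd

theorem bits101 : ∀ j < 24, (101 : ℕ).testBit j = true → j ∈ [0, 2, 5, 6] := by decide

theorem bitsT2 : ∀ j < 24, (3277312 : ℕ).testBit j = true → j ∈ [9, 17, 20, 21] := by decide

theorem hcov : ∀ g ∈ M24, (∀ t ∈ fin root0, g • t = t) →
    covers XsS (idx (g (ptN 0))) (idx (g (ptN 2))) (idx (g (ptN 5)))
      (idx (g (ptN 6))) (idx (g (ptN 9))) = true := by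
  intro g _ hfix
  have h1 : g • fsOf 101 = fsOf 101 := hfix _ ((mem_fin _ _).mpr ⟨101, by decide, rfl⟩)
  have h2 : g • fsOf 3277312 = fsOf 3277312 :=
    hfix _ ((mem_fin _ _).mpr ⟨3277312, by decide, rfl⟩)
  exact cov_of_chk cov g
    (bits101 _ (idx_lt _) (idx_mem_of_fix h1 (by norm_num) (by decide)))
    (bits101 _ (idx_lt _) (idx_mem_of_fix h1 (by norm_num) (by decide)))
    (bits101 _ (idx_lt _) (idx_mem_of_fix h1 (by norm_num) (by decide)))
    (bits101 _ (idx_lt _) (idx_mem_of_fix h1 (by norm_num) (by decide)))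
    (bitsT2 _ (idx_lt _) (idx_mem_of_fix h2 (by norm_num) (by decide)))

theorem hnd : ((sel (fixAll root0) XsS).map (fun τ => key7 (eltF XsS τ))).Nodup := by
  rw [sel192, key192]
  exact nd192

theorem ncard_K0 : (KSet (fin root0)).ncard = 192 :=
  (ncard_eq XsS_ok (fixAll root0) _ hΦ hcov hnd).trans (by rw [sel192, len192])

theorem ncard_N0 : (NSet (fin root0)).ncard = 64 :=
  (ncard_filter XsS_ok (fixAll root0) _ hΦ hcov hnd invo _ hΨ).trans
    (by rw [sel192, filt64, len64])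

theorem comm_N0 (a b : Equiv.Perm GolayPt) (ha : a ∈ NSet (fin root0))
    (hb : b ∈ NSet (fin root0)) : a * b = b * a := by
  obtain ⟨τ, hτ, -, hd⟩ :=
    enum_filter XsS_ok (fixAll root0) _ hΦ hcov invo _ hΨ a ha.1 ha.2.1 ha.2.2
  obtain ⟨τ', hτ', -, hd'⟩ :=
    enum_filter XsS_ok (fixAll root0) _ hΦ hcov invo _ hΨ b hb.1 hb.2.1 hb.2.2
  rw [sel192, filt64] at hτ hτ'
  exact comm_of_all closed64 hτ hτ' hd hd'

/-! ### Transport -/

theorem fix_conj (σ g : Equiv.Perm GolayPt) (S0 : Fam) :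
    (∀ t ∈ σ • S0, g • t = t) ↔ ∀ t ∈ S0, (σ⁻¹ * g * σ) • t = t := by
  constructor
  · intro h t ht
    rw [mul_smul, mul_smul, h _ (Finset.smul_mem_smul_finset ht), inv_smul_smul]
  · intro h t ht
    obtain ⟨t0, ht0, rfl⟩ := Finset.mem_smul_finset.mp ht
    have h1 := h t0 ht0
    rw [mul_smul, mul_smul, inv_smul_eq_iff] at h1
    exact h1

theorem sq_conj (σ g : Equiv.Perm GolayPt) :
    g * g = 1 ↔ (σ⁻¹ * g * σ) * (σ⁻¹ * g * σ) = 1 := by
  constructor
  · intro h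
    have h1 : (σ⁻¹ * g * σ) * (σ⁻¹ * g * σ) = σ⁻¹ * (g * g) * σ := by group
    rw [h1, h]
    group
  · intro h
    have h1 : g * g = σ * ((σ⁻¹ * g * σ) * (σ⁻¹ * g * σ)) * σ⁻¹ := by group
    rw [h1, h]
    group

theorem mem_KSet_conj {σ : Equiv.Perm GolayPt} (hσ : σ ∈ M24) (S0 : Fam)
    (g : Equiv.Perm GolayPt) : g ∈ KSet (σ • S0) ↔ σ⁻¹ * g * σ ∈ KSet S0 := by
  constructor
  · rintro ⟨hg, hfix⟩
    exact ⟨M24.mul_mem (M24.mul_mem (M24.inv_mem hσ) hg) hσ, (fix_conj σ g S0).mp hfix⟩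
  · rintro ⟨hg, hfix⟩
    refine ⟨?_, (fix_conj σ g S0).mpr hfix⟩
    have h1 : g = σ * (σ⁻¹ * g * σ) * σ⁻¹ := by group
    rw [h1]
    exact M24.mul_mem (M24.mul_mem hσ hg) (M24.inv_mem hσ)

theorem mem_NSet_conj {σ : Equiv.Perm GolayPt} (hσ : σ ∈ M24) (S0 : Fam)
    (g : Equiv.Perm GolayPt) : g ∈ NSet (σ • S0) ↔ σ⁻¹ * g * σ ∈ NSet S0 := by
  constructor
  · rintro ⟨hg, hfix, hsq⟩
    exact ⟨((mem_KSet_conj hσ S0 g).mp ⟨hg, hfix⟩).1, (fix_conj σ g S0).mp hfix,
      (sq_conj σ g).mp hsq⟩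
  · rintro ⟨hg, hfix, hsq⟩
    exact ⟨((mem_KSet_conj hσ S0 g).mpr ⟨hg, hfix⟩).1, (fix_conj σ g S0).mpr hfix,
      (sq_conj σ g).mpr hsq⟩

theorem conj_inj (σ : Equiv.Perm GolayPt) :
    Function.Injective (fun g : Equiv.Perm GolayPt => σ * g * σ⁻¹) :=
  fun _ _ h => mul_left_cancel (mul_right_cancel h)

theorem KSet_conj {σ : Equiv.Perm GolayPt} (hσ : σ ∈ M24) (S0 : Fam) :
    KSet (σ • S0) = (fun g => σ * g * σ⁻¹) '' KSet S0 := by
  ext g
  constructor
  · intro hg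
    refine ⟨σ⁻¹ * g * σ, (mem_KSet_conj hσ S0 g).mp hg, ?_⟩
    show σ * (σ⁻¹ * g * σ) * σ⁻¹ = g
    group
  · rintro ⟨h, hh, rfl⟩
    rw [mem_KSet_conj hσ]
    have h1 : σ⁻¹ * (σ * h * σ⁻¹) * σ = h := by group
    rw [h1]
    exact hh

theorem NSet_conj {σ : Equiv.Perm GolayPt} (hσ : σ ∈ M24) (S0 : Fam) :
    NSet (σ • S0) = (fun g => σ * g * σ⁻¹) '' NSet S0 := by
  ext g
  constructor
  · intro hg
    refine ⟨σ⁻¹ * g * σ, (mem_NSet_conj hσ S0 g).mp hg, ?_⟩
    show σ * (σ⁻¹ * g * σ) * σ⁻¹ = g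
    group
  · rintro ⟨h, hh, rfl⟩
    rw [mem_NSet_conj hσ]
    have h1 : σ⁻¹ * (σ * h * σ⁻¹) * σ = h := by group
    rw [h1]
    exact hh

theorem ncard_K (S : Fam) (hS : S ∈ sextets) : (KSet S).ncard = 192 := by
  obtain ⟨σ, hσ, rfl⟩ := sextets_trans (fin root0) root0_mem S hS
  rw [KSet_conj hσ, Set.ncard_image_of_injective _ (conj_inj σ), ncard_K0]

theorem ncard_N (S : Fam) (hS : S ∈ sextets) : (NSet S).ncard = 64 := by
  obtain ⟨σ, hσ, rfl⟩ := sextets_trans (fin root0) root0_mem S hS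
  rw [NSet_conj hσ, Set.ncard_image_of_injective _ (conj_inj σ), ncard_N0]

theorem comm_N (S : Fam) (hS : S ∈ sextets) (a b : Equiv.Perm GolayPt) (ha : a ∈ NSet S)
    (hb : b ∈ NSet S) : a * b = b * a := by
  obtain ⟨σ, hσ, rfl⟩ := sextets_trans (fin root0) root0_mem S hS
  have h := comm_N0 _ _ ((mem_NSet_conj hσ _ a).mp ha) ((mem_NSet_conj hσ _ b).mp hb)
  have h1 : a * b = σ * ((σ⁻¹ * a * σ) * (σ⁻¹ * b * σ)) * σ⁻¹ := by group
  have h2 : b * a = σ * ((σ⁻¹ * b * σ) * (σ⁻¹ * a * σ)) * σ⁻¹ := by group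
  rw [h1, h2, h]

theorem smul_eq_of_fix (k : Equiv.Perm GolayPt) (S : Fam) (h : ∀ t ∈ S, k • t = t) :
    k • S = S := by
  ext u
  rw [Finset.mem_smul_finset]
  constructor
  · rintro ⟨t, ht, rfl⟩
    rw [h t ht]
    exact ht
  · intro hu
    exact ⟨u, hu, h u hu⟩

/-- the subgroup of the elements fixing every tetrad and squaring to the identity -/
def NSub (S : Fam) (hS : S ∈ sextets) : Subgroup (Equiv.Perm GolayPt) where
  carrier := NSet S
  one_mem' := ⟨M24.one_mem, fun t _ => one_smul _ t, one_mul 1⟩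
  mul_mem' := by
    intro a b ha hb
    refine ⟨M24.mul_mem ha.1 hb.1, fun t ht => ?_, ?_⟩
    · rw [mul_smul, hb.2.1 t ht, ha.2.1 t ht]
    · have hc := comm_N S hS a b ha hb
      have h1 : a * b * (a * b) = (a * a) * (b * b) := by
        rw [mul_assoc a b (a * b), ← mul_assoc b a b, ← hc, mul_assoc a b b,
          ← mul_assoc a a (b * b)]
      rw [h1, ha.2.2, hb.2.2, one_mul]
  inv_mem' := by
    intro a ha
    refine ⟨M24.inv_mem ha.1, fun t ht => ?_, ?_⟩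
    · rw [inv_smul_eq_iff, ha.2.1 t ht]
    · rw [← mul_inv_rev, ha.2.2, inv_one]

theorem card_stab (S : Fam) (hS : S ∈ sextets) :
    Nat.card (MulAction.stabilizer M24 S) = 138240 := by
  classical
  obtain ⟨SF, hSF⟩ := Cfsg.Agent.Lib_lead_Steiner.exists_finset sextets
  have hcard : SF.card = 1771 := by
    have h : (SF : Set Fam) = sextets := by
      ext b
      simp [hSF]
    rw [← Set.ncard_coe_finset, h]
    exact ncard_sextets
  have h := orbit_count (G := M24) (⊤ : Subgroup M24) S SF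
    (fun g _ => (hSF _).mpr (smul_sextet g.2 hS))
    (fun z hz => by
      obtain ⟨g, hg, hgz⟩ := sextets_trans S hS z ((hSF z).mp hz)
      exact ⟨⟨g, hg⟩, Subgroup.mem_top _, hgz⟩)
  rw [Subgroup.card_top, top_inf_eq, hcard, card_M24] at h
  omega

/-- the permutation of the members of a family induced by a permutation preserving it -/
def actPerm (S : Fam) (g : Equiv.Perm GolayPt) (hg : g • S = S) : Equiv.Perm ↥S where
  toFun t := ⟨g • t.1, by
    have h := Finset.smul_mem_smul_finset (a := g) t.2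
    rwa [hg] at h⟩
  invFun t := ⟨g⁻¹ • t.1, by
    have h := Finset.smul_mem_smul_finset (a := g⁻¹) t.2
    have hg' : g⁻¹ • S = S := by rw [inv_smul_eq_iff, hg]
    rwa [hg'] at h⟩
  left_inv t := Subtype.ext (inv_smul_smul g t.1)
  right_inv t := Subtype.ext (smul_inv_smul g t.1)

theorem actPerm_apply (S : Fam) (g : Equiv.Perm GolayPt) (hg : g • S = S) (t : ↥S) :
    ((actPerm S g hg t : ↥S) : Finset GolayPt) = g • t.1 := rfl

/-- the action of the stabilizer on the members -/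
def rho (S : Fam) : ↥(MulAction.stabilizer M24 S) →* Equiv.Perm ↥S where
  toFun x := actPerm S ((x : M24) : Equiv.Perm GolayPt) (MulAction.mem_stabilizer_iff.mp x.2)
  map_one' := by
    apply Equiv.ext
    intro t
    apply Subtype.ext
    rw [actPerm_apply]
    exact one_smul _ _
  map_mul' := by
    intro a b
    apply Equiv.ext
    intro t
    apply Subtype.ext
    rw [actPerm_apply, Equiv.Perm.mul_apply, actPerm_apply, actPerm_apply]
    exact mul_smul _ _ _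

theorem mem_ker_rho (S : Fam) (x : ↥(MulAction.stabilizer M24 S)) :
    x ∈ (rho S).ker ↔ ∀ t ∈ S, ((x : M24) : Equiv.Perm GolayPt) • t = t := by
  rw [MonoidHom.mem_ker]
  constructor
  · intro h t ht
    have h1 := congrArg (fun e : Equiv.Perm ↥S => ((e ⟨t, ht⟩ : ↥S) : Finset GolayPt)) h
    exact h1
  · intro h
    apply Equiv.ext
    intro t
    apply Subtype.ext
    exact h t.1 t.2

/-- the elements of the stabilizer fixing every member, as a set of permutations -/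
def eK (S : Fam) : {g : ↥(MulAction.stabilizer M24 S) //
    ∀ t ∈ S, ((g : M24) : Equiv.Perm GolayPt) • t = t} ≃ ↥(KSet S) where
  toFun x := ⟨((x.1 : M24) : Equiv.Perm GolayPt), ⟨(x.1 : M24).2, x.2⟩⟩
  invFun k := ⟨⟨⟨k.1, k.2.1⟩, MulAction.mem_stabilizer_iff.mpr (smul_eq_of_fix k.1 S k.2.2)⟩,
    k.2.2⟩
  left_inv _ := rfl
  right_inv _ := rfl

theorem card_fix (S : Fam) (hS : S ∈ sextets) :
    Nat.card {g : ↥(MulAction.stabilizer M24 S) //
      ∀ t ∈ S, ((g : M24) : Equiv.Perm GolayPt) • t = t} = 192 := by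
  rw [Nat.card_congr (eK S), Nat.card_coe_set_eq, ncard_K S hS]

theorem card_ker (S : Fam) (hS : S ∈ sextets) : Nat.card ↥(rho S).ker = 192 := by
  rw [← card_fix S hS]
  exact Nat.card_congr (Equiv.subtypeEquivRight (fun x => mem_ker_rho S x))

theorem rho_surj (S : Fam) (hS : S ∈ sextets) : Function.Surjective (rho S) := by
  have h1 := Subgroup.card_mul_index (rho S).ker
  rw [Subgroup.index_ker, card_ker S hS, card_stab S hS] at h1
  have h2 : Nat.card (Equiv.Perm ↥S) = 720 := by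
    rw [Nat.card_eq_fintype_card, Fintype.card_perm, Fintype.card_coe, hS.1]
    decide
  have h3 : (rho S).range = ⊤ := by
    apply Subgroup.eq_top_of_card_eq
    rw [h2]
    omega
  exact MonoidHom.range_eq_top.mp h3

/-- the normal subgroup of order 64 -/
def NN (S : Fam) (hS : S ∈ sextets) : Subgroup ↥(MulAction.stabilizer M24 S) :=
  (NSub S hS).comap (M24.subtype.comp (MulAction.stabilizer M24 S).subtype)

theorem mem_NN (S : Fam) (hS : S ∈ sextets) (x : ↥(MulAction.stabilizer M24 S)) :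
    x ∈ NN S hS ↔ ((x : M24) : Equiv.Perm GolayPt) ∈ NSet S := Iff.rfl

theorem NN_normal (S : Fam) (hS : S ∈ sextets) : (NN S hS).Normal := by
  constructor
  intro n hn y
  rw [mem_NN] at hn ⊢
  have hy : ((y : M24) : Equiv.Perm GolayPt) • S = S := MulAction.mem_stabilizer_iff.mp y.2
  have hy' : ((y : M24) : Equiv.Perm GolayPt)⁻¹ • S = S := by rw [inv_smul_eq_iff, hy]
  obtain ⟨h1, h2, h3⟩ := hn
  refine ⟨(y * n * y⁻¹ : ↥(MulAction.stabilizer M24 S)).1.2, fun t ht => ?_, ?_⟩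
  · have ht' : ((y : M24) : Equiv.Perm GolayPt)⁻¹ • t ∈ S := by
      have h := Finset.smul_mem_smul_finset (a := ((y : M24) : Equiv.Perm GolayPt)⁻¹) ht
      rwa [hy'] at h
    show (((y : M24) : Equiv.Perm GolayPt) * ((n : M24) : Equiv.Perm GolayPt) *
      ((y : M24) : Equiv.Perm GolayPt)⁻¹) • t = t
    rw [mul_smul, mul_smul, h2 _ ht', smul_inv_smul]
  · show (((y : M24) : Equiv.Perm GolayPt) * ((n : M24) : Equiv.Perm GolayPt) *
      ((y : M24) : Equiv.Perm GolayPt)⁻¹) * (((y : M24) : Equiv.Perm GolayPt) *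
      ((n : M24) : Equiv.Perm GolayPt) * ((y : M24) : Equiv.Perm GolayPt)⁻¹) = 1
    have h4 : (((y : M24) : Equiv.Perm GolayPt) * ((n : M24) : Equiv.Perm GolayPt) *
      ((y : M24) : Equiv.Perm GolayPt)⁻¹) * (((y : M24) : Equiv.Perm GolayPt) *
      ((n : M24) : Equiv.Perm GolayPt) * ((y : M24) : Equiv.Perm GolayPt)⁻¹)
        = ((y : M24) : Equiv.Perm GolayPt) * (((n : M24) : Equiv.Perm GolayPt) *
          ((n : M24) : Equiv.Perm GolayPt)) * ((y : M24) : Equiv.Perm GolayPt)⁻¹ := by group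
    rw [h4, h3, mul_one, mul_inv_cancel]

/-- the subgroup as a set of permutations -/
def eN (S : Fam) (hS : S ∈ sextets) : ↥(NN S hS) ≃ ↥(NSet S) where
  toFun x := ⟨((x.1 : M24) : Equiv.Perm GolayPt), x.2⟩
  invFun k := ⟨⟨⟨k.1, k.2.1⟩, MulAction.mem_stabilizer_iff.mpr (smul_eq_of_fix k.1 S k.2.2.1)⟩,
    k.2⟩
  left_inv _ := rfl
  right_inv _ := rfl

theorem card_NN (S : Fam) (hS : S ∈ sextets) : Nat.card ↥(NN S hS) = 64 := by
  rw [Nat.card_congr (eN S hS), Nat.card_coe_set_eq, ncard_N S hS]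

/-- the structure of a sextet stabilizer -/
theorem main (S : Finset (Finset GolayPt)) (hS : S ∈ sextets) :
    (∀ e : Equiv.Perm ↥S, ∃ g ∈ MulAction.stabilizer M24 S,
      ∀ t : ↥S, (g : Equiv.Perm GolayPt) • (t : Finset GolayPt) = ((e t : ↥S) : Finset GolayPt)) ∧
    Nat.card {g : ↥(MulAction.stabilizer M24 S) //
      ∀ t ∈ S, ((g : M24) : Equiv.Perm GolayPt) • t = t} = 192 ∧
    ∃ N : Subgroup ↥(MulAction.stabilizer M24 S), N.Normal ∧ Nat.card N = 64 ∧
      ∀ x ∈ N, x * x = 1 := by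
  refine ⟨?_, card_fix S hS, NN S hS, NN_normal S hS, card_NN S hS, ?_⟩
  · intro e
    obtain ⟨x, hx⟩ := rho_surj S hS e
    refine ⟨(x : M24), x.2, fun t => ?_⟩
    rw [← hx]
    rfl
  · intro x hx
    exact Subtype.ext (Subtype.ext hx.2.2)

end Cfsg.Agent.Lib_lead_SextStab
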