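import Mathlib
import Cfsg.Prelude.Def_SporadicCombinatorics
import Cfsg.Agent.Lib_lead_ObjOrb2
import Cfsg.Agent.Lib_lead_Sextet
import Cfsg.Agent.Lib_lead_SextetData

/-! The orbits of a sextet stabilizer on the sextets, and its maximality. -/

set_option autoImplicit false

namespace Cfsg.Agent.Lib_lead_SextetOrb

open Cfsg Cfsg.Agent.Lib_lead_Golay Cfsg.Agent.Lib_lead_GolayPerm Cfsg.Agent.Lib_lead_M24
  Cfsg.Agent.Lib_lead_M24Chain Cfsg.Agent.Lib_lead_M24Orb Cfsg.Agent.Lib_lead_ObjOrb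
  Cfsg.Agent.Lib_lead_ObjOrb2 Cfsg.Agent.Lib_lead_Sextet Cfsg.Agent.Lib_lead_SextetData
open scoped Pointwise

theorem rootsT_chk : ∀ r ∈ rootsT, sextChk r = true := by decide +kernel

theorem cert : Cert sextets gensT rootsT tabT sizeT where
  hgen := hgenT
  hroots := hrootsT
  hpos := by decide
  hmem := fun r hr => sextet_of_chk r (rootsT_chk r hr)
  hcls := hclsT
  hinc := hincT
  hinv := hinvT
  hsmul := fun _ hg _ hX => smul_sextet hg hX
  htrans := sextets_trans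
  hcard := by rw [ncard_sextets, hlenT]
  hcount := hcountT

theorem orbit_sub {𝒳 : Set Fam} (hsmul : ∀ g ∈ M24, ∀ X ∈ 𝒳, g • X ∈ 𝒳) (a x : Fam)
    (hx : x ∈ 𝒳) : MulAction.orbit ↥(MulAction.stabilizer ↥M24 a) x ⊆ 𝒳 := by
  rintro y ⟨⟨⟨s, hsM⟩, hsS⟩, rfl⟩
  exact hsmul s hsM x hx

theorem hdivT : ∀ J : Finset (Fin (rootsT.length - 1)),
    (1 + ∑ j ∈ J, sizeT (j.val + 1)) ∣ (1 + ∑ j : Fin (rootsT.length - 1), sizeT (j.val + 1)) →
      J = ∅ ∨ J = Finset.univ := by decide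

/-- orbits of a sextet stabilizer on sextets, and maximality -/
theorem sextet_orbits (S : Fam) (hS : S ∈ sextets) :
    ∃ X₁ ∈ sextets, ∃ X₂ ∈ sextets, ∃ X₃ ∈ sextets,
      (MulAction.orbit ↥(MulAction.stabilizer ↥M24 S) X₁).ncard = 90 ∧
      (MulAction.orbit ↥(MulAction.stabilizer ↥M24 S) X₂).ncard = 240 ∧
      (MulAction.orbit ↥(MulAction.stabilizer ↥M24 S) X₃).ncard = 1440 ∧
      sextets = {S} ∪ MulAction.orbit ↥(MulAction.stabilizer ↥M24 S) X₁ ∪
        MulAction.orbit ↥(MulAction.stabilizer ↥M24 S) X₂ ∪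
        MulAction.orbit ↥(MulAction.stabilizer ↥M24 S) X₃ ∧
      IsCoatom (MulAction.stabilizer ↥M24 S) := by
  obtain ⟨g, hg, hgS⟩ := sextets_trans _ (cert.hmem _ (Cert.root_mem rootsT 0 (by decide))) S hS
  have hS' : S = (⟨g, hg⟩ : ↥M24) • fin (rootsT.getD 0 []) := hgS.symm
  subst hS'
  have hm : ∀ c, c < rootsT.length → (⟨g, hg⟩ : ↥M24) • fin (rootsT.getD c []) ∈ sextets :=
    fun c hc => cert.hsmul g hg _ (cert.hmem _ (Cert.root_mem rootsT c hc))
  refine ⟨_, hm 1 (by decide), _, hm 2 (by decide), _, hm 3 (by decide),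
    cert.orbit_card ⟨g, hg⟩ 1 (by decide), cert.orbit_card ⟨g, hg⟩ 2 (by decide),
    cert.orbit_card ⟨g, hg⟩ 3 (by decide), ?_, cert.coatom hdivT (by decide) ⟨g, hg⟩⟩
  ext X
  constructor
  · intro hX
    obtain ⟨c, hc, hXc⟩ := cert.cover ⟨g, hg⟩ X hX
    have hc4 : c < 4 := hc
    interval_cases c
    · rw [orbit_self] at hXc
      exact Or.inl (Or.inl (Or.inl hXc))
    · exact Or.inl (Or.inl (Or.inr hXc))
    · exact Or.inl (Or.inr hXc)
    · exact Or.inr hXc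
  · rintro (((h | h) | h) | h)
    · rw [Set.mem_singleton_iff] at h
      rw [h]
      exact hS
    · exact orbit_sub cert.hsmul _ _ (hm 1 (by decide)) h
    · exact orbit_sub cert.hsmul _ _ (hm 2 (by decide)) h
    · exact orbit_sub cert.hsmul _ _ (hm 3 (by decide)) h

end Cfsg.Agent.Lib_lead_SextetOrb
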