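import Mathlib
import Cfsg.Agent.Lib_helper4_Simple
import Cfsg.Agent.Lib_helper4_SmallSimple
import Cfsg.Agent.Lib_helper2_Inv

/-! Non-cyclic simple groups of order at most 100 have order 60. -/

set_option autoImplicit false

namespace Cfsg.Agent.Lib_lead_Small100

open Cfsg.Agent.Lib_helper4_Simple Cfsg.Agent.Lib_helper4_SmallSimple

variable {G : Type*} [Group G] [Finite G] [IsSimpleGroup G]

/-- the Sylow counting criterion -/
theorem kill (hG : ¬ IsMulCommutative G) (p k m : ℕ) (hp : p.Prime)
    (hcard : Nat.card G = p ^ k * m) (hk : k ≠ 0) (hm1 : m ≠ 1) (hpm : ¬ p ∣ m)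
    (hcheck : ∀ d ∈ Finset.range (m + 1), d ∣ m → d % p = 1 →
      2 * (p ^ k * m) ∣ d.factorial → False) : False := by
  haveI : Fact p.Prime := ⟨hp⟩
  obtain ⟨P⟩ : Nonempty (Sylow p G) := inferInstance
  have hc := card_sylow_of_card hcard hpm P
  have h1 : (P : Subgroup G) ≠ ⊥ := by
    intro h
    rw [h, Subgroup.card_bot] at hc
    have : 1 < p ^ k := Nat.one_lt_pow hk hp.one_lt
    omega
  have h2 : (P : Subgroup G) ≠ ⊤ := by
    intro h
    rw [h, Subgroup.card_top, hcard] at hc
    have hpos : 0 < p ^ k := pow_pos hp.pos k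
    have h3 : p ^ k * m = p ^ k * 1 := by rw [hc, mul_one]
    exact hm1 (Nat.eq_of_mul_eq_mul_left hpos h3)
  have hd := card_sylow_dvd (G := G) hcard hpm
  have hmod : Nat.card (Sylow p G) % p = 1 := by
    have h3 : Nat.card (Sylow p G) % p = 1 % p := card_sylow_modEq_one p G
    rw [Nat.mod_eq_of_lt hp.one_lt] at h3
    exact h3
  have hfact := two_mul_card_dvd_factorial_card_sylow hG P h1 h2
  rw [hcard] at hfact
  have hm0 : 0 < m := Nat.pos_of_ne_zero (by rintro rfl; exact hpm (dvd_zero p))
  exact hcheck _ (Finset.mem_range.mpr (Nat.lt_succ_of_le (Nat.le_of_dvd hm0 hd))) hd hmod hfact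

/-- prime power orders -/
theorem kill_pow (hG : ¬ IsMulCommutative G) (p k : ℕ) (hp : p.Prime)
    (hcard : Nat.card G = p ^ k) : False := by
  haveI : Fact p.Prime := ⟨hp⟩
  have hPG : IsPGroup p G := IsPGroup.of_card hcard
  haveI : Nontrivial G := IsSimpleGroup.toNontrivial
  have hZ : Nontrivial (Subgroup.center G) := hPG.center_nontrivial
  have hZt : Subgroup.center G = ⊤ := by
    rcases (inferInstance : (Subgroup.center G).Normal).eq_bot_or_eq_top with h | h
    · exfalso
      rw [Subgroup.nontrivial_iff_ne_bot] at hZ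
      exact hZ h
    · exact h
  apply hG
  refine ⟨⟨fun a b => ?_⟩⟩
  have ha : a ∈ Subgroup.center G := by
    rw [hZt]
    trivial
  exact (Subgroup.mem_center_iff.mp ha b).symm

/-- orders twice an odd number -/
theorem kill_two_odd (m : ℕ) (hm : ¬ 2 ∣ m) (hm1 : 1 < m) (hcard : Nat.card G = 2 * m) :
    False := by
  haveI : Fact (Nat.Prime 2) := ⟨Nat.prime_two⟩
  obtain ⟨T⟩ : Nonempty (Sylow 2 G) := inferInstance
  have hc : Nat.card (T : Subgroup G) = 2 ^ 1 :=
    card_sylow_of_card (by rw [hcard, pow_one]) hm T
  have hT : IsCyclic (T : Subgroup G) := isCyclic_of_prime_card (p := 2) (by rw [hc, pow_one])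
  obtain ⟨H, hH⟩ := Cfsg.Agent.Lib_helper2_Inv.exists_index_two_of_cyclic_sylow
    (by rw [hcard]; exact even_two_mul m) T hT
  have hn : H.Normal := Subgroup.normal_of_index_eq_two hH
  rcases hn.eq_bot_or_eq_top with h | h
  · rw [h, Subgroup.index_bot, hcard] at hH
    omega
  · rw [h, Subgroup.index_top] at hH
    omega

/-- order 56 -/
theorem kill56 (hG : ¬ IsMulCommutative G) (hcard : Nat.card G = 56) : False := by
  haveI : Fact (Nat.Prime 7) := ⟨by norm_num⟩
  obtain ⟨P⟩ : Nonempty (Sylow 7 G) := inferInstance
  have hcard' : Nat.card G = 7 ^ 1 * 8 := hcard.trans (by norm_num)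
  have hc : Nat.card (P : Subgroup G) = 7 ^ 1 := card_sylow_of_card hcard' (by norm_num) P
  have hd := card_sylow_dvd (G := G) hcard' (by norm_num)
  have hne := card_sylow_ne_one (G := G) hcard' (by norm_num) (by norm_num) (by norm_num)
  have hmod : Nat.card (Sylow 7 G) % 7 = 1 % 7 := card_sylow_modEq_one 7 G
  have h8 : Nat.card (Sylow 7 G) = 8 := by
    have hle : Nat.card (Sylow 7 G) ≤ 8 := Nat.le_of_dvd (by norm_num) hd
    have hdd : ∀ d : ℕ, d ≤ 8 → d ∣ 8 → d % 7 = 1 % 7 → d ≠ 1 → d = 8 := by decide
    exact hdd _ hle hd hmod hne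
  have hN := card_normalizer_sylow P
  rw [h8, hcard] at hN
  have hN7 : Nat.card (Subgroup.normalizer ((P : Subgroup G) : Set G)) = 7 := by omega
  have hPN : (P : Subgroup G) = Subgroup.normalizer ((P : Subgroup G) : Set G) := by
    apply Subgroup.eq_of_le_of_card_ge Subgroup.le_normalizer
    rw [hN7, hc]
    norm_num
  have hcyc : IsCyclic (P : Subgroup G) := isCyclic_of_prime_card (p := 7) (by rw [hc]; norm_num)
  have hle : Subgroup.normalizer ((P : Subgroup G) : Set G)
      ≤ Subgroup.centralizer ((P : Subgroup G) : Set G) := by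
    rw [← hPN]
    intro a ha
    rw [Subgroup.mem_centralizer_iff]
    intro b hb
    obtain ⟨g, hg⟩ := hcyc.exists_generator
    obtain ⟨i, hi⟩ := Subgroup.mem_zpowers_iff.mp (hg ⟨a, ha⟩)
    obtain ⟨j, hj⟩ := Subgroup.mem_zpowers_iff.mp (hg ⟨b, hb⟩)
    have ea : a = ((g ^ i : ↥(P : Subgroup G)) : G) := by rw [hi]
    have eb : b = ((g ^ j : ↥(P : Subgroup G)) : G) := by rw [hj]
    rw [ea, eb, ← Subgroup.coe_mul, ← Subgroup.coe_mul, ← zpow_add, ← zpow_add, add_comm]
  have hcompl := MonoidHom.ker_transferSylow_isComplement' P hle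
  have hidx := hcompl.symm.index_eq_card
  rcases (inferInstance : (MonoidHom.transferSylow P hle).ker.Normal).eq_bot_or_eq_top with h | h
  · rw [h, Subgroup.index_bot, hcard] at hidx
    have hc' : Nat.card (P : Subgroup G) = 7 := by rw [hc]; norm_num
    omega
  · rw [h, Subgroup.index_top] at hidx
    have hc' : Nat.card (P : Subgroup G) = 7 := by rw [hc]; norm_num
    omega

/-- non-cyclic simple groups of order at most 100 have order 60 -/
theorem main (hG : ¬ IsCyclic G) (h : Nat.card G ≤ 100) : Nat.card G = 60 := by
  have hnp : ¬ (Nat.card G).Prime := by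
    intro hp
    haveI : Fact (Nat.card G).Prime := ⟨hp⟩
    exact hG (isCyclic_of_prime_card rfl)
  have hnc : ¬ IsMulCommutative G := not_isMulCommutative_of_not_prime hnp
  haveI : Nontrivial G := IsSimpleGroup.toNontrivial
  have h1 : 1 < Nat.card G := Finite.one_lt_card
  obtain ⟨n, hn⟩ : ∃ n, Nat.card G = n := ⟨_, rfl⟩
  rw [hn] at h h1 hnp ⊢
  interval_cases n
  · exact absurd (by norm_num : Nat.Prime 2) hnp
  · exact absurd (by norm_num : Nat.Prime 3) hnp
  · exact (kill_pow hnc 2 2 (by norm_num) (hn.trans (by norm_num))).elim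
  · exact absurd (by norm_num : Nat.Prime 5) hnp
  · exact (kill hnc 3 1 2 (by norm_num) (hn.trans (by norm_num)) (by norm_num) (by norm_num) (by norm_num) (by decide +kernel)).elim
  · exact absurd (by norm_num : Nat.Prime 7) hnp
  · exact (kill_pow hnc 2 3 (by norm_num) (hn.trans (by norm_num))).elim
  · exact (kill_pow hnc 3 2 (by norm_num) (hn.trans (by norm_num))).elim
  · exact (kill hnc 5 1 2 (by norm_num) (hn.trans (by norm_num)) (by norm_num) (by norm_num) (by norm_num) (by decide +kernel)).elim
  · exact absurd (by norm_num : Nat.Prime 11) hnp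
  · exact (kill hnc 2 2 3 (by norm_num) (hn.trans (by norm_num)) (by norm_num) (by norm_num) (by norm_num) (by decide +kernel)).elim
  · exact absurd (by norm_num : Nat.Prime 13) hnp
  · exact (kill hnc 7 1 2 (by norm_num) (hn.trans (by norm_num)) (by norm_num) (by norm_num) (by norm_num) (by decide +kernel)).elim
  · exact (kill hnc 5 1 3 (by norm_num) (hn.trans (by norm_num)) (by norm_num) (by norm_num) (by norm_num) (by decide +kernel)).elim
  · exact (kill_pow hnc 2 4 (by norm_num) (hn.trans (by norm_num))).elim
  · exact absurd (by norm_num : Nat.Prime 17) hnp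
  · exact (kill hnc 3 2 2 (by norm_num) (hn.trans (by norm_num)) (by norm_num) (by norm_num) (by norm_num) (by decide +kernel)).elim
  · exact absurd (by norm_num : Nat.Prime 19) hnp
  · exact (kill hnc 5 1 4 (by norm_num) (hn.trans (by norm_num)) (by norm_num) (by norm_num) (by norm_num) (by decide +kernel)).elim
  · exact (kill hnc 7 1 3 (by norm_num) (hn.trans (by norm_num)) (by norm_num) (by norm_num) (by norm_num) (by decide +kernel)).elim
  · exact (kill hnc 11 1 2 (by norm_num) (hn.trans (by norm_num)) (by norm_num) (by norm_num) (by norm_num) (by decide +kernel)).elim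
  · exact absurd (by norm_num : Nat.Prime 23) hnp
  · exact (kill hnc 3 1 8 (by norm_num) (hn.trans (by norm_num)) (by norm_num) (by norm_num) (by norm_num) (by decide +kernel)).elim
  · exact (kill_pow hnc 5 2 (by norm_num) (hn.trans (by norm_num))).elim
  · exact (kill hnc 13 1 2 (by norm_num) (hn.trans (by norm_num)) (by norm_num) (by norm_num) (by norm_num) (by decide +kernel)).elim
  · exact (kill_pow hnc 3 3 (by norm_num) (hn.trans (by norm_num))).elim
  · exact (kill hnc 7 1 4 (by norm_num) (hn.trans (by norm_num)) (by norm_num) (by norm_num) (by norm_num) (by decide +kernel)).elim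
  · exact absurd (by norm_num : Nat.Prime 29) hnp
  · exact (kill_two_odd 15 (by decide) (by norm_num) (hn.trans (by norm_num))).elim
  · exact absurd (by norm_num : Nat.Prime 31) hnp
  · exact (kill_pow hnc 2 5 (by norm_num) (hn.trans (by norm_num))).elim
  · exact (kill hnc 11 1 3 (by norm_num) (hn.trans (by norm_num)) (by norm_num) (by norm_num) (by norm_num) (by decide +kernel)).elim
  · exact (kill hnc 17 1 2 (by norm_num) (hn.trans (by norm_num)) (by norm_num) (by norm_num) (by norm_num) (by decide +kernel)).elim
  · exact (kill hnc 7 1 5 (by norm_num) (hn.trans (by norm_num)) (by norm_num) (by norm_num) (by norm_num) (by decide +kernel)).elim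
  · exact (kill hnc 3 2 4 (by norm_num) (hn.trans (by norm_num)) (by norm_num) (by norm_num) (by norm_num) (by decide +kernel)).elim
  · exact absurd (by norm_num : Nat.Prime 37) hnp
  · exact (kill hnc 19 1 2 (by norm_num) (hn.trans (by norm_num)) (by norm_num) (by norm_num) (by norm_num) (by decide +kernel)).elim
  · exact (kill hnc 13 1 3 (by norm_num) (hn.trans (by norm_num)) (by norm_num) (by norm_num) (by norm_num) (by decide +kernel)).elim
  · exact (kill hnc 5 1 8 (by norm_num) (hn.trans (by norm_num)) (by norm_num) (by norm_num) (by norm_num) (by decide +kernel)).elim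
  · exact absurd (by norm_num : Nat.Prime 41) hnp
  · exact (kill hnc 7 1 6 (by norm_num) (hn.trans (by norm_num)) (by norm_num) (by norm_num) (by norm_num) (by decide +kernel)).elim
  · exact absurd (by norm_num : Nat.Prime 43) hnp
  · exact (kill hnc 11 1 4 (by norm_num) (hn.trans (by norm_num)) (by norm_num) (by norm_num) (by norm_num) (by decide +kernel)).elim
  · exact (kill hnc 5 1 9 (by norm_num) (hn.trans (by norm_num)) (by norm_num) (by norm_num) (by norm_num) (by decide +kernel)).elim
  · exact (kill hnc 23 1 2 (by norm_num) (hn.trans (by norm_num)) (by norm_num) (by norm_num) (by norm_num) (by decide +kernel)).elim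
  · exact absurd (by norm_num : Nat.Prime 47) hnp
  · exact (kill hnc 2 4 3 (by norm_num) (hn.trans (by norm_num)) (by norm_num) (by norm_num) (by norm_num) (by decide +kernel)).elim
  · exact (kill_pow hnc 7 2 (by norm_num) (hn.trans (by norm_num))).elim
  · exact (kill hnc 5 2 2 (by norm_num) (hn.trans (by norm_num)) (by norm_num) (by norm_num) (by norm_num) (by decide +kernel)).elim
  · exact (kill hnc 17 1 3 (by norm_num) (hn.trans (by norm_num)) (by norm_num) (by norm_num) (by norm_num) (by decide +kernel)).elim
  · exact (kill hnc 13 1 4 (by norm_num) (hn.trans (by norm_num)) (by norm_num) (by norm_num) (by norm_num) (by decide +kernel)).elim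
  · exact absurd (by norm_num : Nat.Prime 53) hnp
  · exact (kill hnc 3 3 2 (by norm_num) (hn.trans (by norm_num)) (by norm_num) (by norm_num) (by norm_num) (by decide +kernel)).elim
  · exact (kill hnc 11 1 5 (by norm_num) (hn.trans (by norm_num)) (by norm_num) (by norm_num) (by norm_num) (by decide +kernel)).elim
  · exact (kill56 hnc hn).elim
  · exact (kill hnc 19 1 3 (by norm_num) (hn.trans (by norm_num)) (by norm_num) (by norm_num) (by norm_num) (by decide +kernel)).elim
  · exact (kill hnc 29 1 2 (by norm_num) (hn.trans (by norm_num)) (by norm_num) (by norm_num) (by norm_num) (by decide +kernel)).elim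
  · exact absurd (by norm_num : Nat.Prime 59) hnp
  · rfl
  · exact absurd (by norm_num : Nat.Prime 61) hnp
  · exact (kill hnc 31 1 2 (by norm_num) (hn.trans (by norm_num)) (by norm_num) (by norm_num) (by norm_num) (by decide +kernel)).elim
  · exact (kill hnc 7 1 9 (by norm_num) (hn.trans (by norm_num)) (by norm_num) (by norm_num) (by norm_num) (by decide +kernel)).elim
  · exact (kill_pow hnc 2 6 (by norm_num) (hn.trans (by norm_num))).elim
  · exact (kill hnc 13 1 5 (by norm_num) (hn.trans (by norm_num)) (by norm_num) (by norm_num) (by norm_num) (by decide +kernel)).elim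
  · exact (kill hnc 11 1 6 (by norm_num) (hn.trans (by norm_num)) (by norm_num) (by norm_num) (by norm_num) (by decide +kernel)).elim
  · exact absurd (by norm_num : Nat.Prime 67) hnp
  · exact (kill hnc 17 1 4 (by norm_num) (hn.trans (by norm_num)) (by norm_num) (by norm_num) (by norm_num) (by decide +kernel)).elim
  · exact (kill hnc 23 1 3 (by norm_num) (hn.trans (by norm_num)) (by norm_num) (by norm_num) (by norm_num) (by decide +kernel)).elim
  · exact (kill hnc 7 1 10 (by norm_num) (hn.trans (by norm_num)) (by norm_num) (by norm_num) (by norm_num) (by decide +kernel)).elim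
  · exact absurd (by norm_num : Nat.Prime 71) hnp
  · exact (kill hnc 3 2 8 (by norm_num) (hn.trans (by norm_num)) (by norm_num) (by norm_num) (by norm_num) (by decide +kernel)).elim
  · exact absurd (by norm_num : Nat.Prime 73) hnp
  · exact (kill hnc 37 1 2 (by norm_num) (hn.trans (by norm_num)) (by norm_num) (by norm_num) (by norm_num) (by decide +kernel)).elim
  · exact (kill hnc 5 2 3 (by norm_num) (hn.trans (by norm_num)) (by norm_num) (by norm_num) (by norm_num) (by decide +kernel)).elim
  · exact (kill hnc 19 1 4 (by norm_num) (hn.trans (by norm_num)) (by norm_num) (by norm_num) (by norm_num) (by decide +kernel)).elim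
  · exact (kill hnc 11 1 7 (by norm_num) (hn.trans (by norm_num)) (by norm_num) (by norm_num) (by norm_num) (by decide +kernel)).elim
  · exact (kill hnc 13 1 6 (by norm_num) (hn.trans (by norm_num)) (by norm_num) (by norm_num) (by norm_num) (by decide +kernel)).elim
  · exact absurd (by norm_num : Nat.Prime 79) hnp
  · exact (kill hnc 2 4 5 (by norm_num) (hn.trans (by norm_num)) (by norm_num) (by norm_num) (by norm_num) (by decide +kernel)).elim
  · exact (kill_pow hnc 3 4 (by norm_num) (hn.trans (by norm_num))).elim
  · exact (kill hnc 41 1 2 (by norm_num) (hn.trans (by norm_num)) (by norm_num) (by norm_num) (by norm_num) (by decide +kernel)).elim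
  · exact absurd (by norm_num : Nat.Prime 83) hnp
  · exact (kill hnc 7 1 12 (by norm_num) (hn.trans (by norm_num)) (by norm_num) (by norm_num) (by norm_num) (by decide +kernel)).elim
  · exact (kill hnc 17 1 5 (by norm_num) (hn.trans (by norm_num)) (by norm_num) (by norm_num) (by norm_num) (by decide +kernel)).elim
  · exact (kill hnc 43 1 2 (by norm_num) (hn.trans (by norm_num)) (by norm_num) (by norm_num) (by norm_num) (by decide +kernel)).elim
  · exact (kill hnc 29 1 3 (by norm_num) (hn.trans (by norm_num)) (by norm_num) (by norm_num) (by norm_num) (by decide +kernel)).elim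
  · exact (kill hnc 11 1 8 (by norm_num) (hn.trans (by norm_num)) (by norm_num) (by norm_num) (by norm_num) (by decide +kernel)).elim
  · exact absurd (by norm_num : Nat.Prime 89) hnp
  · exact (kill_two_odd 45 (by decide) (by norm_num) (hn.trans (by norm_num))).elim
  · exact (kill hnc 13 1 7 (by norm_num) (hn.trans (by norm_num)) (by norm_num) (by norm_num) (by norm_num) (by decide +kernel)).elim
  · exact (kill hnc 23 1 4 (by norm_num) (hn.trans (by norm_num)) (by norm_num) (by norm_num) (by norm_num) (by decide +kernel)).elim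
  · exact (kill hnc 31 1 3 (by norm_num) (hn.trans (by norm_num)) (by norm_num) (by norm_num) (by norm_num) (by decide +kernel)).elim
  · exact (kill hnc 47 1 2 (by norm_num) (hn.trans (by norm_num)) (by norm_num) (by norm_num) (by norm_num) (by decide +kernel)).elim
  · exact (kill hnc 19 1 5 (by norm_num) (hn.trans (by norm_num)) (by norm_num) (by norm_num) (by norm_num) (by decide +kernel)).elim
  · exact (kill hnc 2 5 3 (by norm_num) (hn.trans (by norm_num)) (by norm_num) (by norm_num) (by norm_num) (by decide +kernel)).elim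
  · exact absurd (by norm_num : Nat.Prime 97) hnp
  · exact (kill hnc 7 2 2 (by norm_num) (hn.trans (by norm_num)) (by norm_num) (by norm_num) (by norm_num) (by decide +kernel)).elim
  · exact (kill hnc 11 1 9 (by norm_num) (hn.trans (by norm_num)) (by norm_num) (by norm_num) (by norm_num) (by decide +kernel)).elim
  · exact (kill hnc 5 2 4 (by norm_num) (hn.trans (by norm_num)) (by norm_num) (by norm_num) (by norm_num) (by decide +kernel)).elim

end Cfsg.Agent.Lib_lead_Small100
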