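import Mathlib
import Cfsg.Prelude.Def_Sporadic_a

/-! A counting criterion for Steiner systems. -/

set_option autoImplicit false

namespace Cfsg.Agent.Lib_lead_Steiner2

open Finset

/-- A family of `k`-subsets no two of which share a `t`-subset, and with the right number of
members, is a Steiner system. -/
theorem steiner_of_count {β : Type*} [Fintype β] [DecidableEq β] (F : Finset (Finset β))
    (t k : ℕ) (hk : ∀ e ∈ F, e.card = k)
    (huniq : ∀ e ∈ F, ∀ e' ∈ F, ∀ s : Finset β, s.card = t → s ⊆ e → s ⊆ e' → e = e')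
    (hcount : F.card * k.choose t = (Fintype.card β).choose t) :
    Cfsg.IsSteinerSystem t k (F : Set (Finset β)) := by
  refine ⟨fun b hb => hk b hb, ?_⟩
  intro s hs
  have hdisj : ∀ b ∈ F, ∀ b' ∈ F, b ≠ b' →
      Disjoint (b.powersetCard t) (b'.powersetCard t) := by
    intro b hb b' hb' hne
    rw [Finset.disjoint_left]
    intro u hu hu'
    rw [Finset.mem_powersetCard] at hu hu'
    exact hne (huniq b hb b' hb' u hu.2 hu.1 hu'.1)
  have hcardU : (F.biUnion (fun b => b.powersetCard t)).card = (Fintype.card β).choose t := by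
    rw [Finset.card_biUnion hdisj]
    have hc : ∀ b ∈ F, (b.powersetCard t).card = k.choose t := by
      intro b hb
      rw [Finset.card_powersetCard, hk b hb]
    rw [Finset.sum_congr rfl hc, Finset.sum_const, smul_eq_mul, hcount]
  have hsub : F.biUnion (fun b => b.powersetCard t)
      ⊆ (Finset.univ : Finset β).powersetCard t := by
    intro u hu
    rw [Finset.mem_biUnion] at hu
    obtain ⟨b, _, hb⟩ := hu
    rw [Finset.mem_powersetCard] at hb ⊢
    exact ⟨Finset.subset_univ _, hb.2⟩
  have heq := Finset.eq_of_subset_of_card_le hsub (by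
    rw [Finset.card_powersetCard, hcardU, Finset.card_univ])
  have hsmem : s ∈ F.biUnion (fun b => b.powersetCard t) := by
    rw [heq, Finset.mem_powersetCard]
    exact ⟨Finset.subset_univ _, hs⟩
  rw [Finset.mem_biUnion] at hsmem
  obtain ⟨b, hb, hsb⟩ := hsmem
  rw [Finset.mem_powersetCard] at hsb
  refine ⟨b, ⟨hb, hsb.1⟩, ?_⟩
  rintro b' ⟨hb', hsb'⟩
  exact huniq b' hb' b hb s hs hsb' hsb.1

end Cfsg.Agent.Lib_lead_Steiner2
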