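import Mathlib
import Cfsg.Prelude.Def_Sporadic_a
import Cfsg.Agent.Lib_lead_Steiner

/-! The block graph of a Steiner system `S(3, 6, 22)`: intersection numbers and the parameters
`(77, 16, 0, 4)`. -/

set_option autoImplicit false

namespace Cfsg.Agent.Lib_lead_Steiner22

section core

variable {α : Type*} [DecidableEq α]

/-- number of blocks meeting `T` in `j` points -/
def cnt (BF : Finset (Finset α)) (T : Finset α) (j : ℕ) : ℕ :=
  (BF.filter (fun d => (d ∩ T).card = j)).card

theorem sum_by_value (BF : Finset (Finset α)) (T : Finset α) (N : ℕ)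
    (hg : ∀ d ∈ BF, (d ∩ T).card < N) (f : ℕ → ℕ) :
    ∑ d ∈ BF, f (d ∩ T).card = ∑ j ∈ Finset.range N, f j * cnt BF T j := by
  have h1 : ∀ j, f j * cnt BF T j = ∑ d ∈ BF, if (d ∩ T).card = j then f j else 0 := by
    intro j
    unfold cnt
    rw [Finset.card_filter, Finset.mul_sum]
    apply Finset.sum_congr rfl
    intro d _
    split_ifs <;> simp
  rw [Finset.sum_congr rfl (fun j _ => h1 j), Finset.sum_comm]
  apply Finset.sum_congr rfl
  intro d hd
  rw [Finset.sum_ite_eq, if_pos (Finset.mem_range.mpr (hg d hd))]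

theorem cnt_zero (BF : Finset (Finset α)) (T : Finset α) (j : ℕ)
    (h : ∀ d ∈ BF, (d ∩ T).card ≠ j) : cnt BF T j = 0 := by
  unfold cnt
  rw [Finset.card_eq_zero, Finset.filter_eq_empty_iff]
  exact fun d hd => h d hd

theorem cnt_pair (BF : Finset (Finset α)) (T : Finset α) (b c : Finset α) (hb : b ∈ BF)
    (hc : c ∈ BF) (hne : b ≠ c) (j : ℕ)
    (h : ∀ d ∈ BF, (d ∩ T).card = j ↔ (d = b ∨ d = c)) : cnt BF T j = 2 := by
  unfold cnt
  have e : BF.filter (fun d => (d ∩ T).card = j) = {b, c} := by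
    ext d
    rw [Finset.mem_filter, Finset.mem_insert, Finset.mem_singleton]
    constructor
    · rintro ⟨hd, h'⟩
      exact (h d hd).mp h'
    · rintro (rfl | rfl)
      · exact ⟨hb, (h _ hb).mpr (Or.inl rfl)⟩
      · exact ⟨hc, (h _ hc).mpr (Or.inr rfl)⟩
  rw [e, Finset.card_pair hne]

theorem inter_union (d b c : Finset α) :
    (d ∩ (b ∪ c)).card + (d ∩ (b ∩ c)).card = (d ∩ b).card + (d ∩ c).card := by
  have h := Finset.card_union_add_card_inter (d ∩ b) (d ∩ c)
  rw [← Finset.inter_union_distrib_left, ← Finset.inter_inter_distrib_left] at h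
  exact h

/-- the moment equations for the intersections of the blocks with a set `T` -/
theorem moments [Fintype α] (hα : Fintype.card α = 22) {B : Set (Finset α)}
    (hB : Cfsg.IsSteinerSystem 3 6 B) (BF : Finset (Finset α)) (hBF : ∀ b, b ∈ BF ↔ b ∈ B)
    (T : Finset α) :
    (cnt BF T 0 + cnt BF T 1 + cnt BF T 2 + cnt BF T 3 + cnt BF T 4 + cnt BF T 5 + cnt BF T 6) * 20
      = 1540 ∧
    (cnt BF T 1 + 2 * cnt BF T 2 + 3 * cnt BF T 3 + 4 * cnt BF T 4 + 5 * cnt BF T 5
      + 6 * cnt BF T 6) * 10 = T.card * 210 ∧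
    (cnt BF T 2 + 3 * cnt BF T 3 + 6 * cnt BF T 4 + 10 * cnt BF T 5 + 15 * cnt BF T 6) * 4
      = T.card.choose 2 * 20 ∧
    (cnt BF T 3 + 4 * cnt BF T 4 + 10 * cnt BF T 5 + 20 * cnt BF T 6) = T.card.choose 3 := by
  have hlt : ∀ d ∈ BF, (d ∩ T).card < 7 := by
    intro d hd
    have h6 := hB.1 d ((hBF d).mp hd)
    have := Finset.card_le_card (Finset.inter_subset_left : d ∩ T ⊆ d)
    omega
  have e0 := Cfsg.Agent.Lib_lead_Steiner.inter_sum_steiner hB BF hBF T 0 (by norm_num)
  have e1 := Cfsg.Agent.Lib_lead_Steiner.inter_sum_steiner hB BF hBF T 1 (by norm_num)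
  have e2 := Cfsg.Agent.Lib_lead_Steiner.inter_sum_steiner hB BF hBF T 2 (by norm_num)
  have e3 := Cfsg.Agent.Lib_lead_Steiner.inter_sum_steiner hB BF hBF T 3 (by norm_num)
  rw [sum_by_value BF T 7 hlt (fun n => n.choose 0)] at e0
  rw [sum_by_value BF T 7 hlt (fun n => n.choose 1)] at e1
  rw [sum_by_value BF T 7 hlt (fun n => n.choose 2)] at e2
  rw [sum_by_value BF T 7 hlt (fun n => n.choose 3)] at e3
  rw [hα] at e0 e1 e2 e3
  simp only [Finset.sum_range_succ, Finset.sum_range_zero, Nat.choose_zero_right,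
    Nat.choose_one_right, Nat.sub_zero, Nat.reduceSub,
    show Nat.choose 0 2 = 0 from by decide,
    show Nat.choose 1 2 = 0 from by decide,
    show Nat.choose 2 2 = 1 from by decide,
    show Nat.choose 3 2 = 3 from by decide,
    show Nat.choose 4 2 = 6 from by decide,
    show Nat.choose 5 2 = 10 from by decide,
    show Nat.choose 6 2 = 15 from by decide,
    show Nat.choose 0 3 = 0 from by decide,
    show Nat.choose 1 3 = 0 from by decide,
    show Nat.choose 2 3 = 0 from by decide,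
    show Nat.choose 3 3 = 1 from by decide,
    show Nat.choose 4 3 = 4 from by decide,
    show Nat.choose 5 3 = 10 from by decide,
    show Nat.choose 6 3 = 20 from by decide,
    show Nat.choose 3 0 = 1 from by decide,
    show Nat.choose 22 3 = 1540 from by decide,
    show Nat.choose 21 2 = 210 from by decide,
    show Nat.choose 19 0 = 1 from by decide,
    show Nat.choose 4 1 = 4 from by decide,
    show Nat.choose 20 1 = 20 from by decide] at e0 e1 e2 e3
  refine ⟨?_, ?_, ?_, ?_⟩ <;> omega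

/-- distinct blocks meet in at most two points -/
theorem inter_le_two {B : Set (Finset α)} (hB : Cfsg.IsSteinerSystem 3 6 B) {b c : Finset α}
    (hb : b ∈ B) (hc : c ∈ B) (hne : c ≠ b) : (c ∩ b).card ≤ 2 := by
  by_contra h
  exact hne (Cfsg.Agent.Lib_lead_Steiner.eq_of_inter_ge hB hc hb (by omega))

/-- a block is disjoint from 16 blocks and meets no block in exactly one point -/
theorem block_counts [Fintype α] (hα : Fintype.card α = 22) {B : Set (Finset α)}
    (hB : Cfsg.IsSteinerSystem 3 6 B) (BF : Finset (Finset α)) (hBF : ∀ b, b ∈ BF ↔ b ∈ B)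
    (b : Finset α) (hb : b ∈ BF) : cnt BF b 0 = 16 ∧ cnt BF b 1 = 0 := by
  obtain ⟨m0, m1, m2, m3⟩ := moments hα hB BF hBF b
  have hb6 : b.card = 6 := hB.1 b ((hBF b).mp hb)
  have hall : ∀ d ∈ BF, (d ∩ b).card ≤ 2 ∨ (d = b ∧ (d ∩ b).card = 6) := by
    intro d hd
    by_cases hdb : d = b
    · right
      refine ⟨hdb, ?_⟩
      rw [hdb, Finset.inter_self, hb6]
    · left
      exact inter_le_two hB ((hBF b).mp hb) ((hBF d).mp hd) hdb
  have h3 : cnt BF b 3 = 0 := cnt_zero BF b 3 (fun d hd => by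
    rcases hall d hd with h | ⟨-, h⟩ <;> omega)
  have h4 : cnt BF b 4 = 0 := cnt_zero BF b 4 (fun d hd => by
    rcases hall d hd with h | ⟨-, h⟩ <;> omega)
  have h5 : cnt BF b 5 = 0 := cnt_zero BF b 5 (fun d hd => by
    rcases hall d hd with h | ⟨-, h⟩ <;> omega)
  have h6 : cnt BF b 6 = 1 := by
    unfold cnt
    have e : BF.filter (fun d => (d ∩ b).card = 6) = {b} := by
      ext d
      rw [Finset.mem_filter, Finset.mem_singleton]
      constructor
      · rintro ⟨hd, h⟩
        rcases hall d hd with h' | ⟨h', -⟩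
        · omega
        · exact h'
      · rintro rfl
        exact ⟨hb, by rw [Finset.inter_self, hb6]⟩
    rw [e, Finset.card_singleton]
  rw [hb6] at m1 m2 m3
  have c62 : Nat.choose 6 2 = 15 := by decide
  rw [c62] at m2
  constructor <;> omega

/-- two distinct blocks meet in 0 or 2 points -/
theorem inter_zero_or_two [Fintype α] (hα : Fintype.card α = 22) {B : Set (Finset α)}
    (hB : Cfsg.IsSteinerSystem 3 6 B) (BF : Finset (Finset α)) (hBF : ∀ b, b ∈ BF ↔ b ∈ B)
    (b c : Finset α) (hb : b ∈ BF) (hc : c ∈ BF) (hne : c ≠ b) :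
    (c ∩ b).card = 0 ∨ (c ∩ b).card = 2 := by
  have h1 := (block_counts hα hB BF hBF b hb).2
  have h2 := inter_le_two hB ((hBF b).mp hb) ((hBF c).mp hc) hne
  have h3 : (c ∩ b).card ≠ 1 := by
    intro h
    unfold cnt at h1
    rw [Finset.card_eq_zero, Finset.filter_eq_empty_iff] at h1
    exact h1 hc h
  omega

/-- the classification of the intersections with the union of two distinct blocks -/
theorem union_vals [Fintype α] (hα : Fintype.card α = 22) {B : Set (Finset α)}
    (hB : Cfsg.IsSteinerSystem 3 6 B) (BF : Finset (Finset α)) (hBF : ∀ b, b ∈ BF ↔ b ∈ B)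
    (b c : Finset α) (hb : b ∈ BF) (hc : c ∈ BF) (d : Finset α) (hd : d ∈ BF) :
    ((d = b ∨ d = c) ∧ (d ∩ (b ∪ c)).card = 6) ∨
    (d ≠ b ∧ d ≠ c ∧ ((d ∩ b).card = 0 ∨ (d ∩ b).card = 2) ∧ ((d ∩ c).card = 0 ∨ (d ∩ c).card = 2)
      ∧ (d ∩ (b ∪ c)).card + (d ∩ (b ∩ c)).card = (d ∩ b).card + (d ∩ c).card
      ∧ (d ∩ (b ∩ c)).card ≤ (d ∩ b).card ∧ (d ∩ (b ∩ c)).card ≤ (d ∩ c).card
      ∧ (d ∩ (b ∩ c)).card ≤ (b ∩ c).card) := by
  have hb6 : b.card = 6 := hB.1 b ((hBF b).mp hb)
  have hc6 : c.card = 6 := hB.1 c ((hBF c).mp hc)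
  by_cases hdb : d = b
  · left
    refine ⟨Or.inl hdb, ?_⟩
    rw [hdb, Finset.inter_eq_left.mpr Finset.subset_union_left, hb6]
  · by_cases hdc : d = c
    · left
      refine ⟨Or.inr hdc, ?_⟩
      rw [hdc, Finset.inter_eq_left.mpr Finset.subset_union_right, hc6]
    · right
      refine ⟨hdb, hdc, inter_zero_or_two hα hB BF hBF b d hb hd hdb,
        inter_zero_or_two hα hB BF hBF c d hc hd hdc, inter_union d b c, ?_, ?_, ?_⟩
      · exact Finset.card_le_card (Finset.inter_subset_inter (Finset.Subset.refl d)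
          Finset.inter_subset_left)
      · exact Finset.card_le_card (Finset.inter_subset_inter (Finset.Subset.refl d)
          Finset.inter_subset_right)
      · exact Finset.card_le_card Finset.inter_subset_right

/-- no block is disjoint from two disjoint blocks -/
theorem lam [Fintype α] (hα : Fintype.card α = 22) {B : Set (Finset α)}
    (hB : Cfsg.IsSteinerSystem 3 6 B) (BF : Finset (Finset α)) (hBF : ∀ b, b ∈ BF ↔ b ∈ B)
    (b c : Finset α) (hb : b ∈ BF) (hc : c ∈ BF) (hbc : (b ∩ c).card = 0) :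
    cnt BF (b ∪ c) 0 = 0 := by
  obtain ⟨m0, m1, m2, m3⟩ := moments hα hB BF hBF (b ∪ c)
  have hb6 : b.card = 6 := hB.1 b ((hBF b).mp hb)
  have hc6 : c.card = 6 := hB.1 c ((hBF c).mp hc)
  have hT : (b ∪ c).card = 12 := by
    have := Finset.card_union_add_card_inter b c
    omega
  have hne : b ≠ c := by
    rintro rfl
    rw [Finset.inter_self] at hbc
    omega
  have hall := union_vals hα hB BF hBF b c hb hc
  have z1 : cnt BF (b ∪ c) 1 = 0 := cnt_zero BF _ 1 (fun d hd => by
    rcases hall d hd with ⟨-, h⟩ | ⟨-, -, h1, h2, h3, h4, h5, h6⟩ <;> omega)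
  have z3 : cnt BF (b ∪ c) 3 = 0 := cnt_zero BF _ 3 (fun d hd => by
    rcases hall d hd with ⟨-, h⟩ | ⟨-, -, h1, h2, h3, h4, h5, h6⟩ <;> omega)
  have z5 : cnt BF (b ∪ c) 5 = 0 := cnt_zero BF _ 5 (fun d hd => by
    rcases hall d hd with ⟨-, h⟩ | ⟨-, -, h1, h2, h3, h4, h5, h6⟩ <;> omega)
  have z6 : cnt BF (b ∪ c) 6 = 2 := cnt_pair BF _ b c hb hc hne 6 (fun d hd => by
    rcases hall d hd with ⟨h', h⟩ | ⟨h1', h2', h1, h2, h3, h4, h5, h6⟩
    · exact ⟨fun _ => h', fun _ => h⟩
    · constructor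
      · intro h
        omega
      · rintro (h | h)
        · exact absurd h h1'
        · exact absurd h h2')
  rw [hT] at m1 m2 m3
  have c122 : Nat.choose 12 2 = 66 := by decide
  rw [c122] at m2
  omega

/-- exactly four blocks are disjoint from two blocks meeting in two points -/
theorem mu [Fintype α] (hα : Fintype.card α = 22) {B : Set (Finset α)}
    (hB : Cfsg.IsSteinerSystem 3 6 B) (BF : Finset (Finset α)) (hBF : ∀ b, b ∈ BF ↔ b ∈ B)
    (b c : Finset α) (hb : b ∈ BF) (hc : c ∈ BF) (hbc : (b ∩ c).card = 2) :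
    cnt BF (b ∪ c) 0 = 4 := by
  obtain ⟨m0, m1, m2, m3⟩ := moments hα hB BF hBF (b ∪ c)
  have hb6 : b.card = 6 := hB.1 b ((hBF b).mp hb)
  have hc6 : c.card = 6 := hB.1 c ((hBF c).mp hc)
  have hT : (b ∪ c).card = 10 := by
    have := Finset.card_union_add_card_inter b c
    omega
  have hne : b ≠ c := by
    rintro rfl
    rw [Finset.inter_self] at hbc
    omega
  have hall := union_vals hα hB BF hBF b c hb hc
  have z1 : cnt BF (b ∪ c) 1 = 0 := cnt_zero BF _ 1 (fun d hd => by
    rcases hall d hd with ⟨-, h⟩ | ⟨-, -, h1, h2, h3, h4, h5, h6⟩ <;> omega)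
  have z5 : cnt BF (b ∪ c) 5 = 0 := cnt_zero BF _ 5 (fun d hd => by
    rcases hall d hd with ⟨-, h⟩ | ⟨-, -, h1, h2, h3, h4, h5, h6⟩ <;> omega)
  have z6 : cnt BF (b ∪ c) 6 = 2 := cnt_pair BF _ b c hb hc hne 6 (fun d hd => by
    rcases hall d hd with ⟨h', h⟩ | ⟨h1', h2', h1, h2, h3, h4, h5, h6⟩
    · exact ⟨fun _ => h', fun _ => h⟩
    · constructor
      · intro h
        omega
      · rintro (h | h)
        · exact absurd h h1'
        · exact absurd h h2')
  rw [hT] at m1 m2 m3
  have c102 : Nat.choose 10 2 = 45 := by decide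
  have c103 : Nat.choose 10 3 = 120 := by decide
  rw [c102] at m2
  rw [c103] at m3
  omega

/-- the number of blocks -/
theorem card77 [Fintype α] (hα : Fintype.card α = 22) {B : Set (Finset α)}
    (hB : Cfsg.IsSteinerSystem 3 6 B) (BF : Finset (Finset α)) (hBF : ∀ b, b ∈ BF ↔ b ∈ B) :
    BF.card = 77 := by
  have h := Cfsg.Agent.Lib_lead_Steiner.through_count hB BF hBF ∅ (by simp)
  have hf : BF.filter (fun b => (∅ : Finset α) ⊆ b) = BF :=
    Finset.filter_true_of_mem (fun b _ => Finset.empty_subset b)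
  rw [hf, Finset.card_empty, hα] at h
  have c1 : Nat.choose 6 3 = 20 := by decide
  have c2 : Nat.choose 22 3 = 1540 := by decide
  simp only [Nat.sub_zero, c1, c2] at h
  omega

/-- counting a set of blocks given by a predicate -/
theorem card_conv {B : Set (Finset α)} (BF : Finset (Finset α)) (hBF : ∀ b, b ∈ BF ↔ b ∈ B)
    (S : Set ↥B) (P : Finset α → Prop) [DecidablePred P] (hS : ∀ w : ↥B, w ∈ S ↔ P w.1) :
    S.ncard = (BF.filter P).card := by
  rw [← Set.ncard_image_of_injective S Subtype.val_injective]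
  have e : Subtype.val '' S = ↑(BF.filter P) := by
    ext b
    simp only [Set.mem_image, Finset.coe_filter, Set.mem_setOf_eq]
    constructor
    · rintro ⟨w, hw, rfl⟩
      exact ⟨(hBF _).mpr w.2, (hS w).mp hw⟩
    · rintro ⟨hb, hP⟩
      exact ⟨⟨b, (hBF b).mp hb⟩, (hS _).mpr hP, rfl⟩
  rw [e, Set.ncard_coe_finset]

end core

/-- the block graph of a Steiner system `S(3, 6, 22)` is strongly regular -/
theorem srg77 {α : Type*} [Fintype α] (hα : Fintype.card α = 22) {B : Set (Finset α)}
    (hB : Cfsg.IsSteinerSystem 3 6 B) [Fintype B] [DecidableRel (Cfsg.blockGraph B).Adj] :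
    (Cfsg.blockGraph B).IsSRGWith 77 16 0 4 := by
  classical
  obtain ⟨BF, hBF⟩ := Cfsg.Agent.Lib_lead_Steiner.exists_finset B
  have hmem : ∀ v : ↥B, (v : Finset α) ∈ BF := fun v => (hBF _).mpr v.2
  have hadj : ∀ v w : ↥B, (Cfsg.blockGraph B).Adj v w
      ↔ ((w : Finset α) ∩ (v : Finset α)).card = 0 := by
    intro v w
    unfold Cfsg.blockGraph
    rw [SimpleGraph.fromRel_adj]
    constructor
    · rintro ⟨-, h | h⟩
      · rw [Finset.card_eq_zero, Finset.inter_comm]
        exact Finset.disjoint_iff_inter_eq_empty.mp h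
      · rw [Finset.card_eq_zero]
        exact Finset.disjoint_iff_inter_eq_empty.mp h
    · intro h
      refine ⟨?_, Or.inr (Finset.disjoint_iff_inter_eq_empty.mpr (Finset.card_eq_zero.mp h))⟩
      intro hvw
      rw [hvw, Finset.inter_self] at h
      have := hB.1 w.1 w.2
      omega
  have hcommon : ∀ v w : ↥B, Fintype.card ((Cfsg.blockGraph B).commonNeighbors v w)
      = cnt BF ((v : Finset α) ∪ (w : Finset α)) 0 := by
    intro v w
    rw [← Nat.card_eq_fintype_card, Nat.card_coe_set_eq,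
      card_conv BF hBF _ (fun d => (d ∩ ((v : Finset α) ∪ (w : Finset α))).card = 0)]
    · rfl
    · intro d
      rw [SimpleGraph.mem_commonNeighbors, hadj, hadj]
      beta_reduce
      have h := inter_union (d : Finset α) (v : Finset α) (w : Finset α)
      have h' : ((d : Finset α) ∩ ((v : Finset α) ∩ (w : Finset α))).card
          ≤ ((d : Finset α) ∩ (v : Finset α)).card :=
        Finset.card_le_card (Finset.inter_subset_inter (Finset.Subset.refl _)
          Finset.inter_subset_left)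
      have h'' : ((d : Finset α) ∩ ((v : Finset α) ∩ (w : Finset α))).card
          ≤ ((d : Finset α) ∩ (w : Finset α)).card :=
        Finset.card_le_card (Finset.inter_subset_inter (Finset.Subset.refl _)
          Finset.inter_subset_right)
      omega
  refine ⟨?_, ?_, ?_, ?_⟩
  · rw [← Nat.card_eq_fintype_card, Nat.card_coe_set_eq]
    have e : B = ↑BF := by
      ext b
      exact (hBF b).symm
    rw [e, Set.ncard_coe_finset]
    exact card77 hα hB BF hBF
  · intro v
    rw [← SimpleGraph.card_neighborSet_eq_degree, ← Nat.card_eq_fintype_card,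
      Nat.card_coe_set_eq,
      card_conv BF hBF _ (fun d => (d ∩ (v : Finset α)).card = 0)
        (fun w => by rw [SimpleGraph.mem_neighborSet]; exact hadj v w)]
    exact (block_counts hα hB BF hBF v.1 (hmem v)).1
  · intro v w hvw
    rw [hcommon]
    apply lam hα hB BF hBF _ _ (hmem v) (hmem w)
    rw [Finset.inter_comm]
    exact (hadj v w).mp hvw
  · intro v w hne hnadj
    rw [hcommon]
    apply mu hα hB BF hBF _ _ (hmem v) (hmem w)
    have h1 : (w : Finset α) ≠ (v : Finset α) := fun h => hne (Subtype.ext h.symm)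
    have h2 := inter_zero_or_two hα hB BF hBF v.1 w.1 (hmem v) (hmem w) h1
    have h3 : ((w : Finset α) ∩ (v : Finset α)).card ≠ 0 := fun h => hnadj ((hadj v w).mpr h)
    rw [Finset.inter_comm]
    omega

end Cfsg.Agent.Lib_lead_Steiner22
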