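import Mathlib
import Cfsg.Prelude.Def_Sporadic_a
import Cfsg.Agent.Lib_lead_Steiner
import Cfsg.Agent.Lib_lead_Steiner22

/-! The point-block graph of a Steiner system `S(3, 6, 22)`: the parameters `(100, 22, 0, 6)`. -/

set_option autoImplicit false

namespace Cfsg.Agent.Lib_lead_Steiner22b

open Cfsg.Agent.Lib_lead_Steiner22

section core2

variable {α : Type*} [DecidableEq α]

/-- the number of blocks through a point -/
theorem through1 [Fintype α] (hα : Fintype.card α = 22) {B : Set (Finset α)}
    (hB : Cfsg.IsSteinerSystem 3 6 B) (BF : Finset (Finset α)) (hBF : ∀ b, b ∈ BF ↔ b ∈ B)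
    (a : α) : (BF.filter (fun d => a ∈ d)).card = 21 := by
  have h := Cfsg.Agent.Lib_lead_Steiner.through_count hB BF hBF {a} (by simp)
  have hf : BF.filter (fun b => ({a} : Finset α) ⊆ b) = BF.filter (fun d => a ∈ d) := by
    apply Finset.filter_congr
    intro d _
    exact Finset.singleton_subset_iff
  rw [hf, Finset.card_singleton, hα] at h
  have c1 : Nat.choose 5 2 = 10 := by decide
  have c2 : Nat.choose 21 2 = 210 := by decide
  simp only [Nat.reduceSub, c1, c2] at h
  omega

/-- the number of blocks through two points -/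
theorem through2 [Fintype α] (hα : Fintype.card α = 22) {B : Set (Finset α)}
    (hB : Cfsg.IsSteinerSystem 3 6 B) (BF : Finset (Finset α)) (hBF : ∀ b, b ∈ BF ↔ b ∈ B)
    (a a' : α) (hne : a ≠ a') : (BF.filter (fun d => a ∈ d ∧ a' ∈ d)).card = 5 := by
  have h := Cfsg.Agent.Lib_lead_Steiner.through_count hB BF hBF {a, a'}
    (by rw [Finset.card_pair hne]; norm_num)
  have hf : BF.filter (fun b => ({a, a'} : Finset α) ⊆ b)
      = BF.filter (fun d => a ∈ d ∧ a' ∈ d) := by
    apply Finset.filter_congr
    intro d _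
    rw [Finset.insert_subset_iff, Finset.singleton_subset_iff]
  rw [hf, Finset.card_pair hne, hα] at h
  have c1 : Nat.choose 4 1 = 4 := by decide
  have c2 : Nat.choose 20 1 = 20 := by decide
  simp only [Nat.reduceSub, c1, c2] at h
  omega

/-- the number of blocks through a point and disjoint from a block not containing it -/
theorem pt_blk [Fintype α] (hα : Fintype.card α = 22) {B : Set (Finset α)}
    (hB : Cfsg.IsSteinerSystem 3 6 B) (BF : Finset (Finset α)) (hBF : ∀ b, b ∈ BF ↔ b ∈ B)
    (b : Finset α) (hb : b ∈ BF) (a : α) (ha : a ∉ b) :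
    (BF.filter (fun d => a ∈ d ∧ (d ∩ b).card = 0)).card = 6 := by
  obtain ⟨m0, m1, m2, m3⟩ := moments hα hB BF hBF (insert a b)
  have hb6 : b.card = 6 := hB.1 b ((hBF b).mp hb)
  have hT : (insert a b).card = 7 := by rw [Finset.card_insert_of_notMem ha, hb6]
  have hval : ∀ d : Finset α,
      (d ∩ insert a b).card = (d ∩ b).card + (if a ∈ d then 1 else 0) := by
    intro d
    by_cases had : a ∈ d
    · rw [if_pos had, Finset.inter_insert_of_mem had, Finset.card_insert_of_notMem]
      intro h
      exact ha (Finset.mem_inter.mp h).2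
    · rw [if_neg had, Finset.inter_insert_of_notMem had, add_zero]
  have hall : ∀ d ∈ BF, (d = b ∧ (d ∩ insert a b).card = 6) ∨
      (d ≠ b ∧ ((d ∩ b).card = 0 ∨ (d ∩ b).card = 2)) := by
    intro d hd
    by_cases hdb : d = b
    · left
      refine ⟨hdb, ?_⟩
      rw [hval, hdb, Finset.inter_self, hb6, if_neg ha]
    · right
      exact ⟨hdb, inter_zero_or_two hα hB BF hBF b d hb hd hdb⟩
  have z4 : cnt BF (insert a b) 4 = 0 := cnt_zero BF _ 4 (fun d hd => by
    have := hval d
    rcases hall d hd with ⟨-, h⟩ | ⟨-, h⟩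
    · omega
    · split_ifs at this <;> omega)
  have z5 : cnt BF (insert a b) 5 = 0 := cnt_zero BF _ 5 (fun d hd => by
    have := hval d
    rcases hall d hd with ⟨-, h⟩ | ⟨-, h⟩
    · omega
    · split_ifs at this <;> omega)
  have z6 : cnt BF (insert a b) 6 = 1 := by
    unfold cnt
    have e : BF.filter (fun d => (d ∩ insert a b).card = 6) = {b} := by
      ext d
      rw [Finset.mem_filter, Finset.mem_singleton]
      constructor
      · rintro ⟨hd, h⟩
        have := hval d
        rcases hall d hd with ⟨h', -⟩ | ⟨-, h'⟩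
        · exact h'
        · exfalso
          split_ifs at this <;> omega
      · rintro rfl
        refine ⟨hb, ?_⟩
        rcases hall d hb with ⟨-, h⟩ | ⟨h, -⟩
        · exact h
        · exact absurd rfl h
    rw [e, Finset.card_singleton]
  have e1 : (BF.filter (fun d => a ∈ d ∧ (d ∩ b).card = 0)).card = cnt BF (insert a b) 1 := by
    unfold cnt
    congr 1
    apply Finset.filter_congr
    intro d hd
    have := hval d
    rcases hall d hd with ⟨h1, h⟩ | ⟨-, h⟩
    · constructor
      · rintro ⟨had, -⟩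
        rw [h1] at had
        exact absurd had ha
      · intro h'
        exfalso
        omega
    · constructor
      · rintro ⟨had, h0⟩
        rw [if_pos had] at this
        omega
      · intro h'
        split_ifs at this with had
        · exact ⟨had, by omega⟩
        · exfalso
          omega
  rw [hT] at m1 m2 m3
  have c72 : Nat.choose 7 2 = 21 := by decide
  have c73 : Nat.choose 7 3 = 35 := by decide
  rw [c72] at m2
  rw [c73] at m3
  rw [e1]
  omega

end core2

section pb

/-- decomposition of a set of vertices of the point-block graph -/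
theorem ncard_opt_sum {α β : Type*} [Finite α] [Finite β] (S : Set (Option (α ⊕ β))) :
    S.ncard = {u : Unit | none ∈ S}.ncard + {a : α | some (Sum.inl a) ∈ S}.ncard
      + {b : β | some (Sum.inr b) ∈ S}.ncard := by
  have hS : S = ((fun _ : Unit => (none : Option (α ⊕ β))) '' {u : Unit | none ∈ S})
      ∪ ((fun a : α => some (Sum.inl a)) '' {a : α | some (Sum.inl a) ∈ S})
      ∪ ((fun b : β => some (Sum.inr b)) '' {b : β | some (Sum.inr b) ∈ S}) := by
    ext x
    rcases x with _ | (a | b)
    · simp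
    · simp
    · simp
  have d1 : Disjoint ((fun _ : Unit => (none : Option (α ⊕ β))) '' {u : Unit | none ∈ S})
      ((fun a : α => some (Sum.inl a)) '' {a : α | some (Sum.inl a) ∈ S}) := by
    rw [Set.disjoint_left]
    rintro x ⟨u, -, rfl⟩ ⟨a, -, h⟩
    exact absurd h (by simp)
  have d2 : Disjoint (((fun _ : Unit => (none : Option (α ⊕ β))) '' {u : Unit | none ∈ S})
      ∪ ((fun a : α => some (Sum.inl a)) '' {a : α | some (Sum.inl a) ∈ S}))
      ((fun b : β => some (Sum.inr b)) '' {b : β | some (Sum.inr b) ∈ S}) := by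
    rw [Set.disjoint_left]
    rintro x (⟨u, -, rfl⟩ | ⟨a, -, rfl⟩) ⟨b, -, h⟩
    · exact absurd h (by simp)
    · exact absurd h (by simp)
  have key := congrArg Set.ncard hS
  rw [Set.ncard_union_eq d2 (Set.toFinite _) (Set.toFinite _),
    Set.ncard_union_eq d1 (Set.toFinite _) (Set.toFinite _),
    Set.ncard_image_of_injective _ (fun u u' _ => Subsingleton.elim u u'),
    Set.ncard_image_of_injective _ (fun a a' h => Sum.inl.inj (Option.some.inj h)),
    Set.ncard_image_of_injective _ (fun b b' h => Sum.inr.inj (Option.some.inj h))] at key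
  exact key

variable {α : Type*} {B : Set (Finset α)}

theorem pb_adj (x y : Option (α ⊕ ↥B)) : (Cfsg.pointBlockGraph B).Adj x y
    ↔ x ≠ y ∧ (Cfsg.pointBlockRel B x y ∨ Cfsg.pointBlockRel B y x) := by
  unfold Cfsg.pointBlockGraph
  exact SimpleGraph.fromRel_adj _ _ _

theorem adj_nn : (Cfsg.pointBlockGraph B).Adj none none ↔ False := by
  rw [pb_adj]
  simp

theorem adj_np (a : α) : (Cfsg.pointBlockGraph B).Adj none (some (Sum.inl a)) ↔ True := by
  rw [pb_adj]
  simp [Cfsg.pointBlockRel]

theorem adj_nb (b : ↥B) : (Cfsg.pointBlockGraph B).Adj none (some (Sum.inr b)) ↔ False := by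
  rw [pb_adj]
  simp [Cfsg.pointBlockRel]

theorem adj_pn (a : α) : (Cfsg.pointBlockGraph B).Adj (some (Sum.inl a)) none ↔ True := by
  rw [pb_adj]
  simp [Cfsg.pointBlockRel]

theorem adj_pp (a a' : α) :
    (Cfsg.pointBlockGraph B).Adj (some (Sum.inl a)) (some (Sum.inl a')) ↔ False := by
  rw [pb_adj]
  simp [Cfsg.pointBlockRel]

theorem adj_pb (a : α) (b : ↥B) :
    (Cfsg.pointBlockGraph B).Adj (some (Sum.inl a)) (some (Sum.inr b))
      ↔ a ∈ (b : Finset α) := by
  rw [pb_adj]
  simp [Cfsg.pointBlockRel]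

theorem adj_bn (b : ↥B) : (Cfsg.pointBlockGraph B).Adj (some (Sum.inr b)) none ↔ False := by
  rw [pb_adj]
  simp [Cfsg.pointBlockRel]

theorem adj_bp (a : α) (b : ↥B) :
    (Cfsg.pointBlockGraph B).Adj (some (Sum.inr b)) (some (Sum.inl a))
      ↔ a ∈ (b : Finset α) := by
  rw [pb_adj]
  simp [Cfsg.pointBlockRel]

theorem adj_bb [DecidableEq α] (hB : Cfsg.IsSteinerSystem 3 6 B) (b c : ↥B) :
    (Cfsg.pointBlockGraph B).Adj (some (Sum.inr b)) (some (Sum.inr c))
      ↔ ((c : Finset α) ∩ (b : Finset α)).card = 0 := by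
  rw [pb_adj]
  simp only [Cfsg.pointBlockRel]
  constructor
  · rintro ⟨-, h | h⟩
    · rw [Finset.card_eq_zero, Finset.inter_comm]
      exact Finset.disjoint_iff_inter_eq_empty.mp h
    · rw [Finset.card_eq_zero]
      exact Finset.disjoint_iff_inter_eq_empty.mp h
  · intro h
    refine ⟨?_, Or.inr (Finset.disjoint_iff_inter_eq_empty.mpr (Finset.card_eq_zero.mp h))⟩
    intro hbc
    have hbc' : b = c := Sum.inr.inj (Option.some.inj hbc)
    rw [hbc', Finset.inter_self] at h
    have := hB.1 c.1 c.2
    omega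

theorem unitT : {u : Unit | True}.ncard = 1 := by
  rw [Set.setOf_true, Set.ncard_univ]
  simp

theorem setF (γ : Type*) : {x : γ | False}.ncard = 0 := by
  rw [Set.setOf_false, Set.ncard_empty]

end pb

/-- the point-block graph of a Steiner system `S(3, 6, 22)` is strongly regular -/
theorem srg100 {α : Type*} [Fintype α] (hα : Fintype.card α = 22) {B : Set (Finset α)}
    (hB : Cfsg.IsSteinerSystem 3 6 B) [Fintype B]
    [DecidableRel (Cfsg.pointBlockGraph B).Adj] :
    (Cfsg.pointBlockGraph B).IsSRGWith 100 22 0 6 := by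
  classical
  obtain ⟨BF, hBF⟩ := Cfsg.Agent.Lib_lead_Steiner.exists_finset B
  have hmem : ∀ v : ↥B, (v : Finset α) ∈ BF := fun v => (hBF _).mpr v.2
  have hB77 : Fintype.card ↥B = 77 := by
    rw [← Nat.card_eq_fintype_card, Nat.card_coe_set_eq]
    have e : B = ↑BF := by
      ext b
      exact (hBF b).symm
    rw [e, Set.ncard_coe_finset]
    exact card77 hα hB BF hBF
  have ptT : {a : α | True}.ncard = 22 := by
    rw [Set.setOf_true, Set.ncard_univ, Nat.card_eq_fintype_card, hα]
  have N1 : ∀ a : α, {c : ↥B | a ∈ (c : Finset α)}.ncard = 21 := fun a => by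
    rw [card_conv BF hBF _ (fun d => a ∈ d) (fun w => by exact Iff.rfl)]
    exact through1 hα hB BF hBF a
  have N2 : ∀ b : ↥B, {a : α | a ∈ (b : Finset α)}.ncard = 6 := fun b => by
    have e : {a : α | a ∈ (b : Finset α)} = ↑(b : Finset α) := rfl
    rw [e, Set.ncard_coe_finset]
    exact hB.1 b.1 b.2
  have N3 : ∀ b : ↥B, {c : ↥B | ((c : Finset α) ∩ (b : Finset α)).card = 0}.ncard = 16 :=
    fun b => by
      rw [card_conv BF hBF _ (fun d => (d ∩ (b : Finset α)).card = 0) (fun w => by exact Iff.rfl)]
      exact (block_counts hα hB BF hBF b.1 (hmem b)).1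
  have N4 : ∀ (a : α) (b : ↥B), a ∉ (b : Finset α) →
      {c : ↥B | a ∈ (c : Finset α) ∧ ((c : Finset α) ∩ (b : Finset α)).card = 0}.ncard = 6 :=
    fun a b hab => by
      rw [card_conv BF hBF _ (fun d => a ∈ d ∧ (d ∩ (b : Finset α)).card = 0)
        (fun w => by exact Iff.rfl)]
      exact pt_blk hα hB BF hBF b.1 (hmem b) a hab
  have N4' : ∀ (a : α) (b : ↥B), a ∈ (b : Finset α) →
      {c : ↥B | a ∈ (c : Finset α) ∧ ((c : Finset α) ∩ (b : Finset α)).card = 0}.ncard = 0 := by
    intro a b hab
    have e : {c : ↥B | a ∈ (c : Finset α) ∧ ((c : Finset α) ∩ (b : Finset α)).card = 0}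
        = ∅ := by
      ext c
      simp only [Set.mem_setOf_eq, Set.mem_empty_iff_false, iff_false, not_and]
      intro hac h0
      rw [Finset.card_eq_zero] at h0
      have h1 : a ∈ (c : Finset α) ∩ (b : Finset α) := Finset.mem_inter.mpr ⟨hac, hab⟩
      rw [h0] at h1
      exact absurd h1 (Finset.notMem_empty a)
    rw [e, Set.ncard_empty]
  have N5 : ∀ b c : ↥B, {a : α | a ∈ (b : Finset α) ∧ a ∈ (c : Finset α)}.ncard
      = ((b : Finset α) ∩ (c : Finset α)).card := by
    intro b c
    have e : {a : α | a ∈ (b : Finset α) ∧ a ∈ (c : Finset α)}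
        = ↑((b : Finset α) ∩ (c : Finset α)) := by
      ext a
      simp
    rw [e, Set.ncard_coe_finset]
  have N6 : ∀ b c : ↥B, {d : ↥B | ((d : Finset α) ∩ (b : Finset α)).card = 0 ∧
      ((d : Finset α) ∩ (c : Finset α)).card = 0}.ncard
      = cnt BF ((b : Finset α) ∪ (c : Finset α)) 0 := by
    intro b c
    rw [card_conv BF hBF _ (fun d => (d ∩ ((b : Finset α) ∪ (c : Finset α))).card = 0)]
    · rfl
    · intro d
      show ((d : Finset α) ∩ (b : Finset α)).card = 0 ∧
        ((d : Finset α) ∩ (c : Finset α)).card = 0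
        ↔ ((d : Finset α) ∩ ((b : Finset α) ∪ (c : Finset α))).card = 0
      have h := inter_union (d : Finset α) (b : Finset α) (c : Finset α)
      have h' : ((d : Finset α) ∩ ((b : Finset α) ∩ (c : Finset α))).card
          ≤ ((d : Finset α) ∩ (b : Finset α)).card :=
        Finset.card_le_card (Finset.inter_subset_inter (Finset.Subset.refl _)
          Finset.inter_subset_left)
      have h'' : ((d : Finset α) ∩ ((b : Finset α) ∩ (c : Finset α))).card
          ≤ ((d : Finset α) ∩ (c : Finset α)).card :=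
        Finset.card_le_card (Finset.inter_subset_inter (Finset.Subset.refl _)
          Finset.inter_subset_right)
      omega
  have N7 : ∀ a a' : α, a ≠ a' →
      {c : ↥B | a ∈ (c : Finset α) ∧ a' ∈ (c : Finset α)}.ncard = 5 := fun a a' hne => by
    rw [card_conv BF hBF _ (fun d => a ∈ d ∧ a' ∈ d) (fun w => by exact Iff.rfl)]
    exact through2 hα hB BF hBF a a' hne
  have hcn : ∀ x y : Option (α ⊕ ↥B),
      Fintype.card ↥((Cfsg.pointBlockGraph B).commonNeighbors x y)
        = ((Cfsg.pointBlockGraph B).commonNeighbors x y).ncard := fun x y => by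
    rw [← Nat.card_eq_fintype_card, Nat.card_coe_set_eq]
  have hsymm : ∀ x y : Option (α ⊕ ↥B),
      ((Cfsg.pointBlockGraph B).commonNeighbors x y).ncard
        = ((Cfsg.pointBlockGraph B).commonNeighbors y x).ncard := fun x y => by
    rw [SimpleGraph.commonNeighbors_symm]
  have hform : ∀ x y : Option (α ⊕ ↥B),
      ((Cfsg.pointBlockGraph B).commonNeighbors x y).ncard
        = {u : Unit | (Cfsg.pointBlockGraph B).Adj x none ∧
            (Cfsg.pointBlockGraph B).Adj y none}.ncard
          + {a : α | (Cfsg.pointBlockGraph B).Adj x (some (Sum.inl a)) ∧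
            (Cfsg.pointBlockGraph B).Adj y (some (Sum.inl a))}.ncard
          + {c : ↥B | (Cfsg.pointBlockGraph B).Adj x (some (Sum.inr c)) ∧
            (Cfsg.pointBlockGraph B).Adj y (some (Sum.inr c))}.ncard :=
    fun x y => ncard_opt_sum _
  have C_np : ∀ a : α,
      ((Cfsg.pointBlockGraph B).commonNeighbors none (some (Sum.inl a))).ncard = 0 := by
    intro a
    rw [hform]
    simp only [adj_nn, adj_np, adj_nb, adj_pn, adj_pp, adj_pb, false_and, and_false, setF]
  have C_nb : ∀ b : ↥B,
      ((Cfsg.pointBlockGraph B).commonNeighbors none (some (Sum.inr b))).ncard = 6 := by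
    intro b
    rw [hform]
    simp only [adj_nn, adj_np, adj_nb, adj_bn, adj_bp, adj_bb hB, false_and, and_false,
      true_and, setF, N2]
  have C_pp : ∀ a a' : α, a ≠ a' → ((Cfsg.pointBlockGraph B).commonNeighbors
      (some (Sum.inl a)) (some (Sum.inl a'))).ncard = 6 := by
    intro a a' hne
    rw [hform]
    simp only [adj_pn, adj_pp, adj_pb, and_self, unitT, setF, N7 a a' hne]
  have C_pb1 : ∀ (a : α) (b : ↥B), a ∈ (b : Finset α) → ((Cfsg.pointBlockGraph B).commonNeighbors
      (some (Sum.inl a)) (some (Sum.inr b))).ncard = 0 := by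
    intro a b hab
    rw [hform]
    simp only [adj_pn, adj_pp, adj_pb, adj_bn, adj_bp, adj_bb hB, false_and, and_false,
      setF, N4' a b hab]
  have C_pb2 : ∀ (a : α) (b : ↥B), a ∉ (b : Finset α) → ((Cfsg.pointBlockGraph B).commonNeighbors
      (some (Sum.inl a)) (some (Sum.inr b))).ncard = 6 := by
    intro a b hab
    rw [hform]
    simp only [adj_pn, adj_pp, adj_pb, adj_bn, adj_bp, adj_bb hB, false_and, and_false,
      setF, N4 a b hab]
  have C_bb : ∀ b c : ↥B, ((Cfsg.pointBlockGraph B).commonNeighbors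
      (some (Sum.inr b)) (some (Sum.inr c))).ncard
      = ((b : Finset α) ∩ (c : Finset α)).card
        + cnt BF ((b : Finset α) ∪ (c : Finset α)) 0 := by
    intro b c
    rw [hform]
    simp only [adj_bn, adj_bp, adj_bb hB, false_and, and_false, setF, N5, N6, zero_add]
  refine ⟨?_, ?_, ?_, ?_⟩
  · rw [Fintype.card_option, Fintype.card_sum, hα, hB77]
  · intro x
    rw [← SimpleGraph.card_neighborSet_eq_degree, ← Nat.card_eq_fintype_card,
      Nat.card_coe_set_eq, ncard_opt_sum]
    rcases x with _ | (a | b)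
    · simp only [SimpleGraph.mem_neighborSet, adj_nn, adj_np, adj_nb, setF, ptT]
    · simp only [SimpleGraph.mem_neighborSet, adj_pn, adj_pp, adj_pb, setF, unitT, N1]
    · simp only [SimpleGraph.mem_neighborSet, adj_bn, adj_bp, adj_bb hB, setF, N2, N3]
  · intro x y hxy
    rw [hcn]
    rcases x with _ | (a | b) <;> rcases y with _ | (a' | c)
    · exact absurd hxy (by rw [adj_nn]; exact not_false)
    · exact C_np a'
    · exact absurd hxy (by rw [adj_nb]; exact not_false)
    · rw [hsymm]
      exact C_np a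
    · exact absurd hxy (by rw [adj_pp]; exact not_false)
    · exact C_pb1 a c ((adj_pb a c).mp hxy)
    · exact absurd hxy (by rw [adj_bn]; exact not_false)
    · rw [hsymm]
      exact C_pb1 a' b ((adj_bp a' b).mp hxy)
    · rw [C_bb]
      have h0 := (adj_bb hB b c).mp hxy
      have h1 := lam hα hB BF hBF b.1 c.1 (hmem b) (hmem c) (by rw [Finset.inter_comm]; exact h0)
      rw [Finset.inter_comm] at h0
      omega
  · intro x y hne hxy
    rw [hcn]
    rcases x with _ | (a | b) <;> rcases y with _ | (a' | c)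
    · exact absurd rfl hne
    · exact absurd ((adj_np a').mpr trivial) hxy
    · exact C_nb c
    · exact absurd ((adj_pn a).mpr trivial) hxy
    · exact C_pp a a' (fun h => hne (by rw [h]))
    · exact C_pb2 a c (fun h => hxy ((adj_pb a c).mpr h))
    · rw [hsymm]
      exact C_nb b
    · rw [hsymm]
      exact C_pb2 a' b (fun h => hxy ((adj_bp a' b).mpr h))
    · rw [C_bb]
      have h1 : (c : Finset α) ≠ (b : Finset α) :=
        fun h => hne (by rw [Subtype.ext h])
      have h2 := inter_zero_or_two hα hB BF hBF b.1 c.1 (hmem b) (hmem c) h1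
      have h3 : ((c : Finset α) ∩ (b : Finset α)).card ≠ 0 :=
        fun h => hxy ((adj_bb hB b c).mpr h)
      have h4 : ((b : Finset α) ∩ (c : Finset α)).card = 2 := by
        rw [Finset.inter_comm]
        omega
      rw [mu hα hB BF hBF b.1 c.1 (hmem b) (hmem c) h4, h4]

end Cfsg.Agent.Lib_lead_Steiner22b
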