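import Mathlib
import Cfsg.Prelude.Def_SporadicCombinatorics

/-! The ternary code of length 12: an explicit parametrisation by six coordinates. -/

set_option autoImplicit false

namespace Cfsg.Agent.Lib_lead_Ternary

open Cfsg

theorem mem_tetracode (t : Fin 4 → ZMod 3) :
    t ∈ tetracode ↔ ∃ c d : ZMod 3, c • ![0, 1, 1, 1] + d • ![1, 0, 1, 2] = t := by
  unfold tetracode
  exact Submodule.mem_span_pair

/-- the word `c (0,1,1,1) + d (1,0,1,2)` of the tetracode -/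
def tw (c d : ZMod 3) : Fin 4 → ZMod 3 := c • ![0, 1, 1, 1] + d • ![1, 0, 1, 2]

/-- decidable form of the defining conditions -/
def IsW (x : ArrayPt → ZMod 3) : Prop :=
  ∃ s : ZMod 3, (∀ i : Fin 4, ∑ r : ZMod 3, x (i, r) = -s) ∧
    ∀ c d : ZMod 3, ∑ i : Fin 4, x (i, tw c d i) = s

instance (x : ArrayPt → ZMod 3) : Decidable (IsW x) := by
  unfold IsW
  infer_instance

theorem isW_iff (x : ArrayPt → ZMod 3) : x ∈ ternaryGolayCode ↔ IsW x := by
  show IsTernaryGolayWord x ↔ IsW x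
  unfold IsTernaryGolayWord IsW
  constructor
  · rintro ⟨s, h1, h2⟩
    exact ⟨s, h1, fun c d => h2 _ ((mem_tetracode _).mpr ⟨c, d, rfl⟩)⟩
  · rintro ⟨s, h1, h2⟩
    refine ⟨s, h1, fun t ht => ?_⟩
    obtain ⟨c, d, rfl⟩ := (mem_tetracode t).mp ht
    exact h2 c d

/-- parameters: `(s, a0, a1, a2, u, v)` -/
abbrev P : Type := ZMod 3 × ZMod 3 × ZMod 3 × ZMod 3 × ZMod 3 × ZMod 3

/-- the codeword with given parameters -/
def E (p : P) : ArrayPt → ZMod 3 := fun q =>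
  (![p.2.1, p.2.2.1, p.2.2.2.1, p.1 - p.2.1 - p.2.2.1 - p.2.2.2.1] q.1) +
    (![p.2.2.2.2.2, p.2.2.2.2.1, p.2.2.2.2.1 + p.2.2.2.2.2,
      p.2.2.2.2.1 + 2 * p.2.2.2.2.2] q.1) * q.2 + p.1 * q.2 * q.2

/-- the parameters of a word -/
def D (x : ArrayPt → ZMod 3) : P :=
  (-(x (0, 0) + x (0, 1) + x (0, 2)), x (0, 0), x (1, 0), x (2, 0),
    x (1, 1) - x (1, 0) + (x (0, 0) + x (0, 1) + x (0, 2)),
    x (0, 1) - x (0, 0) + (x (0, 0) + x (0, 1) + x (0, 2)))

set_option maxRecDepth 100000 in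
theorem E_mem : ∀ p : P, IsW (E p) := by decide +kernel

set_option maxRecDepth 100000 in
theorem D_E : ∀ p : P, D (E p) = p := by decide +kernel

end Cfsg.Agent.Lib_lead_Ternary
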