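import Mathlib
import Cfsg.Prelude.Def_SporadicCombinatorics
import Cfsg.Agent.Lib_lead_Ternary

/-! The ternary code of length 12: every word is given by its six parameters. -/

set_option autoImplicit false

namespace Cfsg.Agent.Lib_lead_Ternary2

open Cfsg Cfsg.Agent.Lib_lead_Ternary

/-- the array with given first two rows and column sums `-s` -/
def arr (s a0 b0 a1 b1 a2 b2 a3 b3 : ZMod 3) : ArrayPt → ZMod 3 := fun q =>
  if q.2 = 0 then ![a0, a1, a2, a3] q.1
  else if q.2 = 1 then ![b0, b1, b2, b3] q.1
  else -s - ![a0, a1, a2, a3] q.1 - ![b0, b1, b2, b3] q.1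

set_option maxRecDepth 100000 in
theorem key : ∀ s a0 b0 a1 b1 a2 b2 a3 b3 : ZMod 3,
    (∀ c d : ZMod 3, ∑ i : Fin 4, arr s a0 b0 a1 b1 a2 b2 a3 b3 (i, tw c d i) = s) →
      arr s a0 b0 a1 b1 a2 b2 a3 b3 = E (D (arr s a0 b0 a1 b1 a2 b2 a3 b3)) := by
  decide +kernel

set_option maxRecDepth 100000 in
theorem weights : ∀ p : P, (ternarySupport (E p)).card = 0 ∨ (ternarySupport (E p)).card = 6 ∨
    (ternarySupport (E p)).card = 9 ∨ (ternarySupport (E p)).card = 12 := by decide +kernel

set_option maxRecDepth 100000 in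
theorem c6 : ((Finset.univ : Finset P).filter
    (fun p => (ternarySupport (E p)).card = 6)).card = 264 := by decide +kernel

set_option maxRecDepth 100000 in
theorem c9 : ((Finset.univ : Finset P).filter
    (fun p => (ternarySupport (E p)).card = 9)).card = 440 := by decide +kernel

set_option maxRecDepth 100000 in
theorem c12 : ((Finset.univ : Finset P).filter
    (fun p => (ternarySupport (E p)).card = 12)).card = 24 := by decide +kernel

end Cfsg.Agent.Lib_lead_Ternary2
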