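import Mathlib
import Cfsg.Prelude.Def_SporadicCombinatorics
import Cfsg.Agent.Lib_lead_Ternary
import Cfsg.Agent.Lib_lead_Ternary2

/-! The ternary code of length 12: every word is given by its six parameters. -/

set_option autoImplicit false

namespace Cfsg.Agent.Lib_lead_Ternary3

open Cfsg Cfsg.Agent.Lib_lead_Ternary Cfsg.Agent.Lib_lead_Ternary2

theorem sum3 (f : ZMod 3 → ZMod 3) : ∑ r : ZMod 3, f r = f 0 + f 1 + f 2 :=
  Fin.sum_univ_three f

theorem E_D (x : ArrayPt → ZMod 3) (hx : IsW x) : x = E (D x) := by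
  obtain ⟨s, h1, h2⟩ := hx
  have h20 : (2 : ZMod 3) ≠ 0 := by decide
  have h21 : (2 : ZMod 3) ≠ 1 := by decide
  have h10 : (1 : ZMod 3) ≠ 0 := by decide
  have hxa : x = arr s (x (0, 0)) (x (0, 1)) (x (1, 0)) (x (1, 1)) (x (2, 0)) (x (2, 1))
      (x (3, 0)) (x (3, 1)) := by
    funext ⟨i, r⟩
    have hr : r = 0 ∨ r = 1 ∨ r = 2 := by
      revert r
      decide
    have e0 := h1 0
    have e1 := h1 1
    have e2 := h1 2
    have e3 := h1 3
    rw [sum3] at e0 e1 e2 e3
    fin_cases i <;> rcases hr with rfl | rfl | rfl <;> simp [arr, h20, h21, h10] <;>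
      first
      | linear_combination e0
      | linear_combination e1
      | linear_combination e2
      | linear_combination e3
  have h2' : ∀ c d : ZMod 3, ∑ i : Fin 4, arr s (x (0, 0)) (x (0, 1)) (x (1, 0)) (x (1, 1))
      (x (2, 0)) (x (2, 1)) (x (3, 0)) (x (3, 1)) (i, tw c d i) = s := by
    intro c d
    rw [← hxa]
    exact h2 c d
  have h3 := key s _ _ _ _ _ _ _ _ h2'
  rw [← hxa] at h3
  exact h3

theorem mem_iff (x : ArrayPt → ZMod 3) : x ∈ ternaryGolayCode ↔ ∃ p : P, x = E p := by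
  rw [isW_iff]
  constructor
  · intro hx
    exact ⟨D x, E_D x hx⟩
  · rintro ⟨p, rfl⟩
    exact E_mem p

theorem E_injective : Function.Injective E := by
  intro p q h
  rw [← D_E p, ← D_E q, h]

theorem card_code : Nat.card ↥ternaryGolayCode = 729 := by
  have h : Nat.card ↥ternaryGolayCode = Nat.card P := by
    apply Nat.card_congr
    exact (Equiv.ofBijective
      (fun p : P => (⟨E p, (mem_iff _).mpr ⟨p, rfl⟩⟩ : ↥ternaryGolayCode))
      ⟨fun a b h => E_injective (congrArg Subtype.val h), fun ⟨x, hx⟩ => by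
        obtain ⟨p, rfl⟩ := (mem_iff x).mp hx
        exact ⟨p, rfl⟩⟩).symm
  rw [h, Nat.card_eq_fintype_card]
  simp [Fintype.card_prod, ZMod.card]

/-- counting codewords through the parametrisation -/
theorem ncard_code (Q : (ArrayPt → ZMod 3) → Prop) [DecidablePred Q] :
    {x : ArrayPt → ZMod 3 | x ∈ ternaryGolayCode ∧ Q x}.ncard
      = ((Finset.univ : Finset P).filter (fun p => Q (E p))).card := by
  have h1 : {x : ArrayPt → ZMod 3 | x ∈ ternaryGolayCode ∧ Q x}
      = E '' (((Finset.univ : Finset P).filter (fun p => Q (E p)) : Finset P) : Set P) := by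
    ext x
    constructor
    · rintro ⟨hx, hQ⟩
      obtain ⟨p, rfl⟩ := (mem_iff x).mp hx
      exact ⟨p, by simpa using hQ, rfl⟩
    · rintro ⟨p, hp, rfl⟩
      exact ⟨(mem_iff _).mpr ⟨p, rfl⟩, by simpa using hp⟩
  rw [h1, Set.ncard_image_of_injective _ E_injective, Set.ncard_coe_finset]

theorem support_empty {x : ArrayPt → ZMod 3} (h : (ternarySupport x).card = 0) : x = 0 := by
  rw [Finset.card_eq_zero] at h
  funext a
  by_contra ha
  have : a ∈ ternarySupport x := by
    unfold ternarySupport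
    rw [Finset.mem_filter]
    exact ⟨Finset.mem_univ _, ha⟩
  rw [h] at this
  exact absurd this (Finset.notMem_empty a)

theorem weight_of_mem {x : ArrayPt → ZMod 3} (hx : x ∈ ternaryGolayCode) (h0 : x ≠ 0) :
    (ternarySupport x).card = 6 ∨ (ternarySupport x).card = 9 ∨ (ternarySupport x).card = 12 := by
  obtain ⟨p, rfl⟩ := (mem_iff x).mp hx
  rcases weights p with h | h | h | h
  · exact absurd (support_empty h) h0
  · exact Or.inl h
  · exact Or.inr (Or.inl h)
  · exact Or.inr (Or.inr h)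

end Cfsg.Agent.Lib_lead_Ternary3
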