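import Mathlib
import Cfsg.Prelude.Def_SporadicCombinatorics
import Cfsg.Agent.Lib_lead_Ternary3
import Cfsg.Agent.Lib_lead_Steiner2

/-! The ternary code of length 12: self-orthogonality, the Steiner system of hexads, and the
diagonal automorphisms. -/

set_option autoImplicit false

namespace Cfsg.Agent.Lib_lead_Ternary4

open Cfsg Cfsg.Agent.Lib_lead_Ternary Cfsg.Agent.Lib_lead_Ternary2 Cfsg.Agent.Lib_lead_Ternary3

theorem mem_supp (x : ArrayPt → ZMod 3) (a : ArrayPt) : a ∈ ternarySupport x ↔ x a ≠ 0 := by
  unfold ternarySupport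
  simp

theorem wt_ge {x : ArrayPt → ZMod 3} (hx : x ∈ ternaryGolayCode) (h0 : x ≠ 0) :
    6 ≤ (ternarySupport x).card := by
  rcases weight_of_mem hx h0 with h | h | h <;> omega

theorem small_zero {z : ArrayPt → ZMod 3} (hz : z ∈ ternaryGolayCode)
    (h : (ternarySupport z).card ≤ 5) : z = 0 := by
  by_contra h0
  have := wt_ge hz h0
  omega

/-- two words of weight 6 whose supports share five points are equal or opposite -/
theorem pm_of_inter {x y : ArrayPt → ZMod 3} (hx : x ∈ ternaryGolayCode)
    (hy : y ∈ ternaryGolayCode) (h6x : (ternarySupport x).card = 6)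
    (h6y : (ternarySupport y).card = 6)
    (hI : 5 ≤ (ternarySupport x ∩ ternarySupport y).card) : y = x ∨ y = -x := by
  classical
  have hsplit := Finset.card_filter_add_card_filter_not
    (s := ternarySupport x ∩ ternarySupport y) (fun p => x p = y p)
  have hU := Finset.card_union_add_card_inter (ternarySupport x) (ternarySupport y)
  rw [h6x, h6y] at hU
  have bound : ∀ (z : ArrayPt → ZMod 3) (A : Finset ArrayPt), z ∈ ternaryGolayCode →
      A ⊆ ternarySupport x ∩ ternarySupport y → 3 ≤ A.card →
      (∀ p, z p ≠ 0 → p ∈ ternarySupport x ∪ ternarySupport y) → (∀ p ∈ A, z p = 0) →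
      z = 0 := by
    intro z A hz hAI hA3 hsub hzero
    apply small_zero hz
    have h1 : ternarySupport z ⊆ (ternarySupport x ∪ ternarySupport y) \ A := by
      intro p hp
      rw [mem_supp] at hp
      rw [Finset.mem_sdiff]
      exact ⟨hsub p hp, fun hpA => hp (hzero p hpA)⟩
    have h2 : A ⊆ ternarySupport x ∪ ternarySupport y :=
      hAI.trans (Finset.inter_subset_left.trans Finset.subset_union_left)
    have h3 := Finset.card_le_card h1
    rw [Finset.card_sdiff_of_subset h2] at h3
    omega
  by_cases hA : 3 ≤ ((ternarySupport x ∩ ternarySupport y).filter (fun p => x p = y p)).card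
  · left
    have hz := bound (x - y) _ (ternaryGolayCode.sub_mem hx hy) (Finset.filter_subset _ _) hA
      (by
        intro p hp
        rw [Finset.mem_union, mem_supp, mem_supp]
        by_contra hcon
        push_neg at hcon
        apply hp
        show x p - y p = 0
        rw [hcon.1, hcon.2, sub_zero])
      (by
        intro p hp
        rw [Finset.mem_filter] at hp
        show x p - y p = 0
        rw [hp.2, sub_self])
    exact (sub_eq_zero.mp hz).symm
  · right
    have hB : 3 ≤ ((ternarySupport x ∩ ternarySupport y).filter (fun p => ¬ x p = y p)).card := by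
      omega
    have hz := bound (x + y) _ (ternaryGolayCode.add_mem hx hy) (Finset.filter_subset _ _) hB
      (by
        intro p hp
        rw [Finset.mem_union, mem_supp, mem_supp]
        by_contra hcon
        push_neg at hcon
        apply hp
        show x p + y p = 0
        rw [hcon.1, hcon.2, add_zero])
      (by
        intro p hp
        rw [Finset.mem_filter, Finset.mem_inter, mem_supp, mem_supp] at hp
        obtain ⟨⟨hxp, hyp⟩, hne⟩ := hp
        show x p + y p = 0
        have key : ∀ a b : ZMod 3, a ≠ 0 → b ≠ 0 → a ≠ b → a + b = 0 := by decide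
        exact key _ _ hxp hyp hne)
    exact eq_neg_of_add_eq_zero_right hz

/-! ### self-orthogonality -/

theorem sq_sum (x : ArrayPt → ZMod 3) :
    ∑ p, x p * x p = ((ternarySupport x).card : ZMod 3) := by
  have key : ∀ a : ZMod 3, a * a = if a ≠ 0 then 1 else 0 := by decide
  rw [Finset.sum_congr rfl (fun p _ => key (x p)), Finset.sum_boole]
  rfl

theorem self_dot {x : ArrayPt → ZMod 3} (hx : x ∈ ternaryGolayCode) : ∑ p, x p * x p = 0 := by
  by_cases h0 : x = 0
  · rw [h0]
    simp
  · rw [sq_sum]
    rcases weight_of_mem hx h0 with h | h | h <;> rw [h] <;> decide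

theorem dot_zero {x y : ArrayPt → ZMod 3} (hx : x ∈ ternaryGolayCode)
    (hy : y ∈ ternaryGolayCode) : ∑ p, x p * y p = 0 := by
  have h1 := self_dot (ternaryGolayCode.add_mem hx hy)
  have h2 := self_dot hx
  have h3 := self_dot hy
  have e : ∀ p, (x + y) p * (x + y) p = x p * x p + 2 * (x p * y p) + y p * y p := by
    intro p
    show (x p + y p) * (x p + y p) = _
    ring
  rw [Finset.sum_congr rfl (fun p _ => e p), Finset.sum_add_distrib, Finset.sum_add_distrib,
    ← Finset.mul_sum, h2, h3] at h1
  have key : ∀ a : ZMod 3, 0 + 2 * a + 0 = 0 → a = 0 := by decide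
  exact key _ h1

/-! ### the hexads -/

/-- the supports of the words of weight 6 -/
def F : Finset (Finset ArrayPt) :=
  ((Finset.univ : Finset P).filter (fun p => (ternarySupport (E p)).card = 6)).image
    (fun p => ternarySupport (E p))

set_option maxRecDepth 100000 in
theorem card_F : F.card = 132 := by decide +kernel

theorem supp_neg (x : ArrayPt → ZMod 3) : ternarySupport (-x) = ternarySupport x := by
  ext a
  rw [mem_supp, mem_supp]
  show -x a ≠ 0 ↔ x a ≠ 0
  rw [neg_ne_zero]

theorem hexads_eq : {h : Finset ArrayPt | ∃ x ∈ ternaryGolayCode, ternarySupport x = h ∧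
    h.card = 6} = ↑F := by
  ext h
  unfold F
  rw [Finset.mem_coe, Finset.mem_image]
  constructor
  · rintro ⟨x, hx, rfl, h6⟩
    obtain ⟨p, rfl⟩ := (mem_iff x).mp hx
    exact ⟨p, Finset.mem_filter.mpr ⟨Finset.mem_univ _, h6⟩, rfl⟩
  · rintro ⟨p, hp, rfl⟩
    rw [Finset.mem_filter] at hp
    exact ⟨E p, (mem_iff _).mpr ⟨p, rfl⟩, rfl, hp.2⟩

theorem mem_F {e : Finset ArrayPt} (he : e ∈ F) :
    ∃ x ∈ ternaryGolayCode, ternarySupport x = e ∧ e.card = 6 := by
  have h : e ∈ (↑F : Set (Finset ArrayPt)) := he
  rw [← hexads_eq] at h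
  exact h

theorem steiner : IsSteinerSystem 5 6 (↑F : Set (Finset ArrayPt)) := by
  apply Cfsg.Agent.Lib_lead_Steiner2.steiner_of_count F 5 6
  · intro e he
    obtain ⟨x, -, -, h6⟩ := mem_F he
    exact h6
  · intro e he e' he' s hs hse hse'
    obtain ⟨x, hx, rfl, h6⟩ := mem_F he
    obtain ⟨y, hy, rfl, h6'⟩ := mem_F he'
    have hI : 5 ≤ (ternarySupport x ∩ ternarySupport y).card := by
      rw [← hs]
      exact Finset.card_le_card (Finset.subset_inter hse hse')
    rcases pm_of_inter hx hy h6 h6' hI with h | h
    · rw [h]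
    · rw [h, supp_neg]
  · have h12 : Fintype.card ArrayPt = 12 := by
      simp [Fintype.card_prod, ZMod.card]
    rw [card_F, h12]
    decide

/-! ### diagonal automorphisms -/

set_option maxRecDepth 100000 in
theorem connect : ∀ q : ArrayPt, ∃ p : P, (ternarySupport (E p)).card = 6 ∧ E p (0, 0) ≠ 0 ∧
    E p q ≠ 0 := by decide +kernel

theorem unit_pm : ∀ a : ZMod 3, a ≠ 0 → a = 1 ∨ a = -1 := by decide

theorem diag (c : ArrayPt → (ZMod 3)ˣ)
    (h : ∀ x ∈ ternaryGolayCode, monomialMap 1 c x ∈ ternaryGolayCode) :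
    (∀ p, c p = 1) ∨ (∀ p, c p = -1) := by
  have hconst : ∀ q, c q = c (0, 0) := by
    intro q
    obtain ⟨p, h6, h00, hq⟩ := connect q
    have hx : E p ∈ ternaryGolayCode := (mem_iff _).mpr ⟨p, rfl⟩
    have hy := h _ hx
    have hval : ∀ a, monomialMap 1 c (E p) a = (c a : ZMod 3) * E p a := fun a => rfl
    have hsupp : ternarySupport (monomialMap 1 c (E p)) = ternarySupport (E p) := by
      ext a
      rw [mem_supp, mem_supp, hval]
      constructor
      · intro h1 h2
        exact h1 (by rw [h2, mul_zero])
      · intro h1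
        exact mul_ne_zero (Units.ne_zero _) h1
    have hI : 5 ≤ (ternarySupport (E p) ∩ ternarySupport (monomialMap 1 c (E p))).card := by
      rw [hsupp, Finset.inter_self, h6]
      norm_num
    apply Units.ext
    rcases pm_of_inter hx hy h6 (by rw [hsupp]; exact h6) hI with h1 | h1
    · have e1 := congrFun h1 (0, 0)
      have e2 := congrFun h1 q
      rw [hval] at e1 e2
      have k1 : (c (0, 0) : ZMod 3) = 1 := mul_right_cancel₀ h00 (e1.trans (one_mul _).symm)
      have k2 : (c q : ZMod 3) = 1 := mul_right_cancel₀ hq (e2.trans (one_mul _).symm)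
      rw [k1, k2]
    · have e1 := congrFun h1 (0, 0)
      have e2 := congrFun h1 q
      rw [hval] at e1 e2
      have k1 : (c (0, 0) : ZMod 3) = -1 :=
        mul_right_cancel₀ h00 (e1.trans (by show -E p (0, 0) = -1 * E p (0, 0); ring))
      have k2 : (c q : ZMod 3) = -1 :=
        mul_right_cancel₀ hq (e2.trans (by show -E p q = -1 * E p q; ring))
      rw [k1, k2]
  rcases unit_pm (c (0, 0) : ZMod 3) (Units.ne_zero _) with h1 | h1
  · left
    intro p
    rw [hconst p]
    exact Units.ext h1
  · right
    intro p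
    rw [hconst p]
    exact Units.ext (by rw [h1]; simp)

end Cfsg.Agent.Lib_lead_Ternary4
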