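import Mathlib
import Cfsg.Prelude.Def_SporadicCombinatorics
import Cfsg.Agent.Lib_lead_ObjOrb2
import Cfsg.Agent.Lib_lead_Trio
import Cfsg.Agent.Lib_lead_TrioData
import Cfsg.Agent.Lib_lead_SextetOrb

/-! The orbits of a trio stabilizer on the trios, and its maximality. -/

set_option autoImplicit false

namespace Cfsg.Agent.Lib_lead_TrioOrb

open Cfsg Cfsg.Agent.Lib_lead_Golay Cfsg.Agent.Lib_lead_GolayPerm Cfsg.Agent.Lib_lead_M24
  Cfsg.Agent.Lib_lead_M24Chain Cfsg.Agent.Lib_lead_M24Orb Cfsg.Agent.Lib_lead_ObjOrb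
  Cfsg.Agent.Lib_lead_ObjOrb2 Cfsg.Agent.Lib_lead_Trio Cfsg.Agent.Lib_lead_TrioData
open scoped Pointwise

theorem rootsT_chk : ∀ r ∈ rootsT, trioChk r = true := by decide +kernel

theorem cert : Cert trios gensT rootsT tabT sizeT where
  hgen := hgenT
  hroots := hrootsT
  hpos := by decide
  hmem := fun r hr => trio_of_chk r (rootsT_chk r hr)
  hcls := hclsT
  hinc := hincT
  hinv := hinvT
  hsmul := fun _ hg _ hX => smul_trio hg hX
  htrans := trios_trans
  hcard := by rw [ncard_trios, hlenT]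
  hcount := hcountT

theorem hdivT : ∀ J : Finset (Fin (rootsT.length - 1)),
    (1 + ∑ j ∈ J, sizeT (j.val + 1)) ∣ (1 + ∑ j : Fin (rootsT.length - 1), sizeT (j.val + 1)) →
      J = ∅ ∨ J = Finset.univ := by decide

/-- orbits of a trio stabilizer on trios, and maximality -/
theorem trio_orbits (T : Fam) (hT : T ∈ trios) :
    ∃ X₁ ∈ trios, ∃ X₂ ∈ trios, ∃ X₃ ∈ trios, ∃ X₄ ∈ trios,
      (MulAction.orbit ↥(MulAction.stabilizer ↥M24 T) X₁).ncard = 42 ∧
      (MulAction.orbit ↥(MulAction.stabilizer ↥M24 T) X₂).ncard = 56 ∧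
      (MulAction.orbit ↥(MulAction.stabilizer ↥M24 T) X₃).ncard = 1008 ∧
      (MulAction.orbit ↥(MulAction.stabilizer ↥M24 T) X₄).ncard = 2688 ∧
      trios = {T} ∪ MulAction.orbit ↥(MulAction.stabilizer ↥M24 T) X₁ ∪
        MulAction.orbit ↥(MulAction.stabilizer ↥M24 T) X₂ ∪
        MulAction.orbit ↥(MulAction.stabilizer ↥M24 T) X₃ ∪
        MulAction.orbit ↥(MulAction.stabilizer ↥M24 T) X₄ ∧
      IsCoatom (MulAction.stabilizer ↥M24 T) := by
  obtain ⟨g, hg, hgT⟩ := trios_trans _ (cert.hmem _ (Cert.root_mem rootsT 0 (by decide))) T hT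
  have hT' : T = (⟨g, hg⟩ : ↥M24) • fin (rootsT.getD 0 []) := hgT.symm
  subst hT'
  have hm : ∀ c, c < rootsT.length → (⟨g, hg⟩ : ↥M24) • fin (rootsT.getD c []) ∈ trios :=
    fun c hc => cert.hsmul g hg _ (cert.hmem _ (Cert.root_mem rootsT c hc))
  refine ⟨_, hm 1 (by decide), _, hm 2 (by decide), _, hm 3 (by decide), _, hm 4 (by decide),
    cert.orbit_card ⟨g, hg⟩ 1 (by decide), cert.orbit_card ⟨g, hg⟩ 2 (by decide),
    cert.orbit_card ⟨g, hg⟩ 3 (by decide), cert.orbit_card ⟨g, hg⟩ 4 (by decide), ?_,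
    cert.coatom hdivT (by decide) ⟨g, hg⟩⟩
  ext X
  constructor
  · intro hX
    obtain ⟨c, hc, hXc⟩ := cert.cover ⟨g, hg⟩ X hX
    have hc5 : c < 5 := hc
    interval_cases c
    · rw [orbit_self] at hXc
      exact Or.inl (Or.inl (Or.inl (Or.inl hXc)))
    · exact Or.inl (Or.inl (Or.inl (Or.inr hXc)))
    · exact Or.inl (Or.inl (Or.inr hXc))
    · exact Or.inl (Or.inr hXc)
    · exact Or.inr hXc
  · rintro ((((h | h) | h) | h) | h)
    · rw [Set.mem_singleton_iff] at h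
      rw [h]
      exact hT
    · exact Cfsg.Agent.Lib_lead_SextetOrb.orbit_sub cert.hsmul _ _ (hm 1 (by decide)) h
    · exact Cfsg.Agent.Lib_lead_SextetOrb.orbit_sub cert.hsmul _ _ (hm 2 (by decide)) h
    · exact Cfsg.Agent.Lib_lead_SextetOrb.orbit_sub cert.hsmul _ _ (hm 3 (by decide)) h
    · exact Cfsg.Agent.Lib_lead_SextetOrb.orbit_sub cert.hsmul _ _ (hm 4 (by decide)) h

end Cfsg.Agent.Lib_lead_TrioOrb
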