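import Cfsg.Statements.S0007
import Cfsg.Agent.Lib_helper1_Basic

set_option autoImplicit false
open Cfsg

namespace Cfsg.Agent.S0007

/-- Subgroups of coprime index: the intersection has index equal to the product of the indices, and every element is a product of an element of the first subgroup and an element of the second. -/
theorem result {G : Type*} [Group G] [Finite G] (H K : Subgroup G)
    (h : H.index.Coprime K.index) :
    (H ⊓ K).index = H.index * K.index ∧ ∀ g : G, ∃ x ∈ H, ∃ y ∈ K, g = x * y := by
  have hidx : (H ⊓ K).index = H.index * K.index := by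
    apply le_antisymm Subgroup.index_inf_le
    apply Nat.le_of_dvd (Nat.pos_of_ne_zero Subgroup.index_ne_zero_of_finite)
    exact Nat.Coprime.mul_dvd_of_dvd_of_dvd h (Subgroup.index_dvd_of_le inf_le_left)
      (Subgroup.index_dvd_of_le inf_le_right)
  refine ⟨hidx, ?_⟩
  have hrel : K.relIndex H = K.index := by
    have h1 : (H ⊓ K).relIndex H * H.index = (H ⊓ K).index := Subgroup.relIndex_mul_index inf_le_left
    rw [Subgroup.inf_relIndex_left, hidx, mul_comm] at h1
    exact Nat.eq_of_mul_eq_mul_left (Nat.pos_of_ne_zero Subgroup.index_ne_zero_of_finite) h1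
  have hstab : MulAction.stabilizer H ((1 : G) : G ⧸ K) = K.subgroupOf H := by
    ext x
    rw [MulAction.mem_stabilizer_iff, Subgroup.mem_subgroupOf]
    change ((x : G) • ((1 : G) : G ⧸ K)) = ((1 : G) : G ⧸ K) ↔ _
    rw [MulAction.Quotient.smul_mk, QuotientGroup.eq]
    simp
  have horb : (MulAction.orbit H ((1 : G) : G ⧸ K)).ncard = Nat.card (G ⧸ K) := by
    rw [← MulAction.index_stabilizer, hstab]
    exact hrel.trans (Subgroup.index_eq_card K)
  have huniv : MulAction.orbit H ((1 : G) : G ⧸ K) = Set.univ := by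
    apply Set.eq_of_subset_of_ncard_le (Set.subset_univ _)
    rw [Set.ncard_univ, horb]
  intro g
  have hg : ((g : G) : G ⧸ K) ∈ MulAction.orbit H ((1 : G) : G ⧸ K) := by rw [huniv]; trivial
  obtain ⟨x, hx⟩ := hg
  refine ⟨x, x.2, (x : G)⁻¹ * g, ?_, by group⟩
  change ((x : G) • ((1 : G) : G ⧸ K)) = ((g : G) : G ⧸ K) at hx
  rw [MulAction.Quotient.smul_mk, QuotientGroup.eq] at hx
  simpa using hx

end Cfsg.Agent.S0007
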