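import Cfsg.Statements.S0013
import Cfsg.Agent.Lib_helper1_PGroup

set_option autoImplicit false
open Cfsg

namespace Cfsg.Agent.S0013

open Cfsg.Agent.Lib_helper1_PGroup in
/-- In a finite p-group the Frattini subgroup is the smallest normal subgroup with elementary abelian quotient: it lies below any normal subgroup containing all commutators and all p-th powers. -/
theorem result {G : Type*} [Group G] [Finite G] (p : ℕ) [Fact p.Prime]
    (hG : IsPGroup p G) (N : Subgroup G) [N.Normal] (hcomm : commutator G ≤ N) (hpow : ∀ x : G, x ^ p ∈ N) :
    frattini G ≤ N := by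
  have hE : frattini (G ⧸ N) = ⊥ := by
    apply frattini_eq_bot_of_elementary (p := p)
    · intro a b
      haveI : IsMulCommutative (G ⧸ N) :=
        (Subgroup.Normal.quotient_commutative_iff_commutator_le).mpr hcomm
      exact mul_comm' a b
    · intro y
      obtain ⟨g, rfl⟩ := QuotientGroup.mk'_surjective N y
      exact (QuotientGroup.eq_one_iff _).mpr (hpow g)
  have := frattini_le_comap_frattini_of_surjective (QuotientGroup.mk'_surjective N)
  rw [hE] at this
  intro x hx
  have hx' := this hx
  rw [Subgroup.mem_comap, Subgroup.mem_bot] at hx'
  exact (QuotientGroup.eq_one_iff x).mp hx'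

end Cfsg.Agent.S0013
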