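import Cfsg.Statements.S0014
import Mathlib
import Cfsg.Agent.Lib_helper1_BurnsideBasis

set_option autoImplicit false
open Cfsg

namespace Cfsg.Agent.S0014

/-- Burnside's basis Theorem: in a finite p-group whose Frattini quotient has order p ^ n, every generating set contains n elements that already generate, and no set with fewer than n elements generates. -/
theorem result {G : Type*} [Group G] [Finite G] (p n : ℕ) [Fact p.Prime]
    (hG : IsPGroup p G) (hn : (frattini G).index = p ^ n) :
    (∀ S : Finset G, Subgroup.closure (S : Set G) = ⊤ → ∃ T : Finset G, T ⊆ S ∧ T.card = n ∧ Subgroup.closure (T : Set G) = ⊤) ∧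
    (∀ T : Finset G, Subgroup.closure (T : Set G) = ⊤ → n ≤ T.card) := by
  classical
  have hp : p.Prime := Fact.out
  set π := QuotientGroup.mk' (frattini G) with hπ
  have hsurj : Function.Surjective π := QuotientGroup.mk'_surjective _
  have hcomm : ∀ a b : G ⧸ frattini G, a * b = b * a := by
    intro a b
    obtain ⟨x, rfl⟩ := hsurj a
    obtain ⟨y, rfl⟩ := hsurj b
    rw [← map_mul, ← map_mul]
    apply QuotientGroup.eq.mpr
    apply Cfsg.Agent.Lib_helper1_PGroup.commutator_le_frattini hG
    have h0 := Subgroup.commutator_mem_commutator (Subgroup.mem_top y⁻¹) (Subgroup.mem_top x⁻¹)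
    rw [commutatorElement_def] at h0
    have : (x * y)⁻¹ * (y * x) = y⁻¹ * x⁻¹ * y⁻¹⁻¹ * x⁻¹⁻¹ := by group
    rw [this, commutator_def]
    exact h0
  have hexp : ∀ a : G ⧸ frattini G, a ^ p = 1 := by
    intro a
    obtain ⟨x, rfl⟩ := hsurj a
    rw [← map_pow]
    exact (QuotientGroup.eq_one_iff _).mpr (Cfsg.Agent.Lib_helper1_PGroup.pow_p_mem_frattini hG x)
  have hcardQ : Nat.card (G ⧸ frattini G) = p ^ n := hn
  have hgen : ∀ T : Finset G, Subgroup.closure (T : Set G) = ⊤ →
      Nat.card ((Subgroup.closure (T : Set G)).map π) = p ^ n := by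
    intro T hT
    rw [hT, ← MonoidHom.range_eq_map, MonoidHom.range_eq_top.mpr hsurj, Subgroup.card_top, hcardQ]
  have part2 : ∀ T : Finset G, Subgroup.closure (T : Set G) = ⊤ → n ≤ T.card := by
    intro T hT
    have h1 := (Cfsg.Agent.Lib_helper1_BurnsideBasis.card_closure_map p hp π hcomm hexp T).1
    rw [hgen T hT] at h1
    exact (Nat.pow_dvd_pow_iff_le_right hp.one_lt).mp h1
  refine ⟨?_, part2⟩
  intro S hS
  have hex : ∃ k, ∃ T : Finset G, T ⊆ S ∧ T.card = k ∧ Subgroup.closure (T : Set G) = ⊤ :=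
    ⟨S.card, S, subset_rfl, rfl, hS⟩
  obtain ⟨T, hTS, hTk, hT⟩ := Nat.find_spec hex
  have hmin : ∀ T' : Finset G, T' ⊆ S → Subgroup.closure (T' : Set G) = ⊤ → T.card ≤ T'.card :=
    fun T' h1 h2 => hTk ▸ Nat.find_min' hex ⟨T', h1, rfl, h2⟩
  refine ⟨T, hTS, ?_, hT⟩
  have hind : ∀ a ∈ T, π a ∉ (Subgroup.closure ((T.erase a : Finset G) : Set G)).map π := by
    intro a ha hmem
    obtain ⟨y, hy, hya⟩ := hmem
    have h1 : y⁻¹ * a ∈ frattini G := QuotientGroup.eq.mp hya
    have h2 : a ∈ Subgroup.closure ((T.erase a : Finset G) : Set G) ⊔ frattini G := by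
      have e : a = y * (y⁻¹ * a) := by group
      have := mul_mem (Subgroup.mem_sup_left (T := frattini G) hy) (Subgroup.mem_sup_right (S := Subgroup.closure ((T.erase a : Finset G) : Set G)) h1)
      rw [← e] at this
      exact this
    have h3 : Subgroup.closure ((T.erase a : Finset G) : Set G) ⊔ frattini G = ⊤ := by
      rw [eq_top_iff, ← hT, Subgroup.closure_le]
      intro t ht
      by_cases hta : t = a
      · rw [hta]; exact h2
      · exact Subgroup.mem_sup_left (Subgroup.subset_closure (by
          rw [Finset.mem_coe, Finset.mem_erase]; exact ⟨hta, ht⟩))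
    have h4 := frattini_nongenerating h3
    have h5 := hmin (T.erase a) ((Finset.erase_subset a T).trans hTS) h4
    rw [Finset.card_erase_of_mem ha] at h5
    have : 0 < T.card := Finset.card_pos.mpr ⟨a, ha⟩
    omega
  have h6 := (Cfsg.Agent.Lib_helper1_BurnsideBasis.card_closure_map p hp π hcomm hexp T).2 hind
  rw [hgen T hT] at h6
  exact (Nat.pow_right_injective hp.two_le h6).symm

end Cfsg.Agent.S0014
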