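import Cfsg.Statements.S0019
import Cfsg.Agent.Lib_helper1_Hall
import Cfsg.Agent.Lib_helper1_SZConj
import Cfsg.Agent.Lib_helper1_SS

set_option autoImplicit false
open Cfsg

namespace Cfsg.Agent.S0019

universe u

theorem closure_le_of_factor {G : Type*} [Group G] [Finite G] {p : ℕ} [Fact p.Prime]
    (H₁ H₂ : Subgroup G) (h12 : ∀ g : G, ∃ x ∈ H₁, ∃ y ∈ H₂, g = x * y)
    (M : Subgroup G) (hMn : ∀ x ∈ H₁, ∀ m ∈ M, x * m * x⁻¹ ∈ M)
    (hM : IsPGroup p M) (hp : ¬ p ∣ H₂.index) :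
    Subgroup.normalClosure (M : Set G) ≤ H₂ := by
  -- a fixed point of `M` on `G ⧸ H₂`
  have hidx : ¬ p ∣ Nat.card (G ⧸ H₂) := by rw [← Subgroup.index_eq_card]; exact hp
  obtain ⟨q, hq⟩ := hM.nonempty_fixed_point_of_prime_not_dvd_card (G ⧸ H₂) hidx
  obtain ⟨g, rfl⟩ := QuotientGroup.mk_surjective q
  rw [MulAction.mem_fixedPoints] at hq
  have hg : ∀ m ∈ M, g⁻¹ * m * g ∈ H₂ := by
    intro m hm
    have h1 := hq ⟨m⁻¹, inv_mem hm⟩
    have h2 : ((m⁻¹ * g : G) : G ⧸ H₂) = (g : G ⧸ H₂) := h1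
    rw [QuotientGroup.eq] at h2
    have : (m⁻¹ * g)⁻¹ * g = g⁻¹ * m * g := by group
    rw [this] at h2; exact h2
  obtain ⟨x, hx, y, hy, hgxy⟩ := h12 g
  have hMH : M ≤ H₂ := by
    intro m hm
    -- m = x⁻¹ m' x with m' = x m x⁻¹ ∈ M
    have hm' : x * m * x⁻¹ ∈ M := hMn x hx m hm
    have h1 := hg _ hm'
    rw [hgxy] at h1
    have : (x * y)⁻¹ * (x * m * x⁻¹) * (x * y) = y⁻¹ * m * y := by group
    rw [this] at h1
    have : m = y * (y⁻¹ * m * y) * y⁻¹ := by group
    rw [this]; exact mul_mem (mul_mem hy h1) (inv_mem hy)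
  unfold Subgroup.normalClosure
  rw [Subgroup.closure_le]
  intro z hz
  rw [Group.mem_conjugatesOfSet_iff] at hz
  obtain ⟨m, hm, hconj⟩ := hz
  rw [isConj_iff] at hconj
  obtain ⟨c, rfl⟩ := hconj
  obtain ⟨x', hx', y', hy', hc⟩ := h12 c⁻¹
  have hce : c = y'⁻¹ * x'⁻¹ := by
    have : c = (c⁻¹)⁻¹ := by group
    rw [this, hc]; group
  have hm' : x'⁻¹ * m * x'⁻¹⁻¹ ∈ M := hMn x'⁻¹ (inv_mem hx') m hm
  have : c * m * c⁻¹ = y'⁻¹ * (x'⁻¹ * m * x'⁻¹⁻¹) * y' := by rw [hce]; group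
  rw [SetLike.mem_coe, this]
  exact mul_mem (mul_mem (inv_mem hy') (hMH hm')) hy'

theorem three_aux (n : ℕ) : ∀ (G : Type u) [Group G] [Finite G], Nat.card G ≤ n →
    ∀ (H₁ H₂ H₃ : Subgroup G), Group.IsSolvable H₁ → Group.IsSolvable H₂ → Group.IsSolvable H₃ →
    (∀ g : G, ∃ x ∈ H₁, ∃ y ∈ H₂, g = x * y) → (∀ g : G, ∃ x ∈ H₁, ∃ y ∈ H₃, g = x * y) →
    H₂.index.Coprime H₃.index → Group.IsSolvable G := by
  induction n with
  | zero =>
    intro G _ _ h
    have := Nat.card_pos (α := G)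
    omega
  | succ n ih =>
    intro G _ _ hcard H₁ H₂ H₃ h₁ h₂ h₃ h12 h13 hcop
    by_cases hH₁ : H₁ = ⊥
    · have htop : H₂ = ⊤ := by
        rw [eq_top_iff]
        intro g _
        obtain ⟨x, hx, y, hy, rfl⟩ := h12 g
        rw [hH₁, Subgroup.mem_bot] at hx
        rw [hx, one_mul]; exact hy
      rw [htop] at h₂
      exact Group.isSolvable_of_surjective (f := (Subgroup.topEquiv (G := G)).toMonoidHom)
        (Subgroup.topEquiv (G := G)).surjective
    · haveI : Nontrivial H₁ := (Subgroup.nontrivial_iff_ne_bot H₁).mpr hH₁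
      obtain ⟨M', hM'n, hM'1, -, -, p, k, hp, hk, hM'c⟩ :=
        Cfsg.Agent.Lib_helper1_Hall.exists_minimal_normal (G := H₁)
      haveI : Fact p.Prime := ⟨hp⟩
      obtain ⟨M, hMdef⟩ : ∃ M : Subgroup G, M = M'.map H₁.subtype := ⟨_, rfl⟩
      have hMp : IsPGroup p M := by
        rw [hMdef]; exact (IsPGroup.of_card hM'c).map _
      have hMn : ∀ x ∈ H₁, ∀ m ∈ M, x * m * x⁻¹ ∈ M := by
        intro x hx m hm
        rw [hMdef] at hm ⊢
        obtain ⟨m', hm', rfl⟩ := hm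
        exact ⟨⟨x, hx⟩ * m' * ⟨x, hx⟩⁻¹, hM'n.conj_mem m' hm' ⟨x, hx⟩, rfl⟩
      have hM1 : M ≠ ⊥ := by
        rw [hMdef]
        intro h
        apply hM'1
        rw [Subgroup.map_eq_bot_iff_of_injective _ H₁.subtype_injective] at h
        exact h
      have key : ∃ N : Subgroup G, N.Normal ∧ N ≠ ⊥ ∧ Group.IsSolvable N := by
        have hle : M ≤ Subgroup.normalClosure (M : Set G) := Subgroup.subset_normalClosure
        have hne : Subgroup.normalClosure (M : Set G) ≠ ⊥ := by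
          intro h
          rw [h, le_bot_iff] at hle
          exact hM1 hle
        by_cases hp2 : p ∣ H₂.index
        · have hp3 : ¬ p ∣ H₃.index := by
            intro hp3
            have := Nat.dvd_gcd hp2 hp3
            rw [hcop] at this
            exact hp.one_lt.ne' (Nat.dvd_one.mp this)
          have := closure_le_of_factor H₁ H₃ h13 M hMn hMp hp3
          exact ⟨_, Subgroup.normalClosure_normal, hne,
            Cfsg.Agent.Lib_helper1_SZConj.isSolvable_of_le this⟩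
        · have := closure_le_of_factor H₁ H₂ h12 M hMn hMp hp2
          exact ⟨_, Subgroup.normalClosure_normal, hne,
            Cfsg.Agent.Lib_helper1_SZConj.isSolvable_of_le this⟩
      obtain ⟨N, hNn, hN1, hNs⟩ := key
      haveI := hNn
      have hlt := Cfsg.Agent.Lib_helper1_SS.card_quotient_lt N hN1
      have hfs : Function.Surjective (QuotientGroup.mk' N) := QuotientGroup.mk'_surjective N
      have hq : Group.IsSolvable (G ⧸ N) := by
        apply ih (G ⧸ N) (by omega) (H₁.map (QuotientGroup.mk' N)) (H₂.map (QuotientGroup.mk' N))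
          (H₃.map (QuotientGroup.mk' N))
          (Cfsg.Agent.Lib_helper1_SZConj.isSolvable_map _ _)
          (Cfsg.Agent.Lib_helper1_SZConj.isSolvable_map _ _)
          (Cfsg.Agent.Lib_helper1_SZConj.isSolvable_map _ _)
        · intro gb
          obtain ⟨g, rfl⟩ := hfs gb
          obtain ⟨x, hx, y, hy, rfl⟩ := h12 g
          exact ⟨_, Subgroup.mem_map_of_mem _ hx, _, Subgroup.mem_map_of_mem _ hy, map_mul _ _ _⟩
        · intro gb
          obtain ⟨g, rfl⟩ := hfs gb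
          obtain ⟨x, hx, y, hy, rfl⟩ := h13 g
          exact ⟨_, Subgroup.mem_map_of_mem _ hx, _, Subgroup.mem_map_of_mem _ hy, map_mul _ _ _⟩
        · exact Nat.Coprime.coprime_dvd_left (Subgroup.index_map_dvd H₂ hfs)
            (Nat.Coprime.coprime_dvd_right (Subgroup.index_map_dvd H₃ hfs) hcop)
      exact Group.isSolvable_of_ker_le_range N.subtype (QuotientGroup.mk' N)
        (by rw [QuotientGroup.ker_mk', Subgroup.range_subtype])
/-- A finite group that factorises as H₁H₂ and as H₁H₃ with all three subgroups solvable and the indices of H₂ and H₃ coprime is solvable. -/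
theorem result {G : Type*} [Group G] [Finite G] (H₁ H₂ H₃ : Subgroup G)
    (h₁ : Group.IsSolvable H₁) (h₂ : Group.IsSolvable H₂) (h₃ : Group.IsSolvable H₃)
    (h12 : ∀ g : G, ∃ x ∈ H₁, ∃ y ∈ H₂, g = x * y) (h13 : ∀ g : G, ∃ x ∈ H₁, ∃ y ∈ H₃, g = x * y)
    (hcop : H₂.index.Coprime H₃.index) : Group.IsSolvable G :=
  three_aux (Nat.card G) G le_rfl H₁ H₂ H₃ h₁ h₂ h₃ h12 h13 hcop

end Cfsg.Agent.S0019
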