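import Cfsg.Statements.S0029
import Cfsg.Agent.Lib_helper1_Coprime

set_option autoImplicit false
open Cfsg

namespace Cfsg.Agent.S0029

/-- An action that is trivial on the Frattini quotient and coprime on the Frattini subgroup is trivial: if A normalises K, the orders of A and of the Frattini subgroup of K are coprime, and every commutator of an element of A with an element of K lies in the Frattini subgroup of K, then A centralises K. -/
theorem result {G : Type*} [Group G] [Finite G] (A K : Subgroup G)
    (hAK : A ≤ Subgroup.normalizer (K : Set G))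
    (hcop : (Nat.card A).Coprime (Nat.card (frattini K)))
    (htriv : ∀ a ∈ A, ∀ k ∈ K, a * k * a⁻¹ * k⁻¹ ∈ (frattini K).map K.subtype) :
    A ≤ Subgroup.centralizer (K : Set G) := by
  have hNA : A ≤ Subgroup.normalizer (((frattini K).map K.subtype : Subgroup G) : Set G) :=
    hAK.trans
      (Cfsg.Agent.Lib_helper1_Coprime.normalizer_le_normalizer_map_characteristic K (frattini K))
  have hcardN : Nat.card ((frattini K).map K.subtype : Subgroup G) = Nat.card (frattini K) :=
    Subgroup.card_subtype _ _
  have hcop' : (Nat.card A).Coprime (Nat.card ((frattini K).map K.subtype : Subgroup G)) := by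
    rw [hcardN]; exact hcop
  haveI : Group.IsNilpotent (frattini K) := frattini_nilpotent
  haveI : Group.IsSolvable (frattini K) := inferInstance
  have hsolv' : Group.IsSolvable A ∨
      Group.IsSolvable ((frattini K).map K.subtype : Subgroup G) :=
    Or.inr (Cfsg.Agent.Lib_helper1_SZConj.isSolvable_map _ _)
  have hC : (Subgroup.centralizer (A : Set G)).subgroupOf K = ⊤ := by
    apply frattini_nongenerating
    rw [eq_top_iff]
    intro k _
    obtain ⟨n, hn, hc⟩ := Cfsg.Agent.Lib_helper1_Coprime.fixed_in_coset A
      ((frattini K).map K.subtype) hNA hcop' hsolv' (k : G) (fun a ha => htriv a ha (k : G) k.2)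
    obtain ⟨n', hn', rfl⟩ := hn
    have : k = n'⁻¹ * (n' * k) := by group
    rw [this]
    exact Subgroup.mul_mem _ (Subgroup.mem_sup_right (Subgroup.inv_mem _ hn'))
      (Subgroup.mem_sup_left (Subgroup.mem_subgroupOf.mpr hc))
  rw [Subgroup.le_centralizer_iff]
  intro k hk
  have : (⟨k, hk⟩ : K) ∈ (Subgroup.centralizer (A : Set G)).subgroupOf K := by rw [hC]; trivial
  exact Subgroup.mem_subgroupOf.mp this

end Cfsg.Agent.S0029
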