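import Cfsg.Statements.S0030
import Cfsg.Agent.Lib_helper1_Coprime

set_option autoImplicit false
open Cfsg

namespace Cfsg.Agent.S0030

/-- Under coprime action fixed points of a product of two invariant subgroups factor: if K = X Y with X and Y normalised by A then every A-fixed element of K is a product of an A-fixed element of X and an A-fixed element of Y. -/
theorem result {G : Type*} [Group G] [Finite G] (A K : Subgroup G) (hAK : A ≤ Subgroup.normalizer (K : Set G))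
    (hcop : (Nat.card A).Coprime (Nat.card K)) (hsolv : Group.IsSolvable A ∨ Group.IsSolvable K)
    (X Y : Subgroup G) (hX : X ≤ K) (hY : Y ≤ K) (hXA : A ≤ Subgroup.normalizer (X : Set G)) (hYA : A ≤ Subgroup.normalizer (Y : Set G))
    (hXY : ∀ k ∈ K, ∃ x ∈ X, ∃ y ∈ Y, k = x * y) (k : G) (hk : k ∈ K ⊓ Subgroup.centralizer (A : Set G)) :
    ∃ x ∈ X ⊓ Subgroup.centralizer (A : Set G), ∃ y ∈ Y ⊓ Subgroup.centralizer (A : Set G), k = x * y := by
  obtain ⟨x, hx, y, hy, rfl⟩ := hXY k hk.1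
  have hkc : x * y ∈ Subgroup.centralizer (A : Set G) := hk.2
  have hDA : A ≤ Subgroup.normalizer ((X ⊓ Y : Subgroup G) : Set G) := by
    intro a ha
    rw [Subgroup.mem_normalizer_iff]
    intro z
    have h1 := (Subgroup.mem_normalizer_iff).mp (hXA ha) z
    have h2 := (Subgroup.mem_normalizer_iff).mp (hYA ha) z
    constructor
    · rintro ⟨hz1, hz2⟩; exact ⟨h1.mp hz1, h2.mp hz2⟩
    · rintro ⟨hz1, hz2⟩; exact ⟨h1.mpr hz1, h2.mpr hz2⟩
  have hDK : X ⊓ Y ≤ K := inf_le_left.trans hX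
  have hcop' : (Nat.card A).Coprime (Nat.card (X ⊓ Y : Subgroup G)) :=
    Nat.Coprime.coprime_dvd_right (Subgroup.card_dvd_of_le hDK) hcop
  have hsolv' : Group.IsSolvable A ∨ Group.IsSolvable (X ⊓ Y : Subgroup G) := by
    rcases hsolv with h | h
    · exact Or.inl h
    · exact Or.inr (Cfsg.Agent.Lib_helper1_SZConj.isSolvable_of_le hDK)
  have hfix : ∀ a ∈ A, a * x⁻¹ * a⁻¹ * x⁻¹⁻¹ ∈ X ⊓ Y := by
    intro a ha
    have hcomm : a * (x * y) = (x * y) * a := Subgroup.mem_centralizer_iff.mp hkc a ha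
    constructor
    · have h1 : a * x⁻¹ * a⁻¹ ∈ X :=
        ((Subgroup.mem_normalizer_iff).mp (hXA ha) x⁻¹).mp (X.inv_mem hx)
      rw [inv_inv]; exact X.mul_mem h1 hx
    · have h1 : a * y * a⁻¹ ∈ Y := ((Subgroup.mem_normalizer_iff).mp (hYA ha) y).mp hy
      have e : a * x⁻¹ * a⁻¹ * x⁻¹⁻¹ = (a * y * a⁻¹) * y⁻¹ := by
        rw [inv_inv]
        have : a * x⁻¹ * a⁻¹ * x = a * x⁻¹ * a⁻¹ * (x * y * a) * a⁻¹ * y⁻¹ := by group
        rw [this, ← hcomm]; group
      rw [e]; exact Y.mul_mem h1 (Y.inv_mem hy)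
  obtain ⟨n, hn, hc⟩ :=
    Cfsg.Agent.Lib_helper1_Coprime.fixed_in_coset A (X ⊓ Y) hDA hcop' hsolv' x⁻¹ hfix
  refine ⟨x * n⁻¹, ⟨X.mul_mem hx (X.inv_mem hn.1), ?_⟩, n * y, ⟨Y.mul_mem hn.2 hy, ?_⟩, by group⟩
  · show x * n⁻¹ ∈ Subgroup.centralizer (A : Set G)
    have := Subgroup.inv_mem _ hc
    simpa using this
  · show n * y ∈ Subgroup.centralizer (A : Set G)
    have := Subgroup.mul_mem _ hc hkc
    simpa [mul_assoc] using this

end Cfsg.Agent.S0030
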