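import Cfsg.Statements.S0038
import Cfsg.Agent.Lib_helper1_FrobConj

set_option autoImplicit false
open Pointwise
open Cfsg

namespace Cfsg.Agent.S0038

/-- All Frobenius complements of a finite group are conjugate to one another. -/
theorem result {G : Type*} [Group G] [Finite G] (H H₀ : Subgroup G)
    (hH : Cfsg.IsFrobeniusComplement H) (hH₀ : Cfsg.IsFrobeniusComplement H₀) :
    ∃ g : G, MulAut.conj g • H₀ = H := by
  rcases le_total (Nat.card H₀) (Nat.card H) with hle | hle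
  · obtain ⟨g, hg⟩ := Cfsg.Agent.Lib_helper5_FrobFix.conj_le_of_card_le H H₀ hH hH₀ hle
    exact ⟨g, Cfsg.Agent.Lib_helper1_FrobConj.eq_of_le H _ hH
      (Cfsg.Agent.Lib_helper1_FrobConj.conj_frob H₀ hH₀ g) hg⟩
  · obtain ⟨g, hg⟩ := Cfsg.Agent.Lib_helper5_FrobFix.conj_le_of_card_le H₀ H hH₀ hH hle
    have h1 := Cfsg.Agent.Lib_helper1_FrobConj.eq_of_le H₀ _ hH₀
      (Cfsg.Agent.Lib_helper1_FrobConj.conj_frob H hH g) hg
    refine ⟨g⁻¹, ?_⟩
    rw [← h1, map_inv, inv_smul_smul]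

end Cfsg.Agent.S0038
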