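import Cfsg.Statements.S0039
import Cfsg.Agent.Lib_helper9_Frob

set_option autoImplicit false
open Cfsg

namespace Cfsg.Agent.S0039

open scoped Pointwise

/-- In a finite group that is a semidirect product of a normal subgroup K by a nontrivial subgroup H, H is a Frobenius complement exactly when each nonidentity element of H acts without nonidentity fixed points on K by conjugation. -/
theorem result {G : Type*} [Group G] [Finite G] (K H : Subgroup G) [K.Normal]
    (hc : Subgroup.IsComplement' K H) (hK : K ≠ ⊥) (hH : H ≠ ⊥) :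
    Cfsg.IsFrobeniusComplement H ↔ ∀ h ∈ H, h ≠ 1 → K ⊓ Subgroup.centralizer {h} = ⊥ := by
  constructor
  · intro hF h hh hh1
    rw [eq_bot_iff]
    intro k hk
    rw [Subgroup.mem_inf] at hk
    obtain ⟨hkK, hkc⟩ := hk
    rw [Subgroup.mem_bot]
    by_contra hk1
    have hkH : k ∉ H := by
      intro hkH
      have h0 : k ∈ K ⊓ H := Subgroup.mem_inf.mpr ⟨hkK, hkH⟩
      rw [hc.disjoint.eq_bot, Subgroup.mem_bot] at h0
      exact hk1 h0
    have h1 := hF.2.2 k hkH
    have h2 : h ∈ H ⊓ MulAut.conj k • H := by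
      rw [Subgroup.mem_inf]
      refine ⟨hh, ?_⟩
      rw [Cfsg.Agent.Lib_helper9_Frob.mem_conj_smul_iff]
      have h3 : k⁻¹ * h * k = h := by
        have hc' : h * k = k * h := Subgroup.mem_centralizer_iff.mp hkc h (Set.mem_singleton h)
        rw [mul_assoc, hc', ← mul_assoc, inv_mul_cancel, one_mul]
      rw [h3]; exact hh
    rw [h1, Subgroup.mem_bot] at h2
    exact hh1 h2
  · intro hcz
    refine ⟨hH, ?_, ?_⟩
    · intro htop
      apply hK
      have hd := hc.disjoint
      rw [htop] at hd
      exact disjoint_top.mp hd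
    · intro g hg
      obtain ⟨⟨⟨k, hk⟩, ⟨h₀, hh₀⟩⟩, hkh⟩ := hc.2 g
      simp only at hkh
      rw [eq_bot_iff]
      intro x hx
      rw [Subgroup.mem_inf, Cfsg.Agent.Lib_helper9_Frob.mem_conj_smul_iff] at hx
      obtain ⟨hxH, hxg⟩ := hx
      have hy : k⁻¹ * x * k ∈ H := by
        have h0 : k⁻¹ * x * k = h₀ * (g⁻¹ * x * g) * h₀⁻¹ := by rw [← hkh]; group
        rw [h0]; exact H.mul_mem (H.mul_mem hh₀ hxg) (H.inv_mem hh₀)
      have hk1 : k ≠ 1 := by
        rintro rfl
        apply hg
        rw [← hkh, one_mul]; exact hh₀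
      have h1 : x * (k⁻¹ * x * k)⁻¹ ∈ K ⊓ H := by
        rw [Subgroup.mem_inf]
        constructor
        · have h0 : x * (k⁻¹ * x * k)⁻¹ = (x * k⁻¹ * x⁻¹) * k := by group
          rw [h0]
          exact K.mul_mem (Subgroup.Normal.conj_mem inferInstance _ (K.inv_mem hk) x) hk
        · exact H.mul_mem hxH (H.inv_mem hy)
      rw [hc.disjoint.eq_bot, Subgroup.mem_bot, mul_inv_eq_one] at h1
      rw [Subgroup.mem_bot]
      by_contra hx1
      have h3 := hcz x hxH hx1
      have h4 : k ∈ K ⊓ Subgroup.centralizer {x} := by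
        rw [Subgroup.mem_inf]
        refine ⟨hk, ?_⟩
        rw [Subgroup.mem_centralizer_iff]
        intro z hz
        rw [Set.mem_singleton_iff] at hz
        rw [hz]
        calc x * k = k * (k⁻¹ * x * k) := by group
          _ = k * x := by rw [← h1]
      rw [h3, Subgroup.mem_bot] at h4
      exact hk1 h4

end Cfsg.Agent.S0039
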