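import Cfsg.Statements.S0040
import Cfsg.Agent.Lib_helper1_FrobSylow
import Cfsg.Agent.S0016

set_option autoImplicit false
open Cfsg

namespace Cfsg.Agent.S0040

/-- Sylow subgroups of Frobenius complements: if H complements a nontrivial normal subgroup K and every nonidentity element of H has trivial centraliser in K, then each Sylow subgroup of H is cyclic or isomorphic to a generalized quaternion group. -/
theorem result {G : Type*} [Group G] [Finite G] (K H : Subgroup G) [K.Normal]
    (hc : Subgroup.IsComplement' K H) (hK : K ≠ ⊥) (hfpf : ∀ h ∈ H, h ≠ 1 → K ⊓ Subgroup.centralizer {h} = ⊥)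
    (p : ℕ) [Fact p.Prime] (P : Sylow p H) :
    IsCyclic P ∨ ∃ n : ℕ, Nonempty (P ≃* QuaternionGroup (2 ^ n)) := by
  by_cases hH : H = ⊥
  · left
    haveI : Subsingleton ↥H := by
      rw [hH]
      infer_instance
    haveI : Subsingleton ↥(P : Subgroup H) := inferInstance
    exact isCyclic_of_subsingleton
  obtain ⟨hF, hKer⟩ := Cfsg.Agent.Lib_helper1_FrobConj.frob_of_fpf K H hc hK hH hfpf
  obtain ⟨V, hVK, hV1, hHV, hVab⟩ :=
    Cfsg.Agent.Lib_helper1_FrobConj.exists_invariant_abelian H K hF hKer hc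
  letI : CommGroup ↥V :=
    { (inferInstance : Group ↥V) with
      mul_comm := fun a b => Subtype.ext (hVab a a.2 b b.2) }
  have hV' : ∃ v : V, v ≠ 1 := by
    by_contra h
    push Not at h
    apply hV1
    rw [eq_bot_iff]
    intro v hv
    rw [Subgroup.mem_bot]
    exact congrArg Subtype.val (h ⟨v, hv⟩)
  have hfpf' : ∀ f : H, f ≠ 1 → ∀ v : V,
      Cfsg.Agent.Lib_helper1_FrobAct.conjAct V H hHV f v = v → v = 1 := by
    intro f hf v hv
    have h1 := congrArg Subtype.val hv
    rw [Cfsg.Agent.Lib_helper1_FrobAct.conjAct_apply] at h1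
    have hc' : (v : G) ∈ Subgroup.centralizer {(f : G)} := by
      rw [Subgroup.mem_centralizer_iff]
      intro k hk
      rw [Set.mem_singleton_iff] at hk
      rw [hk]
      calc (f : G) * v = (f : G) * v * (f : G)⁻¹ * f := by group
        _ = v * f := by rw [h1]
    have h2 : (v : G) ∈ K ⊓ Subgroup.centralizer {(f : G)} := ⟨hVK v.2, hc'⟩
    rw [hfpf f f.2 (fun h => hf (Subtype.ext h)), Subgroup.mem_bot] at h2
    exact Subtype.ext h2
  have huniq : ∀ X Y : Subgroup ↥(P : Subgroup H), Nat.card X = p → Nat.card Y = p → X = Y :=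
    fun X Y hX hY => Cfsg.Agent.Lib_helper1_FrobSylow.unique_order_p
      (Cfsg.Agent.Lib_helper1_FrobAct.conjAct V H hHV) hV' hfpf' p (P : Subgroup H) P.isPGroup'
      X Y hX hY
  rcases Cfsg.Agent.S0016.result p P.isPGroup' huniq with h | ⟨-, h⟩
  · exact Or.inl h
  · exact Or.inr h

end Cfsg.Agent.S0040
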