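import Cfsg.Statements.S0041
import Cfsg.Agent.Lib_helper1_FpfCyclic

set_option autoImplicit false
open Cfsg

namespace Cfsg.Agent.S0041

/-- A group acting on a nontrivial abelian group so that no nonidentity element has a nonidentity fixed point is cyclic, provided it is abelian or its order is a product of two (possibly equal) primes. -/
theorem result {G : Type*} [Group G] [Finite G] (A V : Subgroup G) [IsMulCommutative V]
    (hV : V ≠ ⊥) (hAV : A ≤ Subgroup.normalizer (V : Set G)) (hfpf : ∀ a ∈ A, a ≠ 1 → V ⊓ Subgroup.centralizer {a} = ⊥)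
    (hA : IsMulCommutative A ∨ ∃ p q : ℕ, p.Prime ∧ q.Prime ∧ Nat.card A = p * q) : IsCyclic A := by
  classical
  letI : CommGroup ↥V := { (inferInstance : Group ↥V) with mul_comm := fun a b => mul_comm' a b }
  have hV' : ∃ v : V, v ≠ 1 := by
    by_contra h
    push Not at h
    apply hV
    rw [eq_bot_iff]
    intro v hv
    rw [Subgroup.mem_bot]
    exact congrArg Subtype.val (h ⟨v, hv⟩)
  have hfpf' : ∀ f : A, f ≠ 1 → ∀ v : V,
      Cfsg.Agent.Lib_helper1_FrobAct.conjAct V A hAV f v = v → v = 1 := by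
    intro f hf v hv
    have h1 := congrArg Subtype.val hv
    rw [Cfsg.Agent.Lib_helper1_FrobAct.conjAct_apply] at h1
    have hc : (v : G) ∈ Subgroup.centralizer {(f : G)} := by
      rw [Subgroup.mem_centralizer_iff]
      intro k hk
      rw [Set.mem_singleton_iff] at hk
      rw [hk]
      calc (f : G) * v = (f : G) * v * (f : G)⁻¹ * f := by group
        _ = v * f := by rw [h1]
    have h2 : (v : G) ∈ V ⊓ Subgroup.centralizer {(f : G)} := ⟨v.2, hc⟩
    rw [hfpf f f.2 (fun h => hf (Subtype.ext h)), Subgroup.mem_bot] at h2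
    exact Subtype.ext h2
  rcases hA with hA | ⟨p, q, hp, hq, hcard⟩
  · exact Cfsg.Agent.Lib_helper1_FpfCyclic.fpf_abelian_cyclic _ hV' hfpf'
      (fun a b => mul_comm' a b)
  · rcases lt_trichotomy p q with h | h | h
    · exact Cfsg.Agent.Lib_helper1_FpfCyclic.fpf_pq_cyclic _ hV' hfpf' p q hp hq h hcard
    · subst h
      haveI : Fact p.Prime := ⟨hp⟩
      have hc : ∀ a b : A, a * b = b * a :=
        IsPGroup.commutative_of_card_eq_prime_sq (by rw [hcard, sq])
      exact Cfsg.Agent.Lib_helper1_FpfCyclic.fpf_abelian_cyclic _ hV' hfpf' hc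
    · exact Cfsg.Agent.Lib_helper1_FpfCyclic.fpf_pq_cyclic _ hV' hfpf' q p hq hp h
        (by rw [hcard, mul_comm])

end Cfsg.Agent.S0041
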