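import Cfsg.Statements.S0049
import Cfsg.Agent.Lib_helper1_Socle

set_option autoImplicit false
open Cfsg

namespace Cfsg.Agent.S0049

/-- A prime divisor of the order of a finite group also divides the index of the Frattini subgroup. -/
theorem result {G : Type*} [Group G] [Finite G] (p : ℕ) (hp : p.Prime) (hdvd : p ∣ Nat.card G) :
    p ∣ (frattini G).index := by
  by_contra hnd
  haveI : Fact p.Prime := ⟨hp⟩
  obtain ⟨P⟩ : Nonempty (Sylow p G) := inferInstance
  have hPΦ : (P : Subgroup G) ≤ frattini G := by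
    have h1 : Nat.card ((P : Subgroup G).map (QuotientGroup.mk' (frattini G))) ∣
        Nat.card (P : Subgroup G) := Subgroup.card_map_dvd _ _
    have h2 : Nat.card ((P : Subgroup G).map (QuotientGroup.mk' (frattini G))) ∣
        Nat.card (G ⧸ frattini G) := Subgroup.card_subgroup_dvd_card _
    obtain ⟨n, hn⟩ := IsPGroup.iff_card.mp P.2
    rw [hn] at h1
    rw [← Subgroup.index_eq_card] at h2
    have hcop : (p ^ n).Coprime (frattini G).index :=
      Nat.Coprime.pow_left n ((Nat.Prime.coprime_iff_not_dvd hp).mpr hnd)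
    have h3 : Nat.card ((P : Subgroup G).map (QuotientGroup.mk' (frattini G))) = 1 :=
      Nat.eq_one_of_dvd_coprimes hcop h1 h2
    have h4 : (P : Subgroup G).map (QuotientGroup.mk' (frattini G)) = ⊥ :=
      Subgroup.card_eq_one.mp h3
    intro x hx
    have h5 : QuotientGroup.mk' (frattini G) x ∈
        (P : Subgroup G).map (QuotientGroup.mk' (frattini G)) := Subgroup.mem_map_of_mem _ hx
    rw [h4, Subgroup.mem_bot] at h5
    exact (QuotientGroup.eq_one_iff x).mp h5
  have hfr := Sylow.normalizer_sup_eq_top' P hPΦ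
  have hPn : (P : Subgroup G).Normal :=
    Subgroup.normalizer_eq_top_iff.mp (frattini_nongenerating hfr)
  obtain ⟨H, hH⟩ := Subgroup.exists_right_complement'_of_coprime P.card_coprime_index
  have h1 : (P : Subgroup G) ⊔ H = ⊤ := hH.sup_eq_top
  have h2 : H ⊔ frattini G = ⊤ := by
    apply top_le_iff.mp
    rw [← h1]
    exact sup_le (hPΦ.trans le_sup_right) le_sup_left
  have h3 : H = ⊤ := frattini_nongenerating h2
  have h4 : (P : Subgroup G) ⊓ H = ⊥ := disjoint_iff.mp hH.disjoint
  rw [h3, inf_top_eq] at h4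
  exact P.ne_bot_of_dvd_card hdvd h4

end Cfsg.Agent.S0049
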