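import Cfsg.Statements.S0050
import Cfsg.Agent.Lib_helper1_Coprime

set_option autoImplicit false
open Cfsg

namespace Cfsg.Agent.S0050

open scoped Pointwise in
/-- Frattini argument for Hall subgroups: if L is a solvable normal subgroup and H a subgroup of L of order coprime to its index in L, then L together with the normaliser of H generates the whole group. -/
theorem result {G : Type*} [Group G] [Finite G] (L : Subgroup G) [L.Normal] (hL : Group.IsSolvable L)
    (H : Subgroup G) (hHL : H ≤ L) (hHall : (Nat.card H).Coprime (H.relIndex L)) :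
    L ⊔ Subgroup.normalizer (H : Set G) = ⊤ := by
  rw [eq_top_iff]
  intro g _
  have h1 : MulAut.conj g • H ≤ L := by
    intro z hz
    rw [Cfsg.Agent.Lib_helper1_Basic.mem_conj_smul] at hz
    have := Subgroup.Normal.conj_mem inferInstance _ (hHL hz) g
    simpa [mul_assoc] using this
  have hcardL : Nat.card L = Nat.card H * H.relIndex L := by
    have := Subgroup.card_mul_index (H.subgroupOf L)
    rw [Cfsg.Agent.Lib_helper1_Hall.card_subgroupOf_of_le hHL] at this
    exact this.symm
  obtain ⟨l, hl⟩ := Cfsg.Agent.Lib_helper1_Hall.hall_conj (G := L) (Nat.card H) (H.relIndex L)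
    hcardL hHall ((MulAut.conj g • H).subgroupOf L) (H.subgroupOf L)
    (by rw [Cfsg.Agent.Lib_helper1_Hall.card_subgroupOf_of_le h1,
      Cfsg.Agent.Lib_helper1_Hall.card_conj_smul])
    (Cfsg.Agent.Lib_helper1_Hall.card_subgroupOf_of_le hHL)
  have h2 := congrArg (Subgroup.map L.subtype) hl
  rw [Cfsg.Agent.Lib_helper1_Hall.map_conj_smul, Subgroup.map_subgroupOf_eq_of_le h1,
    Subgroup.map_subgroupOf_eq_of_le hHL, Cfsg.Agent.Lib_helper1_Hall.conj_smul_conj_smul] at h2
  have h3 : (l : G) * g ∈ Subgroup.normalizer (H : Set G) :=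
    Cfsg.Agent.Lib_helper1_Coprime.mem_normalizer_of_conj_smul_eq H _ h2
  have : g = (l : G)⁻¹ * ((l : G) * g) := by group
  rw [this]
  exact Subgroup.mul_mem _ (Subgroup.mem_sup_left (L.inv_mem l.2)) (Subgroup.mem_sup_right h3)

end Cfsg.Agent.S0050
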