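import Cfsg.Statements.S0051
import Cfsg.Agent.Lib_helper1_Gaschutz

set_option autoImplicit false
open Cfsg

namespace Cfsg.Agent.S0051

/-- Gaschütz's Theorem, existence: an abelian normal subgroup K that is complemented inside a subgroup U ≥ K whose index is coprime to the order of K is complemented in the whole group. -/
theorem result {G : Type*} [Group G] [Finite G] (K U : Subgroup G) [K.Normal] [IsMulCommutative K]
    (hKU : K ≤ U) (hcop : (Nat.card K).Coprime U.index)
    (A : Subgroup G) (hAU : A ≤ U) (hAK : A ⊓ K = ⊥) (hKA : K ⊔ A = U) :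
    ∃ H : Subgroup G, Subgroup.IsComplement' K H := by
  classical
  haveI : Fintype (G ⧸ U) := Fintype.ofFinite _
  have hcard : Fintype.card (G ⧸ U) = U.index := by
    rw [Subgroup.index_eq_card, Nat.card_eq_fintype_card]
  have e : ∀ g u : G, u ∈ U → ((g * u : G) : G ⧸ U) = (g : G ⧸ U) := by
    intro g u hu
    rw [QuotientGroup.eq]
    have : (g * u)⁻¹ * g = u⁻¹ := by group
    rw [this]; exact U.inv_mem hu
  have key : ∃ f : G → K, Lib_helper1_Gaschutz.IsT K A f ∧
      ∀ g, g * f g ∈ {g : G | ((g : G ⧸ U)).out⁻¹ * g ∈ A} := by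
    apply Lib_helper1_Gaschutz.exists_isT K A
    · intro g
      have hu : ((g : G ⧸ U)).out⁻¹ * g ∈ U := by
        rw [← QuotientGroup.eq, QuotientGroup.out_eq']
      have hu' : ((g : G ⧸ U)).out⁻¹ * g ∈ A ⊔ K := by
        rw [sup_comm, hKA]; exact hu
      rw [Subgroup.mem_sup_of_normal_right] at hu'
      obtain ⟨a, ha, k, hk, hak⟩ := hu'
      refine ⟨⟨k, hk⟩⁻¹, ?_⟩
      show (((g * k⁻¹ : G) : G ⧸ U)).out⁻¹ * (g * k⁻¹) ∈ A
      rw [e g k⁻¹ (U.inv_mem (hKU hk)), ← mul_assoc]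
      have h5 : (Quotient.out (g : G ⧸ U))⁻¹ * g * k⁻¹ = a := by
        rw [mul_inv_eq_iff_eq_mul]; exact hak.symm
      rw [h5]; exact ha
    · intro g k₁ k₂ h1 h2
      have h1' : ((g : G ⧸ U)).out⁻¹ * (g * k₁) ∈ A := by
        have := h1
        rw [Set.mem_setOf_eq, e g k₁ (hKU k₁.2)] at this
        exact this
      have h2' : ((g : G ⧸ U)).out⁻¹ * (g * k₂) ∈ A := by
        have := h2
        rw [Set.mem_setOf_eq, e g k₂ (hKU k₂.2)] at this
        exact this
      have h3 : (k₁ : G)⁻¹ * k₂ ∈ A ⊓ K := by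
        refine ⟨?_, K.mul_mem (K.inv_mem k₁.2) k₂.2⟩
        have := A.mul_mem (A.inv_mem h1') h2'
        have e2 : (((g : G ⧸ U)).out⁻¹ * (g * k₁))⁻¹ * (((g : G ⧸ U)).out⁻¹ * (g * k₂)) =
            (k₁ : G)⁻¹ * k₂ := by group
        rw [e2] at this
        exact this
      rw [hAK, Subgroup.mem_bot] at h3
      apply Subtype.ext
      exact inv_mul_eq_one.mp h3
    · intro t ht a ha
      show ((t * a : G) : G ⧸ U).out⁻¹ * (t * a) ∈ A
      rw [e t a (hAU ha), ← mul_assoc]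
      exact A.mul_mem ht ha
  obtain ⟨f, hf, -⟩ := key
  obtain ⟨H, hH, -⟩ := Lib_helper1_Gaschutz.complement K U A hKA.symm f hf (hcard ▸ hcop)
  exact ⟨H, hH⟩

end Cfsg.Agent.S0051
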