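import Cfsg.Statements.S0052
import Cfsg.Agent.Lib_helper1_Gaschutz
import Cfsg.Agent.Lib_helper1_Hall

set_option autoImplicit false
open Pointwise
open Cfsg

namespace Cfsg.Agent.S0052

/-- Gaschütz's Theorem, conjugacy: for an abelian normal subgroup K ≤ U with the order of K coprime to the index of U, two complements of K in G having the same intersection with U are conjugate. -/
theorem result {G : Type*} [Group G] [Finite G] (K U : Subgroup G) [K.Normal] [IsMulCommutative K]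
    (hKU : K ≤ U) (hcop : (Nat.card K).Coprime U.index)
    (H₀ H₁ : Subgroup G) (h₀ : Subgroup.IsComplement' K H₀) (h₁ : Subgroup.IsComplement' K H₁) (hU : H₀ ⊓ U = H₁ ⊓ U) :
    ∃ g : G, MulAut.conj g • H₀ = H₁ := by
  classical
  haveI : Fintype (G ⧸ U) := Fintype.ofFinite _
  have hcard : Fintype.card (G ⧸ U) = U.index := by
    rw [Subgroup.index_eq_card, Nat.card_eq_fintype_card]
  have hcop' : (Nat.card K).Coprime (Fintype.card (G ⧸ U)) := hcard ▸ hcop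
  have hUKA : U = K ⊔ (H₀ ⊓ U) := by
    apply le_antisymm
    · intro u hu
      have : u ∈ K ⊔ H₀ := by rw [h₀.sup_eq_top]; trivial
      rw [Subgroup.mem_sup_of_normal_left] at this
      obtain ⟨k, hk, h, hh, rfl⟩ := this
      refine Subgroup.mul_mem_sup hk ⟨hh, ?_⟩
      have := U.mul_mem (U.inv_mem (hKU hk)) hu
      rw [inv_mul_cancel_left] at this
      exact this
    · exact sup_le hKU inf_le_right
  have gen : ∀ H : Subgroup G, Subgroup.IsComplement' K H →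
      ∃ f : G → K, Lib_helper1_Gaschutz.IsT K H f ∧ ∀ g, g * f g ∈ (H : Set G) := by
    intro H hH
    apply Lib_helper1_Gaschutz.exists_isT K H (H : Set G)
    · intro g
      have : g ∈ H ⊔ K := by rw [sup_comm, hH.sup_eq_top]; trivial
      rw [Subgroup.mem_sup_of_normal_right] at this
      obtain ⟨h, hh, k, hk, rfl⟩ := this
      refine ⟨⟨k, hk⟩⁻¹, ?_⟩
      show h * k * k⁻¹ ∈ H
      rw [mul_inv_cancel_right]; exact hh
    · intro g k₁ k₂ h1 h2
      have h3 : (k₁ : G)⁻¹ * k₂ ∈ K ⊓ H := by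
        refine ⟨K.mul_mem (K.inv_mem k₁.2) k₂.2, ?_⟩
        have := H.mul_mem (H.inv_mem h1) h2
        have e2 : (g * (k₁ : G))⁻¹ * (g * k₂) = (k₁ : G)⁻¹ * k₂ := by group
        rw [e2] at this
        exact this
      rw [hH.disjoint.eq_bot, Subgroup.mem_bot] at h3
      exact Subtype.ext (inv_mul_eq_one.mp h3)
    · intro t ht a ha; exact H.mul_mem ht ha
  obtain ⟨f₀, hf₀, hf₀'⟩ := gen H₀ h₀
  obtain ⟨f₁, hf₁, hf₁'⟩ := gen H₁ h₁
  have hfA₀ : Lib_helper1_Gaschutz.IsT K (H₀ ⊓ U) f₀ := ⟨hf₀.1, fun g a ha => hf₀.2 g a ha.1⟩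
  have hfA₁ : Lib_helper1_Gaschutz.IsT K (H₀ ⊓ U) f₁ :=
    ⟨hf₁.1, fun g a ha => hf₁.2 g a (by rw [hU] at ha; exact ha.1)⟩
  have fix : ∀ (H : Subgroup G) (f : G → K), Subgroup.IsComplement' K H →
      (∀ g, g * f g ∈ (H : Set G)) → ∀ h ∈ H, Lib_helper1_Gaschutz.tr K h f = f := by
    intro H f hH hf h hh
    funext g
    show f (h⁻¹ * g) = f g
    have h1 : h⁻¹ * g * f (h⁻¹ * g) ∈ H := hf (h⁻¹ * g)
    have h2 : h⁻¹ * g * f g ∈ H := by
      rw [mul_assoc]; exact H.mul_mem (H.inv_mem hh) (hf g)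
    have h3 : ((f (h⁻¹ * g) : K) : G)⁻¹ * f g ∈ K ⊓ H := by
      refine ⟨K.mul_mem (K.inv_mem (f _).2) (f g).2, ?_⟩
      have := H.mul_mem (H.inv_mem h1) h2
      have e2 : (h⁻¹ * g * (f (h⁻¹ * g) : G))⁻¹ * (h⁻¹ * g * f g) =
          ((f (h⁻¹ * g) : K) : G)⁻¹ * f g := by group
      rw [e2] at this
      exact this
    rw [hH.disjoint.eq_bot, Subgroup.mem_bot] at h3
    exact Subtype.ext (inv_mul_eq_one.mp h3)
  obtain ⟨k, hk⟩ : ∃ k : K, k ^ Fintype.card (G ⧸ U) = Lib_helper1_Gaschutz.DD K U f₀ f₁ :=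
    ⟨(powCoprime hcop').symm _, (powCoprime hcop').apply_symm_apply _⟩
  have hD : Lib_helper1_Gaschutz.DD K U f₁ (Lib_helper1_Gaschutz.tr K (k : G) f₀) = 1 := by
    rw [← Lib_helper1_Gaschutz.DD_mul K U f₁ f₀, Lib_helper1_Gaschutz.DD_tr_K K U (H₀ ⊓ U) f₀ hfA₀,
      hk, Lib_helper1_Gaschutz.DD_mul, Lib_helper1_Gaschutz.DD_self]
  refine ⟨k, ?_⟩
  have hle : MulAut.conj (k : G) • H₀ ≤ H₁ := by
    intro x hx
    rw [Lib_helper1_Basic.mem_conj_smul] at hx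
    have hf' : Lib_helper1_Gaschutz.IsT K (H₀ ⊓ U) (Lib_helper1_Gaschutz.tr K (k : G) f₀) :=
      Lib_helper1_Gaschutz.tr_isT K _ k f₀ hfA₀
    have hxf' : Lib_helper1_Gaschutz.tr K x (Lib_helper1_Gaschutz.tr K (k : G) f₀) =
        Lib_helper1_Gaschutz.tr K (k : G) f₀ := by
      have e3 : x * k = k * ((k : G)⁻¹ * x * k) := by group
      rw [← Lib_helper1_Gaschutz.tr_mul, e3, Lib_helper1_Gaschutz.tr_mul,
        fix H₀ f₀ h₀ hf₀' _ hx]
    have hx1 : Lib_helper1_Gaschutz.cc K U f₁ x = 1 := by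
      unfold Lib_helper1_Gaschutz.cc
      rw [← Lib_helper1_Gaschutz.DD_mul K U f₁ (Lib_helper1_Gaschutz.tr K (k : G) f₀)
        (Lib_helper1_Gaschutz.tr K x f₁), hD, one_mul]
      have := Lib_helper1_Gaschutz.DD_tr K U (H₀ ⊓ U) hUKA (Lib_helper1_Gaschutz.tr K (k : G) f₀)
        f₁ hf' hfA₁ x
      rw [hxf', Lib_helper1_Gaschutz.DD_symm K U f₁, hD, inv_one, map_one] at this
      exact this
    have hxm : x ∈ K ⊔ H₁ := by rw [h₁.sup_eq_top]; trivial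
    rw [Subgroup.mem_sup_of_normal_left] at hxm
    obtain ⟨k₁, hk₁, h, hh, rfl⟩ := hxm
    rw [Lib_helper1_Gaschutz.cc_mul K U (H₀ ⊓ U) hUKA f₁ hfA₁,
      Lib_helper1_Gaschutz.cc_fixed K U f₁ h (fix H₁ f₁ h₁ hf₁' h hh), map_one, mul_one] at hx1
    have h5 := Lib_helper1_Gaschutz.cc_K K U (H₀ ⊓ U) f₁ hfA₁ ⟨k₁, hk₁⟩
    rw [hx1] at h5
    have hk1 := Lib_helper1_Gaschutz.pow_eq_one K U hcop' ⟨k₁, hk₁⟩ h5.symm
    have h6 : k₁ = 1 := congrArg Subtype.val hk1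
    rw [h6, one_mul]; exact hh
  apply Subgroup.eq_of_le_of_card_ge hle
  rw [Lib_helper1_Hall.card_conj_smul]
  have e0 := h₀.card_mul_card
  have e1 := h₁.card_mul_card
  have e2 : Nat.card K * Nat.card H₁ = Nat.card K * Nat.card H₀ := e1.trans e0.symm
  exact (Nat.eq_of_mul_eq_mul_left Nat.card_pos e2).le

end Cfsg.Agent.S0052
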