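import Cfsg.Statements.S0053
import Cfsg.Agent.Lib_helper1_Socle

set_option autoImplicit false
open Cfsg

namespace Cfsg.Agent.S0053

/-- An abelian minimal normal subgroup N of a finite group is complemented exactly when N is not inside the Frattini subgroup. -/
theorem result {G : Type*} [Group G] [Finite G]
    (N : Subgroup G) [N.Normal] [IsMulCommutative N] (hN : N ≠ ⊥)
    (hmin : ∀ M : Subgroup G, M.Normal → M ≤ N → M = ⊥ ∨ M = N) :
    (∃ H : Subgroup G, Subgroup.IsComplement' N H) ↔ ¬ N ≤ frattini G := by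
  constructor
  · rintro ⟨H, hH⟩ hle
    have h1 : N ⊔ H = ⊤ := hH.sup_eq_top
    have h2 : H ⊔ frattini G = ⊤ := by
      apply top_le_iff.mp
      rw [← h1]
      exact sup_le (hle.trans le_sup_right) le_sup_left
    have h3 : H = ⊤ := frattini_nongenerating h2
    have h4 : N ⊓ H = ⊥ := disjoint_iff.mp hH.disjoint
    rw [h3, inf_top_eq] at h4
    exact hN h4
  · intro hle
    obtain ⟨M, hM, hNM⟩ := Cfsg.Agent.Lib_helper1_MaxSub.exists_coatom_not_le N hle
    exact ⟨M, Cfsg.Agent.Lib_helper1_MaxSub.isComplement'_of_minimal_abelian N hmin M hM hNM⟩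

end Cfsg.Agent.S0053
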