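import Cfsg.Statements.S0054
import Mathlib

set_option autoImplicit false
open Cfsg

namespace Cfsg.Agent.S0054

/-- A regular normal subgroup of a finite 2-transitive group is elementary abelian: it is commutative and all its elements have order dividing one prime. -/
theorem result {G : Type*} [Group G] [Finite G]
    {X : Type*} [Nonempty X] [MulAction G X] (h2 : MulAction.IsMultiplyPretransitive G X 2)
    (N : Subgroup G) [N.Normal] (htrans : MulAction.IsPretransitive N X) (hreg : ∀ x : X, MulAction.stabilizer N x = ⊥) :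
    IsMulCommutative N ∧ ∃ p : ℕ, p.Prime ∧ ∀ n ∈ N, n ^ p = 1 := by
  classical
  obtain ⟨x0⟩ := ‹Nonempty X›
  have h2' : ∀ {a b c d : X} (_ : a ≠ b) (_ : c ≠ d), ∃ g : G, g • a = c ∧ g • b = d :=
    MulAction.is_two_pretransitive_iff.mp h2
  have hfree : ∀ n ∈ N, n • x0 = x0 → n = 1 := by
    intro n hn h
    have : (⟨n, hn⟩ : N) ∈ MulAction.stabilizer N x0 := by
      rw [MulAction.mem_stabilizer_iff]; exact h
    rw [hreg x0, Subgroup.mem_bot] at this
    exact congrArg Subtype.val this
  have hconj : ∀ n ∈ N, ∀ m ∈ N, n ≠ 1 → m ≠ 1 → ∃ g : G, g * n * g⁻¹ = m := by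
    intro n hn m hm hn1 hm1
    have h1 : x0 ≠ n • x0 := fun h => hn1 (hfree n hn h.symm)
    have h2 : x0 ≠ m • x0 := fun h => hm1 (hfree m hm h.symm)
    obtain ⟨g, hg1, hg2⟩ := h2' h1 h2
    refine ⟨g, ?_⟩
    have h3 : (m⁻¹ * (g * n * g⁻¹)) • x0 = x0 := by
      rw [mul_smul, mul_smul, mul_smul]
      have : g⁻¹ • x0 = x0 := by rw [inv_smul_eq_iff, hg1]
      rw [this, hg2, inv_smul_smul]
    have h4 := hfree _ (mul_mem (inv_mem hm) (‹N.Normal›.conj_mem n hn g)) h3
    exact (inv_mul_eq_one.mp h4).symm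
  by_cases hN : N = ⊥
  · refine ⟨⟨⟨fun a b => ?_⟩⟩, 2, Nat.prime_two, ?_⟩
    · have hbot : ∀ w ∈ N, w = 1 := by
        intro w hw
        rw [hN, Subgroup.mem_bot] at hw; exact hw
      have ha : (a : G) = 1 := hbot _ a.2
      have hb : (b : G) = 1 := hbot _ b.2
      apply Subtype.ext
      simp [ha, hb]
    · intro n hn
      rw [hN, Subgroup.mem_bot] at hn
      rw [hn, one_pow]
  · have hcard : Nat.card N ≠ 1 := fun h => hN (Subgroup.card_eq_one.mp h)
    obtain ⟨p, hp, hpd⟩ := Nat.exists_prime_and_dvd hcard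
    haveI := Fact.mk hp
    obtain ⟨z, hz⟩ := exists_prime_orderOf_dvd_card' p hpd
    have hzp : (z : G) ^ p = 1 := by
      have := pow_orderOf_eq_one z
      rw [hz] at this
      exact_mod_cast congrArg Subtype.val this
    have hz1 : (z : G) ≠ 1 := by
      intro h
      have : z = 1 := Subtype.ext h
      rw [this, orderOf_one] at hz
      exact hp.one_lt.ne hz
    have hall : ∀ n ∈ N, n ^ p = 1 := by
      intro n hn
      by_cases h1 : n = 1
      · rw [h1, one_pow]
      · obtain ⟨g, hg⟩ := hconj z z.2 n hn hz1 h1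
        rw [← hg, conj_pow, hzp]; group
    have hNp : IsPGroup p N := by
      intro n
      exact ⟨1, by
        apply Subtype.ext
        simpa using hall n n.2⟩
    haveI : Nontrivial N := by
      rw [← Finite.one_lt_card_iff_nontrivial]
      have : 0 < Nat.card N := Nat.card_pos
      omega
    haveI := hNp.center_nontrivial
    obtain ⟨c, hc1⟩ := exists_ne (1 : Subgroup.center N)
    have hcc : ∀ m : N, m * (c : N) = (c : N) * m := fun m => Subgroup.mem_center_iff.mp c.2 m
    have hcG1 : ((c : N) : G) ≠ 1 := by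
      intro h
      apply hc1
      apply Subtype.ext
      apply Subtype.ext
      exact h
    refine ⟨⟨⟨fun a b => ?_⟩⟩, p, hp, hall⟩
    by_cases ha : (a : G) = 1
    · have : a = 1 := Subtype.ext ha
      rw [this]; simp
    · obtain ⟨g, hg⟩ := hconj (c : N) (c : N).2 a a.2 hcG1 ha
      have hb : g⁻¹ * (b : G) * g ∈ N := by
        have := ‹N.Normal›.conj_mem b b.2 g⁻¹
        simpa using this
      have h5 := congrArg Subtype.val (hcc ⟨_, hb⟩)
      simp only [Subgroup.coe_mul] at h5
      apply Subtype.ext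
      simp only [Subgroup.coe_mul]
      rw [← hg]
      calc g * ((c : N) : G) * g⁻¹ * (b : G) = g * (((c : N) : G) * (g⁻¹ * (b : G) * g)) * g⁻¹ := by group
        _ = g * ((g⁻¹ * (b : G) * g) * ((c : N) : G)) * g⁻¹ := by rw [h5]
        _ = (b : G) * (g * ((c : N) : G) * g⁻¹) := by group

end Cfsg.Agent.S0054
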