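import Cfsg.Statements.S0058
import Cfsg.Agent.Lib_helper1_RankTwo
import Cfsg.Agent.Lib_helper7_CoprimeGen

set_option autoImplicit false
open Cfsg

namespace Cfsg.Agent.S0058

/-- Generation by centralisers: when a noncyclic abelian group A normalises K with coprime orders, K is generated by the fixed-point subgroups of the nonidentity elements of A. -/
theorem result {G : Type*} [Group G] [Finite G] (A K : Subgroup G)
    [IsMulCommutative A] (hA : ¬ IsCyclic A) (hAK : A ≤ Subgroup.normalizer (K : Set G)) (hcop : (Nat.card A).Coprime (Nat.card K)) :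
    (⨆ a ∈ {a : G | a ∈ A ∧ a ≠ 1}, K ⊓ Subgroup.centralizer {a}) = K := by
  classical
  haveI : Fintype A := Fintype.ofFinite A
  obtain ⟨p, hp, x, y, hx, hy, hx1, hyx⟩ :=
    Cfsg.Agent.Lib_helper1_RankTwo.exists_rank_two (A := A) (fun a b => mul_comm' a b) hA
  haveI : Fact p.Prime := ⟨hp⟩
  apply le_antisymm
  · exact iSup₂_le fun a _ => inf_le_left
  · have hxG : (x : G) ^ p = 1 := by
      have := congrArg Subtype.val hx
      simpa using this
    have hyG : (y : G) ^ p = 1 := by
      have := congrArg Subtype.val hy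
      simpa using this
    have hxy : (x : G) * y = y * x := congrArg Subtype.val (mul_comm' x y)
    have hpA : p ∣ Nat.card A := by
      have : orderOf x = p := orderOf_eq_prime hx hx1
      rw [← this]; exact orderOf_dvd_natCard x
    have hcop' : (Nat.card K).Coprime p := (Nat.Coprime.coprime_dvd_left hpA hcop).symm
    apply Cfsg.Agent.Lib_helper7_CoprimeGen.le_of_centralizers_le (x : G) (y : G) hxy hxG hyG K
      (hAK x.2) (hAK y.2) hcop'
    · exact le_iSup₂ (f := fun a (_ : a ∈ {a : G | a ∈ A ∧ a ≠ 1}) =>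
        K ⊓ Subgroup.centralizer {a}) (x : G) ⟨x.2, fun h => hx1 (Subtype.ext h)⟩
    · intro k
      refine le_iSup₂ (f := fun a (_ : a ∈ {a : G | a ∈ A ∧ a ≠ 1}) =>
        K ⊓ Subgroup.centralizer {a}) ((y : G) * (x : G) ^ k)
        ⟨mul_mem y.2 (pow_mem x.2 k), ?_⟩
      intro h
      apply hyx
      have : y = (x ^ k)⁻¹ := by
        apply Subtype.ext
        push_cast
        exact eq_inv_of_mul_eq_one_left h
      rw [this]; exact inv_mem (pow_mem (Subgroup.mem_zpowers x) k)

end Cfsg.Agent.S0058
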