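import Cfsg.Statements.S0060
import Cfsg.Agent.Lib_helper1_Hall
import Cfsg.Agent.Lib_helper6_PCore

set_option autoImplicit false
open Pointwise
open Cfsg

namespace Cfsg.Agent.S0060

open scoped Pointwise in
/-- Brodkey's Theorem: in a finite group with abelian Sylow p-subgroups and no nontrivial normal p-subgroup, some conjugate of a Sylow p-subgroup meets it trivially. -/
theorem result {G : Type*} [Group G] [Finite G] (p : ℕ) [Fact p.Prime]
    (S : Sylow p G) (hS : IsMulCommutative S) (hOp : Cfsg.pCore p G = ⊥) :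
    ∃ g : G, (S : Subgroup G) ⊓ MulAut.conj g • (S : Subgroup G) = ⊥ := by
  classical
  have hSab : IsMulCommutative (S : Subgroup G) := hS
  let f : G → ℕ := fun g => Nat.card ((S : Subgroup G) ⊓ MulAut.conj g • (S : Subgroup G) : Subgroup G)
  obtain ⟨g, hg⟩ := Finite.exists_min f
  refine ⟨g, ?_⟩
  set D : Subgroup G := (S : Subgroup G) ⊓ MulAut.conj g • (S : Subgroup G) with hD
  have hDS : D ≤ (S : Subgroup G) := inf_le_left
  have hDQ : D ≤ MulAut.conj g • (S : Subgroup G) := inf_le_right
  -- S and Q normalize D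
  have hSN : (S : Subgroup G) ≤ Subgroup.normalizer (D : Set G) := by
    intro s hs
    apply Cfsg.Agent.Lib_helper1_Basic.mem_normalizer_of_conj_le
    intro d hd
    have e : s * d * s⁻¹ = d := by
      rw [setLike_mul_comm hs (hDS hd), mul_inv_cancel_right]
    rw [e]; exact hd
  have hQN : MulAut.conj g • (S : Subgroup G) ≤ Subgroup.normalizer (D : Set G) := by
    intro s hs
    apply Cfsg.Agent.Lib_helper1_Basic.mem_normalizer_of_conj_le
    intro d hd
    have hs' : g⁻¹ * s * g ∈ (S : Subgroup G) :=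
      (Cfsg.Agent.Lib_helper1_Basic.mem_conj_smul _ _ _).mp hs
    have hd' : g⁻¹ * d * g ∈ (S : Subgroup G) :=
      (Cfsg.Agent.Lib_helper1_Basic.mem_conj_smul _ _ _).mp (hDQ hd)
    have e0 := setLike_mul_comm hs' hd'
    have e : s * d * s⁻¹ = d := by
      have e1 : s * d = d * s := by
        have := congrArg (fun t => g * t * g⁻¹) e0
        simpa [mul_assoc] using this
      rw [e1, mul_inv_cancel_right]
    rw [e]; exact hd
  -- D lies in every conjugate of S
  have key : ∀ a : G, D ≤ MulAut.conj a • (S : Subgroup G) := by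
    intro a
    set N : Subgroup G := Subgroup.normalizer (D : Set G) with hN
    have hRp : IsPGroup p ((MulAut.conj a • (S : Subgroup G) ⊓ N : Subgroup G).subgroupOf N) := by
      have h1 : IsPGroup p (MulAut.conj a • (S : Subgroup G) : Subgroup G) := by
        rw [← Sylow.coe_subgroup_smul]; exact (a • S).2
      exact (h1.to_le inf_le_left).comap_subtype
    obtain ⟨T, hT⟩ := hRp.exists_le_sylow
    obtain ⟨n, hn⟩ := MulAction.exists_smul_eq N (S.subtype hSN) T
    have hRn : MulAut.conj a • (S : Subgroup G) ⊓ N ≤ MulAut.conj (n : G) • (S : Subgroup G) := by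
      intro z hz
      have h1 : (⟨z, hz.2⟩ : N) ∈ (T : Subgroup N) := hT (Subgroup.mem_subgroupOf.mpr hz)
      rw [← hn, Cfsg.Agent.Lib_helper1_Basic.mem_sylow_smul] at h1
      rw [Cfsg.Agent.Lib_helper1_Basic.mem_conj_smul]
      exact h1
    -- R ⊓ n • Q ≤ D
    have hle : MulAut.conj a • (S : Subgroup G) ⊓ MulAut.conj ((n : G) * g) • (S : Subgroup G) ≤ D := by
      intro z hz
      have hzQ : (n : G)⁻¹ * z * n ∈ MulAut.conj g • (S : Subgroup G) := by
        have := (Cfsg.Agent.Lib_helper1_Basic.mem_conj_smul _ _ _).mp hz.2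
        rw [Cfsg.Agent.Lib_helper1_Basic.mem_conj_smul]
        simpa [mul_assoc] using this
      have hzN : z ∈ N := by
        have h1 : (n : G)⁻¹ * z * n ∈ N := hQN hzQ
        have h2 := N.mul_mem (N.mul_mem n.2 h1) (N.inv_mem n.2)
        simpa [mul_assoc] using h2
      have hzS : (n : G)⁻¹ * z * n ∈ (S : Subgroup G) :=
        (Cfsg.Agent.Lib_helper1_Basic.mem_conj_smul _ _ _).mp (hRn ⟨hz.1, hzN⟩)
      have hzD : (n : G)⁻¹ * z * n ∈ D := ⟨hzS, hzQ⟩
      have hn' : (n : G) ∈ Subgroup.normalizer (D : Set G) := n.2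
      have := (Subgroup.mem_normalizer_iff.mp hn' ((n : G)⁻¹ * z * n)).mp hzD
      simpa [mul_assoc] using this
    -- cardinalities
    have hcard : Nat.card D ≤ Nat.card (MulAut.conj a • (S : Subgroup G) ⊓
        MulAut.conj ((n : G) * g) • (S : Subgroup G) : Subgroup G) := by
      have h1 : MulAut.conj a • (S : Subgroup G) ⊓ MulAut.conj ((n : G) * g) • (S : Subgroup G) =
          MulAut.conj a • ((S : Subgroup G) ⊓ MulAut.conj (a⁻¹ * ((n : G) * g)) • (S : Subgroup G)) := by
        rw [Subgroup.smul_inf, Cfsg.Agent.Lib_helper1_Hall.conj_smul_conj_smul]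
        congr 2
        group
      rw [h1, Cfsg.Agent.Lib_helper1_Hall.card_conj_smul]
      exact hg (a⁻¹ * ((n : G) * g))
    have heq := Subgroup.eq_of_le_of_card_ge hle hcard
    rw [← heq]
    exact inf_le_left
  -- the intersection of all conjugates is a normal p-subgroup
  set C : Subgroup G := ⨅ a : G, MulAut.conj a • (S : Subgroup G) with hC
  have hCn : C.Normal := by
    constructor
    intro x hx b
    rw [hC, Subgroup.mem_iInf] at hx ⊢
    intro a
    have := hx (b⁻¹ * a)
    rw [Cfsg.Agent.Lib_helper1_Basic.mem_conj_smul] at this ⊢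
    simpa [mul_assoc] using this
  have hCp : IsPGroup p C := by
    apply S.2.to_le
    intro x hx
    rw [hC, Subgroup.mem_iInf] at hx
    have := hx 1
    rw [Cfsg.Agent.Lib_helper1_Basic.mem_conj_smul] at this
    simpa using this
  have hCbot : C = ⊥ := by
    have := Cfsg.Agent.Lib_helper6_PCore.le_pCore hCn hCp
    rw [hOp] at this
    exact le_bot_iff.mp this
  have hDC : D ≤ C := le_iInf key
  rw [hCbot] at hDC
  exact le_bot_iff.mp hDC

end Cfsg.Agent.S0060
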