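import Cfsg.Statements.S0063


set_option autoImplicit false
open Cfsg

namespace Cfsg.Agent.S0063

universe u

theorem aux (p : ℕ) [Fact p.Prime] (m : ℕ) : ∀ (G : Type u) [Group G] [Finite G],
    Nat.card G = p ^ m → 1 < m → Group.nilpotencyClass G ≤ m - 1 := by
  have hpp : p.Prime := Fact.out
  induction m using Nat.strong_induction_on with
  | _ m ih =>
    intro G _ _ hG hm
    have hP : IsPGroup p G := IsPGroup.of_card hG
    haveI := hP.isNilpotent
    haveI : Nontrivial G := by
      rw [← Finite.one_lt_card_iff_nontrivial, hG]
      exact Nat.one_lt_pow (by omega) hpp.one_lt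
    have hclass := Group.nilpotencyClass_eq_quotient_center_plus_one (G := G)
    have hQ : IsPGroup p (G ⧸ Subgroup.center G) := hP.to_quotient _
    obtain ⟨k, hk⟩ := IsPGroup.iff_card.mp hQ
    have hZ : 2 ≤ Nat.card (Subgroup.center G) := by
      have h1 : Subgroup.center G ≠ ⊥ := (hP.bot_lt_center).ne'
      have hpos : 0 < Nat.card (Subgroup.center G) := Nat.card_pos
      by_contra hcon
      have : Nat.card (Subgroup.center G) = 1 := by omega
      exact h1 (Subgroup.card_eq_one.mp this)
    have hmul := Subgroup.card_eq_card_quotient_mul_card_subgroup (Subgroup.center G)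
    rw [hG, hk] at hmul
    have hkm : k < m := by
      by_contra hcon
      have hle : p ^ m ≤ p ^ k := Nat.pow_le_pow_right hpp.pos (by omega)
      have hkpos : 0 < p ^ k := pow_pos hpp.pos k
      nlinarith
    by_cases hk1 : k ≤ 1
    · -- quotient cyclic, so `G` abelian
      haveI : IsCyclic (G ⧸ Subgroup.center G) := by
        rcases Nat.le_one_iff_eq_zero_or_eq_one.mp hk1 with h0 | h1
        · rw [h0, pow_zero] at hk
          haveI : Subsingleton (G ⧸ Subgroup.center G) := (Nat.card_eq_one_iff_unique.mp hk).1
          infer_instance
        · rw [h1, pow_one] at hk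
          exact isCyclic_of_prime_card hk
      have hker : (QuotientGroup.mk' (Subgroup.center G)).ker ≤ Subgroup.center G := by
        rw [QuotientGroup.ker_mk']
      have hcomm := ((QuotientGroup.mk' (Subgroup.center G)).isMulCommutative_of_isCyclic_of_ker_le_center
        hker).is_comm.comm
      have hcen : Subgroup.center G = ⊤ := by
        rw [eq_top_iff]
        intro g _
        rw [Subgroup.mem_center_iff]
        intro h
        exact hcomm h g
      have h1 : Group.nilpotencyClass G ≤ 1 := by
        rw [← upperCentralSeries_eq_top_iff_nilpotencyClass_le, upperCentralSeries_one]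
        exact hcen
      omega
    · have h2 := ih k hkm (G ⧸ Subgroup.center G) hk (by omega)
      omega
/-- A finite group of prime-power order p ^ m with m > 1 is nilpotent of class at most m - 1. -/
theorem result {G : Type*} [Group G] [Finite G] (p m : ℕ) [Fact p.Prime]
    (hG : Nat.card G = p ^ m) (hm : 1 < m) : Group.nilpotencyClass G ≤ m - 1 := aux p m G hG hm

end Cfsg.Agent.S0063
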