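import Cfsg.Statements.S0064
import Cfsg.Agent.Lib_helper1_Socle

set_option autoImplicit false
open Cfsg

namespace Cfsg.Agent.S0064

/-- A finite group is nilpotent exactly when each of its subgroups is subnormal. -/
theorem result {G : Type*} [Group G] [Finite G] :
    Group.IsNilpotent G ↔ ∀ H : Subgroup G, H.IsSubnormal := by
  constructor
  · intro h H
    haveI := h
    exact Cfsg.Agent.Lib_helper5_Fitting.isSubnormal_of_isNilpotent H
  · intro h
    apply ((Group.isNilpotent_of_finite_tfae (G := G)).out 0 2 rfl rfl).mpr
    intro M hM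
    obtain ⟨K, hKn, hMK, hKlt⟩ := (h M).exists_normal_and_le_and_lt_top_of_ne hM.1
    have hKM : K = M := by
      by_contra hne
      exact hKlt.ne (hM.2 K (lt_of_le_of_ne hMK (fun h => hne h.symm)))
    rw [← hKM]; exact hKn

end Cfsg.Agent.S0064
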