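import Cfsg.Statements.S0067
import Cfsg.Agent.Lib_helper1_Subnormal

set_option autoImplicit false
open Pointwise
open Cfsg

namespace Cfsg.Agent.S0067

/-- If the join of a subgroup A with each of its conjugates is nilpotent, then A is subnormal in the finite group and contained in the Fitting subgroup. -/
theorem result {G : Type*} [Group G] [Finite G] (A : Subgroup G)
    (h : ∀ g : G, Group.IsNilpotent (A ⊔ MulAut.conj g • A : Subgroup G)) : A.IsSubnormal ∧ A ≤ Cfsg.fittingSubgroup G := by
  have hsub : A.IsSubnormal := by
    apply Cfsg.Agent.Lib_helper1_Subnormal.wielandt_criterion A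
    intro g
    haveI := h g
    exact Cfsg.Agent.Lib_helper5_Fitting.isSubnormal_of_isNilpotent _
  have hnil : Group.IsNilpotent A := by
    haveI := h 1
    have h3 : Group.IsNilpotent (A.subgroupOf (A ⊔ MulAut.conj (1 : G) • A)) := inferInstance
    exact Group.nilpotent_of_mulEquiv (Subgroup.subgroupOfEquivOfLe
      (le_sup_left : A ≤ A ⊔ MulAut.conj (1 : G) • A))
  exact ⟨hsub, Cfsg.Agent.Lib_helper5_Fitting.subnormal_nilpotent_le_fitting A hsub hnil⟩

end Cfsg.Agent.S0067
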