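import Cfsg.Statements.S0068
import Cfsg.Agent.Lib_helper1_FrobConj

set_option autoImplicit false
open Cfsg

namespace Cfsg.Agent.S0068

/-- Frobenius complements of even order: if H complements a nontrivial normal subgroup K, each nonidentity element of H has trivial centraliser in K, and H has even order, then H contains a unique involution s, K is abelian, and s inverts every element of K. -/
theorem result {G : Type*} [Group G] [Finite G] (K H : Subgroup G) [K.Normal]
    (hc : Subgroup.IsComplement' K H) (hK : K ≠ ⊥) (hfpf : ∀ h ∈ H, h ≠ 1 → K ⊓ Subgroup.centralizer {h} = ⊥)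
    (heven : 2 ∣ Nat.card H) :
    (∃ s ∈ H, orderOf s = 2 ∧ (∀ t ∈ H, orderOf t = 2 → t = s) ∧ ∀ k ∈ K, s * k * s⁻¹ = k⁻¹) ∧ IsMulCommutative K := by
  have hH : H ≠ ⊥ := by
    intro h
    rw [h, Subgroup.card_bot] at heven
    omega
  obtain ⟨hF, hKer⟩ := Cfsg.Agent.Lib_helper1_FrobConj.frob_of_fpf K H hc hK hH hfpf
  haveI : Fact (Nat.Prime 2) := ⟨Nat.prime_two⟩
  obtain ⟨s', hs'⟩ := exists_prime_orderOf_dvd_card' (G := H) 2 heven
  have hs2 : orderOf (s' : G) = 2 := by rw [← hs']; exact Subgroup.orderOf_coe s'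
  have hsH : (s' : G) ∈ H := s'.2
  generalize (s' : G) = s at hs2 hsH
  have hinv : ∀ t ∈ H, orderOf t = 2 → (t ≠ 1 ∧ t * t = 1 ∧ ∀ k ∈ K, t * k * t⁻¹ = k⁻¹) := by
    intro t ht hto
    have htt : t * t = 1 := by rw [← sq, ← hto, pow_orderOf_eq_one]
    have ht1 : t ≠ 1 := by
      intro h
      rw [h, orderOf_one] at hto
      omega
    refine ⟨ht1, htt, ?_⟩
    intro k hk
    have hk' : k ∈ frobeniusKernel H := by rw [← hKer]; exact hk
    have h1 := Cfsg.Agent.Lib_helper9_Frob.involution_inverts_kernel hF ht ht1 htt k hk'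
    have h2 : t⁻¹ = t := inv_eq_of_mul_eq_one_right htt
    rw [h2]; exact h1
  obtain ⟨hs1, hss, hsinv⟩ := hinv s hsH hs2
  refine ⟨⟨s, hsH, hs2, ?_, hsinv⟩, ?_⟩
  · intro t ht hto
    obtain ⟨ht1, htt, htinv⟩ := hinv t ht hto
    by_contra hne
    have hts : t * s ≠ 1 := by
      intro h
      apply hne
      have h1 : t = s⁻¹ := eq_inv_of_mul_eq_one_left h
      rw [h1]
      exact inv_eq_of_mul_eq_one_right hss
    have hex : ∃ k ∈ K, k ≠ 1 := by
      by_contra hcon
      push Not at hcon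
      apply hK
      rw [eq_bot_iff]
      intro k hk
      rw [Subgroup.mem_bot]
      exact hcon k hk
    obtain ⟨k, hk, hk1⟩ := hex
    have hcz : k ∈ Subgroup.centralizer {t * s} := by
      rw [Subgroup.mem_centralizer_iff]
      intro z hz
      rw [Set.mem_singleton_iff] at hz
      rw [hz]
      have h1 := hsinv k hk
      have h2 := htinv k⁻¹ (K.inv_mem hk)
      rw [inv_inv] at h2
      calc t * s * k = t * (s * k * s⁻¹) * t⁻¹ * (t * s) := by group
        _ = k * (t * s) := by rw [h1, h2]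
    have h3 : k ∈ K ⊓ Subgroup.centralizer {t * s} := ⟨hk, hcz⟩
    rw [hfpf (t * s) (H.mul_mem ht hsH) hts, Subgroup.mem_bot] at h3
    exact hk1 h3
  · refine ⟨⟨fun a b => Subtype.ext ?_⟩⟩
    have ha : (a : G) ∈ frobeniusKernel H := by rw [← hKer]; exact a.2
    have hb : (b : G) ∈ frobeniusKernel H := by rw [← hKer]; exact b.2
    exact Cfsg.Agent.Lib_helper9_Frob.kernel_comm_of_involution hF hsH hs1 hss a ha b hb

end Cfsg.Agent.S0068
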