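import Cfsg.Statements.S0069
import Cfsg.Agent.Lib_helper1_ZCenter
import Cfsg.Agent.S0040
import Cfsg.Agent.S0068

set_option autoImplicit false
open Cfsg

namespace Cfsg.Agent.S0069

/-- A Frobenius complement has nontrivial centre: if H ≠ 1 complements a nontrivial normal subgroup K and every nonidentity element of H has trivial centraliser in K, then the centre of H is nontrivial. -/
theorem result {G : Type*} [Group G] [Finite G] (K H : Subgroup G) [K.Normal]
    (hc : Subgroup.IsComplement' K H) (hK : K ≠ ⊥) (hH : H ≠ ⊥) (hfpf : ∀ h ∈ H, h ≠ 1 → K ⊓ Subgroup.centralizer {h} = ⊥) :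
    Subgroup.center H ≠ ⊥ := by
  by_cases heven : 2 ∣ Nat.card H
  · obtain ⟨⟨s, hsH, hs2, huniq, -⟩, -⟩ := Cfsg.Agent.S0068.result K H hc hK hfpf heven
    intro hbot
    have hsc : (⟨s, hsH⟩ : H) ∈ Subgroup.center H := by
      rw [Subgroup.mem_center_iff]
      intro h
      apply Subtype.ext
      have h1 : orderOf ((h : G) * s * (h : G)⁻¹) = 2 := by
        have h0 := (MulAut.conj (h : G)).orderOf_eq s
        rw [MulAut.conj_apply] at h0
        rw [h0, hs2]
      have h2 := huniq _ (H.mul_mem (H.mul_mem h.2 hsH) (H.inv_mem h.2)) h1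
      show (h : G) * s = s * h
      calc (h : G) * s = (h * s * (h : G)⁻¹) * h := by group
        _ = s * h := by rw [h2]
    rw [hbot, Subgroup.mem_bot] at hsc
    have hs1 : s = 1 := congrArg Subtype.val hsc
    rw [hs1, orderOf_one] at hs2
    omega
  · haveI : Nontrivial H := (Subgroup.nontrivial_iff_ne_bot H).mpr hH
    obtain ⟨hF, hKer⟩ := Cfsg.Agent.Lib_helper1_FrobConj.frob_of_fpf K H hc hK hH hfpf
    obtain ⟨V, hVK, hV1, hHV, hVab⟩ :=
      Cfsg.Agent.Lib_helper1_FrobConj.exists_invariant_abelian H K hF hKer hc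
    letI : CommGroup ↥V :=
      { (inferInstance : Group ↥V) with
        mul_comm := fun a b => Subtype.ext (hVab a a.2 b b.2) }
    have hV' : ∃ v : V, v ≠ 1 := by
      by_contra h
      push Not at h
      apply hV1
      rw [eq_bot_iff]
      intro v hv
      rw [Subgroup.mem_bot]
      exact congrArg Subtype.val (h ⟨v, hv⟩)
    have hfpf' : ∀ f : H, f ≠ 1 → ∀ v : V,
        Cfsg.Agent.Lib_helper1_FrobAct.conjAct V H hHV f v = v → v = 1 := by
      intro f hf v hv
      have h1 := congrArg Subtype.val hv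
      rw [Cfsg.Agent.Lib_helper1_FrobAct.conjAct_apply] at h1
      have hc' : (v : G) ∈ Subgroup.centralizer {(f : G)} := by
        rw [Subgroup.mem_centralizer_iff]
        intro k hk
        rw [Set.mem_singleton_iff] at hk
        rw [hk]
        calc (f : G) * v = (f : G) * v * (f : G)⁻¹ * f := by group
          _ = v * f := by rw [h1]
      have h2 : (v : G) ∈ K ⊓ Subgroup.centralizer {(f : G)} := ⟨hVK v.2, hc'⟩
      rw [hfpf f f.2 (fun h => hf (Subtype.ext h)), Subgroup.mem_bot] at h2
      exact Subtype.ext h2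
    haveI : IsZGroup H := ⟨fun p hp P => by
      haveI : Fact p.Prime := ⟨hp⟩
      rcases Cfsg.Agent.S0040.result K H hc hK hfpf p P with h | ⟨n, ⟨e⟩⟩
      · exact h
      · exfalso
        have h1 : Nat.card P = 4 * 2 ^ n := by
          rw [Nat.card_congr e.toEquiv, Nat.card_eq_fintype_card, QuaternionGroup.card]
        apply heven
        have h2 : 2 ∣ Nat.card P := by
          rw [h1]
          exact Dvd.intro (2 * 2 ^ n) (by ring)
        exact h2.trans (Subgroup.card_subgroup_dvd_card _)⟩
    apply Cfsg.Agent.Lib_helper1_ZCenter.center_ne_bot_of_zgroup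
    intro T a b ha hb hab hcard u hu v hv
    have hcyc : IsCyclic T := Cfsg.Agent.Lib_helper1_FpfCyclic.fpf_pq_cyclic
      ((Cfsg.Agent.Lib_helper1_FrobAct.conjAct V H hHV).comp T.subtype) hV'
      (fun f hf v hv => hfpf' (f : H) (fun h => hf (Subtype.ext h)) v hv) a b ha hb hab hcard
    exact congrArg Subtype.val (mul_comm' (⟨u, hu⟩ : T) ⟨v, hv⟩)

end Cfsg.Agent.S0069
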