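import Cfsg.Statements.S0072
import Cfsg.Agent.Lib_helper1_Frobenius

set_option autoImplicit false
open Cfsg

namespace Cfsg.Agent.S0072

/-- A finite group has a normal p-complement if and only if every p-local subgroup (normalizer of a nontrivial p-subgroup) has one. -/
theorem result {G : Type*} [Group G] [Finite G] (p : ℕ) [Fact p.Prime] : Cfsg.HasNormalPComplement p G ↔ ∀ Q : Subgroup G, IsPGroup p Q → Q ≠ ⊥ → Cfsg.HasNormalPComplement p (Subgroup.normalizer (Q : Set G)) := by
  constructor
  · intro h Q _ _
    exact Cfsg.Agent.Lib_helper1_Frobenius.hasNormalPComplement_of_npc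
      (Cfsg.Agent.Lib_helper1_Frobenius.npc_subgroup
        (Cfsg.Agent.Lib_helper1_Frobenius.npc_of_hasNormalPComplement h) _)
  · intro h
    apply Cfsg.Agent.Lib_helper1_Frobenius.hasNormalPComplement_of_npc
    apply Cfsg.Agent.Lib_helper1_Frobenius.frobenius
    intro Q hQ g hg hgo
    by_cases hQb : Q = ⊥
    · rw [hQb, Subgroup.mem_centralizer_iff]
      intro t ht
      have : t = 1 := ht
      rw [this, one_mul, mul_one]
    · exact Cfsg.Agent.Lib_helper1_Frobenius.frobHyp_apply_sub _
        (Cfsg.Agent.Lib_helper1_Frobenius.frobHyp_of_npc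
          (Cfsg.Agent.Lib_helper1_Frobenius.npc_of_hasNormalPComplement (h Q hQ hQb)))
        Q hQ Subgroup.le_normalizer g hg hg hgo

end Cfsg.Agent.S0072
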