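import Cfsg.Statements.S0073
import Mathlib
import Cfsg.Agent.Lib_helper1_NCBound

set_option autoImplicit false
open Cfsg

namespace Cfsg.Agent.S0073

/-- For a finite non-abelian simple group, either the cube of the least prime divisor of the order divides the order, or 12 does. -/
theorem result {G : Type*} [Group G] [Finite G] [IsSimpleGroup G] (hG : ∃ x y : G, x * y ≠ y * x) : (Nat.card G).minFac ^ 3 ∣ Nat.card G ∨ 12 ∣ Nat.card G := by
  classical
  obtain ⟨x0, y0, hxy⟩ := hG
  have hcard1 : Nat.card G ≠ 1 := by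
    intro h
    haveI := (Nat.card_eq_one_iff_unique.mp h).1
    exact hxy (Subsingleton.elim _ _)
  have hpp : (Nat.card G).minFac.Prime := Nat.minFac_prime hcard1
  have hmin : ∀ q : ℕ, q.Prime → q ∣ Nat.card G → (Nat.card G).minFac ≤ q :=
    fun q hq' hq => Nat.minFac_le_of_dvd hq'.two_le hq
  have hpdvd : (Nat.card G).minFac ∣ Nat.card G := Nat.minFac_dvd _
  generalize (Nat.card G).minFac = p at hpp hmin hpdvd ⊢
  haveI : Fact p.Prime := ⟨hpp⟩
  obtain ⟨P⟩ : Nonempty (Sylow p G) := inferInstance
  obtain ⟨k, hk⟩ := (IsPGroup.iff_card.mp P.isPGroup')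
  have hPdvd : Nat.card P ∣ Nat.card G := Subgroup.card_subgroup_dvd_card _
  by_cases hk3 : 3 ≤ k
  · left
    exact (pow_dvd_pow p hk3).trans (hk ▸ hPdvd)
  have hPne : (P : Subgroup G) ≠ ⊥ := P.ne_bot_of_dvd_card hpdvd
  have hk1 : 1 ≤ k := by
    by_contra h0
    have hk0 : k = 0 := by omega
    rw [hk0, pow_zero] at hk
    exact hPne (Subgroup.card_eq_one.mp hk)
  have hTc : IsMulCommutative P := by
    have hk12 : k = 1 ∨ k = 2 := by omega
    rcases hk12 with h | h
    · rw [h, pow_one] at hk
      haveI : IsCyclic P := isCyclic_of_prime_card hk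
      exact IsCyclic.commutative
    · rw [h] at hk
      exact ⟨⟨fun a b => IsPGroup.commutative_of_card_eq_prime_sq hk a b⟩⟩
  by_cases hq : ∀ q : ℕ, q.Prime → q ∣ Nat.card G → q ≠ p → ∀ i, 1 ≤ i → i ≤ k → ¬ q ∣ p ^ i - 1
  · exfalso
    have h := Cfsg.Agent.Lib_helper1_NCBound.normalizer_le_centralizer P hTc k hk hq
    have hc := MonoidHom.ker_transferSylow_isComplement' P h
    rcases (MonoidHom.transferSylow P h).normal_ker.eq_bot_or_eq_top with hb | ht
    · rw [hb] at hc
      have hPtop : (P : Subgroup G) = ⊤ := Subgroup.isComplement'_bot_left.mp hc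
      have hx : x0 ∈ (P : Subgroup G) := hPtop ▸ Subgroup.mem_top _
      have hy : y0 ∈ (P : Subgroup G) := hPtop ▸ Subgroup.mem_top _
      exact hxy (congrArg Subtype.val (mul_comm' (⟨x0, hx⟩ : P) ⟨y0, hy⟩))
    · rw [ht] at hc
      exact hPne (Subgroup.isComplement'_top_left.mp hc)
  · right
    push Not at hq
    obtain ⟨q, hqp, hqG, hqne, i, hi1, hik, hqd⟩ := hq
    have hpq : p < q := lt_of_le_of_ne (hmin q hqp hqG) (Ne.symm hqne)
    have hp2 : 2 ≤ p := hpp.two_le
    have hi : i = 1 ∨ i = 2 := by omega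
    rcases hi with h | h
    · exfalso
      rw [h, pow_one] at hqd
      have := Nat.le_of_dvd (by omega) hqd
      omega
    · rw [h] at hqd hik
      have hk2 : k = 2 := by omega
      have e : p ^ 2 - 1 = (p - 1) * (p + 1) := by
        zify [hpp.pos, Nat.one_le_pow 2 p hpp.pos]
        ring
      rw [e] at hqd
      have hqd2 : q ∣ p + 1 := by
        rcases (Nat.Prime.dvd_mul hqp).mp hqd with h1 | h1
        · exfalso
          have := Nat.le_of_dvd (by omega) h1
          omega
        · exact h1
      have hqeq : q = p + 1 := by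
        have := Nat.le_of_dvd (by omega) hqd2
        omega
      have hp2' : p = 2 := by
        rcases hpp.eq_two_or_odd with h2 | h2
        · exact h2
        · exfalso
          rcases hqp.eq_two_or_odd with h3 | h3
          · omega
          · omega
      subst hp2'
      have hq3 : q = 3 := by omega
      subst hq3
      rw [hk2] at hk
      have h4 : 4 ∣ Nat.card G := by
        have : (4 : ℕ) = 2 ^ 2 := by norm_num
        rw [this, ← hk]; exact hPdvd
      have : (12 : ℕ) = 4 * 3 := by norm_num
      rw [this]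
      exact Nat.Coprime.mul_dvd_of_dvd_of_dvd (by norm_num) h4 hqG

end Cfsg.Agent.S0073
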