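import Cfsg.Statements.S0075
import Cfsg.Agent.Lib_helper1_AbSylowFocal

set_option autoImplicit false
open Cfsg

namespace Cfsg.Agent.S0075

/-- For an abelian Sylow p-subgroup T, its intersection with the subgroup generated by the elements of order prime to p is the commutator of T with its normalizer. -/
theorem result {G : Type*} [Group G] [Finite G] {p : ℕ} [Fact p.Prime] (T : Sylow p G) (hT : IsMulCommutative T) : (T : Subgroup G) ⊓ Cfsg.pResidual p G = ⁅(T : Subgroup G), Subgroup.normalizer (T : Set G)⁆ := Cfsg.Agent.Lib_helper1_AbSylowFocal.inf_pResidual T hT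

end Cfsg.Agent.S0075
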