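import Cfsg.Statements.S0076
import Cfsg.Agent.Lib_helper1_Basic

set_option autoImplicit false
open Cfsg

namespace Cfsg.Agent.S0076

open Cfsg.Agent.Lib_helper1_Basic in
/-- Two P-invariant subsets of a Sylow p-subgroup P that are conjugate in G are conjugate under the normalizer of P. -/
theorem result {G : Type*} [Group G] [Finite G] {p : ℕ} [Fact p.Prime] (P : Sylow p G) (X Y : Set G) (hXP : X ⊆ P) (hYP : Y ⊆ P) (hX : ∀ x ∈ P, (fun y => x * y * x⁻¹) '' X = X) (hY : ∀ x ∈ P, (fun y => x * y * x⁻¹) '' Y = Y) (g : G) (hg : (fun y => g * y * g⁻¹) '' X = Y) : ∃ n ∈ Subgroup.normalizer (P : Set G), (fun y => n * y * n⁻¹) '' X = Y := by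
  have h1 : (P : Subgroup G) ≤ Subgroup.normalizer Y := by
    intro x hx
    rw [Subgroup.mem_normalizer_iff_conj_image_eq]
    exact hY x hx
  have h2 : ((g • P : Sylow p G) : Subgroup G) ≤ Subgroup.normalizer Y := by
    rw [Subgroup.le_set_normalizer_iff]
    intro w hw y hy
    rw [mem_sylow_smul] at hw
    rw [← hg] at hy ⊢
    obtain ⟨x, hx, rfl⟩ := hy
    refine ⟨(g⁻¹ * w * g) * x * (g⁻¹ * w * g)⁻¹, ?_, ?_⟩
    · have := hX _ hw
      rw [← this]
      exact ⟨x, hx, rfl⟩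
    · show g * ((g⁻¹ * w * g) * x * (g⁻¹ * w * g)⁻¹) * g⁻¹ = w * (g * x * g⁻¹) * w⁻¹
      group
  obtain ⟨h, hh, hn⟩ := sylow_conj_in_subgroup P g _ h1 h2
  refine ⟨h * g, hn, ?_⟩
  have e : (fun y => (h * g) * y * (h * g)⁻¹) '' X
      = (fun y => h * y * h⁻¹) '' ((fun y => g * y * g⁻¹) '' X) := by
    rw [Set.image_image]; congr 1; funext y; group
  rw [e, hg]
  exact Subgroup.mem_normalizer_iff_conj_image_eq.mp hh

end Cfsg.Agent.S0076
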