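import Cfsg.Statements.S0077
import Mathlib
import Cfsg.Agent.Lib_helper1_Basic

set_option autoImplicit false
open Cfsg

namespace Cfsg.Agent.S0077

open scoped commutatorElement in
/-- If a subgroup Z of the centre of a Sylow p-subgroup P is weakly closed in P, then P meets the derived subgroup of G exactly where it meets the derived subgroup of the normalizer of Z. -/
theorem result {G : Type*} [Group G] [Finite G] {p : ℕ} [Fact p.Prime] (P : Sylow p G) (Z : Subgroup G) (hZ : Z ≤ Subgroup.centralizer (P : Set G)) (hW : Cfsg.IsWeaklyClosed Z P) : commutator G ⊓ (P : Subgroup G) = ⁅Subgroup.normalizer (Z : Set G), Subgroup.normalizer (Z : Set G)⁆ ⊓ (P : Subgroup G) := by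
  classical
  open Pointwise in
  have key : ∀ x ∈ (P : Subgroup G), ∀ u : G, u * x * u⁻¹ ∈ (P : Subgroup G) →
      ∃ n ∈ Subgroup.normalizer (Z : Set G), n * x * n⁻¹ = u * x * u⁻¹ := by
    intro x hx u hy
    set y := u * x * u⁻¹ with hydef
    set C : Subgroup G := Subgroup.centralizer {y} with hC
    have hZC : Z ≤ C := by
      intro z hz
      have h1 : z ∈ Subgroup.centralizer ((P : Subgroup G) : Set G) := hZ hz
      rw [Subgroup.mem_centralizer_iff] at h1
      rw [hC, Subgroup.mem_centralizer_iff]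
      intro w hw
      rw [Set.mem_singleton_iff] at hw
      subst hw
      exact h1 y hy
    have hZuC : ∀ z ∈ Z, u * z * u⁻¹ ∈ C := by
      intro z hz
      have h1 : z ∈ Subgroup.centralizer ((P : Subgroup G) : Set G) := hZ hz
      rw [Subgroup.mem_centralizer_iff] at h1
      rw [hC, Subgroup.mem_centralizer_iff]
      intro w hw
      rw [Set.mem_singleton_iff] at hw
      subst hw
      have h2 := h1 x hx
      rw [hydef]
      calc u * x * u⁻¹ * (u * z * u⁻¹) = u * (x * z) * u⁻¹ := by group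
        _ = u * (z * x) * u⁻¹ := by rw [h2]
        _ = u * z * u⁻¹ * (u * x * u⁻¹) := by group
    have hZp : IsPGroup p Z := P.isPGroup'.to_le hW.1
    -- p-subgroups of C
    have h1 : IsPGroup p (Z.subgroupOf C) := hZp.comap_subtype
    have hZu : IsPGroup p ((Z.map (MulAut.conj u).toMonoidHom).subgroupOf C) :=
      (hZp.map _).comap_subtype
    obtain ⟨R, hR⟩ := h1.exists_le_sylow
    obtain ⟨S, hS⟩ := hZu.exists_le_sylow
    obtain ⟨c, hc⟩ := MulAction.exists_smul_eq ↥C S R
    have hRp : IsPGroup p ((R : Subgroup C).map C.subtype) := R.isPGroup'.map _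
    obtain ⟨Q, hQ⟩ := hRp.exists_le_sylow
    obtain ⟨g, hg⟩ := MulAction.exists_smul_eq G Q P
    -- g Z g⁻¹ ≤ P
    have hgZ : ∀ z ∈ Z, g * z * g⁻¹ ∈ (P : Subgroup G) := by
      intro z hz
      have hzR : (⟨z, hZC hz⟩ : C) ∈ (R : Subgroup C) := hR (by
        rw [Subgroup.mem_subgroupOf]; exact hz)
      have hzQ : z ∈ (Q : Subgroup G) := hQ ⟨⟨z, hZC hz⟩, hzR, rfl⟩
      rw [← hg]
      rw [Sylow.coe_subgroup_smul]
      exact Cfsg.Agent.Lib_helper1_Basic.conj_mem_conj_smul _ g z hzQ
    have hgcuZ : ∀ z ∈ Z, (g * c * u) * z * (g * c * u)⁻¹ ∈ (P : Subgroup G) := by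
      intro z hz
      have hzS : (⟨u * z * u⁻¹, hZuC z hz⟩ : C) ∈ (S : Subgroup C) := hS (by
        rw [Subgroup.mem_subgroupOf]
        exact ⟨z, hz, by simp [MulAut.conj_apply]⟩)
      have hzR : c * (⟨u * z * u⁻¹, hZuC z hz⟩ : C) * c⁻¹ ∈ (R : Subgroup C) := by
        rw [← hc, Sylow.coe_subgroup_smul]
        exact Cfsg.Agent.Lib_helper1_Basic.conj_mem_conj_smul _ c _ hzS
      have hzQ : (c : G) * (u * z * u⁻¹) * (c : G)⁻¹ ∈ (Q : Subgroup G) :=
        hQ ⟨_, hzR, rfl⟩
      rw [← hg]
      rw [Sylow.coe_subgroup_smul]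
      have := Cfsg.Agent.Lib_helper1_Basic.conj_mem_conj_smul _ g _ hzQ
      have e : (g * c * u) * z * (g * c * u)⁻¹ = g * ((c : G) * (u * z * u⁻¹) * (c : G)⁻¹) * g⁻¹ := by
        group
      rw [e]; exact this
    have hnorm : ∀ a : G, (∀ z ∈ Z, a * z * a⁻¹ ∈ (P : Subgroup G)) →
        a ∈ Subgroup.normalizer (Z : Set G) := by
      intro a ha
      apply Cfsg.Agent.Lib_helper1_Basic.mem_normalizer_of_conj_le
      intro z hz
      have h2 : Z.map (MulAut.conj a).toMonoidHom = Z := by
        apply hW.2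
        rintro w ⟨z, hz, rfl⟩
        simpa [MulAut.conj_apply] using ha z hz
      rw [← h2]
      exact ⟨z, hz, by simp [MulAut.conj_apply]⟩
    have hgN := hnorm g hgZ
    have hgcuN := hnorm _ hgcuZ
    refine ⟨c * u, ?_, ?_⟩
    · have : (c : G) * u = g⁻¹ * (g * c * u) := by group
      rw [this]
      exact mul_mem (inv_mem hgN) hgcuN
    · have hcC : (c : G) ∈ Subgroup.centralizer {y} := c.2
      rw [Subgroup.mem_centralizer_iff] at hcC
      have h3 := hcC y (Set.mem_singleton y)
      calc (c : G) * u * x * ((c : G) * u)⁻¹ = (c : G) * y * (c : G)⁻¹ := by rw [hydef]; group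
        _ = y := by rw [← h3]; group
  apply le_antisymm
  · rw [Subgroup.commutator_inf_eq_focalSubgroup]
    refine le_inf ?_ (Subgroup.focalSubgroup_le _)
    rw [Subgroup.focalSubgroup_def, Subgroup.closure_le]
    rintro w ⟨hw, x, hx, u, rfl⟩
    have hy : u * x * u⁻¹ ∈ (P : Subgroup G) := by
      have : u * x * u⁻¹ = (x⁻¹ * ⁅x, u⁆)⁻¹ := by rw [commutatorElement_def]; group
      rw [this]
      exact inv_mem (mul_mem (inv_mem hx) hw)
    obtain ⟨n, hn, hn'⟩ := key x hx u hy
    have hPN : (P : Subgroup G) ≤ Subgroup.normalizer (Z : Set G) := by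
      intro a ha
      rw [Subgroup.mem_normalizer_iff]
      intro z
      have h4 : ∀ z ∈ Z, a * z * a⁻¹ = z := by
        intro z hz
        have h1 : z ∈ Subgroup.centralizer ((P : Subgroup G) : Set G) := hZ hz
        rw [Subgroup.mem_centralizer_iff] at h1
        have := h1 a ha
        rw [this]; group
      constructor
      · intro hz; rw [h4 z hz]; exact hz
      · intro hz
        have := h4 _ hz
        have e : a * z * a⁻¹ = z := by
          apply mul_left_cancel (a := a)
          apply mul_right_cancel (b := a⁻¹)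
          exact this
        rw [← e]; exact hz
    have e : ⁅x, u⁆ = ⁅x, n⁆ := by
      rw [commutatorElement_def, commutatorElement_def]
      have : x * u * x⁻¹ * u⁻¹ = x * (u * x * u⁻¹)⁻¹ := by group
      rw [this, ← hn']; group
    show ⁅x, u⁆ ∈ ⁅Subgroup.normalizer (Z : Set G), Subgroup.normalizer (Z : Set G)⁆
    rw [e]
    exact Subgroup.commutator_mem_commutator (hPN hx) hn
  · refine inf_le_inf_right _ ?_
    rw [commutator_def]
    exact Subgroup.commutator_mono le_top le_top

end Cfsg.Agent.S0077
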