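import Cfsg.Statements.S0080
import Cfsg.Agent.Lib_helper1_Basic

set_option autoImplicit false
open Cfsg

namespace Cfsg.Agent.S0080

open scoped IsMulCommutative in

/-- When the index of H is prime to the order of H/H', the focal subgroup of H is G' ∩ H, and H/(G' ∩ H) has a normal complement. -/
theorem result {G : Type*} [Group G] [Finite G] (H : Subgroup G) (h : Nat.Coprime H.index (⁅H, H⁆.relIndex H)) : Subgroup.focalSubgroup H = commutator G ⊓ H ∧ ∃ N : Subgroup G, N.Normal ∧ N ⊓ H = commutator G ⊓ H ∧ N ⊔ H = ⊤ := by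
  have hcardQ : Nat.card (H ⧸ H.focalSubgroupOf) ∣ ⁅H, H⁆.relIndex H := by
    rw [← Subgroup.index_eq_card]
    have h1 : (commutator H).index = ⁅H, H⁆.relIndex H := by
      rw [← Subgroup.map_subtype_commutator, Subgroup.relIndex, Subgroup.subgroupOf,
        Subgroup.comap_map_eq_self_of_injective H.subtype_injective]
    rw [← h1]
    exact Subgroup.index_dvd_of_le H.commutator_le_focalSubgroupOf
  have hcop : (Nat.card (H ⧸ H.focalSubgroupOf)).Coprime H.index :=
    Nat.Coprime.coprime_dvd_left hcardQ h.symm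
  have hpow_inj : ∀ q : H ⧸ H.focalSubgroupOf, q ^ H.index = 1 → q = 1 := by
    intro q hq
    have ho1 := orderOf_dvd_of_pow_eq_one hq
    have ho2 := orderOf_dvd_natCard q
    exact orderOf_eq_one_iff.mp (Nat.eq_one_of_dvd_coprimes hcop ho2 ho1)
  have hpow_surj : ∀ q : H ⧸ H.focalSubgroupOf, ∃ r, r ^ H.index = q := by
    intro q
    exact (powCoprime hcop).surjective q
  have hker : H.transferFocal.ker ⊓ H = H.focalSubgroup := by
    apply le_antisymm
    · rintro x ⟨hxk, hxH⟩
      have h1 : H.transferFocal ((⟨x, hxH⟩ : H) : G) = 1 := hxk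
      rw [Subgroup.transferFocal_eq_pow] at h1
      have h2 := hpow_inj _ h1
      have h3 : (⟨x, hxH⟩ : H) ∈ H.focalSubgroupOf := (QuotientGroup.eq_one_iff _).mp h2
      exact Subgroup.mem_subgroupOf.mp h3
    · refine le_inf ?_ H.focalSubgroup_le
      exact H.focalSubgroup_le_commutator.trans (Abelianization.commutator_subset_ker _)
  have hfoc : H.focalSubgroup = commutator G ⊓ H := by
    apply le_antisymm (le_inf H.focalSubgroup_le_commutator H.focalSubgroup_le)
    rw [← hker]
    exact inf_le_inf_right _ (Abelianization.commutator_subset_ker _)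
  refine ⟨hfoc, H.transferFocal.ker, inferInstance, by rw [hker, hfoc], ?_⟩
  rw [eq_top_iff]
  intro g _
  obtain ⟨y, hy⟩ := hpow_surj (H.transferFocal g)
  obtain ⟨x, rfl⟩ := QuotientGroup.mk'_surjective _ y
  have hx : H.transferFocal (x : G) = H.transferFocal g := by
    rw [Subgroup.transferFocal_eq_pow]; exact hy
  have hk : g * (x : G)⁻¹ ∈ H.transferFocal.ker := by
    rw [MonoidHom.mem_ker, map_mul, map_inv, hx, mul_inv_cancel]
  have : g = (g * (x : G)⁻¹) * x := by group
  rw [this]
  exact Subgroup.mul_mem_sup hk x.2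

end Cfsg.Agent.S0080
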