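import Cfsg.Statements.S0082
import Mathlib
import Cfsg.Agent.Lib_helper7_Sylow

set_option autoImplicit false
open Cfsg

namespace Cfsg.Agent.S0082

/-- With a cyclic Sylow p-subgroup, either there is a normal p-complement or the elements of order prime to p generate the whole group. -/
theorem result {G : Type*} [Group G] [Finite G] {p : ℕ} [Fact p.Prime] (P : Sylow p G) (hP : IsCyclic P) : Cfsg.HasNormalPComplement p G ∨ Cfsg.pResidual p G = ⊤ := by
  haveI := hP
  rcases Sylow.normalizer_le_centralizer_or_le_commutator P with h | h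
  · left
    exact ⟨P, (MonoidHom.transferSylow P h).ker, inferInstance,
      MonoidHom.ker_transferSylow_isComplement' P h⟩
  · right
    have hsup := Cfsg.Agent.Lib_helper7_Sylow.pResidual_sup_sylow p P
    haveI := Cfsg.Agent.Lib_helper7_Sylow.pResidual_normal (K := G) p
    have hcomm : commutator G ≤ Cfsg.pResidual p G := by
      rw [← Subgroup.Normal.quotient_commutative_iff_commutator_le]
      refine ⟨⟨fun a b => ?_⟩⟩
      obtain ⟨a, rfl⟩ := QuotientGroup.mk_surjective a
      obtain ⟨b, rfl⟩ := QuotientGroup.mk_surjective b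
      obtain ⟨s, hs, x, hx, rfl⟩ := Cfsg.Agent.Lib_helper7_Sylow.exists_mul_pResidual p P a
      obtain ⟨t, ht, y, hy, rfl⟩ := Cfsg.Agent.Lib_helper7_Sylow.exists_mul_pResidual p P b
      have e1 : ((s * x : G) : G ⧸ Cfsg.pResidual p G) = (s : G ⧸ Cfsg.pResidual p G) := by
        rw [QuotientGroup.mk_mul, (QuotientGroup.eq_one_iff x).mpr hx, mul_one]
      have e2 : ((t * y : G) : G ⧸ Cfsg.pResidual p G) = (t : G ⧸ Cfsg.pResidual p G) := by
        rw [QuotientGroup.mk_mul, (QuotientGroup.eq_one_iff y).mpr hy, mul_one]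
      rw [e1, e2, ← QuotientGroup.mk_mul, ← QuotientGroup.mk_mul]
      have h3 : s * t = t * s :=
        congrArg Subtype.val (mul_comm' (⟨s, hs⟩ : P) ⟨t, ht⟩)
      rw [h3]
    rw [eq_top_iff, ← hsup]
    exact sup_le (h.trans hcomm) le_rfl

end Cfsg.Agent.S0082
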