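import Cfsg.Statements.S0083
import Mathlib

set_option autoImplicit false
open Cfsg

namespace Cfsg.Agent.S0083

/-- For an abelian Sylow p-subgroup P, a normal p-complement exists exactly when the normalizer of P is an internal direct product of P with some subgroup. -/
theorem result {G : Type*} [Group G] [Finite G] {p : ℕ} [Fact p.Prime] (P : Sylow p G) (hP : IsMulCommutative P) : Cfsg.HasNormalPComplement p G ↔ ∃ Q : Subgroup G, Q ≤ Subgroup.centralizer (P : Set G) ∧ Q ⊓ (P : Subgroup G) = ⊥ ∧ Q ⊔ (P : Subgroup G) = Subgroup.normalizer (P : Set G) := by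
  constructor
  · rintro ⟨P', N, hN, hc⟩
    haveI := hN
    have hcardP : Nat.card (P : Subgroup G) = Nat.card (P' : Subgroup G) := Sylow.card_eq_multiplicity P ▸ (Sylow.card_eq_multiplicity P').symm
    have hNP' : Nat.card N * Nat.card (P' : Subgroup G) = Nat.card G := hc.card_mul_card
    have hNP : Nat.card N * Nat.card (P : Subgroup G) = Nat.card G := by
      rw [hcardP]
      exact hNP'
    have hNcard : Nat.card N = (P : Subgroup G).index := by
      have h1 := Subgroup.card_mul_index (P : Subgroup G)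
      rw [← hNP, mul_comm] at h1
      exact (Nat.eq_of_mul_eq_mul_right Nat.card_pos h1).symm
    have hcop : Nat.Coprime (Nat.card N) (Nat.card (P : Subgroup G)) := by
      rw [hNcard]
      exact (P.card_coprime_index).symm
    have hc2 : Subgroup.IsComplement' N (P : Subgroup G) := Subgroup.isComplement'_of_coprime hNP hcop
    have hdisj : N ⊓ (P : Subgroup G) = ⊥ := hc2.disjoint.eq_bot
    have hsup : N ⊔ (P : Subgroup G) = ⊤ := hc2.sup_eq_top
    refine ⟨N ⊓ Subgroup.normalizer ((P : Subgroup G) : Set G), ?_, ?_, ?_⟩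
    · intro q hq
      rw [Subgroup.mem_centralizer_iff]
      intro x hx
      have hx' : x ∈ (P : Subgroup G) := hx
      have h1 : q * x * q⁻¹ * x⁻¹ ∈ N := by
        have h2 : x * q⁻¹ * x⁻¹ ∈ N := hN.conj_mem _ (N.inv_mem hq.1) x
        have e : q * x * q⁻¹ * x⁻¹ = q * (x * q⁻¹ * x⁻¹) := by group
        rw [e]
        exact N.mul_mem hq.1 h2
      have h3 : q * x * q⁻¹ * x⁻¹ ∈ (P : Subgroup G) :=
        Subgroup.mul_mem _ ((Subgroup.mem_normalizer_iff.mp hq.2 x).mp hx') (Subgroup.inv_mem _ hx')
      have h4 : q * x * q⁻¹ * x⁻¹ ∈ N ⊓ (P : Subgroup G) := ⟨h1, h3⟩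
      rw [hdisj, Subgroup.mem_bot] at h4
      calc x * q = (q * x * q⁻¹ * x⁻¹)⁻¹ * q * x := by group
        _ = q * x := by rw [h4]; group
    · rw [eq_bot_iff, ← hdisj]
      exact inf_le_inf_right _ inf_le_left
    · apply le_antisymm
      · exact sup_le inf_le_right Subgroup.le_normalizer
      · intro n hn
        have h1 : n ∈ N ⊔ (P : Subgroup G) := hsup ▸ Subgroup.mem_top n
        rw [Subgroup.mem_sup_of_normal_left] at h1
        obtain ⟨u, hu, x, hx, rfl⟩ := h1
        have h2 : u ∈ Subgroup.normalizer ((P : Subgroup G) : Set G) := by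
          have h3 : u = (u * x) * x⁻¹ := by group
          rw [h3]
          exact Subgroup.mul_mem _ hn (Subgroup.inv_mem _ (Subgroup.le_normalizer hx))
        exact Subgroup.mul_mem _ (Subgroup.mem_sup_left ⟨hu, h2⟩) (Subgroup.mem_sup_right hx)
  · rintro ⟨Q, hQC, hQP, hQN⟩
    haveI := hP
    have hPC : (P : Subgroup G) ≤ Subgroup.centralizer ((P : Subgroup G) : Set G) := by
      intro x hx
      rw [Subgroup.mem_centralizer_iff]
      intro y hy
      exact congrArg Subtype.val (mul_comm' (⟨y, hy⟩ : P) ⟨x, hx⟩)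
    have h : Subgroup.normalizer ((P : Subgroup G) : Set G) ≤
        Subgroup.centralizer ((P : Subgroup G) : Set G) := by
      intro n hn
      have hn' : n ∈ Subgroup.normalizer (P : Set G) := hn
      rw [← hQN] at hn'
      exact (sup_le hQC (show (P : Subgroup G) ≤ Subgroup.centralizer (P : Set G) from hPC)) hn'
    exact ⟨P, (MonoidHom.transferSylow P h).ker, inferInstance,
      MonoidHom.ker_transferSylow_isComplement' P h⟩

end Cfsg.Agent.S0083
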