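import Cfsg.Statements.S0084
import Cfsg.Agent.Lib_helper1_NCBound

set_option autoImplicit false
open Cfsg

namespace Cfsg.Agent.S0084

/-- A group whose Sylow 2-subgroups are Klein four-groups and whose order is prime to 3 has a normal 2-complement. -/
theorem result {G : Type*} [Group G] [Finite G] (T : Sylow 2 G) (hT : IsKleinFour T) (h3 : ¬ 3 ∣ Nat.card G) : Cfsg.HasNormalPComplement 2 G := by
  haveI := hT
  have hTc : IsMulCommutative T := IsKleinFour.isMulCommutative
  have hcard : Nat.card T = 2 ^ 2 := by
    rw [IsKleinFour.card_four]; norm_num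
  have h := Cfsg.Agent.Lib_helper1_NCBound.normalizer_le_centralizer T hTc 2 hcard (by
    intro q hq hqG hq2 i hi1 hi2
    interval_cases i
    · intro hd
      exact hq.one_lt.ne' (Nat.dvd_one.mp hd)
    · intro hd
      have h4 : q = 3 := (Nat.prime_dvd_prime_iff_eq hq (by norm_num)).mp hd
      exact h3 (h4 ▸ hqG))
  exact ⟨T, (MonoidHom.transferSylow T h).ker, inferInstance,
    MonoidHom.ker_transferSylow_isComplement' T h⟩

end Cfsg.Agent.S0084
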