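import Cfsg.Statements.S0086

set_option autoImplicit false
open Cfsg

namespace Cfsg.Agent.S0086

/-- A normal complement to a Sylow p-subgroup is exactly the set of elements of order prime to p. -/
theorem result {G : Type*} [Group G] [Finite G] {p : ℕ} [Fact p.Prime] (P : Sylow p G) (N : Subgroup G) [N.Normal] (hN : N.IsComplement' (P : Subgroup G)) (x : G) : x ∈ N ↔ Nat.Coprime (orderOf x) p := by
  have hp := Fact.out (p := p.Prime)
  have hcardN : Nat.card N = (P : Subgroup G).index := (hN.index_eq_card).symm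
  have hcop : (Nat.card N).Coprime p := by
    rw [hcardN]
    exact ((Nat.Prime.coprime_iff_not_dvd hp).mpr P.not_dvd_index).symm
  constructor
  · intro hx
    have h1 : orderOf x ∣ Nat.card N := by
      have := orderOf_dvd_natCard (⟨x, hx⟩ : N)
      rwa [Subgroup.orderOf_mk] at this
    exact Nat.Coprime.coprime_dvd_left h1 hcop
  · intro hx
    have hq : IsPGroup p (G ⧸ N) := by
      obtain ⟨k, hk⟩ := IsPGroup.iff_card.mp P.2
      apply IsPGroup.of_card (n := k)
      rw [← Subgroup.index_eq_card, hN.symm.index_eq_card]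
      exact hk
    obtain ⟨k, hk⟩ := hq (x : G ⧸ N)
    have h1 : orderOf (x : G ⧸ N) ∣ p ^ k := orderOf_dvd_of_pow_eq_one hk
    have h2 : orderOf (x : G ⧸ N) ∣ orderOf x := orderOf_map_dvd (QuotientGroup.mk' N) x
    have hc : Nat.Coprime (orderOf (x : G ⧸ N)) (p ^ k) :=
      Nat.Coprime.coprime_dvd_left h2 (Nat.Coprime.pow_right k hx)
    have h3 : orderOf (x : G ⧸ N) = 1 := hc.eq_one_of_dvd h1
    have h4 : (x : G ⧸ N) = 1 := orderOf_eq_one_iff.mp h3
    exact (QuotientGroup.eq_one_iff x).mp h4

end Cfsg.Agent.S0086
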