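import Cfsg.Statements.S0087
import Cfsg.Agent.Lib_helper1_SZConj
import Cfsg.Agent.Lib_helper1_Coprime

set_option autoImplicit false
open Cfsg

namespace Cfsg.Agent.S0087

universe u

open scoped Pointwise

open Cfsg.Agent.Lib_helper1_Basic Cfsg.Agent.Lib_helper1_Hall Cfsg.Agent.Lib_helper1_SZConj
  Cfsg.Agent.Lib_helper1_Coprime

open scoped IsMulCommutative in
theorem stepA {G : Type*} [Group G] [Finite G] (H : Subgroup G) [IsMulCommutative H]
    (hHall : Nat.Coprime (Nat.card H) H.index)
    (key : ∀ g ∈ H, ∀ (k : ℕ) (g₀ : G), g₀⁻¹ * g ^ k * g₀ ∈ H → g₀⁻¹ * g ^ k * g₀ = g ^ k) :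
    ∃ N : Subgroup G, N.Normal ∧ N.IsComplement' H := by
  set f : G →* H := MonoidHom.transfer (MonoidHom.id H) with hf
  have hpow : ∀ g : H, f g = g ^ H.index := by
    intro g
    have := MonoidHom.transfer_eq_pow (MonoidHom.id H) (g : G) (key g g.2)
    rw [hf, this]
    apply Subtype.ext
    simp
  have hbij : Function.Bijective (f.domRestrict H) := by
    have : ⇑(f.domRestrict H) = fun x : H => x ^ H.index := funext hpow
    rw [this]
    exact (powCoprime hHall).bijective
  refine ⟨f.ker, inferInstance, ?_⟩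
  rw [Function.Bijective, ← MonoidHom.range_eq_top, MonoidHom.domRestrict_range] at hbij
  have := MonoidHom.range_eq_top.mp (top_le_iff.mp (hbij.2.ge.trans (Subgroup.map_le_range f H)))
  rw [← (Subgroup.comap_injective this).eq_iff, Subgroup.comap_top, Subgroup.comap_map_eq,
    sup_comm, SetLike.ext'_iff,
    Subgroup.normal_mul, ← MonoidHom.ker_eq_bot_iff, ← Subgroup.map_subtype_inj,
    MonoidHom.ker_domRestrict, Subgroup.subgroupOf_map_subtype, Subgroup.map_bot,
    Subgroup.coe_top] at hbij
  exact Subgroup.isComplement'_of_disjoint_and_mul_eq_univ (disjoint_iff.2 hbij.1) hbij.2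

theorem aux (n : ℕ) : ∀ (G : Type u) [Group G] [Finite G], Nat.card G = n →
    ∀ (H : Subgroup G), Nat.Coprime (Nat.card H) H.index →
      Subgroup.normalizer (H : Set G) ≤ Subgroup.centralizer (H : Set G) →
      ∃ N : Subgroup G, N.Normal ∧ N.IsComplement' H := by
  induction n using Nat.strong_induction_on with
  | _ n ih =>
  intro G _ _ hn H hHall h
  haveI hHc : IsMulCommutative H :=
    ⟨⟨fun a b => Subtype.ext (h (Subgroup.le_normalizer b.2) a a.2)⟩⟩
  apply stepA H hHall
  intro g hg k g₀ hmem
  set u := g ^ k with hu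
  have huH : u ∈ H := H.pow_mem hg k
  set u' := g₀⁻¹ * u * g₀ with hu'
  set C := Subgroup.centralizer ({u'} : Set G) with hC
  have hHC : H ≤ C := by
    intro x hx
    rw [hC, Subgroup.mem_centralizer_singleton_iff]
    have := hHc.is_comm.comm (⟨x, hx⟩ : H) ⟨u', hmem⟩
    exact congrArg Subtype.val this
  set K := MulAut.conj g₀⁻¹ • H with hK
  have hKC : K ≤ C := by
    intro x hx
    rw [hK, mem_conj_smul] at hx
    rw [hC, Subgroup.mem_centralizer_singleton_iff]
    have := hHc.is_comm.comm (⟨_, hx⟩ : H) ⟨u, huH⟩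
    have h2 := congrArg Subtype.val this
    simp only [Subgroup.coe_mul, inv_inv] at h2
    rw [hu']
    have h3 : x * (g₀⁻¹ * u * g₀) = g₀⁻¹ * (g₀ * x * g₀⁻¹ * u) * g₀ := by group
    have h4 : g₀⁻¹ * u * g₀ * x = g₀⁻¹ * (u * (g₀ * x * g₀⁻¹)) * g₀ := by group
    rw [h3, h4, h2]
  by_cases hCtop : C = ⊤
  · have : g₀ ∈ C := by rw [hCtop]; trivial
    rw [hC, Subgroup.mem_centralizer_singleton_iff] at this
    -- g₀ * u' = u' * g₀
    have h3 : u = g₀ * u' * g₀⁻¹ := by rw [hu']; group
    rw [h3, this]; group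
  · have hlt : Nat.card C < n := hn ▸ card_lt_of_ne_top C hCtop
    set H' := H.subgroupOf C with hH'
    have hcardH' : Nat.card H' = Nat.card H := card_subgroupOf_of_le hHC
    have hHall' : Nat.Coprime (Nat.card H') H'.index := by
      rw [hcardH']
      have : H'.index ∣ H.index := by
        show H.relIndex C ∣ H.index
        exact Subgroup.relIndex_dvd_index_of_le hHC
      exact Nat.Coprime.coprime_dvd_right this hHall
    have hNC' : Subgroup.normalizer (H' : Set C) ≤ Subgroup.centralizer (H' : Set C) := by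
      intro x hx
      have h1 : (x : G) ∈ Subgroup.normalizer ((H'.map C.subtype : Subgroup G) : Set G) :=
        Subgroup.le_normalizer_map C.subtype (Subgroup.mem_map_of_mem _ hx)
      rw [hH', Subgroup.map_subgroupOf_eq_of_le hHC] at h1
      have h2 := h h1
      rw [Subgroup.mem_centralizer_iff]
      intro a ha
      have h3 := Subgroup.mem_centralizer_iff.mp h2 (a : G) ha
      apply Subtype.ext
      simpa using h3
    obtain ⟨N, hNn, hNc⟩ := ih _ hlt C rfl H' hHall' hNC'
    haveI := hNn
    set K' := K.subgroupOf C with hK'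
    have hcardK' : Nat.card K' = Nat.card H' := by
      rw [hcardH', hK', card_subgroupOf_of_le hKC, hK, card_conj_smul]
    have hcop : (Nat.card N).Coprime (Nat.card H') := by
      rw [← hNc.index_eq_card]
      exact hHall'.symm
    haveI : IsMulCommutative H' := by
      refine ⟨⟨?_⟩⟩
      rintro ⟨a, ha⟩ ⟨b, hb⟩
      have := hHc.is_comm.comm (⟨(a : G), ha⟩ : H) ⟨(b : G), hb⟩
      apply Subtype.ext
      apply Subtype.ext
      simpa using congrArg Subtype.val this
    haveI : Group.IsSolvable H' := isSolvable_of_isMulCommutative H'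
    obtain ⟨c, hc⟩ := sz_conj_card N H' K' hNc.card_mul_card hcardK' hcop (Or.inr inferInstance)
    have h2 := congrArg (Subgroup.map C.subtype) hc
    rw [map_conj_smul, hH', hK', Subgroup.map_subgroupOf_eq_of_le hHC,
      Subgroup.map_subgroupOf_eq_of_le hKC, hK] at h2
    have h3 : MulAut.conj (g₀ * (c : G)) • H = H := by
      rw [← conj_smul_conj_smul]
      show MulAut.conj g₀ • MulAut.conj (C.subtype c) • H = H
      rw [h2, conj_smul_conj_smul, mul_inv_cancel, conj_one_smul]
    have h4 : g₀ * (c : G) ∈ Subgroup.centralizer (H : Set G) :=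
      h (mem_normalizer_of_conj_smul_eq H _ h3)
    have h5 := Subgroup.mem_centralizer_iff.mp h4 u huH
    have h6 : (c : G) * u' = u' * (c : G) := by
      have hc2 : (c : G) ∈ Subgroup.centralizer ({u'} : Set G) := c.2
      exact Subgroup.mem_centralizer_singleton_iff.mp hc2
    -- h5 : u * (g₀ * c) = g₀ * c * u
    have h7 : u' * (c : G) = (c : G) * u := by
      rw [hu']
      have : g₀⁻¹ * u * g₀ * (c : G) = g₀⁻¹ * (u * (g₀ * (c : G))) := by group
      rw [this, h5]; group
    rw [← h6] at h7
    exact mul_left_cancel h7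

/-- A Hall subgroup that is central in its normalizer has a normal complement. -/
theorem result {G : Type*} [Group G] [Finite G] (H : Subgroup G) (hHall : Nat.Coprime (Nat.card H) H.index) (h : Subgroup.normalizer (H : Set G) ≤ Subgroup.centralizer (H : Set G)) : ∃ N : Subgroup G, N.Normal ∧ N.IsComplement' H := by
  exact aux _ G rfl H hHall h

end Cfsg.Agent.S0087
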