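import Cfsg.Statements.S0088
import Cfsg.Agent.Lib_helper1_Transfer

set_option autoImplicit false
open Cfsg

namespace Cfsg.Agent.S0088

open Cfsg.Agent.Lib_helper1_Transfer in
/-- An abelian Hall subgroup meets G' ∩ Z(G) trivially. -/
theorem result {G : Type*} [Group G] [Finite G] (H : Subgroup G) (hc : IsMulCommutative H) (hHall : Nat.Coprime (Nat.card H) H.index) : H ⊓ commutator G ⊓ Subgroup.center G = ⊥ := by
  rw [eq_bot_iff]
  rintro x ⟨⟨hxH, hx⟩, hz⟩
  rw [Subgroup.mem_bot]
  have h1 := pow_index_eq_one_of_mem_commutator_center H x hx hz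
  have h2 : orderOf x ∣ H.index := orderOf_dvd_of_pow_eq_one h1
  have h3 : orderOf x ∣ Nat.card H := by
    have := orderOf_dvd_natCard (⟨x, hxH⟩ : H)
    rwa [Subgroup.orderOf_mk] at this
  have h4 : orderOf x = 1 := Nat.Coprime.eq_one_of_dvd (Nat.Coprime.coprime_dvd_left h3 hHall) h2
  exact orderOf_eq_one_iff.mp h4

end Cfsg.Agent.S0088
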