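import Cfsg.Statements.S0089
import Cfsg.Agent.Lib_helper1_Transfer

set_option autoImplicit false
open Cfsg

namespace Cfsg.Agent.S0089

open Cfsg.Agent.Lib_helper1_Transfer in
/-- When all Sylow subgroups are abelian, the derived subgroup meets the centre trivially. -/
theorem result {G : Type*} [Group G] [Finite G] (h : ∀ p : ℕ, p.Prime → ∀ P : Sylow p G, IsMulCommutative P) : commutator G ⊓ Subgroup.center G = ⊥ := by
  rw [eq_bot_iff]
  rintro x ⟨hx, hz⟩
  rw [Subgroup.mem_bot]
  by_contra hne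
  have hord : orderOf x ≠ 1 := fun h1 => hne (orderOf_eq_one_iff.mp h1)
  obtain ⟨q, hq, hqd⟩ := Nat.exists_prime_and_dvd hord
  haveI : Fact q.Prime := ⟨hq⟩
  obtain ⟨Q⟩ := (inferInstance : Nonempty (Sylow q G))
  haveI : IsMulCommutative (Q : Subgroup G) := h q hq Q
  have h1 := pow_index_eq_one_of_mem_commutator_center (Q : Subgroup G) x hx hz
  have h2 : orderOf x ∣ (Q : Subgroup G).index := orderOf_dvd_of_pow_eq_one h1
  exact Q.not_dvd_index (hqd.trans h2)

end Cfsg.Agent.S0089
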