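import Cfsg.Statements.S0094
import Cfsg.Agent.Lib_helper5_UniqSub
import Cfsg.Agent.Lib_helper1_PGroup

set_option autoImplicit false
open Cfsg

namespace Cfsg.Agent.S0094

open scoped commutatorElement
/-- In a special p-group every central element has order dividing p. -/
theorem result {P : Type*} [Group P] [Finite P] {p : ℕ} [Fact p.Prime] (h : Cfsg.IsSpecial p P) (z : P) (hz : z ∈ Subgroup.center P) : z ^ p = 1 := by
  obtain ⟨hP, hfrat, hcomm⟩ := h
  have hpp : p.Prime := Fact.out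
  have hpow : ∀ x : P, x ^ p ∈ Subgroup.center P := by
    intro x
    rw [← hfrat, frattini, Order.radical]
    simp only [Subgroup.mem_iInf]
    intro M hM
    haveI : M.Normal := Cfsg.Agent.Lib_helper1_PGroup.coatom_normal hP M hM
    have h1 := Cfsg.Agent.Lib_helper1_PGroup.quotient_coatom_card hP M hM
    have h2 : M.index = p := by rw [Subgroup.index_eq_card]; exact h1
    rw [← h2]
    exact Subgroup.pow_index_mem M x
  have hcz : ∀ u v : P, ⁅u, v⁆ ∈ Subgroup.center P := by
    intro u v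
    rw [← hcomm, commutator_def]
    exact Subgroup.commutator_mem_commutator (Subgroup.mem_top _) (Subgroup.mem_top _)
  have hcp : ∀ u v : P, ⁅u, v⁆ ^ p = 1 := by
    intro u v
    have hc0 : u⁻¹ * v⁻¹ = v⁻¹ * u⁻¹ * ⁅u, v⁆ := by rw [commutatorElement_def]; group
    have hcen : ∀ w : P, Commute ⁅u, v⁆ w := fun w =>
      (Subgroup.mem_center_iff.mp (hcz u v) w).symm
    have h1 := Cfsg.Agent.Lib_helper5_UniqSub.pow_mul_comm_formula v⁻¹ u⁻¹ _ hc0
      (hcen _) (hcen _) p
    have h2 : u⁻¹ ^ p * v⁻¹ = v⁻¹ * u⁻¹ ^ p :=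
      (Subgroup.mem_center_iff.mp (hpow u⁻¹) v⁻¹).symm
    rw [h2] at h1
    have : v⁻¹ * u⁻¹ ^ p * 1 = v⁻¹ * u⁻¹ ^ p * ⁅u, v⁆ ^ p := by rw [mul_one]; exact h1
    exact (mul_left_cancel this).symm
  let T : Subgroup P :=
    { carrier := {x | x ∈ Subgroup.center P ∧ x ^ p = 1}
      mul_mem' := fun {a b} ha hb => by
        refine ⟨mul_mem ha.1 hb.1, ?_⟩
        have hc : Commute a b := Subgroup.mem_center_iff.mp hb.1 a
        rw [hc.mul_pow, ha.2, hb.2, one_mul]
      one_mem' := ⟨one_mem _, one_pow p⟩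
      inv_mem' := fun {a} ha => ⟨inv_mem ha.1, by rw [inv_pow, ha.2, inv_one]⟩ }
  have hle : commutator P ≤ T := by
    rw [commutator_def, Subgroup.commutator_le]
    intro u _ v _
    exact ⟨hcz u v, hcp u v⟩
  have hz' : z ∈ commutator P := by rw [hcomm]; exact hz
  exact (hle hz').2

end Cfsg.Agent.S0094
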