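import Cfsg.Statements.S0096
import Cfsg.Agent.Lib_helper5_UniqSub

set_option autoImplicit false
open Cfsg

namespace Cfsg.Agent.S0096

open scoped commutatorElement
/-- For odd p, in a p-group of class at most two the elements of order dividing p generate a subgroup of exponent dividing p. -/
theorem result {P : Type*} [Group P] [Finite P] {p : ℕ} [Fact p.Prime] (hp : p ≠ 2) (hP : IsPGroup p P) (h2 : ⁅commutator P, (⊤ : Subgroup P)⁆ = ⊥) (g : P) (hg : g ∈ Subgroup.closure {x : P | x ^ p = 1}) : g ^ p = 1 := by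
  have hpp : p.Prime := Fact.out
  have hcen : ∀ u v w : P, Commute (v⁻¹ * u⁻¹ * v⁻¹⁻¹ * u⁻¹⁻¹) w := by
    intro u v w
    have h1 : ⁅v⁻¹, u⁻¹⁆ ∈ commutator P := by
      rw [commutator_def]
      exact Subgroup.commutator_mem_commutator (Subgroup.mem_top _) (Subgroup.mem_top _)
    have h3 : ⁅⁅v⁻¹, u⁻¹⁆, w⁆ ∈ ⁅commutator P, (⊤ : Subgroup P)⁆ :=
      Subgroup.commutator_mem_commutator h1 (Subgroup.mem_top w)
    rw [h2, Subgroup.mem_bot, commutatorElement_eq_one_iff_commute, commutatorElement_def] at h3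
    exact h3
  have hmul : ∀ u v : P, u ^ p = 1 → v ^ p = 1 → (u * v) ^ p = 1 := by
    intro u v hu hv
    have hc0 : v * u = u * v * (v⁻¹ * u⁻¹ * v⁻¹⁻¹ * u⁻¹⁻¹) := by group
    have h1 := Cfsg.Agent.Lib_helper5_UniqSub.pow_mul_comm_formula u v _ hc0 (hcen u v u) (hcen u v v) p
    rw [hv, one_mul, mul_one] at h1
    have h3 : (v⁻¹ * u⁻¹ * v⁻¹⁻¹ * u⁻¹⁻¹) ^ p = 1 := by
      have : u * 1 = u * (v⁻¹ * u⁻¹ * v⁻¹⁻¹ * u⁻¹⁻¹) ^ p := by rw [mul_one]; exact h1
      exact (mul_left_cancel this).symm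
    have h4 := Cfsg.Agent.Lib_helper5_UniqSub.mul_pow_formula u v _ hc0 (hcen u v u) (hcen u v v) p
    have hodd : 2 ∣ p - 1 := by
      rcases hpp.eq_two_or_odd' with h | h
      · exact absurd h hp
      · obtain ⟨k, hk⟩ := h
        exact ⟨k, by omega⟩
    rw [Nat.mul_div_assoc p hodd, pow_mul, h3, one_pow, mul_one, hu, hv, one_mul] at h4
    exact h4
  let T : Subgroup P :=
    { carrier := {x | x ^ p = 1}
      mul_mem' := fun {a b} ha hb => hmul a b ha hb
      one_mem' := one_pow p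
      inv_mem' := fun {a} ha => by
        show a⁻¹ ^ p = 1
        rw [inv_pow, show a ^ p = 1 from ha, inv_one] }
  have hle : Subgroup.closure {x : P | x ^ p = 1} ≤ T := by
    rw [Subgroup.closure_le]
    intro x hx
    exact hx
  exact hle hg

end Cfsg.Agent.S0096
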