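import Cfsg.Statements.S0097
import Cfsg.Agent.Lib_helper5_UniqSub
import Cfsg.Agent.Lib_helper1_PGroup

set_option autoImplicit false
open Cfsg

namespace Cfsg.Agent.S0097

open scoped commutatorElement
/-- For odd p and E extraspecial, the subgroup generated by the elements of order dividing p has exponent dividing p and index at most p. -/
theorem result {E : Type*} [Group E] [Finite E] {p : ℕ} [Fact p.Prime] (hp : p ≠ 2) (h : Cfsg.IsExtraspecial p E) : (Subgroup.closure {x : E | x ^ p = 1}).index ≤ p ∧ ∀ g ∈ Subgroup.closure {x : E | x ^ p = 1}, g ^ p = 1 := by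
  obtain ⟨⟨hP, hfrat, hcomm⟩, hZ⟩ := h
  have hpp : p.Prime := Fact.out
  have hpow : ∀ x : E, x ^ p ∈ Subgroup.center E := by
    intro x
    rw [← hfrat, frattini, Order.radical]
    simp only [Subgroup.mem_iInf]
    intro M hM
    haveI : M.Normal := Cfsg.Agent.Lib_helper1_PGroup.coatom_normal hP M hM
    have h1 := Cfsg.Agent.Lib_helper1_PGroup.quotient_coatom_card hP M hM
    have h2 : M.index = p := by rw [Subgroup.index_eq_card]; exact h1
    rw [← h2]
    exact Subgroup.pow_index_mem M x
  have hcz : ∀ u v : E, ⁅u, v⁆ ∈ Subgroup.center E := by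
    intro u v
    rw [← hcomm, commutator_def]
    exact Subgroup.commutator_mem_commutator (Subgroup.mem_top _) (Subgroup.mem_top _)
  have hzp : ∀ z ∈ Subgroup.center E, z ^ p = 1 := by
    intro z hz
    have h1 : (⟨z, hz⟩ : Subgroup.center E) ^ Nat.card (Subgroup.center E) = 1 := pow_card_eq_one'
    rw [hZ] at h1
    exact congrArg Subtype.val h1
  have hmul : ∀ u v : E, (u * v) ^ p = u ^ p * v ^ p := by
    intro u v
    have hc0 : v * u = u * v * ⁅v⁻¹, u⁻¹⁆ := by rw [commutatorElement_def]; group
    have hcen : ∀ w : E, Commute ⁅v⁻¹, u⁻¹⁆ w := fun w =>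
      (Subgroup.mem_center_iff.mp (hcz _ _) w).symm
    have h4 := Cfsg.Agent.Lib_helper5_UniqSub.mul_pow_formula u v _ hc0 (hcen u) (hcen v) p
    have hodd : 2 ∣ p - 1 := by
      rcases hpp.eq_two_or_odd' with h | h
      · exact absurd h hp
      · obtain ⟨k, hk⟩ := h
        exact ⟨k, by omega⟩
    rw [Nat.mul_div_assoc p hodd, pow_mul, hzp _ (hcz _ _), one_pow, mul_one] at h4
    exact h4
  let π : E →* E :=
    { toFun := fun u => u ^ p
      map_one' := one_pow p
      map_mul' := hmul }
  have hset : {x : E | x ^ p = 1} = (π.ker : Set E) := by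
    ext x
    exact (MonoidHom.mem_ker (f := π)).symm
  rw [hset, Subgroup.closure_eq]
  constructor
  · rw [Subgroup.index_ker, ← hZ]
    apply Subgroup.card_le_of_le
    rintro _ ⟨u, rfl⟩
    exact hpow u
  · intro g hg
    exact hg

end Cfsg.Agent.S0097
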