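import Cfsg.Statements.S0100
import Cfsg.Agent.S0130
import Cfsg.Agent.Lib_helper1_AutBound
import Cfsg.Agent.Lib_helper5_PiHall

set_option autoImplicit false
open Cfsg

namespace Cfsg.Agent.S0100

universe u

theorem exists_normal_pow_le {G : Type u} [Group G] [Finite G] {p : ℕ} [Fact p.Prime]
    (hG : IsPGroup p G) (k d : ℕ) :
    ∀ (A : Subgroup G) [A.Normal], Nat.card A = p ^ (k + d) →
      ∃ B : Subgroup G, B ≤ A ∧ B.Normal ∧ Nat.card B = p ^ k := by
  induction d with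
  | zero => intro A hAn hA; exact ⟨A, le_rfl, hAn, hA⟩
  | succ d ih =>
    intro A hAn hA
    obtain ⟨B', hB'A, hB'n, hB'c⟩ :=
      Cfsg.Agent.Lib_helper1_AutBound.exists_normal_index_p (k + d) G p hG A hA
    haveI := hB'n
    obtain ⟨B, hBB', hBn, hBc⟩ := ih B' hB'c
    exact ⟨B, hBB'.trans hB'A, hBn, hBc⟩

theorem arith4 (a : ℕ) (ha : a ≤ 2) : (a - 1) + a * (a - 1) / 2 ≤ 2 := by
  interval_cases a <;> norm_num



/-- For odd p, a p-group without normal elementary abelian subgroups of order p^3 has p-rank at most 2. -/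
theorem result {P : Type*} [Group P] [Finite P] {p : ℕ} [Fact p.Prime] (hp : p ≠ 2) (hP : IsPGroup p P) (h : ∀ A : Subgroup P, A.Normal → IsMulCommutative A → (∀ a ∈ A, a ^ p = 1) → Nat.card A ≠ p ^ 3) (E : Subgroup P) (hE : IsMulCommutative E) (hEe : ∀ e ∈ E, e ^ p = 1) : Nat.card E ≤ p ^ 2 := by
  classical
  have hpp : p.Prime := Fact.out
  obtain ⟨A, -, hAmax⟩ := (Set.toFinite {A : Subgroup P | A.Normal ∧ IsMulCommutative A ∧
      ∀ a ∈ A, a ^ p = 1}).exists_le_maximal (a := ⊥)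
    ⟨inferInstance, ⟨⟨fun a b => Subtype.ext (by
        rw [Subgroup.coe_mul, Subgroup.coe_mul, Subgroup.mem_bot.mp a.2,
          Subgroup.mem_bot.mp b.2])⟩⟩,
      fun a ha => by rw [Subgroup.mem_bot.mp ha, one_pow]⟩
  obtain ⟨⟨hAn, hAc, hAe⟩, hAm⟩ := hAmax
  haveI := hAn
  have hmaxS : ∀ B : Subgroup P, B.Normal → IsMulCommutative B → (∀ b ∈ B, b ^ p ^ 1 = 1) →
      A ≤ B → B = A := fun B hBn hBc hBe hAB =>
    le_antisymm (hAm ⟨hBn, hBc, fun b hb => by have h0 := hBe b hb; rwa [pow_one] at h0⟩ hAB)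
      hAB
  obtain ⟨a, ha⟩ := IsPGroup.iff_card.mp (hP.to_subgroup A)
  have ha2 : a ≤ 2 := by
    by_contra hcon
    obtain ⟨d, hd⟩ : ∃ d, a = 3 + d := ⟨a - 3, by omega⟩
    rw [hd] at ha
    obtain ⟨M, hMA, hMn, hMc⟩ := exists_normal_pow_le hP 3 d A ha
    have hMcomm : IsMulCommutative M := by
      refine ⟨⟨fun x y => Subtype.ext ?_⟩⟩
      have h0 : (x : P) * (y : P) = (y : P) * (x : P) :=
        congrArg Subtype.val (hAc.is_comm.comm ⟨x, hMA x.2⟩ ⟨y, hMA y.2⟩)
      exact h0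
    exact h M hMn hMcomm (fun m hm => hAe m (hMA hm)) hMc
  have hidx := Cfsg.Agent.Lib_helper1_AutBound.index_centralizer_le hP a A ha
  have hn : p ^ 1 ≠ 2 := by rw [pow_one]; exact hp
  have hEC : E ⊓ Subgroup.centralizer (A : Set P) ≤ A := by
    intro x hx
    obtain ⟨hx1, hx2⟩ := Subgroup.mem_inf.mp hx
    exact Cfsg.Agent.S0130.result hP 1 hn A hAc
      (fun a ha => by rw [pow_one]; exact hAe a ha) hmaxS x hx2
      (by rw [pow_one]; exact hEe x hx1)
  by_cases hAE : A ≤ E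
  · have hEC' : E ≤ Subgroup.centralizer (A : Set P) := by
      intro e he
      rw [Subgroup.mem_centralizer_iff]
      intro a ha
      exact congrArg Subtype.val (hE.is_comm.comm ⟨a, hAE ha⟩ ⟨e, he⟩)
    have hEA : E ≤ A := fun e he => hEC (Subgroup.mem_inf.mpr ⟨he, hEC' he⟩)
    calc Nat.card E ≤ Nat.card A := Subgroup.card_le_of_le hEA
      _ = p ^ a := ha
      _ ≤ p ^ 2 := Nat.pow_le_pow_right hpp.pos ha2
  · have hne : E ⊓ Subgroup.centralizer (A : Set P) ≠ A := fun h => hAE (h ▸ inf_le_left)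
    obtain ⟨b, hb⟩ := IsPGroup.iff_card.mp
      (hP.to_subgroup (E ⊓ Subgroup.centralizer (A : Set P)))
    have hba : b < a := by
      by_contra hcon
      have h5 : Nat.card A ≤ Nat.card ↥(E ⊓ Subgroup.centralizer (A : Set P)) := by
        rw [ha, hb]; exact Nat.pow_le_pow_right hpp.pos (by omega)
      exact hne (Subgroup.eq_of_le_of_card_ge hEC h5)
    have h1 := Cfsg.Agent.Lib_helper5_PiHall.card_mul_relIndex_of_le
      (inf_le_left : E ⊓ Subgroup.centralizer (A : Set P) ≤ E)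
    rw [Subgroup.inf_relIndex_left, hb] at h1
    have h2 : (Subgroup.centralizer (A : Set P)).relIndex E ≤ p ^ (a * (a - 1) / 2) :=
      le_trans (Nat.le_of_dvd (Nat.pos_of_ne_zero Subgroup.index_ne_zero_of_finite)
        (Subgroup.relIndex_dvd_index_of_normal _ E)) hidx
    have h3 : p ^ b ≤ p ^ (a - 1) := Nat.pow_le_pow_right hpp.pos (by omega)
    rw [← h1]
    calc p ^ b * (Subgroup.centralizer (A : Set P)).relIndex E
        ≤ p ^ (a - 1) * p ^ (a * (a - 1) / 2) := Nat.mul_le_mul h3 h2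
      _ = p ^ ((a - 1) + a * (a - 1) / 2) := (pow_add _ _ _).symm
      _ ≤ p ^ 2 := Nat.pow_le_pow_right hpp.pos (arith4 a ha2)

end Cfsg.Agent.S0100
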