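import Cfsg.Statements.S0101
import Cfsg.Agent.Lib_helper1_PGroup

set_option autoImplicit false
open Cfsg

namespace Cfsg.Agent.S0101

open Cfsg.Agent.Lib_helper1_PGroup in
/-- In a perfect central extension, the kernel meets each Sylow p-subgroup P inside the Frattini subgroup of P. -/
theorem result {H : Type*} {G : Type*} [Group H] [Group G] [Finite H] (σ : H →* G) (hσ : Function.Surjective σ) (hc : σ.ker ≤ Subgroup.center H) (hH : commutator H = ⊤) {p : ℕ} [Fact p.Prime] (P : Sylow p H) : σ.ker ⊓ (P : Subgroup H) ≤ (frattini P).map (P : Subgroup H).subtype := by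
  rintro z ⟨hzk, hzP⟩
  have hzc : z ∈ Subgroup.center H := hc hzk
  have key : ∀ (k : ℕ) (g₀ : H), g₀⁻¹ * z ^ k * g₀ ∈ (P : Subgroup H) → g₀⁻¹ * z ^ k * g₀ = z ^ k := by
    intro k g₀ _
    have hc : z ^ k ∈ Subgroup.center H := Subgroup.pow_mem _ hzc k
    have := Subgroup.mem_center_iff.mp hc g₀
    rw [mul_assoc, ← this, inv_mul_cancel_left]
  have h1 := MonoidHom.transfer_eq_pow
    (Abelianization.of : (P : Subgroup H) →* Abelianization (P : Subgroup H)) z key
  have h2 : MonoidHom.transfer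
      (Abelianization.of : (P : Subgroup H) →* Abelianization (P : Subgroup H)) z = 1 := by
    have hz' : z ∈ commutator H := by rw [hH]; trivial
    exact MonoidHom.mem_ker.mp (Abelianization.commutator_subset_ker _ hz')
  rw [h2] at h1
  have h3 : (⟨z ^ (P : Subgroup H).index, MonoidHom.transfer_eq_pow_aux z key⟩ : (P : Subgroup H)) ∈
      commutator (P : Subgroup H) := by
    rw [← Abelianization.ker_of, MonoidHom.mem_ker]; exact h1.symm
  have h4 : (⟨z, hzP⟩ : (P : Subgroup H)) ∈ commutator (P : Subgroup H) := by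
    have hq : IsPGroup p ((P : Subgroup H) ⧸ commutator (P : Subgroup H)) := P.2.to_quotient _
    rw [← QuotientGroup.eq_one_iff]
    have hpow : ((⟨z, hzP⟩ : (P : Subgroup H)) : (P : Subgroup H) ⧸ commutator (P : Subgroup H)) ^
        (P : Subgroup H).index = 1 := by
      rw [← QuotientGroup.mk_pow]; exact (QuotientGroup.eq_one_iff _).mpr h3
    obtain ⟨k, hk⟩ := hq ((⟨z, hzP⟩ : (P : Subgroup H)) : (P : Subgroup H) ⧸ commutator (P : Subgroup H))
    have ho1 := orderOf_dvd_of_pow_eq_one hpow
    have ho2 := orderOf_dvd_of_pow_eq_one hk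
    have hcop : Nat.Coprime (P : Subgroup H).index (p ^ k) :=
      Nat.Coprime.pow_right k ((Nat.Prime.coprime_iff_not_dvd Fact.out).mpr P.not_dvd_index).symm
    exact orderOf_eq_one_iff.mp (Nat.eq_one_of_dvd_coprimes hcop ho1 ho2)
  exact ⟨⟨z, hzP⟩, commutator_le_frattini P.2 h4, rfl⟩

end Cfsg.Agent.S0101
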