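import Cfsg.Statements.S0102
import Cfsg.Agent.Lib_helper1_Transfer

set_option autoImplicit false
open Cfsg

namespace Cfsg.Agent.S0102

/-- A finite perfect group with cyclic Sylow p-subgroups has no perfect central extension whose kernel has order divisible by p. -/
theorem result {G : Type*} {H : Type*} [Group G] [Group H] [Finite G] [Finite H] (hG : commutator G = ⊤) {p : ℕ} [Fact p.Prime] (hcyc : ∀ P : Sylow p G, IsCyclic P) (σ : H →* G) (hσ : Function.Surjective σ) (hz : σ.ker ≤ Subgroup.center H) (hH : commutator H = ⊤) : ¬ p ∣ Nat.card σ.ker := by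
  intro hdvd
  obtain ⟨z, hz_ord⟩ := exists_prime_orderOf_dvd_card' (G := σ.ker) p hdvd
  have hz_ord' : orderOf (z : H) = p := by
    rw [← hz_ord]; exact Subgroup.orderOf_coe z
  have hzc : (z : H) ∈ Subgroup.center H := hz z.2
  -- a Sylow p-subgroup containing z
  have hzp : IsPGroup p (Subgroup.zpowers (z : H)) := by
    apply IsPGroup.of_card (n := 1)
    rw [Nat.card_zpowers, hz_ord', pow_one]
  obtain ⟨P, hP⟩ := hzp.exists_le_sylow
  -- P is abelian
  let f : (P : Subgroup H) →* G := σ.comp (P : Subgroup H).subtype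
  have hfp : IsPGroup p f.range := IsPGroup.of_surjective P.2 f.rangeRestrict f.rangeRestrict_surjective
  obtain ⟨Q, hQ⟩ := hfp.exists_le_sylow
  haveI : IsCyclic (Q : Subgroup G) := hcyc Q
  haveI : IsCyclic f.range :=
    isCyclic_of_injective (Subgroup.inclusion hQ) (Subgroup.inclusion_injective hQ)
  have hker : f.rangeRestrict.ker ≤ Subgroup.center (P : Subgroup H) := by
    intro x hx
    rw [MonoidHom.mem_ker] at hx
    have hx' : σ (x : H) = 1 := by
      have := congrArg Subtype.val hx
      simpa [f] using this
    have hxc : (x : H) ∈ Subgroup.center H := hz (MonoidHom.mem_ker.mpr hx')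
    rw [Subgroup.mem_center_iff]
    intro y
    apply Subtype.ext
    exact Subgroup.mem_center_iff.mp hxc (y : H)
  haveI : IsMulCommutative (P : Subgroup H) :=
    f.rangeRestrict.isMulCommutative_of_isCyclic_of_ker_le_center hker
  have h1 := Cfsg.Agent.Lib_helper1_Transfer.pow_index_eq_one_of_mem_commutator_center
    (P : Subgroup H) (z : H) (by rw [hH]; exact Subgroup.mem_top _) hzc
  have h2 : p ∣ (P : Subgroup H).index := by
    have := orderOf_dvd_of_pow_eq_one h1
    rwa [hz_ord'] at this
  exact P.not_dvd_index h2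

end Cfsg.Agent.S0102
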