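import Cfsg.Statements.S0104
import Cfsg.Agent.Lib_helper1_Basic

set_option autoImplicit false
open Cfsg

namespace Cfsg.Agent.S0104

open Cfsg.Agent.Lib_helper1_Basic in
/-- A subgroup Z of a Sylow p-subgroup P that is normalized by N_G(P) is weakly closed in P exactly when it is normal in every Sylow p-subgroup containing it. -/
theorem result {G : Type*} [Group G] [Finite G] {p : ℕ} [Fact p.Prime] (P : Sylow p G) (Z : Subgroup G) (hZP : Z ≤ (P : Subgroup G)) (hZN : Subgroup.normalizer (P : Set G) ≤ Subgroup.normalizer (Z : Set G)) : Cfsg.IsWeaklyClosed Z P ↔ ∀ R : Sylow p G, Z ≤ (R : Subgroup G) → (R : Subgroup G) ≤ Subgroup.normalizer (Z : Set G) := by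
  constructor
  · rintro ⟨-, hW⟩ R hZR
    obtain ⟨g, hg⟩ := MulAction.exists_smul_eq G R P
    have h1 : Z.map (MulAut.conj g).toMonoidHom ≤ (P : Subgroup G) := by
      intro z hz
      rw [mem_map_conj] at hz
      rw [← hg, mem_sylow_smul]
      exact hZR hz
    have h2 := hW g h1
    have hgN : g ∈ Subgroup.normalizer (Z : Set G) := Subgroup.mem_normalizer_iff_map_conj_eq.mpr h2
    intro r hr
    have h3 : g * r * g⁻¹ ∈ (P : Subgroup G) := by
      rw [← hg, mem_sylow_smul]
      have : g⁻¹ * (g * r * g⁻¹) * g = r := by group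
      rw [this]; exact hr
    have h4 : g * r * g⁻¹ ∈ Subgroup.normalizer (Z : Set G) := hZN (Subgroup.le_normalizer h3)
    have : r = g⁻¹ * (g * r * g⁻¹) * g := by group
    rw [this]
    exact Subgroup.mul_mem _ (Subgroup.mul_mem _ (Subgroup.inv_mem _ hgN) h4) hgN
  · intro h
    refine ⟨hZP, fun g hg => ?_⟩
    have hZR : Z ≤ ((g⁻¹ • P : Sylow p G) : Subgroup G) := by
      intro z hz
      rw [mem_sylow_smul]
      apply hg
      rw [mem_map_conj]
      have : g⁻¹ * (g⁻¹⁻¹ * z * g⁻¹) * g = z := by group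
      rw [this]; exact hz
    have h1 := h _ hZR
    have h2 := h P hZP
    obtain ⟨c, hc, hn⟩ := sylow_conj_in_subgroup P g⁻¹ _ h2 h1
    have h3 : c * g⁻¹ ∈ Subgroup.normalizer (Z : Set G) := hZN hn
    have h4 : g ∈ Subgroup.normalizer (Z : Set G) := by
      have : g = (c * g⁻¹)⁻¹ * c := by group
      rw [this]
      exact Subgroup.mul_mem _ (Subgroup.inv_mem _ h3) hc
    exact Subgroup.mem_normalizer_iff_map_conj_eq.mp h4

end Cfsg.Agent.S0104
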