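import Cfsg.Statements.S0110
import Mathlib


set_option autoImplicit false
open Cfsg

namespace Cfsg.Agent.S0110

open scoped commutatorElement in
/-- In a p-group G, an extraspecial subgroup E with [G, E] ≤ Z(E) satisfies G = E C_G(E). -/
theorem result {G : Type*} [Group G] [Finite G] {p : ℕ} [Fact p.Prime] (hG : IsPGroup p G) (E : Subgroup G) (hE : Cfsg.IsExtraspecial p E) (h : ⁅(⊤ : Subgroup G), E⁆ ≤ E ⊓ Subgroup.centralizer (E : Set G)) : E ⊔ Subgroup.centralizer (E : Set G) = ⊤ := by
  classical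
  have hp : p.Prime := Fact.out
  have hZcard : Nat.card (E ⊓ Subgroup.centralizer (E : Set G) : Subgroup G) = p := by
    have e1 : E ⊓ Subgroup.centralizer (E : Set G) = (Subgroup.center E).map E.subtype := by
      ext x
      constructor
      · rintro ⟨hxE, hxC⟩
        refine ⟨⟨x, hxE⟩, ?_, rfl⟩
        rw [SetLike.mem_coe, Subgroup.mem_center_iff]
        intro y
        apply Subtype.ext
        exact hxC y y.2
      · rintro ⟨y, hy, rfl⟩
        refine ⟨y.2, ?_⟩
        show (y : G) ∈ Subgroup.centralizer (E : Set G)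
        rw [Subgroup.mem_centralizer_iff]
        intro z hz
        have := Subgroup.mem_center_iff.mp hy ⟨z, hz⟩
        exact congrArg Subtype.val this
    rw [e1, Subgroup.card_subtype]; exact hE.2
  have hc : ∀ (g : G) (e : E), ⁅g, (e : G)⁆ ∈ E ⊓ Subgroup.centralizer (E : Set G) :=
    fun g e => h (Subgroup.commutator_mem_commutator (Subgroup.mem_top g) e.2)
  let φ : G → (E →* (E ⊓ Subgroup.centralizer (E : Set G) : Subgroup G)) := fun g =>
    { toFun := fun e => ⟨⁅g, (e : G)⁆, hc g e⟩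
      map_one' := by
        apply Subtype.ext
        show ⁅g, ((1 : E) : G)⁆ = 1
        simp
      map_mul' := by
        intro e₁ e₂
        apply Subtype.ext
        show ⁅g, (e₁ : G) * (e₂ : G)⁆ = ⁅g, (e₁ : G)⁆ * ⁅g, (e₂ : G)⁆
        have hcomm : (e₁ : G) * ⁅g, (e₂ : G)⁆ = ⁅g, (e₂ : G)⁆ * e₁ := (hc g e₂).2 e₁ e₁.2
        have hcomm' : (e₁ : G)⁻¹ * ⁅g, (e₂ : G)⁆ = ⁅g, (e₂ : G)⁆ * (e₁ : G)⁻¹ := by
          rw [inv_mul_eq_iff_eq_mul, ← mul_assoc, hcomm, mul_inv_cancel_right]
        calc ⁅g, (e₁ : G) * (e₂ : G)⁆ = g * e₁ * g⁻¹ * (⁅g, (e₂ : G)⁆ * (e₁ : G)⁻¹) := by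
              rw [commutatorElement_def, commutatorElement_def]; group
          _ = g * e₁ * g⁻¹ * ((e₁ : G)⁻¹ * ⁅g, (e₂ : G)⁆) := by rw [hcomm']
          _ = ⁅g, (e₁ : G)⁆ * ⁅g, (e₂ : G)⁆ := by
              rw [commutatorElement_def g (e₁ : G)]; group }
  haveI : NeZero p := ⟨hp.ne_zero⟩
  have hroots : Nat.card (rootsOfUnity p ℂ) = p := Complex.card_rootsOfUnity p
  let χ : (E ⊓ Subgroup.centralizer (E : Set G) : Subgroup G) →* ℂˣ :=
    (rootsOfUnity p ℂ).subtype.comp (mulEquivOfPrimeCardEq hZcard hroots).toMonoidHom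
  have hχ : Function.Injective χ := by
    intro a b hab
    exact (mulEquivOfPrimeCardEq hZcard hroots).injective (Subtype.ext hab)
  let θ : G → (Abelianization E →* ℂˣ) := fun g => Abelianization.lift (χ.comp (φ g))
  have hθ : ∀ g (e : E), θ g (Abelianization.of e) = χ (φ g e) :=
    fun g e => Abelianization.lift_apply_of _ _
  let f : E →* (Abelianization E →* ℂˣ) :=
    { toFun := fun e' => θ (e' : G)
      map_one' := by
        apply Abelianization.hom_ext
        refine MonoidHom.ext (fun e => ?_)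
        show θ ((1 : E) : G) (Abelianization.of e) = 1
        rw [hθ]
        have : φ ((1 : E) : G) e = 1 := by
          apply Subtype.ext
          show ⁅((1 : E) : G), (e : G)⁆ = 1
          simp
        rw [this, map_one]
      map_mul' := by
        intro e₁ e₂
        apply Abelianization.hom_ext
        refine MonoidHom.ext (fun e => ?_)
        show θ ((e₁ * e₂ : E) : G) (Abelianization.of e) =
          θ e₁ (Abelianization.of e) * θ e₂ (Abelianization.of e)
        rw [hθ, hθ, hθ, ← map_mul]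
        congr 1
        apply Subtype.ext
        show ⁅(e₁ : G) * (e₂ : G), (e : G)⁆ = ⁅(e₁ : G), (e : G)⁆ * ⁅(e₂ : G), (e : G)⁆
        have hcomm : (e₁ : G) * ⁅(e₂ : G), (e : G)⁆ = ⁅(e₂ : G), (e : G)⁆ * e₁ :=
          (hc e₂ e).2 e₁ e₁.2
        have hcomm2 : ⁅(e₁ : G), (e : G)⁆ * ⁅(e₂ : G), (e : G)⁆ =
            ⁅(e₂ : G), (e : G)⁆ * ⁅(e₁ : G), (e : G)⁆ := (hc e₂ e).2 _ (hc e₁ e).1
        calc ⁅(e₁ : G) * (e₂ : G), (e : G)⁆
            = (e₁ : G) * ⁅(e₂ : G), (e : G)⁆ * (e₁ : G)⁻¹ * ⁅(e₁ : G), (e : G)⁆ := by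
              rw [commutatorElement_def, commutatorElement_def (e₂ : G),
                commutatorElement_def (e₁ : G)]; group
          _ = ⁅(e₂ : G), (e : G)⁆ * ⁅(e₁ : G), (e : G)⁆ := by rw [hcomm, mul_inv_cancel_right]
          _ = _ := hcomm2.symm }
  have hker : f.ker = Subgroup.center E := by
    ext z
    rw [MonoidHom.mem_ker, Subgroup.mem_center_iff]
    constructor
    · intro hz e
      have h1 : θ (z : G) (Abelianization.of e) = 1 := by
        show f z (Abelianization.of e) = 1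
        rw [hz]; rfl
      rw [hθ] at h1
      have h2 : φ (z : G) e = 1 := hχ (by rw [h1, map_one])
      have h3 : ⁅(z : G), (e : G)⁆ = 1 := congrArg Subtype.val h2
      apply Subtype.ext
      rw [commutatorElement_eq_one_iff_mul_comm] at h3
      exact h3.symm
    · intro hz
      apply Abelianization.hom_ext
      refine MonoidHom.ext (fun e => ?_)
      show θ (z : G) (Abelianization.of e) = 1
      rw [hθ]
      have : φ (z : G) e = 1 := by
        apply Subtype.ext
        show ⁅(z : G), (e : G)⁆ = 1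
        rw [commutatorElement_eq_one_iff_mul_comm]
        exact (congrArg Subtype.val (hz e)).symm
      rw [this, map_one]
  haveI : NeZero (Monoid.exponent (Abelianization E)) := ⟨Monoid.exponent_ne_zero_of_finite⟩
  have hcardHom : Nat.card (Abelianization E →* ℂˣ) = Nat.card (Abelianization E) :=
    CommGroup.card_monoidHom_of_hasEnoughRootsOfUnity (Abelianization E) ℂ
  haveI : Finite (Abelianization E →* ℂˣ) :=
    Nat.finite_of_card_ne_zero (by rw [hcardHom]; exact Nat.card_pos.ne')
  have hrange : f.range = ⊤ := by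
    apply Subgroup.eq_top_of_card_eq
    rw [← Subgroup.index_ker, hker, hcardHom, ← hE.1.2.2]
    exact Subgroup.index_eq_card _
  rw [eq_top_iff]
  intro g _
  obtain ⟨e', he'⟩ : θ g ∈ f.range := by rw [hrange]; trivial
  have key : ∀ e : E, ⁅(e' : G), (e : G)⁆ = ⁅g, (e : G)⁆ := by
    intro e
    have h1 : θ (e' : G) (Abelianization.of e) = θ g (Abelianization.of e) := by
      rw [← he']; rfl
    rw [hθ, hθ] at h1
    exact congrArg Subtype.val (hχ h1)
  have hmem : (e' : G)⁻¹ * g ∈ Subgroup.centralizer (E : Set G) := by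
    rw [Subgroup.mem_centralizer_iff]
    intro e he
    have h1 := key ⟨e, he⟩
    simp only [commutatorElement_def] at h1
    have h2 : (e' : G) * e * (e' : G)⁻¹ = g * e * g⁻¹ := mul_right_cancel h1
    calc e * ((e' : G)⁻¹ * g) = (e' : G)⁻¹ * ((e' : G) * e * (e' : G)⁻¹) * g := by group
      _ = (e' : G)⁻¹ * (g * e * g⁻¹) * g := by rw [h2]
      _ = (e' : G)⁻¹ * g * e := by group
  have e3 : g = (e' : G) * ((e' : G)⁻¹ * g) := by group
  rw [e3]
  exact Subgroup.mul_mem _ (Subgroup.mem_sup_left e'.2) (Subgroup.mem_sup_right hmem)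

end Cfsg.Agent.S0110
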