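import Cfsg.Statements.S0111
import Cfsg.Agent.Lib_helper1_Basic

set_option autoImplicit false
open Cfsg

namespace Cfsg.Agent.S0111

/-- The Thompson transfer lemma states that an involution of a Sylow 2-subgroup P lying outside a subgroup Q of index 2 in P either lies outside some normal subgroup of index 2 in G or is conjugate to an element of Q. -/
theorem result {G : Type*} [Group G] [Finite G] (P : Sylow 2 G) (Q : Subgroup G) (hQP : Q ≤ (P : Subgroup G)) (hQi : Q.relIndex (P : Subgroup G) = 2) (u : G) (hu : orderOf u = 2) (huP : u ∈ (P : Subgroup G)) (huQ : u ∉ Q) : (∃ M : Subgroup G, M.Normal ∧ M.index = 2 ∧ u ∉ M) ∨ ∃ g : G, g * u * g⁻¹ ∈ Q := by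
  classical
  by_contra hcon
  push_neg at hcon
  obtain ⟨hM, hconj⟩ := hcon
  letI : Fintype (G ⧸ Q) := Fintype.ofFinite _
  let φ : G →* ℤˣ := Equiv.Perm.sign.comp (MulAction.toPermHom G (G ⧸ Q))
  set σ : Equiv.Perm (G ⧸ Q) := MulAction.toPermHom G (G ⧸ Q) u with hσ
  have hfix : ∀ x : G ⧸ Q, σ x ≠ x := by
    intro x
    induction x using QuotientGroup.induction_on with
    | H g =>
      intro hx
      have h1 : ((u * g : G) : G ⧸ Q) = (g : G ⧸ Q) := hx
      rw [QuotientGroup.eq] at h1
      apply hconj g⁻¹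
      have h2 : g⁻¹ * u⁻¹ * g ∈ Q := by simpa [mul_assoc] using h1
      have h3 := Q.inv_mem h2
      simpa [mul_assoc] using h3
  have hσ2 : σ ^ 2 = 1 := by
    rw [hσ, ← map_pow, ← hu, pow_orderOf_eq_one, map_one]
  have hσ1 : σ ≠ 1 := by
    intro h1
    exact hfix ((1 : G) : G ⧸ Q) (by rw [h1]; rfl)
  have hord : orderOf σ = 2 := orderOf_eq_prime hσ2 hσ1
  obtain ⟨n, hn⟩ := Equiv.Perm.cycleType_prime_order (σ := σ) (by rw [hord]; exact Nat.prime_two)
  rw [hord] at hn
  have hsupp : σ.support = Finset.univ := by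
    ext x; simp [Equiv.Perm.mem_support, hfix x]
  have hcard : Fintype.card (G ⧸ Q) = 2 * (n + 1) := by
    have h1 := Equiv.Perm.sum_cycleType σ
    rw [hn, hsupp, Multiset.sum_replicate, Finset.card_univ] at h1
    simp only [smul_eq_mul] at h1
    omega
  have hidx : Q.index = 2 * (P : Subgroup G).index := by
    rw [← Subgroup.relIndex_mul_index hQP, hQi]
  have hodd : ¬ 2 ∣ (P : Subgroup G).index := P.not_dvd_index
  have hn_odd : ¬ 2 ∣ (n + 1) := by
    have h1 : Q.index = Fintype.card (G ⧸ Q) := by rw [Subgroup.index, Nat.card_eq_fintype_card]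
    rw [h1, hcard] at hidx
    have h2 : n + 1 = (P : Subgroup G).index := by omega
    rwa [h2]
  have hsign : Equiv.Perm.sign σ = -1 := by
    rw [Equiv.Perm.sign_of_cycleType, hn, Multiset.sum_replicate, Multiset.card_replicate]
    have h1 : Odd ((n + 1) • 2 + (n + 1)) := by
      rw [Nat.odd_iff]
      simp only [smul_eq_mul]
      omega
    exact Odd.neg_one_pow h1
  have hφu : φ u = -1 := hsign
  have hidx2 : φ.ker.index = 2 := by
    rw [Subgroup.index_eq_two_iff']
    refine ⟨u, fun b => ?_⟩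
    rw [MonoidHom.mem_ker, MonoidHom.mem_ker, map_mul, hφu]
    rcases Int.units_eq_one_or (φ b) with h1 | h1
    · rw [h1]; right
      exact ⟨rfl, by decide⟩
    · rw [h1]; left
      exact ⟨by decide, by decide⟩
  have hmem := hM φ.ker inferInstance hidx2
  rw [MonoidHom.mem_ker, hφu] at hmem
  exact absurd hmem (by decide)

end Cfsg.Agent.S0111
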