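import Cfsg.Statements.S0115
import Cfsg.Agent.Lib_helper1_MaxClass3

set_option autoImplicit false
open Cfsg

namespace Cfsg.Agent.S0115

/-- A 2-group of order 2^n, n ≥ 3, is of maximal class exactly when its commutator quotient is a Klein four-group. -/
theorem result {X : Type*} [Group X] [Finite X] (n : ℕ) (hn : 3 ≤ n) (hX : Nat.card X = 2 ^ n) : Group.nilpotencyClass X = n - 1 ↔ IsKleinFour (X ⧸ commutator X) := by
  constructor
  · intro hc
    obtain ⟨hi, hsq⟩ := Cfsg.Agent.Lib_helper1_MaxClass3.comm_index_of_max_class n hn X hX hc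
    have hcard : Nat.card (X ⧸ commutator X) = 4 := hi
    haveI : Nontrivial (X ⧸ commutator X) := by
      rw [← Finite.one_lt_card_iff_nontrivial, hcard]
      norm_num
    refine ⟨hcard, ?_⟩
    rw [Monoid.exponent_eq_prime_iff Nat.prime_two]
    intro g hg
    induction g using QuotientGroup.induction_on with
    | H x =>
    haveI : Fact (Nat.Prime 2) := ⟨Nat.prime_two⟩
    apply orderOf_eq_prime _ hg
    rw [sq]
    exact (QuotientGroup.eq_one_iff _).mpr (hsq x)
  · intro hK
    exact Cfsg.Agent.Lib_helper1_MaxClass3.max_class_of_comm_index n (by omega) X hX hK.card_four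

end Cfsg.Agent.S0115
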