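import Cfsg.Statements.S0120
import Cfsg.Agent.Lib_helper1_Critical
import Cfsg.Agent.Lib_helper5_UniqSub
import Cfsg.Agent.Lib_helper1_SZConj

set_option autoImplicit false
open Cfsg

namespace Cfsg.Agent.S0120

universe u

open scoped commutatorElement

/-- stability lemma: if `x⁻¹ * a x` is fixed by the `p'`-automorphism `a` of a `p`-group,
then `a x = x`. -/
theorem fixed_of_fixed_comm {G : Type*} [Group G] {p : ℕ} (hG : IsPGroup p G)
    (a : MulAut G) (ha : Nat.Coprime (orderOf a) p) (x : G)
    (hc : a (x⁻¹ * a x) = x⁻¹ * a x) : a x = x := by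
  have hpow : ∀ n : ℕ, (a ^ n) x = x * (x⁻¹ * a x) ^ n := by
    intro n
    induction n with
    | zero => simp
    | succ n ih =>
      rw [pow_succ', MulAut.mul_apply, ih, map_mul, map_pow, hc]
      have e : a x = x * (x⁻¹ * a x) := by group
      generalize x⁻¹ * a x = c at e ⊢
      rw [e, pow_succ', mul_assoc]
  have h1 := hpow (orderOf a)
  rw [pow_orderOf_eq_one, MulAut.one_apply] at h1
  have h2 : (x⁻¹ * a x) ^ orderOf a = 1 := by
    have : x * (x⁻¹ * a x) ^ orderOf a = x * 1 := by rw [mul_one]; exact h1.symm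
    exact mul_left_cancel this
  obtain ⟨k, hk⟩ := hG (x⁻¹ * a x)
  have h3 : orderOf (x⁻¹ * a x) ∣ orderOf a := orderOf_dvd_of_pow_eq_one h2
  have h4 : orderOf (x⁻¹ * a x) ∣ p ^ k := orderOf_dvd_of_pow_eq_one hk
  have h5 : x⁻¹ * a x = 1 :=
    orderOf_eq_one_iff.mp (Nat.eq_one_of_dvd_coprimes (Nat.Coprime.pow_right k ha) h3 h4)
  calc a x = x * (x⁻¹ * a x) := by group
    _ = x := by rw [h5, mul_one]

/-- restriction of an automorphism to an invariant subgroup -/
def restrictAut {G : Type*} [Group G] (a : MulAut G) (K : Subgroup G)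
    (hK : ∀ x, a x ∈ K ↔ x ∈ K) : K ≃* K where
  toFun x := ⟨a x, (hK x).mpr x.2⟩
  invFun x := ⟨a.symm x, (hK _).mp (by rw [MulEquiv.apply_symm_apply]; exact x.2)⟩
  left_inv x := by apply Subtype.ext; simp
  right_inv x := by apply Subtype.ext; simp
  map_mul' x y := by apply Subtype.ext; simp

theorem aux {G : Type u} [Group G] [Finite G] {p : ℕ} [Fact p.Prime] (hp : p ≠ 2)
    (hG : IsPGroup p G) (a : MulAut G) (ha : Nat.Coprime (orderOf a) p) (n : ℕ) :
    ∀ K : Subgroup G, Nat.card K ≤ n → (∀ x, a x ∈ K ↔ x ∈ K) →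
      (∀ x ∈ K, x ^ p = 1 → a x = x) → ∀ x ∈ K, a x = x := by
  have hpp : p.Prime := Fact.out
  induction n with
  | zero =>
    intro K hc
    have := Nat.card_pos (α := K)
    omega
  | succ n ih =>
    intro K hcard hK hfix
    have hKp : IsPGroup p K := hG.to_subgroup K
    obtain ⟨H', hH'char, -, hH'comm, hH'cent, hH'pow⟩ :=
      Cfsg.Agent.Lib_helper1_Critical.exists_critical hKp
    haveI := hH'char
    by_cases htop : H' = ⊤
    · -- `K` itself is critical
      subst htop
      have hcomm : ∀ u ∈ K, ∀ v ∈ K, ∀ w ∈ K, w * (u * v * u⁻¹ * v⁻¹) = (u * v * u⁻¹ * v⁻¹) * w := by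
        intro u hu v hv w hw
        have h1 : ⁅(⟨u, hu⟩ : K), ⟨v, hv⟩⁆ ∈ (⊤ : Subgroup K) ⊓
            Subgroup.centralizer ((⊤ : Subgroup K) : Set K) :=
          hH'comm (Subgroup.commutator_mem_commutator (Subgroup.mem_top _) (Subgroup.mem_top _))
        have h2 := Subgroup.mem_centralizer_iff.mp h1.2 ⟨w, hw⟩ (Subgroup.mem_top _)
        have h3 := congrArg Subtype.val h2
        simpa [commutatorElement_def] using h3
      have hpowc : ∀ u ∈ K, ∀ w ∈ K, w * u ^ p = u ^ p * w := by
        intro u hu w hw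
        have h1 := hH'pow ⟨u, hu⟩ (Subgroup.mem_top _)
        have h2 := Subgroup.mem_centralizer_iff.mp h1.2 ⟨w, hw⟩ (Subgroup.mem_top _)
        have h3 := congrArg Subtype.val h2
        simpa using h3
      have hmul : ∀ u ∈ K, ∀ v ∈ K, (u * v) ^ p = u ^ p * v ^ p := by
        intro u hu v hv
        have hc0 : v * u = u * v * (v⁻¹ * u⁻¹ * v⁻¹⁻¹ * u⁻¹⁻¹) := by group
        have hcu : Commute (v⁻¹ * u⁻¹ * v⁻¹⁻¹ * u⁻¹⁻¹) u :=
          (hcomm v⁻¹ (inv_mem hv) u⁻¹ (inv_mem hu) u hu).symm
        have hcv : Commute (v⁻¹ * u⁻¹ * v⁻¹⁻¹ * u⁻¹⁻¹) v :=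
          (hcomm v⁻¹ (inv_mem hv) u⁻¹ (inv_mem hu) v hv).symm
        have h1 := Cfsg.Agent.Lib_helper5_UniqSub.pow_mul_comm_formula u v _ hc0 hcu hcv p
        have h2 : v ^ p * u = u * v ^ p := (hpowc v hv u hu).symm
        have h3 : (v⁻¹ * u⁻¹ * v⁻¹⁻¹ * u⁻¹⁻¹) ^ p = 1 := by
          rw [h2] at h1
          have : u * v ^ p * 1 = u * v ^ p * (v⁻¹ * u⁻¹ * v⁻¹⁻¹ * u⁻¹⁻¹) ^ p := by
            rw [mul_one]; exact h1
          exact (mul_left_cancel this).symm
        have h4 := Cfsg.Agent.Lib_helper5_UniqSub.mul_pow_formula u v _ hc0 hcu hcv p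
        have hodd : 2 ∣ p - 1 := by
          have := hpp.eq_two_or_odd'
          rcases this with h | h
          · exact absurd h hp
          · obtain ⟨m, hm⟩ := h
            exact ⟨m, by omega⟩
        rw [Nat.mul_div_assoc p hodd, pow_mul, h3, one_pow, mul_one] at h4
        exact h4
      by_cases hKb : K = ⊥
      · intro x hx
        rw [hKb, Subgroup.mem_bot] at hx
        rw [hx, map_one]
      -- the power map
      let π : K →* G :=
        { toFun := fun u => (u : G) ^ p
          map_one' := by simp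
          map_mul' := fun u v => hmul u u.2 v v.2 }
      have hπK : π.range ≤ K := by
        rintro _ ⟨u, rfl⟩
        exact pow_mem u.2 p
      have hπinv : ∀ x, a x ∈ π.range ↔ x ∈ π.range := by
        intro x
        constructor
        · rintro ⟨u, hu⟩
          refine ⟨⟨a.symm u, (hK _).mp (by rw [MulEquiv.apply_symm_apply]; exact u.2)⟩, ?_⟩
          show (a.symm (u : G)) ^ p = x
          have hu' : (u : G) ^ p = a x := hu
          rw [← map_pow, hu', MulEquiv.symm_apply_apply]
        · rintro ⟨u, rfl⟩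
          refine ⟨⟨a u, (hK _).mpr u.2⟩, ?_⟩
          show (a (u : G)) ^ p = a ((u : G) ^ p)
          rw [map_pow]
      have hπcard : Nat.card π.range ≤ n := by
        haveI : Nontrivial K := (Subgroup.nontrivial_iff_ne_bot K).mpr hKb
        have h1 := Subgroup.card_mul_index π.ker
        rw [Subgroup.index_ker] at h1
        have hker : π.ker ≠ ⊥ := by
          obtain ⟨k, hk⟩ := hKp.exists_card_eq
          have hk0 : k ≠ 0 := by
            intro h0
            rw [h0, pow_zero] at hk
            have := Finite.one_lt_card (α := K)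
            omega
          have hpd : p ∣ Nat.card K := by rw [hk]; exact dvd_pow_self p hk0
          obtain ⟨z, hz⟩ := exists_prime_orderOf_dvd_card' p hpd
          intro hbot
          have hzk : z ∈ π.ker := by
            rw [MonoidHom.mem_ker]
            show (z : G) ^ p = 1
            rw [← Subgroup.coe_pow, ← hz, pow_orderOf_eq_one]; rfl
          rw [hbot, Subgroup.mem_bot] at hzk
          rw [hzk, orderOf_one] at hz
          exact hpp.one_lt.ne hz
        have h2 := Cfsg.Agent.Lib_helper1_SZConj.two_le_card_of_ne_bot π.ker hker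
        have hpos : 0 < Nat.card π.range := Nat.card_pos
        nlinarith
      have hfixπ : ∀ y ∈ π.range, a y = y :=
        ih π.range hπcard hπinv (fun y hy hyp => hfix y (hπK hy) hyp)
      intro x hx
      apply fixed_of_fixed_comm hG a ha
      have hax : a x ∈ K := (hK x).mpr hx
      apply hfix _ (mul_mem (inv_mem hx) hax)
      have h1 : π (⟨x⁻¹, inv_mem hx⟩ * ⟨a x, hax⟩) = π ⟨x⁻¹, inv_mem hx⟩ * π ⟨a x, hax⟩ :=
        map_mul π _ _
      have h2 : (x⁻¹ * a x) ^ p = (x⁻¹) ^ p * (a x) ^ p := h1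
      have h3 : a (x ^ p) = x ^ p := hfixπ _ ⟨⟨x, hx⟩, rfl⟩
      rw [h2, ← map_pow, h3, inv_pow, inv_mul_cancel]
    · -- a proper critical subgroup
      have hHinv : ∀ x, a x ∈ H'.map K.subtype ↔ x ∈ H'.map K.subtype := by
        intro x
        have hfixed := hH'char.fixed (restrictAut a K hK)
        constructor
        · rintro ⟨y, hy, hyx⟩
          have hxK : x ∈ K := (hK x).mp (by rw [← hyx]; exact y.2)
          refine ⟨⟨x, hxK⟩, ?_, rfl⟩
          have hmem : (⟨x, hxK⟩ : K) ∈ H'.comap (restrictAut a K hK).toMonoidHom := by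
            rw [Subgroup.mem_comap]
            have : (restrictAut a K hK).toMonoidHom ⟨x, hxK⟩ = y := Subtype.ext hyx.symm
            rw [this]; exact hy
          rw [hfixed] at hmem
          exact hmem
        · rintro ⟨y, hy, rfl⟩
          refine ⟨(restrictAut a K hK) y, ?_, rfl⟩
          have hy' : y ∈ H'.comap (restrictAut a K hK).toMonoidHom := by
            rw [hfixed]; exact hy
          exact hy'
      have hHcard : Nat.card (H'.map K.subtype) ≤ n := by
        rw [Subgroup.card_subtype]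
        have := Cfsg.Agent.Lib_helper1_SZConj.card_lt_of_ne_top H' htop
        omega
      have hHK : H'.map K.subtype ≤ K := Subgroup.map_subtype_le H'
      have hfixH : ∀ y ∈ H'.map K.subtype, a y = y :=
        ih _ hHcard hHinv (fun y hy hyp => hfix y (hHK hy) hyp)
      haveI : H'.Normal := inferInstance
      intro x hx
      apply fixed_of_fixed_comm hG a ha
      have hax : a x ∈ K := (hK x).mpr hx
      apply hfixH
      have hcent : (⟨x⁻¹ * a x, mul_mem (inv_mem hx) hax⟩ : K) ∈
          Subgroup.centralizer (H' : Set K) := by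
        rw [Subgroup.mem_centralizer_iff]
        intro h hh
        apply Subtype.ext
        show (h : G) * (x⁻¹ * a x) = x⁻¹ * a x * (h : G)
        have h1 : (⟨x, hx⟩ : K) * h * (⟨x, hx⟩ : K)⁻¹ ∈ H' :=
          Subgroup.Normal.conj_mem inferInstance h hh _
        have h2 : a (x * (h : G) * x⁻¹) = x * (h : G) * x⁻¹ :=
          hfixH _ ⟨_, h1, rfl⟩
        have h3 : a (h : G) = h := hfixH _ ⟨h, hh, rfl⟩
        rw [map_mul, map_mul, map_inv, h3] at h2
        calc (h : G) * (x⁻¹ * a x) = x⁻¹ * (x * (h : G) * x⁻¹) * a x := by group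
          _ = x⁻¹ * (a x * (h : G) * (a x)⁻¹) * a x := by rw [h2]
          _ = x⁻¹ * a x * (h : G) := by group
      exact ⟨_, hH'cent hcent, rfl⟩
/-- For odd p, a p'-automorphism of a p-group acting trivially on the elements of order dividing p is trivial. -/
theorem result {G : Type*} [Group G] [Finite G] {p : ℕ} [Fact p.Prime] (hp : p ≠ 2) (hG : IsPGroup p G) (a : MulAut G) (ha : Nat.Coprime (orderOf a) p) (h : ∀ x : G, x ^ p = 1 → a x = x) : a = 1 := by
  ext x
  rw [MulAut.one_apply]
  exact aux hp hG a ha (Nat.card (⊤ : Subgroup G)) ⊤ le_rfl (fun x => by simp)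
    (fun x _ hx => h x hx) x (Subgroup.mem_top x)

end Cfsg.Agent.S0120
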