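import Cfsg.Statements.S0123
import Cfsg.Agent.Lib_helper1_Class3

set_option autoImplicit false
open Cfsg

namespace Cfsg.Agent.S0123

/-- For a p-group of small class relative to p (class ≤ 2 with p odd, or class ≤ 3 with p > 3) whose derived subgroup is generated by elements of order dividing p, the p-th power map is multiplicative. -/
theorem result {R : Type*} [Group R] [Finite R] {p : ℕ} [Fact p.Prime] (hR : IsPGroup p R) (hcl : (p ≠ 2 ∧ ⁅commutator R, (⊤ : Subgroup R)⁆ = ⊥) ∨ (3 < p ∧ ⁅⁅commutator R, (⊤ : Subgroup R)⁆, (⊤ : Subgroup R)⁆ = ⊥)) (hder : commutator R ≤ Subgroup.closure {x : R | x ^ p = 1}) (x y : R) : (x * y) ^ p = x ^ p * y ^ p := by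
  have hpp : p.Prime := Fact.out
  have hcm : y⁻¹ * x⁻¹ * y * x ∈ commutator R := Cfsg.Agent.H1C3.comm_mem x y
  rcases hcl with ⟨hp2, hcl⟩ | ⟨hp3, hcl⟩
  · have hc : (y⁻¹ * x⁻¹ * y * x) ^ p = 1 :=
      Cfsg.Agent.H1C3.exp_closure2 p hpp hp2 hcl _ (hder hcm)
    have hcen := Cfsg.Agent.H1C3.central_of_bot (commutator R) hcl _ hcm
    have hdvd : p ∣ p.choose 2 := hpp.dvd_choose_self (by norm_num) (by
      have := hpp.two_le; omega)
    rw [Cfsg.Agent.H1C3.L2 x y (y⁻¹ * x⁻¹ * y * x) (by group) (hcen x) (hcen y) p,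
      Cfsg.Agent.H1C3.pow_eq_one_of_dvd _ p _ hc hdvd, mul_one]
  · have hc : (y⁻¹ * x⁻¹ * y * x) ^ p = 1 :=
      Cfsg.Agent.H1C3.exp_closure3 p hpp hp3 hcl _ (hder hcm)
    exact Cfsg.Agent.H1C3.class3_mul_pow p hpp hp3 hcl x y hc

end Cfsg.Agent.S0123
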