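import Cfsg.Statements.S0125
import Mathlib
import Cfsg.Agent.Lib_helper1_SysNorm

set_option autoImplicit false
open Cfsg

namespace Cfsg.Agent.S0125

/-- The centralizer of a self-centralizing normal subgroup A of a Sylow p-subgroup is the direct product of A with a normal p'-subgroup. -/
theorem result {G : Type*} [Group G] [Finite G] {p : ℕ} [Fact p.Prime] (R : Sylow p G) (A : Subgroup G) (hAR : A ≤ (R : Subgroup G)) (hAn : (R : Subgroup G) ≤ Subgroup.normalizer (A : Set G)) (hC : (R : Subgroup G) ⊓ Subgroup.centralizer (A : Set G) = A) : ∃ H : Subgroup G, H ≤ Subgroup.centralizer (A : Set G) ∧ Nat.Coprime (Nat.card H) p ∧ Subgroup.centralizer (A : Set G) ≤ Subgroup.normalizer (H : Set G) ∧ H ⊓ A = ⊥ ∧ H ⊔ A = Subgroup.centralizer (A : Set G) := by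
  have hAC : A ≤ Subgroup.centralizer (A : Set G) := by
    rw [← hC]
    exact inf_le_right.trans (by rw [hC])
  have hCM : Subgroup.centralizer (A : Set G) ≤ Subgroup.normalizer (A : Set G) :=
    Subgroup.centralizer_le_normalizer _
  -- index computation
  have hidx : A.relIndex (Subgroup.centralizer (A : Set G)) ∣ (R : Subgroup G).index := by
    have h1 : A.relIndex (Subgroup.centralizer (A : Set G)) =
        (R : Subgroup G).relIndex (Subgroup.centralizer (A : Set G)) := by
      calc A.relIndex (Subgroup.centralizer (A : Set G))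
          = ((R : Subgroup G) ⊓ Subgroup.centralizer (A : Set G)).relIndex
              (Subgroup.centralizer (A : Set G)) := by rw [hC]
        _ = (R : Subgroup G).relIndex (Subgroup.centralizer (A : Set G)) :=
          Subgroup.inf_relIndex_right _ _
    rw [h1, ← Subgroup.relIndex_subgroupOf hCM]
    haveI : ((Subgroup.centralizer (A : Set G)).subgroupOf (Subgroup.normalizer (A : Set G))).Normal :=
      Subgroup.normal_subgroupOf_centralizer_normalizer _
    exact (Cfsg.Agent.Lib_helper1_SysNorm.relIndex_dvd_index_of_normal_right' _ _).trans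
      (Subgroup.relIndex_dvd_index_of_le hAn)
  have hnd : ¬ p ∣ (A.subgroupOf (Subgroup.centralizer (A : Set G))).index := fun h =>
    R.not_dvd_index (h.trans hidx)
  have hApg : IsPGroup p (A.subgroupOf (Subgroup.centralizer (A : Set G))) := by
    have h1 : IsPGroup p A := R.isPGroup'.to_le hAR
    exact h1.of_injective (Subgroup.subgroupOfEquivOfLe hAC).toMonoidHom
      (Subgroup.subgroupOfEquivOfLe hAC).injective
  set S : Sylow p (Subgroup.centralizer (A : Set G)) := hApg.toSylow hnd with hS
  have hScoe : (S : Subgroup (Subgroup.centralizer (A : Set G))) =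
      A.subgroupOf (Subgroup.centralizer (A : Set G)) := rfl
  have hNC : Subgroup.normalizer ((S : Subgroup (Subgroup.centralizer (A : Set G))) :
        Set (Subgroup.centralizer (A : Set G))) ≤
      Subgroup.centralizer ((S : Subgroup (Subgroup.centralizer (A : Set G))) :
        Set (Subgroup.centralizer (A : Set G))) := by
    intro c _
    rw [Subgroup.mem_centralizer_iff]
    intro a ha
    have ha' : (a : G) ∈ A := by
      have h2 : a ∈ A.subgroupOf (Subgroup.centralizer (A : Set G)) := ha
      exact Subgroup.mem_subgroupOf.mp h2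
    have h3 := Subgroup.mem_centralizer_iff.mp c.2 (a : G) ha'
    exact Subtype.ext h3
  obtain ⟨K, hKn, hK⟩ : ∃ K : Subgroup (Subgroup.centralizer (A : Set G)), K.Normal ∧
      K.IsComplement' (S : Subgroup (Subgroup.centralizer (A : Set G))) :=
    ⟨_, inferInstance, MonoidHom.ker_transferSylow_isComplement' S hNC⟩
  refine ⟨K.map (Subgroup.centralizer (A : Set G)).subtype, ?_, ?_, ?_, ?_, ?_⟩
  · exact Subgroup.map_subtype_le _
  · have h1 : Nat.card (K.map (Subgroup.centralizer (A : Set G)).subtype) = Nat.card K :=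
      Subgroup.card_map_of_injective (Subgroup.subtype_injective _)
    rw [h1, ← hK.index_eq_card]
    exact (Nat.Prime.coprime_iff_not_dvd Fact.out).mpr (by rw [hScoe]; exact hnd) |>.symm
  · intro c hc
    have key : ∀ (c : G) (hc : c ∈ Subgroup.centralizer (A : Set G)) (h : G),
        h ∈ K.map (Subgroup.centralizer (A : Set G)).subtype →
        c * h * c⁻¹ ∈ K.map (Subgroup.centralizer (A : Set G)).subtype := by
      rintro c hc _ ⟨k, hk, rfl⟩
      refine ⟨⟨c, hc⟩ * k * ⟨c, hc⟩⁻¹, hKn.conj_mem k hk ⟨c, hc⟩, ?_⟩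
      simp
    rw [Subgroup.mem_normalizer_iff]
    intro h
    constructor
    · exact key c hc h
    · intro hh
      have h1 := key c⁻¹ (Subgroup.inv_mem _ hc) _ hh
      have e : c⁻¹ * (c * h * c⁻¹) * c⁻¹⁻¹ = h := by group
      rw [e] at h1
      exact h1
  · rw [eq_bot_iff]
    rintro x ⟨⟨k, hk, rfl⟩, hxA⟩
    have h1 : k ∈ K ⊓ (S : Subgroup (Subgroup.centralizer (A : Set G))) :=
      ⟨hk, by rw [hScoe]; exact Subgroup.mem_subgroupOf.mpr hxA⟩
    rw [hK.disjoint.eq_bot, Subgroup.mem_bot] at h1
    rw [Subgroup.mem_bot, h1]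
    rfl
  · have h1 := congrArg (Subgroup.map (Subgroup.centralizer (A : Set G)).subtype) hK.sup_eq_top
    rw [Subgroup.map_sup, hScoe, Subgroup.map_subgroupOf_eq_of_le hAC, ← MonoidHom.range_eq_map,
      Subgroup.range_subtype] at h1
    exact h1

end Cfsg.Agent.S0125
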