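import Cfsg.Statements.S0127
import Cfsg.Agent.Lib_helper1_CyclicMax

set_option autoImplicit false
open Cfsg

namespace Cfsg.Agent.S0127

/-- For odd p, in a non-cyclic p-group with a cyclic subgroup of index p, the elements of order dividing p generate an elementary abelian subgroup of order p^2. -/
theorem result {R : Type*} [Group R] [Finite R] {p : ℕ} [Fact p.Prime] (hp : p ≠ 2) (hR : IsPGroup p R) (hnc : ¬ IsCyclic R) (C : Subgroup R) (hC : IsCyclic C) (hCi : C.index = p) : Cfsg.IsElementaryAbelian p (Subgroup.closure {x : R | x ^ p = 1}) ∧ Nat.card (Subgroup.closure {x : R | x ^ p = 1}) = p ^ 2 := by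
  obtain ⟨T, hT, hcard, hcomm⟩ :=
    Cfsg.Agent.Lib_helper1_CyclicMax.omega_subgroup hp hR C hC hCi hnc
  have hset : {x : R | x ^ p = 1} = (T : Set R) := by
    ext x; exact (hT x).symm
  rw [hset, Subgroup.closure_eq]
  refine ⟨⟨⟨⟨fun a b => Subtype.ext (hcomm a a.2 b b.2)⟩⟩, fun a ha => (hT a).mp ha⟩, hcard⟩

end Cfsg.Agent.S0127
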