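import Cfsg.Statements.S0129
import Mathlib
import Cfsg.Agent.Lib_helper1_AutBound

set_option autoImplicit false
open Cfsg

namespace Cfsg.Agent.S0129

/-- The order of a p-group is bounded by p^(a(a+1)/2) when it has a maximal normal abelian subgroup of order p^a. -/
theorem result {G : Type*} [Group G] [Finite G] {p : ℕ} [Fact p.Prime] (hG : IsPGroup p G) (A : Subgroup G) [A.Normal] (hA : IsMulCommutative A) (hmax : ∀ B : Subgroup G, B.Normal → IsMulCommutative B → A ≤ B → B = A) (a : ℕ) (ha : Nat.card A = p ^ a) : Nat.card G ≤ p ^ (a * (a + 1) / 2) := by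
  have hp : p.Prime := Fact.out
  have h1 := Cfsg.Agent.Lib_helper1_AutBound.centralizer_eq_of_max_normal_abelian hG A hA hmax
  have h2 := Cfsg.Agent.Lib_helper1_AutBound.index_centralizer_le hG a A ha
  rw [h1] at h2
  rw [← Subgroup.card_mul_index A, ha]
  have e : a * (a + 1) / 2 = a + a * (a - 1) / 2 := by
    have h : a * (a + 1) = a * (a - 1) + 2 * a := by
      cases a with
      | zero => simp
      | succ b => simp; ring
    rw [h, Nat.add_mul_div_left _ _ (by norm_num : 0 < 2), add_comm]
  rw [e, pow_add]
  exact Nat.mul_le_mul_left _ h2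

end Cfsg.Agent.S0129
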