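import Cfsg.Statements.S0131
import Cfsg.Agent.Lib_helper1_Basic

set_option autoImplicit false
open Cfsg

namespace Cfsg.Agent.S0131

open Cfsg.Agent.Lib_helper1_Basic in
open scoped commutatorElement in
/-- P/P' has a normal complement in G exactly when the focal subgroup G' ∩ P is as small as possible, namely P'. -/
theorem result {G : Type*} [Group G] [Finite G] {p : ℕ} [Fact p.Prime] (P : Sylow p G) : (∃ N : Subgroup G, N.Normal ∧ N ⊓ (P : Subgroup G) = ⁅(P : Subgroup G), (P : Subgroup G)⁆ ∧ N ⊔ (P : Subgroup G) = ⊤) ↔ commutator G ⊓ (P : Subgroup G) = ⁅(P : Subgroup G), (P : Subgroup G)⁆ := by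
  have hPP : ⁅(P : Subgroup G), (P : Subgroup G)⁆ ≤ (P : Subgroup G) := by
    rw [Subgroup.commutator_le]
    intro a ha b hb
    rw [commutatorElement_def]
    exact mul_mem (mul_mem (mul_mem ha hb) (inv_mem ha)) (inv_mem hb)
  constructor
  · rintro ⟨N, hN, h1, h2⟩
    apply le_antisymm
    · rw [← h1]
      apply inf_le_inf_right
      rw [commutator_def, Subgroup.commutator_le]
      intro a _ b _
      obtain ⟨n1, hn1, x1, hx1, rfl⟩ := exists_mul_of_sup_eq_top N (P : Subgroup G) h2 a
      obtain ⟨n2, hn2, x2, hx2, rfl⟩ := exists_mul_of_sup_eq_top N (P : Subgroup G) h2 b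
      have hc : ⁅x1, x2⁆ ∈ N := by
        have : ⁅x1, x2⁆ ∈ N ⊓ (P : Subgroup G) := by
          rw [h1]; exact Subgroup.commutator_mem_commutator hx1 hx2
        exact this.1
      rw [← QuotientGroup.eq_one_iff] at hc ⊢
      have e1 : ((n1 : G) : G ⧸ N) = 1 := (QuotientGroup.eq_one_iff n1).mpr hn1
      have e2 : ((n2 : G) : G ⧸ N) = 1 := (QuotientGroup.eq_one_iff n2).mpr hn2
      rw [commutatorElement_def] at hc ⊢
      simp only [QuotientGroup.mk_mul, QuotientGroup.mk_inv, e1, e2, one_mul] at hc ⊢
      exact hc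
    · exact le_inf (Subgroup.commutator_mono le_top le_top) hPP
  · intro hcomm
    refine ⟨(P : Subgroup G).transferFocal.ker, inferInstance, ?_, ?_⟩
    · rw [Subgroup.ker_transferFocal_inf_eq_focalSubgroup, ← Subgroup.commutator_inf_eq_focalSubgroup, hcomm]
    · rw [eq_top_iff]
      intro g _
      obtain ⟨y, hy⟩ := Subgroup.focalSubgroupOf.pow_index_surjective P ((P : Subgroup G).transferFocal g)
      obtain ⟨x, rfl⟩ := QuotientGroup.mk'_surjective _ y
      have hx : (P : Subgroup G).transferFocal (x : G) = (P : Subgroup G).transferFocal g := by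
        rw [Subgroup.transferFocal_eq_pow]; exact hy
      have hk : g * (x : G)⁻¹ ∈ (P : Subgroup G).transferFocal.ker := by
        rw [MonoidHom.mem_ker, map_mul, map_inv, hx, mul_inv_cancel]
      have : g = (g * (x : G)⁻¹) * x := by group
      rw [this]
      exact Subgroup.mul_mem_sup hk x.2

end Cfsg.Agent.S0131
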