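import Cfsg.Statements.S0132
import Cfsg.Agent.Lib_helper1_Frobenius

set_option autoImplicit false
open Cfsg

namespace Cfsg.Agent.S0132

/-- A minimal non-p-nilpotent finite group is a minimal non-nilpotent group with a normal Sylow p-subgroup. -/
theorem result {G : Type*} [Group G] [Finite G] {p : ℕ} [Fact p.Prime] (h1 : ¬ Cfsg.HasNormalPComplement p G) (h2 : ∀ H : Subgroup G, H ≠ ⊤ → Cfsg.HasNormalPComplement p H) : (∀ H : Subgroup G, H ≠ ⊤ → Group.IsNilpotent H) ∧ ¬ Group.IsNilpotent G ∧ ∀ P : Sylow p G, (P : Subgroup G).Normal :=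
  Cfsg.Agent.Lib_helper1_Frobenius.ito
    (fun h => h1 (Cfsg.Agent.Lib_helper1_Frobenius.hasNormalPComplement_of_npc h))
    (fun H hH => Cfsg.Agent.Lib_helper1_Frobenius.npc_of_hasNormalPComplement (h2 H hH))

end Cfsg.Agent.S0132
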