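import Cfsg.Statements.S0145
import Cfsg.Agent.Lib_helper3_CharBasic

set_option autoImplicit false
open scoped ComplexConjugate
open Cfsg

namespace Cfsg.Agent.S0145

/-- Column orthogonality: the sum over the irreducible characters χ of χ g * conj (χ h) is the order of the centralizer of g if g and h are conjugate, and is 0 otherwise. -/
theorem result {G : Type*} [Group G] [Finite G] (g h : G) : (IsConj g h → ∑ᶠ χ : Cfsg.IrrCharacter G, (χ : G → ℂ) g * conj ((χ : G → ℂ) h) = (Nat.card (Subgroup.centralizer ({g} : Set G)) : ℂ)) ∧ (¬ IsConj g h → ∑ᶠ χ : Cfsg.IrrCharacter G, (χ : G → ℂ) g * conj ((χ : G → ℂ) h) = 0) := by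
  classical
  have := Fintype.ofFinite G
  have := Cfsg.Agent.Lib_helper3_CharBasic.irr_finite (G := G)
  have := Fintype.ofFinite (Cfsg.IrrCharacter G)
  rw [finsum_eq_sum_of_fintype]
  have key := Cfsg.Agent.Lib_helper3_CharBasic.second_orthogonality g h
  have key2 := congrArg (starRingEnd ℂ) key
  rw [map_sum] at key2
  simp only [map_mul, Complex.conj_conj] at key2
  have e : ∑ χ : Cfsg.IrrCharacter G, (χ : G → ℂ) g * conj ((χ : G → ℂ) h) =
      ∑ χ : Cfsg.IrrCharacter G, conj ((χ : G → ℂ) h) * (χ : G → ℂ) g :=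
    Finset.sum_congr rfl (fun χ _ => mul_comm _ _)
  rw [e, key2]
  constructor
  · intro hc
    rw [if_pos hc, Complex.conj_natCast]
  · intro hc
    rw [if_neg hc, map_zero]
end Cfsg.Agent.S0145
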