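import Cfsg.Statements.S0155
import Cfsg.Agent.Lib_helper3_CharCount

set_option autoImplicit false
open Cfsg

namespace Cfsg.Agent.S0155

/-- The character of the left regular representation of a finite group takes the value |G| at the identity and 0 at every other element. -/
theorem result {G : Type*} [Group G] [Fintype G] [DecidableEq G] (g : G) : (Representation.leftRegular ℂ G).character g = if g = 1 then (Nat.card G : ℂ) else 0 := by
  classical
  simp only [Representation.character]
  rw [LinearMap.trace_eq_matrix_trace ℂ (MonoidAlgebra.basis G ℂ)]
  simp only [Matrix.trace, Matrix.diag_apply, LinearMap.toMatrix_apply, MonoidAlgebra.basis_apply,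
    Representation.ofMulAction_single, smul_eq_mul]
  have h1 : ∀ x : G, ((MonoidAlgebra.basis G ℂ).repr (MonoidAlgebra.single (g * x) 1)) x =
      if g = 1 then 1 else 0 := by
    intro x
    have : ((MonoidAlgebra.basis G ℂ).repr (MonoidAlgebra.single (g * x) (1 : ℂ))) x =
        (MonoidAlgebra.single (g * x) (1 : ℂ)).coeff x := rfl
    rw [this, MonoidAlgebra.coeff_single, Finsupp.single_apply]
    by_cases hg : g = 1
    · simp [hg]
    · rw [if_neg hg, if_neg]
      intro h
      exact hg (mul_eq_right.mp h)
  simp only [h1]
  split_ifs with hg
  · simp [Nat.card_eq_fintype_card]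
  · simp
end Cfsg.Agent.S0155
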