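import Cfsg.Statements.S0156
import Cfsg.Agent.Lib_helper3_CharCount
import Cfsg.Agent.S0155

set_option autoImplicit false
open Cfsg

namespace Cfsg.Agent.S0156

/-- The character of the left regular representation is the sum over the irreducible characters χ of χ 1 • χ. -/
theorem result {G : Type*} [Group G] [Fintype G] : (Representation.leftRegular ℂ G).character = ∑ᶠ χ : Cfsg.IrrCharacter G, (χ : G → ℂ) 1 • (χ : G → ℂ) := by
  classical
  have := Cfsg.Agent.Lib_helper3_CharBasic.irr_finite (G := G)
  have := Fintype.ofFinite (Cfsg.IrrCharacter G)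
  rw [finsum_eq_sum_of_fintype]
  have hcf : Cfsg.IsClassFunction G (Representation.leftRegular ℂ G).character :=
    Cfsg.Agent.Lib_helper3_CharBasic.isClassFunction_of_isCharacter
      (Cfsg.Agent.Lib_helper3_CharBasic.isCharacter_of_rep _)
  refine (Cfsg.Agent.Lib_helper3_CharBasic.classFunction_eq_sum _ hcf).trans ?_
  apply Finset.sum_congr rfl
  intro χ _
  congr 1
  rw [Cfsg.Agent.Lib_helper3_CharBasic.classInner_def]
  simp only [Cfsg.Agent.S0155.result, ite_mul, zero_mul, Finset.sum_ite_eq', Finset.mem_univ,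
    if_true]
  obtain ⟨n, hn⟩ := Cfsg.Agent.Lib_helper3_CharBasic.isCharacter_apply_one
    (Cfsg.Agent.Lib_helper3_CharBasic.isCharacter_of_irr χ.2)
  rw [hn, Complex.conj_natCast, ← mul_assoc,
    inv_mul_cancel₀ Cfsg.Agent.Lib_helper3_CharBasic.card_ne_zero, one_mul]
end Cfsg.Agent.S0156
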