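import Cfsg.Statements.S0159
import Cfsg.Agent.Lib_helper3_CharCount

set_option autoImplicit false
open Cfsg

namespace Cfsg.Agent.S0159

/-- The number of solutions of s * s = 1 in a finite group equals the sum, over the irreducible characters χ, of (the average over s of χ (s * s)) times χ 1. -/
theorem result {G : Type*} [Group G] [Fintype G] : (Nat.card {s : G // s * s = 1} : ℂ) = ∑ᶠ χ : Cfsg.IrrCharacter G, ((Nat.card G : ℂ)⁻¹ * ∑ s : G, (χ : G → ℂ) (s * s)) * (χ : G → ℂ) 1 := by
  classical
  have := Cfsg.Agent.Lib_helper3_CharBasic.irr_finite (G := G)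
  have := Fintype.ofFinite (Cfsg.IrrCharacter G)
  rw [finsum_eq_sum_of_fintype]
  -- the class function counting square roots
  let θ : G → ℂ := fun g => ∑ s : G, if s * s = g then 1 else 0
  have hθ : Cfsg.IsClassFunction G θ := by
    intro g h
    simp only [θ]
    rw [← Equiv.sum_comp (MulAut.conj h).toEquiv]
    apply Finset.sum_congr rfl
    intro s _
    have e1 : (MulAut.conj h).toEquiv s = h * s * h⁻¹ := rfl
    rw [e1]
    have : h * s * h⁻¹ * (h * s * h⁻¹) = h * g * h⁻¹ ↔ s * s = g := by
      constructor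
      · intro hh
        have : h * (s * s) * h⁻¹ = h * g * h⁻¹ := by rw [← hh]; group
        simpa using this
      · intro hh
        rw [← hh]; group
    simp only [this]
  have hsum : ∀ F : G → ℂ, ∑ g : G, θ g * F g = ∑ s : G, F (s * s) := by
    intro F
    simp only [θ, Finset.sum_mul]
    rw [Finset.sum_comm]
    apply Finset.sum_congr rfl
    intro s _
    simp
  have h1 := Cfsg.Agent.Lib_helper3_CharBasic.classFunction_eq_sum_apply θ hθ 1
  have hθ1 : θ 1 = (Nat.card {s : G // s * s = 1} : ℂ) := by
    simp only [θ]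
    rw [Finset.sum_boole, Nat.card_eq_fintype_card, Fintype.card_subtype]
  rw [← hθ1, h1]
  apply Finset.sum_congr rfl
  intro χ _
  congr 1
  rw [Cfsg.Agent.Lib_helper3_CharBasic.classInner_def, hsum]
  congr 1
  rw [← Equiv.sum_comp (Equiv.inv G)]
  apply Finset.sum_congr rfl
  intro s _
  rw [Cfsg.Agent.Lib_helper3_CharBasic.isCharacter_conj_apply
    (Cfsg.Agent.Lib_helper3_CharBasic.isCharacter_of_irr χ.2)]
  simp
end Cfsg.Agent.S0159
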