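import Cfsg.Statements.S0165
import Cfsg.Agent.Lib_lead_DefectZero
import Cfsg.Agent.Lib_helper3_CharOdd

set_option autoImplicit false
open Cfsg

namespace Cfsg.Agent.S0165

/-- If p ^ n is the exact power of the prime p dividing the order of a finite group and p ^ n divides the degree of an irreducible complex representation, then its character vanishes at every element of order divisible by p. -/
theorem result {G : Type*} [Group G] [Finite G] {V : Type*} [AddCommGroup V] [Module ℂ V] [FiniteDimensional ℂ V] (ρ : Representation ℂ G V) [ρ.IsIrreducible] (p n : ℕ) (hp : p.Prime) (hn : p ^ n ∣ Nat.card G) (hn' : ¬ p ^ (n + 1) ∣ Nat.card G) (hdeg : p ^ n ∣ Module.finrank ℂ V) (x : G) (hx : p ∣ orderOf x) : ρ.character x = 0 := by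
  classical
  have hirr : IsIrrCharacter G ρ.character :=
    Cfsg.Agent.Lib_helper3_CharBasic.isIrrCharacter_of_rep ρ
  have h1 : ρ.character 1 = (Module.finrank ℂ V : ℂ) := Representation.char_one ρ
  have hdvd := Cfsg.Agent.Lib_helper3_CharOdd.irr_degree_dvd_card hirr h1
  obtain ⟨a, ha⟩ := hdvd
  refine Cfsg.Agent.Lib_lead_DefectZero.defect_zero_vanish hirr p hp (Module.finrank ℂ V) a h1
    (by rw [ha, mul_comm]) ?_ x hx
  intro hpa
  apply hn'
  obtain ⟨b, hb⟩ := hpa
  obtain ⟨c, hc⟩ := hdeg
  rw [ha, hc, hb]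
  exact ⟨c * b, by ring⟩

end Cfsg.Agent.S0165
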