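import Cfsg.Statements.S0168
import Mathlib
import Cfsg.Agent.Lib_helper3_CharMore
import Cfsg.Agent.Lib_helper3_CharDiag

set_option autoImplicit false
open Cfsg

namespace Cfsg.Agent.S0168

/-- The Burnside–Brauer Theorem. Let χ be the character of a faithful complex representation of a finite group, taking m distinct values. Then every irreducible character has nonzero inner product with χ ^ i for some i < m. -/
theorem result {G : Type*} [Group G] [Fintype G] {V : Type*} [AddCommGroup V] [Module ℂ V] [FiniteDimensional ℂ V] (ρ : Representation ℂ G V) (hfaithful : Function.Injective ρ) (ψ : G → ℂ) (hψ : Cfsg.IsIrrCharacter G ψ) : ∃ i : ℕ, i < Nat.card (Set.range ρ.character) ∧ Cfsg.classInner (fun g => ρ.character g ^ i) ψ ≠ 0 := by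
  classical
  set χ := ρ.character with hχdef
  let S : Finset ℂ := Finset.univ.image χ
  have hcard : Nat.card (Set.range χ) = S.card := by
    rw [Nat.card_coe_set_eq]
    have : Set.range χ = (S : Set ℂ) := by
      ext z
      simp [S]
    rw [this, Set.ncard_coe_finset]
  have h1S : χ 1 ∈ S := Finset.mem_image_of_mem χ (Finset.mem_univ 1)
  let P : Polynomial ℂ := ∏ a ∈ S.erase (χ 1), (Polynomial.X - Polynomial.C a)
  have hdeg : P.natDegree = S.card - 1 := by
    rw [Polynomial.natDegree_finsetProd_X_sub_C_eq_card, Finset.card_erase_of_mem h1S]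
  have hP1 : P.eval (χ 1) ≠ 0 := by
    rw [Polynomial.eval_prod]
    apply Finset.prod_ne_zero_iff.mpr
    intro a ha
    simp only [Polynomial.eval_sub, Polynomial.eval_X, Polynomial.eval_C]
    exact sub_ne_zero.mpr (Finset.ne_of_mem_erase ha).symm
  have hPg : ∀ g : G, g ≠ 1 → P.eval (χ g) = 0 := by
    intro g hg
    rw [Polynomial.eval_prod]
    apply Finset.prod_eq_zero (i := χ g)
    · apply Finset.mem_erase.mpr
      refine ⟨?_, Finset.mem_image_of_mem χ (Finset.mem_univ g)⟩
      intro h
      apply hg
      apply hfaithful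
      rw [map_one]
      have h2 : χ 1 = (Module.finrank ℂ V : ℂ) := Representation.char_one ρ
      rw [h2] at h
      exact (Cfsg.Agent.Lib_helper3_CharDiag.char_eq_degree_iff ρ g).mp h
    · simp
  by_contra hcon
  push Not at hcon
  have h1 : Cfsg.classInner (fun g => P.eval (χ g)) ψ = 0 := by
    have h2 : (fun g => P.eval (χ g)) =
        ∑ i ∈ Finset.range (P.natDegree + 1), (P.coeff i) • (fun g => χ g ^ i) := by
      funext g
      rw [Polynomial.eval_eq_sum_range]
      simp [Finset.sum_apply]
    rw [h2, Cfsg.Agent.Lib_helper3_CharBasic.classInner_sum_left]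
    apply Finset.sum_eq_zero
    intro i hi
    rw [Cfsg.Agent.Lib_helper3_CharBasic.classInner_smul_left]
    have hi' : i < Nat.card (Set.range χ) := by
      rw [hcard]
      have := Finset.mem_range.mp hi
      have hpos : 0 < S.card := Finset.card_pos.mpr ⟨_, h1S⟩
      omega
    rw [hcon i hi', mul_zero]
  rw [Cfsg.Agent.Lib_helper3_CharBasic.classInner_def] at h1
  have h3 : ∑ g : G, P.eval (χ g) * (starRingEnd ℂ) (ψ g) = P.eval (χ 1) * (starRingEnd ℂ) (ψ 1) := by
    rw [Finset.sum_eq_single 1]
    · intro g _ hg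
      rw [hPg g hg, zero_mul]
    · intro h
      exact absurd (Finset.mem_univ 1) h
  rw [h3] at h1
  have hψ1 := Cfsg.Agent.Lib_helper3_CharMore.irr_apply_one_ne_zero hψ
  have hG0 := Cfsg.Agent.Lib_helper3_CharBasic.card_ne_zero (G := G)
  rcases mul_eq_zero.mp h1 with h | h
  · exact hG0 (inv_eq_zero.mp h)
  · rcases mul_eq_zero.mp h with h | h
    · exact hP1 h
    · exact hψ1 ((map_eq_zero _).mp h)
end Cfsg.Agent.S0168
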