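import Cfsg.Statements.S0170
import Cfsg.Agent.Lib_helper3_Exceptional
import Cfsg.Agent.S0150

set_option autoImplicit false
open Cfsg

namespace Cfsg.Agent.S0170

/-- Exceptional characters. Let S be a subset of a finite group contained in its normalizer N and meeting its conjugates by elements outside N only in the identity. Given n ≥ 2 distinct irreducible characters of N of equal degree that vanish on N away from S, there exist a sign ε and n distinct irreducible characters θ_i of G such that inducing χ_i − χ_j to G gives ε (θ_i − θ_j) for all i, j. -/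
theorem result {G : Type*} [Group G] [Fintype G] (S : Set G) (hSN : S ⊆ Subgroup.normalizer S) (hTI : ∀ g : G, g ∉ Subgroup.normalizer S → ∀ s ∈ S, g * s * g⁻¹ ∈ S → s = 1) (n : ℕ) (hn : 2 ≤ n) (χ : Fin n → (Subgroup.normalizer S → ℂ)) (hirr : ∀ i, Cfsg.IsIrrCharacter (Subgroup.normalizer S) (χ i)) (hinj : Function.Injective χ) (hvan : ∀ i, ∀ x : Subgroup.normalizer S, (x : G) ∉ S → χ i x = 0) (hdeg : ∀ i j, χ i 1 = χ j 1) : ∃ ε : ℂ, (ε = 1 ∨ ε = -1) ∧ ∃ θ : Fin n → (G → ℂ), (∀ i, Cfsg.IsIrrCharacter G (θ i)) ∧ Function.Injective θ ∧ ∀ i j, Cfsg.indFun (Subgroup.normalizer S) (χ i) - Cfsg.indFun (Subgroup.normalizer S) (χ j) = ε • (θ i - θ j) := by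
  classical
  have := Fintype.ofFinite (Subgroup.normalizer S)
  have hn0 : 0 < n := by omega
  let i₀ : Fin n := ⟨0, hn0⟩
  let τ : Fin n → (G → ℂ) := fun i => Cfsg.indFun (Subgroup.normalizer S) (χ i - χ i₀)
  have h0 : τ i₀ = 0 := by
    show Cfsg.indFun _ (χ i₀ - χ i₀) = 0
    rw [sub_self, Cfsg.Agent.Lib_helper3_CharInd.indFun_zero]
  have hgen : ∀ i, Cfsg.IsGeneralizedCharacter G (τ i) := fun i =>
    ⟨Cfsg.indFun (Subgroup.normalizer S) (χ i), Cfsg.indFun (Subgroup.normalizer S) (χ i₀),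
      Cfsg.Agent.Lib_helper3_CharInd.isCharacter_indFun _
        (Cfsg.Agent.Lib_helper3_CharBasic.isCharacter_of_irr (hirr i)),
      Cfsg.Agent.Lib_helper3_CharInd.isCharacter_indFun _
        (Cfsg.Agent.Lib_helper3_CharBasic.isCharacter_of_irr (hirr i₀)),
      Cfsg.Agent.Lib_helper3_CharInd.indFun_sub _ _ _⟩
  have hone : ∀ i, τ i 1 = 0 := by
    intro i
    show Cfsg.indFun _ (χ i - χ i₀) 1 = 0
    rw [Cfsg.Agent.Lib_helper3_CharInd.indFun_apply_one]
    simp [hdeg i i₀]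
  have hgram : ∀ i j, i ≠ i₀ → j ≠ i₀ → Cfsg.classInner (τ i) (τ j) = if i = j then 2 else 1 := by
    intro i j hi hj
    have hcf : ∀ k, Cfsg.IsClassFunction (Subgroup.normalizer S) (χ k - χ i₀) := fun k =>
      Cfsg.Agent.Lib_helper3_CharBasic.isClassFunction_sub
        (Cfsg.Agent.Lib_helper3_CharBasic.isClassFunction_of_irr (hirr k))
        (Cfsg.Agent.Lib_helper3_CharBasic.isClassFunction_of_irr (hirr i₀))
    have hv : ∀ k, ∀ x : Subgroup.normalizer S, (x : G) ∉ S → (χ k - χ i₀) x = 0 := by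
      intro k x hx
      simp [hvan k x hx, hvan i₀ x hx]
    have h1 := Cfsg.Agent.S0150.result S hTI hSN (χ i - χ i₀) (χ j - χ i₀) (hcf i) (hcf j)
      (hv i) (hv j) (by simp [hdeg i i₀])
    show Cfsg.classInner (Cfsg.indFun _ _) (Cfsg.indFun _ _) = _
    rw [h1, Cfsg.Agent.Lib_helper3_Exceptional.inner_sub_sub (hirr i) (hirr i₀) (hirr j) (hirr i₀)]
    have e1 : χ i ≠ χ i₀ := fun h => hi (hinj h)
    have e2 : χ i₀ ≠ χ j := fun h => hj (hinj h).symm
    rw [if_neg e1, if_neg e2, if_pos rfl]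
    by_cases hij : i = j
    · rw [if_pos hij, if_pos (congrArg χ hij)]
      norm_num
    · rw [if_neg hij, if_neg (fun h => hij (hinj h))]
      norm_num
  obtain ⟨ε, hε, μ, hμ, hμinj, hτμ⟩ :=
    Cfsg.Agent.Lib_helper3_Exceptional.exceptional_main n i₀ τ h0 hgen hone hgram
  refine ⟨ε, hε, μ, hμ, hμinj, fun i j => ?_⟩
  have h1 := hτμ i
  have h2 := hτμ j
  have h3 : Cfsg.indFun (Subgroup.normalizer S) (χ i) - Cfsg.indFun (Subgroup.normalizer S) (χ j)
      = τ i - τ j := by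
    show _ = Cfsg.indFun _ (χ i - χ i₀) - Cfsg.indFun _ (χ j - χ i₀)
    rw [Cfsg.Agent.Lib_helper3_CharInd.indFun_sub, Cfsg.Agent.Lib_helper3_CharInd.indFun_sub]
    abel
  rw [h3, h1, h2, ← smul_sub]
  congr 1
  abel
end Cfsg.Agent.S0170
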