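import Cfsg.Statements.S0171
import Mathlib
import Cfsg.Agent.Lib_helper3_CharNormal

set_option autoImplicit false
open Cfsg

namespace Cfsg.Agent.S0171

/-- Let G = K H with K normal, K ⊓ H trivial, and no non-identity element of H commuting with a non-identity element of K (a Frobenius group with kernel K and complement H). Then every non-principal irreducible character of K induces to an irreducible character of G. -/
theorem result {G : Type*} [Group G] [Fintype G] (K H : Subgroup G) [K.Normal] (hKH : K ⊓ H = ⊥) (hKH' : K ⊔ H = ⊤) (hfpf : ∀ h ∈ H, h ≠ 1 → ∀ k ∈ K, h * k = k * h → k = 1) (τ : K → ℂ) (hτ : Cfsg.IsIrrCharacter K τ) (hτ1 : τ ≠ fun _ => 1) : Cfsg.IsIrrCharacter G (Cfsg.indFun K τ) := by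
  classical
  have hKn : K.Normal := inferInstance
  apply Cfsg.Agent.Lib_helper3_CharNormal.isIrrCharacter_indFun_of_stab K τ hτ
  intro x hx
  have hxmem : x ∈ (↑(K ⊔ H) : Set G) := by rw [hKH']; trivial
  rw [Subgroup.normal_mul] at hxmem
  obtain ⟨k, hk, h, hh, rfl⟩ := Set.mem_mul.mp hxmem
  by_cases h1 : h = 1
  · subst h1; simpa using hk
  exfalso
  have hh' : Cfsg.Agent.Lib_helper3_CharNormal.conjFun K h τ = τ := by
    rw [← Cfsg.Agent.Lib_helper3_CharNormal.conjFun_conjFun,
      Cfsg.Agent.Lib_helper3_CharNormal.conjFun_of_mem K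
        (Cfsg.Agent.Lib_helper3_CharBasic.isClassFunction_of_irr hτ) hk] at hx
    exact hx
  let α : K ≃* K := MulAut.conjNormal h
  have hα : ∀ k : K, ((α k : K) : G) = h * k * h⁻¹ := fun k => MulAut.conjNormal_apply h k
  have key : ∀ k : K, IsConj (α k) k → k = 1 := by
    intro k hk
    obtain ⟨y, hy⟩ := isConj_iff.mp hk
    have hy' : (y : G) * (h * k * h⁻¹) * (y : G)⁻¹ = (k : G) := by
      have := congrArg Subtype.val hy
      simpa [hα] using this
    let φ : K → K := fun z => ⟨(z : G)⁻¹ * (h * z * h⁻¹),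
      K.mul_mem (K.inv_mem z.2) (hKn.conj_mem z z.2 h)⟩
    have hφ : Function.Injective φ := by
      intro z₁ z₂ h12
      have h12' : (z₁ : G)⁻¹ * (h * z₁ * h⁻¹) = (z₂ : G)⁻¹ * (h * z₂ * h⁻¹) :=
        congrArg Subtype.val h12
      have h5 : (z₂ : G) * (z₁ : G)⁻¹ = 1 := by
        apply hfpf h hh h1 _ (K.mul_mem z₂.2 (K.inv_mem z₁.2))
        have h6 : (z₁ : G)⁻¹ * h * z₁ = (z₂ : G)⁻¹ * h * z₂ := by
          have := congrArg (fun t => t * h) h12'
          simpa [mul_assoc] using this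
        calc h * ((z₂ : G) * (z₁ : G)⁻¹) = z₂ * ((z₂ : G)⁻¹ * h * z₂) * (z₁ : G)⁻¹ := by group
          _ = z₂ * ((z₁ : G)⁻¹ * h * z₁) * (z₁ : G)⁻¹ := by rw [h6]
          _ = (z₂ : G) * (z₁ : G)⁻¹ * h := by group
      apply Subtype.ext
      have := mul_eq_one_iff_eq_inv.mp h5
      rw [inv_inv] at this
      exact this.symm
    obtain ⟨z, hz⟩ := Finite.surjective_of_injective hφ y
    have hz' : (z : G)⁻¹ * (h * z * h⁻¹) = (y : G) := congrArg Subtype.val hz
    have h7 : (z : G) * k * (z : G)⁻¹ = 1 := by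
      apply hfpf h hh h1 _ (hKn.conj_mem k k.2 z)
      have h8 : (y : G) * h * k = k * (y * h) := by
        calc (y : G) * h * k = ((y : G) * (h * k * h⁻¹) * (y : G)⁻¹) * (y * h) := by group
          _ = k * (y * h) := by rw [hy']
      have h9 : (y : G) * h = (z : G)⁻¹ * h * z := by rw [← hz']; group
      rw [h9] at h8
      calc h * ((z : G) * k * (z : G)⁻¹) = z * ((z : G)⁻¹ * h * z * k) * (z : G)⁻¹ := by group
        _ = z * (k * ((z : G)⁻¹ * h * z)) * (z : G)⁻¹ := by rw [h8]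
        _ = (z : G) * k * (z : G)⁻¹ * h := by group
    apply Subtype.ext
    have h10 : (k : G) = (z : G)⁻¹ * ((z : G) * k * (z : G)⁻¹) * z := by group
    rw [h10, h7]
    simp
  have hfix := Cfsg.Agent.Lib_helper3_CharPerm.card_fixed_classes_automorphism α
  have hL : Nat.card {C : ConjClasses K // ConjClasses.map α.toMonoidHom C = C} = 1 := by
    rw [Nat.card_eq_one_iff_unique]
    refine ⟨⟨?_⟩, ⟨⟨ConjClasses.mk 1, ?_⟩⟩⟩
    · have key2 : ∀ C : ConjClasses K, ConjClasses.map α.toMonoidHom C = C →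
          C = ConjClasses.mk 1 := by
        intro C hC
        obtain ⟨k, rfl⟩ := ConjClasses.mk_surjective C
        have hC' : ConjClasses.mk (α k) = ConjClasses.mk k := hC
        rw [key k (ConjClasses.mk_eq_mk_iff_isConj.mp hC')]
      rintro ⟨C, hC⟩ ⟨C', hC'⟩
      apply Subtype.ext
      show C = C'
      rw [key2 C hC, key2 C' hC']
    · show ConjClasses.mk (α 1) = ConjClasses.mk 1
      rw [map_one]
  have hfin := Cfsg.Agent.Lib_helper3_CharBasic.irr_finite (G := K)
  have hR : 1 < Nat.card {χ : Cfsg.IrrCharacter K // (χ : K → ℂ) ∘ α = (χ : K → ℂ)} := by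
    have hnt : Nontrivial {χ : Cfsg.IrrCharacter K // (χ : K → ℂ) ∘ α = (χ : K → ℂ)} := by
      refine ⟨⟨⟨⟨fun _ => 1, Cfsg.Agent.Lib_helper3_CharMore.isIrrCharacter_one⟩, rfl⟩,
        ⟨⟨τ, hτ⟩, ?_⟩, ?_⟩⟩
      · rw [← Cfsg.Agent.Lib_helper3_CharNormal.conjFun_eq_comp]
        exact hh'
      · intro heq
        apply hτ1
        have := congrArg (fun χ => (χ.1 : Cfsg.IrrCharacter K).1) heq
        exact this.symm
    exact Finite.one_lt_card
  omega
end Cfsg.Agent.S0171
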