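import Cfsg.Statements.S0175
import Cfsg.Agent.Lib_helper3_CharCount
import Cfsg.Agent.Lib_helper3_CharMore
import Cfsg.Agent.Lib_helper3_CharInd

set_option autoImplicit false
open Cfsg

namespace Cfsg.Agent.S0175

/-- Taketa's Theorem on M-groups: if every irreducible complex character of a finite group is induced from a linear character (a homomorphism to ℂˣ) of some subgroup, the group is solvable. -/
theorem result {G : Type*} [Group G] [Fintype G] (hM : ∀ χ : G → ℂ, Cfsg.IsIrrCharacter G χ → ∃ (H : Subgroup G) (lam : H →* ℂˣ), χ = Cfsg.indFun H (fun h => (lam h : ℂ))) : Group.IsSolvable G := by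
  classical
  have := Cfsg.Agent.Lib_helper3_CharBasic.irr_finite (G := G)
  have := Fintype.ofFinite (Cfsg.IrrCharacter G)
  choose D hDpos hD using fun χ : Cfsg.IrrCharacter G =>
    Cfsg.Agent.Lib_helper3_CharMore.irr_apply_one_pos χ.2
  let χ₁ : Cfsg.IrrCharacter G := ⟨fun _ => 1, Cfsg.Agent.Lib_helper3_CharMore.isIrrCharacter_one⟩
  have hD1 : D χ₁ = 1 := by
    have h := hD χ₁
    have h' : (1 : ℂ) = (D χ₁ : ℂ) := h
    exact_mod_cast h'.symm
  have key : ∀ m : ℕ, ∀ χ : Cfsg.IrrCharacter G, D χ ≤ m →
      ∀ g ∈ derivedSeries G m, (χ : G → ℂ) g = (χ : G → ℂ) 1 := by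
    intro m
    induction m with
    | zero =>
      intro χ hdm
      have := hDpos χ
      omega
    | succ m ih =>
      intro χ hdm g hg
      by_cases hlt : D χ ≤ m
      · exact ih χ hlt g (derivedSeries_antitone G (Nat.le_succ m) hg)
      · have hdm' : D χ = m + 1 := by omega
        obtain ⟨H, lam, hχeq⟩ := hM χ.1 χ.2
        have := Fintype.ofFinite H
        have hH0 : (Nat.card H : ℂ) ≠ 0 := Cfsg.Agent.Lib_helper3_CharInd.card_subgroup_ne_zero H
        have hidx : H.index = m + 1 := by
          have h1 := congrFun hχeq 1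
          rw [Cfsg.Agent.Lib_helper3_CharInd.indFun_apply_one, hD χ, hdm'] at h1
          have h2 : ((m + 1 : ℕ) : ℂ) = (H.index : ℂ) := by simpa using h1
          exact_mod_cast h2.symm
        set π : G → ℂ := Cfsg.indFun H (fun _ : H => (1 : ℂ)) with hπ
        have hπc : Cfsg.IsCharacter G π :=
          Cfsg.Agent.Lib_helper3_CharInd.isCharacter_indFun H
            Cfsg.Agent.Lib_helper3_CharBasic.isCharacter_one
        have hπcl := Cfsg.Agent.Lib_helper3_CharInd.isClassFunction_indFun H (fun _ : H => (1 : ℂ))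
        choose a ha using fun ψ : Cfsg.IrrCharacter G =>
          Cfsg.Agent.Lib_helper3_CharInd.classInner_nat hπc
            (Cfsg.Agent.Lib_helper3_CharBasic.isCharacter_of_irr ψ.2)
        have ha1 : a χ₁ = 1 := by
          have h1 := ha χ₁
          have h2 : Cfsg.classInner (fun _ : H => (1 : ℂ)) (fun h : H => (χ₁ : G → ℂ) h) = 1 := by
            rw [Cfsg.Agent.Lib_helper3_CharBasic.classInner_def]
            have h3 : ∀ g : H, (fun _ : H => (1 : ℂ)) g
                * (starRingEnd ℂ) ((fun h : H => (χ₁ : G → ℂ) (h : G)) g) = 1 := by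
              intro g
              show (1 : ℂ) * (starRingEnd ℂ) (1 : ℂ) = 1
              simp
            rw [Finset.sum_congr rfl (fun g _ => h3 g), Finset.sum_const, Finset.card_univ,
              nsmul_eq_mul, mul_one, ← Nat.card_eq_fintype_card, inv_mul_cancel₀ hH0]
          rw [Cfsg.Agent.Lib_helper3_CharInd.frobenius_reciprocity H _ _
            (Cfsg.Agent.Lib_helper3_CharBasic.isClassFunction_of_irr χ₁.2), h2] at h1
          exact_mod_cast h1.symm
        have hsum1 : ∑ ψ : Cfsg.IrrCharacter G, a ψ * D ψ = m + 1 := by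
          have h1 := Cfsg.Agent.Lib_helper3_CharBasic.classFunction_eq_sum_apply π hπcl 1
          rw [hπ, Cfsg.Agent.Lib_helper3_CharInd.indFun_apply_one, hidx, ← hπ] at h1
          have h2 : ((∑ ψ : Cfsg.IrrCharacter G, a ψ * D ψ : ℕ) : ℂ) = ((m + 1 : ℕ) : ℂ) := by
            push_cast
            push_cast at h1
            rw [mul_one] at h1
            rw [h1]
            apply Finset.sum_congr rfl
            intro ψ _
            rw [ha, hD]
          exact_mod_cast h2
        have hbound : ∀ ψ : Cfsg.IrrCharacter G, ψ ≠ χ₁ → a ψ ≠ 0 → D ψ ≤ m := by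
          intro ψ hne h0
          have h1 : ∑ x ∈ ({χ₁, ψ} : Finset (Cfsg.IrrCharacter G)), a x * D x
              ≤ ∑ x : Cfsg.IrrCharacter G, a x * D x :=
            Finset.sum_le_sum_of_subset (Finset.subset_univ _)
          rw [Finset.sum_pair (Ne.symm hne), ha1, hD1, hsum1] at h1
          have h2 : D ψ ≤ a ψ * D ψ := Nat.le_mul_of_pos_left _ (Nat.pos_of_ne_zero h0)
          omega
        have hπg : ∀ x ∈ derivedSeries G m, π x = π 1 := by
          intro x hx
          rw [Cfsg.Agent.Lib_helper3_CharBasic.classFunction_eq_sum_apply π hπcl x,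
            Cfsg.Agent.Lib_helper3_CharBasic.classFunction_eq_sum_apply π hπcl 1]
          apply Finset.sum_congr rfl
          intro ψ _
          by_cases h0 : a ψ = 0
          · rw [ha, h0]
            simp
          · congr 1
            by_cases h1 : ψ = χ₁
            · rw [h1]
            · exact ih ψ (hbound ψ h1 h0) x hx
        have hDH : derivedSeries G m ≤ H := by
          intro x hx
          have h1 := hπg x hx
          rw [hπ, Cfsg.Agent.Lib_helper3_CharInd.indFun_apply,
            Cfsg.Agent.Lib_helper3_CharInd.indFun_apply] at h1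
          have h2 := mul_left_cancel₀ (inv_ne_zero hH0) h1
          have h3 : ∀ y : G, Cfsg.extendByZero H (fun _ : H => (1 : ℂ)) (y⁻¹ * x * y)
              = if y⁻¹ * x * y ∈ H then 1 else 0 := by
            intro y
            split_ifs with hy
            · rw [Cfsg.Agent.Lib_helper3_CharInd.extendByZero_mem H _ hy]
            · rw [Cfsg.Agent.Lib_helper3_CharInd.extendByZero_not_mem H _ hy]
          have h4 : ∀ y : G, Cfsg.extendByZero H (fun _ : H => (1 : ℂ)) (y⁻¹ * 1 * y) = 1 := by
            intro y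
            have : y⁻¹ * 1 * y = 1 := by group
            rw [this, Cfsg.Agent.Lib_helper3_CharInd.extendByZero_mem H _ H.one_mem]
          rw [Finset.sum_congr rfl (fun y _ => h3 y), Finset.sum_congr rfl (fun y _ => h4 y),
            Finset.sum_boole, Finset.sum_const, Finset.card_univ, nsmul_eq_mul, mul_one] at h2
          have h5 : (Finset.univ.filter (fun y : G => y⁻¹ * x * y ∈ H)).card = Fintype.card G := by
            exact_mod_cast h2
          have h6 := (Finset.card_eq_iff_eq_univ _).mp h5
          have h7 : (1 : G) ∈ Finset.univ.filter (fun y : G => y⁻¹ * x * y ∈ H) := by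
            rw [h6]; exact Finset.mem_univ _
          rw [Finset.mem_filter] at h7
          simpa using h7.2
        have hker : ∀ x ∈ derivedSeries G (m + 1), ∃ hxH : x ∈ H, lam ⟨x, hxH⟩ = 1 := by
          have hle : derivedSeries G (m + 1) ≤ (lam.ker).map H.subtype := by
            rw [derivedSeries_succ, Subgroup.commutator_le]
            intro u hu v hv
            have hu' := hDH hu
            have hv' := hDH hv
            have hmem : u * v * u⁻¹ * v⁻¹ ∈ H :=
              H.mul_mem (H.mul_mem (H.mul_mem hu' hv') (H.inv_mem hu')) (H.inv_mem hv')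
            refine ⟨⟨u * v * u⁻¹ * v⁻¹, hmem⟩, ?_, rfl⟩
            have e : (⟨u * v * u⁻¹ * v⁻¹, hmem⟩ : H)
                = (⟨u, hu'⟩ : H) * ⟨v, hv'⟩ * (⟨u, hu'⟩ : H)⁻¹ * (⟨v, hv'⟩ : H)⁻¹ := rfl
            rw [SetLike.mem_coe, MonoidHom.mem_ker, e, map_mul, map_mul, map_mul, map_inv, map_inv,
              mul_comm (lam ⟨u, hu'⟩) (lam ⟨v, hv'⟩)]
            group
          intro x hx
          obtain ⟨h, hh, rfl⟩ := hle hx
          exact ⟨h.2, MonoidHom.mem_ker.mp hh⟩
        have hnorm := derivedSeries_normal (G := G) (m + 1)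
        rw [hχeq, Cfsg.Agent.Lib_helper3_CharInd.indFun_apply,
          Cfsg.Agent.Lib_helper3_CharInd.indFun_apply]
        congr 1
        apply Finset.sum_congr rfl
        intro y _
        have hy : y⁻¹ * g * y ∈ derivedSeries G (m + 1) := by
          have := hnorm.conj_mem g hg y⁻¹
          rwa [inv_inv] at this
        obtain ⟨hyH, hy1⟩ := hker _ hy
        have h1 : y⁻¹ * 1 * y = (1 : G) := by group
        rw [Cfsg.Agent.Lib_helper3_CharInd.extendByZero_mem H _ hyH, h1,
          Cfsg.Agent.Lib_helper3_CharInd.extendByZero_mem H _ H.one_mem]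
        show ((lam ⟨y⁻¹ * g * y, hyH⟩ : ℂˣ) : ℂ) = ((lam ⟨1, H.one_mem⟩ : ℂˣ) : ℂ)
        have h2 : (⟨1, H.one_mem⟩ : H) = 1 := rfl
        rw [hy1, h2, map_one]
  rw [Group.isSolvable_def]
  refine ⟨∑ ψ : Cfsg.IrrCharacter G, D ψ, ?_⟩
  rw [eq_bot_iff]
  intro g hg
  rw [Subgroup.mem_bot]
  have h1 : IsConj g 1 := by
    rw [Cfsg.Agent.Lib_helper3_CharCount.isConj_iff_forall_irr]
    intro χ
    exact key _ χ (Finset.single_le_sum (fun ψ _ => Nat.zero_le (D ψ)) (Finset.mem_univ χ)) g hg
  exact isConj_one_left.mp h1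
end Cfsg.Agent.S0175
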