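import Cfsg.Statements.S0181
import Mathlib
import Cfsg.Agent.Lib_helper3_CharIntegral

set_option autoImplicit false
open Cfsg

namespace Cfsg.Agent.S0181

/-- Let H be a normal subgroup of a finite group G and ρ an irreducible complex representation whose kernel does not contain H. If g commutes with no non-identity element of H, then the character of ρ vanishes at g. -/
theorem result {G : Type*} [Group G] [Finite G] {V : Type*} [AddCommGroup V] [Module ℂ V] [FiniteDimensional ℂ V] (ρ : Representation ℂ G V) [ρ.IsIrreducible] (H : Subgroup G) [H.Normal] (hker : ∃ h ∈ H, ρ h ≠ LinearMap.id) (g : G) (hg : ∀ h ∈ H, h * g = g * h → h = 1) : ρ.character g = 0 := by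
  classical
  have := Fintype.ofFinite G
  let P : V →ₗ[ℂ] V := ∑ h : H, ρ (h : G)
  have hcomm : ∀ x : G, ρ x * P = P * ρ x := by
    intro x
    simp only [P, Finset.mul_sum, Finset.sum_mul, ← map_mul]
    rw [← Equiv.sum_comp (MulAut.conjNormal x : MulAut H).toEquiv (fun h : H => ρ ((h : G) * x))]
    apply Finset.sum_congr rfl
    intro h _
    congr 1
    show x * (h : G) = ((MulAut.conjNormal x h : H) : G) * x
    rw [MulAut.conjNormal_apply]
    group
  have hHP : ∀ h : H, ρ (h : G) * P = P := by
    intro h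
    simp only [P, Finset.mul_sum, ← map_mul]
    exact Fintype.sum_equiv (Equiv.mulLeft h) _ _ (fun y => rfl)
  have hP0 : P = 0 := by
    let W : Subrepresentation ρ :=
      { toSubmodule := LinearMap.range P
        apply_mem_toSubmodule := by
          rintro x v ⟨w, rfl⟩
          refine ⟨ρ x w, ?_⟩
          have := congrArg (fun T : V →ₗ[ℂ] V => T w) (hcomm x)
          exact this.symm }
    have hI : IsSimpleOrder (Subrepresentation ρ) := ‹ρ.IsIrreducible›
    rcases hI.eq_bot_or_eq_top W with hW | hW
    · have h1 : LinearMap.range P = ⊥ := by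
        have : W.toSubmodule = (⊥ : Subrepresentation ρ).toSubmodule := by rw [hW]
        exact this
      exact LinearMap.range_eq_bot.mp h1
    · exfalso
      have h1 : LinearMap.range P = ⊤ := by
        have : W.toSubmodule = (⊤ : Subrepresentation ρ).toSubmodule := by rw [hW]
        exact this
      obtain ⟨h, hh, hne⟩ := hker
      apply hne
      apply LinearMap.ext
      intro v
      have hv : v ∈ LinearMap.range P := by rw [h1]; exact Submodule.mem_top
      obtain ⟨w, rfl⟩ := hv
      have := congrArg (fun T : V →ₗ[ℂ] V => T w) (hHP ⟨h, hh⟩)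
      exact this
  have h4 : ∀ h : H, ρ.character ((h : G) * g) = ρ.character g := by
    intro h
    let φ : H → H := fun y => ⟨(y : G)⁻¹ * (g * y * g⁻¹),
      H.mul_mem (H.inv_mem y.2) (‹H.Normal›.conj_mem y y.2 g)⟩
    have hφ : Function.Injective φ := by
      intro y₁ y₂ h12
      have h12' : (y₁ : G)⁻¹ * (g * y₁ * g⁻¹) = (y₂ : G)⁻¹ * (g * y₂ * g⁻¹) :=
        congrArg Subtype.val h12
      have h5 : (y₂ : G) * (y₁ : G)⁻¹ = 1 := by
        apply hg _ (H.mul_mem y₂.2 (H.inv_mem y₁.2))
        have h6 : (y₁ : G)⁻¹ * g * y₁ = (y₂ : G)⁻¹ * g * y₂ := by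
          have := congrArg (fun t => t * g) h12'
          simp only [mul_assoc, inv_mul_cancel, mul_one] at this
          simpa [mul_assoc] using this
        calc (y₂ : G) * (y₁ : G)⁻¹ * g = y₂ * ((y₁ : G)⁻¹ * g * y₁) * (y₁ : G)⁻¹ := by group
          _ = y₂ * ((y₂ : G)⁻¹ * g * y₂) * (y₁ : G)⁻¹ := by rw [h6]
          _ = g * (y₂ * (y₁ : G)⁻¹) := by group
      apply Subtype.ext
      have := mul_eq_one_iff_eq_inv.mp h5
      rw [inv_inv] at this
      exact this.symm
    obtain ⟨y, hy⟩ := Finite.surjective_of_injective hφ h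
    have hy' : (y : G)⁻¹ * (g * y * g⁻¹) = (h : G) := congrArg Subtype.val hy
    have h7 : (h : G) * g = (y : G)⁻¹ * g * ((y : G)⁻¹)⁻¹ := by
      rw [← hy']; group
    rw [h7, Representation.char_conj]
  have h8 : LinearMap.trace ℂ V (P * ρ g) = (Nat.card H : ℂ) * ρ.character g := by
    simp only [P, Finset.sum_mul, ← map_mul, map_sum]
    have : ∀ h : H, LinearMap.trace ℂ V (ρ ((h : G) * g)) = ρ.character g := fun h => h4 h
    rw [Finset.sum_congr rfl (fun h _ => this h), Finset.sum_const, Finset.card_univ,
      nsmul_eq_mul, Nat.card_eq_fintype_card]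
  rw [hP0, zero_mul, map_zero] at h8
  have hH0 : (Nat.card H : ℂ) ≠ 0 := by
    exact_mod_cast (Nat.card_pos (α := H)).ne'
  rcases mul_eq_zero.mp h8.symm with h | h
  · exact absurd h hH0
  · exact h
end Cfsg.Agent.S0181
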