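import Cfsg.Statements.S0185
import Mathlib
import Cfsg.Agent.Lib_helper3_CharIntegral

set_option autoImplicit false
open Cfsg

namespace Cfsg.Agent.S0185

/-- If a finite group has a faithful complex representation of degree less than the smallest prime dividing its order, the group is abelian. -/
theorem result {G : Type*} [Group G] [Finite G] {V : Type*} [AddCommGroup V] [Module ℂ V] [FiniteDimensional ℂ V] (ρ : Representation ℂ G V) (hfaithful : Function.Injective ρ) (hdeg : ∀ p : ℕ, p.Prime → p ∣ Nat.card G → Module.finrank ℂ V < p) (a b : G) : a * b = b * a := by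
  classical
  have key : ∀ (V : Type _) [AddCommGroup V] [Module ℂ V] [FiniteDimensional ℂ V]
      (ρ : Representation ℂ G V),
      (∀ p : ℕ, p.Prime → p ∣ Nat.card G → Module.finrank ℂ V < p) →
        ∀ a b : G, ∀ v : V, ρ a (ρ b v) = ρ b (ρ a v) := by
    intro V _ _ _ ρ
    refine Cfsg.Agent.Lib_helper3_CharBasic.rep_induction
      (fun V _ _ _ ρ => (∀ p : ℕ, p.Prime → p ∣ Nat.card G → Module.finrank ℂ V < p) →
        ∀ a b : G, ∀ v : V, ρ a (ρ b v) = ρ b (ρ a v)) ?_ ?_ ?_ V ρ
    · intro V _ _ _ ρ hV _ a b v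
      exact Subsingleton.elim _ _
    · intro V _ _ _ ρ hI hdeg a b v
      have hdvd := Cfsg.Agent.Lib_helper3_CharIntegral.finrank_dvd_card ρ
      have hpos := Cfsg.Agent.Lib_helper3_CharIntegral.finrank_pos_of_irreducible ρ
      have h1 : Module.finrank ℂ V = 1 := by
        by_contra hne
        obtain ⟨p, hp, hpd⟩ := Nat.exists_prime_and_dvd hne
        have := hdeg p hp (hpd.trans hdvd)
        have := Nat.le_of_dvd hpos hpd
        omega
      obtain ⟨lam, hlam⟩ :=
        Cfsg.Agent.Lib_helper3_CharDiag.exists_monoidHom_of_finrank_eq_one ρ h1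
      rw [hlam b, hlam a, hlam a, hlam b, smul_comm]
    · intro V _ _ _ ρ W₁ W₂ hc h1 h2 hdeg a b v
      have hc' := Cfsg.Agent.Lib_helper3_CharBasic.isCompl_toSubmodule hc
      have hv : v ∈ W₁.toSubmodule ⊔ W₂.toSubmodule := by
        rw [hc'.sup_eq_top]; exact Submodule.mem_top
      obtain ⟨y, hy, z, hz, rfl⟩ := Submodule.mem_sup.mp hv
      have e1 : ρ a (ρ b y) = ρ b (ρ a y) := by
        have hd1 : ∀ p : ℕ, p.Prime → p ∣ Nat.card G → Module.finrank ℂ W₁.toSubmodule < p :=
          fun p hp hpd => lt_of_le_of_lt (Submodule.finrank_le _) (hdeg p hp hpd)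
        exact congrArg Subtype.val (h1 hd1 a b ⟨y, hy⟩)
      have e2 : ρ a (ρ b z) = ρ b (ρ a z) := by
        have hd2 : ∀ p : ℕ, p.Prime → p ∣ Nat.card G → Module.finrank ℂ W₂.toSubmodule < p :=
          fun p hp hpd => lt_of_le_of_lt (Submodule.finrank_le _) (hdeg p hp hpd)
        exact congrArg Subtype.val (h2 hd2 a b ⟨z, hz⟩)
      rw [map_add, map_add, map_add, map_add, e1, e2]
  apply hfaithful
  rw [map_mul, map_mul]
  apply LinearMap.ext
  intro v
  exact key V ρ hdeg a b v
end Cfsg.Agent.S0185
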