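import Cfsg.Statements.S0186
import Cfsg.Agent.S0185
import Cfsg.Agent.Lib_helper3_CharCount
import Cfsg.Agent.Lib_helper3_CharMore
import Cfsg.Agent.Lib_helper3_Burnside

set_option autoImplicit false
open Cfsg

namespace Cfsg.Agent.S0186

/-- Let G be a finite simple group of order n and p a prime dividing n. If G has more than n / p^2 conjugacy classes, then every Sylow p-subgroup of G is abelian. -/
theorem result {G : Type*} [Group G] [Finite G] [IsSimpleGroup G] (p : ℕ) [Fact p.Prime] (hp : p ∣ Nat.card G) (hmany : Nat.card G < p ^ 2 * Nat.card (ConjClasses G)) (P : Sylow p G) (a b : G) (ha : a ∈ P) (hb : b ∈ P) : a * b = b * a := by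
  classical
  have := Fintype.ofFinite G
  have := Cfsg.Agent.Lib_helper3_CharBasic.irr_finite (G := G)
  have := Fintype.ofFinite (Cfsg.IrrCharacter G)
  have hpp := (Fact.out : p.Prime)
  by_contra hab
  obtain ⟨k, hk⟩ := IsPGroup.iff_card.mp P.2
  -- the Sylow subgroup has order at least p^2
  have hk2 : 2 ≤ k := by
    by_contra hk2
    push Not at hk2
    have hcyc : IsCyclic P := by
      interval_cases k
      · rw [pow_zero] at hk
        have : Subsingleton P := (Nat.card_eq_one_iff_unique.mp hk).1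
        exact isCyclic_of_subsingleton
      · rw [pow_one] at hk
        exact isCyclic_of_prime_card hk
    have hc : (⟨a, ha⟩ : P) * ⟨b, hb⟩ = ⟨b, hb⟩ * ⟨a, ha⟩ :=
      (IsCyclic.isMulCommutative (α := P)).is_comm.comm _ _
    exact hab (congrArg Subtype.val hc)
  have hp2 : p ^ 2 ∣ Nat.card G :=
    (pow_dvd_pow p hk2).trans (hk ▸ Subgroup.card_subgroup_dvd_card (P : Subgroup G))
  -- every nontrivial irreducible character has degree at least p
  have hdeg : ∀ χ : Cfsg.IrrCharacter G, (χ : G → ℂ) ≠ (fun _ => 1) →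
      ∃ d : ℕ, p ≤ d ∧ (χ : G → ℂ) 1 = d := by
    intro χ hne
    obtain ⟨n, ρ, hirr, hρ⟩ := χ.2
    refine ⟨n, ?_, by rw [← hρ, Representation.char_one]; simp⟩
    by_contra hlt
    push Not at hlt
    have hinj : Function.Injective ρ := by
      rcases IsSimpleGroup.eq_bot_or_eq_top_of_normal (MonoidHom.toHomUnits ρ).ker inferInstance
        with h | h
      · intro x y hxy
        have h1 : MonoidHom.toHomUnits ρ x = MonoidHom.toHomUnits ρ y := Units.ext hxy
        exact (MonoidHom.ker_eq_bot_iff _).mp h h1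
      · exfalso
        apply hne
        have hall : ∀ x : G, ρ x = 1 := by
          intro x
          have hx : x ∈ (MonoidHom.toHomUnits ρ).ker := by rw [h]; trivial
          have h1 := congrArg (fun u : ((Fin n → ℂ) →ₗ[ℂ] (Fin n → ℂ))ˣ =>
            (u : (Fin n → ℂ) →ₗ[ℂ] (Fin n → ℂ))) (MonoidHom.mem_ker.mp hx)
          exact h1
        have h1 := Cfsg.Agent.Lib_helper3_Burnside.finrank_eq_one_of_scalar ρ
          (fun x => ⟨1, fun v => by rw [hall x]; simp⟩)
        rw [← hρ]
        funext x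
        simp only [Representation.character, hall x]
        rw [show (1 : (Fin n → ℂ) →ₗ[ℂ] (Fin n → ℂ)) = LinearMap.id from rfl, LinearMap.trace_id, h1]
        simp
    let σ : Representation ℂ P (Fin n → ℂ) := ρ.comp (P : Subgroup G).subtype
    have hσ : Function.Injective σ := fun x y h => Subtype.ext (hinj h)
    have hcomm := Cfsg.Agent.S0185.result σ hσ (by
      intro q hq hqP
      rw [hk] at hqP
      have h1 := (Nat.prime_dvd_prime_iff_eq hq hpp).mp (hq.dvd_of_dvd_pow hqP)
      rw [h1]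
      simpa using hlt) ⟨a, ha⟩ ⟨b, hb⟩
    exact hab (congrArg Subtype.val hcomm)
  -- counting
  choose D hDpos hD using fun χ : Cfsg.IrrCharacter G =>
    Cfsg.Agent.Lib_helper3_CharMore.irr_apply_one_pos χ.2
  have hsum := Cfsg.Agent.Lib_helper3_CharBasic.sum_sq_degree (G := G)
  have hsumN : ∑ χ : Cfsg.IrrCharacter G, D χ ^ 2 = Nat.card G := by
    have : ((∑ χ : Cfsg.IrrCharacter G, D χ ^ 2 : ℕ) : ℂ) = (Nat.card G : ℂ) := by
      rw [← hsum]
      push_cast
      apply Finset.sum_congr rfl
      intro χ _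
      rw [hD χ]
    exact_mod_cast this
  let χ₁ : Cfsg.IrrCharacter G := ⟨fun _ => 1, Cfsg.Agent.Lib_helper3_CharMore.isIrrCharacter_one⟩
  have hlow : ∀ χ ∈ Finset.univ.erase χ₁, p ^ 2 ≤ D χ ^ 2 := by
    intro χ hχ
    rw [Finset.mem_erase] at hχ
    obtain ⟨d, hd1, hd2⟩ := hdeg χ (fun h => hχ.1 (Subtype.ext h))
    have : D χ = d := by
      have h3 := hD χ
      rw [hd2] at h3
      exact_mod_cast h3.symm
    rw [this]
    exact Nat.pow_le_pow_left hd1 2
  rw [← Finset.add_sum_erase Finset.univ _ (Finset.mem_univ χ₁)] at hsumN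
  have h2 := Finset.sum_le_sum hlow
  rw [Finset.sum_const, Finset.card_erase_of_mem (Finset.mem_univ _), Finset.card_univ,
    smul_eq_mul] at h2
  have hcardIrr : Fintype.card (Cfsg.IrrCharacter G) = Nat.card (ConjClasses G) := by
    rw [← Nat.card_eq_fintype_card]
    exact Cfsg.Agent.Lib_helper3_CharCount.card_irr_eq_card_conjClasses
  rw [hcardIrr] at h2
  obtain ⟨t, ht⟩ := hp2
  rw [ht] at hmany hsumN
  have h3 : t < Nat.card (ConjClasses G) := Nat.lt_of_mul_lt_mul_left hmany
  have h4 : p ^ 2 * t ≤ (Nat.card (ConjClasses G) - 1) * p ^ 2 := by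
    rw [mul_comm]
    exact Nat.mul_le_mul_right _ (by omega)
  have h5 : 0 < D χ₁ ^ 2 := by
    have := hDpos χ₁
    positivity
  omega
end Cfsg.Agent.S0186
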