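import Cfsg.Statements.S0192
import Cfsg.Agent.Lib_helper3_CharMore

set_option autoImplicit false
open Cfsg

namespace Cfsg.Agent.S0192

/-- Brauer's generation criterion. Let G be a finite simple group, H₁ and H₂ subgroups, and χ a non-principal irreducible character. If the multiplicity of the principal character in χ restricted to H₁ ⊓ H₂ is less than the sum of the corresponding multiplicities for H₁ and H₂, then H₁ and H₂ do not generate G. -/
theorem result {G : Type*} [Group G] [Fintype G] [IsSimpleGroup G] (H₁ H₂ : Subgroup G) [Fintype H₁] [Fintype H₂] [Fintype ↥(H₁ ⊓ H₂)] (χ : G → ℂ) (hχ : Cfsg.IsIrrCharacter G χ) (hχ1 : χ ≠ fun _ => 1) (hlt : (Cfsg.classInner (fun x : ↥(H₁ ⊓ H₂) => χ x) (fun _ => 1)).re < (Cfsg.classInner (fun x : H₁ => χ x) (fun _ => 1)).re + (Cfsg.classInner (fun x : H₂ => χ x) (fun _ => 1)).re) : H₁ ⊔ H₂ ≠ ⊤ := by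
  classical
  obtain ⟨n, ρ, hρ, rfl⟩ := hχ
  intro htop
  -- inner product with the trivial character is the dimension of the invariants
  have key : ∀ (H : Subgroup G) [Fintype H],
      Cfsg.classInner (fun x : H => ρ.character x) (fun _ => 1) =
        (Module.finrank ℂ (Representation.invariants (ρ.comp H.subtype)) : ℂ) := by
    intro H _
    rw [Cfsg.Agent.Lib_helper3_CharBasic.classInner_def]
    let _ : Invertible (Nat.card H : ℂ) :=
      invertibleOfNonzero (Cfsg.Agent.Lib_helper3_CharInd.card_subgroup_ne_zero H)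
    rw [← Representation.card_inv_mul_sum_char_eq_finrank (ρ.comp H.subtype)]
    congr 1
    apply Finset.sum_congr rfl
    intro x _
    simp [Representation.character]
  rw [key H₁, key H₂, key (H₁ ⊓ H₂)] at hlt
  simp only [Complex.natCast_re] at hlt
  set I₁ := Representation.invariants (ρ.comp H₁.subtype) with hI₁
  set I₂ := Representation.invariants (ρ.comp H₂.subtype) with hI₂
  set I₁₂ := Representation.invariants (ρ.comp (H₁ ⊓ H₂).subtype) with hI₁₂
  have hle : I₁ ⊔ I₂ ≤ I₁₂ := by
    apply sup_le
    · intro v hv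
      rw [hI₁, Representation.mem_invariants] at hv
      rw [hI₁₂, Representation.mem_invariants]
      intro g
      exact hv ⟨g, g.2.1⟩
    · intro v hv
      rw [hI₂, Representation.mem_invariants] at hv
      rw [hI₁₂, Representation.mem_invariants]
      intro g
      exact hv ⟨g, g.2.2⟩
  have hfr := Submodule.finrank_sup_add_finrank_inf_eq I₁ I₂
  have hle2 := Submodule.finrank_mono hle
  have hlt' : Module.finrank ℂ I₁₂ < Module.finrank ℂ I₁ + Module.finrank ℂ I₂ := by
    exact_mod_cast hlt
  have hpos : 0 < Module.finrank ℂ (I₁ ⊓ I₂ : Submodule ℂ (Fin n → ℂ)) := by omega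
  obtain ⟨⟨v, hv⟩, hv0⟩ := (Module.finrank_pos_iff_exists_ne_zero (R := ℂ)).mp hpos
  have hv0' : v ≠ 0 := fun h => hv0 (Subtype.ext h)
  -- v is fixed by all of G
  let S : Subgroup G :=
    { carrier := {g | ρ g v = v}
      mul_mem' := by
        intro a b ha hb
        simp only [Set.mem_setOf_eq] at ha hb ⊢
        rw [map_mul, Module.End.mul_apply, hb, ha]
      one_mem' := by simp
      inv_mem' := by
        intro a ha
        simp only [Set.mem_setOf_eq] at ha ⊢
        calc ρ a⁻¹ v = ρ a⁻¹ (ρ a v) := by rw [ha]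
          _ = (ρ a⁻¹ * ρ a) v := rfl
          _ = v := by rw [← map_mul, inv_mul_cancel, map_one]; rfl }
  have hS₁ : H₁ ≤ S := by
    intro g hg
    have := (Representation.mem_invariants _ _).mp hv.1 ⟨g, hg⟩
    exact this
  have hS₂ : H₂ ≤ S := by
    intro g hg
    have := (Representation.mem_invariants _ _).mp hv.2 ⟨g, hg⟩
    exact this
  have hStop : S = ⊤ := by
    apply top_le_iff.mp
    rw [← htop]
    exact sup_le hS₁ hS₂
  have hinv : v ∈ Representation.invariants ρ := by
    rw [Representation.mem_invariants]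
    intro g
    have : g ∈ S := by rw [hStop]; exact Subgroup.mem_top g
    exact this
  have hpos2 : 0 < Module.finrank ℂ (Representation.invariants ρ) :=
    (Module.finrank_pos_iff_exists_ne_zero (R := ℂ)).mpr ⟨⟨v, hinv⟩, fun h => hv0' (congrArg Subtype.val h)⟩
  have hG : Cfsg.classInner ρ.character (fun _ => 1) =
      (Module.finrank ℂ (Representation.invariants ρ) : ℂ) := by
    rw [Cfsg.Agent.Lib_helper3_CharBasic.classInner_def]
    let _ : Invertible (Nat.card G : ℂ) :=
      invertibleOfNonzero Cfsg.Agent.Lib_helper3_CharBasic.card_ne_zero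
    rw [← Representation.card_inv_mul_sum_char_eq_finrank ρ]
    congr 1
    apply Finset.sum_congr rfl
    intro x _
    simp
  have hirr : Cfsg.IsIrrCharacter G ρ.character := ⟨n, ρ, hρ, rfl⟩
  have h0 := Cfsg.Agent.Lib_helper3_CharBasic.irr_inner_ne hirr
    Cfsg.Agent.Lib_helper3_CharMore.isIrrCharacter_one hχ1
  rw [hG] at h0
  have : Module.finrank ℂ (Representation.invariants ρ) = 0 := by exact_mod_cast h0
  omega
end Cfsg.Agent.S0192
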