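import Cfsg.Statements.S0195
import Mathlib

set_option autoImplicit false
open Cfsg

namespace Cfsg.Agent.S0195

/-- Let A be a subgroup of G that equals the centralizer of each of its non-identity elements. If g lies outside the normalizer of A, then the only element of A conjugated by g into A is the identity (A is a trivial-intersection set). -/
theorem result {G : Type*} [Group G] [Finite G] (A : Subgroup G) (hA : ∀ x ∈ A, x ≠ 1 → Subgroup.centralizer ({x} : Set G) = A) (g : G) (hg : g ∉ Subgroup.normalizer (A : Set G)) (x : G) (hx : x ∈ A) (hgx : g * x * g⁻¹ ∈ A) : x = 1 := by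
  by_contra hx1
  have hy1 : g * x * g⁻¹ ≠ 1 := by
    intro h
    apply hx1
    have : x = g⁻¹ * (g * x * g⁻¹) * g := by group
    rw [this, h]
    group
  have hCx := hA x hx hx1
  have hCy := hA _ hgx hy1
  apply hg
  rw [Subgroup.mem_normalizer_iff]
  intro h
  constructor
  · intro hh
    have h1 : h ∈ Subgroup.centralizer ({x} : Set G) := by rw [hCx]; exact hh
    rw [Subgroup.mem_centralizer_iff] at h1
    have h2 := h1 x (Set.mem_singleton x)
    have h3 : g * h * g⁻¹ ∈ Subgroup.centralizer ({g * x * g⁻¹} : Set G) := by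
      rw [Subgroup.mem_centralizer_iff]
      intro z hz
      rw [Set.mem_singleton_iff] at hz
      subst hz
      calc g * x * g⁻¹ * (g * h * g⁻¹) = g * (x * h) * g⁻¹ := by group
        _ = g * (h * x) * g⁻¹ := by rw [h2]
        _ = g * h * g⁻¹ * (g * x * g⁻¹) := by group
    rw [hCy] at h3
    exact h3
  · intro hh
    have h1 : g * h * g⁻¹ ∈ Subgroup.centralizer ({g * x * g⁻¹} : Set G) := by rw [hCy]; exact hh
    rw [Subgroup.mem_centralizer_iff] at h1
    have h2 := h1 _ (Set.mem_singleton _)
    have h3 : h ∈ Subgroup.centralizer ({x} : Set G) := by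
      rw [Subgroup.mem_centralizer_iff]
      intro z hz
      rw [Set.mem_singleton_iff] at hz
      subst hz
      calc z * h = g⁻¹ * (g * z * g⁻¹ * (g * h * g⁻¹)) * g := by group
        _ = g⁻¹ * (g * h * g⁻¹ * (g * z * g⁻¹)) * g := by rw [h2]
        _ = h * z := by group
    rw [hCx] at h3
    exact h3
end Cfsg.Agent.S0195
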