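import Cfsg.Statements.S0196
import Mathlib

set_option autoImplicit false
open Cfsg

namespace Cfsg.Agent.S0196

/-- Let A be a subgroup of a finite group G that equals the centralizer of each of its non-identity elements, and let N be its normalizer. Then the index of A in N divides |A| − 1 (N/A permutes the non-identity elements of A in orbits of full length). -/
theorem result {G : Type*} [Group G] [Finite G] (A : Subgroup G) (hA : ∀ x ∈ A, x ≠ 1 → Subgroup.centralizer ({x} : Set G) = A) : (A.subgroupOf (Subgroup.normalizer (A : Set G))).index ∣ Nat.card A - 1 := by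
  classical
  set N := Subgroup.normalizer (A : Set G) with hNdef
  let X := {a : A // a ≠ 1}
  have hconj : ∀ (n : N) (a : A), (n : G) * a * (n : G)⁻¹ ∈ A :=
    fun n a => (Subgroup.mem_normalizer_iff.mp n.2 a).mp a.2
  let act : MulAction N X :=
    { smul := fun n x => ⟨⟨(n : G) * (x.1 : G) * (n : G)⁻¹, hconj n x.1⟩, by
        intro h
        apply x.2
        have h' : (n : G) * (x.1 : G) * (n : G)⁻¹ = 1 := congrArg Subtype.val h
        apply Subtype.ext
        have : (x.1 : G) = (n : G)⁻¹ * ((n : G) * (x.1 : G) * (n : G)⁻¹) * n := by group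
        rw [this, h']
        simp⟩
      one_smul := by
        intro x
        apply Subtype.ext
        apply Subtype.ext
        show ((1 : N) : G) * (x.1 : G) * ((1 : N) : G)⁻¹ = x.1
        simp
      mul_smul := by
        intro n m x
        apply Subtype.ext
        apply Subtype.ext
        show ((n * m : N) : G) * (x.1 : G) * ((n * m : N) : G)⁻¹ =
          (n : G) * ((m : G) * (x.1 : G) * (m : G)⁻¹) * (n : G)⁻¹
        simp only [Subgroup.coe_mul, mul_inv_rev]
        group }
  have hsmul : ∀ (n : N) (x : X), (((n • x : X).1 : A) : G) = (n : G) * (x.1 : G) * (n : G)⁻¹ :=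
    fun n x => rfl
  have hstab : ∀ x : X, MulAction.stabilizer N x = A.subgroupOf N := by
    intro x
    ext n
    rw [MulAction.mem_stabilizer_iff, Subgroup.mem_subgroupOf]
    have hCx := hA (x.1 : G) x.1.2 (fun h => x.2 (Subtype.ext h))
    constructor
    · intro h
      have h1 : (n : G) * (x.1 : G) * (n : G)⁻¹ = (x.1 : G) := by rw [← hsmul, h]
      rw [← hCx, Subgroup.mem_centralizer_iff]
      intro z hz
      rw [Set.mem_singleton_iff] at hz
      subst hz
      calc (x.1 : G) * n = ((n : G) * (x.1 : G) * (n : G)⁻¹) * n := by rw [h1]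
        _ = n * x.1 := by group
    · intro h
      rw [← hCx, Subgroup.mem_centralizer_iff] at h
      have h1 := h _ (Set.mem_singleton _)
      apply Subtype.ext
      apply Subtype.ext
      rw [hsmul]
      calc (n : G) * (x.1 : G) * (n : G)⁻¹ = ((x.1 : G) * n) * (n : G)⁻¹ := by rw [h1]
        _ = x.1 := by group
  have e := MulAction.selfEquivSigmaOrbitsQuotientStabilizer N X
  have hcard := Nat.card_congr e
  have := Fintype.ofFinite (Quotient (MulAction.orbitRel N X))
  rw [Nat.card_sigma] at hcard
  have hterm : ∀ ω : Quotient (MulAction.orbitRel N X),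
      Nat.card (N ⧸ MulAction.stabilizer N ω.out) = (A.subgroupOf N).index := by
    intro ω
    rw [hstab]
    rfl
  simp only [hterm] at hcard
  rw [Finset.sum_const, smul_eq_mul] at hcard
  have hX : Nat.card X = Nat.card A - 1 := by
    have := Fintype.ofFinite A
    rw [Nat.card_eq_fintype_card, Nat.card_eq_fintype_card]
    exact Set.card_ne_eq (1 : A)
  rw [← hX, hcard]
  exact dvd_mul_left _ _
end Cfsg.Agent.S0196
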