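import Cfsg.Statements.S0200
import Cfsg.Agent.Lib_helper2_BS
import Cfsg.Agent.Lib_helper2_Dihedral
import Cfsg.Agent.Lib_helper2_Isolated

set_option autoImplicit false
open Cfsg

namespace Cfsg.Agent.S0200

open Cfsg.Agent.Lib_helper2_BS
open Cfsg.Agent.Lib_helper2_Dihedral
open Cfsg.Agent.Lib_helper2_Isolated

/-- An involution lying in no normal 2-subgroup of a finite group inverts a nontrivial element of odd order (a consequence of the Baer–Suzuki Theorem). -/
theorem result {G : Type*} [Group G] [Finite G] (t : G) (ht : orderOf t = 2) (hO : ∀ N : Subgroup G, N.Normal → IsPGroup 2 N → t ∉ N) : ∃ h : G, h ≠ 1 ∧ Odd (orderOf h) ∧ t * h * t⁻¹ = h⁻¹ := by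
  haveI : Fact (Nat.Prime 2) := ⟨Nat.prime_two⟩
  have ht2 := sq_eq_one_of_orderOf_two ht
  have hX : IsPGroup 2 (Subgroup.zpowers t) :=
    IsPGroup.of_card (n := 1) (by rw [Nat.card_zpowers, ht, pow_one])
  have hex : ∃ g : G, ¬ IsPGroup 2
      ↥(Subgroup.zpowers t ⊔ (Subgroup.zpowers t).map (MulAut.conj g).toMonoidHom) := by
    by_contra hcon
    push Not at hcon
    obtain ⟨N, hN, hNp, hXN⟩ := baer_suzuki (Subgroup.zpowers t) hX hcon
    exact hO N hN hNp (hXN (Subgroup.mem_zpowers t))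
  obtain ⟨g, hg⟩ := hex
  have hs2o : orderOf (g * t * g⁻¹) = 2 := orderOf_conj_two ht
  have hs2 := sq_eq_one_of_orderOf_two hs2o
  have hsup : Subgroup.zpowers t ⊔ (Subgroup.zpowers t).map (MulAut.conj g).toMonoidHom =
      Subgroup.closure ({t, g * t * g⁻¹} : Set G) := by
    rw [MonoidHom.map_zpowers]
    simp only [MulEquiv.toMonoidHom_eq_coe, MonoidHom.coe_coe, MulAut.conj_apply]
    rw [Subgroup.zpowers_eq_closure, Subgroup.zpowers_eq_closure, ← Subgroup.closure_union]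
    rfl
  rw [hsup] at hg
  have hord : ∀ a : ℕ, orderOf (t * (g * t * g⁻¹)) ≠ 2 ^ a := by
    intro a ha
    apply hg
    rintro ⟨d, hd⟩
    obtain ⟨k, rfl | rfl⟩ := mem_closure_pair ht2 hs2 d hd
    · refine ⟨a, ?_⟩
      apply Subtype.ext
      simp only [Subgroup.coe_pow, Subgroup.coe_one]
      rw [← zpow_natCast, ← zpow_mul, mul_comm, zpow_mul, zpow_natCast, ← ha, pow_orderOf_eq_one,
        one_zpow]
    · refine ⟨1, ?_⟩
      apply Subtype.ext
      simp only [Subgroup.coe_pow, Subgroup.coe_one, pow_one]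
      rw [pow_two]; exact x_zpow_sq ht2 (inv_conj_mul ht2 hs2) k
  have hn0 : orderOf (t * (g * t * g⁻¹)) ≠ 0 := (orderOf_pos _).ne'
  obtain ⟨a, m, hm, hnm⟩ := Nat.exists_eq_two_pow_mul_odd hn0
  have hm1 : m ≠ 1 := by
    rintro rfl
    exact hord a (by rw [hnm, mul_one])
  have h2a : 0 < 2 ^ a := by positivity
  refine ⟨(t * (g * t * g⁻¹)) ^ (2 ^ a), ?_, ?_, ?_⟩
  · intro h1
    have h4 := orderOf_dvd_of_pow_eq_one h1
    rw [hnm] at h4
    have h2 : 2 ^ a * m ∣ 2 ^ a * 1 := by rwa [mul_one]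
    have h3 := Nat.dvd_of_mul_dvd_mul_left h2a h2
    exact hm1 (Nat.dvd_one.mp h3)
  · have h1 : orderOf ((t * (g * t * g⁻¹)) ^ (2 ^ a)) = orderOf (t * (g * t * g⁻¹)) / 2 ^ a :=
      orderOf_pow_of_dvd h2a.ne' (by rw [hnm]; exact dvd_mul_right _ _)
    rw [h1, hnm, Nat.mul_div_cancel_left _ h2a]
    exact hm
  · have h1 := inv_conj_mul ht2 hs2
    rw [← conj_pow, h1, inv_pow]

end Cfsg.Agent.S0200
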