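import Cfsg.Statements.S0203
import Cfsg.Agent.Lib_helper2_Klein

set_option autoImplicit false
open Cfsg

namespace Cfsg.Agent.S0203

open Cfsg.Agent.Lib_helper2_Klein

/-- If a Sylow 2-subgroup P of a finite group G is a Klein four-group, then G has three classes of involutions if and only if P has a normal complement in G. -/
theorem result {G : Type*} [Group G] [Finite G] (P : Sylow 2 G) (hP : IsKleinFour (P : Subgroup G)) : Nat.card {C : ConjClasses G // ∃ t : G, orderOf t = 2 ∧ ConjClasses.mk t = C} = 3 ↔ ∃ N : Subgroup G, N.Normal ∧ Subgroup.IsComplement' N (P : Subgroup G) := by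
  haveI : Fact (Nat.Prime 2) := ⟨Nat.prime_two⟩
  obtain ⟨hsq, hcomm, -⟩ := klein_facts (P : Subgroup G) hP
  obtain ⟨a, b, ha, hb, ha1, hb1, hab, hall, h | h⟩ := klein_card_classes P hP
  · obtain ⟨h1, h2, hc⟩ := h
    constructor
    · intro h3; rw [hc] at h3; omega
    · rintro ⟨N, hN, hc'⟩
      exfalso
      obtain ⟨g, hg⟩ := isConj_iff.mp h1
      obtain ⟨⟨n, q⟩, hnq⟩ := hc'.2 g
      have hnq' : (n : G) * (q : G) = g := hnq
      have hb' : (n : G) * a * (n : G)⁻¹ = b := by
        rw [← hg, ← hnq']
        have hqa := hcomm _ q.2 a ha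
        calc (n : G) * a * (n : G)⁻¹ = n * (a * q) * (q : G)⁻¹ * (n : G)⁻¹ := by group
          _ = n * (q * a) * (q : G)⁻¹ * (n : G)⁻¹ := by rw [hqa]
          _ = n * q * a * (n * q : G)⁻¹ := by group
      have hmemN : a⁻¹ * b ∈ N := by
        rw [← hb']
        have h5 : a⁻¹ * (n : G) * a⁻¹⁻¹ ∈ N := hN.conj_mem _ n.2 a⁻¹
        have e : a⁻¹ * ((n : G) * a * (n : G)⁻¹) = (a⁻¹ * (n : G) * a⁻¹⁻¹) * (n : G)⁻¹ := by
          group
        rw [e]; exact mul_mem h5 (inv_mem n.2)
      have hmemP : a⁻¹ * b ∈ (P : Subgroup G) := mul_mem (inv_mem ha) hb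
      have h6 := Subgroup.disjoint_def.mp hc'.disjoint hmemN hmemP
      apply hab
      calc a = a * (a⁻¹ * b) := by rw [h6, mul_one]
        _ = b := by group
  · obtain ⟨h1, h2, h3, hc⟩ := h
    constructor
    · intro _
      have hNC : Subgroup.normalizer ((P : Subgroup G) : Set G) ≤
          Subgroup.centralizer ((P : Subgroup G) : Set G) := by
        intro n hn
        rw [Subgroup.mem_centralizer_iff]
        have hconjmem : ∀ z ∈ (P : Subgroup G), n * z * n⁻¹ ∈ (P : Subgroup G) :=
          fun z hz => (Subgroup.mem_normalizer_iff.mp hn z).mp hz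
        have hne1 : ∀ z, z ≠ 1 → n * z * n⁻¹ ≠ 1 := by
          intro z hz h
          apply hz
          have : z = n⁻¹ * (n * z * n⁻¹) * n := by group
          rw [this, h]; group
        have hna : n * a * n⁻¹ = a := by
          rcases hall _ (hconjmem a ha) with h | h | h | h
          · exact absurd h (hne1 a ha1)
          · exact h
          · exact absurd (isConj_iff.mpr ⟨n, h⟩) h1
          · exact absurd (isConj_iff.mpr ⟨n, h⟩) h2
        have hnb : n * b * n⁻¹ = b := by
          rcases hall _ (hconjmem b hb) with h | h | h | h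
          · exact absurd h (hne1 b hb1)
          · exact absurd (isConj_iff.mpr ⟨n, h⟩).symm h1
          · exact h
          · exact absurd (isConj_iff.mpr ⟨n, h⟩) h3
        have comm_of : ∀ z, n * z * n⁻¹ = z → z * n = n * z := by
          intro z hz
          calc z * n = (n * z * n⁻¹) * n := by rw [hz]
            _ = n * z := by group
        intro z hz
        rcases hall z hz with h | h | h | h
        · rw [h]; simp
        · rw [h]; exact comm_of _ hna
        · rw [h]; exact comm_of _ hnb
        · rw [h]; apply comm_of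
          calc n * (a * b) * n⁻¹ = (n * a * n⁻¹) * (n * b * n⁻¹) := by group
            _ = a * b := by rw [hna, hnb]
      exact ⟨_, inferInstance, MonoidHom.ker_transferSylow_isComplement' P hNC⟩
    · intro _; exact hc

end Cfsg.Agent.S0203
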