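import Cfsg.Statements.S0206
import Cfsg.Agent.Lib_helper2_Dihedral

set_option autoImplicit false
open Pointwise
open Cfsg

namespace Cfsg.Agent.S0206

open Cfsg.Agent.Lib_helper2_Dihedral

/-- Two distinct involutions x, y of a finite group generate a subgroup isomorphic to the dihedral group of order 2·|xy|. -/
theorem result {G : Type*} [Group G] [Finite G] (x y : G) (hx : orderOf x = 2) (hy : orderOf y = 2) (hxy : x ≠ y) : Nonempty (↥(Subgroup.closure ({x, y} : Set G)) ≃* DihedralGroup (orderOf (x * y))) := by
  have hx2 := sq_eq_one_of_orderOf_two hx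
  have hy2 := sq_eq_one_of_orderOf_two hy
  have hinv := inv_conj_mul hx2 hy2
  have hnot : x ∉ Subgroup.zpowers (x * y) := not_mem_zpowers_of_ne hx hy hxy
  have hinj := dihHom_injective x (x * y) hx2 hinv hnot
  have hr := dihHom_range x (x * y) hx2 hinv
  rw [← closure_pair_eq hx2] at hr
  exact ⟨((MonoidHom.ofInjective hinj).trans (MulEquiv.subgroupCongr hr)).symm⟩

end Cfsg.Agent.S0206
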