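import Cfsg.Statements.S0210
import Cfsg.Agent.Lib_helper2_Dihedral

set_option autoImplicit false
open Pointwise
open Cfsg

namespace Cfsg.Agent.S0210

open Cfsg.Agent.Lib_helper2_Dihedral

/-- If x, y are involutions whose product has even order, no element of the subgroup generated by x and y conjugates x to y. -/
theorem result {G : Type*} [Group G] [Finite G] (x y : G) (hx : orderOf x = 2) (hy : orderOf y = 2) (heven : Even (orderOf (x * y))) (d : G) (hd : d ∈ Subgroup.closure ({x, y} : Set G)) : d * x * d⁻¹ ≠ y := by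
  have hx2 := sq_eq_one_of_orderOf_two hx
  have hy2 := sq_eq_one_of_orderOf_two hy
  obtain ⟨j, hj⟩ := conj_x_of_mem_closure hx2 hy2 d hd
  intro h
  rw [hj] at h
  have h3 : (x * y) ^ (2 * j) = (x * y) ^ (-1 : ℤ) := by
    have h5 : (x * y) ^ (2 * j) * x = (x * y) ^ (-1 : ℤ) * x := h.trans (y_eq_inv_mul hx2 hy2)
    exact mul_right_cancel h5
  have h4 : (x * y) ^ (2 * j + 1) = 1 := by
    rw [zpow_add, h3, zpow_neg, zpow_one, inv_mul_cancel]
  rw [← orderOf_dvd_iff_zpow_eq_one] at h4
  obtain ⟨m, hm⟩ := heven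
  rw [hm] at h4
  obtain ⟨c, hc⟩ := h4
  push_cast at hc
  have : (2 * j + 1) % 2 = 1 := by omega
  rw [hc] at this
  have h6 : ((m : ℤ) + m) * c = 2 * (m * c) := by ring
  rw [h6] at this
  omega

end Cfsg.Agent.S0210
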