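import Cfsg.Statements.S0211
import Cfsg.Agent.Lib_helper2_Dihedral

set_option autoImplicit false
open Pointwise
open Cfsg

namespace Cfsg.Agent.S0211

open Cfsg.Agent.Lib_helper2_Dihedral

/-- Let x, y be involutions with xy of even order n and z = (xy)^(n/2). Then xz is conjugate to x by an element of the subgroup generated by x, y if and only if 4 divides n. -/
theorem result {G : Type*} [Group G] [Finite G] (x y : G) (hx : orderOf x = 2) (hy : orderOf y = 2) (heven : Even (orderOf (x * y))) : (∃ d ∈ Subgroup.closure ({x, y} : Set G), d * x * d⁻¹ = x * (x * y) ^ (orderOf (x * y) / 2)) ↔ 4 ∣ orderOf (x * y) := by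
  have hx2 := sq_eq_one_of_orderOf_two hx
  have hy2 := sq_eq_one_of_orderOf_two hy
  obtain ⟨_, hcx, _⟩ := central_inv hx hy heven
  rw [← hcx.eq]
  obtain ⟨m, hm⟩ := heven
  have hm2 : orderOf (x * y) / 2 = m := by omega
  rw [hm2]
  constructor
  · rintro ⟨d, hd, hdx⟩
    obtain ⟨j, hj⟩ := conj_x_of_mem_closure hx2 hy2 d hd
    rw [hj] at hdx
    have h3 : (x * y) ^ (2 * j) = (x * y) ^ (m : ℤ) := by
      rw [zpow_natCast]; exact mul_right_cancel hdx
    have h4 : (x * y) ^ (2 * j - m) = 1 := by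
      rw [zpow_sub, h3, mul_inv_cancel]
    rw [← orderOf_dvd_iff_zpow_eq_one, hm] at h4
    obtain ⟨c, hc⟩ := h4
    push_cast at hc
    have h5 : (m : ℤ) = 2 * (j - m * c) := by linarith
    have h6 : (2 : ℤ) ∣ (m : ℤ) := ⟨_, h5⟩
    have h7 : 2 ∣ m := by exact_mod_cast h6
    obtain ⟨e, he⟩ := h7
    rw [hm]; exact ⟨e, by omega⟩
  · rintro ⟨e, he⟩
    refine ⟨(x * y) ^ (e : ℤ), zpow_mem_closure_pair x y e, ?_⟩
    rw [zpow_conj_x (inv_conj_mul hx2 hy2)]
    congr 1
    have : m = 2 * e := by omega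
    rw [this, ← zpow_natCast]; congr 1

end Cfsg.Agent.S0211
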