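import Cfsg.Statements.S0212
import Cfsg.Agent.Lib_helper2_BF
import Cfsg.Agent.Lib_helper4_Simple

set_option autoImplicit false
open Cfsg

namespace Cfsg.Agent.S0212

open Cfsg.Agent.Lib_helper2_BF
open Cfsg.Agent.Lib_helper4_Simple

/-- The Brauer–Fowler bound: if G is a finite simple group and t an involution of G whose centralizer has order n, then |G| ≤ (2n^2)!. -/
theorem result {G : Type*} [Group G] [Finite G] [IsSimpleGroup G] (t : G) (ht : orderOf t = 2) : Nat.card G ≤ Nat.factorial (2 * (Nat.card (Subgroup.centralizer ({t} : Set G))) ^ 2) := by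
  have heven : Even (Nat.card G) :=
    even_iff_two_dvd.mpr (by rw [← ht]; exact orderOf_dvd_natCard t)
  have hn1 : 1 ≤ Nat.card (Subgroup.centralizer ({t} : Set G)) := Nat.card_pos
  have hm := card_le_involutions_mul_centralizer t ht
  generalize Nat.card (Subgroup.centralizer ({t} : Set G)) = n at hn1 hm ⊢
  by_cases hprime : (Nat.card G).Prime
  · have h2 : Nat.card G = 2 :=
      ((Nat.prime_dvd_prime_iff_eq Nat.prime_two hprime).mp (even_iff_two_dvd.mp heven)).symm
    rw [h2]
    have h3 : 2 ≤ 2 * n ^ 2 := by nlinarith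
    exact h3.trans (Nat.self_le_factorial _)
  · have hnc := Cfsg.Agent.Lib_helper4_Simple.not_isMulCommutative_of_not_prime hprime
    have hZ := odd_card_center_of_simple hnc
    obtain ⟨H, hH, hcase⟩ := brauer_fowler_index heven hZ
    have hdvd := Cfsg.Agent.Lib_helper4_Simple.two_mul_card_dvd_factorial_index hnc H hH
    have hle : Nat.card G ≤ H.index.factorial := by
      have := Nat.le_of_dvd (Nat.factorial_pos _) hdvd
      omega
    have hk : H.index ≤ 2 * n ^ 2 := by
      rcases hcase with h2 | hlt
      · rw [h2]; nlinarith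
      · generalize Nat.card {s : G // orderOf s = 2} = m at hm hlt
        generalize Nat.card G = N at hm hlt
        generalize H.index = k at hlt
        have h1 : N * (N + m) ≤ (m * n) * (m * n + m) := Nat.mul_le_mul hm (by omega)
        have h2 : 2 * k * m ^ 2 < (m * n) * (m * n + m) := lt_of_lt_of_le hlt h1
        have h3 : (m * n) * (m * n + m) = m ^ 2 * (n * (n + 1)) := by ring
        have h4 : 2 * k * m ^ 2 = m ^ 2 * (2 * k) := by ring
        rw [h3, h4] at h2
        have h5 : 2 * k < n * (n + 1) := lt_of_mul_lt_mul_left h2 (Nat.zero_le _)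
        nlinarith
    exact hle.trans (Nat.factorial_le hk)

end Cfsg.Agent.S0212
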