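import Cfsg.Statements.S0216
import Cfsg.Agent.Lib_helper2_Isolated
import Cfsg.Agent.Lib_helper2_Inv
import Cfsg.Agent.Lib_helper2_Dihedral

set_option autoImplicit false
open Cfsg

namespace Cfsg.Agent.S0216

open Cfsg.Agent.Lib_helper2_Isolated
open Cfsg.Agent.Lib_helper2_Inv
open Cfsg.Agent.Lib_helper2_Dihedral

/-- For an involution u in a Sylow 2-subgroup P of a finite group G, the following are equivalent: no G-conjugate of u other than u lies in P; every commutator of u with an element of G has odd order. -/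
theorem result {G : Type*} [Group G] [Finite G] (P : Sylow 2 G) (u : G) (hu : orderOf u = 2) (huP : u ∈ P) : (∀ g : G, g * u * g⁻¹ ∈ P → g * u * g⁻¹ = u) ↔ (∀ g : G, Odd (orderOf (u * g * u⁻¹ * g⁻¹))) := by
  have hu2 := sq_eq_one_of_orderOf_two hu
  have hu' := inv_eq_self_of_orderOf_two hu
  have key : ∀ g : G, u * g * u⁻¹ * g⁻¹ = u * (g * u * g⁻¹) := by
    intro g; rw [hu']; group
  constructor
  · intro hiso g
    rw [key]
    exact isolated_odd (isolated_of_sylow P hu huP hiso) g
  · intro hodd g hg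
    have h1 := hodd g
    rw [key] at h1
    -- u * s ∈ P has 2-power order
    have hmem : u * (g * u * g⁻¹) ∈ P := mul_mem huP hg
    obtain ⟨k, hk⟩ := (IsPGroup.iff_orderOf.mp P.2) ⟨u * (g * u * g⁻¹), hmem⟩
    rw [Subgroup.orderOf_mk] at hk
    have h2 : orderOf (u * (g * u * g⁻¹)) = 1 := by
      rcases Nat.eq_zero_or_pos k with rfl | hkpos
      · rw [hk, pow_zero]
      · exfalso
        rw [hk] at h1
        have : Even (2 ^ k) := (Nat.even_pow' hkpos.ne').mpr even_two
        exact (Nat.not_even_iff_odd.mpr h1) this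
    rw [orderOf_eq_one_iff] at h2
    have : g * u * g⁻¹ = u⁻¹ := eq_inv_of_mul_eq_one_right h2
    rw [this, hu']

end Cfsg.Agent.S0216
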