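import Cfsg.Statements.S0218
import Cfsg.Agent.Lib_helper2_Dihedral

set_option autoImplicit false
open Pointwise
open Cfsg

namespace Cfsg.Agent.S0218

open Cfsg.Agent.Lib_helper2_Dihedral

theorem involution_iff (m : ℕ) [NeZero m] (x : QuaternionGroup m) :
    orderOf x = 2 ↔ x = QuaternionGroup.a (m : ZMod (2 * m)) := by
  have hm : 0 < m := Nat.pos_of_ne_zero (NeZero.ne m)
  have hm0 : (m : ZMod (2 * m)) ≠ 0 := by
    intro h
    rw [ZMod.natCast_eq_zero_iff] at h
    have := Nat.le_of_dvd hm h
    omega
  rw [orderOf_eq_two_iff']
  cases x with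
  | a i =>
    rw [QuaternionGroup.a_mul_a, QuaternionGroup.one_def]
    constructor
    · rintro ⟨h1, h2⟩
      have h3 : i + i = 0 := by injection h2
      have h4 : i ≠ 0 := by
        intro h; apply h1; rw [h]
      congr 1
      have hi := ZMod.natCast_zmod_val i
      have hv : i.val < 2 * m := ZMod.val_lt i
      have h5 : ((i.val + i.val : ℕ) : ZMod (2 * m)) = 0 := by
        push_cast; rw [hi]; exact h3
      rw [ZMod.natCast_eq_zero_iff] at h5
      obtain ⟨c, hc⟩ := h5
      have hv0 : i.val ≠ 0 := by
        intro h; apply h4; rw [← hi, h]; simp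
      have hc1 : c = 1 := by
        rcases c with _ | _ | c
        · omega
        · rfl
        · exfalso; nlinarith
      subst hc1
      have : i.val = m := by omega
      rw [← hi, this]
    · intro h
      have h2 : i = (m : ZMod (2 * m)) := by injection h
      subst h2
      constructor
      · intro h3
        have : (m : ZMod (2 * m)) = 0 := by injection h3
        exact hm0 this
      · congr 1
        have : ((m + m : ℕ) : ZMod (2 * m)) = 0 := by
          rw [ZMod.natCast_eq_zero_iff]; exact ⟨1, by ring⟩
        push_cast at this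
        exact this
  | xa i =>
    rw [QuaternionGroup.xa_mul_xa, QuaternionGroup.one_def]
    constructor
    · rintro ⟨_, h2⟩
      exfalso
      have : (m : ZMod (2 * m)) + i - i = 0 := by injection h2
      rw [add_sub_cancel_right] at this
      exact hm0 this
    · intro h; cases h

/-- The generalized quaternion group of order 2^(n+3) contains exactly one element of order 2. -/
theorem result (n : ℕ) : Nat.card {x : QuaternionGroup (2 ^ (n + 1)) // orderOf x = 2} = 1 := by
  haveI : NeZero (2 ^ (n + 1)) := ⟨by positivity⟩
  rw [Nat.card_eq_one_iff_unique]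
  constructor
  · constructor
    rintro ⟨x, hx⟩ ⟨y, hy⟩
    rw [involution_iff] at hx hy
    exact Subtype.ext (hx.trans hy.symm)
  · exact ⟨⟨QuaternionGroup.a ((2 ^ (n + 1) : ℕ) : ZMod (2 * 2 ^ (n + 1))), (involution_iff _ _).mpr rfl⟩⟩

end Cfsg.Agent.S0218
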