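import Cfsg.Statements.S0220
import Cfsg.Agent.Lib_helper2_Inv

set_option autoImplicit false
open Pointwise
open Cfsg

namespace Cfsg.Agent.S0220

open Cfsg.Agent.Lib_helper2_Dihedral Cfsg.Agent.Lib_helper2_Inv

theorem cyclic_invol_unique {H : Type*} [Group H] [Finite H] [IsCyclic H] {x z : H}
    (hx : orderOf x = 2) (hz : orderOf z = 2) : x = z := by
  obtain ⟨g, hg⟩ := IsCyclic.exists_generator (α := H)
  have key : ∀ y : H, orderOf y = 2 → y = g ^ (orderOf g / 2) := by
    intro y hy
    obtain ⟨k, rfl⟩ : ∃ k : ℕ, g ^ k = y := mem_powers_iff_mem_zpowers.mpr (hg y)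
    have hn : 0 < orderOf g := orderOf_pos g
    rw [← pow_mod_orderOf] at hy ⊢
    have hi : k % orderOf g < orderOf g := Nat.mod_lt _ hn
    generalize k % orderOf g = i at hy hi
    have h1 := sq_eq_one_of_orderOf_two hy
    have h2 := ne_one_of_orderOf_two hy
    rw [← pow_add, ← orderOf_dvd_iff_pow_eq_one] at h1
    have h3 : ¬ orderOf g ∣ i := fun h => h2 (orderOf_dvd_iff_pow_eq_one.mp h)
    obtain ⟨c, hc⟩ := h1
    have hc1 : c = 1 := by
      rcases c with _ | _ | c
      · exfalso; apply h3; have : i = 0 := by omega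
        rw [this]; exact dvd_zero _
      · rfl
      · exfalso; nlinarith
    subst hc1
    congr 1; omega
  rw [key x hx, key z hz]

theorem aux {G : Type*} [Group G] [Finite G] (x : G) (hx : orderOf x = 2) (C : Subgroup G)
    (hC : C = Subgroup.centralizer ({x} : Set G)) (S : Sylow 2 ↥C)
    (hS : IsCyclic (S : Subgroup ↥C)) : ∃ H : Subgroup G, H.index = 2 := by
  haveI : Fact (Nat.Prime 2) := ⟨Nat.prime_two⟩
  have hxC : x ∈ C := by
    rw [hC, Subgroup.mem_centralizer_iff]; intro h hh; rw [Set.mem_singleton_iff] at hh; rw [hh]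
  have hmemC : ∀ g : G, g ∈ C ↔ x * g = g * x := by
    intro g
    rw [hC, Subgroup.mem_centralizer_iff]
    constructor
    · intro h; exact h x (Set.mem_singleton x)
    · intro h y hy; rw [Set.mem_singleton_iff] at hy; rw [hy]; exact h
  have hox : orderOf (⟨x, hxC⟩ : C) = 2 := by rw [Subgroup.orderOf_mk]; exact hx
  -- x ∈ S
  have hxS : (⟨x, hxC⟩ : C) ∈ S := by
    have hp : IsPGroup 2 (Subgroup.zpowers (⟨x, hxC⟩ : C)) := by
      apply IsPGroup.of_card (n := 1)
      rw [Nat.card_zpowers, hox, pow_one]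
    obtain ⟨S', hS'⟩ := hp.exists_le_sylow
    obtain ⟨c, hc⟩ := MulAction.exists_smul_eq C S' S
    have h1 : (⟨x, hxC⟩ : C) ∈ S' := hS' (Subgroup.mem_zpowers _)
    have h2 : c * (⟨x, hxC⟩ : C) * c⁻¹ ∈ S := by
      rw [← hc]
      show _ ∈ ((c • S' : Sylow 2 C) : Subgroup C)
      rw [Sylow.coe_subgroup_smul]
      have := Subgroup.smul_mem_pointwise_smul (⟨x, hxC⟩ : C) (MulAut.conj c) (S' : Subgroup C) h1
      rwa [MulAut.smul_def, MulAut.conj_apply] at this
    have h3 : c * (⟨x, hxC⟩ : C) * c⁻¹ = ⟨x, hxC⟩ := by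
      apply Subtype.ext
      have := (hmemC c.1).mp c.2
      show c.1 * x * c.1⁻¹ = x
      rw [← this]; group
    rwa [h3] at h2
  -- a Sylow 2-subgroup T of G containing the image of S
  have hP₀ : IsPGroup 2 ((S : Subgroup C).map C.subtype) := S.2.map _
  obtain ⟨T, hT⟩ := hP₀.exists_le_sylow
  have hxT : x ∈ T := hT ⟨⟨x, hxC⟩, hxS, rfl⟩
  -- T.subgroupOf C = S
  have hTS : (T : Subgroup G).subgroupOf C = S := by
    apply S.is_maximal'
    · exact T.2.comap_subtype
    · intro s hs
      rw [Subgroup.mem_subgroupOf]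
      exact hT ⟨s, hs, rfl⟩
  -- an involution in the centre of T
  haveI : Nontrivial (T : Subgroup G) := ⟨⟨⟨x, hxT⟩, 1, fun h => ne_one_of_orderOf_two hx (congrArg Subtype.val h)⟩⟩
  haveI : Nontrivial (Subgroup.center (T : Subgroup G)) := T.2.center_nontrivial
  have h2dvd : 2 ∣ Nat.card (Subgroup.center (T : Subgroup G)) := by
    have hpz : IsPGroup 2 (Subgroup.center (T : Subgroup G)) := T.2.to_subgroup _
    obtain ⟨k, hk⟩ := hpz.exists_card_eq
    have : k ≠ 0 := by
      rintro rfl
      rw [pow_zero] at hk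
      have := Finite.one_lt_card (α := Subgroup.center (T : Subgroup G))
      omega
    rw [hk]; exact dvd_pow_self 2 this
  obtain ⟨w, hw⟩ := exists_prime_orderOf_dvd_card' 2 h2dvd
  -- w : center T
  have hwc : ∀ t : (T : Subgroup G), t * w.1 = w.1 * t := fun t => Subgroup.mem_center_iff.mp w.2 t
  have how : orderOf (w.1.1 : G) = 2 := by
    rw [Subgroup.orderOf_coe, Subgroup.orderOf_coe]; exact hw
  have hwx : x * w.1.1 = w.1.1 * x := by
    have := hwc ⟨x, hxT⟩
    exact congrArg Subtype.val this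
  have hwC : (w.1.1 : G) ∈ C := (hmemC _).mpr hwx
  have hwS : (⟨w.1.1, hwC⟩ : C) ∈ S := by
    show _ ∈ (S : Subgroup C)
    rw [← hTS, Subgroup.mem_subgroupOf]
    exact w.1.2
  have hwx' : (w.1.1 : G) = x := by
    haveI := hS
    have h1 : orderOf (⟨⟨w.1.1, hwC⟩, hwS⟩ : (S : Subgroup C)) = 2 := by
      rw [Subgroup.orderOf_mk, Subgroup.orderOf_mk]; exact how
    have h2 : orderOf (⟨⟨x, hxC⟩, hxS⟩ : (S : Subgroup C)) = 2 := by
      rw [Subgroup.orderOf_mk]; exact hox
    have := cyclic_invol_unique h1 h2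
    exact congrArg (fun s : (S : Subgroup C) => (s.1.1 : G)) this
  -- T ≤ C
  have hTC : (T : Subgroup G) ≤ C := by
    intro t ht
    rw [hmemC]
    have := hwc ⟨t, ht⟩
    have h3 : t * w.1.1 = w.1.1 * t := congrArg Subtype.val this
    rw [hwx'] at h3
    exact h3.symm
  have hTeq : (T : Subgroup G) = (S : Subgroup C).map C.subtype := by
    rw [← hTS, Subgroup.subgroupOf_map_subtype]
    exact (inf_eq_left.mpr hTC).symm
  have hTcyc : IsCyclic (T : Subgroup G) := by
    rw [hTeq]
    haveI := hS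
    exact isCyclic_of_surjective ((S : Subgroup C).equivMapOfInjective C.subtype C.subtype_injective)
      (MulEquiv.surjective _)
  have heven : Even (Nat.card G) := by
    rw [even_iff_two_dvd, ← hx]; exact orderOf_dvd_natCard x
  exact exists_index_two_of_cyclic_sylow heven T hTcyc

/-- If x is an involution of a finite group G and a Sylow 2-subgroup of the centralizer of x is cyclic, then G has a subgroup of index 2; in particular G is not simple unless it has order 2. -/
theorem result {G : Type*} [Group G] [Finite G] (x : G) (hx : orderOf x = 2) (S : Sylow 2 ↥(Subgroup.centralizer ({x} : Set G))) (hS : IsCyclic (S : Subgroup ↥(Subgroup.centralizer ({x} : Set G)))) : ∃ H : Subgroup G, H.index = 2 :=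
  aux x hx _ rfl S hS

end Cfsg.Agent.S0220
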