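import Cfsg.Statements.S0221
import Cfsg.Agent.Lib_helper1_Hall
import Cfsg.Agent.Lib_helper6_Conj
import Cfsg.Agent.Lib_helper2_Klein
import Cfsg.Agent.Lib_helper2_Four
import Cfsg.Agent.S0111

set_option autoImplicit false
open Cfsg

namespace Cfsg.Agent.S0221

open Cfsg.Agent.Lib_helper1_Hall
open Cfsg.Agent.Lib_helper6_Conj
open Cfsg.Agent.Lib_helper2_Klein
open Cfsg.Agent.Lib_helper2_Four

/-- Let G be a finite group with no subgroup of index 2 whose 2-rank is at least 3 (it contains an elementary abelian subgroup of order 8). Then the centralizer of every involution of G also contains an elementary abelian subgroup of order 8. -/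
theorem result {G : Type*} [Group G] [Finite G] (hno : ∀ H : Subgroup G, H.index ≠ 2) (hrank : ∃ E : Subgroup G, Nat.card E = 8 ∧ ∀ e ∈ E, e ^ 2 = 1) (x : G) (hx : orderOf x = 2) : ∃ E : Subgroup G, E ≤ Subgroup.centralizer ({x} : Set G) ∧ Nat.card E = 8 ∧ ∀ e ∈ E, e ^ 2 = 1 := by
  obtain ⟨E, hE, hexp⟩ := hrank
  haveI : Fact (Nat.Prime 2) := ⟨Nat.prime_two⟩
  have hEp : IsPGroup 2 E := IsPGroup.of_card (n := 3) (by rw [hE]; norm_num)
  obtain ⟨P, hEP⟩ := hEp.exists_le_sylow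
  obtain ⟨P₀, hP₀⟩ : ∃ P₀ : Subgroup G, P₀ = (P : Subgroup G) := ⟨_, rfl⟩
  have hP : IsPGroup 2 P₀ := by rw [hP₀]; exact P.2
  have hEP₀ : E ≤ P₀ := by rw [hP₀]; exact hEP
  have hE' : Nat.card (E.subgroupOf P₀) = 8 := by rw [card_subgroupOf_of_le hEP₀, hE]
  have hexp' : ∀ e ∈ E.subgroupOf P₀, e ^ 2 = 1 := by
    intro e he
    apply Subtype.ext
    have h1 := hexp e (Subgroup.mem_subgroupOf.mp he)
    simpa using h1
  obtain ⟨V, z, v, hVn, hV⟩ := exists_four hP (E.subgroupOf P₀) hE' hexp'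
  have key : ∀ y : P₀, (y : G) ^ 2 = 1 → y ∈ Subgroup.centralizer (V : Set P₀) →
      ∃ W : Subgroup G, W ≤ Subgroup.centralizer ({(y : G)} : Set G) ∧ Nat.card W = 8 ∧
        ∀ w ∈ W, w ^ 2 = 1 := by
    intro y hy2 hyC
    have hy2' : y ^ 2 = 1 := by
      apply Subtype.ext
      simpa using hy2
    obtain ⟨W, hWc, hWexp, hWy⟩ := e8_in_cent hP (E.subgroupOf P₀) hE' hexp' V z v hV y hy2' hyC
    refine ⟨W.map P₀.subtype, ?_, ?_, ?_⟩
    · rintro _ ⟨w, hw, rfl⟩
      apply Subgroup.mem_centralizer_iff.mpr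
      intro h hh
      rw [Set.mem_singleton_iff] at hh
      rw [hh]
      have h1 := congrArg Subtype.val (hWy w hw)
      simpa using h1.symm
    · rw [← hWc]
      exact Nat.card_congr (W.equivMapOfInjective _ P₀.subtype_injective).symm.toEquiv
    · rintro _ ⟨w, hw, rfl⟩
      have h1 := congrArg Subtype.val (hWexp w hw)
      simpa using h1
  have hconj : ∀ (g y : G), (∃ W : Subgroup G, W ≤ Subgroup.centralizer ({g * y * g⁻¹} : Set G) ∧
      Nat.card W = 8 ∧ ∀ w ∈ W, w ^ 2 = 1) →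
      ∃ W : Subgroup G, W ≤ Subgroup.centralizer ({y} : Set G) ∧ Nat.card W = 8 ∧
        ∀ w ∈ W, w ^ 2 = 1 := by
    rintro g y ⟨W, hWc, hW8, hWexp⟩
    refine ⟨W.map (MulAut.conj g⁻¹).toMonoidHom, ?_, ?_, ?_⟩
    · intro w hw
      rw [mem_conjMap, inv_inv] at hw
      have h1 := Subgroup.mem_centralizer_iff.mp (hWc hw) (g * y * g⁻¹) rfl
      apply Subgroup.mem_centralizer_iff.mpr
      intro h hh
      rw [Set.mem_singleton_iff] at hh
      rw [hh]
      have h2 : g⁻¹ * (g * y * g⁻¹ * (g * w * g⁻¹)) * g = y * w := by group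
      have h3 : g⁻¹ * (g * w * g⁻¹ * (g * y * g⁻¹)) * g = w * y := by group
      rw [← h2, ← h3, h1]
    · rw [card_conjMap, hW8]
    · intro w hw
      rw [mem_conjMap, inv_inv] at hw
      have h1 := hWexp _ hw
      rw [conj_pow] at h1
      have h2 : g⁻¹ * (g * w ^ 2 * g⁻¹) * g = w ^ 2 := by group
      rw [← h2, h1, mul_one, inv_mul_cancel]
  obtain ⟨k, hk⟩ := exists_conj_mem_sylow P hx
  rw [← hP₀] at hk
  apply hconj k x
  have hx2 : x ^ 2 = 1 := by
    have h := pow_orderOf_eq_one x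
    rwa [hx] at h
  have hx1 : x ≠ 1 := by
    intro h
    rw [h, orderOf_one] at hx
    omega
  have hy2 : (k * x * k⁻¹) ^ 2 = 1 := by
    rw [conj_pow, hx2, mul_one, mul_inv_cancel]
  by_cases hC : (⟨k * x * k⁻¹, hk⟩ : P₀) ∈ Subgroup.centralizer (V : Set P₀)
  · exact key ⟨k * x * k⁻¹, hk⟩ hy2 hC
  · have hidx : (Subgroup.centralizer (V : Set P₀)).index = 2 := hV.cent_index hC
    obtain ⟨Q, hQ⟩ : ∃ Q : Subgroup G, Q = (Subgroup.centralizer (V : Set P₀)).map P₀.subtype :=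
      ⟨_, rfl⟩
    have hQP : Q ≤ P₀ := by rw [hQ]; exact Subgroup.map_subtype_le _
    have hQi : Q.relIndex P₀ = 2 := by
      rw [hQ, Subgroup.relIndex, Subgroup.subgroupOf,
        Subgroup.comap_map_eq_self_of_injective P₀.subtype_injective]
      exact hidx
    have huQ : k * x * k⁻¹ ∉ Q := by
      rw [hQ]
      rintro ⟨w, hw, hw2⟩
      apply hC
      have h1 : w = ⟨k * x * k⁻¹, hk⟩ := Subtype.ext hw2
      rw [← h1]; exact hw
    have ho : orderOf (k * x * k⁻¹) = 2 := by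
      apply orderOf_eq_prime hy2
      intro h
      apply hx1
      have h2 : k⁻¹ * (k * x * k⁻¹) * k = x := by group
      rw [← h2, h, mul_one, inv_mul_cancel]
    rw [hP₀] at hQP hQi hk
    rcases Cfsg.Agent.S0111.result P Q hQP hQi (k * x * k⁻¹) ho hk huQ with
      ⟨M, -, hMi, -⟩ | ⟨g, hg⟩
    · exact absurd hMi (hno M)
    · apply hconj g (k * x * k⁻¹)
      rw [hQ] at hg
      obtain ⟨w, hw, hw2⟩ := hg
      have h5 := key w (by
        have h6 : ((w : P₀) : G) = g * (k * x * k⁻¹) * g⁻¹ := hw2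
        rw [h6, conj_pow, hy2, mul_one, mul_inv_cancel]) hw
      have h6 : ((w : P₀) : G) = g * (k * x * k⁻¹) * g⁻¹ := hw2
      rw [h6] at h5
      exact h5

end Cfsg.Agent.S0221
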