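import Cfsg.Statements.S0229
import Cfsg.Agent.Lib_helper2_Isolated
import Cfsg.Agent.Lib_helper2_Inv
import Cfsg.Agent.Lib_helper2_Dihedral
import Cfsg.Agent.S0211

set_option autoImplicit false
open Cfsg

namespace Cfsg.Agent.S0229

open Cfsg.Agent.Lib_helper2_Isolated
open Cfsg.Agent.Lib_helper2_Inv
open Cfsg.Agent.Lib_helper2_Dihedral

/-- Let t be an involution of a Sylow 2-subgroup S of a finite group G, conjugate in G to no other element of S, and let s be an involution of G not conjugate to t. Then the order of st is twice an odd number. -/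
theorem result {G : Type*} [Group G] [Finite G] (S : Sylow 2 G) (t : G) (ht : orderOf t = 2) (htS : t ∈ S) (hiso : ∀ g : G, g * t * g⁻¹ ∈ S → g * t * g⁻¹ = t) (s : G) (hs : orderOf s = 2) (hns : ¬ IsConj s t) : orderOf (s * t) % 4 = 2 := by
  have hz := isolated_of_sylow S ht htS hiso
  have hord : orderOf (s * t) = orderOf (t * s) := by
    have h := orderOf_conj_eq t (s * t)
    have e : t * (s * t) * t⁻¹ = t * s := by group
    rw [e] at h
    exact h.symm
  rw [hord]
  have hnodd : ¬ Odd (orderOf (t * s)) := by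
    intro hodd
    rw [← hord] at hodd
    obtain ⟨m, hm⟩ := exists_pow_conj_of_odd hs ht hodd
    exact hns (isConj_iff.mpr ⟨_, hm⟩)
  have heven : Even (orderOf (t * s)) := Nat.not_odd_iff_even.mp hnodd
  have h4 : ¬ 4 ∣ orderOf (t * s) := by
    intro h4
    obtain ⟨d, _, hd⟩ := (Cfsg.Agent.S0211.result t s ht hs heven).mpr h4
    obtain ⟨hw, hcx, _⟩ := central_inv ht hs heven
    have hcomm : Commute t (t * (t * s) ^ (orderOf (t * s) / 2)) :=
      (Commute.refl t).mul_right hcx.symm
    have h1 := hz.2 d (by rw [hd]; exact hcomm)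
    rw [hd] at h1
    apply ne_one_of_orderOf_two hw
    have : t * (t * s) ^ (orderOf (t * s) / 2) = t * 1 := by rw [mul_one]; exact h1
    exact mul_left_cancel this
  obtain ⟨c, hc⟩ := heven
  omega

end Cfsg.Agent.S0229
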