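import Cfsg.Statements.S0230
import Cfsg.Agent.Lib_helper2_Isolated
import Cfsg.Agent.Lib_helper2_Inv
import Cfsg.Agent.Lib_helper2_Dihedral

set_option autoImplicit false
open Cfsg

namespace Cfsg.Agent.S0230

open Cfsg.Agent.Lib_helper2_Isolated
open Cfsg.Agent.Lib_helper2_Inv
open Cfsg.Agent.Lib_helper2_Dihedral

/-- Let G be a finite group with two non-conjugate involutions, and let t be an involution whose centralizer has maximal order among centralizers of involutions. Then |G| < |C_G(t)|^3. -/
theorem result {G : Type*} [Group G] [Finite G] (s t : G) (hs : orderOf s = 2) (ht : orderOf t = 2) (hnc : ¬ IsConj s t) (hmax : ∀ u : G, orderOf u = 2 → Nat.card (Subgroup.centralizer ({u} : Set G)) ≤ Nat.card (Subgroup.centralizer ({t} : Set G))) : Nat.card G < Nat.card (Subgroup.centralizer ({t} : Set G)) ^ 3 := by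
  classical
  have hcpos : 0 < Nat.card (Subgroup.centralizer ({t} : Set G)) := Nat.card_pos
  have hclass := card_conj_mul_card_centralizer t
  -- data attached to each conjugate of t
  have hdata : ∀ b : G, IsConj t b → orderOf ((s * b) ^ (orderOf (s * b) / 2)) = 2 ∧
      Commute ((s * b) ^ (orderOf (s * b) / 2)) s ∧ Commute ((s * b) ^ (orderOf (s * b) / 2)) b := by
    intro b hb
    obtain ⟨g, rfl⟩ := isConj_iff.mp hb
    have hb2 : orderOf (g * t * g⁻¹) = 2 := orderOf_conj_two ht
    have heven : Even (orderOf (s * (g * t * g⁻¹))) := by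
      rw [← Nat.not_odd_iff_even]
      intro hodd
      obtain ⟨m, hm⟩ := exists_pow_conj_of_odd hs hb2 hodd
      exact hnc ((isConj_iff.mpr ⟨_, hm⟩).trans hb.symm)
    exact central_inv hs hb2 heven
  letI : Fintype {w : G // orderOf w = 2 ∧ Commute w s} := Fintype.ofFinite _
  let f : {b : G // IsConj t b} →
      (Σ w : {w : G // orderOf w = 2 ∧ Commute w s}, Subgroup.centralizer ({w.1} : Set G)) :=
    fun b => ⟨⟨(s * b.1) ^ (orderOf (s * b.1) / 2), (hdata b.1 b.2).1, (hdata b.1 b.2).2.1⟩,
      ⟨b.1, by
        rw [Subgroup.mem_centralizer_iff]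
        intro h hh
        rw [Set.mem_singleton_iff] at hh
        rw [hh]
        exact (hdata b.1 b.2).2.2.eq⟩⟩
  have hf : Function.Injective f := by
    intro b b' h
    have := congrArg (fun x : (Σ w : {w : G // orderOf w = 2 ∧ Commute w s},
      Subgroup.centralizer ({w.1} : Set G)) => (x.2.1 : G)) h
    exact Subtype.ext this
  have h1 := Nat.card_le_card_of_injective f hf
  rw [Nat.card_sigma] at h1
  have h2 : ∑ w : {w : G // orderOf w = 2 ∧ Commute w s},
      Nat.card (Subgroup.centralizer ({w.1} : Set G)) ≤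
      (Finset.univ : Finset {w : G // orderOf w = 2 ∧ Commute w s}).card •
        Nat.card (Subgroup.centralizer ({t} : Set G)) :=
    Finset.sum_le_card_nsmul _ _ _ (fun w _ => hmax w.1 w.2.1)
  rw [Finset.card_univ, ← Nat.card_eq_fintype_card, smul_eq_mul] at h2
  have h3 := card_involutions_centralizer_succ_le s
  have h4 := hmax s hs
  -- arithmetic
  set c := Nat.card (Subgroup.centralizer ({t} : Set G)) with hc
  set k := Nat.card {b : G // IsConj t b} with hk
  set i := Nat.card {w : G // orderOf w = 2 ∧ Commute w s} with hi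
  have h5 : k ≤ i * c := h1.trans h2
  have h6 : i + 1 ≤ c := h3.trans h4
  rw [← hclass]
  have h7 : k * c ≤ i * c * c := Nat.mul_le_mul_right c h5
  have h8 : i * c * c < c * c * c := by
    have : i < c := by omega
    have hcc : 0 < c * c := Nat.mul_pos hcpos hcpos
    calc i * c * c = i * (c * c) := by ring
      _ < c * (c * c) := Nat.mul_lt_mul_of_pos_right this hcc
      _ = c * c * c := by ring
  calc k * c ≤ i * c * c := h7
    _ < c * c * c := h8
    _ = c ^ 3 := by ring

end Cfsg.Agent.S0230
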