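import Cfsg.Statements.S0231
import Cfsg.Agent.Lib_helper2_Isolated
import Cfsg.Agent.Lib_helper2_Inv
import Cfsg.Agent.Lib_helper2_Dihedral

set_option autoImplicit false
open scoped Pointwise
open Cfsg

namespace Cfsg.Agent.S0231

open Cfsg.Agent.Lib_helper2_Isolated
open Cfsg.Agent.Lib_helper2_Inv
open Cfsg.Agent.Lib_helper2_Dihedral

/-- Let T be a Sylow 2-subgroup of the finite group G which is not normal and which intersects every other Sylow 2-subgroup trivially. Then G has a single conjugacy class of involutions. -/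
theorem result {G : Type*} [Group G] [Finite G] (T : Sylow 2 G) (hnn : ¬ (T : Subgroup G).Normal) (hTI : ∀ g : G, MulAut.conj g • (T : Subgroup G) ≠ T → MulAut.conj g • (T : Subgroup G) ⊓ T = ⊥) (s t : G) (hs : orderOf s = 2) (ht : orderOf t = 2) : IsConj s t := by
  haveI : Fact (Nat.Prime 2) := ⟨Nat.prime_two⟩
  -- (a) two Sylow 2-subgroups sharing a nontrivial element are equal
  have hTI' : ∀ (P Q : Sylow 2 G) (x : G), x ∈ P → x ∈ Q → x ≠ 1 → P = Q := by
    intro P Q x hxP hxQ hx1
    obtain ⟨a, ha⟩ := MulAction.exists_smul_eq G T P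
    obtain ⟨b, hb⟩ := MulAction.exists_smul_eq G T Q
    have ha' : a⁻¹ • P = T := by rw [← ha, inv_smul_smul]
    have hb' : b⁻¹ • Q = T := by rw [← hb, inv_smul_smul]
    have h1 : a⁻¹ * x * a ∈ T := by
      have := conj_mem_of_smul_eq ha' hxP
      rwa [inv_inv] at this
    have h2 : b⁻¹ * x * b ∈ T := by
      have := conj_mem_of_smul_eq hb' hxQ
      rwa [inv_inv] at this
    have h3 : a⁻¹ * x * a ∈ MulAut.conj (a⁻¹ * b) • (T : Subgroup G) := by
      have := Subgroup.smul_mem_pointwise_smul (b⁻¹ * x * b) (MulAut.conj (a⁻¹ * b)) (T : Subgroup G) h2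
      rw [MulAut.smul_def, MulAut.conj_apply] at this
      have e : a⁻¹ * b * (b⁻¹ * x * b) * (a⁻¹ * b)⁻¹ = a⁻¹ * x * a := by group
      rwa [e] at this
    have h4 : MulAut.conj (a⁻¹ * b) • (T : Subgroup G) = T := by
      by_contra hne
      have h5 := hTI (a⁻¹ * b) hne
      have h6 : a⁻¹ * x * a ∈ MulAut.conj (a⁻¹ * b) • (T : Subgroup G) ⊓ T := ⟨h3, h1⟩
      rw [h5, Subgroup.mem_bot] at h6
      apply hx1
      have : x = a * (a⁻¹ * x * a) * a⁻¹ := by group
      rw [this, h6]; group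
    have h5 : (a⁻¹ * b) • T = T := by
      apply Sylow.ext
      rw [Sylow.coe_subgroup_smul]; exact h4
    rw [← ha, ← hb]
    have : b • T = a • ((a⁻¹ * b) • T) := by rw [smul_smul]; congr 1; group
    rw [this, h5]
  -- (b) non-conjugate involutions lie in a common Sylow 2-subgroup
  have hcommon : ∀ a b : G, orderOf a = 2 → orderOf b = 2 → ¬ IsConj a b →
      ∃ P : Sylow 2 G, a ∈ P ∧ b ∈ P := by
    intro a b ha hb hnc
    have heven : Even (orderOf (a * b)) := by
      rw [← Nat.not_odd_iff_even]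
      intro hodd
      obtain ⟨m, hm⟩ := exists_pow_conj_of_odd ha hb hodd
      exact hnc (isConj_iff.mpr ⟨_, hm⟩)
    obtain ⟨hw, hca, hcb⟩ := central_inv ha hb heven
    obtain ⟨P₁, hP₁⟩ := (isPGroup_closure_commuting_involutions ha hw hca.symm).exists_le_sylow
    obtain ⟨P₂, hP₂⟩ := (isPGroup_closure_commuting_involutions hb hw hcb.symm).exists_le_sylow
    have hw1 : (a * b) ^ (orderOf (a * b) / 2) ∈ P₁ := hP₁ (Subgroup.subset_closure (by simp))
    have hw2 : (a * b) ^ (orderOf (a * b) / 2) ∈ P₂ := hP₂ (Subgroup.subset_closure (by simp))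
    have h12 := hTI' P₁ P₂ _ hw1 hw2 (ne_one_of_orderOf_two hw)
    refine ⟨P₁, hP₁ (Subgroup.subset_closure (by simp)), ?_⟩
    rw [h12]; exact hP₂ (Subgroup.subset_closure (by simp))
  by_contra hns
  obtain ⟨P, hsP, htP⟩ := hcommon s t hs ht hns
  -- another Sylow subgroup
  have hex : ∃ P' : Sylow 2 G, P' ≠ P := by
    by_contra hall
    push Not at hall
    apply hnn
    have hT : ∀ g : G, g • T = T := fun g => (hall (g • T)).trans (hall T).symm
    have : Subgroup.normalizer ((T : Subgroup G) : Set G) = ⊤ := by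
      rw [eq_top_iff]
      intro g _
      exact Sylow.smul_eq_iff_mem_normalizer.mp (hT g)
    exact Subgroup.normalizer_eq_top_iff.mp this
  obtain ⟨P', hP'⟩ := hex
  have h2G : 2 ∣ Nat.card G := by rw [← hs]; exact orderOf_dvd_natCard s
  have h2P' : 2 ∣ Nat.card (P' : Subgroup G) := P'.dvd_card_of_dvd_card h2G
  obtain ⟨r, hr⟩ := exists_prime_orderOf_dvd_card' 2 h2P'
  have hr2 : orderOf (r : G) = 2 := by rw [Subgroup.orderOf_coe]; exact hr
  have hr1 := ne_one_of_orderOf_two hr2
  have hrP : (r : G) ∉ P := fun h => hP' (hTI' P' P r r.2 h hr1)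
  have hsr : IsConj s (r : G) := by
    by_contra hn
    obtain ⟨P'', h1, h2⟩ := hcommon s r hs hr2 hn
    have := hTI' P P'' s hsP h1 (ne_one_of_orderOf_two hs)
    rw [← this] at h2
    exact hrP h2
  have htr : IsConj t (r : G) := by
    by_contra hn
    obtain ⟨P'', h1, h2⟩ := hcommon t r ht hr2 hn
    have := hTI' P P'' t htP h1 (ne_one_of_orderOf_two ht)
    rw [← this] at h2
    exact hrP h2
  exact hns (hsr.trans htr.symm)

end Cfsg.Agent.S0231
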