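import Cfsg.Statements.S0234
import Cfsg.Agent.Lib_helper2_BF
import Cfsg.Agent.Lib_helper2_Inv
import Cfsg.Agent.Lib_helper2_Dihedral
import Cfsg.Agent.Lib_helper4_Simple
import Cfsg.Agent.Lib_helper4_Order60
import Cfsg.Agent.Lib_helper4_Count

set_option autoImplicit false
open Cfsg

namespace Cfsg.Agent.S0234

open Cfsg.Agent.Lib_helper2_BF
open Cfsg.Agent.Lib_helper2_Inv
open Cfsg.Agent.Lib_helper2_Dihedral
open Cfsg.Agent.Lib_helper4_Simple
open Cfsg.Agent.Lib_helper4_Order60
open Cfsg.Agent.Lib_helper4_Count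
theorem card_involutions_alt5 :
    Nat.card {t : alternatingGroup (Fin 5) // orderOf t = 2} = 15 := by
  have e : {t : alternatingGroup (Fin 5) // orderOf t = 2} ≃
      {σ : Equiv.Perm (Fin 5) // Equiv.Perm.sign σ = 1 ∧ σ ≠ 1 ∧ σ * σ = 1} :=
    { toFun := fun t => ⟨t.1.1, Equiv.Perm.mem_alternatingGroup.mp t.1.2,
        fun h => (orderOf_eq_two_iff'.mp t.2).1 (Subtype.ext h),
        congrArg Subtype.val (orderOf_eq_two_iff'.mp t.2).2⟩
      invFun := fun σ => ⟨⟨σ.1, Equiv.Perm.mem_alternatingGroup.mpr σ.2.1⟩,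
        orderOf_eq_two_iff'.mpr ⟨fun h => σ.2.2.1 (congrArg Subtype.val h),
          Subtype.ext σ.2.2.2⟩⟩
      left_inv := fun _ => rfl
      right_inv := fun _ => rfl }
  rw [Nat.card_congr e, Nat.card_eq_fintype_card, Fintype.card_subtype]
  decide +kernel

theorem card_involutions_congr {G H : Type*} [Group G] [Group H] (e : G ≃* H) :
    Nat.card {t : G // orderOf t = 2} = Nat.card {t : H // orderOf t = 2} := by
  apply Nat.card_congr
  exact
    { toFun := fun t => ⟨e t.1, by rw [MulEquiv.orderOf_eq]; exact t.2⟩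
      invFun := fun t => ⟨e.symm t.1, by rw [MulEquiv.orderOf_eq]; exact t.2⟩
      left_inv := fun t => by simp
      right_inv := fun t => by simp }

theorem false_of_subgroup {G : Type*} [Group G] [Finite G] [IsSimpleGroup G]
    (hnc : ¬ IsMulCommutative G) (K : Subgroup G) (c k : ℕ) (hK : Nat.card K = c)
    (hck : c * k = Nat.card G) (hk : 1 < k) (hnd : ¬ 2 * Nat.card G ∣ k.factorial) : False := by
  have h1 := K.card_mul_index
  rw [hK, ← hck] at h1
  have hc : 0 < c := by
    rw [← hK]; exact Nat.card_pos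
  have hidx : K.index = k := Nat.eq_of_mul_eq_mul_left hc h1
  have hKtop : K ≠ ⊤ := by
    intro h
    rw [h, Subgroup.index_top] at hidx
    omega
  have := Cfsg.Agent.Lib_helper4_Simple.two_mul_card_dvd_factorial_index hnc K hKtop
  rw [hidx] at this
  exact hnd this


/-- In a finite simple group G of even order greater than 2, the number n of involutions satisfies 3n < |G|. -/
theorem result {G : Type*} [Group G] [Finite G] [IsSimpleGroup G] (heven : Even (Nat.card G)) (hgt : 2 < Nat.card G) : 3 * Nat.card {t : G // orderOf t = 2} < Nat.card G := by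
  by_contra hcon
  push Not at hcon
  have hprime : ¬ (Nat.card G).Prime := by
    intro hp
    have := (Nat.prime_dvd_prime_iff_eq Nat.prime_two hp).mp (even_iff_two_dvd.mp heven)
    omega
  have hnc := Cfsg.Agent.Lib_helper4_Simple.not_isMulCommutative_of_not_prime hprime
  have hZ := odd_card_center_of_simple hnc
  obtain ⟨H, hH, hcase⟩ := brauer_fowler_index heven hZ
  have hdvd := Cfsg.Agent.Lib_helper4_Simple.two_mul_card_dvd_factorial_index hnc H hH
  have hn1 : 1 ≤ Nat.card {t : G // orderOf t = 2} := (odd_card_involutions heven).pos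
  have hk : H.index ≤ 5 := by
    rcases hcase with h2 | hlt
    · omega
    · generalize Nat.card {t : G // orderOf t = 2} = n at hcon hlt hn1
      generalize Nat.card G = N at hcon hlt
      generalize H.index = k at hlt
      have h1 : N * (N + n) ≤ (3 * n) * (3 * n + n) := Nat.mul_le_mul hcon (by omega)
      have h2 : 2 * k * n ^ 2 < (3 * n) * (3 * n + n) := lt_of_lt_of_le hlt h1
      have h3 : (3 * n) * (3 * n + n) = n ^ 2 * 12 := by ring
      have h4 : 2 * k * n ^ 2 = n ^ 2 * (2 * k) := by ring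
      rw [h3, h4] at h2
      have h5 : 2 * k < 12 := lt_of_mul_lt_mul_left h2 (Nat.zero_le _)
      omega
  have h120 : 2 * Nat.card G ∣ 120 := by
    have : Nat.factorial 5 = 120 := by decide
    rw [← this]
    exact hdvd.trans (Nat.factorial_dvd_factorial hk)
  have h2dvd : 2 ∣ Nat.card G := even_iff_two_dvd.mp heven
  have hle : Nat.card G ≤ 60 := by
    have := Nat.le_of_dvd (by norm_num) h120
    omega
  haveI : Fact (Nat.Prime 2) := ⟨Nat.prime_two⟩
  haveI : Fact (Nat.Prime 3) := ⟨Nat.prime_three⟩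
  haveI : Fact (Nat.Prime 5) := ⟨Nat.prime_five⟩
  have hcases : Nat.card G = 4 ∨ Nat.card G = 6 ∨ Nat.card G = 10 ∨ Nat.card G = 12 ∨
      Nat.card G = 20 ∨ Nat.card G = 30 ∨ Nat.card G = 60 := by
    generalize Nat.card G = N at hle h120 h2dvd hgt
    interval_cases N <;> omega
  rcases hcases with h | h | h | h | h | h | h
  · obtain ⟨K, hK⟩ := Sylow.exists_subgroup_card_pow_prime (G := G) 2 (n := 1) (by rw [h]; decide)
    exact false_of_subgroup hnc K 2 2 (by rw [hK]; rfl) (by rw [h]) (by omega) (by rw [h]; decide)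
  · obtain ⟨K, hK⟩ := Sylow.exists_subgroup_card_pow_prime (G := G) 3 (n := 1) (by rw [h]; decide)
    exact false_of_subgroup hnc K 3 2 (by rw [hK]; rfl) (by rw [h]) (by omega) (by rw [h]; decide)
  · obtain ⟨K, hK⟩ := Sylow.exists_subgroup_card_pow_prime (G := G) 5 (n := 1) (by rw [h]; decide)
    exact false_of_subgroup hnc K 5 2 (by rw [hK]; rfl) (by rw [h]) (by omega) (by rw [h]; decide)
  · obtain ⟨K, hK⟩ := Sylow.exists_subgroup_card_pow_prime (G := G) 2 (n := 2) (by rw [h]; decide)
    exact false_of_subgroup hnc K 4 3 (by rw [hK]; rfl) (by rw [h]) (by omega) (by rw [h]; decide)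
  · obtain ⟨K, hK⟩ := Sylow.exists_subgroup_card_pow_prime (G := G) 5 (n := 1) (by rw [h]; decide)
    exact false_of_subgroup hnc K 5 4 (by rw [hK]; rfl) (by rw [h]) (by omega) (by rw [h]; decide)
  · obtain ⟨T⟩ : Nonempty (Sylow 2 G) := inferInstance
    have hT : Nat.card T = 2 ^ 1 :=
      Cfsg.Agent.Lib_helper4_Count.sylow_card_eq_pow T (k := 1) (m := 15) (by rw [h]; rfl) (by decide)
    have hTc : IsCyclic (T : Subgroup G) := by
      haveI : Fact (Nat.Prime 2) := ⟨Nat.prime_two⟩
      exact isCyclic_of_prime_card (p := 2) (by rw [hT]; rfl)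
    obtain ⟨K, hK⟩ := exists_index_two_of_cyclic_sylow heven T hTc
    have hKtop : K ≠ ⊤ := by
      intro h'
      rw [h', Subgroup.index_top] at hK
      omega
    have := Cfsg.Agent.Lib_helper4_Simple.two_mul_card_dvd_factorial_index hnc K hKtop
    rw [hK, h] at this
    revert this
    decide
  · obtain ⟨e⟩ := Cfsg.Agent.Lib_helper4_Order60.nonempty_mulEquiv_alternatingGroup_five h
    rw [card_involutions_congr e, card_involutions_alt5, h] at hcon
    omega

end Cfsg.Agent.S0234
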