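import Cfsg.Statements.S0237
import Cfsg.Agent.Lib_helper2_Inv

set_option autoImplicit false
open Pointwise
open Cfsg

namespace Cfsg.Agent.S0237

/-- If x is real (conjugate to x⁻¹) in a finite group G, the number of g with g x g⁻¹ = x⁻¹ equals |C_G(x)|. -/
theorem result {G : Type*} [Group G] [Finite G] (x : G) (hreal : IsConj x x⁻¹) : Nat.card {g : G // g * x * g⁻¹ = x⁻¹} = Nat.card (Subgroup.centralizer ({x} : Set G)) := by
  obtain ⟨g₀, hg₀⟩ := isConj_iff.mp hreal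
  apply Nat.card_congr
  refine ⟨fun g => ⟨g₀⁻¹ * g.1, ?_⟩, fun c => ⟨g₀ * c.1, ?_⟩, ?_, ?_⟩
  · rw [Subgroup.mem_centralizer_iff]
    intro h hh
    rw [Set.mem_singleton_iff] at hh
    subst hh
    have h1 := g.2
    -- g x g⁻¹ = x⁻¹ = g₀ x g₀⁻¹
    have h2 : g.1 * h * g.1⁻¹ = g₀ * h * g₀⁻¹ := by rw [h1, hg₀]
    calc h * (g₀⁻¹ * g.1) = g₀⁻¹ * (g₀ * h * g₀⁻¹) * g.1 := by group
      _ = g₀⁻¹ * (g.1 * h * g.1⁻¹) * g.1 := by rw [h2]
      _ = g₀⁻¹ * g.1 * h := by group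
  · have hc := c.2
    rw [Subgroup.mem_centralizer_iff] at hc
    have h1 := hc x (Set.mem_singleton x)
    calc g₀ * c.1 * x * (g₀ * c.1)⁻¹ = g₀ * (c.1 * x) * c.1⁻¹ * g₀⁻¹ := by group
      _ = g₀ * (x * c.1) * c.1⁻¹ * g₀⁻¹ := by rw [h1]
      _ = g₀ * x * g₀⁻¹ := by group
      _ = x⁻¹ := hg₀
  · intro g; ext; simp
  · intro c; ext; simp

end Cfsg.Agent.S0237
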