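import Cfsg.Statements.S0238
import Cfsg.Agent.Lib_helper2_Inv

set_option autoImplicit false
open Pointwise
open Cfsg

namespace Cfsg.Agent.S0238

open Cfsg.Agent.Lib_helper2_Dihedral Cfsg.Agent.Lib_helper2_Inv

/-- For every x in a finite group G, the number c of ordered pairs (u, v) of involutions with uv = x is at most |C_G(x)|; c = 0 when x is not conjugate to x⁻¹; and c + 2 ≤ |C_G(x)| when x is an involution. -/
theorem result {G : Type*} [Group G] [Finite G] (x : G) : Nat.card {p : G × G // orderOf p.1 = 2 ∧ orderOf p.2 = 2 ∧ p.1 * p.2 = x} ≤ Nat.card (Subgroup.centralizer ({x} : Set G)) ∧ (¬ IsConj x x⁻¹ → Nat.card {p : G × G // orderOf p.1 = 2 ∧ orderOf p.2 = 2 ∧ p.1 * p.2 = x} = 0) ∧ (orderOf x = 2 → Nat.card {p : G × G // orderOf p.1 = 2 ∧ orderOf p.2 = 2 ∧ p.1 * p.2 = x} + 2 ≤ Nat.card (Subgroup.centralizer ({x} : Set G))) := by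
  have hb : ¬ IsConj x x⁻¹ → Nat.card {p : G × G // orderOf p.1 = 2 ∧ orderOf p.2 = 2 ∧ p.1 * p.2 = x} = 0 := by
    intro hn
    have : IsEmpty {p : G × G // orderOf p.1 = 2 ∧ orderOf p.2 = 2 ∧ p.1 * p.2 = x} := by
      constructor
      rintro ⟨⟨u, v⟩, hu, hv, huv⟩
      exact hn (isConj_iff.mpr ⟨u, pair_inverts hu hv huv⟩)
    exact Nat.card_of_isEmpty
  refine ⟨?_, hb, ?_⟩
  · by_cases hreal : IsConj x x⁻¹
    · rw [← card_inverting x hreal]
      apply Nat.card_le_card_of_injective
        (fun p : {p : G × G // orderOf p.1 = 2 ∧ orderOf p.2 = 2 ∧ p.1 * p.2 = x} =>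
          (⟨p.1.1, pair_inverts p.2.1 p.2.2.1 p.2.2.2⟩ : {g : G // g * x * g⁻¹ = x⁻¹}))
      rintro ⟨⟨u, v⟩, hu, hv, huv⟩ ⟨⟨u', v'⟩, hu', hv', huv'⟩ h
      have h1 : u = u' := by simpa using congrArg Subtype.val h
      subst h1
      have h2 : v = v' := by
        have : u * v = u * v' := by rw [huv, huv']
        exact mul_left_cancel this
      subst h2
      rfl
    · rw [hb hreal]; exact Nat.zero_le _
  · intro hx
    have h1 := card_pairs_of_involution x hx
    have h2 : Nat.card {t : G // orderOf t = 2 ∧ Commute t x} =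
        Set.ncard {t : G | orderOf t = 2 ∧ Commute t x} := rfl
    have h3 : Nat.card (Subgroup.centralizer ({x} : Set G)) =
        Set.ncard ((Subgroup.centralizer ({x} : Set G) : Subgroup G) : Set G) := rfl
    have h4 : insert 1 {t : G | orderOf t = 2 ∧ Commute t x} ⊆
        ((Subgroup.centralizer ({x} : Set G) : Subgroup G) : Set G) := by
      intro t ht
      rw [Set.mem_insert_iff] at ht
      rcases ht with rfl | ⟨_, hc⟩
      · exact one_mem _
      · rw [SetLike.mem_coe, Subgroup.mem_centralizer_iff]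
        intro h hh
        rw [Set.mem_singleton_iff] at hh
        subst hh
        exact hc.eq.symm
    have h5 := Set.ncard_le_ncard h4 (Set.toFinite _)
    rw [Set.ncard_insert_of_notMem (by simp) (Set.toFinite _)] at h5
    omega

end Cfsg.Agent.S0238
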