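import Cfsg.Statements.S0240
import Cfsg.Agent.Lib_helper2_Inv

set_option autoImplicit false
open Pointwise
open Cfsg

namespace Cfsg.Agent.S0240

open Cfsg.Agent.Lib_helper2_Dihedral Cfsg.Agent.Lib_helper2_Inv

/-- Let G be a finite group with n involutions and H a subgroup with |H|·(n+1) > |G|. Then some nontrivial h ∈ H is strongly real in G: an involution t of G satisfies t h t⁻¹ = h⁻¹. -/
theorem result {G : Type*} [Group G] [Finite G] (H : Subgroup G) (hH : Nat.card G < Nat.card H * (Nat.card {t : G // orderOf t = 2} + 1)) : ∃ h : G, h ∈ H ∧ h ≠ 1 ∧ ∃ t : G, orderOf t = 2 ∧ t * h * t⁻¹ = h⁻¹ := by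
  rw [← card_sq_eq_one, Subgroup.card_eq_card_quotient_mul_card_subgroup H, mul_comm] at hH
  have hlt : Nat.card (G ⧸ H) < Nat.card {g : G // g * g = 1} :=
    Nat.lt_of_mul_lt_mul_left hH
  have hninj : ¬ Function.Injective
      (fun g : {g : G // g * g = 1} => (QuotientGroup.mk g.1 : G ⧸ H)) := fun hinj =>
    absurd (Nat.card_le_card_of_injective _ hinj) (not_le.mpr hlt)
  rw [Function.Injective] at hninj
  push Not at hninj
  obtain ⟨⟨s, hs⟩, ⟨t, ht⟩, heq, hne⟩ := hninj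
  have hne' : s ≠ t := fun h => hne (Subtype.ext h)
  have hmem : s⁻¹ * t ∈ H := QuotientGroup.eq.mp heq
  have hs' : s⁻¹ = s := inv_eq_of_mul_eq_one_left hs
  have ht' : t⁻¹ = t := inv_eq_of_mul_eq_one_left ht
  rw [hs'] at hmem
  have hh1 : s * t ≠ 1 := by
    intro h
    apply hne'
    have : s = t⁻¹ := eq_inv_of_mul_eq_one_left h
    rw [this, ht']
  refine ⟨s * t, hmem, hh1, ?_⟩
  by_cases h1 : s = 1
  · subst h1
    refine ⟨t, orderOf_eq_two_iff'.mpr ⟨fun h => hne' h.symm, ht⟩, ?_⟩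
    rw [one_mul, ht', ht, one_mul]
  · refine ⟨s, orderOf_eq_two_iff'.mpr ⟨h1, hs⟩, ?_⟩
    rw [mul_inv_rev, hs', ht', ← mul_assoc, hs, one_mul]

end Cfsg.Agent.S0240
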