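import Cfsg.Statements.S0241
import Cfsg.Agent.Lib_helper2_Inv

set_option autoImplicit false
open Pointwise
open Cfsg

namespace Cfsg.Agent.S0241

open Cfsg.Agent.Lib_helper2_Dihedral Cfsg.Agent.Lib_helper2_Inv

/-- If x ≠ 1 is conjugate to x⁻¹ in a finite group G and |C_G(x)| is odd, then some involution t satisfies t x t⁻¹ = x⁻¹. -/
theorem result {G : Type*} [Group G] [Finite G] (x : G) (hx : x ≠ 1) (hreal : IsConj x x⁻¹) (hodd : Odd (Nat.card (Subgroup.centralizer ({x} : Set G)))) : ∃ t : G, orderOf t = 2 ∧ t * x * t⁻¹ = x⁻¹ := by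
  obtain ⟨g, hg⟩ := isConj_iff.mp hreal
  -- x is not an involution
  have hxx : x⁻¹ ≠ x := by
    intro hxx
    have h2 : orderOf x = 2 := by
      rw [orderOf_eq_two_iff']
      refine ⟨hx, ?_⟩
      have := inv_mul_cancel x
      rwa [hxx] at this
    have hxC : x ∈ Subgroup.centralizer ({x} : Set G) := by
      rw [Subgroup.mem_centralizer_iff]; intro h hh; rw [Set.mem_singleton_iff] at hh; rw [hh]
    have h3 : orderOf (⟨x, hxC⟩ : Subgroup.centralizer ({x} : Set G)) = 2 := by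
      rw [← h2]; exact Subgroup.orderOf_mk x hxC
    have h4 := orderOf_dvd_natCard (⟨x, hxC⟩ : Subgroup.centralizer ({x} : Set G))
    rw [h3] at h4
    exact (Nat.not_even_iff_odd.mpr hodd) (even_iff_two_dvd.mpr h4)
  obtain ⟨a, m, hm, ham⟩ := Nat.exists_eq_two_pow_mul_odd (orderOf_pos g).ne'
  -- h = g ^ m
  have h1 := conj_pow_of_inverting hg m
  rw [if_neg (Nat.not_even_iff_odd.mpr hm)] at h1
  have h2 := conj_pow_of_inverting hg (m * 2)
  rw [if_pos (by simp)] at h2
  have hsqC : (g ^ m) * (g ^ m) ∈ Subgroup.centralizer ({x} : Set G) := by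
    rw [Subgroup.mem_centralizer_iff]; intro h hh; rw [Set.mem_singleton_iff] at hh; subst hh
    rw [pow_mul, pow_two] at h2
    calc h * (g ^ m * g ^ m) = (g ^ m * g ^ m * h * (g ^ m * g ^ m)⁻¹) * (g ^ m * g ^ m) := by rw [h2]
      _ = g ^ m * g ^ m * h := by group
  -- order of h*h divides 2^a and |C(x)|
  have h3 : ((g ^ m) * (g ^ m)) ^ (2 ^ a) = 1 := by
    rw [← pow_two, ← pow_mul, ← pow_mul]
    have : m * (2 * 2 ^ a) = orderOf g * 2 := by rw [ham]; ring
    rw [this, pow_mul, pow_orderOf_eq_one, one_pow]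
  have h4 : orderOf ((g ^ m) * (g ^ m)) ∣ 2 ^ a := orderOf_dvd_of_pow_eq_one h3
  have h5 : orderOf ((g ^ m) * (g ^ m)) ∣ Nat.card (Subgroup.centralizer ({x} : Set G)) := by
    have := orderOf_dvd_natCard (⟨_, hsqC⟩ : Subgroup.centralizer ({x} : Set G))
    rwa [Subgroup.orderOf_mk] at this
  have h6 : orderOf ((g ^ m) * (g ^ m)) = 1 := by
    have hcop : Nat.Coprime (2 ^ a) (Nat.card (Subgroup.centralizer ({x} : Set G))) :=
      Nat.Coprime.pow_left a (Nat.coprime_two_left.mpr hodd)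
    exact Nat.eq_one_of_dvd_coprimes hcop h4 h5
  rw [orderOf_eq_one_iff] at h6
  refine ⟨g ^ m, ?_, h1⟩
  rw [orderOf_eq_two_iff']
  refine ⟨?_, h6⟩
  intro h7
  rw [h7] at h1
  simp at h1
  exact hxx h1.symm

end Cfsg.Agent.S0241
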