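import Cfsg.Statements.S0246
import Mathlib
import Cfsg.Agent.Lib_helper4_SpCenter

set_option autoImplicit false
open Cfsg

namespace Cfsg.Agent.S0246

/-- The centre of Sp_{2m}(q), m at least 1, is {1, -1}: it has order gcd(2, q-1). -/
theorem result {F : Type*} [Field F] [Fintype F] {q : ℕ} (hF : Fintype.card F = q) (m : ℕ) (hm : 1 ≤ m) : Nat.card (Subgroup.center (Matrix.symplecticGroup (Fin m) F)) = Nat.gcd 2 (q - 1) := by
  subst hF
  have hq : 1 < Fintype.card F := Fintype.one_lt_card
  by_cases h2 : ringChar F = 2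
  · haveI : CharP F 2 := ringChar.of_eq h2
    have hev : Fintype.card F % 2 = 0 := FiniteField.even_card_iff_char_two.mp h2
    have hbot : Subgroup.center (Matrix.symplecticGroup (Fin m) F) = ⊥ := by
      rw [Subgroup.eq_bot_iff_forall]
      intro A hA
      rcases (Cfsg.Agent.Lib_helper4_SpCenter.mem_center_iff hm A).mp hA with h | h
      · exact Subtype.ext h
      · apply Subtype.ext
        rw [h]
        ext a b
        simp [Matrix.neg_apply, Matrix.one_apply, CharTwo.neg_eq]
    rw [hbot, Subgroup.card_bot]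
    symm
    exact (Nat.Prime.coprime_iff_not_dvd Nat.prime_two).mpr (by omega)
  · have h2' : (2 : F) ≠ 0 := Ring.two_ne_zero h2
    have hodd : Fintype.card F % 2 = 1 := FiniteField.odd_card_of_char_ne_two h2
    have hgcd : Nat.gcd 2 (Fintype.card F - 1) = 2 := Nat.gcd_eq_left (by omega)
    rw [hgcd, Nat.card_eq_two_iff]
    refine ⟨⟨1, Subgroup.one_mem _⟩, ⟨⟨-1, Cfsg.Agent.Lib_helper4_SpCenter.neg_one_mem⟩,
      (Cfsg.Agent.Lib_helper4_SpCenter.mem_center_iff hm _).mpr (Or.inr rfl)⟩, ?_, ?_⟩
    · intro h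
      have h3 : (1 : Matrix (Fin m ⊕ Fin m) (Fin m ⊕ Fin m) F) = -1 :=
        congrArg (fun A : Subgroup.center (Matrix.symplecticGroup (Fin m) F) =>
          ((A : Matrix.symplecticGroup (Fin m) F) : Matrix (Fin m ⊕ Fin m) (Fin m ⊕ Fin m) F)) h
      have h4 := congrFun (congrFun h3 (Sum.inl ⟨0, hm⟩)) (Sum.inl ⟨0, hm⟩)
      rw [Matrix.neg_apply, Matrix.one_apply_eq] at h4
      apply h2'
      linear_combination h4
    · ext A
      simp only [Set.mem_insert_iff, Set.mem_singleton_iff, Set.mem_univ, iff_true]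
      rcases (Cfsg.Agent.Lib_helper4_SpCenter.mem_center_iff hm A.1).mp A.2 with h | h
      · left
        exact Subtype.ext (Subtype.ext h)
      · right
        exact Subtype.ext (Subtype.ext h)

end Cfsg.Agent.S0246
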