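import Cfsg.Statements.S0826
import Mathlib

set_option autoImplicit false
open Cfsg

namespace Cfsg.Agent.S0826

open Matrix

/-- the point set: pairs `a_i, b_i` and two extra points `y, z`. -/
abbrev X (m : ℕ) := (Fin m ⊕ Fin m) ⊕ Fin 2

def pa {m : ℕ} (i : Fin m) : X m := Sum.inl (Sum.inl i)
def pb {m : ℕ} (i : Fin m) : X m := Sum.inl (Sum.inr i)
def py {m : ℕ} : X m := Sum.inr 0
def pz {m : ℕ} : X m := Sum.inr 1

def ev {m : ℕ} (i : Fin m) : X m → ZMod 2 := Pi.single (pa i) 1 + Pi.single (pb i) 1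

def fv {m : ℕ} (i : Fin m) : X m → ZMod 2 :=
  Pi.single (pb i) 1 + Pi.single pz 1 + ∑ j ∈ Finset.Iio i, ev j

def onev {m : ℕ} : X m → ZMod 2 := fun _ => 1

theorem ev_dot {m : ℕ} (i : Fin m) (v : X m → ZMod 2) : ev i ⬝ᵥ v = v (pa i) + v (pb i) := by
  simp [ev, add_dotProduct]

theorem fv_dot {m : ℕ} (i : Fin m) (v : X m → ZMod 2) :
    fv i ⬝ᵥ v = v (pb i) + v pz + ∑ j ∈ Finset.Iio i, (v (pa j) + v (pb j)) := by
  simp only [fv, add_dotProduct, sum_dotProduct, ev_dot, single_dotProduct, one_mul]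

theorem ev_pa {m : ℕ} (l i : Fin m) : ev l (pa i) = if i = l then 1 else 0 := by
  simp [ev, pa, pb, Pi.single_apply]

theorem ev_pb {m : ℕ} (l i : Fin m) : ev l (pb i) = if i = l then 1 else 0 := by
  simp [ev, pa, pb, Pi.single_apply]

theorem ev_py {m : ℕ} (l : Fin m) : ev l py = 0 := by
  simp [ev, pa, pb, py, Pi.single_apply]

theorem ev_pz {m : ℕ} (l : Fin m) : ev l pz = 0 := by
  simp [ev, pa, pb, pz, Pi.single_apply]

theorem fv_pa {m : ℕ} (l i : Fin m) : fv l (pa i) = if i < l then 1 else 0 := by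
  simp [fv, pa, pb, pz, Pi.single_apply, ev, Finset.sum_apply]

theorem fv_pb {m : ℕ} (l i : Fin m) :
    fv l (pb i) = (if i = l then 1 else 0) + (if i < l then 1 else 0) := by
  simp [fv, pa, pb, pz, Pi.single_apply, ev, Finset.sum_apply]

theorem fv_pz {m : ℕ} (l : Fin m) : fv l pz = 1 := by
  simp [fv, pa, pb, pz, Pi.single_apply, ev, Finset.sum_apply]

theorem two_zero (a : ZMod 2) : a + a = 0 := CharTwo.add_self_eq_zero a

theorem ev_ev {m : ℕ} (i l : Fin m) : ev i ⬝ᵥ ev l = 0 := by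
  rw [ev_dot, ev_pa, ev_pb, two_zero]

theorem ev_fv {m : ℕ} (l i : Fin m) : ev l ⬝ᵥ fv i = if l = i then 1 else 0 := by
  rw [ev_dot, fv_pa, fv_pb, add_comm (if l = i then (1 : ZMod 2) else 0), ← add_assoc, two_zero,
    zero_add]

theorem fv_ev {m : ℕ} (i l : Fin m) : fv i ⬝ᵥ ev l = if i = l then 1 else 0 := by
  rw [dotProduct_comm, ev_fv]
  simp [eq_comm]

theorem fv_fv {m : ℕ} (i l : Fin m) : fv i ⬝ᵥ fv l = 0 := by
  rw [fv_dot, fv_pb, fv_pz]
  have h1 : ∀ j : Fin m, fv l (pa j) + fv l (pb j) = if j = l then 1 else 0 := by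
    intro j
    rw [fv_pa, fv_pb, add_comm (if j = l then (1 : ZMod 2) else 0), ← add_assoc, two_zero,
      zero_add]
  simp only [h1]
  rw [Finset.sum_ite_eq' (Finset.Iio i) l (fun _ => (1 : ZMod 2))]
  simp only [Finset.mem_Iio]
  rcases lt_trichotomy i l with h | h | h
  · have h2 : ¬ l < i := not_lt.2 h.le
    have h3 : i ≠ l := h.ne
    simp only [h, h2, h3, if_true, if_false]
    decide
  · subst h
    simp only [lt_irrefl, if_true, if_false]
    decide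
  · have h2 : ¬ i < l := not_lt.2 h.le
    have h3 : i ≠ l := h.ne'
    simp only [h, h2, h3, if_true, if_false]
    decide

theorem ev_one {m : ℕ} (i : Fin m) : ev i ⬝ᵥ (onev : X m → ZMod 2) = 0 := by
  rw [ev_dot]
  exact two_zero 1

theorem fv_one {m : ℕ} (i : Fin m) : fv i ⬝ᵥ (onev : X m → ZMod 2) = 0 := by
  rw [fv_dot]
  have h : ∀ j : Fin m, (onev : X m → ZMod 2) (pa j) + onev (pb j) = 0 := fun j => two_zero 1
  simp only [h, Finset.sum_const_zero, add_zero]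
  exact two_zero 1

/-- a sum-zero vector orthogonal to all `ev i`, `fv i` is constant. -/
theorem const_of_perp {m : ℕ} (v : X m → ZMod 2) (he : ∀ i, ev i ⬝ᵥ v = 0)
    (hf : ∀ i, fv i ⬝ᵥ v = 0) (h1 : (onev : X m → ZMod 2) ⬝ᵥ v = 0) : v = v pz • onev := by
  have hab : ∀ i, v (pa i) + v (pb i) = 0 := fun i => by rw [← ev_dot]; exact he i
  have hb : ∀ i, v (pb i) = v pz := by
    intro i
    have := hf i
    rw [fv_dot] at this
    simp only [hab, Finset.sum_const_zero, add_zero] at this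
    exact CharTwo.add_eq_zero.1 this
  have ha : ∀ i, v (pa i) = v pz := fun i => by
    rw [← hb i]
    exact CharTwo.add_eq_zero.1 (hab i)
  have hy : v py = v pz := by
    have h2 : (onev : X m → ZMod 2) ⬝ᵥ v = ∑ x, v x := by
      simp [dotProduct, onev]
    rw [h2, Fintype.sum_sum_type, Fintype.sum_sum_type, ← Finset.sum_add_distrib,
      Fin.sum_univ_two] at h1
    have h3 : ∀ i : Fin m, v (Sum.inl (Sum.inl i)) + v (Sum.inl (Sum.inr i)) = 0 := hab
    simp only [h3, Finset.sum_const_zero, zero_add] at h1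
    exact CharTwo.add_eq_zero.1 h1
  funext x
  rw [Pi.smul_apply, smul_eq_mul]
  change v x = v pz * 1
  rw [mul_one]
  rcases x with (i | i) | j
  · exact ha i
  · exact hb i
  · fin_cases j
    · exact hy
    · rfl

/-- expansion of a sum-zero vector in the symplectic basis, modulo the all-ones vector. -/
theorem expand {m : ℕ} (u : X m → ZMod 2) (h1 : (onev : X m → ZMod 2) ⬝ᵥ u = 0) :
    ∃ c : ZMod 2, u = ∑ l, (fv l ⬝ᵥ u) • ev l + ∑ l, (ev l ⬝ᵥ u) • fv l + c • onev := by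
  obtain ⟨v, hv⟩ : ∃ v : X m → ZMod 2,
      v = u - (∑ l, (fv l ⬝ᵥ u) • ev l + ∑ l, (ev l ⬝ᵥ u) • fv l) := ⟨_, rfl⟩
  have he : ∀ i, ev i ⬝ᵥ v = 0 := by
    intro i
    rw [hv, dotProduct_sub, dotProduct_add, dotProduct_sum, dotProduct_sum]
    simp only [dotProduct_smul, ev_ev, ev_fv, smul_eq_mul, mul_zero, Finset.sum_const_zero,
      zero_add, mul_ite, mul_one, Finset.sum_ite_eq, Finset.mem_univ, if_true, sub_self]
  have hf : ∀ i, fv i ⬝ᵥ v = 0 := by
    intro i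
    rw [hv, dotProduct_sub, dotProduct_add, dotProduct_sum, dotProduct_sum]
    simp only [dotProduct_smul, fv_fv, fv_ev, smul_eq_mul, mul_zero, Finset.sum_const_zero,
      add_zero, mul_ite, mul_one, Finset.sum_ite_eq, Finset.mem_univ, if_true, sub_self]
  have ho : (onev : X m → ZMod 2) ⬝ᵥ v = 0 := by
    have o1 : ∀ i : Fin m, (onev : X m → ZMod 2) ⬝ᵥ ev i = 0 := fun i => by
      rw [dotProduct_comm]
      exact ev_one i
    have o2 : ∀ i : Fin m, (onev : X m → ZMod 2) ⬝ᵥ fv i = 0 := fun i => by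
      rw [dotProduct_comm]
      exact fv_one i
    rw [hv, dotProduct_sub, dotProduct_add, dotProduct_sum, dotProduct_sum, h1]
    simp only [dotProduct_smul, o1, o2, smul_eq_mul, mul_zero, Finset.sum_const_zero, add_zero,
      sub_self]
  refine ⟨v pz, ?_⟩
  rw [← const_of_perp v he hf ho, hv]
  abel

/-- the permutation action on vectors. -/
def act {m : ℕ} (σ : Equiv.Perm (X m)) : (X m → ZMod 2) →ₗ[ZMod 2] (X m → ZMod 2) :=
  LinearMap.funLeft (ZMod 2) (ZMod 2) (σ⁻¹ : Equiv.Perm (X m))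

theorem act_apply {m : ℕ} (σ : Equiv.Perm (X m)) (v : X m → ZMod 2) (x : X m) :
    act σ v x = v (σ⁻¹ x) := rfl

theorem act_mul {m : ℕ} (σ τ : Equiv.Perm (X m)) (v : X m → ZMod 2) :
    act (σ * τ) v = act σ (act τ v) := by
  funext x
  simp [act_apply, _root_.mul_inv_rev]

theorem act_one {m : ℕ} (v : X m → ZMod 2) : act (1 : Equiv.Perm (X m)) v = v := by
  funext x
  simp [act_apply]

theorem act_onev {m : ℕ} (σ : Equiv.Perm (X m)) : act σ (onev : X m → ZMod 2) = onev := rfl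

theorem dot_act {m : ℕ} (σ : Equiv.Perm (X m)) (u v : X m → ZMod 2) :
    act σ u ⬝ᵥ act σ v = u ⬝ᵥ v := by
  simp only [dotProduct, act_apply]
  exact Equiv.sum_comp (σ⁻¹ : Equiv.Perm (X m)) (fun x => u x * v x)

theorem dot_act' {m : ℕ} (σ : Equiv.Perm (X m)) (u v : X m → ZMod 2) :
    u ⬝ᵥ act σ v = act σ⁻¹ u ⬝ᵥ v := by
  rw [← dot_act σ⁻¹ u (act σ v), ← act_mul, inv_mul_cancel, act_one]

theorem one_act {m : ℕ} (σ : Equiv.Perm (X m)) (v : X m → ZMod 2)
    (h : (onev : X m → ZMod 2) ⬝ᵥ v = 0) : (onev : X m → ZMod 2) ⬝ᵥ act σ v = 0 := by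
  rw [← act_onev σ, dot_act]
  exact h

def bv {m : ℕ} : Fin m ⊕ Fin m → (X m → ZMod 2) := Sum.elim ev fv
def bd {m : ℕ} : Fin m ⊕ Fin m → (X m → ZMod 2) := Sum.elim fv ev

theorem bv_one {m : ℕ} (t : Fin m ⊕ Fin m) : (onev : X m → ZMod 2) ⬝ᵥ bv t = 0 := by
  rw [dotProduct_comm]
  rcases t with i | i
  · exact ev_one i
  · exact fv_one i

theorem bd_one {m : ℕ} (t : Fin m ⊕ Fin m) : (onev : X m → ZMod 2) ⬝ᵥ bd t = 0 := by
  rw [dotProduct_comm]
  rcases t with i | i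
  · exact fv_one i
  · exact ev_one i

def Mat {m : ℕ} (σ : Equiv.Perm (X m)) : Matrix (Fin m ⊕ Fin m) (Fin m ⊕ Fin m) (ZMod 2) :=
  Matrix.of fun s t => bd s ⬝ᵥ act σ (bv t)

theorem Mat_apply {m : ℕ} (σ : Equiv.Perm (X m)) (s t : Fin m ⊕ Fin m) :
    Mat σ s t = bd s ⬝ᵥ act σ (bv t) := rfl

theorem Mat_one {m : ℕ} : Mat (1 : Equiv.Perm (X m)) = 1 := by
  ext s t
  rw [Mat_apply, act_one, Matrix.one_apply]
  rcases s with i | i <;> rcases t with l | l
  · simp [bd, bv, fv_ev]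
  · simp [bd, bv, fv_fv]
  · simp [bd, bv, ev_ev]
  · simp [bd, bv, ev_fv]

/-- key bilinear expansion. -/
theorem dot_expand {m : ℕ} (w u : X m → ZMod 2) (hw : (onev : X m → ZMod 2) ⬝ᵥ w = 0)
    (hu : (onev : X m → ZMod 2) ⬝ᵥ u = 0) :
    w ⬝ᵥ u = ∑ l, (w ⬝ᵥ ev l) * (fv l ⬝ᵥ u) + ∑ l, (w ⬝ᵥ fv l) * (ev l ⬝ᵥ u) := by
  obtain ⟨c, hc⟩ := expand u hu
  have h : w ⬝ᵥ u = w ⬝ᵥ (∑ l, (fv l ⬝ᵥ u) • ev l + ∑ l, (ev l ⬝ᵥ u) • fv l + c • onev) :=
    congrArg (fun z => w ⬝ᵥ z) hc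
  rw [h, dotProduct_add, dotProduct_add, dotProduct_sum, dotProduct_sum, dotProduct_smul,
    dotProduct_comm w onev, hw, smul_zero, add_zero]
  simp only [dotProduct_smul, smul_eq_mul, mul_comm]

theorem Mat_mul {m : ℕ} (σ τ : Equiv.Perm (X m)) : Mat (σ * τ) = Mat σ * Mat τ := by
  ext s t
  rw [Mat_apply, Matrix.mul_apply, Fintype.sum_sum_type, act_mul, dot_act']
  rw [dot_expand (act σ⁻¹ (bd s)) (act τ (bv t)) (one_act _ _ (bd_one s))
    (one_act _ _ (bv_one t))]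
  simp only [Mat_apply, dot_act', bd, bv, Sum.elim_inl, Sum.elim_inr]

theorem Mat_mem {m : ℕ} (σ : Equiv.Perm (X m)) :
    Mat σ ∈ Matrix.symplecticGroup (Fin m) (ZMod 2) := by
  rw [SymplecticGroup.mem_iff]
  ext s s'
  have hJ : ∀ (A : Matrix (Fin m ⊕ Fin m) (Fin m ⊕ Fin m) (ZMod 2)) (s s' : Fin m ⊕ Fin m),
      (A * Matrix.J (Fin m) (ZMod 2) * Aᵀ) s s'
        = ∑ l, A s (Sum.inl l) * A s' (Sum.inr l) + ∑ l, A s (Sum.inr l) * A s' (Sum.inl l) := by
    intro A s s'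
    rw [Matrix.mul_apply, Fintype.sum_sum_type]
    simp only [Matrix.mul_apply, Fintype.sum_sum_type, Matrix.J, Matrix.fromBlocks_apply₁₁,
      Matrix.fromBlocks_apply₁₂, Matrix.fromBlocks_apply₂₁, Matrix.fromBlocks_apply₂₂,
      Matrix.zero_apply, Matrix.one_apply, Matrix.neg_apply, mul_zero, Finset.sum_const_zero,
      zero_add, add_zero, mul_neg, mul_ite, mul_one, Finset.sum_neg_distrib,
      Finset.sum_ite_eq', Finset.sum_ite_eq, Finset.mem_univ, if_true, Matrix.transpose_apply]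
    rw [add_comm]
    congr 1
    apply Finset.sum_congr rfl
    intro l _
    rw [neg_mul, CharTwo.neg_eq]
  rw [hJ]
  have hd := dot_expand (act σ⁻¹ (bd s)) (act σ⁻¹ (bd s')) (one_act _ _ (bd_one s))
    (one_act _ _ (bd_one s'))
  rw [dot_act] at hd
  have e1 : ∀ l : Fin m, Mat σ s (Sum.inl l) * Mat σ s' (Sum.inr l)
      = (act σ⁻¹ (bd s) ⬝ᵥ ev l) * (fv l ⬝ᵥ act σ⁻¹ (bd s')) := by
    intro l
    rw [Mat_apply, Mat_apply, dot_act', dot_act', dotProduct_comm (act σ⁻¹ (bd s')) _]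
    rfl
  have e2 : ∀ l : Fin m, Mat σ s (Sum.inr l) * Mat σ s' (Sum.inl l)
      = (act σ⁻¹ (bd s) ⬝ᵥ fv l) * (ev l ⬝ᵥ act σ⁻¹ (bd s')) := by
    intro l
    rw [Mat_apply, Mat_apply, dot_act', dot_act', dotProduct_comm (act σ⁻¹ (bd s')) _]
    rfl
  simp only [e1, e2]
  rw [← hd]
  rcases s with i | i <;> rcases s' with l | l
  · simp [bd, fv_fv, Matrix.J]
  · simp [bd, fv_ev, Matrix.J, Matrix.one_apply]
  · simp [bd, ev_fv, Matrix.J, Matrix.one_apply]
  · simp [bd, ev_ev, Matrix.J]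

def hom (m : ℕ) : Equiv.Perm (X m) →* Matrix.symplecticGroup (Fin m) (ZMod 2) where
  toFun σ := ⟨Mat σ, Mat_mem σ⟩
  map_one' := Subtype.ext Mat_one
  map_mul' σ τ := Subtype.ext (Mat_mul σ τ)

theorem hom_injective (m : ℕ) (hm : 2 ≤ m) : Function.Injective (hom m) := by
  rw [← MonoidHom.ker_eq_bot_iff]
  by_contra hker
  have hnt : Nontrivial (hom m).ker := (Subgroup.nontrivial_iff_ne_bot _).2 hker
  have hcard : 5 ≤ Nat.card (X m) := by
    rw [Nat.card_eq_fintype_card]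
    simp only [Fintype.card_sum, Fintype.card_fin]
    omega
  have hle := Equiv.Perm.alternatingGroup_le_of_normal hcard hnt
  obtain ⟨i0⟩ : Nonempty (Fin m) := ⟨⟨0, by omega⟩⟩
  have hab : (pa i0 : X m) ≠ pb i0 := by simp [pa, pb]
  have hay : (pa i0 : X m) ≠ py := by simp [pa, py]
  have hby : (pb i0 : X m) ≠ py := by simp [pb, py]
  have h3 := Equiv.Perm.isThreeCycle_swap_mul_swap_same hab hay hby
  have hmem := hle h3.mem_alternatingGroup
  rw [MonoidHom.mem_ker] at hmem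
  have hM := congrArg (fun A : Matrix.symplecticGroup (Fin m) (ZMod 2) =>
    (A : Matrix (Fin m ⊕ Fin m) (Fin m ⊕ Fin m) (ZMod 2)) (Sum.inr i0) (Sum.inl i0)) hmem
  change Mat _ (Sum.inr i0) (Sum.inl i0)
    = (1 : Matrix (Fin m ⊕ Fin m) (Fin m ⊕ Fin m) (ZMod 2)) (Sum.inr i0) (Sum.inl i0) at hM
  rw [Mat_apply, Matrix.one_apply, if_neg (by simp)] at hM
  change ev i0 ⬝ᵥ act _ (ev i0) = 0 at hM
  rw [ev_dot, act_apply, act_apply] at hM
  have c1 : ((Equiv.swap (pa i0 : X m) (pb i0) * Equiv.swap (pa i0) py)⁻¹ : Equiv.Perm (X m))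
      (pa i0) = pb i0 := by
    rw [Equiv.Perm.inv_eq_iff_eq, Equiv.Perm.mul_apply,
      Equiv.swap_apply_of_ne_of_ne hab.symm hby, Equiv.swap_apply_right]
  have c2 : ((Equiv.swap (pa i0 : X m) (pb i0) * Equiv.swap (pa i0) py)⁻¹ : Equiv.Perm (X m))
      (pb i0) = py := by
    rw [Equiv.Perm.inv_eq_iff_eq, Equiv.Perm.mul_apply, Equiv.swap_apply_right,
      Equiv.swap_apply_left]
  rw [c1, c2, ev_pb, ev_py, if_pos rfl] at hM
  exact absurd hM (by decide)


/-- S_2n ≤ Sp_(2n−2)(2) for n ≥ 3: there is an injective homomorphism from the symmetric group on 2n letters into the symplectic group of degree 2n − 2 over the field with two elements. -/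
theorem result (n : ℕ) (hn : 3 ≤ n) : ∃ f : Equiv.Perm (Fin (2 * n)) →* Matrix.symplecticGroup (Fin (n - 1)) (ZMod 2), Function.Injective f := by
  have hcard : Fintype.card (X (n - 1)) = 2 * n := by
    simp only [Fintype.card_sum, Fintype.card_fin]
    omega
  refine ⟨(hom (n - 1)).comp
    (Equiv.permCongrHom (Fintype.equivFinOfCardEq hcard).symm).toMonoidHom, ?_⟩
  exact (hom_injective (n - 1) (by omega)).comp
    (Equiv.permCongrHom (Fintype.equivFinOfCardEq hcard).symm).injective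

end Cfsg.Agent.S0826
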