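import Cfsg.Statements.S0247
import Mathlib
import Cfsg.Agent.S0826
import Cfsg.Agent.Lib_helper4_SpCard2

set_option autoImplicit false
open Cfsg

namespace Cfsg.Agent.S0247

open Matrix

theorem J_map {l : Type*} [DecidableEq l] {R S : Type*} [CommRing R] [CommRing S] (e : R →+* S) :
    (J l R).map e = J l S := by
  unfold J
  rw [Matrix.fromBlocks_map]
  congr 1
  · ext i j; simp
  · ext i j
    simp [Matrix.one_apply]
  · ext i j
    simp [Matrix.one_apply]
  · ext i j; simp

theorem map_mem {l : Type*} [DecidableEq l] [Fintype l] {R S : Type*} [CommRing R] [CommRing S]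
    (e : R →+* S) {A : Matrix (l ⊕ l) (l ⊕ l) R} (hA : A ∈ symplecticGroup l R) :
    A.map e ∈ symplecticGroup l S := by
  rw [SymplecticGroup.mem_iff] at hA ⊢
  rw [← J_map e, ← Matrix.transpose_map, ← Matrix.map_mul, ← Matrix.map_mul, hA]

noncomputable def spCongr {l : Type*} [DecidableEq l] [Fintype l] {R S : Type*} [CommRing R]
    [CommRing S] (e : R ≃+* S) : symplecticGroup l R ≃* symplecticGroup l S where
  toFun A := ⟨A.1.map e, map_mem e.toRingHom A.2⟩
  invFun B := ⟨B.1.map e.symm, map_mem e.symm.toRingHom B.2⟩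
  left_inv A := by
    apply Subtype.ext
    ext i j
    simp
  right_inv B := by
    apply Subtype.ext
    ext i j
    simp
  map_mul' A B := by
    apply Subtype.ext
    exact Matrix.map_mul (f := e.toRingHom)

/-- Sp_4(2) is isomorphic to the symmetric group S_6. -/
theorem result {F : Type*} [Field F] [Fintype F] (hF : Fintype.card F = 2) : Nonempty (Matrix.symplecticGroup (Fin 2) F ≃* Equiv.Perm (Fin 6)) := by
  obtain ⟨f, hf⟩ := Cfsg.Agent.S0826.result 3 (by norm_num)
  have e0 : ZMod 2 ≃+* F := ZMod.ringEquivOfPrime F Nat.prime_two hF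
  have hcard : Nat.card (Equiv.Perm (Fin 6)) = Nat.card (symplecticGroup (Fin 2) (ZMod 2)) := by
    rw [Cfsg.Agent.Lib_helper4_SpCard2.card_symplecticGroup (F := ZMod 2) (q := 2) (by simp) 2,
      Nat.card_eq_fintype_card, Fintype.card_perm, Fintype.card_fin]
    decide
  have hbij : Function.Bijective f := by
    haveI : Finite (symplecticGroup (Fin 2) (ZMod 2)) := Subtype.finite
    exact (Nat.bijective_iff_injective_and_card f).2 ⟨hf, hcard⟩
  exact ⟨(spCongr e0.symm).trans (MulEquiv.ofBijective f hbij).symm⟩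

end Cfsg.Agent.S0247
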