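import Cfsg.Statements.S0250
import Mathlib
import Cfsg.Agent.Lib_helper4_PSL2

set_option autoImplicit false
open Cfsg

namespace Cfsg.Agent.S0250

/-- SL_2(2) is isomorphic to S_3. -/
theorem result {F : Type*} [Field F] [Fintype F] (hF : Fintype.card F = 2) : Nonempty (Matrix.SpecialLinearGroup (Fin 2) F ≃* Equiv.Perm (Fin 3)) := by
  have hcard : Nat.card (Projectivization F (Fin 2 → F)) = 3 :=
    Cfsg.Agent.Lib_helper4_PSL2.card_proj_line hF
  have hfin : Finite (Projectivization F (Fin 2 → F)) := Nat.finite_of_card_ne_zero (by omega)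
  let e : Projectivization F (Fin 2 → F) ≃ Fin 3 := Finite.equivFinOfCardEq hcard
  have hker : (MulAction.toPermHom (Matrix.SpecialLinearGroup (Fin 2) F)
      (Projectivization F (Fin 2 → F))).ker = ⊥ := by
    rw [Projectivization.SL_mulAction_ker]
    have h1 := Cfsg.Agent.Lib_helper4_Card.card_center_SL hF 2 (by norm_num)
    simp at h1
    exact h1
  have hinj : Function.Injective (e.permCongrHom.toMonoidHom.comp
      (MulAction.toPermHom (Matrix.SpecialLinearGroup (Fin 2) F)
        (Projectivization F (Fin 2 → F)))) :=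
    e.permCongrHom.injective.comp ((MonoidHom.ker_eq_bot_iff _).mp hker)
  have hc := Cfsg.Agent.Lib_helper4_PSL2.card_SL2 (F := F) hF
  norm_num at hc
  have hbij : Function.Bijective (e.permCongrHom.toMonoidHom.comp
      (MulAction.toPermHom (Matrix.SpecialLinearGroup (Fin 2) F)
        (Projectivization F (Fin 2 → F)))) := by
    rw [Nat.bijective_iff_injective_and_card]
    refine ⟨hinj, ?_⟩
    rw [Nat.card_perm, Nat.card_fin, hc]
    rfl
  exact ⟨MulEquiv.ofBijective _ hbij⟩

end Cfsg.Agent.S0250
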