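import Cfsg.Statements.S0253
import Mathlib
import Cfsg.Agent.Lib_helper4_PSL2
import Cfsg.Agent.Lib_helper4_Order60

set_option autoImplicit false
open Cfsg

namespace Cfsg.Agent.S0253

/-- PSL_2(5) is isomorphic to A_5. -/
theorem result {F : Type*} [Field F] [Fintype F] (hF : Fintype.card F = 5) : Nonempty (Matrix.ProjectiveSpecialLinearGroup (Fin 2) F ≃* alternatingGroup (Fin 5)) := by
  have hsimple : IsSimpleGroup (Matrix.ProjectiveSpecialLinearGroup (Fin 2) F) :=
    Matrix.ProjectiveSpecialLinearGroup.rank_two_simple (by rw [Nat.card_eq_fintype_card, hF]; norm_num)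
  have hc := Cfsg.Agent.Lib_helper4_PSL2.card_PSL2 (F := F) hF
  norm_num at hc
  have hfin : Finite (Matrix.ProjectiveSpecialLinearGroup (Fin 2) F) :=
    Nat.finite_of_card_ne_zero (by omega)
  exact Cfsg.Agent.Lib_helper4_Order60.nonempty_mulEquiv_alternatingGroup_five (by omega)

end Cfsg.Agent.S0253
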