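import Cfsg.Statements.S5676
import Mathlib
import Cfsg.Agent.Lib_helper4_OOdd
import Cfsg.Agent.Lib_helper4_Transv

set_option autoImplicit false
open Cfsg

namespace Cfsg.Agent.S5676

open Matrix
open Cfsg.Agent.Lib_helper4_Quad Cfsg.Agent.Lib_helper4_Quad2 Cfsg.Agent.Lib_helper4_Orth
open scoped commutatorElement

section Generic
variable {ι : Type} [Fintype ι] [DecidableEq ι] {F : Type*} [Field F]

theorem mat_ext (A B : Matrix ι ι F) (h : ∀ x, A *ᵥ x = B *ᵥ x) : A = B := by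
  apply Matrix.toLin'.injective
  apply LinearMap.ext
  intro x
  rw [Matrix.toLin'_apply, Matrix.toLin'_apply]
  exact h x

/-- The reflection as an element of the isometry group. -/
noncomputable def rf (Q : QuadraticForm F (ι → F)) (v : ι → F) (hv : Q v ≠ 0) :
    Cfsg.isometryGroup F ⇑Q :=
  ⟨refl Q v hv, refl_mem Q v hv⟩

theorem rf_apply (Q : QuadraticForm F (ι → F)) (v : ι → F) (hv : Q v ≠ 0) (x : ι → F) :
    ((rf Q v hv : Matrix.GeneralLinearGroup ι F) : Matrix ι ι F) *ᵥ x =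
      Cfsg.reflectionMatrix ⇑Q v *ᵥ x := rfl

theorem rf_rf (Q : QuadraticForm F (ι → F)) (v : ι → F) (hv : Q v ≠ 0) (x : ι → F) :
    Cfsg.reflectionMatrix ⇑Q v *ᵥ (Cfsg.reflectionMatrix ⇑Q v *ᵥ x) = x := by
  rw [reflection_mulVec Q v x, Matrix.mulVec_sub, Matrix.mulVec_smul, reflection_self Q v hv,
    reflection_mulVec Q v x]
  module

theorem rf_mul_self (Q : QuadraticForm F (ι → F)) (v : ι → F) (hv : Q v ≠ 0) :
    rf Q v hv * rf Q v hv = 1 := by
  apply Subtype.ext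
  apply Units.ext
  show Cfsg.reflectionMatrix ⇑Q v * Cfsg.reflectionMatrix ⇑Q v = 1
  apply mat_ext
  intro x
  rw [← Matrix.mulVec_mulVec, rf_rf Q v hv, Matrix.one_mulVec]

theorem exists_omega (Q : QuadraticForm F (ι → F)) (h3 : (3 : F) = 0) (u y : ι → F)
    (hu : Q u ≠ 0) (hy : Q y = 0) (huy : QuadraticMap.polar ⇑Q u y = 0) :
    ∃ ω : Matrix.GeneralLinearGroup ι F, ω ∈ Cfsg.Geo.omegaGL ⇑Q ∧ ω.val *ᵥ u = u - y ∧
      ∀ x, QuadraticMap.polar ⇑Q u x = 0 → QuadraticMap.polar ⇑Q y x = 0 → ω.val *ᵥ x = x := by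
  have hzu : Q (u + y) = Q u := by
    rw [QuadraticMap.map_add (⇑Q) u y, hy, huy, add_zero, add_zero]
  have hz : Q (u + y) ≠ 0 := by
    rw [hzu]
    exact hu
  have hainv : (rf Q u hu)⁻¹ = rf Q u hu := inv_eq_of_mul_eq_one_right (rf_mul_self Q u hu)
  have hbinv : (rf Q (u + y) hz)⁻¹ = rf Q (u + y) hz :=
    inv_eq_of_mul_eq_one_right (rf_mul_self Q _ hz)
  have hcomm : ⁅rf Q u hu, rf Q (u + y) hz⁆ =
      rf Q u hu * rf Q (u + y) hz * rf Q u hu * rf Q (u + y) hz := by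
    rw [commutatorElement_def, hainv, hbinv]
  have hact : ∀ x, ((⁅rf Q u hu, rf Q (u + y) hz⁆ : Cfsg.isometryGroup F ⇑Q) :
      Matrix.GeneralLinearGroup ι F).val *ᵥ x =
      Cfsg.reflectionMatrix ⇑Q u *ᵥ (Cfsg.reflectionMatrix ⇑Q (u + y) *ᵥ
        (Cfsg.reflectionMatrix ⇑Q u *ᵥ (Cfsg.reflectionMatrix ⇑Q (u + y) *ᵥ x))) := by
    intro x
    rw [hcomm, coe_mul_mulVec, coe_mul_mulVec, coe_mul_mulVec]
    rfl
  have hAu : Cfsg.reflectionMatrix ⇑Q u *ᵥ u = -u := reflection_self Q u hu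
  have hAy : Cfsg.reflectionMatrix ⇑Q u *ᵥ y = y := reflection_fix Q u y huy
  have hBz : Cfsg.reflectionMatrix ⇑Q (u + y) *ᵥ (u + y) = -(u + y) := reflection_self Q _ hz
  have hBu : Cfsg.reflectionMatrix ⇑Q (u + y) *ᵥ u = -u + y := by
    rw [reflection_mulVec, hzu, QuadraticMap.polar_add_left, polar_self',
      QuadraticMap.polar_comm (⇑Q) y u, huy, add_zero]
    have h2 : (Q u)⁻¹ * (2 * Q u) = 2 := by field_simp
    rw [h2]
    calc u - (2 : F) • (u + y) = -u + y - (3 : F) • y := by module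
      _ = -u + y := by rw [h3, zero_smul, sub_zero]
  refine ⟨((⁅rf Q u hu, rf Q (u + y) hz⁆ : Cfsg.isometryGroup F ⇑Q) :
      Matrix.GeneralLinearGroup ι F), ?_, ?_, ?_⟩
  · refine ⟨⁅rf Q u hu, rf Q (u + y) hz⁆, ?_, rfl⟩
    show ⁅rf Q u hu, rf Q (u + y) hz⁆ ∈ commutator (Cfsg.isometryGroup F ⇑Q)
    rw [commutator_def]
    exact Subgroup.commutator_mem_commutator (Subgroup.mem_top _) (Subgroup.mem_top _)
  · rw [hact, hBu, Matrix.mulVec_add, Matrix.mulVec_neg, hAu, hAy, neg_neg, hBz,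
      Matrix.mulVec_neg, Matrix.mulVec_add, hAu, hAy]
    abel
  · intro x hux hyx
    have hBx : Cfsg.reflectionMatrix ⇑Q (u + y) *ᵥ x = x := by
      apply reflection_fix
      rw [QuadraticMap.polar_add_left, hux, hyx, add_zero]
    have hAx : Cfsg.reflectionMatrix ⇑Q u *ᵥ x = x := reflection_fix Q u x hux
    rw [hact, hBx, hAx, hBx, hAx]

theorem span2g (W : Submodule F (ι → F)) (hW : Module.finrank F W = 2)
    (a b : ι → F) (ha : a ∈ W) (hb : b ∈ W)
    (hind : ∀ s t : F, s • a + t • b = 0 → s = 0 ∧ t = 0) (d : ι → F) (hd : d ∈ W) :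
    ∃ α β : F, d = α • a + β • b := by
  have hli : LinearIndependent F ![a, b] := LinearIndependent.pair_iff.2 hind
  have hle : Submodule.span F (Set.range ![a, b]) ≤ W := by
    rw [Submodule.span_le]
    rintro _ ⟨i, rfl⟩
    fin_cases i
    · exact ha
    · exact hb
  have hfr : Module.finrank F (Submodule.span F (Set.range ![a, b])) = Module.finrank F W := by
    rw [finrank_span_eq_card hli, hW, Fintype.card_fin]
  have heq := Submodule.eq_of_le_of_finrank_eq hle hfr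
  rw [← heq] at hd
  obtain ⟨c, hc⟩ := (Submodule.mem_span_range_iff_exists_fun F).1 hd
  refine ⟨c 0, c 1, ?_⟩
  rw [← hc, Fin.sum_univ_two]
  rfl

theorem exists_hyp (Q : QuadraticForm F (ι → F)) (W : Submodule F (ι → F))
    (hdim : Module.finrank F W = 2)
    (hW : Cfsg.Geo.IsNondegenerateOn (QuadraticMap.polar ⇑Q) W)
    (hplus : Cfsg.Geo.IsPlusTypeOn ⇑Q W) :
    ∃ e f : ι → F, e ∈ W ∧ f ∈ W ∧ Q e = 0 ∧ Q f = 0 ∧ QuadraticMap.polar ⇑Q e f = 1 ∧
      ∀ x ∈ W, ∃ α β : F, x = α • e + β • f := by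
  obtain ⟨U, hUW, hU, hUdim⟩ := hplus
  have hU1 : Module.finrank F U = 1 := by omega
  have hUne : U ≠ ⊥ := by
    intro h
    rw [h, finrank_bot] at hU1
    omega
  obtain ⟨e, heU, he0⟩ := Submodule.exists_mem_ne_zero_of_ne_bot hUne
  have he : Q e = 0 := hU e heU
  have heW : e ∈ W := hUW heU
  obtain ⟨-, x, hx, hex⟩ := hW e heW he0
  have hfW : (QuadraticMap.polar ⇑Q e x)⁻¹ • x +
      (-((QuadraticMap.polar ⇑Q e x)⁻¹ * (QuadraticMap.polar ⇑Q e x)⁻¹ * Q x)) • e ∈ W :=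
    W.add_mem (W.smul_mem _ hx) (W.smul_mem _ heW)
  have hef : QuadraticMap.polar ⇑Q e ((QuadraticMap.polar ⇑Q e x)⁻¹ • x +
      (-((QuadraticMap.polar ⇑Q e x)⁻¹ * (QuadraticMap.polar ⇑Q e x)⁻¹ * Q x)) • e) = 1 := by
    rw [QuadraticMap.polar_add_right, QuadraticMap.polar_smul_right,
      QuadraticMap.polar_smul_right, polar_self', he, smul_eq_mul, smul_eq_mul,
      inv_mul_cancel₀ hex]
    ring
  have hf : Q ((QuadraticMap.polar ⇑Q e x)⁻¹ • x +
      (-((QuadraticMap.polar ⇑Q e x)⁻¹ * (QuadraticMap.polar ⇑Q e x)⁻¹ * Q x)) • e) = 0 := by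
    rw [quad_add_smul, QuadraticMap.map_smul, he, QuadraticMap.polar_smul_left,
      QuadraticMap.polar_comm (⇑Q) x e, smul_eq_mul, smul_eq_mul]
    field_simp
    ring
  refine ⟨e, _, heW, hfW, he, hf, hef, ?_⟩
  apply span2g W hdim e _ heW hfW
  intro s t hst
  have h1 := congrArg (QuadraticMap.polar ⇑Q e) hst
  rw [QuadraticMap.polar_add_right, QuadraticMap.polar_smul_right, QuadraticMap.polar_smul_right,
    polar_self', he, hef, QuadraticMap.polar_zero_right, smul_eq_mul, smul_eq_mul] at h1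
  have ht : t = 0 := by linear_combination h1
  subst ht
  rw [zero_smul, add_zero] at hst
  exact ⟨(smul_eq_zero.1 hst).resolve_right he0, rfl⟩

theorem stab_span_of_smul (g : Matrix.GeneralLinearGroup ι F) (p : ι → F) (ε : F) (hε : ε ≠ 0)
    (h : g.val *ᵥ p = ε • p) : g ∈ Cfsg.Geo.subspaceStabilizer (Submodule.span F {p}) := by
  have hinj : ∀ z, (g⁻¹).val *ᵥ (g.val *ᵥ z) = z := fun z => by
    rw [Matrix.mulVec_mulVec, ← Units.val_mul, inv_mul_cancel, Units.val_one, Matrix.one_mulVec]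
  rw [Cfsg.Agent.Lib_helper4_Transv.mem_subspaceStabilizer_iff]
  intro v
  rw [Submodule.mem_span_singleton, Submodule.mem_span_singleton]
  constructor
  · rintro ⟨a, rfl⟩
    exact ⟨a * ε, by rw [Matrix.mulVec_smul, h, smul_smul]⟩
  · rintro ⟨a, ha⟩
    refine ⟨a * ε⁻¹, ?_⟩
    rw [← hinj v, ← ha, ← hinj ((a * ε⁻¹) • p), Matrix.mulVec_smul, h, smul_smul, mul_assoc,
      inv_mul_cancel₀ hε, mul_one]

end Generic
section Odd
variable {F : Type*} [Field F] {m : ℕ}
open Cfsg.Agent.Lib_helper4_OOdd Cfsg.Agent.Lib_helper4_OrthCard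

theorem exists_y (hm : 2 ≤ m) (e f : Unit ⊕ (Fin m ⊕ Fin m) → F) (he : QO m F e = 0)
    (hf : QO m F f = 0) (hef : QuadraticMap.polar ⇑(QO m F) e f = 1) :
    ∃ y : Unit ⊕ (Fin m ⊕ Fin m) → F, y ≠ 0 ∧ QO m F y = 0 ∧
      QuadraticMap.polar ⇑(QO m F) e y = 0 ∧ QuadraticMap.polar ⇑(QO m F) f y = 0 := by
  have hd : HypData (QO m F) (aO m) (bO m) := hypData
  obtain ⟨i0, i1, h01⟩ : ∃ i0 i1 : Fin m, i0 ≠ i1 :=
    ⟨⟨0, by omega⟩, ⟨1, by omega⟩, by simp [Fin.ext_iff]⟩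
  have hef0 : QuadraticMap.polar ⇑(QO m F) (Pi.single (aO m i0) 1) (Pi.single (bO m i0) 1) = 1 := by
    rw [hd.polar_a, Pi.single_eq_same]
  obtain ⟨g, -, hge, hgf⟩ := exists_map_hyp (QO m F) ∅ (Pi.single (aO m i0) 1)
    (Pi.single (bO m i0) 1) e f (hd.Qa i0) (hd.Qb i0) hef0 he hf hef (by simp) (by simp) (by simp)
    (by simp)
  refine ⟨g.val.val *ᵥ Pi.single (aO m i1) 1, ?_, ?_, ?_, ?_⟩
  · intro h0
    have h1 := iso_polar ⇑(QO m F) g (Pi.single (aO m i1) 1) (Pi.single (bO m i1) 1)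
    rw [h0, QuadraticMap.polar_zero_left, hd.polar_a, Pi.single_eq_same] at h1
    exact zero_ne_one h1
  · exact (iso_apply ⇑(QO m F) g _).trans (hd.Qa i1)
  · rw [← hge, iso_polar ⇑(QO m F) g, hd.polar_a, Pi.single_apply, if_neg]
    simp [aO, bO]
  · rw [← hgf, iso_polar ⇑(QO m F) g, hd.polar_b, Pi.single_apply, if_neg]
    intro h
    exact h01 (hd.a_inj h)

end Odd

/-- Let F be the field with 3 elements, m ≥ 6, Q the standard quadratic form on F^(2m+1) and Ω the commutator subgroup of its isometry group. Let W be a 2-dimensional subspace on which the polar form is non-degenerate and which contains a line on which Q vanishes. Then the elements of Ω stabilising W form a subgroup that is not maximal: some subgroup lies strictly between it and Ω. -/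
theorem result {F : Type*} [Field F] [Fintype F] (hq : Fintype.card F = 3) (m : ℕ) (hm : 6 ≤ m) (W : Submodule F (Unit ⊕ (Fin m ⊕ Fin m) → F)) (hdim : Module.finrank F W = 2) (hW : Cfsg.Geo.IsNondegenerateOn (QuadraticMap.polar (Cfsg.quadFormOdd m F)) W) (hplus : Cfsg.Geo.IsPlusTypeOn (Cfsg.quadFormOdd m F) W) : ∃ K : Subgroup (Matrix.GeneralLinearGroup (Unit ⊕ (Fin m ⊕ Fin m)) F), Cfsg.Geo.subspaceStabilizer W ⊓ Cfsg.Geo.omegaGL (Cfsg.quadFormOdd m F) < K ∧ K < Cfsg.Geo.omegaGL (Cfsg.quadFormOdd m F) := by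
  classical
  have hco : ⇑(Cfsg.Agent.Lib_helper4_OOdd.QO m F) = Cfsg.quadFormOdd m F :=
    Cfsg.Agent.Lib_helper4_OOdd.coe_QO
  rw [← hco] at hW hplus ⊢
  have h3 : (3 : F) = 0 := by
    have h0 := FiniteField.cast_card_eq_zero F
    rw [hq] at h0
    exact_mod_cast h0
  obtain ⟨e, f, heW, hfW, he, hf, hef, hspan⟩ :=
    exists_hyp (Cfsg.Agent.Lib_helper4_OOdd.QO m F) W hdim hW hplus
  obtain ⟨y, hy0, hy, hey, hfy⟩ := exists_y (by omega) e f he hf hef
  have hfe : QuadraticMap.polar ⇑(Cfsg.Agent.Lib_helper4_OOdd.QO m F) f e = 1 := by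
    rw [QuadraticMap.polar_comm, hef]
  have hee : QuadraticMap.polar ⇑(Cfsg.Agent.Lib_helper4_OOdd.QO m F) e e = 0 := by
    rw [polar_self', he, mul_zero]
  have hff : QuadraticMap.polar ⇑(Cfsg.Agent.Lib_helper4_OOdd.QO m F) f f = 0 := by
    rw [polar_self', hf, mul_zero]
  have hp : Cfsg.Agent.Lib_helper4_OOdd.QO m F (e + f) = 1 := by
    rw [QuadraticMap.map_add (⇑(Cfsg.Agent.Lib_helper4_OOdd.QO m F)) e f, he, hf, hef]
    ring
  have hw : Cfsg.Agent.Lib_helper4_OOdd.QO m F (e - f) = -1 := by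
    have : e - f = e + (-1 : F) • f := by module
    rw [this, quad_add_smul, he, hf, hef]
    ring
  have hyW : y ∉ W := by
    intro h
    obtain ⟨α, β, hαβ⟩ := hspan y h
    have h1 : QuadraticMap.polar ⇑(Cfsg.Agent.Lib_helper4_OOdd.QO m F) e y = β := by
      rw [hαβ, QuadraticMap.polar_add_right, QuadraticMap.polar_smul_right,
        QuadraticMap.polar_smul_right, hee, hef]
      simp
    have h2 : QuadraticMap.polar ⇑(Cfsg.Agent.Lib_helper4_OOdd.QO m F) f y = α := by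
      rw [hαβ, QuadraticMap.polar_add_right, QuadraticMap.polar_smul_right,
        QuadraticMap.polar_smul_right, hfe, hff]
      simp
    rw [hey] at h1
    rw [hfy] at h2
    rw [← h1, ← h2, zero_smul, zero_smul, add_zero] at hαβ
    exact hy0 hαβ
  obtain ⟨ω₁, hω₁m, hω₁w, hω₁fix⟩ := exists_omega (Cfsg.Agent.Lib_helper4_OOdd.QO m F) h3 (e - f) y
    (by rw [hw]; exact neg_ne_zero.2 one_ne_zero) hy
    (by rw [QuadraticMap.polar_sub_left, hey, hfy, sub_zero])
  obtain ⟨ω₂, hω₂m, hω₂p, -⟩ := exists_omega (Cfsg.Agent.Lib_helper4_OOdd.QO m F) h3 (e + f) y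
    (by rw [hp]; exact one_ne_zero) hy
    (by rw [QuadraticMap.polar_add_left, hey, hfy, add_zero])
  refine ⟨Cfsg.Geo.subspaceStabilizer (Submodule.span F {e + f}) ⊓
    Cfsg.Geo.omegaGL ⇑(Cfsg.Agent.Lib_helper4_OOdd.QO m F), ?_, ?_⟩
  · refine lt_of_le_of_ne ?_ ?_
    · intro g hg
      obtain ⟨hgW, hgΩ⟩ := Subgroup.mem_inf.1 hg
      refine Subgroup.mem_inf.2 ⟨?_, hgΩ⟩
      have hgiso : g ∈ Cfsg.isometryGroup F ⇑(Cfsg.Agent.Lib_helper4_OOdd.QO m F) := by
        obtain ⟨x, -, rfl⟩ := hgΩ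
        exact x.2
      have h1 : g.val *ᵥ (e + f) ∈ W :=
        ((Cfsg.Agent.Lib_helper4_Transv.mem_subspaceStabilizer_iff g W).1 hgW (e + f)).1
          (W.add_mem heW hfW)
      obtain ⟨α, β, hαβ⟩ := hspan _ h1
      have h2 : Cfsg.Agent.Lib_helper4_OOdd.QO m F (g.val *ᵥ (e + f)) = 1 := by
        rw [(mem_isometryGroup_iff _ g).1 hgiso, hp]
      have h4 : α * β = 1 := by
        rw [hαβ, QuadraticMap.map_add (⇑(Cfsg.Agent.Lib_helper4_OOdd.QO m F)),
          QuadraticMap.map_smul, QuadraticMap.map_smul, he, hf, QuadraticMap.polar_smul_left,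
          QuadraticMap.polar_smul_right, hef] at h2
        simpa using h2
      have hβ : β ≠ 0 := by
        rintro rfl
        rw [mul_zero] at h4
        exact zero_ne_one h4
      have hβ2 : β ^ 2 = 1 := by
        have := FiniteField.pow_card_sub_one_eq_one β hβ
        rwa [hq] at this
      have hαeq : α = β := by linear_combination β * h4 - α * hβ2
      exact stab_span_of_smul g (e + f) β hβ (by rw [hαβ, hαeq, smul_add])
    · intro heq
      have hfixp : ω₁.val *ᵥ (e + f) = e + f := hω₁fix (e + f)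
        (by
          rw [QuadraticMap.polar_sub_left, QuadraticMap.polar_add_right,
            QuadraticMap.polar_add_right, hee, hef, hfe, hff]
          ring)
        (by rw [QuadraticMap.polar_comm, QuadraticMap.polar_add_left, hey, hfy, add_zero])
      have hmem : ω₁ ∈ Cfsg.Geo.subspaceStabilizer (Submodule.span F {e + f}) ⊓
          Cfsg.Geo.omegaGL ⇑(Cfsg.Agent.Lib_helper4_OOdd.QO m F) :=
        Subgroup.mem_inf.2 ⟨stab_span_of_smul ω₁ (e + f) 1 one_ne_zero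
          (by rw [hfixp, one_smul]), hω₁m⟩
      rw [← heq] at hmem
      have h5 := ((Cfsg.Agent.Lib_helper4_Transv.mem_subspaceStabilizer_iff ω₁ W).1
        (Subgroup.mem_inf.1 hmem).1 (e - f)).1 (W.sub_mem heW hfW)
      rw [hω₁w] at h5
      apply hyW
      have h6 := W.sub_mem (W.sub_mem heW hfW) h5
      simpa using h6
  · refine lt_of_le_of_ne inf_le_right ?_
    intro heq
    have hmem : ω₂ ∈ Cfsg.Geo.subspaceStabilizer (Submodule.span F {e + f}) ⊓
        Cfsg.Geo.omegaGL ⇑(Cfsg.Agent.Lib_helper4_OOdd.QO m F) := by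
      rw [heq]
      exact hω₂m
    have h1 := ((Cfsg.Agent.Lib_helper4_Transv.mem_subspaceStabilizer_iff ω₂ _).1
      (Subgroup.mem_inf.1 hmem).1 (e + f)).1 (Submodule.mem_span_singleton_self _)
    rw [hω₂p] at h1
    apply hyW
    have h2 : e + f - y ∈ W :=
      (Submodule.span_singleton_le_iff_mem _ _).2 (W.add_mem heW hfW) h1
    have h6 := W.sub_mem (W.add_mem heW hfW) h2
    simpa using h6

end Cfsg.Agent.S5676
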