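import Cfsg.Statements.S0825
import Mathlib
import Cfsg.Agent.Lib_helper4_OPlus
import Cfsg.Agent.S5676

set_option autoImplicit false
open Cfsg

namespace Cfsg.Agent.S0825

open Matrix

/-- The six vectors of weight four. -/
def bv : Fin 6 → Fin 8 → ZMod 2 :=
  ![![1,1,1,1,0,0,0,0], ![0,0,1,1,0,1,1,0], ![0,1,0,1,1,1,0,0],
    ![1,0,0,0,1,1,1,0], ![0,0,1,1,1,0,1,0], ![0,1,1,0,1,1,0,0]]

/-- The embedding matrix. -/
def B0 : Matrix (Fin 8) (Fin 3 ⊕ Fin 3) (ZMod 2) :=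
  Matrix.of fun i j => Sum.elim (fun k : Fin 3 => bv (Fin.castAdd 3 k) i) (fun k : Fin 3 => bv (Fin.natAdd 3 k) i) j

/-- The projection matrix. -/
def A0 : Matrix (Fin 3 ⊕ Fin 3) (Fin 8) (ZMod 2) :=
  Matrix.of fun j i => Sum.elim (fun k : Fin 3 => bv (Fin.natAdd 3 k) i) (fun k : Fin 3 => bv (Fin.castAdd 3 k) i) j

/-- Even weight. -/
def Ev (y : Fin 8 → ZMod 2) : Prop := ∑ i, y i = 0

instance (y : Fin 8 → ZMod 2) : Decidable (Ev y) := by
  unfold Ev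
  infer_instance

/-- The weight. -/
def wt (y : Fin 8 → ZMod 2) : ℕ := ∑ i, (y i).val

theorem all8 (P : (Fin 8 → ZMod 2) → Prop)
    (h : ∀ a b c d e f g h : ZMod 2, P ![a, b, c, d, e, f, g, h]) : ∀ y, P y := by
  intro y
  have hy : y = ![y 0, y 1, y 2, y 3, y 4, y 5, y 6, y 7] := by
    funext i
    fin_cases i <;> rfl
  rw [hy]
  exact h _ _ _ _ _ _ _ _

theorem all6 (P : (Fin 3 ⊕ Fin 3 → ZMod 2) → Prop)
    (h : ∀ a b c d e f : ZMod 2, P (Sum.elim ![a, b, c] ![d, e, f])) : ∀ v, P v := by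
  intro v
  have hv : v = Sum.elim ![v (Sum.inl 0), v (Sum.inl 1), v (Sum.inl 2)]
      ![v (Sum.inr 0), v (Sum.inr 1), v (Sum.inr 2)] := by
    funext i
    rcases i with i | i <;> fin_cases i <;> rfl
  rw [hv]
  exact h _ _ _ _ _ _

theorem K1 : ∀ y, Ev y → Cfsg.quadFormPlus 3 (ZMod 2) (A0 *ᵥ y) = ((wt y / 2 : ℕ) : ZMod 2) :=
  all8 _ (by decide +kernel)

theorem K2 : A0 * B0 = 1 := by decide +kernel

theorem K4 : ∀ v, Ev (B0 *ᵥ v) := all6 _ (by decide +kernel)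

theorem K5 : ∀ y, Ev y → B0 *ᵥ (A0 *ᵥ y) = y ∨ B0 *ᵥ (A0 *ᵥ y) = y + 1 :=
  all8 _ (by decide +kernel)

theorem K6 : A0 *ᵥ 1 = 0 := by decide +kernel

theorem K7 : ∀ y, Ev y → A0 *ᵥ y = 0 → y = 0 ∨ y = 1 :=
  all8 _ (by decide +kernel)

theorem K8 : ∀ y, wt (y + 1) + wt y = 8 :=
  all8 _ (by decide +kernel)

theorem K9 : ∀ i j : Fin 8, i ≠ j →
    Ev (Pi.single i 1 + Pi.single j 1) ∧ wt (Pi.single i 1 + Pi.single j 1) = 2 ∧
      (Pi.single i 1 + Pi.single j 1 : Fin 8 → ZMod 2) i = 1 := by decide +kernel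

theorem K10 : ∀ i j k : Fin 8, i ≠ j →
    (Pi.single i 1 + Pi.single j 1 : Fin 8 → ZMod 2) k = 1 → k = i ∨ k = j := by decide +kernel

theorem K11 : ∀ i : Fin 8, ∃ j1 j2 : Fin 8, j1 ≠ i ∧ j2 ≠ i ∧ j1 ≠ j2 := by decide

theorem Ev_perm (σ : Equiv.Perm (Fin 8)) (y : Fin 8 → ZMod 2) (h : Ev y) : Ev (y ∘ σ) := by
  unfold Ev at h ⊢
  rw [← h]
  exact Equiv.sum_comp σ y

theorem wt_perm (σ : Equiv.Perm (Fin 8)) (y : Fin 8 → ZMod 2) : wt (y ∘ σ) = wt y := by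
  unfold wt
  exact Equiv.sum_comp σ (fun i => (y i).val)

theorem Ev_add (y z : Fin 8 → ZMod 2) (hy : Ev y) (hz : Ev z) : Ev (y + z) := by
  unfold Ev at hy hz ⊢
  simp only [Pi.add_apply]
  rw [Finset.sum_add_distrib, hy, hz, add_zero]

/-- The matrix of a permutation. -/
def Gm (σ : Equiv.Perm (Fin 8)) : Matrix (Fin 3 ⊕ Fin 3) (Fin 3 ⊕ Fin 3) (ZMod 2) :=
  A0 * (σ⁻¹).permMatrix (ZMod 2) * B0

theorem Gm_mulVec (σ : Equiv.Perm (Fin 8)) (v : Fin 3 ⊕ Fin 3 → ZMod 2) :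
    Gm σ *ᵥ v = A0 *ᵥ ((B0 *ᵥ v) ∘ ⇑σ⁻¹) := by
  unfold Gm
  rw [← Matrix.mulVec_mulVec, ← Matrix.mulVec_mulVec, Matrix.permMatrix_mulVec]

theorem A0_add_one (y : Fin 8 → ZMod 2) : A0 *ᵥ (y + 1) = A0 *ᵥ y := by
  rw [Matrix.mulVec_add, K6, add_zero]

theorem BA_comp (σ : Equiv.Perm (Fin 8)) (y : Fin 8 → ZMod 2) (hy : Ev y) :
    A0 *ᵥ ((B0 *ᵥ (A0 *ᵥ y)) ∘ ⇑σ) = A0 *ᵥ (y ∘ ⇑σ) := by
  rcases K5 y hy with h | h
  · rw [h]
  · rw [h]
    have : (y + 1) ∘ ⇑σ = y ∘ ⇑σ + 1 := by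
      funext i
      rfl
    rw [this, A0_add_one]

theorem Gm_mul (σ τ : Equiv.Perm (Fin 8)) : Gm (σ * τ) = Gm σ * Gm τ := by
  apply Cfsg.Agent.S5676.mat_ext
  intro v
  rw [← Matrix.mulVec_mulVec, Gm_mulVec, Gm_mulVec, Gm_mulVec,
    BA_comp _ _ (Ev_perm _ _ (K4 v))]
  congr 1

theorem Gm_one : Gm 1 = 1 := by
  apply Cfsg.Agent.S5676.mat_ext
  intro v
  rw [Gm_mulVec, Matrix.one_mulVec]
  have : (B0 *ᵥ v) ∘ ⇑(1 : Equiv.Perm (Fin 8))⁻¹ = B0 *ᵥ v := by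
    funext i
    simp
  rw [this, Matrix.mulVec_mulVec, K2, Matrix.one_mulVec]

theorem Gm_iso (σ : Equiv.Perm (Fin 8)) (v : Fin 3 ⊕ Fin 3 → ZMod 2) :
    Cfsg.quadFormPlus 3 (ZMod 2) (Gm σ *ᵥ v) = Cfsg.quadFormPlus 3 (ZMod 2) v := by
  rw [Gm_mulVec, K1 _ (Ev_perm _ _ (K4 v)), wt_perm, ← K1 _ (K4 v), Matrix.mulVec_mulVec, K2,
    Matrix.one_mulVec]

/-- The matrix of a permutation as an invertible matrix. -/
def Gu (σ : Equiv.Perm (Fin 8)) : GL (Fin 3 ⊕ Fin 3) (ZMod 2) :=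
  ⟨Gm σ, Gm σ⁻¹, by rw [← Gm_mul, mul_inv_cancel, Gm_one], by rw [← Gm_mul, inv_mul_cancel, Gm_one]⟩

/-- The homomorphism from the symmetric group. -/
def phi : Equiv.Perm (Fin 8) →* Cfsg.isometryGroup (ZMod 2) (Cfsg.quadFormPlus 3 (ZMod 2)) where
  toFun σ := ⟨Gu σ, fun u _ => Gm_iso σ u⟩
  map_one' := by
    apply Subtype.ext
    apply Units.ext
    exact Gm_one
  map_mul' σ τ := by
    apply Subtype.ext
    apply Units.ext
    exact Gm_mul σ τ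

theorem fix_of_Gm (σ : Equiv.Perm (Fin 8)) (h : Gm σ = 1) (y : Fin 8 → ZMod 2) (hy : Ev y)
    (hw : wt y ≠ 4) : y ∘ ⇑σ⁻¹ = y := by
  have h1 : A0 *ᵥ (y ∘ ⇑σ⁻¹) = A0 *ᵥ y := by
    have h2 := Gm_mulVec σ (A0 *ᵥ y)
    rw [h, Matrix.one_mulVec, BA_comp _ _ hy] at h2
    exact h2.symm
  have h3 : A0 *ᵥ (y ∘ ⇑σ⁻¹ + y) = 0 := by
    rw [Matrix.mulVec_add, h1]
    funext i
    exact CharTwo.add_self_eq_zero _
  have h4 := K7 _ (Ev_add _ _ (Ev_perm _ _ hy) hy) h3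
  have h5 : ∀ w : Fin 8 → ZMod 2, y ∘ ⇑σ⁻¹ + y = w → y ∘ ⇑σ⁻¹ = w + y := by
    intro w hw'
    rw [← hw', add_assoc]
    have : y + y = 0 := by
      funext i
      exact CharTwo.add_self_eq_zero _
    rw [this, add_zero]
  rcases h4 with h4 | h4
  · rw [h5 _ h4, zero_add]
  · exfalso
    have h6 := h5 _ h4
    have h7 := wt_perm σ⁻¹ y
    rw [h6, add_comm] at h7
    have h8 := K8 y
    omega

theorem phi_inj : Function.Injective phi := by
  rw [injective_iff_map_eq_one]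
  intro σ hσ
  have h : Gm σ = 1 := by
    have := congrArg (fun g : Cfsg.isometryGroup (ZMod 2) (Cfsg.quadFormPlus 3 (ZMod 2)) => g.1.val) hσ
    exact this
  have key : ∀ i j : Fin 8, i ≠ j → σ i = i ∨ σ i = j := by
    intro i j hij
    obtain ⟨hE, hw, h1⟩ := K9 i j hij
    have hfix := fix_of_Gm σ h _ hE (by omega)
    have h2 := congrFun hfix (σ i)
    rw [Function.comp_apply, Equiv.Perm.inv_def, Equiv.symm_apply_apply, h1] at h2
    exact K10 i j (σ i) hij h2.symm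
  apply Equiv.ext
  intro i
  rw [Equiv.Perm.one_apply]
  by_contra hne
  obtain ⟨j1, j2, h1, h2, h12⟩ := K11 i
  have e1 := (key i j1 (Ne.symm h1)).resolve_left hne
  have e2 := (key i j2 (Ne.symm h2)).resolve_left hne
  exact h12 (e1.symm.trans e2)

theorem phi_bij : Function.Bijective phi := by
  apply Function.Injective.bijective_of_nat_card_le phi_inj
  rw [Cfsg.Agent.Lib_helper4_OPlus.card_OPlus (ZMod.card 2) 3 (by norm_num), Nat.card_eq_fintype_card,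
    Fintype.card_perm, Fintype.card_fin]
  decide

section Transport
variable {F : Type*} [Field F] [Fintype F]

theorem Q_map (e : F →+* ZMod 2) (v : Fin 3 ⊕ Fin 3 → F) :
    Cfsg.quadFormPlus 3 (ZMod 2) (fun i => e (v i)) = e (Cfsg.quadFormPlus 3 F v) := by
  simp [Cfsg.quadFormPlus, map_sum, map_mul]

theorem map_mulVec' (e : F →+* ZMod 2) (g : Matrix (Fin 3 ⊕ Fin 3) (Fin 3 ⊕ Fin 3) F)
    (v : Fin 3 ⊕ Fin 3 → F) :
    (g.map e) *ᵥ (fun i => e (v i)) = fun i => e ((g *ᵥ v) i) := by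
  funext i
  simp [Matrix.mulVec, dotProduct, map_sum, map_mul]

theorem psi_mem (e : F →+* ZMod 2) (e' : ZMod 2 → F) (he : ∀ x, e (e' x) = x)
    (g : Cfsg.isometryGroup F (Cfsg.quadFormPlus 3 F)) (u : Fin 3 ⊕ Fin 3 → ZMod 2) :
    Cfsg.quadFormPlus 3 (ZMod 2) ((g.1.val.map e) *ᵥ u) = Cfsg.quadFormPlus 3 (ZMod 2) u := by
  have hu : u = fun i => e (e' (u i)) := by
    funext i
    rw [he]
  have h1 := map_mulVec' e g.1.val (fun i => e' (u i))
  rw [← hu] at h1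
  rw [h1, Q_map]
  have h2 : Cfsg.quadFormPlus 3 F (g.1.val *ᵥ fun i => e' (u i))
      = Cfsg.quadFormPlus 3 F (fun i => e' (u i)) := g.2 _ 0
  rw [h2, ← Q_map, ← hu]

/-- The transport of isometries. -/
def psi (e : F →+* ZMod 2) (e' : ZMod 2 → F) (he : ∀ x, e (e' x) = x) :
    Cfsg.isometryGroup F (Cfsg.quadFormPlus 3 F) →*
      Cfsg.isometryGroup (ZMod 2) (Cfsg.quadFormPlus 3 (ZMod 2)) where
  toFun g := ⟨Matrix.GeneralLinearGroup.map e g.1, fun u _ => psi_mem e e' he g u⟩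
  map_one' := by
    apply Subtype.ext
    exact map_one _
  map_mul' a b := by
    apply Subtype.ext
    exact map_mul _ _ _

theorem psi_inj (e : F →+* ZMod 2) (e' : ZMod 2 → F) (he : ∀ x, e (e' x) = x) :
    Function.Injective (psi e e' he) := by
  intro a b hab
  apply Subtype.ext
  apply Units.ext
  ext i j
  have h1 : Matrix.GeneralLinearGroup.map e a.1 = Matrix.GeneralLinearGroup.map e b.1 :=
    congrArg Subtype.val hab
  have h2 : (Matrix.GeneralLinearGroup.map e a.1) i j = (Matrix.GeneralLinearGroup.map e b.1) i j := by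
    rw [h1]
  rw [Matrix.GeneralLinearGroup.map_apply, Matrix.GeneralLinearGroup.map_apply] at h2
  exact e.injective h2

theorem main (hF : Fintype.card F = 2) :
    Nonempty (↥(Cfsg.isometryGroup F (Cfsg.quadFormPlus 3 F)) ≃* Equiv.Perm (Fin 8)) := by
  haveI : Fact (Nat.Prime 2) := ⟨Nat.prime_two⟩
  have hc : Fintype.card F = Fintype.card (ZMod 2) := by rw [hF, ZMod.card]
  obtain ⟨e0⟩ : Nonempty (F ≃+* ZMod 2) := by
    have h2 : ringChar F = 2 := by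
      have hp : (ringChar F).Prime := CharP.char_is_prime F (ringChar F)
      have hdvd : ringChar F ∣ 2 := by
        rw [← CharP.cast_eq_zero_iff F (ringChar F) 2, ← hF]
        exact Nat.cast_card_eq_zero F
      exact (Nat.prime_dvd_prime_iff_eq hp Nat.prime_two).mp hdvd
    have : CharP F 2 := h2 ▸ ringChar.charP F
    exact ⟨(ZMod.ringEquivOfPrime F Nat.prime_two hF).symm⟩
  have hb : Function.Bijective (psi (e0 : F →+* ZMod 2) e0.symm (fun x => e0.apply_symm_apply x)) := by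
    apply Function.Injective.bijective_of_nat_card_le (psi_inj _ _ _)
    rw [Cfsg.Agent.Lib_helper4_OPlus.card_OPlus (ZMod.card 2) 3 (by norm_num),
      Cfsg.Agent.Lib_helper4_OPlus.card_OPlus hF 3 (by norm_num)]
  exact ⟨(MulEquiv.ofBijective _ hb).trans (MulEquiv.ofBijective phi phi_bij).symm⟩

end Transport

/-- O⁺_6(2) ≅ S_8: the isometry group of the hyperbolic form x_1y_1 + x_2y_2 + x_3y_3 over the field with 2 elements is isomorphic to the symmetric group on 8 letters. -/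
theorem result {F : Type*} [Field F] [Fintype F] (hF : Fintype.card F = 2) : Nonempty (↥(Cfsg.isometryGroup F (Cfsg.quadFormPlus 3 F)) ≃* Equiv.Perm (Fin 8)) := by
  exact main hF

end Cfsg.Agent.S0825
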