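import Cfsg.Statements.S0256
import Mathlib
import Cfsg.Agent.S0825
import Cfsg.Agent.S0243
import Cfsg.Agent.S0249

set_option autoImplicit false
open Cfsg

namespace Cfsg.Agent.S0256

open Matrix

section Gen
variable {R : Type*} [CommRing R]

/-- The index pairs of the basis of the exterior square. -/
def pr : Fin 3 ⊕ Fin 3 → Fin 4 × Fin 4 :=
  Sum.elim ![(0, 1), (0, 2), (0, 3)] ![(2, 3), (3, 1), (1, 2)]

/-- The exterior square of a matrix. -/
def L (g : Matrix (Fin 4) (Fin 4) R) : Matrix (Fin 3 ⊕ Fin 3) (Fin 3 ⊕ Fin 3) R :=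
  Matrix.of fun P Q => g (pr P).1 (pr Q).1 * g (pr P).2 (pr Q).2 - g (pr P).2 (pr Q).1 * g (pr P).1 (pr Q).2

theorem L_apply (g : Matrix (Fin 4) (Fin 4) R) (P Q : Fin 3 ⊕ Fin 3) :
    L g P Q = g (pr P).1 (pr Q).1 * g (pr P).2 (pr Q).2 - g (pr P).2 (pr Q).1 * g (pr P).1 (pr Q).2 := rfl

theorem L_one : L (1 : Matrix (Fin 4) (Fin 4) R) = 1 := by
  ext P Q
  rcases P with P | P <;> rcases Q with Q | Q <;> fin_cases P <;> fin_cases Q <;>
    simp [L_apply, pr, Matrix.one_apply]

set_option maxHeartbeats 1600000 in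
theorem L_mul (g h : Matrix (Fin 4) (Fin 4) R) : L (g * h) = L g * L h := by
  ext P Q
  rcases P with P | P <;> rcases Q with Q | Q <;> fin_cases P <;> fin_cases Q <;>
    simp only [L_apply, pr, Matrix.mul_apply, Fin.sum_univ_four, Fintype.sum_sum_type,
      Fin.sum_univ_three, Sum.elim_inl, Sum.elim_inr, Matrix.cons_val_zero, Matrix.cons_val_one,
      Matrix.cons_val_two, Matrix.tail_cons, Matrix.head_cons] <;>
    ring

end Gen

section Fld
variable {F : Type*} [Field F]

/-- A vector of norm one. -/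
def p0 : Fin 3 ⊕ Fin 3 → F := Sum.elim ![1, 0, 0] ![1, 0, 0]

set_option maxHeartbeats 1600000 in
theorem L_quad (g : Matrix (Fin 4) (Fin 4) F) (p : Fin 3 ⊕ Fin 3 → F) :
    Cfsg.quadFormPlus 3 F (L g *ᵥ p)
      = Cfsg.quadFormPlus 3 F (L g *ᵥ p0) * Cfsg.quadFormPlus 3 F p := by
  simp only [Cfsg.quadFormPlus, Matrix.mulVec, dotProduct, Fintype.sum_sum_type,
    Fin.sum_univ_three, L_apply, pr, p0, Sum.elim_inl, Sum.elim_inr, Matrix.cons_val_zero,
    Matrix.cons_val_one, Matrix.cons_val_two, Matrix.tail_cons, Matrix.head_cons]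
  ring

theorem Q_p0 : Cfsg.quadFormPlus 3 F (p0 : Fin 3 ⊕ Fin 3 → F) = 1 := by
  simp [Cfsg.quadFormPlus, p0, Fin.sum_univ_three]

/-- The exterior square as an invertible matrix. -/
def LU (g : Matrix.SpecialLinearGroup (Fin 4) F) : GL (Fin 3 ⊕ Fin 3) F :=
  ⟨L g.val, L (g⁻¹).val,
    by rw [← L_mul, ← Matrix.SpecialLinearGroup.coe_mul, mul_inv_cancel,
      Matrix.SpecialLinearGroup.coe_one, L_one],
    by rw [← L_mul, ← Matrix.SpecialLinearGroup.coe_mul, inv_mul_cancel,
      Matrix.SpecialLinearGroup.coe_one, L_one]⟩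

variable [Fintype F]

theorem all2 (hF : Fintype.card F = 2) (x : F) : x = 0 ∨ x = 1 := by
  have h := FiniteField.pow_card x
  rw [hF] at h
  have h1 : x * (x - 1) = 0 := by linear_combination h
  rcases mul_eq_zero.mp h1 with h2 | h2
  · exact Or.inl h2
  · exact Or.inr (sub_eq_zero.mp h2)

theorem L_iso (hF : Fintype.card F = 2) (g : Matrix.SpecialLinearGroup (Fin 4) F)
    (p : Fin 3 ⊕ Fin 3 → F) :
    Cfsg.quadFormPlus 3 F (L g.val *ᵥ p) = Cfsg.quadFormPlus 3 F p := by
  have hc : Cfsg.quadFormPlus 3 F (L g.val *ᵥ p0) ≠ 0 := by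
    intro h0
    have h1 := L_quad g.val (L (g⁻¹).val *ᵥ p0)
    rw [Matrix.mulVec_mulVec, ← L_mul, ← Matrix.SpecialLinearGroup.coe_mul, mul_inv_cancel,
      Matrix.SpecialLinearGroup.coe_one, L_one, Matrix.one_mulVec, h0, zero_mul, Q_p0] at h1
    exact one_ne_zero h1
  rw [L_quad g.val p, (all2 hF _).resolve_left hc, one_mul]

/-- The homomorphism from `SL_4` to the orthogonal group. -/
def psi0 (hF : Fintype.card F = 2) :
    Matrix.SpecialLinearGroup (Fin 4) F →* Cfsg.isometryGroup F (Cfsg.quadFormPlus 3 F) where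
  toFun g := ⟨LU g, fun u _ => L_iso hF g u⟩
  map_one' := by
    apply Subtype.ext
    apply Units.ext
    show L (1 : Matrix.SpecialLinearGroup (Fin 4) F).val = 1
    rw [Matrix.SpecialLinearGroup.coe_one, L_one]
  map_mul' a b := by
    apply Subtype.ext
    apply Units.ext
    show L (a * b).val = L a.val * L b.val
    rw [Matrix.SpecialLinearGroup.coe_mul, L_mul]

theorem psi0_center (hF : Fintype.card F = 2) (x : Matrix.SpecialLinearGroup (Fin 4) F)
    (hx : x ∈ Subgroup.center (Matrix.SpecialLinearGroup (Fin 4) F)) : psi0 hF x = 1 := by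
  obtain ⟨r, hr, hrx⟩ := Matrix.SpecialLinearGroup.mem_center_iff.mp hx
  have hr0 : r ≠ 0 := by
    rintro rfl
    rw [Fintype.card_fin] at hr
    simp at hr
  have hr1 : r = 1 := (all2 hF r).resolve_left hr0
  have hx1 : x = 1 := by
    apply Subtype.ext
    rw [← hrx, hr1, map_one]
    rfl
  rw [hx1, map_one]

/-- The homomorphism from `PSL_4` to the orthogonal group. -/
def psi (hF : Fintype.card F = 2) :
    Matrix.ProjectiveSpecialLinearGroup (Fin 4) F →* Cfsg.isometryGroup F (Cfsg.quadFormPlus 3 F) :=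
  QuotientGroup.lift _ (psi0 hF) (psi0_center hF)

/-- A transvection. -/
def g0 : Matrix.SpecialLinearGroup (Fin 4) F :=
  ⟨Matrix.transvection 0 1 (1 : F), Matrix.det_transvection_of_ne 0 1 (by decide) 1⟩

theorem psi_inj (hF : Fintype.card F = 2) : Function.Injective (psi hF) := by
  haveI : IsSimpleGroup (Matrix.ProjectiveSpecialLinearGroup (Fin 4) F) :=
    Cfsg.Agent.S0249.result 4 (by norm_num)
  rw [← MonoidHom.ker_eq_bot_iff]
  rcases (MonoidHom.normal_ker (psi hF)).eq_bot_or_eq_top with h | h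
  · exact h
  · exfalso
    have h1 : (QuotientGroup.mk g0 : Matrix.ProjectiveSpecialLinearGroup (Fin 4) F) ∈ (psi hF).ker := by
      rw [h]
      exact Subgroup.mem_top _
    rw [MonoidHom.mem_ker] at h1
    have h2 : psi0 hF g0 = 1 := h1
    have h3 : L (g0 : Matrix.SpecialLinearGroup (Fin 4) F).val = 1 := by
      have := congrArg (fun g : Cfsg.isometryGroup F (Cfsg.quadFormPlus 3 F) => g.1.val) h2
      exact this
    have h4 := congrFun (congrFun h3 (Sum.inl 1)) (Sum.inr 2)
    rw [L_apply] at h4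
    simp [g0, pr, Matrix.transvection, Matrix.one_apply, Matrix.single_apply] at h4

theorem main (hF : Fintype.card F = 2) :
    Nonempty (Matrix.ProjectiveSpecialLinearGroup (Fin 4) F ≃* alternatingGroup (Fin 8)) := by
  obtain ⟨e⟩ := Cfsg.Agent.S0825.result hF
  have hθ : Function.Injective (e.toMonoidHom.comp (psi hF)) :=
    e.injective.comp (psi_inj hF)
  have hcard : Nat.card (Matrix.ProjectiveSpecialLinearGroup (Fin 4) F) = 20160 := by
    have h := Cfsg.Agent.S0243.result hF 4 (by norm_num)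
    norm_num [Fin.prod_univ_four] at h
    exact h
  have hr : Nat.card (e.toMonoidHom.comp (psi hF)).range = 20160 := by
    rw [← hcard]
    exact (Nat.card_congr (MonoidHom.ofInjective hθ).toEquiv).symm
  have hidx : (e.toMonoidHom.comp (psi hF)).range.index = 2 := by
    have h := Subgroup.index_mul_card (e.toMonoidHom.comp (psi hF)).range
    rw [hr, Nat.card_eq_fintype_card, Fintype.card_perm, Fintype.card_fin] at h
    have h8 : Nat.factorial 8 = 40320 := by decide
    rw [h8] at h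
    omega
  have hrange := Equiv.Perm.eq_alternatingGroup_of_index_eq_two hidx
  exact ⟨(MonoidHom.ofInjective hθ).trans (MulEquiv.subgroupCongr hrange)⟩

end Fld

/-- PSL_4(2) is isomorphic to A_8. -/
theorem result {F : Type*} [Field F] [Fintype F] (hF : Fintype.card F = 2) : Nonempty (Matrix.ProjectiveSpecialLinearGroup (Fin 4) F ≃* alternatingGroup (Fin 8)) := by
  exact main hF

end Cfsg.Agent.S0256
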