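import Cfsg.Statements.S0257
import Mathlib
import Cfsg.Agent.Lib_helper4_SL2Quat
import Cfsg.Agent.Lib_helper4_SL2Cyc
import Cfsg.Agent.Lib_helper4_Card

set_option autoImplicit false
open Cfsg

namespace Cfsg.Agent.S0257

open Matrix Cfsg.Agent.Lib_helper4_SL2Quat Cfsg.Agent.Lib_helper4_SL2Cyc in
/-- Trace-zero elements of `SL_2(q)` when `-1` is a non-square. -/
lemma card_trace_zero {F : Type*} [Field F] [Fintype F] (h3 : Fintype.card F % 4 = 3) :
    Nat.card {g : SpecialLinearGroup (Fin 2) F //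
      (g : Matrix (Fin 2) (Fin 2) F) 0 0 + (g : Matrix (Fin 2) (Fin 2) F) 1 1 = 0}
      = Fintype.card F * (Fintype.card F - 1) := by
  have hns : ∀ t : F, t ^ 2 ≠ -1 := by
    intro t ht
    have hsq : IsSquare (-1 : F) := ⟨t, by linear_combination -ht⟩
    exact (FiniteField.isSquare_neg_one_iff.mp hsq) h3
  have hb : ∀ g : {g : SpecialLinearGroup (Fin 2) F //
      (g : Matrix (Fin 2) (Fin 2) F) 0 0 + (g : Matrix (Fin 2) (Fin 2) F) 1 1 = 0},
      (g.1 : Matrix (Fin 2) (Fin 2) F) 0 1 ≠ 0 := by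
    rintro ⟨g, hg⟩ h0
    have hd := det_eq g
    apply hns ((g : Matrix (Fin 2) (Fin 2) F) 0 0)
    have h0' : (g : Matrix (Fin 2) (Fin 2) F) 0 1 = 0 := h0
    rw [h0'] at hd
    linear_combination -hd + (g : Matrix (Fin 2) (Fin 2) F) 0 0 * hg
  have e : {g : SpecialLinearGroup (Fin 2) F //
      (g : Matrix (Fin 2) (Fin 2) F) 0 0 + (g : Matrix (Fin 2) (Fin 2) F) 1 1 = 0} ≃ F × Fˣ :=
    { toFun := fun g => ((g.1 : Matrix (Fin 2) (Fin 2) F) 0 0, Units.mk0 _ (hb g))
      invFun := fun p => ⟨⟨!![p.1, (p.2 : F); -(1 + p.1 ^ 2) / (p.2 : F), -p.1], by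
          rw [Matrix.det_fin_two_of]
          have := p.2.ne_zero
          field_simp
          ring⟩, by
          show p.1 + -p.1 = 0
          ring⟩
      left_inv := by
        rintro ⟨g, hg⟩
        have hb' := hb ⟨g, hg⟩
        have hd := det_eq g
        apply Subtype.ext
        apply ext2
        · rfl
        · rfl
        · show -(1 + (g : Matrix (Fin 2) (Fin 2) F) 0 0 ^ 2) / (g : Matrix (Fin 2) (Fin 2) F) 0 1
            = (g : Matrix (Fin 2) (Fin 2) F) 1 0
          have hb'' : (g : Matrix (Fin 2) (Fin 2) F) 0 1 ≠ 0 := hb'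
          field_simp
          linear_combination hd - (g : Matrix (Fin 2) (Fin 2) F) 0 0 * hg
        · show -(g : Matrix (Fin 2) (Fin 2) F) 0 0 = (g : Matrix (Fin 2) (Fin 2) F) 1 1
          linear_combination -hg
      right_inv := by
        rintro ⟨a, b⟩
        apply Prod.ext
        · rfl
        · apply Units.ext
          rfl }
  rw [Nat.card_congr e, Nat.card_prod, Nat.card_units, Nat.card_eq_fintype_card]


/-- SL_2(3) has a normal subgroup of index 3 isomorphic to the quaternion group of order 8, and its centre has order 2. -/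
theorem result {F : Type*} [Field F] [Fintype F] (hF : Fintype.card F = 3) : (∃ Q : Subgroup (Matrix.SpecialLinearGroup (Fin 2) F), Q.Normal ∧ Q.index = 3 ∧ Nonempty (Q ≃* QuaternionGroup 2)) ∧ Nat.card (Subgroup.center (Matrix.SpecialLinearGroup (Fin 2) F)) = 2 := by
  classical
  have hF3 : Fintype.card F % 4 = 3 := by rw [hF]
  have hodd : Odd (Fintype.card F) := by rw [hF]; decide
  have h2 : (2 : F) ≠ 0 := by
    intro h
    have hch : ringChar F = 2 := CharP.ringChar_of_prime_eq_zero Nat.prime_two (by exact_mod_cast h)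
    have := FiniteField.even_card_of_char_two hch
    omega
  have hcardG : Nat.card (Matrix.SpecialLinearGroup (Fin 2) F) = 24 := by
    rw [Cfsg.Agent.Lib_helper4_SL2Cyc.card_SL2, hF]
  refine ⟨?_, ?_⟩
  swap
  · rw [Cfsg.Agent.Lib_helper4_Card.card_center_SL hF 2 (by norm_num)]
    rfl
  obtain ⟨P⟩ : Nonempty (Sylow 2 (Matrix.SpecialLinearGroup (Fin 2) F)) := inferInstance
  -- order of P
  have hP8 : ∀ P : Sylow 2 (Matrix.SpecialLinearGroup (Fin 2) F), Nat.card P = 8 := by
    intro P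
    obtain ⟨m, hm⟩ := IsPGroup.iff_card.mp P.isPGroup'
    have h8 : 2 ^ 3 ∣ Nat.card (Matrix.SpecialLinearGroup (Fin 2) F) := by
      rw [hcardG]; decide
    have h9 := P.pow_dvd_card_of_pow_dvd_card h8
    rw [hm] at h9
    have hm3 : 3 ≤ m := (Nat.pow_dvd_pow_iff_le_right (by norm_num)).mp h9
    have hdvd : 2 ^ m ∣ 24 := by
      rw [← hm, ← hcardG]; exact Subgroup.card_subgroup_dvd_card _
    have hm4 : m ≤ 3 := by
      by_contra hc
      have h16 : 2 ^ 4 ∣ 2 ^ m := pow_dvd_pow 2 (by omega)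
      have : 2 ^ 4 ∣ 24 := h16.trans hdvd
      revert this
      decide
    have : m = 3 := by omega
    rw [hm, this]
    norm_num
  obtain ⟨k, hk1, ⟨φ⟩⟩ := Cfsg.Agent.Lib_helper4_SL2Quat.sylow_quat hodd P
  have hk : k = 1 := by
    have hc : Nat.card (QuaternionGroup (2 ^ k)) = 8 := by
      rw [← Nat.card_congr φ.toEquiv]; exact hP8 P
    haveI : NeZero (2 ^ k) := ⟨by positivity⟩
    rw [Nat.card_eq_fintype_card, QuaternionGroup.card] at hc
    have h2k : 2 ^ k = 2 ^ 1 := by omega
    exact Nat.pow_right_injective (le_refl 2) h2k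
  subst hk
  -- every 2-element is ±1 or has trace zero
  have hmem : ∀ (P : Sylow 2 (Matrix.SpecialLinearGroup (Fin 2) F)) (x : Matrix.SpecialLinearGroup (Fin 2) F),
      x ∈ P → x = 1 ∨ x = Cfsg.Agent.Lib_helper4_SL2Quat.negOne ∨
        (x : Matrix (Fin 2) (Fin 2) F) 0 0 + (x : Matrix (Fin 2) (Fin 2) F) 1 1 = 0 := by
    intro P x hx
    obtain ⟨k', hk1', ⟨φ'⟩⟩ := Cfsg.Agent.Lib_helper4_SL2Quat.sylow_quat hodd P
    have hk' : k' = 1 := by
      have hc : Nat.card (QuaternionGroup (2 ^ k')) = 8 := by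
        rw [← Nat.card_congr φ'.toEquiv]; exact hP8 P
      haveI : NeZero (2 ^ k') := ⟨by positivity⟩
      rw [Nat.card_eq_fintype_card, QuaternionGroup.card] at hc
      have h2k : 2 ^ k' = 2 ^ 1 := by omega
      exact Nat.pow_right_injective (le_refl 2) h2k
    subst hk'
    have hx4 : x ^ 4 = 1 := by
      have h1 : (φ' ⟨x, hx⟩) ^ 4 = 1 := by
        have he : Monoid.exponent (QuaternionGroup (2 ^ 1)) = 4 := by
          rw [QuaternionGroup.exponent]; rfl
        rw [← he]
        exact Monoid.pow_exponent_eq_one _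
      rw [← map_pow] at h1
      have h2' : (⟨x, hx⟩ : (P : Subgroup (Matrix.SpecialLinearGroup (Fin 2) F))) ^ 4 = 1 :=
        φ'.injective (by rw [h1, map_one])
      exact congrArg Subtype.val h2'
    have hxx : (x * x) * (x * x) = 1 := by
      have e4 : (x * x) * (x * x) = x ^ 4 := by
        simp only [pow_succ, pow_zero, one_mul, mul_assoc]
      rw [e4]; exact hx4
    by_cases h1 : x * x = 1
    · by_cases h1' : x = 1
      · exact Or.inl h1'
      · exact Or.inr (Or.inl (Cfsg.Agent.Lib_helper4_SL2Quat.eq_negOne_of_sq h2 x h1 h1'))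
    · right; right
      have hneg := Cfsg.Agent.Lib_helper4_SL2Quat.eq_negOne_of_sq h2 (x * x) hxx h1
      have e00 := congrArg (fun g : Matrix.SpecialLinearGroup (Fin 2) F => (g : Matrix (Fin 2) (Fin 2) F) 0 0) hneg
      have e01 := congrArg (fun g : Matrix.SpecialLinearGroup (Fin 2) F => (g : Matrix (Fin 2) (Fin 2) F) 0 1) hneg
      have e10 := congrArg (fun g : Matrix.SpecialLinearGroup (Fin 2) F => (g : Matrix (Fin 2) (Fin 2) F) 1 0) hneg
      have e11 := congrArg (fun g : Matrix.SpecialLinearGroup (Fin 2) F => (g : Matrix (Fin 2) (Fin 2) F) 1 1) hneg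
      simp only [Cfsg.Agent.Lib_helper4_SL2Quat.mul_entries, Cfsg.Agent.Lib_helper4_SL2Quat.negOne_00,
        Cfsg.Agent.Lib_helper4_SL2Quat.negOne_01, Cfsg.Agent.Lib_helper4_SL2Quat.negOne_10,
        Cfsg.Agent.Lib_helper4_SL2Quat.negOne_11] at e00 e01 e10 e11
      have hd := Cfsg.Agent.Lib_helper4_SL2Quat.det_eq x
      set a := (x : Matrix (Fin 2) (Fin 2) F) 0 0
      set b := (x : Matrix (Fin 2) (Fin 2) F) 0 1
      set c := (x : Matrix (Fin 2) (Fin 2) F) 1 0
      set d := (x : Matrix (Fin 2) (Fin 2) F) 1 1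
      -- a^2 + bc = -1, ad - bc = 1 ⇒ a (a + d) = 0 ; d^2 + bc = -1 ⇒ d (a + d) = 0
      have h5 : a * (a + d) = 0 := by linear_combination e00 + hd
      have h6 : d * (a + d) = 0 := by linear_combination e11 + hd
      by_contra hne
      have ha0 : a = 0 := by
        rcases mul_eq_zero.mp h5 with h | h
        · exact h
        · exact absurd h hne
      have hd0 : d = 0 := by
        rcases mul_eq_zero.mp h6 with h | h
        · exact h
        · exact absurd h hne
      apply hne
      rw [ha0, hd0, add_zero]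
  -- the common carrier
  set S : Set (Matrix.SpecialLinearGroup (Fin 2) F) :=
    {x | x = 1 ∨ x = Cfsg.Agent.Lib_helper4_SL2Quat.negOne ∨
      (x : Matrix (Fin 2) (Fin 2) F) 0 0 + (x : Matrix (Fin 2) (Fin 2) F) 1 1 = 0} with hS
  have hScard : S.ncard ≤ 8 := by
    have hsub : S ⊆ ({1, Cfsg.Agent.Lib_helper4_SL2Quat.negOne} : Set (Matrix.SpecialLinearGroup (Fin 2) F))
        ∪ {x | (x : Matrix (Fin 2) (Fin 2) F) 0 0 + (x : Matrix (Fin 2) (Fin 2) F) 1 1 = 0} := by
      rintro x (h | h | h)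
      · left; left; exact h
      · left; right; exact h
      · right; exact h
    have hT : ({x | (x : Matrix (Fin 2) (Fin 2) F) 0 0 + (x : Matrix (Fin 2) (Fin 2) F) 1 1 = 0} :
        Set (Matrix.SpecialLinearGroup (Fin 2) F)).ncard = 6 := by
      rw [← Nat.card_coe_set_eq]
      have := card_trace_zero (F := F) hF3
      rw [hF] at this
      exact this
    calc S.ncard ≤ (({1, Cfsg.Agent.Lib_helper4_SL2Quat.negOne} : Set (Matrix.SpecialLinearGroup (Fin 2) F))
          ∪ {x | (x : Matrix (Fin 2) (Fin 2) F) 0 0 + (x : Matrix (Fin 2) (Fin 2) F) 1 1 = 0}).ncard :=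
          Set.ncard_le_ncard hsub (Set.toFinite _)
      _ ≤ ({1, Cfsg.Agent.Lib_helper4_SL2Quat.negOne} : Set (Matrix.SpecialLinearGroup (Fin 2) F)).ncard
          + ({x | (x : Matrix (Fin 2) (Fin 2) F) 0 0 + (x : Matrix (Fin 2) (Fin 2) F) 1 1 = 0} :
            Set (Matrix.SpecialLinearGroup (Fin 2) F)).ncard := Set.ncard_union_le _ _
      _ ≤ 2 + 6 := by
          rw [hT]
          have h7 := Set.ncard_insert_le (1 : Matrix.SpecialLinearGroup (Fin 2) F)
            {Cfsg.Agent.Lib_helper4_SL2Quat.negOne}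
          rw [Set.ncard_singleton] at h7
          omega
  have hPS : ∀ P : Sylow 2 (Matrix.SpecialLinearGroup (Fin 2) F),
      ((P : Subgroup (Matrix.SpecialLinearGroup (Fin 2) F)) : Set (Matrix.SpecialLinearGroup (Fin 2) F)) = S := by
    intro P
    apply Set.eq_of_subset_of_ncard_le (fun x hx => hmem P x hx) _ (Set.toFinite _)
    have : ((P : Subgroup (Matrix.SpecialLinearGroup (Fin 2) F)) : Set (Matrix.SpecialLinearGroup (Fin 2) F)).ncard = 8 := by
      rw [← Nat.card_coe_set_eq]
      exact hP8 P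
    exact hScard.trans (le_of_eq this.symm)
  have hnormal : (P : Subgroup (Matrix.SpecialLinearGroup (Fin 2) F)).Normal := by
    rw [← Subgroup.normalizer_eq_top_iff, eq_top_iff]
    intro g _
    have hgP : g • P = P := by
      apply Sylow.ext
      apply SetLike.coe_injective
      rw [hPS, hPS]
    exact Sylow.smul_eq_iff_mem_normalizer.mp hgP
  refine ⟨(P : Subgroup (Matrix.SpecialLinearGroup (Fin 2) F)), hnormal, ?_, ⟨φ⟩⟩
  have h1 := Subgroup.card_mul_index (P : Subgroup (Matrix.SpecialLinearGroup (Fin 2) F))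
  rw [hP8 P, hcardG] at h1
  omega

end Cfsg.Agent.S0257
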