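import Cfsg.Statements.S0258
import Mathlib
import Cfsg.Agent.Lib_helper4_GL2Syl

set_option autoImplicit false
open Cfsg

namespace Cfsg.Agent.S0258

/-- GL_2(q), q a power of the prime p, has exactly q + 1 Sylow p-subgroups. -/
theorem result {F : Type*} [Field F] [Fintype F] {q : ℕ} (hF : Fintype.card F = q) (p : ℕ) [Fact p.Prime] [CharP F p] : Nat.card (Sylow p (Matrix.GeneralLinearGroup (Fin 2) F)) = q + 1 := by
  classical
  obtain ⟨P⟩ : Nonempty (Sylow p (Matrix.GeneralLinearGroup (Fin 2) F)) := inferInstance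
  rw [Sylow.card_eq_index_normalizer P]
  have h1 := Subgroup.card_mul_index
    (Subgroup.normalizer ((P : Subgroup (Matrix.GeneralLinearGroup (Fin 2) F)) : Set (Matrix.GeneralLinearGroup (Fin 2) F)))
  rw [Cfsg.Agent.Lib_helper4_GL2Syl.card_normalizer_sylow hF p P, Matrix.card_GL_field,
    Fin.prod_univ_two, hF] at h1
  have hq : 1 < q := by rw [← hF]; exact Fintype.one_lt_card
  obtain ⟨r, rfl⟩ : ∃ r, q = r + 1 := ⟨q - 1, by omega⟩
  have hr : 1 ≤ r := by omega
  have e1 : (r + 1) ^ 2 - (r + 1) ^ ((0 : Fin 2) : ℕ) = r * (r + 2) := by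
    have : (r + 1) ^ 2 = r * (r + 2) + 1 := by ring
    simp only [Fin.val_zero, pow_zero]
    omega
  have e2 : (r + 1) ^ 2 - (r + 1) ^ ((1 : Fin 2) : ℕ) = r * (r + 1) := by
    have : (r + 1) ^ 2 = r * (r + 1) + (r + 1) := by ring
    simp only [Fin.val_one, pow_one]
    omega
  rw [e1, e2, Nat.add_sub_cancel] at h1
  have h2 : (r + 1) * r ^ 2 * (Subgroup.normalizer ((P : Subgroup (Matrix.GeneralLinearGroup (Fin 2) F)) : Set (Matrix.GeneralLinearGroup (Fin 2) F))).index
      = (r + 1) * r ^ 2 * (r + 1 + 1) := by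
    rw [h1]; ring
  exact Nat.eq_of_mul_eq_mul_left (by positivity) h2

end Cfsg.Agent.S0258
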