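import Cfsg.Statements.S0259
import Mathlib
import Cfsg.Agent.Lib_helper4_GL2Syl

set_option autoImplicit false
open Cfsg

namespace Cfsg.Agent.S0259

/-- Distinct Sylow p-subgroups of GL_2(q), p the characteristic, intersect trivially. -/
theorem result {F : Type*} [Field F] [Fintype F] (p : ℕ) [Fact p.Prime] [CharP F p] (P Q : Sylow p (Matrix.GeneralLinearGroup (Fin 2) F)) (h : P ≠ Q) : (P : Subgroup (Matrix.GeneralLinearGroup (Fin 2) F)) ⊓ (Q : Subgroup (Matrix.GeneralLinearGroup (Fin 2) F)) = ⊥ := by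
  obtain ⟨g, hg⟩ := Cfsg.Agent.Lib_helper4_GL2Syl.exists_conj p P
  obtain ⟨h', hh⟩ := Cfsg.Agent.Lib_helper4_GL2Syl.exists_conj p Q
  rw [Subgroup.eq_bot_iff_forall]
  intro x hx
  by_contra hx1
  apply h
  obtain ⟨hxP, hxQ⟩ := Subgroup.mem_inf.mp hx
  rw [hg, Cfsg.Agent.Lib_helper4_GL2Syl.mem_map_conj] at hxP
  rw [hh, Cfsg.Agent.Lib_helper4_GL2Syl.mem_map_conj] at hxQ
  have hy1 : g⁻¹ * x * g ≠ 1 := by
    intro h1
    apply hx1
    have : x = g * (g⁻¹ * x * g) * g⁻¹ := by group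
    rw [this, h1]
    group
  have hk := Cfsg.Agent.Lib_helper4_GL2Syl.lower_of_conj_mem (g⁻¹ * h') (g⁻¹ * x * g) hxP hy1
    (by
      have e : (g⁻¹ * h')⁻¹ * (g⁻¹ * x * g) * (g⁻¹ * h') = h'⁻¹ * x * h' := by group
      rw [e]; exact hxQ)
  have hN := (Cfsg.Agent.Lib_helper4_GL2Syl.mem_normalizer_U_iff _).mpr hk
  apply Sylow.ext
  rw [hg, hh]
  ext z
  rw [Cfsg.Agent.Lib_helper4_GL2Syl.mem_map_conj, Cfsg.Agent.Lib_helper4_GL2Syl.mem_map_conj]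
  have h3 := (Subgroup.mem_normalizer_iff.mp hN) (h'⁻¹ * z * h')
  have e : g⁻¹ * h' * (h'⁻¹ * z * h') * (g⁻¹ * h')⁻¹ = g⁻¹ * z * g := by group
  rw [e] at h3
  exact h3.symm

end Cfsg.Agent.S0259
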