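import Cfsg.Statements.S0260
import Mathlib
import Cfsg.Agent.Lib_helper4_SL2Syl

set_option autoImplicit false
open Cfsg

namespace Cfsg.Agent.S0260

/-- Any two distinct Sylow p-subgroups of SL_2(q), p the characteristic, generate SL_2(q). -/
theorem result {F : Type*} [Field F] [Fintype F] (p : ℕ) [Fact p.Prime] [CharP F p] (P Q : Sylow p (Matrix.SpecialLinearGroup (Fin 2) F)) (h : P ≠ Q) : (P : Subgroup (Matrix.SpecialLinearGroup (Fin 2) F)) ⊔ (Q : Subgroup (Matrix.SpecialLinearGroup (Fin 2) F)) = ⊤ := by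
  obtain ⟨g, hg⟩ := Cfsg.Agent.Lib_helper4_SL2Syl.exists_conj p P
  obtain ⟨h', hh⟩ := Cfsg.Agent.Lib_helper4_SL2Syl.exists_conj p Q
  have e : (Cfsg.Agent.Lib_helper4_SL2Syl.U : Subgroup (Matrix.SpecialLinearGroup (Fin 2) F)).map
        (MulAut.conj h').toMonoidHom
      = ((Cfsg.Agent.Lib_helper4_SL2Syl.U : Subgroup (Matrix.SpecialLinearGroup (Fin 2) F)).map
        (MulAut.conj (g⁻¹ * h')).toMonoidHom).map (MulAut.conj g).toMonoidHom := by
    rw [Subgroup.map_map]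
    congr 1
    ext x : 1
    simp only [MulEquiv.toMonoidHom_eq_coe, MonoidHom.coe_coe, MonoidHom.coe_comp,
      Function.comp_apply, MulAut.conj_apply]
    group
  have hk : ((g⁻¹ * h' : Matrix.SpecialLinearGroup (Fin 2) F) : Matrix (Fin 2) (Fin 2) F) 0 1 ≠ 0 := by
    intro h0
    apply h
    apply Sylow.ext
    rw [hg, hh, e, Cfsg.Agent.Lib_helper4_SL2Syl.map_conj_eq_U (g⁻¹ * h') h0]
  rw [hg, hh, e, ← Subgroup.map_sup, Cfsg.Agent.Lib_helper4_SL2Syl.sup_conj_eq_top _ hk]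
  exact Subgroup.map_top_of_surjective _ (MulEquiv.surjective (MulAut.conj g))

end Cfsg.Agent.S0260
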