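import Cfsg.Statements.S0264
import Cfsg.Agent.Lib_helper4_SL

set_option autoImplicit false
open Cfsg

namespace Cfsg.Agent.S0264

open Matrix Matrix.SpecialLinearGroup in
open scoped commutatorElement in
lemma toGL_mem_commutator_of_three_le {F : Type*} [Field F] (n : ℕ) (hn : 3 ≤ n)
    (s : Matrix.SpecialLinearGroup (Fin n) F) :
    toGL s ∈ commutator (Matrix.GeneralLinearGroup (Fin n) F) := by
  have hs : s ∈ commutator (Matrix.SpecialLinearGroup (Fin n) F) := by
    rw [Cfsg.Agent.Lib_helper4_SL.commutator_eq_top (by simpa using hn)]; trivial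
  rw [commutator_def] at hs ⊢
  have h1 : toGL s ∈ Subgroup.map (toGL : Matrix.SpecialLinearGroup (Fin n) F →* _) ⁅⊤, ⊤⁆ :=
    Subgroup.mem_map_of_mem _ hs
  rw [Subgroup.map_commutator] at h1
  exact Subgroup.commutator_mono le_top le_top h1

open scoped commutatorElement in
lemma comm_eq_of_mul_eq {G : Type*} [Group G] (d t t' : G) (h : d * t = t' * t * d) :
    ⁅d, t⁆ = t' := by
  rw [commutatorElement_def, h]; group

open Matrix Matrix.SpecialLinearGroup in
open scoped commutatorElement in
lemma toGL_transvection_mem_commutator_two {F : Type*} [Field F] (a : F) (ha : a ≠ 0) (ha1 : a ≠ 1)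
    (i j : Fin 2) (hij : i ≠ j) (c : F) :
    toGL (SpecialLinearGroup.transvection hij c) ∈
      commutator (Matrix.GeneralLinearGroup (Fin 2) F) := by
  have hne : a - 1 ≠ 0 := sub_ne_zero_of_ne ha1
  rw [commutator_eq_closure]
  apply Subgroup.subset_closure
  fin_cases i <;> fin_cases j
  · exact absurd rfl hij
  · refine ⟨Matrix.GeneralLinearGroup.mkOfDetNeZero !![a, 0; 0, 1] (by simp [Matrix.det_fin_two, ha]),
      toGL (SpecialLinearGroup.transvection (i := (0 : Fin 2)) (j := 1) (by decide) (c / (a - 1))), ?_⟩
    apply comm_eq_of_mul_eq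
    apply Units.ext
    ext k l
    fin_cases k <;> fin_cases l <;>
      simp [Matrix.GeneralLinearGroup.mkOfDetNeZero, SpecialLinearGroup.transvection_coe,
        Matrix.mul_apply, Fin.sum_univ_two, Matrix.single_apply, Matrix.one_apply] <;>
      field_simp <;> ring
  · refine ⟨Matrix.GeneralLinearGroup.mkOfDetNeZero !![1, 0; 0, a] (by simp [Matrix.det_fin_two, ha]),
      toGL (SpecialLinearGroup.transvection (i := (1 : Fin 2)) (j := 0) (by decide) (c / (a - 1))), ?_⟩
    apply comm_eq_of_mul_eq
    apply Units.ext
    ext k l
    fin_cases k <;> fin_cases l <;>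
      simp [Matrix.GeneralLinearGroup.mkOfDetNeZero, SpecialLinearGroup.transvection_coe,
        Matrix.mul_apply, Fin.sum_univ_two, Matrix.single_apply, Matrix.one_apply] <;>
      field_simp <;> ring
  · exact absurd rfl hij


/-- GL_n(F)' = SL_n(F) (as the kernel of det), for every field F and every n, except n = 2 over the field of two elements. -/
theorem result {F : Type*} [Field F] (n : ℕ) (h : n = 2 → ∃ a : F, a ≠ 0 ∧ a ≠ 1) : commutator (Matrix.GeneralLinearGroup (Fin n) F) = (Matrix.GeneralLinearGroup.det : Matrix.GeneralLinearGroup (Fin n) F →* Fˣ).ker := by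
  apply le_antisymm
  · exact Abelianization.commutator_subset_ker _
  · intro g hg
    rw [MonoidHom.mem_ker] at hg
    have hdet : (g : Matrix (Fin n) (Fin n) F).det = 1 := by
      have := congrArg (fun u : Fˣ => (u : F)) hg
      simpa using this
    obtain ⟨s, rfl⟩ : ∃ s : Matrix.SpecialLinearGroup (Fin n) F,
        Matrix.SpecialLinearGroup.toGL s = g :=
      ⟨⟨(g : Matrix (Fin n) (Fin n) F), hdet⟩, Units.ext rfl⟩
    rcases Nat.lt_or_ge n 2 with hn2 | hn2
    · -- n = 0 or n = 1 : s = 1
      have hs : s = 1 := by
        apply Subtype.ext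
        ext i j
        interval_cases n
        · exact i.elim0
        · have hi : i = 0 := Subsingleton.elim _ _
          have hj : j = 0 := Subsingleton.elim _ _
          subst hi; subst hj
          have := s.2
          rw [Matrix.det_fin_one] at this
          simpa using this
      rw [hs, map_one]; exact one_mem _
    · rcases Nat.lt_or_ge n 3 with hn3 | hn3
      · have hn : n = 2 := by omega
        subst hn
        obtain ⟨a, ha, ha1⟩ := h rfl
        refine Cfsg.Agent.Lib_helper4_SL.transvection_induction
          (fun s => Matrix.SpecialLinearGroup.toGL s ∈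
            commutator (Matrix.GeneralLinearGroup (Fin 2) F)) ?_ ?_ s
        · intro i j hij c
          exact toGL_transvection_mem_commutator_two a ha ha1 i j hij c
        · intro A B hA hB
          rw [map_mul]; exact mul_mem hA hB
      · exact toGL_mem_commutator_of_three_le n hn3 s

end Cfsg.Agent.S0264
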