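import Cfsg.Statements.S0266
import Mathlib

set_option autoImplicit false
open scoped MatrixGroups
open Cfsg

namespace Cfsg.Agent.S0266

open Matrix MatrixGroups

section
variable {F : Type*} [Field F]

theorem det_ne_zero_of_ne (u v : Fin 2 → F) (hu : u ≠ 0) (hv : v ≠ 0)
    (h : Projectivization.mk F u hu ≠ Projectivization.mk F v hv) : u 0 * v 1 - u 1 * v 0 ≠ 0 := by
  intro hd
  apply h
  rw [Projectivization.mk_eq_mk_iff']
  have hd' : u 0 * v 1 = u 1 * v 0 := sub_eq_zero.1 hd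
  by_cases hv0 : v 0 = 0
  · have hv1 : v 1 ≠ 0 := by
      intro hv1
      apply hv
      funext i
      fin_cases i <;> simp [hv0, hv1]
    have hu0 : u 0 = 0 := by
      rw [hv0, mul_zero] at hd'
      exact (mul_eq_zero.1 hd').resolve_right hv1
    refine ⟨u 1 / v 1, ?_⟩
    funext i
    fin_cases i
    · simp [hv0, hu0]
    · simp [hv1]
  · refine ⟨u 0 / v 0, ?_⟩
    funext i
    fin_cases i
    · simp [hv0]
    · change u 0 / v 0 * v 1 = u 1
      field_simp
      linear_combination hd'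

theorem e0_ne : (![1, 0] : Fin 2 → F) ≠ 0 := by
  intro h; have := congrFun h 0; simp at this

theorem e1_ne : (![0, 1] : Fin 2 → F) ≠ 0 := by
  intro h; have := congrFun h 1; simp at this

theorem e01_ne : (![1, 1] : Fin 2 → F) ≠ 0 := by
  intro h; have := congrFun h 0; simp at this

theorem exists_gl (a b c : Projectivization F (Fin 2 → F)) (hab : a ≠ b) (hac : a ≠ c)
    (hbc : b ≠ c) : ∃ g : GL (Fin 2) F,
      ProjGenLinGroup.mk g • Projectivization.mk F (![1, 0] : Fin 2 → F) e0_ne = a ∧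
      ProjGenLinGroup.mk g • Projectivization.mk F (![0, 1] : Fin 2 → F) e1_ne = b ∧
      ProjGenLinGroup.mk g • Projectivization.mk F (![1, 1] : Fin 2 → F) e01_ne = c := by
  induction a using Projectivization.ind with | _ u hu =>
  induction b using Projectivization.ind with | _ v hv =>
  induction c using Projectivization.ind with | _ w hw =>
  have hd := det_ne_zero_of_ne u v hu hv hab
  have hA := det_ne_zero_of_ne w v hw hv (Ne.symm hbc)
  have hB := det_ne_zero_of_ne u w hu hw hac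
  have hdet : (!![(w 0 * v 1 - w 1 * v 0) * u 0, (u 0 * w 1 - u 1 * w 0) * v 0;
      (w 0 * v 1 - w 1 * v 0) * u 1, (u 0 * w 1 - u 1 * w 0) * v 1] : Matrix (Fin 2) (Fin 2) F).det
      ≠ 0 := by
    rw [Matrix.det_fin_two_of]
    have : (w 0 * v 1 - w 1 * v 0) * u 0 * ((u 0 * w 1 - u 1 * w 0) * v 1)
        - (u 0 * w 1 - u 1 * w 0) * v 0 * ((w 0 * v 1 - w 1 * v 0) * u 1)
        = (w 0 * v 1 - w 1 * v 0) * (u 0 * w 1 - u 1 * w 0) * (u 0 * v 1 - u 1 * v 0) := by ring
    rw [this]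
    exact mul_ne_zero (mul_ne_zero hA hB) hd
  refine ⟨GeneralLinearGroup.mkOfDetNeZero _ hdet, ?_, ?_, ?_⟩
  · rw [Projectivization.PGL.mk_smul_mk, Projectivization.mk_eq_mk_iff']
    refine ⟨w 0 * v 1 - w 1 * v 0, ?_⟩
    funext i
    change _ = (!![(w 0 * v 1 - w 1 * v 0) * u 0, (u 0 * w 1 - u 1 * w 0) * v 0;
      (w 0 * v 1 - w 1 * v 0) * u 1, (u 0 * w 1 - u 1 * w 0) * v 1] *ᵥ ![1, 0]) i
    fin_cases i <;> simp [Matrix.mulVec, dotProduct, Fin.sum_univ_two]
  · rw [Projectivization.PGL.mk_smul_mk, Projectivization.mk_eq_mk_iff']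
    refine ⟨u 0 * w 1 - u 1 * w 0, ?_⟩
    funext i
    change _ = (!![(w 0 * v 1 - w 1 * v 0) * u 0, (u 0 * w 1 - u 1 * w 0) * v 0;
      (w 0 * v 1 - w 1 * v 0) * u 1, (u 0 * w 1 - u 1 * w 0) * v 1] *ᵥ ![0, 1]) i
    fin_cases i <;> simp [Matrix.mulVec, dotProduct, Fin.sum_univ_two]
  · rw [Projectivization.PGL.mk_smul_mk, Projectivization.mk_eq_mk_iff']
    refine ⟨u 0 * v 1 - u 1 * v 0, ?_⟩
    funext i
    change _ = (!![(w 0 * v 1 - w 1 * v 0) * u 0, (u 0 * w 1 - u 1 * w 0) * v 0;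
      (w 0 * v 1 - w 1 * v 0) * u 1, (u 0 * w 1 - u 1 * w 0) * v 1] *ᵥ ![1, 1]) i
    fin_cases i <;> simp [Matrix.mulVec, dotProduct, Fin.sum_univ_two] <;> ring

theorem fix_std (g : ProjGenLinGroup (Fin 2) F)
    (h0 : g • Projectivization.mk F (![1, 0] : Fin 2 → F) e0_ne = Projectivization.mk F (![1, 0] : Fin 2 → F) e0_ne)
    (h1 : g • Projectivization.mk F (![0, 1] : Fin 2 → F) e1_ne = Projectivization.mk F (![0, 1] : Fin 2 → F) e1_ne)
    (h2 : g • Projectivization.mk F (![1, 1] : Fin 2 → F) e01_ne = Projectivization.mk F (![1, 1] : Fin 2 → F) e01_ne) :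
    g = 1 := by
  induction g using ProjGenLinGroup.induction_on with | mk m =>
  rw [Projectivization.PGL.mk_smul_mk, Projectivization.mk_eq_mk_iff'] at h0 h1 h2
  obtain ⟨a, ha⟩ := h0
  obtain ⟨b, hb⟩ := h1
  obtain ⟨c, hc⟩ := h2
  have hm : ∀ x : Fin 2 → F, m • x = m.1 *ᵥ x := fun x => rfl
  rw [hm] at ha hb hc
  have ha0 := congrFun ha 0
  have ha1 := congrFun ha 1
  have hb0 := congrFun hb 0
  have hb1 := congrFun hb 1
  have hc0 := congrFun hc 0
  have hc1 := congrFun hc 1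
  simp [Matrix.mulVec, dotProduct, Fin.sum_univ_two] at ha0 ha1 hb0 hb1 hc0 hc1
  -- ha1 : m 1 0 = 0, hb0 : m 0 1 = 0, hc0 : c = m 0 0 + m 0 1, hc1 : c = m 1 0 + m 1 1
  have h10 : m.1 1 0 = 0 := by rw [← ha1]
  have h01 : m.1 0 1 = 0 := by rw [← hb0]
  have h00 : m.1 0 0 = m.1 1 1 := by
    have e1 : c = m.1 0 0 := by rw [hc0, h01, add_zero]
    have e2 : c = m.1 1 1 := by rw [hc1, h10, zero_add]
    rw [← e1, ← e2]
  have hdet : m.1.det ≠ 0 := by
    have := m.isUnit  -- placeholder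
    exact (Matrix.isUnit_iff_isUnit_det _).1 ⟨m, rfl⟩ |>.ne_zero
  rw [Matrix.det_fin_two, h10, h01, mul_zero, sub_zero, ← h00] at hdet
  have h00ne : m.1 0 0 ≠ 0 := fun h => hdet (by rw [h, mul_zero])
  rw [ProjGenLinGroup.mk_eq_one, GeneralLinearGroup.center_eq_range_scalar]
  refine ⟨Units.mk0 _ h00ne, ?_⟩
  apply Units.ext
  ext i j
  fin_cases i <;> fin_cases j <;> simp [GeneralLinearGroup.scalar, h10, h01, ← h00]

end


/-- PGL_2(F) is sharply 3-transitive on the projective line: it is 3-transitive and the stabiliser of three distinct points is trivial. -/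
theorem result {F : Type*} [Field F] : MulAction.IsMultiplyPretransitive (Matrix.ProjGenLinGroup (Fin 2) F) (Projectivization F (Fin 2 → F)) 3 ∧ ∀ (g : Matrix.ProjGenLinGroup (Fin 2) F) (a b c : Projectivization F (Fin 2 → F)), a ≠ b → a ≠ c → b ≠ c → g • a = a → g • b = b → g • c = c → g = 1 := by
  constructor
  · rw [MulAction.isMultiplyPretransitive_iff]
    intro x y
    have hx : ∀ i j : Fin 3, i ≠ j → x i ≠ x j := fun i j hij h => hij (x.injective h)
    have hy : ∀ i j : Fin 3, i ≠ j → y i ≠ y j := fun i j hij h => hij (y.injective h)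
    obtain ⟨gx, hx0, hx1, hx2⟩ := exists_gl (x 0) (x 1) (x 2) (hx _ _ (by decide))
      (hx _ _ (by decide)) (hx _ _ (by decide))
    obtain ⟨gy, hy0, hy1, hy2⟩ := exists_gl (y 0) (y 1) (y 2) (hy _ _ (by decide))
      (hy _ _ (by decide)) (hy _ _ (by decide))
    refine ⟨Matrix.ProjGenLinGroup.mk gy * (Matrix.ProjGenLinGroup.mk gx)⁻¹, ?_⟩
    ext i
    rw [Function.Embedding.smul_apply, mul_smul]
    fin_cases i
    · change _ • _ • x 0 = y 0
      rw [← hx0, inv_smul_smul, hy0]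
    · change _ • _ • x 1 = y 1
      rw [← hx1, inv_smul_smul, hy1]
    · change _ • _ • x 2 = y 2
      rw [← hx2, inv_smul_smul, hy2]
  · intro g a b c hab hac hbc ha hb hc
    obtain ⟨m, h0, h1, h2⟩ := exists_gl a b c hab hac hbc
    have key : (Matrix.ProjGenLinGroup.mk m)⁻¹ * g * Matrix.ProjGenLinGroup.mk m = 1 := by
      apply fix_std
      · rw [mul_smul, mul_smul, h0, ha, ← h0, inv_smul_smul]
      · rw [mul_smul, mul_smul, h1, hb, ← h1, inv_smul_smul]
      · rw [mul_smul, mul_smul, h2, hc, ← h2, inv_smul_smul]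
    have : g = Matrix.ProjGenLinGroup.mk m * ((Matrix.ProjGenLinGroup.mk m)⁻¹ * g *
        Matrix.ProjGenLinGroup.mk m) * (Matrix.ProjGenLinGroup.mk m)⁻¹ := by group
    rw [this, key]; group

end Cfsg.Agent.S0266
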