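import Cfsg.Statements.S0267
import Mathlib
import Cfsg.Agent.S0266

set_option autoImplicit false
open Cfsg

namespace Cfsg.Agent.S0267

open Matrix MatrixGroups

section
variable {F : Type*} [Field F]

theorem mk_ne (u v : Fin 2 → F) (hu : u ≠ 0) (hv : v ≠ 0) (h : u 0 * v 1 - u 1 * v 0 ≠ 0) :
    Projectivization.mk F u hu ≠ Projectivization.mk F v hv := by
  intro he
  rw [Projectivization.mk_eq_mk_iff'] at he
  obtain ⟨a, ha⟩ := he
  apply h
  have h0 : a * v 0 = u 0 := congrFun ha 0
  have h1 : a * v 1 = u 1 := congrFun ha 1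
  rw [← h0, ← h1]
  ring

theorem vs_ne (s : F) : (![1, s] : Fin 2 → F) ≠ 0 := by
  intro h; have := congrFun h 0; simp at this

def emb3 {α : Type*} (a b c : α) (hab : a ≠ b) (hac : a ≠ c) (hbc : b ≠ c) : Fin 3 ↪ α :=
  ⟨![a, b, c], by
    intro i j h
    fin_cases i <;> fin_cases j <;>
      first
        | rfl
        | exact absurd h hab
        | exact absurd h.symm hab
        | exact absurd h hac
        | exact absurd h.symm hac
        | exact absurd h hbc
        | exact absurd h.symm hbc⟩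

theorem sl_smul (g : Matrix.SpecialLinearGroup (Fin 2) F) (x : Projectivization F (Fin 2 → F)) :
    g • x = Matrix.ProjGenLinGroup.mk (Matrix.SpecialLinearGroup.toGL g) • x := by
  induction x using Projectivization.ind with | _ v hv =>
  rfl

theorem sl_smul_mk (g : Matrix.SpecialLinearGroup (Fin 2) F) (v : Fin 2 → F) (hv : v ≠ 0)
    (w : Fin 2 → F) (hw : w ≠ 0)
    (h : g • Projectivization.mk F v hv = Projectivization.mk F w hw) :
    ∃ a : F, a • w = g.1 *ᵥ v := by
  rw [sl_smul, Projectivization.PGL.mk_smul_mk, Projectivization.mk_eq_mk_iff'] at h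
  exact h

end


/-- SL_2(q) is 3-transitive on the q+1 points of the projective line if and only if q is even. -/
theorem result {F : Type*} [Field F] [Fintype F] : MulAction.IsMultiplyPretransitive (Matrix.SpecialLinearGroup (Fin 2) F) (Projectivization F (Fin 2 → F)) 3 ↔ ringChar F = 2 := by
  constructor
  · intro h3
    by_contra hchar
    obtain ⟨s, hs⟩ := FiniteField.exists_nonsquare hchar
    have hs0 : s ≠ 0 := by
      rintro rfl
      exact hs ⟨0, by simp⟩
    have h1 : Projectivization.mk F (![1, 0] : Fin 2 → F) Cfsg.Agent.S0266.e0_ne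
        ≠ Projectivization.mk F (![0, 1] : Fin 2 → F) Cfsg.Agent.S0266.e1_ne :=
      mk_ne _ _ _ _ (by simp)
    have h2 : Projectivization.mk F (![1, 0] : Fin 2 → F) Cfsg.Agent.S0266.e0_ne
        ≠ Projectivization.mk F (![1, 1] : Fin 2 → F) Cfsg.Agent.S0266.e01_ne :=
      mk_ne _ _ _ _ (by simp)
    have h3' : Projectivization.mk F (![0, 1] : Fin 2 → F) Cfsg.Agent.S0266.e1_ne
        ≠ Projectivization.mk F (![1, 1] : Fin 2 → F) Cfsg.Agent.S0266.e01_ne :=
      mk_ne _ _ _ _ (by simp)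
    have h4 : Projectivization.mk F (![1, 0] : Fin 2 → F) Cfsg.Agent.S0266.e0_ne
        ≠ Projectivization.mk F (![1, s] : Fin 2 → F) (vs_ne s) :=
      mk_ne _ _ _ _ (by simpa using hs0)
    have h5 : Projectivization.mk F (![0, 1] : Fin 2 → F) Cfsg.Agent.S0266.e1_ne
        ≠ Projectivization.mk F (![1, s] : Fin 2 → F) (vs_ne s) :=
      mk_ne _ _ _ _ (by simp)
    obtain ⟨g, hg⟩ := (MulAction.isMultiplyPretransitive_iff.1 h3)
      (emb3 _ _ _ h1 h2 h3') (emb3 _ _ _ h1 h4 h5)
    have e0 := congrArg (fun e : Fin 3 ↪ Projectivization F (Fin 2 → F) => e 0) hg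
    have e1 := congrArg (fun e : Fin 3 ↪ Projectivization F (Fin 2 → F) => e 1) hg
    have e2 := congrArg (fun e : Fin 3 ↪ Projectivization F (Fin 2 → F) => e 2) hg
    obtain ⟨a, ha⟩ := sl_smul_mk g _ _ _ _ e0
    obtain ⟨b, hb⟩ := sl_smul_mk g _ _ _ _ e1
    obtain ⟨c, hc⟩ := sl_smul_mk g _ _ _ _ e2
    have ha1 := congrFun ha 1
    have hb0 := congrFun hb 0
    have hc0 := congrFun hc 0
    have hc1 := congrFun hc 1
    simp [Matrix.mulVec, dotProduct, Fin.sum_univ_two] at ha1 hb0 hc0 hc1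
    have h10 : g.1 1 0 = 0 := by rw [← ha1]
    have h01 : g.1 0 1 = 0 := by rw [← hb0]
    have hdet := g.2
    rw [Matrix.det_fin_two, h10, h01, mul_zero, sub_zero] at hdet
    rw [h01, add_zero] at hc0
    rw [h10, zero_add] at hc1
    apply hs
    have hg00 : g.1 0 0 ≠ 0 := fun h => by rw [h, zero_mul] at hdet; exact zero_ne_one hdet
    refine ⟨(g.1 0 0)⁻¹, ?_⟩
    have : g.1 0 0 * (g.1 0 0 * s) = 1 := by rw [← hc0, hc1, hc0]; exact hdet
    field_simp
    linear_combination this
  · intro hchar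
    rw [MulAction.isMultiplyPretransitive_iff]
    intro x y
    obtain ⟨γ, hγ⟩ := (MulAction.isMultiplyPretransitive_iff.1
      (Cfsg.Agent.S0266.result (F := F)).1) x y
    induction γ using Matrix.ProjGenLinGroup.induction_on with | mk m =>
    obtain ⟨r, hr⟩ := FiniteField.isSquare_of_char_two hchar (m.1.det)
    have hdet0 : m.1.det ≠ 0 := ((Matrix.isUnit_iff_isUnit_det _).1 ⟨m, rfl⟩).ne_zero
    have hr0 : r ≠ 0 := by
      rintro rfl
      rw [mul_zero] at hr
      exact hdet0 hr
    have hdet1 : (r⁻¹ • m.1).det = 1 := by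
      rw [Matrix.det_smul, Fintype.card_fin, hr]
      field_simp
    let g' : Matrix.SpecialLinearGroup (Fin 2) F := ⟨r⁻¹ • m.1, hdet1⟩
    have hg' : g'.1 = r⁻¹ • m.1 := rfl
    refine ⟨g', ?_⟩
    rw [← hγ]
    ext i
    change g' • x i = ProjGenLinGroup.mk m • x i
    rw [sl_smul]
    congr 1
    rw [Matrix.ProjGenLinGroup.mk_eq_mk_iff]
    refine ⟨Units.mk0 r hr0, ?_⟩
    apply Units.ext
    ext i j
    simp [Matrix.SpecialLinearGroup.toGL, GeneralLinearGroup.scalar, Matrix.mul_apply,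
      Fin.sum_univ_two, Matrix.one_apply, hg']
    fin_cases i <;> fin_cases j <;> simp <;> field_simp

end Cfsg.Agent.S0267
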