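import Cfsg.Statements.S0276
import Mathlib
import Cfsg.Agent.Lib_helper4_SL2b
import Cfsg.Agent.Lib_helper4_PSL2
import Cfsg.Agent.Lib_helper4_Count
import Cfsg.Agent.Lib_helper4_SL2

set_option autoImplicit false
open Cfsg

namespace Cfsg.Agent.S0276

lemma arith3 (j N : ℕ)
    (h : Nat.gcd 2 (8 * j + 3 - 1) * ((8 * j + 3 - 1) * N)
      = ((8 * j + 3) ^ 2 - 1) * ((8 * j + 3) ^ 2 - (8 * j + 3))) :
    N = 2 ^ 2 * ((8 * j ^ 2 + 6 * j + 1) * (8 * j + 3)) := by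
  have e1 : 8 * j + 3 - 1 = 8 * j + 2 := by omega
  have e2 : (8 * j + 3) ^ 2 - 1 = 8 * (8 * j ^ 2 + 6 * j + 1) := by
    apply Nat.sub_eq_of_eq_add
    ring
  have e3 : (8 * j + 3) ^ 2 - (8 * j + 3) = (8 * j + 3) * (8 * j + 2) := by
    apply Nat.sub_eq_of_eq_add
    ring
  have e4 : Nat.gcd 2 (8 * j + 2) = 2 := Nat.gcd_eq_left ⟨4 * j + 1, by ring⟩
  rw [e1, e2, e3, e4] at h
  have h2 : (2 * (8 * j + 2)) * N = (2 * (8 * j + 2)) * (2 ^ 2 * ((8 * j ^ 2 + 6 * j + 1) * (8 * j + 3))) := by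
    linear_combination h
  exact Nat.eq_of_mul_eq_mul_left (by omega) h2

lemma arith5 (j N : ℕ)
    (h : Nat.gcd 2 (8 * j + 5 - 1) * ((8 * j + 5 - 1) * N)
      = ((8 * j + 5) ^ 2 - 1) * ((8 * j + 5) ^ 2 - (8 * j + 5))) :
    N = 2 ^ 2 * ((8 * j ^ 2 + 10 * j + 3) * (8 * j + 5)) := by
  have e1 : 8 * j + 5 - 1 = 8 * j + 4 := by omega
  have e2 : (8 * j + 5) ^ 2 - 1 = 8 * (8 * j ^ 2 + 10 * j + 3) := by
    apply Nat.sub_eq_of_eq_add
    ring
  have e3 : (8 * j + 5) ^ 2 - (8 * j + 5) = (8 * j + 5) * (8 * j + 4) := by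
    apply Nat.sub_eq_of_eq_add
    ring
  have e4 : Nat.gcd 2 (8 * j + 4) = 2 := Nat.gcd_eq_left ⟨4 * j + 2, by ring⟩
  rw [e1, e2, e3, e4] at h
  have h2 : (2 * (8 * j + 4)) * N = (2 * (8 * j + 4)) * (2 ^ 2 * ((8 * j ^ 2 + 10 * j + 3) * (8 * j + 5))) := by
    linear_combination h
  exact Nat.eq_of_mul_eq_mul_left (by omega) h2

lemma odd_mul_odd_not_dvd (a b : ℕ) (ha : Odd a) (hb : Odd b) : ¬ 2 ∣ a * b := by
  have := ha.mul hb
  exact Nat.not_even_iff_odd.mpr this ∘ (fun h => even_iff_two_dvd.mpr h)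

lemma dvd_four_of_dvd_eight {o : ℕ} (h8 : o ∣ 8) (hne : o ≠ 8) : o ∣ 4 := by
  have h : o ∣ 2 ^ 3 := h8
  obtain ⟨m, hm, rfl⟩ := (Nat.dvd_prime_pow Nat.prime_two).mp h
  interval_cases m
  · decide
  · decide
  · decide
  · exact absurd rfl hne

/-- For q = 3 or 5 mod 8 the Sylow 2-subgroups of PSL_2(q) are elementary abelian of order 4. -/
theorem result {F : Type*} [Field F] [Fintype F] {q : ℕ} (hF : Fintype.card F = q) (hq : q % 8 = 3 ∨ q % 8 = 5) (P : Sylow 2 (Matrix.ProjectiveSpecialLinearGroup (Fin 2) F)) : IsKleinFour (P : Subgroup (Matrix.ProjectiveSpecialLinearGroup (Fin 2) F)) := by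
  classical
  obtain ⟨p, hchar⟩ := CharP.exists F
  haveI := hchar
  obtain ⟨n, hp, hn⟩ := FiniteField.card F p
  haveI : Fact p.Prime := ⟨hp⟩
  rw [hF] at hn
  have hp2 : p ≠ 2 := by
    rintro rfl
    have h2q : 2 ∣ q := by
      rw [hn]
      exact dvd_pow_self 2 n.ne_zero
    omega
  have h2F : (2 : F) ≠ 0 := by
    intro h
    have h1 : ((2 : ℕ) : F) = 0 := by exact_mod_cast h
    have h3 : p ∣ 2 := (CharP.cast_eq_zero_iff F p 2).mp h1
    exact hp2 ((Nat.prime_dvd_prime_iff_eq hp Nat.prime_two).mp h3)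
  have hcardG : ∃ c, ¬ 2 ∣ c ∧ Nat.card (Matrix.ProjectiveSpecialLinearGroup (Fin 2) F) = 2 ^ 2 * c := by
    have h1 := Cfsg.Agent.Lib_helper4_PSL2.card_PSL2 hF
    rcases hq with h | h
    · obtain ⟨j, rfl⟩ : ∃ j, q = 8 * j + 3 := ⟨q / 8, by omega⟩
      refine ⟨_, ?_, arith3 j _ h1⟩
      exact odd_mul_odd_not_dvd _ _ ⟨4 * j ^ 2 + 3 * j, by ring⟩ ⟨4 * j + 1, by ring⟩
    · obtain ⟨j, rfl⟩ : ∃ j, q = 8 * j + 5 := ⟨q / 8, by omega⟩
      refine ⟨_, ?_, arith5 j _ h1⟩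
      exact odd_mul_odd_not_dvd _ _ ⟨4 * j ^ 2 + 5 * j + 1, by ring⟩ ⟨4 * j + 2, by ring⟩
  obtain ⟨c, hc, hG⟩ := hcardG
  have hcardP : Nat.card (P : Subgroup (Matrix.ProjectiveSpecialLinearGroup (Fin 2) F)) = 4 := by
    have := Cfsg.Agent.Lib_helper4_Count.sylow_card_eq_pow P hG hc
    rw [this]
    norm_num
  have hsq : ∀ x : (P : Subgroup (Matrix.ProjectiveSpecialLinearGroup (Fin 2) F)), x ^ 2 = 1 := by
    intro x
    obtain ⟨g, hgx⟩ := QuotientGroup.mk_surjective (x : Matrix.ProjectiveSpecialLinearGroup (Fin 2) F)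
    have hx4 : (x : Matrix.ProjectiveSpecialLinearGroup (Fin 2) F) ^ 4 = 1 := by
      have h1 : x ^ Nat.card (P : Subgroup (Matrix.ProjectiveSpecialLinearGroup (Fin 2) F)) = 1 :=
        pow_card_eq_one'
      rw [hcardP] at h1
      have h2 := congrArg Subtype.val h1
      exact h2
    have hg4 : g ^ 4 ∈ Subgroup.center (Matrix.SpecialLinearGroup (Fin 2) F) := by
      rw [← QuotientGroup.eq_one_iff, QuotientGroup.mk_pow, hgx]
      exact hx4
    have hg8 : g ^ 8 = 1 := by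
      obtain ⟨r, hr, hr2⟩ := Matrix.SpecialLinearGroup.mem_center_iff.mp hg4
      rw [Fintype.card_fin] at hr
      have h3 : (g ^ 4) ^ 2 = 1 := by
        apply Subtype.ext
        rw [Matrix.SpecialLinearGroup.coe_pow, ← hr2, ← map_pow, hr, map_one]
        rfl
      rw [← pow_mul] at h3
      exact h3
    have ho8 : orderOf g ∣ 8 := orderOf_dvd_of_pow_eq_one hg8
    have hcop : Nat.Coprime (orderOf g) p := by
      have h8p : Nat.Coprime 8 p := by
        have : Nat.Coprime 2 p := (Nat.coprime_primes Nat.prime_two hp).mpr (Ne.symm hp2)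
        exact Nat.Coprime.pow_left 3 this
      exact Nat.Coprime.coprime_dvd_left ho8 h8p
    have ho4 : orderOf g ∣ 4 := by
      apply dvd_four_of_dvd_eight ho8
      intro h8
      rcases Cfsg.Agent.Lib_helper4_SL2.orderOf_dvd hF p g hcop with h | h
      · rw [h8] at h
        omega
      · rw [h8] at h
        omega
    have hg4' : g ^ 4 = 1 := orderOf_dvd_iff_pow_eq_one.mp ho4
    have hH : ((g ^ 2 : Matrix.SpecialLinearGroup (Fin 2) F) : Matrix (Fin 2) (Fin 2) F)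
        * ((g ^ 2 : Matrix.SpecialLinearGroup (Fin 2) F) : Matrix (Fin 2) (Fin 2) F) = 1 := by
      have h5 : g ^ 2 * g ^ 2 = 1 := by
        rw [← pow_add]
        exact hg4'
      have h6 := congrArg Subtype.val h5
      exact h6
    have hg2 : g ^ 2 ∈ Subgroup.center (Matrix.SpecialLinearGroup (Fin 2) F) := by
      rw [Matrix.SpecialLinearGroup.mem_center_iff]
      rcases Cfsg.Agent.Lib_helper4_SL2b.eq_one_or_neg_one _ (g ^ 2).2 hH h2F with h | h
      · refine ⟨1, one_pow _, ?_⟩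
        rw [h, map_one]
      · refine ⟨-1, ?_, ?_⟩
        · rw [Fintype.card_fin]
          norm_num
        · rw [h, map_neg, map_one]
    apply Subtype.ext
    show (x : Matrix.ProjectiveSpecialLinearGroup (Fin 2) F) ^ 2 = 1
    rw [← hgx, ← QuotientGroup.mk_pow, QuotientGroup.eq_one_iff]
    exact hg2
  refine ⟨hcardP, ?_⟩
  have hdvd : Monoid.exponent (P : Subgroup (Matrix.ProjectiveSpecialLinearGroup (Fin 2) F)) ∣ 2 :=
    Monoid.exponent_dvd_of_forall_pow_eq_one hsq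
  rcases (Nat.dvd_prime Nat.prime_two).mp hdvd with h | h
  · exfalso
    rw [Monoid.exp_eq_one_iff] at h
    have := Finite.card_le_one_iff_subsingleton.mpr h
    omega
  · exact h

end Cfsg.Agent.S0276
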