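import Cfsg.Statements.S0281
import Mathlib
import Cfsg.Agent.Lib_helper4_Herm
import Cfsg.Agent.Lib_helper4_GU
import Cfsg.Agent.Lib_helper4_SU
import Cfsg.Agent.Lib_helper4_SUCenter
import Cfsg.Agent.Lib_helper4_Card

set_option autoImplicit false
open Cfsg

namespace Cfsg.Agent.S0281

open Matrix Cfsg.Agent.Lib_helper4_Herm Cfsg.Agent.Lib_helper4_SUCenter

theorem exists_emb {F K : Type*} [Field F] [Fintype F] [Field K] [Fintype K] {q : ℕ}
    (hF : Fintype.card F = q ^ 2) (hK : Fintype.card K = q) : Nonempty (K →+* F) := by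
  obtain ⟨p, k, hp, hchar, hq⟩ := exists_char_pow hF
  haveI : Fact p.Prime := ⟨hp⟩
  haveI := hchar
  have hcharK : CharP K p := by
    obtain ⟨p', hp'⟩ := CharP.exists K
    haveI := hp'
    obtain ⟨n, hprime, hn⟩ := FiniteField.card K p'
    have h1 : p' ∣ p ^ k := by
      rw [← hq, ← hK, hn]
      exact dvd_pow_self p' n.ne_zero
    have h2 := (Nat.prime_dvd_prime_iff_eq hprime hp).1 (hprime.dvd_of_dvd_pow h1)
    rw [← h2]
    exact hp'
  haveI := hcharK
  letI : Algebra (ZMod p) K := ZMod.algebra K p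
  letI : Algebra (ZMod p) F := ZMod.algebra F p
  have h1 : p ^ Module.finrank (ZMod p) K = p ^ k := by
    rw [FiniteField.pow_finrank_eq_card, hK, hq]
  have h2 : p ^ Module.finrank (ZMod p) F = p ^ (2 * k) := by
    rw [FiniteField.pow_finrank_eq_card, hF, hq, ← pow_mul, mul_comm]
  have e1 := Nat.pow_right_injective hp.two_le h1
  have e2 := Nat.pow_right_injective hp.two_le h2
  obtain ⟨f⟩ := FiniteField.nonempty_algHom_of_finrank_dvd (F := ZMod p) (K := K) (L := F)
    (by rw [e1, e2]; exact dvd_mul_left k 2)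
  exact ⟨f.toRingHom⟩

noncomputable def frob {F : Type*} [Field F] [Fintype F] {q : ℕ}
    (hF : Fintype.card F = q ^ 2) : F →+* F where
  toFun x := x ^ q
  map_one' := one_pow q
  map_mul' x y := mul_pow x y q
  map_zero' := zero_pow (by have := q_pos hF; omega)
  map_add' x y := frob_add hF x y

theorem frob_apply {F : Type*} [Field F] [Fintype F] {q : ℕ}
    (hF : Fintype.card F = q ^ 2) (x : F) : frob hF x = x ^ q := rfl

theorem two_by_two {R : Type*} [CommRing R] (B : Matrix (Fin 2) (Fin 2) R) (hB : B.det = 1) :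
    Bᵀ * !![0, 1; -1, 0] * B = !![0, 1; -1, 0] := by
  rw [Matrix.det_fin_two] at hB
  ext i j
  fin_cases i <;> fin_cases j
  · simp [Matrix.mul_apply, Fin.sum_univ_two]
    ring
  · simp [Matrix.mul_apply, Fin.sum_univ_two]
    linear_combination hB
  · simp [Matrix.mul_apply, Fin.sum_univ_two]
    linear_combination -hB
  · simp [Matrix.mul_apply, Fin.sum_univ_two]
    ring

theorem exists_hom {F K : Type*} [Field F] [Fintype F] [Field K] [Fintype K] {q : ℕ}
    (hF : Fintype.card F = q ^ 2) (hK : Fintype.card K = q) :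
    ∃ f : Matrix.SpecialLinearGroup (Fin 2) K →* Cfsg.SU 2 F q, Function.Injective f := by
  obtain ⟨ι⟩ := exists_emb hF hK
  have hq := two_le_q hF
  obtain ⟨c, l₂, l₃, h1, h2, h3, h12, h13, h23⟩ := exists_three_norm_neg_one hF
  obtain ⟨s, hs⟩ : ∃ s : F, s ^ q ≠ s := by
    by_contra hcon
    push_neg at hcon
    have e1 : c ^ 2 = -1 := by
      have h := h1
      rw [pow_succ, hcon c] at h
      rw [sq]
      exact h
    have e2 : l₂ ^ 2 = -1 := by
      have h := h2
      rw [pow_succ, hcon l₂] at h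
      rw [sq]
      exact h
    have e3 : l₃ ^ 2 = -1 := by
      have h := h3
      rw [pow_succ, hcon l₃] at h
      rw [sq]
      exact h
    have f12 : (c - l₂) * (c + l₂) = 0 := by linear_combination e1 - e2
    have f13 : (c - l₃) * (c + l₃) = 0 := by linear_combination e1 - e3
    have g12 : c + l₂ = 0 := (mul_eq_zero.1 f12).resolve_left (sub_ne_zero.2 h12)
    have g13 : c + l₃ = 0 := (mul_eq_zero.1 f13).resolve_left (sub_ne_zero.2 h13)
    exact h23 (by linear_combination g12 - g13)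
  have hc0 : c ≠ 0 := by
    intro h
    rw [h, zero_pow (by omega)] at h1
    exact (neg_ne_zero.2 (one_ne_zero (α := F))) h1.symm
  have hcq : c * c ^ q = -1 := by rw [← h1, pow_succ, mul_comm]
  have hss : (s ^ q) ^ q = s := frob_frob hF s
  have hμ : s ^ q - s ≠ 0 := sub_ne_zero.2 hs
  obtain ⟨T, hT⟩ : ∃ T : Matrix (Fin 2) (Fin 2) F, T = !![1, s; c, c * s ^ q] := ⟨_, rfl⟩
  have hdetT : T.det = c * (s ^ q - s) := by
    rw [hT, Matrix.det_fin_two]
    simp
    ring
  have hunit : IsUnit T.det := by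
    rw [hdetT]
    exact isUnit_iff_ne_zero.2 (mul_ne_zero hc0 hμ)
  have hunitT : IsUnit T := (Matrix.isUnit_iff_isUnit_det T).2 hunit
  have hTS : T * T⁻¹ = 1 := Matrix.mul_nonsing_inv T hunit
  have hST : T⁻¹ * T = 1 := Matrix.nonsing_inv_mul T hunit
  have hH : Tᵀ * T.map (frob hF) = (s ^ q - s) • !![0, 1; -1, 0] := by
    rw [hT]
    ext i j
    fin_cases i <;> fin_cases j
    · simp [Matrix.mul_apply, Fin.sum_univ_two, frob_apply]
      linear_combination hcq
    · simp [Matrix.mul_apply, Fin.sum_univ_two, frob_apply, mul_pow]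
      rw [hss]
      linear_combination s * hcq
    · simp [Matrix.mul_apply, Fin.sum_univ_two, frob_apply]
      linear_combination s ^ q * hcq
    · simp [Matrix.mul_apply, Fin.sum_univ_two, frob_apply, mul_pow]
      rw [hss]
      linear_combination s * s ^ q * hcq
  have hSS : (T⁻¹)ᵀ * ((s ^ q - s) • !![0, 1; -1, 0]) * (T⁻¹).map (frob hF) = 1 := by
    rw [← hH]
    calc (T⁻¹)ᵀ * (Tᵀ * T.map (frob hF)) * (T⁻¹).map (frob hF)
        = ((T⁻¹)ᵀ * Tᵀ) * (T.map (frob hF) * (T⁻¹).map (frob hF)) := by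
          simp only [Matrix.mul_assoc]
      _ = (T * T⁻¹)ᵀ * (T * T⁻¹).map (frob hF) := by
          rw [Matrix.transpose_mul, Matrix.map_mul]
      _ = 1 := by
          rw [hTS, Matrix.transpose_one, Matrix.map_one _ (map_zero _) (map_one _), Matrix.one_mul]
  have hBprop : ∀ A : Matrix.SpecialLinearGroup (Fin 2) K,
      ((A : Matrix (Fin 2) (Fin 2) K).map ι).map (frob hF) = (A : Matrix (Fin 2) (Fin 2) K).map ι ∧
      ((A : Matrix (Fin 2) (Fin 2) K).map ι).det = 1 := by
    intro A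
    constructor
    · ext i j
      simp only [Matrix.map_apply, frob_apply]
      rw [← map_pow, ← hK, FiniteField.pow_card]
    · have h := RingHom.map_det ι (A : Matrix (Fin 2) (Fin 2) K)
      rw [A.2, map_one] at h
      exact h.symm
  have hdet : ∀ A : Matrix.SpecialLinearGroup (Fin 2) K,
      (T * (A : Matrix (Fin 2) (Fin 2) K).map ι * T⁻¹).det = 1 := by
    intro A
    rw [Matrix.det_conj hunitT, (hBprop A).2]
  have hmem : ∀ A : Matrix.SpecialLinearGroup (Fin 2) K,
      (⟨T * (A : Matrix (Fin 2) (Fin 2) K).map ι * T⁻¹, hdet A⟩ :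
        Matrix.SpecialLinearGroup (Fin 2) F) ∈ Cfsg.SU 2 F q := by
    intro A
    refine (mem_SU_iff (⟨T * (A : Matrix (Fin 2) (Fin 2) K).map ι * T⁻¹, hdet A⟩ :
      Matrix.SpecialLinearGroup (Fin 2) F)).2 ?_
    intro u v
    obtain ⟨B, hB⟩ : ∃ B : Matrix (Fin 2) (Fin 2) F,
        B = (A : Matrix (Fin 2) (Fin 2) K).map ι := ⟨_, rfl⟩
    have hB1 : B.map (frob hF) = B := by rw [hB]; exact (hBprop A).1
    have hB2 : B.det = 1 := by rw [hB]; exact (hBprop A).2
    change Cfsg.hermForm 2 F q ((T * (A : Matrix (Fin 2) (Fin 2) K).map ι * T⁻¹) *ᵥ u)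
      ((T * (A : Matrix (Fin 2) (Fin 2) K).map ι * T⁻¹) *ᵥ v) = Cfsg.hermForm 2 F q u v
    rw [← hB]
    have hherm : ∀ x y : Fin 2 → F, Cfsg.hermForm 2 F q x y = x ⬝ᵥ (frob hF ∘ y) := by
      intro x y
      rfl
    have hkey : (T * B * T⁻¹)ᵀ * (T * B * T⁻¹).map (frob hF) = 1 := by
      rw [Matrix.map_mul, Matrix.map_mul, hB1, Matrix.transpose_mul, Matrix.transpose_mul]
      calc (T⁻¹)ᵀ * (Bᵀ * Tᵀ) * (T.map (frob hF) * B * (T⁻¹).map (frob hF))
          = (T⁻¹)ᵀ * (Bᵀ * (Tᵀ * T.map (frob hF)) * B) * (T⁻¹).map (frob hF) := by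
            simp only [Matrix.mul_assoc]
        _ = (T⁻¹)ᵀ * ((s ^ q - s) • (Bᵀ * !![0, 1; -1, 0] * B)) * (T⁻¹).map (frob hF) := by
            rw [hH, Matrix.mul_smul, Matrix.smul_mul]
        _ = 1 := by
            rw [two_by_two B hB2]
            exact hSS
    rw [hherm, hherm]
    have e1 : frob hF ∘ ((T * B * T⁻¹) *ᵥ v) = (T * B * T⁻¹).map (frob hF) *ᵥ (frob hF ∘ v) := by
      funext i
      exact RingHom.map_mulVec (frob hF) (T * B * T⁻¹) v i
    rw [e1, ← Matrix.vecMul_transpose, ← Matrix.dotProduct_mulVec, Matrix.mulVec_mulVec, hkey,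
      Matrix.one_mulVec]
  obtain ⟨f₀, hf₀⟩ : ∃ f₀ : Matrix.SpecialLinearGroup (Fin 2) K →*
      Matrix.SpecialLinearGroup (Fin 2) F, ∀ A, ((f₀ A : Matrix.SpecialLinearGroup (Fin 2) F) :
        Matrix (Fin 2) (Fin 2) F) = T * (A : Matrix (Fin 2) (Fin 2) K).map ι * T⁻¹ := by
    refine ⟨{ toFun := fun A => ⟨T * (A : Matrix (Fin 2) (Fin 2) K).map ι * T⁻¹, hdet A⟩
              map_one' := ?_
              map_mul' := ?_ }, fun A => rfl⟩
    · apply Subtype.ext
      change T * (1 : Matrix (Fin 2) (Fin 2) K).map ι * T⁻¹ = 1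
      rw [Matrix.map_one _ (map_zero _) (map_one _), Matrix.mul_one, hTS]
    · intro A A'
      apply Subtype.ext
      change T * ((A : Matrix (Fin 2) (Fin 2) K) * (A' : Matrix (Fin 2) (Fin 2) K)).map ι * T⁻¹
        = (T * (A : Matrix (Fin 2) (Fin 2) K).map ι * T⁻¹)
          * (T * (A' : Matrix (Fin 2) (Fin 2) K).map ι * T⁻¹)
      rw [Matrix.map_mul]
      calc T * ((A : Matrix (Fin 2) (Fin 2) K).map ι * (A' : Matrix (Fin 2) (Fin 2) K).map ι) * T⁻¹
          = T * (A : Matrix (Fin 2) (Fin 2) K).map ι * 1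
            * ((A' : Matrix (Fin 2) (Fin 2) K).map ι * T⁻¹) := by
            simp only [Matrix.mul_assoc, Matrix.one_mul]
        _ = (T * (A : Matrix (Fin 2) (Fin 2) K).map ι * T⁻¹)
          * (T * (A' : Matrix (Fin 2) (Fin 2) K).map ι * T⁻¹) := by
            rw [← hST]
            simp only [Matrix.mul_assoc]
  have hf₀mem : ∀ A, f₀ A ∈ Cfsg.SU 2 F q := by
    intro A
    have : f₀ A = ⟨T * (A : Matrix (Fin 2) (Fin 2) K).map ι * T⁻¹, hdet A⟩ :=
      Subtype.ext (hf₀ A)
    rw [this]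
    exact hmem A
  refine ⟨f₀.codRestrict (Cfsg.SU 2 F q) hf₀mem, ?_⟩
  intro A A' hAA
  have h1 : f₀ A = f₀ A' := congrArg Subtype.val hAA
  have h2 : T * (A : Matrix (Fin 2) (Fin 2) K).map ι * T⁻¹
      = T * (A' : Matrix (Fin 2) (Fin 2) K).map ι * T⁻¹ := by
    rw [← hf₀ A, ← hf₀ A', h1]
  have h3 : (A : Matrix (Fin 2) (Fin 2) K).map ι = (A' : Matrix (Fin 2) (Fin 2) K).map ι := by
    have h4 := congrArg (fun M => T⁻¹ * M * T) h2
    simp only [Matrix.mul_assoc] at h4
    rw [hST, Matrix.mul_one, ← Matrix.mul_assoc, ← Matrix.mul_assoc, hST, Matrix.one_mul,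
      Matrix.one_mul, Matrix.mul_one] at h4
    exact h4
  apply Subtype.ext
  exact Matrix.map_injective ι.injective h3

theorem card_eq {F K : Type*} [Field F] [Fintype F] [Field K] [Fintype K] {q : ℕ}
    (hF : Fintype.card F = q ^ 2) (hK : Fintype.card K = q) :
    Nat.card (Cfsg.SU 2 F q) = Nat.card (Matrix.SpecialLinearGroup (Fin 2) K) := by
  have hq := two_le_q hF
  have h1 := Cfsg.Agent.Lib_helper4_SU.card_SU_mul (n := 2) hF (by norm_num)
  have h2 := Cfsg.Agent.Lib_helper4_GU.card_GU hF 2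
  have h3 := Cfsg.Agent.Lib_helper4_Card.card_SL hK 2 (by norm_num)
  rw [h2] at h1
  rw [Fin.prod_univ_two] at h3
  simp [Finset.prod_range_succ] at h1 h3
  obtain ⟨r, rfl⟩ : ∃ r, q = r + 2 := ⟨q - 2, by omega⟩
  have e1 : (r + 2) ^ 2 - 1 = (r + 1) * (r + 3) := by
    rw [Nat.sub_eq_iff_eq_add (Nat.one_le_pow _ _ (by omega))]
    ring
  have e2 : (r + 2) ^ 2 - (r + 2) = (r + 1) * (r + 2) := by
    rw [Nat.sub_eq_iff_eq_add (by nlinarith)]
    ring
  have e3 : r + 2 - 1 = r + 1 := by omega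
  rw [e1] at h1 h3
  rw [e2, e3] at h3
  have g1 : Nat.card (Cfsg.SU 2 F (r + 2)) = (r + 2) * ((r + 1) * (r + 3)) := by
    have : (r + 2 + 1) * Nat.card (Cfsg.SU 2 F (r + 2))
        = (r + 2 + 1) * ((r + 2) * ((r + 1) * (r + 3))) := by
      rw [h1]
      ring
    exact Nat.eq_of_mul_eq_mul_left (by omega) this
  have g2 : Nat.card (Matrix.SpecialLinearGroup (Fin 2) K) = (r + 2) * ((r + 1) * (r + 3)) := by
    have : (r + 1) * Nat.card (Matrix.SpecialLinearGroup (Fin 2) K)
        = (r + 1) * ((r + 2) * ((r + 1) * (r + 3))) := by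
      rw [h3]
      ring
    exact Nat.eq_of_mul_eq_mul_left (by omega) this
  rw [g1, g2]


/-- SU_2(q) is isomorphic to SL_2(q). -/
theorem result {F K : Type*} [Field F] [Fintype F] [Field K] [Fintype K] {q : ℕ} (hF : Fintype.card F = q ^ 2) (hK : Fintype.card K = q) : Nonempty (Cfsg.SU 2 F q ≃* Matrix.SpecialLinearGroup (Fin 2) K) := by
  obtain ⟨f, hf⟩ := exists_hom hF hK
  have hbij : Function.Bijective f := hf.bijective_of_nat_card_le (card_eq hF hK).le
  exact ⟨(MulEquiv.ofBijective f hbij).symm⟩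

end Cfsg.Agent.S0281
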