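import Cfsg.Statements.S0289
import Mathlib
import Cfsg.Agent.Lib_helper4_QCount

set_option autoImplicit false
open Cfsg

namespace Cfsg.Agent.S0289

/-- The hyperbolic quadratic form on F^(2m), m at least 1, has q^(2m-1) + q^m - q^(m-1) zeros (that is, (q^m - 1)(q^(m-1) + 1) non-zero isotropic vectors). -/
theorem result {F : Type*} [Field F] [Fintype F] {q : ℕ} (hF : Fintype.card F = q) (m : ℕ) (hm : 1 ≤ m) : Nat.card {v : Fin m ⊕ Fin m → F // Cfsg.quadFormPlus m F v = 0} = q ^ (2 * m - 1) + q ^ m - q ^ (m - 1) := by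
  classical
  have hq : 2 ≤ q := by
    rw [← hF]
    exact Fintype.one_lt_card
  have key : ∀ k : ℕ, Nat.card {v : (Fin (k + 1) ⊕ Fin (k + 1)) ⊕ Fin 0 → F //
      Cfsg.Agent.Lib_helper4_QCount.hypForm (k + 1) (fun _ : Fin 0 → F => (0 : F)) v = 0} + q ^ k
      = q ^ (2 * k + 1) + q ^ (k + 1) := by
    intro k
    induction k with
    | zero =>
      have hs := Cfsg.Agent.Lib_helper4_QCount.card_hypForm_succ hF 0 (fun _ : Fin 0 → F => (0 : F))
      rw [Fintype.card_fin, Cfsg.Agent.Lib_helper4_QCount.card_hypForm_zero] at hs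
      have h1 : Nat.card {w : Fin 0 → F // (0 : F) = 0} = 1 := by
        rw [Nat.card_eq_one_iff_unique]
        exact ⟨inferInstance, ⟨⟨0, rfl⟩⟩⟩
      rw [h1] at hs
      rw [hs]
      obtain ⟨r, rfl⟩ : ∃ r, q = r + 1 := ⟨q - 1, by omega⟩
      simp only [Nat.add_sub_cancel]
      ring
    | succ k ih =>
      have hs := Cfsg.Agent.Lib_helper4_QCount.card_hypForm_succ hF (k + 1) (fun _ : Fin 0 → F => (0 : F))
      rw [Fintype.card_fin] at hs
      rw [hs]
      obtain ⟨r, rfl⟩ : ∃ r, q = r + 1 := ⟨q - 1, by omega⟩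
      simp only [Nat.add_sub_cancel]
      linear_combination (r + 1) * ih
  obtain ⟨k, rfl⟩ : ∃ k, m = k + 1 := ⟨m - 1, by omega⟩
  have h1 := key k
  have h2 : 2 * (k + 1) - 1 = 2 * k + 1 := by omega
  have h3 : k + 1 - 1 = k := by omega
  rw [h2, h3]
  have e : {v : Fin (k + 1) ⊕ Fin (k + 1) → F // Cfsg.quadFormPlus (k + 1) F v = 0}
      ≃ {v : (Fin (k + 1) ⊕ Fin (k + 1)) ⊕ Fin 0 → F //
        Cfsg.Agent.Lib_helper4_QCount.hypForm (k + 1) (fun _ : Fin 0 → F => (0 : F)) v = 0} :=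
    ((Equiv.sumEmpty (Fin (k + 1) ⊕ Fin (k + 1)) (Fin 0)).symm.arrowCongr (Equiv.refl F)).subtypeEquiv
      (fun v => by
        unfold Cfsg.quadFormPlus Cfsg.Agent.Lib_helper4_QCount.hypForm
        simp)
  rw [Nat.card_congr e]
  exact Nat.eq_sub_of_add_eq h1

end Cfsg.Agent.S0289
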