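import Cfsg.Statements.S0290
import Mathlib
import Cfsg.Agent.Lib_helper4_QCount

set_option autoImplicit false
open Cfsg

namespace Cfsg.Agent.S0290

/-- The minus-type quadratic form on F^(2m), m at least 1, has q^(2m-1) + q^(m-1) - q^m zeros (that is, (q^m + 1)(q^(m-1) - 1) non-zero isotropic vectors). -/
theorem result {F : Type*} [Field F] [Fintype F] {q : ℕ} (hF : Fintype.card F = q) (m : ℕ) (hm : 1 ≤ m) (a b : F) (hab : ∀ z₁ z₂ : F, z₁ ^ 2 + a * z₁ * z₂ + b * z₂ ^ 2 = 0 → z₁ = 0 ∧ z₂ = 0) : Nat.card {v : (Fin (m - 1) ⊕ Fin (m - 1)) ⊕ Fin 2 → F // Cfsg.quadFormMinus (m - 1) F a b v = 0} = q ^ (2 * m - 1) + q ^ (m - 1) - q ^ m := by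
  classical
  have hq : 2 ≤ q := by
    rw [← hF]
    exact Fintype.one_lt_card
  have key : ∀ k : ℕ, Nat.card {v : (Fin k ⊕ Fin k) ⊕ Fin 2 → F //
      Cfsg.Agent.Lib_helper4_QCount.hypForm k
        (fun w : Fin 2 → F => w 0 ^ 2 + a * w 0 * w 1 + b * w 1 ^ 2) v = 0} + q ^ (k + 1)
      = q ^ (2 * k + 1) + q ^ k := by
    intro k
    induction k with
    | zero =>
      rw [Cfsg.Agent.Lib_helper4_QCount.card_hypForm_zero]
      have h1 : Nat.card {w : Fin 2 → F // w 0 ^ 2 + a * w 0 * w 1 + b * w 1 ^ 2 = 0} = 1 := by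
        rw [Nat.card_eq_one_iff_unique]
        constructor
        · constructor
          rintro ⟨w, hw⟩ ⟨w', hw'⟩
          apply Subtype.ext
          have h1 := hab _ _ hw
          have h2 := hab _ _ hw'
          funext i
          fin_cases i
          · exact h1.1.trans h2.1.symm
          · exact h1.2.trans h2.2.symm
        · exact ⟨⟨0, by simp⟩⟩
      rw [h1]
      ring
    | succ k ih =>
      have hs := Cfsg.Agent.Lib_helper4_QCount.card_hypForm_succ hF k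
        (fun w : Fin 2 → F => w 0 ^ 2 + a * w 0 * w 1 + b * w 1 ^ 2)
      rw [Fintype.card_fin] at hs
      rw [hs]
      obtain ⟨r, rfl⟩ : ∃ r, q = r + 1 := ⟨q - 1, by omega⟩
      simp only [Nat.add_sub_cancel]
      linear_combination (r + 1) * ih
  obtain ⟨k, rfl⟩ : ∃ k, m = k + 1 := ⟨m - 1, by omega⟩
  have h1 := key k
  have h2 : 2 * (k + 1) - 1 = 2 * k + 1 := by omega
  rw [h2]
  show Nat.card {v : (Fin k ⊕ Fin k) ⊕ Fin 2 → F //
      Cfsg.Agent.Lib_helper4_QCount.hypForm k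
        (fun w : Fin 2 → F => w 0 ^ 2 + a * w 0 * w 1 + b * w 1 ^ 2) v = 0}
      = q ^ (2 * k + 1) + q ^ k - q ^ (k + 1)
  exact Nat.eq_sub_of_add_eq h1

end Cfsg.Agent.S0290
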