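import Cfsg.Statements.S0291
import Mathlib
import Cfsg.Agent.Lib_helper4_QCount

set_option autoImplicit false
open Cfsg

namespace Cfsg.Agent.S0291

/-- For q odd, the form x_0^2 + sum_{i<m} x_i y_i on F^(2m+1) has exactly q^(2m) zeros. -/
theorem result {F : Type*} [Field F] [Fintype F] {q : ℕ} (hF : Fintype.card F = q) (hodd : Odd q) (m : ℕ) : Nat.card {v : Unit ⊕ (Fin m ⊕ Fin m) → F // Cfsg.quadFormOdd m F v = 0} = q ^ (2 * m) := by
  classical
  have hq : 2 ≤ q := by
    rw [← hF]
    exact Fintype.one_lt_card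
  have key : ∀ k : ℕ, Nat.card {v : (Fin k ⊕ Fin k) ⊕ Unit → F //
      Cfsg.Agent.Lib_helper4_QCount.hypForm k (fun w : Unit → F => w () ^ 2) v = 0}
      = q ^ (2 * k) := by
    intro k
    induction k with
    | zero =>
      rw [Cfsg.Agent.Lib_helper4_QCount.card_hypForm_zero, Nat.mul_zero, pow_zero]
      rw [Nat.card_eq_one_iff_unique]
      constructor
      · constructor
        rintro ⟨w, hw⟩ ⟨w', hw'⟩
        apply Subtype.ext
        funext i
        have h1 : w () = 0 := by
          have := hw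
          simpa using this
        have h2 : w' () = 0 := by
          have := hw'
          simpa using this
        exact h1.trans h2.symm
      · exact ⟨⟨0, by simp⟩⟩
    | succ k ih =>
      have hs := Cfsg.Agent.Lib_helper4_QCount.card_hypForm_succ hF k (fun w : Unit → F => w () ^ 2)
      rw [Fintype.card_unit] at hs
      rw [hs, ih]
      obtain ⟨r, rfl⟩ : ∃ r, q = r + 1 := ⟨q - 1, by omega⟩
      simp only [Nat.add_sub_cancel]
      ring
  have e : {v : Unit ⊕ (Fin m ⊕ Fin m) → F // Cfsg.quadFormOdd m F v = 0}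
      ≃ {v : (Fin m ⊕ Fin m) ⊕ Unit → F //
        Cfsg.Agent.Lib_helper4_QCount.hypForm m (fun w : Unit → F => w () ^ 2) v = 0} :=
    ((Equiv.sumComm Unit (Fin m ⊕ Fin m)).arrowCongr (Equiv.refl F)).subtypeEquiv
      (fun v => by
        unfold Cfsg.quadFormOdd Cfsg.Agent.Lib_helper4_QCount.hypForm
        simp [add_comm])
  rw [Nat.card_congr e]
  exact key m

end Cfsg.Agent.S0291
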