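import Cfsg.Statements.S0304
import Mathlib
import Cfsg.Agent.S5676

set_option autoImplicit false
open Cfsg

namespace Cfsg.Agent.S0304

open Matrix

section Gen
variable {F : Type*} [Field F] {m : ℕ}

/-- The hyperbolic part of the form. -/
def q0 (w : Fin m ⊕ Fin m → F) : F := ∑ i : Fin m, w (Sum.inl i) * w (Sum.inr i)

/-- Its polar form. -/
def om (x y : Fin m ⊕ Fin m → F) : F :=
  ∑ i : Fin m, (x (Sum.inl i) * y (Sum.inr i) + x (Sum.inr i) * y (Sum.inl i))

theorem Q_elim (t : F) (w : Fin m ⊕ Fin m → F) :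
    Cfsg.quadFormOdd m F (Sum.elim (fun _ => t) w) = t ^ 2 + q0 w := rfl

theorem vec_eta (v : Unit ⊕ (Fin m ⊕ Fin m) → F) :
    v = Sum.elim (fun _ => v (Sum.inl ())) (v ∘ Sum.inr) := by
  funext i
  rcases i with i | i <;> rfl

theorem elim_add (s t : F) (w w' : Fin m ⊕ Fin m → F) :
    (Sum.elim (fun _ => s) w : Unit ⊕ (Fin m ⊕ Fin m) → F) + Sum.elim (fun _ => t) w' =
      Sum.elim (fun _ => s + t) (w + w') := by
  funext i
  rcases i with i | i <;> rfl

theorem q0_add (x y : Fin m ⊕ Fin m → F) : q0 (x + y) = q0 x + q0 y + om x y := by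
  unfold q0 om
  rw [← Finset.sum_add_distrib, ← Finset.sum_add_distrib]
  apply Finset.sum_congr rfl
  intro i _
  simp only [Pi.add_apply]
  ring

theorem q0_smul (c : F) (x : Fin m ⊕ Fin m → F) : q0 (c • x) = c ^ 2 * q0 x := by
  unfold q0
  rw [Finset.mul_sum]
  apply Finset.sum_congr rfl
  intro i _
  simp only [Pi.smul_apply, smul_eq_mul]
  ring

theorem q0_zero : q0 (0 : Fin m ⊕ Fin m → F) = 0 := by
  unfold q0
  simp

theorem om_single_inr (c : Fin m ⊕ Fin m → F) (i : Fin m) :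
    om c (Pi.single (Sum.inr i) 1) = c (Sum.inl i) := by
  unfold om
  simp [Pi.single_apply, Finset.sum_add_distrib]

theorem om_single_inl (c : Fin m ⊕ Fin m → F) (i : Fin m) :
    om c (Pi.single (Sum.inl i) 1) = c (Sum.inr i) := by
  unfold om
  simp [Pi.single_apply, Finset.sum_add_distrib]

theorem J_mulVec (y : Fin m ⊕ Fin m → F) :
    J (Fin m) F *ᵥ y = Sum.elim (-(y ∘ Sum.inr)) (y ∘ Sum.inl) := by
  rw [J, fromBlocks_mulVec]
  simp [Matrix.neg_mulVec]

theorem om_eq (h2 : (2 : F) = 0) (x y : Fin m ⊕ Fin m → F) :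
    om x y = x ⬝ᵥ (J (Fin m) F *ᵥ y) := by
  rw [J_mulVec]
  unfold om dotProduct
  rw [Fintype.sum_sum_type, Finset.sum_add_distrib]
  congr 1
  · apply Finset.sum_congr rfl
    intro i _
    simp only [Sum.elim_inl, Pi.neg_apply, Function.comp_apply]
    linear_combination (x (Sum.inl i) * y (Sum.inr i)) * h2

theorem om_symp (h2 : (2 : F) = 0) (h : Matrix (Fin m ⊕ Fin m) (Fin m ⊕ Fin m) F)
    (hh : hᵀ * J (Fin m) F * h = J (Fin m) F) (x y : Fin m ⊕ Fin m → F) :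
    om (h *ᵥ x) (h *ᵥ y) = om x y := by
  rw [om_eq h2, om_eq h2, ← Matrix.vecMul_transpose, ← Matrix.dotProduct_mulVec,
    Matrix.mulVec_mulVec, Matrix.mulVec_mulVec, hh]

theorem sq_sum (h2 : (2 : F) = 0) {κ : Type*} (s : Finset κ) (g : κ → F) :
    (∑ i ∈ s, g i) ^ 2 = ∑ i ∈ s, (g i) ^ 2 := by
  classical
  induction s using Finset.induction_on with
  | empty => simp
  | insert a s ha ih =>
    rw [Finset.sum_insert ha, Finset.sum_insert ha, ← ih]
    linear_combination (g a * ∑ i ∈ s, g i) * h2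

theorem mat_ext2 {κ : Type} [Fintype κ] [DecidableEq κ] (M N : Matrix κ κ F)
    (h : ∀ x y : κ → F, x ⬝ᵥ (M *ᵥ y) = x ⬝ᵥ (N *ᵥ y)) : M = N := by
  apply Cfsg.Agent.S5676.mat_ext
  intro y
  funext k
  have h1 := h (Pi.single k 1) y
  simpa [dotProduct, Pi.single_apply] using h1

end Gen

section Struct
variable {F : Type*} [Field F] {m : ℕ}

theorem blocks_mulVec (A : Matrix Unit Unit F) (B : Matrix Unit (Fin m ⊕ Fin m) F)
    (C : Matrix (Fin m ⊕ Fin m) Unit F) (D : Matrix (Fin m ⊕ Fin m) (Fin m ⊕ Fin m) F) (t : F)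
    (w : Fin m ⊕ Fin m → F) :
    fromBlocks A B C D *ᵥ (Sum.elim (fun _ => t) w) =
      Sum.elim (fun _ => A () () * t + (B *ᵥ w) ()) (t • (fun k => C k ()) + D *ᵥ w) := by
  rw [fromBlocks_mulVec]
  funext i
  rcases i with i | i
  · simp [Matrix.mulVec, dotProduct]
  · simp [Matrix.mulVec, dotProduct, mul_comm]

theorem exists_sqrt [Finite F] (h2 : (2 : F) = 0) (x : F) : ∃ y : F, y ^ 2 = x := by
  have hinj : Function.Injective (fun y : F => y ^ 2) := by
    intro a b hab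
    have h0 : a ^ 2 = b ^ 2 := hab
    have h1 : (a - b) ^ 2 = 0 := by
      linear_combination h0 + (b ^ 2 - a * b) * h2
    have h3 := (pow_eq_zero_iff two_ne_zero).1 h1
    linear_combination h3
  exact Finite.surjective_of_injective hinj x

theorem struct (h2 : (2 : F) = 0)
    (M : Matrix (Unit ⊕ (Fin m ⊕ Fin m)) (Unit ⊕ (Fin m ⊕ Fin m)) F)
    (hM : ∀ u, Cfsg.quadFormOdd m F (M *ᵥ u) = Cfsg.quadFormOdd m F u)
    (hsurj : ∀ x, ∃ u, M *ᵥ u = x) :
    M.toBlocks₁₁ = 1 ∧ M.toBlocks₂₁ = 0 := by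
  obtain ⟨A, B, C, D, hABCD⟩ : ∃ A B C D, M = fromBlocks A B C D :=
    ⟨_, _, _, _, (fromBlocks_toBlocks M).symm⟩
  subst hABCD
  rw [toBlocks_fromBlocks₁₁, toBlocks_fromBlocks₂₁]
  have ha : fromBlocks A B C D *ᵥ (Sum.elim (fun _ => (1 : F)) 0) =
      Sum.elim (fun _ => A () ()) (fun k => C k ()) := by
    rw [blocks_mulVec]
    funext i
    rcases i with i | i
    · simp
    · simp
  have hQa : (A () ()) ^ 2 + q0 (fun k => C k ()) = 1 := by
    have h1 := hM (Sum.elim (fun _ => (1 : F)) 0)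
    rw [ha, Q_elim, Q_elim, q0_zero] at h1
    rw [h1]
    ring
  have hpol : ∀ w : Fin m ⊕ Fin m → F, om (fun k => C k ()) w = 0 := by
    intro w
    obtain ⟨u, hu⟩ := hsurj (Sum.elim (fun _ => 0) w)
    have h1 := hM (Sum.elim (fun _ => (1 : F)) 0 + u)
    rw [Matrix.mulVec_add, ha, hu, elim_add, Q_elim, vec_eta u, elim_add, Q_elim, q0_add]
      at h1
    have h3 := hM u
    rw [hu, Q_elim, vec_eta u, Q_elim] at h3
    rw [zero_add] at h1
    linear_combination h1 - h3 - hQa + (u (Sum.inl ())) * h2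
  have hc : ∀ k, C k () = 0 := by
    intro k
    rcases k with i | i
    · have h1 := hpol (Pi.single (Sum.inr i) 1)
      rwa [om_single_inr] at h1
    · have h1 := hpol (Pi.single (Sum.inl i) 1)
      rwa [om_single_inl] at h1
  have hC : C = 0 := by
    ext k u
    exact hc k
  have hq0c : q0 (fun k => C k ()) = 0 := by
    have h1 : (fun k => C k ()) = (0 : Fin m ⊕ Fin m → F) := funext hc
    rw [h1, q0_zero]
  have hα : A () () = 1 := by
    rw [hq0c, add_zero] at hQa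
    have h4 : (A () () - 1) ^ 2 = 0 := by linear_combination hQa + (1 - A () ()) * h2
    have h5 := (pow_eq_zero_iff two_ne_zero).1 h4
    linear_combination h5
  refine ⟨?_, hC⟩
  ext u u'
  rw [Matrix.one_apply, if_pos (Subsingleton.elim u u')]
  exact hα

theorem star (B : Matrix Unit (Fin m ⊕ Fin m) F)
    (D : Matrix (Fin m ⊕ Fin m) (Fin m ⊕ Fin m) F)
    (hM : ∀ u, Cfsg.quadFormOdd m F (fromBlocks 1 B 0 D *ᵥ u) = Cfsg.quadFormOdd m F u)
    (w : Fin m ⊕ Fin m → F) : ((B *ᵥ w) ()) ^ 2 + q0 (D *ᵥ w) = q0 w := by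
  have h1 := hM (Sum.elim (fun _ => 0) w)
  rw [blocks_mulVec, Q_elim, Q_elim, mul_zero, zero_add, zero_smul, zero_add] at h1
  linear_combination h1

theorem block_symp (h2 : (2 : F) = 0) (B : Matrix Unit (Fin m ⊕ Fin m) F)
    (D : Matrix (Fin m ⊕ Fin m) (Fin m ⊕ Fin m) F)
    (hM : ∀ u, Cfsg.quadFormOdd m F (fromBlocks 1 B 0 D *ᵥ u) = Cfsg.quadFormOdd m F u) :
    Dᵀ * J (Fin m) F * D = J (Fin m) F := by
  apply mat_ext2
  intro x y
  have hx := star B D hM x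
  have hy := star B D hM y
  have hxy := star B D hM (x + y)
  rw [Matrix.mulVec_add, Matrix.mulVec_add, q0_add, q0_add] at hxy
  have hom : om (D *ᵥ x) (D *ᵥ y) = om x y := by
    simp only [Pi.add_apply] at hxy
    linear_combination hxy - hx - hy - ((B *ᵥ x) () * (B *ᵥ y) ()) * h2
  rw [om_eq h2, om_eq h2] at hom
  have e1 : (D *ᵥ x) ⬝ᵥ (J (Fin m) F *ᵥ (D *ᵥ y)) =
      x ⬝ᵥ ((Dᵀ * J (Fin m) F * D) *ᵥ y) := by
    rw [← Matrix.vecMul_transpose, ← Matrix.dotProduct_mulVec, Matrix.mulVec_mulVec,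
      Matrix.mulVec_mulVec]
  rw [← e1]
  exact hom

theorem exists_lift [Finite F] (h2 : (2 : F) = 0)
    (h : Matrix (Fin m ⊕ Fin m) (Fin m ⊕ Fin m) F)
    (hh : hᵀ * J (Fin m) F * h = J (Fin m) F) :
    ∃ μ : Fin m ⊕ Fin m → F, ∀ u, Cfsg.quadFormOdd m F
      (fromBlocks (1 : Matrix Unit Unit F) (Matrix.of fun _ k => μ k) 0 h *ᵥ u) =
        Cfsg.quadFormOdd m F u := by
  classical
  obtain ⟨Dm, hDm⟩ : ∃ Dm : (Fin m ⊕ Fin m → F) →+ F,
      ∀ w, Dm w = q0 (h *ᵥ w) + q0 w :=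
    ⟨{ toFun := fun w => q0 (h *ᵥ w) + q0 w
       map_zero' := by rw [Matrix.mulVec_zero, q0_zero, add_zero]
       map_add' := fun x y => by
         rw [Matrix.mulVec_add, q0_add, q0_add, om_symp h2 h hh]
         linear_combination (om x y) * h2 }, fun _ => rfl⟩
  have hsm : ∀ (c : F) (w : Fin m ⊕ Fin m → F), Dm (c • w) = c ^ 2 * Dm w := by
    intro c w
    rw [hDm, hDm, Matrix.mulVec_smul, q0_smul, q0_smul]
    ring
  have hexp : ∀ w : Fin m ⊕ Fin m → F, Dm w = ∑ k, w k ^ 2 * Dm (Pi.single k 1) := by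
    intro w
    have hw : w = ∑ k, w k • (Pi.single k (1 : F) : Fin m ⊕ Fin m → F) := by
      funext j
      simp [Finset.sum_apply, Pi.single_apply]
    conv_lhs => rw [hw]
    rw [map_sum]
    apply Finset.sum_congr rfl
    intro k _
    rw [hsm]
  choose μ hμ using fun k => exists_sqrt h2 (Dm (Pi.single k 1))
  refine ⟨μ, ?_⟩
  intro u
  rw [vec_eta u, blocks_mulVec, Q_elim, Q_elim]
  have hμw : ((Matrix.of fun (_ : Unit) k => μ k) *ᵥ (u ∘ Sum.inr)) () =
      ∑ k, μ k * (u ∘ Sum.inr) k := rfl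
  have hsq : (∑ k, μ k * (u ∘ Sum.inr) k) ^ 2 = Dm (u ∘ Sum.inr) := by
    rw [sq_sum h2, hexp]
    apply Finset.sum_congr rfl
    intro k _
    rw [← hμ k]
    ring
  have hzero : (u (Sum.inl ()) • (fun k => (0 : Matrix (Fin m ⊕ Fin m) Unit F) k ()) +
      h *ᵥ (u ∘ Sum.inr)) = h *ᵥ (u ∘ Sum.inr) := by
    funext k
    simp
  rw [hzero, hμw, Matrix.one_apply_eq, one_mul]
  have hD := hDm (u ∘ Sum.inr)
  linear_combination hsq + hD + (u (Sum.inl ()) * (∑ k, μ k * (u ∘ Sum.inr) k) +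
    q0 (h *ᵥ (u ∘ Sum.inr))) * h2

end Struct


/-- In characteristic 2, O_{2m+1}(q) is isomorphic to Sp_{2m}(q). -/
theorem result {F : Type*} [Field F] [Fintype F] [CharP F 2] (m : ℕ) : Nonempty (Cfsg.isometryGroup F (Cfsg.quadFormOdd m F) ≃* Matrix.symplecticGroup (Fin m) F) := by
  classical
  have h2 : (2 : F) = 0 := by
    have h0 := CharP.cast_eq_zero F 2
    exact_mod_cast h0
  have hst : ∀ g : Cfsg.isometryGroup F (Cfsg.quadFormOdd m F),
      g.1.val.toBlocks₁₁ = 1 ∧ g.1.val.toBlocks₂₁ = 0 := by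
    intro g
    apply struct h2 g.1.val (fun u => g.2 u u)
    intro x
    exact ⟨(g.1⁻¹).val *ᵥ x, by
      rw [Matrix.mulVec_mulVec, ← Units.val_mul, mul_inv_cancel, Units.val_one,
        Matrix.one_mulVec]⟩
  have hform : ∀ g : Cfsg.isometryGroup F (Cfsg.quadFormOdd m F),
      g.1.val = fromBlocks 1 g.1.val.toBlocks₁₂ 0 g.1.val.toBlocks₂₂ := by
    intro g
    conv_lhs => rw [← fromBlocks_toBlocks g.1.val, (hst g).1, (hst g).2]
  have hpres : ∀ g : Cfsg.isometryGroup F (Cfsg.quadFormOdd m F), ∀ u,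
      Cfsg.quadFormOdd m F (fromBlocks 1 g.1.val.toBlocks₁₂ 0 g.1.val.toBlocks₂₂ *ᵥ u) =
        Cfsg.quadFormOdd m F u := by
    intro g u
    rw [← hform g]
    exact g.2 u u
  have hsp : ∀ g : Cfsg.isometryGroup F (Cfsg.quadFormOdd m F),
      g.1.val.toBlocks₂₂ ∈ Matrix.symplecticGroup (Fin m) F := by
    intro g
    rw [SymplecticGroup.mem_iff']
    exact block_symp h2 g.1.val.toBlocks₁₂ _ (hpres g)
  obtain ⟨Φ, hΦ⟩ : ∃ Φ : Cfsg.isometryGroup F (Cfsg.quadFormOdd m F) →*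
      Matrix.symplecticGroup (Fin m) F, ∀ g, (Φ g).1 = g.1.val.toBlocks₂₂ :=
    ⟨MonoidHom.mk' (fun g => ⟨g.1.val.toBlocks₂₂, hsp g⟩) (by
      intro g g'
      apply Subtype.ext
      show ((g * g').1.val).toBlocks₂₂ = g.1.val.toBlocks₂₂ * g'.1.val.toBlocks₂₂
      rw [Subgroup.coe_mul, Units.val_mul]
      conv_lhs => rw [hform g, hform g', fromBlocks_multiply, toBlocks_fromBlocks₂₂]
      rw [Matrix.zero_mul, zero_add]), fun _ => rfl⟩
  refine ⟨MulEquiv.ofBijective Φ ⟨?_, ?_⟩⟩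
  · rw [injective_iff_map_eq_one]
    intro g hg
    have hD : g.1.val.toBlocks₂₂ = 1 := by
      rw [← hΦ g, hg]
      rfl
    have hB : g.1.val.toBlocks₁₂ = 0 := by
      ext u k
      have h1 := star g.1.val.toBlocks₁₂ g.1.val.toBlocks₂₂ (hpres g) (Pi.single k 1)
      rw [hD, Matrix.one_mulVec] at h1
      have h3 : ((g.1.val.toBlocks₁₂ *ᵥ Pi.single k 1) ()) ^ 2 = 0 := by linear_combination h1
      have h4 := (pow_eq_zero_iff two_ne_zero).1 h3
      rw [Matrix.mulVec_single_one] at h4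
      exact h4
    apply Subtype.ext
    apply Units.ext
    rw [hform g, hB, hD]
    exact fromBlocks_one
  · intro h
    obtain ⟨μ, hμ⟩ := exists_lift h2 h.1 (SymplecticGroup.mem_iff'.1 h.2)
    have hdet : (fromBlocks (1 : Matrix Unit Unit F) (Matrix.of fun _ k => μ k) 0 h.1).det ≠ 0 := by
      rw [Matrix.det_fromBlocks_zero₂₁, Matrix.det_one, one_mul]
      exact (SymplecticGroup.symplectic_det h.2).ne_zero
    refine ⟨⟨Matrix.GeneralLinearGroup.mkOfDetNeZero _ hdet, fun u _ => hμ u⟩, ?_⟩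
    apply Subtype.ext
    rw [hΦ]
    show (fromBlocks (1 : Matrix Unit Unit F) (Matrix.of fun _ k => μ k) 0 h.1).toBlocks₂₂ = h.1
    rw [toBlocks_fromBlocks₂₂]

end Cfsg.Agent.S0304
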