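import Cfsg.Statements.S0305
import Mathlib
import Cfsg.Agent.Lib_helper4_GO2Plus
import Cfsg.Agent.Lib_helper4_DihHom

set_option autoImplicit false
open Cfsg

namespace Cfsg.Agent.S0305

/-- GO^+_2(q) is dihedral of order 2(q-1). -/
theorem result {F : Type*} [Field F] [Fintype F] {q : ℕ} (hF : Fintype.card F = q) : Nonempty (Cfsg.isometryGroup F (Cfsg.quadFormPlus 1 F) ≃* DihedralGroup (q - 1)) := by
  classical
  obtain ⟨e1⟩ := Cfsg.Agent.Lib_helper4_DihHom.iso_reindex (F := F)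
    (finSumFinEquiv : Fin 1 ⊕ Fin 1 ≃ Fin 2) (Cfsg.quadFormPlus 1 F)
  have hQ : (fun w : Fin 2 → F => Cfsg.quadFormPlus 1 F (w ∘ (finSumFinEquiv : Fin 1 ⊕ Fin 1 ≃ Fin 2)))
      = Cfsg.Agent.Lib_helper4_GO2Plus.Qp := by
    funext w
    unfold Cfsg.quadFormPlus Cfsg.Agent.Lib_helper4_GO2Plus.Qp
    rw [Fin.sum_univ_one]
    rfl
  have e2 : Cfsg.isometryGroup F (fun w : Fin 2 → F =>
      Cfsg.quadFormPlus 1 F (w ∘ (finSumFinEquiv : Fin 1 ⊕ Fin 1 ≃ Fin 2)))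
      ≃* Cfsg.isometryGroup F (Cfsg.Agent.Lib_helper4_GO2Plus.Qp : (Fin 2 → F) → F) :=
    MulEquiv.subgroupCongr (by rw [hQ])
  obtain ⟨e3⟩ := Cfsg.Agent.Lib_helper4_GO2Plus.dihedral hF
  exact ⟨(e1.trans e2).trans e3⟩

end Cfsg.Agent.S0305
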