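import Cfsg.Statements.S0306
import Mathlib
import Cfsg.Agent.Lib_helper4_GO2Minus
import Cfsg.Agent.Lib_helper4_DihHom

set_option autoImplicit false
open Cfsg

namespace Cfsg.Agent.S0306

/-- GO^-_2(q) is dihedral of order 2(q+1). -/
theorem result {F : Type*} [Field F] [Fintype F] {q : ℕ} (hF : Fintype.card F = q) (a b : F) (hab : ∀ z₁ z₂ : F, z₁ ^ 2 + a * z₁ * z₂ + b * z₂ ^ 2 = 0 → z₁ = 0 ∧ z₂ = 0) : Nonempty (Cfsg.isometryGroup F (Cfsg.quadFormMinus 0 F a b) ≃* DihedralGroup (q + 1)) := by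
  classical
  let e : (Fin 0 ⊕ Fin 0) ⊕ Fin 2 ≃ Fin 2 :=
    (Equiv.sumCongr (Equiv.equivEmpty (Fin 0 ⊕ Fin 0)) (Equiv.refl (Fin 2))).trans
      (Equiv.emptySum Empty (Fin 2))
  obtain ⟨e1⟩ := Cfsg.Agent.Lib_helper4_DihHom.iso_reindex (F := F) e (Cfsg.quadFormMinus 0 F a b)
  have hQ : (fun w : Fin 2 → F => Cfsg.quadFormMinus 0 F a b (w ∘ e))
      = Cfsg.Agent.Lib_helper4_GO2Minus.Qm a b := by
    funext w
    unfold Cfsg.quadFormMinus Cfsg.Agent.Lib_helper4_GO2Minus.Qm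
    rw [Finset.univ_eq_empty, Finset.sum_empty, zero_add]
    rfl
  have e2 : Cfsg.isometryGroup F (fun w : Fin 2 → F => Cfsg.quadFormMinus 0 F a b (w ∘ e))
      ≃* Cfsg.isometryGroup F (Cfsg.Agent.Lib_helper4_GO2Minus.Qm a b) :=
    MulEquiv.subgroupCongr (by rw [hQ])
  obtain ⟨e3⟩ := Cfsg.Agent.Lib_helper4_GO2Minus.dihedral hF a b hab
  exact ⟨(e1.trans e2).trans e3⟩

end Cfsg.Agent.S0306
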