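import Cfsg.Statements.S0307
import Mathlib
import Cfsg.Agent.Lib_helper4_CycQuot

set_option autoImplicit false
open Cfsg

namespace Cfsg.Agent.S0307

/-- PSL_n(q) is normal in PGL_n(q) with cyclic quotient of order gcd(n, q-1): the image of the natural map PSL_n → PGL_n is the kernel of a surjective homomorphism onto the cyclic group of that order. -/
theorem result {F : Type*} [Field F] [Fintype F] {q : ℕ} (hF : Fintype.card F = q) (n : ℕ) (hn : 1 ≤ n) : ∃ g : Matrix.ProjGenLinGroup (Fin n) F →* Multiplicative (ZMod (Nat.gcd n (q - 1))), Function.Surjective g ∧ g.ker = (Matrix.ProjectiveSpecialLinearGroup.toPGL : Matrix.ProjectiveSpecialLinearGroup (Fin n) F →* Matrix.ProjGenLinGroup (Fin n) F).range := by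
  classical
  have hcardU : Nat.card Fˣ = q - 1 := by
    rw [Nat.card_units, Nat.card_eq_fintype_card, hF]
  have key : ∃ ψ : Fˣ →* Multiplicative (ZMod (Nat.gcd n (q - 1))), Function.Surjective ψ ∧
      ψ.ker = (powMonoidHom n : Fˣ →* Fˣ).range := by
    rw [← hcardU]
    exact Cfsg.Agent.Lib_helper4_CycQuot.exists_hom_ker_pow Fˣ n
  obtain ⟨ψ, hψs, hψk⟩ := key
  have hne : Nonempty (Fin n) := ⟨⟨0, hn⟩⟩
  have hcen : Subgroup.center (Matrix.GeneralLinearGroup (Fin n) F)
      ≤ (ψ.comp Matrix.GeneralLinearGroup.det).ker := by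
    rw [Matrix.GeneralLinearGroup.center_eq_range_scalar]
    rintro _ ⟨u, rfl⟩
    rw [MonoidHom.mem_ker, MonoidHom.comp_apply, Matrix.GeneralLinearGroup.det_scalar,
      Fintype.card_fin, ← MonoidHom.mem_ker, hψk]
    exact ⟨u, rfl⟩
  obtain ⟨φ, hφ⟩ : ∃ φ : Matrix.ProjGenLinGroup (Fin n) F →* Multiplicative (ZMod (Nat.gcd n (q - 1))),
      ∀ g : Matrix.GeneralLinearGroup (Fin n) F,
        φ (Matrix.ProjGenLinGroup.mk g) = ψ (Matrix.GeneralLinearGroup.det g) :=
    ⟨QuotientGroup.lift (Subgroup.center (Matrix.GeneralLinearGroup (Fin n) F))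
      (ψ.comp Matrix.GeneralLinearGroup.det) hcen, fun g => rfl⟩
  refine ⟨φ, ?_, ?_⟩
  · intro y
    obtain ⟨u, rfl⟩ := hψs y
    obtain ⟨g, rfl⟩ := Matrix.GeneralLinearGroup.det_surjective (n := Fin n) u
    exact ⟨Matrix.ProjGenLinGroup.mk g, hφ g⟩
  · ext x
    induction x using Matrix.ProjGenLinGroup.induction_on with
    | mk g =>
      rw [MonoidHom.mem_ker, hφ]
      constructor
      · intro h
        have h1 : Matrix.GeneralLinearGroup.det g ∈ ψ.ker := h
        rw [hψk] at h1
        obtain ⟨u, hu⟩ := h1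
        have hu' : u ^ n = Matrix.GeneralLinearGroup.det g := hu
        have hdet : Matrix.GeneralLinearGroup.det (g * (Matrix.GeneralLinearGroup.scalar (Fin n) u)⁻¹)
            = 1 := by
          rw [map_mul, map_inv, Matrix.GeneralLinearGroup.det_scalar, Fintype.card_fin, hu',
            mul_inv_cancel]
        have hdet' : ((g * (Matrix.GeneralLinearGroup.scalar (Fin n) u)⁻¹ :
            Matrix.GeneralLinearGroup (Fin n) F) : Matrix (Fin n) (Fin n) F).det = 1 := by
          have := congrArg Units.val hdet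
          exact this
        refine ⟨QuotientGroup.mk (⟨_, hdet'⟩ : Matrix.SpecialLinearGroup (Fin n) F), ?_⟩
        show Matrix.ProjGenLinGroup.mk (Matrix.SpecialLinearGroup.toGL
          (⟨_, hdet'⟩ : Matrix.SpecialLinearGroup (Fin n) F)) = Matrix.ProjGenLinGroup.mk g
        have h3 : Matrix.SpecialLinearGroup.toGL (⟨_, hdet'⟩ : Matrix.SpecialLinearGroup (Fin n) F)
            = g * (Matrix.GeneralLinearGroup.scalar (Fin n) u)⁻¹ := Units.ext rfl
        rw [h3, map_mul, map_inv, Matrix.ProjGenLinGroup.mk_scalar, inv_one, mul_one]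
      · rintro ⟨y, hy⟩
        induction y using QuotientGroup.induction_on with
        | H S =>
          have h1 : Matrix.ProjGenLinGroup.mk (Matrix.SpecialLinearGroup.toGL S)
              = Matrix.ProjGenLinGroup.mk g := hy
          have h2 := congrArg φ h1
          rw [hφ, hφ] at h2
          rw [← h2]
          have h3 : Matrix.GeneralLinearGroup.det (Matrix.SpecialLinearGroup.toGL S) = 1 := by
            apply Units.ext
            exact S.2
          rw [h3, map_one]

end Cfsg.Agent.S0307
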