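import Cfsg.Statements.S0313
import Cfsg.Agent.Lib_lead_BN

set_option autoImplicit false
open Cfsg

namespace Cfsg.Agent.S0313

/-- Two standard parabolic subgroups of a group with a (B,N)-pair which are conjugate in `G` coincide. -/
theorem result {G : Type*} [Group G] (P : Cfsg.BNPair G) {J K : Set G}
    (hJ : J ⊆ P.S) (hK : K ⊆ P.S) (g : G)
    (h : (P.parabolic J).map (MulAut.conj g).toMonoidHom = P.parabolic K) :
    P.parabolic J = P.parabolic K := by
  have hg : g ∈ P.parabolic K := by
    apply Cfsg.Agent.Lib_lead_BN.mem_of_conj_B_le P (P.parabolic K) le_sup_left g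
    intro b hb
    rw [← h]
    exact ⟨b, (le_sup_left : P.B ≤ P.parabolic J) hb, by simp [MulAut.conj_apply]⟩
  apply le_antisymm
  · intro x hx
    have h1 : g * x * g⁻¹ ∈ P.parabolic K := by
      rw [← h]; exact ⟨x, hx, by simp [MulAut.conj_apply]⟩
    have : x = g⁻¹ * (g * x * g⁻¹) * g := by group
    rw [this]
    exact (P.parabolic K).mul_mem ((P.parabolic K).mul_mem ((P.parabolic K).inv_mem hg) h1) hg
  · intro y hy
    have h1 : g * y * g⁻¹ ∈ P.parabolic K :=
      (P.parabolic K).mul_mem ((P.parabolic K).mul_mem hg hy) ((P.parabolic K).inv_mem hg)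
    rw [← h] at h1
    obtain ⟨x, hx, e⟩ := h1
    have e' : g * x * g⁻¹ = g * y * g⁻¹ := by simpa [MulAut.conj_apply] using e
    have : x = y := by
      have := congrArg (fun z => g⁻¹ * z * g) e'
      simpa [mul_assoc] using this
    rw [← this]; exact hx

end Cfsg.Agent.S0313
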