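import Cfsg.Statements.S0316
import Cfsg.Agent.Lib_lead_BN

set_option autoImplicit false
open Cfsg

namespace Cfsg.Agent.S0316

/-- The map `J ↦ P_J` is a lattice isomorphism from the power set of the set of distinguished generators onto the
subgroups containing `B`. -/
theorem result {G : Type*} [Group G] (P : Cfsg.BNPair G) :
    ∃ e : Set P.S ≃o {M : Subgroup G // P.B ≤ M},
      ∀ J : Set P.S, ((e J : {M : Subgroup G // P.B ≤ M}) : Subgroup G) = P.parabolic (Subtype.val '' J) := by
  classical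
  let f : Set P.S → {M : Subgroup G // P.B ≤ M} :=
    fun J => ⟨P.parabolic (Subtype.val '' J), le_sup_left⟩
  have hsub : ∀ J : Set P.S, Subtype.val '' J ⊆ P.S := by
    rintro J _ ⟨s, -, rfl⟩; exact s.2
  have hle : ∀ J K : Set P.S, f J ≤ f K ↔ J ≤ K := by
    intro J K
    constructor
    · intro h s hs
      have h' : P.parabolic (Subtype.val '' J) ≤ P.parabolic (Subtype.val '' K) := h
      have h1 : (s : G) ∈ P.parabolic (Subtype.val '' K) :=
        h' (Cfsg.Agent.Lib_lead_BN.mem_parabolic_of_mem_J P ⟨s, hs, rfl⟩)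
      obtain ⟨s', hs', e⟩ := Cfsg.Agent.Lib_lead_BN.mem_J_of_mem_parabolic P (hsub K) s.2 h1
      have h2 : s' = s := Subtype.ext e
      rw [← h2]; exact hs'
    · intro h
      exact Cfsg.Agent.Lib_lead_BN.parabolic_mono P (Set.image_mono h)
  have hsurj : Function.Surjective f := by
    rintro ⟨M, hM⟩
    refine ⟨{s : P.S | (s : G) ∈ M}, ?_⟩
    apply Subtype.ext
    show P.parabolic (Subtype.val '' {s : P.S | (s : G) ∈ M}) = M
    have e := Cfsg.Agent.Lib_lead_BN.eq_parabolic P M hM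
    have h3 : Subtype.val '' {s : P.S | (s : G) ∈ M} = {s | s ∈ P.S ∧ s ∈ M} := by
      ext s
      constructor
      · rintro ⟨s', hs', rfl⟩; exact ⟨s'.2, hs'⟩
      · rintro ⟨hs, hsM⟩; exact ⟨⟨s, hs⟩, hsM, rfl⟩
    rw [h3]; exact e.symm
  let emb : Set P.S ↪o {M : Subgroup G // P.B ≤ M} := OrderEmbedding.ofMapLEIff f hle
  exact ⟨RelIso.ofSurjective emb hsurj, fun J => rfl⟩

end Cfsg.Agent.S0316
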