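import Cfsg.Statements.S0321
import Cfsg.Agent.Lib_lead_BN

set_option autoImplicit false
open Cfsg

namespace Cfsg.Agent.S0321

/-- For `n ∈ N` not in `B`, the union `B ∪ B n B` is (the underlying set of) a subgroup exactly when `n` agrees
modulo `B ⊓ N` with one of the distinguished representatives; thus the distinguished involutions are
determined by `B` and `N`. -/
theorem result {G : Type*} [Group G] (P : Cfsg.BNPair G) {n : G}
    (hn : n ∈ P.N) (hnB : n ∉ P.B) :
    (∃ H : Subgroup G, (H : Set G) = (P.B : Set G) ∪ DoubleCoset.doubleCoset n (P.B : Set G) P.B) ↔ ∃ s ∈ P.S, s⁻¹ * n ∈ P.B := by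
  constructor
  · rintro ⟨H, hH⟩
    have hBH : P.B ≤ H := by
      intro b hb
      have : b ∈ (H : Set G) := by rw [hH]; exact Or.inl hb
      exact this
    have hnH : n ∈ H := by
      have : n ∈ (H : Set G) := by rw [hH]; exact Or.inr (Cfsg.Agent.Lib_lead_BN.self_mem_C P n)
      exact this
    have e := Cfsg.Agent.Lib_lead_BN.eq_parabolic P H hBH
    by_cases hJ : ∃ s, s ∈ P.S ∧ s ∈ H
    · obtain ⟨s, hs, hsH⟩ := hJ
      have h1 : s ∈ (H : Set G) := hsH
      rw [hH] at h1
      rcases h1 with h | h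
      · exact absurd h (Cfsg.Agent.Lib_lead_BN.S_not_mem_B P hs)
      · exact ⟨s, hs, (Cfsg.Agent.Lib_lead_BN.bruhat_unique P (P.subset hs) hn).1
          (Cfsg.Agent.Lib_lead_BN.C_eq_of_mem P h)⟩
    · exfalso
      have hempty : {s | s ∈ P.S ∧ s ∈ H} = (∅ : Set G) := by
        ext s
        simp only [Set.mem_ofPred_eq, Set.mem_empty_iff_false, iff_false]
        exact fun h => hJ ⟨s, h⟩
      rw [hempty, Cfsg.Agent.Lib_lead_BN.parabolic_empty] at e
      rw [e] at hnH
      exact hnB hnH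
  · rintro ⟨s, hs, hsn⟩
    refine ⟨P.parabolic {s}, ?_⟩
    have h1 : DoubleCoset.doubleCoset n (P.B : Set G) P.B = Cfsg.Agent.Lib_lead_BN.C P s := by
      have h2 : n = s * (s⁻¹ * n) := by group
      rw [h2]
      exact Cfsg.Agent.Lib_lead_BN.C_right_B P hsn
    rw [h1, Cfsg.Agent.Lib_lead_BN.parabolic_singleton P hs]

end Cfsg.Agent.S0321
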