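import Cfsg.Statements.S0322
import Cfsg.Agent.Lib_lead_BN

set_option autoImplicit false
open Cfsg

namespace Cfsg.Agent.S0322

/-- A group with a (B,N)-pair of rank one acts doubly transitively on the left cosets of `B`. -/
theorem result {G : Type*} [Group G] (P : Cfsg.BNPair G) (h : P.rank = 1) : MulAction.IsMultiplyPretransitive G (G ⧸ P.B) 2 := by
  obtain ⟨hsub, hne⟩ := Nat.card_eq_one_iff_unique.1 h
  obtain ⟨⟨s, hs⟩⟩ := hne
  have hS : P.S = {s} := by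
    ext x
    constructor
    · intro hx
      have h0 := Subsingleton.elim (⟨x, hx⟩ : P.S) ⟨s, hs⟩
      exact congrArg Subtype.val h0
    · intro hx
      rw [Set.mem_singleton_iff] at hx
      rw [hx]; exact hs
  have hG : ∀ g : G, g ∈ P.B ∨ g ∈ Cfsg.Agent.Lib_lead_BN.C P s := by
    intro g
    have h1 : g ∈ P.parabolic {s} := by
      rw [← hS, Cfsg.Agent.Lib_lead_BN.parabolic_S]; trivial
    have h2 : g ∈ (P.parabolic {s} : Set G) := h1
    rw [Cfsg.Agent.Lib_lead_BN.parabolic_singleton P hs] at h2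
    exact h2
  rw [MulAction.is_two_pretransitive_iff]
  intro a b c d hab hcd
  induction a using QuotientGroup.induction_on with | _ x => ?_
  induction b using QuotientGroup.induction_on with | _ y => ?_
  induction c using QuotientGroup.induction_on with | _ z => ?_
  induction d using QuotientGroup.induction_on with | _ w => ?_
  have h1 : x⁻¹ * y ∉ P.B := fun hh => hab (QuotientGroup.eq.2 hh)
  have h2 : z⁻¹ * w ∉ P.B := fun hh => hcd (QuotientGroup.eq.2 hh)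
  obtain ⟨b₁, hb₁, b₂, hb₂, e₁⟩ := (Cfsg.Agent.Lib_lead_BN.mem_C P).1 ((hG _).resolve_left h1)
  obtain ⟨b₃, hb₃, b₄, hb₄, e₂⟩ := (Cfsg.Agent.Lib_lead_BN.mem_C P).1 ((hG _).resolve_left h2)
  refine ⟨z * b₃ * (x * b₁)⁻¹, ?_, ?_⟩
  · show ((z * b₃ * (x * b₁)⁻¹ * x : G) : G ⧸ P.B) = (z : G ⧸ P.B)
    rw [QuotientGroup.eq]
    have h3 : (z * b₃ * (x * b₁)⁻¹ * x)⁻¹ * z = b₁ * b₃⁻¹ := by group
    rw [h3]; exact P.B.mul_mem hb₁ (P.B.inv_mem hb₃)
  · show ((z * b₃ * (x * b₁)⁻¹ * y : G) : G ⧸ P.B) = (w : G ⧸ P.B)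
    rw [QuotientGroup.eq]
    have h3 : (z * b₃ * (x * b₁)⁻¹ * y)⁻¹ * w = (x⁻¹ * y)⁻¹ * b₁ * b₃⁻¹ * (z⁻¹ * w) := by group
    rw [h3, e₁, e₂]
    have h4 : (b₁ * s * b₂)⁻¹ * b₁ * b₃⁻¹ * (b₃ * s * b₄) = b₂⁻¹ * b₄ := by group
    rw [h4]; exact P.B.mul_mem (P.B.inv_mem hb₂) hb₄

end Cfsg.Agent.S0322
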