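import Cfsg.Statements.S0323
-- import your own Cfsg.Agent.* helpers here

set_option autoImplicit false
open scoped Pointwise
open Cfsg

namespace Cfsg.Agent.S0323

/-- A doubly transitive action on a set with at least three points yields a (B,N)-pair of rank one:
`B` is the stabiliser of a point `x`, `N` the setwise stabiliser of a pair `{x, y}`. -/
theorem result {G Ω : Type*} [Group G] [MulAction G Ω]
    (h2 : MulAction.IsMultiplyPretransitive G Ω 2) {x y z : Ω} (hxy : x ≠ y) (hyz : y ≠ z) (hxz : x ≠ z) :
    ∃ P : Cfsg.BNPair G, P.B = MulAction.stabilizer G x ∧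
      P.N = MulAction.stabilizer G ({x, y} : Set Ω) ∧ P.rank = 1 := by
  classical
  have h2' : ∀ a b c d : Ω, a ≠ b → c ≠ d → ∃ g : G, g • a = c ∧ g • b = d :=
    fun a b c d hab hcd => MulAction.is_two_pretransitive_iff.1 h2 hab hcd
  obtain ⟨s, hsx, hsy⟩ := h2' _ _ _ _ hxy hxy.symm
  -- membership in the setwise stabiliser of the pair
  have hN : ∀ g : G, g ∈ MulAction.stabilizer G ({x, y} : Set Ω) ↔
      (g • x = x ∧ g • y = y) ∨ (g • x = y ∧ g • y = x) := by
    intro g
    rw [MulAction.mem_stabilizer_iff]
    have e : g • ({x, y} : Set Ω) = {g • x, g • y} := by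
      ext w
      simp only [Set.mem_smul_set, Set.mem_insert_iff, Set.mem_singleton_iff]
      constructor
      · rintro ⟨v, rfl | rfl, rfl⟩
        · exact Or.inl rfl
        · exact Or.inr rfl
      · rintro (rfl | rfl)
        · exact ⟨x, Or.inl rfl, rfl⟩
        · exact ⟨y, Or.inr rfl, rfl⟩
    rw [e, Set.pair_eq_pair_iff]
  have hB : ∀ g : G, g ∈ MulAction.stabilizer G x ↔ g • x = x := fun g => MulAction.mem_stabilizer_iff
  have hsN : s ∈ MulAction.stabilizer G ({x, y} : Set Ω) := (hN s).2 (Or.inr ⟨hsx, hsy⟩)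
  have hsinvx : s⁻¹ • x = y := by rw [inv_smul_eq_iff, hsy]
  have hsinvy : s⁻¹ • y = x := by rw [inv_smul_eq_iff, hsx]
  -- double cosets
  have hC : ∀ g u : G, (u • x = x ↔ g • x = x) →
      u ∈ DoubleCoset.doubleCoset g (MulAction.stabilizer G x : Set G) (MulAction.stabilizer G x) := by
    intro g u h
    rw [DoubleCoset.mem_doubleCoset]
    by_cases hg : g • x = x
    · have hu : u • x = x := h.2 hg
      refine ⟨u * g⁻¹, ?_, 1, Subgroup.one_mem _, by group⟩
      rw [SetLike.mem_coe, hB, mul_smul, inv_smul_eq_iff.2 hg.symm, hu]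
    · have hu : u • x ≠ x := fun hu => hg (h.1 hu)
      obtain ⟨b, hbx, hbg⟩ := h2' _ _ _ _ (Ne.symm hg) (Ne.symm hu)
      refine ⟨b, (hB b).2 hbx, (b * g)⁻¹ * u, ?_, by group⟩
      rw [SetLike.mem_coe, hB, mul_smul, inv_smul_eq_iff, mul_smul, hbg]
  refine ⟨{ B := MulAction.stabilizer G x
            N := MulAction.stabilizer G ({x, y} : Set Ω)
            S := {s}
            sup_eq_top := ?_
            conj_mem := ?_
            subset := ?_
            sq_mem := ?_
            inj := ?_
            closure_sup := ?_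
            mul_mem_union := ?_
            conj_ne := ?_ }, rfl, rfl, ?_⟩
  · -- sup_eq_top
    rw [eq_top_iff]
    intro g _
    by_cases hg : g • x = x
    · exact (le_sup_left : MulAction.stabilizer G x ≤ _) ((hB g).2 hg)
    · obtain ⟨b, hbx, hby⟩ := h2' _ _ _ _ hxy (Ne.symm hg)
      have h1 : (b * s)⁻¹ * g ∈ MulAction.stabilizer G x := by
        rw [hB, mul_smul, inv_smul_eq_iff, mul_smul, hsx, hby]
      have e : g = b * s * ((b * s)⁻¹ * g) := by group
      rw [e]
      exact Subgroup.mul_mem _ (Subgroup.mul_mem _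
        ((le_sup_left : MulAction.stabilizer G x ≤ _) ((hB b).2 hbx))
        ((le_sup_right : MulAction.stabilizer G ({x, y} : Set Ω) ≤ _) hsN))
        ((le_sup_left : MulAction.stabilizer G x ≤ _) h1)
  · -- conj_mem
    intro n hn t ht
    have htx : t • x = x := (hB t).1 ht.1
    have hty : t • y = y := by
      rcases (hN t).1 ht.2 with h | h
      · exact h.2
      · exact absurd (htx.symm.trans h.1) hxy
    rw [hB, mul_smul, mul_smul]
    rcases (hN n).1 hn with h | h
    · have : n⁻¹ • x = x := by rw [inv_smul_eq_iff, h.1]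
      rw [this, htx, h.1]
    · have : n⁻¹ • x = y := by rw [inv_smul_eq_iff, h.2]
      rw [this, hty, h.2]
  · -- subset
    intro s' hs'
    rw [Set.mem_singleton_iff] at hs'
    rw [hs']; exact hsN
  · -- sq_mem
    intro s' hs'
    rw [Set.mem_singleton_iff] at hs'
    rw [hs', hB, mul_smul, hsx, hsy]
  · -- inj
    intro a ha b hb _
    rw [Set.mem_singleton_iff] at ha hb
    rw [ha, hb]
  · -- closure_sup
    apply le_antisymm
    · apply sup_le
      · rw [Subgroup.closure_le, Set.singleton_subset_iff]; exact hsN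
      · exact inf_le_right
    · intro n hn
      rcases (hN n).1 hn with h | h
      · exact (le_sup_right : MulAction.stabilizer G x ⊓ MulAction.stabilizer G ({x, y} : Set Ω) ≤ _)
          ⟨(hB n).2 h.1, hn⟩
      · have h1 : s⁻¹ * n ∈ MulAction.stabilizer G x ⊓ MulAction.stabilizer G ({x, y} : Set Ω) := by
          refine ⟨(hB _).2 ?_, Subgroup.mul_mem _ (Subgroup.inv_mem _ hsN) hn⟩
          rw [mul_smul, h.1, hsinvy]
        have e : n = s * (s⁻¹ * n) := by group
        rw [e]
        exact Subgroup.mul_mem _ ((le_sup_left : Subgroup.closure {s} ≤ _) (Subgroup.subset_closure rfl))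
          ((le_sup_right : MulAction.stabilizer G x ⊓ MulAction.stabilizer G ({x, y} : Set Ω) ≤ _) h1)
  · -- mul_mem_union
    intro s' hs' n hn b hb
    rw [Set.mem_singleton_iff] at hs'
    subst hs'
    have hbx : b • x = x := (hB b).1 hb
    rcases (hN n).1 hn with h | h
    · left
      apply hC
      rw [mul_smul, mul_smul, mul_smul, h.1, hbx, hsx]
    · by_cases hby : b • y = y
      · left
        apply hC
        rw [mul_smul, mul_smul, mul_smul, h.1, hby, hsy]
      · right
        apply hC
        rw [mul_smul, mul_smul, h.1]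
        constructor
        · intro h3
          exfalso
          apply hby
          have h4 := congrArg (fun w => s'⁻¹ • w) h3
          simpa [hsinvx] using h4
        · intro h3
          exact absurd h3.symm hxy
  · -- conj_ne
    intro s' hs'
    rw [Set.mem_singleton_iff] at hs'
    subst hs'
    obtain ⟨b, hbx, hby⟩ := h2' _ _ _ _ hxy hxz
    intro hcon
    have h1 : s' * b * s' ∈ (MulAction.stabilizer G x : Set G) := by
      rw [← hcon]; exact ⟨b, (hB b).2 hbx, rfl⟩
    rw [SetLike.mem_coe, hB, mul_smul, mul_smul, hsx, hby] at h1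
    apply hyz
    have h4 := congrArg (fun w => s'⁻¹ • w) h1
    simp only [inv_smul_smul, hsinvx] at h4
    exact h4.symm
  · -- rank
    show Nat.card ({s} : Set G) = 1
    simp

end Cfsg.Agent.S0323
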