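import Cfsg.Statements.S0326
-- import your own Cfsg.Agent.* helpers here

set_option autoImplicit false
open Cfsg

namespace Cfsg.Agent.S0326

/-- The Suzuki–Tits ovoid over a finite field with `q` elements has `q² + 1` points. -/
theorem result {F : Type*} [Field F] [Fintype F] (m : ℕ) :
    Nat.card (Cfsg.suzukiOvoid F m) = Fintype.card F ^ 2 + 1 := by
  classical
  let pt : F × F → Fin 4 → F := fun p =>
    ![p.1 * p.2 + p.1 ^ (2 ^ (m + 1) + 2) + p.2 ^ (2 ^ (m + 1)), p.2, p.1, 1]
  have hpt : ∀ p : F × F, pt p ≠ 0 := by
    intro p h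
    have := congrFun h 3
    simp [pt] at this
  have hinf : (![1, 0, 0, 0] : Fin 4 → F) ≠ 0 := by
    intro h
    have := congrFun h 0
    simp at this
  let g : Option (F × F) → ↥(Cfsg.suzukiOvoid F m) := fun o =>
    match o with
    | none => ⟨Projectivization.mk F ![1, 0, 0, 0] hinf, ⟨_, hinf, rfl, Or.inl rfl⟩⟩
    | some p => ⟨Projectivization.mk F (pt p) (hpt p), ⟨_, hpt p, rfl, Or.inr ⟨p.1, p.2, rfl⟩⟩⟩
  have hg : Function.Bijective g := by
    constructor
    · intro o o' h
      have h' := congrArg Subtype.val h
      rcases o with _ | p <;> rcases o' with _ | p'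
      · rfl
      · simp only [g] at h'
        rw [Projectivization.mk_eq_mk_iff] at h'
        obtain ⟨a, ha⟩ := h'
        have := congrFun ha 3
        simp [pt, Units.smul_def] at this
      · simp only [g] at h'
        rw [Projectivization.mk_eq_mk_iff] at h'
        obtain ⟨a, ha⟩ := h'
        have := congrFun ha 3
        simp [pt, Units.smul_def] at this
      · simp only [g] at h'
        rw [Projectivization.mk_eq_mk_iff] at h'
        obtain ⟨a, ha⟩ := h'
        have h3 := congrFun ha 3
        have h2 := congrFun ha 2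
        have h1 := congrFun ha 1
        simp [pt, Units.smul_def] at h3 h2 h1
        rw [h3] at h2 h1
        simp at h2 h1
        congr 1
        exact Prod.ext h2.symm h1.symm
    · rintro ⟨p, v, hv, rfl, hcase⟩
      rcases hcase with rfl | ⟨x, y, rfl⟩
      · exact ⟨none, rfl⟩
      · exact ⟨some (x, y), rfl⟩
  rw [← Nat.card_congr (Equiv.ofBijective g hg), Nat.card_eq_fintype_card, Fintype.card_option,
    Fintype.card_prod]
  ring

end Cfsg.Agent.S0326
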