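import Cfsg.Statements.S0335
import Mathlib

set_option autoImplicit false
open Cfsg

namespace Cfsg.Agent.S0335

section Aux

variable {F : Type*} [Field F]

theorem add_pow_two_pow (h2 : (2 : F) = 0) (k : ℕ) (a b : F) :
    (a + b) ^ (2 ^ k) = a ^ (2 ^ k) + b ^ (2 ^ k) := by
  induction k with
  | zero => simp
  | succ k ih =>
    rw [pow_succ, pow_mul, ih, pow_mul, pow_mul]
    linear_combination (a ^ 2 ^ k * b ^ 2 ^ k) * h2

variable (σ : ℕ) (h2 : (2 : F) = 0) (hσ : σ ≠ 0)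
  (hadd : ∀ a b : F, (a + b) ^ σ = a ^ σ + b ^ σ) (hss : ∀ a : F, (a ^ σ) ^ σ = a ^ 2)

include h2 hσ hadd hss

theorem sig_f (x y : F) :
    (x * y + x ^ (σ + 2) + y ^ σ) ^ σ = x ^ σ * y ^ σ + x ^ 2 * (x ^ σ) ^ 2 + y ^ 2 := by
  rw [hadd, hadd, mul_pow, hss y, pow_add, mul_pow, hss x, ← pow_mul, mul_comm 2 σ, pow_mul]

theorem zero_of (x y : F) (h : x * y + x ^ (σ + 2) + y ^ σ = 0) : x = 0 ∧ y = 0 := by
  have hX : (x ^ σ) ^ σ = x ^ 2 := hss x
  have h3 := sig_f σ h2 hσ hadd hss x y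
  rw [h, zero_pow hσ] at h3
  have h1 : x * y + x ^ σ * x ^ 2 + y ^ σ = 0 := by rw [← h, pow_add]
  have h5 : y * (x ^ σ * x + y) = 0 := by
    linear_combination (-1 : F) * h3 - x ^ σ * h1 + (x ^ σ * x * y) * h2
  have hxz : x ^ σ * x ^ 2 = 0 → x = 0 := by
    intro h
    have h' : x ^ (σ + 2) = 0 := by rw [pow_add]; exact h
    exact (pow_eq_zero_iff (by omega)).mp h'
  rcases mul_eq_zero.mp h5 with hy | hy
  · have hY0 : y ^ σ = 0 := by rw [hy, zero_pow hσ]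
    have h6 : x ^ σ * x ^ 2 = 0 := by linear_combination h1 - x * hy - hY0
    exact ⟨hxz h6, hy⟩
  · have hy' : y = x ^ σ * x := by linear_combination hy - (x ^ σ * x) * h2
    have hYv : y ^ σ = x ^ 2 * x ^ σ := by rw [hy', mul_pow, hX]
    have h6 : x ^ σ * x ^ 2 = 0 := by
      linear_combination h1 - x * hy' - hYv - (x ^ σ * x ^ 2) * h2
    have hx := hxz h6
    refine ⟨hx, ?_⟩
    rw [hy', hx, mul_zero]

theorem inv_id (x y : F) :
    x * y * (x * y + x ^ (σ + 2) + y ^ σ) ^ σ + y ^ σ * y ^ 2 + x ^ σ * (x * y + x ^ (σ + 2) + y ^ σ) ^ 2 =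
      (x * y + x ^ (σ + 2) + y ^ σ) ^ σ * (x * y + x ^ (σ + 2) + y ^ σ) := by
  rw [sig_f σ h2 hσ hadd hss x y, pow_add]
  linear_combination (x ^ 3 * y * (x ^ σ) ^ 2 + x * y * x ^ σ * y ^ σ) * h2

theorem key (x y c : F) (hc : c ≠ 0) (hf : x * y + x ^ (σ + 2) + y ^ σ ≠ 0)
    (h : (c * x) * (c * y) + (c * x) ^ (σ + 2) + (c * y) ^ σ = c * (x * y + x ^ (σ + 2) + y ^ σ)) :
    c = 1 := by
  have hI1 := inv_id σ h2 hσ hadd hss x y
  have hI2 := inv_id σ h2 hσ hadd hss (c * x) (c * y)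
  rw [h] at hI2
  set f := x * y + x ^ (σ + 2) + y ^ σ with hfdef
  rw [mul_pow c x σ, mul_pow c y σ, mul_pow c f σ] at hI2
  have h7 : c ^ σ * c * (1 - c) * (f ^ σ * f) = 0 := by
    linear_combination c ^ σ * c ^ 2 * hI1 - hI2
  have hcσ : c ^ σ ≠ 0 := pow_ne_zero _ hc
  have hfσ : f ^ σ ≠ 0 := pow_ne_zero _ hf
  have h8 : 1 - c = 0 := by
    rcases mul_eq_zero.mp h7 with h9 | h9
    · rcases mul_eq_zero.mp h9 with h10 | h10
      · exact absurd h10 (mul_ne_zero hcσ hc)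
      · exact h10
    · exact absurd h9 (mul_ne_zero hfσ hf)
  linear_combination -h8

theorem trans_id (a b x y : F) :
    (x + a) * (y + b + a ^ σ * x) + (x + a) ^ (σ + 2) + (y + b + a ^ σ * x) ^ σ =
      (x * y + x ^ (σ + 2) + y ^ σ) + a * y + (b + a ^ σ * a) * x + (a * b + a ^ σ * a ^ 2 + b ^ σ) := by
  rw [pow_add (x + a), hadd x a, hadd, hadd, mul_pow, hss a, pow_add]
  linear_combination (a ^ σ * x ^ 2 + a * x ^ σ * x + x ^ σ * a ^ 2 + a ^ σ * a * x) * h2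

theorem core_C (x₂ y₂ x₃ y₃ c₂ c₃ : F) (hne2 : ¬(x₂ = 0 ∧ y₂ = 0)) (hne3 : ¬(x₃ = 0 ∧ y₃ = 0))
    (hne : ¬(x₂ = x₃ ∧ y₂ = y₃))
    (e0 : c₂ * (x₂ * y₂ + x₂ ^ (σ + 2) + y₂ ^ σ) + c₃ * (x₃ * y₃ + x₃ ^ (σ + 2) + y₃ ^ σ) = 0)
    (e1 : c₂ * y₂ + c₃ * y₃ = 0) (e2 : c₂ * x₂ + c₃ * x₃ = 0) : c₂ = 0 ∧ c₃ = 0 := by
  by_cases h3 : c₃ = 0
  · refine ⟨?_, h3⟩
    by_contra hc2
    apply hne2
    rw [h3] at e1 e2
    constructor
    · have : c₂ * x₂ = 0 := by linear_combination e2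
      exact (mul_eq_zero.mp this).resolve_left hc2
    · have : c₂ * y₂ = 0 := by linear_combination e1
      exact (mul_eq_zero.mp this).resolve_left hc2
  · exfalso
    have hx3 : x₃ = (-c₂ / c₃) * x₂ := by field_simp; linear_combination e2
    have hy3 : y₃ = (-c₂ / c₃) * y₂ := by field_simp; linear_combination e1
    have hc : (-c₂ / c₃) ≠ 0 := by
      intro h0
      apply hne3
      rw [hx3, hy3, h0]
      simp
    have hf2 : x₂ * y₂ + x₂ ^ (σ + 2) + y₂ ^ σ ≠ 0 := fun h0 => hne2 (zero_of σ h2 hσ hadd hss x₂ y₂ h0)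
    have hf3 : x₃ * y₃ + x₃ ^ (σ + 2) + y₃ ^ σ = (-c₂ / c₃) * (x₂ * y₂ + x₂ ^ (σ + 2) + y₂ ^ σ) := by
      field_simp; linear_combination e0
    rw [hx3, hy3] at hf3
    have h1 := key σ h2 hσ hadd hss x₂ y₂ (-c₂ / c₃) hc hf2 hf3
    apply hne
    rw [hx3, hy3, h1]
    simp

theorem H2 (x₁ y₁ x₂ y₂ x₃ y₃ c₁ c₂ c₃ : F) (hne12 : ¬(x₁ = x₂ ∧ y₁ = y₂))
    (hne13 : ¬(x₁ = x₃ ∧ y₁ = y₃)) (hne23 : ¬(x₂ = x₃ ∧ y₂ = y₃))
    (e0 : c₁ * (x₁ * y₁ + x₁ ^ (σ + 2) + y₁ ^ σ) + c₂ * (x₂ * y₂ + x₂ ^ (σ + 2) + y₂ ^ σ) +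
      c₃ * (x₃ * y₃ + x₃ ^ (σ + 2) + y₃ ^ σ) = 0)
    (e1 : c₁ * y₁ + c₂ * y₂ + c₃ * y₃ = 0) (e2 : c₁ * x₁ + c₂ * x₂ + c₃ * x₃ = 0)
    (e3 : c₁ + c₂ + c₃ = 0) : c₁ = 0 ∧ c₂ = 0 ∧ c₃ = 0 := by
  set a := x₁ with ha
  set A := a ^ σ with hA
  set b := y₁ + A * x₁ with hb
  have T1 := trans_id σ h2 hσ hadd hss a b x₁ y₁
  have T2 := trans_id σ h2 hσ hadd hss a b x₂ y₂
  have T3 := trans_id σ h2 hσ hadd hss a b x₃ y₃
  have hx1' : x₁ + a = 0 := by linear_combination x₁ * h2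
  have hy1' : y₁ + b + A * x₁ = 0 := by linear_combination (y₁ + A * x₁) * h2
  rw [hx1', hy1', zero_pow hσ, zero_pow (by omega : σ + 2 ≠ 0)] at T1
  have hC := core_C σ h2 hσ hadd hss (x₂ + a) (y₂ + b + A * x₂) (x₃ + a) (y₃ + b + A * x₃) c₂ c₃ ?_ ?_ ?_ ?_ ?_ ?_
  · obtain ⟨hc2, hc3⟩ := hC
    refine ⟨?_, hc2, hc3⟩
    linear_combination e3 - hc2 - hc3
  · rintro ⟨h1, h2'⟩
    apply hne12
    have hx : x₁ = x₂ := by linear_combination x₁ * h2 - h1
    refine ⟨hx, ?_⟩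
    linear_combination (y₁ + A * x₁) * h2 - h2' - A * hx
  · rintro ⟨h1, h2'⟩
    apply hne13
    have hx : x₁ = x₃ := by linear_combination x₁ * h2 - h1
    refine ⟨hx, ?_⟩
    linear_combination (y₁ + A * x₁) * h2 - h2' - A * hx
  · rintro ⟨h1, h2'⟩
    apply hne23
    have hx : x₂ = x₃ := by linear_combination h1
    refine ⟨hx, ?_⟩
    linear_combination h2' - A * hx
  · rw [T2, T3]
    linear_combination e0 + a * e1 + (b + A * a) * e2 + (a * b + A * a ^ 2 + b ^ σ) * e3 + c₁ * T1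
  · linear_combination e1 + b * e3 + A * e2 - c₁ * (y₁ + A * x₁) * h2
  · linear_combination e2 + a * e3 - c₁ * x₁ * h2

omit h2 hσ hadd hss in
theorem H1 (x₁ y₁ x₂ y₂ f₁ f₂ c c₁ c₂ : F) (hne : ¬(x₁ = x₂ ∧ y₁ = y₂))
    (e0 : c + c₁ * f₁ + c₂ * f₂ = 0) (e1 : c₁ * y₁ + c₂ * y₂ = 0) (e2 : c₁ * x₁ + c₂ * x₂ = 0)
    (e3 : c₁ + c₂ = 0) : c = 0 ∧ c₁ = 0 ∧ c₂ = 0 := by
  have hc2 : c₂ = -c₁ := by linear_combination e3
  subst hc2
  by_cases hc1 : c₁ = 0
  · subst hc1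
    refine ⟨?_, rfl, by simp⟩
    linear_combination e0
  · exfalso
    apply hne
    constructor
    · have : c₁ * (x₁ - x₂) = 0 := by linear_combination e2
      have := (mul_eq_zero.mp this).resolve_left hc1
      linear_combination this
    · have : c₁ * (y₁ - y₂) = 0 := by linear_combination e1
      have := (mul_eq_zero.mp this).resolve_left hc1
      linear_combination this

theorem lin_indep (v : Fin 3 → Fin 4 → F)
    (hv : ∀ i, v i = ![1, 0, 0, 0] ∨ ∃ x y : F, v i = ![x * y + x ^ (σ + 2) + y ^ σ, y, x, 1])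
    (hinj : ∀ i j, v i = v j → i = j) : LinearIndependent F v := by
  rw [Fintype.linearIndependent_iff]
  intro c hc
  rw [Fin.sum_univ_three] at hc
  have e0 := congrFun hc 0
  have e1 := congrFun hc 1
  have e2 := congrFun hc 2
  have e3 := congrFun hc 3
  simp only [Pi.add_apply, Pi.smul_apply, smul_eq_mul, Pi.zero_apply] at e0 e1 e2 e3
  have hfin : ∀ i : Fin 3, i = 0 ∨ i = 1 ∨ i = 2 := by decide
  have hne : ∀ (i j : Fin 3) (x y x' y' : F), i ≠ j →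
      v i = ![x * y + x ^ (σ + 2) + y ^ σ, y, x, 1] →
      v j = ![x' * y' + x' ^ (σ + 2) + y' ^ σ, y', x', 1] → ¬(x = x' ∧ y = y') := by
    rintro i j x y x' y' hij hi hj ⟨rfl, rfl⟩
    exact hij (hinj i j (by rw [hi, hj]))
  have hinf : ∀ (i j : Fin 3), i ≠ j → v i = ![1, 0, 0, 0] → v j = ![1, 0, 0, 0] → False := by
    intro i j hij hi hj
    exact hij (hinj i j (by rw [hi, hj]))
  rcases hv 0 with h0 | ⟨x0, y0, h0⟩ <;> rcases hv 1 with h1 | ⟨x1, y1, h1⟩ <;>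
    rcases hv 2 with h2' | ⟨x2, y2, h2'⟩
  · exact absurd (hinf 0 1 (by decide) h0 h1) id
  · exact absurd (hinf 0 1 (by decide) h0 h1) id
  · exact absurd (hinf 0 2 (by decide) h0 h2') id
  · -- ∞, A, A
    rw [h0, h1, h2'] at e0 e1 e2 e3
    have := H1 x1 y1 x2 y2 (x1 * y1 + x1 ^ (σ + 2) + y1 ^ σ) (x2 * y2 + x2 ^ (σ + 2) + y2 ^ σ) (c 0) (c 1) (c 2) (hne 1 2 x1 y1 x2 y2 (by decide) h1 h2')
      (by simp at e0; linear_combination e0) (by simp at e1; linear_combination e1)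
      (by simp at e2; linear_combination e2) (by simp at e3; linear_combination e3)
    intro i
    rcases hfin i with rfl | rfl | rfl
    · exact this.1
    · exact this.2.1
    · exact this.2.2
  · exact absurd (hinf 1 2 (by decide) h1 h2') id
  · -- A, ∞, A
    rw [h0, h1, h2'] at e0 e1 e2 e3
    have := H1 x0 y0 x2 y2 (x0 * y0 + x0 ^ (σ + 2) + y0 ^ σ) (x2 * y2 + x2 ^ (σ + 2) + y2 ^ σ) (c 1) (c 0) (c 2) (hne 0 2 x0 y0 x2 y2 (by decide) h0 h2')
      (by simp at e0; linear_combination e0) (by simp at e1; linear_combination e1)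
      (by simp at e2; linear_combination e2) (by simp at e3; linear_combination e3)
    intro i
    rcases hfin i with rfl | rfl | rfl
    · exact this.2.1
    · exact this.1
    · exact this.2.2
  · -- A, A, ∞
    rw [h0, h1, h2'] at e0 e1 e2 e3
    have := H1 x0 y0 x1 y1 (x0 * y0 + x0 ^ (σ + 2) + y0 ^ σ) (x1 * y1 + x1 ^ (σ + 2) + y1 ^ σ) (c 2) (c 0) (c 1) (hne 0 1 x0 y0 x1 y1 (by decide) h0 h1)
      (by simp at e0; linear_combination e0) (by simp at e1; linear_combination e1)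
      (by simp at e2; linear_combination e2) (by simp at e3; linear_combination e3)
    intro i
    rcases hfin i with rfl | rfl | rfl
    · exact this.2.1
    · exact this.2.2
    · exact this.1
  · -- A, A, A
    rw [h0, h1, h2'] at e0 e1 e2 e3
    have := H2 σ h2 hσ hadd hss x0 y0 x1 y1 x2 y2 (c 0) (c 1) (c 2)
      (hne 0 1 x0 y0 x1 y1 (by decide) h0 h1) (hne 0 2 x0 y0 x2 y2 (by decide) h0 h2')
      (hne 1 2 x1 y1 x2 y2 (by decide) h1 h2')
      (by simp at e0; linear_combination e0) (by simp at e1; linear_combination e1)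
      (by simp at e2; linear_combination e2) (by simp at e3; linear_combination e3)
    intro i
    rcases hfin i with rfl | rfl | rfl
    · exact this.1
    · exact this.2.1
    · exact this.2.2

omit h2 hσ hadd hss in
theorem main [Fintype F] {m : ℕ} (hm : 1 ≤ m)
    (hF : Fintype.card F = 2 ^ (2 * m + 1)) (p : Fin 3 ↪ Cfsg.suzukiOvoid F m) :
    Projectivization.Independent (fun i => (p i : Projectivization F (Fin 4 → F))) := by
  classical
  have h2 : (2 : F) = 0 := by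
    have h := Nat.cast_card_eq_zero F
    rw [hF] at h
    push_cast at h
    exact (pow_eq_zero_iff (by omega)).mp h
  have hadd : ∀ a b : F, (a + b) ^ (2 ^ (m + 1)) = a ^ (2 ^ (m + 1)) + b ^ (2 ^ (m + 1)) :=
    fun a b => add_pow_two_pow h2 (m + 1) a b
  have hss : ∀ a : F, (a ^ (2 ^ (m + 1))) ^ (2 ^ (m + 1)) = a ^ 2 := by
    intro a
    rw [← pow_mul]
    have : 2 ^ (m + 1) * 2 ^ (m + 1) = Fintype.card F * 2 := by rw [hF]; ring
    rw [this, pow_mul, FiniteField.pow_card]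
  have hex : ∀ i : Fin 3, ∃ (v : Fin 4 → F) (hv : v ≠ 0),
      (p i : Projectivization F (Fin 4 → F)) = Projectivization.mk F v hv ∧
      (v = ![1, 0, 0, 0] ∨ ∃ x y : F,
        v = ![x * y + x ^ (2 ^ (m + 1) + 2) + y ^ (2 ^ (m + 1)), y, x, 1]) := fun i => (p i).2
  choose v hv hpv hvform using hex
  have heq : (fun i => (p i : Projectivization F (Fin 4 → F))) =
      fun i => Projectivization.mk F (v i) (hv i) := funext hpv
  rw [heq]
  apply Projectivization.Independent.mk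
  apply lin_indep (2 ^ (m + 1)) h2 (by positivity) hadd hss v hvform
  intro i j h
  apply p.injective
  apply Subtype.ext
  rw [hpv i, hpv j, Projectivization.mk_eq_mk_iff']
  exact ⟨1, by rw [one_smul, h]⟩

end Aux

/-- The Suzuki–Tits point set is an ovoid: any three distinct points of it are projectively independent
(no line of projective 3-space meets it in more than two points). -/
theorem result {F : Type*} [Field F] [Fintype F] {m : ℕ} (hm : 1 ≤ m)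
    (hF : Fintype.card F = 2 ^ (2 * m + 1)) (p : Fin 3 ↪ Cfsg.suzukiOvoid F m) :
    Projectivization.Independent (fun i => (p i : Projectivization F (Fin 4 → F))) := by
  exact main hm hF p

end Cfsg.Agent.S0335
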