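import Cfsg.Statements.S0350
import Cfsg.Agent.Lib_lead_Steiner

set_option autoImplicit false
open Cfsg

namespace Cfsg.Agent.S0350

/-- Counting pairs (t-subset, block containing it) in two ways: the number of blocks of a Steiner system with parameters (t, k, v), multiplied by C(k, t), equals C(v, t). -/
theorem result {α : Type*} [Fintype α] [DecidableEq α] {t k : ℕ} {B : Set (Finset α)} (hB : Cfsg.IsSteinerSystem t k B) : B.ncard * Nat.choose k t = Nat.choose (Fintype.card α) t := by
  obtain ⟨BF, hBF⟩ := Lib_lead_Steiner.exists_finset B
  have h := Lib_lead_Steiner.through_count hB BF hBF ∅ (by simp)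
  have h1 : BF.filter (fun b => (∅ : Finset α) ⊆ b) = BF := by
    apply Finset.filter_true_of_mem
    intro b _
    exact Finset.empty_subset b
  rw [h1] at h
  simp only [Finset.card_empty, Nat.sub_zero] at h
  have h2 : B = (BF : Set (Finset α)) := by
    ext b
    exact ((hBF b).symm)
  rw [h2, Set.ncard_coe_finset]
  exact h

end Cfsg.Agent.S0350
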