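import Cfsg.Statements.S0351
-- import your own Cfsg.Agent.* helpers here

set_option autoImplicit false
open Cfsg

namespace Cfsg.Agent.S0351

/-- Derived design: removing a point p from the blocks through p of an S(t+1, k+1, v) yields an S(t, k, v-1) on the points other than p. -/
theorem result {α : Type*} [Fintype α] [DecidableEq α] {t k : ℕ} {B : Set (Finset α)} (hB : Cfsg.IsSteinerSystem (t + 1) (k + 1) B) (p : α) : Cfsg.IsSteinerSystem t k {b' : Finset {a : α // a ≠ p} | ∃ b ∈ B, p ∈ b ∧ b' = Finset.subtype (fun a => a ≠ p) b} := by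
  classical
  obtain ⟨hk, hu⟩ := hB
  constructor
  · rintro b' ⟨b, hb, hpb, rfl⟩
    rw [Finset.card_subtype]
    have : b.filter (fun a => a ≠ p) = b.erase p := by
      ext x
      simp only [Finset.mem_filter, Finset.mem_erase]
      tauto
    rw [this, Finset.card_erase_of_mem hpb, hk b hb]
    rfl
  · intro s hs
    -- the (t+1)-set s ∪ {p}
    set s' : Finset α := insert p (s.map (Function.Embedding.subtype _)) with hs'
    have hp_notin : p ∉ s.map (Function.Embedding.subtype (fun a : α => a ≠ p)) := by
      intro h
      rw [Finset.mem_map] at h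
      obtain ⟨⟨x, hx⟩, -, hxp⟩ := h
      exact hx hxp
    have hcard : s'.card = t + 1 := by
      rw [hs', Finset.card_insert_of_notMem hp_notin, Finset.card_map, hs]
    obtain ⟨b, ⟨hb, hsb⟩, huniq⟩ := hu s' hcard
    have hpb : p ∈ b := hsb (Finset.mem_insert_self _ _)
    refine ⟨Finset.subtype (fun a => a ≠ p) b, ⟨⟨b, hb, hpb, rfl⟩, ?_⟩, ?_⟩
    · intro x hx
      rw [Finset.mem_subtype]
      apply hsb
      apply Finset.mem_insert_of_mem
      rw [Finset.mem_map]
      exact ⟨x, hx, rfl⟩
    · rintro c' ⟨⟨c, hc, hpc, rfl⟩, hsc⟩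
      have : c = b := by
        apply huniq c ⟨hc, ?_⟩
        intro x hx
        rw [hs', Finset.mem_insert] at hx
        rcases hx with rfl | hx
        · exact hpc
        · rw [Finset.mem_map] at hx
          obtain ⟨y, hy, rfl⟩ := hx
          have := hsc hy
          rw [Finset.mem_subtype] at this
          exact this
      rw [this]

end Cfsg.Agent.S0351
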