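import Cfsg.Statements.S0352
import Cfsg.Agent.Lib_lead_Steiner

set_option autoImplicit false
open Cfsg

namespace Cfsg.Agent.S0352

open Finset in
/-- the binomial moments of the intersection sizes with a fixed set `T` in an S(5,8,24). -/
theorem moments {α : Type*} [Fintype α] [DecidableEq α] (hα : Fintype.card α = 24)
    {B : Set (Finset α)} (hB : Cfsg.IsSteinerSystem 5 8 B)
    (BF : Finset (Finset α)) (hBF : ∀ b, b ∈ BF ↔ b ∈ B) (T : Finset α) :
    (∑ c ∈ BF, (c ∩ T).card.choose 0 = 759) ∧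
    (∑ c ∈ BF, (c ∩ T).card.choose 1 = 253 * T.card.choose 1) ∧
    (∑ c ∈ BF, (c ∩ T).card.choose 2 = 77 * T.card.choose 2) ∧
    (∑ c ∈ BF, (c ∩ T).card.choose 3 = 21 * T.card.choose 3) ∧
    (∑ c ∈ BF, (c ∩ T).card.choose 4 = 5 * T.card.choose 4) ∧
    (∑ c ∈ BF, (c ∩ T).card.choose 5 = T.card.choose 5) := by
  have m0 := Lib_lead_Steiner.inter_sum_steiner hB BF hBF T 0 (by norm_num)
  have m1 := Lib_lead_Steiner.inter_sum_steiner hB BF hBF T 1 (by norm_num)
  have m2 := Lib_lead_Steiner.inter_sum_steiner hB BF hBF T 2 (by norm_num)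
  have m3 := Lib_lead_Steiner.inter_sum_steiner hB BF hBF T 3 (by norm_num)
  have m4 := Lib_lead_Steiner.inter_sum_steiner hB BF hBF T 4 (by norm_num)
  have m5 := Lib_lead_Steiner.inter_sum_steiner hB BF hBF T 5 (by norm_num)
  rw [hα] at m0 m1 m2 m3 m4 m5
  have c0 : Nat.choose (8 - 0) (5 - 0) = 56 := by decide
  have c0' : Nat.choose (24 - 0) (5 - 0) = 42504 := by decide
  have c1 : Nat.choose (8 - 1) (5 - 1) = 35 := by decide
  have c1' : Nat.choose (24 - 1) (5 - 1) = 8855 := by decide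
  have c2 : Nat.choose (8 - 2) (5 - 2) = 20 := by decide
  have c2' : Nat.choose (24 - 2) (5 - 2) = 1540 := by decide
  have c3 : Nat.choose (8 - 3) (5 - 3) = 10 := by decide
  have c3' : Nat.choose (24 - 3) (5 - 3) = 210 := by decide
  have c4 : Nat.choose (8 - 4) (5 - 4) = 4 := by decide
  have c4' : Nat.choose (24 - 4) (5 - 4) = 20 := by decide
  have c5 : Nat.choose (8 - 5) (5 - 5) = 1 := by decide
  have c5' : Nat.choose (24 - 5) (5 - 5) = 1 := by decide
  rw [c0, c0'] at m0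
  rw [c1, c1'] at m1
  rw [c2, c2'] at m2
  rw [c3, c3'] at m3
  rw [c4, c4'] at m4
  rw [c5, c5'] at m5
  rw [Nat.choose_zero_right] at m0
  refine ⟨by omega, by omega, by omega, by omega, by omega, by omega⟩

/-- In an S(5,8,24), for a block `b`: every other block meets `b` in 0, 2 or 4 points, and the
sums of `C(j,2)` and `C(j,4)` over the other blocks are 2128 and 280. -/
theorem meet_024 {α : Type*} [Fintype α] [DecidableEq α] (hα : Fintype.card α = 24)
    {B : Set (Finset α)} (hB : Cfsg.IsSteinerSystem 5 8 B)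
    (BF : Finset (Finset α)) (hBF : ∀ b, b ∈ BF ↔ b ∈ B) {b : Finset α} (hb : b ∈ B) :
    (∀ c ∈ BF.erase b, (c ∩ b).card = 0 ∨ (c ∩ b).card = 2 ∨ (c ∩ b).card = 4) ∧
    (BF.erase b).card = 758 ∧
    ∑ c ∈ BF.erase b, (c ∩ b).card.choose 2 = 2128 ∧
    ∑ c ∈ BF.erase b, (c ∩ b).card.choose 4 = 280 := by
  have hb8 : b.card = 8 := hB.1 b hb
  obtain ⟨m0, m1, m2, m3, m4, -⟩ := moments hα hB BF hBF b
  have hbF : b ∈ BF := (hBF b).mpr hb
  rw [← Finset.add_sum_erase BF _ hbF] at m0 m1 m2 m3 m4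
  simp only [Finset.inter_self, hb8] at m0 m1 m2 m3 m4
  have d1 : Nat.choose 8 1 = 8 := by decide
  have d2 : Nat.choose 8 2 = 28 := by decide
  have d3 : Nat.choose 8 3 = 56 := by decide
  have d4 : Nat.choose 8 4 = 70 := by decide
  rw [d1] at m1
  rw [d2] at m2
  rw [d3] at m3
  rw [d4] at m4
  have hle : ∀ c ∈ BF.erase b, (c ∩ b).card ≤ 4 := by
    intro c hc
    rw [Finset.mem_erase] at hc
    by_contra h
    exact hc.1 (Lib_lead_Steiner.eq_of_inter_ge hB ((hBF c).mp hc.2) hb (by omega))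
  have e1 : (∑ c ∈ BF.erase b, ((c ∩ b).card.choose 1 : ℤ)) = 2016 := by
    have : ∑ c ∈ BF.erase b, (c ∩ b).card.choose 1 = 2016 := by omega
    exact_mod_cast this
  have e2 : (∑ c ∈ BF.erase b, ((c ∩ b).card.choose 2 : ℤ)) = 2128 := by
    have : ∑ c ∈ BF.erase b, (c ∩ b).card.choose 2 = 2128 := by omega
    exact_mod_cast this
  have e3 : (∑ c ∈ BF.erase b, ((c ∩ b).card.choose 3 : ℤ)) = 1120 := by
    have : ∑ c ∈ BF.erase b, (c ∩ b).card.choose 3 = 1120 := by omega
    exact_mod_cast this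
  have e4 : (∑ c ∈ BF.erase b, ((c ∩ b).card.choose 4 : ℤ)) = 280 := by
    have : ∑ c ∈ BF.erase b, (c ∩ b).card.choose 4 = 280 := by omega
    exact_mod_cast this
  have key : ∑ c ∈ BF.erase b, (((c ∩ b).card.choose 1 : ℤ) - 2 * (c ∩ b).card.choose 2
      + 4 * (c ∩ b).card.choose 3 - 8 * (c ∩ b).card.choose 4) = 0 := by
    simp only [Finset.sum_sub_distrib, Finset.sum_add_distrib, ← Finset.mul_sum]
    rw [e1, e2, e3, e4]; norm_num
  have hnn : ∀ c ∈ BF.erase b, 0 ≤ (((c ∩ b).card.choose 1 : ℤ) - 2 * (c ∩ b).card.choose 2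
      + 4 * (c ∩ b).card.choose 3 - 8 * (c ∩ b).card.choose 4) := by
    intro c hc
    have := hle c hc
    generalize (c ∩ b).card = j at this ⊢
    interval_cases j <;> simp [Nat.choose]
  have hz := (Finset.sum_eq_zero_iff_of_nonneg hnn).mp key
  refine ⟨?_, ?_, by omega, by omega⟩
  · intro c hc
    have h1 := hz c hc
    have h2 := hle c hc
    generalize (c ∩ b).card = j at h1 h2 ⊢
    interval_cases j <;> simp [Nat.choose] at h1 ⊢
  · simp only [Nat.choose_zero_right, Finset.sum_const, smul_eq_mul, mul_one] at m0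
    omega

/-- In a Steiner system S(5, 8, 24), two distinct blocks intersect in 0, 2 or 4 points. -/
theorem result {α : Type*} [Fintype α] [DecidableEq α] (hα : Fintype.card α = 24) {B : Set (Finset α)} (hB : Cfsg.IsSteinerSystem 5 8 B) {b c : Finset α} (hb : b ∈ B) (hc : c ∈ B) (hbc : b ≠ c) : (b ∩ c).card = 0 ∨ (b ∩ c).card = 2 ∨ (b ∩ c).card = 4 := by
  obtain ⟨BF, hBF⟩ := Lib_lead_Steiner.exists_finset B
  have h := (meet_024 hα hB BF hBF hb).1 c (Finset.mem_erase.mpr ⟨hbc.symm, (hBF c).mpr hc⟩)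
  rw [Finset.inter_comm] at h
  exact h

end Cfsg.Agent.S0352
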