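import Cfsg.Statements.S0353
import Cfsg.Agent.S0352

set_option autoImplicit false
open Cfsg

namespace Cfsg.Agent.S0353

theorem card_symmDiff_add {α : Type*} [DecidableEq α] (A C : Finset α) :
    (symmDiff A C).card + 2 * (A ∩ C).card = A.card + C.card := by
  have h1 : symmDiff A C = (A \ C) ∪ (C \ A) := by
    rw [symmDiff_def, Finset.sup_eq_union]
  have h2 : Disjoint (A \ C) (C \ A) := disjoint_sdiff_sdiff
  rw [h1, Finset.card_union_of_disjoint h2]
  have h3 := Finset.card_sdiff_add_card_inter A C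
  have h4 := Finset.card_sdiff_add_card_inter C A
  rw [Finset.inter_comm C A] at h4
  omega

/-- In an S(5, 8, 24), the symmetric difference of two blocks meeting in four points is a block. -/
theorem result {α : Type*} [Fintype α] [DecidableEq α] (hα : Fintype.card α = 24) {B : Set (Finset α)} (hB : Cfsg.IsSteinerSystem 5 8 B) {b c : Finset α} (hb : b ∈ B) (hc : c ∈ B) (h4 : (b ∩ c).card = 4) : symmDiff b c ∈ B := by
  obtain ⟨BF, hBF⟩ := Lib_lead_Steiner.exists_finset B
  have hb8 := hB.1 b hb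
  have hc8 := hB.1 c hc
  have hev : ∀ d ∈ B, ∀ e ∈ B, Even (d ∩ e).card := by
    intro d hd e he
    by_cases hde : d = e
    · subst hde; rw [Finset.inter_self, hB.1 d hd]; decide
    · rcases (S0352.meet_024 hα hB BF hBF he).1 d
        (Finset.mem_erase.mpr ⟨hde, (hBF d).mpr hd⟩) with h | h | h <;> rw [h] <;> decide
  set X := symmDiff b c with hX
  have hXcard : X.card = 8 := by
    have := card_symmDiff_add b c
    rw [← hX] at this
    omega
  have hpar : ∀ d ∈ B, Even (d ∩ X).card := by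
    intro d hd
    obtain ⟨r1, h1⟩ := hev d hd b hb
    obtain ⟨r2, h2⟩ := hev d hd c hc
    have h3 : d ∩ X = symmDiff (d ∩ b) (d ∩ c) := by
      rw [hX, ← Finset.inf_eq_inter, ← Finset.inf_eq_inter, ← Finset.inf_eq_inter,
        inf_symmDiff_distrib_left]
    have h4 := card_symmDiff_add (d ∩ b) (d ∩ c)
    rw [← h3] at h4
    exact ⟨r1 + r2 - ((d ∩ b) ∩ (d ∩ c)).card, by omega⟩
  by_contra hXB
  have h6 : ∀ d ∈ B, 5 ≤ (d ∩ X).card → (d ∩ X).card = 6 := by
    intro d hd h5
    have hle : (d ∩ X).card ≤ 8 := by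
      rw [← hXcard]; exact Finset.card_le_card Finset.inter_subset_right
    have hne : (d ∩ X).card ≠ 8 := by
      intro h8
      apply hXB
      have h9 : d ∩ X = X := Finset.eq_of_subset_of_card_le Finset.inter_subset_right (by omega)
      have hXd : X ⊆ d := by rw [← h9]; exact Finset.inter_subset_left
      have : X = d := Finset.eq_of_subset_of_card_le hXd (by rw [hB.1 d hd, hXcard])
      rw [this]; exact hd
    obtain ⟨r, hr⟩ := hpar d hd
    omega
  set F := (BF.filter (fun d => 5 ≤ (d ∩ X).card)).image (fun d => d ∩ X) with hF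
  have key := Lib_lead_Steiner.rel_count X F 5 6 ?_ ?_ ?_
  · rw [hXcard] at key
    have c1 : Nat.choose 6 5 = 6 := by decide
    have c2 : Nat.choose 8 5 = 56 := by decide
    rw [c1, c2] at key
    omega
  · intro e he
    obtain ⟨d, hd, rfl⟩ := Finset.mem_image.mp he
    rw [Finset.mem_filter] at hd
    exact h6 d ((hBF d).mp hd.1) hd.2
  · intro e he
    obtain ⟨d, hd, rfl⟩ := Finset.mem_image.mp he
    exact Finset.inter_subset_right
  · intro s hs hsc
    obtain ⟨d, ⟨hd, hsd⟩, huniq⟩ := hB.2 s hsc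
    have h5 : 5 ≤ (d ∩ X).card := by
      rw [← hsc]; exact Finset.card_le_card (Finset.subset_inter hsd hs)
    refine ⟨d ∩ X, ⟨Finset.mem_image.mpr ⟨d, Finset.mem_filter.mpr ⟨(hBF d).mpr hd, h5⟩, rfl⟩,
      Finset.subset_inter hsd hs⟩, ?_⟩
    rintro e ⟨he, hse⟩
    obtain ⟨d', hd', rfl⟩ := Finset.mem_image.mp he
    rw [Finset.mem_filter] at hd'
    rw [huniq d' ⟨(hBF d').mp hd'.1, hse.trans Finset.inter_subset_left⟩]

end Cfsg.Agent.S0353
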