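import Cfsg.Statements.S0354
import Cfsg.Agent.S0352

set_option autoImplicit false
open Cfsg

namespace Cfsg.Agent.S0354

/-- In an S(5, 8, 24), each block is disjoint from exactly 30 blocks. -/
theorem result {α : Type*} [Fintype α] [DecidableEq α] (hα : Fintype.card α = 24) {B : Set (Finset α)} (hB : Cfsg.IsSteinerSystem 5 8 B) {b : Finset α} (hb : b ∈ B) : {c : Finset α | c ∈ B ∧ Disjoint b c}.ncard = 30 := by
  obtain ⟨BF, hBF⟩ := Lib_lead_Steiner.exists_finset B
  obtain ⟨h024, hcard, hs2, hs4⟩ := S0352.meet_024 hα hB BF hBF hb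
  have hb8 : b.card = 8 := hB.1 b hb
  have hset : {c : Finset α | c ∈ B ∧ Disjoint b c}
      = (((BF.erase b).filter (fun c => (c ∩ b).card = 0) : Finset (Finset α)) : Set (Finset α)) := by
    ext c
    simp only [Set.mem_setOf_eq, Finset.coe_filter, Finset.mem_erase, Finset.card_eq_zero]
    constructor
    · rintro ⟨hc, hd⟩
      refine ⟨⟨?_, (hBF c).mpr hc⟩, ?_⟩
      · rintro rfl
        rw [disjoint_self] at hd
        rw [hd] at hb8
        simp at hb8
      · rw [Finset.inter_comm]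
        exact Finset.disjoint_iff_inter_eq_empty.mp hd
    · rintro ⟨⟨-, hc⟩, hd⟩
      refine ⟨(hBF c).mp hc, ?_⟩
      rw [Finset.inter_comm] at hd
      exact Finset.disjoint_iff_inter_eq_empty.mpr hd
  rw [hset, Set.ncard_coe_finset, Finset.card_filter]
  have key : ∀ c ∈ BF.erase b, ((if (c ∩ b).card = 0 then 1 else 0 : ℕ) : ℤ)
      = 1 - ((c ∩ b).card.choose 2 : ℤ) + 5 * ((c ∩ b).card.choose 4 : ℤ) := by
    intro c hc
    rcases h024 c hc with h | h | h <;> rw [h] <;> simp [Nat.choose]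
  have e2 : (∑ c ∈ BF.erase b, ((c ∩ b).card.choose 2 : ℤ)) = 2128 := by exact_mod_cast hs2
  have e4 : (∑ c ∈ BF.erase b, ((c ∩ b).card.choose 4 : ℤ)) = 280 := by exact_mod_cast hs4
  have : ((∑ c ∈ BF.erase b, (if (c ∩ b).card = 0 then 1 else 0 : ℕ) : ℕ) : ℤ) = 30 := by
    rw [Nat.cast_sum, Finset.sum_congr rfl key]
    simp only [Finset.sum_sub_distrib, Finset.sum_add_distrib, ← Finset.mul_sum, Finset.sum_const,
      e2, e4, hcard]
    norm_num
  exact_mod_cast this

end Cfsg.Agent.S0354
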