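import Cfsg.Statements.S0355
import Cfsg.Agent.Lib_lead_Steiner

set_option autoImplicit false
open Cfsg

namespace Cfsg.Agent.S0355

/-- In a Steiner system S(4, 7, 23), two distinct blocks intersect in 1 or 3 points. -/
theorem result {α : Type*} [Fintype α] [DecidableEq α] (hα : Fintype.card α = 23) {B : Set (Finset α)} (hB : Cfsg.IsSteinerSystem 4 7 B) {b c : Finset α} (hb : b ∈ B) (hc : c ∈ B) (hbc : b ≠ c) : (b ∩ c).card = 1 ∨ (b ∩ c).card = 3 := by
  obtain ⟨BF, hBF⟩ := Lib_lead_Steiner.exists_finset B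
  have hb7 : b.card = 7 := hB.1 b hb
  have m0 := Lib_lead_Steiner.inter_sum_steiner hB BF hBF b 0 (by norm_num)
  have m1 := Lib_lead_Steiner.inter_sum_steiner hB BF hBF b 1 (by norm_num)
  have m2 := Lib_lead_Steiner.inter_sum_steiner hB BF hBF b 2 (by norm_num)
  have m3 := Lib_lead_Steiner.inter_sum_steiner hB BF hBF b 3 (by norm_num)
  rw [hα, hb7] at m0 m1 m2 m3
  have c0 : Nat.choose (7 - 0) (4 - 0) = 35 := by decide
  have c0' : Nat.choose (23 - 0) (4 - 0) = 8855 := by decide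
  have c1 : Nat.choose (7 - 1) (4 - 1) = 20 := by decide
  have c1' : Nat.choose (23 - 1) (4 - 1) = 1540 := by decide
  have c2 : Nat.choose (7 - 2) (4 - 2) = 10 := by decide
  have c2' : Nat.choose (23 - 2) (4 - 2) = 210 := by decide
  have c3 : Nat.choose (7 - 3) (4 - 3) = 4 := by decide
  have c3' : Nat.choose (23 - 3) (4 - 3) = 20 := by decide
  have d0 : Nat.choose 7 0 = 1 := by decide
  have d1 : Nat.choose 7 1 = 7 := by decide
  have d2 : Nat.choose 7 2 = 21 := by decide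
  have d3 : Nat.choose 7 3 = 35 := by decide
  rw [c0, c0', d0] at m0
  rw [c1, c1', d1] at m1
  rw [c2, c2', d2] at m2
  rw [c3, c3', d3] at m3
  have hbF : b ∈ BF := (hBF b).mpr hb
  rw [← Finset.add_sum_erase BF _ hbF] at m0 m1 m2 m3
  simp only [Finset.inter_self, hb7] at m0 m1 m2 m3
  rw [d0] at m0
  rw [d1] at m1
  rw [d2] at m2
  rw [d3] at m3
  have hle : ∀ c ∈ BF.erase b, (c ∩ b).card ≤ 3 := by
    intro c hc
    rw [Finset.mem_erase] at hc
    by_contra h
    exact hc.1 (Lib_lead_Steiner.eq_of_inter_ge hB ((hBF c).mp hc.2) hb (by omega))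
  have e0 : (∑ c ∈ BF.erase b, ((c ∩ b).card.choose 0 : ℤ)) = 252 := by
    have : ∑ c ∈ BF.erase b, (c ∩ b).card.choose 0 = 252 := by omega
    exact_mod_cast this
  have e1 : (∑ c ∈ BF.erase b, ((c ∩ b).card.choose 1 : ℤ)) = 532 := by
    have : ∑ c ∈ BF.erase b, (c ∩ b).card.choose 1 = 532 := by omega
    exact_mod_cast this
  have e2 : (∑ c ∈ BF.erase b, ((c ∩ b).card.choose 2 : ℤ)) = 420 := by
    have : ∑ c ∈ BF.erase b, (c ∩ b).card.choose 2 = 420 := by omega
    exact_mod_cast this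
  have e3 : (∑ c ∈ BF.erase b, ((c ∩ b).card.choose 3 : ℤ)) = 140 := by
    have : ∑ c ∈ BF.erase b, (c ∩ b).card.choose 3 = 140 := by omega
    exact_mod_cast this
  have key : ∑ c ∈ BF.erase b, (((c ∩ b).card.choose 0 : ℤ) - (c ∩ b).card.choose 1
      + 2 * (c ∩ b).card.choose 2 - 4 * (c ∩ b).card.choose 3) = 0 := by
    simp only [Finset.sum_sub_distrib, Finset.sum_add_distrib, ← Finset.mul_sum]
    rw [e0, e1, e2, e3]; norm_num
  have hnn : ∀ c ∈ BF.erase b, 0 ≤ (((c ∩ b).card.choose 0 : ℤ) - (c ∩ b).card.choose 1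
      + 2 * (c ∩ b).card.choose 2 - 4 * (c ∩ b).card.choose 3) := by
    intro c hc
    have := hle c hc
    generalize (c ∩ b).card = j at this ⊢
    interval_cases j <;> simp [Nat.choose]
  have hz := (Finset.sum_eq_zero_iff_of_nonneg hnn).mp key
  have hcE : c ∈ BF.erase b := Finset.mem_erase.mpr ⟨hbc.symm, (hBF c).mpr hc⟩
  have h1 := hz c hcE
  have h2 := hle c hcE
  rw [Finset.inter_comm]
  generalize (c ∩ b).card = j at h1 h2 ⊢
  interval_cases j <;> simp [Nat.choose] at h1 ⊢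

end Cfsg.Agent.S0355
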