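import Cfsg.Statements.S0356
import Cfsg.Agent.Lib_lead_Steiner

set_option autoImplicit false
open Cfsg

namespace Cfsg.Agent.S0356

/-- In a Steiner system S(3, 6, 22), two distinct blocks intersect in 0 or 2 points. -/
theorem result {α : Type*} [Fintype α] [DecidableEq α] (hα : Fintype.card α = 22) {B : Set (Finset α)} (hB : Cfsg.IsSteinerSystem 3 6 B) {b c : Finset α} (hb : b ∈ B) (hc : c ∈ B) (hbc : b ≠ c) : (b ∩ c).card = 0 ∨ (b ∩ c).card = 2 := by
  obtain ⟨BF, hBF⟩ := Lib_lead_Steiner.exists_finset B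
  have hb6 : b.card = 6 := hB.1 b hb
  have m1 := Lib_lead_Steiner.inter_sum_steiner hB BF hBF b 1 (by norm_num)
  have m2 := Lib_lead_Steiner.inter_sum_steiner hB BF hBF b 2 (by norm_num)
  rw [hα, hb6] at m1 m2
  have c1 : Nat.choose (6 - 1) (3 - 1) = 10 := by decide
  have c1' : Nat.choose (22 - 1) (3 - 1) = 210 := by decide
  have c2 : Nat.choose (6 - 2) (3 - 2) = 4 := by decide
  have c2' : Nat.choose (22 - 2) (3 - 2) = 20 := by decide
  have d1 : Nat.choose 6 1 = 6 := by decide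
  have d2 : Nat.choose 6 2 = 15 := by decide
  rw [c1, c1', d1] at m1
  rw [c2, c2', d2] at m2
  have hbF : b ∈ BF := (hBF b).mpr hb
  rw [← Finset.add_sum_erase BF _ hbF] at m1 m2
  simp only [Finset.inter_self, hb6] at m1 m2
  rw [d1] at m1
  rw [d2] at m2
  have hle : ∀ c ∈ BF.erase b, (c ∩ b).card ≤ 2 := by
    intro c hc
    rw [Finset.mem_erase] at hc
    by_contra h
    exact hc.1 (Lib_lead_Steiner.eq_of_inter_ge hB ((hBF c).mp hc.2) hb (by omega))
  have e1 : (∑ c ∈ BF.erase b, ((c ∩ b).card.choose 1 : ℤ)) = 120 := by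
    have : ∑ c ∈ BF.erase b, (c ∩ b).card.choose 1 = 120 := by omega
    exact_mod_cast this
  have e2 : (∑ c ∈ BF.erase b, ((c ∩ b).card.choose 2 : ℤ)) = 60 := by
    have : ∑ c ∈ BF.erase b, (c ∩ b).card.choose 2 = 60 := by omega
    exact_mod_cast this
  have key : ∑ c ∈ BF.erase b, (((c ∩ b).card.choose 1 : ℤ) - 2 * (c ∩ b).card.choose 2) = 0 := by
    simp only [Finset.sum_sub_distrib, Finset.sum_add_distrib, ← Finset.mul_sum]
    rw [e1, e2]; norm_num
  have hnn : ∀ c ∈ BF.erase b, 0 ≤ (((c ∩ b).card.choose 1 : ℤ) - 2 * (c ∩ b).card.choose 2) := by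
    intro c hc
    have := hle c hc
    generalize (c ∩ b).card = j at this ⊢
    interval_cases j <;> simp [Nat.choose]
  have hz := (Finset.sum_eq_zero_iff_of_nonneg hnn).mp key
  have hcE : c ∈ BF.erase b := Finset.mem_erase.mpr ⟨hbc.symm, (hBF c).mpr hc⟩
  have h1 := hz c hcE
  have h2 := hle c hcE
  rw [Finset.inter_comm]
  generalize (c ∩ b).card = j at h1 h2 ⊢
  interval_cases j <;> simp [Nat.choose] at h1 ⊢

end Cfsg.Agent.S0356
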