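import Cfsg.Statements.S0357
import Cfsg.Agent.Lib_lead_Steiner

set_option autoImplicit false
open Cfsg

namespace Cfsg.Agent.S0357

/-- In a Steiner system S(5, 6, 12), the complement of every block is again a block. -/
theorem result {α : Type*} [Fintype α] [DecidableEq α] (hα : Fintype.card α = 12) {B : Set (Finset α)} (hB : Cfsg.IsSteinerSystem 5 6 B) {b : Finset α} (hb : b ∈ B) : bᶜ ∈ B := by
  obtain ⟨BF, hBF⟩ := Lib_lead_Steiner.exists_finset B
  have hb6 : b.card = 6 := hB.1 b hb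
  have m0 := Lib_lead_Steiner.inter_sum_steiner hB BF hBF b 0 (by norm_num)
  have m1 := Lib_lead_Steiner.inter_sum_steiner hB BF hBF b 1 (by norm_num)
  have m2 := Lib_lead_Steiner.inter_sum_steiner hB BF hBF b 2 (by norm_num)
  have m3 := Lib_lead_Steiner.inter_sum_steiner hB BF hBF b 3 (by norm_num)
  have m4 := Lib_lead_Steiner.inter_sum_steiner hB BF hBF b 4 (by norm_num)
  rw [hα, hb6] at m0 m1 m2 m3 m4
  have c0 : Nat.choose (6 - 0) (5 - 0) = 6 := by decide
  have c0' : Nat.choose (12 - 0) (5 - 0) = 792 := by decide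
  have c1 : Nat.choose (6 - 1) (5 - 1) = 5 := by decide
  have c1' : Nat.choose (12 - 1) (5 - 1) = 330 := by decide
  have c2 : Nat.choose (6 - 2) (5 - 2) = 4 := by decide
  have c2' : Nat.choose (12 - 2) (5 - 2) = 120 := by decide
  have c3 : Nat.choose (6 - 3) (5 - 3) = 3 := by decide
  have c3' : Nat.choose (12 - 3) (5 - 3) = 36 := by decide
  have c4 : Nat.choose (6 - 4) (5 - 4) = 2 := by decide
  have c4' : Nat.choose (12 - 4) (5 - 4) = 8 := by decide
  have d0 : Nat.choose 6 0 = 1 := by decide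
  have d1 : Nat.choose 6 1 = 6 := by decide
  have d2 : Nat.choose 6 2 = 15 := by decide
  have d3 : Nat.choose 6 3 = 20 := by decide
  have d4 : Nat.choose 6 4 = 15 := by decide
  rw [c0, c0', d0] at m0
  rw [c1, c1', d1] at m1
  rw [c2, c2', d2] at m2
  rw [c3, c3', d3] at m3
  rw [c4, c4', d4] at m4
  have hbF : b ∈ BF := (hBF b).mpr hb
  rw [← Finset.add_sum_erase BF _ hbF] at m0 m1 m2 m3 m4
  simp only [Finset.inter_self, hb6] at m0 m1 m2 m3 m4
  rw [d0] at m0
  rw [d1] at m1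
  rw [d2] at m2
  rw [d3] at m3
  rw [d4] at m4
  have hle : ∀ c ∈ BF.erase b, (c ∩ b).card ≤ 4 := by
    intro c hc
    rw [Finset.mem_erase] at hc
    by_contra h
    exact hc.1 (Lib_lead_Steiner.eq_of_inter_ge hB ((hBF c).mp hc.2) hb (by omega))
  have e0 : (∑ c ∈ BF.erase b, ((c ∩ b).card.choose 0 : ℤ)) = 131 := by
    have : ∑ c ∈ BF.erase b, (c ∩ b).card.choose 0 = 131 := by omega
    exact_mod_cast this
  have e1 : (∑ c ∈ BF.erase b, ((c ∩ b).card.choose 1 : ℤ)) = 390 := by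
    have : ∑ c ∈ BF.erase b, (c ∩ b).card.choose 1 = 390 := by omega
    exact_mod_cast this
  have e2 : (∑ c ∈ BF.erase b, ((c ∩ b).card.choose 2 : ℤ)) = 435 := by
    have : ∑ c ∈ BF.erase b, (c ∩ b).card.choose 2 = 435 := by omega
    exact_mod_cast this
  have e3 : (∑ c ∈ BF.erase b, ((c ∩ b).card.choose 3 : ℤ)) = 220 := by
    have : ∑ c ∈ BF.erase b, (c ∩ b).card.choose 3 = 220 := by omega
    exact_mod_cast this
  have e4 : (∑ c ∈ BF.erase b, ((c ∩ b).card.choose 4 : ℤ)) = 45 := by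
    have : ∑ c ∈ BF.erase b, (c ∩ b).card.choose 4 = 45 := by omega
    exact_mod_cast this
  have key : ∀ c ∈ BF.erase b, ((if (c ∩ b).card = 0 then 1 else 0 : ℕ) : ℤ)
      = ((c ∩ b).card.choose 0 : ℤ) - (c ∩ b).card.choose 1 + (c ∩ b).card.choose 2
        - (c ∩ b).card.choose 3 + (c ∩ b).card.choose 4 := by
    intro c hc
    have := hle c hc
    generalize (c ∩ b).card = j at this ⊢
    interval_cases j <;> simp [Nat.choose]
  have hcount : ((BF.erase b).filter (fun c => (c ∩ b).card = 0)).card = 1 := by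
    rw [Finset.card_filter]
    have : ((∑ c ∈ BF.erase b, (if (c ∩ b).card = 0 then 1 else 0 : ℕ) : ℕ) : ℤ) = 1 := by
      rw [Nat.cast_sum, Finset.sum_congr rfl key]
      simp only [Finset.sum_sub_distrib, Finset.sum_add_distrib, e0, e1, e2, e3, e4]
      norm_num
    exact_mod_cast this
  obtain ⟨c, hc⟩ := Finset.card_pos.mp (by rw [hcount]; norm_num :
    0 < ((BF.erase b).filter (fun c => (c ∩ b).card = 0)).card)
  rw [Finset.mem_filter, Finset.mem_erase] at hc
  obtain ⟨⟨-, hcB⟩, hc0⟩ := hc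
  have hcB' : c ∈ B := (hBF c).mp hcB
  have hsub : c ⊆ bᶜ := by
    intro x hx
    rw [Finset.mem_compl]
    intro hxb
    have : x ∈ c ∩ b := Finset.mem_inter.mpr ⟨hx, hxb⟩
    rw [Finset.card_eq_zero.mp hc0] at this
    simp at this
  have : c = bᶜ := by
    apply Finset.eq_of_subset_of_card_le hsub
    rw [Finset.card_compl, hα, hb6, hB.1 c hcB']
  rw [← this]; exact hcB'

end Cfsg.Agent.S0357
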