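import Cfsg.Statements.S0358
import Mathlib
import Cfsg.Agent.Lib_lead_Golay

set_option autoImplicit false
open Cfsg

namespace Cfsg.Agent.S0358

open Cfsg.Agent.Lib_lead_Golay

/-- The length-24 code built from the squares modulo 23 has dimension 12 over the field with two elements. -/
theorem result : Module.finrank (ZMod 2) Cfsg.golayCode = 12 := by
  have hcard : Nat.card Cfsg.golayCode = 4096 := by
    have h : Nat.card Cfsg.golayCode = Nat.card (Fin 4096) := by
      apply Nat.card_congr
      exact (Equiv.ofBijective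
        (fun k : Fin 4096 => (⟨W k.val, W_mem k.val⟩ : Cfsg.golayCode))
        ⟨fun a b h => Fin.ext (W_injOn a.2 b.2 (congrArg Subtype.val h)), fun ⟨w, hw⟩ => by
          obtain ⟨k, hk, rfl⟩ := (mem_iff w).mp hw
          exact ⟨⟨k, hk⟩, rfl⟩⟩).symm
    rw [h, Nat.card_fin]
  have h2 := Module.natCard_eq_pow_finrank (K := ZMod 2) (V := Cfsg.golayCode)
  rw [hcard, Nat.card_zmod] at h2
  have h3 : (2 : ℕ) ^ 12 = 2 ^ Module.finrank (ZMod 2) Cfsg.golayCode := by
    rw [← h2]
    norm_num
  exact (Nat.pow_right_injective (le_refl 2) h3).symm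

end Cfsg.Agent.S0358
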