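import Cfsg.Statements.S0362
-- import your own Cfsg.Agent.* helpers here

set_option autoImplicit false
open Cfsg

namespace Cfsg.Agent.S0362

theorem qr_dot : ∀ t t' : ZMod 23, ∑ i : Cfsg.GolayPt, Cfsg.qrWord t i * Cfsg.qrWord t' i = 0 := by
  decide

theorem qr_one : ∀ t : ZMod 23, ∑ i : Cfsg.GolayPt, Cfsg.qrWord t i = 0 := by
  decide

/-- The length-24 code is self-orthogonal: the dot product over ZMod 2 of any two of its words vanishes (with dimension 12 this makes it self-dual). -/
theorem result (v w : Cfsg.GolayPt → ZMod 2) (hv : v ∈ Cfsg.golayCode) (hw : w ∈ Cfsg.golayCode) : ∑ i, v i * w i = 0 := by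
  have h11 : ∑ i : Cfsg.GolayPt, (1 : Cfsg.GolayPt → ZMod 2) i * (1 : Cfsg.GolayPt → ZMod 2) i = 0 := by
    decide
  unfold Cfsg.golayCode at hv hw
  induction hv using Submodule.span_induction with
  | mem x hx =>
    induction hw using Submodule.span_induction with
    | mem y hy =>
      rcases hx with ⟨t, rfl⟩ | hx
      · rcases hy with ⟨t', rfl⟩ | hy
        · exact qr_dot t t'
        · rw [Set.mem_singleton_iff] at hy
          subst hy
          simpa using qr_one t
      · rw [Set.mem_singleton_iff] at hx
        subst hx
        rcases hy with ⟨t', rfl⟩ | hy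
        · simpa using qr_one t'
        · rw [Set.mem_singleton_iff] at hy
          subst hy
          exact h11
    | zero => simp
    | add y z _ _ hy hz =>
      simp only [Pi.add_apply, mul_add, Finset.sum_add_distrib, hy, hz, add_zero]
    | smul a y _ hy =>
      simp only [Pi.smul_apply, smul_eq_mul, mul_left_comm _ a, ← Finset.mul_sum, hy, mul_zero]
  | zero => simp
  | add y z _ _ hy hz =>
    simp only [Pi.add_apply, add_mul, Finset.sum_add_distrib, hy, hz, add_zero]
  | smul a y _ hy =>
    simp only [Pi.smul_apply, smul_eq_mul, mul_assoc, ← Finset.mul_sum, hy, mul_zero]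

end Cfsg.Agent.S0362
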