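import Cfsg.Statements.S0369
import Mathlib
import Cfsg.Agent.Lib_lead_Golay
import Cfsg.Agent.Lib_lead_GolayPerm
import Cfsg.Agent.Lib_lead_Leech

set_option autoImplicit false
open Cfsg

namespace Cfsg.Agent.S0369

open Cfsg.Agent.Lib_lead_Golay Cfsg.Agent.Lib_lead_GolayPerm Cfsg.Agent.Lib_lead_Leech
open scoped Pointwise

/-- the span of the weight-8 words -/
def C8 : Submodule (ZMod 2) (GolayPt → ZMod 2) :=
  Submodule.span (ZMod 2) {w | w ∈ golayCode ∧ hammingNorm w = 8}

theorem W_mem_C8 (k : ℕ) (h : popc (M k) = 8) : W k ∈ C8 :=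
  Submodule.subset_span ⟨W_mem k, by rw [hammingNorm_W, h]⟩

theorem qr_mem_C8 (t : ZMod 23) (a b : ℕ) (ha : popc (M a) = 8) (hb : popc (M b) = 8)
    (h : M a ^^^ M b = qmask t.val) : qrWord t ∈ C8 := by
  have e : qrWord t = W a + W b :=
    enc_injective (by rw [enc_add, enc_W, enc_W, enc_qr, h])
  rw [e]
  exact C8.add_mem (W_mem_C8 a ha) (W_mem_C8 b hb)

theorem one_mem_C8 : (1 : GolayPt → ZMod 2) ∈ C8 := by
  have e : (1 : GolayPt → ZMod 2) = W 15 + W 125 + W 2162 :=
    enc_injective (by rw [enc_add, enc_add, enc_W, enc_W, enc_W, enc_one]; decide)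
  rw [e]
  exact C8.add_mem (C8.add_mem (W_mem_C8 15 (by decide)) (W_mem_C8 125 (by decide)))
    (W_mem_C8 2162 (by decide))

theorem golay_le_C8 : golayCode ≤ C8 := by
  intro w hw
  obtain ⟨k, _, rfl⟩ := (mem_iff w).mp hw
  apply combW_mem
  intro b hb
  simp only [basisW, List.mem_cons, List.not_mem_nil, or_false] at hb
  rcases hb with rfl | rfl | rfl | rfl | rfl | rfl | rfl | rfl | rfl | rfl | rfl | rfl
  · exact qr_mem_C8 0 118 119 (by decide) (by decide) (by decide)
  · exact qr_mem_C8 1 41 43 (by decide) (by decide) (by decide)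
  · exact qr_mem_C8 2 43 47 (by decide) (by decide) (by decide)
  · exact qr_mem_C8 3 35 43 (by decide) (by decide) (by decide)
  · exact qr_mem_C8 4 43 59 (by decide) (by decide) (by decide)
  · exact qr_mem_C8 5 15 47 (by decide) (by decide) (by decide)
  · exact qr_mem_C8 6 30 94 (by decide) (by decide) (by decide)
  · exact qr_mem_C8 7 35 163 (by decide) (by decide) (by decide)
  · exact qr_mem_C8 8 35 291 (by decide) (by decide) (by decide)
  · exact qr_mem_C8 9 35 547 (by decide) (by decide) (by decide)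
  · exact qr_mem_C8 10 19 1043 (by decide) (by decide) (by decide)
  · exact one_mem_C8

/-- The group of the length-24 code coincides with the automorphism group of its octad system. -/
theorem result : Cfsg.M24 = Cfsg.setSystemAut Cfsg.octads := by
  apply le_antisymm
  · intro σ hσ
    show σ ∈ MulAction.stabilizer (Equiv.Perm Cfsg.GolayPt) Cfsg.octads
    rw [MulAction.mem_stabilizer_set_iff_smul_set_subset (Set.toFinite _)]
    rintro _ ⟨b, ⟨hb, hb8⟩, rfl⟩
    exact ⟨smul_mem_supports hσ hb, by
      show (σ • b).card = 8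
      rw [Finset.card_smul_finset]
      exact hb8⟩
  · intro σ hσ
    have hstab : σ • Cfsg.octads = Cfsg.octads := hσ
    apply mem_M24_of_preserves
    intro w hw
    have hw8 := golay_le_C8 hw
    unfold C8 at hw8
    clear hw
    induction hw8 using Submodule.span_induction with
    | mem v hv =>
      obtain ⟨hv1, hv2⟩ := hv
      have h1 : support₂ v ∈ Cfsg.octads := ⟨⟨v, hv1, rfl⟩, by rw [card_support₂]; exact hv2⟩
      have h2 : σ • support₂ v ∈ Cfsg.octads := by
        rw [← hstab]
        exact Set.smul_mem_smul_set h1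
      rw [← support₂_comp] at h2
      obtain ⟨⟨v', hv', hsupp⟩, _⟩ := h2
      rw [← support₂_injective hsupp]
      exact hv'
    | zero => exact Cfsg.golayCode.zero_mem
    | add x y _ _ hx hy => exact Cfsg.golayCode.add_mem hx hy
    | smul a x _ hx => exact Cfsg.golayCode.smul_mem a hx

end Cfsg.Agent.S0369
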