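import Cfsg.Statements.S0371
import Mathlib
import Cfsg.Agent.Lib_lead_Golay
import Cfsg.Agent.Lib_lead_GolayPerm

set_option autoImplicit false
open Cfsg

namespace Cfsg.Agent.S0371

open Cfsg.Agent.Lib_lead_Golay Cfsg.Agent.Lib_lead_GolayPerm

/-- Multiplication by a nonzero square residue modulo 23, fixing the extra point, lies in the group of the length-24 code. -/
theorem result (u : (ZMod 23)ˣ) (hu : IsSquare u) : Equiv.optionCongr (Units.mulLeft u) ∈ Cfsg.M24 := by
  apply mem_M24_of_gen'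
  intro t
  obtain ⟨s, hs⟩ := hu
  have h : (fun p => qrWord t (Equiv.optionCongr (Units.mulLeft u) p))
      = qrWord ((u⁻¹ : (ZMod 23)ˣ) * t) := by
    funext p
    cases p with
    | none => rfl
    | some x =>
      have hiff : (∃ r : ZMod 23, (u : ZMod 23) * x = r ^ 2 + t) ↔
          (∃ r : ZMod 23, x = r ^ 2 + ((u⁻¹ : (ZMod 23)ˣ) : ZMod 23) * t) := by
        have hu1 : ((u⁻¹ : (ZMod 23)ˣ) : ZMod 23) * (u : ZMod 23) = 1 := by
          rw [← Units.val_mul, inv_mul_cancel, Units.val_one]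
        have hus : (u : ZMod 23) = (s : ZMod 23) * (s : ZMod 23) := by
          rw [hs, Units.val_mul]
        have hs1 : ((s⁻¹ : (ZMod 23)ˣ) : ZMod 23) * (s : ZMod 23) = 1 := by
          rw [← Units.val_mul, inv_mul_cancel, Units.val_one]
        have hinv : ((u⁻¹ : (ZMod 23)ˣ) : ZMod 23)
            = ((s⁻¹ : (ZMod 23)ˣ) : ZMod 23) * ((s⁻¹ : (ZMod 23)ˣ) : ZMod 23) := by
          rw [hs, mul_inv_rev, Units.val_mul]
        constructor
        · rintro ⟨r, hr⟩
          refine ⟨((s⁻¹ : (ZMod 23)ˣ) : ZMod 23) * r, ?_⟩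
          have h1 : x = ((u⁻¹ : (ZMod 23)ˣ) : ZMod 23) * ((u : ZMod 23) * x) := by
            rw [← mul_assoc, hu1, one_mul]
          rw [h1, hr, hinv]
          ring
        · rintro ⟨r, hr⟩
          refine ⟨(s : ZMod 23) * r, ?_⟩
          rw [hr]
          linear_combination (r ^ 2) * hus + t * hu1
      simp only [Equiv.optionCongr_apply, Option.map_some, Units.mulLeft_apply, qrWord, hiff]
  rw [h]
  exact Submodule.subset_span (Or.inl ⟨_, rfl⟩)

end Cfsg.Agent.S0371
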