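import Cfsg.Statements.S0386
import Mathlib
import Cfsg.Agent.Lib_lead_Golay
import Cfsg.Agent.Lib_lead_Leech
import Cfsg.Agent.Lib_lead_Steiner
import Cfsg.Agent.S0363

set_option autoImplicit false
open Cfsg

namespace Cfsg.Agent.S0386

open Cfsg.Agent.Lib_lead_Golay Cfsg.Agent.Lib_lead_Leech

/-- For a fixed dodecad, 132 octads meet it in 6 points, 132 in 2 points and 495 in 4 points. -/
theorem result (d : Finset Cfsg.GolayPt) (hd : d ∈ Cfsg.dodecads) : {o : Finset Cfsg.GolayPt | o ∈ Cfsg.octads ∧ (o ∩ d).card = 6}.ncard = 132 ∧ {o : Finset Cfsg.GolayPt | o ∈ Cfsg.octads ∧ (o ∩ d).card = 2}.ncard = 132 ∧ {o : Finset Cfsg.GolayPt | o ∈ Cfsg.octads ∧ (o ∩ d).card = 4}.ncard = 495 := by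
  classical
  have hB := Cfsg.Agent.S0363.result
  obtain ⟨BF, hBF⟩ := Cfsg.Agent.Lib_lead_Steiner.exists_finset Cfsg.octads
  obtain ⟨hdS, hd12⟩ := hd
  have h246 : ∀ c ∈ BF, (c ∩ d).card = 2 ∨ (c ∩ d).card = 4 ∨ (c ∩ d).card = 6 := by
    intro c hc
    obtain ⟨hcS, hc8⟩ := (hBF c).mp hc
    have h1 := card_symmDiff_add c d
    have h2 := card_mem (symmDiff_mem hcS hdS)
    have h3 : (c ∩ d).card ≤ 8 := by
      rw [← hc8]
      exact Finset.card_le_card Finset.inter_subset_left
    omega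
  have key : ∀ f : ℕ → ℕ, ∑ c ∈ BF, f (c ∩ d).card
      = f 2 * (BF.filter (fun c => (c ∩ d).card = 2)).card
        + f 4 * (BF.filter (fun c => (c ∩ d).card = 4)).card
        + f 6 * (BF.filter (fun c => (c ∩ d).card = 6)).card := by
    intro f
    rw [Finset.card_filter, Finset.card_filter, Finset.card_filter, Finset.mul_sum,
      Finset.mul_sum, Finset.mul_sum, ← Finset.sum_add_distrib, ← Finset.sum_add_distrib]
    refine Finset.sum_congr rfl fun c hc => ?_
    rcases h246 c hc with h | h | h <;> simp [h]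
  have e0 := Cfsg.Agent.Lib_lead_Steiner.inter_sum_steiner hB BF hBF d 0 (by norm_num)
  have e1 := Cfsg.Agent.Lib_lead_Steiner.inter_sum_steiner hB BF hBF d 1 (by norm_num)
  have e2 := Cfsg.Agent.Lib_lead_Steiner.inter_sum_steiner hB BF hBF d 2 (by norm_num)
  rw [key (fun n => n.choose 0)] at e0
  rw [key (fun n => n.choose 1)] at e1
  rw [key (fun n => n.choose 2)] at e2
  rw [hd12, card_golayPt] at e0 e1 e2
  have c1 : Nat.choose 8 5 = 56 := by decide
  have c2 : Nat.choose 24 5 = 42504 := by decide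
  have c3 : Nat.choose 7 4 = 35 := by decide
  have c4 : Nat.choose 23 4 = 8855 := by decide
  have c5 : Nat.choose 6 3 = 20 := by decide
  have c6 : Nat.choose 22 3 = 1540 := by decide
  have c7 : Nat.choose 12 2 = 66 := by decide
  have c8 : Nat.choose 4 2 = 6 := by decide
  have c9 : Nat.choose 6 2 = 15 := by decide
  simp only [Nat.choose_zero_right, Nat.choose_one_right, Nat.choose_self, Nat.sub_zero,
    show 8 - 1 = 7 from rfl, show 5 - 1 = 4 from rfl, show 24 - 1 = 23 from rfl,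
    show 8 - 2 = 6 from rfl, show 5 - 2 = 3 from rfl, show 24 - 2 = 22 from rfl,
    c1, c2, c3, c4, c5, c6, c7, c8, c9] at e0 e1 e2
  have hset : ∀ j, {o : Finset Cfsg.GolayPt | o ∈ Cfsg.octads ∧ (o ∩ d).card = j}
      = ↑(BF.filter (fun c => (c ∩ d).card = j)) := by
    intro j
    ext o
    simp [hBF]
  rw [hset, hset, hset, Set.ncard_coe_finset, Set.ncard_coe_finset, Set.ncard_coe_finset]
  omega

end Cfsg.Agent.S0386
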