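import Cfsg.Statements.S0385
import Mathlib
import Cfsg.Agent.Lib_lead_Golay
import Cfsg.Agent.Lib_lead_Leech
import Cfsg.Agent.Lib_lead_Steiner
import Cfsg.Agent.Lib_lead_Steiner2
import Cfsg.Agent.S0363
import Cfsg.Agent.S0386

set_option autoImplicit false
open Cfsg

namespace Cfsg.Agent.S0385

open Cfsg.Agent.Lib_lead_Golay Cfsg.Agent.Lib_lead_Leech

/-- The 6-point intersections of octads with a fixed dodecad form a Steiner system S(5, 6, 12) on the dodecad. -/
theorem result (d : Finset Cfsg.GolayPt) (hd : d ∈ Cfsg.dodecads) : Cfsg.IsSteinerSystem 5 6 {h : Finset {p : Cfsg.GolayPt // p ∈ d} | ∃ o ∈ Cfsg.octads, (o ∩ d).card = 6 ∧ h = Finset.subtype (fun p => p ∈ d) o} := by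
  classical
  have hB := Cfsg.Agent.S0363.result
  obtain ⟨BF, hBF⟩ := Cfsg.Agent.Lib_lead_Steiner.exists_finset Cfsg.octads
  have h132 := (Cfsg.Agent.S0386.result d hd).1
  have hset : {o : Finset Cfsg.GolayPt | o ∈ Cfsg.octads ∧ (o ∩ d).card = 6}
      = ↑(BF.filter (fun c => (c ∩ d).card = 6)) := by
    ext o
    simp [hBF]
  rw [hset, Set.ncard_coe_finset] at h132
  -- two octads sharing five points coincide
  have hoct : ∀ o ∈ Cfsg.octads, ∀ o' ∈ Cfsg.octads, ∀ s : Finset Cfsg.GolayPt, 5 ≤ s.card →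
      s ⊆ o → s ⊆ o' → o = o' := by
    intro o ho o' ho' s hs hso hso'
    apply Cfsg.Agent.Lib_lead_Steiner.eq_of_inter_ge hB ho ho'
    exact hs.trans (Finset.card_le_card (Finset.subset_inter hso hso'))
  set F : Finset (Finset {p : Cfsg.GolayPt // p ∈ d}) :=
    (BF.filter (fun c => (c ∩ d).card = 6)).image (fun o => Finset.subtype (fun p => p ∈ d) o)
    with hF
  have hFset : {h : Finset {p : Cfsg.GolayPt // p ∈ d} | ∃ o ∈ Cfsg.octads, (o ∩ d).card = 6 ∧
      h = Finset.subtype (fun p => p ∈ d) o} = ↑F := by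
    ext h
    simp only [Set.mem_setOf_eq, hF, Finset.coe_image, Finset.coe_filter, Set.mem_image]
    constructor
    · rintro ⟨o, ho, h6, rfl⟩
      exact ⟨o, ⟨(hBF o).mpr ho, h6⟩, rfl⟩
    · rintro ⟨o, ⟨ho, h6⟩, rfl⟩
      exact ⟨o, (hBF o).mp ho, h6, rfl⟩
  rw [hFset]
  have hcardsub : ∀ o : Finset Cfsg.GolayPt,
      (Finset.subtype (fun p => p ∈ d) o).card = (o ∩ d).card := by
    intro o
    rw [Finset.card_subtype, Finset.filter_mem_eq_inter]
  -- a subset of the subtype, pushed to the ambient type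
  have hpush : ∀ (s : Finset {p : Cfsg.GolayPt // p ∈ d}) (o : Finset Cfsg.GolayPt),
      s ⊆ Finset.subtype (fun p => p ∈ d) o →
      s.map (Function.Embedding.subtype _) ⊆ o := by
    intro s o hs x hx
    rw [Finset.mem_map] at hx
    obtain ⟨y, hy, rfl⟩ := hx
    exact Finset.mem_subtype.mp (hs hy)
  have hinj : Set.InjOn (fun o => Finset.subtype (fun p => p ∈ d) o)
      (↑(BF.filter (fun c => (c ∩ d).card = 6)) : Set (Finset Cfsg.GolayPt)) := by
    intro o ho o' ho' heq
    rw [Finset.mem_coe, Finset.mem_filter] at ho ho'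
    have heq' : Finset.subtype (fun p => p ∈ d) o = Finset.subtype (fun p => p ∈ d) o' := heq
    apply hoct o ((hBF o).mp ho.1) o' ((hBF o').mp ho'.1)
      ((Finset.subtype (fun p => p ∈ d) o).map (Function.Embedding.subtype _))
    · rw [Finset.card_map, hcardsub, ho.2]
      norm_num
    · exact hpush _ o (le_refl _)
    · exact hpush _ o' (by rw [heq'])
  have hFcard : F.card = 132 := by
    rw [hF, Finset.card_image_of_injOn hinj, h132]
  apply Cfsg.Agent.Lib_lead_Steiner2.steiner_of_count F 5 6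
  · intro e he
    rw [hF, Finset.mem_image] at he
    obtain ⟨o, ho, rfl⟩ := he
    rw [Finset.mem_filter] at ho
    rw [hcardsub, ho.2]
  · intro e he e' he' s hs hse hse'
    rw [hF, Finset.mem_image] at he he'
    obtain ⟨o, ho, rfl⟩ := he
    obtain ⟨o', ho', rfl⟩ := he'
    rw [Finset.mem_filter] at ho ho'
    have hoo : o = o' := by
      apply hoct o ((hBF o).mp ho.1) o' ((hBF o').mp ho'.1)
        (s.map (Function.Embedding.subtype _))
      · rw [Finset.card_map, hs]
      · exact hpush s o hse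
      · exact hpush s o' hse'
    rw [hoo]
  · rw [hFcard, Fintype.card_coe, hd.2]
    decide

end Cfsg.Agent.S0385
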