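import Cfsg.Statements.S0439
import Mathlib

set_option autoImplicit false
open Cfsg

namespace Cfsg.Agent.S0439

/-- In the symmetric group of degree n ≥ 2, the set of transpositions is a conjugacy class of 3-transpositions which generates the group. -/
theorem result (n : ℕ) (hn : 2 ≤ n) : Cfsg.IsThreeTranspositionClass {σ : Equiv.Perm (Fin n) | σ.IsSwap} := by
  classical
  have swap_sq : ∀ σ : Equiv.Perm (Fin n), σ.IsSwap → σ * σ = 1 := by
    rintro σ ⟨x, y, hxy, rfl⟩
    exact Equiv.swap_mul_self x y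
  have cube : ∀ a b c : Fin n, a ≠ b → a ≠ c → b ≠ c →
      (Equiv.swap a b * Equiv.swap a c) ^ 3 = 1 := by
    intro a b c hab hac hbc
    have h := (Equiv.Perm.isThreeCycle_swap_mul_swap_same hab hac hbc).orderOf
    rw [← h]; exact pow_orderOf_eq_one _
  refine ⟨⟨?_, ?_⟩, ?_, ?_⟩
  · intro d hd
    exact Equiv.Perm.IsSwap.orderOf hd
  · rintro d ⟨a, b, hab, rfl⟩ e ⟨c, f, hcf, rfl⟩
    by_cases hca : c = a
    · subst hca
      by_cases hfb : f = b
      · subst hfb
        left; rw [Equiv.swap_mul_self]; exact one_pow 2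
      · right; exact cube c b f hab hcf (Ne.symm hfb)
    by_cases hfa : f = a
    · subst hfa
      by_cases hcb : c = b
      · subst hcb
        left; rw [Equiv.swap_comm c f, Equiv.swap_mul_self]; exact one_pow 2
      · right
        rw [Equiv.swap_comm c f]
        exact cube f b c hab (Ne.symm hcf) (Ne.symm hcb)
    by_cases hcb : c = b
    · subst hcb
      right
      rw [Equiv.swap_comm a c]
      exact cube c a f (Ne.symm hab) hcf (Ne.symm hfa)
    by_cases hfb : f = b
    · subst hfb
      right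
      rw [Equiv.swap_comm a f, Equiv.swap_comm c f]
      exact cube f a c (Ne.symm hab) (Ne.symm hcf) (Ne.symm hca)
    · left
      have hdis : Equiv.Perm.Disjoint (Equiv.swap a b) (Equiv.swap c f) := by
        apply Equiv.Perm.disjoint_swap_swap
        simp only [List.nodup_cons, List.mem_cons, List.not_mem_nil, or_false, not_or,
          List.nodup_nil, and_true, not_false_eq_true]
        exact ⟨⟨hab, Ne.symm hca, Ne.symm hfa⟩, ⟨Ne.symm hcb, Ne.symm hfb⟩, hcf⟩
      have hcomm := hdis.commute
      rw [pow_two]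
      calc Equiv.swap a b * Equiv.swap c f * (Equiv.swap a b * Equiv.swap c f)
          = Equiv.swap a b * (Equiv.swap c f * Equiv.swap a b) * Equiv.swap c f := by group
        _ = Equiv.swap a b * (Equiv.swap a b * Equiv.swap c f) * Equiv.swap c f := by rw [hcomm.eq]
        _ = (Equiv.swap a b * Equiv.swap a b) * (Equiv.swap c f * Equiv.swap c f) := by group
        _ = 1 := by rw [Equiv.swap_mul_self, Equiv.swap_mul_self, one_mul]
  · have h01 : (⟨0, by omega⟩ : Fin n) ≠ ⟨1, by omega⟩ := by
      intro h; exact absurd (Fin.mk.inj h) (by norm_num)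
    refine ⟨Equiv.swap ⟨0, by omega⟩ ⟨1, by omega⟩, ⟨_, _, h01, rfl⟩, ?_⟩
    ext σ
    show σ.IsSwap ↔ IsConj (Equiv.swap (⟨0, by omega⟩ : Fin n) ⟨1, by omega⟩) σ
    constructor
    · rintro ⟨a, b, hab, rfl⟩
      exact Equiv.Perm.isConj_swap h01 hab
    · intro h
      obtain ⟨τ, hτ⟩ := isConj_iff.mp h
      rw [← hτ, ← Equiv.swap_apply_apply]
      exact ⟨_, _, fun h => h01 (τ.injective h), rfl⟩
  · exact Equiv.Perm.closure_isSwap

end Cfsg.Agent.S0439
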