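import Cfsg.Statements.S0440
import Mathlib
import Cfsg.Agent.Lib_helper4_Sp
import Cfsg.Agent.Lib_helper4_SpPerfect

set_option autoImplicit false
open Cfsg

namespace Cfsg.Agent.S0440

open Matrix Cfsg.Agent.Lib_helper4_Sp Cfsg.Agent.Lib_helper4_SpPerfect

variable {n : ℕ}

theorem zmod2_eq_one (c : ZMod 2) (h : c ≠ 0) : c = 1 := by
  revert c; decide

theorem tv_sub_one (v x : Fin n ⊕ Fin n → ZMod 2) :
    (Cfsg.sympTransvection n v 1 - 1) *ᵥ x = Cfsg.sympForm n (ZMod 2) x v • v := by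
  rw [Matrix.sub_mulVec, tv_mulVec, Matrix.one_mulVec, one_mul, add_sub_cancel_left]

theorem rank_tv (v : Fin n ⊕ Fin n → ZMod 2) (hv : v ≠ 0) :
    (Cfsg.sympTransvection n v (1 : ZMod 2) - 1).rank = 1 := by
  apply le_antisymm
  · have h : Cfsg.sympTransvection n v (1 : ZMod 2) - 1
        = Matrix.vecMulVec v (Matrix.J (Fin n) (ZMod 2) *ᵥ v) := by
      unfold Cfsg.sympTransvection
      rw [one_smul, add_sub_cancel_left]
    rw [h]
    exact Matrix.rank_vecMulVec_le _ _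
  · rw [Nat.one_le_iff_ne_zero]
    intro h0
    have h1 : LinearMap.range (Cfsg.sympTransvection n v (1 : ZMod 2) - 1).mulVecLin = ⊥ :=
      Submodule.finrank_eq_zero.mp h0
    obtain ⟨z, hz⟩ := exists_form_ne_zero v hv
    have h2 : (Cfsg.sympTransvection n v (1 : ZMod 2) - 1) *ᵥ z = 0 := by
      have h3 : (Cfsg.sympTransvection n v (1 : ZMod 2) - 1).mulVecLin z
          ∈ LinearMap.range (Cfsg.sympTransvection n v (1 : ZMod 2) - 1).mulVecLin :=
        LinearMap.mem_range_self _ z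
      rw [h1, Submodule.mem_bot] at h3
      exact h3
    rw [tv_sub_one] at h2
    have h4 : Cfsg.sympForm n (ZMod 2) z v ≠ 0 := by
      rw [form_swap]; exact neg_ne_zero.mpr hz
    rw [zmod2_eq_one _ h4, one_smul] at h2
    exact hv h2

theorem exists_tv_of_rank (g : symplecticGroup (Fin n) (ZMod 2))
    (hg : ((g : Matrix (Fin n ⊕ Fin n) (Fin n ⊕ Fin n) (ZMod 2)) - 1).rank = 1) :
    ∃ v : Fin n ⊕ Fin n → ZMod 2, v ≠ 0 ∧ g = tv v 1 := by
  have h1 : Module.finrank (ZMod 2) (LinearMap.range (g.1 - 1).mulVecLin) = 1 := hg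
  obtain ⟨a', ha', hspan⟩ := finrank_eq_one_iff'.mp h1
  have ha : (a' : Fin n ⊕ Fin n → ZMod 2) ≠ 0 := fun h => ha' (Subtype.ext h)
  have hN : ∀ x, ∃ c : ZMod 2, (g.1 - 1) *ᵥ x = c • (a' : Fin n ⊕ Fin n → ZMod 2) := by
    intro x
    obtain ⟨c, hc⟩ := hspan ⟨_, LinearMap.mem_range_self ((g.1 - 1).mulVecLin) x⟩
    exact ⟨c, (congrArg Subtype.val hc).symm⟩
  have hgx : ∀ x, g.1 *ᵥ x = x + (g.1 - 1) *ᵥ x := by
    intro x
    rw [Matrix.sub_mulVec, Matrix.one_mulVec, add_sub_cancel]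
  obtain ⟨x0, hx0⟩ : ∃ x0, (g.1 - 1) *ᵥ x0 = (a' : Fin n ⊕ Fin n → ZMod 2) :=
    LinearMap.mem_range.mp a'.2
  have key : ∀ y (c : ZMod 2), (g.1 - 1) *ᵥ y = c • (a' : Fin n ⊕ Fin n → ZMod 2) →
      Cfsg.sympForm n (ZMod 2) y a' = c * Cfsg.sympForm n (ZMod 2) x0 a' := by
    intro y c hy
    have hp := form_mulVec_of_mem g.2 x0 y
    rw [hgx x0, hgx y, hx0, hy] at hp
    simp only [form_add_left, form_add_right, form_smul_right, form_self, mul_zero,
      add_zero] at hp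
    rw [form_swap (a' : Fin n ⊕ Fin n → ZMod 2) y] at hp
    linear_combination (-1 : ZMod 2) * hp
  have hl : Cfsg.sympForm n (ZMod 2) x0 a' ≠ 0 := by
    intro h0
    obtain ⟨z, hz⟩ := exists_form_ne_zero (a' : Fin n ⊕ Fin n → ZMod 2) ha
    obtain ⟨c, hc⟩ := hN z
    have h2 := key z c hc
    rw [h0, mul_zero] at h2
    apply hz
    rw [form_swap, h2, neg_zero]
  have hl1 := zmod2_eq_one _ hl
  refine ⟨a', ha, ?_⟩
  apply Subtype.ext
  apply matrix_ext_mulVec
  intro y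
  show g.1 *ᵥ y = Cfsg.sympTransvection n (a' : Fin n ⊕ Fin n → ZMod 2) 1 *ᵥ y
  obtain ⟨c, hc⟩ := hN y
  rw [hgx y, hc, tv_mulVec, one_mul, key y c hc, hl1, mul_one]

theorem tv_sq (v : Fin n ⊕ Fin n → ZMod 2) : tv v (1 : ZMod 2) * tv v 1 = 1 := by
  apply Subtype.ext
  show Cfsg.sympTransvection n v 1 * Cfsg.sympTransvection n v 1 = 1
  rw [tv_mul, show (1 : ZMod 2) + 1 = 0 from rfl, tv_zero]

theorem tv_conj (u v : Fin n ⊕ Fin n → ZMod 2) :
    tv u (1 : ZMod 2) * tv v 1 = tv (v + Cfsg.sympForm n (ZMod 2) v u • u) 1 * tv u 1 := by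
  apply Subtype.ext
  show Cfsg.sympTransvection n u 1 * Cfsg.sympTransvection n v 1
    = Cfsg.sympTransvection n (v + Cfsg.sympForm n (ZMod 2) v u • u) 1
      * Cfsg.sympTransvection n u 1
  rw [conj_tv (tv_mem u 1) v 1, tv_mulVec, one_mul]

theorem three (u v : Fin n ⊕ Fin n → ZMod 2) :
    (tv u (1 : ZMod 2) * tv v 1) ^ 2 = 1 ∨ (tv u (1 : ZMod 2) * tv v 1) ^ 3 = 1 := by
  by_cases h : Cfsg.sympForm n (ZMod 2) v u = 0
  · left
    have h1 := tv_conj u v
    rw [h, zero_smul, add_zero] at h1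
    rw [pow_two]
    calc tv u (1 : ZMod 2) * tv v 1 * (tv u 1 * tv v 1)
        = tv u 1 * (tv v 1 * tv u 1) * tv v 1 := by simp only [mul_assoc]
      _ = tv u 1 * (tv u 1 * tv v 1) * tv v 1 := by rw [h1]
      _ = (tv u 1 * tv u 1) * (tv v 1 * tv v 1) := by simp only [mul_assoc]
      _ = 1 := by rw [tv_sq, tv_sq, one_mul]
  · right
    have h1 := tv_conj u v
    have h2 := tv_conj v u
    have hvu := zmod2_eq_one _ h
    have huv : Cfsg.sympForm n (ZMod 2) u v = 1 := by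
      rw [form_swap, hvu]; rfl
    rw [hvu, one_smul] at h1
    rw [huv, one_smul, add_comm u v] at h2
    have e1 : tv u (1 : ZMod 2) * tv v 1 * tv u 1 = tv (v + u) 1 := by
      rw [h1, mul_assoc, tv_sq, mul_one]
    have e2 : tv v (1 : ZMod 2) * tv u 1 * tv v 1 = tv (v + u) 1 := by
      rw [h2, mul_assoc, tv_sq, mul_one]
    calc (tv u (1 : ZMod 2) * tv v 1) ^ 3
        = (tv u 1 * tv v 1 * tv u 1) * (tv v 1 * tv u 1 * tv v 1) := by
          simp only [pow_succ, pow_zero, one_mul, mul_assoc]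
      _ = 1 := by rw [e1, e2, tv_sq]

theorem main (n : ℕ) (hn : 1 ≤ n) : Cfsg.IsThreeTranspositionClass
    {g : Matrix.symplecticGroup (Fin n) (ZMod 2) |
      ((g : Matrix (Fin n ⊕ Fin n) (Fin n ⊕ Fin n) (ZMod 2)) - 1).rank = 1} := by
  have hD : ∀ g : symplecticGroup (Fin n) (ZMod 2),
      g ∈ {g : symplecticGroup (Fin n) (ZMod 2) |
        ((g : Matrix (Fin n ⊕ Fin n) (Fin n ⊕ Fin n) (ZMod 2)) - 1).rank = 1}
      ↔ ∃ v : Fin n ⊕ Fin n → ZMod 2, v ≠ 0 ∧ g = tv v 1 := by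
    intro g
    constructor
    · exact exists_tv_of_rank g
    · rintro ⟨v, hv, rfl⟩
      exact rank_tv v hv
  refine ⟨⟨?_, ?_⟩, ?_, ?_⟩
  · intro d hd
    obtain ⟨v, hv, rfl⟩ := (hD d).mp hd
    apply orderOf_eq_prime
    · rw [pow_two]; exact tv_sq v
    · intro h1
      have h3 := rank_tv v hv
      have h2 : Cfsg.sympTransvection n v (1 : ZMod 2) = 1 := congrArg Subtype.val h1
      rw [h2, sub_self, Matrix.rank_zero] at h3
      exact absurd h3 (by norm_num)
  · intro d hd e he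
    obtain ⟨u, hu, rfl⟩ := (hD d).mp hd
    obtain ⟨v, hv, rfl⟩ := (hD e).mp he
    exact three u v
  · have he0 : (eb ⟨0, hn⟩ : Fin n ⊕ Fin n → ZMod 2) ≠ 0 := eb_ne_zero _
    refine ⟨tv (eb ⟨0, hn⟩) 1, (hD _).mpr ⟨_, he0, rfl⟩, ?_⟩
    ext g
    rw [hD]
    show _ ↔ IsConj _ g
    rw [isConj_iff]
    constructor
    · rintro ⟨v, hv, rfl⟩
      obtain ⟨A, -, hA⟩ := exists_closure_map (k := n) (eb ⟨0, hn⟩) v (supp_top _) (supp_top v)
        he0 hv
      refine ⟨A, ?_⟩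
      rw [mul_inv_eq_iff_eq_mul]
      apply Subtype.ext
      show A.1 * Cfsg.sympTransvection n (eb ⟨0, hn⟩) 1 = Cfsg.sympTransvection n v 1 * A.1
      rw [conj_tv A.2 _ 1, hA]
    · rintro ⟨A, rfl⟩
      refine ⟨A.1 *ᵥ eb ⟨0, hn⟩, ?_, ?_⟩
      · intro h0
        apply he0
        have h5 : (A⁻¹ * A).1 *ᵥ (eb ⟨0, hn⟩ : Fin n ⊕ Fin n → ZMod 2) = eb ⟨0, hn⟩ := by
          rw [inv_mul_cancel]
          exact Matrix.one_mulVec _
        rw [Submonoid.coe_mul, ← Matrix.mulVec_mulVec, h0, Matrix.mulVec_zero] at h5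
        exact h5.symm
      · rw [mul_inv_eq_iff_eq_mul]
        apply Subtype.ext
        show A.1 * Cfsg.sympTransvection n (eb ⟨0, hn⟩) 1
          = Cfsg.sympTransvection n (A.1 *ᵥ eb ⟨0, hn⟩) 1 * A.1
        exact conj_tv A.2 _ 1
  · rw [eq_top_iff, ← closure_TS_eq_top]
    apply (Subgroup.closure_le _).mpr
    rintro A ⟨w, c, hA⟩
    by_cases hc : c = 0
    · have h1 : A = 1 := by
        apply Subtype.ext
        rw [hA, hc, tv_zero]
        rfl
      rw [h1]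
      exact one_mem _
    · have hc1 := zmod2_eq_one c hc
      by_cases hw : w = 0
      · have h1 : A = 1 := by
          apply Subtype.ext
          rw [hA, hw]
          unfold Cfsg.sympTransvection
          simp
        rw [h1]
        exact one_mem _
      · apply Subgroup.subset_closure
        apply (hD A).mpr
        exact ⟨w, hw, Subtype.ext (by rw [hA, hc1]; rfl)⟩


/-- In the symplectic group in dimension 2n ≥ 2 over the field with two elements, the elements g for which g - 1 has rank one (the symplectic transvections) form a conjugacy class of 3-transpositions generating the group. -/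
theorem result (n : ℕ) (hn : 1 ≤ n) : Cfsg.IsThreeTranspositionClass {g : Matrix.symplecticGroup (Fin n) (ZMod 2) | ((g : Matrix (Fin n ⊕ Fin n) (Fin n ⊕ Fin n) (ZMod 2)) - 1).rank = 1} := by
  exact main n hn

end Cfsg.Agent.S0440
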