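import Cfsg.Statements.S0442
import Mathlib

set_option autoImplicit false
open Cfsg

namespace Cfsg.Agent.S0442

/-- A standard trick for producing elements of an involution centraliser: for an involution a and an element g, let b be the conjugate g⁻¹ * a * g. If a * b has odd order 2m + 1 then g * (a * b) ^ m commutes with a; if a * b has even order 2m then (a * b) ^ m and (a * (g * a * g⁻¹)) ^ m commute with a. -/
theorem result {G : Type*} [Group G] (a g : G) (ha : orderOf a = 2) : (∀ m : ℕ, orderOf (a * (g⁻¹ * a * g)) = 2 * m + 1 → Commute (g * (a * (g⁻¹ * a * g)) ^ m) a) ∧ (∀ m : ℕ, orderOf (a * (g⁻¹ * a * g)) = 2 * m → Commute ((a * (g⁻¹ * a * g)) ^ m) a ∧ Commute ((a * (g * a * g⁻¹)) ^ m) a) := by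
  have ha2 : a * a = 1 := by rw [← pow_two, ← ha]; exact pow_orderOf_eq_one a
  have hainv : a⁻¹ = a := inv_eq_of_mul_eq_one_right ha2
  -- general facts for an involution a and a conjugate c
  have key : ∀ c : G, c * c = 1 → ∀ k : ℕ, a * (a * c) ^ k * a⁻¹ = ((a * c) ^ k)⁻¹ := by
    intro c hc k
    have hcinv : c⁻¹ = c := inv_eq_of_mul_eq_one_right hc
    have h1 : a * (a * c) * a⁻¹ = (a * c)⁻¹ := by
      rw [mul_inv_rev, hcinv, hainv, ← mul_assoc, ha2, one_mul]
    rw [← conj_pow, h1, inv_pow]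
  have hb2 : (g⁻¹ * a * g) * (g⁻¹ * a * g) = 1 := by
    calc (g⁻¹ * a * g) * (g⁻¹ * a * g) = g⁻¹ * (a * a) * g := by group
      _ = 1 := by rw [ha2]; group
  have hc2 : (g * a * g⁻¹) * (g * a * g⁻¹) = 1 := by
    calc (g * a * g⁻¹) * (g * a * g⁻¹) = g * (a * a) * g⁻¹ := by group
      _ = 1 := by rw [ha2]; group
  have comm_of : ∀ c : G, c * c = 1 → ∀ m : ℕ, (a * c) ^ (2 * m) = 1 → Commute ((a * c) ^ m) a := by
    intro c hc m hm
    have h1 := key c hc m
    have h2 : ((a * c) ^ m)⁻¹ = (a * c) ^ m := by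
      apply inv_eq_of_mul_eq_one_right
      rw [← pow_add, ← two_mul]; exact hm
    rw [h2] at h1
    -- a * y * a⁻¹ = y
    have h3 : a * (a * c) ^ m = (a * c) ^ m * a := by
      have h4 := congrArg (· * a) h1
      simpa [mul_assoc] using h4
    exact h3.symm
  refine ⟨?_, ?_⟩
  · intro m hm
    have hx : (a * (g⁻¹ * a * g)) ^ (2 * m + 1) = 1 := by rw [← hm]; exact pow_orderOf_eq_one _
    have h1 := key (g⁻¹ * a * g) hb2 m
    -- x^m * a = b * x^m where b = a * x
    have h2 : (a * (g⁻¹ * a * g)) ^ m * a = (g⁻¹ * a * g) * (a * (g⁻¹ * a * g)) ^ m := by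
      have h3 : ((a * (g⁻¹ * a * g)) ^ m)⁻¹ = (a * (g⁻¹ * a * g)) ^ (m + 1) := by
        apply inv_eq_of_mul_eq_one_right
        rw [← pow_add]
        have : m + (m + 1) = 2 * m + 1 := by ring
        rw [this]; exact hx
      rw [h3] at h1
      -- h1 : a * x^m * a⁻¹ = x^(m+1) = a * b * x^m
      have h4 : a * ((a * (g⁻¹ * a * g)) ^ m * a) = a * ((g⁻¹ * a * g) * (a * (g⁻¹ * a * g)) ^ m) := by
        rw [← mul_assoc, ← mul_assoc a (g⁻¹ * a * g), ← pow_succ', ← h1, hainv]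
      exact mul_left_cancel h4
    show g * (a * (g⁻¹ * a * g)) ^ m * a = a * (g * (a * (g⁻¹ * a * g)) ^ m)
    rw [mul_assoc, h2]
    group
  · intro m hm
    have hx : (a * (g⁻¹ * a * g)) ^ (2 * m) = 1 := by rw [← hm]; exact pow_orderOf_eq_one _
    refine ⟨comm_of _ hb2 m hx, comm_of _ hc2 m ?_⟩
    -- (a * (g a g⁻¹)) is the inverse of a conjugate of a * b
    have h1 : a * (g * a * g⁻¹) = (g * (a * (g⁻¹ * a * g)) * g⁻¹)⁻¹ := by
      have e : (g * (a * (g⁻¹ * a * g)) * g⁻¹)⁻¹ = a⁻¹ * (g * a⁻¹ * g⁻¹) := by group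
      rw [e, hainv]
    rw [h1, inv_pow, conj_pow, hx]
    group

end Cfsg.Agent.S0442
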