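import Cfsg.Statements.S0443
-- import your own Cfsg.Agent.* helpers here

set_option autoImplicit false
open Cfsg

namespace Cfsg.Agent.S0443

/-- Two definitions of a 2-central involution agree: an element t of order 2 of a finite group lies in the centre of some Sylow 2-subgroup if and only if its centraliser contains some Sylow 2-subgroup. -/
theorem result {G : Type*} [Group G] [Finite G] (t : G) (ht : orderOf t = 2) : Cfsg.IsTwoCentralInvolution t ↔ ∃ P : Sylow 2 G, (P : Subgroup G) ≤ Subgroup.centralizer ({t} : Set G) := by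
  constructor
  · rintro ⟨-, P, -, hP⟩
    refine ⟨P, fun x hx => ?_⟩
    rw [Subgroup.mem_centralizer_singleton_iff]
    exact hP x hx
  · rintro ⟨P, hP⟩
    have hcomm : ∀ x ∈ (P : Subgroup G), x * t = t * x := fun x hx => by
      have h1 := hP hx
      rwa [Subgroup.mem_centralizer_singleton_iff] at h1
    refine ⟨ht, P, ?_, hcomm⟩
    haveI : Fact (Nat.Prime 2) := ⟨Nat.prime_two⟩
    have hK : IsPGroup 2 (Subgroup.zpowers t) := by
      apply IsPGroup.of_card (n := 1)
      rw [Nat.card_zpowers, ht]; rfl
    have key : ∀ x : G, x * t = t * x → ∀ y ∈ Subgroup.zpowers t, x * y * x⁻¹ = y := by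
      intro x hx y hy
      obtain ⟨k, rfl⟩ := Subgroup.mem_zpowers_iff.1 hy
      have hc : Commute x (t ^ k) := Commute.zpow_right hx k
      rw [hc.eq]; group
    have hnorm : (P : Subgroup G) ≤ Subgroup.normalizer (Subgroup.zpowers t : Set G) := by
      intro x hx
      rw [Subgroup.mem_normalizer_iff]
      intro h
      constructor
      · intro hh; rw [key x (hcomm x hx) h hh]; exact hh
      · intro hh
        have hx' : x⁻¹ * t = t * x⁻¹ := by
          have h0 := hcomm x hx
          calc x⁻¹ * t = x⁻¹ * (t * x) * x⁻¹ := by group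
            _ = x⁻¹ * (x * t) * x⁻¹ := by rw [h0]
            _ = t * x⁻¹ := by group
        have h1 := key x⁻¹ hx' _ hh
        have h2 : x⁻¹ * (x * h * x⁻¹) * x⁻¹⁻¹ = h := by group
        rw [h2] at h1
        rw [h1]; exact hh
    have hsup : IsPGroup 2 (↑((P : Subgroup G) ⊔ Subgroup.zpowers t) : Subgroup G) :=
      IsPGroup.to_sup_of_normal_right' P.isPGroup' hK hnorm
    have heq := P.is_maximal' hsup le_sup_left
    have : t ∈ (P : Subgroup G) ⊔ Subgroup.zpowers t :=
      (le_sup_right : Subgroup.zpowers t ≤ _) (Subgroup.mem_zpowers t)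
    rw [heq] at this
    exact this

end Cfsg.Agent.S0443
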