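import Cfsg.Statements.S0444
import Mathlib
import Cfsg.Agent.Lib_helper2_Dihedral

set_option autoImplicit false
open Cfsg

namespace Cfsg.Agent.S0444

/-- the action of the dihedral group of order 6 on `ZMod 3` -/
def d3Fun : DihedralGroup 3 → Equiv.Perm (ZMod 3)
  | DihedralGroup.r i => ⟨fun x => x + i, fun x => x - i, by decide +revert, by decide +revert⟩
  | DihedralGroup.sr i => ⟨fun x => -x - i, fun x => -x - i, by decide +revert, by decide +revert⟩

theorem d3Fun_mul : ∀ a b : DihedralGroup 3, d3Fun (a * b) = d3Fun a * d3Fun b := by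
  decide

theorem d3Fun_inj : Function.Injective d3Fun := by
  unfold Function.Injective
  decide

theorem d3_equiv : Nonempty (DihedralGroup 3 ≃* Equiv.Perm (Fin 3)) := by
  have hbij : Function.Bijective d3Fun := by
    rw [Fintype.bijective_iff_injective_and_card]
    refine ⟨d3Fun_inj, ?_⟩
    rw [Fintype.card_perm, ZMod.card]
    have := DihedralGroup.card (n := 3)
    rw [this]
    rfl
  exact ⟨MulEquiv.ofBijective (MonoidHom.mk' d3Fun d3Fun_mul) hbij⟩

/-- Two members of a set of 3-transpositions which do not commute generate a subgroup isomorphic to the symmetric group on three letters. -/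
theorem result {G : Type*} [Group G] {E : Set G} (hE : Cfsg.IsThreeTranspositionSet E) {d e : G} (hd : d ∈ E) (he : e ∈ E) (h : ¬ Commute d e) : Nonempty (Subgroup.closure ({d, e} : Set G) ≃* Equiv.Perm (Fin 3)) := by
  obtain ⟨hord, hprod⟩ := hE
  have hd2 := Cfsg.Agent.Lib_helper2_Dihedral.sq_eq_one_of_orderOf_two (hord d hd)
  have he2 := Cfsg.Agent.Lib_helper2_Dihedral.sq_eq_one_of_orderOf_two (hord e he)
  have hdinv := Cfsg.Agent.Lib_helper2_Dihedral.inv_eq_self_of_orderOf_two (hord d hd)
  have heinv := Cfsg.Agent.Lib_helper2_Dihedral.inv_eq_self_of_orderOf_two (hord e he)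
  have hne : d ≠ e := by
    rintro rfl
    exact h (Commute.refl d)
  have h2 : (d * e) ^ 2 ≠ 1 := by
    intro h2
    apply h
    have h3 : d * e = (d * e)⁻¹ := by
      apply eq_inv_of_mul_eq_one_left
      rw [← pow_two]; exact h2
    rw [mul_inv_rev, hdinv, heinv] at h3
    exact h3
  have h3 : (d * e) ^ 3 = 1 := (hprod d hd e he).resolve_left h2
  have h1 : d * e ≠ 1 := by
    intro h1
    apply hne
    have := eq_inv_of_mul_eq_one_left h1
    rw [heinv] at this
    exact this
  have hord3 : orderOf (d * e) = 3 := orderOf_eq_prime h3 h1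
  have hnot := Cfsg.Agent.Lib_helper2_Dihedral.not_mem_zpowers_of_ne (hord d hd) (hord e he) hne
  have key : ∀ (n : ℕ), orderOf (d * e) = n →
      Nonempty (Subgroup.closure ({d, e} : Set G) ≃* DihedralGroup n) := by
    intro n hn
    subst hn
    have hinj := Cfsg.Agent.Lib_helper2_Dihedral.dihHom_injective d (d * e) hd2
      (Cfsg.Agent.Lib_helper2_Dihedral.inv_conj_mul hd2 he2) hnot
    have hrange := Cfsg.Agent.Lib_helper2_Dihedral.dihHom_range d (d * e) hd2
      (Cfsg.Agent.Lib_helper2_Dihedral.inv_conj_mul hd2 he2)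
    rw [← Cfsg.Agent.Lib_helper2_Dihedral.closure_pair_eq hd2] at hrange
    rw [← hrange]
    exact ⟨(MonoidHom.ofInjective hinj).symm⟩
  obtain ⟨e1⟩ := key 3 hord3
  obtain ⟨e2⟩ := d3_equiv
  exact ⟨e1.trans e2⟩

end Cfsg.Agent.S0444
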