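import Cfsg.Statements.S0446
-- import your own Cfsg.Agent.* helpers here

set_option autoImplicit false
open Cfsg

namespace Cfsg.Agent.S0446

/-- Every finite group of even order contains a 2-central involution, i.e. an element of order 2 in the centre of some Sylow 2-subgroup. -/
theorem result {G : Type*} [Group G] [Finite G] (h : Even (Nat.card G)) : ∃ t : G, Cfsg.IsTwoCentralInvolution t := by
  haveI : Fact (Nat.Prime 2) := ⟨Nat.prime_two⟩
  obtain ⟨P⟩ : Nonempty (Sylow 2 G) := inferInstance
  have h2 : 2 ∣ Nat.card G := even_iff_two_dvd.1 h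
  have hP : 2 ∣ Nat.card P := P.dvd_card_of_dvd_card h2
  haveI : Nontrivial P := by
    rw [← Finite.one_lt_card_iff_nontrivial]
    exact lt_of_lt_of_le one_lt_two (Nat.le_of_dvd Nat.card_pos hP)
  have hPg : IsPGroup 2 P := P.isPGroup'
  haveI hnt : Nontrivial (Subgroup.center P) := hPg.center_nontrivial
  obtain ⟨n, hn⟩ := (IsPGroup.iff_card).1 (hPg.to_subgroup (Subgroup.center P))
  have hn0 : n ≠ 0 := by
    rintro rfl
    have h1 : Nat.card (Subgroup.center P) = 1 := by simpa using hn
    have h3 := Finite.one_lt_card_iff_nontrivial.2 hnt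
    omega
  have h2c : 2 ∣ Nat.card (Subgroup.center P) := by rw [hn]; exact dvd_pow_self 2 hn0
  obtain ⟨z, hz⟩ := exists_prime_orderOf_dvd_card' 2 h2c
  refine ⟨((z : P) : G), ?_, P, (z : P).2, fun x hx => ?_⟩
  · rw [Subgroup.orderOf_coe, Subgroup.orderOf_coe, hz]
  · have h4 := Subgroup.mem_center_iff.1 z.2 ⟨x, hx⟩
    exact congrArg Subtype.val h4

end Cfsg.Agent.S0446
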