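import Cfsg.Statements.S0481
-- import your own Cfsg.Agent.* helpers here

set_option autoImplicit false
open Cfsg

namespace Cfsg.Agent.S0481

/-- Large extraspecial subgroups: let z be an involution of a finite group G whose centraliser C contains a normal 2-subgroup Q with centre of order 2 and all squares central, such that every element of G centralising Q lies in Q. Then C contains a Sylow 2-subgroup of G, and any involution of G whose centraliser contains a Sylow 2-subgroup of G is conjugate to z. -/
theorem result {G : Type*} [Group G] [Finite G] (z : G) (hz : orderOf z = 2) (Q : Subgroup G) (hQC : Q ≤ Subgroup.centralizer ({z} : Set G)) (hQn : ∀ g ∈ Subgroup.centralizer ({z} : Set G), ∀ q ∈ Q, g * q * g⁻¹ ∈ Q) (hQ2 : IsPGroup 2 Q) (hZ : Nat.card (Subgroup.center Q) = 2) (hsq : ∀ x : Q, x ^ 2 ∈ Subgroup.center Q) (hlarge : Subgroup.centralizer (Q : Set G) ≤ Q) : (∃ P : Sylow 2 G, (P : Subgroup G) ≤ Subgroup.centralizer ({z} : Set G)) ∧ ∀ u : G, orderOf u = 2 → (∃ P : Sylow 2 G, (P : Subgroup G) ≤ Subgroup.centralizer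 ({u} : Set G)) → IsConj z u := by
  classical
  haveI : Fact (Nat.Prime 2) := ⟨Nat.prime_two⟩
  have hz1 : z ≠ 1 := by
    intro h
    rw [h, orderOf_one] at hz
    omega
  have hz2 : z * z = 1 := by
    have h := pow_orderOf_eq_one z
    rwa [hz, pow_two] at h
  -- z lies in Q
  have hzQ : z ∈ Q := by
    apply hlarge
    rw [Subgroup.mem_centralizer_iff]
    intro q hq
    have h1 := Subgroup.mem_centralizer_iff.mp (hQC hq) z (Set.mem_singleton z)
    exact h1.symm
  have hzc : (⟨z, hzQ⟩ : Q) ∈ Subgroup.center Q := by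
    rw [Subgroup.mem_center_iff]
    intro q
    apply Subtype.ext
    have h1 := Subgroup.mem_centralizer_iff.mp (hQC q.2) z (Set.mem_singleton z)
    exact h1.symm
  -- the elements centralizing Q are 1 and z
  have key : ∀ w : G, (∀ q ∈ Q, q * w = w * q) → w = 1 ∨ w = z := by
    intro w hw
    have hwQ : w ∈ Q := hlarge (Subgroup.mem_centralizer_iff.mpr hw)
    have hwc : (⟨w, hwQ⟩ : Q) ∈ Subgroup.center Q := by
      rw [Subgroup.mem_center_iff]
      intro q
      exact Subtype.ext (hw q q.2)
    have hne : (⟨⟨z, hzQ⟩, hzc⟩ : Subgroup.center Q) ≠ 1 := by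
      intro h
      apply hz1
      have h2 := congrArg (fun t : Subgroup.center Q => ((t : Q) : G)) h
      exact h2
    have hmem := mem_zpowers_of_prime_card hZ (g' := (⟨⟨w, hwQ⟩, hwc⟩ : Subgroup.center Q)) hne
    obtain ⟨k, hk⟩ := Subgroup.mem_zpowers_iff.mp hmem
    have hk' : z ^ k = w := by
      have h2 := congrArg (fun t : Subgroup.center Q => ((t : Q) : G)) hk
      simpa using h2
    rcases Int.emod_two_eq_zero_or_one k with h0 | h1
    · left
      obtain ⟨m, rfl⟩ : ∃ m, k = 2 * m := ⟨k / 2, by omega⟩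
      rw [← hk', zpow_mul, zpow_two, hz2, one_zpow]
    · right
      obtain ⟨m, rfl⟩ : ∃ m, k = 2 * m + 1 := ⟨k / 2, by omega⟩
      rw [← hk', zpow_add, zpow_mul, zpow_two, hz2, one_zpow, one_mul, zpow_one]
  obtain ⟨P, hQP⟩ := hQ2.exists_le_sylow
  -- the centre of P is generated by z
  have hzP : z ∈ (P : Subgroup G) := hQP hzQ
  have hcen : ∀ y ∈ (P : Subgroup G), y * z = z * y := by
    haveI : Nontrivial (P : Subgroup G) := ⟨⟨⟨z, hzP⟩, 1, fun h => hz1 (congrArg Subtype.val h)⟩⟩
    haveI := IsPGroup.center_nontrivial P.isPGroup'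
    obtain ⟨c, hc⟩ := exists_ne (1 : Subgroup.center (P : Subgroup G))
    have hc1 : ((c : (P : Subgroup G)) : G) ≠ 1 := by
      intro h
      exact hc (Subtype.ext (Subtype.ext h))
    have hcc : ∀ y ∈ (P : Subgroup G), y * ((c : (P : Subgroup G)) : G) = ((c : (P : Subgroup G)) : G) * y := by
      intro y hy
      have h1 := Subgroup.mem_center_iff.mp c.2 ⟨y, hy⟩
      exact congrArg Subtype.val h1
    rcases key _ (fun q hq => hcc q (hQP hq)) with h | h
    · exact absurd h hc1
    · intro y hy
      rw [← h]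
      exact hcc y hy
  refine ⟨⟨P, ?_⟩, ?_⟩
  · intro y hy
    rw [Subgroup.mem_centralizer_iff]
    intro x hx
    rw [Set.mem_singleton_iff] at hx
    rw [hx]
    exact (hcen y hy).symm
  · intro u hu ⟨P', hP'⟩
    have hu1 : u ≠ 1 := by
      intro h
      rw [h, orderOf_one] at hu
      omega
    have hcu : ∀ y ∈ (P' : Subgroup G), u * y = y * u := by
      intro y hy
      exact Subgroup.mem_centralizer_iff.mp (hP' hy) u (Set.mem_singleton u)
    -- u lies in P'
    have huP' : u ∈ (P' : Subgroup G) := by
      have hpu : IsPGroup 2 (Subgroup.zpowers u) := by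
        apply IsPGroup.of_card (n := 1)
        rw [Nat.card_zpowers, hu, pow_one]
      have hnorm : Subgroup.zpowers u ≤ Subgroup.normalizer ((P' : Subgroup G) : Set G) := by
        rw [Subgroup.zpowers_le]
        rw [Subgroup.mem_normalizer_iff]
        intro y
        constructor
        · intro hy
          have h1 : u * y * u⁻¹ = y := by rw [hcu y hy, mul_inv_cancel_right]
          rw [h1]
          exact hy
        · intro hy
          have h3 := hcu _ hy
          have h4 : y = u * y * u⁻¹ := by
            calc y = u⁻¹ * ((u * y * u⁻¹) * u) := by group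
              _ = u⁻¹ * (u * (u * y * u⁻¹)) := by rw [h3]
              _ = u * y * u⁻¹ := by group
          rw [h4]
          exact hy
      have hsup := IsPGroup.to_sup_of_normal_left' P'.isPGroup' hpu hnorm
      have hmax := P'.is_maximal' hsup le_sup_left
      have : u ∈ (P' : Subgroup G) ⊔ Subgroup.zpowers u :=
        (le_sup_right : Subgroup.zpowers u ≤ _) (Subgroup.mem_zpowers u)
      rw [hmax] at this
      exact this
    obtain ⟨g, hg⟩ := MulAction.exists_smul_eq G P P'
    have hsub : ∀ y : G, y ∈ (P' : Subgroup G) ↔ g⁻¹ * y * g ∈ (P : Subgroup G) := by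
      intro y
      rw [← hg, Sylow.coe_subgroup_smul, Subgroup.mem_pointwise_smul_iff_inv_smul_mem,
        MulAut.smul_def, ← map_inv, MulAut.conj_apply, inv_inv]
    have hw : ∀ q ∈ Q, q * (g⁻¹ * u * g) = (g⁻¹ * u * g) * q := by
      intro q hq
      have hqP' : g * q * g⁻¹ ∈ (P' : Subgroup G) := by
        rw [hsub]
        have e : g⁻¹ * (g * q * g⁻¹) * g = q := by group
        rw [e]
        exact hQP hq
      have h1 := hcu _ hqP'
      calc q * (g⁻¹ * u * g) = g⁻¹ * ((g * q * g⁻¹) * u) * g := by group
        _ = g⁻¹ * (u * (g * q * g⁻¹)) * g := by rw [h1]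
        _ = (g⁻¹ * u * g) * q := by group
    rw [isConj_iff]
    refine ⟨g, ?_⟩
    rcases key _ hw with h | h
    · exfalso
      apply hu1
      calc u = g * (g⁻¹ * u * g) * g⁻¹ := by group
        _ = 1 := by rw [h]; group
    · rw [← h]
      group

end Cfsg.Agent.S0481
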