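import Cfsg.Statements.S0499
import Cfsg.Agent.Lib_helper1_Frobenius
import Cfsg.Agent.Lib_helper1_SZConj

set_option autoImplicit false
open Cfsg

namespace Cfsg.Agent.S0499

open scoped Pointwise

theorem arith : ∀ a ∈ ({1, 2, 4, 8} : Finset ℕ), ∀ b ∈ Finset.range 8, ∀ r ∈ Finset.range 8,
    b ∣ a → b < a → r.Prime → r ≠ 2 → r ∣ a - b → (r = 3 ∧ 4 ∣ a) ∨ (r = 7 ∧ a = 8) := by
  decide

theorem mem_of_two_pows {G : Type*} [Group G] (K : Subgroup G) (g : G) (u v : ℕ)
    (hc : u.Coprime v) (hu : g ^ u ∈ K) (hv : g ^ v ∈ K) : g ∈ K := by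
  have h1 : (u : ℤ) * Nat.gcdA u v + (v : ℤ) * Nat.gcdB u v = 1 := by
    have := Nat.gcd_eq_gcd_ab u v
    rw [hc.gcd_eq_one] at this
    exact_mod_cast this.symm
  have h2 : g = (g ^ u) ^ (Nat.gcdA u v) * (g ^ v) ^ (Nat.gcdB u v) := by
    rw [← zpow_natCast g u, ← zpow_natCast g v, ← zpow_mul, ← zpow_mul, ← zpow_add, h1, zpow_one]
  rw [h2]
  exact K.mul_mem (K.zpow_mem hu _) (K.zpow_mem hv _)

theorem pp_case {G : Type*} [Group G] [Finite G] (h16 : ¬ 16 ∣ Nat.card G)
    (Q : Subgroup G) (hQ : IsPGroup 2 Q) (g : G) (hg : g ∈ Subgroup.normalizer (Q : Set G))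
    (r k : ℕ) (hr : r.Prime) (hr2 : r ≠ 2) (ho : orderOf g = r ^ k)
    (hgc : g ∉ Subgroup.centralizer (Q : Set G)) :
    (r = 3 ∧ 4 ∣ Nat.card Q) ∨ (r = 7 ∧ Nat.card Q = 8) := by
  haveI : Fact r.Prime := ⟨hr⟩
  haveI : Fact (Nat.Prime 2) := ⟨Nat.prime_two⟩
  obtain ⟨R, hRdef⟩ : ∃ R : Subgroup G, R = Subgroup.zpowers g := ⟨_, rfl⟩
  have hRN : R ≤ Subgroup.normalizer (Q : Set G) := by
    rw [hRdef]; exact Subgroup.zpowers_le.mpr hg
  have hRp : IsPGroup r R := by
    apply IsPGroup.of_card (n := k)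
    rw [hRdef, Nat.card_zpowers, ho]
  letI : SMul R Q := ⟨fun x q => ⟨(x : G) * (q : G) * (x : G)⁻¹,
        ((Subgroup.mem_normalizer_iff).mp (hRN x.2) (q : G)).mp q.2⟩⟩
  have hsm : ∀ (x : R) (q : Q), ((x • q : Q) : G) = (x : G) * (q : G) * (x : G)⁻¹ :=
    fun x q => rfl
  letI : MulAction R Q :=
    { one_smul := fun q => Subtype.ext (by rw [hsm]; simp)
      mul_smul := fun x y q => Subtype.ext (by rw [hsm, hsm, hsm]; simp [mul_assoc]) }
  have hmod := hRp.card_modEq_card_fixedPoints Q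
  obtain ⟨F, hFdef⟩ : ∃ F : Subgroup Q,
      F = (Subgroup.centralizer ({g} : Set G)).subgroupOf Q := ⟨_, rfl⟩
  have hfix : MulAction.fixedPoints R Q = (F : Set Q) := by
    ext q
    rw [MulAction.mem_fixedPoints, SetLike.mem_coe, hFdef, Subgroup.mem_subgroupOf,
      Subgroup.mem_centralizer_singleton_iff]
    constructor
    · intro h
      have h1 := h ⟨g, by rw [hRdef]; exact Subgroup.mem_zpowers g⟩
      have h2 : g * (q : G) * g⁻¹ = q := by
        have := congrArg Subtype.val h1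
        rw [hsm] at this
        exact this
      calc (q : G) * g = (g * (q : G) * g⁻¹) * g := by rw [h2]
        _ = g * q := by group
    · intro h x
      apply Subtype.ext
      rw [hsm]
      have hx : (x : G) ∈ Subgroup.centralizer ({(q : G)} : Set G) := by
        have h3 : Subgroup.zpowers g ≤ Subgroup.centralizer ({(q : G)} : Set G) := by
          rw [Subgroup.zpowers_le, Subgroup.mem_centralizer_singleton_iff]
          exact h.symm
        exact h3 (hRdef ▸ x.2)
      rw [Subgroup.mem_centralizer_singleton_iff] at hx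
      rw [hx]; group
  rw [hfix] at hmod
  have hmod' : Nat.card Q ≡ Nat.card F [MOD r] := hmod
  have hFne : F ≠ ⊤ := by
    intro h
    apply hgc
    rw [Subgroup.mem_centralizer_iff]
    intro q hq
    have h4 : (⟨q, hq⟩ : Q) ∈ F := by rw [h]; exact Subgroup.mem_top _
    rw [hFdef, Subgroup.mem_subgroupOf, Subgroup.mem_centralizer_singleton_iff] at h4
    exact h4
  have hFlt : Nat.card F < Nat.card Q := Cfsg.Agent.Lib_helper1_SZConj.card_lt_of_ne_top F hFne
  have hFd : Nat.card F ∣ Nat.card Q := Subgroup.card_subgroup_dvd_card F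
  obtain ⟨j, hj⟩ := (IsPGroup.iff_card).mp hQ
  have hQd : Nat.card Q ∣ Nat.card G := Subgroup.card_subgroup_dvd_card Q
  have hj4 : j < 4 := by
    by_contra hcon
    apply h16
    rw [hj] at hQd
    exact (pow_dvd_pow 2 (by omega : 4 ≤ j)).trans hQd
  have hamem : Nat.card Q ∈ ({1, 2, 4, 8} : Finset ℕ) := by
    rw [hj]
    interval_cases j <;> simp
  have hrd : r ∣ Nat.card Q - Nat.card F := (Nat.modEq_iff_dvd' hFlt.le).mp hmod'.symm
  have hQ8 : Nat.card Q ≤ 8 := by
    rw [hj]; interval_cases j <;> norm_num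
  have hFpos : 0 < Nat.card F := Nat.card_pos
  have hr8 : r < 8 := by
    have h1 := Nat.le_of_dvd (by omega) hrd
    omega
  exact arith _ hamem _ (Finset.mem_range.mpr (by omega)) _ (Finset.mem_range.mpr hr8)
    hFd hFlt hr hr2 hrd

theorem frobHyp_of {G : Type*} [Group G] [Finite G] (h12 : ¬ 12 ∣ Nat.card G)
    (h16 : ¬ 16 ∣ Nat.card G) (h56 : ¬ 56 ∣ Nat.card G) :
    Cfsg.Agent.Lib_helper1_Frobenius.FrobHyp 2 G := by
  intro Q hQ
  have key : ∀ n : ℕ, ∀ g : G, orderOf g = n → g ∈ Subgroup.normalizer (Q : Set G) →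
      (orderOf g).Coprime 2 → g ∈ Subgroup.centralizer (Q : Set G) := by
    intro n
    induction n using Nat.strong_induction_on with
    | _ n IH =>
    intro g hgn hgN hcop
    by_cases hn1 : n = 1
    · have h1 : g = 1 := orderOf_eq_one_iff.mp (hgn.trans hn1)
      rw [h1]; exact Subgroup.one_mem _
    obtain ⟨r, hr, hrd⟩ := Nat.exists_prime_and_dvd hn1
    have hn0 : n ≠ 0 := by rw [← hgn]; exact (orderOf_pos g).ne'
    obtain ⟨a, m, hrm, hnam⟩ := Nat.exists_eq_pow_mul_and_not_dvd hn0 r hr.ne_one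
    have hr2 : r ≠ 2 := by
      rintro rfl
      rw [hgn] at hcop
      exact Nat.not_coprime_of_dvd_of_dvd (by norm_num) hrd (dvd_refl 2) hcop
    have ha0 : a ≠ 0 := by
      rintro rfl
      rw [pow_zero, one_mul] at hnam
      rw [hnam] at hrd
      exact hrm hrd
    by_cases hm1 : m = 1
    · by_contra hgc
      have ho : orderOf g = r ^ a := by rw [hgn, hnam, hm1, mul_one]
      have hrG : r ∣ Nat.card G := by
        have h1 : r ∣ orderOf g := by rw [ho]; exact dvd_pow_self r ha0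
        exact h1.trans (orderOf_dvd_natCard g)
      have hQd : Nat.card Q ∣ Nat.card G := Subgroup.card_subgroup_dvd_card Q
      rcases pp_case h16 Q hQ g hgN r a hr hr2 ho hgc with ⟨h3, h4⟩ | ⟨h7, h8⟩
      · apply h12
        subst h3
        exact Nat.Coprime.mul_dvd_of_dvd_of_dvd (by norm_num) hrG (h4.trans hQd)
      · apply h56
        subst h7
        rw [h8] at hQd
        exact Nat.Coprime.mul_dvd_of_dvd_of_dvd (by norm_num) hrG hQd
    · have hm0 : m ≠ 0 := by rintro rfl; rw [mul_zero] at hnam; exact hn0 hnam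
      have hra1 : 1 < r ^ a := Nat.one_lt_pow ha0 hr.one_lt
      have hm2 : 2 ≤ m := by omega
      have hm_lt : m < n := by rw [hnam]; nlinarith
      have hra_lt : r ^ a < n := by rw [hnam]; nlinarith
      have hp1 : (g ^ (r ^ a)) ^ m = 1 := by
        rw [← pow_mul, ← hnam, ← hgn, pow_orderOf_eq_one]
      have hp2 : (g ^ m) ^ (r ^ a) = 1 := by
        rw [← pow_mul, mul_comm, ← hnam, ← hgn, pow_orderOf_eq_one]
      have hd1 : orderOf (g ^ (r ^ a)) ∣ m := orderOf_dvd_of_pow_eq_one hp1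
      have hd2 : orderOf (g ^ m) ∣ r ^ a := orderOf_dvd_of_pow_eq_one hp2
      have hmn : m ∣ orderOf g := by rw [hgn, hnam]; exact Dvd.intro_left _ rfl
      have hran : r ^ a ∣ orderOf g := by rw [hgn, hnam]; exact Dvd.intro _ rfl
      have hc1 : g ^ (r ^ a) ∈ Subgroup.centralizer (Q : Set G) :=
        IH _ (lt_of_le_of_lt (Nat.le_of_dvd (by omega) hd1) hm_lt) _ rfl
          (pow_mem hgN _) (Nat.Coprime.coprime_dvd_left (hd1.trans hmn) hcop)
      have hc2 : g ^ m ∈ Subgroup.centralizer (Q : Set G) :=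
        IH _ (lt_of_le_of_lt (Nat.le_of_dvd (by omega) hd2) hra_lt) _ rfl
          (pow_mem hgN _) (Nat.Coprime.coprime_dvd_left (hd2.trans hran) hcop)
      exact mem_of_two_pows _ g (r ^ a) m
        (Nat.Coprime.pow_left a ((Nat.Prime.coprime_iff_not_dvd hr).mpr hrm)) hc1 hc2
  intro g hg hcop
  exact key _ g rfl hg hcop


/-- A non-abelian finite simple group of even order has order divisible by 12, 16 or 56. -/
theorem result {G : Type*} [Group G] [Finite G] [IsSimpleGroup G]
    (hG : ¬ IsMulCommutative G) (h2 : Even (Nat.card G)) :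
    12 ∣ Nat.card G ∨ 16 ∣ Nat.card G ∨ 56 ∣ Nat.card G := by
  by_contra hcon
  push Not at hcon
  obtain ⟨h12, h16, h56⟩ := hcon
  haveI : Fact (Nat.Prime 2) := ⟨Nat.prime_two⟩
  obtain ⟨N, hN, hcop, k, hk⟩ :=
    Cfsg.Agent.Lib_helper1_Frobenius.frobenius (frobHyp_of h12 h16 h56)
  rcases hN.eq_bot_or_eq_top with h | h
  · subst h
    rw [Subgroup.index_bot] at hk
    have hp : IsPGroup 2 G := IsPGroup.of_card hk
    have hcen : Subgroup.center G ≠ ⊥ := by
      have := hp.center_nontrivial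
      exact (Subgroup.nontrivial_iff_ne_bot _).mp this
    have htop : Subgroup.center G = ⊤ := by
      rcases (inferInstance : (Subgroup.center G).Normal).eq_bot_or_eq_top with h | h
      · exact absurd h hcen
      · exact h
    apply hG
    refine ⟨⟨fun a b => ?_⟩⟩
    have hb : b ∈ Subgroup.center G := by rw [htop]; exact Subgroup.mem_top b
    exact Subgroup.mem_center_iff.mp hb a
  · subst h
    rw [Subgroup.card_top] at hcop
    rw [Nat.coprime_comm, Nat.Prime.coprime_iff_not_dvd Nat.prime_two] at hcop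
    exact hcop (even_iff_two_dvd.mp h2)

end Cfsg.Agent.S0499
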