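import Cfsg.Statements.S0526
import Cfsg.Agent.Lib_helper1_SS2

set_option autoImplicit false
open Cfsg

namespace Cfsg.Agent.S0526

universe u

open Cfsg.Agent.Lib_helper1_Basic Cfsg.Agent.Lib_helper1_Hall Cfsg.Agent.Lib_helper1_SZConj
  Cfsg.Agent.Lib_helper1_SS Cfsg.Agent.Lib_helper1_SS2

theorem aux (n : ℕ) : ∀ (G : Type u) [Group G] [Finite G],
    Nat.card G = n → Cfsg.IsSupersolvable G → Group.IsNilpotent (commutator G) := by
  induction n using Nat.strong_induction_on with
  | _ n ih =>
  intro G _ _ hn hG
  by_cases h1 : Nat.card G = 1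
  · haveI : Subsingleton G := (Nat.card_eq_one_iff_unique.mp h1).1
    infer_instance
  obtain ⟨N, hNn, hNp⟩ := exists_normal_prime hG h1
  haveI := hNn
  haveI : Fact (Nat.card N).Prime := ⟨hNp⟩
  haveI : IsCyclic N := isCyclic_of_prime_card (p := Nat.card N) rfl
  have hlt : Nat.card (G ⧸ N) < n := hn ▸ card_quotient_lt N (ne_bot_of_card_prime N hNp)
  haveI hnil : Group.IsNilpotent (commutator (G ⧸ N)) := ih _ hlt (G ⧸ N) rfl (ss_quotient hG N)
  have hmem : ∀ x : commutator G, (QuotientGroup.mk' N).comp (commutator G).subtype x ∈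
      commutator (G ⧸ N) := by
    intro x
    have hle : (commutator G).map (QuotientGroup.mk' N) ≤ commutator (G ⧸ N) := by
      rw [commutator_def, Subgroup.map_commutator, commutator_def]
      exact Subgroup.commutator_mono le_top le_top
    exact hle (Subgroup.mem_map_of_mem _ x.2)
  set f : commutator G →* commutator (G ⧸ N) :=
    ((QuotientGroup.mk' N).comp (commutator G).subtype).codRestrict (commutator (G ⧸ N)) hmem
    with hf
  apply Subgroup.isNilpotent_of_ker_le_center f
  intro x hx
  rw [MonoidHom.mem_ker] at hx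
  have hxN : (x : G) ∈ N := by
    have h2 := congrArg Subtype.val hx
    have h3 : QuotientGroup.mk' N (x : G) = 1 := h2
    exact (QuotientGroup.eq_one_iff _).mp h3
  rw [Subgroup.mem_center_iff]
  intro y
  have hy : (y : G) ∈ Subgroup.centralizer (N : Set G) :=
    commutator_le_centralizer_of_cyclic_normal N y.2
  have h4 := Subgroup.mem_centralizer_iff.mp hy (x : G) hxN
  apply Subtype.ext
  simpa using h4.symm

/-- In a finite supersolvable group the commutator subgroup is nilpotent. -/
theorem result {G : Type*} [Group G] [Finite G] (hG : Cfsg.IsSupersolvable G) : Group.IsNilpotent (commutator G) := by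
  exact aux _ G rfl hG

end Cfsg.Agent.S0526
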