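import Cfsg.Statements.S0527
import Cfsg.Agent.Lib_helper1_SS2

set_option autoImplicit false
open Cfsg

namespace Cfsg.Agent.S0527

universe u

open Cfsg.Agent.Lib_helper1_Basic Cfsg.Agent.Lib_helper1_Hall Cfsg.Agent.Lib_helper1_SZConj
  Cfsg.Agent.Lib_helper1_SS

theorem aux (n : ℕ) : ∀ (G : Type u) [Group G] [Finite G],
    Nat.card G = n → Cfsg.IsSupersolvable G → ∀ M : Subgroup G, IsCoatom M → M.index.Prime := by
  induction n using Nat.strong_induction_on with
  | _ n ih =>
  intro G _ _ hn hG M hM
  by_cases h1 : Nat.card G = 1
  · exfalso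
    haveI : Subsingleton G := (Nat.card_eq_one_iff_unique.mp h1).1
    exact hM.1 (Subsingleton.elim _ _)
  obtain ⟨N, hNn, hNp⟩ := exists_normal_prime hG h1
  haveI := hNn
  set f := QuotientGroup.mk' N with hf
  have hfs : Function.Surjective f := QuotientGroup.mk'_surjective N
  have hlt : Nat.card (G ⧸ N) < n := hn ▸ card_quotient_lt N (ne_bot_of_card_prime N hNp)
  by_cases hNM : N ≤ M
  · have hcm : (M.map f).comap f = M := comap_map_mk'_of_le N M hNM
    have hco : IsCoatom (M.map f) := by
      constructor
      · intro h
        rw [h, Subgroup.comap_top] at hcm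
        exact hM.1 hcm.symm
      · intro K' hK'
        have h2 : M ≤ K'.comap f := by
          rw [← hcm]; exact Subgroup.comap_mono hK'.le
        have h3 : M ≠ K'.comap f := by
          intro h
          have := congrArg (Subgroup.map f) h
          rw [Subgroup.map_comap_eq_self_of_surjective hfs] at this
          exact hK'.ne this
        have h4 := hM.2 _ (lt_of_le_of_ne h2 h3)
        have := congrArg (Subgroup.map f) h4
        rw [Subgroup.map_comap_eq_self_of_surjective hfs, Subgroup.map_top_of_surjective f hfs]
          at this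
        exact this
    have hidx : (M.map f).index = M.index :=
      Subgroup.index_map_eq M hfs (by rw [hf, QuotientGroup.ker_mk']; exact hNM)
    rw [← hidx]
    exact ih _ hlt (G ⧸ N) rfl (ss_quotient hG N) _ hco
  · have hsup : M ⊔ N = ⊤ := hM.2 _ (lt_of_le_of_ne le_sup_left (fun h => hNM (h ▸ le_sup_right)))
    have hinf : N ⊓ M = ⊥ := by
      have h2 : Nat.card (N ⊓ M : Subgroup G) ∣ Nat.card N := Subgroup.card_dvd_of_le inf_le_left
      rcases (Nat.dvd_prime hNp).mp h2 with h3 | h3
      · exact Subgroup.card_eq_one.mp h3
      · exfalso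
        have : N ⊓ M = N := Subgroup.eq_of_le_of_card_ge inf_le_left h3.ge
        exact hNM (this ▸ inf_le_right)
    have e1 : N.relIndex (M ⊔ N) = N.relIndex M := Subgroup.relIndex_sup_right M N
    rw [hsup, Subgroup.relIndex_top_right, ← Subgroup.inf_relIndex_right, hinf,
      Subgroup.relIndex_bot_left] at e1
    -- e1 : N.index = Nat.card M
    have e2 := N.card_mul_index
    have e3 := M.card_mul_index
    rw [e1] at e2
    have e4 : M.index = Nat.card N := by
      have : Nat.card M * M.index = Nat.card M * Nat.card N := by rw [e3, ← e2, mul_comm]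
      exact Nat.eq_of_mul_eq_mul_left Nat.card_pos this
    rw [e4]; exact hNp

/-- In a finite supersolvable group the index of any maximal subgroup is a prime number. -/
theorem result {G : Type*} [Group G] [Finite G] (hG : Cfsg.IsSupersolvable G) (M : Subgroup G) (hM : IsCoatom M) : M.index.Prime := by
  exact aux _ G rfl hG M hM

end Cfsg.Agent.S0527
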