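import Cfsg.Statements.S0529
import Cfsg.Agent.Lib_helper1_SS2

set_option autoImplicit false
open Cfsg

namespace Cfsg.Agent.S0529

universe u

open Cfsg.Agent.Lib_helper1_Basic Cfsg.Agent.Lib_helper1_Hall Cfsg.Agent.Lib_helper1_SZConj
  Cfsg.Agent.Lib_helper1_SS Cfsg.Agent.Lib_helper1_SS2

/-- chains with prime steps; `PReach B b₀ b H`: first step `≤ b₀`, current bound `b`. -/
inductive PReach {G : Type*} [Group G] (B : Subgroup G) (b₀ : ℕ) : ℕ → Subgroup G → Prop
  | base : PReach B b₀ b₀ B
  | step (b : ℕ) (H H' : Subgroup G) : PReach B b₀ b H → H ≤ H' → H'.Normal →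
      (H.relIndex H').Prime → H.relIndex H' ≤ b → PReach B b₀ (H.relIndex H') H'

theorem PReach.trans {G : Type*} [Group G] {A B C : Subgroup G} {a b c : ℕ}
    (h1 : PReach A a b B) (h2 : PReach B b c C) : PReach A a c C := by
  induction h2 with
  | base => exact h1
  | step b' H H' _ hle hn hp hb ih => exact PReach.step b' H H' ih hle hn hp hb

theorem PReach.comap {G Q : Type*} [Group G] [Group Q] (f : G →* Q)
    (hf : Function.Surjective f) {B H : Subgroup Q} {b₀ b : ℕ} (h : PReach B b₀ b H) :
    PReach (B.comap f) b₀ b (H.comap f) := by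
  induction h with
  | base => exact PReach.base
  | step b' H H' _ hle hn hp hb ih =>
    have e : (H.comap f).relIndex (H'.comap f) = H.relIndex H' := by
      rw [Subgroup.relIndex_comap, Subgroup.map_comap_eq_self_of_surjective hf]
    have := PReach.step b' (H.comap f) (H'.comap f) ih (Subgroup.comap_mono hle) (hn.comap f)
      (e ▸ hp) (e ▸ hb)
    rw [e] at this
    exact this

theorem PReach.to_fin {G : Type*} [Group G] {b₀ b : ℕ} {K : Subgroup G}
    (h : PReach (⊥ : Subgroup G) b₀ b K) :
    ∃ (n : ℕ) (H : Fin (n + 1) → Subgroup G), H 0 = ⊥ ∧ H (Fin.last n) = K ∧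
      (∀ i, (H i).Normal) ∧
      (∀ i : Fin n, H i.castSucc ≤ H i.succ ∧ ((H i.castSucc).relIndex (H i.succ)).Prime ∧
        b ≤ (H i.castSucc).relIndex (H i.succ)) ∧
      ∀ i j : Fin n, i ≤ j →
        (H j.castSucc).relIndex (H j.succ) ≤ (H i.castSucc).relIndex (H i.succ) := by
  induction h with
  | base => exact ⟨0, fun _ => ⊥, rfl, rfl, fun _ => inferInstance, fun i => i.elim0,
      fun i => i.elim0⟩
  | step b' K K' _ hle hn hp hb ih =>
    obtain ⟨n, H, h0, hlast, hnorm, hstep, hmono⟩ := ih
    have hc : ∀ j : Fin n, (Fin.snoc H K' : Fin (n + 2) → Subgroup G) j.castSucc.castSucc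
        = H j.castSucc := fun j => by rw [Fin.snoc_castSucc]
    have hs : ∀ j : Fin n, (Fin.snoc H K' : Fin (n + 2) → Subgroup G) j.castSucc.succ
        = H j.succ := fun j => by rw [Fin.succ_castSucc, Fin.snoc_castSucc]
    have hlc : (Fin.snoc H K' : Fin (n + 2) → Subgroup G) (Fin.last n).castSucc = K := by
      rw [Fin.snoc_castSucc, hlast]
    have hls : (Fin.snoc H K' : Fin (n + 2) → Subgroup G) (Fin.last n).succ = K' := by
      rw [Fin.succ_last, Fin.snoc_last]
    refine ⟨n + 1, Fin.snoc H K', ?_, ?_, ?_, ?_, ?_⟩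
    · have : (0 : Fin (n + 2)) = Fin.castSucc (0 : Fin (n + 1)) := rfl
      rw [this, Fin.snoc_castSucc]; exact h0
    · rw [Fin.snoc_last]
    · intro i
      induction i using Fin.lastCases with
      | last => rw [Fin.snoc_last]; exact hn
      | cast j => rw [Fin.snoc_castSucc]; exact hnorm j
    · intro i
      induction i using Fin.lastCases with
      | last => rw [hlc, hls]; exact ⟨hle, hp, le_rfl⟩
      | cast j =>
        rw [hc, hs]
        exact ⟨(hstep j).1, (hstep j).2.1, hb.trans (hstep j).2.2⟩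
    · intro i j hij
      induction j using Fin.lastCases with
      | last =>
        rw [hlc, hls]
        induction i using Fin.lastCases with
        | last => rw [hlc, hls]
        | cast i' => rw [hc, hs]; exact hb.trans (hstep i').2.2
      | cast j' =>
        induction i using Fin.lastCases with
        | last =>
          exfalso
          have h1 : (Fin.last n).val ≤ j'.castSucc.val := hij
          simp only [Fin.val_last, Fin.val_castSucc] at h1
          have := j'.2
          omega
        | cast i' =>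
          rw [hc, hs, hc, hs]
          apply hmono
          exact Fin.castSucc_le_castSucc_iff.mp hij

theorem aux (n : ℕ) : ∀ (G : Type u) [Group G] [Finite G],
    Nat.card G = n → Cfsg.IsSupersolvable G → ∀ b₀ : ℕ,
    (∀ q : ℕ, q.Prime → q ∣ Nat.card G → q ≤ b₀) →
    ∃ b, PReach (⊥ : Subgroup G) b₀ b ⊤ := by
  induction n using Nat.strong_induction_on with
  | _ n ih =>
  intro G _ _ hn hG b₀ hb₀
  by_cases h1 : Nat.card G = 1
  · have : (⊤ : Subgroup G) = ⊥ := by
      haveI : Subsingleton G := (Nat.card_eq_one_iff_unique.mp h1).1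
      exact Subsingleton.elim _ _
    rw [this]; exact ⟨b₀, PReach.base⟩
  have hgt : 1 < Nat.card G := by
    have : 0 < Nat.card G := Nat.card_pos
    omega
  obtain ⟨p, hp, hpd, hpmax⟩ := exists_largest_prime (Nat.card G) hgt
  haveI : Fact p.Prime := ⟨hp⟩
  let P : Sylow p G := default
  haveI hPn : (P : Subgroup G).Normal := sylow_largest_normal hG p hpmax P
  have hPb : (P : Subgroup G) ≠ ⊥ := Sylow.ne_bot_of_dvd_card P hpd
  obtain ⟨N, hNP, hNn, hNp⟩ := exists_normal_prime_le hG (P : Subgroup G) hPb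
  haveI := hNn
  have hNcard : Nat.card N = p := by
    obtain ⟨k, hk⟩ := P.2.exists_card_eq
    have h2 : Nat.card N ∣ p ^ k := hk ▸ Subgroup.card_dvd_of_le hNP
    exact (Nat.prime_dvd_prime_iff_eq hNp hp).mp (hNp.dvd_of_dvd_pow h2)
  have hrel : (⊥ : Subgroup G).relIndex N = p := by
    rw [Subgroup.relIndex_bot_left, hNcard]
  have step1 : PReach (⊥ : Subgroup G) b₀ p N := by
    have := PReach.step b₀ (⊥ : Subgroup G) N PReach.base bot_le hNn (hrel ▸ hp)
      (hrel ▸ hb₀ p hp hpd)
    rw [hrel] at this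
    exact this
  have hlt : Nat.card (G ⧸ N) < n := hn ▸ card_quotient_lt N (ne_bot_of_card_prime N hNp)
  have hmax' : ∀ r : ℕ, r.Prime → r ∣ Nat.card (G ⧸ N) → r ≤ p := fun r hr hrd =>
    hpmax r hr (hrd.trans (Subgroup.card_quotient_dvd_card N))
  obtain ⟨b, hb⟩ := ih _ hlt (G ⧸ N) rfl (ss_quotient hG N) p hmax'
  have h2 := hb.comap (QuotientGroup.mk' N) (QuotientGroup.mk'_surjective N)
  rw [MonoidHom.comap_bot, QuotientGroup.ker_mk', Subgroup.comap_top] at h2
  exact ⟨b, step1.trans h2⟩

/-- A finite supersolvable group has a chain of normal subgroups, from the trivial subgroup to the whole group, in which every step has prime index and the primes occurring are non-increasing as one goes up the chain. -/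
theorem result {G : Type*} [Group G] [Finite G] (hG : Cfsg.IsSupersolvable G) : ∃ (n : ℕ) (H : Fin (n + 1) → Subgroup G), H 0 = ⊥ ∧ H (Fin.last n) = ⊤ ∧ (∀ i, (H i).Normal) ∧ (∀ i : Fin n, H i.castSucc ≤ H i.succ ∧ ((H i.castSucc).relIndex (H i.succ)).Prime) ∧ ∀ i j : Fin n, i ≤ j → (H j.castSucc).relIndex (H j.succ) ≤ (H i.castSucc).relIndex (H i.succ) := by
  obtain ⟨b, hb⟩ := aux _ G rfl hG (Nat.card G)
    (fun q _ hqd => Nat.le_of_dvd Nat.card_pos hqd)
  obtain ⟨n, H, h0, hlast, hnorm, hstep, hmono⟩ := hb.to_fin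
  exact ⟨n, H, h0, hlast, hnorm, fun i => ⟨(hstep i).1, (hstep i).2.1⟩, hmono⟩

end Cfsg.Agent.S0529
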