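import Cfsg.Statements.S0530
import Cfsg.Agent.Lib_helper1_SS2

set_option autoImplicit false
open Cfsg

namespace Cfsg.Agent.S0530

universe u

open Cfsg.Agent.Lib_helper1_Basic Cfsg.Agent.Lib_helper1_Hall Cfsg.Agent.Lib_helper1_SZConj
  Cfsg.Agent.Lib_helper1_SS Cfsg.Agent.Lib_helper1_SS2

theorem ss_of_pgroup {G : Type u} [Group G] [Finite G] (q : ℕ) [Fact q.Prime]
    (h : IsPGroup q G) : Cfsg.IsSupersolvable G := by
  haveI := h.isNilpotent
  exact ss_of_nilpotent

/-- key step: a normal subgroup of order `p`. -/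
theorem exists_normal_order_p {G : Type u} [Group G] [Finite G] (p : ℕ) [hp : Fact p.Prime]
    (hp2 : p ≠ 2) (n : ℕ) (hG : Nat.card G = 2 * p ^ (n + 1)) :
    ∃ u : G, orderOf u = p ∧ (Subgroup.zpowers u).Normal := by
  let P : Sylow p G := default
  have hcop : Nat.Coprime p 2 := (Nat.coprime_primes hp.out Nat.prime_two).mpr hp2
  have hPcard : Nat.card (P : Subgroup G) = p ^ (n + 1) := by
    obtain ⟨k, hk⟩ := P.2.exists_card_eq
    have h1 : p ^ (n + 1) ∣ Nat.card (P : Subgroup G) :=
      P.pow_dvd_card_of_pow_dvd_card (hG ▸ dvd_mul_left _ _)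
    have h2 : Nat.card (P : Subgroup G) ∣ 2 * p ^ (n + 1) :=
      hG ▸ Subgroup.card_subgroup_dvd_card _
    rw [hk] at h2 ⊢
    exact Nat.dvd_antisymm ((Nat.Coprime.pow_left k hcop).dvd_of_dvd_mul_left h2) (hk ▸ h1)
  have hidx : (P : Subgroup G).index = 2 := by
    have h1 := (P : Subgroup G).card_mul_index
    rw [hPcard, hG, mul_comm 2] at h1
    exact Nat.eq_of_mul_eq_mul_left (pow_pos hp.out.pos _) h1
  haveI hPn : (P : Subgroup G).Normal := Subgroup.normal_of_index_eq_two hidx
  -- a central element of order p in P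
  haveI : Nontrivial (P : Subgroup G) := by
    rw [← Finite.one_lt_card_iff_nontrivial, hPcard]
    exact Nat.one_lt_pow (by omega) hp.out.one_lt
  haveI := P.isPGroup'.center_nontrivial
  have hZp : IsPGroup p (Subgroup.center (P : Subgroup G)) := P.isPGroup'.to_subgroup _
  have hdvd : p ∣ Nat.card (Subgroup.center (P : Subgroup G)) := by
    rcases hZp.card_eq_or_dvd with h | h
    · exfalso
      have := Finite.one_lt_card_iff_nontrivial.mpr
        (inferInstance : Nontrivial (Subgroup.center (P : Subgroup G)))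
      omega
    · exact h
  obtain ⟨x, hx⟩ := exists_prime_orderOf_dvd_card' p hdvd
  obtain ⟨v, hv⟩ : ∃ v : G, v = ((x : (P : Subgroup G)) : G) := ⟨_, rfl⟩
  have hvo : orderOf v = p := by
    rw [hv, Subgroup.orderOf_coe, Subgroup.orderOf_coe]; exact hx
  have hvP : v ∈ (P : Subgroup G) := hv ▸ (x : (P : Subgroup G)).2
  have hvc : ∀ y ∈ (P : Subgroup G), y * v = v * y := by
    intro y hy
    have h1 := Subgroup.mem_center_iff.mp x.2 ⟨y, hy⟩
    rw [hv]
    exact congrArg Subtype.val h1
  -- an element outside P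
  have hPtop : (P : Subgroup G) ≠ ⊤ := by
    intro h
    rw [h, Subgroup.index_top] at hidx
    omega
  obtain ⟨t, -, ht⟩ := SetLike.exists_of_lt (lt_top_iff_ne_top.mpr hPtop)
  have htinv : t⁻¹ ∉ (P : Subgroup G) := fun h => ht (by simpa using Subgroup.inv_mem _ h)
  have hdich : ∀ g : G, g ∈ (P : Subgroup G) ∨ t⁻¹ * g ∈ (P : Subgroup G) := by
    intro g
    by_cases hg : g ∈ (P : Subgroup G)
    · exact Or.inl hg
    · right
      rw [Subgroup.mul_mem_iff_of_index_two hidx]
      exact ⟨fun h => absurd h htinv, fun h => absurd h hg⟩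
  have htt : t * t ∈ (P : Subgroup G) := Subgroup.mul_self_mem_of_index_two hidx t
  obtain ⟨v', hv'⟩ : ∃ v' : G, v' = t * v * t⁻¹ := ⟨_, rfl⟩
  have hv'P : v' ∈ (P : Subgroup G) := hv' ▸ hPn.conj_mem v hvP t
  have hv'c : ∀ y ∈ (P : Subgroup G), y * v' = v' * y := by
    intro y hy
    have h1 : t⁻¹ * y * t ∈ (P : Subgroup G) := by
      have := hPn.conj_mem y hy t⁻¹
      simpa using this
    have h2 := hvc _ h1
    rw [hv']
    have e1 : y * (t * v * t⁻¹) = t * (t⁻¹ * y * t * v) * t⁻¹ := by group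
    have e2 : t * v * t⁻¹ * y = t * (v * (t⁻¹ * y * t)) * t⁻¹ := by group
    rw [e1, e2, h2]
  have hvv' : v * v' = v' * v := (hvc v' hv'P).symm
  have htv' : t * v' * t⁻¹ = v := by
    have h2 := hvc _ htt
    rw [hv']
    have e1 : t * (t * v * t⁻¹) * t⁻¹ = t * t * v * (t * t)⁻¹ := by group
    rw [e1, h2]; group
  by_cases hw : v * v' = 1
  · -- t inverts v
    refine ⟨v, hvo, ?_⟩
    have hv'inv : v' = v⁻¹ := (eq_inv_of_mul_eq_one_right hw)
    constructor
    intro z hz g
    obtain ⟨k, rfl⟩ := Subgroup.mem_zpowers_iff.mp hz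
    rcases hdich g with hg | hg
    · have h1 : g * v = v * g := hvc g hg
      have h2 : g * v ^ k * g⁻¹ = v ^ k := by
        rw [← conj_zpow]
        have : g * v * g⁻¹ = v := by rw [h1]; group
        rw [this]
      rw [h2]; exact Subgroup.zpow_mem_zpowers v k
    · set y := t⁻¹ * g with hy
      have hgy : g = t * y := by rw [hy]; group
      have h1 : y * v = v * y := hvc y hg
      have h2 : g * v ^ k * g⁻¹ = (v⁻¹) ^ k := by
        rw [← conj_zpow, hgy]
        have : t * y * v * (t * y)⁻¹ = t * v * t⁻¹ := by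
          have e : t * y * v * (t * y)⁻¹ = t * (y * v) * y⁻¹ * t⁻¹ := by group
          rw [e, h1]; group
        rw [this, ← hv', hv'inv]
      rw [h2, inv_zpow]
      exact Subgroup.inv_mem _ (Subgroup.zpow_mem_zpowers v k)
  · -- w = v * v' is central of order p
    obtain ⟨w, hwdef⟩ : ∃ w : G, w = v * v' := ⟨_, rfl⟩
    have hw' : w ≠ 1 := hwdef ▸ hw
    have hwc : ∀ y ∈ (P : Subgroup G), y * w = w * y := by
      intro y hy
      rw [hwdef, ← mul_assoc, hvc y hy, mul_assoc, hv'c y hy, mul_assoc]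
    have hwt : t * w = w * t := by
      have h1 : t * w * t⁻¹ = w := by
        rw [hwdef]
        have e : t * (v * v') * t⁻¹ = (t * v * t⁻¹) * (t * v' * t⁻¹) := by group
        rw [e, htv', ← hv', hvv']
      calc t * w = t * w * t⁻¹ * t := by group
        _ = w * t := by rw [h1]
    have hwcen : ∀ g : G, g * w = w * g := by
      intro g
      rcases hdich g with hg | hg
      · exact hwc g hg
      · set y := t⁻¹ * g with hy
        have hgy : g = t * y := by rw [hy]; group
        rw [hgy, mul_assoc, hwc y hg, ← mul_assoc, hwt, mul_assoc]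
    have hwo : orderOf w = p := by
      have h1 : w ^ p = 1 := by
        rw [hwdef, (show Commute v v' from hvv').mul_pow]
        have e1 : v ^ p = 1 := by rw [← hvo]; exact pow_orderOf_eq_one v
        have e2 : v' ^ p = 1 := by rw [hv', conj_pow, e1]; group
        rw [e1, e2, one_mul]
      have h2 := orderOf_dvd_of_pow_eq_one h1
      rcases (Nat.dvd_prime hp.out).mp h2 with h3 | h3
      · exact absurd (orderOf_eq_one_iff.mp h3) hw'
      · exact h3
    refine ⟨w, hwo, ?_⟩
    constructor
    intro z hz g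
    obtain ⟨k, rfl⟩ := Subgroup.mem_zpowers_iff.mp hz
    have h2 : g * w ^ k * g⁻¹ = w ^ k := by
      rw [← conj_zpow]
      have : g * w * g⁻¹ = w := by rw [hwcen g]; group
      rw [this]
    rw [h2]; exact Subgroup.zpow_mem_zpowers w k

theorem aux (p : ℕ) (hp : p.Prime) (n : ℕ) : ∀ (G : Type u) [Group G] [Finite G],
    Nat.card G = 2 * p ^ n → Cfsg.IsSupersolvable G := by
  haveI : Fact (Nat.Prime 2) := ⟨Nat.prime_two⟩
  haveI : Fact p.Prime := ⟨hp⟩
  induction n with
  | zero =>
    intro G _ _ hG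
    exact ss_of_pgroup 2 (IsPGroup.of_card (n := 1) (by rw [hG]; simp))
  | succ n ih =>
    intro G _ _ hG
    by_cases hp2 : p = 2
    · subst hp2
      exact ss_of_pgroup 2 (IsPGroup.of_card (n := n + 2) (by rw [hG]; ring))
    · obtain ⟨u, huo, hun⟩ := exists_normal_order_p p hp2 n hG
      haveI := hun
      have hNcard : Nat.card (Subgroup.zpowers u) = p := by rw [Nat.card_zpowers, huo]
      have hq : Nat.card (G ⧸ Subgroup.zpowers u) = 2 * p ^ n := by
        have h1 := (Subgroup.zpowers u).card_mul_index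
        rw [Subgroup.index_eq_card, hNcard, hG] at h1
        have h2 : p * Nat.card (G ⧸ Subgroup.zpowers u) = p * (2 * p ^ n) := by
          rw [h1]; ring
        exact Nat.eq_of_mul_eq_mul_left hp.pos h2
      exact ss_of_cyclic_quotient (Subgroup.zpowers u) (ih _ hq)

/-- A finite group whose order is twice a prime power is supersolvable. -/
theorem result {G : Type*} [Group G] [Finite G] (p n : ℕ) (hp : p.Prime) (hG : Nat.card G = 2 * p ^ n) : Cfsg.IsSupersolvable G := by
  exact aux p hp n G hG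

end Cfsg.Agent.S0530
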