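import Cfsg.Statements.S0532
import Cfsg.Agent.Lib_helper1_SZConj
import Mathlib.GroupTheory.IndexNormal

set_option autoImplicit false
open Cfsg

namespace Cfsg.Agent.S0532

universe u

open Cfsg.Agent.Lib_helper1_Basic Cfsg.Agent.Lib_helper1_Hall Cfsg.Agent.Lib_helper1_SZConj

theorem hsoe_of_equiv {A B : Type*} [Group A] [Group B] (e : A ≃* B)
    (h : Cfsg.HasSubgroupOfEveryOrder A) : Cfsg.HasSubgroupOfEveryOrder B := by
  intro d hd
  rw [← Nat.card_congr e.toEquiv] at hd
  obtain ⟨H, hH⟩ := h d hd
  refine ⟨H.map e.toMonoidHom, ?_⟩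
  rw [Subgroup.card_map_of_injective e.injective]
  exact hH

theorem aux (n : ℕ) : ∀ (G : Type u) [Group G] [Finite G], Nat.card G = n →
    (∀ H : Subgroup G, Cfsg.HasSubgroupOfEveryOrder H) → ∀ (p : ℕ) [Fact p.Prime],
    (∀ q : ℕ, q.Prime → q ∣ Nat.card G → q ≤ p) → ∀ P : Sylow p G, (P : Subgroup G).Normal := by
  induction n using Nat.strong_induction_on with
  | _ n ih =>
  intro G _ _ hn h p hp hmax P
  by_cases h1 : Nat.card G = 1
  · have : (P : Subgroup G) = ⊥ := by
      haveI : Subsingleton G := (Nat.card_eq_one_iff_unique.mp h1).1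
      exact Subsingleton.elim _ _
    rw [this]; infer_instance
  set q := (Nat.card G).minFac with hq
  have hqp : q.Prime := Nat.minFac_prime h1
  have hqd : q ∣ Nat.card G := Nat.minFac_dvd _
  -- a subgroup of index q
  obtain ⟨M', hM'⟩ := h ⊤ (Nat.card G / q) (by
    rw [Subgroup.card_top]; exact Nat.div_dvd_of_dvd hqd)
  set M : Subgroup G := M'.map (⊤ : Subgroup G).subtype with hM
  have hMcard : Nat.card M = Nat.card G / q := by
    rw [hM, Subgroup.card_map_of_injective (Subgroup.subtype_injective _)]; exact hM'
  have hMidx : M.index = q := by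
    have h2 := M.card_mul_index
    rw [hMcard] at h2
    have h3 : Nat.card G / q * q = Nat.card G := Nat.div_mul_cancel hqd
    have hpos : 0 < Nat.card G / q := Nat.div_pos (Nat.le_of_dvd Nat.card_pos hqd) hqp.pos
    exact Nat.eq_of_mul_eq_mul_left hpos (h2.trans h3.symm)
  haveI hMn : M.Normal := Subgroup.normal_of_index_eq_minFac_card hMidx
  by_cases hqeq : q = p
  · -- G is a p-group
    have hcard : Nat.card G = p ^ (Nat.card G).primeFactorsList.length := by
      apply Nat.eq_prime_pow_of_unique_prime_dvd Nat.card_pos.ne'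
      intro d hd hdd
      have h2 : d ≤ p := hmax d hd hdd
      have h3 : q ≤ d := Nat.minFac_le_of_dvd hd.two_le hdd
      omega
    have hPG : IsPGroup p G := IsPGroup.of_card hcard
    have : (P : Subgroup G) = ⊤ := by
      have h2 : IsPGroup p (⊤ : Subgroup G) := hPG.to_subgroup ⊤
      exact (P.is_maximal' h2 le_top).symm
    rw [this]; infer_instance
  · -- M inherits the hypothesis
    have hlt : Nat.card M < n := by
      rw [← hn, hMcard]
      exact Nat.div_lt_self Nat.card_pos hqp.one_lt
    have hM' : ∀ H : Subgroup M, Cfsg.HasSubgroupOfEveryOrder H := by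
      intro H
      exact hsoe_of_equiv (H.equivMapOfInjective M.subtype (Subgroup.subtype_injective M)).symm
        (h (H.map M.subtype))
    have hmaxM : ∀ r : ℕ, r.Prime → r ∣ Nat.card M → r ≤ p := fun r hr hrd =>
      hmax r hr (hrd.trans (Subgroup.card_subgroup_dvd_card M))
    let PM : Sylow p M := default
    haveI hPMn : (PM : Subgroup M).Normal := ih _ hlt M rfl hM' p hmaxM PM
    haveI : (PM : Subgroup M).Characteristic := Sylow.characteristic_of_normal PM hPMn
    set R : Subgroup G := (PM : Subgroup M).map M.subtype with hR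
    haveI hRn : R.Normal := ConjAct.normal_of_characteristic_of_normal
    have hRp : IsPGroup p R := PM.isPGroup'.map M.subtype
    have hRcard : Nat.card R = Nat.card (P : Subgroup G) := by
      rw [hR, Subgroup.card_map_of_injective (Subgroup.subtype_injective M),
        Sylow.card_eq_multiplicity, Sylow.card_eq_multiplicity]
      congr 1
      have h2 : Nat.card G = Nat.card M * q := by
        rw [← hMidx]; exact (M.card_mul_index).symm
      rw [h2, Nat.factorization_mul Nat.card_pos.ne' hqp.ne_zero]
      simp only [Finsupp.coe_add, Pi.add_apply]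
      rw [Nat.Prime.factorization hqp]
      simp [hqeq]
    have hRP : R ≤ (P : Subgroup G) := by
      have h2 : IsPGroup p ((P : Subgroup G) ⊔ R : Subgroup G) :=
        IsPGroup.to_sup_of_normal_right' P.isPGroup' hRp (Subgroup.le_normalizer_of_normal)
      have h3 := P.is_maximal' h2 le_sup_left
      rw [← h3]; exact le_sup_right
    have hRPeq : R = (P : Subgroup G) := Subgroup.eq_of_le_of_card_ge hRP hRcard.ge
    rw [← hRPeq]; exact hRn

/-- If each subgroup of a finite group satisfies the converse of Lagrange's theorem, then a Sylow subgroup for the largest prime dividing the group order is normal. -/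
theorem result {G : Type*} [Group G] [Finite G] (h : ∀ H : Subgroup G, Cfsg.HasSubgroupOfEveryOrder H) (p : ℕ) [Fact p.Prime] (hdvd : p ∣ Nat.card G) (hmax : ∀ q : ℕ, q.Prime → q ∣ Nat.card G → q ≤ p) (P : Sylow p G) : (P : Subgroup G).Normal := by
  exact aux _ G rfl h p hmax P

end Cfsg.Agent.S0532
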