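import Cfsg.Statements.S0534
import Cfsg.Agent.Lib_helper1_SS2

set_option autoImplicit false
open Cfsg

namespace Cfsg.Agent.S0534

universe u

open Cfsg.Agent.Lib_helper1_Basic Cfsg.Agent.Lib_helper1_Hall Cfsg.Agent.Lib_helper1_SZConj
  Cfsg.Agent.Lib_helper1_SS Cfsg.Agent.Lib_helper1_SS2

/-- arithmetic core -/
theorem arith (g a d : ℕ) (hg : g ≠ 0) (ha : a ≠ 0) (hd : d ∣ g * a)
    (hA : ∀ p : ℕ, p.Prime → p ∣ a → p ∣ g)
    (hexp : ∀ p : ℕ, p.Prime → p ∣ g → a.factorization p + 1 = g.factorization p) :
    ∃ m n e : ℕ, g = m * n ∧ m.Coprime n ∧ d = m * e ∧ e ∣ a := by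
  have hd0 : d ≠ 0 := fun h => by
    rw [h, zero_dvd_iff] at hd
    exact (mul_ne_zero hg ha) hd
  set f : ℕ →₀ ℕ :=
    Finsupp.filter (fun p => g.factorization p ≤ d.factorization p) g.factorization with hf
  have hfs : ∀ p ∈ f.support, Nat.Prime p := by
    intro p hp
    have h1 : p ∈ g.factorization.support := by
      rw [hf, Finsupp.support_filter] at hp
      exact (Finset.mem_filter.mp hp).1
    rw [Nat.support_factorization] at h1
    exact (Nat.mem_primeFactors.mp h1).1
  set m := f.prod (· ^ ·) with hm
  have hmf : m.factorization = f := Nat.prod_pow_factorization_eq_self hfs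
  have hm0 : m ≠ 0 := by
    rw [hm, Finsupp.prod]
    apply Finset.prod_ne_zero_iff.mpr
    intro p hp
    exact pow_ne_zero _ (hfs p hp).ne_zero
  have hfp : ∀ p, f p = if g.factorization p ≤ d.factorization p then g.factorization p else 0 :=
    fun p => by rw [hf, Finsupp.filter_apply]
  have hmg : m ∣ g := by
    rw [← Nat.factorization_le_iff_dvd hm0 hg, hmf]
    intro p
    rw [hfp]
    split_ifs <;> omega
  have hmd : m ∣ d := by
    rw [← Nat.factorization_le_iff_dvd hm0 hd0, hmf]
    intro p
    rw [hfp]
    split_ifs with h <;> omega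
  obtain ⟨n, hn⟩ := hmg
  obtain ⟨e, he⟩ := hmd
  have hn0 : n ≠ 0 := fun h => hg (by rw [hn, h, mul_zero])
  have he0 : e ≠ 0 := fun h => hd0 (by rw [he, h, mul_zero])
  have hgf : ∀ p, g.factorization p = f p + n.factorization p := by
    intro p
    rw [hn, Nat.factorization_mul hm0 hn0, hmf]; rfl
  have hdf : ∀ p, d.factorization p = f p + e.factorization p := by
    intro p
    rw [he, Nat.factorization_mul hm0 he0, hmf]; rfl
  have hdga : ∀ p, d.factorization p ≤ g.factorization p + a.factorization p := by
    intro p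
    have := (Nat.factorization_le_iff_dvd hd0 (mul_ne_zero hg ha)).mpr hd p
    rw [Nat.factorization_mul hg ha] at this
    exact this
  refine ⟨m, n, e, hn, ?_, he, ?_⟩
  · apply Nat.coprime_of_dvd
    intro p hp hpm hpn
    have h1 : 0 < m.factorization p := hp.factorization_pos_of_dvd hm0 hpm
    have h2 : 0 < n.factorization p := hp.factorization_pos_of_dvd hn0 hpn
    rw [hmf] at h1
    have h3 := hgf p
    have h4 := hfp p
    split_ifs at h4 with h <;> omega
  · rw [← Nat.factorization_le_iff_dvd he0 ha]
    intro p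
    have h3 := hdf p
    have h4 := hfp p
    have h5 := hdga p
    split_ifs at h4 with h
    · omega
    · have h6 : g.factorization p ≠ 0 := by omega
      have h7 : p ∈ g.factorization.support := Finsupp.mem_support_iff.mpr h6
      rw [Nat.support_factorization] at h7
      obtain ⟨hpp, hpg, -⟩ := Nat.mem_primeFactors.mp h7
      have h8 := hexp p hpp hpg
      omega

/-- Let G be a finite solvable group and A a finite abelian group such that every prime dividing the order of A divides the order of G and, for each prime p dividing the order of G, the exponent of p in the order of A is one less than its exponent in the order of G. Then G × A has a subgroup of every order dividing its order. -/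
theorem result {G A : Type*} [Group G] [CommGroup A] [Finite G] [Finite A] [Group.IsSolvable G] (hA : ∀ p : ℕ, p.Prime → p ∣ Nat.card A → p ∣ Nat.card G) (hexp : ∀ p : ℕ, p.Prime → p ∣ Nat.card G → (Nat.card A).factorization p + 1 = (Nat.card G).factorization p) : Cfsg.HasSubgroupOfEveryOrder (G × A) := by
  intro d hd
  rw [Nat.card_prod] at hd
  obtain ⟨m, n, e, hmn, hcop, hde, hea⟩ := arith (Nat.card G) (Nat.card A) d
    Nat.card_pos.ne' Nat.card_pos.ne' hd hA hexp
  obtain ⟨H, hH⟩ := hall_exists m n hmn hcop
  obtain ⟨B, hB⟩ := clt_of_ss (ss_of_nilpotent (G := A)) e hea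
  refine ⟨H.prod B, ?_⟩
  rw [Nat.card_congr (Subgroup.prodEquiv H B).toEquiv, Nat.card_prod, hH, hB, hde]

end Cfsg.Agent.S0534
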