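import Cfsg.Statements.S0535
import Cfsg.Agent.Lib_helper1_HallConverse

set_option autoImplicit false
open Cfsg

namespace Cfsg.Agent.S0535

/-- Suppose that for every nontrivial subgroup H of a finite group and every prime p dividing the order of H there is a proper subgroup of H whose index in H is a power of p. Then the group is solvable. -/
theorem result {G : Type*} [Group G] [Finite G] (h : ∀ H : Subgroup G, H ≠ ⊥ → ∀ p : ℕ, p.Prime → p ∣ Nat.card H → ∃ K : Subgroup H, K ≠ ⊤ ∧ ∃ k : ℕ, K.index = p ^ k) : Group.IsSolvable G := by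
  apply Cfsg.Agent.Lib_helper1_HallConverse.hall_converse
  intro p hp
  have claim : ∀ n : ℕ, ∀ H : Subgroup G, Nat.card H = n →
      ∃ K : Subgroup G, K ≤ H ∧ (Nat.card K).Coprime p ∧ ∃ k, K.relIndex H = p ^ k := by
    intro n
    induction n using Nat.strong_induction_on with
    | _ n ih =>
    intro H hHn
    by_cases hpd : p ∣ Nat.card H
    · have hHbot : H ≠ ⊥ := by
        rintro rfl
        rw [Subgroup.card_bot] at hpd
        exact hp.one_lt.ne' (Nat.dvd_one.mp hpd)
      obtain ⟨K₁, hK₁top, k, hk⟩ := h H hHbot p hp hpd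
      have hK₁H : K₁.map H.subtype ≤ H := Subgroup.map_subtype_le K₁
      have hlt : Nat.card (K₁.map H.subtype : Subgroup G) < n := by
        rw [Subgroup.card_subtype, ← hHn]
        exact Cfsg.Agent.Lib_helper1_SZConj.card_lt_of_ne_top K₁ hK₁top
      obtain ⟨K, hKK₁, hKcop, j, hj⟩ := ih _ hlt (K₁.map H.subtype) rfl
      refine ⟨K, hKK₁.trans hK₁H, hKcop, j + k, ?_⟩
      rw [← Subgroup.relIndex_mul_relIndex K (K₁.map H.subtype) H hKK₁ hK₁H, hj]
      have hsub : (K₁.map H.subtype).subgroupOf H = K₁ :=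
        Subgroup.comap_map_eq_self_of_injective (Subgroup.subtype_injective H) K₁
      have : (K₁.map H.subtype).relIndex H = K₁.index := by
        rw [Subgroup.relIndex, hsub]
      rw [this, hk, pow_add]
    · exact ⟨H, le_rfl, ((Nat.Prime.coprime_iff_not_dvd hp).mpr hpd).symm, 0, by simp⟩
  obtain ⟨K, -, hKcop, k, hk⟩ := claim _ ⊤ rfl
  refine ⟨K, ?_⟩
  rw [Subgroup.relIndex_top_right] at hk
  exact Cfsg.Agent.Lib_helper1_HallConverse.index_eq_of_pow_of_coprime K p k hp hk hKcop

end Cfsg.Agent.S0535
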