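import Cfsg.Statements.S0542
import Cfsg.Agent.Lib_helper1_SysNorm

set_option autoImplicit false
open Cfsg

namespace Cfsg.Agent.S0542

/-- A Sylow p-subgroup of a finite group meets every subnormal subgroup H in a Sylow p-subgroup of H. -/
theorem result {G : Type*} [Group G] [Finite G] (p : ℕ) [Fact p.Prime] (H : Subgroup G) (hH : H.IsSubnormal) (S : Sylow p G) : ∃ Q : Sylow p H, (Q : Subgroup H) = (S : Subgroup G).subgroupOf H := by
  have key : ∀ H : Subgroup G, H.IsSubnormal → ¬ p ∣ (S : Subgroup G).relIndex H := by
    intro H hH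
    induction hH with
    | top => rw [Subgroup.relIndex_top_right]; exact S.not_dvd_index
    | step H K hle hK hN ih =>
      intro hd
      apply ih
      haveI := hN
      have h1 : ((S : Subgroup G).subgroupOf K).relIndex (H.subgroupOf K) ∣
          ((S : Subgroup G).subgroupOf K).index :=
        Cfsg.Agent.Lib_helper1_SysNorm.relIndex_dvd_index_of_normal_right' _ _
      rw [Subgroup.relIndex_subgroupOf hle] at h1
      exact hd.trans h1
  have hp : IsPGroup p ((S : Subgroup G).subgroupOf H) := S.2.comap_subtype
  exact ⟨hp.toSylow (key H hH), IsPGroup.toSylow_coe hp (key H hH)⟩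

end Cfsg.Agent.S0542
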