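import Cfsg.Statements.S0547
import Mathlib
import Cfsg.Agent.Lib_helper1_PrimSolv

set_option autoImplicit false
open Cfsg

namespace Cfsg.Agent.S0547

/-- Let a finite solvable group G act faithfully and primitively on a set, and let M be a minimal normal subgroup of G. Then M is transitive with trivial point stabilizers, and the number of points equals the order of M, which is a prime power p ^ d with d ≥ 1. -/
theorem result {G : Type*} [Group G] [Finite G] [Group.IsSolvable G] {Ω : Type*} [Nonempty Ω] [MulAction G Ω] [FaithfulSMul G Ω] (hprim : MulAction.IsPreprimitive G Ω) (M : Subgroup G) [M.Normal] (hM : M ≠ ⊥) (hmin : ∀ K : Subgroup G, K.Normal → K ≤ M → K = ⊥ ∨ K = M) : MulAction.IsPretransitive M Ω ∧ (∀ ω : Ω, MulAction.stabilizer M ω = ⊥) ∧ ∃ p d : ℕ, p.Prime ∧ 0 < d ∧ Nat.card Ω = p ^ d ∧ Nat.card M = p ^ d := by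
  obtain ⟨htrans, hcomm, ⟨p, hp, hexp⟩, hreg⟩ :=
    Cfsg.Agent.Lib_helper1_PrimSolv.regular_of_minimal_normal hprim M hM hmin
  haveI := Fact.mk hp
  refine ⟨htrans, ?_, ?_⟩
  · intro ω
    rw [eq_bot_iff]
    intro m hm
    rw [MulAction.mem_stabilizer_iff] at hm
    rw [Subgroup.mem_bot]
    apply Subtype.ext
    exact hreg ω m m.2 hm
  · have hMp : IsPGroup p M := by
      intro n
      exact ⟨1, by
        apply Subtype.ext
        simpa using hexp n n.2⟩
    obtain ⟨d, hd⟩ := IsPGroup.iff_card.mp hMp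
    have hd0 : 0 < d := by
      rcases Nat.eq_zero_or_pos d with h0 | h0
      · exfalso
        rw [h0, pow_zero] at hd
        exact hM (Subgroup.card_eq_one.mp hd)
      · exact h0
    refine ⟨p, d, hp, hd0, ?_, hd⟩
    rw [← hd]
    obtain ⟨ω0⟩ := ‹Nonempty Ω›
    symm
    apply Nat.card_eq_of_bijective (fun m : M => m • ω0)
    constructor
    · intro m n hmn
      have h1 : ((n⁻¹ * m : M) : G) • ω0 = ω0 := by
        have h2 : (m : G) • ω0 = (n : G) • ω0 := hmn
        rw [Subgroup.coe_mul, mul_smul, h2, Subgroup.coe_inv, inv_smul_smul]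
      have h3 := hreg ω0 _ (n⁻¹ * m).2 h1
      have h4 : n⁻¹ * m = 1 := Subtype.ext h3
      exact (inv_mul_eq_one.mp h4).symm
    · intro ω
      exact MulAction.exists_smul_eq M ω0 ω

end Cfsg.Agent.S0547
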