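import Cfsg.Statements.S0548
import Mathlib
import Cfsg.Agent.Lib_helper1_PrimSolv
import Cfsg.Agent.Lib_helper1_Basic

set_option autoImplicit false
open Cfsg

namespace Cfsg.Agent.S0548

/-- Let a finite solvable group G act faithfully and primitively on a set, let M be a minimal normal subgroup and H the stabilizer of a point. Then H is a complement to M, no non-identity element of H centralizes M, and the only subgroups of M normalized by H are the trivial subgroup and M. -/
theorem result {G : Type*} [Group G] [Finite G] [Group.IsSolvable G] {Ω : Type*} [MulAction G Ω] [FaithfulSMul G Ω] (hprim : MulAction.IsPreprimitive G Ω) (M : Subgroup G) [M.Normal] (hM : M ≠ ⊥) (hmin : ∀ K : Subgroup G, K.Normal → K ≤ M → K = ⊥ ∨ K = M) (ω : Ω) : Subgroup.IsComplement' M (MulAction.stabilizer G ω) ∧ MulAction.stabilizer G ω ⊓ Subgroup.centralizer (M : Set G) = ⊥ ∧ ∀ K : Subgroup G, K ≤ M → MulAction.stabilizer G ω ≤ Subgroup.normalizer (K : Set G) → K = ⊥ ∨ K = M := by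
  obtain ⟨htrans, hcomm, ⟨p, hp, hexp⟩, hreg⟩ :=
    Cfsg.Agent.Lib_helper1_PrimSolv.regular_of_minimal_normal hprim M hM hmin
  have hinf : M ⊓ MulAction.stabilizer G ω = ⊥ := by
    rw [eq_bot_iff]
    intro m hm
    rw [Subgroup.mem_bot]
    exact hreg ω m hm.1 (MulAction.mem_stabilizer_iff.mp hm.2)
  have hdec : ∀ g : G, ∃ m ∈ M, ∃ h ∈ MulAction.stabilizer G ω, g = m * h := by
    intro g
    obtain ⟨m, hm⟩ := MulAction.exists_smul_eq M ω (g • ω)
    have hm' : (m : G) • ω = g • ω := hm
    refine ⟨m, m.2, (m : G)⁻¹ * g, ?_, by group⟩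
    rw [MulAction.mem_stabilizer_iff, mul_smul, ← hm', inv_smul_smul]
  have hsup : M ⊔ MulAction.stabilizer G ω = ⊤ := by
    rw [eq_top_iff]
    intro g _
    obtain ⟨m, hm, h, hh, rfl⟩ := hdec g
    exact Subgroup.mul_mem _ (Subgroup.mem_sup_left hm) (Subgroup.mem_sup_right hh)
  refine ⟨?_, ?_, ?_⟩
  · apply Subgroup.isComplement'_of_disjoint_and_mul_eq_univ (disjoint_iff.mpr hinf)
    rw [← Subgroup.normal_mul, hsup]; rfl
  · rw [eq_bot_iff]
    intro h hh
    rw [Subgroup.mem_bot]
    obtain ⟨hh1, hh2⟩ := Subgroup.mem_inf.mp hh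
    rw [MulAction.mem_stabilizer_iff] at hh1
    rw [Subgroup.mem_centralizer_iff] at hh2
    apply FaithfulSMul.eq_of_smul_eq_smul (α := Ω)
    intro ω'
    obtain ⟨n, hn⟩ := MulAction.exists_smul_eq M ω ω'
    have hn' : (n : G) • ω = ω' := hn
    rw [one_smul, ← hn', ← mul_smul, ← hh2 n n.2, mul_smul, hh1]
  · intro K hKM hHK
    apply hmin K _ hKM
    have h3 : Subgroup.normalizer (K : Set G) = ⊤ := by
      apply top_le_iff.mp
      rw [← hsup]
      apply sup_le _ hHK
      intro m hm
      rw [Subgroup.mem_normalizer_iff]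
      have hc : ∀ k ∈ K, m * k * m⁻¹ = k := by
        intro k hk
        have e : m * k = k * m := congrArg Subtype.val (mul_comm' (⟨m, hm⟩ : M) ⟨k, hKM hk⟩)
        rw [e, mul_inv_cancel_right]
      intro k
      constructor
      · intro hk
        rw [hc k hk]; exact hk
      · intro hk
        have e2 := hc _ hk
        have e3 : m * k * m⁻¹ = k := by
          apply mul_left_cancel (a := m)
          apply mul_right_cancel (b := m⁻¹)
          exact e2
        rw [← e3]; exact hk
    exact Subgroup.normalizer_eq_top_iff.mp h3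

end Cfsg.Agent.S0548
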