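import Cfsg.Statements.S0549
import Cfsg.Agent.Lib_helper1_Primitive

set_option autoImplicit false
open Cfsg

namespace Cfsg.Agent.S0549

/-- Let U be a maximal subgroup of a finite group G whose normal core is trivial, and N a nontrivial normal subgroup with centralizer C. Then C ∩ U = 1, and either C = 1 or C is a minimal normal subgroup of G. -/
theorem result {G : Type*} [Group G] [Finite G] (U : Subgroup G) (hU : IsCoatom U) (hcore : U.normalCore = ⊥) (N : Subgroup G) [N.Normal] (hN : N ≠ ⊥) : Subgroup.centralizer (N : Set G) ⊓ U = ⊥ ∧ (Subgroup.centralizer (N : Set G) = ⊥ ∨ (Subgroup.centralizer (N : Set G) ≠ ⊥ ∧ ∀ K : Subgroup G, K.Normal → K ≤ Subgroup.centralizer (N : Set G) → K = ⊥ ∨ K = Subgroup.centralizer (N : Set G))) := by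
  have hNU : ¬ N ≤ U := by
    intro h
    have := Subgroup.normal_le_normalCore.mpr h
    rw [hcore] at this
    exact hN (le_bot_iff.mp this)
  have hsup : N ⊔ U = ⊤ := Cfsg.Agent.Lib_helper1_MaxSub.sup_eq_top_of_coatom hU hNU
  set C := Subgroup.centralizer (N : Set G) with hC
  have hCU : C ⊓ U = ⊥ := by
    have hn : (C ⊓ U).Normal := by
      have h1 : U ≤ Subgroup.normalizer ((C ⊓ U : Subgroup G) : Set G) :=
        Cfsg.Agent.Lib_helper1_SZConj.le_normalizer_inf_of_normal C U
      have h2 : N ≤ Subgroup.normalizer ((C ⊓ U : Subgroup G) : Set G) := by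
        intro x hx
        apply Cfsg.Agent.Lib_helper1_Basic.mem_normalizer_of_conj_le
        intro y hy
        have hy1 : y ∈ Subgroup.centralizer (N : Set G) := hy.1
        rw [Subgroup.mem_centralizer_iff] at hy1
        have e : x * y * x⁻¹ = y := by rw [hy1 x hx, mul_inv_cancel_right]
        rw [e]; exact hy
      have h3 : Subgroup.normalizer ((C ⊓ U : Subgroup G) : Set G) = ⊤ :=
        top_le_iff.mp (hsup ▸ sup_le h2 h1)
      exact Subgroup.normalizer_eq_top_iff.mp h3
    have h4 : C ⊓ U ≤ U.normalCore := Subgroup.normal_le_normalCore.mpr inf_le_right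
    rw [hcore] at h4
    exact le_bot_iff.mp h4
  refine ⟨hCU, ?_⟩
  by_cases hCb : C = ⊥
  · exact Or.inl hCb
  · refine Or.inr ⟨hCb, fun K hK hKC => ?_⟩
    by_cases hKb : K = ⊥
    · exact Or.inl hKb
    · right
      have hKU : ¬ K ≤ U := by
        intro h
        have := (Subgroup.normal_le_normalCore (hN := hK)).mpr h
        rw [hcore] at this
        exact hKb (le_bot_iff.mp this)
      have hsupK : K ⊔ U = ⊤ := Cfsg.Agent.Lib_helper1_MaxSub.sup_eq_top_of_coatom hU hKU
      apply le_antisymm hKC
      intro c hc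
      haveI := hK
      obtain ⟨k, hk, u, hu, rfl⟩ := Cfsg.Agent.Lib_helper1_Basic.exists_mul_of_sup_eq_top K U hsupK c
      have huC : u ∈ C := by
        have := C.mul_mem (C.inv_mem (hKC hk)) hc
        simpa using this
      have hu1 : u ∈ C ⊓ U := ⟨huC, hu⟩
      rw [hCU, Subgroup.mem_bot] at hu1
      rw [hu1, mul_one]; exact hk

end Cfsg.Agent.S0549
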