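import Cfsg.Statements.S0550
import Cfsg.Agent.Lib_helper1_Basic
import Cfsg.Agent.Lib_helper1_SZConj
import Cfsg.Agent.Lib_helper1_MaxSub

set_option autoImplicit false
open Cfsg

namespace Cfsg.Agent.S0550

open Cfsg.Agent.Lib_helper1_Basic Cfsg.Agent.Lib_helper1_SZConj Cfsg.Agent.Lib_helper1_MaxSub

theorem half {G : Type*} [Group G] [Finite G] (U : Subgroup G) (hU : IsCoatom U)
    (hcore : U.normalCore = ⊥) (A B : Subgroup G) [A.Normal] [B.Normal] (hA : A ≠ ⊥) (hB : B ≠ ⊥)
    (hAmin : ∀ K : Subgroup G, K.Normal → K ≤ A → K = ⊥ ∨ K = A)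
    (hAB : A ≠ B)
    (hBmin : ∀ K : Subgroup G, K.Normal → K ≤ B → K = ⊥ ∨ K = B) :
    Subgroup.centralizer (A : Set G) = B ∧ Subgroup.IsComplement' A U ∧ ¬ IsMulCommutative A ∧
      Nonempty (A ≃* ↥((A ⊔ B) ⊓ U)) := by
  have hdisj : A ⊓ B = ⊥ := by
    rcases hAmin (A ⊓ B) inferInstance inf_le_left with h | h
    · exact h
    · rcases hBmin (A ⊓ B) inferInstance inf_le_right with h' | h'
      · exact h'
      · exact absurd (h.symm.trans h') hAB
  have hcomm : ∀ a ∈ A, ∀ b ∈ B, a * b = b * a := fun a ha b hb =>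
    (Subgroup.commute_of_normal_of_disjoint A B inferInstance inferInstance
      (disjoint_iff.mpr hdisj) a b ha hb).eq
  have hnle : ∀ N : Subgroup G, N.Normal → N ≠ ⊥ → ¬ N ≤ U := by
    intro N hN hN1 hle
    have := Subgroup.normal_le_normalCore.mpr hle
    rw [hcore, le_bot_iff] at this
    exact hN1 this
  have hAU : A ⊔ U = ⊤ := sup_eq_top_of_coatom hU (hnle A inferInstance hA)
  have hBU : B ⊔ U = ⊤ := sup_eq_top_of_coatom hU (hnle B inferInstance hB)
  -- normal subgroups of `G` inside `U` are trivial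
  have hbot : ∀ X : Subgroup G, X ≤ U → U ≤ Subgroup.normalizer (X : Set G) →
      (∀ x ∈ X, ∀ b ∈ B, b * x = x * b) → X = ⊥ := by
    intro X hXU hUX hXB
    have h2 : B ≤ Subgroup.normalizer (X : Set G) := by
      intro b hb
      apply mem_normalizer_of_conj_le
      intro y hy
      have e : b * y * b⁻¹ = y := by rw [hXB y hy b hb, mul_inv_cancel_right]
      rw [e]; exact hy
    have h3 : Subgroup.normalizer (X : Set G) = ⊤ := top_le_iff.mp (hBU ▸ sup_le h2 hUX)
    have hn : X.Normal := Subgroup.normalizer_eq_top_iff.mp h3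
    have h4 : X ≤ U.normalCore := Subgroup.normal_le_normalCore.mpr hXU
    rw [hcore] at h4
    exact le_bot_iff.mp h4
  have hAUinf : A ⊓ U = ⊥ := by
    apply hbot _ inf_le_right (le_normalizer_inf_of_normal A U)
    intro x hx b hb
    exact (hcomm x hx.1 b hb).symm
  have hBUinf : B ⊓ U = ⊥ := by
    -- symmetric argument with `A` in place of `B`
    have h2 : A ≤ Subgroup.normalizer ((B ⊓ U : Subgroup G) : Set G) := by
      intro a ha
      apply mem_normalizer_of_conj_le
      intro y hy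
      have e : a * y * a⁻¹ = y := by rw [hcomm a ha y hy.1, mul_inv_cancel_right]
      rw [e]; exact hy
    have h3 : Subgroup.normalizer ((B ⊓ U : Subgroup G) : Set G) = ⊤ :=
      top_le_iff.mp (hAU ▸ sup_le h2 (le_normalizer_inf_of_normal B U))
    have hn : (B ⊓ U).Normal := Subgroup.normalizer_eq_top_iff.mp h3
    have h4 : B ⊓ U ≤ U.normalCore := Subgroup.normal_le_normalCore.mpr inf_le_right
    rw [hcore] at h4
    exact le_bot_iff.mp h4
  have hCU : Subgroup.centralizer (A : Set G) ⊓ U = ⊥ := by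
    have h2 : A ≤ Subgroup.normalizer ((Subgroup.centralizer (A : Set G) ⊓ U : Subgroup G) : Set G) := by
      intro a ha
      apply mem_normalizer_of_conj_le
      intro y hy
      have hy1 := Subgroup.mem_centralizer_iff.mp hy.1 a ha
      have e : a * y * a⁻¹ = y := by rw [hy1, mul_inv_cancel_right]
      rw [e]; exact hy
    have h3 : Subgroup.normalizer ((Subgroup.centralizer (A : Set G) ⊓ U : Subgroup G) : Set G) = ⊤ :=
      top_le_iff.mp (hAU ▸ sup_le h2 (le_normalizer_inf_of_normal _ U))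
    have hn : (Subgroup.centralizer (A : Set G) ⊓ U).Normal := Subgroup.normalizer_eq_top_iff.mp h3
    have h4 : Subgroup.centralizer (A : Set G) ⊓ U ≤ U.normalCore :=
      Subgroup.normal_le_normalCore.mpr inf_le_right
    rw [hcore] at h4
    exact le_bot_iff.mp h4
  have hBC : B ≤ Subgroup.centralizer (A : Set G) := by
    intro b hb
    rw [Subgroup.mem_centralizer_iff]
    intro a ha
    exact hcomm a ha b hb
  have hCB : Subgroup.centralizer (A : Set G) = B := by
    apply le_antisymm _ hBC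
    intro c hc
    obtain ⟨b, hb, u, hu, rfl⟩ := exists_mul_of_sup_eq_top B U hBU c
    have huC : u ∈ Subgroup.centralizer (A : Set G) := by
      have := (Subgroup.centralizer (A : Set G)).mul_mem
        ((Subgroup.centralizer (A : Set G)).inv_mem (hBC hb)) hc
      simpa using this
    have hu1 : u ∈ Subgroup.centralizer (A : Set G) ⊓ U := ⟨huC, hu⟩
    rw [hCU, Subgroup.mem_bot] at hu1
    rw [hu1, mul_one]; exact hb
  refine ⟨hCB, ?_, ?_, ?_⟩
  · apply Subgroup.isComplement'_of_disjoint_and_mul_eq_univ (disjoint_iff.mpr hAUinf)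
    rw [← Subgroup.normal_mul, hAU]; rfl
  · intro hab
    have hAC : A ≤ Subgroup.centralizer (A : Set G) := by
      intro x hx
      rw [Subgroup.mem_centralizer_iff]
      intro y hy
      exact setLike_mul_comm hy hx
    rw [hCB] at hAC
    have : A ≤ A ⊓ B := le_inf le_rfl hAC
    rw [hdisj, le_bot_iff] at this
    exact hA this
  · -- both `A` and `(A ⊔ B) ⊓ U` embed in `G ⧸ B` with the same image
    let fA : ↥A →* G ⧸ B := (QuotientGroup.mk' B).comp A.subtype
    let fD : ↥((A ⊔ B) ⊓ U) →* G ⧸ B := (QuotientGroup.mk' B).comp ((A ⊔ B) ⊓ U).subtype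
    have hfA : Function.Injective fA := by
      rw [injective_iff_map_eq_one]
      intro a ha
      have h1 : (a : G) ∈ B := (QuotientGroup.eq_one_iff _).mp ha
      have h2 : (a : G) ∈ A ⊓ B := ⟨a.2, h1⟩
      rw [hdisj, Subgroup.mem_bot] at h2
      exact Subtype.ext h2
    have hfD : Function.Injective fD := by
      rw [injective_iff_map_eq_one]
      intro d hd
      have h1 : (d : G) ∈ B := (QuotientGroup.eq_one_iff _).mp hd
      have h2 : (d : G) ∈ B ⊓ U := ⟨h1, d.2.2⟩
      rw [hBUinf, Subgroup.mem_bot] at h2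
      exact Subtype.ext h2
    have hrange : fA.range = fD.range := by
      ext y
      constructor
      · rintro ⟨a, rfl⟩
        obtain ⟨b, hb, u, hu, hbu⟩ := exists_mul_of_sup_eq_top B U hBU (a : G)
        have hu' : u = b⁻¹ * (a : G) := by rw [hbu]; group
        have h5 : b⁻¹ * (a : G) ∈ A ⊔ B :=
          mul_mem (inv_mem (Subgroup.mem_sup_right hb)) (Subgroup.mem_sup_left a.2)
        have huD : u ∈ (A ⊔ B) ⊓ U := by
          rw [hu']
          exact ⟨h5, by rw [← hu']; exact hu⟩
        refine ⟨⟨u, huD⟩, ?_⟩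
        show (QuotientGroup.mk' B) u = (QuotientGroup.mk' B) (a : G)
        rw [hbu, map_mul, QuotientGroup.mk'_apply, QuotientGroup.mk'_apply,
          (QuotientGroup.eq_one_iff b).mpr hb, one_mul]
      · rintro ⟨d, rfl⟩
        have hd : (d : G) ∈ A ⊔ B := d.2.1
        rw [Subgroup.mem_sup_of_normal_right] at hd
        obtain ⟨a, ha, b, hb, hab⟩ := hd
        refine ⟨⟨a, ha⟩, ?_⟩
        show (QuotientGroup.mk' B) a = (QuotientGroup.mk' B) (d : G)
        rw [← hab, map_mul, QuotientGroup.mk'_apply, QuotientGroup.mk'_apply,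
          (QuotientGroup.eq_one_iff b).mpr hb, mul_one]
    exact ⟨(MonoidHom.ofInjective hfA).trans
      ((MulEquiv.subgroupCongr hrange).trans (MonoidHom.ofInjective hfD).symm)⟩
/-- Let U be a maximal subgroup with trivial normal core in a finite group G, and A ≠ B two minimal normal subgroups. Then A is the centralizer of B and B that of A, U complements each of them, A and B are non-abelian, and A, B and (A ⊔ B) ∩ U are pairwise isomorphic. -/
theorem result {G : Type*} [Group G] [Finite G] (U : Subgroup G) (hU : IsCoatom U) (hcore : U.normalCore = ⊥) (A B : Subgroup G) [A.Normal] [B.Normal] (hA : A ≠ ⊥) (hB : B ≠ ⊥) (hAmin : ∀ K : Subgroup G, K.Normal → K ≤ A → K = ⊥ ∨ K = A) (hBmin : ∀ K : Subgroup G, K.Normal → K ≤ B → K = ⊥ ∨ K = B) (hAB : A ≠ B) : Subgroup.centralizer (B : Set G) = A ∧ Subgroup.centralizer (A : Set G) = B ∧ Subgroup.IsComplement' A U ∧ Subgroup.IsComplement' B U ∧ ¬ IsMulCommutative A ∧ Nonempty (A ≃* B) ∧ Nonempty (A ≃* ↥((A ⊔ B) ⊓ U)) := by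
  obtain ⟨h1, h2, h3, ⟨e1⟩⟩ := half U hU hcore A B hA hB hAmin hAB hBmin
  obtain ⟨h1', h2', h3', h4'⟩ := half U hU hcore B A hB hA hBmin (Ne.symm hAB) hAmin
  rw [sup_comm] at h4'
  obtain ⟨e2⟩ := h4'
  exact ⟨h1', h1, h2, h2', h3, ⟨e1.trans e2.symm⟩, ⟨e1⟩⟩

end Cfsg.Agent.S0550
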