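import Cfsg.Statements.S0553
import Cfsg.Agent.Lib_helper1_MaxSub

set_option autoImplicit false
open Cfsg

namespace Cfsg.Agent.S0553

open Cfsg.Agent.Lib_helper1_Basic Cfsg.Agent.Lib_helper1_Hall Cfsg.Agent.Lib_helper1_MaxSub

universe u

theorem aux (n : ℕ) : ∀ (G : Type u) [Group G] [Finite G] [Group.IsSolvable G] [Nontrivial G],
    Nat.card G = n →
    (∀ M : Subgroup G, IsCoatom M → (Nat.card M).Coprime M.index) →
    ∃ p : ℕ, p.Prime ∧ p ∣ Nat.card G ∧ ∀ P : Sylow p G, (P : Subgroup G).Normal := by
  induction n using Nat.strong_induction_on with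
  | _ n ih =>
  intro G _ _ _ _ hn h
  obtain ⟨N, hNn, hN1, hNab, hNmin, p, k, hp, hk, hNcard⟩ := exists_minimal_normal (G := G)
  have := hNn
  by_cases hNΦ : N ≤ frattini G
  · -- Frattini case
    have hNtop : N ≠ ⊤ := by
      intro hT
      obtain ⟨M, hM, _⟩ := (eq_top_or_exists_le_coatom (⊥ : Subgroup G)).resolve_left bot_ne_top
      have h1 : N ≤ M := hNΦ.trans (frattini_le_coatom hM)
      rw [hT] at h1
      exact hM.1 (top_le_iff.mp h1)
    have : Nontrivial (G ⧸ N) := QuotientGroup.nontrivial_iff.mpr hNtop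
    have hcardG := Subgroup.card_eq_card_quotient_mul_card_subgroup N
    have hlt : Nat.card (G ⧸ N) < n := by
      rw [hn] at hcardG
      have hpos : 0 < Nat.card (G ⧸ N) := Nat.card_pos
      have h1 : 1 < Nat.card N := by
        rw [hNcard]; exact Nat.one_lt_pow hk hp.one_lt
      nlinarith
    obtain ⟨q, hq, hqd, hqn⟩ := ih _ hlt (G ⧸ N) rfl (by
      intro M hM
      have hc := Subgroup.isCoatom_comap_of_surjective (QuotientGroup.mk'_surjective N) hM
      have h1 := h _ hc
      rw [Subgroup.index_comap_of_surjective _ (QuotientGroup.mk'_surjective N),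
        card_comap_mk'] at h1
      exact Nat.Coprime.coprime_dvd_left (Dvd.intro_left _ rfl) h1)
    have : Fact q.Prime := ⟨hq⟩
    refine ⟨q, hq, hqd.trans (Dvd.intro _ hcardG.symm), fun Q => ?_⟩
    have hQbar : ((Q.mapSurjective (QuotientGroup.mk'_surjective N) : Sylow q (G ⧸ N)) :
        Subgroup (G ⧸ N)).Normal := hqn _
    rw [Sylow.coe_mapSurjective] at hQbar
    have hLn : (((Q : Subgroup G).map (QuotientGroup.mk' N)).comap (QuotientGroup.mk' N)).Normal :=
      hQbar.comap _
    have hQL : (Q : Subgroup G) ≤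
        ((Q : Subgroup G).map (QuotientGroup.mk' N)).comap (QuotientGroup.mk' N) :=
      Subgroup.le_comap_map _ _
    have hfr := Sylow.normalizer_sup_eq_top' Q hQL
    rw [QuotientGroup.comap_map_mk'] at hfr
    have h3 : Subgroup.normalizer ((Q : Subgroup G) : Set G) ⊔ frattini G = ⊤ := by
      apply top_le_iff.mp
      rw [← hfr]
      exact sup_le le_sup_left
        (sup_le (hNΦ.trans le_sup_right) (Subgroup.le_normalizer.trans le_sup_left))
    have h4 := frattini_nongenerating h3
    exact Subgroup.normalizer_eq_top_iff.mp h4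
  · -- complemented case
    obtain ⟨M, hM, hNM⟩ := exists_coatom_not_le N hNΦ
    have hc := isComplement'_of_minimal_abelian N hNmin M hM hNM
    have hidx : M.index = p ^ k := by rw [hc.index_eq_card, hNcard]
    have hcop := h M hM
    rw [hidx] at hcop
    have hpM : ¬ p ∣ Nat.card M := by
      have h1 : (Nat.card M).Coprime p := Nat.Coprime.coprime_dvd_right (dvd_pow_self p hk) hcop
      exact (Nat.Prime.coprime_iff_not_dvd hp).mp h1.symm
    have : Fact p.Prime := ⟨hp⟩
    have hNp : IsPGroup p N := IsPGroup.of_card hNcard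
    have hNidx : ¬ p ∣ N.index := by rw [hc.symm.index_eq_card]; exact hpM
    refine ⟨p, hp, ?_, fun P => ?_⟩
    · have h1 : p ∣ Nat.card N := by rw [hNcard]; exact dvd_pow_self p hk
      exact h1.trans (Subgroup.card_subgroup_dvd_card N)
    · apply sylow_normal_of_normal (hNp.toSylow hNidx) _ P
      rw [IsPGroup.toSylow_coe]; exact hNn

/-- Let G be a nontrivial finite solvable group in which every maximal subgroup has order coprime to its index. Then for some prime p dividing the order of G the Sylow p-subgroups of G are normal. -/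
theorem result {G : Type*} [Group G] [Finite G] [Group.IsSolvable G] [Nontrivial G] (h : ∀ M : Subgroup G, IsCoatom M → (Nat.card M).Coprime M.index) : ∃ p : ℕ, p.Prime ∧ p ∣ Nat.card G ∧ ∀ P : Sylow p G, (P : Subgroup G).Normal :=
  aux _ G rfl h

end Cfsg.Agent.S0553
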