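import Cfsg.Statements.S0554
import Mathlib
import Cfsg.Agent.Lib_helper1_SylProd

set_option autoImplicit false
open Cfsg

namespace Cfsg.Agent.S0554

open scoped Pointwise in
/-- Let G be a finite solvable group and let S assign to each of t distinct primes, including every prime divisor of the order of G, a Sylow subgroup of G. Then every element of G is a product s_0 s_1 ⋯ s_(t-1) with s_i in S i, the factors taken in the given order. -/
theorem result {G : Type*} [Group G] [Finite G] [Group.IsSolvable G] (t : ℕ) (p : Fin t → ℕ) (hp : ∀ i, (p i).Prime) (hinj : Function.Injective p) (hall : ∀ q : ℕ, q.Prime → q ∣ Nat.card G → ∃ i, p i = q) (S : (i : Fin t) → Sylow (p i) G) : ∀ g : G, ∃ s : (i : Fin t) → G, (∀ i, s i ∈ (S i : Subgroup G)) ∧ g = (List.ofFn s).prod := by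
  intro g
  have h := Cfsg.Agent.Lib_helper1_SylProd.sylow_prod (Nat.card G) G rfl t p hp hall S
  have hg : g ∈ (List.ofFn (fun i => ((S i : Subgroup G) : Set G))).prod := by
    rw [h]; trivial
  rw [Set.mem_prod_list_ofFn] at hg
  obtain ⟨f, hf⟩ := hg
  exact ⟨fun i => (f i : G), fun i => (f i).2, hf.symm⟩

end Cfsg.Agent.S0554
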