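import Cfsg.Statements.S0555
import Mathlib
import Cfsg.Agent.Lib_helper1_DerCyc

set_option autoImplicit false
open Cfsg

namespace Cfsg.Agent.S0555

/-- Let i ≥ 1. If in the derived series of a group the quotient of the i-th term by the (i+1)-st and the quotient of the (i+1)-st by the (i+2)-nd are both cyclic, then the (i+1)-st and (i+2)-nd terms coincide. -/
theorem result {G : Type*} [Group G] (i : ℕ) (hi : 1 ≤ i) (h₁ : IsCyclic (↥(derivedSeries G i) ⧸ (derivedSeries G (i + 1)).subgroupOf (derivedSeries G i))) (h₂ : IsCyclic (↥(derivedSeries G (i + 1)) ⧸ (derivedSeries G (i + 2)).subgroupOf (derivedSeries G (i + 1)))) : derivedSeries G (i + 1) = derivedSeries G (i + 2) := by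
  apply le_antisymm
  · haveI := derivedSeries_normal G (i + 1)
    haveI := derivedSeries_normal G (i + 2)
    refine Cfsg.Agent.Lib_helper1_DerCyc.derived_cyclic (derivedSeries G i) (derivedSeries G (i + 1))
      (derivedSeries G (i + 2)) ?_ ?_ ?_ h₁ h₂
    · rw [← derivedSeries_one]
      exact derivedSeries_antitone G hi
    · rw [derivedSeries_succ]
    · rw [derivedSeries_succ G (i + 1)]
  · exact derivedSeries_antitone G (by omega)

end Cfsg.Agent.S0555
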