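import Cfsg.Statements.S0559
import Cfsg.Agent.Lib_helper1_Basic

set_option autoImplicit false
open Pointwise
open Cfsg

namespace Cfsg.Agent.S0559

open Cfsg.Agent.Lib_helper1_Basic in
/-- Let G = HK be a finite group (every element a product of an element of H and an element of K), and let A and B be conjugates of H and K. Then every element is a product of an element of A and one of B, and there is g with A = gHg⁻¹ and B = gKg⁻¹ simultaneously. -/
theorem result {G : Type*} [Group G] [Finite G] (H K A B : Subgroup G) (hHK : ∀ g : G, ∃ h ∈ H, ∃ k ∈ K, g = h * k) (hA : ∃ x : G, A = MulAut.conj x • H) (hB : ∃ y : G, B = MulAut.conj y • K) : (∀ g : G, ∃ a ∈ A, ∃ b ∈ B, g = a * b) ∧ ∃ g : G, A = MulAut.conj g • H ∧ B = MulAut.conj g • K := by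
  obtain ⟨x, rfl⟩ := hA
  obtain ⟨y, rfl⟩ := hB
  obtain ⟨h, hh, k, hk, hxy⟩ := hHK (x⁻¹ * y)
  have hy : y = x * h * k := by rw [mul_assoc, ← hxy]; group
  have hA' : MulAut.conj x • H = MulAut.conj (x * h) • H := by
    ext z
    rw [mem_conj_smul, mem_conj_smul]
    have e : (x * h)⁻¹ * z * (x * h) = h⁻¹ * (x⁻¹ * z * x) * h := by group
    rw [e]
    constructor
    · intro hz; exact H.mul_mem (H.mul_mem (H.inv_mem hh) hz) hh
    · intro hz
      have : x⁻¹ * z * x = h * (h⁻¹ * (x⁻¹ * z * x) * h) * h⁻¹ := by group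
      rw [this]; exact H.mul_mem (H.mul_mem hh hz) (H.inv_mem hh)
  have hB' : MulAut.conj y • K = MulAut.conj (x * h) • K := by
    ext z
    rw [mem_conj_smul, mem_conj_smul, hy]
    have e : (x * h * k)⁻¹ * z * (x * h * k) = k⁻¹ * ((x * h)⁻¹ * z * (x * h)) * k := by group
    rw [e]
    constructor
    · intro hz
      have : (x * h)⁻¹ * z * (x * h) = k * (k⁻¹ * ((x * h)⁻¹ * z * (x * h)) * k) * k⁻¹ := by group
      rw [this]; exact K.mul_mem (K.mul_mem hk hz) (K.inv_mem hk)
    · intro hz; exact K.mul_mem (K.mul_mem (K.inv_mem hk) hz) hk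
  refine ⟨?_, x * h, hA', hB'⟩
  rw [hA', hB']
  intro g
  obtain ⟨h', hh', k', hk', hg⟩ := hHK ((x * h)⁻¹ * g * (x * h))
  refine ⟨(x * h) * h' * (x * h)⁻¹, conj_mem_conj_smul H _ _ hh', (x * h) * k' * (x * h)⁻¹,
    conj_mem_conj_smul K _ _ hk', ?_⟩
  have : (x * h) * h' * (x * h)⁻¹ * ((x * h) * k' * (x * h)⁻¹) = (x * h) * (h' * k') * (x * h)⁻¹ := by
    group
  rw [this, ← hg]; group

end Cfsg.Agent.S0559
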