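import Cfsg.Statements.S0560
import Mathlib
import Cfsg.Agent.Lib_helper1_ProdCard
import Cfsg.Agent.Lib_helper1_Basic

set_option autoImplicit false
open Pointwise
open Cfsg

namespace Cfsg.Agent.S0560

open scoped Pointwise in
/-- Let the finite group G be the product HK of two subgroups and p a prime. Then there are Sylow p-subgroups P of H and Q of K and a Sylow p-subgroup R of G whose underlying set is the product set of P and Q. -/
theorem result {G : Type*} [Group G] [Finite G] (H K : Subgroup G) (hHK : ∀ g : G, ∃ h ∈ H, ∃ k ∈ K, g = h * k) (p : ℕ) [Fact p.Prime] : ∃ (P : Sylow p H) (Q : Sylow p K) (R : Sylow p G), ((R : Subgroup G) : Set G) = (((P : Subgroup H).map H.subtype : Subgroup G) : Set G) * (((Q : Subgroup K).map K.subtype : Subgroup G) : Set G) := by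
  classical
  have hp : p.Prime := Fact.out
  obtain ⟨P0⟩ : Nonempty (Sylow p H) := inferInstance
  obtain ⟨Q0⟩ : Nonempty (Sylow p K) := inferInstance
  have hP0p : IsPGroup p ((P0 : Subgroup H).map H.subtype) := P0.isPGroup'.map _
  have hQ0p : IsPGroup p ((Q0 : Subgroup K).map K.subtype) := Q0.isPGroup'.map _
  obtain ⟨R0, hR0⟩ := hP0p.exists_le_sylow
  obtain ⟨R1, hR1⟩ := hQ0p.exists_le_sylow
  obtain ⟨g, hg⟩ := MulAction.exists_smul_eq G R0 R1
  obtain ⟨h, hh, k, hk, hgk⟩ := hHK g⁻¹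
  have hgeq : g = k⁻¹ * h⁻¹ := by
    have : g = (g⁻¹)⁻¹ := by group
    rw [this, hgk]; group
  refine ⟨(⟨h⁻¹, H.inv_mem hh⟩ : H) • P0, (⟨k, hk⟩ : K) • Q0, h⁻¹ • R0, ?_⟩
  have hPR : (((⟨h⁻¹, H.inv_mem hh⟩ : H) • P0 : Sylow p H) : Subgroup H).map H.subtype ≤
      ((h⁻¹ • R0 : Sylow p G) : Subgroup G) := by
    rintro _ ⟨x, hx, rfl⟩
    have hx' := (Cfsg.Agent.Lib_helper1_Basic.mem_sylow_smul P0 _ x).mp hx
    rw [Cfsg.Agent.Lib_helper1_Basic.mem_sylow_smul]
    exact hR0 ⟨_, hx', rfl⟩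
  have hQR : (((⟨k, hk⟩ : K) • Q0 : Sylow p K) : Subgroup K).map K.subtype ≤
      ((h⁻¹ • R0 : Sylow p G) : Subgroup G) := by
    rintro _ ⟨y, hy, rfl⟩
    have hy' := (Cfsg.Agent.Lib_helper1_Basic.mem_sylow_smul Q0 _ y).mp hy
    rw [Cfsg.Agent.Lib_helper1_Basic.mem_sylow_smul]
    have h1 : K.subtype ((⟨k, hk⟩ : K)⁻¹ * y * ⟨k, hk⟩) ∈ (R1 : Subgroup G) := hR1 ⟨_, hy', rfl⟩
    rw [← hg, Cfsg.Agent.Lib_helper1_Basic.mem_sylow_smul] at h1
    have e : g⁻¹ * K.subtype ((⟨k, hk⟩ : K)⁻¹ * y * ⟨k, hk⟩) * g =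
        h⁻¹⁻¹ * K.subtype y * h⁻¹ := by
      rw [hgeq]
      simp only [map_mul, map_inv, Subgroup.subtype_apply]
      group
    rw [e] at h1
    exact h1
  generalize ((⟨h⁻¹, H.inv_mem hh⟩ : H) • P0 : Sylow p H) = P at hPR ⊢
  generalize ((⟨k, hk⟩ : K) • Q0 : Sylow p K) = Q at hQR ⊢
  generalize (h⁻¹ • R0 : Sylow p G) = R at hPR hQR ⊢
  -- counting
  have hsub : (((P : Subgroup H).map H.subtype : Subgroup G) : Set G) *
      (((Q : Subgroup K).map K.subtype : Subgroup G) : Set G) ⊆ ((R : Subgroup G) : Set G) := by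
    rintro _ ⟨x, hx, y, hy, rfl⟩
    exact (R : Subgroup G).mul_mem (hPR hx) (hQR hy)
  have hA : Nat.card G * Nat.card (H ⊓ K : Subgroup G) = Nat.card H * Nat.card K := by
    rw [← Cfsg.Agent.Lib_helper1_ProdCard.card_mul_set H K]
    congr 1
    have : (H : Set G) * (K : Set G) = Set.univ := by
      rw [Set.eq_univ_iff_forall]
      intro x
      obtain ⟨a, ha, b, hb, rfl⟩ := hHK x
      exact ⟨a, ha, b, hb, rfl⟩
    rw [this, Nat.card_univ]
  have hB := Cfsg.Agent.Lib_helper1_ProdCard.card_mul_set ((P : Subgroup H).map H.subtype)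
    ((Q : Subgroup K).map K.subtype)
  have hPc : Nat.card ((P : Subgroup H).map H.subtype) = p ^ (Nat.card H).factorization p := by
    rw [Subgroup.card_subtype]; exact P.card_eq_multiplicity
  have hQc : Nat.card ((Q : Subgroup K).map K.subtype) = p ^ (Nat.card K).factorization p := by
    rw [Subgroup.card_subtype]; exact Q.card_eq_multiplicity
  have hRc : Nat.card (R : Subgroup G) = p ^ (Nat.card G).factorization p := R.card_eq_multiplicity
  have hIp : IsPGroup p ((P : Subgroup H).map H.subtype ⊓ (Q : Subgroup K).map K.subtype : Subgroup G) :=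
    (P.isPGroup'.map H.subtype).to_le inf_le_left
  obtain ⟨d, hd⟩ := IsPGroup.iff_card.mp hIp
  have hIle : (P : Subgroup H).map H.subtype ⊓ (Q : Subgroup K).map K.subtype ≤ H ⊓ K :=
    inf_le_inf (Subgroup.map_subtype_le _) (Subgroup.map_subtype_le _)
  have hdc : d ≤ (Nat.card (H ⊓ K : Subgroup G)).factorization p := by
    rw [← Nat.Prime.pow_dvd_iff_le_factorization hp Nat.card_pos.ne', ← hd]
    exact Subgroup.card_dvd_of_le hIle
  have hfac : (Nat.card G).factorization p + (Nat.card (H ⊓ K : Subgroup G)).factorization p =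
      (Nat.card H).factorization p + (Nat.card K).factorization p := by
    have := congrArg (fun n => n.factorization p) hA
    rw [Nat.factorization_mul Nat.card_pos.ne' Nat.card_pos.ne',
      Nat.factorization_mul Nat.card_pos.ne' Nat.card_pos.ne'] at this
    simpa using this
  have hle : Nat.card ((((P : Subgroup H).map H.subtype : Subgroup G) : Set G) *
      (((Q : Subgroup K).map K.subtype : Subgroup G) : Set G) : Set G) ≤ Nat.card (R : Subgroup G) :=
    Nat.card_mono (Set.toFinite _) hsub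
  rw [hd, hPc, hQc, ← pow_add] at hB
  rw [hRc] at hle
  have h5 : p ^ ((Nat.card H).factorization p + (Nat.card K).factorization p) ≤
      p ^ ((Nat.card G).factorization p + d) := by
    rw [← hB, pow_add]
    exact Nat.mul_le_mul_right _ hle
  have h6 := (Nat.pow_le_pow_iff_right hp.one_lt).mp h5
  have hdeq : d = (Nat.card (H ⊓ K : Subgroup G)).factorization p := by omega
  have hcard : Nat.card ((((P : Subgroup H).map H.subtype : Subgroup G) : Set G) *
      (((Q : Subgroup K).map K.subtype : Subgroup G) : Set G) : Set G) = p ^ (Nat.card G).factorization p := by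
    rw [hdeq, ← hfac, pow_add] at hB
    exact Nat.eq_of_mul_eq_mul_right (pow_pos hp.pos _) hB
  symm
  apply Set.eq_of_subset_of_ncard_le hsub _ (Set.toFinite _)
  rw [← Nat.card_coe_set_eq, ← Nat.card_coe_set_eq, hcard]
  exact hRc.le

end Cfsg.Agent.S0560
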