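import Cfsg.Statements.S0562
import Cfsg.Agent.Lib_helper1_Basic

set_option autoImplicit false
open Cfsg

namespace Cfsg.Agent.S0562

open Cfsg.Agent.Lib_helper1_Basic in
/-- Let the finite group G be the product HK of subgroups, A normal in H, B normal in K, and L the normalizer of the subgroup generated by A and B. Then every element of L is a product of an element of L ∩ H and an element of L ∩ K. -/
theorem result {G : Type*} [Group G] [Finite G] (H K A B : Subgroup G) (hHK : ∀ g : G, ∃ h ∈ H, ∃ k ∈ K, g = h * k) (hA : A ≤ H) (hAn : (A.subgroupOf H).Normal) (hB : B ≤ K) (hBn : (B.subgroupOf K).Normal) : ∀ g ∈ Subgroup.normalizer ((A ⊔ B : Subgroup G) : Set G), ∃ h ∈ Subgroup.normalizer ((A ⊔ B : Subgroup G) : Set G) ⊓ H, ∃ k ∈ Subgroup.normalizer ((A ⊔ B : Subgroup G) : Set G) ⊓ K, g = h * k := by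
  intro g hg
  obtain ⟨h, hh, k, hk, rfl⟩ := hHK g
  have key : A ⊔ B ≤ (A ⊔ B).comap (MulAut.conj h).toMonoidHom := by
    apply sup_le
    · intro a ha
      show h * a * h⁻¹ ∈ A ⊔ B
      exact Subgroup.mem_sup_left (conj_mem_of_normal_subgroupOf hA hAn hh ha)
    · intro b hb
      show h * b * h⁻¹ ∈ A ⊔ B
      have e : h * b * h⁻¹ = (h * k) * (k⁻¹ * b * (k⁻¹)⁻¹) * (h * k)⁻¹ := by group
      rw [e]
      exact (hg _).mp (Subgroup.mem_sup_right (conj_mem_of_normal_subgroupOf hB hBn (K.inv_mem hk) hb))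
  have hhN : h ∈ Subgroup.normalizer ((A ⊔ B : Subgroup G) : Set G) :=
    mem_normalizer_of_conj_le _ h (fun m hm => key hm)
  have hkN : k ∈ Subgroup.normalizer ((A ⊔ B : Subgroup G) : Set G) := by
    have : k = h⁻¹ * (h * k) := by group
    rw [this]
    exact Subgroup.mul_mem _ (Subgroup.inv_mem _ hhN) hg
  exact ⟨h, ⟨hhN, hh⟩, k, ⟨hkN, hk⟩, rfl⟩

end Cfsg.Agent.S0562
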