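import Cfsg.Statements.S0567
import Mathlib

set_option autoImplicit false
open Cfsg

namespace Cfsg.Agent.S0567

open scoped commutatorElement in
/-- A subgroup H of a group G is subnormal exactly when, for some m, the subgroup obtained from G by taking the commutator with H m times in succession is contained in H. -/
theorem result {G : Type*} [Group G] (H : Subgroup G) : H.IsSubnormal ↔ ∃ m : ℕ, (fun K : Subgroup G => ⁅K, H⁆)^[m] ⊤ ≤ H := by
  have fwd : H.IsSubnormal → ∃ m : ℕ, (fun K : Subgroup G => ⁅K, H⁆)^[m] ⊤ ≤ H := by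
    intro h
    induction h with
    | top => exact ⟨0, le_rfl⟩
    | step H K hle hK hN ih =>
      obtain ⟨m, hm⟩ := ih
      refine ⟨m + 1, ?_⟩
      have hmono : ∀ j : ℕ, (fun K' : Subgroup G => ⁅K', H⁆)^[j] ⊤ ≤
          (fun K' : Subgroup G => ⁅K', K⁆)^[j] ⊤ := by
        intro j
        induction j with
        | zero => exact le_rfl
        | succ j ihj =>
          rw [Function.iterate_succ_apply', Function.iterate_succ_apply']
          exact Subgroup.commutator_mono ihj hle
      rw [Function.iterate_succ_apply']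
      refine (Subgroup.commutator_mono ((hmono m).trans hm) le_rfl).trans ?_
      rw [Subgroup.commutator_le]
      intro k hk h hh
      have h1 := hN.conj_mem ⟨h, hle hh⟩ (by rw [Subgroup.mem_subgroupOf]; exact hh) ⟨k, hk⟩
      rw [Subgroup.mem_subgroupOf] at h1
      rw [commutatorElement_def]
      exact H.mul_mem (by simpa using h1) (H.inv_mem hh)
  -- conjugation by elements of K or H preserves ⁅K, H⁆
  have N1 : ∀ (K : Subgroup G) (g : G), (g ∈ K ∨ g ∈ H) → ∀ x ∈ ⁅K, H⁆, g * x * g⁻¹ ∈ ⁅K, H⁆ := by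
    intro K g hg
    have h1 : ⁅K, H⁆ ≤ (⁅K, H⁆).comap (MulAut.conj g).toMonoidHom := by
      rw [Subgroup.commutator_le]
      intro k hk h hh
      rw [Subgroup.mem_comap]
      show g * ⁅k, h⁆ * g⁻¹ ∈ ⁅K, H⁆
      rcases hg with hg | hg
      · have e : g * ⁅k, h⁆ * g⁻¹ = ⁅g * k, h⁆ * ⁅g, h⁆⁻¹ := by
          simp only [commutatorElement_def]; group
        rw [e]
        exact Subgroup.mul_mem _ (Subgroup.commutator_mem_commutator (K.mul_mem hg hk) hh)
          (Subgroup.inv_mem _ (Subgroup.commutator_mem_commutator hg hh))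
      · have e : g * ⁅k, h⁆ * g⁻¹ = ⁅k, g⁆⁻¹ * ⁅k, g * h⁆ := by
          simp only [commutatorElement_def]; group
        rw [e]
        exact Subgroup.mul_mem _ (Subgroup.inv_mem _ (Subgroup.commutator_mem_commutator hk hg))
          (Subgroup.commutator_mem_commutator hk (H.mul_mem hg hh))
    intro x hx
    exact h1 hx
  have N2 : ∀ (K : Subgroup G) (g : G), (g ∈ K ∨ g ∈ H) →
      ∀ x ∈ H ⊔ ⁅K, H⁆, g * x * g⁻¹ ∈ H ⊔ ⁅K, H⁆ := by
    intro K g hg
    have h1 : H ⊔ ⁅K, H⁆ ≤ (H ⊔ ⁅K, H⁆).comap (MulAut.conj g).toMonoidHom := by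
      apply sup_le
      · intro x hx
        rw [Subgroup.mem_comap]
        show g * x * g⁻¹ ∈ H ⊔ ⁅K, H⁆
        rcases hg with hg | hg
        · have e : g * x * g⁻¹ = ⁅g, x⁆ * x := by
            simp only [commutatorElement_def]; group
          rw [e]
          exact Subgroup.mul_mem _ (Subgroup.mem_sup_right (Subgroup.commutator_mem_commutator hg hx))
            (Subgroup.mem_sup_left hx)
        · exact Subgroup.mem_sup_left (H.mul_mem (H.mul_mem hg hx) (H.inv_mem hg))
      · intro x hx
        rw [Subgroup.mem_comap]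
        exact Subgroup.mem_sup_right (N1 K g hg x hx)
    intro x hx
    exact h1 hx
  have N3 : ∀ (K : Subgroup G), H ⊔ K ≤ Subgroup.normalizer ((H ⊔ ⁅K, H⁆ : Subgroup G) : Set G) := by
    intro K
    have hmem : ∀ g : G, (g ∈ K ∨ g ∈ H) →
        g ∈ Subgroup.normalizer ((H ⊔ ⁅K, H⁆ : Subgroup G) : Set G) := by
      intro g hg
      rw [Subgroup.mem_normalizer_iff]
      intro x
      constructor
      · exact N2 K g hg x
      · intro hx
        have hg' : g⁻¹ ∈ K ∨ g⁻¹ ∈ H := hg.imp (K.inv_mem) (H.inv_mem)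
        have := N2 K g⁻¹ hg' _ hx
        have e : g⁻¹ * (g * x * g⁻¹) * g⁻¹⁻¹ = x := by group
        rwa [e] at this
    exact sup_le (fun g hg => hmem g (Or.inr hg)) (fun g hg => hmem g (Or.inl hg))
  refine ⟨fwd, ?_⟩
  · rintro ⟨m, hm⟩
    have hsub : ∀ j : ℕ, (H ⊔ (fun K : Subgroup G => ⁅K, H⁆)^[j] ⊤).IsSubnormal := by
      intro j
      induction j with
      | zero => simp
      | succ j ih =>
        rw [Function.iterate_succ_apply']
        have hle : H ⊔ ⁅(fun K : Subgroup G => ⁅K, H⁆)^[j] ⊤, H⁆ ≤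
            H ⊔ (fun K : Subgroup G => ⁅K, H⁆)^[j] ⊤ := by
          apply sup_le le_sup_left
          rw [Subgroup.commutator_le]
          intro k hk h hh
          rw [commutatorElement_def]
          exact Subgroup.mul_mem _ (Subgroup.mul_mem _ (Subgroup.mul_mem _
            (Subgroup.mem_sup_right hk) (Subgroup.mem_sup_left hh))
            (Subgroup.inv_mem _ (Subgroup.mem_sup_right hk)))
            (Subgroup.inv_mem _ (Subgroup.mem_sup_left hh))
        exact Subgroup.IsSubnormal.step _ _ hle ih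
          ((Subgroup.normal_subgroupOf_iff_le_normalizer hle).mpr (N3 _))
    have := hsub m
    rwa [sup_eq_left.mpr hm] at this

end Cfsg.Agent.S0567
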