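import Cfsg.Statements.S0575
import Cfsg.Agent.Lib_helper1_Basic

set_option autoImplicit false
open Cfsg

namespace Cfsg.Agent.S0575

open Cfsg.Agent.Lib_helper1_Basic in
/-- If H is a normal subgroup of a finite group G, then the Frattini subgroup of H, viewed in G, lies in the Frattini subgroup of G. -/
theorem result {G : Type*} [Group G] [Finite G] (H : Subgroup G) [H.Normal] : (frattini ↥H).map H.subtype ≤ frattini G := by
  haveI : ((frattini ↥H).map H.subtype).Normal := inferInstance
  have hΦH : (frattini ↥H).map H.subtype ≤ H := Subgroup.map_subtype_le _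
  suffices h : ∀ M : Subgroup G, IsCoatom M → (frattini ↥H).map H.subtype ≤ M by
    show _ ≤ Order.radical (Subgroup G)
    exact le_iInf₂ (fun M hM => h M hM)
  intro M hM
  by_contra hnot
  have hsup : (frattini ↥H).map H.subtype ⊔ M = ⊤ :=
    hM.2 _ (lt_of_le_of_ne le_sup_right (fun h => hnot (h ▸ le_sup_left)))
  have hK : M.subgroupOf H ⊔ frattini ↥H = ⊤ := by
    rw [eq_top_iff]
    intro x _
    obtain ⟨φ, hφ, m, hm, hx⟩ := exists_mul_of_sup_eq_top _ M hsup (x : G)
    obtain ⟨φ', hφ', rfl⟩ := hφ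
    have hmH : m ∈ H := by
      have : m = (φ' : G)⁻¹ * x := by
        rw [hx]; simp
      rw [this]; exact H.mul_mem (H.inv_mem φ'.2) x.2
    have hxe : x = φ' * ⟨m, hmH⟩ := Subtype.ext hx
    rw [hxe]
    exact Subgroup.mul_mem _ (Subgroup.mem_sup_right hφ')
      (Subgroup.mem_sup_left (Subgroup.mem_subgroupOf.mpr hm))
  have hKtop := frattini_nongenerating hK
  have hHM : H ≤ M := by
    intro x hx
    have : (⟨x, hx⟩ : H) ∈ M.subgroupOf H := by rw [hKtop]; trivial
    exact Subgroup.mem_subgroupOf.mp this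
  exact hnot (hΦH.trans hHM)

end Cfsg.Agent.S0575
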