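import Cfsg.Statements.S0576
import Mathlib

set_option autoImplicit false
open Cfsg

namespace Cfsg.Agent.S0576

/-- Let H be a normal subgroup of a finite group G with H contained in the Frattini subgroup of G. Then the group of inner automorphisms of H is contained in the Frattini subgroup of the automorphism group of H. -/
theorem result {G : Type*} [Group G] [Finite G] (H : Subgroup G) [H.Normal] (hH : H ≤ frattini G) : (MulAut.conj : ↥H →* MulAut ↥H).range ≤ frattini (MulAut ↥H) := by
  unfold frattini Order.radical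
  apply le_iInf₂
  intro M hM
  by_contra hnot
  have hnorm : (MulAut.conj : ↥H →* MulAut ↥H).range.Normal := by
    constructor
    rintro _ ⟨h, rfl⟩ β
    refine ⟨β h, ?_⟩
    ext x
    simp
  obtain ⟨φ, hφ⟩ : ∃ φ : G →* MulAut H, φ = MulAut.conjNormal := ⟨_, rfl⟩
  have hφH : ∀ h : H, φ (h : G) = MulAut.conj h := by
    intro h
    ext x
    rw [hφ, MulAut.conjNormal_apply]
    simp
  have htop : (MulAut.conj : ↥H →* MulAut ↥H).range ⊔ M = ⊤ := by
    by_contra hne
    have h1 : M ≤ (MulAut.conj : ↥H →* MulAut ↥H).range ⊔ M := le_sup_right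
    rcases (hM.le_iff).mp h1 with h2 | h2
    · exact hne h2
    · exact hnot (h2 ▸ le_sup_left)
  have hsup : H ⊔ M.comap φ = ⊤ := by
    rw [eq_top_iff]
    intro g _
    have hg : φ g ∈ (MulAut.conj : ↥H →* MulAut ↥H).range ⊔ M := by rw [htop]; trivial
    rw [← SetLike.mem_coe, Subgroup.normal_mul] at hg
    obtain ⟨i, ⟨h, rfl⟩, m, hm, him⟩ := Set.mem_mul.mp hg
    have h2 : (h : G)⁻¹ * g ∈ M.comap φ := by
      rw [Subgroup.mem_comap, map_mul, map_inv, hφH, ← him, inv_mul_cancel_left]
      exact hm
    have : g = (h : G) * ((h : G)⁻¹ * g) := by group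
    rw [this]
    exact Subgroup.mul_mem_sup h.2 h2
  have hK : M.comap φ = ⊤ := by
    apply frattini_nongenerating
    rw [eq_top_iff, ← hsup]
    exact sup_le (le_trans hH le_sup_right) le_sup_left
  apply hnot
  rintro _ ⟨h, rfl⟩
  have : (h : G) ∈ M.comap φ := by rw [hK]; trivial
  rw [Subgroup.mem_comap, hφH] at this
  exact this

end Cfsg.Agent.S0576
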