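import Cfsg.Statements.S0578
import Cfsg.Agent.Lib_helper1_SysNorm
import Cfsg.Agent.Lib_helper1_Socle

set_option autoImplicit false
open Cfsg

namespace Cfsg.Agent.S0578

theorem aux_nilp {G : Type*} [Group G] [Finite G] [Group.IsNilpotent G]
    (h : ∀ A : Subgroup G, IsMulCommutative A →
      Subgroup.normalizer (A : Set G) = Subgroup.centralizer (A : Set G)) :
    IsMulCommutative G := by
  obtain ⟨A, ⟨hAn, hAc⟩, hmax⟩ := Cfsg.Agent.Lib_helper1_Basic.exists_maximal_subgroup
    (fun A : Subgroup G => A.Normal ∧ IsMulCommutative A) ⟨⊥, inferInstance, inferInstance⟩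
  haveI := hAn
  haveI := hAc
  have hC := Cfsg.Agent.Lib_helper1_Socle.centralizer_eq_of_maximal_abelian_normal A
    (fun M hM hMc hle => hmax M ⟨hM, hMc⟩ hle)
  have hN : Subgroup.normalizer (A : Set G) = ⊤ := Subgroup.normalizer_eq_top_iff.mpr hAn
  have hA : A = ⊤ := by rw [← hC, ← h A hAc, hN]
  refine ⟨⟨fun a b => ?_⟩⟩
  have ha : a ∈ A := by rw [hA]; trivial
  have hb : b ∈ A := by rw [hA]; trivial
  have := hAc.is_comm.comm (⟨a, ha⟩ : A) ⟨b, hb⟩
  exact congrArg Subtype.val this

theorem inherit {G : Type*} [Group G]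
    (h : ∀ A : Subgroup G, IsMulCommutative A →
      Subgroup.normalizer (A : Set G) = Subgroup.centralizer (A : Set G)) (H : Subgroup G) :
    ∀ A : Subgroup H, IsMulCommutative A →
      Subgroup.normalizer (A : Set H) = Subgroup.centralizer (A : Set H) := by
  intro A hA
  apply le_antisymm _ (Subgroup.centralizer_le_normalizer _)
  intro x hx
  have hAm : IsMulCommutative (A.map H.subtype) := by
    refine ⟨⟨?_⟩⟩
    rintro ⟨a, ha⟩ ⟨b, hb⟩
    obtain ⟨a', ha', rfl⟩ := ha
    obtain ⟨b', hb', rfl⟩ := hb
    apply Subtype.ext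
    have := hA.is_comm.comm (⟨a', ha'⟩ : A) ⟨b', hb'⟩
    have h2 := congrArg (fun z : A => (H.subtype (z : H))) this
    simpa using h2
  have h1 : (x : G) ∈ Subgroup.normalizer ((A.map H.subtype : Subgroup G) : Set G) :=
    Subgroup.le_normalizer_map H.subtype (Subgroup.mem_map_of_mem _ hx)
  rw [h _ hAm] at h1
  rw [Subgroup.mem_centralizer_iff]
  intro a ha
  have h2 := Subgroup.mem_centralizer_iff.mp h1 (a : G) (Subgroup.mem_map_of_mem H.subtype ha)
  apply Subtype.ext
  simpa using h2

/-- If in a finite group the normalizer of each abelian subgroup coincides with its centralizer, then the group is abelian. -/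
theorem result {G : Type*} [Group G] [Finite G] (h : ∀ A : Subgroup G, IsMulCommutative A → Subgroup.normalizer (A : Set G) = Subgroup.centralizer (A : Set G)) : IsMulCommutative G := by
  classical
  -- Sylow subgroups are abelian
  have hsyl : ∀ (p : ℕ) [Fact p.Prime] (P : Sylow p G), IsMulCommutative (P : Subgroup G) := by
    intro p _ P
    haveI : Group.IsNilpotent (P : Subgroup G) := P.isPGroup'.isNilpotent
    exact aux_nilp (inherit h (P : Subgroup G))
  have hcomp : ∀ q : Nat.Primes, ∃ N : Subgroup G, N.Normal ∧ (Nat.card N).Coprime q ∧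
      ∃ k, N.index = (q : ℕ) ^ k := by
    intro q
    haveI : Fact (q : ℕ).Prime := ⟨q.2⟩
    let P : Sylow q G := default
    have hPc := hsyl q P
    have hN : Subgroup.normalizer ((P : Subgroup G) : Set G) ≤ Subgroup.centralizer (P : Set G) := (h P hPc).le
    have hcompl := MonoidHom.ker_transferSylow_isComplement' P hN
    refine ⟨(MonoidHom.transferSylow P hN).ker, inferInstance, ?_, ?_⟩
    · have h1 : Nat.card (MonoidHom.transferSylow P hN).ker = (P : Subgroup G).index := by
        have := hcompl.card_mul_card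
        have h2 := (P : Subgroup G).card_mul_index
        have hpos : 0 < Nat.card (P : Subgroup G) := Nat.card_pos
        rw [mul_comm] at h2
        exact Nat.eq_of_mul_eq_mul_right hpos (this.trans h2.symm)
      rw [h1]
      exact (Nat.Prime.coprime_iff_not_dvd q.2).mpr P.not_dvd_index |>.symm
    · obtain ⟨k, hk⟩ := P.2.exists_card_eq
      exact ⟨k, (hcompl.symm.index_eq_card).trans hk⟩
  choose N hN1 hN2 hN3 using hcomp
  haveI : Group.IsNilpotent G :=
    Cfsg.Agent.Lib_helper1_SysNorm.isNilpotent_of_normal_complements N hN1 hN2 hN3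
  exact aux_nilp h

end Cfsg.Agent.S0578
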