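import Cfsg.Statements.S0580
import Cfsg.Agent.Lib_helper1_SZConj

set_option autoImplicit false
open Cfsg

namespace Cfsg.Agent.S0580

universe u

theorem aux (n : ℕ) : ∀ (G : Type u) [Group G] [Finite G], Nat.card G = n →
    (∀ M : Subgroup G, IsCoatom M → M.index.Prime) → Group.IsSolvable G := by
  induction n using Nat.strong_induction_on with
  | _ n ih =>
  intro G _ _ hn h
  by_cases htriv : Nat.card G = 1
  · have : Subsingleton G := (Nat.card_eq_one_iff_unique.mp htriv).1
    infer_instance
  have h2 : 1 < Nat.card G := by have := Nat.card_pos (α := G); omega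
  obtain ⟨p, hp, hmax⟩ := Finset.exists_max_image (Nat.card G).primeFactors id
    (Nat.nonempty_primeFactors.mpr h2)
  have hpp : p.Prime := Nat.prime_of_mem_primeFactors hp
  have : Fact p.Prime := ⟨hpp⟩
  have hpd : p ∣ Nat.card G := Nat.dvd_of_mem_primeFactors hp
  obtain ⟨P⟩ : Nonempty (Sylow p G) := inferInstance
  have hPn : (P : Subgroup G).Normal := by
    by_contra hnn
    have hN : Subgroup.normalizer ((P : Subgroup G) : Set G) ≠ ⊤ :=
      fun hT => hnn (Subgroup.normalizer_eq_top_iff.mp hT)
    obtain ⟨M, hM, hNM⟩ := (eq_top_or_exists_le_coatom _).resolve_left hN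
    have hq := h M hM
    have hqd : M.index ∣ Nat.card G := Subgroup.index_dvd_card M
    have hqle : M.index ≤ p := hmax _ (Nat.mem_primeFactors.mpr ⟨hq, hqd, Nat.card_pos.ne'⟩)
    have hPM : (P : Subgroup G) ≤ M := Subgroup.le_normalizer.trans hNM
    have c1 : Nat.card (Sylow p G) = (Subgroup.normalizer ((P : Subgroup G) : Set G)).index :=
      Sylow.card_eq_index_normalizer P
    have c2 : Nat.card (Sylow p M) =
        ((Subgroup.normalizer ((P : Subgroup G) : Set G)).relIndex M) := by
      rw [Sylow.card_eq_index_normalizer (P.subtype hPM)]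
      show (Subgroup.normalizer ((((P : Subgroup G).subgroupOf M : Subgroup M)) : Set M)).index = _
      rw [← Subgroup.subgroupOf_normalizer_eq hPM]
      rfl
    have c3 := Subgroup.relIndex_mul_index hNM
    have m1 := card_sylow_modEq_one p G
    have m2 := card_sylow_modEq_one p M
    rw [c1, ← c3] at m1
    rw [c2] at m2
    have m3 : M.index ≡ 1 [MOD p] := by
      have h3 := Nat.ModEq.mul_right M.index m2
      rw [one_mul] at h3
      exact h3.symm.trans m1
    unfold Nat.ModEq at m3
    rw [Nat.mod_eq_of_lt hpp.one_lt] at m3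
    rcases Nat.lt_or_ge M.index p with hlt | hge
    · rw [Nat.mod_eq_of_lt hlt] at m3
      rw [m3] at hq
      exact Nat.not_prime_one hq
    · have : M.index = p := le_antisymm hqle hge
      rw [this, Nat.mod_self] at m3
      exact absurd m3 (by norm_num)
  -- quotient
  have hcardP : 1 < Nat.card (P : Subgroup G) := by
    have hdvd : p ∣ Nat.card (P : Subgroup G) := by
      rw [Sylow.card_eq_multiplicity]
      exact dvd_pow_self p ((Nat.Prime.factorization_pos_of_dvd hpp Nat.card_pos.ne' hpd).ne')
    have := Nat.le_of_dvd Nat.card_pos hdvd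
    have := hpp.one_lt
    omega
  have hlt : Nat.card (G ⧸ (P : Subgroup G)) < n := by
    have e := Subgroup.card_eq_card_quotient_mul_card_subgroup (P : Subgroup G)
    rw [hn] at e
    have hpos : 0 < Nat.card (G ⧸ (P : Subgroup G)) := Nat.card_pos
    nlinarith
  have hquot : Group.IsSolvable (G ⧸ (P : Subgroup G)) := by
    apply ih _ hlt (G ⧸ (P : Subgroup G)) rfl
    intro M hM
    have h1 := h _ (Subgroup.isCoatom_comap_of_surjective
      (QuotientGroup.mk'_surjective (P : Subgroup G)) hM)
    rwa [Subgroup.index_comap_of_surjective _ (QuotientGroup.mk'_surjective (P : Subgroup G))] at h1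
  have hPs : Group.IsSolvable (P : Subgroup G) := by
    have : Group.IsNilpotent (P : Subgroup G) := P.2.isNilpotent
    infer_instance
  exact Group.isSolvable_of_ker_le_range (P : Subgroup G).subtype (QuotientGroup.mk' (P : Subgroup G))
    (by rw [QuotientGroup.ker_mk', Subgroup.range_subtype])

/-- If every maximal subgroup of a finite group has prime index, then the group is solvable. -/
theorem result {G : Type*} [Group G] [Finite G] (h : ∀ M : Subgroup G, IsCoatom M → M.index.Prime) : Group.IsSolvable G :=
  aux _ G rfl h

end Cfsg.Agent.S0580
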