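import Cfsg.Statements.S0582
import Cfsg.Agent.Lib_helper1_SS2
import Cfsg.Agent.Lib_helper1_Primitive

set_option autoImplicit false
open Cfsg

namespace Cfsg.Agent.S0582

universe u

open scoped Pointwise

open Cfsg.Agent.Lib_helper1_Basic Cfsg.Agent.Lib_helper1_Hall Cfsg.Agent.Lib_helper1_SZConj
  Cfsg.Agent.Lib_helper1_SS Cfsg.Agent.Lib_helper1_SS2 Cfsg.Agent.Lib_helper1_Primitive

theorem aux (n : ℕ) : ∀ (G : Type u) [Group G] [Finite G] (H K : Subgroup G),
    Nat.card H = n → Cfsg.IsSupersolvable H → Cfsg.IsSupersolvable K →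
    Nat.card H = Nat.card K → (Nat.card H).Coprime H.index →
    ∃ x : G, MulAut.conj x • H = K := by
  induction n using Nat.strong_induction_on with
  | _ n ih =>
  intro G _ _ H K hn hH hK hcard hHall
  by_cases h1 : Nat.card H = 1
  · have hHb : H = ⊥ := Subgroup.card_eq_one.mp h1
    have hKb : K = ⊥ := Subgroup.card_eq_one.mp (hcard ▸ h1)
    refine ⟨1, ?_⟩
    rw [hHb, hKb, conj_one_smul]
  have hgt : 1 < Nat.card H := by
    have : 0 < Nat.card H := Nat.card_pos
    omega
  obtain ⟨p, hp, hpd, hpmax⟩ := exists_largest_prime (Nat.card H) hgt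
  haveI : Fact p.Prime := ⟨hp⟩
  let PH : Sylow p H := default
  let PK : Sylow p K := default
  have hPHn : (PH : Subgroup H).Normal := sylow_largest_normal hH p hpmax PH
  have hPKn : (PK : Subgroup K).Normal := sylow_largest_normal hK p (hcard ▸ hpmax) PK
  set P : Subgroup G := (PH : Subgroup H).map H.subtype with hP
  set Q : Subgroup G := (PK : Subgroup K).map K.subtype with hQ
  have hPH : P ≤ H := Subgroup.map_subtype_le _
  have hQK : Q ≤ K := Subgroup.map_subtype_le _
  have hHP : H ≤ Subgroup.normalizer (P : Set G) := by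
    have h2 := Subgroup.le_normalizer_map (H := (PH : Subgroup H)) H.subtype
    rw [Subgroup.normalizer_eq_top_iff.mpr hPHn, ← MonoidHom.range_eq_map,
      Subgroup.range_subtype] at h2
    exact h2
  have hKQ : K ≤ Subgroup.normalizer (Q : Set G) := by
    have h2 := Subgroup.le_normalizer_map (H := (PK : Subgroup K)) K.subtype
    rw [Subgroup.normalizer_eq_top_iff.mpr hPKn, ← MonoidHom.range_eq_map,
      Subgroup.range_subtype] at h2
    exact h2
  have hPp : IsPGroup p P := PH.isPGroup'.map H.subtype
  have hQp : IsPGroup p Q := PK.isPGroup'.map K.subtype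
  have hfac : (Nat.card G).factorization p = (Nat.card H).factorization p := by
    have h2 : Nat.card G = Nat.card H * H.index := (H.card_mul_index).symm
    have hidx : H.index ≠ 0 := Subgroup.index_ne_zero_of_finite
    rw [h2, Nat.factorization_mul Nat.card_pos.ne' hidx]
    simp only [Finsupp.coe_add, Pi.add_apply]
    have : H.index.factorization p = 0 := by
      apply Nat.factorization_eq_zero_of_not_dvd
      intro h3
      have := Nat.Coprime.eq_one_of_dvd (hHall.symm.coprime_dvd_left h3) hpd
      exact hp.one_lt.ne' this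
    rw [this, add_zero]
  have hPcard : Nat.card P = p ^ (Nat.card G).factorization p := by
    rw [hP, Subgroup.card_map_of_injective (Subgroup.subtype_injective H),
      Sylow.card_eq_multiplicity, hfac]
  have hQcard : Nat.card Q = p ^ (Nat.card G).factorization p := by
    rw [hQ, Subgroup.card_map_of_injective (Subgroup.subtype_injective K),
      Sylow.card_eq_multiplicity, hfac, hcard]
  obtain ⟨S, hS⟩ := hPp.exists_le_sylow
  obtain ⟨S', hS'⟩ := hQp.exists_le_sylow
  have hPS : P = (S : Subgroup G) :=
    Subgroup.eq_of_le_of_card_ge hS (by rw [hPcard, Sylow.card_eq_multiplicity])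
  have hQS : Q = (S' : Subgroup G) :=
    Subgroup.eq_of_le_of_card_ge hS' (by rw [hQcard, Sylow.card_eq_multiplicity])
  obtain ⟨g, hg⟩ := MulAction.exists_smul_eq G S S'
  have hgPQ : MulAut.conj g • P = Q := by
    rw [hPS, hQS, ← hg, Sylow.coe_subgroup_smul]
  -- replace K by a conjugate containing P
  set K₁ : Subgroup G := MulAut.conj g⁻¹ • K with hK₁
  have hQ₁ : MulAut.conj g⁻¹ • Q = P := by
    rw [← hgPQ, conj_smul_conj_smul, inv_mul_cancel, conj_one_smul]
  have hK₁P : K₁ ≤ Subgroup.normalizer (P : Set G) := by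
    rw [← hQ₁, normalizer_conj_smul, hK₁]
    exact Subgroup.pointwise_smul_le_pointwise_smul_iff.mpr hKQ
  have hK₁ss : Cfsg.IsSupersolvable K₁ :=
    ss_of_equiv (Subgroup.equivSMul (MulAut.conj g⁻¹) K) hK
  have hK₁card : Nat.card K₁ = Nat.card K := card_conj_smul _ _
  have hPK₁ : P ≤ K₁ := by
    rw [← hQ₁, hK₁]
    exact Subgroup.pointwise_smul_le_pointwise_smul_iff.mpr hQK
  -- the quotient N(P)/P
  set Nm := Subgroup.normalizer (P : Set G) with hNm
  set P' := P.subgroupOf Nm with hP'
  haveI : P'.Normal := Subgroup.normal_in_normalizer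
  set π := QuotientGroup.mk' P' with hπ
  have hπs : Function.Surjective π := QuotientGroup.mk'_surjective P'
  set H' := H.subgroupOf Nm with hH'
  set K' := K₁.subgroupOf Nm with hK'
  have hP'H' : P' ≤ H' := by
    intro x hx
    exact hPH hx
  have hP'K' : P' ≤ K' := by
    intro x hx
    exact hPK₁ hx
  have hP'card : Nat.card P' = Nat.card P := card_subgroupOf_of_le Subgroup.le_normalizer
  have hH'card : Nat.card H' = Nat.card H := card_subgroupOf_of_le hHP
  have hK'card : Nat.card K' = Nat.card H := by
    rw [hK', card_subgroupOf_of_le hK₁P, hK₁card, hcard]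
  have e1 := card_map_mk'_mul P' H' hP'H'
  have e2 := card_map_mk'_mul P' K' hP'K'
  rw [hP'card, hH'card] at e1
  rw [hP'card, hK'card] at e2
  have hPne : P ≠ ⊥ := by
    intro h
    have h2 : Nat.card P = 1 := by rw [h, Subgroup.card_bot]
    rw [hP, Subgroup.card_map_of_injective (Subgroup.subtype_injective H)] at h2
    exact Sylow.ne_bot_of_dvd_card PH hpd (Subgroup.card_eq_one.mp h2)
  have hP2 : 2 ≤ Nat.card P := two_le_card_of_ne_bot P hPne
  have hlt : Nat.card (H'.map π) < n := by
    have hpos : 0 < Nat.card (H'.map π) := Nat.card_pos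
    rw [← hn, ← e1]
    nlinarith
  have hss1 : Cfsg.IsSupersolvable (H'.map π) :=
    ss_of_surjective (π.subgroupMap H') (π.subgroupMap_surjective H')
      (ss_of_equiv (Subgroup.subgroupOfEquivOfLe hHP).symm hH)
  have hss2 : Cfsg.IsSupersolvable (K'.map π) :=
    ss_of_surjective (π.subgroupMap K') (π.subgroupMap_surjective K')
      (ss_of_equiv (Subgroup.subgroupOfEquivOfLe hK₁P).symm hK₁ss)
  have hcard' : Nat.card (H'.map π) = Nat.card (K'.map π) :=
    Nat.eq_of_mul_eq_mul_right Nat.card_pos (e1.trans e2.symm)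
  have hHall' : (Nat.card (H'.map π)).Coprime (H'.map π).index := by
    have h2 : Nat.card (H'.map π) ∣ Nat.card H := Dvd.intro _ e1
    have h3 : (H'.map π).index = H'.index :=
      Subgroup.index_map_eq H' hπs (by rw [hπ, QuotientGroup.ker_mk']; exact hP'H')
    have h4 : H'.index ∣ H.index := by
      show H.relIndex Nm ∣ H.index
      exact Subgroup.relIndex_dvd_index_of_le hHP
    rw [h3]
    exact (hHall.coprime_dvd_left h2).coprime_dvd_right h4
  obtain ⟨xbar, hx⟩ := ih _ hlt _ (H'.map π) (K'.map π) rfl hss1 hss2 hcard' hHall'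
  obtain ⟨x, rfl⟩ := hπs xbar
  have h5 := congrArg (Subgroup.comap π) hx
  rw [← comap_conj_smul, comap_map_mk'_of_le P' H' hP'H', comap_map_mk'_of_le P' K' hP'K'] at h5
  have h6 := congrArg (Subgroup.map Nm.subtype) h5
  rw [map_conj_smul, hH', hK', Subgroup.map_subgroupOf_eq_of_le hHP,
    Subgroup.map_subgroupOf_eq_of_le hK₁P] at h6
  refine ⟨g * (x : G), ?_⟩
  rw [← conj_smul_conj_smul]
  show MulAut.conj g • MulAut.conj (Nm.subtype x) • H = K
  rw [h6, hK₁, conj_smul_conj_smul, mul_inv_cancel, conj_one_smul]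

/-- Let H and K be supersolvable subgroups of a finite group G of the same order, that order being coprime to their index. Then H and K are conjugate in G. -/
theorem result {G : Type*} [Group G] [Finite G] (H K : Subgroup G) (hH : Cfsg.IsSupersolvable H) (hK : Cfsg.IsSupersolvable K) (hcard : Nat.card H = Nat.card K) (hHall : (Nat.card H).Coprime H.index) : ∃ x : G, MulAut.conj x • H = K := by
  exact aux _ G H K rfl hH hK hcard hHall

end Cfsg.Agent.S0582
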