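import Cfsg.Statements.S0584
import Cfsg.Agent.Lib_helper1_Socle

set_option autoImplicit false
open Cfsg

namespace Cfsg.Agent.S0584

/-- Let B ≤ A be normal subgroups of a finite group G with B contained in the Frattini subgroup of G. If A modulo B is nilpotent then A is nilpotent. -/
theorem result {G : Type*} [Group G] [Finite G] (A B : Subgroup G) [A.Normal] [B.Normal] (hBA : B ≤ A) (hB : B ≤ frattini G) (h : Group.IsNilpotent (↥A ⧸ B.subgroupOf A)) : Group.IsNilpotent A := by
  set f := QuotientGroup.mk' (frattini G) with hf
  have hmapA : Group.IsNilpotent (A.map f) := by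
    let g : A →* A.map f := f.subgroupMap A
    have hg : Function.Surjective g := f.subgroupMap_surjective A
    have hker : B.subgroupOf A ≤ g.ker := by
      intro x hx
      rw [MonoidHom.mem_ker]
      apply Subtype.ext
      have hxΦ : (x : G) ∈ frattini G := hB (Subgroup.mem_subgroupOf.mp hx)
      show f (x : G) = 1
      exact (QuotientGroup.eq_one_iff _).mpr hxΦ
    exact Group.nilpotent_of_surjective (QuotientGroup.lift (B.subgroupOf A) g hker)
      (QuotientGroup.lift_surjective_of_surjective _ _ hg hker)
  have hmap : (A ⊔ frattini G).map f = A.map f := by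
    rw [Subgroup.map_sup]
    have : (frattini G).map f = ⊥ := by
      rw [Subgroup.map_eq_bot_iff, hf, QuotientGroup.ker_mk']
    rw [this, sup_bot_eq]
  have h2 : Group.IsNilpotent (A ⊔ frattini G : Subgroup G) :=
    Cfsg.Agent.Lib_helper1_FratNil.isNilpotent_of_map_frattini (A ⊔ frattini G) le_sup_right
      (by rw [← hf, hmap]; exact hmapA)
  have hle : A ≤ A ⊔ frattini G := le_sup_left
  have h3 : Group.IsNilpotent (A.subgroupOf (A ⊔ frattini G)) := inferInstance
  exact Group.nilpotent_of_mulEquiv (Subgroup.subgroupOfEquivOfLe hle)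

end Cfsg.Agent.S0584
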