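import Cfsg.Statements.S0585
import Cfsg.Agent.Lib_helper1_Basic

set_option autoImplicit false
open Cfsg

namespace Cfsg.Agent.S0585

open Cfsg.Agent.Lib_helper1_Basic in
/-- If the Frattini subgroup of a finite group G is trivial, then every abelian normal subgroup of G has a complement in G. -/
theorem result {G : Type*} [Group G] [Finite G] (hΦ : frattini G = ⊥) (A : Subgroup G) [A.Normal] [IsMulCommutative A] : ∃ H : Subgroup G, Subgroup.IsComplement' A H := by
  obtain ⟨H, hH, hmin⟩ := exists_minimal_subgroup (fun H : Subgroup G => A ⊔ H = ⊤) ⟨⊤, sup_top_eq _⟩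
  refine ⟨H, ?_⟩
  have hD : A ⊓ H = ⊥ := by
    haveI hDn : (A ⊓ H).Normal := by
      constructor
      intro d hd g
      obtain ⟨a, ha, x, hx, rfl⟩ := exists_mul_of_sup_eq_top A H hH g
      have h1 : x * d * x⁻¹ ∈ A ⊓ H :=
        ⟨Subgroup.Normal.conj_mem inferInstance d hd.1 x, H.mul_mem (H.mul_mem hx hd.2) (H.inv_mem hx)⟩
      have h2 : a * x * d * (a * x)⁻¹ = x * d * x⁻¹ := by
        have hc : a * (x * d * x⁻¹) = (x * d * x⁻¹) * a := setLike_mul_comm ha h1.1
        calc a * x * d * (a * x)⁻¹ = a * (x * d * x⁻¹) * a⁻¹ := by group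
          _ = (x * d * x⁻¹) * a * a⁻¹ := by rw [hc]
          _ = x * d * x⁻¹ := by group
      rw [h2]; exact h1
    rw [← le_bot_iff, ← hΦ]
    show A ⊓ H ≤ Order.radical (Subgroup G)
    refine le_iInf₂ (fun M hM => ?_)
    by_contra hnot
    have hsup : (A ⊓ H) ⊔ M = ⊤ :=
      hM.2 _ (lt_of_le_of_ne le_sup_right (fun h => hnot (h ▸ le_sup_left)))
    have hA' : A ⊔ (H ⊓ M) = ⊤ := by
      rw [eq_top_iff]
      intro g _
      obtain ⟨a, ha, x, hx, rfl⟩ := exists_mul_of_sup_eq_top A H hH g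
      obtain ⟨d, hd, m, hm, rfl⟩ := exists_mul_of_sup_eq_top (A ⊓ H) M hsup x
      have hmH : m ∈ H := by
        have : m = d⁻¹ * (d * m) := by group
        rw [this]; exact H.mul_mem (H.inv_mem hd.2) hx
      have : a * (d * m) = (a * d) * m := by group
      rw [this]
      exact Subgroup.mul_mem_sup (A.mul_mem ha hd.1) ⟨hmH, hm⟩
    have := hmin (H ⊓ M) hA' inf_le_left
    have hHM : H ≤ M := by rw [← this]; exact inf_le_right
    exact hnot (inf_le_right.trans hHM)
  apply Subgroup.isComplement'_of_disjoint_and_mul_eq_univ (disjoint_iff.mpr hD)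
  rw [← Subgroup.normal_mul, hH]; rfl

end Cfsg.Agent.S0585
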