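import Cfsg.Statements.S0587
import Mathlib
import Cfsg.Agent.Lib_helper1_PrimCore

set_option autoImplicit false
open Cfsg

namespace Cfsg.Agent.S0587

/-- Let G be a finite group whose largest normal p-subgroup L is nontrivial, and M a maximal subgroup of G with trivial normal core. Then L is elementary abelian, M is a complement to L, L is a minimal normal subgroup of G, the centralizer of L is L, and for every prime q such that the largest normal q-subgroup of M is nontrivial, the order of L is congruent to 1 modulo q and q ≠ p. -/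
theorem result {G : Type*} [Group G] [Finite G] (p : ℕ) [Fact p.Prime] (hL : Cfsg.pCore p G ≠ ⊥) (M : Subgroup G) (hM : IsCoatom M) (hcore : M.normalCore = ⊥) : Cfsg.IsElementaryAbelian p (Cfsg.pCore p G) ∧ Subgroup.IsComplement' (Cfsg.pCore p G) M ∧ (∀ K : Subgroup G, K.Normal → K ≤ Cfsg.pCore p G → K = ⊥ ∨ K = Cfsg.pCore p G) ∧ Subgroup.centralizer ((Cfsg.pCore p G : Subgroup G) : Set G) = Cfsg.pCore p G ∧ ∀ (q : ℕ) [Fact q.Prime], Cfsg.pCore q ↥M ≠ ⊥ → Nat.card (Cfsg.pCore p G) % q = 1 % q ∧ q ≠ p := by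
  haveI hLn : (Cfsg.pCore p G).Normal := Cfsg.Agent.Lib_helper6_PCore.pCore_normal p
  have hLp : IsPGroup p (Cfsg.pCore p G) := Cfsg.Agent.Lib_helper6_PCore.pCore_isPGroup p
  obtain ⟨hinf, hsup, hmin, hcomm, hexp⟩ :=
    Cfsg.Agent.Lib_helper1_PrimCore.structure_of_pCore p (Cfsg.pCore p G) hLp hL M hM hcore
  haveI := hcomm
  refine ⟨⟨hcomm, hexp⟩, ?_, hmin, ?_, ?_⟩
  · apply Subgroup.isComplement'_of_disjoint_and_mul_eq_univ (disjoint_iff.mpr hinf)
    rw [← Subgroup.normal_mul, hsup]; rfl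
  · exact Cfsg.Agent.Lib_helper1_Primitive.centralizer_eq_of_corefree M hcore _ hsup
  · intro q _ hq
    apply Cfsg.Agent.Lib_helper1_PrimCore.part5 p (Cfsg.pCore p G) hLp hL
      (fun N hN hNp => Cfsg.Agent.Lib_helper6_PCore.le_pCore hN hNp) M hM hcore q
      ((Cfsg.pCore q ↥M).map M.subtype) (Subgroup.map_subtype_le _)
      ((Cfsg.Agent.Lib_helper6_PCore.pCore_isPGroup q).map _)
    · intro h
      exact hq ((Subgroup.map_eq_bot_iff_of_injective _ (Subgroup.subtype_injective M)).mp h)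
    · intro m hm
      apply Cfsg.Agent.Lib_helper1_Basic.mem_normalizer_of_conj_le
      rintro y ⟨y', hy', rfl⟩
      haveI : (Cfsg.pCore q ↥M).Normal := Cfsg.Agent.Lib_helper6_PCore.pCore_normal q
      exact ⟨⟨m, hm⟩ * y' * ⟨m, hm⟩⁻¹, ‹(Cfsg.pCore q ↥M).Normal›.conj_mem y' hy' ⟨m, hm⟩, rfl⟩

end Cfsg.Agent.S0587
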