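import Cfsg.Statements.S0590
import Cfsg.Agent.Lib_helper1_Offender

set_option autoImplicit false
open Cfsg

namespace Cfsg.Agent.S0590

open scoped commutatorElement in
/-- Quadratic action on an elementary abelian p-group forces the acting group modulo the kernel of the action to be elementary abelian. -/
theorem result {G : Type*} [Group G] [Finite G] {p : ℕ} [Fact p.Prime] (V H : Subgroup G) (hV : Cfsg.IsElementaryAbelian p V) (hHV : H ≤ Subgroup.normalizer (V : Set G)) (hq : ⁅⁅V, H⁆, H⁆ = ⊥) : ⁅H, H⁆ ≤ Subgroup.centralizer (V : Set G) ∧ ∀ a ∈ H, a ^ p ∈ Subgroup.centralizer (V : Set G) := by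
  haveI := hV.1
  have hconj : ∀ a ∈ H, ∀ v ∈ V, a * v * a⁻¹ ∈ V := fun a ha v hv =>
    (Subgroup.mem_normalizer_iff.mp (hHV ha) v).mp hv
  have hWc : ⁅V, H⁆ ≤ Subgroup.centralizer (H : Set G) :=
    Subgroup.commutator_eq_bot_iff_le_centralizer.mp hq
  have hWV : ⁅V, H⁆ ≤ V :=
    Cfsg.Agent.Lib_helper1_Offender.commutator_le_of_le_normalizer V V H le_rfl hHV
  -- c_h(v) = h v h⁻¹ v⁻¹ lies in [V,H]
  have hc : ∀ h ∈ H, ∀ v ∈ V, h * v * h⁻¹ * v⁻¹ ∈ ⁅V, H⁆ := by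
    intro h hh v hv
    have h1 : ⁅v, h⁆ ∈ ⁅V, H⁆ := Subgroup.commutator_mem_commutator hv hh
    have h2 : h * v * h⁻¹ * v⁻¹ = ⁅v, h⁆⁻¹ := by rw [commutatorElement_def]; group
    rw [h2]; exact Subgroup.inv_mem _ h1
  -- elements of [V,H] are fixed by conjugation with H
  have hfix : ∀ k ∈ H, ∀ w ∈ ⁅V, H⁆, k * w * k⁻¹ = w := by
    intro k hk w hw
    have h1 := Subgroup.mem_centralizer_iff.mp (hWc hw) k hk
    rw [h1]; group
  constructor
  · rw [Subgroup.commutator_le]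
    intro h hh k hk
    -- (h k) v (h k)⁻¹ = (k h) v (k h)⁻¹
    have key : ∀ v ∈ V, h * k * v * (h * k)⁻¹ = k * h * v * (k * h)⁻¹ := by
      intro v hv
      have e1 : h * k * v * (h * k)⁻¹ =
          (h * (k * v * k⁻¹ * v⁻¹) * h⁻¹) * ((h * v * h⁻¹ * v⁻¹) * v) := by group
      have e2 : k * h * v * (k * h)⁻¹ =
          (k * (h * v * h⁻¹ * v⁻¹) * k⁻¹) * ((k * v * k⁻¹ * v⁻¹) * v) := by group
      rw [e1, e2, hfix h hh _ (hc k hk v hv), hfix k hk _ (hc h hh v hv)]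
      have e3 := setLike_mul_comm (hWV (hc k hk v hv)) (hWV (hc h hh v hv))
      rw [← mul_assoc, e3, mul_assoc]
    rw [Subgroup.mem_centralizer_iff]
    intro v hv
    -- x := (k h)⁻¹ v (k h) ∈ V
    have hx : (k * h)⁻¹ * v * (k * h) ∈ V := by
      have := hconj (k * h)⁻¹ (H.inv_mem (H.mul_mem hk hh)) v hv
      simpa using this
    have h1 := key _ hx
    have e4 : k * h * ((k * h)⁻¹ * v * (k * h)) * (k * h)⁻¹ = v := by group
    rw [e4] at h1
    -- h1 : h * k * ((k*h)⁻¹ * v * (k*h)) * (h*k)⁻¹ = v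
    have e5 : ⁅h, k⁆ * v = (h * k * ((k * h)⁻¹ * v * (k * h)) * (h * k)⁻¹) * ⁅h, k⁆ := by
      rw [commutatorElement_def]; group
    rw [e5, h1]
  · intro a ha
    rw [Subgroup.mem_centralizer_iff]
    intro v hv
    have hpow : ∀ n : ℕ, a ^ n * v * (a ^ n)⁻¹ = (a * v * a⁻¹ * v⁻¹) ^ n * v := by
      intro n
      induction n with
      | zero => simp
      | succ n ih =>
        have e1 : a ^ (n + 1) * v * (a ^ (n + 1))⁻¹ = a * (a ^ n * v * (a ^ n)⁻¹) * a⁻¹ := by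
          rw [pow_succ']; group
        rw [e1, ih]
        have e2 : a * ((a * v * a⁻¹ * v⁻¹) ^ n * v) * a⁻¹ =
            (a * (a * v * a⁻¹ * v⁻¹) ^ n * a⁻¹) * ((a * v * a⁻¹ * v⁻¹) * v) := by group
        rw [e2, hfix a ha _ (Subgroup.pow_mem _ (hc a ha v hv) n), pow_succ]
        simp only [mul_assoc]
    have h1 := hpow p
    rw [hV.2 _ (hWV (hc a ha v hv)), one_mul] at h1
    calc v * a ^ p = a ^ p * v * (a ^ p)⁻¹ * a ^ p := by rw [h1]
      _ = a ^ p * v := by group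

end Cfsg.Agent.S0590
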