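import Cfsg.Statements.S0591
import Cfsg.Agent.Lib_helper1_Offender

set_option autoImplicit false
open Cfsg

namespace Cfsg.Agent.S0591

open scoped commutatorElement in
/-- For a quadratically acting element a on an elementary abelian p-group V, the fixed points C_V(a) have order at least the square root of the order of V. -/
theorem result {G : Type*} [Group G] [Finite G] {p : ℕ} [Fact p.Prime] (V : Subgroup G) (hV : Cfsg.IsElementaryAbelian p V) (a : G) (ha : a ∈ Subgroup.normalizer (V : Set G)) (hq : ⁅⁅V, Subgroup.zpowers a⁆, Subgroup.zpowers a⁆ = ⊥) : Nat.card V ≤ Nat.card ↥(V ⊓ Subgroup.centralizer (Subgroup.zpowers a : Set G)) ^ 2 := by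
  haveI := hV.1
  have hconj : ∀ v ∈ V, a * v * a⁻¹ ∈ V := fun v hv =>
    (Subgroup.mem_normalizer_iff.mp ha v).mp hv
  have hZV : Subgroup.zpowers a ≤ Subgroup.normalizer (V : Set G) := Subgroup.zpowers_le.mpr ha
  have hWc : ⁅V, Subgroup.zpowers a⁆ ≤ Subgroup.centralizer (Subgroup.zpowers a : Set G) :=
    Subgroup.commutator_eq_bot_iff_le_centralizer.mp hq
  have hWV : ⁅V, Subgroup.zpowers a⁆ ≤ V :=
    Cfsg.Agent.Lib_helper1_Offender.commutator_le_of_le_normalizer V V _ le_rfl hZV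
  have hc : ∀ v ∈ V, a * v * a⁻¹ * v⁻¹ ∈ ⁅V, Subgroup.zpowers a⁆ := by
    intro v hv
    have h1 : ⁅v, a⁆ ∈ ⁅V, Subgroup.zpowers a⁆ :=
      Subgroup.commutator_mem_commutator hv (Subgroup.mem_zpowers a)
    have h2 : a * v * a⁻¹ * v⁻¹ = ⁅v, a⁆⁻¹ := by rw [commutatorElement_def]; group
    rw [h2]; exact Subgroup.inv_mem _ h1
  set D : Subgroup G := V ⊓ Subgroup.centralizer (Subgroup.zpowers a : Set G) with hD
  let φ : V →* V := MonoidHom.mk' (fun v => ⟨a * (v : G) * a⁻¹ * (v : G)⁻¹, hWV (hc v v.2)⟩) (by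
    intro v w
    apply Subtype.ext
    simp only [Subgroup.coe_mul]
    have e1 : a * ((v : G) * (w : G)) * a⁻¹ * ((v : G) * (w : G))⁻¹ =
        (a * (v : G) * a⁻¹) * ((a * (w : G) * a⁻¹ * (w : G)⁻¹) * (v : G)⁻¹) := by group
    rw [e1, setLike_mul_comm (hWV (hc w w.2)) (V.inv_mem v.2)]
    group)
  have hker : φ.ker ≤ D.subgroupOf V := by
    intro v hv
    rw [MonoidHom.mem_ker] at hv
    have h1 : a * (v : G) * a⁻¹ * (v : G)⁻¹ = 1 := congrArg Subtype.val hv
    have h2 : a * (v : G) = (v : G) * a := by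
      calc a * (v : G) = a * (v : G) * a⁻¹ * (v : G)⁻¹ * ((v : G) * a) := by group
        _ = (v : G) * a := by rw [h1, one_mul]
    rw [Subgroup.mem_subgroupOf, hD]
    refine ⟨v.2, ?_⟩
    show (v : G) ∈ Subgroup.centralizer (Subgroup.zpowers a : Set G)
    rw [Subgroup.mem_centralizer_iff]
    intro h hh
    obtain ⟨k, rfl⟩ := Subgroup.mem_zpowers_iff.mp hh
    exact (Commute.zpow_left (show Commute a (v : G) from h2) k)
  have hrange : φ.range ≤ D.subgroupOf V := by
    rintro _ ⟨v, rfl⟩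
    rw [Subgroup.mem_subgroupOf, hD]
    exact ⟨hWV (hc v v.2), hWc (hc v v.2)⟩
  have hcardD : Nat.card (D.subgroupOf V) = Nat.card D :=
    Cfsg.Agent.Lib_helper1_Hall.card_subgroupOf_of_le inf_le_left
  have h1 := Subgroup.card_mul_index φ.ker
  rw [Subgroup.index_ker] at h1
  have h2 := Subgroup.card_le_of_le hker
  have h3 := Subgroup.card_le_of_le hrange
  rw [hcardD] at h2 h3
  calc Nat.card V = Nat.card φ.ker * Nat.card φ.range := h1.symm
    _ ≤ Nat.card D * Nat.card D := Nat.mul_le_mul h2 h3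
    _ = Nat.card D ^ 2 := (sq _).symm

end Cfsg.Agent.S0591
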