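import Cfsg.Statements.S0597
import Mathlib
import Cfsg.Agent.Lib_helper1_CommNorm
import Cfsg.Agent.Lib_helper1_Subnormal
import Cfsg.Agent.Lib_helper7_PIrr2

set_option autoImplicit false
open Cfsg

namespace Cfsg.Agent.S0597

open scoped commutatorElement in
/-- If two subnormal subgroups of a faithful group on an elementary abelian p-group satisfy [V, E₁, E₂] = 1, then their commutator lies in the largest normal p-subgroup. -/
theorem result {G : Type*} [Group G] [Finite G] {p : ℕ} [Fact p.Prime] (V H : Subgroup G) (hV : Cfsg.IsElementaryAbelian p V) (hHV : H ≤ Subgroup.normalizer (V : Set G)) (hf : H ⊓ Subgroup.centralizer (V : Set G) = ⊥) (E₁ E₂ : Subgroup G) (h₁ : E₁ ≤ H) (h₂ : E₂ ≤ H) (hs₁ : (E₁.subgroupOf H).IsSubnormal) (hs₂ : (E₂.subgroupOf H).IsSubnormal) (hc : ⁅⁅V, E₁⁆, E₂⁆ = ⊥) : ⁅E₁, E₂⁆ ≤ (Cfsg.pCore p H).map H.subtype := by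
  have hp : p.Prime := Fact.out
  obtain ⟨hVc, hVexp⟩ := hV
  -- notation
  obtain ⟨W, hWdef⟩ : ∃ W : Subgroup G, W = ⁅V, E₁⁆ := ⟨_, rfl⟩
  rw [← hWdef] at hc
  have hE₁V : E₁ ≤ Subgroup.normalizer (V : Set G) := h₁.trans hHV
  have hE₂V : E₂ ≤ Subgroup.normalizer (V : Set G) := h₂.trans hHV
  have hnV : ∀ e ∈ Subgroup.normalizer (V : Set G), ∀ v ∈ V, e * v * e⁻¹ ∈ V := by
    intro e he v hv
    rw [Subgroup.mem_normalizer_iff] at he
    exact (he v).mp hv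
  have F1 : W ≤ V := by
    rw [hWdef, Subgroup.commutator_le]
    intro v hv e he
    rw [commutatorElement_def]
    have := hnV e (hE₁V he) v⁻¹ (V.inv_mem hv)
    have e2 : v * e * v⁻¹ * e⁻¹ = v * (e * v⁻¹ * e⁻¹) := by group
    rw [e2]
    exact V.mul_mem hv this
  have F2 : ∀ e ∈ E₁, ∀ w ∈ W, e * w * e⁻¹ ∈ W := by
    intro e he w hw
    rw [hWdef] at hw ⊢
    exact Cfsg.Agent.Lib_helper1_CommNorm.conj_mem_commutator V E₁ e (Or.inr he) w hw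
  have F3 : ∀ e ∈ E₁, ∀ v ∈ V, v⁻¹ * (e * v * e⁻¹) ∈ W := by
    intro e he v hv
    have := Subgroup.commutator_mem_commutator (V.inv_mem hv) he
    rw [commutatorElement_def] at this
    rw [hWdef]
    have e2 : v⁻¹ * (e * v * e⁻¹) = v⁻¹ * e * v⁻¹⁻¹ * e⁻¹ := by group
    rw [e2]; exact this
  have F4 : ∀ e ∈ E₂, ∀ w ∈ W, e * w * e⁻¹ = w := by
    intro e he w hw
    have := Subgroup.commutator_mem_commutator hw he
    rw [hc, Subgroup.mem_bot, commutatorElement_def] at this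
    have e2 : e * w * e⁻¹ = (w * e * w⁻¹ * e⁻¹)⁻¹ * w := by group
    rw [e2, this]; group
  -- the stability group
  obtain ⟨S, hS⟩ : ∃ S : Subgroup G, ∀ h, h ∈ S ↔
      ((∀ w ∈ W, h * w * h⁻¹ = w) ∧ (∀ v ∈ V, v⁻¹ * (h * v * h⁻¹) ∈ W)) := by
    refine ⟨{ carrier := {h | (∀ w ∈ W, h * w * h⁻¹ = w) ∧ (∀ v ∈ V, v⁻¹ * (h * v * h⁻¹) ∈ W)}
              mul_mem' := ?_
              one_mem' := ?_
              inv_mem' := ?_ }, fun h => Iff.rfl⟩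
    · rintro h k ⟨hh1, hh2⟩ ⟨hk1, hk2⟩
      refine ⟨?_, ?_⟩
      · intro w hw
        have e2 : h * k * w * (h * k)⁻¹ = h * (k * w * k⁻¹) * h⁻¹ := by group
        rw [e2, hk1 w hw, hh1 w hw]
      · intro v hv
        have a1 := hk2 v hv
        have a2 := hh2 v hv
        have a3 := hh1 _ a1
        have e2 : v⁻¹ * (h * k * v * (h * k)⁻¹) =
            (v⁻¹ * (h * v * h⁻¹)) * (h * (v⁻¹ * (k * v * k⁻¹)) * h⁻¹) := by group
        rw [e2, a3]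
        exact W.mul_mem a2 a1
    · refine ⟨?_, ?_⟩
      · intro w _; group
      · intro v _
        have : v⁻¹ * (1 * v * 1⁻¹) = 1 := by group
        rw [this]; exact W.one_mem
    · rintro h ⟨hh1, hh2⟩
      have hinv : ∀ w ∈ W, h⁻¹ * w * h⁻¹⁻¹ = w := by
        intro w hw
        have := hh1 w hw
        calc h⁻¹ * w * h⁻¹⁻¹ = h⁻¹ * (h * w * h⁻¹) * h := by rw [this]; group
          _ = w := by group
      refine ⟨hinv, ?_⟩
      intro v hv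
      have a2 := hh2 v hv
      have a3 := hinv _ a2
      have e2 : v⁻¹ * (h⁻¹ * v * h⁻¹⁻¹) = (h⁻¹ * (v⁻¹ * (h * v * h⁻¹)) * h⁻¹⁻¹)⁻¹ := by group
      rw [e2, a3]
      exact W.inv_mem a2
  have hDS : ⁅E₁, E₂⁆ ≤ S := by
    rw [Subgroup.commutator_le]
    intro e₁ he₁ e₂ he₂
    rw [hS, commutatorElement_def]
    refine ⟨?_, ?_⟩
    · intro w hw
      have b1 : e₂⁻¹ * w * e₂ = w := by
        have := F4 e₂⁻¹ (E₂.inv_mem he₂) w hw
        simpa using this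
      have b2 : e₁⁻¹ * w * e₁ ∈ W := by
        have := F2 e₁⁻¹ (E₁.inv_mem he₁) w hw
        simpa using this
      have b3 := F4 e₂ he₂ _ b2
      calc e₁ * e₂ * e₁⁻¹ * e₂⁻¹ * w * (e₁ * e₂ * e₁⁻¹ * e₂⁻¹)⁻¹
          = e₁ * (e₂ * (e₁⁻¹ * (e₂⁻¹ * w * e₂) * e₁) * e₂⁻¹) * e₁⁻¹ := by group
        _ = e₁ * (e₂ * (e₁⁻¹ * w * e₁) * e₂⁻¹) * e₁⁻¹ := by rw [b1]
        _ = e₁ * (e₁⁻¹ * w * e₁) * e₁⁻¹ := by rw [b3]
        _ = w := by group
    · intro v hv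
      -- v₁ = e₂⁻¹ v e₂
      have hv1 : e₂⁻¹ * v * e₂ ∈ V := by
        have := hnV e₂⁻¹ (Subgroup.inv_mem _ (hE₂V he₂)) v hv
        simpa using this
      -- w₁ = v₁⁻¹ (e₁⁻¹ v₁ e₁) ∈ W
      have hw1 : (e₂⁻¹ * v * e₂)⁻¹ * (e₁⁻¹ * (e₂⁻¹ * v * e₂) * e₁) ∈ W := by
        have := F3 e₁⁻¹ (E₁.inv_mem he₁) _ hv1
        simpa using this
      have c1 := F4 e₂ he₂ _ hw1
      have c2 := F2 e₁ he₁ _ hw1
      have c3 := F3 e₁ he₁ v hv
      have e2 : v⁻¹ * (e₁ * e₂ * e₁⁻¹ * e₂⁻¹ * v * (e₁ * e₂ * e₁⁻¹ * e₂⁻¹)⁻¹) =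
          (v⁻¹ * (e₁ * v * e₁⁻¹)) * (e₁ * (e₂ * ((e₂⁻¹ * v * e₂)⁻¹ * (e₁⁻¹ * (e₂⁻¹ * v * e₂) * e₁)) * e₂⁻¹) * e₁⁻¹) := by
        group
      rw [e2, c1]
      exact W.mul_mem c3 c2
  -- elements of S ∩ H have order dividing p
  have hpow : ∀ c ∈ S, c ∈ H → c ^ p = 1 := by
    intro c hcS hcH
    rw [hS] at hcS
    obtain ⟨hc1, hc2⟩ := hcS
    have hcp : c ^ p ∈ H ⊓ Subgroup.centralizer (V : Set G) := by
      refine Subgroup.mem_inf.mpr ⟨H.pow_mem hcH p, ?_⟩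
      rw [Subgroup.mem_centralizer_iff]
      intro v hv
      have hk : ∀ k : ℕ, c ^ k * v * (c ^ k)⁻¹ = v * (v⁻¹ * (c * v * c⁻¹)) ^ k := by
        intro k
        induction k with
        | zero => simp
        | succ k ih =>
          have e3 : c ^ (k + 1) * v * (c ^ (k + 1))⁻¹ = c * (c ^ k * v * (c ^ k)⁻¹) * c⁻¹ := by
            rw [pow_succ']; group
          rw [e3, ih]
          have e4 : c * (v * (v⁻¹ * (c * v * c⁻¹)) ^ k) * c⁻¹ =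
              (c * v * c⁻¹) * (c * (v⁻¹ * (c * v * c⁻¹)) ^ k * c⁻¹) := by group
          have e5 : c * (v⁻¹ * (c * v * c⁻¹)) ^ k * c⁻¹ = (v⁻¹ * (c * v * c⁻¹)) ^ k :=
            hc1 _ (W.pow_mem (hc2 v hv) k)
          rw [e4, e5]
          have e6 : c * v * c⁻¹ = v * (v⁻¹ * (c * v * c⁻¹)) := by group
          generalize v⁻¹ * (c * v * c⁻¹) = X at e6 ⊢
          rw [pow_succ', ← mul_assoc, ← e6]
      have h2 := hk p
      rw [hVexp _ (F1 (hc2 v hv)), mul_one] at h2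
      calc v * c ^ p = (c ^ p * v * (c ^ p)⁻¹) * c ^ p := by rw [h2]
        _ = c ^ p * v := by group
    rw [hf, Subgroup.mem_bot] at hcp
    exact hcp
  -- pass to H
  have hD' : (⁅E₁.subgroupOf H, E₂.subgroupOf H⁆).map H.subtype = ⁅E₁, E₂⁆ := by
    rw [Subgroup.map_commutator, Subgroup.map_subgroupOf_eq_of_le h₁,
      Subgroup.map_subgroupOf_eq_of_le h₂]
  have hsub : (⁅E₁.subgroupOf H, E₂.subgroupOf H⁆).IsSubnormal :=
    Cfsg.Agent.Lib_helper1_CommNorm.commutator_isSubnormal_of_sup _ _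
      (Cfsg.Agent.Lib_helper1_Subnormal.sup_isSubnormal _ _ hs₁ hs₂)
  have hpg : IsPGroup p (⁅E₁.subgroupOf H, E₂.subgroupOf H⁆ : Subgroup H) := by
    intro x
    refine ⟨1, ?_⟩
    have hx : ((x : H) : G) ∈ ⁅E₁, E₂⁆ := by
      rw [← hD']; exact ⟨x, x.2, rfl⟩
    have := hpow _ (hDS hx) (x : H).2
    apply Subtype.ext
    apply Subtype.ext
    simpa using this
  have hle := Cfsg.Agent.Lib_helper7_PIrr2.subnormal_pgroup_le_pCore _ hsub hpg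
  rw [← hD']
  exact Subgroup.map_mono hle

end Cfsg.Agent.S0597
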