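import Cfsg.Statements.S0600
import Cfsg.Agent.Lib_helper1_SS

set_option autoImplicit false
open Cfsg

namespace Cfsg.Agent.S0600

/-- A normal elementary abelian p-subgroup generated by the fixed points of the Sylow p-subgroups admits no nontrivial normal p-subgroup of G modulo its centralizer. -/
theorem result {G : Type*} [Group G] [Finite G] {p : ℕ} [Fact p.Prime] (V : Subgroup G) [V.Normal] (hV : Cfsg.IsElementaryAbelian p V) (hgen : V = ⨆ S : Sylow p G, V ⊓ Subgroup.centralizer ((S : Subgroup G) : Set G)) : Cfsg.pCore p (G ⧸ Subgroup.centralizer (V : Set G)) = ⊥ := by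
  have hfs : Function.Surjective (QuotientGroup.mk' (Subgroup.centralizer (V : Set G))) :=
    QuotientGroup.mk'_surjective _
  rw [Cfsg.pCore, eq_bot_iff]
  apply sSup_le
  rintro N ⟨hNn, hNp⟩
  haveI := hNn
  intro xbar hx
  obtain ⟨x, rfl⟩ := hfs xbar
  rw [Subgroup.mem_bot]
  apply (QuotientGroup.eq_one_iff x).mpr
  -- x centralizes each V ⊓ C(S)
  have key : ∀ S : Sylow p G, V ⊓ Subgroup.centralizer ((S : Subgroup G) : Set G) ≤
      Subgroup.centralizer ({x} : Set G) := by
    intro S w hw
    have hle : N ≤ ((S.mapSurjective hfs : Sylow p (G ⧸ Subgroup.centralizer (V : Set G))) :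
        Subgroup (G ⧸ Subgroup.centralizer (V : Set G))) :=
      Cfsg.Agent.Lib_helper1_SS.normal_pgroup_le_sylow _ N hNp
    have h1 := hle hx
    rw [Sylow.coe_mapSurjective] at h1
    obtain ⟨s, hs, hsx⟩ := h1
    have h2 : s⁻¹ * x ∈ Subgroup.centralizer (V : Set G) := by
      rw [← QuotientGroup.eq]; exact hsx
    have hsw : w * s = s * w := (Subgroup.mem_centralizer_iff.mp hw.2 s hs).symm
    have hcw : w * (s⁻¹ * x) = (s⁻¹ * x) * w :=
      (Subgroup.mem_centralizer_iff.mp h2 w hw.1)
    rw [Subgroup.mem_centralizer_singleton_iff]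
    calc w * x = w * s * (s⁻¹ * x) := by group
      _ = s * (w * (s⁻¹ * x)) := by rw [hsw]; group
      _ = s * ((s⁻¹ * x) * w) := by rw [hcw]
      _ = x * w := by group
  have hle : (⨆ S : Sylow p G, V ⊓ Subgroup.centralizer ((S : Subgroup G) : Set G)) ≤
      Subgroup.centralizer ({x} : Set G) := iSup_le key
  rw [Subgroup.mem_centralizer_iff]
  intro w hw
  have hw' : w ∈ (⨆ S : Sylow p G, V ⊓ Subgroup.centralizer ((S : Subgroup G) : Set G)) := by
    rw [← hgen]; exact hw
  exact (Subgroup.mem_centralizer_singleton_iff.mp (hle hw'))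

end Cfsg.Agent.S0600
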