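import Cfsg.Statements.S0601
import Cfsg.Agent.S0600
import Cfsg.Agent.Lib_helper6_PCore
import Cfsg.Agent.Lib_helper1_Offender
import Cfsg.Agent.Lib_helper1_Thompson
import Cfsg.Agent.Lib_helper1_SZConj
import Cfsg.Agent.Lib_helper1_Hall

set_option autoImplicit false
open Cfsg

namespace Cfsg.Agent.S0601

open scoped Pointwise in
theorem aux {G : Type*} [Group G] [Finite G] {p : ℕ} [Fact p.Prime]
    (hc : Subgroup.centralizer (Cfsg.pCore p G : Set G) ≤ Cfsg.pCore p G) (Z : Subgroup G)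
    (hZ : Z = ⨆ S : Sylow p G, Cfsg.omegaOne p (((S : Subgroup G)) ⊓
      Subgroup.centralizer ((S : Subgroup G) : Set G))) :
    Z.Normal ∧ Cfsg.IsElementaryAbelian p Z ∧ ∀ D : Subgroup G, D.Normal →
      Subgroup.centralizer (Z : Set G) ≤ D →
      (∃ k : ℕ, (Subgroup.centralizer (Z : Set G)).relIndex D = p ^ k) →
      D = Subgroup.centralizer (Z : Set G) := by
  have hle : ∀ g : G, Z ≤ Z.comap (MulAut.conj g).toMonoidHom := by
    intro g
    conv_lhs => rw [hZ]
    apply iSup_le; intro S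
    rw [Cfsg.omegaOne, Subgroup.closure_le]
    rintro x ⟨hx, hxp⟩
    show g * x * g⁻¹ ∈ Z
    rw [hZ]
    apply Subgroup.mem_iSup_of_mem (g • S)
    apply Subgroup.subset_closure
    have hmem : ∀ y : G, y ∈ ((g • S : Sylow p G) : Subgroup G) ↔ g⁻¹ * y * g ∈ (S : Subgroup G) := by
      intro y
      rw [Sylow.smul_def]
      show y ∈ MulAut.conj g • (S : Subgroup G) ↔ _
      rw [Subgroup.mem_pointwise_smul_iff_inv_smul_mem]
      simp [MulAut.smul_def]
    refine ⟨⟨?_, ?_⟩, ?_⟩
    · show g * x * g⁻¹ ∈ ((g • S : Sylow p G) : Subgroup G)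
      rw [hmem]
      have : g⁻¹ * (g * x * g⁻¹) * g = x := by group
      rw [this]; exact hx.1
    · show g * x * g⁻¹ ∈ Subgroup.centralizer (((g • S : Sylow p G) : Subgroup G) : Set G)
      rw [Subgroup.mem_centralizer_iff]
      intro y hy
      have hy' := (hmem y).mp hy
      have h1 := Subgroup.mem_centralizer_iff.mp hx.2 _ hy'
      calc y * (g * x * g⁻¹) = g * ((g⁻¹ * y * g) * x) * g⁻¹ := by group
        _ = g * (x * (g⁻¹ * y * g)) * g⁻¹ := by rw [h1]
        _ = g * x * g⁻¹ * y := by group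
    · rw [conj_pow, hxp]; group
  have hnorm : Z.Normal := ⟨fun n hn g => hle g hn⟩
  -- elementary abelian
  have hcomm : ∀ a b : G, a ∈ Cfsg.pCore p G ⊓ Subgroup.centralizer (Cfsg.pCore p G : Set G) →
      b ∈ Cfsg.pCore p G ⊓ Subgroup.centralizer (Cfsg.pCore p G : Set G) → a * b = b * a := by
    intro a b ha hb
    exact (Subgroup.mem_centralizer_iff.mp hb.2 a ha.1)
  let T : Subgroup G :=
    { carrier := {x | x ∈ Cfsg.pCore p G ⊓ Subgroup.centralizer (Cfsg.pCore p G : Set G) ∧ x ^ p = 1}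
      mul_mem' := by
        rintro a b ⟨ha, hap⟩ ⟨hb, hbp⟩
        refine ⟨mul_mem ha hb, ?_⟩
        have hab : Commute a b := hcomm a b ha hb
        rw [hab.mul_pow, hap, hbp, one_mul]
      one_mem' := ⟨one_mem _, one_pow _⟩
      inv_mem' := by
        rintro a ⟨ha, hap⟩
        exact ⟨inv_mem ha, by rw [inv_pow, hap, inv_one]⟩ }
  have hT : Cfsg.IsElementaryAbelian p T := by
    refine ⟨⟨⟨fun a b => Subtype.ext (hcomm a b a.2.1 b.2.1)⟩⟩, fun a ha => ha.2⟩
  have hZT : Z ≤ T := by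
    rw [hZ]
    apply iSup_le; intro S
    rw [Cfsg.omegaOne, Subgroup.closure_le]
    rintro x ⟨hx, hxp⟩
    have hQS : Cfsg.pCore p G ≤ (S : Subgroup G) := Cfsg.Agent.Lib_helper6_PCore.pCore_le_sylow S
    have hxC : x ∈ Subgroup.centralizer (Cfsg.pCore p G : Set G) :=
      Cfsg.Agent.Lib_helper1_Offender.centralizer_anti hQS hx.2
    exact ⟨⟨hc hxC, hxC⟩, hxp⟩
  have hEA : Cfsg.IsElementaryAbelian p Z := Cfsg.Agent.Lib_helper1_Thompson.ea_of_le hT hZT
  refine ⟨hnorm, hEA, ?_⟩
  have hgen : Z = ⨆ S : Sylow p G, Z ⊓ Subgroup.centralizer ((S : Subgroup G) : Set G) := by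
    apply le_antisymm
    · conv_lhs => rw [hZ]
      apply iSup_le; intro S
      refine le_trans ?_ (le_iSup _ S)
      apply le_inf
      · rw [hZ]
        exact le_iSup (fun S : Sylow p G => Cfsg.omegaOne p (((S : Subgroup G)) ⊓
          Subgroup.centralizer ((S : Subgroup G) : Set G))) S
      · rw [Cfsg.omegaOne, Subgroup.closure_le]; rintro x ⟨hx, _⟩; exact hx.2
    · exact iSup_le fun S => inf_le_left
  have h600 := @Cfsg.Agent.S0600.result G _ _ p _ Z hnorm hEA hgen
  rintro D hD hCD ⟨k, hk⟩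
  apply le_antisymm _ hCD
  intro x hx
  haveI : (Subgroup.centralizer (Z : Set G)).Normal := inferInstance
  have hDn : (D.map (QuotientGroup.mk' (Subgroup.centralizer (Z : Set G)))).Normal :=
    hD.map _ (QuotientGroup.mk'_surjective _)
  have hcard : Nat.card (D.map (QuotientGroup.mk' (Subgroup.centralizer (Z : Set G)))) = p ^ k := by
    have h1 := Cfsg.Agent.Lib_helper1_SZConj.card_map_mk'_mul (Subgroup.centralizer (Z : Set G)) D hCD
    have h2 := Subgroup.card_mul_index ((Subgroup.centralizer (Z : Set G)).subgroupOf D)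
    rw [Cfsg.Agent.Lib_helper1_Hall.card_subgroupOf_of_le hCD] at h2
    have h3 : (Subgroup.centralizer (Z : Set G)).relIndex D = ((Subgroup.centralizer (Z : Set G)).subgroupOf D).index := rfl
    rw [← h3, hk] at h2
    have hpos : 0 < Nat.card (Subgroup.centralizer (Z : Set G)) := Nat.card_pos
    have : Nat.card (D.map (QuotientGroup.mk' (Subgroup.centralizer (Z : Set G)))) * Nat.card (Subgroup.centralizer (Z : Set G)) = p ^ k * Nat.card (Subgroup.centralizer (Z : Set G)) := by
      rw [h1, ← h2, mul_comm]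
    exact Nat.eq_of_mul_eq_mul_right hpos this
  have hp : IsPGroup p (D.map (QuotientGroup.mk' (Subgroup.centralizer (Z : Set G)))) :=
    IsPGroup.of_card hcard
  have hmem : (QuotientGroup.mk' (Subgroup.centralizer (Z : Set G))) x ∈
      Cfsg.pCore p (G ⧸ Subgroup.centralizer (Z : Set G)) :=
    Cfsg.Agent.Lib_helper6_PCore.le_pCore hDn hp (Subgroup.mem_map_of_mem _ hx)
  rw [h600, Subgroup.mem_bot] at hmem
  exact (QuotientGroup.eq_one_iff x).mp hmem
/-- When O_p(G) contains its centralizer, the normal closure of Ω₁(Z(S)) is elementary abelian and G has no nontrivial normal p-subgroup modulo its centralizer. -/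
theorem result {G : Type*} [Group G] [Finite G] {p : ℕ} [Fact p.Prime] (hc : Subgroup.centralizer (Cfsg.pCore p G : Set G) ≤ Cfsg.pCore p G) : (⨆ S : Sylow p G, Cfsg.omegaOne p (((S : Subgroup G)) ⊓ Subgroup.centralizer ((S : Subgroup G) : Set G))).Normal ∧ Cfsg.IsElementaryAbelian p (⨆ S : Sylow p G, Cfsg.omegaOne p (((S : Subgroup G)) ⊓ Subgroup.centralizer ((S : Subgroup G) : Set G))) ∧ ∀ D : Subgroup G, D.Normal → Subgroup.centralizer ((⨆ S : Sylow p G, Cfsg.omegaOne p (((S : Subgroup G)) ⊓ Subgroup.centralizer ((S : Subgroup G) : Set G)) : Subgroup G) : Set G) ≤ D → (∃ k : ℕ, (Subgroup.centralizer ((⨆ S : Sylow p G, Cfsg.omegaOne p (((S : Subgroup G)) ⊓ Subgroup.centralizer ((S : Subgroup G) : Set G)) : Subgroup G) : Set G)).relIndex D = p ^ k) → D = Subgroup.centralizer ((⨆ S : Sylow p G, Cfsg.omegaOne p (((S : Subgroup G)) ⊓ Subgroup.centralizer ((S : Subgroup G) : Set G)) : Subgroup G) : Set G) :=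
  aux hc _ rfl

end Cfsg.Agent.S0601
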