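import Cfsg.Statements.S0602
import Cfsg.Agent.Lib_helper1_Thompson

set_option autoImplicit false
open Cfsg

namespace Cfsg.Agent.S0602

/-- The Thompson subgroup is characteristic, and nontrivial as soon as p divides the group order. -/
theorem result {G : Type*} [Group G] [Finite G] {p : ℕ} [Fact p.Prime] : (Cfsg.thompsonSubgroup p G).Characteristic ∧ (p ∣ Nat.card G → Cfsg.thompsonSubgroup p G ≠ ⊥) := by
  refine ⟨Cfsg.Agent.Lib_helper1_Thompson.thompson_characteristic p, fun hdvd hJ => ?_⟩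
  obtain ⟨x, hx⟩ := exists_prime_orderOf_dvd_card' p hdvd
  obtain ⟨A, hA⟩ := Cfsg.Agent.Lib_helper1_Thompson.exists_maxEA (G := G) p
  have h1 := hA.2 _ (Cfsg.Agent.Lib_helper1_Thompson.ea_zpowers x (by rw [← hx]; exact pow_orderOf_eq_one x))
  rw [Nat.card_zpowers, hx] at h1
  have h2 : A ≤ ⊥ := hJ ▸ Cfsg.Agent.Lib_helper1_Thompson.maxEA_le_thompson hA
  have h3 : A = ⊥ := le_bot_iff.mp h2
  rw [h3, Subgroup.card_bot] at h1
  have := (Fact.out : p.Prime).one_lt
  omega

end Cfsg.Agent.S0602
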