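import Cfsg.Statements.S0603
import Cfsg.Agent.Lib_helper1_Thompson

set_option autoImplicit false
open Cfsg

namespace Cfsg.Agent.S0603

/-- The Thompson subgroup of any subgroup containing J(G) is J(G) itself. -/
theorem result {G : Type*} [Group G] [Finite G] {p : ℕ} [Fact p.Prime] (U : Subgroup G) (hU : Cfsg.thompsonSubgroup p G ≤ U) : Cfsg.thompsonSubgroupOf p U = Cfsg.thompsonSubgroup p G := by
  obtain ⟨A₀, hA₀⟩ := Cfsg.Agent.Lib_helper1_Thompson.exists_maxEA (G := G) p
  have hA₀U : A₀ ≤ U := (Cfsg.Agent.Lib_helper1_Thompson.maxEA_le_thompson hA₀).trans hU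
  apply le_antisymm
  · show (sSup (Cfsg.maxElementaryAbelianSubgroups p U)).map U.subtype ≤ _
    rw [Subgroup.map_le_iff_le_comap]
    apply sSup_le
    intro A' hA' a ha
    exact Cfsg.Agent.Lib_helper1_Thompson.maxEA_le_thompson
      (Cfsg.Agent.Lib_helper1_Thompson.maxEA_map_subtype U hA' hA₀ A₀ hA₀.1 hA₀U rfl)
      (Subgroup.mem_map_of_mem _ ha)
  · apply sSup_le
    intro A hA
    have hAU : A ≤ U := (Cfsg.Agent.Lib_helper1_Thompson.maxEA_le_thompson hA).trans hU
    have h1 := Cfsg.Agent.Lib_helper1_Thompson.maxEA_le_thompson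
      (Cfsg.Agent.Lib_helper1_Thompson.maxEA_subgroupOf hA U hAU)
    have h2 := Subgroup.map_mono (f := U.subtype) h1
    rw [Subgroup.map_subgroupOf_eq_of_le hAU] at h2
    exact h2

end Cfsg.Agent.S0603
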