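import Cfsg.Statements.S0604
import Cfsg.Agent.Lib_helper1_Thompson

set_option autoImplicit false
open Cfsg

namespace Cfsg.Agent.S0604

open scoped Pointwise in
/-- The Thompson subgroup of G is the join of the Thompson subgroups of its Sylow p-subgroups. -/
theorem result {G : Type*} [Group G] [Finite G] {p : ℕ} [Fact p.Prime] : Cfsg.thompsonSubgroup p G = ⨆ S : Sylow p G, Cfsg.thompsonSubgroupOf p (S : Subgroup G) := by
  obtain ⟨A₀, hA₀⟩ := Cfsg.Agent.Lib_helper1_Thompson.exists_maxEA (G := G) p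
  apply le_antisymm
  · apply sSup_le
    intro A hA
    obtain ⟨S, hS⟩ := (Cfsg.Agent.Lib_helper1_Thompson.ea_isPGroup hA.1).exists_le_sylow
    have h1 := Cfsg.Agent.Lib_helper1_Thompson.maxEA_le_thompson
      (Cfsg.Agent.Lib_helper1_Thompson.maxEA_subgroupOf hA (S : Subgroup G) hS)
    have h2 := Subgroup.map_mono (f := (S : Subgroup G).subtype) h1
    rw [Subgroup.map_subgroupOf_eq_of_le hS] at h2
    exact h2.trans (le_iSup (fun S : Sylow p G => Cfsg.thompsonSubgroupOf p (S : Subgroup G)) S)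
  · apply iSup_le
    intro S
    show (sSup (Cfsg.maxElementaryAbelianSubgroups p (S : Subgroup G))).map
      (S : Subgroup G).subtype ≤ _
    rw [Subgroup.map_le_iff_le_comap]
    apply sSup_le
    intro A' hA' a ha
    obtain ⟨S₀, hS₀⟩ := (Cfsg.Agent.Lib_helper1_Thompson.ea_isPGroup hA₀.1).exists_le_sylow
    obtain ⟨g, hg⟩ := MulAction.exists_smul_eq G S₀ S
    have hB₀S : MulAut.conj g • A₀ ≤ (S : Subgroup G) := by
      rw [← hg, Sylow.coe_subgroup_smul]
      exact Subgroup.pointwise_smul_le_pointwise_smul_iff.mpr hS₀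
    exact Cfsg.Agent.Lib_helper1_Thompson.maxEA_le_thompson
      (Cfsg.Agent.Lib_helper1_Thompson.maxEA_map_subtype (S : Subgroup G) hA' hA₀
        (MulAut.conj g • A₀) (Cfsg.Agent.Lib_helper1_Thompson.ea_conj_smul hA₀.1 g) hB₀S
        (Cfsg.Agent.Lib_helper1_Hall.card_conj_smul g A₀))
      (Subgroup.mem_map_of_mem _ ha)

end Cfsg.Agent.S0604
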