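import Cfsg.Statements.S0605
import Cfsg.Agent.Lib_helper1_Thompson

set_option autoImplicit false
open Cfsg

namespace Cfsg.Agent.S0605

/-- Elements of order p in the centralizer of the Thompson subgroup belong to the Thompson subgroup (so to its centre). -/
theorem result {G : Type*} [Group G] [Finite G] {p : ℕ} [Fact p.Prime] (x : G) (hx : x ∈ Subgroup.centralizer (Cfsg.thompsonSubgroup p G : Set G)) (ho : orderOf x = p) : x ∈ Cfsg.thompsonSubgroup p G := by
  obtain ⟨A, hA⟩ := Cfsg.Agent.Lib_helper1_Thompson.exists_maxEA (G := G) p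
  have hAJ := Cfsg.Agent.Lib_helper1_Thompson.maxEA_le_thompson hA
  have hxA : x ∈ Subgroup.centralizer (A : Set G) := Subgroup.centralizer_le hAJ hx
  exact hAJ (Cfsg.Agent.Lib_helper1_Thompson.mem_of_maxEA_of_centralizes hA x hxA
    (by rw [← ho]; exact pow_orderOf_eq_one x))

end Cfsg.Agent.S0605
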