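import Cfsg.Statements.S0606
import Cfsg.Agent.Lib_helper1_Thompson

set_option autoImplicit false
open Cfsg

namespace Cfsg.Agent.S0606

/-- Elementary abelian p-subgroups of maximal order are best offenders on any normal elementary abelian p-subgroup. -/
theorem result {G : Type*} [Group G] [Finite G] {p : ℕ} [Fact p.Prime] (V : Subgroup G) [V.Normal] (hV : Cfsg.IsElementaryAbelian p V) (A : Subgroup G) (hA : A ∈ Cfsg.maxElementaryAbelianSubgroups p G) : Cfsg.IsBestOffenderOn p V A := by
  haveI := hA.1.1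
  refine ⟨fun B hBA => ?_, ?_, fun a ha => ?_⟩
  · set C := V ⊓ Subgroup.centralizer (B : Set G) with hC
    have hBea := Cfsg.Agent.Lib_helper1_Thompson.ea_of_le hA.1 hBA
    have hCea : Cfsg.IsElementaryAbelian p C := Cfsg.Agent.Lib_helper1_Thompson.ea_of_le hV inf_le_left
    have hD := Cfsg.Agent.Lib_helper1_Thompson.ea_sup hBea hCea inf_le_right
    have h1 := hA.2 _ hD
    have h2 := Cfsg.Agent.Lib_helper1_Thompson.card_mul_card_le B C
    have h3 : B ⊓ C ≤ V ⊓ Subgroup.centralizer (A : Set G) := by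
      intro x hx
      refine ⟨hx.2.1, ?_⟩
      exact Subgroup.le_centralizer A (hBA hx.1)
    have h4 := Subgroup.card_le_of_le h3
    calc Nat.card B * Nat.card C ≤ Nat.card (B ⊔ C : Subgroup G) * Nat.card (B ⊓ C : Subgroup G) := h2
      _ ≤ Nat.card A * Nat.card ↥(V ⊓ Subgroup.centralizer (A : Set G)) := Nat.mul_le_mul h1 h4
  · have : ⁅A, A⁆ = ⊥ := Subgroup.commutator_eq_bot_iff_le_centralizer.mpr (Subgroup.le_centralizer A)
    rw [this]; exact bot_le
  · rw [hA.1.2 a ha]; exact Subgroup.one_mem _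

end Cfsg.Agent.S0606
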