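import Cfsg.Statements.S0607
import Cfsg.Agent.Lib_helper1_Offender

set_option autoImplicit false
open Cfsg

namespace Cfsg.Agent.S0607

universe u

open scoped commutatorElement

open Cfsg.Agent.Lib_helper1_Basic Cfsg.Agent.Lib_helper1_Hall Cfsg.Agent.Lib_helper1_Socle
  Cfsg.Agent.Lib_helper1_Thompson Cfsg.Agent.Lib_helper1_Offender

/-- `|H ⊔ N| * |H ⊓ N| = |H| * |N|` when `H` normalizes `N`. -/
theorem card_sup_mul_card_inf {G : Type u} [Group G] [Finite G] (H N : Subgroup G)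
    (h : H ≤ Subgroup.normalizer (N : Set G)) :
    Nat.card (H ⊔ N : Subgroup G) * Nat.card (H ⊓ N : Subgroup G) = Nat.card H * Nat.card N := by
  haveI := Subgroup.normal_subgroupOf_of_le_normalizer h
  haveI := Subgroup.normal_subgroupOf_sup_of_le_normalizer h
  have e := Nat.card_congr (QuotientGroup.quotientInfEquivProdNormalizerQuotient H N h).toEquiv
  have e' : N.relIndex H = N.relIndex (H ⊔ N) := by
    unfold Subgroup.relIndex
    rw [Subgroup.index_eq_card, Subgroup.index_eq_card]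
    exact e
  have h2 : Nat.card (N ⊓ H : Subgroup G) * N.relIndex H = Nat.card H := by
    rw [← Subgroup.inf_relIndex_right N H]
    have := Subgroup.card_mul_index ((N ⊓ H).subgroupOf H)
    rw [card_subgroupOf_of_le inf_le_right] at this
    exact this
  have h3 : Nat.card N * N.relIndex (H ⊔ N) = Nat.card (H ⊔ N : Subgroup G) := by
    have := Subgroup.card_mul_index (N.subgroupOf (H ⊔ N))
    rw [card_subgroupOf_of_le le_sup_right] at this
    exact this
  rw [← h3, ← h2, ← e', inf_comm H N]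
  ring

theorem maxEA_hmax {G : Type u} [Group G] [Finite G] {p : ℕ} (V A : Subgroup G)
    (hV : Cfsg.IsElementaryAbelian p V)
    (hA : A ∈ Cfsg.maxElementaryAbelianSubgroups p G) :
    ∀ B : Subgroup G, B ≤ A →
      Nat.card B * Nat.card ↥(V ⊓ Subgroup.centralizer (B : Set G)) ≤
        Nat.card A * Nat.card ↥(V ⊓ Subgroup.centralizer (A : Set G)) := by
  haveI := hA.1.1
  intro B hBA
  set C := V ⊓ Subgroup.centralizer (B : Set G) with hC
  have hBea := ea_of_le hA.1 hBA
  have hCea : Cfsg.IsElementaryAbelian p C := ea_of_le hV inf_le_left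
  have hD := ea_sup hBea hCea inf_le_right
  have h1 := hA.2 _ hD
  have h2 := card_mul_card_le B C
  have h3 : B ⊓ C ≤ V ⊓ Subgroup.centralizer (A : Set G) := by
    intro x hx
    exact ⟨hx.2.1, Subgroup.le_centralizer A (hBA hx.1)⟩
  have h4 := Subgroup.card_le_of_le h3
  calc Nat.card B * Nat.card C ≤ Nat.card (B ⊔ C : Subgroup G) * Nat.card (B ⊓ C : Subgroup G) := h2
    _ ≤ Nat.card A * Nat.card ↥(V ⊓ Subgroup.centralizer (A : Set G)) := Nat.mul_le_mul h1 h4

/-- The replacement Theorem for the Thompson subgroup: from A of maximal order among elementary abelian p-subgroups one obtains A₀ = [V, A] C_A([V, A]) of the same kind, quadratic on V and nontrivial on V when A is. -/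
theorem result {G : Type*} [Group G] [Finite G] {p : ℕ} [Fact p.Prime] (V : Subgroup G) [V.Normal] (hV : Cfsg.IsElementaryAbelian p V) (A : Subgroup G) (hA : A ∈ Cfsg.maxElementaryAbelianSubgroups p G) : (⁅V, A⁆ ⊔ (A ⊓ Subgroup.centralizer ((⁅V, A⁆ : Subgroup G) : Set G))) ∈ Cfsg.maxElementaryAbelianSubgroups p G ∧ ⁅⁅V, ⁅V, A⁆ ⊔ (A ⊓ Subgroup.centralizer ((⁅V, A⁆ : Subgroup G) : Set G))⁆, ⁅V, A⁆ ⊔ (A ⊓ Subgroup.centralizer ((⁅V, A⁆ : Subgroup G) : Set G))⁆ = ⊥ ∧ (⁅V, A⁆ ≠ ⊥ → ⁅V, ⁅V, A⁆ ⊔ (A ⊓ Subgroup.centralizer ((⁅V, A⁆ : Subgroup G) : Set G))⁆ ≠ ⊥) := by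
  haveI hVc := hV.1
  haveI hAc := hA.1.1
  have hAV : A ≤ Subgroup.normalizer (V : Set G) := by
    rw [Subgroup.normalizer_eq_top_iff.mpr inferInstance]; exact le_top
  have hab : ⁅A, A⁆ ≤ Subgroup.centralizer (V : Set G) := by
    have : ⁅A, A⁆ = ⊥ :=
      Subgroup.commutator_eq_bot_iff_le_centralizer.mpr (Subgroup.le_centralizer A)
    rw [this]; exact bot_le
  have hpow : ∀ a ∈ A, a ^ p ∈ Subgroup.centralizer (V : Set G) := fun a ha => by
    rw [hA.1.2 a ha]; exact Subgroup.one_mem _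
  have hmax := maxEA_hmax V A hV hA
  obtain ⟨h1, h2⟩ := replacement V A hAV hab hmax V le_rfl
  have h3 := commutator_ne_bot_of_replacement V A hV hAV hpow V le_rfl h2
  obtain ⟨W, hW⟩ : ∃ W, W = ⁅V, A⁆ := ⟨_, rfl⟩
  rw [← hW] at h1 h2 h3 ⊢
  obtain ⟨B, hB⟩ : ∃ B, B = A ⊓ Subgroup.centralizer (W : Set G) := ⟨_, rfl⟩
  rw [← hB] at h1 h2 h3 ⊢
  obtain ⟨c, hc⟩ : ∃ c, c = V ⊓ Subgroup.centralizer (A : Set G) := ⟨_, rfl⟩
  rw [← hc] at h1 h2
  have hWV : W ≤ V := hW ▸ commutator_le_of_le_normalizer V V A le_rfl hAV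
  have hBA : B ≤ A := hB ▸ inf_le_left
  have hBW : B ≤ Subgroup.centralizer (W : Set G) := hB ▸ inf_le_right
  have hWea : Cfsg.IsElementaryAbelian p W := ea_of_le hV hWV
  have hBea : Cfsg.IsElementaryAbelian p B := ea_of_le hA.1 hBA
  have hA₀ea : Cfsg.IsElementaryAbelian p (W ⊔ B) := ea_sup hWea hBea hBW
  -- V is abelian: V ≤ centralizer of any subgroup of V
  have hVcent : ∀ X : Subgroup G, X ≤ V → V ≤ Subgroup.centralizer (X : Set G) := by
    intro X hX v hv
    rw [Subgroup.mem_centralizer_iff]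
    intro x hx
    exact setLike_mul_comm (hX hx) hv
  -- W ⊓ B = W ⊓ c
  have hinf : W ⊓ B = W ⊓ c := by
    apply le_antisymm
    · intro x hx
      refine ⟨hx.1, ?_⟩
      rw [hc]
      have hxA : x ∈ A := hBA hx.2
      exact ⟨hWV hx.1, Subgroup.le_centralizer A hxA⟩
    · intro x hx
      refine ⟨hx.1, ?_⟩
      have hxc : x ∈ V ⊓ Subgroup.centralizer (A : Set G) := hc ▸ hx.2
      rw [hB]
      refine ⟨mem_of_maxEA_of_centralizes hA x hxc.2 (hV.2 x hxc.1), ?_⟩
      exact hVcent W hWV (hWV hx.1)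
  have hcV : c ≤ V := hc ▸ inf_le_left
  have e1 := card_sup_mul_card_inf B W (hBW.trans (Subgroup.centralizer_le_normalizer _))
  have e2 := card_sup_mul_card_inf c W
    ((hcV.trans (hVcent W hWV)).trans (Subgroup.centralizer_le_normalizer _))
  rw [sup_comm, inf_comm, hinf] at e1
  rw [sup_comm, inf_comm] at e2
  have hcardeq : Nat.card (W ⊔ B : Subgroup G) = Nat.card A := by
    rw [h2] at h1
    -- e1 : card (W ⊔ B) * card (W ⊓ c) = card B * card W
    -- e2 : card (W ⊔ c) * card (W ⊓ c) = card c * card W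
    -- h1 : card B * card (W ⊔ c) = card A * card c
    have hpos : 0 < Nat.card (W ⊓ c : Subgroup G) * Nat.card (W ⊔ c : Subgroup G) :=
      Nat.mul_pos Nat.card_pos Nat.card_pos
    have : Nat.card (W ⊔ B : Subgroup G) *
        (Nat.card (W ⊓ c : Subgroup G) * Nat.card (W ⊔ c : Subgroup G)) =
        Nat.card A * (Nat.card (W ⊓ c : Subgroup G) * Nat.card (W ⊔ c : Subgroup G)) := by
      calc Nat.card (W ⊔ B : Subgroup G) *
            (Nat.card (W ⊓ c : Subgroup G) * Nat.card (W ⊔ c : Subgroup G))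
          = (Nat.card (W ⊔ B : Subgroup G) * Nat.card (W ⊓ c : Subgroup G)) *
            Nat.card (W ⊔ c : Subgroup G) := by ring
        _ = (Nat.card B * Nat.card W) * Nat.card (W ⊔ c : Subgroup G) := by rw [e1]
        _ = (Nat.card B * Nat.card (W ⊔ c : Subgroup G)) * Nat.card W := by ring
        _ = (Nat.card A * Nat.card c) * Nat.card W := by rw [h1]
        _ = Nat.card A * (Nat.card c * Nat.card W) := by ring
        _ = Nat.card A * (Nat.card (W ⊔ c : Subgroup G) * Nat.card (W ⊓ c : Subgroup G)) := by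
            rw [e2]
        _ = _ := by ring
    exact Nat.eq_of_mul_eq_mul_right hpos this
  have hA₀W : W ⊔ B ≤ Subgroup.centralizer (W : Set G) := sup_le (hVcent W hWV |>.trans' hWV) hBW
  have hVA₀ : ⁅V, W ⊔ B⁆ ≤ W := by
    let T : Subgroup G :=
      { carrier := {x | x ∈ Subgroup.normalizer (W : Set G) ∧ ∀ v ∈ V, ⁅v, x⁆ ∈ W}
        mul_mem' := by
          rintro x y ⟨hx, hxv⟩ ⟨hy, hyv⟩
          refine ⟨Subgroup.mul_mem _ hx hy, fun v hv => ?_⟩
          have e : ⁅v, x * y⁆ = ⁅v, x⁆ * (x * ⁅v, y⁆ * x⁻¹) := by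
            simp only [commutatorElement_def]; group
          rw [e]
          exact W.mul_mem (hxv v hv) ((Subgroup.mem_normalizer_iff.mp hx _).mp (hyv v hv))
        one_mem' := by
          refine ⟨Subgroup.one_mem _, fun v _ => ?_⟩
          have : ⁅v, (1 : G)⁆ = 1 := by simp [commutatorElement_def]
          rw [this]; exact W.one_mem
        inv_mem' := by
          rintro x ⟨hx, hxv⟩
          refine ⟨Subgroup.inv_mem _ hx, fun v hv => ?_⟩
          have e : ⁅v, x⁻¹⁆ = x⁻¹ * ⁅v, x⁆⁻¹ * x⁻¹⁻¹ := by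
            simp only [commutatorElement_def]; group
          rw [e]
          exact (Subgroup.mem_normalizer_iff.mp (Subgroup.inv_mem _ hx) _).mp
            (W.inv_mem (hxv v hv)) }
    have hT1 : W ≤ T := fun w hw => ⟨Subgroup.le_normalizer hw, fun v hv => by
      have : ⁅v, w⁆ = 1 := by
        rw [commutatorElement_def, setLike_mul_comm hv (hWV hw)]; group
      rw [this]; exact W.one_mem⟩
    have hT2 : B ≤ T := fun b hb => ⟨Subgroup.centralizer_le_normalizer _ (hBW hb), fun v hv => by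
      rw [hW]; exact Subgroup.commutator_mem_commutator hv (hBA hb)⟩
    rw [Subgroup.commutator_le]
    intro v hv x hx
    exact (sup_le hT1 hT2 hx).2 v hv
  refine ⟨⟨hA₀ea, fun B' hB' => ?_⟩, ?_, fun hne => ?_⟩
  · rw [hcardeq]; exact hA.2 B' hB'
  · rw [Subgroup.commutator_eq_bot_iff_le_centralizer]
    exact hVA₀.trans (Subgroup.le_centralizer_iff.mp hA₀W)
  · intro h
    apply h3 hne
    rw [eq_bot_iff, ← h]
    exact Subgroup.commutator_mono le_rfl le_sup_right

end Cfsg.Agent.S0607
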