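import Cfsg.Statements.S0629
import Cfsg.Agent.Lib_helper1_PSolvComp

set_option autoImplicit false
open Cfsg

namespace Cfsg.Agent.S0629

/-- A group in which the centralizer of a Sylow p-subgroup of O_{p',p}(G) is p-solvable is p-constrained. -/
theorem result {G : Type*} [Group G] [Finite G] {p : ℕ} [Fact p.Prime] (P : Sylow p ↥(Cfsg.pPrimePCore p G)) (hsol : Cfsg.IsPSolvable p ↥(Subgroup.centralizer (((P : Subgroup ↥(Cfsg.pPrimePCore p G)).map (Cfsg.pPrimePCore p G).subtype : Subgroup G) : Set G))) : Cfsg.IsPConstrained p G := by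
  rw [Cfsg.Agent.Lib_helper2_PCons.pConstrained_iff, Cfsg.Agent.Lib_helper2_PCons.pLayer_eq_bot_iff,
    eq_bot_iff]
  apply sSup_le
  intro L hL
  exfalso
  have hPp : IsPGroup p ↥((P : Subgroup ↥(pPrimePCore p G)).map (pPrimePCore p G).subtype) :=
    P.isPGroup'.map _
  have hLc : L ≤ (Subgroup.centralizer
      (((P : Subgroup ↥(pPrimePCore p G)).map (pPrimePCore p G).subtype : Subgroup G) : Set G)).map
        (QuotientGroup.mk' (pPrimeCore p G)) := by
    intro ybar hy
    obtain ⟨y, rfl⟩ := QuotientGroup.mk'_surjective (pPrimeCore p G) ybar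
    have hy' : (QuotientGroup.mk' (pPrimeCore p G)) y ∈ Subgroup.centralizer
        (((((P : Subgroup ↥(pPrimePCore p G)).map (pPrimePCore p G).subtype).map
          (QuotientGroup.mk' (pPrimeCore p G)) : Subgroup (G ⧸ pPrimeCore p G))) :
            Set (G ⧸ pPrimeCore p G)) := by
      rw [Cfsg.Agent.Lib_helper2_PCons.sylow_pPrimePCore_map p P, Subgroup.mem_centralizer_iff]
      intro t ht
      exact (Cfsg.Agent.Lib_helper2_Comp.layer_comm_fitting _
        (Cfsg.Agent.Lib_helper2_Comp.comp_le_layer hL hy) t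
        (Cfsg.Agent.Lib_helper2_Comp2.pCore_le_fitting p ht)).symm
    obtain ⟨w, hw, hwy⟩ := Cfsg.Agent.Lib_helper2_PCons.exists_mul_mem_centralizer p
      (pPrimeCore p G) (Cfsg.Agent.Lib_helper2_PComp.card_pPrimeCore p) _ hPp y hy'
    refine ⟨w * y, hwy, ?_⟩
    rw [map_mul, QuotientGroup.mk'_apply, (QuotientGroup.eq_one_iff w).mpr hw, one_mul]
  have hD : IsPSolvable p ↥((Subgroup.centralizer
      (((P : Subgroup ↥(pPrimePCore p G)).map (pPrimePCore p G).subtype : Subgroup G) : Set G)).map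
        (QuotientGroup.mk' (pPrimeCore p G))) :=
    Cfsg.Agent.Lib_helper5_PSolv.isPSolvable_of_surjective
      ((QuotientGroup.mk' (pPrimeCore p G)).subgroupMap _)
      (MonoidHom.subgroupMap_surjective _ _) hsol
  exact Cfsg.Agent.Lib_helper1_PSolvComp.comp_not_pSolvable p
    (Cfsg.Agent.Lib_helper2_PComp.pPrimeCore_quotient_bot p) L hL
    (Cfsg.Agent.Lib_helper1_PSolvComp.isPSolvable_of_le p hLc hD)

end Cfsg.Agent.S0629
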