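import Cfsg.Statements.S0630
import Cfsg.Agent.Lib_helper2_PCons

set_option autoImplicit false
open Cfsg

namespace Cfsg.Agent.S0630

/-- p-constraint passes to and from the quotient by the largest normal subgroup of order prime to p. -/
theorem result {G : Type*} [Group G] [Finite G] {p : ℕ} [Fact p.Prime] : Cfsg.IsPConstrained p G ↔ Cfsg.IsPConstrained p (G ⧸ Cfsg.pPrimeCore p G) := by
  rw [Cfsg.Agent.Lib_helper2_PCons.pConstrained_iff, Cfsg.Agent.Lib_helper2_PCons.pConstrained_iff,
    Cfsg.Agent.Lib_helper2_PCons.pLayer_eq_bot_iff,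
    Cfsg.Agent.Lib_helper2_PCons.pLayer_eq_bot_iff (X := G ⧸ pPrimeCore p G)]
  have hbot := Cfsg.Agent.Lib_helper2_PComp.pPrimeCore_quotient_bot (X := G) p
  let e : (G ⧸ pPrimeCore p G) ⧸ pPrimeCore p (G ⧸ pPrimeCore p G) ≃* (G ⧸ pPrimeCore p G) :=
    (QuotientGroup.quotientMulEquivOfEq hbot).trans QuotientGroup.quotientBot
  constructor
  · intro h
    have h1 := Cfsg.Agent.Lib_helper2_Comp2.layer_map_le e
    rw [h, le_bot_iff, Subgroup.map_eq_bot_iff_of_injective _ e.injective] at h1
    exact h1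
  · intro h
    have h1 := Cfsg.Agent.Lib_helper2_Comp2.layer_map_le e.symm
    rw [h, le_bot_iff, Subgroup.map_eq_bot_iff_of_injective _ e.symm.injective] at h1
    exact h1

end Cfsg.Agent.S0630
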