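import Cfsg.Statements.S0631
import Cfsg.Agent.Lib_helper1_PConsNormal

set_option autoImplicit false
open Cfsg

namespace Cfsg.Agent.S0631

/-- In a p-constrained group the normalizer and the centralizer of any p-subgroup are again p-constrained. -/
theorem result {G : Type*} [Group G] [Finite G] {p : ℕ} [Fact p.Prime] (hG : Cfsg.IsPConstrained p G) (P : Subgroup G) (hP : IsPGroup p P) : Cfsg.IsPConstrained p ↥(Subgroup.normalizer (P : Set G)) ∧ Cfsg.IsPConstrained p ↥(Subgroup.centralizer (P : Set G)) := by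
  have hL : pLayer p G = ⊥ := (Cfsg.Agent.Lib_helper2_PCons.pConstrained_iff p).mp hG
  have hN := (Cfsg.Agent.Lib_helper2_PCons.pLayer_normalizer p hL P hP).1
  refine ⟨(Cfsg.Agent.Lib_helper2_PCons.pConstrained_iff p).mpr hN, ?_⟩
  rw [Cfsg.Agent.Lib_helper2_PCons.pConstrained_iff]
  have hle : Subgroup.centralizer (P : Set G) ≤ Subgroup.normalizer (P : Set G) :=
    Subgroup.centralizer_le_normalizer (P : Set G)
  apply Cfsg.Agent.Lib_helper1_PConsNormal.pLayer_eq_bot_of_hom p (Subgroup.inclusion hle)
    (Subgroup.inclusion_injective hle) ?_ hN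
  have hr : (Subgroup.inclusion hle).range =
      (Subgroup.centralizer (P : Set G)).subgroupOf (Subgroup.normalizer (P : Set G)) := by
    ext x
    rw [MonoidHom.mem_range, Subgroup.mem_subgroupOf]
    constructor
    · rintro ⟨y, rfl⟩
      exact y.2
    · intro hx
      exact ⟨⟨x, hx⟩, rfl⟩
  rw [hr]
  exact (Subgroup.normal_subgroupOf_iff_le_normalizer hle).mpr
    (Cfsg.Agent.Lib_helper2_Comp2.normalizer_le_normalizer_centralizer P)

end Cfsg.Agent.S0631
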