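import Cfsg.Statements.S0632
import Cfsg.Agent.Lib_helper1_PStabQ
import Cfsg.Agent.Lib_helper1_Basic

set_option autoImplicit false
open Cfsg

namespace Cfsg.Agent.S0632

/-- For a group with a nontrivial normal p-subgroup, p-stability passes to and from the quotient by the largest normal subgroup of order prime to p. -/
theorem result {G : Type*} [Group G] [Finite G] {p : ℕ} [Fact p.Prime] (hO : Cfsg.pCore p G ≠ ⊥) : Cfsg.IsPStable p G ↔ Cfsg.IsPStable p (G ⧸ Cfsg.pPrimeCore p G) := by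
  classical
  haveI hOn : (Cfsg.pPrimeCore p G).Normal := Cfsg.Agent.Lib_helper6_PCore.pPrimeCore_normal p
  have hOc : (Nat.card (Cfsg.pPrimeCore p G)).Coprime p :=
    Lib_helper7_PPrime.card_pPrimeCore_coprime p
  have hbot := H1PSQ.pPrimeCore_quot_bot (G := G) p
  have hPP := H1PSQ.pPrimePCore_eq_pCore (H := G ⧸ Cfsg.pPrimeCore p G) p hbot
  have hsurj := QuotientGroup.mk'_surjective (Cfsg.pPrimeCore p G)
  constructor
  · rintro ⟨hodd, -, hst⟩
    refine ⟨hodd, ?_, ?_⟩
    · intro hb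
      apply hO
      have h1 : (Cfsg.pCore p G).map (QuotientGroup.mk' (Cfsg.pPrimeCore p G)) ≤
          Cfsg.pCore p (G ⧸ Cfsg.pPrimeCore p G) :=
        Lib_helper6_PCore.le_pCore (Subgroup.Normal.map inferInstance _ hsurj)
          ((Lib_helper6_PCore.pCore_isPGroup p).map _)
      rw [hb] at h1
      rw [eq_bot_iff]
      intro x hx
      have h2 : (QuotientGroup.mk' (Cfsg.pPrimeCore p G)) x = 1 := by
        have := h1 ⟨x, hx, rfl⟩
        simpa using this
      have h3 : x ∈ Cfsg.pPrimeCore p G := (QuotientGroup.eq_one_iff x).mp h2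
      rw [Subgroup.mem_bot]
      exact H1PSQ.pgroup_inf_triv _ hOc _ (Lib_helper6_PCore.pCore_isPGroup p) x hx h3
    · intro Ab Pb hAb hPb hnorm hle hN hquad
      have hPbcore : Pb ≤ Cfsg.pCore p (G ⧸ Cfsg.pPrimeCore p G) := by rw [← hPP]; exact hle
      have hPbn : Pb.Normal := by
        have e : Cfsg.pPrimeCore p (G ⧸ Cfsg.pPrimeCore p G) ⊔ Pb = Pb := by
          rw [hbot, bot_sup_eq]
        rw [e] at hN; exact hN
      obtain ⟨P, hPp, -, hPe⟩ := H1PSQ.lift_pgroup (QuotientGroup.mk' (Cfsg.pPrimeCore p G)) ⊤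
        Pb hPb (fun x _ => by obtain ⟨g, rfl⟩ := hsurj x; exact ⟨g, Subgroup.mem_top g, rfl⟩)
      subst hPe
      have hAbN : Ab ≤ Subgroup.normalizer
          ((P.map (QuotientGroup.mk' (Cfsg.pPrimeCore p G)) : Subgroup _) : Set _) := by
        intro a ha
        exact Lib_helper1_Basic.mem_normalizer_of_conj_le _ a (hnorm a ha)
      obtain ⟨S, hPS⟩ := hPp.exists_le_sylow
      have hAble := hAbN.trans (H1GT.normalizer_map_le S (Cfsg.pPrimeCore p G) hOc P hPS)
      obtain ⟨A, hAp, hAN, hAe⟩ := H1PSQ.lift_pgroup (QuotientGroup.mk' (Cfsg.pPrimeCore p G))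
        (Subgroup.normalizer (P : Set G)) Ab hAb hAble
      subst hAe
      apply H1PSQ.stab_push _ P hOc hPp A hAN
      have hPA : ⁅P, A⁆ ≤ P := by
        rw [Subgroup.commutator_le]
        intro x hx a ha
        have h1 := (Subgroup.mem_normalizer_iff.mp (hAN ha) x⁻¹).mp (P.inv_mem hx)
        have e : x * a * x⁻¹ * a⁻¹ = x * (a * x⁻¹ * a⁻¹) := by group
        show x * a * x⁻¹ * a⁻¹ ∈ P
        rw [e]; exact P.mul_mem hx h1
      apply hst A P hAp hPp
      · intro a ha x hx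
        exact (Subgroup.mem_normalizer_iff.mp (hAN ha) x).mp hx
      · intro x hx
        show (QuotientGroup.mk' (Cfsg.pPrimeCore p G)) x ∈ Cfsg.pCore p (G ⧸ Cfsg.pPrimeCore p G)
        exact hPbcore ⟨x, hx, rfl⟩
      · have e : Cfsg.pPrimeCore p G ⊔ P =
            (P.map (QuotientGroup.mk' (Cfsg.pPrimeCore p G))).comap
              (QuotientGroup.mk' (Cfsg.pPrimeCore p G)) := by
          rw [Subgroup.comap_map_eq, QuotientGroup.ker_mk', sup_comm]
        rw [e]
        exact Subgroup.Normal.comap hPbn _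
      · rw [eq_bot_iff]
        intro x hx
        have h1 : x ∈ P := hPA (Subgroup.commutator_mono hPA le_rfl hx)
        have h2 : (QuotientGroup.mk' (Cfsg.pPrimeCore p G)) x ∈
            ⁅⁅P.map (QuotientGroup.mk' (Cfsg.pPrimeCore p G)),
              A.map (QuotientGroup.mk' (Cfsg.pPrimeCore p G))⁆,
              A.map (QuotientGroup.mk' (Cfsg.pPrimeCore p G))⁆ := by
          rw [← Subgroup.map_commutator, ← Subgroup.map_commutator]
          exact ⟨x, hx, rfl⟩
        rw [hquad, Subgroup.mem_bot] at h2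
        have h3 : x ∈ Cfsg.pPrimeCore p G := (QuotientGroup.eq_one_iff x).mp h2
        rw [Subgroup.mem_bot]
        exact H1PSQ.pgroup_inf_triv _ hOc P hPp x h1 h3
  · rintro ⟨hodd, -, hst⟩
    refine ⟨hodd, hO, ?_⟩
    intro A P hA hP hnorm hle hN hquad
    apply H1PSQ.stab_pull (Cfsg.pPrimeCore p G) P hOc hP A
    apply hst (A.map (QuotientGroup.mk' (Cfsg.pPrimeCore p G)))
      (P.map (QuotientGroup.mk' (Cfsg.pPrimeCore p G))) (hA.map _) (hP.map _)
    · rintro _ ⟨a, ha, rfl⟩ _ ⟨x, hx, rfl⟩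
      exact ⟨a * x * a⁻¹, hnorm a ha x hx, by simp⟩
    · rw [hPP]
      rintro _ ⟨x, hx, rfl⟩
      exact hle hx
    · have e : Cfsg.pPrimeCore p (G ⧸ Cfsg.pPrimeCore p G) ⊔
            P.map (QuotientGroup.mk' (Cfsg.pPrimeCore p G)) =
          (Cfsg.pPrimeCore p G ⊔ P).map (QuotientGroup.mk' (Cfsg.pPrimeCore p G)) := by
        rw [hbot, bot_sup_eq, Subgroup.map_sup,
          QuotientGroup.map_mk'_self, bot_sup_eq]
      rw [e]
      exact Subgroup.Normal.map hN _ hsurj
    · rw [← Subgroup.map_commutator, ← Subgroup.map_commutator, hquad, Subgroup.map_bot]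

end Cfsg.Agent.S0632
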