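import Cfsg.Statements.S0634
import Cfsg.Agent.Lib_helper1_PSolvComp
import Cfsg.Agent.Lib_helper2_Supp

set_option autoImplicit false
open Cfsg

namespace Cfsg.Agent.S0634

/-- In a p-soluble group each p-factor of the upper p-series contains its own centralizer in the corresponding quotient. -/
theorem result {G : Type*} [Group G] [Finite G] {p : ℕ} [Fact p.Prime] (hsol : Cfsg.IsPSolvable p G) (k : ℕ) : Subgroup.centralizer ((((Cfsg.upperPSeries p G (2 * k + 2)).1.map (QuotientGroup.mk' (Cfsg.upperPSeries p G (2 * k + 1)).1)) : Subgroup (G ⧸ (Cfsg.upperPSeries p G (2 * k + 1)).1)) : Set (G ⧸ (Cfsg.upperPSeries p G (2 * k + 1)).1)) ≤ (Cfsg.upperPSeries p G (2 * k + 2)).1.map (QuotientGroup.mk' (Cfsg.upperPSeries p G (2 * k + 1)).1) := by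
  have e2 : (upperPSeries p G (2 * k + 2)).1 = (pCore p (G ⧸ (upperPSeries p G (2 * k + 1)).1)).comap
      (QuotientGroup.mk' (upperPSeries p G (2 * k + 1)).1) :=
    Cfsg.Agent.Lib_helper2_Supp.upper_succ_odd (G := G) p (2 * k + 1) (by
      rw [Nat.not_even_iff_odd]; exact ⟨k, rfl⟩)
  have e1 : (upperPSeries p G (2 * k + 1)).1 = (pPrimeCore p (G ⧸ (upperPSeries p G (2 * k)).1)).comap
      (QuotientGroup.mk' (upperPSeries p G (2 * k)).1) :=
    Cfsg.Agent.Lib_helper2_Supp.upper_succ_even (G := G) p (2 * k) (even_two_mul k)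
  rw [e2, Subgroup.map_comap_eq_self_of_surjective (QuotientGroup.mk'_surjective _)]
  have hbot : pPrimeCore p (G ⧸ (upperPSeries p G (2 * k + 1)).1) = ⊥ :=
    Cfsg.Agent.Lib_helper1_PSolvComp.pPrimeCore_quotient_comap_bot p _ _ e1
  exact Cfsg.Agent.Lib_helper1_PSolvComp.centralizer_pCore_le_of_pSolvable p hbot
    (Cfsg.Agent.Lib_helper5_PSolv.isPSolvable_of_surjective _ (QuotientGroup.mk'_surjective _) hsol)

end Cfsg.Agent.S0634
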