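import Cfsg.Statements.S0640
import Cfsg.Agent.Lib_helper1_AutRank2

set_option autoImplicit false
open Cfsg

namespace Cfsg.Agent.S0640

/-- For odd p, a prime q ≠ p dividing the order of the automorphism group of a p-group of rank at most 2 divides p² - 1 and is less than p. -/
theorem result {R : Type*} [Group R] [Finite R] {p : ℕ} [Fact p.Prime] (hp : p ≠ 2) (hR : IsPGroup p R) (hrk : Cfsg.PRankLE p 2 R) (q : ℕ) (hq : q.Prime) (hqp : q ≠ p) (hdvd : q ∣ Nat.card (MulAut R)) : q ∣ p ^ 2 - 1 ∧ q < p := by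
  have hpp : p.Prime := Fact.out
  have h1 : q ∣ p ^ 2 - 1 := Cfsg.Agent.H1AR.aut_rank_two hp hR hrk q hq hqp hdvd
  refine ⟨h1, ?_⟩
  have h4 : ∀ m : ℕ, (m + 1) ^ 2 - 1 = m * (m + 1 + 1) := by
    intro m; symm; apply Nat.eq_sub_of_add_eq; ring
  have h5 := h4 (p - 1)
  rw [Nat.sub_add_cancel hpp.one_le] at h5
  rw [h5] at h1
  rcases (Nat.Prime.dvd_mul hq).mp h1 with h | h
  · have := Nat.le_of_dvd (Nat.sub_pos_of_lt hpp.one_lt) h
    omega
  · have hle := Nat.le_of_dvd (by omega) h
    rcases Nat.lt_or_ge q (p + 1) with h6 | h6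
    · omega
    · exfalso
      have hq1 : q = p + 1 := by omega
      have hodd : Odd p := hpp.odd_of_ne_two hp
      have hev : Even q := by rw [hq1]; exact hodd.add_one
      have h7 := (Nat.Prime.even_iff hq).mp hev
      have h8 := hpp.one_lt
      omega

end Cfsg.Agent.S0640
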