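import Cfsg.Statements.S0643
import Cfsg.Agent.Lib_helper6_Regular2
import Cfsg.Agent.Lib_helper6_RegLvl

set_option autoImplicit false
open Cfsg

namespace Cfsg.Agent.S0643

/-- Kemhadze's criterion: a finite p-group is regular exactly when (ab)^p = a^p b^p c^p always holds for some c in the derived subgroup of the subgroup generated by a and b. -/
theorem result {G : Type*} [Group G] [Finite G] {p : ℕ} [Fact p.Prime] (hG : IsPGroup p G) : Cfsg.IsRegularPGroup p G ↔ ∀ a b : G, ∃ c ∈ ⁅Subgroup.closure ({a, b} : Set G), Subgroup.closure ({a, b} : Set G)⁆, (a * b) ^ p = a ^ p * b ^ p * c ^ p := by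
  constructor
  · intro h a b
    obtain ⟨c, hc, habc⟩ := h.2 a b 1
    have hs := Cfsg.Agent.Lib_helper6_Regular2.pow_set_eq h
      ⁅Subgroup.closure ({a, b} : Set G), Subgroup.closure ({a, b} : Set G)⁆ 1
    have hc' : c ∈ {y : G | ∃ x ∈ ⁅Subgroup.closure ({a, b} : Set G),
        Subgroup.closure ({a, b} : Set G)⁆, y = x ^ (p ^ 1)} := by rw [hs]; exact hc
    obtain ⟨x, hx, rfl⟩ := hc'
    refine ⟨x, hx, ?_⟩
    rw [pow_one] at habc
    exact habc
  · intro hK
    exact ⟨hG, fun a b n => (Cfsg.Agent.Lib_helper6_RegLvl.regAt_of_kem hG hK n).2 a b⟩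

end Cfsg.Agent.S0643
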