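import Cfsg.Statements.S0645
import Cfsg.Agent.Lib_helper1_CyclicMax

set_option autoImplicit false
open Cfsg

namespace Cfsg.Agent.S0645

/-- Classification of p-groups with a cyclic maximal subgroup, odd p: a non-abelian one of order p^n has generators a of order p^(n-1) and b of order p, b outside the cyclic subgroup generated by a, with b a b⁻¹ = a^(1 + p^(n-2)). -/
theorem result {G : Type*} [Group G] [Finite G] {p : ℕ} [Fact p.Prime] (hp : p ≠ 2) (n : ℕ) (hn : 3 ≤ n) (hG : Nat.card G = p ^ n) (C : Subgroup G) (hC : IsCyclic C) (hCi : C.index = p) (hna : ∃ x y : G, x * y ≠ y * x) : ∃ a b : G, orderOf a = p ^ (n - 1) ∧ orderOf b = p ∧ b ∉ Subgroup.zpowers a ∧ b * a * b⁻¹ = a ^ (1 + p ^ (n - 2)) := by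
  have hpp : p.Prime := Fact.out
  have hR : IsPGroup p G := IsPGroup.of_card hG
  have hnc : ¬ IsCyclic G := by
    intro hcyc
    obtain ⟨x, y, hxy⟩ := hna
    obtain ⟨g, hg⟩ := hcyc.exists_generator
    obtain ⟨i, rfl⟩ := Subgroup.mem_zpowers_iff.mp (hg x)
    obtain ⟨j, rfl⟩ := Subgroup.mem_zpowers_iff.mp (hg y)
    exact hxy ((Commute.refl g).zpow_zpow i j).eq
  obtain ⟨c, m, hm1, hCz, hm, hcardR, hwo, hwc, hconj, hcomm⟩ :=
    Cfsg.Agent.Lib_helper1_CyclicMax.data hp hR C hC hCi hnc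
  have hmn : m + 1 = n := Nat.pow_right_injective hpp.two_le (hcardR.symm.trans hG)
  haveI hCn : C.Normal := Cfsg.Agent.Lib_helper1_CyclicMax.normal_of_index_p hR C hCi
  have hpow := Cfsg.Agent.Lib_helper1_CyclicMax.pow_hom hp hR C hC hCi hnc
  -- an element outside `C`
  have hex : ∃ x₀ : G, x₀ ∉ C := by
    by_contra hall
    push Not at hall
    have : C = ⊤ := by rw [eq_top_iff]; intro x _; exact hall x
    rw [this, Subgroup.index_top] at hCi
    exact hpp.one_lt.ne hCi
  obtain ⟨x₀, hx₀⟩ := hex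
  obtain ⟨k, hk⟩ := Cfsg.Agent.Lib_helper1_CyclicMax.pow_p_mem hR C hCi hnc c hCz x₀
  have hckC : c ^ k ∈ C := by rw [hCz]; exact Subgroup.pow_mem _ (Subgroup.mem_zpowers c) k
  have hb₀p : (x₀ * (c ^ k)⁻¹) ^ p = 1 := by
    rw [hpow, inv_pow, hk, mul_inv_cancel]
  have hb₀C : x₀ * (c ^ k)⁻¹ ∉ C := by
    intro h
    apply hx₀
    have : x₀ = x₀ * (c ^ k)⁻¹ * c ^ k := by group
    rw [this]; exact mul_mem h hckC
  obtain ⟨t, ht⟩ := hconj (x₀ * (c ^ k)⁻¹)
  set b₀ := x₀ * (c ^ k)⁻¹ with hb₀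
  set w := c ^ p ^ (m - 1) with hw
  have hw1 : w ≠ 1 := by
    intro h1
    rw [h1, orderOf_one] at hwo
    exact hpp.one_lt.ne hwo
  have hwp : w ^ p = 1 := by
    have := pow_orderOf_eq_one w
    rwa [hwo] at this
  have hpt : ¬ p ∣ t := by
    rintro ⟨t', rfl⟩
    rw [pow_mul, hwp, one_pow, mul_one] at ht
    -- `b₀` commutes with `c`, so `c` is central and `G` is abelian
    have hcen : ∀ g : G, g * c = c * g := by
      have hCK : C ≤ Subgroup.centralizer ({c} : Set G) := by
        rw [hCz, Subgroup.zpowers_le, Subgroup.mem_centralizer_iff]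
        intro h hh
        rw [Set.mem_singleton_iff] at hh
        rw [hh]
      have hbK : b₀ ∈ Subgroup.centralizer ({c} : Set G) := by
        rw [Subgroup.mem_centralizer_iff]
        intro h hh
        rw [Set.mem_singleton_iff] at hh
        rw [hh]
        calc c * b₀ = b₀ * c * b₀⁻¹ * b₀ := by rw [ht]
          _ = b₀ * c := by group
      have hKtop : Subgroup.centralizer ({c} : Set G) = ⊤ := by
        have h1 := Subgroup.relIndex_mul_index hCK
        rw [hCi] at h1
        have h2 : C.relIndex (Subgroup.centralizer ({c} : Set G)) ≠ 1 := by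
          intro h
          exact hb₀C (Subgroup.relIndex_eq_one.mp h hbK)
        have h3 : C.relIndex (Subgroup.centralizer ({c} : Set G)) ∣ p := Dvd.intro _ h1
        rcases (Nat.dvd_prime hpp).mp h3 with h | h
        · exact absurd h h2
        · rw [h] at h1
          have h4 : (Subgroup.centralizer ({c} : Set G)).index = 1 := by
            have : p * (Subgroup.centralizer ({c} : Set G)).index = p * 1 := by rw [h1, mul_one]
            exact Nat.eq_of_mul_eq_mul_left hpp.pos this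
          exact Subgroup.index_eq_one.mp h4
      intro g
      have hg : g ∈ Subgroup.centralizer ({c} : Set G) := by rw [hKtop]; trivial
      exact ((Subgroup.mem_centralizer_iff.mp hg) c rfl).symm
    haveI : IsCyclic (G ⧸ C) := by
      apply isCyclic_of_prime_card (p := p)
      rw [← Subgroup.index_eq_card, hCi]
    have hker : (QuotientGroup.mk' C).ker ≤ Subgroup.center G := by
      rw [QuotientGroup.ker_mk', hCz, Subgroup.zpowers_le, Subgroup.mem_center_iff]
      exact hcen
    obtain ⟨x, y, hxy⟩ := hna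
    exact hxy (((QuotientGroup.mk' C).isMulCommutative_of_isCyclic_of_ker_le_center hker).is_comm.comm x y)
  have hcop : Nat.Coprime t p := ((Nat.Prime.coprime_iff_not_dvd hpp).mpr hpt).symm
  obtain ⟨i, -, hi⟩ := Nat.exists_mul_mod_eq_one_of_coprime hcop hpp.one_lt
  have hiter : ∀ i : ℕ, b₀ ^ i * c * (b₀ ^ i)⁻¹ = c * w ^ (t * i) := by
    intro i
    induction i with
    | zero => simp
    | succ i ih =>
      have e : b₀ ^ (i + 1) * c * (b₀ ^ (i + 1))⁻¹ = b₀ * (b₀ ^ i * c * (b₀ ^ i)⁻¹) * b₀⁻¹ := by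
        rw [pow_succ']; group
      have hc : Commute b₀ (w ^ (t * i)) := (show Commute b₀ w from hwc b₀).pow_right _
      rw [e, ih]
      calc b₀ * (c * w ^ (t * i)) * b₀⁻¹ = (b₀ * c * b₀⁻¹) * (b₀ * w ^ (t * i) * b₀⁻¹) := by group
        _ = c * w ^ t * w ^ (t * i) := by rw [ht, hc.eq, mul_inv_cancel_right]
        _ = c * w ^ (t * (i + 1)) := by rw [mul_assoc, ← pow_add]; congr 2; ring
  have hwti : w ^ (t * i) = w := by
    have : w ^ (t * i) = w ^ 1 := by
      rw [pow_eq_pow_iff_modEq, hwo]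
      show t * i % p = 1 % p
      rw [hi, Nat.mod_eq_of_lt hpp.one_lt]
    rw [this, pow_one]
  have hbc : b₀ ^ i * c * (b₀ ^ i)⁻¹ = c * w := by rw [hiter i, hwti]
  have hbnot : b₀ ^ i ∉ Subgroup.zpowers c := by
    intro hmem
    obtain ⟨l, hl⟩ := Subgroup.mem_zpowers_iff.mp hmem
    have hc : Commute (b₀ ^ i) c := by
      rw [← hl]; exact ((Commute.refl c).zpow_left l)
    have : b₀ ^ i * c * (b₀ ^ i)⁻¹ = c := by rw [hc.eq, mul_inv_cancel_right]
    rw [this] at hbc
    exact hw1 (mul_left_cancel (a := c) (by rw [mul_one]; exact hbc.symm))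
  refine ⟨c, b₀ ^ i, ?_, ?_, hbnot, ?_⟩
  · rw [hm]; congr 1; omega
  · apply orderOf_eq_prime
    · rw [← pow_mul, mul_comm, pow_mul, hb₀p, one_pow]
    · intro h1
      apply hbnot
      rw [h1]; exact one_mem _
  · rw [hbc, hw, pow_add, pow_one]
    congr 2
    congr 1
    omega

end Cfsg.Agent.S0645
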