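import Cfsg.Statements.S0660
import Mathlib
import Cfsg.Agent.Lib_helper1_Maschke
import Cfsg.Agent.Lib_helper1_Basic

set_option autoImplicit false
open Cfsg

namespace Cfsg.Agent.S0660

open scoped IsMulCommutative in
/-- Under a coprime action on an abelian group, an invariant subgroup that is complemented admits an invariant complement. -/
theorem result {G : Type*} [Group G] [Finite G] (V A U : Subgroup G) (hVab : IsMulCommutative V) (hAV : A ≤ Subgroup.normalizer (V : Set G)) (hcop : (Nat.card A).Coprime (Nat.card V)) (hUV : U ≤ V) (hAU : A ≤ Subgroup.normalizer (U : Set G)) (W : Subgroup G) (hWV : W ≤ V) (hUW : U ⊓ W = ⊥) (hUWV : U ⊔ W = V) : ∃ W' : Subgroup G, W' ≤ V ∧ A ≤ Subgroup.normalizer (W' : Set G) ∧ U ⊓ W' = ⊥ ∧ U ⊔ W' = V := by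
  classical
  haveI : IsMulCommutative V := hVab
  letI := Fintype.ofFinite A
  obtain ⟨ρ, hρ⟩ : ∃ ρ : A →* MulAut V, ∀ (a : A) (v : V),
      ((ρ a v : V) : G) = (a : G) * v * (a : G)⁻¹ :=
    ⟨V.normalizerMonoidHom.comp (Subgroup.inclusion hAV), fun a v => rfl⟩
  have hcop' : (Fintype.card A).Coprime (Nat.card V) := by
    rw [← Nat.card_eq_fintype_card]; exact hcop
  have h1 : ∀ a : A, ∀ u ∈ U.subgroupOf V, ρ a u ∈ U.subgroupOf V := by
    intro a u hu
    rw [Subgroup.mem_subgroupOf] at hu ⊢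
    rw [hρ]
    have := hAU a.2
    rw [Subgroup.mem_normalizer_iff] at this
    exact (this _).mp hu
  have h2 : U.subgroupOf V ⊓ W.subgroupOf V = ⊥ := by
    rw [eq_bot_iff]
    intro x hx
    obtain ⟨hx1, hx2⟩ := Subgroup.mem_inf.mp hx
    rw [Subgroup.mem_subgroupOf] at hx1 hx2
    have : (x : G) ∈ U ⊓ W := ⟨hx1, hx2⟩
    rw [hUW, Subgroup.mem_bot] at this
    rw [Subgroup.mem_bot]
    exact Subtype.ext this
  have h3 : U.subgroupOf V ⊔ W.subgroupOf V = ⊤ := by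
    rw [← Subgroup.subgroupOf_sup hUV hWV, hUWV, Subgroup.subgroupOf_self]
  obtain ⟨W', hW'inv, hW'inf, hW'sup⟩ :=
    Cfsg.Agent.Lib_helper1_Maschke.maschke ρ hcop' (U.subgroupOf V) (W.subgroupOf V) h1 h2 h3
  refine ⟨W'.map V.subtype, Subgroup.map_subtype_le W', ?_, ?_, ?_⟩
  · intro a ha
    apply Cfsg.Agent.Lib_helper1_Basic.mem_normalizer_of_conj_le
    rintro _ ⟨w, hw, rfl⟩
    exact ⟨ρ ⟨a, ha⟩ w, hW'inv ⟨a, ha⟩ w hw, hρ ⟨a, ha⟩ w⟩
  · rw [eq_bot_iff]
    intro x hx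
    obtain ⟨hx1, hx2⟩ := Subgroup.mem_inf.mp hx
    obtain ⟨w, hw, rfl⟩ := hx2
    have : w ∈ U.subgroupOf V ⊓ W' :=
      Subgroup.mem_inf.mpr ⟨by rw [Subgroup.mem_subgroupOf]; exact hx1, hw⟩
    rw [hW'inf, Subgroup.mem_bot] at this
    rw [this]
    simp
  · apply le_antisymm (sup_le hUV (Subgroup.map_subtype_le W'))
    intro x hx
    have : (⟨x, hx⟩ : V) ∈ U.subgroupOf V ⊔ W' := by rw [hW'sup]; trivial
    obtain ⟨u, hu, w, hw, huw⟩ := Subgroup.mem_sup.mp this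
    have e : x = (u : G) * (w : G) := by
      have := congrArg Subtype.val huw
      simpa using this.symm
    rw [e]
    exact Subgroup.mul_mem _ (Subgroup.mem_sup_left (Subgroup.mem_subgroupOf.mp hu))
      (Subgroup.mem_sup_right ⟨w, hw, rfl⟩)

end Cfsg.Agent.S0660
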