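import Cfsg.Statements.S0661
import Cfsg.Agent.Lib_helper2_PCons

set_option autoImplicit false
open Cfsg

namespace Cfsg.Agent.S0661

/-- If, modulo the largest normal subgroup of order prime to p, the largest normal p-subgroup contains its centralizer, then for every p-subgroup P the p'-core of N_G(P) is just O_p'(G) ∩ N_G(P). -/
theorem result {G : Type*} [Group G] [Finite G] {p : ℕ} [Fact p.Prime] (hc : Subgroup.centralizer (Cfsg.pCore p (G ⧸ Cfsg.pPrimeCore p G) : Set (G ⧸ Cfsg.pPrimeCore p G)) ≤ Cfsg.pCore p (G ⧸ Cfsg.pPrimeCore p G)) (P : Subgroup G) (hP : IsPGroup p P) : (Cfsg.pPrimeCore p ↥(Subgroup.normalizer (P : Set G))).map (Subgroup.normalizer (P : Set G)).subtype = Cfsg.pPrimeCore p G ⊓ Subgroup.normalizer (P : Set G) := by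
  have hlay : layer (G ⧸ pPrimeCore p G) = ⊥ :=
    (Cfsg.Agent.Lib_helper2_PCons.layer_eq_bot_iff_of_pPrimeCore p
      (Cfsg.Agent.Lib_helper2_PComp.pPrimeCore_quotient_bot p)).mpr hc
  have hL : pLayer p G = ⊥ := (Cfsg.Agent.Lib_helper2_PCons.pLayer_eq_bot_iff p).mpr hlay
  have h1 := (Cfsg.Agent.Lib_helper2_PCons.pLayer_normalizer p hL P hP).2
  apply le_antisymm
  · apply le_inf h1
    exact Subgroup.map_subtype_le _
  · intro x hx
    have hsub : (pPrimeCore p G).subgroupOf (Subgroup.normalizer (P : Set G)) ≤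
        pPrimeCore p ↥(Subgroup.normalizer (P : Set G)) := by
      apply Cfsg.Agent.Lib_helper2_PComp.le_pPrimeCore' p _ inferInstance
      have h2 : Nat.card ((pPrimeCore p G).subgroupOf (Subgroup.normalizer (P : Set G))) ∣
          Nat.card (pPrimeCore p G) :=
        Subgroup.card_comap_dvd_of_injective _ _ (Subgroup.subtype_injective _)
      exact Nat.Coprime.coprime_dvd_left h2 (Cfsg.Agent.Lib_helper2_PComp.card_pPrimeCore p)
    exact ⟨⟨x, hx.2⟩, hsub (Subgroup.mem_subgroupOf.mpr hx.1), rfl⟩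

end Cfsg.Agent.S0661
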