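import Cfsg.Statements.S0666
import Cfsg.Agent.Lib_helper1_FrobAct
import Cfsg.Agent.Lib_helper5_FrobKer

set_option autoImplicit false
open Cfsg

namespace Cfsg.Agent.S0666

/-- A Frobenius group acting on a nontrivial abelian group of order prime to that of its kernel, with the kernel acting without nontrivial fixed points, has a complement with a nontrivial fixed point. -/
theorem result {G : Type*} [Group G] [Finite G] (V F : Subgroup G) (hVab : IsMulCommutative V) (hV1 : V ≠ ⊥) (hFV : F ≤ Subgroup.normalizer (V : Set G)) (H : Subgroup ↥F) (hH : Cfsg.IsFrobeniusComplement H) (hcop : (Nat.card V).Coprime (Nat.card (Cfsg.frobeniusKernel H))) (hCK : V ⊓ Subgroup.centralizer (Subtype.val '' Cfsg.frobeniusKernel H : Set G) = ⊥) : V ⊓ Subgroup.centralizer ((H.map F.subtype : Subgroup G) : Set G) ≠ ⊥ := by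
  intro hCH
  obtain ⟨K, hK, hKn, hKc⟩ := Cfsg.Agent.Lib_helper5_FrobKer.frobenius_kernel H hH
  haveI := hKn
  haveI := hVab
  letI : CommGroup ↥V := { (inferInstance : Group ↥V) with mul_comm := fun a b => mul_comm' a b }
  apply hV1
  rw [eq_bot_iff]
  intro v hv
  have key := Cfsg.Agent.Lib_helper1_FrobAct.frob_fixed
    (Cfsg.Agent.Lib_helper1_FrobAct.conjAct V F hFV) H K (disjoint_iff.mp hKc.disjoint) hH.2.2
    ?_ ?_ ?_ ⟨v, hv⟩
  · rw [Subgroup.mem_bot]
    exact congrArg Subtype.val key
  · have h1 : Nat.card ↥K = Nat.card ↥(frobeniusKernel H) := by rw [← hK]; rfl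
    rw [h1]; exact hcop
  · intro w hw
    have hc : (w : G) ∈ Subgroup.centralizer (Subtype.val '' frobeniusKernel H : Set G) := by
      rw [Subgroup.mem_centralizer_iff]
      rintro _ ⟨k, hk, rfl⟩
      have hkK : k ∈ K := by rw [← SetLike.mem_coe, hK]; exact hk
      have h1 := congrArg Subtype.val (hw k hkK)
      rw [Cfsg.Agent.Lib_helper1_FrobAct.conjAct_apply] at h1
      calc (k : G) * w = (k : G) * w * (k : G)⁻¹ * k := by group
        _ = w * k := by rw [h1]
    have hw' : (w : G) ∈ V ⊓ Subgroup.centralizer (Subtype.val '' frobeniusKernel H : Set G) :=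
      ⟨w.2, hc⟩
    rw [hCK, Subgroup.mem_bot] at hw'
    exact Subtype.ext hw'
  · intro w hw
    have hc : (w : G) ∈ Subgroup.centralizer ((H.map F.subtype : Subgroup G) : Set G) := by
      rw [Subgroup.mem_centralizer_iff]
      rintro _ ⟨k, hk, rfl⟩
      have h1 := congrArg Subtype.val (hw k hk)
      rw [Cfsg.Agent.Lib_helper1_FrobAct.conjAct_apply] at h1
      show (k : G) * w = w * (k : G)
      calc (k : G) * w = (k : G) * w * (k : G)⁻¹ * k := by group
        _ = w * k := by rw [h1]
    have hw' : (w : G) ∈ V ⊓ Subgroup.centralizer ((H.map F.subtype : Subgroup G) : Set G) :=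
      ⟨w.2, hc⟩
    rw [hCH, Subgroup.mem_bot] at hw'
    exact Subtype.ext hw'

end Cfsg.Agent.S0666
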