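import Cfsg.Statements.S0668
import Mathlib

set_option autoImplicit false
open Cfsg

namespace Cfsg.Agent.S0668

/-- The equivariant linear maps between the permutation modules of two finite `G`-sets form a space whose dimension is the number of `G`-orbits on the product of the two sets. -/
theorem result {G : Type*} [Group G] {K : Type*} [Field K] {Ω₁ Ω₂ : Type*} [Fintype Ω₁] [Fintype Ω₂] [MulAction G Ω₁] [MulAction G Ω₂] : Module.finrank K ((Cfsg.permRep K G Ω₁).linHom (Cfsg.permRep K G Ω₂)).invariants = Nat.card (MulAction.orbitRel.Quotient G (Ω₁ × Ω₂)) := by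
  classical
  haveI : Fintype (MulAction.orbitRel.Quotient G (Ω₁ × Ω₂)) := Fintype.ofFinite _
  let mk : Ω₁ → Ω₂ → MulAction.orbitRel.Quotient G (Ω₁ × Ω₂) := fun x y => Quotient.mk'' (x, y)
  have hmk : ∀ (g : G) x y, mk (g • x) (g • y) = mk x y := by
    intro g x y
    apply Quotient.sound'
    exact ⟨g, rfl⟩
  have hρ₁ : ∀ (g : G) (v : Ω₁ → K) (x : Ω₁), Cfsg.permRep K G Ω₁ g v x = v (g⁻¹ • x) :=
    fun g v x => rfl
  have hρ₂ : ∀ (g : G) (v : Ω₂ → K) (x : Ω₂), Cfsg.permRep K G Ω₂ g v x = v (g⁻¹ • x) :=
    fun g v x => rfl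
  let Φ : (MulAction.orbitRel.Quotient G (Ω₁ × Ω₂) → K) →ₗ[K] ((Ω₁ → K) →ₗ[K] (Ω₂ → K)) :=
    { toFun := fun c =>
        { toFun := fun v y => ∑ x, c (mk x y) * v x
          map_add' := by
            intro v w
            funext y
            simp [mul_add, Finset.sum_add_distrib]
          map_smul' := by
            intro t v
            funext y
            simp [Finset.mul_sum, mul_left_comm] }
      map_add' := by
        intro c d
        apply LinearMap.ext
        intro v
        funext y
        simp [add_mul, Finset.sum_add_distrib]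
      map_smul' := by
        intro t c
        apply LinearMap.ext
        intro v
        funext y
        simp [Finset.mul_sum, mul_assoc] }
  have hΦ : ∀ c v y, Φ c v y = ∑ x, c (mk x y) * v x := fun c v y => rfl
  have hrange : LinearMap.range Φ
      = ((Cfsg.permRep K G Ω₁).linHom (Cfsg.permRep K G Ω₂)).invariants := by
    apply le_antisymm
    · rintro _ ⟨c, rfl⟩
      rw [Representation.mem_invariants]
      intro g
      apply LinearMap.ext
      intro v
      funext y
      rw [Representation.linHom_apply]
      change Φ c (Cfsg.permRep K G Ω₁ g⁻¹ v) (g⁻¹ • y) = Φ c v y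
      rw [hΦ, hΦ]
      refine Fintype.sum_equiv (MulAction.toPerm g) _ _ (fun x => ?_)
      change c (mk x (g⁻¹ • y)) * v ((g⁻¹)⁻¹ • x) = c (mk (g • x) y) * v (g • x)
      rw [inv_inv, ← hmk g x (g⁻¹ • y), smul_inv_smul]
    · intro f hf
      rw [Representation.mem_invariants] at hf
      have hinv : ∀ (g : G) x y, f (Pi.single (g • x) 1) (g • y) = f (Pi.single x 1) y := by
        intro g x y
        have h1 := hf g
        have h2 := congrFun (congrArg
          (fun F : (Ω₁ → K) →ₗ[K] (Ω₂ → K) => F (Pi.single (g • x) 1)) h1) (g • y)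
        rw [← h2, Representation.linHom_apply]
        change f (Cfsg.permRep K G Ω₁ g⁻¹ (Pi.single (g • x) 1)) (g⁻¹ • g • y) = _
        rw [inv_smul_smul]
        have e : Cfsg.permRep K G Ω₁ g⁻¹ (Pi.single (g • x) 1) = (Pi.single x 1 : Ω₁ → K) := by
          funext z
          change (Pi.single (g • x) 1 : Ω₁ → K) ((g⁻¹)⁻¹ • z) = (Pi.single x 1 : Ω₁ → K) z
          rw [inv_inv]
          simp [Pi.single_apply]
        rw [e]
      let c : MulAction.orbitRel.Quotient G (Ω₁ × Ω₂) → K :=
        Quotient.lift (fun p : Ω₁ × Ω₂ => f (Pi.single p.1 1) p.2) (by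
          rintro ⟨x, y⟩ ⟨x', y'⟩ hab
          obtain ⟨g, hg⟩ := hab
          have hx : g • x' = x := congrArg Prod.fst hg
          have hy : g • y' = y := congrArg Prod.snd hg
          change f (Pi.single x 1) y = f (Pi.single x' 1) y'
          rw [← hx, ← hy, hinv])
      refine ⟨c, ?_⟩
      apply LinearMap.ext
      intro v
      funext y
      rw [hΦ]
      have h1 := LinearMap.pi_apply_eq_sum_univ f v
      rw [h1, Finset.sum_apply]
      apply Finset.sum_congr rfl
      intro x _
      rw [Pi.smul_apply, smul_eq_mul, mul_comm]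
      congr 1
      change f (Pi.single x 1) y = _
      have e : (Pi.single x 1 : Ω₁ → K) = fun j => if x = j then 1 else 0 := by
        funext j
        simp [Pi.single_apply, eq_comm]
      rw [e]
  have hinj : Function.Injective Φ := by
    rw [injective_iff_map_eq_zero]
    intro c hc
    funext q
    induction q using Quotient.inductionOn' with
    | h p =>
      obtain ⟨x, y⟩ := p
      have := congrFun (congrArg (fun F : (Ω₁ → K) →ₗ[K] (Ω₂ → K) => F (Pi.single x 1)) hc) y
      simp only [LinearMap.zero_apply, Pi.zero_apply] at this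
      rw [hΦ] at this
      simpa [Pi.single_apply, mk] using this
  rw [← hrange, LinearMap.finrank_range_of_inj hinj, Module.finrank_fintype_fun_eq_card,
    Nat.card_eq_fintype_card]

end Cfsg.Agent.S0668
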