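import Cfsg.Statements.S0669
import Mathlib

set_option autoImplicit false
open Cfsg

namespace Cfsg.Agent.S0669

/-- The rank of a transitive action: orbits on ordered pairs correspond to orbits of a point stabiliser. -/
theorem result {G : Type*} [Group G] {Ω : Type*} [Finite Ω] [MulAction G Ω] [MulAction.IsPretransitive G Ω] (a : Ω) : Nat.card (MulAction.orbitRel.Quotient G (Ω × Ω)) = Nat.card (MulAction.orbitRel.Quotient (MulAction.stabilizer G a) Ω) := by
  classical
  symm
  apply Nat.card_congr
  refine Equiv.ofBijective (Quotient.map' (fun b => (a, b)) ?_) ⟨?_, ?_⟩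
  · intro b b' h
    change b ∈ MulAction.orbit (MulAction.stabilizer G a) b' at h
    change (a, b) ∈ MulAction.orbit G (a, b')
    obtain ⟨h', hh'⟩ := h
    refine ⟨(h' : G), ?_⟩
    have h1 : (h' : G) • a = a := h'.2
    have h2 : (h' : G) • b' = b := hh'
    show ((h' : G) • a, (h' : G) • b') = (a, b)
    rw [h1, h2]
  · intro x y
    induction x using Quotient.inductionOn' with
    | h b =>
      induction y using Quotient.inductionOn' with
      | h b' =>
        intro h
        rw [Quotient.map'_mk'', Quotient.map'_mk'', Quotient.eq''] at h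
        change (a, b) ∈ MulAction.orbit G (a, b') at h
        obtain ⟨g, hg⟩ := h
        have h1 : g • a = a := congrArg Prod.fst hg
        have h2 : g • b' = b := congrArg Prod.snd hg
        rw [Quotient.eq'']
        change b ∈ MulAction.orbit (MulAction.stabilizer G a) b'
        exact ⟨⟨g, h1⟩, h2⟩
  · intro x
    induction x using Quotient.inductionOn' with
    | h p =>
      obtain ⟨g, hg⟩ := MulAction.exists_smul_eq G p.1 a
      refine ⟨Quotient.mk'' (g • p.2), ?_⟩
      rw [Quotient.map'_mk'', Quotient.eq'']
      change (a, g • p.2) ∈ MulAction.orbit G p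
      refine ⟨g, ?_⟩
      show (g • p.1, g • p.2) = (a, g • p.2)
      rw [hg]

end Cfsg.Agent.S0669
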