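import Cfsg.Statements.S0670
import Mathlib

set_option autoImplicit false
open Cfsg

namespace Cfsg.Agent.S0670

/-- A Sylow `p`-subgroup of a transitive group of degree `p ^ f` is transitive. -/
theorem sylow_trans {G : Type*} [Group G] [Finite G] {p f : ℕ} [Fact p.Prime] {Ω : Type*}
    [Fintype Ω] [MulAction G Ω] [MulAction.IsPretransitive G Ω] (hcard : Fintype.card Ω = p ^ f)
    (P : Sylow p G) (x y : Ω) : ∃ g ∈ (P : Subgroup G), g • x = y := by
  classical
  have hp : p.Prime := Fact.out
  have hPp : IsPGroup p (P : Subgroup G) := P.isPGroup'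
  have hG : Nat.card G ≠ 0 := Nat.card_pos.ne'
  have hcardP : Nat.card (P : Subgroup G) = p ^ (Nat.card G).factorization p :=
    P.card_eq_multiplicity
  obtain ⟨a, ha⟩ := IsPGroup.iff_card.1
    (hPp.to_subgroup (MulAction.stabilizer (P : Subgroup G) x))
  have h1 : (MulAction.stabilizer (P : Subgroup G) x).map (P : Subgroup G).subtype
      ≤ MulAction.stabilizer G x := by
    rintro _ ⟨g, hg, rfl⟩
    exact hg
  have h2 : Nat.card ((MulAction.stabilizer (P : Subgroup G) x).map (P : Subgroup G).subtype)
      = Nat.card (MulAction.stabilizer (P : Subgroup G) x) :=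
    Subgroup.card_map_of_injective (Subgroup.subtype_injective _)
  have h3 : p ^ a ∣ Nat.card (MulAction.stabilizer G x) := by
    rw [← ha, ← h2]
    exact Subgroup.card_dvd_of_le h1
  have h4 : (MulAction.stabilizer G x).index = p ^ f := by
    rw [MulAction.index_stabilizer_of_transitive, Nat.card_eq_fintype_card, hcard]
  have h5 : p ^ (a + f) ∣ Nat.card G := by
    rw [← (MulAction.stabilizer G x).index_mul_card, h4, pow_add, mul_comm]
    exact Nat.mul_dvd_mul_left _ h3
  have h6 : a + f ≤ (Nat.card G).factorization p :=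
    (Nat.Prime.pow_dvd_iff_le_factorization hp hG).1 h5
  have h7 : (MulAction.stabilizer (P : Subgroup G) x).index * p ^ a
      = p ^ (Nat.card G).factorization p := by
    rw [← ha, Subgroup.index_mul_card, hcardP]
  have h8 : (MulAction.stabilizer (P : Subgroup G) x).index
      = p ^ ((Nat.card G).factorization p - a) := by
    have : p ^ (Nat.card G).factorization p = p ^ ((Nat.card G).factorization p - a) * p ^ a := by
      rw [← pow_add]; congr 1; omega
    rw [this] at h7
    exact Nat.eq_of_mul_eq_mul_right (pow_pos hp.pos a) h7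
  have h9 : (MulAction.orbit (P : Subgroup G) x).ncard
      = p ^ ((Nat.card G).factorization p - a) := by
    rw [← MulAction.index_stabilizer, h8]
  have h10 : MulAction.orbit (P : Subgroup G) x = Set.univ := by
    apply Set.eq_of_subset_of_ncard_le (Set.subset_univ _) _ (Set.finite_univ)
    rw [Set.ncard_univ, Nat.card_eq_fintype_card, hcard, h9]
    exact Nat.pow_le_pow_right hp.pos (by omega)
  have hy : y ∈ MulAction.orbit (P : Subgroup G) x := by rw [h10]; trivial
  obtain ⟨g, hg⟩ := hy
  exact ⟨g.1, g.2, hg⟩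

/-- A `p`-subgroup fixes a non-zero vector in every non-zero invariant subspace of the permutation
module in characteristic `p`. -/
theorem exists_fixed {G : Type*} [Group G] [Finite G] {K : Type*} [Field K] {p : ℕ} [Fact p.Prime]
    [CharP K p] {Ω : Type*} [Fintype Ω] [MulAction G Ω] (P : Subgroup G) (hPp : IsPGroup p P)
    (W : Subrepresentation (Cfsg.permRep K G Ω)) (hW : W.toSubmodule ≠ ⊥) :
    ∃ b ∈ W.toSubmodule, b ≠ 0 ∧ ∀ g ∈ P, Cfsg.permRep K G Ω g b = b := by
  classical
  obtain ⟨w, hwW, hw0⟩ := (Submodule.ne_bot_iff _).1 hW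
  have hp : p.Prime := Fact.out
  haveI : Fintype P := Fintype.ofFinite _
  letI : Algebra (ZMod p) K := ZMod.algebra K p
  let φ : (P → ZMod p) →+ (Ω → K) :=
    { toFun := fun n => ∑ g : P, algebraMap (ZMod p) K (n g) • Cfsg.permRep K G Ω (g : G) w
      map_zero' := by simp
      map_add' := fun m n => by simp [add_smul, Finset.sum_add_distrib] }
  have hφ : ∀ n, φ n = ∑ g : P, algebraMap (ZMod p) K (n g) • Cfsg.permRep K G Ω (g : G) w :=
    fun n => rfl
  let V : AddSubgroup (Ω → K) := φ.range
  haveI : Finite V := (Set.finite_range φ).to_subtype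
  have hVW : ∀ v ∈ V, v ∈ W.toSubmodule := by
    rintro _ ⟨n, rfl⟩
    rw [hφ]
    exact W.toSubmodule.sum_mem fun g _ =>
      W.toSubmodule.smul_mem _ (W.apply_mem_toSubmodule _ hwW)
  have hVP : ∀ (g : P) (v : Ω → K), v ∈ V → Cfsg.permRep K G Ω (g : G) v ∈ V := by
    rintro g _ ⟨n, rfl⟩
    refine ⟨fun h => n (g⁻¹ * h), ?_⟩
    rw [hφ, hφ, map_sum]
    simp only [map_smul]
    refine Fintype.sum_equiv (Equiv.mulLeft g⁻¹) _ _ (fun h => ?_)
    simp only [Equiv.coe_mulLeft]
    rw [← Module.End.mul_apply, ← map_mul]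
    simp
  letI : MulAction P V :=
    { smul := fun g v => ⟨Cfsg.permRep K G Ω (g : G) v.1, hVP g v.1 v.2⟩
      one_smul := fun v => by
        apply Subtype.ext
        change Cfsg.permRep K G Ω ((1 : P) : G) v.1 = v.1
        simp
      mul_smul := fun g h v => by
        apply Subtype.ext
        change Cfsg.permRep K G Ω ((g * h : P) : G) v.1
          = Cfsg.permRep K G Ω (g : G) (Cfsg.permRep K G Ω (h : G) v.1)
        simp [map_mul] }
  have hsmul : ∀ (g : P) (v : V), ((g • v : V) : Ω → K) = Cfsg.permRep K G Ω (g : G) v.1 :=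
    fun g v => rfl
  have hwV : w ∈ V := by
    refine ⟨Pi.single 1 1, ?_⟩
    rw [hφ, Finset.sum_eq_single (1 : P)]
    · simp
    · intro g _ hg
      simp [Pi.single_apply, hg]
    · intro h; exact absurd (Finset.mem_univ _) h
  have hpV : p ∣ Nat.card V := by
    have h1 : addOrderOf (⟨w, hwV⟩ : V) = p := by
      apply addOrderOf_eq_prime
      · apply Subtype.ext
        funext x
        simp [CharP.cast_eq_zero]
      · intro h; exact hw0 (congrArg Subtype.val h)
    rw [← h1]; exact addOrderOf_dvd_natCard _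
  have h0 : (0 : V) ∈ MulAction.fixedPoints P V := by
    intro g; apply Subtype.ext; rw [hsmul]; simp
  obtain ⟨b, hb, hb0⟩ := hPp.exists_fixed_point_of_prime_dvd_card_of_fixed_point V hpV h0
  refine ⟨b.1, hVW _ b.2, fun h => hb0 (Subtype.ext h.symm), fun g hg => ?_⟩
  have := hb ⟨g, hg⟩
  exact congrArg Subtype.val this


/-- In characteristic `p`, the permutation module of a transitive action of degree `p ^ f` has the line of constant functions as its only irreducible submodule: every non-zero subrepresentation contains it. -/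
theorem result {G : Type*} [Group G] [Finite G] {K : Type*} [Field K] {p f : ℕ} [Fact p.Prime] [CharP K p] {Ω : Type*} [Fintype Ω] [MulAction G Ω] [MulAction.IsPretransitive G Ω] (hf : 1 ≤ f) (hcard : Fintype.card Ω = p ^ f) (W : Subrepresentation (Cfsg.permRep K G Ω)) (hW : W.toSubmodule ≠ ⊥) : (Cfsg.permConstants K G Ω).toSubmodule ≤ W.toSubmodule := by
  classical
  have hp : p.Prime := Fact.out
  let P : Sylow p G := default
  obtain ⟨b, hbW, hb0, hbfix⟩ := exists_fixed (P : Subgroup G) P.isPGroup' W hW
  obtain ⟨x₀⟩ : Nonempty Ω := by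
    rw [← Fintype.card_pos_iff, hcard]; exact pow_pos hp.pos f
  have hconst : ∀ y, b y = b x₀ := by
    intro y
    obtain ⟨g, hg, hgx⟩ := sylow_trans hcard P x₀ y
    have := congrFun (hbfix g hg) y
    rw [← this]
    change b (g⁻¹ • y) = b x₀
    rw [← hgx, inv_smul_smul]
  have hb0' : b x₀ ≠ 0 := by
    intro h; apply hb0; funext y; rw [hconst y, h]; rfl
  change Submodule.span K {fun _ => 1} ≤ W.toSubmodule
  rw [Submodule.span_le, Set.singleton_subset_iff]
  have : (fun _ => (1 : K)) = (b x₀)⁻¹ • b := by
    funext y; simp [hconst y, hb0']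
  rw [this]; exact W.toSubmodule.smul_mem _ hbW

end Cfsg.Agent.S0670
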