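import Cfsg.Statements.S0671
import Mathlib
import Cfsg.Agent.S0670

set_option autoImplicit false
open Cfsg

namespace Cfsg.Agent.S0671

/-- Dual form of `S0670`: every proper invariant subspace lies in the sum-zero functions. -/
theorem le_sumZero {G : Type*} [Group G] [Finite G] {K : Type*} [Field K] {p f : ℕ}
    [Fact p.Prime] [CharP K p] {Ω : Type*} [Fintype Ω] [MulAction G Ω]
    [MulAction.IsPretransitive G Ω] (hf : 1 ≤ f) (hcard : Fintype.card Ω = p ^ f)
    (W : Subrepresentation (Cfsg.permRep K G Ω)) (hW : W.toSubmodule ≠ ⊤) :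
    W.toSubmodule ≤ (Cfsg.permSumZero K G Ω).toSubmodule := by
  classical
  let Wp : Subrepresentation (Cfsg.permRep K G Ω) :=
    { toSubmodule :=
        { carrier := {u | ∀ v ∈ W.toSubmodule, ∑ x, u x * v x = 0}
          add_mem' := by
            intro u₁ u₂ h₁ h₂ v hv
            have e₁ := h₁ v hv
            have e₂ := h₂ v hv
            simp only [Pi.add_apply, add_mul, Finset.sum_add_distrib, e₁, e₂, add_zero]
          zero_mem' := by intro v hv; simp
          smul_mem' := by
            intro c u hu v hv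
            have e := hu v hv
            simp only [Pi.smul_apply, smul_eq_mul, mul_assoc, ← Finset.mul_sum, e, mul_zero] }
      apply_mem_toSubmodule := by
        intro g u hu v hv
        have := hu _ (W.apply_mem_toSubmodule g⁻¹ hv)
        rw [← this]
        exact Fintype.sum_equiv (MulAction.toPerm g⁻¹) _ _ (fun x => by
          change u (g⁻¹ • x) * v x = u (g⁻¹ • x) * v ((g⁻¹)⁻¹ • (g⁻¹ • x))
          rw [inv_inv, smul_inv_smul]) }
  have hWp : Wp.toSubmodule ≠ ⊥ := by
    obtain ⟨φ, hφ0, hφ⟩ := Submodule.exists_le_ker_of_lt_top W.toSubmodule (lt_top_iff_ne_top.2 hW)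
    rw [Submodule.ne_bot_iff]
    refine ⟨fun x => φ (fun j => if x = j then 1 else 0), ?_, ?_⟩
    · intro v hv
      have h0 : φ v = 0 := hφ hv
      have h1 := LinearMap.pi_apply_eq_sum_univ φ v
      rw [h0] at h1
      refine Eq.trans (Finset.sum_congr rfl fun x _ => ?_) h1.symm
      rw [smul_eq_mul, mul_comm]
    · intro h0
      apply hφ0
      apply LinearMap.ext
      intro v
      rw [LinearMap.pi_apply_eq_sum_univ φ v]
      simp only [LinearMap.zero_apply]
      apply Finset.sum_eq_zero
      intro x _
      have := congrFun h0 x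
      simp only [Pi.zero_apply] at this
      rw [this, smul_zero]
  have h1 := Cfsg.Agent.S0670.result hf hcard Wp hWp
  have h1' : (fun _ => (1 : K)) ∈ Wp.toSubmodule := h1 (Submodule.subset_span rfl)
  intro v hv
  have := h1' v hv
  change ∑ x, v x = 0
  simpa using this


/-- If the heart of the permutation module in characteristic `p` of a transitive action of degree `p ^ f` has no trivial composition factor, the action is doubly transitive. The hypothesis is phrased without composition series: no invariant subspaces `W < W'` between the constants and the sum-zero functions with trivial action on the quotient. -/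
theorem result {G : Type*} [Group G] [Finite G] {K : Type*} [Field K] {p f : ℕ} [Fact p.Prime] [CharP K p] {Ω : Type*} [Fintype Ω] [MulAction G Ω] [MulAction.IsPretransitive G Ω] (hf : 1 ≤ f) (hcard : Fintype.card Ω = p ^ f) (h : ∀ W W' : Subrepresentation (Cfsg.permRep K G Ω), (Cfsg.permConstants K G Ω).toSubmodule ≤ W.toSubmodule → W.toSubmodule < W'.toSubmodule → W'.toSubmodule ≤ (Cfsg.permSumZero K G Ω).toSubmodule → ∃ g : G, ∃ v ∈ W'.toSubmodule, Cfsg.permRep K G Ω g v - v ∉ W.toSubmodule) : MulAction.IsMultiplyPretransitive G Ω 2 := by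
  classical
  by_contra hnot
  have hp : p.Prime := Fact.out
  have hex : ∃ a b c d : Ω, a ≠ b ∧ c ≠ d ∧ ∀ g : G, g • a = c → g • b ≠ d := by
    by_contra hcon
    apply hnot
    rw [MulAction.is_two_pretransitive_iff]
    intro a b c d hab hcd
    by_contra hno
    apply hcon
    refine ⟨a, b, c, d, hab, hcd, fun g h1 h2 => hno ⟨g, h1, h2⟩⟩
  obtain ⟨a, b, c, d, hab, hcd, hno⟩ := hex
  have hρ1 : ∀ g : G, Cfsg.permRep K G Ω g (fun _ => 1) = fun _ => 1 := fun g => rfl
  have hρx : ∀ (g : G) (v : Ω → K) (x : Ω), Cfsg.permRep K G Ω g v x = v (g⁻¹ • x) :=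
    fun g v x => rfl
  let O : Ω → Ω → Prop := fun x y => ∃ g : G, g • a = x ∧ g • b = y
  have hOg : ∀ (g : G) x y, O (g • x) (g • y) ↔ O x y := by
    intro g x y
    constructor
    · rintro ⟨k, h1, h2⟩
      refine ⟨g⁻¹ * k, ?_, ?_⟩
      · rw [mul_smul, h1, inv_smul_smul]
      · rw [mul_smul, h2, inv_smul_smul]
    · rintro ⟨k, h1, h2⟩
      refine ⟨g * k, ?_, ?_⟩
      · rw [mul_smul, h1]
      · rw [mul_smul, h2]
  have hOab : O a b := ⟨1, one_smul _ _, one_smul _ _⟩
  have hOcd : ¬ O c d := fun ⟨g, h1, h2⟩ => hno g h1 h2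
  let φ : (Ω → K) →ₗ[K] (Ω → K) :=
    { toFun := fun v x => ∑ y, if O x y then v y - v x else 0
      map_add' := by
        intro v w
        funext x
        simp only [Pi.add_apply]
        rw [← Finset.sum_add_distrib]
        apply Finset.sum_congr rfl
        intro y _
        split_ifs
        · ring
        · simp
      map_smul' := by
        intro t v
        funext x
        simp only [Pi.smul_apply, smul_eq_mul, RingHom.id_apply]
        rw [Finset.mul_sum]
        apply Finset.sum_congr rfl
        intro y _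
        split_ifs
        · ring
        · simp }
  have hφ : ∀ v x, φ v x = ∑ y, if O x y then v y - v x else 0 := fun v x => rfl
  have hφρ : ∀ (g : G) v, φ (Cfsg.permRep K G Ω g v) = Cfsg.permRep K G Ω g (φ v) := by
    intro g v
    funext x
    rw [hρx, hφ, hφ]
    refine Fintype.sum_equiv (MulAction.toPerm g⁻¹) _ _ (fun y => ?_)
    simp only [MulAction.toPerm_apply, hOg, hρx]
  have hφ1 : φ (fun _ => 1) = 0 := by
    funext x
    simp [hφ]
  have hφsingle : ∀ x y : Ω, x ≠ y → φ (Pi.single y 1) x = if O x y then 1 else 0 := by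
    intro x y hxy
    rw [hφ, Finset.sum_eq_single y]
    · simp [Pi.single_apply, hxy]
    · intro z _ hz
      simp [Pi.single_apply, hz, hxy]
    · intro h; exact absurd (Finset.mem_univ _) h
  let J : (Ω → K) →ₗ[K] (Ω → K) :=
    { toFun := fun v _ => ∑ y, v y
      map_add' := by
        intro v w
        funext x
        simp [Finset.sum_add_distrib]
      map_smul' := by
        intro t v
        funext x
        simp [Finset.mul_sum] }
  have hJ : ∀ v x, J v x = ∑ y, v y := fun v x => rfl
  have hJρ : ∀ (g : G) v, J (Cfsg.permRep K G Ω g v) = J v := by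
    intro g v
    funext x
    rw [hJ, hJ]
    exact Fintype.sum_equiv (MulAction.toPerm g⁻¹) _ _ (fun y => rfl)
  have hρJ : ∀ (g : G) v, Cfsg.permRep K G Ω g (J v) = J v := fun g v => rfl
  have hker : ∀ (t : K) (u : Ω → K), φ u = t • J u → ∑ x, u x = 0 := by
    intro t u hu
    let Wk : Subrepresentation (Cfsg.permRep K G Ω) :=
      { toSubmodule := LinearMap.ker (φ - t • J)
        apply_mem_toSubmodule := by
          intro g v hv
          rw [LinearMap.mem_ker] at hv ⊢
          rw [LinearMap.sub_apply, LinearMap.smul_apply] at hv ⊢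
          rw [hφρ, hJρ, ← hρJ g, ← map_smul, ← map_sub, hv, map_zero] }
    have hne : Wk.toSubmodule ≠ ⊤ := by
      intro htop
      have h1 : (φ - t • J) (Pi.single b 1) = 0 := by
        have : (Pi.single b 1 : Ω → K) ∈ Wk.toSubmodule := by rw [htop]; trivial
        exact this
      have h2 : (φ - t • J) (Pi.single d 1) = 0 := by
        have : (Pi.single d 1 : Ω → K) ∈ Wk.toSubmodule := by rw [htop]; trivial
        exact this
      have h1a := congrFun h1 a
      have h2c := congrFun h2 c
      rw [LinearMap.sub_apply, LinearMap.smul_apply, Pi.sub_apply, Pi.smul_apply, hφsingle _ _ hab,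
        hJ] at h1a
      rw [LinearMap.sub_apply, LinearMap.smul_apply, Pi.sub_apply, Pi.smul_apply, hφsingle _ _ hcd,
        hJ] at h2c
      simp only [hOab, hOcd, if_true, if_false, Finset.sum_pi_single', Finset.mem_univ, smul_eq_mul,
        mul_one, Pi.zero_apply, zero_sub, neg_eq_zero] at h1a h2c
      rw [h2c, sub_zero] at h1a
      exact one_ne_zero h1a
    have hmem : u ∈ Wk.toSubmodule := by
      change u ∈ LinearMap.ker (φ - t • J)
      rw [LinearMap.mem_ker, LinearMap.sub_apply, LinearMap.smul_apply, hu, sub_self]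
    exact le_sumZero hf hcard Wk hne hmem
  have himg : ∀ v, ∑ x, φ v x = 0 := by
    let Wr : Subrepresentation (Cfsg.permRep K G Ω) :=
      { toSubmodule := LinearMap.range φ
        apply_mem_toSubmodule := by
          rintro g _ ⟨v, rfl⟩
          exact ⟨Cfsg.permRep K G Ω g v, hφρ g v⟩ }
    have hne : Wr.toSubmodule ≠ ⊤ := by
      intro htop
      have hsurj : Function.Surjective φ := LinearMap.range_eq_top.1 htop
      have hinj : Function.Injective φ := LinearMap.injective_iff_surjective.2 hsurj
      have := hinj (hφ1.trans (map_zero φ).symm)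
      exact one_ne_zero (congrFun this a)
    intro v
    exact le_sumZero hf hcard Wr hne ⟨v, rfl⟩
  have hconst0 : ∑ _x : Ω, (1 : K) = 0 := by
    rw [Finset.sum_const, Finset.card_univ, hcard, nsmul_eq_mul, mul_one, Nat.cast_pow,
      CharP.cast_eq_zero, zero_pow (by omega)]
  let W : Subrepresentation (Cfsg.permRep K G Ω) :=
    { toSubmodule := (Cfsg.permSumZero K G Ω).toSubmodule.map φ ⊔ Submodule.span K {fun _ => 1}
      apply_mem_toSubmodule := by
        intro g v hv
        obtain ⟨y, ⟨s, hs, rfl⟩, z, hz, rfl⟩ := Submodule.mem_sup.1 hv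
        obtain ⟨cc, rfl⟩ := Submodule.mem_span_singleton.1 hz
        rw [map_add, ← hφρ, map_smul, hρ1]
        exact Submodule.add_mem _
          (Submodule.mem_sup_left ⟨_, (Cfsg.permSumZero K G Ω).apply_mem_toSubmodule g hs, rfl⟩)
          (Submodule.mem_sup_right (Submodule.smul_mem _ _ (Submodule.subset_span rfl))) }
  let W' : Subrepresentation (Cfsg.permRep K G Ω) :=
    { toSubmodule := LinearMap.range φ ⊔ Submodule.span K {fun _ => 1}
      apply_mem_toSubmodule := by
        intro g v hv
        obtain ⟨y, ⟨s, rfl⟩, z, hz, rfl⟩ := Submodule.mem_sup.1 hv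
        obtain ⟨cc, rfl⟩ := Submodule.mem_span_singleton.1 hz
        rw [map_add, ← hφρ, map_smul, hρ1]
        exact Submodule.add_mem _
          (Submodule.mem_sup_left ⟨_, rfl⟩)
          (Submodule.mem_sup_right (Submodule.smul_mem _ _ (Submodule.subset_span rfl))) }
  have hWW' : W.toSubmodule ≤ W'.toSubmodule :=
    sup_le_sup_right (LinearMap.map_le_range) _
  have hlt : W.toSubmodule < W'.toSubmodule := by
    refine lt_of_le_of_ne hWW' ?_
    intro heq
    have hmem : φ (Pi.single a 1) ∈ W.toSubmodule := by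
      rw [heq]; exact Submodule.mem_sup_left ⟨_, rfl⟩
    obtain ⟨y, ⟨s, hs, rfl⟩, z, hz, hyz⟩ := Submodule.mem_sup.1 hmem
    obtain ⟨cc, rfl⟩ := Submodule.mem_span_singleton.1 hz
    have hs0 : ∑ x, s x = 0 := hs
    have hsum : ∑ x, (Pi.single a 1 - s : Ω → K) x = 1 := by
      simp only [Pi.sub_apply, Finset.sum_sub_distrib, hs0, sub_zero, Finset.sum_pi_single',
        Finset.mem_univ, if_true]
    have hu : φ (Pi.single a 1 - s) = cc • J (Pi.single a 1 - s) := by
      rw [map_sub, ← hyz, add_sub_cancel_left]
      funext x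
      rw [Pi.smul_apply, Pi.smul_apply, hJ, hsum]
    have := hker cc _ hu
    rw [hsum] at this
    exact one_ne_zero this
  have hle : W'.toSubmodule ≤ (Cfsg.permSumZero K G Ω).toSubmodule := by
    refine sup_le ?_ ?_
    · rintro _ ⟨v, rfl⟩
      exact himg v
    · rw [Submodule.span_le, Set.singleton_subset_iff]
      exact hconst0
  obtain ⟨g, v, hv, hgv⟩ := h W W' le_sup_right hlt hle
  obtain ⟨y, ⟨m, rfl⟩, z, hz, rfl⟩ := Submodule.mem_sup.1 hv
  obtain ⟨cc, rfl⟩ := Submodule.mem_span_singleton.1 hz
  apply hgv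
  have : Cfsg.permRep K G Ω g (φ m + cc • fun _ => 1) - (φ m + cc • fun _ => 1)
      = φ (Cfsg.permRep K G Ω g m - m) := by
    rw [map_add, map_smul, hρ1, map_sub, hφρ]
    abel
  rw [this]
  apply Submodule.mem_sup_left
  refine ⟨_, ?_, rfl⟩
  change ∑ x, (Cfsg.permRep K G Ω g m - m) x = 0
  have h1 := congrFun (hJρ g m) a
  rw [hJ, hJ] at h1
  simp only [Pi.sub_apply, Finset.sum_sub_distrib, h1, sub_self]

end Cfsg.Agent.S0671
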