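import Cfsg.Statements.S0680
import Mathlib
import Cfsg.Agent.Lib_helper4_Sharp2
import Cfsg.Agent.Lib_helper4_SmallSimple

set_option autoImplicit false
open Cfsg

namespace Cfsg.Agent.S0680

open Cfsg.Agent.Lib_helper4_Sharp2


/-- A finite sharply doubly transitive permutation group has degree a prime power `p ^ j`; a Sylow `p`-subgroup is normal, elementary abelian and regular, and consists of the identity together with the elements without fixed points. (Frobenius' Theorem is not needed.) -/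
theorem result {α : Type*} [Fintype α] [DecidableEq α] (G : Subgroup (Equiv.Perm α)) [MulAction.IsMultiplyPretransitive G α 2] (hsharp : ∀ x : Fin 2 ↪ α, MulAction.stabilizer G x = ⊥) (h2 : 2 ≤ Fintype.card α) : ∃ p j : ℕ, p.Prime ∧ 1 ≤ j ∧ Fintype.card α = p ^ j ∧ ∀ (hp : Fact p.Prime) (P : Sylow p G), (P : Subgroup G).Normal ∧ IsMulCommutative (P : Subgroup G) ∧ (∀ x ∈ (P : Subgroup G), x ^ p = 1) ∧ MulAction.IsPretransitive (P : Subgroup G) α ∧ (∀ a : α, MulAction.stabilizer (P : Subgroup G) a = ⊥) ∧ ∀ g : G, g ∈ (P : Subgroup G) ↔ g = 1 ∨ ∀ a : α, g • a ≠ a := by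
  classical
  have hcardG := card_eq (G := G) hsharp h2
  have hp := Nat.minFac_prime (by omega : Fintype.card α ≠ 1)
  have hpn : (Fintype.card α).minFac ∣ Fintype.card α := Nat.minFac_dvd _
  generalize (Fintype.card α).minFac = p at hp hpn
  haveI := Fact.mk hp
  obtain ⟨x₀, hx₀⟩ := exists_prime_orderOf_dvd_card' (G := G) p
    (by rw [hcardG]; exact Dvd.dvd.mul_right hpn _)
  have hx₀1 : x₀ ≠ 1 := by
    rintro rfl
    rw [orderOf_one] at hx₀
    exact hp.one_lt.ne hx₀
  have hx₀f : ∀ a : α, x₀ • a ≠ a := by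
    intro a ha
    have h1 : orderOf x₀ ∣ Nat.card (MulAction.stabilizer G a) :=
      Subgroup.orderOf_dvd_natCard _ (MulAction.mem_stabilizer_iff.mpr ha)
    rw [hx₀, card_stabilizer hsharp h2 a] at h1
    have h3 : p ∣ 1 := by
      have h4 := Nat.dvd_sub hpn h1
      rwa [show Fintype.card α - (Fintype.card α - 1) = 1 by omega] at h4
    exact hp.one_lt.ne' (Nat.dvd_one.mp h3)
  obtain ⟨hC₀, hcl₀⟩ := key hsharp h2 x₀ hx₀1 hx₀f
  let K : Subgroup G := Subgroup.centralizer ({x₀} : Set G)
  have hK : ∀ g : G, g ∈ K ↔ g = 1 ∨ ∀ a : α, g • a ≠ a := by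
    intro g
    have h1 : g ∈ (K : Set G) ↔ g ∈ kset G := by rw [hC₀]
    exact h1
  have hexp : ∀ g ∈ K, g ^ p = 1 := by
    intro g hg
    by_cases hg1 : g = 1
    · rw [hg1, one_pow]
    · have h1 : g ∈ {y : G | IsConj x₀ y} := by rw [hcl₀]; exact ⟨(hK g).mp hg, hg1⟩
      obtain ⟨c, hc⟩ := isConj_iff.mp h1
      rw [← hc, conj_pow, ← hx₀, pow_orderOf_eq_one, mul_one, mul_inv_cancel]
  have hcomm : ∀ g h : G, g ∈ K → h ∈ K → g * h = h * g := by
    intro g h hg hh
    by_cases hg1 : g = 1
    · rw [hg1, one_mul, mul_one]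
    · have hgf : ∀ a : α, g • a ≠ a := ((hK g).mp hg).resolve_left hg1
      obtain ⟨hCg, -⟩ := key hsharp h2 g hg1 hgf
      have h1 : h ∈ ((Subgroup.centralizer ({g} : Set G) : Subgroup G) : Set G) := by
        rw [hCg]; exact (hK h).mp hh
      exact (Subgroup.mem_centralizer_singleton_iff.mp h1).symm
  have hKcard : Nat.card K = Fintype.card α := by
    have h1 : Nat.card K = ((K : Subgroup G) : Set G).ncard := rfl
    rw [h1, hC₀, ncard_kset hsharp h2]
  have hKp : IsPGroup p K := fun g => ⟨1, by rw [pow_one]; exact Subtype.ext (hexp g.1 g.2)⟩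
  obtain ⟨j, hj⟩ := IsPGroup.iff_card.mp hKp
  rw [hKcard] at hj
  have hj1 : 1 ≤ j := by
    rcases Nat.eq_zero_or_pos j with h0 | h0
    · rw [h0, pow_zero] at hj; omega
    · exact h0
  have hKn : K.Normal := by
    constructor
    intro g hg c
    rw [hK] at hg ⊢
    rcases hg with rfl | hg
    · left; group
    · right
      intro a ha
      apply hg (c⁻¹ • a)
      rw [mul_smul, mul_smul] at ha
      have h6 := congrArg (fun z => c⁻¹ • z) ha
      simp only [inv_smul_smul] at h6
      exact h6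
  refine ⟨p, j, hp, hj1, hj, ?_⟩
  intro hpF P
  have hPK : (P : Subgroup G) = K := by
    have hle : K ≤ (P : Subgroup G) := by
      obtain ⟨Q, hQ⟩ := hKp.exists_le_sylow
      obtain ⟨g, hg⟩ := MulAction.exists_smul_eq G Q P
      intro k hk
      rw [← hg]
      have h1 : g⁻¹ * k * g ∈ K := by
        have h2 := hKn.conj_mem k hk g⁻¹
        rwa [inv_inv] at h2
      refine ⟨g⁻¹ * k * g, hQ h1, ?_⟩
      show g * (g⁻¹ * k * g) * g⁻¹ = k
      group
    have hPcard : Nat.card (P : Subgroup G) = p ^ j := by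
      apply Cfsg.Agent.Lib_helper4_SmallSimple.card_sylow_of_card (m := p ^ j - 1)
      · rw [hcardG, hj]
      · intro hdvd
        have h7 : p ∣ p ^ j := dvd_pow_self p (by omega)
        have h8 := Nat.dvd_sub h7 hdvd
        have h9 := Nat.one_le_pow j p hp.pos
        rw [show p ^ j - (p ^ j - 1) = 1 by omega] at h8
        exact hp.one_lt.ne' (Nat.dvd_one.mp h8)
    exact (Subgroup.eq_of_le_of_card_ge hle (by rw [hPcard, hKcard, hj])).symm
  rw [hPK]
  refine ⟨hKn, ⟨⟨fun a b => Subtype.ext (hcomm a.1 b.1 a.2 b.2)⟩⟩, hexp, ?_, ?_, hK⟩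
  · have hbij : ∀ a : α, Function.Bijective (fun k : K => k • a) := by
      intro a
      apply Function.Injective.bijective_of_nat_card_le
      · intro k k' h
        have h1 : (k'⁻¹ * k : K) • a = a := by
          have h3 : k • a = k' • a := h
          rw [mul_smul, h3, inv_smul_smul]
        have h4 := (hK (k'⁻¹ * k : K).1).mp (k'⁻¹ * k : K).2
        rcases h4 with h4 | h4
        · exact (inv_mul_eq_one.mp (Subtype.ext h4)).symm
        · exact absurd h1 (h4 a)
      · rw [hKcard, Nat.card_eq_fintype_card]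
    exact ⟨fun a b => (hbij a).2 b⟩
  · intro a
    rw [Subgroup.eq_bot_iff_forall]
    intro k hk
    rcases (hK k.1).mp k.2 with h4 | h4
    · exact Subtype.ext h4
    · exact absurd (MulAction.mem_stabilizer_iff.mp hk) (h4 a)

end Cfsg.Agent.S0680
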