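import Cfsg.Statements.S0681
import Mathlib

set_option autoImplicit false
open Cfsg

namespace Cfsg.Agent.S0681

lemma nf_zero_mul {F : Type*} [Cfsg.NearField F] (c : F) : (0 : F) * c = 0 := by
  have h := Cfsg.NearField.right_distrib (0 : F) 0 c
  rw [add_zero] at h
  have h2 : (0 : F) * c + 0 = 0 * c + 0 * c := by rw [add_zero]; exact h
  exact (add_left_cancel h2).symm

lemma nf_neg_mul {F : Type*} [Cfsg.NearField F] (a c : F) : (-a) * c = -(a * c) := by
  have h := Cfsg.NearField.right_distrib a (-a) c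
  rw [add_neg_cancel, nf_zero_mul] at h
  exact (neg_eq_of_add_eq_zero_right h.symm).symm

lemma nf_sub_mul {F : Type*} [Cfsg.NearField F] (a b c : F) : (a - b) * c = a * c - b * c := by
  rw [sub_eq_add_neg, Cfsg.NearField.right_distrib, nf_neg_mul, ← sub_eq_add_neg]

lemma nf_mul_ne_zero {F : Type*} [Cfsg.NearField F] {a b : F} (ha : a ≠ 0) (hb : b ≠ 0) :
    a * b ≠ 0 := by
  intro h
  obtain ⟨b', hb1, hb2⟩ := Cfsg.NearField.exists_inv b hb
  apply ha
  calc a = a * (b * b') := by rw [hb1, mul_one]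
    _ = (a * b) * b' := (mul_assoc _ _ _).symm
    _ = 0 := by rw [h, nf_zero_mul]

lemma nf_inv_ne_zero {F : Type*} [Cfsg.NearField F] {a a' : F} (h : a' * a = 1) : a' ≠ 0 := by
  rintro rfl
  rw [nf_zero_mul] at h
  exact Cfsg.NearField.zero_ne_one h

/-- the affine map `x ↦ x * a + b` -/
def aff {F : Type*} [Cfsg.NearField F] (a a' b : F) (h1 : a * a' = 1) (h2 : a' * a = 1) :
    Equiv.Perm F where
  toFun x := x * a + b
  invFun y := (y - b) * a'
  left_inv x := by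
    show (x * a + b - b) * a' = x
    rw [add_sub_cancel_right, mul_assoc, h1, mul_one]
  right_inv y := by
    show (y - b) * a' * a + b = y
    rw [mul_assoc, h2, mul_one, sub_add_cancel]


/-- The affine maps `x ↦ x * a + b`, `a ≠ 0`, of a near-field form a sharply doubly transitive permutation group. -/
theorem result {F : Type*} [Cfsg.NearField F] : ∃ H : Subgroup (Equiv.Perm F), (∀ σ : Equiv.Perm F, σ ∈ H ↔ ∃ a b : F, a ≠ 0 ∧ ∀ x : F, σ x = x * a + b) ∧ MulAction.IsMultiplyPretransitive H F 2 ∧ ∀ x : Fin 2 ↪ F, MulAction.stabilizer H x = ⊥ := by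
  classical
  refine ⟨{ carrier := {σ | ∃ a b : F, a ≠ 0 ∧ ∀ x, σ x = x * a + b}
            one_mem' := ⟨1, 0, Ne.symm Cfsg.NearField.zero_ne_one, fun x => by simp⟩
            mul_mem' := ?_
            inv_mem' := ?_ }, fun σ => Iff.rfl, ?_, ?_⟩
  · rintro σ τ ⟨a, b, ha, hσ⟩ ⟨c, d, hc, hτ⟩
    refine ⟨c * a, d * a + b, nf_mul_ne_zero hc ha, fun x => ?_⟩
    show σ (τ x) = x * (c * a) + (d * a + b)
    rw [hτ, hσ, Cfsg.NearField.right_distrib, mul_assoc, add_assoc]
  · rintro σ ⟨a, b, ha, hσ⟩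
    obtain ⟨a', h1, h2⟩ := Cfsg.NearField.exists_inv a ha
    refine ⟨a', -(b * a'), nf_inv_ne_zero h2, fun y => ?_⟩
    apply σ.injective
    rw [Equiv.Perm.inv_def, Equiv.apply_symm_apply, hσ, Cfsg.NearField.right_distrib, nf_neg_mul, mul_assoc, mul_assoc,
      h2, mul_one, mul_one, neg_add_cancel_right]
  · rw [MulAction.is_two_pretransitive_iff]
    intro x₁ x₂ y₁ y₂ hx hy
    obtain ⟨c', hc1, hc2⟩ := Cfsg.NearField.exists_inv (x₁ - x₂) (sub_ne_zero.mpr hx)
    have ha : c' * (y₁ - y₂) ≠ 0 := nf_mul_ne_zero (nf_inv_ne_zero hc2) (sub_ne_zero.mpr hy)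
    obtain ⟨a', h1, h2⟩ := Cfsg.NearField.exists_inv _ ha
    refine ⟨⟨aff (c' * (y₁ - y₂)) a' (-(x₂ * (c' * (y₁ - y₂))) + y₂) h1 h2,
      ⟨c' * (y₁ - y₂), -(x₂ * (c' * (y₁ - y₂))) + y₂, ha, fun x => rfl⟩⟩, ?_, ?_⟩
    · show x₁ * (c' * (y₁ - y₂)) + (-(x₂ * (c' * (y₁ - y₂))) + y₂) = y₁
      rw [← add_assoc, ← sub_eq_add_neg, ← nf_sub_mul, ← mul_assoc, hc1, one_mul, sub_add_cancel]
    · show x₂ * (c' * (y₁ - y₂)) + (-(x₂ * (c' * (y₁ - y₂))) + y₂) = y₂
      rw [add_neg_cancel_left]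
  · intro x
    rw [Subgroup.eq_bot_iff_forall]
    rintro ⟨σ, a, b, ha, hσ⟩ hg
    have hfix : ∀ i, σ (x i) = x i := by
      intro i
      have := congrArg (fun e : Fin 2 ↪ F => e i) (MulAction.mem_stabilizer_iff.mp hg)
      exact this
    have h0 := hfix 0
    have h1 := hfix 1
    rw [hσ] at h0 h1
    have hne : x 0 - x 1 ≠ 0 := sub_ne_zero.mpr (fun h => by
      have := x.injective h
      exact absurd this (by decide))
    obtain ⟨c', hc1, hc2⟩ := Cfsg.NearField.exists_inv _ hne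
    have h3 : (x 0 - x 1) * a = x 0 - x 1 := by
      rw [nf_sub_mul]
      have e : x 0 * a - x 1 * a = (x 0 * a + b) - (x 1 * a + b) := by
        rw [add_sub_add_right_eq_sub]
      rw [e, h0, h1]
    have ha1 : a = 1 := by
      calc a = (c' * (x 0 - x 1)) * a := by rw [hc2, one_mul]
        _ = c' * ((x 0 - x 1) * a) := mul_assoc _ _ _
        _ = 1 := by rw [h3, hc2]
    have hb0 : b = 0 := by
      rw [ha1, mul_one] at h0
      exact add_eq_left.mp h0
    apply Subtype.ext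
    ext y
    show σ y = y
    rw [hσ, ha1, hb0, mul_one, add_zero]

end Cfsg.Agent.S0681
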