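import Cfsg.Statements.S0682
import Mathlib

set_option autoImplicit false
open Cfsg

namespace Cfsg.Agent.S0682

lemma nf_zero_mul {F : Type*} [Cfsg.NearField F] (c : F) : (0 : F) * c = 0 := by
  have h := Cfsg.NearField.right_distrib (0 : F) 0 c
  rw [add_zero] at h
  have h2 : (0 : F) * c + 0 = 0 * c + 0 * c := by rw [add_zero]; exact h
  exact (add_left_cancel h2).symm

lemma nf_mul_ne_zero {F : Type*} [Cfsg.NearField F] {a b : F} (ha : a ≠ 0) (hb : b ≠ 0) :
    a * b ≠ 0 := by
  intro h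
  obtain ⟨b', hb1, hb2⟩ := Cfsg.NearField.exists_inv b hb
  apply ha
  calc a = a * (b * b') := by rw [hb1, mul_one]
    _ = (a * b) * b' := (mul_assoc _ _ _).symm
    _ = 0 := by rw [h, nf_zero_mul]

lemma nf_inv_ne_zero {F : Type*} [Cfsg.NearField F] {a a' : F} (h : a' * a = 1) : a' ≠ 0 := by
  rintro rfl
  rw [nf_zero_mul] at h
  exact Cfsg.NearField.zero_ne_one h

lemma nf_nsmul_mul {F : Type*} [Cfsg.NearField F] (n : ℕ) (x c : F) :
    (n • x) * c = n • (x * c) := by
  induction n with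
  | zero => rw [zero_nsmul, zero_nsmul, nf_zero_mul]
  | succ k ih => rw [succ_nsmul, succ_nsmul, Cfsg.NearField.right_distrib, ih]

lemma nf_addOrderOf_mul {F : Type*} [Cfsg.NearField F] (x c : F) (hc : c ≠ 0) :
    addOrderOf (x * c) = addOrderOf x := by
  obtain ⟨c', h1, h2⟩ := Cfsg.NearField.exists_inv c hc
  apply Nat.dvd_antisymm
  · apply addOrderOf_dvd_of_nsmul_eq_zero
    rw [← nf_nsmul_mul, addOrderOf_nsmul_eq_zero, nf_zero_mul]
  · apply addOrderOf_dvd_of_nsmul_eq_zero
    have h := nf_nsmul_mul (addOrderOf (x * c)) x c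
    rw [addOrderOf_nsmul_eq_zero] at h
    by_contra hne
    exact nf_mul_ne_zero hne hc h


/-- A finite near-field has prime-power order; its additive group is commutative of prime exponent. -/
theorem result {F : Type*} [Cfsg.NearField F] [Finite F] : ∃ p j : ℕ, p.Prime ∧ 1 ≤ j ∧ Nat.card F = p ^ j ∧ (∀ x y : F, x + y = y + x) ∧ ∀ x : F, p • x = 0 := by
  classical
  haveI : Nontrivial F := ⟨⟨0, 1, Cfsg.NearField.zero_ne_one⟩⟩
  have hcard : 1 < Nat.card F := Finite.one_lt_card
  obtain ⟨p, hp, hpd⟩ := Nat.exists_prime_and_dvd (ne_of_gt hcard)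
  haveI := Fact.mk hp
  obtain ⟨z, hz⟩ := exists_prime_addOrderOf_dvd_card' p hpd
  have hz0 : z ≠ 0 := by
    rintro rfl
    rw [addOrderOf_zero] at hz
    exact hp.one_lt.ne hz
  have hord : ∀ a : F, a ≠ 0 → addOrderOf a = p := by
    intro a ha
    obtain ⟨z', h1, h2⟩ := Cfsg.NearField.exists_inv z hz0
    have e : a = z * (z' * a) := by rw [← mul_assoc, h1, one_mul]
    rw [e, nf_addOrderOf_mul _ _ (nf_mul_ne_zero (nf_inv_ne_zero h2) ha), hz]
  have hpx : ∀ x : F, p • x = 0 := by
    intro x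
    by_cases hx : x = 0
    · rw [hx, nsmul_zero]
    · rw [← hord x hx]; exact addOrderOf_nsmul_eq_zero x
  have hP : IsPGroup p (Multiplicative F) := fun g => ⟨1, by
    rw [pow_one]; exact congrArg Multiplicative.ofAdd (hpx (Multiplicative.toAdd g))⟩
  obtain ⟨j, hj⟩ := IsPGroup.iff_card.mp hP
  have hj' : Nat.card F = p ^ j := hj
  have hj1 : 1 ≤ j := by
    rcases Nat.eq_zero_or_pos j with h0 | h0
    · rw [h0, pow_zero] at hj'; omega
    · exact h0
  haveI : Nontrivial (Multiplicative F) := ‹Nontrivial F›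
  haveI : Finite (Multiplicative F) := ‹Finite F›
  haveI hcn := IsPGroup.center_nontrivial hP
  obtain ⟨⟨w, hw⟩, hne⟩ := exists_ne (1 : Subgroup.center (Multiplicative F))
  rw [Subgroup.mem_center_iff] at hw
  have hw0 : Multiplicative.toAdd w ≠ 0 := by
    intro h
    apply hne
    apply Subtype.ext
    exact h
  have hwc : ∀ g : F, g + Multiplicative.toAdd w = Multiplicative.toAdd w + g := fun g =>
    hw (Multiplicative.ofAdd g)
  refine ⟨p, j, hp, hj1, hj', ?_, hpx⟩
  intro x y
  by_cases hx : x = 0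
  · rw [hx, zero_add, add_zero]
  obtain ⟨w', h1, h2⟩ := Cfsg.NearField.exists_inv _ hw0
  have hc : w' * x ≠ 0 := nf_mul_ne_zero (nf_inv_ne_zero h2) hx
  obtain ⟨c', hc1, hc2⟩ := Cfsg.NearField.exists_inv _ hc
  have ex : x = Multiplicative.toAdd w * (w' * x) := by rw [← mul_assoc, h1, one_mul]
  have ey : y = (y * c') * (w' * x) := by rw [mul_assoc, hc2, mul_one]
  calc x + y = Multiplicative.toAdd w * (w' * x) + (y * c') * (w' * x) := by rw [← ex, ← ey]
    _ = (Multiplicative.toAdd w + y * c') * (w' * x) := (Cfsg.NearField.right_distrib _ _ _).symm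
    _ = (y * c' + Multiplicative.toAdd w) * (w' * x) := by rw [hwc]
    _ = (y * c') * (w' * x) + Multiplicative.toAdd w * (w' * x) := Cfsg.NearField.right_distrib _ _ _
    _ = y + x := by rw [← ex, ← ey]

end Cfsg.Agent.S0682
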