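import Cfsg.Statements.S0683
import Mathlib
import Cfsg.Agent.Lib_helper4_Sharp2
import Cfsg.Agent.Lib_helper4_NearFieldMk
import Cfsg.Agent.S0680

set_option autoImplicit false
open Cfsg

namespace Cfsg.Agent.S0683

open Cfsg.Agent.Lib_helper4_Sharp2


/-- A finite sharply doubly transitive permutation group is the affine group of a near-field: the permuted set carries a near-field structure for which the group consists exactly of the maps `x ↦ x * a + b` with `a ≠ 0`. -/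
theorem result {α : Type*} [Fintype α] [DecidableEq α] (H : Subgroup (Equiv.Perm α)) [MulAction.IsMultiplyPretransitive H α 2] (hsharp : ∀ x : Fin 2 ↪ α, MulAction.stabilizer H x = ⊥) (h2 : 2 ≤ Fintype.card α) : ∃ _ : Cfsg.NearField α, ∀ σ : Equiv.Perm α, σ ∈ H ↔ ∃ a b : α, a ≠ 0 ∧ ∀ x : α, σ x = x * a + b := by
  classical
  obtain ⟨p, j, hp, -, -, hP⟩ := Cfsg.Agent.S0680.result H hsharp h2
  haveI := Fact.mk hp
  obtain ⟨P⟩ := (inferInstance : Nonempty (Sylow p H))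
  obtain ⟨hPn, -, -, hPt, hPs, -⟩ := hP (Fact.mk hp) P
  obtain ⟨e₀, e₁, h01⟩ := Fintype.exists_pair_of_one_lt_card (by omega : 1 < Fintype.card α)
  let inK : Equiv.Perm α → Prop := fun σ => ∃ h : σ ∈ H, (⟨σ, h⟩ : H) ∈ (P : Subgroup H)
  have hK1 : ∀ b, ∃ σ : Equiv.Perm α, inK σ ∧ σ e₀ = b := by
    intro b
    obtain ⟨k, hk⟩ := hPt.exists_smul_eq e₀ b
    exact ⟨k.1.1, ⟨k.1.2, k.2⟩, hk⟩
  have hKmul : ∀ σ σ', inK σ → inK σ' → inK (σ * σ') := by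
    rintro σ σ' ⟨h, hk⟩ ⟨h', hk'⟩
    exact ⟨H.mul_mem h h', (P : Subgroup H).mul_mem hk hk'⟩
  have hKinv : ∀ σ, inK σ → inK σ⁻¹ := by
    rintro σ ⟨h, hk⟩
    exact ⟨H.inv_mem h, (P : Subgroup H).inv_mem hk⟩
  have hKuniq : ∀ σ σ', inK σ → inK σ' → σ e₀ = σ' e₀ → σ = σ' := by
    intro σ σ' hσ hσ' h
    obtain ⟨hm, hk⟩ := hKmul _ _ (hKinv σ' hσ') hσ
    have h1 : (⟨⟨σ'⁻¹ * σ, hm⟩, hk⟩ : (P : Subgroup H)) ∈
        MulAction.stabilizer (P : Subgroup H) e₀ := by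
      rw [MulAction.mem_stabilizer_iff]
      show σ'⁻¹ (σ e₀) = e₀
      rw [h, Equiv.Perm.inv_def, Equiv.symm_apply_apply]
    rw [hPs e₀, Subgroup.mem_bot] at h1
    have h2 : σ'⁻¹ * σ = 1 := congrArg (fun k : (P : Subgroup H) => k.1.1) h1
    exact (inv_mul_eq_one.mp h2).symm
  have hKconj : ∀ ρ σ, ρ ∈ H → inK σ → inK (ρ * σ * ρ⁻¹) := by
    rintro ρ σ hρ ⟨h, hk⟩
    exact ⟨H.mul_mem (H.mul_mem hρ h) (H.inv_mem hρ), hPn.conj_mem _ hk ⟨ρ, hρ⟩⟩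
  have hKH : ∀ σ, inK σ → σ ∈ H := fun σ h => h.1
  have h2t : ∀ {a b c d : α}, a ≠ b → c ≠ d → ∃ g : H, g • a = c ∧ g • b = d :=
    MulAction.is_two_pretransitive_iff.mp inferInstance
  have hH1 : ∀ a, ∃ ρ : Equiv.Perm α, ρ ∈ H ∧ (a ≠ e₀ → ρ e₀ = e₀ ∧ ρ e₁ = a) := by
    intro a
    by_cases ha : a = e₀
    · exact ⟨1, H.one_mem, fun h => absurd ha h⟩
    · obtain ⟨g, hg0, hg1⟩ := @h2t e₀ e₁ e₀ a h01 (Ne.symm ha)
      exact ⟨g.1, g.2, fun _ => ⟨hg0, hg1⟩⟩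
  have hHuniq : ∀ ρ ρ' : Equiv.Perm α, ρ ∈ H → ρ' ∈ H → ρ e₀ = ρ' e₀ → ρ e₁ = ρ' e₁ →
      ρ = ρ' := by
    intro ρ ρ' hρ hρ' h0 h1
    have h3 : (⟨ρ'⁻¹ * ρ, H.mul_mem (H.inv_mem hρ') hρ⟩ : H) = 1 := by
      apply eq_one_of_fix_two hsharp _ h01
      · show ρ'⁻¹ (ρ e₀) = e₀
        rw [h0, Equiv.Perm.inv_def, Equiv.symm_apply_apply]
      · show ρ'⁻¹ (ρ e₁) = e₁
        rw [h1, Equiv.Perm.inv_def, Equiv.symm_apply_apply]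
    have h4 : ρ'⁻¹ * ρ = 1 := congrArg Subtype.val h3
    exact (inv_mul_eq_one.mp h4).symm
  choose τ hτK hτ0 using hK1
  choose μ hμH hμ using hH1
  have hμ0 : ∀ a, a ≠ e₀ → μ a e₀ = e₀ := fun a ha => (hμ a ha).1
  have hμ1 : ∀ a, a ≠ e₀ → μ a e₁ = a := fun a ha => (hμ a ha).2
  have hτadd : ∀ y z, τ z * τ y = τ (τ z y) := by
    intro y z
    apply hKuniq _ _ (hKmul _ _ (hτK z) (hτK y)) (hτK _)
    show τ z (τ y e₀) = τ (τ z y) e₀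
    rw [hτ0, hτ0]
  have hμmul : ∀ a b, a ≠ e₀ → b ≠ e₀ → μ b * μ a = μ (μ b a) := by
    intro a b ha hb
    have hne : μ b a ≠ e₀ := by
      intro h
      apply ha
      apply (μ b).injective
      rw [h, hμ0 b hb]
    apply hHuniq _ _ (H.mul_mem (hμH b) (hμH a)) (hμH _)
    · show μ b (μ a e₀) = μ (μ b a) e₀
      rw [hμ0 a ha, hμ0 b hb, hμ0 _ hne]
    · show μ b (μ a e₁) = μ (μ b a) e₁
      rw [hμ1 a ha, hμ1 _ hne]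
  have hdist : ∀ c y, c ≠ e₀ → μ c * τ y = τ (μ c y) * μ c := by
    intro c y hc
    have h5 : μ c * τ y * (μ c)⁻¹ = τ (μ c y) := by
      apply hKuniq _ _ (hKconj _ _ (hμH c) (hτK y)) (hτK _)
      show μ c (τ y ((μ c)⁻¹ e₀)) = τ (μ c y) e₀
      have h6 : (μ c)⁻¹ e₀ = e₀ := by rw [Equiv.Perm.inv_eq_iff_eq, hμ0 c hc]
      rw [h6, hτ0, hτ0]
    rw [← h5]; group
  obtain ⟨inst, hadd, hmul, h0, h1⟩ := Cfsg.Agent.Lib_helper4_NearFieldMk.exists_nearField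
    e₀ e₁ h01 τ μ hτ0 hτadd hμ0 hμ1 hμmul hdist
  refine ⟨inst, ?_⟩
  intro σ
  constructor
  · intro hσ
    have hρH : (τ (σ e₀))⁻¹ * σ ∈ H := H.mul_mem (H.inv_mem (hKH _ (hτK _))) hσ
    have hρ0 : ((τ (σ e₀))⁻¹ * σ) e₀ = e₀ := by
      show (τ (σ e₀))⁻¹ (σ e₀) = e₀
      rw [Equiv.Perm.inv_eq_iff_eq, hτ0]
    have ha : ((τ (σ e₀))⁻¹ * σ) e₁ ≠ e₀ := by
      intro h
      exact h01 (((τ (σ e₀))⁻¹ * σ).injective (hρ0.trans h.symm))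
    have hρμ : (τ (σ e₀))⁻¹ * σ = μ (((τ (σ e₀))⁻¹ * σ) e₁) :=
      hHuniq _ _ hρH (hμH _) (by rw [hρ0, hμ0 _ ha]) (by rw [hμ1 _ ha])
    refine ⟨((τ (σ e₀))⁻¹ * σ) e₁, σ e₀, by rw [h0]; exact ha, fun x => ?_⟩
    rw [hadd, hmul _ _ (by rw [h0]; exact ha), ← hρμ]
    show σ x = τ (σ e₀) ((τ (σ e₀))⁻¹ (σ x))
    rw [Equiv.Perm.inv_def, Equiv.apply_symm_apply]
  · rintro ⟨a, b, ha, hσ⟩
    have hσeq : σ = τ b * μ a := by
      ext x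
      rw [hσ x, hadd, hmul _ _ ha]; rfl
    rw [hσeq]
    exact H.mul_mem (hKH _ (hτK b)) (hμH a)

end Cfsg.Agent.S0683
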