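import Cfsg.Statements.S0691
import Mathlib
import Cfsg.Agent.Lib_helper4_RegMat

set_option autoImplicit false
open Cfsg

namespace Cfsg.Agent.S0691

open Cfsg.Agent.Lib_helper4_RegMat

def tT : ℕ → ℕ := fun i => 63565081964156403217674002209225500 / 25 ^ i % 25

def tR : ℕ → ℕ := fun i => 49444492376467076349417230961831300 / 25 ^ i % 25

def tP : ℕ → ℕ := fun i => 72437026341534855125440650642600125 / 25 ^ i % 25

lemma checks : allChecks 5 tT tR tP [(2, 0, 0, 3), (0, 4, 1, 0), (1, 2, 1, 3)] = true := by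
  decide +kernel


/-- An exceptional sharply doubly transitive group of degree 5^2: the listed matrices generate a subgroup of GL(2,5) of order 24 acting regularly on the non-zero vectors. -/
theorem result (A : Matrix.GeneralLinearGroup (Fin 2) (ZMod 5)) (B : Matrix.GeneralLinearGroup (Fin 2) (ZMod 5)) (C : Matrix.GeneralLinearGroup (Fin 2) (ZMod 5)) (hA : (A : Matrix (Fin 2) (Fin 2) (ZMod 5)) = !![2, 0; 0, -2]) (hB : (B : Matrix (Fin 2) (Fin 2) (ZMod 5)) = !![0, -1; 1, 0]) (hC : (C : Matrix (Fin 2) (Fin 2) (ZMod 5)) = !![1, 2; 1, -2]) : Nat.card (Subgroup.closure ({A, B, C} : Set (Matrix.GeneralLinearGroup (Fin 2) (ZMod 5)))) = 24 ∧ ∀ v w : Fin 2 → ZMod 5, v ≠ 0 → w ≠ 0 → ∃! h : Subgroup.closure ({A, B, C} : Set (Matrix.GeneralLinearGroup (Fin 2) (ZMod 5))), Matrix.mulVec ((h : Matrix.GeneralLinearGroup (Fin 2) (ZMod 5)) : Matrix (Fin 2) (Fin 2) (ZMod 5)) v = w := by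
  haveI : Fact (Nat.Prime 5) := ⟨by norm_num⟩
  have h := regular_of_checks (p := 5) ({A, B, C} : Set (Matrix.GeneralLinearGroup (Fin 2) (ZMod 5))) [(2, 0, 0, 3), (0, 4, 1, 0), (1, 2, 1, 3)] ?_ ?_ tT tR tP checks
  · refine ⟨?_, h.2⟩
    rw [h.1]
    norm_num
  · intro g hg
    simp only [Set.mem_insert_iff, Set.mem_singleton_iff] at hg
    rcases hg with rfl | rfl | rfl
    · refine ⟨(2, 0, 0, 3), by simp, ?_⟩
      rw [hA]
      unfold mat
      decide
    · refine ⟨(0, 4, 1, 0), by simp, ?_⟩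
      rw [hB]
      unfold mat
      decide
    · refine ⟨(1, 2, 1, 3), by simp, ?_⟩
      rw [hC]
      unfold mat
      decide
  · intro t ht
    simp only [List.mem_cons, List.mem_nil_iff, or_false] at ht
    rcases ht with rfl | rfl | rfl
    · refine ⟨A, by simp, ?_⟩
      rw [hA]
      unfold mat
      decide
    · refine ⟨B, by simp, ?_⟩
      rw [hB]
      unfold mat
      decide
    · refine ⟨C, by simp, ?_⟩
      rw [hC]
      unfold mat
      decide

end Cfsg.Agent.S0691
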