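import Cfsg.Statements.S0692
import Mathlib
import Cfsg.Agent.Lib_helper4_RegMat

set_option autoImplicit false
open Cfsg

namespace Cfsg.Agent.S0692

open Cfsg.Agent.Lib_helper4_RegMat

def tT : ℕ → ℕ := fun i => 1023680225608697388012943959888221555773884460587597699588946763836862267929030428284324894330800777590142402382016351544432580559225862755822891156456045322606591029962305480370139021168103931822586108881595739348033788433449416919018550888025461246980 / 121 ^ i % 121

def tR : ℕ → ℕ := fun i => 425460735952588606505588817556400406026546213070361388731748736749525129168402945249931398188573150059668029656308194759345207968199937703433498051773206790865255949050203812260831076205326260670893081912630952869031598126052287803795688355835120845500 / 121 ^ i % 121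

def tP : ℕ → ℕ := fun i => 961197806313779924699012155311658771573731879922221214954121735386804071461463491880430352197836043883458835841206469453214039295796546923458509283828873792549813639914148617611385648968634498818278248735513016212069340046244857054575437770673712544025 / 121 ^ i % 121

lemma checks : allChecks 11 tT tR tP [(0, 10, 1, 0), (2, 4, 1, 8)] = true := by
  decide +kernel


/-- An exceptional sharply doubly transitive group of degree 11^2: the listed matrices generate a subgroup of GL(2,11) of order 120 acting regularly on the non-zero vectors. -/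
theorem result (A : Matrix.GeneralLinearGroup (Fin 2) (ZMod 11)) (B : Matrix.GeneralLinearGroup (Fin 2) (ZMod 11)) (hA : (A : Matrix (Fin 2) (Fin 2) (ZMod 11)) = !![0, -1; 1, 0]) (hB : (B : Matrix (Fin 2) (Fin 2) (ZMod 11)) = !![2, 4; 1, -3]) : Nat.card (Subgroup.closure ({A, B} : Set (Matrix.GeneralLinearGroup (Fin 2) (ZMod 11)))) = 120 ∧ ∀ v w : Fin 2 → ZMod 11, v ≠ 0 → w ≠ 0 → ∃! h : Subgroup.closure ({A, B} : Set (Matrix.GeneralLinearGroup (Fin 2) (ZMod 11))), Matrix.mulVec ((h : Matrix.GeneralLinearGroup (Fin 2) (ZMod 11)) : Matrix (Fin 2) (Fin 2) (ZMod 11)) v = w := by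
  haveI : Fact (Nat.Prime 11) := ⟨by norm_num⟩
  have h := regular_of_checks (p := 11) ({A, B} : Set (Matrix.GeneralLinearGroup (Fin 2) (ZMod 11))) [(0, 10, 1, 0), (2, 4, 1, 8)] ?_ ?_ tT tR tP checks
  · refine ⟨?_, h.2⟩
    rw [h.1]
    norm_num
  · intro g hg
    simp only [Set.mem_insert_iff, Set.mem_singleton_iff] at hg
    rcases hg with rfl | rfl
    · refine ⟨(0, 10, 1, 0), by simp, ?_⟩
      rw [hA]
      unfold mat
      decide
    · refine ⟨(2, 4, 1, 8), by simp, ?_⟩
      rw [hB]
      unfold mat
      decide
  · intro t ht
    simp only [List.mem_cons, List.mem_nil_iff, or_false] at ht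
    rcases ht with rfl | rfl
    · refine ⟨A, by simp, ?_⟩
      rw [hA]
      unfold mat
      decide
    · refine ⟨B, by simp, ?_⟩
      rw [hB]
      unfold mat
      decide

end Cfsg.Agent.S0692
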