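import Cfsg.Statements.S0694
import Mathlib

set_option autoImplicit false
open Cfsg

namespace Cfsg.Agent.S0694

universe u

theorem b1 : ∀ n : ℕ, 0 < n → ∀ Q : ℤ, (∀ r : ℕ, r.Prime → r ∣ n → (r : ℤ) ∣ Q - 1) →
    (n : ℤ) * (Q - 1) ∣ Q ^ n - 1 := by
  intro n
  induction n using Nat.strong_induction_on with
  | _ n ih =>
    intro hn Q hQ
    obtain rfl | h1 : n = 1 ∨ 1 < n := by omega
    · simp
    · obtain ⟨r, hr, hrn⟩ := Nat.exists_prime_and_dvd (Nat.ne_of_gt h1)
      obtain ⟨n', rfl⟩ := hrn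
      have hn'pos : 0 < n' := Nat.pos_of_ne_zero (by rintro rfl; simp at hn)
      have hn'lt : n' < r * n' := by nlinarith [hr.two_le]
      have hQr : Q - 1 ∣ Q ^ r - 1 := by
        have := sub_dvd_pow_sub_pow Q 1 r
        simpa using this
      have h2 := ih n' hn'lt hn'pos (Q ^ r)
        (fun t ht htn => dvd_trans (hQ t ht (dvd_mul_of_dvd_right htn r)) hQr)
      have h3 : (r : ℤ) * (Q - 1) ∣ Q ^ r - 1 := by
        have h4 : (r : ℤ) ∣ ∑ i ∈ Finset.range r, Q ^ i := by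
          have := dvd_geom_sum₂_self (n := r) (x := Q) (y := 1)
            (by simpa using hQ r hr (dvd_mul_right r n'))
          simpa using this
        rw [← geom_sum_mul]
        exact mul_dvd_mul h4 dvd_rfl
      rw [pow_mul]
      calc ((r * n' : ℕ) : ℤ) * (Q - 1) = (n' : ℤ) * ((r : ℤ) * (Q - 1)) := by push_cast; ring
        _ ∣ (n' : ℤ) * (Q ^ r - 1) := mul_dvd_mul_left _ h3
        _ ∣ (Q ^ r) ^ n' - 1 := h2

theorem v2_odd (q i : ℕ) (hq : 2 ≤ q) (hq2 : ¬ 2 ∣ q) (hi : Odd i) :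
    padicValNat 2 (q ^ i - 1) ≤ padicValNat 2 (q - 1) := by
  have hi0 : i ≠ 0 := by rintro rfl; simp at hi
  have h2i : 2 * i ≠ 0 := by omega
  have hlte := padicValNat.pow_two_sub_one (show 1 < q by omega) hq2 h2i (even_two_mul i)
  have hqi : 2 ≤ q ^ i := le_trans hq (Nat.le_self_pow hi0 q)
  have hfac : q ^ (2 * i) - 1 = (q ^ i + 1) * (q ^ i - 1) := by
    have := Nat.sq_sub_sq (q ^ i) 1
    rw [one_pow] at this
    rw [← this, ← pow_mul, mul_comm i 2]
  have hv2i : padicValNat 2 (2 * i) = 1 := by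
    rw [padicValNat.mul (by norm_num) hi0, padicValNat_self,
      padicValNat.eq_zero_of_not_dvd hi.not_two_dvd_nat]
  rw [hfac, padicValNat.mul (by omega) (by omega), hv2i] at hlte
  have hdv : q + 1 ∣ q ^ i + 1 := by
    have := Odd.nat_add_dvd_pow_add_pow q 1 hi
    rwa [one_pow] at this
  have hle : padicValNat 2 (q + 1) ≤ padicValNat 2 (q ^ i + 1) :=
    (padicValNat_dvd_iff_le (by omega)).mp (dvd_trans pow_padicValNat_dvd hdv)
  omega

theorem b2 (q n i : ℕ) (hq : 2 ≤ q) (hn : 0 < n) (hi : 0 < i)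
    (hA1 : ∀ r : ℕ, r.Prime → r ∣ n → r ∣ q - 1) (hA2 : 4 ∣ n → 4 ∣ q - 1)
    (hdvd : n * (q - 1) ∣ q ^ i - 1) : n ∣ i := by
  rw [Nat.dvd_iff_prime_pow_dvd_dvd]
  intro r k hr hrk
  haveI : Fact r.Prime := ⟨hr⟩
  rcases Nat.eq_zero_or_pos k with hk0 | hkpos
  · rw [hk0, pow_zero]; exact one_dvd _
  have hrn : r ∣ n := dvd_trans (dvd_pow_self r hkpos.ne') hrk
  have hrq : r ∣ q - 1 := hA1 r hr hrn
  have hq1 : q - 1 ≠ 0 := by omega
  have hqi2 : 2 ≤ q ^ i := le_trans hq (Nat.le_self_pow hi.ne' q)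
  have hqi : q ^ i - 1 ≠ 0 := by omega
  have hkn : k ≤ padicValNat r n := (padicValNat_dvd_iff_le hn.ne').mp hrk
  have hv : padicValNat r n + padicValNat r (q - 1) ≤ padicValNat r (q ^ i - 1) := by
    rw [← padicValNat.mul hn.ne' hq1]
    exact (padicValNat_dvd_iff_le hqi).mp (dvd_trans pow_padicValNat_dvd hdvd)
  rw [padicValNat_dvd_iff_le hi.ne']
  have hrq' : ¬ r ∣ q := by
    intro h
    have h2 : r ∣ q - (q - 1) := Nat.dvd_sub h hrq
    have h3 : q - (q - 1) = 1 := by omega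
    rw [h3] at h2
    exact hr.one_lt.ne' (Nat.dvd_one.mp h2)
  by_cases hodd : Odd r
  · have hlte := padicValNat.pow_sub_pow hodd (show 1 < q by omega) hrq hrq' hi.ne'
    rw [one_pow] at hlte
    omega
  · have hr2 : r = 2 := by
      rcases hr.eq_two_or_odd' with h | h
      · exact h
      · exact absurd h hodd
    subst hr2
    by_cases hiodd : Odd i
    · have hle : padicValNat 2 (q ^ i - 1) ≤ padicValNat 2 (q - 1) := v2_odd q i hq hrq' hiodd
      omega
    · have hieven : Even i := Nat.not_odd_iff_even.mp hiodd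
      have hlte := padicValNat.pow_two_sub_one (show 1 < q by omega) hrq' hi.ne' hieven
      by_cases h4 : 4 ∣ q - 1
      · have hq1' : padicValNat 2 (q + 1) = 1 := by
          apply le_antisymm
          · by_contra hcon
            push Not at hcon
            have h5 : 2 ^ 2 ∣ q + 1 := (padicValNat_dvd_iff_le (by omega)).mpr hcon
            norm_num at h5
            omega
          · apply (padicValNat_dvd_iff_le (by omega)).mp
            norm_num
            omega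
        omega
      · have hn4 : ¬ 4 ∣ n := fun h => h4 (hA2 h)
        have hvn : padicValNat 2 n ≤ 1 := by
          by_contra hcon
          push Not at hcon
          apply hn4
          have h5 : 2 ^ 2 ∣ n := (padicValNat_dvd_iff_le hn.ne').mpr hcon
          norm_num at h5
          exact h5
        have hvi : 1 ≤ padicValNat 2 i := by
          apply (padicValNat_dvd_iff_le hi.ne').mp
          simpa using hieven.two_dvd
        omega

theorem decomp (D : ℕ) : ∀ n : ℕ, 0 < n → ∃ n₁ n₂ : ℕ, n = n₁ * n₂ ∧ 0 < n₁ ∧ 0 < n₂ ∧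
    (∀ r : ℕ, r.Prime → r ∣ n₁ → r ∣ D) ∧ (∀ r : ℕ, r.Prime → r ∣ n₂ → ¬ r ∣ D) := by
  intro n
  induction n using Nat.strong_induction_on with
  | _ n ih =>
    intro hn
    obtain rfl | h1 : n = 1 ∨ 1 < n := by omega
    · refine ⟨1, 1, by omega, one_pos, one_pos, ?_, ?_⟩
      · intro r hr h; exact absurd (Nat.dvd_one.mp h) hr.one_lt.ne'
      · intro r hr h; exact absurd (Nat.dvd_one.mp h) hr.one_lt.ne'
    · obtain ⟨r, hr, hrn⟩ := Nat.exists_prime_and_dvd (Nat.ne_of_gt h1)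
      obtain ⟨n', rfl⟩ := hrn
      have hn'pos : 0 < n' := Nat.pos_of_ne_zero (by rintro rfl; simp at hn)
      have hn'lt : n' < r * n' := by nlinarith [hr.two_le]
      obtain ⟨m₁, m₂, hm, hm₁, hm₂, h₁, h₂⟩ := ih n' hn'lt hn'pos
      by_cases hrD : r ∣ D
      · refine ⟨r * m₁, m₂, by rw [hm]; ring, Nat.mul_pos hr.pos hm₁, hm₂, ?_, h₂⟩
        intro t ht htd
        rcases (Nat.Prime.dvd_mul ht).mp htd with h | h
        · rw [(Nat.prime_dvd_prime_iff_eq ht hr).mp h]; exact hrD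
        · exact h₁ t ht h
      · refine ⟨m₁, r * m₂, by rw [hm]; ring, hm₁, Nat.mul_pos hr.pos hm₂, h₁, ?_⟩
        intro t ht htd
        rcases (Nat.Prime.dvd_mul ht).mp htd with h | h
        · rw [(Nat.prime_dvd_prime_iff_eq ht hr).mp h]; exact hrD
        · exact h₂ t ht h


/-- The Dickson pair condition: for a prime power `q` and `n > 1`, (every prime factor of `n` divides `q - 1`, and `4 ∣ n → 4 ∣ q - 1`) holds exactly when `q ^ n ≡ 1` modulo `n * (q - 1)` but `q ^ i` is not, for `0 < i < n`. -/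
theorem result (q n : ℕ) (hq : IsPrimePow q) (hn : 1 < n) : ((∀ r : ℕ, r.Prime → r ∣ n → r ∣ q - 1) ∧ (4 ∣ n → 4 ∣ q - 1)) ↔ (q ^ n ≡ 1 [MOD n * (q - 1)] ∧ ∀ i : ℕ, 0 < i → i < n → ¬ q ^ i ≡ 1 [MOD n * (q - 1)]) := by
  have hq2 : 2 ≤ q := hq.two_le
  have hcast : ((q - 1 : ℕ) : ℤ) = (q : ℤ) - 1 := by
    rw [Nat.cast_sub (by omega)]; simp
  have hme : ∀ (i N : ℕ), q ^ i ≡ 1 [MOD N] ↔ (N : ℤ) ∣ (q : ℤ) ^ i - 1 := by
    intro i N
    rw [Nat.ModEq.comm, Nat.modEq_iff_dvd, Nat.cast_pow, Nat.cast_one]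
  constructor
  · rintro ⟨hA1, hA2⟩
    constructor
    · rw [hme, Nat.cast_mul, hcast]
      apply b1 n (by omega) (q : ℤ)
      intro r hr hrn
      rw [← hcast]
      exact Int.natCast_dvd_natCast.mpr (hA1 r hr hrn)
    · intro i hi hin hmod
      have hdvd : n * (q - 1) ∣ q ^ i - 1 :=
        (Nat.modEq_iff_dvd' (show 1 ≤ q ^ i from Nat.pos_of_ne_zero
          (pow_ne_zero _ (by omega)))).mp hmod.symm
      have := b2 q n i hq2 (by omega) hi hA1 hA2 hdvd
      exact absurd (Nat.le_of_dvd hi this) (by omega)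
  · rintro ⟨hB1, hB2⟩
    obtain ⟨n₁, n₂, hnn, hn₁, hn₂, h₁, h₂⟩ := decomp (q - 1) n (by omega)
    have hn₁mod : q ^ n₁ ≡ 1 [MOD n₁ * (q - 1)] := by
      rw [hme, Nat.cast_mul, hcast]
      apply b1 n₁ hn₁ (q : ℤ)
      intro r hr hrn
      rw [← hcast]
      exact Int.natCast_dvd_natCast.mpr (h₁ r hr hrn)
    have hn₂1 : n₂ = 1 := by
      by_contra hne
      have hn₂gt : 1 < n₂ := by omega
      have hcopq : Nat.Coprime q n₂ := by
        apply Nat.coprime_of_dvd
        intro t ht htq htn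
        have htn' : t ∣ n := by rw [hnn]; exact dvd_mul_of_dvd_right htn n₁
        have h1 : q ^ n ≡ 1 [MOD t] := hB1.of_dvd (dvd_mul_of_dvd_left htn' (q - 1))
        have h2 : q ^ n ≡ 0 [MOD t] := (Nat.modEq_zero_iff_dvd).mpr (dvd_pow htq (by omega))
        have h3 : 1 ≡ 0 [MOD t] := h1.symm.trans h2
        exact ht.one_lt.ne' (Nat.dvd_one.mp ((Nat.modEq_zero_iff_dvd).mp h3))
      have hcop : Nat.Coprime (n₁ * (q - 1)) n₂ := by
        apply Nat.coprime_of_dvd
        intro t ht ht1 ht2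
        rcases (Nat.Prime.dvd_mul ht).mp ht1 with h | h
        · exact h₂ t ht ht2 (h₁ t ht h)
        · exact h₂ t ht ht2 h
      have hmod : q ^ (n₁ * Nat.totient n₂) ≡ 1 [MOD n * (q - 1)] := by
        have e : n * (q - 1) = (n₁ * (q - 1)) * n₂ := by rw [hnn]; ring
        rw [e, ← Nat.modEq_and_modEq_iff_modEq_mul hcop]
        constructor
        · rw [pow_mul]
          have := hn₁mod.pow (Nat.totient n₂)
          rwa [one_pow] at this
        · rw [mul_comm, pow_mul]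
          have := (Nat.ModEq.pow_totient hcopq).pow n₁
          rwa [one_pow] at this
      refine hB2 (n₁ * Nat.totient n₂) (Nat.mul_pos hn₁ (Nat.totient_pos.mpr hn₂)) ?_ hmod
      rw [hnn]
      exact (Nat.mul_lt_mul_left hn₁).mpr (Nat.totient_lt n₂ hn₂gt)
    have hA1 : ∀ r : ℕ, r.Prime → r ∣ n → r ∣ q - 1 := by
      intro r hr hrn
      apply h₁ r hr
      rw [hnn, hn₂1, mul_one] at hrn
      exact hrn
    refine ⟨hA1, ?_⟩
    intro h4n
    by_contra h4q
    have h2q : 2 ∣ q - 1 := hA1 2 Nat.prime_two (dvd_trans (by norm_num) h4n)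
    have h4q1 : 4 ∣ q + 1 := by omega
    obtain ⟨h', hh'⟩ := h4n
    have hh'pos : 0 < h' := by omega
    have hmod : q ^ (2 * h') ≡ 1 [MOD n * (q - 1)] := by
      rw [hme, Nat.cast_mul, hcast]
      have hb := b1 h' hh'pos ((q : ℤ) ^ 2) (by
        intro r hr hrn
        have h5 : r ∣ q - 1 := hA1 r hr (by rw [hh']; exact dvd_mul_of_dvd_right hrn 4)
        have h6 : ((r : ℕ) : ℤ) ∣ (q : ℤ) - 1 := by
          rw [← hcast]; exact Int.natCast_dvd_natCast.mpr h5
        exact dvd_trans h6 ⟨(q : ℤ) + 1, by ring⟩)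
      rw [← pow_mul] at hb
      refine dvd_trans ?_ hb
      obtain ⟨c, hc⟩ := h4q1
      have hc' : (q : ℤ) + 1 = 4 * c := by exact_mod_cast hc
      rw [hh']
      push_cast
      exact ⟨c, by rw [show (q : ℤ) ^ 2 - 1 = ((q : ℤ) - 1) * ((q : ℤ) + 1) by ring, hc']; ring⟩
    exact hB2 (2 * h') (by omega) (by omega) hmod

end Cfsg.Agent.S0694
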