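import Cfsg.Statements.S0695
import Mathlib
import Cfsg.Agent.Lib_helper4_FixBlock

set_option autoImplicit false
open Cfsg

namespace Cfsg.Agent.S0695

/-- A regular normal subgroup of a doubly primitive group of finite degree at least 2 is an elementary abelian 2-group (and the degree is a power of 2), unless the degree is 3. -/
theorem result {G : Type*} [Group G] {X : Type*} [Fintype X] [MulAction G X] (hX : 2 ≤ Fintype.card X) (h2 : MulAction.IsMultiplyPreprimitive G X 2) (N : Subgroup G) [N.Normal] (htrans : MulAction.IsPretransitive N X) (hreg : ∀ x : X, MulAction.stabilizer N x = ⊥) : Fintype.card X = 3 ∨ (IsMulCommutative N ∧ (∀ n ∈ N, n ^ 2 = 1) ∧ ∃ m : ℕ, Fintype.card X = 2 ^ m) := by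
  classical
  obtain ⟨a⟩ : Nonempty X := Fintype.card_pos_iff.mp (by omega)
  have hfree : ∀ n m : G, n ∈ N → m ∈ N → n • a = m • a → n = m := by
    intro n m hn hm h
    have h1 : (⟨m⁻¹ * n, N.mul_mem (N.inv_mem hm) hn⟩ : N) ∈ MulAction.stabilizer N a := by
      rw [MulAction.mem_stabilizer_iff]
      show (m⁻¹ * n) • a = a
      rw [mul_smul, h, inv_smul_smul]
    rw [hreg a, Subgroup.mem_bot] at h1
    have h2 : m⁻¹ * n = 1 := congrArg Subtype.val h1
    exact (inv_mul_eq_one.mp h2).symm
  have hbij : Function.Bijective (fun n : N => n • a) := by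
    constructor
    · intro n m h
      exact Subtype.ext (hfree n.1 m.1 n.2 m.2 h)
    · intro x
      exact MulAction.exists_smul_eq N a x
  have hcard : Nat.card N = Fintype.card X := by
    rw [← Nat.card_eq_fintype_card]
    exact Nat.card_congr (Equiv.ofBijective _ hbij)
  haveI : Finite N := Finite.of_injective _ hbij.1
  by_cases hex : ∃ n ∈ N, n ^ 2 ≠ 1
  · left
    obtain ⟨n, hn, hn2⟩ := hex
    have hn1 : n ≠ 1 := by rintro rfl; exact hn2 (one_pow 2)
    have hninv : n ≠ n⁻¹ := by
      intro h
      apply hn2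
      rw [pow_two]
      nth_rewrite 2 [h]
      exact mul_inv_cancel n
    have hna : n • a ≠ a := by
      intro h
      exact hn1 (hfree n 1 hn N.one_mem (by rw [h, one_smul]))
    have hnia : n⁻¹ • a ≠ a := by
      intro h
      exact hn1 (inv_eq_one.mp (hfree n⁻¹ 1 (N.inv_mem hn) N.one_mem (by rw [h, one_smul])))
    have hnn : n • a ≠ n⁻¹ • a := fun h => hninv (hfree n n⁻¹ hn (N.inv_mem hn) h)
    have hprim : MulAction.IsPreprimitive (fixingSubgroup G ({a} : Set X))
        (SubMulAction.ofFixingSubgroup G ({a} : Set X)) :=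
      h2.isPreprimitive_ofFixingSubgroup (by rw [Set.encard_singleton]; rfl)
    have key := Cfsg.Agent.Lib_helper4_FixBlock.trivial_of_block ({a} : Set X) hprim
      ({n • a, n⁻¹ • a} : Set X) ?_ ?_
    · rcases key with h | h
      · exact absurd (h (Set.mem_insert _ _) (Set.mem_insert_of_mem _ rfl)) hnn
      · have huniv : (Finset.univ : Finset X) = {a, n • a, n⁻¹ • a} := by
          ext x
          simp only [Finset.mem_univ, Finset.mem_insert, Finset.mem_singleton, true_iff]
          by_cases hx : x = a
          · left; exact hx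
          · right
            have := h x hx
            exact this
        rw [← Finset.card_univ, huniv]
        exact Finset.card_eq_three.mpr ⟨a, n • a, n⁻¹ • a, Ne.symm hna, Ne.symm hnia, hnn, rfl⟩
    · intro x hx
      rcases hx with rfl | rfl
      · exact hna
      · exact hnia
    · intro g hg x hx hgx z hz
      have hga : g • a = a := hg a rfl
      have hconj : ∀ k : G, g • (k • a) = (g * k * g⁻¹) • a := by
        intro k
        rw [mul_smul, mul_smul, inv_smul_eq_iff.mpr hga.symm]
      have hn' : g * n * g⁻¹ ∈ N := ‹N.Normal›.conj_mem n hn g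
      have hn'i : g * n⁻¹ * g⁻¹ ∈ N := ‹N.Normal›.conj_mem n⁻¹ (N.inv_mem hn) g
      have e : g * n⁻¹ * g⁻¹ = (g * n * g⁻¹)⁻¹ := by group
      have hcases : g * n * g⁻¹ = n ∨ g * n * g⁻¹ = n⁻¹ := by
        rcases hx with rfl | rfl
        · rw [hconj] at hgx
          rcases hgx with h1 | h1
          · left; exact hfree _ _ hn' hn h1
          · right; exact hfree _ _ hn' (N.inv_mem hn) h1
        · rw [hconj] at hgx
          rcases hgx with h1 | h1
          · right
            have h3 := hfree _ _ hn'i hn h1
            rw [e] at h3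
            exact inv_eq_iff_eq_inv.mp h3
          · left
            have h3 := hfree _ _ hn'i (N.inv_mem hn) h1
            rw [e] at h3
            exact inv_injective h3
      have hcases' : g * n⁻¹ * g⁻¹ = n⁻¹ ∨ g * n⁻¹ * g⁻¹ = n := by
        rcases hcases with h1 | h1
        · left; rw [e, h1]
        · right; rw [e, h1, inv_inv]
      rcases hz with rfl | rfl
      · rw [hconj]
        rcases hcases with h1 | h1
        · rw [h1]; exact Set.mem_insert _ _
        · rw [h1]; exact Set.mem_insert_of_mem _ rfl
      · rw [hconj]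
        rcases hcases' with h1 | h1
        · rw [h1]; exact Set.mem_insert_of_mem _ rfl
        · rw [h1]; exact Set.mem_insert _ _
  · right
    push Not at hex
    have hinv : ∀ n ∈ N, n⁻¹ = n := fun n hn => by
      have h1 := hex n hn
      rw [pow_two] at h1
      exact inv_eq_of_mul_eq_one_left h1
    refine ⟨⟨⟨fun x y => ?_⟩⟩, hex, ?_⟩
    · apply Subtype.ext
      show x.1 * y.1 = y.1 * x.1
      calc x.1 * y.1 = (x.1 * y.1)⁻¹ := (hinv _ (N.mul_mem x.2 y.2)).symm
        _ = y.1⁻¹ * x.1⁻¹ := mul_inv_rev _ _
        _ = y.1 * x.1 := by rw [hinv _ x.2, hinv _ y.2]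
    · have hP : IsPGroup 2 N := fun g => ⟨1, by
        rw [pow_one]
        apply Subtype.ext
        exact hex g.1 g.2⟩
      obtain ⟨m, hm⟩ := IsPGroup.iff_card.mp hP
      exact ⟨m, by rw [← hcard, hm]⟩

end Cfsg.Agent.S0695
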