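import Cfsg.Statements.S0696
import Mathlib
import Cfsg.Agent.Lib_helper4_FixBlock
import Cfsg.Agent.S0695

set_option autoImplicit false
open Cfsg

namespace Cfsg.Agent.S0696

/-- A triply primitive group of degree at least 3 having a regular normal subgroup has degree 3 or 4. -/
theorem result {G : Type*} [Group G] {X : Type*} [Fintype X] [MulAction G X] (hX : 3 ≤ Fintype.card X) (h3 : MulAction.IsMultiplyPreprimitive G X 3) (N : Subgroup G) [N.Normal] (htrans : MulAction.IsPretransitive N X) (hreg : ∀ x : X, MulAction.stabilizer N x = ⊥) : Fintype.card X = 3 ∨ Fintype.card X = 4 := by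
  classical
  have h2 : MulAction.IsMultiplyPreprimitive G X 2 :=
    MulAction.isMultiplyPreprimitive_of_le G X h3 (by norm_num) (by
      rw [ENat.card_eq_coe_fintype_card]
      exact_mod_cast hX)
  rcases Cfsg.Agent.S0695.result (by omega) h2 N htrans hreg with h | ⟨-, hsq, m, hm⟩
  · left; exact h
  right
  obtain ⟨a, b, c, hab, hac, hbc⟩ := Fintype.two_lt_card_iff.mp (by omega : 2 < Fintype.card X)
  have hfree : ∀ n m : G, n ∈ N → m ∈ N → n • a = m • a → n = m := by
    intro n m hn hm h
    have h1 : (⟨m⁻¹ * n, N.mul_mem (N.inv_mem hm) hn⟩ : N) ∈ MulAction.stabilizer N a := by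
      rw [MulAction.mem_stabilizer_iff]
      show (m⁻¹ * n) • a = a
      rw [mul_smul, h, inv_smul_smul]
    rw [hreg a, Subgroup.mem_bot] at h1
    have h2 : m⁻¹ * n = 1 := congrArg Subtype.val h1
    exact (inv_mul_eq_one.mp h2).symm
  obtain ⟨⟨n, hn⟩, hnb⟩ := MulAction.exists_smul_eq N a b
  obtain ⟨⟨k, hk⟩, hkc⟩ := MulAction.exists_smul_eq N a c
  have hnb' : n • a = b := hnb
  have hkc' : k • a = c := hkc
  have hn1 : n ≠ 1 := by rintro rfl; rw [one_smul] at hnb'; exact hab hnb'
  have hk1 : k ≠ 1 := by rintro rfl; rw [one_smul] at hkc'; exact hac hkc'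
  have hkn : k ≠ n := by rintro rfl; exact hbc (hnb'.symm.trans hkc')
  have hnn : n * n = 1 := by rw [← pow_two]; exact hsq n hn
  have hnk : n * k ∈ N := N.mul_mem hn hk
  have hprim : MulAction.IsPreprimitive (fixingSubgroup G ({a, n • a} : Set X))
      (SubMulAction.ofFixingSubgroup G ({a, n • a} : Set X)) :=
    h3.isPreprimitive_ofFixingSubgroup (by
      rw [Set.encard_pair (by rw [hnb']; exact hab)]; rfl)
  have key := Cfsg.Agent.Lib_helper4_FixBlock.trivial_of_block ({a, n • a} : Set X) hprim
    ({k • a, (n * k) • a} : Set X) ?_ ?_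
  · rcases key with h | h
    · have h4 := hfree _ _ hk hnk (h (Set.mem_insert _ _) (Set.mem_insert_of_mem _ rfl))
      exact absurd (mul_eq_right.mp h4.symm) hn1
    · have huniv : (Finset.univ : Finset X) ⊆ {a, n • a, k • a, (n * k) • a} := by
        intro x _
        simp only [Finset.mem_insert, Finset.mem_singleton]
        by_cases hx : x ∈ ({a, n • a} : Set X)
        · rcases hx with hx | hx
          · left; exact hx
          · right; left; exact hx
        · rcases h x hx with hx' | hx'
          · right; right; left; exact hx'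
          · right; right; right; exact hx'
      have hle : Fintype.card X ≤ 4 := by
        rw [← Finset.card_univ]
        exact (Finset.card_le_card huniv).trans Finset.card_le_four
      rcases m with _ | _ | _ | m
      · omega
      · omega
      · exact hm
      · have h5 : 2 ^ (m + 1 + 1 + 1) = 8 * 2 ^ m := by ring
        have h6 : 1 ≤ 2 ^ m := Nat.one_le_two_pow
        omega
  · intro x hx
    rcases hx with rfl | rfl
    · intro h
      rcases h with h | h
      · exact hk1 (hfree k 1 hk N.one_mem (by rw [h, one_smul]))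
      · exact hkn (hfree k n hk hn h)
    · intro h
      rcases h with h | h
      · have h4 := hfree (n * k) 1 hnk N.one_mem (by rw [h, one_smul])
        apply hkn
        calc k = n * (n * k) := by rw [← mul_assoc, hnn, one_mul]
          _ = n := by rw [h4, mul_one]
      · have h4 := hfree (n * k) n hnk hn h
        exact hk1 (mul_eq_left.mp h4)
  · intro g hg x hx hgx z hz
    have hga : g • a = a := hg a (Set.mem_insert _ _)
    have hgn : g • (n • a) = n • a := hg _ (Set.mem_insert_of_mem _ rfl)
    have hconj : ∀ j : G, g • (j • a) = (g * j * g⁻¹) • a := by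
      intro j
      rw [mul_smul, mul_smul, inv_smul_eq_iff.mpr hga.symm]
    have hn' : g * n * g⁻¹ = n := by
      rw [hconj] at hgn
      exact hfree _ _ (‹N.Normal›.conj_mem n hn g) hn hgn
    have hk' : g * k * g⁻¹ ∈ N := ‹N.Normal›.conj_mem k hk g
    have e : g * (n * k) * g⁻¹ = n * (g * k * g⁻¹) := by
      calc g * (n * k) * g⁻¹ = (g * n * g⁻¹) * (g * k * g⁻¹) := by group
        _ = n * (g * k * g⁻¹) := by rw [hn']
    have hcases : g * k * g⁻¹ = k ∨ g * k * g⁻¹ = n * k := by
      rcases hx with rfl | rfl
      · rw [hconj] at hgx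
        rcases hgx with h1 | h1
        · left; exact hfree _ _ hk' hk h1
        · right; exact hfree _ _ hk' hnk h1
      · rw [hconj, e] at hgx
        rcases hgx with h1 | h1
        · right
          have h4 := hfree _ _ (N.mul_mem hn hk') hk h1
          calc g * k * g⁻¹ = n * (n * (g * k * g⁻¹)) := by rw [← mul_assoc, hnn, one_mul]
            _ = n * k := by rw [h4]
        · left
          have h4 := hfree _ _ (N.mul_mem hn hk') hnk h1
          exact mul_left_cancel h4
    rcases hz with rfl | rfl
    · rw [hconj]
      rcases hcases with h1 | h1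
      · rw [h1]; exact Set.mem_insert _ _
      · rw [h1]; exact Set.mem_insert_of_mem _ rfl
    · rw [hconj, e]
      rcases hcases with h1 | h1
      · rw [h1]; exact Set.mem_insert_of_mem _ rfl
      · rw [h1, ← mul_assoc, hnn, one_mul]; exact Set.mem_insert _ _

end Cfsg.Agent.S0696
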