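import Cfsg.Statements.S0697
import Mathlib
import Cfsg.Agent.S0680
import Cfsg.Agent.S0696

set_option autoImplicit false
open Cfsg

namespace Cfsg.Agent.S0697

universe u v

/-- In a primitive action, a normal subgroup acting non-trivially is transitive. -/
theorem normal_trans {G : Type*} {X : Type*} [Group G] [MulAction G X]
    [MulAction.IsPreprimitive G X] (H : Subgroup G) [H.Normal]
    (h : ∃ g ∈ H, ∃ b : X, g • b ≠ b) : MulAction.IsPretransitive H X := by
  apply MulAction.IsQuasiPreprimitive.isPretransitive_of_normal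
  obtain ⟨g, hg, b, hb⟩ := h
  intro huniv
  have : b ∈ MulAction.fixedPoints H X := by rw [huniv]; trivial
  exact hb (this ⟨g, hg⟩)

theorem faithful_ofStabilizer {G : Type*} {X : Type*} [Group G] [MulAction G X]
    [FaithfulSMul G X] (a : X) :
    FaithfulSMul (MulAction.stabilizer G a) (SubMulAction.ofStabilizer G a) := by
  refine ⟨fun {g₁ g₂} h => ?_⟩
  apply Subtype.ext
  apply FaithfulSMul.eq_of_smul_eq_smul (α := X)
  intro x
  by_cases hx : x = a
  · rw [hx]
    exact (g₁.2 : (g₁ : G) • a = a).trans (g₂.2 : (g₂ : G) • a = a).symm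
  · have := h ⟨x, hx⟩
    exact congrArg Subtype.val this

theorem lift_trans {G : Type*} {X : Type*} [Group G] [MulAction G X] (H : Subgroup G) (a : X)
    (k : ℕ) [MulAction.IsPretransitive H X]
    (h : MulAction.IsMultiplyPretransitive (H.subgroupOf (MulAction.stabilizer G a))
      (SubMulAction.ofStabilizer G a) k) :
    MulAction.IsMultiplyPretransitive H X (k + 1) := by
  rw [SubMulAction.ofStabilizer.isMultiplyPretransitive (a := a)]
  let φ : (H.subgroupOf (MulAction.stabilizer G a)) → MulAction.stabilizer H a :=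
    fun g => ⟨⟨g.1.1, g.2⟩, g.1.2⟩
  let f : SubMulAction.ofStabilizer G a →ₑ[φ] SubMulAction.ofStabilizer H a :=
    { toFun := fun x => ⟨x.1, x.2⟩
      map_smul' := fun g x => rfl }
  have hφ : Function.Surjective φ := fun g => ⟨⟨⟨g.1.1, g.2⟩, g.1.2⟩, rfl⟩
  have hf : Function.Bijective f :=
    ⟨fun x y hxy => Subtype.ext (congrArg Subtype.val hxy), fun y => ⟨⟨y.1, y.2⟩, rfl⟩⟩
  exact (MulAction.IsPretransitive.of_embedding_congr hφ hf).1 h

theorem induces_all {G : Type*} {X : Type*} [Group G] [MulAction G X]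
    [MulAction.IsPretransitive G X] (a : X)
    (h : ∀ σ : Equiv.Perm (SubMulAction.ofStabilizer G a),
      ∃ g : MulAction.stabilizer G a, ∀ x, g • x = σ x) :
    ∀ σ : Equiv.Perm X, ∃ g : G, ∀ x, g • x = σ x := by
  intro σ
  obtain ⟨g₀, hg₀⟩ := MulAction.exists_smul_eq G a (σ a)
  have hτ : ∀ x : X, g₀⁻¹ • σ x ∈ SubMulAction.ofStabilizer G a ↔
      x ∈ SubMulAction.ofStabilizer G a := by
    intro x
    rw [SubMulAction.mem_ofStabilizer_iff, SubMulAction.mem_ofStabilizer_iff, not_iff_not,
      inv_smul_eq_iff, hg₀]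
    exact σ.injective.eq_iff
  let τ : Equiv.Perm X := (MulAction.toPerm g₀)⁻¹ * σ
  have hτx : ∀ x, τ x = g₀⁻¹ • σ x := fun x => rfl
  let τ' : Equiv.Perm (SubMulAction.ofStabilizer G a) := τ.subtypePerm hτ
  obtain ⟨g', hg'⟩ := h τ'
  refine ⟨g₀ * g'.1, fun x => ?_⟩
  by_cases hx : x = a
  · subst hx
    rw [mul_smul, (g'.2 : (g' : G) • x = x), hg₀]
  · have h1 := congrArg Subtype.val (hg' ⟨x, hx⟩)
    have h2 : (g' : G) • x = g₀⁻¹ • σ x := h1
    rw [mul_smul, h2, smul_inv_smul]

theorem induces_all_of_trans {G : Type*} {X : Type*} [Group G] [MulAction G X] [Finite X]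
    (m : ℕ) (hm : Nat.card X - 1 ≤ m) (hm' : m ≤ Nat.card X)
    (h : MulAction.IsMultiplyPretransitive G X m) :
    ∀ σ : Equiv.Perm X, ∃ g : G, ∀ x, g • x = σ x := by
  have h1 : MulAction.IsMultiplyPretransitive G X (Nat.card X - 1) :=
    MulAction.isMultiplyPretransitive_of_le hm hm'
  let φ : G → (MulAction.toPermHom G X).range := fun g => ⟨MulAction.toPermHom G X g, g, rfl⟩
  let f : X →ₑ[φ] X := { toFun := id, map_smul' := fun g x => rfl }
  have hφ : Function.Surjective φ := by
    rintro ⟨_, g, rfl⟩; exact ⟨g, rfl⟩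
  have hf : Function.Bijective f := Function.bijective_id
  have h2 : MulAction.IsMultiplyPretransitive (MulAction.toPermHom G X).range X (Nat.card X - 1) :=
    (MulAction.IsPretransitive.of_embedding_congr hφ hf).1 h1
  have h3 := Equiv.Perm.eq_top_of_isMultiplyPretransitive h2
  intro σ
  have : σ ∈ (MulAction.toPermHom G X).range := by rw [h3]; trivial
  obtain ⟨g, hg⟩ := this
  exact ⟨g, fun x => by rw [← hg]; rfl⟩

theorem exists_regular_normal {G : Type u} {X : Type v} [Group G] [MulAction G X] [Fintype X]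
    [DecidableEq X] [FaithfulSMul G X] (H : Subgroup G) [hHn : H.Normal]
    (h2 : MulAction.IsMultiplyPretransitive H X 2)
    (hsharp : ∀ h ∈ H, ∀ c d : X, c ≠ d → h • c = c → h • d = d → h = 1)
    (hX : 2 ≤ Fintype.card X) :
    ∃ N : Subgroup G, N.Normal ∧ MulAction.IsPretransitive N X ∧
      ∀ x : X, MulAction.stabilizer N x = ⊥ := by
  set Ht : Subgroup (Equiv.Perm X) := H.map (MulAction.toPermHom G X) with hHt
  let φ : H → Ht := fun h => ⟨MulAction.toPermHom G X h.1, h.1, h.2, rfl⟩
  let f : X →ₑ[φ] X := { toFun := id, map_smul' := fun g x => rfl }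
  have hφ : Function.Surjective φ := by
    rintro ⟨_, g, hg, rfl⟩; exact ⟨⟨g, hg⟩, rfl⟩
  have hf : Function.Bijective f := Function.bijective_id
  haveI h2' : MulAction.IsMultiplyPretransitive Ht X 2 :=
    (MulAction.IsPretransitive.of_embedding_congr hφ hf).1 h2
  have hinj : ∀ g : G, MulAction.toPermHom G X g = 1 → g = 1 := by
    intro g hg
    apply FaithfulSMul.eq_of_smul_eq_smul (α := X)
    intro x
    rw [one_smul]
    exact Equiv.congr_fun hg x
  have hsharp' : ∀ x : Fin 2 ↪ X, MulAction.stabilizer Ht x = ⊥ := by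
    intro x
    rw [eq_bot_iff]
    rintro ⟨_, g, hg, rfl⟩ hst
    rw [Subgroup.mem_bot]
    apply Subtype.ext
    have h0 := congrArg (fun e : Fin 2 ↪ X => e 0) hst
    have h1 := congrArg (fun e : Fin 2 ↪ X => e 1) hst
    have hg1 : g = 1 := hsharp g hg (x 0) (x 1)
      (by intro e; exact absurd (x.injective e) (by decide)) h0 h1
    subst hg1
    exact map_one (MulAction.toPermHom G X)
  obtain ⟨p, j, hp, hj, hcard, hP⟩ := Cfsg.Agent.S0680.result Ht hsharp' hX
  haveI := Fact.mk hp
  let P : Sylow p Ht := default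
  obtain ⟨-, -, -, hPt, -, hPc⟩ := hP ⟨hp⟩ P
  have key : ∀ g (hg : g ∈ H), (φ ⟨g, hg⟩ ∈ (P : Subgroup Ht)) ↔ (g = 1 ∨ ∀ x : X, g • x ≠ x) := by
    intro g hg
    rw [hPc]
    constructor
    · rintro (h | h)
      · left; exact hinj g (congrArg Subtype.val h)
      · right; exact h
    · rintro (h | h)
      · left
        subst h
        apply Subtype.ext
        exact map_one (MulAction.toPermHom G X)
      · right; exact h
  let N : Subgroup G :=
    { carrier := {g | g ∈ H ∧ (g = 1 ∨ ∀ x : X, g • x ≠ x)}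
      one_mem' := ⟨H.one_mem, Or.inl rfl⟩
      mul_mem' := by
        rintro g₁ g₂ ⟨h₁, c₁⟩ ⟨h₂, c₂⟩
        refine ⟨H.mul_mem h₁ h₂, ?_⟩
        rw [← key _ (H.mul_mem h₁ h₂)]
        have e : φ ⟨g₁ * g₂, H.mul_mem h₁ h₂⟩ = φ ⟨g₁, h₁⟩ * φ ⟨g₂, h₂⟩ := by
          apply Subtype.ext
          exact map_mul (MulAction.toPermHom G X) g₁ g₂
        rw [e]
        exact (P : Subgroup Ht).mul_mem ((key _ h₁).2 c₁) ((key _ h₂).2 c₂)
      inv_mem' := by
        rintro g ⟨h, c⟩
        refine ⟨H.inv_mem h, ?_⟩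
        rcases c with c | c
        · left; rw [c, inv_one]
        · right; intro x hx; exact c x (inv_smul_eq_iff.1 hx).symm }
  refine ⟨N, ⟨?_⟩, ⟨?_⟩, ?_⟩
  · rintro n ⟨hn, c⟩ g
    refine ⟨hHn.conj_mem n hn g, ?_⟩
    rcases c with c | c
    · left; rw [c]; group
    · right
      intro x hx
      apply c (g⁻¹ • x)
      rw [mul_smul, mul_smul] at hx
      exact smul_left_cancel g (by rw [hx, smul_inv_smul])
  · intro x y
    obtain ⟨⟨⟨σ, g, hg, rfl⟩, hpP⟩, hxy⟩ := MulAction.exists_smul_eq (P : Subgroup Ht) x y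
    exact ⟨⟨g, hg, (key g hg).1 hpP⟩, hxy⟩
  · intro x
    rw [eq_bot_iff]
    rintro ⟨n, hn, c⟩ hst
    rw [Subgroup.mem_bot]
    apply Subtype.ext
    rcases c with c | c
    · exact c
    · exact absurd hst (c x)

theorem claim (k : ℕ) (hk : 1 ≤ k) : ∀ {G : Type u} {X : Type v} [Group G] [MulAction G X]
    [Finite X] [FaithfulSMul G X], k ≤ Nat.card X → MulAction.IsMultiplyPreprimitive G X k →
    ¬ (∀ σ : Equiv.Perm X, ∃ g : G, ∀ x, g • x = σ x) →
    ∀ (H : Subgroup G) [H.Normal], (∃ h ∈ H, ∃ a b : X, h • a = a ∧ h • b ≠ b) →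
    MulAction.IsMultiplyPretransitive H X k := by
  induction k, hk using Nat.le_induction with
  | base =>
    intro G X _ _ _ _ hcard hG hnS H _ hnr
    haveI : MulAction.IsPreprimitive G X := (MulAction.is_one_preprimitive_iff G X).1 hG
    obtain ⟨h, hh, a, b, ha, hb⟩ := hnr
    haveI := normal_trans H ⟨h, hh, b, hb⟩
    exact MulAction.is_one_pretransitive_iff.2 inferInstance
  | succ k hk ih =>
    intro G X _ _ _ _ hcard hG hnS H _ hnr
    classical
    obtain ⟨h₀, hh₀, a, b, ha, hb⟩ := hnr
    have hG1 : MulAction.IsMultiplyPreprimitive G X 1 :=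
      MulAction.isMultiplyPreprimitive_of_le G X hG (by omega)
        (by rw [ENat.card_eq_coe_natCard]; exact_mod_cast hcard)
    haveI : MulAction.IsPreprimitive G X := (MulAction.is_one_preprimitive_iff G X).1 hG1
    haveI hHt : MulAction.IsPretransitive H X := normal_trans H ⟨h₀, hh₀, b, hb⟩
    haveI := hG
    have hG' : MulAction.IsMultiplyPreprimitive (MulAction.stabilizer G a)
        (SubMulAction.ofStabilizer G a) k :=
      MulAction.isMultiplyPreprimitive_ofStabilizer G X
    haveI := faithful_ofStabilizer (G := G) a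
    have hcard' : k ≤ Nat.card (SubMulAction.ofStabilizer G a) := by
      have := SubMulAction.nat_card_ofStabilizer_add_one_eq (G := G) a
      omega
    have hba : b ≠ a := fun h => hb (h ▸ ha)
    have hG'1 : MulAction.IsMultiplyPreprimitive (MulAction.stabilizer G a)
        (SubMulAction.ofStabilizer G a) 1 :=
      MulAction.isMultiplyPreprimitive_of_le _ _ hG' hk
        (by rw [ENat.card_eq_coe_natCard]; exact_mod_cast hcard')
    haveI : MulAction.IsPreprimitive (MulAction.stabilizer G a) (SubMulAction.ofStabilizer G a) :=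
      (MulAction.is_one_preprimitive_iff _ _).1 hG'1
    have hH't : MulAction.IsPretransitive (H.subgroupOf (MulAction.stabilizer G a))
        (SubMulAction.ofStabilizer G a) :=
      normal_trans (H.subgroupOf (MulAction.stabilizer G a))
        ⟨⟨h₀, ha⟩, hh₀, ⟨b, hba⟩, fun h => hb (congrArg Subtype.val h)⟩
    by_cases hB : ∃ h' ∈ H.subgroupOf (MulAction.stabilizer G a),
        ∃ c d : SubMulAction.ofStabilizer G a, h' • c = c ∧ h' • d ≠ d
    · have hnS' : ¬ (∀ σ : Equiv.Perm (SubMulAction.ofStabilizer G a),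
          ∃ g : MulAction.stabilizer G a, ∀ x, g • x = σ x) := fun h => hnS (induces_all a h)
      have := ih hcard' hG' hnS' (H.subgroupOf (MulAction.stabilizer G a)) hB
      exact lift_trans H a k this
    · push Not at hB
      have h2 : MulAction.IsMultiplyPretransitive H X 2 :=
        lift_trans H a 1 (MulAction.is_one_pretransitive_iff.2 hH't)
      rcases Nat.eq_or_lt_of_le hk with hk1 | hk2
      · rw [← hk1]
        exact h2
      · exfalso
        have hsharp : ∀ h ∈ H, ∀ c d : X, c ≠ d → h • c = c → h • d = d → h = 1 := by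
          intro h hh c d hcd hc hd
          obtain ⟨⟨h₁, hh₁⟩, hh₁c⟩ := MulAction.exists_smul_eq H c a
          have hh₁c' : h₁ • c = a := hh₁c
          have ht : h₁ * h * h₁⁻¹ ∈ H := H.mul_mem (H.mul_mem hh₁ hh) (H.inv_mem hh₁)
          have hta : (h₁ * h * h₁⁻¹) • a = a := by
            rw [mul_smul, mul_smul, ← hh₁c', inv_smul_smul, hc]
          have hd' : h₁ • d ≠ a := by
            rw [← hh₁c']; intro e; exact hcd (smul_left_cancel _ e).symm
          have htd : (h₁ * h * h₁⁻¹) • (h₁ • d) = h₁ • d := by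
            rw [mul_smul, mul_smul, inv_smul_smul, hd]
          have ht1 : h₁ * h * h₁⁻¹ = 1 := by
            apply FaithfulSMul.eq_of_smul_eq_smul (α := X)
            intro x
            rw [one_smul]
            by_cases hx : x = a
            · rw [hx, hta]
            · have := hB ⟨_, hta⟩ ht ⟨h₁ • d, hd'⟩ ⟨x, hx⟩ (Subtype.ext htd)
              exact congrArg Subtype.val this
          have : h = h₁⁻¹ * (h₁ * h * h₁⁻¹) * h₁ := by group
          rw [this, ht1]; group
        haveI : Fintype X := Fintype.ofFinite X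
        have hX2 : 2 ≤ Fintype.card X := by rw [← Nat.card_eq_fintype_card]; omega
        obtain ⟨N, hNn, hNt, hNr⟩ := exists_regular_normal H h2 hsharp hX2
        have h3 : MulAction.IsMultiplyPreprimitive G X 3 :=
          MulAction.isMultiplyPreprimitive_of_le G X hG (by omega)
            (by rw [ENat.card_eq_coe_natCard]; exact_mod_cast hcard)
        have hX3 : 3 ≤ Fintype.card X := by rw [← Nat.card_eq_fintype_card]; omega
        have h34 := Cfsg.Agent.S0696.result hX3 h3 N hNt hNr
        apply hnS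
        apply induces_all_of_trans (k + 1) ?_ hcard hG.isMultiplyPretransitive
        rw [Nat.card_eq_fintype_card]; omega


/-- In a `k`-primitive permutation group which is not the whole symmetric group, a non-trivial non-regular normal subgroup is `k`-transitive. -/
theorem result {α : Type*} [Fintype α] [DecidableEq α] (G : Subgroup (Equiv.Perm α)) {k : ℕ} (hk : 1 ≤ k) (hkn : k ≤ Fintype.card α) (hG : MulAction.IsMultiplyPreprimitive G α k) (htop : G ≠ ⊤) (H : Subgroup G) [H.Normal] (hH : H ≠ ⊥) (hnr : ∃ a : α, MulAction.stabilizer H a ≠ ⊥) : MulAction.IsMultiplyPretransitive H α k := by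
  classical
  refine claim k hk (G := G) (X := α) (by rw [Nat.card_eq_fintype_card]; exact hkn) hG ?_ H ?_
  · intro hall
    apply htop
    rw [eq_top_iff]
    intro σ _
    obtain ⟨g, hg⟩ := hall σ
    have : (g : Equiv.Perm α) = σ := Equiv.ext hg
    rw [← this]; exact g.2
  · obtain ⟨a, ha⟩ := hnr
    obtain ⟨⟨h, hh⟩, hh1⟩ := (Subgroup.ne_bot_iff_exists_ne_one).1 ha
    have h1 : (h : G) ≠ 1 := fun e => hh1 (Subtype.ext (Subtype.ext e))
    have h2 : ((h : G) : Equiv.Perm α) ≠ 1 := fun e => h1 (Subtype.ext e)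
    obtain ⟨b, hb⟩ : ∃ b, ((h : G) : Equiv.Perm α) b ≠ b := by
      by_contra hcon
      push Not at hcon
      exact h2 (Equiv.ext hcon)
    exact ⟨h.1, h.2, a, b, hh, hb⟩

end Cfsg.Agent.S0697
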