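import Cfsg.Statements.S0698
import Mathlib
import Cfsg.Agent.S0697
import Cfsg.Agent.S0695

set_option autoImplicit false
open Cfsg

namespace Cfsg.Agent.S0698

universe u v

open Cfsg.Agent.S0697 in
theorem claim2 (k : ℕ) (hk : 2 ≤ k) : ∀ {G : Type u} {X : Type v} [Group G] [MulAction G X]
    [Finite X] [FaithfulSMul G X], k < Nat.card X → MulAction.IsMultiplyPretransitive G X k →
    ∀ (N : Subgroup G) [N.Normal], N ≠ ⊥ →
    MulAction.IsMultiplyPretransitive N X (k - 1) ∨
      (k = 3 ∧ IsMulCommutative N ∧ ∀ n ∈ N, n ^ 2 = 1) := by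
  induction k, hk using Nat.le_induction with
  | base =>
    intro G X _ _ _ _ hcard hG N _ hN
    left
    haveI : MulAction.IsPreprimitive G X := MulAction.isPreprimitive_of_is_two_pretransitive hG
    obtain ⟨⟨n₀, hn₀⟩, hn₀1⟩ := (Subgroup.ne_bot_iff_exists_ne_one).1 hN
    have hn₀1' : n₀ ≠ 1 := fun e => hn₀1 (Subtype.ext e)
    obtain ⟨b₀, hb₀⟩ : ∃ b : X, n₀ • b ≠ b := by
      by_contra hcon
      push Not at hcon
      exact hn₀1' (FaithfulSMul.eq_of_smul_eq_smul (α := X) (fun x => by rw [hcon x, one_smul]))
    haveI := normal_trans N ⟨n₀, hn₀, b₀, hb₀⟩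
    exact MulAction.is_one_pretransitive_iff.2 inferInstance
  | succ k hk ih =>
    intro G X _ _ _ _ hcard hG N _ hN
    classical
    obtain ⟨⟨n₀, hn₀⟩, hn₀1⟩ := (Subgroup.ne_bot_iff_exists_ne_one).1 hN
    have hn₀1' : n₀ ≠ 1 := fun e => hn₀1 (Subtype.ext e)
    obtain ⟨b₀, hb₀⟩ : ∃ b : X, n₀ • b ≠ b := by
      by_contra hcon
      push Not at hcon
      exact hn₀1' (FaithfulSMul.eq_of_smul_eq_smul (α := X) (fun x => by rw [hcon x, one_smul]))
    haveI := hG
    have hG2 : MulAction.IsMultiplyPretransitive G X 2 :=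
      MulAction.isMultiplyPretransitive_of_le (n := k + 1) (by omega) (by omega)
    haveI : MulAction.IsPreprimitive G X := MulAction.isPreprimitive_of_is_two_pretransitive hG2
    haveI hNt : MulAction.IsPretransitive N X := normal_trans N ⟨n₀, hn₀, b₀, hb₀⟩
    obtain ⟨a⟩ : Nonempty X := ⟨b₀⟩
    have hG' : MulAction.IsMultiplyPretransitive (MulAction.stabilizer G a)
        (SubMulAction.ofStabilizer G a) k :=
      SubMulAction.ofStabilizer.isMultiplyPretransitive.1 hG
    haveI := faithful_ofStabilizer (G := G) a
    have hcard' : k < Nat.card (SubMulAction.ofStabilizer G a) := by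
      have := SubMulAction.nat_card_ofStabilizer_add_one_eq (G := G) a
      omega
    haveI : Fintype X := Fintype.ofFinite X
    have hXc : Fintype.card X = Nat.card X := (Nat.card_eq_fintype_card).symm
    have hENat : ((k + 1 : ℕ) : ENat) ≤ ENat.card X := by
      rw [ENat.card_eq_coe_natCard]; exact_mod_cast hcard.le
    have hGprim : MulAction.IsMultiplyPreprimitive G X k :=
      MulAction.isMultiplyPreprimitive_of_isMultiplyPretransitive_succ G X hENat
    have hcontra : 3 ≤ k → ∀ (P : Subgroup G) [P.Normal], MulAction.IsPretransitive P X →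
        (∀ x : X, MulAction.stabilizer P x = ⊥) → False := by
      intro hk3 P _ hPt hPr
      have h3 : MulAction.IsMultiplyPreprimitive G X 3 :=
        MulAction.isMultiplyPreprimitive_of_le G X hGprim hk3
          (by rw [ENat.card_eq_coe_natCard]; exact_mod_cast (by omega : k ≤ Nat.card X))
      have := Cfsg.Agent.S0696.result (by omega) h3 P hPt hPr
      omega
    by_cases hN' : N.subgroupOf (MulAction.stabilizer G a) = ⊥
    · have hreg : ∀ x : X, MulAction.stabilizer N x = ⊥ := by
        intro x
        rw [eq_bot_iff]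
        rintro ⟨n, hn⟩ hst
        rw [Subgroup.mem_bot]
        apply Subtype.ext
        change n = 1
        obtain ⟨⟨n₁, hn₁⟩, hn₁x⟩ := MulAction.exists_smul_eq N x a
        have hn₁x' : n₁ • x = a := hn₁x
        have hst' : n • x = x := hst
        have hta : (n₁ * n * n₁⁻¹) • a = a := by
          rw [mul_smul, mul_smul, ← hn₁x', inv_smul_smul, hst']
        have hmem : (⟨n₁ * n * n₁⁻¹, hta⟩ : MulAction.stabilizer G a) ∈
            N.subgroupOf (MulAction.stabilizer G a) :=
          N.mul_mem (N.mul_mem hn₁ hn) (N.inv_mem hn₁)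
        rw [hN', Subgroup.mem_bot] at hmem
        have h1 : n₁ * n * n₁⁻¹ = 1 := congrArg Subtype.val hmem
        have : n = n₁⁻¹ * (n₁ * n * n₁⁻¹) * n₁ := by group
        rw [this, h1]; group
      rcases Nat.eq_or_lt_of_le hk with hk2 | hk3
      · right
        have h2p : MulAction.IsMultiplyPreprimitive G X 2 := by rw [hk2]; exact hGprim
        rcases Cfsg.Agent.S0695.result (by omega) h2p N hNt hreg with h | ⟨hc, hsq, -⟩
        · omega
        · exact ⟨by omega, hc, hsq⟩
      · exact (hcontra hk3 N hNt hreg).elim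
    · rcases ih hcard' hG' (N.subgroupOf (MulAction.stabilizer G a)) hN' with h | ⟨hk3, hc, hsq⟩
      · left
        have := lift_trans N a (k - 1) h
        have e : k - 1 + 1 = k + 1 - 1 := by omega
        rw [← e]; exact this
      · exfalso
        have hG'2 : MulAction.IsMultiplyPretransitive (MulAction.stabilizer G a)
            (SubMulAction.ofStabilizer G a) 2 :=
          MulAction.isMultiplyPretransitive_of_le (n := k) (by omega) (by omega)
        haveI : MulAction.IsPreprimitive (MulAction.stabilizer G a)
            (SubMulAction.ofStabilizer G a) :=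
          MulAction.isPreprimitive_of_is_two_pretransitive hG'2
        obtain ⟨⟨m₀, hm₀⟩, hm₀1⟩ := (Subgroup.ne_bot_iff_exists_ne_one).1 hN'
        have hm₀1' : m₀ ≠ 1 := fun e => hm₀1 (Subtype.ext e)
        obtain ⟨c₀, hc₀⟩ : ∃ c : SubMulAction.ofStabilizer G a, m₀ • c ≠ c := by
          by_contra hcon
          push Not at hcon
          exact hm₀1' (FaithfulSMul.eq_of_smul_eq_smul (α := SubMulAction.ofStabilizer G a)
            (fun x => by rw [hcon x, one_smul]))
        have hN't : MulAction.IsPretransitive (N.subgroupOf (MulAction.stabilizer G a))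
            (SubMulAction.ofStabilizer G a) :=
          normal_trans (N.subgroupOf (MulAction.stabilizer G a)) ⟨m₀, hm₀, c₀, hc₀⟩
        have hB : ∀ h' ∈ N.subgroupOf (MulAction.stabilizer G a),
            ∀ c d : SubMulAction.ofStabilizer G a, h' • c = c → h' • d = d := by
          intro h' hh' c d hcfix
          obtain ⟨⟨m, hm⟩, hmc⟩ := MulAction.exists_smul_eq
            (N.subgroupOf (MulAction.stabilizer G a)) c d
          have hmc' : m • c = d := hmc
          have hcomm : h' * m = m * h' := by
            have := hc.is_comm.comm (⟨h', hh'⟩ : N.subgroupOf (MulAction.stabilizer G a)) ⟨m, hm⟩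
            exact congrArg Subtype.val this
          rw [← hmc', ← mul_smul, hcomm, mul_smul, hcfix]
        have h2 : MulAction.IsMultiplyPretransitive N X 2 :=
          lift_trans N a 1 (MulAction.is_one_pretransitive_iff.2 hN't)
        have hsharp : ∀ h ∈ N, ∀ c d : X, c ≠ d → h • c = c → h • d = d → h = 1 := by
          intro h hh c d hcd hc hd
          obtain ⟨⟨h₁, hh₁⟩, hh₁c⟩ := MulAction.exists_smul_eq N c a
          have hh₁c' : h₁ • c = a := hh₁c
          have ht : h₁ * h * h₁⁻¹ ∈ N := N.mul_mem (N.mul_mem hh₁ hh) (N.inv_mem hh₁)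
          have hta : (h₁ * h * h₁⁻¹) • a = a := by
            rw [mul_smul, mul_smul, ← hh₁c', inv_smul_smul, hc]
          have hd' : h₁ • d ≠ a := by
            rw [← hh₁c']; intro e; exact hcd (smul_left_cancel _ e).symm
          have htd : (h₁ * h * h₁⁻¹) • (h₁ • d) = h₁ • d := by
            rw [mul_smul, mul_smul, inv_smul_smul, hd]
          have ht1 : h₁ * h * h₁⁻¹ = 1 := by
            apply FaithfulSMul.eq_of_smul_eq_smul (α := X)
            intro x
            rw [one_smul]
            by_cases hx : x = a
            · rw [hx, hta]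
            · have := hB ⟨_, hta⟩ ht ⟨h₁ • d, hd'⟩ ⟨x, hx⟩ (Subtype.ext htd)
              exact congrArg Subtype.val this
          have : h = h₁⁻¹ * (h₁ * h * h₁⁻¹) * h₁ := by group
          rw [this, ht1]; group
        have hX2 : 2 ≤ Fintype.card X := by omega
        obtain ⟨P, hPn, hPt, hPr⟩ := exists_regular_normal N h2 hsharp hX2
        haveI := hPn
        exact hcontra (by omega) P hPt hPr


/-- Jordan's Theorem on normal subgroups of multiply transitive groups: if `G` is `k`-transitive (`k > 1`) of degree greater than `k`, a non-trivial normal subgroup is `(k-1)`-transitive, except possibly for `k = 3` when it may be an elementary abelian 2-group. -/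
theorem result {α : Type*} [Fintype α] [DecidableEq α] (G : Subgroup (Equiv.Perm α)) {k : ℕ} (hk : 1 < k) (hdeg : k < Fintype.card α) (hG : MulAction.IsMultiplyPretransitive G α k) (N : Subgroup G) [N.Normal] (hN : N ≠ ⊥) : MulAction.IsMultiplyPretransitive N α (k - 1) ∨ (k = 3 ∧ IsMulCommutative N ∧ ∀ n ∈ N, n ^ 2 = 1) := by
  classical
  exact claim2 k hk (G := G) (X := α) (by rw [Nat.card_eq_fintype_card]; exact hdeg) hG N hN

end Cfsg.Agent.S0698
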