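import Cfsg.Statements.S0701
import Mathlib

set_option autoImplicit false
open Cfsg

namespace Cfsg.Agent.S0701

lemma exists_map {α : Type*} (G : Subgroup (Equiv.Perm α)) [MulAction.IsPretransitive G α]
    (hreg : ∀ a : α, MulAction.stabilizer G a = ⊥) (a b : α) :
    ∃ f : α → α, ∀ g : G, f (g • a) = g • b := by
  classical
  have key : ∀ x, ∃ g : G, g • a = x := fun x => MulAction.exists_smul_eq G a x
  choose γ hγ using key
  refine ⟨fun x => γ x • b, fun g => ?_⟩
  have h1 := hγ (g • a)
  have h2 : (γ (g • a))⁻¹ * g ∈ MulAction.stabilizer G a := by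
    rw [MulAction.mem_stabilizer_iff, mul_smul]
    exact inv_smul_eq_iff.mpr h1.symm
  rw [hreg a, Subgroup.mem_bot, inv_mul_eq_one] at h2
  show γ (g • a) • b = g • b
  rw [h2]

/-- The centraliser in the full symmetric group of a transitive permutation group `G` is semiregular, and it is transitive if and only if `G` is regular. -/
theorem result {α : Type*} (G : Subgroup (Equiv.Perm α)) [MulAction.IsPretransitive G α] : (∀ c ∈ Subgroup.centralizer (G : Set (Equiv.Perm α)), ∀ a : α, c a = a → c = 1) ∧ (MulAction.IsPretransitive (Subgroup.centralizer (G : Set (Equiv.Perm α))) α ↔ ∀ a : α, MulAction.stabilizer G a = ⊥) := by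
  constructor
  · intro c hc a hca
    rw [Subgroup.mem_centralizer_iff] at hc
    ext b
    obtain ⟨g, rfl⟩ := MulAction.exists_smul_eq G a b
    have h1 := hc (g : Equiv.Perm α) g.2
    have h2 := congrArg (fun f : Equiv.Perm α => f a) h1
    simp only [Equiv.Perm.mul_apply] at h2
    rw [hca] at h2
    show c ((g : Equiv.Perm α) a) = (1 : Equiv.Perm α) ((g : Equiv.Perm α) a)
    rw [← h2]
    rfl
  · constructor
    · intro hT a
      rw [Subgroup.eq_bot_iff_forall]
      intro g hg
      rw [MulAction.mem_stabilizer_iff] at hg
      apply Subtype.ext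
      ext b
      obtain ⟨c, rfl⟩ := MulAction.exists_smul_eq (Subgroup.centralizer (G : Set (Equiv.Perm α))) a b
      have hc := c.2
      rw [Subgroup.mem_centralizer_iff] at hc
      have h1 := hc (g : Equiv.Perm α) g.2
      have h2 := congrArg (fun f : Equiv.Perm α => f a) h1
      simp only [Equiv.Perm.mul_apply] at h2
      have h3 : (g : Equiv.Perm α) a = a := hg
      rw [h3] at h2
      show (g : Equiv.Perm α) ((c : Equiv.Perm α) a) = (1 : Equiv.Perm α) ((c : Equiv.Perm α) a)
      rw [h2]
      rfl
    · intro hreg
      constructor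
      intro a b
      obtain ⟨f, hf⟩ := exists_map G hreg a b
      obtain ⟨f', hf'⟩ := exists_map G hreg b a
      have hl : Function.LeftInverse f' f := by
        intro x
        obtain ⟨g, rfl⟩ := MulAction.exists_smul_eq G a x
        rw [hf, hf']
      have hr : Function.RightInverse f' f := by
        intro x
        obtain ⟨g, rfl⟩ := MulAction.exists_smul_eq G b x
        rw [hf', hf]
      have hc : (⟨f, f', hl, hr⟩ : Equiv.Perm α) ∈ Subgroup.centralizer (G : Set (Equiv.Perm α)) := by
        rw [Subgroup.mem_centralizer_iff]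
        intro h hh
        ext x
        obtain ⟨g, rfl⟩ := MulAction.exists_smul_eq G a x
        show h (f (g • a)) = f (h (g • a))
        have e1 : h (g • a) = ((⟨h, hh⟩ : G) * g) • a := rfl
        rw [e1, hf, hf]
        rfl
      refine ⟨⟨_, hc⟩, ?_⟩
      show f a = b
      have h1 := hf 1
      rw [one_smul, one_smul] at h1
      exact h1

end Cfsg.Agent.S0701
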