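import Cfsg.Statements.S0702
import Mathlib

set_option autoImplicit false
open Cfsg

namespace Cfsg.Agent.S0702

section
variable {α : Type*} (G : Subgroup (Equiv.Perm α)) [MulAction.IsPretransitive G α] (a : α)

/-- a chosen group element moving `a` to `x` -/
noncomputable def mv (x : α) : G := Classical.choose (MulAction.exists_smul_eq G a x)

lemma mv_spec (x : α) : (mv G a x).1 a = x :=
  Classical.choose_spec (MulAction.exists_smul_eq G a x)

/-- the map `g • a ↦ g • n⁻¹ • a` -/
noncomputable def F (n : G) (x : α) : α := (mv G a x).1 (n.1⁻¹ a)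

lemma F_apply (n : G)
    (hn : n ∈ Subgroup.normalizer ((MulAction.stabilizer G a : Subgroup G) : Set G)) (g : G) :
    F G a n (g.1 a) = g.1 (n.1⁻¹ a) := by
  have h1 := mv_spec G a (g.1 a)
  have h2 : g⁻¹ * mv G a (g.1 a) ∈ MulAction.stabilizer G a := by
    rw [MulAction.mem_stabilizer_iff]
    show g.1⁻¹ ((mv G a (g.1 a)).1 a) = a
    rw [h1, Equiv.Perm.inv_def, Equiv.symm_apply_apply]
  have h3 := (Subgroup.mem_normalizer_iff.mp hn (g⁻¹ * mv G a (g.1 a))).mp h2
  rw [MulAction.mem_stabilizer_iff] at h3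
  have h4 : n.1 (g.1⁻¹ ((mv G a (g.1 a)).1 (n.1⁻¹ a))) = a := h3
  have h5 : g.1⁻¹ ((mv G a (g.1 a)).1 (n.1⁻¹ a)) = n.1⁻¹ a := Equiv.Perm.eq_inv_iff_eq.mpr h4
  exact Equiv.Perm.inv_eq_iff_eq.mp h5

lemma F_one (x : α) : F G a 1 x = x := by
  show (mv G a x).1 ((1 : Equiv.Perm α)⁻¹ a) = x
  rw [inv_one]
  exact mv_spec G a x

lemma F_mul (n m : G)
    (hn : n ∈ Subgroup.normalizer ((MulAction.stabilizer G a : Subgroup G) : Set G)) (x : α) :
    F G a (n * m) x = F G a n (F G a m x) := by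
  have h1 : F G a m x = (mv G a x * m⁻¹).1 a := rfl
  rw [h1, F_apply G a n hn]
  show (mv G a x).1 ((n.1 * m.1)⁻¹ a) = (mv G a x).1 (m.1⁻¹ (n.1⁻¹ a))
  rw [mul_inv_rev]
  rfl

lemma F_comm (n : G)
    (hn : n ∈ Subgroup.normalizer ((MulAction.stabilizer G a : Subgroup G) : Set G)) (h : G)
    (x : α) : F G a n (h.1 x) = h.1 (F G a n x) := by
  have h1 : h.1 x = (h * mv G a x).1 a := by
    show h.1 x = h.1 ((mv G a x).1 a)
    rw [mv_spec]
  rw [h1, F_apply G a n hn]
  rfl

/-- the permutation attached to an element of the normaliser -/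
noncomputable def permOf (n : G)
    (hn : n ∈ Subgroup.normalizer ((MulAction.stabilizer G a : Subgroup G) : Set G)) :
    Equiv.Perm α where
  toFun := F G a n
  invFun := F G a n⁻¹
  left_inv x := by
    rw [← F_mul G a n⁻¹ n (inv_mem hn), inv_mul_cancel, F_one]
  right_inv x := by
    rw [← F_mul G a n n⁻¹ hn, mul_inv_cancel, F_one]

/-- the homomorphism from the normaliser of the stabiliser to the centraliser -/
noncomputable def phi :
    Subgroup.normalizer ((MulAction.stabilizer G a : Subgroup G) : Set G) →*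
      Subgroup.centralizer (G : Set (Equiv.Perm α)) where
  toFun n := ⟨permOf G a n.1 n.2, by
    rw [Subgroup.mem_centralizer_iff]
    intro h hh
    ext x
    show h (F G a n.1 x) = F G a n.1 (h x)
    exact (F_comm G a n.1 n.2 ⟨h, hh⟩ x).symm⟩
  map_one' := by
    apply Subtype.ext; ext x; exact F_one G a x
  map_mul' n m := by
    apply Subtype.ext; ext x; exact F_mul G a n.1 m.1 n.2 x

lemma phi_apply (n : Subgroup.normalizer ((MulAction.stabilizer G a : Subgroup G) : Set G))
    (g : G) : (phi G a n).1 (g.1 a) = g.1 (n.1.1⁻¹ a) := F_apply G a n.1 n.2 g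

lemma phi_ker : (phi G a).ker = (MulAction.stabilizer G a).subgroupOf
    (Subgroup.normalizer ((MulAction.stabilizer G a : Subgroup G) : Set G)) := by
  ext n
  rw [MonoidHom.mem_ker, Subgroup.mem_subgroupOf, MulAction.mem_stabilizer_iff]
  constructor
  · intro h
    have h1 := phi_apply G a n 1
    rw [h] at h1
    have h2 : a = n.1.1⁻¹ a := h1
    exact (Equiv.Perm.eq_inv_iff_eq.mp h2)
  · intro h
    have h2 : n.1.1⁻¹ a = a := Equiv.Perm.inv_eq_iff_eq.mpr (Eq.symm h)
    apply Subtype.ext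
    ext x
    obtain ⟨g, rfl⟩ := MulAction.exists_smul_eq G a x
    show (phi G a n).1 (g.1 a) = g.1 a
    rw [phi_apply, h2]

lemma mem_normalizer_of_le {K : Type*} [Group K] (H : Subgroup K) [Finite H] (n : K)
    (h : ∀ x ∈ H, n * x * n⁻¹ ∈ H) : n ∈ Subgroup.normalizer (H : Set K) := by
  rw [Subgroup.mem_normalizer_iff]
  intro x
  refine ⟨h x, fun hx => ?_⟩
  let c : H → H := fun y => ⟨n * y.1 * n⁻¹, h y.1 y.2⟩
  have hc : Function.Injective c := by
    intro y z hyz
    have h1 : n * y.1 * n⁻¹ = n * z.1 * n⁻¹ := congrArg Subtype.val hyz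
    exact Subtype.ext (mul_left_cancel (mul_right_cancel h1))
  obtain ⟨y, hy⟩ := (Finite.injective_iff_surjective.mp hc) ⟨_, hx⟩
  have h1 : n * y.1 * n⁻¹ = n * x * n⁻¹ := congrArg Subtype.val hy
  have h2 : y.1 = x := mul_left_cancel (mul_right_cancel h1)
  rw [← h2]; exact y.2

end


/-- For a transitive permutation group `G` on a finite set, the centraliser of `G` in the symmetric group is isomorphic to `N_G(G_ω)/G_ω`, and its orbit of `ω` is the set of fixed points of `G_ω`. -/
theorem result {α : Type*} [Finite α] (G : Subgroup (Equiv.Perm α)) [MulAction.IsPretransitive G α] (a : α) : Nonempty (Subgroup.centralizer (G : Set (Equiv.Perm α)) ≃* Subgroup.normalizer ((MulAction.stabilizer G a : Subgroup G) : Set G) ⧸ (MulAction.stabilizer G a).subgroupOf (Subgroup.normalizer ((MulAction.stabilizer G a : Subgroup G) : Set G))) ∧ MulAction.orbit (Subgroup.centralizer (G : Set (Equiv.Perm α))) a = MulAction.fixedPoints (MulAction.stabilizer G a) α := by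
  classical
  have hsurj : Function.Surjective (phi G a) := by
    rintro ⟨c, hc⟩
    rw [Subgroup.mem_centralizer_iff] at hc
    obtain ⟨g, hg⟩ := MulAction.exists_smul_eq G a (c a)
    have hg' : g.1 a = c a := hg
    have hn : g⁻¹ ∈ Subgroup.normalizer ((MulAction.stabilizer G a : Subgroup G) : Set G) := by
      rw [Subgroup.mem_normalizer_iff]
      intro h
      rw [MulAction.mem_stabilizer_iff, MulAction.mem_stabilizer_iff]
      have e1 : (g⁻¹ * h * g⁻¹⁻¹) • a = g.1⁻¹ (h.1 (g.1 a)) := by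
        rw [inv_inv]; rfl
      rw [e1, Equiv.Perm.inv_eq_iff_eq, hg']
      have e2 : h.1 (c a) = c (h.1 a) := by
        have := congrArg (fun f : Equiv.Perm α => f a) (hc h.1 h.2)
        exact this
      rw [e2]
      constructor
      · intro h1
        have h2 : h.1 a = a := h1
        rw [h2]
      · intro h1
        exact c.injective h1
    refine ⟨⟨g⁻¹, hn⟩, ?_⟩
    apply Subtype.ext
    ext x
    obtain ⟨g', rfl⟩ := MulAction.exists_smul_eq G a x
    show (phi G a ⟨g⁻¹, hn⟩).1 (g'.1 a) = c (g'.1 a)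
    rw [phi_apply]
    show g'.1 (g.1⁻¹⁻¹ a) = c (g'.1 a)
    rw [inv_inv, hg']
    have := congrArg (fun f : Equiv.Perm α => f a) (hc g'.1 g'.2)
    exact this
  refine ⟨⟨((QuotientGroup.quotientKerEquivOfSurjective (phi G a) hsurj).symm.trans
    (QuotientGroup.quotientMulEquivOfEq (phi_ker G a)))⟩, ?_⟩
  ext x
  constructor
  · rintro ⟨⟨c, hc⟩, rfl⟩
    rw [Subgroup.mem_centralizer_iff] at hc
    rw [MulAction.mem_fixedPoints]
    rintro ⟨h, hh⟩
    rw [MulAction.mem_stabilizer_iff] at hh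
    have hh' : h.1 a = a := hh
    show h.1 (c a) = c a
    have := congrArg (fun f : Equiv.Perm α => f a) (hc h.1 h.2)
    have h3 : h.1 (c a) = c (h.1 a) := this
    rw [h3, hh']
  · intro hx
    rw [MulAction.mem_fixedPoints] at hx
    obtain ⟨g, hg⟩ := MulAction.exists_smul_eq G a x
    have hg' : g.1 a = x := hg
    have hn : g⁻¹ ∈ Subgroup.normalizer ((MulAction.stabilizer G a : Subgroup G) : Set G) := by
      apply mem_normalizer_of_le
      intro h hh
      rw [MulAction.mem_stabilizer_iff]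
      have e1 : (g⁻¹ * h * g⁻¹⁻¹) • a = g.1⁻¹ (h.1 (g.1 a)) := by
        rw [inv_inv]; rfl
      rw [e1, Equiv.Perm.inv_eq_iff_eq, hg']
      exact hx ⟨h, hh⟩
    refine ⟨phi G a ⟨g⁻¹, hn⟩, ?_⟩
    show (phi G a ⟨g⁻¹, hn⟩).1 a = x
    have h1 := phi_apply G a ⟨g⁻¹, hn⟩ 1
    have h2 : (phi G a ⟨g⁻¹, hn⟩).1 a = g.1⁻¹⁻¹ a := h1
    rw [h2, inv_inv, hg']

end Cfsg.Agent.S0702
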