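import Cfsg.Statements.S0703
import Mathlib
import Cfsg.Agent.Lib_helper4_MinNormal

set_option autoImplicit false
open Cfsg Cfsg.Agent.Lib_helper4_MinNormal

namespace Cfsg.Agent.S0703

/-- An abelian transitive minimal normal subgroup `M` of a permutation group on a finite set is self-centralising in the symmetric group, regular, elementary abelian, and is the unique minimal normal subgroup. -/
theorem result {α : Type*} [Finite α] (G : Subgroup (Equiv.Perm α)) (M : Subgroup G) [M.Normal] (hM : M ≠ ⊥) (hmin : ∀ L : Subgroup G, L.Normal → L ≤ M → L = ⊥ ∨ L = M) (hab : IsMulCommutative M) (htrans : MulAction.IsPretransitive M α) : Subgroup.centralizer ((M.map G.subtype : Subgroup (Equiv.Perm α)) : Set (Equiv.Perm α)) = M.map G.subtype ∧ (∀ a : α, MulAction.stabilizer M a = ⊥) ∧ (∃ p : ℕ, p.Prime ∧ ∀ m ∈ M, m ^ p = 1) ∧ ∀ L : Subgroup G, L.Normal → L ≠ ⊥ → (∀ L' : Subgroup G, L'.Normal → L' ≤ L → L' = ⊥ ∨ L' = L) → L = M := by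
  classical
  have hMC := map_le_centralizer_self G M hab
  have hcent := centralizer_eq G M M hMC
  have hreg : ∀ a : α, MulAction.stabilizer M a = ⊥ := fun a => stabilizer_eq_bot G M M hMC a
  refine ⟨hcent, hreg, ?_, ?_⟩
  · have hcard : Nat.card M ≠ 1 := by
      intro h
      exact hM (Subgroup.card_eq_one.mp h)
    obtain ⟨p, hp, hpd⟩ := Nat.exists_prime_and_dvd hcard
    haveI : Fact p.Prime := ⟨hp⟩
    obtain ⟨x, hx⟩ := exists_prime_orderOf_dvd_card' p hpd
    refine ⟨p, hp, ?_⟩
    have hcomm : ∀ m₁ ∈ M, ∀ m₂ ∈ M, Commute m₁ m₂ := by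
      intro m₁ h1 m₂ h2
      have h : (⟨m₁, h1⟩ : M) * ⟨m₂, h2⟩ = ⟨m₂, h2⟩ * ⟨m₁, h1⟩ := hab.is_comm.comm _ _
      exact congrArg Subtype.val h
    let L : Subgroup G :=
      { carrier := {g | ∃ m ∈ M, g = m ^ p}
        mul_mem' := by
          rintro _ _ ⟨m₁, h1, rfl⟩ ⟨m₂, h2, rfl⟩
          exact ⟨m₁ * m₂, M.mul_mem h1 h2, ((hcomm m₁ h1 m₂ h2).mul_pow p).symm⟩
        one_mem' := ⟨1, M.one_mem, (one_pow p).symm⟩
        inv_mem' := by
          rintro _ ⟨m, hm, rfl⟩
          exact ⟨m⁻¹, M.inv_mem hm, (inv_pow m p).symm⟩ }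
    have hLn : L.Normal := by
      constructor
      rintro _ ⟨m, hm, rfl⟩ g
      exact ⟨g * m * g⁻¹, (inferInstance : M.Normal).conj_mem m hm g, conj_pow.symm⟩
    have hLM : L ≤ M := by
      rintro _ ⟨m, hm, rfl⟩
      exact M.pow_mem hm p
    rcases hmin L hLn hLM with hL | hL
    · intro m hm
      have h1 : m ^ p ∈ L := ⟨m, hm, rfl⟩
      rw [hL] at h1
      exact Subgroup.mem_bot.mp h1
    · exfalso
      have hsurj : Function.Surjective (fun m : M => m ^ p) := by
        intro y
        have hy : (y : G) ∈ L := by rw [hL]; exact y.2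
        obtain ⟨m, hm, hmy⟩ := hy
        exact ⟨⟨m, hm⟩, Subtype.ext hmy.symm⟩
      have hinj := Finite.injective_iff_surjective.mpr hsurj
      have h1 : (fun m : M => m ^ p) x = (fun m : M => m ^ p) 1 := by
        show x ^ p = 1 ^ p
        rw [one_pow, ← hx, pow_orderOf_eq_one]
      have h2 := hinj h1
      rw [h2, orderOf_one] at hx
      exact hp.one_lt.ne' hx.symm
  · intro L hLn hL0 hLmin
    haveI := hLn
    rcases disjoint_or_eq G M L hM hmin hLmin with hdis | heq
    · exfalso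
      have h1 := map_le_centralizer_of_disjoint G M L hdis.symm
      rw [hcent] at h1
      have h2 : L ≤ M := (Subgroup.map_le_map_iff_of_injective G.subtype_injective).mp h1
      exact hL0 (hdis.eq_bot_of_le h2)
    · exact heq

end Cfsg.Agent.S0703
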