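import Cfsg.Statements.S0704
import Mathlib
import Cfsg.Agent.Lib_helper4_MinNormal

set_option autoImplicit false
open Cfsg Cfsg.Agent.Lib_helper4_MinNormal

namespace Cfsg.Agent.S0704

/-- Two distinct transitive minimal normal subgroups `M`, `N` of a permutation group are regular, non-abelian, isomorphic, each other's centraliser in the symmetric group, and the only minimal normal subgroups. -/
theorem result {α : Type*} (G : Subgroup (Equiv.Perm α)) (M N : Subgroup G) [M.Normal] [N.Normal] (hM : M ≠ ⊥) (hN : N ≠ ⊥) (hMmin : ∀ L : Subgroup G, L.Normal → L ≤ M → L = ⊥ ∨ L = M) (hNmin : ∀ L : Subgroup G, L.Normal → L ≤ N → L = ⊥ ∨ L = N) (hMN : M ≠ N) (hMt : MulAction.IsPretransitive M α) (hNt : MulAction.IsPretransitive N α) : (∀ a : α, MulAction.stabilizer M a = ⊥) ∧ (∀ a : α, MulAction.stabilizer N a = ⊥) ∧ ¬ IsMulCommutative M ∧ Nonempty (M ≃* N) ∧ Subgroup.centralizer ((M.map G.subtype : Subgroup (Equiv.Perm α)) : Set (Equiv.Perm α)) = N.map G.subtype ∧ Subgroup.centralizer ((N.map G.subtype : Subgroup (Equiv.Perm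 α)) : Set (Equiv.Perm α)) = M.map G.subtype ∧ ∀ L : Subgroup G, L.Normal → L ≠ ⊥ → (∀ L' : Subgroup G, L'.Normal → L' ≤ L → L' = ⊥ ∨ L' = L) → L = M ∨ L = N := by
  classical
  have hdisMN : Disjoint M N := by
    rcases disjoint_or_eq G N M hN hNmin hMmin with h | h
    · exact h
    · exact absurd h hMN
  have hNC := map_le_centralizer_of_disjoint G M N hdisMN
  have hMC := map_le_centralizer_of_disjoint G N M hdisMN.symm
  have hMreg : ∀ a : α, MulAction.stabilizer M a = ⊥ := fun a => stabilizer_eq_bot G N M hMC a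
  have hNreg : ∀ a : α, MulAction.stabilizer N a = ⊥ := fun a => stabilizer_eq_bot G M N hNC a
  have hCM := centralizer_eq G M N hNC
  have hCN := centralizer_eq G N M hMC
  refine ⟨hMreg, hNreg, ?_, ?_, hCM, hCN, ?_⟩
  · intro hab
    have h1 := map_le_centralizer_self G M hab
    rw [hCM] at h1
    have h2 : M ≤ N := (Subgroup.map_le_map_iff_of_injective G.subtype_injective).mp h1
    exact hM (hdisMN.eq_bot_of_le h2)
  · obtain ⟨a⟩ : Nonempty α := by
      by_contra hne
      rw [not_nonempty_iff] at hne
      apply hM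
      rw [eq_bot_iff]
      intro m _
      rw [Subgroup.mem_bot]
      apply Subtype.ext
      ext b
      exact (hne.false b).elim
    have hMinj : ∀ m m' : M, m • a = m' • a → m = m' := by
      intro m m' h
      have h1 : m'⁻¹ * m ∈ MulAction.stabilizer M a := by
        rw [MulAction.mem_stabilizer_iff, mul_smul, h, inv_smul_smul]
      rw [hMreg a, Subgroup.mem_bot] at h1
      exact (inv_mul_eq_one.mp h1).symm
    have hNinj : ∀ n n' : N, n • a = n' • a → n = n' := by
      intro n n' h
      have h1 : n'⁻¹ * n ∈ MulAction.stabilizer N a := by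
        rw [MulAction.mem_stabilizer_iff, mul_smul, h, inv_smul_smul]
      rw [hNreg a, Subgroup.mem_bot] at h1
      exact (inv_mul_eq_one.mp h1).symm
    have hcomm : ∀ (m : M) (n : N) (x : α), m • (n • x) = n • (m • x) := by
      intro m n x
      have h := Subgroup.commute_of_normal_of_disjoint M N inferInstance inferInstance hdisMN
        m n m.2 n.2
      have h' : (m : G) * (n : G) = (n : G) * (m : G) := h
      have h'' := congrArg (fun g : G => (g : Equiv.Perm α) x) h'
      exact h''
    choose ψ hψ using fun m : M => MulAction.exists_smul_eq N a (m • a)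
    have hψmul : ∀ m₁ m₂ : M, ψ (m₁ * m₂) = ψ m₂ * ψ m₁ := by
      intro m₁ m₂
      apply hNinj
      rw [hψ (m₁ * m₂), mul_smul, mul_smul, hψ m₁, ← hcomm m₁ (ψ m₂) a, hψ m₂]
    refine ⟨MulEquiv.ofBijective (MonoidHom.mk' (fun m => (ψ m)⁻¹)
      (by intro m₁ m₂; rw [hψmul, mul_inv_rev])) ⟨?_, ?_⟩⟩
    · intro m m' h
      have h1 : ψ m = ψ m' := inv_injective h
      apply hMinj
      rw [← hψ m, ← hψ m', h1]
    · intro n
      obtain ⟨m, hm⟩ := MulAction.exists_smul_eq M a (n⁻¹ • a)
      refine ⟨m, ?_⟩
      show (ψ m)⁻¹ = n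
      rw [inv_eq_iff_eq_inv]
      apply hNinj
      rw [hψ, hm]
  · intro L hLn hL0 hLmin
    haveI := hLn
    rcases disjoint_or_eq G M L hM hMmin hLmin with hdis | heq
    · right
      have h1 := map_le_centralizer_of_disjoint G M L hdis.symm
      rw [hCM] at h1
      have h2 : L ≤ N := (Subgroup.map_le_map_iff_of_injective G.subtype_injective).mp h1
      rcases hNmin L hLn h2 with h | h
      · exact absurd h hL0
      · exact h
    · left; exact heq

end Cfsg.Agent.S0704
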