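import Cfsg.Statements.S0705
import Mathlib
import Cfsg.Agent.Lib_helper4_MultTrans

set_option autoImplicit false
open scoped Pointwise
open Cfsg

namespace Cfsg.Agent.S0705

/-- A generously `k`-transitive permutation group (every `(k+1)`-subset has its full symmetric group induced by the setwise stabiliser) of degree greater than `k` is `k`-transitive, and for a `k`-subset the setwise and pointwise stabilisers have the same orbits outside it. -/
theorem result {α : Type*} [Fintype α] [DecidableEq α] (G : Subgroup (Equiv.Perm α)) {k : ℕ} (hk : k < Fintype.card α) (hgen : ∀ s : Finset α, s.card = k + 1 → ∀ σ : Equiv.Perm ↥s, ∃ g ∈ G, ∀ x : ↥s, g (x : α) = σ x) : MulAction.IsMultiplyPretransitive G α k ∧ ∀ s : Finset α, s.card = k → ∀ a b : α, a ∉ s → b ∉ s → (∃ g ∈ G, g • s = s ∧ g a = b) → ∃ g ∈ G, (∀ x ∈ s, g x = x) ∧ g a = b := by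
  classical
  refine ⟨?_, ?_⟩
  · apply Cfsg.Agent.Lib_helper4_MultTrans.of_finset_fixing G hk
    intro t htk a b hat hbt hab
    have hcard : (insert a (insert b t)).card = k + 1 := by
      rw [Finset.card_insert_of_notMem (by simp [hab, hat]), Finset.card_insert_of_notMem hbt]
      omega
    have has : a ∈ insert a (insert b t) := by simp
    have hbs : b ∈ insert a (insert b t) := by simp
    obtain ⟨g, hgG, hg⟩ := hgen _ hcard (Equiv.swap ⟨a, has⟩ ⟨b, hbs⟩)
    refine ⟨g, hgG, fun y hy => ?_, ?_⟩
    · have hys : y ∈ insert a (insert b t) := by simp [hy]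
      have h1 := hg ⟨y, hys⟩
      rw [Equiv.swap_apply_of_ne_of_ne] at h1
      · exact h1
      · intro h2
        have h3 : y = a := congrArg Subtype.val h2
        exact hat (h3 ▸ hy)
      · intro h2
        have h3 : y = b := congrArg Subtype.val h2
        exact hbt (h3 ▸ hy)
    · have h1 := hg ⟨a, has⟩
      rw [Equiv.swap_apply_left] at h1
      exact h1
  · intro s hs a b has hbs ⟨g, hgG, hgs, hgab⟩
    have hginv : ∀ x ∈ s, g⁻¹ x ∈ s := by
      intro x hx
      rw [← hgs] at hx
      obtain ⟨y, hy, hyx⟩ := Finset.mem_smul_finset.mp hx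
      have : g⁻¹ x = y := by
        rw [← hyx, Equiv.Perm.inv_def]; exact Equiv.symm_apply_apply g y
      rw [this]; exact hy
    let f : Equiv.Perm α := Equiv.swap a (g⁻¹ a) * g⁻¹
    have hfa : f a = a := by
      show Equiv.swap a (g⁻¹ a) (g⁻¹ a) = a
      exact Equiv.swap_apply_right _ _
    have hfs : ∀ x ∈ s, f x = g⁻¹ x := by
      intro x hx
      show Equiv.swap a (g⁻¹ a) (g⁻¹ x) = g⁻¹ x
      apply Equiv.swap_apply_of_ne_of_ne
      · intro h1; exact has (h1 ▸ hginv x hx)
      · intro h1; exact has (by rw [← g⁻¹.injective h1]; exact hx)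
    have hmaps : ∀ x ∈ insert a s, f x ∈ insert a s := by
      intro x hx
      rcases Finset.mem_insert.mp hx with h1 | h1
      · rw [h1, hfa]; exact Finset.mem_insert_self _ _
      · rw [hfs x h1]; exact Finset.mem_insert_of_mem (hginv x h1)
    let φ : ↥(insert a s) → ↥(insert a s) := fun x => ⟨f x.1, hmaps x.1 x.2⟩
    have hφ : Function.Injective φ := by
      intro x y hxy
      exact Subtype.ext (f.injective (congrArg Subtype.val hxy))
    obtain ⟨h, hhG, hh⟩ := hgen (insert a s) (by rw [Finset.card_insert_of_notMem has, hs])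
      (Equiv.ofBijective φ (Finite.injective_iff_bijective.mp hφ))
    refine ⟨g * h, G.mul_mem hgG hhG, fun x hx => ?_, ?_⟩
    · have h1 := hh ⟨x, Finset.mem_insert_of_mem hx⟩
      show g (h x) = x
      rw [h1]
      show g (f x) = x
      rw [hfs x hx, Equiv.Perm.inv_def]
      exact Equiv.apply_symm_apply g x
    · have h1 := hh ⟨a, Finset.mem_insert_self _ _⟩
      show g (h a) = b
      rw [h1]
      show g (f a) = b
      rw [hfa, hgab]

end Cfsg.Agent.S0705
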