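import Cfsg.Statements.S0707
import Mathlib

set_option autoImplicit false
open Cfsg

namespace Cfsg.Agent.S0707

/-- In a primitive permutation group, distinct points have distinct stabilisers unless the group is regular of prime degree. -/
theorem result {α : Type*} (G : Subgroup (Equiv.Perm α)) [MulAction.IsPreprimitive G α] (h : ¬ (Nat.card α).Prime ∨ ∃ a : α, MulAction.stabilizer G a ≠ ⊥) {a b : α} (hab : a ≠ b) : MulAction.stabilizer G a ≠ MulAction.stabilizer G b := by
  classical
  intro heq
  haveI : Nontrivial α := ⟨⟨a, b, hab⟩⟩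
  have hco : IsCoatom (MulAction.stabilizer G a) :=
    MulAction.IsPreprimitive.isCoatom_stabilizer_of_isPreprimitive (↥G) a
  obtain ⟨g, hg⟩ := MulAction.exists_smul_eq G a b
  have hgS : g ∉ MulAction.stabilizer G a := by
    intro hmem
    rw [MulAction.mem_stabilizer_iff] at hmem
    exact hab (hmem.symm.trans hg)
  have hgN : g ∈ Subgroup.normalizer ((MulAction.stabilizer G a : Subgroup G) : Set G) := by
    rw [Subgroup.mem_normalizer_iff]
    intro x
    constructor
    · intro hx
      rw [heq, MulAction.mem_stabilizer_iff, ← hg, mul_smul, mul_smul, inv_smul_smul]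
      rw [MulAction.mem_stabilizer_iff] at hx
      rw [hx]
    · intro hx
      rw [heq, MulAction.mem_stabilizer_iff, ← hg, mul_smul, mul_smul, inv_smul_smul] at hx
      rw [MulAction.mem_stabilizer_iff]
      exact smul_left_cancel g hx
  have hNtop : Subgroup.normalizer ((MulAction.stabilizer G a : Subgroup G) : Set G) = ⊤ := by
    apply hco.2
    apply lt_of_le_of_ne Subgroup.le_normalizer
    intro hEq
    apply hgS
    rw [hEq]
    exact hgN
  have hSbot : MulAction.stabilizer G a = ⊥ := by
    rw [Subgroup.eq_bot_iff_forall]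
    intro s hs
    apply Subtype.ext
    ext c
    obtain ⟨x, rfl⟩ := MulAction.exists_smul_eq G a c
    have hx : x⁻¹ ∈ Subgroup.normalizer ((MulAction.stabilizer G a : Subgroup G) : Set G) := by
      rw [hNtop]
      trivial
    rw [Subgroup.mem_normalizer_iff] at hx
    have h1 := (hx s).mp hs
    rw [MulAction.mem_stabilizer_iff, mul_smul, mul_smul, inv_inv] at h1
    have h2 : s • x • a = x • a := by
      have h3 := congrArg (fun y => x • y) h1
      simp only [smul_inv_smul] at h3
      exact h3
    exact h2
  have hallbot : ∀ c : α, MulAction.stabilizer G c = ⊥ := by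
    intro c
    obtain ⟨x, rfl⟩ := MulAction.exists_smul_eq G a c
    rw [MulAction.stabilizer_smul_eq_stabilizer_map_conj, hSbot, Subgroup.map_bot]
  rw [hSbot] at hco
  have hg1 : g ≠ 1 := by
    rintro rfl
    rw [one_smul] at hg
    exact hab hg
  have hz : Subgroup.zpowers g = ⊤ := by
    apply hco.2
    rw [bot_lt_iff_ne_bot]
    exact Subgroup.zpowers_ne_bot.mpr hg1
  haveI : IsMulCommutative G := by
    refine ⟨⟨fun x y => ?_⟩⟩
    have hx : x ∈ Subgroup.zpowers g := by rw [hz]; trivial
    have hy : y ∈ Subgroup.zpowers g := by rw [hz]; trivial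
    obtain ⟨i, rfl⟩ := Subgroup.mem_zpowers_iff.mp hx
    obtain ⟨j, rfl⟩ := Subgroup.mem_zpowers_iff.mp hy
    rw [← zpow_add, ← zpow_add, add_comm]
  haveI : IsSimpleGroup G := by
    refine { exists_pair_ne := ⟨g, 1, hg1⟩, eq_bot_or_eq_top_of_normal := fun H _ => ?_ }
    by_cases hH : H = ⊥
    · exact Or.inl hH
    · exact Or.inr (hco.2 H (bot_lt_iff_ne_bot.mpr hH))
  have hprime : (Nat.card G).Prime := Group.is_simple_iff_prime_card.mp inferInstance
  have hcard : Nat.card G = Nat.card α := by
    apply Nat.card_congr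
    refine Equiv.ofBijective (fun x : G => x • a) ⟨?_, ?_⟩
    · intro x y hxy
      have h1 : y⁻¹ * x ∈ MulAction.stabilizer G a := by
        rw [MulAction.mem_stabilizer_iff, mul_smul]
        show y⁻¹ • x • a = a
        have h2 : x • a = y • a := hxy
        rw [h2, inv_smul_smul]
      rw [hSbot, Subgroup.mem_bot, inv_mul_eq_one] at h1
      exact h1.symm
    · intro c
      exact MulAction.exists_smul_eq G a c
  rcases h with h | ⟨c, hc⟩
  · rw [← hcard] at h
    exact h hprime
  · exact hc (hallbot c)

end Cfsg.Agent.S0707
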