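import Cfsg.Statements.S0710
import Mathlib
import Cfsg.Agent.Lib_helper4_SmallSimple

set_option autoImplicit false
open Cfsg

namespace Cfsg.Agent.S0710

open Cfsg.Agent.Lib_helper4_SmallSimple


/-- No transitive permutation group on 13 points has order `13 * 12 * 11 * 10 * 9 * 8`. -/
theorem result {α : Type*} [Fintype α] [DecidableEq α] (hα : Fintype.card α = 13) (G : Subgroup (Equiv.Perm α)) [MulAction.IsPretransitive G α] : Nat.card G ≠ 13 * 12 * 11 * 10 * 9 * 8 := by
  classical
  intro hG
  haveI : Fact (Nat.Prime 13) := ⟨by norm_num⟩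
  have hG' : Nat.card G = 1235520 := by rw [hG]
  have hcard : Nat.card G = 13 ^ 1 * 95040 := by rw [hG']; norm_num
  have hm : ¬ 13 ∣ 95040 := by norm_num
  obtain ⟨P⟩ : Nonempty (Sylow 13 G) := inferInstance
  have hP : Nat.card (P : Subgroup G) = 13 := by
    rw [card_sylow_of_card hcard hm P, pow_one]
  have h2 := card_sylow_modEq_one 13 G
  have h4 := card_normalizer_sylow P
  have h5 := card_normalizer_dvd (Or.inl hα) G.subtype (Subgroup.subtype_injective G) (P : Subgroup G) hP
  rw [hG'] at h4
  have key : ∀ c ≤ 156, c ∣ 156 → (1235520 / c) % 13 ≠ 1 := by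
    set_option maxRecDepth 100000 in decide
  have hc0 : 0 < Nat.card (Subgroup.normalizer ((P : Subgroup G) : Set G)) := Nat.card_pos
  have hn : Nat.card (Sylow 13 G) = 1235520 / Nat.card (Subgroup.normalizer ((P : Subgroup G) : Set G)) := by
    rw [Nat.div_eq_of_eq_mul_right hc0]
    omega
  apply key _ (Nat.le_of_dvd (by norm_num) h5) h5
  rw [← hn]
  exact h2

end Cfsg.Agent.S0710
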