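import Cfsg.Statements.S0711
import Mathlib

set_option autoImplicit false
open Cfsg

namespace Cfsg.Agent.S0711

theorem fix_move {α : Type*} [Fintype α] [DecidableEq α] (G : Subgroup (Equiv.Perm α)) {k : ℕ}
    (hkn : k ≤ Fintype.card α) (hG : MulAction.IsMultiplyPretransitive G α k) (A : Finset α)
    (hA : A.card + 1 ≤ k) (γ δ : α) (hγ : γ ∉ A) (hδ : δ ∉ A) :
    ∃ g ∈ G, (∀ a ∈ A, g a = a) ∧ g γ = δ := by
  haveI := hG
  have h1 : MulAction.IsMultiplyPretransitive (fixingSubgroup G (A : Set α))
      (SubMulAction.ofFixingSubgroup G (A : Set α)) 1 :=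
    SubMulAction.ofFixingSubgroup.isMultiplyPretransitive' (n := k) (m := 1) (A : Set α)
      (by rw [Set.ncard_coe_finset]; exact hA)
      (by rw [ENat.card_eq_coe_fintype_card]; exact_mod_cast hkn)
  rw [MulAction.is_one_pretransitive_iff] at h1
  obtain ⟨g, hg⟩ := h1.exists_smul_eq
    (⟨γ, by rw [SubMulAction.mem_ofFixingSubgroup_iff]; exact_mod_cast hγ⟩ :
      SubMulAction.ofFixingSubgroup G (A : Set α))
    ⟨δ, by rw [SubMulAction.mem_ofFixingSubgroup_iff]; exact_mod_cast hδ⟩
  refine ⟨g.1.1, g.1.2, fun a ha => ?_, ?_⟩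
  · have := (mem_fixingSubgroup_iff G).1 g.2 a (by exact_mod_cast ha)
    exact this
  · exact congrArg Subtype.val hg

theorem exists_path {α : Type*} [Fintype α] [DecidableEq α] (x : Equiv.Perm α) :
    ∀ j, j ≤ x.support.card → ∃ A : Finset α, A ⊆ x.support ∧ A.card = j ∧
      (A.filter (fun β => x β ∉ A)).card ≤ 1 := by
  intro j
  induction j with
  | zero =>
    intro _
    exact ⟨∅, Finset.empty_subset _, rfl, by simp⟩
  | succ j ih =>
    intro hj
    obtain ⟨A, hAS, hAc, hE⟩ := ih (by omega)
    by_cases hex : ∃ β ∈ A, x β ∉ A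
    · obtain ⟨β, hβA, hxβ⟩ := hex
      refine ⟨insert (x β) A, ?_, ?_, ?_⟩
      · intro z hz
        rw [Finset.mem_insert] at hz
        rcases hz with rfl | hz
        · exact (Equiv.Perm.apply_mem_support).2 (hAS hβA)
        · exact hAS hz
      · rw [Finset.card_insert_of_notMem hxβ, hAc]
      · have hss : (insert (x β) A).filter (fun β' => x β' ∉ insert (x β) A)
            ⊆ ({x β} : Finset α) := by
          intro z hz
          rw [Finset.mem_filter, Finset.mem_insert] at hz
          rw [Finset.mem_singleton]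
          obtain ⟨hz1, hz2⟩ := hz
          rcases hz1 with rfl | hz1
          · rfl
          · exfalso
            have hzE : z ∈ A.filter (fun β => x β ∉ A) :=
              Finset.mem_filter.2 ⟨hz1, fun h => hz2 (Finset.mem_insert_of_mem h)⟩
            have hβE : β ∈ A.filter (fun β => x β ∉ A) := Finset.mem_filter.2 ⟨hβA, hxβ⟩
            have : z = β := Finset.card_le_one.1 hE z hzE β hβE
            exact hz2 (by rw [this]; exact Finset.mem_insert_self _ _)
        exact (Finset.card_le_card hss).trans (by simp)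
    · push_neg at hex
      obtain ⟨s, hsS, hsA⟩ : ∃ s ∈ x.support, s ∉ A := by
        by_contra hcon
        push_neg at hcon
        have h1 : x.support ⊆ A := hcon
        have h2 := Finset.card_le_card h1
        omega
      refine ⟨insert s A, ?_, ?_, ?_⟩
      · intro z hz
        rw [Finset.mem_insert] at hz
        rcases hz with rfl | hz
        · exact hsS
        · exact hAS hz
      · rw [Finset.card_insert_of_notMem hsA, hAc]
      · have hss : (insert s A).filter (fun β' => x β' ∉ insert s A) ⊆ ({s} : Finset α) := by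
          intro z hz
          rw [Finset.mem_filter, Finset.mem_insert] at hz
          rw [Finset.mem_singleton]
          obtain ⟨hz1, hz2⟩ := hz
          rcases hz1 with rfl | hz1
          · rfl
          · exact absurd (Finset.mem_insert_of_mem (hex z hz1)) hz2
        exact (Finset.card_le_card hss).trans (by simp)

theorem reduce {α : Type*} [Fintype α] [DecidableEq α] (G : Subgroup (Equiv.Perm α)) {k : ℕ}
    (hk : 3 ≤ k) (hkn : k ≤ Fintype.card α) (hG : MulAction.IsMultiplyPretransitive G α k)
    (x : Equiv.Perm α) (hx : x ∈ G) (h4 : 4 ≤ x.support.card)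
    (hsupp : x.support.card < 2 * k - 2) :
    ∃ u ∈ G, u ≠ 1 ∧ u.support.card < x.support.card := by
  classical
  by_cases hSu : x.support = Finset.univ
  · have hmn : x.support.card = Fintype.card α := by rw [hSu, Finset.card_univ]
    obtain ⟨A₀, -, hA₀⟩ := Finset.exists_subset_card_eq (s := (Finset.univ : Finset α))
      (n := k - 2) (by rw [Finset.card_univ]; omega)
    have hc : (Finset.univ \ A₀).card = Fintype.card α - (k - 2) := by
      rw [Finset.card_sdiff_of_subset (Finset.subset_univ _), Finset.card_univ, hA₀]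
    obtain ⟨γ', hγ', δ', hδ', hne⟩ := Finset.one_lt_card.1 (by omega : 1 < (Finset.univ \ A₀).card)
    obtain ⟨y, hyG, hyA, hyγ⟩ := fix_move G hkn hG A₀ (by omega) γ' δ'
      (Finset.mem_sdiff.1 hγ').2 (Finset.mem_sdiff.1 hδ').2
    refine ⟨y, hyG, ?_, ?_⟩
    · intro h
      rw [h] at hyγ
      exact hne hyγ
    · have hss : y.support ⊆ Finset.univ \ A₀ := by
        intro z hz
        rw [Finset.mem_sdiff]
        exact ⟨Finset.mem_univ _, fun hzA => (Equiv.Perm.mem_support.1 hz) (hyA z hzA)⟩
      have := Finset.card_le_card hss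
      omega
  · obtain ⟨δ₀, hδ₀⟩ : ∃ δ₀, δ₀ ∉ x.support := by
      by_contra h
      push_neg at h
      exact hSu (Finset.eq_univ_iff_forall.2 h)
    obtain ⟨a, ha1, ha2, ha3⟩ : ∃ a, a ≤ x.support.card - 1 ∧ a ≤ k - 1 ∧
        (a = x.support.card - 1 ∨ a = k - 1) := by
      rcases le_total (x.support.card - 1) (k - 1) with h | h
      · exact ⟨x.support.card - 1, le_rfl, h, Or.inl rfl⟩
      · exact ⟨k - 1, h, le_rfl, Or.inr rfl⟩
    obtain ⟨A, hAS, hAc, hE⟩ := exists_path x a (by omega)
    have hTc : (x.support \ A).card = x.support.card - a := by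
      rw [Finset.card_sdiff_of_subset hAS, hAc]
    obtain ⟨γ, hγT, hγE⟩ : ∃ γ ∈ x.support \ A,
        ∀ α' ∈ A.filter (fun β => x β ∉ A), x α' = γ := by
      by_cases hEe : A.filter (fun β => x β ∉ A) = ∅
      · obtain ⟨γ, hγ⟩ := Finset.card_pos.1 (by omega : 0 < (x.support \ A).card)
        exact ⟨γ, hγ, by rw [hEe]; simp⟩
      · obtain ⟨α', hα'⟩ := Finset.nonempty_iff_ne_empty.2 hEe
        have h1 := Finset.mem_filter.1 hα'
        refine ⟨x α', Finset.mem_sdiff.2 ⟨Equiv.Perm.apply_mem_support.2 (hAS h1.1), h1.2⟩,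
          fun α'' hα'' => ?_⟩
        rw [Finset.card_le_one.1 hE α'' hα'' α' hα']
    obtain ⟨δ, hδA, hδγ, hδcase⟩ : ∃ δ, δ ∉ A ∧ δ ≠ γ ∧
        ((δ ∈ x.support ∧ A.filter (fun β => x β ∉ A) ≠ ∅ ∧ 2 ≤ (x.support \ A).card) ∨
          (δ ∉ x.support ∧ (A.filter (fun β => x β ∉ A) = ∅ ∨ (x.support \ A).card ≤ 1))) := by
      by_cases hc : A.filter (fun β => x β ∉ A) ≠ ∅ ∧ 2 ≤ (x.support \ A).card
      · obtain ⟨δ, hδT, hδγ⟩ : ∃ δ ∈ x.support \ A, δ ≠ γ := Finset.exists_mem_ne hc.2 γ
        exact ⟨δ, (Finset.mem_sdiff.1 hδT).2, hδγ, Or.inl ⟨(Finset.mem_sdiff.1 hδT).1, hc⟩⟩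
      · refine ⟨δ₀, fun h => hδ₀ (hAS h), fun h => hδ₀ (h ▸ (Finset.mem_sdiff.1 hγT).1),
          Or.inr ⟨hδ₀, ?_⟩⟩
        by_contra hcon
        push_neg at hcon
        exact hc ⟨Finset.nonempty_iff_ne_empty.1 hcon.1, by omega⟩
    obtain ⟨y, hyG, hyA, hyγ⟩ := fix_move G hkn hG A (by rw [hAc]; omega) γ δ
      (Finset.mem_sdiff.1 hγT).2 hδA
    have hyA' : ∀ b ∈ A, y⁻¹ b = b := fun b hb => by
      rw [Equiv.Perm.inv_eq_iff_eq]
      exact (hyA b hb).symm
    have huG : x⁻¹ * (y * x * y⁻¹) ∈ G :=
      G.mul_mem (G.inv_mem hx) (G.mul_mem (G.mul_mem hyG hx) (G.inv_mem hyG))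
    have hu1 : x⁻¹ * (y * x * y⁻¹) ≠ 1 := by
      intro h
      have hconj : y * x * y⁻¹ = x := by
        have := congrArg (fun z => x * z) h
        simpa [mul_assoc] using this
      rcases hδcase with ⟨hδS, hEne, -⟩ | ⟨hδS, -⟩
      · obtain ⟨α', hα'⟩ := Finset.nonempty_iff_ne_empty.2 hEne
        have h1 := Finset.mem_filter.1 hα'
        have h2 := congrArg (fun z : Equiv.Perm α => z α') hconj
        simp only [Equiv.Perm.coe_mul, Function.comp_apply] at h2
        rw [hyA' α' h1.1, hγE α' hα', hyγ] at h2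
        exact hδγ h2
      · have h2 := congrArg (fun z : Equiv.Perm α => z δ) hconj
        simp only [Equiv.Perm.coe_mul, Function.comp_apply] at h2
        have h3 : y⁻¹ δ = γ := by
          rw [Equiv.Perm.inv_eq_iff_eq]
          exact hyγ.symm
        rw [h3, Equiv.Perm.notMem_support.1 hδS] at h2
        have h4' : x γ = γ := y.injective (h2.trans hyγ.symm)
        exact (Equiv.Perm.mem_support.1 (Finset.mem_sdiff.1 hγT).1) h4'
    have hsub : (x⁻¹ * (y * x * y⁻¹)).support ⊆
        A.filter (fun β => x β ∉ A) ∪ (x.support \ A) ∪ ((x.support \ A).image y \ x.support) := by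
      intro β hβ
      by_contra hcon
      rw [Finset.mem_union, Finset.mem_union, not_or, not_or] at hcon
      obtain ⟨⟨hβE, hβT⟩, hβY⟩ := hcon
      apply Equiv.Perm.mem_support.1 hβ
      simp only [Equiv.Perm.coe_mul, Function.comp_apply]
      by_cases hβS : β ∈ x.support
      · have hβA : β ∈ A := by
          by_contra h
          exact hβT (Finset.mem_sdiff.2 ⟨hβS, h⟩)
        have hxβA : x β ∈ A := by
          by_contra h
          exact hβE (Finset.mem_filter.2 ⟨hβA, h⟩)
        rw [hyA' β hβA, hyA (x β) hxβA]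
        simp
      · have hβY' : β ∉ (x.support \ A).image y := fun h => hβY (Finset.mem_sdiff.2 ⟨h, hβS⟩)
        have hyβ : y⁻¹ β ∉ x.support := by
          intro h
          by_cases h' : y⁻¹ β ∈ A
          · have h5 := hyA _ h'
            have e : y (y⁻¹ β) = β := by simp
            rw [e] at h5
            rw [← h5] at h'
            exact hβS (hAS h')
          · exact hβY' (Finset.mem_image.2 ⟨y⁻¹ β, Finset.mem_sdiff.2 ⟨h, h'⟩, by simp⟩)
        have e : y (y⁻¹ β) = β := by simp
        rw [Equiv.Perm.notMem_support.1 hyβ, e, Equiv.Perm.inv_eq_iff_eq]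
        exact (Equiv.Perm.notMem_support.1 hβS).symm
    have hYc : ((x.support \ A).image y).card = (x.support \ A).card :=
      Finset.card_image_of_injective _ y.injective
    have hcard : (x⁻¹ * (y * x * y⁻¹)).support.card ≤
        (A.filter (fun β => x β ∉ A)).card + (x.support \ A).card
          + ((x.support \ A).image y \ x.support).card :=
      (Finset.card_le_card hsub).trans ((Finset.card_union_le _ _).trans
        (Nat.add_le_add_right (Finset.card_union_le _ _) _))
    have hYS : ((x.support \ A).image y \ x.support).card ≤ (x.support \ A).card := by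
      rw [← hYc]
      exact Finset.card_le_card Finset.sdiff_subset
    refine ⟨_, huG, hu1, ?_⟩
    rcases hδcase with ⟨hδS, hEne, hT2⟩ | ⟨hδS, hEor⟩
    · have hδY : δ ∈ (x.support \ A).image y := Finset.mem_image.2 ⟨γ, hγT, hyγ⟩
      have h6 : ((x.support \ A).image y \ x.support).card ≤ (x.support \ A).card - 1 := by
        have hss : (x.support \ A).image y \ x.support ⊆ ((x.support \ A).image y).erase δ := by
          intro z hz
          rw [Finset.mem_sdiff] at hz
          exact Finset.mem_erase.2 ⟨fun h => hz.2 (h ▸ hδS), hz.1⟩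
        calc ((x.support \ A).image y \ x.support).card
            ≤ (((x.support \ A).image y).erase δ).card := Finset.card_le_card hss
          _ = (x.support \ A).card - 1 := by rw [Finset.card_erase_of_mem hδY, hYc]
      omega
    · rcases hEor with hE0 | hT1
      · rw [hE0, Finset.card_empty] at hcard
        omega
      · omega


/-- A `k`-transitive permutation group (`k ≥ 3`) with a non-identity element of support smaller than `2k - 2` contains a non-identity element of support at most 3, and therefore contains the alternating group. -/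
theorem result {α : Type*} [Fintype α] [DecidableEq α] (G : Subgroup (Equiv.Perm α)) {k : ℕ} (hk : 3 ≤ k) (hkn : k ≤ Fintype.card α) (hG : MulAction.IsMultiplyPretransitive G α k) (g : Equiv.Perm α) (hg : g ∈ G) (hg1 : g ≠ 1) (hsupp : g.support.card < 2 * k - 2) : (∃ h : Equiv.Perm α, h ∈ G ∧ h ≠ 1 ∧ h.support.card ≤ 3) ∧ alternatingGroup α ≤ G := by
  have key : ∀ m, ∀ x ∈ G, x ≠ 1 → x.support.card = m → m < 2 * k - 2 →
      ∃ h ∈ G, h ≠ 1 ∧ h.support.card ≤ 3 := by
    intro m
    induction m using Nat.strong_induction_on with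
    | _ m ih =>
      intro x hx hx1 hxm hm
      by_cases h3 : m ≤ 3
      · exact ⟨x, hx, hx1, by omega⟩
      · obtain ⟨u, huG, hu1, hult⟩ := reduce G hk hkn hG x hx (by omega) (by omega)
        exact ih u.support.card (by omega) u huG hu1 rfl (by omega)
  obtain ⟨h, hhG, hh1, hh3⟩ := key _ g hg hg1 rfl hsupp
  refine ⟨⟨h, hhG, hh1, hh3⟩, ?_⟩
  have hprim : MulAction.IsPreprimitive G α := by
    haveI := hG
    have h2 : MulAction.IsMultiplyPretransitive G α 2 :=
      MulAction.isMultiplyPretransitive_of_le (n := k) (by omega)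
        (by rw [Nat.card_eq_fintype_card]; exact hkn)
    exact MulAction.isPreprimitive_of_is_two_pretransitive h2
  have hc0 : h.support.card ≠ 0 := by
    rw [Ne, Finset.card_eq_zero, Equiv.Perm.support_eq_empty_iff]
    exact hh1
  have hc1 := Equiv.Perm.card_support_ne_one h
  have hc : h.support.card = 2 ∨ h.support.card = 3 := by omega
  rcases hc with h2 | h3
  · have := Equiv.Perm.subgroup_eq_top_of_isPreprimitive_of_isSwap_mem hprim h
      (Equiv.Perm.card_support_eq_two.1 h2) hhG
    rw [this]
    exact le_top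
  · exact Equiv.Perm.alternatingGroup_le_of_isPreprimitive_of_isThreeCycle_mem hprim
      (card_support_eq_three_iff.1 h3) hhG

end Cfsg.Agent.S0711
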