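import Cfsg.Statements.S0712
import Mathlib
import Cfsg.Agent.Lib_helper4_MultTrans

set_option autoImplicit false
open Cfsg

namespace Cfsg.Agent.S0712

/-- Jordan: a primitive group in which the pointwise stabiliser of a set `s` is doubly transitive on the complement of `s` (which has at least 2 points) is `(|s| + 2)`-transitive. -/
theorem result {α : Type*} [Fintype α] [DecidableEq α] (G : Subgroup (Equiv.Perm α)) (hG : MulAction.IsPreprimitive G α) (s : Set α) {m : ℕ} (hsm : s.ncard = m) (hm : m + 2 ≤ Fintype.card α) (h2 : MulAction.IsMultiplyPretransitive (fixingSubgroup G s) (SubMulAction.ofFixingSubgroup G s) 2) : MulAction.IsMultiplyPretransitive G α (m + 2) := by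
  classical
  have H2 : ∀ a₁ a₂ b₁ b₂ : α, a₁ ∉ s → a₂ ∉ s → b₁ ∉ s → b₂ ∉ s → a₁ ≠ a₂ → b₁ ≠ b₂ →
      ∃ g ∈ G, (∀ y ∈ s, g y = y) ∧ g a₁ = b₁ ∧ g a₂ = b₂ := by
    intro a₁ a₂ b₁ b₂ ha₁ ha₂ hb₁ hb₂ ha hb
    rw [MulAction.is_two_pretransitive_iff] at h2
    obtain ⟨g, hg1, hg2⟩ := @h2 ⟨a₁, ha₁⟩ ⟨a₂, ha₂⟩ ⟨b₁, hb₁⟩ ⟨b₂, hb₂⟩
      (fun h => ha (congrArg Subtype.val h)) (fun h => hb (congrArg Subtype.val h))
    refine ⟨g.1.1, g.1.2, fun y hy => ?_, congrArg Subtype.val hg1, congrArg Subtype.val hg2⟩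
    exact (mem_fixingSubgroup_iff G).mp g.2 y hy
  rcases Nat.eq_zero_or_pos m with h0 | hpos
  · subst h0
    have hs : s = ∅ := by rwa [Set.ncard_eq_zero] at hsm
    rw [zero_add, MulAction.is_two_pretransitive_iff]
    intro a b c d hab hcd
    obtain ⟨g, hg, -, h1, h2⟩ := H2 a b c d (by simp [hs]) (by simp [hs]) (by simp [hs])
      (by simp [hs]) hab hcd
    exact ⟨⟨g, hg⟩, h1, h2⟩
  · obtain ⟨n, rfl⟩ : ∃ n, m = n + 1 := ⟨m - 1, by omega⟩
    have hprim := MulAction.isPreprimitive_of_is_two_pretransitive h2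
    have hmp := hG.isMultiplyPreprimitive hsm (by rw [Nat.card_eq_fintype_card]; omega) hprim
    have hmt : MulAction.IsMultiplyPretransitive G α (n + 2) :=
      MulAction.IsMultiplyPreprimitive.isMultiplyPretransitive G α (n + 2)
    apply Cfsg.Agent.Lib_helper4_MultTrans.succ_of_fixing (n + 2) hmt
    intro x a b ha hb hab
    obtain ⟨c, hc⟩ : ∃ c, c ∉ s := by
      by_contra hcon
      push Not at hcon
      have h1 : s = Set.univ := Set.eq_univ_of_forall hcon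
      rw [h1, Set.ncard_univ, Nat.card_eq_fintype_card] at hsm
      omega
    obtain ⟨e⟩ := Finite.card_eq.mp (show Nat.card ↥(insert c s) = Nat.card (Fin (n + 2)) by
      rw [Nat.card_fin, Nat.card_coe_set_eq, Set.ncard_insert_of_notMem hc, hsm])
    let x₀ : Fin (n + 2) ↪ α := e.symm.toEmbedding.trans (Function.Embedding.subtype _)
    obtain ⟨h, hh⟩ := hmt.exists_smul_eq x₀ x
    have hx : ∀ i, h.1 (x₀ i) = x i := fun i => congrArg (fun f : Fin (n + 2) ↪ α => f i) hh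
    have hx₀ : ∀ i, x₀ i ∈ insert c s := fun i => (e.symm i).2
    have hmem : ∀ z, z ∉ Set.range x → h.1⁻¹ z ∉ insert c s := by
      intro z hz hz'
      apply hz
      refine ⟨e ⟨_, hz'⟩, ?_⟩
      rw [← hx]
      show h.1 ((e.symm (e ⟨_, hz'⟩)).1) = z
      rw [Equiv.symm_apply_apply]
      show h.1 (h.1⁻¹ z) = z
      rw [Equiv.Perm.inv_def, Equiv.apply_symm_apply]
    have ha' := hmem a ha
    have hb' := hmem b hb
    rw [Set.mem_insert_iff, not_or] at ha' hb'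
    obtain ⟨g₀, hg₀, hg₀s, hg₀c, hg₀a⟩ := H2 c (h.1⁻¹ a) c (h.1⁻¹ b) hc ha'.2 hc hb'.2
      (Ne.symm ha'.1) (Ne.symm hb'.1)
    refine ⟨h * ⟨g₀, hg₀⟩ * h⁻¹, fun i => ?_, ?_⟩
    · show h.1 (g₀ (h.1⁻¹ (x i))) = x i
      rw [← hx i]
      have h3 : h.1⁻¹ (h.1 (x₀ i)) = x₀ i := by
        rw [Equiv.Perm.inv_def, Equiv.symm_apply_apply]
      rw [h3]
      have h4 : g₀ (x₀ i) = x₀ i := by
        rcases Set.mem_insert_iff.mp (hx₀ i) with h1 | h1
        · rw [h1]; exact hg₀c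
        · exact hg₀s _ h1
      rw [h4]
    · show h.1 (g₀ (h.1⁻¹ a)) = b
      rw [hg₀a, Equiv.Perm.inv_def, Equiv.apply_symm_apply]

end Cfsg.Agent.S0712
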