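import Cfsg.Statements.S0713
import Mathlib

set_option autoImplicit false
open Cfsg

namespace Cfsg.Agent.S0713

lemma sylow_conj {F : Type*} [Group F] [Finite F] {p : ℕ} (hp : p.Prime)
    (hF : ¬ p ^ 2 ∣ Nat.card F) (x y : F) (hx : orderOf x = p) (hy : orderOf y = p) :
    ∃ u : F, ∃ i : ℤ, u * y * u⁻¹ = x ^ i := by
  haveI := Fact.mk hp
  have key : ∀ z : F, orderOf z = p →
      ∃ S : Sylow p F, (S : Subgroup F) = Subgroup.zpowers z := by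
    intro z hz
    have hpg : IsPGroup p (Subgroup.zpowers z) :=
      IsPGroup.of_card (n := 1) (by rw [Nat.card_zpowers, hz, pow_one])
    obtain ⟨S, hS⟩ := hpg.exists_le_sylow
    refine ⟨S, (Subgroup.eq_of_le_of_card_ge hS ?_).symm⟩
    obtain ⟨a, ha⟩ := IsPGroup.iff_card.mp S.isPGroup'
    rw [Nat.card_zpowers, hz, ha]
    have hdvd : p ^ a ∣ Nat.card F := ha ▸ Subgroup.card_subgroup_dvd_card (S : Subgroup F)
    have ha1 : a ≤ 1 := by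
      by_contra hcon
      exact hF ((pow_dvd_pow p (by omega : 2 ≤ a)).trans hdvd)
    calc p ^ a ≤ p ^ 1 := Nat.pow_le_pow_right hp.pos ha1
      _ = p := pow_one p
  obtain ⟨S, hS⟩ := key x hx
  obtain ⟨S', hS'⟩ := key y hy
  obtain ⟨u, hu⟩ := MulAction.exists_smul_eq F S' S
  have h1 : u * y * u⁻¹ ∈ (S : Subgroup F) := by
    rw [← hu]
    exact ⟨y, by rw [hS']; exact Subgroup.mem_zpowers y, rfl⟩
  rw [hS] at h1
  obtain ⟨i, hi⟩ := Subgroup.mem_zpowers_iff.mp h1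
  exact ⟨u, i, hi.symm⟩

lemma exists_normalizing {α : Type*} [Fintype α] [DecidableEq α] (G : Subgroup (Equiv.Perm α))
    {p : ℕ} (hp : p.Prime) {g : Equiv.Perm α} (hgc : g.IsCycle) (hgp : g.support.card = p)
    (hg : g ∈ G) {k : ℕ} (hk : ((g.support : Set α)ᶜ).ncard = k)
    (hmt : MulAction.IsMultiplyPretransitive G α k)
    {γ1 γ2 : α} (h1 : γ1 ∉ g.support) (h2 : γ2 ∉ g.support) :
    ∃ c ∈ G, ∃ i : ℤ, c * g * c⁻¹ = g ^ i ∧
      ∀ γ, γ ∉ g.support → c γ = Equiv.swap γ1 γ2 γ := by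
  classical
  have hswapΓ : ∀ γ, γ ∉ g.support → Equiv.swap γ1 γ2 γ ∉ g.support := by
    intro γ hγ
    by_cases e1 : γ = γ1
    · rw [e1, Equiv.swap_apply_left]; exact h2
    · by_cases e2 : γ = γ2
      · rw [e2, Equiv.swap_apply_right]; exact h1
      · rw [Equiv.swap_apply_of_ne_of_ne e1 e2]; exact hγ
  obtain ⟨h, hhG, hh⟩ : ∃ h ∈ G, ∀ γ, γ ∉ g.support → h γ = Equiv.swap γ1 γ2 γ := by
    obtain ⟨e⟩ := Finite.card_eq.mp (show Nat.card ↥((g.support : Set α)ᶜ) = Nat.card (Fin k) by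
      rw [Nat.card_fin, Nat.card_coe_set_eq, hk])
    let x : Fin k ↪ α := e.symm.toEmbedding.trans (Function.Embedding.subtype _)
    let y : Fin k ↪ α := x.trans (Equiv.swap γ1 γ2).toEmbedding
    obtain ⟨h, hh⟩ := hmt.exists_smul_eq x y
    refine ⟨h.1, h.2, fun γ hγ => ?_⟩
    have hγ' : γ ∈ ((g.support : Set α)ᶜ) := by simpa using hγ
    have h3 := congrArg (fun f : Fin k ↪ α => f (e ⟨γ, hγ'⟩)) hh
    have h4 : x (e ⟨γ, hγ'⟩) = γ := by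
      show ((e.symm (e ⟨γ, hγ'⟩)) : α) = γ
      rw [Equiv.symm_apply_apply]
    have h5 : h.1 (x (e ⟨γ, hγ'⟩)) = Equiv.swap γ1 γ2 (x (e ⟨γ, hγ'⟩)) := h3
    rw [h4] at h5
    exact h5
  have hhinv : ∀ γ, γ ∉ g.support → h⁻¹ γ = Equiv.swap γ1 γ2 γ := by
    intro γ hγ
    rw [Equiv.Perm.inv_eq_iff_eq, hh _ (hswapΓ γ hγ), Equiv.swap_apply_self]
  have hgfix : ∀ γ, γ ∉ g.support → g γ = γ := fun γ hγ => Equiv.Perm.notMem_support.mp hγ
  have hyfix : ∀ γ, γ ∉ g.support → (h * g * h⁻¹) γ = γ := by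
    intro γ hγ
    show h (g (h⁻¹ γ)) = γ
    rw [hhinv γ hγ, hgfix _ (hswapΓ γ hγ), hh _ (hswapΓ γ hγ), Equiv.swap_apply_self]
  have hΓmem : ∀ γ, γ ∈ ((g.support : Set α)ᶜ) → γ ∉ g.support := fun γ hγ => by simpa using hγ
  have hxF : (⟨g, hg⟩ : G) ∈ fixingSubgroup G ((g.support : Set α)ᶜ) := by
    rw [mem_fixingSubgroup_iff]
    intro γ hγ
    exact hgfix γ (hΓmem γ hγ)
  have hyF : (⟨h * g * h⁻¹, G.mul_mem (G.mul_mem hhG hg) (G.inv_mem hhG)⟩ : G) ∈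
      fixingSubgroup G ((g.support : Set α)ᶜ) := by
    rw [mem_fixingSubgroup_iff]
    intro γ hγ
    exact hyfix γ (hΓmem γ hγ)
  have hordg : orderOf g = p := by rw [hgc.orderOf, hgp]
  have hordx : orderOf (⟨⟨g, hg⟩, hxF⟩ : fixingSubgroup G ((g.support : Set α)ᶜ)) = p := by
    rw [Subgroup.orderOf_mk, Subgroup.orderOf_mk, hordg]
  have hordy : orderOf (⟨⟨h * g * h⁻¹, G.mul_mem (G.mul_mem hhG hg) (G.inv_mem hhG)⟩, hyF⟩ :
      fixingSubgroup G ((g.support : Set α)ᶜ)) = p := by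
    rw [Subgroup.orderOf_mk, Subgroup.orderOf_mk, ← hordg]
    exact (MulAut.conj h).orderOf_eq g
  have hcardX : Nat.card (SubMulAction.ofFixingSubgroup G ((g.support : Set α)ᶜ)) = p := by
    show Nat.card ↥(((g.support : Set α)ᶜ)ᶜ) = p
    rw [Nat.card_coe_set_eq, compl_compl, Set.ncard_coe_finset, hgp]
  have hFcard : ¬ p ^ 2 ∣ Nat.card (fixingSubgroup G ((g.support : Set α)ᶜ)) := by
    have hinj : Function.Injective (MulAction.toPermHom (fixingSubgroup G ((g.support : Set α)ᶜ))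
        (SubMulAction.ofFixingSubgroup G ((g.support : Set α)ᶜ))) := by
      rw [injective_iff_map_eq_one]
      intro f hf
      apply Subtype.ext
      apply Subtype.ext
      ext z
      by_cases hz : z ∈ ((g.support : Set α)ᶜ)
      · exact (mem_fixingSubgroup_iff G).mp f.2 z hz
      · have h6 := congrArg (fun σ : Equiv.Perm
            (SubMulAction.ofFixingSubgroup G ((g.support : Set α)ᶜ)) => (σ ⟨z, hz⟩ : α)) hf
        exact h6
    have hdvd := Subgroup.card_dvd_of_injective _ hinj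
    rw [Nat.card_perm, hcardX] at hdvd
    intro hcon
    have h7 : p ^ 2 ∣ p.factorial := hcon.trans hdvd
    rw [← Nat.mul_factorial_pred hp.ne_zero, pow_two] at h7
    have h8 : p ∣ (p - 1).factorial := Nat.dvd_of_mul_dvd_mul_left hp.pos h7
    have h9 := (Nat.Prime.dvd_factorial hp).mp h8
    have := hp.pos
    omega
  obtain ⟨u, i, hu⟩ := sylow_conj hp hFcard _ _ hordx hordy
  have hu' : u.1.1 * (h * g * h⁻¹) * u.1.1⁻¹ = g ^ i := by
    have h10 := congrArg (fun f : fixingSubgroup G ((g.support : Set α)ᶜ) => f.1.1) hu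
    exact h10
  refine ⟨u.1.1 * h, G.mul_mem u.1.2 hhG, i, ?_, ?_⟩
  · rw [← hu']; group
  · intro γ hγ
    show u.1.1 (h γ) = _
    rw [hh γ hγ]
    exact (mem_fixingSubgroup_iff G).mp u.2 _ (by simpa using hswapΓ γ hγ)


/-- Jordan's Theorem: a primitive permutation group of degree `n ≥ 5` containing a `p`-cycle for a prime `p ≤ n - 3` contains the alternating group. -/
theorem result {α : Type*} [Fintype α] [DecidableEq α] (G : Subgroup (Equiv.Perm α)) (hG : MulAction.IsPreprimitive G α) {p : ℕ} (hp : p.Prime) (hn : 5 ≤ Fintype.card α) (hpn : p + 3 ≤ Fintype.card α) {g : Equiv.Perm α} (hgc : g.IsCycle) (hgp : g.support.card = p) (hg : g ∈ G) : alternatingGroup α ≤ G := by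
  classical
  have hp2 := hp.two_le
  have hΓcard : ((g.support : Set α)ᶜ).ncard = Fintype.card α - p := by
    rw [Set.ncard_compl, Set.ncard_coe_finset, hgp, Nat.card_eq_fintype_card]
  obtain ⟨m, hm⟩ : ∃ m, Fintype.card α - p = m + 3 := ⟨Fintype.card α - p - 3, by omega⟩
  have hcardX : Nat.card (SubMulAction.ofFixingSubgroup G ((g.support : Set α)ᶜ)) = p := by
    show Nat.card ↥(((g.support : Set α)ᶜ)ᶜ) = p
    rw [Nat.card_coe_set_eq, compl_compl, Set.ncard_coe_finset, hgp]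
  have hprim : MulAction.IsPreprimitive (fixingSubgroup G ((g.support : Set α)ᶜ))
      (SubMulAction.ofFixingSubgroup G ((g.support : Set α)ᶜ)) := by
    haveI := Equiv.Perm.isPretransitive_of_isCycle_mem hgc hg
    apply MulAction.IsPreprimitive.of_prime_card
    rw [hcardX]; exact hp
  have hmp := hG.isMultiplyPreprimitive (s := ((g.support : Set α)ᶜ)) (n := m + 2)
    (by rw [hΓcard, hm]) (by rw [Nat.card_eq_fintype_card]; have := hp.two_le; omega) hprim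
  have hmt : MulAction.IsMultiplyPretransitive G α (m + 3) := by
    haveI : MulAction.IsMultiplyPretransitive G α (m + 2 + 2) :=
      MulAction.IsMultiplyPreprimitive.isMultiplyPretransitive G α _
    exact MulAction.isMultiplyPretransitive_of_le (n := m + 2 + 2) (by omega)
      (by rw [Nat.card_eq_fintype_card]; omega)
  have hcard3 : 2 < (Finset.univ \ g.support).card := by
    rw [Finset.card_univ_diff, hgp]; omega
  obtain ⟨γ1, γ2, γ3, h1, h2, h3, h12, h13, h23⟩ := Finset.two_lt_card_iff.mp hcard3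
  have h1' : γ1 ∉ g.support := (Finset.mem_sdiff.mp h1).2
  have h2' : γ2 ∉ g.support := (Finset.mem_sdiff.mp h2).2
  have h3' : γ3 ∉ g.support := (Finset.mem_sdiff.mp h3).2
  obtain ⟨c₁, hc₁G, i₁, hc₁g, hc₁⟩ :=
    exists_normalizing G hp hgc hgp hg (hΓcard.trans hm) hmt h1' h2'
  obtain ⟨c₂, hc₂G, i₂, hc₂g, hc₂⟩ :=
    exists_normalizing G hp hgc hgp hg (hΓcard.trans hm) hmt h2' h3'
  have hsw : ∀ (a b : α), a ∉ g.support → b ∉ g.support → ∀ γ, γ ∉ g.support →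
      Equiv.swap a b γ ∉ g.support := by
    intro a b ha hb γ hγ
    by_cases e1 : γ = a
    · rw [e1, Equiv.swap_apply_left]; exact hb
    · by_cases e2 : γ = b
      · rw [e2, Equiv.swap_apply_right]; exact ha
      · rw [Equiv.swap_apply_of_ne_of_ne e1 e2]; exact hγ
  have hc₁inv : ∀ γ, γ ∉ g.support → c₁⁻¹ γ = Equiv.swap γ1 γ2 γ := by
    intro γ hγ
    rw [Equiv.Perm.inv_eq_iff_eq, hc₁ _ (hsw _ _ h1' h2' γ hγ), Equiv.swap_apply_self]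
  have hc₂inv : ∀ γ, γ ∉ g.support → c₂⁻¹ γ = Equiv.swap γ2 γ3 γ := by
    intro γ hγ
    rw [Equiv.Perm.inv_eq_iff_eq, hc₂ _ (hsw _ _ h2' h3' γ hγ), Equiv.swap_apply_self]
  have hcG : c₁⁻¹ * c₂⁻¹ * c₁ * c₂ ∈ G :=
    G.mul_mem (G.mul_mem (G.mul_mem (G.inv_mem hc₁G) (G.inv_mem hc₂G)) hc₁G) hc₂G
  have hcomm : (c₁⁻¹ * c₂⁻¹ * c₁ * c₂) * g = g * (c₁⁻¹ * c₂⁻¹ * c₁ * c₂) := by
    have e1 : (c₁ * c₂) * g * (c₁ * c₂)⁻¹ = g ^ (i₁ * i₂) := by
      calc (c₁ * c₂) * g * (c₁ * c₂)⁻¹ = c₁ * (c₂ * g * c₂⁻¹) * c₁⁻¹ := by group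
        _ = c₁ * g ^ i₂ * c₁⁻¹ := by rw [hc₂g]
        _ = (c₁ * g * c₁⁻¹) ^ i₂ := (conj_zpow).symm
        _ = g ^ (i₁ * i₂) := by rw [hc₁g, zpow_mul]
    have e2 : (c₂ * c₁) * g * (c₂ * c₁)⁻¹ = g ^ (i₁ * i₂) := by
      calc (c₂ * c₁) * g * (c₂ * c₁)⁻¹ = c₂ * (c₁ * g * c₁⁻¹) * c₂⁻¹ := by group
        _ = c₂ * g ^ i₁ * c₂⁻¹ := by rw [hc₁g]
        _ = (c₂ * g * c₂⁻¹) ^ i₁ := (conj_zpow).symm
        _ = g ^ (i₁ * i₂) := by rw [hc₂g, mul_comm, zpow_mul]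
    have e4 : (c₁ * c₂) * g * (c₁ * c₂)⁻¹ = (c₂ * c₁) * g * (c₂ * c₁)⁻¹ := e1.trans e2.symm
    have e5 : (c₁ * c₂) * g = (c₂ * c₁) * g * (c₂ * c₁)⁻¹ * (c₁ * c₂) := by
      rw [← e4]; group
    calc (c₁⁻¹ * c₂⁻¹ * c₁ * c₂) * g = (c₂ * c₁)⁻¹ * ((c₁ * c₂) * g) := by group
      _ = (c₂ * c₁)⁻¹ * ((c₂ * c₁) * g * (c₂ * c₁)⁻¹ * (c₁ * c₂)) := by rw [← e5]
      _ = g * (c₁⁻¹ * c₂⁻¹ * c₁ * c₂) := by group
  have hcΓ : ∀ γ, γ ∉ g.support → (c₁⁻¹ * c₂⁻¹ * c₁ * c₂) γ =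
      Equiv.swap γ1 γ2 (Equiv.swap γ2 γ3 (Equiv.swap γ1 γ2 (Equiv.swap γ2 γ3 γ))) := by
    intro γ hγ
    show c₁⁻¹ (c₂⁻¹ (c₁ (c₂ γ))) = _
    have a1 := hsw _ _ h2' h3' γ hγ
    have a2 := hsw _ _ h1' h2' _ a1
    have a3 := hsw _ _ h2' h3' _ a2
    rw [hc₂ γ hγ, hc₁ _ a1, hc₂inv _ a2, hc₁inv _ a3]
  have hsupp_ne : g.support.Nonempty := by
    rw [← Finset.card_pos, hgp]; exact hp.pos
  obtain ⟨x₀, hx₀⟩ := hsupp_ne
  have hcsupp : ∀ y, y ∈ g.support → (c₁⁻¹ * c₂⁻¹ * c₁ * c₂) y ∈ g.support := by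
    intro y hy
    rw [Equiv.Perm.mem_support] at hy ⊢
    intro h
    apply hy
    have h4 : (c₁⁻¹ * c₂⁻¹ * c₁ * c₂) (g y) = g ((c₁⁻¹ * c₂⁻¹ * c₁ * c₂) y) :=
      congrArg (fun f : Equiv.Perm α => f y) hcomm
    exact (c₁⁻¹ * c₂⁻¹ * c₁ * c₂).injective (h4.trans h)
  obtain ⟨i, hi⟩ := hgc.exists_zpow_eq (Equiv.Perm.mem_support.mp hx₀)
    (Equiv.Perm.mem_support.mp (hcsupp x₀ hx₀))
  have hcΔ : ∀ y, y ∈ g.support → (c₁⁻¹ * c₂⁻¹ * c₁ * c₂) y = (g ^ i) y := by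
    intro y hy
    obtain ⟨j, hj⟩ := hgc.exists_zpow_eq (Equiv.Perm.mem_support.mp hx₀)
      (Equiv.Perm.mem_support.mp hy)
    have hcj : (c₁⁻¹ * c₂⁻¹ * c₁ * c₂) * g ^ j = g ^ j * (c₁⁻¹ * c₂⁻¹ * c₁ * c₂) :=
      Commute.zpow_right hcomm j
    rw [← hj]
    have e1 : (c₁⁻¹ * c₂⁻¹ * c₁ * c₂) ((g ^ j) x₀) = (g ^ j) ((c₁⁻¹ * c₂⁻¹ * c₁ * c₂) x₀) :=
      congrArg (fun f : Equiv.Perm α => f x₀) hcj
    rw [e1, ← hi]
    show (g ^ j * g ^ i) x₀ = (g ^ i * g ^ j) x₀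
    rw [← zpow_add, ← zpow_add, add_comm]
  have hd : (c₁⁻¹ * c₂⁻¹ * c₁ * c₂) * g ^ (-i) =
      Equiv.swap γ1 γ2 * Equiv.swap γ2 γ3 * (Equiv.swap γ1 γ2 * Equiv.swap γ2 γ3) := by
    ext y
    show (c₁⁻¹ * c₂⁻¹ * c₁ * c₂) ((g ^ (-i)) y) =
      Equiv.swap γ1 γ2 (Equiv.swap γ2 γ3 (Equiv.swap γ1 γ2 (Equiv.swap γ2 γ3 y)))
    by_cases hy : y ∈ g.support
    · have hy' : (g ^ (-i)) y ∈ g.support := Equiv.Perm.zpow_apply_mem_support.mpr hy
      rw [hcΔ _ hy']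
      have h5 : (g ^ i) ((g ^ (-i)) y) = y := by
        show (g ^ i * g ^ (-i)) y = y
        rw [← zpow_add, add_neg_cancel, zpow_zero]; rfl
      rw [h5]
      have hne : ∀ γ, γ ∉ g.support → y ≠ γ := fun γ hγ h => hγ (h ▸ hy)
      rw [Equiv.swap_apply_of_ne_of_ne (hne _ h2') (hne _ h3'),
        Equiv.swap_apply_of_ne_of_ne (hne _ h1') (hne _ h2'),
        Equiv.swap_apply_of_ne_of_ne (hne _ h2') (hne _ h3'),
        Equiv.swap_apply_of_ne_of_ne (hne _ h1') (hne _ h2')]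
    · have h5 : (g ^ (-i)) y = y :=
        Equiv.Perm.zpow_apply_eq_self_of_apply_eq_self (Equiv.Perm.notMem_support.mp hy) _
      rw [h5, hcΓ y hy]
  have htG : Equiv.swap γ1 γ2 * Equiv.swap γ2 γ3 * (Equiv.swap γ1 γ2 * Equiv.swap γ2 γ3) ∈ G := by
    rw [← hd]
    exact G.mul_mem hcG (G.zpow_mem hg _)
  have h3c : Equiv.Perm.IsThreeCycle
      (Equiv.swap γ1 γ2 * Equiv.swap γ2 γ3 * (Equiv.swap γ1 γ2 * Equiv.swap γ2 γ3)) := by
    apply Equiv.Perm.IsThreeCycle.isThreeCycle_sq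
    rw [Equiv.swap_comm γ1 γ2]
    exact Equiv.Perm.isThreeCycle_swap_mul_swap_same (Ne.symm h12) h23 h13
  exact Equiv.Perm.alternatingGroup_le_of_isPreprimitive_of_isThreeCycle_mem hG h3c htG

end Cfsg.Agent.S0713
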