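import Cfsg.Statements.S0714
import Mathlib

set_option autoImplicit false
open Cfsg

namespace Cfsg.Agent.S0714

/-- Over any field, the permutation module of the alternating group of degree at least 5 has exactly four invariant subspaces: zero, the constant functions, the functions with coordinate sum zero, and everything. -/
theorem result {α : Type*} [Fintype α] [DecidableEq α] (hα : 5 ≤ Fintype.card α) {K : Type*} [Field K] (W : Subrepresentation (Cfsg.permRep K (alternatingGroup α) α)) : W.toSubmodule = ⊥ ∨ W = Cfsg.permConstants K (alternatingGroup α) α ∨ W = Cfsg.permSumZero K (alternatingGroup α) α ∨ W.toSubmodule = ⊤ := by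
  classical
  have hρ : ∀ (g : alternatingGroup α) (f : α → K) (x : α),
      Cfsg.permRep K (alternatingGroup α) α g f x = f ((g⁻¹ : alternatingGroup α) • x) :=
    fun g f x => rfl
  have hsm : ∀ (g : alternatingGroup α) (x : α), g • x = (g : Equiv.Perm α) x := fun g x => rfl
  have h2t : ∀ {a b c d : α}, a ≠ b → c ≠ d → ∃ g : alternatingGroup α, g • a = c ∧ g • b = d := by
    have h := alternatingGroup.isMultiplyPretransitive α
    have h2 : MulAction.IsMultiplyPretransitive (alternatingGroup α) α 2 :=
      MulAction.isMultiplyPretransitive_of_le (n := Nat.card α - 2)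
        (by rw [Nat.card_eq_fintype_card]; omega) (Nat.sub_le _ _)
    intro a b c d hab hcd
    exact (MulAction.is_two_pretransitive_iff).1 h2 hab hcd
  obtain ⟨a₀⟩ : Nonempty α := by
    rw [← Fintype.card_pos_iff]; omega
  by_cases hc : ∀ v ∈ W.toSubmodule, ∀ a b, v a = v b
  · by_cases h0 : W.toSubmodule = ⊥
    · exact Or.inl h0
    · right; left
      apply Subrepresentation.toSubmodule_injective
      apply le_antisymm
      · intro v hv
        exact Submodule.mem_span_singleton.2 ⟨v a₀, funext fun x => by simp [hc v hv x a₀]⟩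
      · obtain ⟨v, hv, hv0⟩ := (Submodule.ne_bot_iff _).1 h0
        have hva : v a₀ ≠ 0 := by
          intro h
          apply hv0
          funext x
          rw [hc v hv x a₀, h]; rfl
        change Submodule.span K {fun _ => 1} ≤ W.toSubmodule
        rw [Submodule.span_le, Set.singleton_subset_iff]
        have : (fun _ => (1 : K)) = (v a₀)⁻¹ • v := by
          funext x
          simp [hc v hv x a₀, hva]
        rw [this]
        exact W.toSubmodule.smul_mem _ hv
  · push Not at hc
    obtain ⟨v, hv, a, b, hab⟩ := hc
    have hab' : a ≠ b := fun h => hab (by rw [h])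
    -- choose three further points
    obtain ⟨c, -, hc⟩ := Finset.exists_mem_notMem_of_card_lt_card
      (s := ({a, b} : Finset α)) (t := Finset.univ)
      (lt_of_le_of_lt (Finset.card_le_two) (by rw [Finset.card_univ]; omega))
    obtain ⟨d, -, hd⟩ := Finset.exists_mem_notMem_of_card_lt_card
      (s := ({a, b, c} : Finset α)) (t := Finset.univ)
      (lt_of_le_of_lt (Finset.card_le_three) (by rw [Finset.card_univ]; omega))
    obtain ⟨e, -, he⟩ := Finset.exists_mem_notMem_of_card_lt_card
      (s := ({a, b, c, d} : Finset α)) (t := Finset.univ)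
      (lt_of_le_of_lt (Finset.card_le_four) (by rw [Finset.card_univ]; omega))
    simp only [Finset.mem_insert, Finset.mem_singleton, not_or] at hc hd he
    obtain ⟨hca, hcb⟩ := hc
    obtain ⟨hda, hdb, hdc⟩ := hd
    obtain ⟨hea, heb, hec, hed⟩ := he
    have hσ : Equiv.swap a b * Equiv.swap b c ∈ alternatingGroup α := by
      rw [Equiv.Perm.mem_alternatingGroup, map_mul, Equiv.Perm.sign_swap hab',
        Equiv.Perm.sign_swap (Ne.symm hcb)]
      rfl
    have hτ : Equiv.swap a d * Equiv.swap d e ∈ alternatingGroup α := by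
      rw [Equiv.Perm.mem_alternatingGroup, map_mul, Equiv.Perm.sign_swap (Ne.symm hda),
        Equiv.Perm.sign_swap (Ne.symm hed)]
      rfl
    set gσ : alternatingGroup α := ⟨_, hσ⟩ with hgσ
    set gτ : alternatingGroup α := ⟨_, hτ⟩ with hgτ
    set u : α → K := v - Cfsg.permRep K (alternatingGroup α) α gσ⁻¹ v with hu
    have huW : u ∈ W.toSubmodule :=
      W.toSubmodule.sub_mem hv (W.apply_mem_toSubmodule _ hv)
    set w : α → K := u - Cfsg.permRep K (alternatingGroup α) α gτ⁻¹ u with hw
    have hwW : w ∈ W.toSubmodule :=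
      W.toSubmodule.sub_mem huW (W.apply_mem_toSubmodule _ huW)
    have hwx : ∀ x, w x = v x - v ((Equiv.swap a b * Equiv.swap b c) x)
        - (v ((Equiv.swap a d * Equiv.swap d e) x)
          - v ((Equiv.swap a b * Equiv.swap b c) ((Equiv.swap a d * Equiv.swap d e) x))) := by
      intro x
      rw [hw, Pi.sub_apply, hρ, hu, Pi.sub_apply, Pi.sub_apply, hρ, hρ, inv_inv, inv_inv, hsm, hsm,
        hsm]
    have hweq : w = (v a - v b) • (Pi.single a 1 - Pi.single e 1 : α → K) := by
      funext x
      rw [hwx x]
      simp only [Pi.smul_apply, Pi.sub_apply, Pi.single_apply, smul_eq_mul, Equiv.Perm.mul_apply]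
      by_cases hxa : x = a
      · subst hxa
        simp [Equiv.swap_apply_def, hab', hab'.symm, hca, Ne.symm hca, hcb, Ne.symm hcb, hda,
          Ne.symm hda, hdb, Ne.symm hdb, hdc, Ne.symm hdc, hea, Ne.symm hea, heb, Ne.symm heb,
          hec, Ne.symm hec, hed, Ne.symm hed]
      by_cases hxb : x = b
      · subst hxb
        simp [Equiv.swap_apply_def, hab', hab'.symm, hca, Ne.symm hca, hcb, Ne.symm hcb, hda,
          Ne.symm hda, hdb, Ne.symm hdb, hdc, Ne.symm hdc, hea, Ne.symm hea, heb, Ne.symm heb,
          hec, Ne.symm hec, hed, Ne.symm hed]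
      by_cases hxc : x = c
      · subst hxc
        simp [Equiv.swap_apply_def, hab', hab'.symm, hca, Ne.symm hca, hcb, Ne.symm hcb, hda,
          Ne.symm hda, hdb, Ne.symm hdb, hdc, Ne.symm hdc, hea, Ne.symm hea, heb, Ne.symm heb,
          hec, Ne.symm hec, hed, Ne.symm hed]
      by_cases hxd : x = d
      · subst hxd
        simp [Equiv.swap_apply_def, hab', hab'.symm, hca, Ne.symm hca, hcb, Ne.symm hcb, hda,
          Ne.symm hda, hdb, Ne.symm hdb, hdc, Ne.symm hdc, hea, Ne.symm hea, heb, Ne.symm heb,
          hec, Ne.symm hec, hed, Ne.symm hed]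
      by_cases hxe : x = e
      · subst hxe
        simp [Equiv.swap_apply_def, hab', hab'.symm, hca, Ne.symm hca, hcb, Ne.symm hcb, hda,
          Ne.symm hda, hdb, Ne.symm hdb, hdc, Ne.symm hdc, hea, Ne.symm hea, heb, Ne.symm heb,
          hec, Ne.symm hec, hed, Ne.symm hed]
      simp [Equiv.swap_apply_def, hxa, hxb, hxc, hxd, hxe]
    have hne : v a - v b ≠ 0 := sub_ne_zero.2 hab
    have hae : (Pi.single a 1 - Pi.single e 1 : α → K) ∈ W.toSubmodule := by
      have : (Pi.single a 1 - Pi.single e 1 : α → K) = (v a - v b)⁻¹ • w := by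
        rw [hweq, smul_smul, inv_mul_cancel₀ hne, one_smul]
      rw [this]
      exact W.toSubmodule.smul_mem _ hwW
    have hall : ∀ i j : α, i ≠ j → (Pi.single i 1 - Pi.single j 1 : α → K) ∈ W.toSubmodule := by
      intro i j hij
      obtain ⟨g, hga, hge⟩ := h2t (Ne.symm hea) hij
      have : (Pi.single i 1 - Pi.single j 1 : α → K)
          = Cfsg.permRep K (alternatingGroup α) α g (Pi.single a 1 - Pi.single e 1) := by
        funext x
        rw [hρ]
        simp only [Pi.sub_apply, Pi.single_apply, inv_smul_eq_iff, hga, hge]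
      rw [this]
      exact W.apply_mem_toSubmodule _ hae
    have hsz : (Cfsg.permSumZero K (alternatingGroup α) α).toSubmodule ≤ W.toSubmodule := by
      intro f hf
      have hf0 : ∑ x, f x = 0 := hf
      have : f = ∑ x, f x • (Pi.single x 1 - Pi.single a₀ 1 : α → K) := by
        funext y
        rw [Finset.sum_apply]
        simp only [Pi.smul_apply, Pi.sub_apply, Pi.single_apply, smul_eq_mul, mul_sub, mul_ite,
          mul_one, mul_zero, Finset.sum_sub_distrib, Finset.sum_ite_eq, Finset.mem_univ, if_true]
        by_cases hy : y = a₀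
        · simp [hy, hf0]
        · simp [hy]
      rw [this]
      refine W.toSubmodule.sum_mem fun x _ => W.toSubmodule.smul_mem _ ?_
      by_cases hx : x = a₀
      · rw [hx, sub_self]; exact W.toSubmodule.zero_mem
      · exact hall x a₀ hx
    by_cases hT : ∀ f ∈ W.toSubmodule, ∑ x, f x = 0
    · right; right; left
      apply Subrepresentation.toSubmodule_injective
      exact le_antisymm (fun f hf => hT f hf) hsz
    · right; right; right
      push Not at hT
      obtain ⟨f, hf, hfs⟩ := hT
      rw [eq_top_iff]
      intro h _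
      have : h = ((∑ x, h x) / (∑ x, f x)) • f + (h - ((∑ x, h x) / (∑ x, f x)) • f) := by
        abel
      rw [this]
      refine W.toSubmodule.add_mem (W.toSubmodule.smul_mem _ hf) (hsz ?_)
      change ∑ x, (h - ((∑ x, h x) / (∑ x, f x)) • f) x = 0
      simp only [Pi.sub_apply, Pi.smul_apply, smul_eq_mul, Finset.sum_sub_distrib, ← Finset.mul_sum]
      field_simp
      ring

end Cfsg.Agent.S0714
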