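import Cfsg.Statements.S0722
import Mathlib

set_option autoImplicit false
open Cfsg

namespace Cfsg.Agent.S0722

/-- In a primitive group `H`, with `N` a minimal normal subgroup and `K` a point stabiliser, `K ⊓ N` is maximal among proper `K`-invariant subgroups of `N`. -/
theorem result {α : Type*} [Finite α] (H : Subgroup (Equiv.Perm α)) [MulAction.IsPreprimitive H α] (N : Subgroup H) [N.Normal] (hN : N ≠ ⊥) (hmin : ∀ M : Subgroup H, M.Normal → M ≤ N → M = ⊥ ∨ M = N) (a : α) (X : Subgroup H) (hX : X ≤ N) (hKX : MulAction.stabilizer H a ⊓ N ≤ X) (hinv : MulAction.stabilizer H a ≤ Subgroup.normalizer (X : Set H)) : X = MulAction.stabilizer H a ⊓ N ∨ X = N := by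
  classical
  have hnt : Nontrivial α := by
    by_contra hcon
    rw [not_nontrivial_iff_subsingleton] at hcon
    apply hN
    rw [Subgroup.eq_bot_iff_forall]
    intro x _
    apply Subtype.ext
    exact Subsingleton.elim _ _
  have hco : IsCoatom (MulAction.stabilizer H a) :=
    (MulAction.isCoatom_stabilizer_iff_preprimitive H a).2 inferInstance
  set K := MulAction.stabilizer H a with hK
  have hle : K ≤ K ⊔ X := le_sup_left
  rcases eq_or_ne (K ⊔ X) ⊤ with htop | hne
  · -- X is normal
    have hXn : X.Normal := by
      rw [← Subgroup.normalizer_eq_top_iff, eq_top_iff, ← htop]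
      exact sup_le hinv Subgroup.le_normalizer
    rcases hmin X hXn hX with h | h
    · left
      rw [h] at hKX ⊢
      exact (le_bot_iff.1 hKX).symm
    · exact Or.inr h
  · left
    have hKX' : K ⊔ X = K := by
      by_contra h
      exact hne (hco.2 _ (lt_of_le_of_ne hle (Ne.symm h)))
    have hXK : X ≤ K := by rw [← hKX']; exact le_sup_right
    exact le_antisymm (le_inf hXK hX) hKX

end Cfsg.Agent.S0722
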