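import Cfsg.Statements.S0724
import Mathlib

set_option autoImplicit false
open Cfsg

namespace Cfsg.Agent.S0724

/-- Blichfeldt's Theorem: if a finite set `L` of natural numbers contains the number of fixed points of every non-identity element of a permutation group `G` of degree `n`, then the order of `G` divides `∏ (n - l)` over `l ∈ L`. -/
theorem result {α : Type*} [Fintype α] [DecidableEq α] (G : Subgroup (Equiv.Perm α)) (L : Finset ℕ) (hL : ∀ g ∈ G, g ≠ 1 → Nat.card (MulAction.fixedBy α g) ∈ L) : Nat.card G ∣ ∏ l ∈ L, (Fintype.card α - l) := by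
  classical
  letI : Fintype G := Fintype.ofFinite G
  set n := Fintype.card α with hn
  let fix : G → ℤ := fun g => (Nat.card (MulAction.fixedBy α (g : Equiv.Perm α)) : ℤ)
  have hpow : ∀ k : ℕ, (Nat.card G : ℤ) ∣ ∑ g : G, fix g ^ k := by
    intro k
    have hB := MulAction.sum_card_fixedBy_eq_card_orbits_mul_card_group G (Fin k → α)
    have hcard : ∀ g : G, Fintype.card (MulAction.fixedBy (Fin k → α) g)
        = Nat.card (MulAction.fixedBy α (g : Equiv.Perm α)) ^ k := by
      intro g
      rw [← Nat.card_eq_fintype_card]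
      have e : MulAction.fixedBy (Fin k → α) g ≃
          (Fin k → MulAction.fixedBy α (g : Equiv.Perm α)) :=
        { toFun := fun f i => ⟨f.1 i, by have := congrFun f.2 i; exact this⟩
          invFun := fun f => ⟨fun i => (f i).1, by funext i; exact (f i).2⟩
          left_inv := fun f => rfl
          right_inv := fun f => rfl }
      rw [Nat.card_congr e, Nat.card_fun]; simp
    have h1 : ((∑ g : G, Fintype.card (MulAction.fixedBy (Fin k → α) g) : ℕ) : ℤ)
        = ∑ g : G, fix g ^ k := by
      push_cast
      apply Finset.sum_congr rfl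
      intro g _
      rw [hcard]; simp [fix]
    rw [← h1, hB]
    push_cast
    rw [Nat.card_eq_fintype_card]
    exact Dvd.intro_left _ rfl
  have hpoly : ∀ p : Polynomial ℤ, (Nat.card G : ℤ) ∣ ∑ g : G, p.eval (fix g) := by
    intro p
    simp_rw [Polynomial.eval_eq_sum_range]
    rw [Finset.sum_comm]
    apply Finset.dvd_sum
    intro k _
    rw [← Finset.mul_sum]
    exact Dvd.dvd.mul_left (hpow k) _
  let P : Polynomial ℤ := ∏ l ∈ L, (Polynomial.X - Polynomial.C (l : ℤ))
  have hPeval : ∀ x : ℤ, P.eval x = ∏ l ∈ L, (x - l) := by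
    intro x; simp [P, Polynomial.eval_prod]
  have hsum : ∑ g : G, P.eval (fix g) = ∏ l ∈ L, ((n : ℤ) - l) := by
    rw [Fintype.sum_eq_single (1 : G)]
    · rw [hPeval]
      have : fix 1 = (n : ℤ) := by
        simp [fix, hn]
      rw [this]
    · intro g hg
      rw [hPeval]
      have hg' : (g : Equiv.Perm α) ≠ 1 := fun h => hg (Subtype.ext h)
      have := hL g g.2 hg'
      exact Finset.prod_eq_zero this (by simp [fix])
  have hdvd := hpoly P
  rw [hsum] at hdvd
  by_cases hall : ∀ l ∈ L, l ≤ n
  · have : ((∏ l ∈ L, (n - l) : ℕ) : ℤ) = ∏ l ∈ L, ((n : ℤ) - l) := by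
      rw [Nat.cast_prod]
      apply Finset.prod_congr rfl
      intro l hl
      rw [Nat.cast_sub (hall l hl)]
    rw [← this] at hdvd
    exact Int.natCast_dvd_natCast.1 hdvd
  · push Not at hall
    obtain ⟨l, hl, hln⟩ := hall
    rw [Finset.prod_eq_zero hl (by omega)]
    exact dvd_zero _

end Cfsg.Agent.S0724
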