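import Cfsg.Statements.S0726
import Mathlib

set_option autoImplicit false
open Cfsg

namespace Cfsg.Agent.S0726

/-- The left and right regular permutation representations of a group are each other's centralisers in the symmetric group: the centraliser of the left regular image is the right regular image, and a transitive subgroup centralising the left regular image is the whole right regular image. -/
theorem result {G : Type*} [Group G] : Subgroup.centralizer ((MulAction.toPermHom G G).range : Set (Equiv.Perm G)) = (MulAction.toPermHom Gᵐᵒᵖ G).range ∧ ∀ H : Subgroup (Equiv.Perm G), H ≤ Subgroup.centralizer ((MulAction.toPermHom G G).range : Set (Equiv.Perm G)) → MulAction.IsPretransitive H G → H = (MulAction.toPermHom Gᵐᵒᵖ G).range := by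
  have key : Subgroup.centralizer ((MulAction.toPermHom G G).range : Set (Equiv.Perm G))
      = (MulAction.toPermHom Gᵐᵒᵖ G).range := by
    ext c
    rw [Subgroup.mem_centralizer_iff, MonoidHom.mem_range]
    constructor
    · intro hc
      refine ⟨MulOpposite.op (c 1), ?_⟩
      ext x
      have h1 := hc (MulAction.toPermHom G G x) ⟨x, rfl⟩
      have h2 := congrArg (fun f : Equiv.Perm G => f 1) h1
      simp only [Equiv.Perm.mul_apply, MulAction.toPermHom_apply, MulAction.toPerm_apply,
        smul_eq_mul, mul_one] at h2
      rw [MulAction.toPermHom_apply, MulAction.toPerm_apply, op_smul_eq_mul]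
      exact h2
    · rintro ⟨g, rfl⟩ h ⟨x, rfl⟩
      ext y
      simp only [Equiv.Perm.mul_apply, MulAction.toPermHom_apply, MulAction.toPerm_apply,
        smul_eq_mul, MulOpposite.smul_eq_mul_unop, mul_assoc]
  refine ⟨key, ?_⟩
  intro H hH hT
  apply le_antisymm
  · rw [← key]
    exact hH
  · rintro _ ⟨g, rfl⟩
    obtain ⟨h, hh⟩ := MulAction.exists_smul_eq H (1 : G) (MulOpposite.unop g)
    have h1 : (h : Equiv.Perm G) ∈ (MulAction.toPermHom Gᵐᵒᵖ G).range := by
      rw [← key]
      exact hH h.2
    obtain ⟨g', hg'⟩ := h1
    have h2 : (h : Equiv.Perm G) 1 = MulOpposite.unop g := hh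
    rw [← hg', MulAction.toPermHom_apply, MulAction.toPerm_apply, MulOpposite.smul_eq_mul_unop,
      one_mul] at h2
    have h3 : g' = g := MulOpposite.unop_injective h2
    rw [← h3, hg']
    exact h.2

end Cfsg.Agent.S0726
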