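import Cfsg.Statements.S0733
import Mathlib

set_option autoImplicit false
open Cfsg

namespace Cfsg.Agent.S0733

open scoped Pointwise


/-- A permutation group of affine type — generated by the translations of a finite vector space `V` over `ZMod p` together with a group `G₀` of linear automorphisms — is primitive on `V` if and only if `G₀` is irreducible on `V`. -/
theorem result {p : ℕ} [Fact p.Prime] {V : Type*} [AddCommGroup V] [Module (ZMod p) V] [Finite V] [Nontrivial V] (G₀ : Subgroup (V ≃ₗ[ZMod p] V)) (G : Subgroup (Equiv.Perm V)) (hG : ∀ σ : Equiv.Perm V, σ ∈ G ↔ ∃ g ∈ G₀, ∃ b : V, ∀ x : V, σ x = (g : V ≃ₗ[ZMod p] V) x + b) : MulAction.IsPreprimitive G V ↔ ∀ W : Submodule (ZMod p) V, (∀ g ∈ G₀, ∀ v ∈ W, (g : V ≃ₗ[ZMod p] V) v ∈ W) → W = ⊥ ∨ W = ⊤ := by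
  classical
  have htr : ∀ b : V, Equiv.addRight b ∈ G := by
    intro b
    rw [hG]
    exact ⟨1, G₀.one_mem, b, fun x => by simp⟩
  have hlin : ∀ g ∈ G₀, (g : V ≃ₗ[ZMod p] V).toEquiv ∈ G := by
    intro g hg
    rw [hG]
    exact ⟨g, hg, 0, fun x => by simp⟩
  constructor
  · intro hprim W hW
    have hblock : MulAction.IsBlock G (W : Set V) := by
      rw [MulAction.isBlock_iff_smul_eq_of_mem]
      rintro ⟨σ, hσ⟩ x hx hσx
      obtain ⟨g, hg, b, hgb⟩ := (hG σ).mp hσ
      have hσx' : σ x ∈ W := hσx
      have hb : b ∈ W := by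
        have h1 := hW g hg x hx
        have h2 : b = σ x - g x := by rw [hgb]; abel
        rw [h2]; exact W.sub_mem hσx' h1
      ext z
      rw [Set.mem_smul_set_iff_inv_smul_mem]
      show σ⁻¹ z ∈ W ↔ z ∈ W
      constructor
      · intro hz
        have : z = σ (σ⁻¹ z) := by simp
        rw [this, hgb]
        exact W.add_mem (hW g hg _ hz) hb
      · intro hz
        have h3 : σ⁻¹ z = (g⁻¹ : V ≃ₗ[ZMod p] V) (z - b) := by
          rw [Equiv.Perm.inv_eq_iff_eq, hgb]
          have : g ((g⁻¹ : V ≃ₗ[ZMod p] V) (z - b)) = z - b := by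
            show (g * g⁻¹) (z - b) = z - b
            rw [mul_inv_cancel]; rfl
          rw [this]; abel
        rw [h3]
        exact hW g⁻¹ (G₀.inv_mem hg) _ (W.sub_mem hz hb)
    rcases hprim.isTrivialBlock_of_isBlock hblock with hs | hu
    · left
      rw [Submodule.eq_bot_iff]
      intro x hx
      exact hs hx W.zero_mem
    · right
      rw [Submodule.eq_top_iff']
      intro x
      have : x ∈ (W : Set V) := by rw [hu]; trivial
      exact this
  · intro hirr
    haveI : MulAction.IsPretransitive G V := by
      refine ⟨fun x y => ⟨⟨Equiv.addRight (y - x), htr _⟩, ?_⟩⟩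
      show x + (y - x) = y
      abel
    apply MulAction.IsPreprimitive.of_isTrivialBlock_base (0 : V)
    intro B h0 hB
    have hadd : ∀ u ∈ B, ∀ v ∈ B, u + v ∈ B := by
      intro u hu v hv
      have h1 : (⟨Equiv.addRight v, htr v⟩ : G) • B = B := by
        apply hB.smul_eq_of_mem h0
        show (0 : V) + v ∈ B
        rw [zero_add]; exact hv
      rw [← h1]
      exact ⟨u, hu, rfl⟩
    let W : Submodule (ZMod p) V :=
      { carrier := B
        zero_mem' := h0
        add_mem' := fun {u v} hu hv => hadd u hu v hv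
        smul_mem' := by
          intro c v hv
          have hn : ∀ n : ℕ, n • v ∈ B := by
            intro n
            induction n with
            | zero => rw [zero_smul]; exact h0
            | succ k ih => rw [succ_nsmul]; exact hadd _ ih _ hv
          have : c • v = c.val • v := by
            rw [← Nat.cast_smul_eq_nsmul (ZMod p), ZMod.natCast_zmod_val]
          show c • v ∈ B
          rw [this]; exact hn _ }
    have hWinv : ∀ g ∈ G₀, ∀ v ∈ W, (g : V ≃ₗ[ZMod p] V) v ∈ W := by
      intro g hg v hv
      have h1 : (⟨(g : V ≃ₗ[ZMod p] V).toEquiv, hlin g hg⟩ : G) • B = B := by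
        apply hB.smul_eq_of_mem h0
        show g (0 : V) ∈ B
        rw [map_zero]; exact h0
      show g v ∈ B
      rw [← h1]
      exact ⟨v, hv, rfl⟩
    rcases hirr W hWinv with h | h
    · left
      intro x hx y hy
      have hx' : x ∈ W := hx
      have hy' : y ∈ W := hy
      rw [h, Submodule.mem_bot] at hx' hy'
      rw [hx', hy']
    · right
      ext x
      simp only [Set.mem_univ, iff_true]
      have : x ∈ W := by rw [h]; trivial
      exact this

end Cfsg.Agent.S0733
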