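import Cfsg.Statements.S0734
import Mathlib

set_option autoImplicit false
open Cfsg

namespace Cfsg.Agent.S0734

open scoped Pointwise


/-- Higman's criterion for primitivity: a transitive action on a finite set is primitive if and only if every non-trivial orbital graph (edges = images of a fixed pair of distinct points) is connected. -/
theorem result {G : Type*} [Group G] {Ω : Type*} [Finite Ω] [MulAction G Ω] [MulAction.IsPretransitive G Ω] [Nontrivial Ω] : MulAction.IsPreprimitive G Ω ↔ ∀ a b : Ω, a ≠ b → (SimpleGraph.fromRel fun x y : Ω => ∃ g : G, g • a = x ∧ g • b = y).Connected := by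
  classical
  constructor
  · intro hprim a b hab
    have hadj : ∀ (g : G) (x y : Ω), (SimpleGraph.fromRel fun x y : Ω => ∃ g : G, g • a = x ∧ g • b = y).Adj x y →
        (SimpleGraph.fromRel fun x y : Ω => ∃ g : G, g • a = x ∧ g • b = y).Adj (g • x) (g • y) := by
      intro g x y h
      rw [SimpleGraph.fromRel_adj] at h ⊢
      refine ⟨fun h' => h.1 (MulAction.injective g h'), ?_⟩
      rcases h.2 with ⟨k, hk1, hk2⟩ | ⟨k, hk1, hk2⟩
      · left; exact ⟨g * k, by rw [mul_smul, hk1], by rw [mul_smul, hk2]⟩
      · right; exact ⟨g * k, by rw [mul_smul, hk1], by rw [mul_smul, hk2]⟩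
    have hreach : ∀ (g : G) (x y : Ω), (SimpleGraph.fromRel fun x y : Ω => ∃ g : G, g • a = x ∧ g • b = y).Reachable x y →
        (SimpleGraph.fromRel fun x y : Ω => ∃ g : G, g • a = x ∧ g • b = y).Reachable (g • x) (g • y) := by
      intro g x y h
      rw [SimpleGraph.reachable_iff_reflTransGen] at h ⊢
      induction h with
      | refl => exact Relation.ReflTransGen.refl
      | tail _ hyz ih => exact ih.tail (hadj g _ _ hyz)
    have hblock : MulAction.IsBlock G {x | (SimpleGraph.fromRel fun x y : Ω => ∃ g : G, g • a = x ∧ g • b = y).Reachable a x} := by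
      rw [MulAction.isBlock_iff_smul_eq_of_mem]
      intro g x hx hgx
      have h1 : (SimpleGraph.fromRel fun x y : Ω => ∃ g : G, g • a = x ∧ g • b = y).Reachable (g • a) a :=
        (hreach g a x hx).trans (SimpleGraph.Reachable.symm hgx)
      ext z
      simp only [Set.mem_smul_set_iff_inv_smul_mem, Set.mem_setOf_eq]
      constructor
      · intro hz
        have := hreach g _ _ hz
        rw [smul_inv_smul] at this
        exact h1.symm.trans this
      · intro hz
        have := hreach g⁻¹ _ _ (h1.trans hz)
        rw [inv_smul_smul] at this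
        exact this
    have hab' : (SimpleGraph.fromRel fun x y : Ω => ∃ g : G, g • a = x ∧ g • b = y).Adj a b := by
      rw [SimpleGraph.fromRel_adj]
      exact ⟨hab, Or.inl ⟨1, one_smul _ _, one_smul _ _⟩⟩
    rcases hprim.isTrivialBlock_of_isBlock hblock with hs | hu
    · exfalso
      exact hab (hs (show (SimpleGraph.fromRel fun x y : Ω => ∃ g : G, g • a = x ∧ g • b = y).Reachable a a from SimpleGraph.Reachable.refl a)
        (show (SimpleGraph.fromRel fun x y : Ω => ∃ g : G, g • a = x ∧ g • b = y).Reachable a b from hab'.reachable))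
    · haveI : Nonempty Ω := ⟨a⟩
      refine ⟨fun u v => ?_⟩
      have hu' : (SimpleGraph.fromRel fun x y : Ω => ∃ g : G, g • a = x ∧ g • b = y).Reachable a u := by
        have : u ∈ {x | (SimpleGraph.fromRel fun x y : Ω => ∃ g : G, g • a = x ∧ g • b = y).Reachable a x} := by
          rw [hu]; trivial
        exact this
      have hv' : (SimpleGraph.fromRel fun x y : Ω => ∃ g : G, g • a = x ∧ g • b = y).Reachable a v := by
        have : v ∈ {x | (SimpleGraph.fromRel fun x y : Ω => ∃ g : G, g • a = x ∧ g • b = y).Reachable a x} := by
          rw [hu]; trivial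
        exact this
      exact hu'.symm.trans hv'
  · intro h
    refine { isTrivialBlock_of_isBlock := ?_ }
    intro B hB
    by_cases hs : B.Subsingleton
    · exact Or.inl hs
    · right
      rw [Set.not_subsingleton_iff] at hs
      obtain ⟨a, ha, b, hb, hab⟩ := hs
      have hconn := h a b hab
      ext x
      simp only [Set.mem_univ, iff_true]
      have hr := hconn.preconnected a x
      rw [SimpleGraph.reachable_iff_reflTransGen] at hr
      induction hr with
      | refl => exact ha
      | tail _ hyz ih =>
        rw [SimpleGraph.fromRel_adj] at hyz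
        rcases hyz.2 with ⟨g, hg1, hg2⟩ | ⟨g, hg1, hg2⟩
        · have hgB : g • B = B := hB.smul_eq_of_mem ha (by rw [hg1]; exact ih)
          rw [← hgB, ← hg2]; exact Set.smul_mem_smul_set hb
        · have hgB : g • B = B := hB.smul_eq_of_mem hb (by rw [hg2]; exact ih)
          rw [← hgB, ← hg1]; exact Set.smul_mem_smul_set ha

end Cfsg.Agent.S0734
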