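import Cfsg.Statements.S0735
import Mathlib

set_option autoImplicit false
open Cfsg

namespace Cfsg.Agent.S0735

open scoped Pointwise


/-- A 2-homogeneous permutation group (transitive on 2-subsets) of even order is doubly transitive; a non-trivial 2-homogeneous group is primitive. -/
theorem result {α : Type*} [Fintype α] [DecidableEq α] (G : Subgroup (Equiv.Perm α)) (h2 : MulAction.IsPretransitive G (Set.powersetCard α 2)) (hα : 3 ≤ Fintype.card α) : (Even (Nat.card G) → MulAction.IsMultiplyPretransitive G α 2) ∧ (G ≠ ⊥ → MulAction.IsPreprimitive G α) := by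
  classical
  have hpair : ∀ a b x y : α, a ≠ b → x ≠ y → ∃ g : G, (g.1 a = x ∧ g.1 b = y) ∨ (g.1 a = y ∧ g.1 b = x) := by
    intro a b x y hab hxy
    obtain ⟨g, hg⟩ := h2.exists_smul_eq (⟨{a, b}, Finset.card_pair hab⟩ : Set.powersetCard α 2)
      (⟨{x, y}, Finset.card_pair hxy⟩ : Set.powersetCard α 2)
    have hg' : (g • ({a, b} : Finset α)) = ({x, y} : Finset α) := by
      have h3 := congrArg (fun s : Set.powersetCard α 2 => (s : Finset α)) hg
      have h4 : ((g • (⟨{a, b}, Finset.card_pair hab⟩ : Set.powersetCard α 2) : Set.powersetCard α 2) : Finset α)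
          = g • ({a, b} : Finset α) := Set.powersetCard.coe_smul
      rw [← h4]
      exact h3
    refine ⟨g, ?_⟩
    have ha : g.1 a ∈ ({x, y} : Finset α) := by
      rw [← hg']
      exact Finset.smul_mem_smul_finset (a := g) (by simp)
    have hb : g.1 b ∈ ({x, y} : Finset α) := by
      rw [← hg']
      exact Finset.smul_mem_smul_finset (a := g) (by simp)
    have hne : g.1 a ≠ g.1 b := fun h => hab (g.1.injective h)
    simp only [Finset.mem_insert, Finset.mem_singleton] at ha hb
    rcases ha with ha | ha <;> rcases hb with hb | hb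
    · exact absurd (ha.trans hb.symm) hne
    · exact Or.inl ⟨ha, hb⟩
    · exact Or.inr ⟨ha, hb⟩
    · exact absurd (ha.trans hb.symm) hne
  constructor
  · intro heven
    haveI : Fact (Nat.Prime 2) := ⟨Nat.prime_two⟩
    obtain ⟨t, ht⟩ := exists_prime_orderOf_dvd_card' 2 (even_iff_two_dvd.mp heven)
    have ht1 : t ≠ 1 := by
      rintro rfl
      rw [orderOf_one] at ht
      omega
    have ht2 : t * t = 1 := by
      have := pow_orderOf_eq_one t
      rw [ht, pow_two] at this
      exact this
    obtain ⟨a, ha⟩ : ∃ a, t.1 a ≠ a := by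
      by_contra hcon
      push Not at hcon
      apply ht1
      apply Subtype.ext
      ext x
      exact hcon x
    have htb : t.1 (t.1 a) = a := by
      have := congrArg (fun s : G => s.1 a) ht2
      simpa using this
    have hmove : ∀ x y : α, x ≠ y → ∃ k : G, k.1 a = x ∧ k.1 (t.1 a) = y := by
      intro x y hxy
      obtain ⟨k, hk | hk⟩ := hpair a (t.1 a) x y (Ne.symm ha) hxy
      · exact ⟨k, hk⟩
      · refine ⟨k * t, ?_, ?_⟩
        · show k.1 (t.1 a) = x
          exact hk.2
        · show k.1 (t.1 (t.1 a)) = y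
          rw [htb]; exact hk.1
    rw [MulAction.is_two_pretransitive_iff]
    intro x y c d hxy hcd
    obtain ⟨k₁, hk₁⟩ := hmove x y hxy
    obtain ⟨k₂, hk₂⟩ := hmove c d hcd
    refine ⟨k₂ * k₁⁻¹, ?_, ?_⟩
    · show k₂.1 (k₁.1⁻¹ x) = c
      rw [← hk₁.1]
      simp [hk₂.1]
    · show k₂.1 (k₁.1⁻¹ y) = d
      rw [← hk₁.2]
      simp [hk₂.2]
  · intro _
    haveI : MulAction.IsPretransitive G α := by
      refine ⟨fun x y => ?_⟩
      by_cases hxy : x = y
      · exact ⟨1, by rw [hxy]; rfl⟩
      · obtain ⟨z, -, hz⟩ : ∃ z ∈ (Finset.univ : Finset α), z ∉ ({x, y} : Finset α) := by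
          apply Finset.exists_mem_notMem_of_card_lt_card
          have := Finset.card_le_two (a := x) (b := y)
          rw [Finset.card_univ]
          omega
        simp only [Finset.mem_insert, Finset.mem_singleton, not_or] at hz
        obtain ⟨g, hg | hg⟩ := hpair x z y z (Ne.symm hz.1) (Ne.symm hz.2)
        · exact ⟨g, hg.1⟩
        · refine ⟨g * g, ?_⟩
          show g.1 (g.1 x) = y
          rw [hg.1, hg.2]
    refine { isTrivialBlock_of_isBlock := ?_ }
    intro B hB
    by_cases hs : B.Subsingleton
    · exact Or.inl hs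
    · right
      rw [Set.not_subsingleton_iff] at hs
      obtain ⟨a, ha, b, hb, hab⟩ := hs
      ext c
      simp only [Set.mem_univ, iff_true]
      by_cases hca : c = a
      · rw [hca]; exact ha
      · obtain ⟨g, hg | hg⟩ := hpair a b a c hab (Ne.symm hca)
        · have hgB : g • B = B := hB.smul_eq_of_mem ha (by show g.1 a ∈ B; rw [hg.1]; exact ha)
          rw [← hgB, ← hg.2]
          exact Set.smul_mem_smul_set (a := g) hb
        · have hgB : g • B = B := hB.smul_eq_of_mem hb (by show g.1 b ∈ B; rw [hg.2]; exact ha)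
          rw [← hgB, ← hg.1]
          exact Set.smul_mem_smul_set (a := g) ha

end Cfsg.Agent.S0735
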