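import Cfsg.Statements.S0740
import Mathlib

set_option autoImplicit false
open Cfsg

namespace Cfsg.Agent.S0740

/-- In a finite Zassenhaus group any two points `a ≠ b` are swapped by an involution; every such involution has exactly one fixed point when the degree is odd and 0 or 2 fixed points when the degree is even; and if the two-point stabiliser has even order, some such involution has exactly 2 fixed points. -/
theorem result {G Ω : Type*} [Group G] [Finite G] [MulAction G Ω] [Fintype Ω] (hZ : Cfsg.IsZassenhausGroup G Ω) {a b : Ω} (hab : a ≠ b) : (∃ s : G, orderOf s = 2 ∧ s • a = b ∧ s • b = a) ∧ (∀ s : G, orderOf s = 2 → s • a = b → s • b = a → (Odd (Fintype.card Ω) → Nat.card (MulAction.fixedBy Ω s) = 1) ∧ (Even (Fintype.card Ω) → Nat.card (MulAction.fixedBy Ω s) = 0 ∨ Nat.card (MulAction.fixedBy Ω s) = 2)) ∧ (Even (Fintype.card Ω) → Even (Nat.card ↥(MulAction.stabilizer G a ⊓ MulAction.stabilizer G b)) → ∃ s : G, orderOf s = 2 ∧ s • a = b ∧ s • b = a ∧ Nat.card (MulAction.fixedBy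 Ω s) = 2) := by
  classical
  obtain ⟨hfaith, h2t, h3, -, -⟩ := hZ
  rw [MulAction.is_two_pretransitive_iff] at h2t
  have hmoves : ∀ t : G, t ≠ 1 → ∃ c : Ω, t • c ≠ c := by
    intro t ht
    by_contra hcon
    push Not at hcon
    exact ht (hfaith.eq_of_smul_eq_smul (fun c => by rw [hcon c, one_smul]))
  have hconj : ∀ t : G, orderOf t = 2 → ∀ c : Ω, t • c ≠ c →
      ∃ h : G, orderOf (h * t * h⁻¹) = 2 ∧ (h * t * h⁻¹) • a = b ∧ (h * t * h⁻¹) • b = a ∧
        h • c = a ∧ h • (t • c) = b := by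
    intro t ht c hc
    obtain ⟨h, h1, h2⟩ := @h2t c (t • c) a b (Ne.symm hc) hab
    have htt : t • t • c = c := by
      rw [← mul_smul, ← pow_two, ← ht, pow_orderOf_eq_one, one_smul]
    have e1 : h⁻¹ • a = c := inv_smul_eq_iff.mpr h1.symm
    have e2 : h⁻¹ • b = t • c := inv_smul_eq_iff.mpr h2.symm
    refine ⟨h, ?_, ?_, ?_, h1, h2⟩
    · rw [← ht]; exact (MulAut.conj h).orderOf_eq t
    · rw [mul_smul, mul_smul, e1, h2]
    · rw [mul_smul, mul_smul, e2, htt, h1]
  have hne1 : ∀ t : G, orderOf t = 2 → t ≠ 1 := by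
    rintro t ht rfl
    rw [orderOf_one] at ht
    omega
  refine ⟨?_, ?_, ?_⟩
  · obtain ⟨g, hga, hgb⟩ := @h2t a b b a hab (Ne.symm hab)
    have hg2 : a ∈ MulAction.fixedBy Ω (g ^ 2) := by
      show (g ^ 2) • a = a
      rw [pow_two, mul_smul, hga, hgb]
    have heven : Even (orderOf g) := by
      by_contra hodd
      rw [Nat.not_even_iff_odd] at hodd
      obtain ⟨j, hj⟩ := hodd
      have e : g = (g ^ 2) ^ ((j + 1 : ℕ) : ℤ) := by
        rw [zpow_natCast, ← pow_mul, show 2 * (j + 1) = orderOf g + 1 by omega, pow_succ,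
          pow_orderOf_eq_one, one_mul]
      have h4 : g • a = a := by
        have h5 := MulAction.mem_fixedBy_zpow hg2 ((j + 1 : ℕ) : ℤ)
        rw [← e] at h5
        exact h5
      exact hab (h4.symm.trans hga)
    have ht : orderOf (g ^ (orderOf g / 2)) = 2 :=
      orderOf_pow_orderOf_div (orderOf_pos g).ne' heven.two_dvd
    obtain ⟨c, hc⟩ := hmoves _ (hne1 _ ht)
    obtain ⟨h, h1, h2, h3', -, -⟩ := hconj _ ht c hc
    exact ⟨_, h1, h2, h3'⟩
  · intro s hs _ _
    have hle : Nat.card (MulAction.fixedBy Ω s) ≤ 2 := by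
      by_contra hcon
      haveI : Fintype ↥(MulAction.fixedBy Ω s) := Fintype.ofFinite _
      rw [Nat.card_eq_fintype_card] at hcon
      obtain ⟨x, y, z, hxy, hxz, hyz⟩ :=
        (Fintype.two_lt_card_iff (α := ↥(MulAction.fixedBy Ω s))).mp (by omega)
      exact hne1 s hs (h3 s x.1 y.1 z.1 (fun h => hxy (Subtype.ext h)) (fun h => hyz (Subtype.ext h))
        (fun h => hxz (Subtype.ext h)) x.2 y.2 z.2)
    have hfp : MulAction.fixedPoints (Subgroup.zpowers s) Ω = MulAction.fixedBy Ω s := by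
      ext x
      constructor
      · intro h; exact h ⟨s, Subgroup.mem_zpowers s⟩
      · rintro h ⟨g, hg⟩
        obtain ⟨k, rfl⟩ := Subgroup.mem_zpowers_iff.mp hg
        exact MulAction.mem_fixedBy_zpow h k
    have hP : IsPGroup 2 (Subgroup.zpowers s) :=
      IsPGroup.of_card (n := 1) (by rw [Nat.card_zpowers, hs, pow_one])
    have hpar := hP.card_modEq_card_fixedPoints Ω
    rw [hfp, Nat.card_eq_fintype_card] at hpar
    have hpar' : Fintype.card Ω % 2 = Nat.card (MulAction.fixedBy Ω s) % 2 := hpar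
    constructor
    · intro hodd
      rw [Nat.odd_iff] at hodd
      omega
    · intro hev
      rw [Nat.even_iff] at hev
      omega
  · intro _ hH
    haveI : Fact (Nat.Prime 2) := ⟨Nat.prime_two⟩
    obtain ⟨z, hz⟩ := exists_prime_orderOf_dvd_card' 2 (even_iff_two_dvd.mp hH)
    have hz' : orderOf z.1 = 2 := by rw [Subgroup.orderOf_coe]; exact hz
    obtain ⟨hza, hzb⟩ := Subgroup.mem_inf.mp z.2
    rw [MulAction.mem_stabilizer_iff] at hza hzb
    obtain ⟨c, hc⟩ := hmoves _ (hne1 _ hz')
    obtain ⟨h, h1, h2, h3', -, -⟩ := hconj _ hz' c hc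
    refine ⟨_, h1, h2, h3', ?_⟩
    have hfix : MulAction.fixedBy Ω (h * z.1 * h⁻¹) = {h • a, h • b} := by
      ext x
      rw [MulAction.mem_fixedBy, mul_smul, mul_smul]
      constructor
      · intro hx
        have hx' : z.1 • (h⁻¹ • x) = h⁻¹ • x := by
          have h5 := congrArg (fun y => h⁻¹ • y) hx
          simp only [inv_smul_smul] at h5
          exact h5
        by_contra hcon
        rw [Set.mem_insert_iff, Set.mem_singleton_iff, not_or] at hcon
        have ha' : a ≠ h⁻¹ • x := fun h4 => hcon.1 (by rw [h4, smul_inv_smul])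
        have hb' : b ≠ h⁻¹ • x := fun h4 => hcon.2 (by rw [h4, smul_inv_smul])
        exact hne1 _ hz' (h3 z.1 a b (h⁻¹ • x) hab hb' ha' hza hzb hx')
      · rintro (rfl | rfl)
        · rw [inv_smul_smul, hza]
        · rw [inv_smul_smul, hzb]
    rw [hfix, Nat.card_coe_set_eq, Set.ncard_pair (fun h4 => hab (MulAction.injective h h4))]

end Cfsg.Agent.S0740
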