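import Cfsg.Statements.S0743
import Mathlib
import Cfsg.Agent.Lib_helper4_MultTrans

set_option autoImplicit false
open Cfsg

namespace Cfsg.Agent.S0743

lemma ncard_modEq_fixed {P α : Type*} [Group P] [MulAction P α] [Finite α] {p : ℕ} [Fact p.Prime]
    (hP : IsPGroup p P) (O : Set α) (hO : ∀ g : P, ∀ x ∈ O, g • x ∈ O) :
    O.ncard ≡ (O ∩ MulAction.fixedPoints P α).ncard [MOD p] := by
  let S : SubMulAction P α := ⟨O, fun g {x} hx => hO g x hx⟩
  have h1 := hP.card_modEq_card_fixedPoints S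
  have e1 : Nat.card S = O.ncard := _root_.Nat.card_coe_set_eq O
  have e2 : Nat.card (MulAction.fixedPoints P S) = (O ∩ MulAction.fixedPoints P α).ncard := by
    rw [_root_.Nat.card_coe_set_eq]
    have : O ∩ MulAction.fixedPoints P α = Subtype.val '' (MulAction.fixedPoints P S) := by
      ext x
      constructor
      · rintro ⟨hx, hfx⟩
        exact ⟨⟨x, hx⟩, fun g => Subtype.ext (hfx g), rfl⟩
      · rintro ⟨y, hy, rfl⟩
        exact ⟨y.2, fun g => congrArg Subtype.val (hy g)⟩
    rw [this, Set.ncard_image_of_injective _ Subtype.val_injective]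
  rw [e1, e2] at h1
  exact h1


/-- Gleason's Lemma: let `p` be a prime and `1 ≤ k < n`; if every `k`-subset of the `n` points is exactly the fixed-point set of some `p`-subgroup of `G`, then `G` is `k`-transitive. -/
theorem result {α : Type*} [Fintype α] [DecidableEq α] (G : Subgroup (Equiv.Perm α)) {p k : ℕ} (hp : p.Prime) (hk : 1 ≤ k) (hkn : k < Fintype.card α) (h : ∀ s : Finset α, s.card = k → ∃ P : Subgroup G, IsPGroup p P ∧ MulAction.fixedPoints P α = (s : Set α)) : MulAction.IsMultiplyPretransitive G α k := by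
  classical
  haveI := Fact.mk hp
  apply Cfsg.Agent.Lib_helper4_MultTrans.of_finset_fixing G hkn
  intro t htk a b hat hbt hab
  let O : Set α := {x | ∃ g ∈ G, (∀ y ∈ t, g y = y) ∧ g a = x}
  have haO : a ∈ O := ⟨1, G.one_mem, fun y _ => rfl, rfl⟩
  have hOt : ∀ x ∈ O, x ∉ t := by
    rintro x ⟨g, hg, hgt, rfl⟩ hx
    have h1 := hgt _ hx
    have h2 : g a = a := g.injective h1
    rw [h2] at hx; exact hat hx
  by_contra hcon
  have hbO : b ∉ O := fun ⟨g, hg, hgt, hgb⟩ => hcon ⟨g, hg, hgt, hgb⟩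
  obtain ⟨P, hP, hPfix⟩ := h (insert a t) (by rw [Finset.card_insert_of_notMem hat]; exact htk)
  obtain ⟨Q, hQ, hQfix⟩ := h (insert b t) (by rw [Finset.card_insert_of_notMem hbt]; exact htk)
  have hPO : ∀ g : P, ∀ x ∈ O, g • x ∈ O := by
    rintro g x ⟨g', hg', hg't, rfl⟩
    refine ⟨(g : G).1 * g', G.mul_mem (g : G).2 hg', fun y hy => ?_, rfl⟩
    show (g : G).1 (g' y) = y
    rw [hg't y hy]
    have hy' : y ∈ MulAction.fixedPoints P α := by rw [hPfix]; simp [hy]
    exact hy' g
  have hQO : ∀ g : Q, ∀ x ∈ O, g • x ∈ O := by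
    rintro g x ⟨g', hg', hg't, rfl⟩
    refine ⟨(g : G).1 * g', G.mul_mem (g : G).2 hg', fun y hy => ?_, rfl⟩
    show (g : G).1 (g' y) = y
    rw [hg't y hy]
    have hy' : y ∈ MulAction.fixedPoints Q α := by rw [hQfix]; simp [hy]
    exact hy' g
  have h1 := ncard_modEq_fixed hP O hPO
  have h2 := ncard_modEq_fixed hQ O hQO
  have e1 : O ∩ MulAction.fixedPoints P α = {a} := by
    rw [hPfix]; ext x; constructor
    · rintro ⟨hx, hx'⟩
      rcases Finset.mem_insert.mp (Finset.mem_coe.mp hx') with h | h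
      · exact h
      · exact absurd h (hOt x hx)
    · rintro rfl; exact ⟨haO, by simp⟩
  have e2 : O ∩ MulAction.fixedPoints Q α = ∅ := by
    rw [hQfix]; ext x; constructor
    · rintro ⟨hx, hx'⟩
      rcases Finset.mem_insert.mp (Finset.mem_coe.mp hx') with h | h
      · rw [h] at hx; exact absurd hx hbO
      · exact absurd h (hOt x hx)
    · intro hx; exact absurd hx (Set.notMem_empty x)
  rw [e1, Set.ncard_singleton] at h1
  rw [e2, Set.ncard_empty] at h2
  have h3 : p ∣ 1 := Nat.modEq_zero_iff_dvd.mp (h1.symm.trans h2)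
  exact hp.one_lt.ne' (Nat.dvd_one.mp h3)

end Cfsg.Agent.S0743
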