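import Cfsg.Statements.S0744
import Mathlib
import Cfsg.Agent.Lib_helper4_MultTrans

set_option autoImplicit false
open Cfsg

namespace Cfsg.Agent.S0744

lemma div_dvd_ncard {H α : Type*} [Group H] [Finite H] [MulAction H α] (S : Set α)
    (hS : S.Finite) (hinv : ∀ g : H, ∀ x ∈ S, g • x ∈ S) (c : ℕ)
    (hc : ∀ x ∈ S, Nat.card (MulAction.stabilizer H x) = c) :
    (Nat.card H / c) ∣ S.ncard := by
  classical
  let T : SubMulAction H α := ⟨S, fun g {x} hx => hinv g x hx⟩
  haveI : Finite T := hS.to_subtype
  haveI := Fintype.ofFinite H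
  haveI := Fintype.ofFinite T
  haveI : Fintype (Quotient (MulAction.orbitRel H T)) := Fintype.ofFinite _
  haveI : ∀ b : T, Fintype (MulAction.stabilizer H b) := fun b => Fintype.ofFinite _
  have h1 := MulAction.card_eq_sum_card_group_div_card_stabilizer H T
  have h2 : ∀ ω : Quotient (MulAction.orbitRel H T),
      Fintype.card H / Fintype.card (MulAction.stabilizer H ω.out) = Nat.card H / c := by
    intro ω
    rw [← Nat.card_eq_fintype_card, ← Nat.card_eq_fintype_card,
      SubMulAction.stabilizer_of_subMul, hc _ ω.out.2]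
  rw [Finset.sum_congr rfl (fun ω _ => h2 ω), Finset.sum_const, smul_eq_mul] at h1
  have h3 : S.ncard = Fintype.card T := by
    rw [← Nat.card_eq_fintype_card]; rfl
  rw [h3, h1]
  exact Dvd.intro_left _ rfl

lemma card_stabilizer_fixing {G' α : Type*} [Group G'] [MulAction G' α] (s : Set α) (y : α) :
    Nat.card (MulAction.stabilizer (fixingSubgroup G' s) y) =
      Nat.card (fixingSubgroup G' (insert y s)) := by
  have hle : fixingSubgroup G' (insert y s) ≤ fixingSubgroup G' s :=
    fun g hg => (mem_fixingSubgroup_iff G').mpr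
      (fun z hz => (mem_fixingSubgroup_iff G').mp hg z (Set.mem_insert_of_mem y hz))
  have e : MulAction.stabilizer (fixingSubgroup G' s) y =
      (fixingSubgroup G' (insert y s)).subgroupOf (fixingSubgroup G' s) := by
    ext ⟨g, hg⟩
    rw [MulAction.mem_stabilizer_iff, Subgroup.mem_subgroupOf, mem_fixingSubgroup_iff]
    constructor
    · intro h z hz
      rcases Set.mem_insert_iff.mp hz with rfl | hz
      · exact h
      · exact (mem_fixingSubgroup_iff G').mp hg z hz
    · intro h
      exact h y (Set.mem_insert _ _)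
  rw [e]
  exact Nat.card_congr (Subgroup.subgroupOfEquivOfLe hle).toEquiv


/-- If for some `k > 1` the pointwise stabilisers of all `(k-1)`-subsets have the same order `> 1` and those of all `k`-subsets have the same order, then the group is `(k-1)`-transitive. -/
theorem result {α : Type*} [Fintype α] [DecidableEq α] (G : Subgroup (Equiv.Perm α)) {k : ℕ} (hk : 1 < k) (hkn : k ≤ Fintype.card α) (l m : ℕ) (hl : 1 < l) (hkm1 : ∀ s : Finset α, s.card = k - 1 → Nat.card (fixingSubgroup G (s : Set α)) = l) (hkm : ∀ s : Finset α, s.card = k → Nat.card (fixingSubgroup G (s : Set α)) = m) : MulAction.IsMultiplyPretransitive G α (k - 1) := by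
  classical
  apply Cfsg.Agent.Lib_helper4_MultTrans.of_finset_fixing G (by omega)
  intro t htk a b hat hbt hab
  by_contra hcon
  let O : Set α := {x | ∃ g ∈ G, (∀ y ∈ t, g y = y) ∧ g b = x}
  have hbO : b ∈ O := ⟨1, G.one_mem, fun y _ => rfl, rfl⟩
  have haO : a ∉ O := by
    rintro ⟨g, hg, hgt, hga⟩
    refine hcon ⟨g⁻¹, G.inv_mem hg, fun y hy => ?_, ?_⟩
    · rw [Equiv.Perm.inv_eq_iff_eq]; exact (hgt y hy).symm
    · rw [Equiv.Perm.inv_eq_iff_eq]; exact hga.symm
  have hOt : ∀ x ∈ O, x ∉ t := by
    rintro x ⟨g, hg, hgt, rfl⟩ hx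
    have h1 := hgt _ hx
    have h2 : g b = b := g.injective h1
    rw [h2] at hx; exact hbt hx
  have hcardA : (insert a t).card = k - 1 := by
    rw [Finset.card_insert_of_notMem hat]; omega
  have hcardB : (insert b t).card = k - 1 := by
    rw [Finset.card_insert_of_notMem hbt]; omega
  have hKA := hkm1 _ hcardA
  have hKB := hkm1 _ hcardB
  have hstab : ∀ (c : α) (x : α), c ∉ t → x ∉ t → x ≠ c →
      Nat.card (MulAction.stabilizer (fixingSubgroup G ((insert c t : Finset α) : Set α)) x) = m := by
    intro c x hct hxt hxc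
    rw [card_stabilizer_fixing]
    have h1 := hkm (insert x (insert c t)) (by
      rw [Finset.card_insert_of_notMem (by simp [hxc, hxt]), Finset.card_insert_of_notMem hct]
      omega)
    rw [Finset.coe_insert] at h1
    exact h1
  have hA : (l / m) ∣ O.ncard := by
    have h1 := div_dvd_ncard (H := fixingSubgroup G ((insert a t : Finset α) : Set α)) O
      (Set.toFinite O) ?_ m ?_
    · rwa [hKA] at h1
    · rintro ⟨g, hg⟩ x ⟨g', hg', hg't, rfl⟩
      rw [mem_fixingSubgroup_iff] at hg
      refine ⟨g.1 * g', G.mul_mem g.2 hg', fun y hy => ?_, rfl⟩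
      show g.1 (g' y) = y
      rw [hg't y hy]
      exact hg y (by simp [hy])
    · intro x hx
      exact hstab a x hat (hOt x hx) (fun h => haO (h ▸ hx))
  have hB : (l / m) ∣ (O \ {b}).ncard := by
    have h1 := div_dvd_ncard (H := fixingSubgroup G ((insert b t : Finset α) : Set α)) (O \ {b})
      (Set.toFinite _) ?_ m ?_
    · rwa [hKB] at h1
    · rintro ⟨g, hg⟩ x ⟨⟨g', hg', hg't, rfl⟩, hxb⟩
      rw [mem_fixingSubgroup_iff] at hg
      have hgb : g.1 b = b := hg b (by simp)
      refine ⟨⟨g.1 * g', G.mul_mem g.2 hg', fun y hy => ?_, rfl⟩, ?_⟩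
      · show g.1 (g' y) = y
        rw [hg't y hy]
        exact hg y (by simp [hy])
      · intro h2
        apply hxb
        have h3 : g.1 (g' b) = g.1 b := Eq.trans h2 hgb.symm
        exact g.1.injective h3
    · rintro x ⟨hx, hxb⟩
      exact hstab b x hbt (hOt x hx) hxb
  have hcardO : (O \ {b}).ncard + 1 = O.ncard := Set.ncard_sdiff_singleton_add_one hbO
  have h1 : l / m = 1 := by
    rw [← hcardO] at hA
    exact Nat.dvd_one.mp ((Nat.dvd_add_right hB).mp hA)
  have hm : m ∣ l := by
    have h2 := Subgroup.card_subgroup_dvd_card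
      (MulAction.stabilizer (fixingSubgroup G ((insert b t : Finset α) : Set α)) a)
    rwa [hstab b a hbt hat hab, hKB] at h2
  have hlm : l = m := by
    obtain ⟨c, rfl⟩ := hm
    rcases Nat.eq_zero_or_pos m with h0 | h0
    · subst h0; simp at h1
    · rw [Nat.mul_div_cancel_left _ h0] at h1
      rw [h1, mul_one]
  have hbot : fixingSubgroup G ((insert b t : Finset α) : Set α) = ⊥ := by
    rw [Subgroup.eq_bot_iff_forall]
    intro g hg
    apply Subtype.ext
    apply Equiv.ext
    intro y
    by_cases hy : y ∈ insert b t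
    · exact (mem_fixingSubgroup_iff G).mp hg y (by exact_mod_cast hy)
    · have hyb : y ≠ b := fun h => hy (by simp [h])
      have hyt : y ∉ t := fun h => hy (by simp [h])
      have h2 := hstab b y hbt hyt hyb
      rw [← hlm, ← hKB] at h2
      have h3 := Subgroup.eq_top_of_card_eq _ h2
      have h4 : (⟨g, hg⟩ : fixingSubgroup G ((insert b t : Finset α) : Set α)) ∈
          MulAction.stabilizer (fixingSubgroup G ((insert b t : Finset α) : Set α)) y := by
        rw [h3]; exact Subgroup.mem_top _
      exact MulAction.mem_stabilizer_iff.mp h4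
  rw [Subgroup.eq_bot_iff_card, hKB] at hbot
  omega

end Cfsg.Agent.S0744
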