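import Cfsg.Statements.S0753
import Mathlib

set_option autoImplicit false
open Cfsg

namespace Cfsg.Agent.S0753

/-- If σ is a ring endomorphism of the field F other than the identity and B is a σ-sesquilinear conjugate-symmetric form with B v v = 0 for every v, then B = 0. -/
theorem result {F V : Type*} [Field F] [AddCommGroup V] [Module F V] (σ : F →+* F) (hσ : σ ≠ RingHom.id F) (B : V →ₛₗ[σ] V →ₗ[F] F) (hS : B.IsSymm) (h0 : ∀ v : V, B v v = 0) : B = 0 := by
  have h1 : ∀ v w, B v w + B w v = 0 := by
    intro v w
    have h := h0 (v + w)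
    simp only [map_add, LinearMap.add_apply, h0, zero_add, add_zero] at h
    linear_combination h
  have h2 : ∀ v w, σ (B v w) = - B v w := by
    intro v w
    rw [hS.eq]
    exact eq_neg_of_add_eq_zero_right (h1 v w)
  apply LinearMap.ext
  intro v
  apply LinearMap.ext
  intro w
  simp only [LinearMap.zero_apply]
  by_contra hb
  apply hσ
  ext a
  have h3 := h2 (a • v) w
  rw [LinearMap.map_smulₛₗ, LinearMap.smul_apply, smul_eq_mul, map_mul, h2 v w] at h3
  have h4 : σ (σ a) = σ a := by
    have h5 : σ (σ a) * B v w = σ a * B v w := by linear_combination -h3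
    exact mul_right_cancel₀ hb h5
  rw [RingHom.id_apply]
  exact σ.injective h4

end Cfsg.Agent.S0753
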