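import Cfsg.Statements.S0757
import Mathlib

set_option autoImplicit false
open Cfsg

namespace Cfsg.Agent.S0757

open Matrix

lemma polar_wss {F : Type*} [Field F] {ι : Type} [Fintype ι] [DecidableEq ι] (w : ι → F) (i j : ι) :
    QuadraticMap.polar (⇑(QuadraticMap.weightedSumSquares F w)) (Pi.single i 1) (Pi.single j 1)
      = if i = j then 2 * w i else 0 := by
  unfold QuadraticMap.polar
  simp only [QuadraticMap.weightedSumSquares_apply, smul_eq_mul, Pi.add_apply]
  rw [← Finset.sum_sub_distrib, ← Finset.sum_sub_distrib]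
  by_cases hij : i = j
  · subst hij
    rw [if_pos rfl, Finset.sum_eq_single i]
    · simp only [Pi.single_eq_same]
      ring
    · intro k _ hk
      have h0 : (Pi.single i (1 : F) : ι → F) k = 0 := Pi.single_eq_of_ne hk _
      rw [h0]
      ring
    · intro h
      exact absurd (Finset.mem_univ i) h
  · rw [if_neg hij]
    apply Finset.sum_eq_zero
    intro k _
    by_cases hki : k = i
    · subst hki
      have h0 : (Pi.single j (1 : F) : ι → F) k = 0 := Pi.single_eq_of_ne hij _
      rw [h0]
      ring
    · have h0 : (Pi.single i (1 : F) : ι → F) k = 0 := Pi.single_eq_of_ne hki _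
      rw [h0]
      ring

lemma toMatrix_wss {F : Type*} [Field F] {ι : Type} [Fintype ι] [DecidableEq ι] (w : ι → F) :
    LinearMap.BilinForm.toMatrix' (QuadraticMap.polarBilin (QuadraticMap.weightedSumSquares F w))
      = Matrix.diagonal (fun i => 2 * w i) := by
  ext i j
  rw [LinearMap.BilinForm.toMatrix'_apply, Matrix.diagonal_apply]
  exact polar_wss w i j

/-- The two diagonal forms Σ x_i^2 and Σ_(i<n) x_i^2 + α x_n^2 on F^(n+1), with α a non-square and 2 ≠ 0 in F, are inequivalent quadratic forms (so over a finite field of odd order there are exactly two classes of non-singular symmetric bilinear forms in each dimension). -/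
theorem result {F : Type*} [Field F] (h2 : (2 : F) ≠ 0) (n : ℕ) (α : F) (hα : ¬ IsSquare α) : ¬ (QuadraticMap.weightedSumSquares F (fun _ : Fin (n + 1) => (1 : F))).Equivalent (QuadraticMap.weightedSumSquares F (fun i : Fin (n + 1) => if i = Fin.last n then α else (1 : F))) := by
  classical
  rintro ⟨e⟩
  have hcomp : LinearMap.BilinForm.comp
      (QuadraticMap.polarBilin (QuadraticMap.weightedSumSquares F
        (fun i : Fin (n + 1) => if i = Fin.last n then α else (1 : F))))
      (e.toLinearEquiv : (Fin (n + 1) → F) →ₗ[F] (Fin (n + 1) → F))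
      (e.toLinearEquiv : (Fin (n + 1) → F) →ₗ[F] (Fin (n + 1) → F))
      = QuadraticMap.polarBilin (QuadraticMap.weightedSumSquares F (fun _ : Fin (n + 1) => (1 : F))) := by
    apply LinearMap.BilinForm.ext
    intro x y
    rw [LinearMap.BilinForm.comp_apply]
    show QuadraticMap.polar _ (e x) (e y) = QuadraticMap.polar _ x y
    unfold QuadraticMap.polar
    rw [← map_add, e.map_app, e.map_app, e.map_app]
  have h3 := congrArg Matrix.det (congrArg LinearMap.BilinForm.toMatrix' hcomp)
  rw [LinearMap.BilinForm.toMatrix'_comp, Matrix.det_mul, Matrix.det_mul, Matrix.det_transpose,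
    toMatrix_wss, toMatrix_wss, Matrix.det_diagonal, Matrix.det_diagonal, Finset.prod_mul_distrib,
    Finset.prod_mul_distrib, Finset.prod_const, Finset.prod_const_one, mul_one,
    Finset.prod_ite_eq' Finset.univ (Fin.last n) (fun _ => α), if_pos (Finset.mem_univ _)] at h3
  have h20 : (2 : F) ^ (Finset.univ : Finset (Fin (n + 1))).card ≠ 0 := pow_ne_zero _ h2
  set d := (LinearMap.toMatrix' (e.toLinearEquiv : (Fin (n + 1) → F) →ₗ[F] (Fin (n + 1) → F))).det with hd
  have h4 : (d * d * α) * (2 : F) ^ (Finset.univ : Finset (Fin (n + 1))).card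
      = 1 * (2 : F) ^ (Finset.univ : Finset (Fin (n + 1))).card := by
    linear_combination h3
  have h5 : d * d * α = 1 := mul_right_cancel₀ h20 h4
  have hd0 : d ≠ 0 := by
    rintro h0
    rw [h0] at h5
    simp at h5
  apply hα
  have h6 : α = d⁻¹ * d⁻¹ := by
    field_simp
    linear_combination h5
  exact ⟨d⁻¹, h6⟩

end Cfsg.Agent.S0757
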