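import Cfsg.Statements.S0758
import Mathlib

set_option autoImplicit false
open Cfsg

namespace Cfsg.Agent.S0758

/-- For a finite field F of odd order q and a non-square α: the form x² + y² is isotropic iff q ≡ 1 mod 4, and the form x² + α y² is isotropic iff q ≡ 3 mod 4. -/
theorem result {F : Type*} [Field F] [Fintype F] (h2 : (2 : F) ≠ 0) (α : F) (hα : ¬ IsSquare α) : ((∃ x y : F, (x ≠ 0 ∨ y ≠ 0) ∧ x ^ 2 + y ^ 2 = 0) ↔ Fintype.card F % 4 = 1) ∧ ((∃ x y : F, (x ≠ 0 ∨ y ≠ 0) ∧ x ^ 2 + α * y ^ 2 = 0) ↔ Fintype.card F % 4 = 3) := by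
  classical
  have hchar : ringChar F ≠ 2 := by
    intro h
    haveI : CharP F 2 := ringChar.of_eq h
    exact h2 (CharP.cast_eq_zero F 2)
  have hodd : Fintype.card F % 2 = 1 := FiniteField.odd_card_of_char_ne_two hchar
  have hα0 : α ≠ 0 := by
    rintro rfl
    exact hα ⟨0, by simp⟩
  have key : ∀ c : F, (∃ x y : F, (x ≠ 0 ∨ y ≠ 0) ∧ x ^ 2 + c * y ^ 2 = 0) ↔ IsSquare (-c) := by
    intro c
    constructor
    · rintro ⟨x, y, hxy, h⟩
      have hy : y ≠ 0 := by
        rintro rfl
        have hx : x = 0 := by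
          have : x ^ 2 = 0 := by simpa using h
          exact pow_eq_zero_iff (two_ne_zero) |>.mp this
        rcases hxy with h1 | h1
        · exact h1 hx
        · exact h1 rfl
      refine ⟨x / y, ?_⟩
      field_simp
      linear_combination -h
    · rintro ⟨r, hr⟩
      refine ⟨r, 1, Or.inr one_ne_zero, ?_⟩
      linear_combination -hr
  have hm1 : IsSquare (-1 : F) ↔ Fintype.card F % 4 ≠ 3 := FiniteField.isSquare_neg_one_iff
  constructor
  · have h1 := key 1
    simp only [one_mul] at h1
    rw [h1, hm1]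
    omega
  · rw [key α]
    have h3 : IsSquare (-α) ↔ ¬ IsSquare (-1 : F) := by
      have hneg : -α ≠ 0 := neg_ne_zero.mpr hα0
      rw [← quadraticChar_one_iff_isSquare hneg, ← quadraticChar_neg_one_iff_not_isSquare]
      have hmul : quadraticChar F (-α) = quadraticChar F (-1) * quadraticChar F α := by
        rw [← map_mul]
        congr 1
        ring
      rw [hmul, quadraticChar_neg_one_iff_not_isSquare.mpr hα]
      constructor
      · intro h
        linarith
      · intro h
        rw [h]
        norm_num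
    rw [h3, hm1]
    omega

end Cfsg.Agent.S0758
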