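import Cfsg.Statements.S0759
import Mathlib
import Cfsg.Agent.Lib_helper4_SumSq

set_option autoImplicit false
open Cfsg

namespace Cfsg.Agent.S0759

/-- Type of the orthonormal form: over a finite field of odd order q and for m ≥ 1, the quadratic form Σ_(i<2m) x_i² on F^(2m) admits an m-dimensional subspace on which it vanishes identically if and only if it is not the case that q ≡ 3 (mod 4) and m is odd. -/
theorem result {F : Type*} [Field F] [Fintype F] (h2 : (2 : F) ≠ 0) (m : ℕ) (hm : 1 ≤ m) : (∃ W : Submodule F (Fin (2 * m) → F), Module.finrank F W = m ∧ ∀ w ∈ W, ∑ i, w i ^ 2 = 0) ↔ ¬ (Fintype.card F % 4 = 3 ∧ Odd m) := by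
  classical
  constructor
  · rintro ⟨W, hW, h0⟩ ⟨hq, hodd⟩
    have h := Cfsg.Agent.Lib_helper4_SumSq.neg_one_pow_isSquare h2 m W hW h0
    rw [hodd.neg_one_pow] at h
    exact (FiniteField.isSquare_neg_one_iff.1 h) hq
  · intro h
    by_cases hq : Fintype.card F % 4 = 3
    · have hev : Even m := by
        rw [← Nat.not_odd_iff_even]
        exact fun ho => h ⟨hq, ho⟩
      obtain ⟨t, ht⟩ := hev
      have ht' : m = 2 * t := by omega
      subst ht'
      obtain ⟨a, b, hab⟩ := Cfsg.Agent.Lib_helper4_SymBasis.exists_sq_sum h2 (-1 : F) (-1)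
        (neg_ne_zero.2 one_ne_zero) (neg_ne_zero.2 one_ne_zero)
      obtain ⟨T, hT⟩ := Cfsg.Agent.Lib_helper4_SumSq.exists_antiisometry_of_even t a b
        (by linear_combination (-1 : F) * hab)
      exact Cfsg.Agent.Lib_helper4_SumSq.exists_of_antiisometry _ T hT
    · obtain ⟨i, hi⟩ := FiniteField.isSquare_neg_one_iff.2 hq
      obtain ⟨T, hT⟩ := Cfsg.Agent.Lib_helper4_SumSq.exists_antiisometry_of_sq m i hi.symm
      exact Cfsg.Agent.Lib_helper4_SumSq.exists_of_antiisometry _ T hT

end Cfsg.Agent.S0759
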