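import Cfsg.Statements.S0760
import Mathlib

set_option autoImplicit false
open Cfsg

namespace Cfsg.Agent.S0760

open Module in
theorem aux {F V : Type*} [Field F] [AddCommGroup V] [Module F V] [FiniteDimensional F V]
    (Q : QuadraticForm F V) (hQ : (QuadraticMap.polarBilin Q).Nondegenerate)
    (W₁ W₂ : Submodule F V) (h₁ : ∀ w ∈ W₁, Q w = 0) (h₂ : ∀ w ∈ W₂, Q w = 0)
    (hmax₂ : ∀ W : Submodule F V, W₂ ≤ W → (∀ w ∈ W, Q w = 0) → W = W₂) :
    finrank F W₁ ≤ finrank F W₂ := by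
  set B : LinearMap.BilinForm F V := QuadraticMap.polarBilin Q with hBdef
  have hBapp : ∀ x y, B x y = Q (x + y) - Q x - Q y := fun x y => rfl
  have hsymm : ∀ x y, B x y = B y x := by
    intro x y; rw [hBapp, hBapp, add_comm]; ring
  have hti : ∀ W : Submodule F V, (∀ w ∈ W, Q w = 0) → ∀ x ∈ W, ∀ y ∈ W, B x y = 0 := by
    intro W hW x hx y hy
    rw [hBapp, hW _ (W.add_mem hx hy), hW x hx, hW y hy]; ring
  have key : W₁ ⊓ B.orthogonal W₂ ≤ W₂ := by
    have hT : (W₁ ⊓ B.orthogonal W₂) ⊔ W₂ = W₂ := by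
      apply hmax₂ ((W₁ ⊓ B.orthogonal W₂) ⊔ W₂) le_sup_right
      intro t ht
      obtain ⟨u, hu, w, hw, rfl⟩ := Submodule.mem_sup.1 ht
      have h3 : B w u = 0 := hu.2 w hw
      have h4 : Q (u + w) = Q u + Q w + B u w := by rw [hBapp]; ring
      rw [h4, h₁ u hu.1, h₂ w hw, hsymm, h3]; ring
    exact (le_sup_left : W₁ ⊓ B.orthogonal W₂ ≤ (W₁ ⊓ B.orthogonal W₂) ⊔ W₂).trans hT.le
  have hE : W₁ ⊓ B.orthogonal W₂ ≤ W₁ ⊓ W₂ := le_inf inf_le_left key
  have hsup : W₁ ⊔ B.orthogonal W₂ ≤ B.orthogonal (W₁ ⊓ W₂) := by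
    apply sup_le
    · intro u hu d hd
      exact hti W₁ h₁ d hd.1 u hu
    · exact LinearMap.BilinForm.orthogonal_le inf_le_right
  have e1 := Submodule.finrank_sup_add_finrank_inf_eq W₁ (B.orthogonal W₂)
  have e2 : finrank F (B.orthogonal W₂) = finrank F V - finrank F W₂ :=
    LinearMap.BilinForm.finrank_orthogonal hQ W₂
  have e3 : finrank F (B.orthogonal (W₁ ⊓ W₂)) = finrank F V - finrank F ↥(W₁ ⊓ W₂) :=
    LinearMap.BilinForm.finrank_orthogonal hQ _
  have e4 := Submodule.finrank_mono hsup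
  have e5 := Submodule.finrank_mono hE
  have e6 := Submodule.finrank_le W₂
  have e7 : finrank F ↥(W₁ ⊓ W₂) ≤ finrank F W₂ := Submodule.finrank_mono inf_le_right
  omega

/-- Witt index is well defined: if Q is a quadratic form on a finite-dimensional space V over a finite field with non-degenerate polar form, and W₁, W₂ are subspaces on which Q vanishes that are maximal with this property, then W₁ and W₂ have the same dimension, and twice this dimension is at most dim V. -/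
theorem result {F V : Type*} [Field F] [Finite F] [AddCommGroup V] [Module F V] [FiniteDimensional F V] (Q : QuadraticForm F V) (hQ : (QuadraticMap.polarBilin Q).Nondegenerate) (W₁ W₂ : Submodule F V) (h₁ : ∀ w ∈ W₁, Q w = 0) (h₂ : ∀ w ∈ W₂, Q w = 0) (hmax₁ : ∀ W : Submodule F V, W₁ ≤ W → (∀ w ∈ W, Q w = 0) → W = W₁) (hmax₂ : ∀ W : Submodule F V, W₂ ≤ W → (∀ w ∈ W, Q w = 0) → W = W₂) : Module.finrank F W₁ = Module.finrank F W₂ ∧ 2 * Module.finrank F W₁ ≤ Module.finrank F V := by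
  refine ⟨le_antisymm (aux Q hQ W₁ W₂ h₁ h₂ hmax₂) (aux Q hQ W₂ W₁ h₂ h₁ hmax₁), ?_⟩
  set B : LinearMap.BilinForm F V := QuadraticMap.polarBilin Q with hBdef
  have hBapp : ∀ x y, B x y = Q (x + y) - Q x - Q y := fun x y => rfl
  have hle : W₁ ≤ B.orthogonal W₁ := by
    intro u hu d hd
    change B d u = 0
    rw [hBapp, h₁ _ (W₁.add_mem hd hu), h₁ d hd, h₁ u hu]; ring
  have e2 : Module.finrank F (B.orthogonal W₁) = Module.finrank F V - Module.finrank F W₁ :=
    LinearMap.BilinForm.finrank_orthogonal hQ W₁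
  have e3 := Submodule.finrank_mono hle
  have e4 := Submodule.finrank_le W₁
  omega

end Cfsg.Agent.S0760
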