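import Cfsg.Statements.S0761
import Mathlib

set_option autoImplicit false
open Cfsg

namespace Cfsg.Agent.S0761

/-- Hyperbolic partners: let B be a non-degenerate bilinear form on a finite-dimensional space, either alternating, or symmetric with 2 ≠ 0. If Z is a subspace on which B vanishes, x ∉ Z is isotropic and orthogonal to Z, then there is an isotropic y with B x y = 1 which is orthogonal to Z. -/
theorem result {F V : Type*} [Field F] [AddCommGroup V] [Module F V] [FiniteDimensional F V] (B : LinearMap.BilinForm F V) (hB : B.Nondegenerate) (hform : B.IsAlt ∨ (B.IsSymm ∧ (2 : F) ≠ 0)) (x : V) (Z : Submodule F V) (hxZ : x ∉ Z) (hx : B x x = 0) (hxz : ∀ z ∈ Z, B x z = 0) (hZ : ∀ z ∈ Z, ∀ z' ∈ Z, B z z' = 0) : ∃ y : V, B y y = 0 ∧ B x y = 1 ∧ ∀ z ∈ Z, B z y = 0 := by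
  obtain ⟨f, hfx, hf⟩ := Submodule.exists_dual_map_eq_bot_of_notMem hxZ inferInstance
  have hfZ : ∀ z ∈ Z, f z = 0 := by
    intro z hz
    have h1 : f z ∈ Z.map f := Submodule.mem_map_of_mem hz
    rw [hf] at h1
    simpa using h1
  have hy0v : ∀ v, B ((B.toDual hB).symm ((f x)⁻¹ • f)) v = (f x)⁻¹ * f v := by
    intro v
    rw [LinearMap.BilinForm.apply_toDual_symm_apply]
    rfl
  generalize (B.toDual hB).symm ((f x)⁻¹ • f) = y0 at hy0v
  have hy0x : B y0 x = 1 := by rw [hy0v, inv_mul_cancel₀ hfx]
  have hy0z : ∀ z ∈ Z, B y0 z = 0 := by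
    intro z hz
    rw [hy0v, hfZ z hz, mul_zero]
  rcases hform with hA | ⟨hS, h2⟩
  · have halt : ∀ u v, B u v = - B v u := by
      intro u v
      have h := hA (u + v)
      simp only [map_add, LinearMap.add_apply, hA u, hA v, zero_add, add_zero] at h
      linear_combination h
    refine ⟨-y0, ?_, ?_, ?_⟩
    · exact hA _
    · rw [map_neg, halt x y0, hy0x, neg_neg]
    · intro z hz
      rw [map_neg, halt z y0, hy0z z hz, neg_zero, neg_zero]
  · have hsym : ∀ u v, B u v = B v u := fun u v => by
      have := hS.eq u v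
      simpa using this
    refine ⟨y0 - (B y0 y0 / 2) • x, ?_, ?_, ?_⟩
    · simp only [map_sub, map_smul, LinearMap.sub_apply, LinearMap.smul_apply, smul_eq_mul, hx,
        hy0x, hsym x y0]
      field_simp
      ring
    · simp only [map_sub, map_smul, smul_eq_mul, hx, hsym x y0, hy0x]
      ring
    · intro z hz
      simp only [map_sub, map_smul, smul_eq_mul, hsym z y0, hsym z x, hy0z z hz, hxz z hz]
      ring

end Cfsg.Agent.S0761
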