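import Cfsg.Statements.S0762
import Mathlib

set_option autoImplicit false
open Cfsg

namespace Cfsg.Agent.S0762

/-- In characteristic two over a finite field, a quadratic form on a space of dimension at least 3 vanishes on some non-zero vector. -/
theorem result {F V : Type*} [Field F] [Finite F] [CharP F 2] [AddCommGroup V] [Module F V] [FiniteDimensional F V] (Q : QuadraticForm F V) (h3 : 3 ≤ Module.finrank F V) : ∃ v : V, v ≠ 0 ∧ Q v = 0 := by
  obtain ⟨f, hf⟩ := exists_linearIndependent_of_le_finrank h3
  rw [Fintype.linearIndependent_iff] at hf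
  have hchar : ringChar F = 2 := ringChar.eq F 2
  have hadd : ∀ a : F, a + a = 0 := fun a => CharTwo.add_self_eq_zero a
  obtain ⟨w, hwb, hwind⟩ : ∃ w : V, QuadraticMap.polar Q (f 0) w = 0 ∧ ∀ t : F, w + t • f 0 ≠ 0 := by
    by_cases hc1 : QuadraticMap.polar Q (f 0) (f 1) = 0
    · refine ⟨f 1, hc1, fun t h => ?_⟩
      have h1 := hf ![t, 1, 0] (by
        simp only [Fin.sum_univ_three, Matrix.cons_val_zero, Matrix.cons_val_one, Matrix.cons_val_two,
          Matrix.tail_cons, Matrix.head_cons]
        rw [zero_smul, add_zero, one_smul, add_comm]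
        exact h) 1
      simp at h1
    · refine ⟨QuadraticMap.polar Q (f 0) (f 2) • f 1 - QuadraticMap.polar Q (f 0) (f 1) • f 2, ?_,
        fun t h => ?_⟩
      · rw [QuadraticMap.polar_sub_right, QuadraticMap.polar_smul_right, QuadraticMap.polar_smul_right,
          smul_eq_mul, smul_eq_mul, mul_comm, sub_self]
      · have h1 := hf ![t, QuadraticMap.polar Q (f 0) (f 2), - QuadraticMap.polar Q (f 0) (f 1)] (by
          simp only [Fin.sum_univ_three, Matrix.cons_val_zero, Matrix.cons_val_one, Matrix.cons_val_two,
            Matrix.tail_cons, Matrix.head_cons]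
          rw [← h]
          simp only [neg_smul]
          abel) 2
        simp only [Matrix.cons_val_two, Matrix.tail_cons, Matrix.head_cons, neg_eq_zero] at h1
        exact hc1 h1
  by_cases hQ0 : Q (f 0) = 0
  · refine ⟨f 0, ?_, hQ0⟩
    intro h0
    have h1 := hf ![1, 0, 0] (by
      simp only [Fin.sum_univ_three, Matrix.cons_val_zero, Matrix.cons_val_one, Matrix.cons_val_two,
        Matrix.tail_cons, Matrix.head_cons]
      rw [h0]
      simp) 0
    simp at h1
  · obtain ⟨t, ht⟩ := FiniteField.isSquare_of_char_two hchar (Q w / Q (f 0))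
    refine ⟨w + t • f 0, hwind t, ?_⟩
    have e1 := QuadraticMap.map_add Q w (t • f 0)
    have e2 := QuadraticMap.map_smul Q t (f 0)
    have e3 : QuadraticMap.polar Q w (t • f 0) = 0 := by
      rw [QuadraticMap.polar_smul_right, QuadraticMap.polar_comm, hwb, smul_zero]
    rw [e1, e2, e3, add_zero, ← ht, smul_eq_mul, div_mul_cancel₀ _ hQ0]
    exact hadd _

end Cfsg.Agent.S0762
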