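import Cfsg.Statements.S0763
import Mathlib

set_option autoImplicit false
open Cfsg

namespace Cfsg.Agent.S0763

/-- Binary quadratic forms in characteristic two over a finite field: if Q is a quadratic form on a 2-dimensional space whose polar form is non-degenerate, then either there are vectors v, w with Q v = Q w = 0 and polar value 1 (Q is xy in these coordinates), or there are v, w and μ with Q v = 1, Q w = μ, polar value 1 and x² + x + μ without roots in F (Q is x² + xy + μy²). -/
theorem result {F V : Type*} [Field F] [Finite F] [CharP F 2] [AddCommGroup V] [Module F V] (Q : QuadraticForm F V) (h2 : Module.finrank F V = 2) (hQ : (QuadraticMap.polarBilin Q).Nondegenerate) : (∃ v w : V, LinearIndependent F ![v, w] ∧ Q v = 0 ∧ Q w = 0 ∧ QuadraticMap.polar Q v w = 1) ∨ (∃ (v w : V) (μ : F), LinearIndependent F ![v, w] ∧ (∀ x : F, x ^ 2 + x + μ ≠ 0) ∧ Q v = 1 ∧ Q w = μ ∧ QuadraticMap.polar Q v w = 1) := by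
  have h20 : (2 : F) = 0 := CharTwo.two_eq_zero
  have hself : ∀ v : V, QuadraticMap.polar (⇑Q) v v = 0 := by
    intro v
    rw [QuadraticMap.polar_self, two_smul]
    have : Q v + Q v = 2 * Q v := by ring
    rw [this, h20, zero_mul]
  have hadd : ∀ c : F, c + c = 0 := by
    intro c
    have : c + c = 2 * c := by ring
    rw [this, h20, zero_mul]
  -- partner
  have hpart : ∀ v : V, v ≠ 0 → ∃ w : V, QuadraticMap.polar (⇑Q) v w = 1 := by
    intro v hv
    have h1 : ¬ ∀ y : V, QuadraticMap.polarBilin Q v y = 0 := fun h => hv (hQ.1 v h)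
    rw [not_forall] at h1
    obtain ⟨w₀, hw₀⟩ := h1
    refine ⟨(QuadraticMap.polarBilin Q v w₀)⁻¹ • w₀, ?_⟩
    rw [QuadraticMap.polar_smul_right, smul_eq_mul]
    exact inv_mul_cancel₀ hw₀
  -- independence
  have hind : ∀ v w : V, QuadraticMap.polar (⇑Q) v w = 1 → LinearIndependent F ![v, w] := by
    intro v w hvw
    rw [LinearIndependent.pair_iff]
    intro s t hst
    have e1 : QuadraticMap.polar (⇑Q) v (s • v + t • w) = t := by
      rw [QuadraticMap.polar_add_right, QuadraticMap.polar_smul_right, QuadraticMap.polar_smul_right,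
        hself, hvw]
      simp
    have e2 : QuadraticMap.polar (⇑Q) (s • v + t • w) w = s := by
      rw [QuadraticMap.polar_add_left, QuadraticMap.polar_smul_left, QuadraticMap.polar_smul_left,
        hself, hvw]
      simp
    rw [hst] at e1 e2
    have z1 : QuadraticMap.polar (⇑Q) v 0 = 0 := by simp [QuadraticMap.polar]
    have z2 : QuadraticMap.polar (⇑Q) 0 w = 0 := by simp [QuadraticMap.polar]
    rw [z1] at e1
    rw [z2] at e2
    exact ⟨e2.symm, e1.symm⟩
  have hnt : Nontrivial V := by
    apply Module.nontrivial_of_finrank_pos (R := F)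
    rw [h2]
    norm_num
  obtain ⟨v₀, hv₀⟩ := exists_ne (0 : V)
  by_cases hA : ∃ v : V, v ≠ 0 ∧ Q v = 0
  · left
    obtain ⟨v, hv, hQv⟩ := hA
    obtain ⟨w, hw⟩ := hpart v hv
    have hw' : QuadraticMap.polar (⇑Q) v (w + Q w • v) = 1 := by
      rw [QuadraticMap.polar_add_right, QuadraticMap.polar_smul_right, hself, hw]
      simp
    refine ⟨v, w + Q w • v, hind v _ hw', hQv, ?_, hw'⟩
    rw [QuadraticMap.map_add (⇑Q), QuadraticMap.map_smul, hQv, QuadraticMap.polar_smul_right,
      QuadraticMap.polar_comm, hw, smul_eq_mul, smul_eq_mul, mul_zero, add_zero, mul_one]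
    exact hadd _
  · right
    have hB : ∀ v : V, Q v = 0 → v = 0 := by
      intro v hv
      by_contra hne
      exact hA ⟨v, hne, hv⟩
    have hc : Q v₀ ≠ 0 := fun h => hv₀ (hB v₀ h)
    obtain ⟨l, hl⟩ := isSquare_of_charTwo' (Q v₀)⁻¹
    have hl0 : l ≠ 0 := by
      rintro rfl
      rw [mul_zero] at hl
      exact inv_ne_zero hc hl
    have hv : l • v₀ ≠ 0 := smul_ne_zero hl0 hv₀
    have hQv : Q (l • v₀) = 1 := by
      rw [QuadraticMap.map_smul, ← hl, smul_eq_mul]
      exact inv_mul_cancel₀ hc
    obtain ⟨w, hw⟩ := hpart (l • v₀) hv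
    have hli := hind (l • v₀) w hw
    refine ⟨l • v₀, w, Q w, hli, ?_, hQv, rfl, hw⟩
    intro x hx
    have h1 : Q (x • (l • v₀) + w) = x ^ 2 + x + Q w := by
      rw [QuadraticMap.map_add (⇑Q), QuadraticMap.map_smul, hQv, QuadraticMap.polar_smul_left, hw,
        smul_eq_mul, smul_eq_mul]
      ring
    rw [hx] at h1
    have h3 := hB _ h1
    rw [LinearIndependent.pair_iff] at hli
    have h4 := hli x 1 (by rw [one_smul]; exact h3)
    exact one_ne_zero h4.2

end Cfsg.Agent.S0763
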