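import Cfsg.Statements.S0766
import Mathlib
import Cfsg.Agent.Lib_helper4_Sp

set_option autoImplicit false
open Cfsg

namespace Cfsg.Agent.S0766

/-- The subgroup generated by the symplectic transvections acts transitively on ordered pairs (u, v) with f(u, v) = 1. -/
theorem result {F : Type*} [Field F] (m : ℕ) (u v u' v' : Fin m ⊕ Fin m → F) (h : Cfsg.sympForm m F u v = 1) (h' : Cfsg.sympForm m F u' v' = 1) : ∃ A ∈ Subgroup.closure {A : Matrix.symplecticGroup (Fin m) F | ∃ (w : Fin m ⊕ Fin m → F) (c : F), (A : Matrix (Fin m ⊕ Fin m) (Fin m ⊕ Fin m) F) = Cfsg.sympTransvection m w c}, (A : Matrix (Fin m ⊕ Fin m) (Fin m ⊕ Fin m) F).mulVec u = u' ∧ (A : Matrix (Fin m ⊕ Fin m) (Fin m ⊕ Fin m) F).mulVec v = v' := by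
  obtain ⟨A, hA, h1, h2⟩ := Cfsg.Agent.Lib_helper4_Sp.exists_closure_map_hyp (k := m) u v u' v'
    (Cfsg.Agent.Lib_helper4_Sp.supp_top _) (Cfsg.Agent.Lib_helper4_Sp.supp_top _)
    (Cfsg.Agent.Lib_helper4_Sp.supp_top _) (Cfsg.Agent.Lib_helper4_Sp.supp_top _) h h'
  exact ⟨A, Subgroup.closure_mono (Cfsg.Agent.Lib_helper4_Sp.TSk_subset m) hA, h1, h2⟩

end Cfsg.Agent.S0766
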