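import Cfsg.Statements.S0770
import Mathlib

set_option autoImplicit false
open Cfsg

namespace Cfsg.Agent.S0770

theorem mem_T_iff {F : Type*} [Field F] {n : ℕ} (h : Matrix.GeneralLinearGroup (Fin n) F) :
    h ∈ ((Units.map (Matrix.diagonalRingHom (Fin n) F).toMonoidHom).range :
      Subgroup (Matrix.GeneralLinearGroup (Fin n) F)) ↔
    ∀ i j, i ≠ j → (h : Matrix (Fin n) (Fin n) F) i j = 0 := by
  constructor
  · rintro ⟨d, rfl⟩ i j hij
    simp [Matrix.diagonal_apply_ne _ hij]
  · intro hd
    have hdiag : (h : Matrix (Fin n) (Fin n) F) =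
        Matrix.diagonal (fun i => (h : Matrix (Fin n) (Fin n) F) i i) := by
      ext i j
      by_cases hij : i = j
      · subst hij; simp
      · rw [Matrix.diagonal_apply_ne _ hij]; exact hd i j hij
    have hne : ∀ i, (h : Matrix (Fin n) (Fin n) F) i i ≠ 0 := by
      intro i hi
      have hdet : (h : Matrix (Fin n) (Fin n) F).det ≠ 0 :=
        ((Matrix.isUnit_iff_isUnit_det _).mp h.isUnit).ne_zero
      rw [hdiag, Matrix.det_diagonal] at hdet
      exact hdet (Finset.prod_eq_zero (Finset.mem_univ i) hi)
    refine ⟨⟨fun i => (h : Matrix (Fin n) (Fin n) F) i i,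
      fun i => ((h : Matrix (Fin n) (Fin n) F) i i)⁻¹, ?_, ?_⟩, ?_⟩
    · funext i; simp [hne i]
    · funext i; simp [hne i]
    · apply Units.ext
      simp only [Units.coe_map]
      exact hdiag.symm

theorem diag_mul_apply {F : Type*} [Field F] {n : ℕ} (K G : Matrix (Fin n) (Fin n) F)
    (hK : ∀ i j, i ≠ j → K i j = 0) (i l : Fin n) : (K * G) i l = K i i * G i l := by
  rw [Matrix.mul_apply]
  refine Finset.sum_eq_single i ?_ ?_
  · intro b _ hb
    rw [hK i b (Ne.symm hb), zero_mul]
  · intro hi; exact absurd (Finset.mem_univ i) hi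

theorem mul_diag_apply {F : Type*} [Field F] {n : ℕ} (G H : Matrix (Fin n) (Fin n) F)
    (hH : ∀ i j, i ≠ j → H i j = 0) (i l : Fin n) : (G * H) i l = G i l * H l l := by
  rw [Matrix.mul_apply]
  refine Finset.sum_eq_single l ?_ ?_
  · intro b _ hb
    rw [hH b l hb, mul_zero]
  · intro hi; exact absurd (Finset.mem_univ l) hi


/-- For a field with at least 3 elements, an invertible matrix normalises the subgroup of invertible diagonal matrices of GL_n if and only if it is monomial (exactly one non-zero entry in each row). -/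
theorem result {F : Type*} [Field F] (hF : ∃ a : F, a ≠ 0 ∧ a ≠ 1) (n : ℕ) (g : Matrix.GeneralLinearGroup (Fin n) F) : g ∈ Subgroup.normalizer ((Units.map (Matrix.diagonalRingHom (Fin n) F).toMonoidHom).range : Subgroup (Matrix.GeneralLinearGroup (Fin n) F)) ↔ ∀ i : Fin n, ∃! j : Fin n, (g : Matrix (Fin n) (Fin n) F) i j ≠ 0 := by
  classical
  have hGGi : (g : Matrix (Fin n) (Fin n) F) * ((g⁻¹ : Matrix.GeneralLinearGroup (Fin n) F) : Matrix (Fin n) (Fin n) F) = 1 := by
    rw [← Units.val_mul, mul_inv_cancel]; rfl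
  have hGiG : ((g⁻¹ : Matrix.GeneralLinearGroup (Fin n) F) : Matrix (Fin n) (Fin n) F) * (g : Matrix (Fin n) (Fin n) F) = 1 := by
    rw [← Units.val_mul, inv_mul_cancel]; rfl
  rw [Subgroup.mem_normalizer_iff]
  constructor
  · intro hN i
    -- existence
    have hex : ∃ j, (g : Matrix (Fin n) (Fin n) F) i j ≠ 0 := by
      by_contra hcon
      push_neg at hcon
      have h1 : ((g : Matrix (Fin n) (Fin n) F) * ((g⁻¹ : Matrix.GeneralLinearGroup (Fin n) F) : Matrix (Fin n) (Fin n) F)) i i = 1 := by
        rw [hGGi]; simp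
      rw [Matrix.mul_apply] at h1
      simp [hcon] at h1
    obtain ⟨j, hj⟩ := hex
    refine ⟨j, hj, ?_⟩
    intro j' hj'
    by_contra hne
    obtain ⟨a, ha0, ha1⟩ := hF
    -- the diagonal element
    let d : Fin n → F := Function.update (fun _ => (1 : F)) j a
    have hdne : ∀ l, d l ≠ 0 := by
      intro l
      by_cases hl : l = j
      · subst hl; simp [d, ha0]
      · simp [d, hl]
    let du : (Fin n → F)ˣ := ⟨d, fun l => (d l)⁻¹, by funext l; simp [hdne l], by funext l; simp [hdne l]⟩
    let h : Matrix.GeneralLinearGroup (Fin n) F := Units.map (Matrix.diagonalRingHom (Fin n) F).toMonoidHom du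
    have hh : (h : Matrix (Fin n) (Fin n) F) = Matrix.diagonal d := rfl
    have hhT : h ∈ ((Units.map (Matrix.diagonalRingHom (Fin n) F).toMonoidHom).range :
      Subgroup (Matrix.GeneralLinearGroup (Fin n) F)) := ⟨du, rfl⟩
    have hk := (hN h).mp hhT
    rw [mem_T_iff] at hk
    have hkg : ((g * h * g⁻¹ : Matrix.GeneralLinearGroup (Fin n) F) : Matrix (Fin n) (Fin n) F) * (g : Matrix (Fin n) (Fin n) F) = (g : Matrix (Fin n) (Fin n) F) * Matrix.diagonal d := by
      rw [← hh, ← Units.val_mul, ← Units.val_mul]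
      congr 1
      group
    have e1 := congrFun (congrFun hkg i) j
    have e2 := congrFun (congrFun hkg i) j'
    rw [diag_mul_apply _ _ hk, Matrix.mul_diagonal] at e1 e2
    have hdj : d j = a := by simp [d]
    have hdj' : d j' = 1 := by simp [d, hne]
    rw [hdj] at e1
    rw [hdj', mul_one] at e2
    have e3 : ((g * h * g⁻¹ : Matrix.GeneralLinearGroup (Fin n) F) : Matrix (Fin n) (Fin n) F) i i = 1 := by
      have := mul_right_cancel₀ hj' (e2.trans (one_mul _).symm)
      exact this
    rw [e3, one_mul] at e1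
    have : a = 1 := by
      have := mul_left_cancel₀ hj (e1.symm.trans (mul_one _).symm)
      exact this
    exact ha1 this
  · intro hmon
    choose σ hσ hσu using hmon
    have hzero : ∀ i l, l ≠ σ i → (g : Matrix (Fin n) (Fin n) F) i l = 0 := by
      intro i l hl
      by_contra hne
      exact hl (hσu i l hne)
    have hinj : Function.Injective σ := by
      intro i i' hii
      by_contra hne
      have h0 : ((g : Matrix (Fin n) (Fin n) F) * ((g⁻¹ : Matrix.GeneralLinearGroup (Fin n) F) : Matrix (Fin n) (Fin n) F)) i i' = 0 := by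
        rw [hGGi]; simp [hne]
      have h1 : ((g : Matrix (Fin n) (Fin n) F) * ((g⁻¹ : Matrix.GeneralLinearGroup (Fin n) F) : Matrix (Fin n) (Fin n) F)) i' i' = 1 := by
        rw [hGGi]; simp
      rw [Matrix.mul_apply, Finset.sum_eq_single (σ i)] at h0
      · rw [Matrix.mul_apply, Finset.sum_eq_single (σ i')] at h1
        · rw [← hii] at h1
          rcases mul_eq_zero.mp h0 with h0' | h0'
          · exact hσ i h0'
          · rw [h0', mul_zero] at h1
            exact zero_ne_one h1
        · intro b _ hb; rw [hzero i' b hb, zero_mul]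
        · intro hi; exact absurd (Finset.mem_univ _) hi
      · intro b _ hb; rw [hzero i b hb, zero_mul]
      · intro hi; exact absurd (Finset.mem_univ _) hi
    have hsurj : Function.Surjective σ := Finite.injective_iff_surjective.mp hinj
    intro h
    rw [mem_T_iff, mem_T_iff]
    constructor
    · intro hd
      -- g h = D' g
      have key : (g : Matrix (Fin n) (Fin n) F) * (h : Matrix (Fin n) (Fin n) F) =
          Matrix.diagonal (fun i => (h : Matrix (Fin n) (Fin n) F) (σ i) (σ i)) * (g : Matrix (Fin n) (Fin n) F) := by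
        ext i l
        rw [mul_diag_apply _ _ hd, Matrix.diagonal_mul]
        by_cases hl : l = σ i
        · subst hl; ring
        · rw [hzero i l hl]; ring
      have : ((g * h * g⁻¹ : Matrix.GeneralLinearGroup (Fin n) F) : Matrix (Fin n) (Fin n) F) =
          Matrix.diagonal (fun i => (h : Matrix (Fin n) (Fin n) F) (σ i) (σ i)) := by
        rw [Units.val_mul, Units.val_mul, key, Matrix.mul_assoc, hGGi, Matrix.mul_one]
      intro i j hij
      rw [this, Matrix.diagonal_apply_ne _ hij]
    · intro hd
      obtain ⟨τ, hτ⟩ := hsurj.hasRightInverse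
      have hτ' : ∀ i, τ (σ i) = i := fun i => hinj (hτ (σ i))
      have key : ((g * h * g⁻¹ : Matrix.GeneralLinearGroup (Fin n) F) : Matrix (Fin n) (Fin n) F) * (g : Matrix (Fin n) (Fin n) F) =
          (g : Matrix (Fin n) (Fin n) F) * Matrix.diagonal (fun j => ((g * h * g⁻¹ : Matrix.GeneralLinearGroup (Fin n) F) : Matrix (Fin n) (Fin n) F) (τ j) (τ j)) := by
        ext i l
        rw [diag_mul_apply _ _ hd, Matrix.mul_diagonal]
        by_cases hl : l = σ i
        · subst hl; rw [hτ']; ring
        · rw [hzero i l hl]; ring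
      have hkg : ((g * h * g⁻¹ : Matrix.GeneralLinearGroup (Fin n) F) : Matrix (Fin n) (Fin n) F) * (g : Matrix (Fin n) (Fin n) F) = (g : Matrix (Fin n) (Fin n) F) * (h : Matrix (Fin n) (Fin n) F) := by
        rw [← Units.val_mul, ← Units.val_mul]
        congr 1
        group
      have : (h : Matrix (Fin n) (Fin n) F) = Matrix.diagonal (fun j => ((g * h * g⁻¹ : Matrix.GeneralLinearGroup (Fin n) F) : Matrix (Fin n) (Fin n) F) (τ j) (τ j)) := by
        have e := hkg.symm.trans key
        have e' := congrArg (fun M => ((g⁻¹ : Matrix.GeneralLinearGroup (Fin n) F) : Matrix (Fin n) (Fin n) F) * M) e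
        simp only [← Matrix.mul_assoc, hGiG, Matrix.one_mul] at e'
        exact e'
      intro i j hij
      rw [this, Matrix.diagonal_apply_ne _ hij]

end Cfsg.Agent.S0770
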