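import Cfsg.Statements.S0772
import Mathlib
import Cfsg.Agent.Lib_helper4_StabMax
import Cfsg.Agent.Lib_helper4_GLPar2

set_option autoImplicit false
open Cfsg

namespace Cfsg.Agent.S0772

/-- Maximal parabolics are maximal: over a finite field, for 0 < k < n the stabiliser in GL_n of the span of the first k coordinate vectors is a maximal proper subgroup. -/
theorem result {F : Type*} [Field F] [Finite F] (n k : ℕ) (hk0 : 0 < k) (hkn : k < n) : IsCoatom (Cfsg.stabilizing (Cfsg.glToMat (Fin n) F) {v : Fin n → F | ∀ i : Fin n, k ≤ (i : ℕ) → v i = 0}) := by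
  classical
  have hk : k ≤ n := hkn.le
  let Sk : Submodule F (Fin n → F) :=
    { carrier := {v | ∀ i : Fin n, k ≤ (i : ℕ) → v i = 0}
      add_mem' := by
        intro a b ha hb i hi
        simp [ha i hi, hb i hi]
      zero_mem' := by intro i hi; rfl
      smul_mem' := by
        intro c a ha i hi
        simp [ha i hi] }
  have hP : Cfsg.stabilizing (Cfsg.glToMat (Fin n) F)
      {v : Fin n → F | ∀ i : Fin n, k ≤ (i : ℕ) → v i = 0} = Cfsg.Geo.subspaceStabilizer Sk := rfl
  have hS0 : Sk ≠ ⊥ := by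
    intro h
    have h1 : (Pi.single (⟨0, by omega⟩ : Fin n) (1 : F)) ∈ Sk := by
      intro i hi
      rw [Pi.single_eq_of_ne]
      intro h
      rw [h] at hi
      simp at hi
      omega
    rw [h, Submodule.mem_bot] at h1
    have h2 := congrFun h1 ⟨0, by omega⟩
    simp at h2
  have hS1 : Sk ≠ ⊤ := by
    intro h
    have h1 : (Pi.single (⟨n - 1, by omega⟩ : Fin n) (1 : F)) ∈ Sk := by rw [h]; trivial
    have h2 := h1 ⟨n - 1, by omega⟩ (by simp; omega)
    simp at h2
  have hdiag : ∀ c : Fˣ, ∃ d : Matrix.GeneralLinearGroup (Fin n) F,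
      d ∈ Cfsg.Geo.subspaceStabilizer Sk ∧ Matrix.GeneralLinearGroup.det d = c := by
    intro c
    have hD : (Matrix.diagonal (Function.update (fun _ => (1 : F)) (⟨0, by omega⟩ : Fin n) (c : F))).det ≠ 0 := by
      rw [Matrix.det_diagonal, Finset.prod_update_of_mem (Finset.mem_univ _)]
      simp
    refine ⟨Matrix.GeneralLinearGroup.mkOfDetNeZero _ hD, ?_, ?_⟩
    · rw [← hP]
      show _ ∈ Cfsg.Agent.Lib_helper4_GLPar2.P F n k
      rw [Cfsg.Agent.Lib_helper4_GLPar2.mem_P_iff n k hk]
      intro i j hi hj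
      exact Matrix.diagonal_apply_ne _ (by intro h; rw [h] at hi; omega)
    · apply Units.ext
      rw [Matrix.GeneralLinearGroup.val_det_apply]
      show (Matrix.diagonal _).det = (c : F)
      rw [Matrix.det_diagonal, Finset.prod_update_of_mem (Finset.mem_univ _)]
      simp
  rw [hP]
  constructor
  · intro htop
    obtain ⟨g, -, hg⟩ := Cfsg.Agent.Lib_helper4_Transv.exists_not_mem_subspaceStabilizer Sk hS0 hS1
    rw [htop] at hg
    exact hg trivial
  · intro K hK
    have hSL := Cfsg.Agent.Lib_helper4_StabMax.specialLinear_le Sk hS0 hS1 K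
      (inf_le_left.trans hK.le) (not_le_of_gt hK)
    rw [eq_top_iff]
    intro g _
    obtain ⟨d, hd, hdet⟩ := hdiag (Matrix.GeneralLinearGroup.det g)
    have h1 : d⁻¹ * g ∈ Cfsg.Geo.specialLinear (Fin n) F := by
      unfold Cfsg.Geo.specialLinear
      rw [MonoidHom.mem_ker, map_mul, map_inv, hdet, inv_mul_cancel]
    have h2 : g = d * (d⁻¹ * g) := by group
    rw [h2]
    exact K.mul_mem (hK.le hd) (hSL h1)

end Cfsg.Agent.S0772
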