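import Cfsg.Statements.S0773
import Mathlib
import Cfsg.Agent.Lib_helper4_GLPar2

set_option autoImplicit false
open Cfsg Cfsg.Agent.Lib_helper4_GLPar2 Matrix

namespace Cfsg.Agent.S0773

/-- The stabilisers in GL_n(F), F finite, of the coordinate subspaces of dimensions k and n − k are isomorphic groups, but when 2k ≠ n (and 0 < k < n) no element of GL_n conjugates one onto the other. -/
theorem result {F : Type*} [Field F] [Finite F] (n k : ℕ) (hk0 : 0 < k) (hkn : k < n) (h2 : 2 * k ≠ n) : Nonempty (↥(Cfsg.stabilizing (Cfsg.glToMat (Fin n) F) {v : Fin n → F | ∀ i : Fin n, k ≤ (i : ℕ) → v i = 0}) ≃* ↥(Cfsg.stabilizing (Cfsg.glToMat (Fin n) F) {v : Fin n → F | ∀ i : Fin n, n - k ≤ (i : ℕ) → v i = 0})) ∧ ∀ g : Matrix.GeneralLinearGroup (Fin n) F, (Cfsg.stabilizing (Cfsg.glToMat (Fin n) F) {v : Fin n → F | ∀ i : Fin n, k ≤ (i : ℕ) → v i = 0}).map (MulAut.conj g).toMonoidHom ≠ Cfsg.stabilizing (Cfsg.glToMat (Fin n) F) {v : Fin n → F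 | ∀ i : Fin n, n - k ≤ (i : ℕ) → v i = 0} := by
  classical
  have hk : k ≤ n := hkn.le
  refine ⟨⟨parEquiv n k hk⟩, ?_⟩
  intro g hmap
  let Sk : Submodule F (Fin n → F) :=
    { carrier := {v | ∀ i : Fin n, k ≤ (i : ℕ) → v i = 0}
      add_mem' := by
        intro a b ha hb i hi
        simp [ha i hi, hb i hi]
      zero_mem' := by intro i hi; rfl
      smul_mem' := by
        intro c a ha i hi
        simp [ha i hi] }
  let W : Submodule F (Fin n → F) := Sk.map (Matrix.mulVecLin (g : Matrix (Fin n) (Fin n) F))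
  have hWmem : ∀ v, v ∈ W ↔ ∃ u : Fin n → F, (∀ i : Fin n, k ≤ (i : ℕ) → u i = 0) ∧
      (g : Matrix (Fin n) (Fin n) F) *ᵥ u = v := by
    intro v
    exact Submodule.mem_map
  have hinj : ∀ u u' : Fin n → F, (g : Matrix (Fin n) (Fin n) F) *ᵥ u =
      (g : Matrix (Fin n) (Fin n) F) *ᵥ u' → u = u' := by
    intro u u' h
    have h' := congrArg (fun x => ((g⁻¹ : Matrix.GeneralLinearGroup (Fin n) F) : Matrix (Fin n) (Fin n) F) *ᵥ x) h
    simpa [Matrix.mulVec_mulVec, ← Units.val_mul] using h'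
  have hinv : ∀ p ∈ P F n (n - k), ∀ v ∈ W, (p : Matrix (Fin n) (Fin n) F) *ᵥ v ∈ W := by
    intro p hp v hv
    have hp2 : p ∈ Subgroup.map (MulEquiv.toMonoidHom (MulAut.conj g)) (P F n k) := by
      show p ∈ Subgroup.map (MulEquiv.toMonoidHom (MulAut.conj g))
        (stabilizing (glToMat (Fin n) F) {v | ∀ (i : Fin n), k ≤ (i : ℕ) → v i = 0})
      rw [hmap]; exact hp
    obtain ⟨p', hp', rfl⟩ := Subgroup.mem_map.mp hp2
    rw [hWmem] at hv ⊢
    obtain ⟨u, hu, rfl⟩ := hv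
    refine ⟨(p' : Matrix (Fin n) (Fin n) F) *ᵥ u, (hp' u).mp hu, ?_⟩
    have e : ((MulAut.conj g).toMonoidHom p' : Matrix.GeneralLinearGroup (Fin n) F) = g * p' * g⁻¹ := rfl
    rw [e, Matrix.mulVec_mulVec, Matrix.mulVec_mulVec, ← Units.val_mul, ← Units.val_mul]
    congr 2
    group
  rcases trichotomy n (n - k) (Nat.sub_le n k) W hinv with h0 | h1 | h2
  · have hmem : (g : Matrix (Fin n) (Fin n) F) *ᵥ (Pi.single (⟨0, by omega⟩ : Fin n) (1 : F)) ∈ W := by
      refine (hWmem _).mpr ⟨_, ?_, rfl⟩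
      intro i hi
      rw [Pi.single_eq_of_ne]
      intro h
      rw [h] at hi
      simp at hi
      omega
    rw [h0, Submodule.mem_bot] at hmem
    have h3 := hinj _ 0 (by rw [hmem, Matrix.mulVec_zero])
    have h4 := congrFun h3 ⟨0, by omega⟩
    simp at h4
  · have hcard : Nat.card {v : Fin n → F // ∀ i : Fin n, k ≤ (i : ℕ) → v i = 0} =
        Nat.card {v : Fin n → F // ∀ i : Fin n, n - k ≤ (i : ℕ) → v i = 0} := by
      apply Nat.card_congr
      refine Equiv.ofBijective (fun u => ⟨(g : Matrix (Fin n) (Fin n) F) *ᵥ u.1,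
        (h1 _).mp ((hWmem _).mpr ⟨u.1, u.2, rfl⟩)⟩) ⟨?_, ?_⟩
      · intro u u' h
        exact Subtype.ext (hinj _ _ (congrArg Subtype.val h))
      · intro v
        obtain ⟨u, hu, huv⟩ := (hWmem _).mp ((h1 v.1).mpr v.2)
        exact ⟨⟨u, hu⟩, Subtype.ext huv⟩
    rw [card_S n k hk, card_S n (n - k) (Nat.sub_le n k)] at hcard
    have hq : 1 < Nat.card F := Finite.one_lt_card
    have h5 := Nat.pow_right_injective hq hcard
    omega
  · have hmem : (g : Matrix (Fin n) (Fin n) F) *ᵥ (Pi.single (⟨n - 1, by omega⟩ : Fin n) (1 : F)) ∈ W := by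
      rw [h2]; trivial
    obtain ⟨u, hu, hgu⟩ := (hWmem _).mp hmem
    have h3 := hinj _ _ hgu
    have h4 := hu ⟨n - 1, by omega⟩ (by simp; omega)
    rw [h3] at h4
    simp at h4

end Cfsg.Agent.S0773
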