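import Cfsg.Statements.S0776
import Mathlib
import Cfsg.Agent.Lib_helper4_Sp
import Cfsg.Agent.Lib_helper4_AltBasis

set_option autoImplicit false
open Cfsg

namespace Cfsg.Agent.S0776

open Matrix Module Cfsg.Agent.Lib_helper4_Sp

variable {F : Type*} [Field F]

theorem symp_family {V : Type*} [AddCommGroup V] [Module F V] [FiniteDimensional F V]
    (B : LinearMap.BilinForm F V) (hA : B.IsAlt) (hnd : ∀ u, (∀ v, B u v = 0) → u = 0) :
    ∃ (r : ℕ) (b : Module.Basis (Fin r ⊕ Fin r) F V), ∀ x y, B (b x) (b y) = J (Fin r) F x y := by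
  obtain ⟨r, k', b, h1, h2, h3, h4⟩ := Cfsg.Agent.Lib_helper4_AltBasis.exists_basis B hA
  have hk' : k' = 0 := by
    by_contra hne
    have j : Fin k' := ⟨0, Nat.pos_of_ne_zero hne⟩
    exact b.ne_zero (Sum.inr j) (hnd _ (h4 j))
  subst hk'
  refine ⟨r, b.reindex ((Equiv.sumEmpty (Fin r ⊕ Fin r) (Fin 0)).trans (Equiv.sumComm _ _)), ?_⟩
  rintro (i | i) (j | j)
  · simp [Module.Basis.reindex_apply, J, h3]
  · simp only [Module.Basis.reindex_apply, Equiv.symm_trans_apply, Equiv.sumComm_symm,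
      Equiv.sumComm_apply, Sum.swap_inl, Sum.swap_inr, Equiv.sumEmpty_symm_apply]
    rw [← LinearMap.IsAlt.neg hA, h1]
    simp [J, Matrix.one_apply, eq_comm]
  · simp only [Module.Basis.reindex_apply, Equiv.symm_trans_apply, Equiv.sumComm_symm,
      Equiv.sumComm_apply, Sum.swap_inl, Sum.swap_inr, Equiv.sumEmpty_symm_apply]
    rw [h1]
    simp [J, Matrix.one_apply]
  · simp [Module.Basis.reindex_apply, J, h2]

noncomputable def sB (m : ℕ) : LinearMap.BilinForm F (Fin m ⊕ Fin m → F) :=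
  LinearMap.mk₂ F (Cfsg.sympForm m F) form_add_left form_smul_left form_add_right form_smul_right

theorem sB_apply (m : ℕ) (u v : Fin m ⊕ Fin m → F) : sB m u v = Cfsg.sympForm m F u v := rfl

theorem sB_alt (m : ℕ) : (sB (F := F) m).IsAlt := fun v => form_self v

theorem sB_nondeg (m : ℕ) : (sB (F := F) m).Nondegenerate := by
  constructor
  · intro x hx
    by_contra hne
    obtain ⟨z, hz⟩ := exists_form_ne_zero x hne
    exact hz (hx z)
  · intro y hy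
    by_contra hne
    obtain ⟨z, hz⟩ := exists_form_ne_zero y hne
    apply hz
    rw [form_swap]
    have := hy z
    rw [sB_apply] at this
    rw [this, neg_zero]

theorem exists_P (m k : ℕ) (hk : k ≤ m) (W : Submodule F (Fin m ⊕ Fin m → F))
    (hWk : finrank F W = 2 * k)
    (hW : ∀ u ∈ W, (∀ v ∈ W, Cfsg.sympForm m F u v = 0) → u = 0) :
    ∃ P : Matrix (Fin m ⊕ Fin m) ((Fin k ⊕ Fin k) ⊕ (Fin (m - k) ⊕ Fin (m - k))) F,
      Pᵀ * J (Fin m) F * P = Matrix.fromBlocks (J (Fin k) F) 0 0 (J (Fin (m - k)) F) ∧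
      ∀ v, v ∈ W ↔ ∃ x : (Fin k ⊕ Fin k) ⊕ (Fin (m - k) ⊕ Fin (m - k)) → F,
        (∀ c, x (Sum.inr c) = 0) ∧ P *ᵥ x = v := by
  have hAlt := sB_alt (F := F) m
  have hnd := sB_nondeg (F := F) m
  -- basis of W
  have hAltW : ((sB (F := F) m).restrict W).IsAlt := fun v => hAlt (v : Fin m ⊕ Fin m → F)
  obtain ⟨r₁, b₁, hb₁⟩ := symp_family ((sB (F := F) m).restrict W) hAltW (by
    intro u hu
    apply Subtype.ext
    apply hW u u.2
    intro v hv
    exact hu ⟨v, hv⟩)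
  have hr₁ : r₁ = k := by
    have := Module.finrank_eq_card_basis b₁
    rw [hWk, Fintype.card_sum, Fintype.card_fin] at this
    omega
  have hr₁' : k = r₁ := hr₁.symm
  subst hr₁'
  -- basis of the orthogonal complement
  obtain ⟨U, hU⟩ : ∃ U : Submodule F (Fin m ⊕ Fin m → F), U = (sB (F := F) m).orthogonal W :=
    ⟨_, rfl⟩
  have hUmem : ∀ u, u ∈ U ↔ ∀ w ∈ W, Cfsg.sympForm m F w u = 0 := by
    intro u
    rw [hU]
    exact Iff.rfl
  have hAltU : ((sB (F := F) m).restrict U).IsAlt := fun v => hAlt (v : Fin m ⊕ Fin m → F)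
  obtain ⟨r₂, b₂, hb₂⟩ := symp_family ((sB (F := F) m).restrict U) hAltU (by
    intro u hu
    apply Subtype.ext
    have h1 : (u : Fin m ⊕ Fin m → F) ∈ (sB (F := F) m).orthogonal U := by
      intro n hn
      have := hu ⟨n, hn⟩
      change Cfsg.sympForm m F u n = 0 at this
      change Cfsg.sympForm m F n u = 0
      rw [form_swap, this, neg_zero]
    have h1' : (u : Fin m ⊕ Fin m → F) ∈ W := by
      have h2 := LinearMap.BilinForm.orthogonal_orthogonal hnd (LinearMap.IsAlt.isRefl hAlt) W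
      rw [← hU] at h2
      rw [← h2]
      exact h1
    apply hW _ h1'
    intro v hv
    rw [form_swap, (hUmem _).1 u.2 v hv, neg_zero])
  have hr₂ : r₂ = m - k := by
    have h1 := Module.finrank_eq_card_basis b₂
    have h2 := LinearMap.BilinForm.finrank_orthogonal hnd W
    rw [← hU, hWk, Module.finrank_fintype_fun_eq_card, Fintype.card_sum, Fintype.card_fin] at h2
    rw [h2, Fintype.card_sum, Fintype.card_fin] at h1
    omega
  subst hr₂
  have hg1 : ∀ x y, Cfsg.sympForm m F (b₁ x : Fin m ⊕ Fin m → F) (b₁ y : Fin m ⊕ Fin m → F)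
      = J (Fin k) F x y := fun x y => hb₁ x y
  have hg2 : ∀ x y, Cfsg.sympForm m F (b₂ x : Fin m ⊕ Fin m → F) (b₂ y : Fin m ⊕ Fin m → F)
      = J (Fin (m - k)) F x y := fun x y => hb₂ x y
  have hg3 : ∀ x y, Cfsg.sympForm m F (b₁ x : Fin m ⊕ Fin m → F) (b₂ y : Fin m ⊕ Fin m → F)
      = 0 := fun x y => (hUmem _).1 (b₂ y).2 _ (b₁ x).2
  have hg4 : ∀ x y, Cfsg.sympForm m F (b₂ y : Fin m ⊕ Fin m → F) (b₁ x : Fin m ⊕ Fin m → F)
      = 0 := fun x y => by rw [form_swap, hg3, neg_zero]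
  let col : (Fin k ⊕ Fin k) ⊕ (Fin (m - k) ⊕ Fin (m - k)) → (Fin m ⊕ Fin m → F) :=
    Sum.elim (fun x => (b₁ x : Fin m ⊕ Fin m → F)) (fun y => (b₂ y : Fin m ⊕ Fin m → F))
  let P : Matrix (Fin m ⊕ Fin m) ((Fin k ⊕ Fin k) ⊕ (Fin (m - k) ⊕ Fin (m - k))) F :=
    Matrix.of (fun i j => col j i)
  refine ⟨P, ?_, ?_⟩
  · ext a b
    have : (Pᵀ * J (Fin m) F * P) a b = Cfsg.sympForm m F (col a) (col b) := by
      rw [Matrix.mul_assoc, Matrix.mul_apply]
      rfl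
    rw [this]
    rcases a with a | a <;> rcases b with b | b
    · exact hg1 a b
    · exact hg3 a b
    · exact hg4 b a
    · exact hg2 a b
  · have hPx : ∀ x : (Fin k ⊕ Fin k) ⊕ (Fin (m - k) ⊕ Fin (m - k)) → F,
        (∀ c, x (Sum.inr c) = 0) → P *ᵥ x = ∑ a, x (Sum.inl a) • (b₁ a : Fin m ⊕ Fin m → F) := by
      intro x hx
      funext i
      simp [Matrix.mulVec, dotProduct, Fintype.sum_sum_type, hx, P, col, mul_comm]
    intro v
    constructor
    · intro hv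
      refine ⟨Sum.elim (b₁.repr ⟨v, hv⟩) 0, fun c => rfl, ?_⟩
      rw [hPx _ (fun c => rfl)]
      have := congrArg Subtype.val (b₁.sum_repr ⟨v, hv⟩)
      rw [Submodule.coe_sum] at this
      simpa using this
    · rintro ⟨x, hx, rfl⟩
      rw [hPx x hx]
      exact Submodule.sum_mem _ fun a _ => Submodule.smul_mem _ _ (b₁ a).2

def conjHom {n k l : Type} [Fintype n] [Fintype k] [Fintype l] [DecidableEq n] [DecidableEq k]
    [DecidableEq l] (P : Matrix n (k ⊕ l) F) (Ps : Matrix (k ⊕ l) n F) (h1 : Ps * P = 1)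
    (h2 : P * Ps = 1) : Matrix k k F × Matrix l l F →* Matrix n n F where
  toFun X := P * Matrix.fromBlocks X.1 0 0 X.2 * Ps
  map_one' := by
    simp only [Prod.fst_one, Prod.snd_one, Matrix.fromBlocks_one, Matrix.mul_one, h2]
  map_mul' X Y := by
    have : P * Matrix.fromBlocks X.1 0 0 X.2 * Ps * (P * Matrix.fromBlocks Y.1 0 0 Y.2 * Ps)
        = P * (Matrix.fromBlocks X.1 0 0 X.2 * (Ps * P) * Matrix.fromBlocks Y.1 0 0 Y.2) * Ps := by
      simp only [Matrix.mul_assoc]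
    simp only [Prod.fst_mul, Prod.snd_mul]
    rw [this, h1, Matrix.mul_one, Matrix.fromBlocks_multiply]
    simp

theorem block_stab {k l : Type} [Fintype k] [Fintype l] [DecidableEq k] [DecidableEq l]
    (A : Matrix k k F) (D D' : Matrix l l F) (hD : D' * D = 1) (y : k ⊕ l → F) :
    (∀ c, y (Sum.inr c) = 0) ↔ ∀ c, (Matrix.fromBlocks A 0 0 D *ᵥ y) (Sum.inr c) = 0 := by
  have key : (fun c => (Matrix.fromBlocks A 0 0 D *ᵥ y) (Sum.inr c))
      = D *ᵥ (fun c => y (Sum.inr c)) := by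
    funext c
    simp [Matrix.mulVec, dotProduct, Fintype.sum_sum_type]
  constructor
  · intro h c
    have h0 : (fun c => y (Sum.inr c)) = 0 := funext h
    have := congrFun key c
    rw [h0, Matrix.mulVec_zero] at this
    exact this
  · intro h c
    have h0 : D *ᵥ (fun c => y (Sum.inr c)) = 0 := by
      rw [← key]
      exact funext h
    have h3 : (fun c => y (Sum.inr c)) = D' *ᵥ (D *ᵥ (fun c => y (Sum.inr c))) := by
      rw [Matrix.mulVec_mulVec, hD, Matrix.one_mulVec]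
    rw [h0, Matrix.mulVec_zero] at h3
    exact congrFun h3 c

theorem main (m k : ℕ) (hk : k ≤ m) (W : Submodule F (Fin m ⊕ Fin m → F))
    (P : Matrix (Fin m ⊕ Fin m) ((Fin k ⊕ Fin k) ⊕ (Fin (m - k) ⊕ Fin (m - k))) F)
    (hP1 : Pᵀ * J (Fin m) F * P = Matrix.fromBlocks (J (Fin k) F) 0 0 (J (Fin (m - k)) F))
    (hP2 : ∀ v, v ∈ W ↔ ∃ x : (Fin k ⊕ Fin k) ⊕ (Fin (m - k) ⊕ Fin (m - k)) → F,
        (∀ c, x (Sum.inr c) = 0) ∧ P *ᵥ x = v) :
    Nonempty (↥(Cfsg.stabilizing (Cfsg.spToMat m F) (W : Set (Fin m ⊕ Fin m → F))) ≃*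
      Matrix.symplecticGroup (Fin k) F × Matrix.symplecticGroup (Fin (m - k)) F) := by
  classical
  obtain ⟨J', hJ'⟩ : ∃ J' : Matrix ((Fin k ⊕ Fin k) ⊕ (Fin (m - k) ⊕ Fin (m - k)))
      ((Fin k ⊕ Fin k) ⊕ (Fin (m - k) ⊕ Fin (m - k))) F,
      J' = Matrix.fromBlocks (J (Fin k) F) 0 0 (J (Fin (m - k)) F) := ⟨_, rfl⟩
  rw [← hJ'] at hP1
  have hJJ : J' * J' = -1 := by
    rw [hJ', Matrix.fromBlocks_multiply, ← Matrix.fromBlocks_one, Matrix.fromBlocks_neg]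
    simp [Matrix.J_squared]
  obtain ⟨Ps, hPs⟩ : ∃ Ps : Matrix ((Fin k ⊕ Fin k) ⊕ (Fin (m - k) ⊕ Fin (m - k)))
      (Fin m ⊕ Fin m) F, Ps = -J' * Pᵀ * J (Fin m) F := ⟨_, rfl⟩
  have h1 : Ps * P = 1 := by
    calc Ps * P = -J' * (Pᵀ * J (Fin m) F * P) := by rw [hPs]; simp only [Matrix.mul_assoc]
      _ = 1 := by rw [hP1, Matrix.neg_mul, hJJ, neg_neg]
  have e : ((Fin k ⊕ Fin k) ⊕ (Fin (m - k) ⊕ Fin (m - k))) ≃ (Fin m ⊕ Fin m) :=
    Fintype.equivOfCardEq (by simp only [Fintype.card_sum, Fintype.card_fin]; omega)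
  have h2 : P * Ps = 1 := (Matrix.mul_eq_one_comm_of_equiv e).1 h1
  have hPsT : Psᵀ * J' * Ps = J (Fin m) F := by
    calc Psᵀ * J' * Ps = (Psᵀ * Pᵀ) * J (Fin m) F * (P * Ps) := by
          rw [← hP1]; simp only [Matrix.mul_assoc]
      _ = J (Fin m) F := by
          rw [← Matrix.transpose_mul, h2, Matrix.transpose_one, Matrix.one_mul, Matrix.mul_one]
  have hW' : ∀ v, v ∈ W ↔ ∀ c, (Ps *ᵥ v) (Sum.inr c) = 0 := by
    intro v
    rw [hP2]
    constructor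
    · rintro ⟨x, hx, rfl⟩
      rw [Matrix.mulVec_mulVec, h1, Matrix.one_mulVec]
      exact hx
    · intro h
      exact ⟨Ps *ᵥ v, h, by rw [Matrix.mulVec_mulVec, h2, Matrix.one_mulVec]⟩
  have hblock : ∀ (A : Matrix (Fin k ⊕ Fin k) (Fin k ⊕ Fin k) F)
      (D : Matrix (Fin (m - k) ⊕ Fin (m - k)) (Fin (m - k) ⊕ Fin (m - k)) F),
      (Matrix.fromBlocks A 0 0 D)ᵀ * J' * Matrix.fromBlocks A 0 0 D
        = Matrix.fromBlocks (Aᵀ * J (Fin k) F * A) 0 0 (Dᵀ * J (Fin (m - k)) F * D) := by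
    intro A D
    rw [hJ', Matrix.fromBlocks_transpose, Matrix.fromBlocks_multiply, Matrix.fromBlocks_multiply]
    simp
  let Ψ₀ : ↥(symplecticGroup (Fin k) F) × ↥(symplecticGroup (Fin (m - k)) F) →*
      Matrix (Fin m ⊕ Fin m) (Fin m ⊕ Fin m) F :=
    (conjHom P Ps h1 h2).comp (MonoidHom.prodMap (symplecticGroup (Fin k) F).subtype
      (symplecticGroup (Fin (m - k)) F).subtype)
  have hΨ₀ : ∀ (A : ↥(symplecticGroup (Fin k) F)) (D : ↥(symplecticGroup (Fin (m - k)) F)),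
      Ψ₀ (A, D) = P * Matrix.fromBlocks (A : Matrix (Fin k ⊕ Fin k) (Fin k ⊕ Fin k) F) 0 0
        (D : Matrix (Fin (m - k) ⊕ Fin (m - k)) (Fin (m - k) ⊕ Fin (m - k)) F) * Ps :=
    fun A D => rfl
  have hmem : ∀ x, Ψ₀ x ∈ symplecticGroup (Fin m) F := by
    rintro ⟨A, D⟩
    rw [SymplecticGroup.mem_iff', hΨ₀]
    have hX := hblock (A : Matrix (Fin k ⊕ Fin k) (Fin k ⊕ Fin k) F)
      (D : Matrix (Fin (m - k) ⊕ Fin (m - k)) (Fin (m - k) ⊕ Fin (m - k)) F)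
    rw [SymplecticGroup.mem_iff'.1 A.2, SymplecticGroup.mem_iff'.1 D.2, ← hJ'] at hX
    rw [Matrix.transpose_mul, Matrix.transpose_mul]
    calc Psᵀ * ((Matrix.fromBlocks (A : Matrix (Fin k ⊕ Fin k) (Fin k ⊕ Fin k) F) 0 0
            (D : Matrix (Fin (m - k) ⊕ Fin (m - k)) (Fin (m - k) ⊕ Fin (m - k)) F))ᵀ * Pᵀ) *
          J (Fin m) F * (P * Matrix.fromBlocks (A : Matrix (Fin k ⊕ Fin k) (Fin k ⊕ Fin k) F) 0 0
            (D : Matrix (Fin (m - k) ⊕ Fin (m - k)) (Fin (m - k) ⊕ Fin (m - k)) F) * Ps)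
        = Psᵀ * ((Matrix.fromBlocks (A : Matrix (Fin k ⊕ Fin k) (Fin k ⊕ Fin k) F) 0 0
            (D : Matrix (Fin (m - k) ⊕ Fin (m - k)) (Fin (m - k) ⊕ Fin (m - k)) F))ᵀ *
            (Pᵀ * J (Fin m) F * P) *
            Matrix.fromBlocks (A : Matrix (Fin k ⊕ Fin k) (Fin k ⊕ Fin k) F) 0 0
            (D : Matrix (Fin (m - k) ⊕ Fin (m - k)) (Fin (m - k) ⊕ Fin (m - k)) F)) * Ps := by
          simp only [Matrix.mul_assoc]
      _ = J (Fin m) F := by rw [hP1, hX, hPsT]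
  let Ψ : ↥(symplecticGroup (Fin k) F) × ↥(symplecticGroup (Fin (m - k)) F) →*
      ↥(symplecticGroup (Fin m) F) := Ψ₀.codRestrict (symplecticGroup (Fin m) F) hmem
  have hΨ : ∀ (A : ↥(symplecticGroup (Fin k) F)) (D : ↥(symplecticGroup (Fin (m - k)) F)),
      ((Ψ (A, D) : ↥(symplecticGroup (Fin m) F)) : Matrix (Fin m ⊕ Fin m) (Fin m ⊕ Fin m) F)
        = P * Matrix.fromBlocks (A : Matrix (Fin k ⊕ Fin k) (Fin k ⊕ Fin k) F) 0 0
        (D : Matrix (Fin (m - k) ⊕ Fin (m - k)) (Fin (m - k) ⊕ Fin (m - k)) F) * Ps :=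
    fun A D => rfl
  have cancel : ∀ X : Matrix ((Fin k ⊕ Fin k) ⊕ (Fin (m - k) ⊕ Fin (m - k)))
      ((Fin k ⊕ Fin k) ⊕ (Fin (m - k) ⊕ Fin (m - k))) F, Ps * (P * X * Ps) * P = X := by
    intro X
    calc Ps * (P * X * Ps) * P = (Ps * P) * X * (Ps * P) := by simp only [Matrix.mul_assoc]
      _ = X := by rw [h1, Matrix.one_mul, Matrix.mul_one]
  have cancelL : ∀ X : Matrix ((Fin k ⊕ Fin k) ⊕ (Fin (m - k) ⊕ Fin (m - k)))
      ((Fin k ⊕ Fin k) ⊕ (Fin (m - k) ⊕ Fin (m - k))) F, Ps * (P * X * Ps) = X * Ps := by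
    intro X
    calc Ps * (P * X * Ps) = (Ps * P) * X * Ps := by simp only [Matrix.mul_assoc]
      _ = X * Ps := by rw [h1, Matrix.one_mul]
  have hinj : Function.Injective Ψ := by
    rintro ⟨A, D⟩ ⟨A', D'⟩ h
    have h' := congrArg (fun g : ↥(symplecticGroup (Fin m) F) =>
      Ps * (g : Matrix (Fin m ⊕ Fin m) (Fin m ⊕ Fin m) F) * P) h
    simp only [hΨ] at h'
    rw [cancel, cancel, Matrix.fromBlocks_inj] at h'
    obtain ⟨hA, -, -, hD⟩ := h'
    exact Prod.ext (Subtype.ext hA) (Subtype.ext hD)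
  have hrange : Ψ.range = Cfsg.stabilizing (Cfsg.spToMat m F) (W : Set (Fin m ⊕ Fin m → F)) := by
    ext g
    constructor
    · rintro ⟨⟨A, D⟩, rfl⟩
      intro v
      change v ∈ W ↔ ((Ψ (A, D) : ↥(symplecticGroup (Fin m) F)) :
        Matrix (Fin m ⊕ Fin m) (Fin m ⊕ Fin m) F) *ᵥ v ∈ W
      rw [hW', hW', hΨ, Matrix.mulVec_mulVec]
      have := cancelL (Matrix.fromBlocks (A : Matrix (Fin k ⊕ Fin k) (Fin k ⊕ Fin k) F) 0 0
          (D : Matrix (Fin (m - k) ⊕ Fin (m - k)) (Fin (m - k) ⊕ Fin (m - k)) F))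
      rw [this, ← Matrix.mulVec_mulVec]
      have hDinv : ((D⁻¹ : ↥(symplecticGroup (Fin (m - k)) F)) :
          Matrix (Fin (m - k) ⊕ Fin (m - k)) (Fin (m - k) ⊕ Fin (m - k)) F) *
          (D : Matrix (Fin (m - k) ⊕ Fin (m - k)) (Fin (m - k) ⊕ Fin (m - k)) F) = 1 := by
        have := congrArg Subtype.val (inv_mul_cancel D)
        exact this
      exact block_stab _ _ _ hDinv _
    · intro hg1
      have hg : (g : Matrix (Fin m ⊕ Fin m) (Fin m ⊕ Fin m) F)ᵀ * J (Fin m) F *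
          (g : Matrix (Fin m ⊕ Fin m) (Fin m ⊕ Fin m) F) = J (Fin m) F :=
        SymplecticGroup.mem_iff'.1 g.2
      obtain ⟨X, hX⟩ : ∃ X : Matrix ((Fin k ⊕ Fin k) ⊕ (Fin (m - k) ⊕ Fin (m - k)))
          ((Fin k ⊕ Fin k) ⊕ (Fin (m - k) ⊕ Fin (m - k))) F,
          X = Ps * (g : Matrix (Fin m ⊕ Fin m) (Fin m ⊕ Fin m) F) * P := ⟨_, rfl⟩
      have hXJ : Xᵀ * J' * X = J' := by
        rw [hX, Matrix.transpose_mul, Matrix.transpose_mul]
        calc Pᵀ * ((g : Matrix (Fin m ⊕ Fin m) (Fin m ⊕ Fin m) F)ᵀ * Psᵀ) * J' *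
              (Ps * (g : Matrix (Fin m ⊕ Fin m) (Fin m ⊕ Fin m) F) * P)
            = Pᵀ * ((g : Matrix (Fin m ⊕ Fin m) (Fin m ⊕ Fin m) F)ᵀ * (Psᵀ * J' * Ps) *
              (g : Matrix (Fin m ⊕ Fin m) (Fin m ⊕ Fin m) F)) * P := by
              simp only [Matrix.mul_assoc]
          _ = J' := by rw [hPsT, hg, hP1]
      obtain ⟨Xi, hXi⟩ : ∃ Xi : Matrix ((Fin k ⊕ Fin k) ⊕ (Fin (m - k) ⊕ Fin (m - k)))
          ((Fin k ⊕ Fin k) ⊕ (Fin (m - k) ⊕ Fin (m - k))) F, Xi = -J' * Xᵀ * J' := ⟨_, rfl⟩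
      have hXiX : Xi * X = 1 := by
        calc Xi * X = -J' * (Xᵀ * J' * X) := by rw [hXi]; simp only [Matrix.mul_assoc]
          _ = 1 := by rw [hXJ, Matrix.neg_mul, hJJ, neg_neg]
      have hXXi : X * Xi = 1 := mul_eq_one_comm.1 hXiX
      have hstab : ∀ y : (Fin k ⊕ Fin k) ⊕ (Fin (m - k) ⊕ Fin (m - k)) → F,
          (∀ c, y (Sum.inr c) = 0) ↔ (∀ c, (X *ᵥ y) (Sum.inr c) = 0) := by
        intro y
        have := hg1 (P *ᵥ y)
        change P *ᵥ y ∈ W ↔ (g : Matrix (Fin m ⊕ Fin m) (Fin m ⊕ Fin m) F) *ᵥ (P *ᵥ y) ∈ W at this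
        rw [hW', hW', Matrix.mulVec_mulVec, h1, Matrix.one_mulVec, Matrix.mulVec_mulVec,
          Matrix.mulVec_mulVec, ← hX] at this
        exact this
      have h21 : ∀ c a, X (Sum.inr c) (Sum.inl a) = 0 := by
        intro c a
        have := (hstab (Pi.single (Sum.inl a) 1)).1 (fun c => by simp) c
        rw [Matrix.mulVec_single_one] at this
        exact this
      have hXi21 : ∀ c a, Xi (Sum.inr c) (Sum.inl a) = 0 := by
        intro c a
        have := (hstab (Xi *ᵥ Pi.single (Sum.inl a) 1)).2 (fun c => by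
          rw [Matrix.mulVec_mulVec, hXXi, Matrix.one_mulVec]
          simp) c
        rw [Matrix.mulVec_single_one] at this
        exact this
      have hXT : Xᵀ = -J' * Xi * J' := by
        rw [hXi]
        calc Xᵀ = (J' * J') * Xᵀ * (J' * J') := by rw [hJJ]; simp
          _ = -J' * (-J' * Xᵀ * J') * J' := by
            simp only [Matrix.neg_mul, Matrix.mul_neg, neg_neg, Matrix.mul_assoc]
      have h12 : ∀ a c, X (Sum.inl a) (Sum.inr c) = 0 := by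
        intro a c
        have : X (Sum.inl a) (Sum.inr c) = Xᵀ (Sum.inr c) (Sum.inl a) := rfl
        rw [this, hXT, hJ']
        simp [Matrix.mul_apply, Fintype.sum_sum_type, hXi21]
      have hXb : X = Matrix.fromBlocks X.toBlocks₁₁ 0 0 X.toBlocks₂₂ := by
        ext (i | i) (j | j) <;> simp [Matrix.toBlocks₁₁, Matrix.toBlocks₂₂, h12, h21]
      have hXJ' := hXJ
      rw [hXb, hblock] at hXJ'
      rw [hJ', Matrix.fromBlocks_inj] at hXJ'
      obtain ⟨hA₀, -, -, hD₀⟩ := hXJ'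
      refine ⟨(⟨X.toBlocks₁₁, SymplecticGroup.mem_iff'.2 hA₀⟩,
        ⟨X.toBlocks₂₂, SymplecticGroup.mem_iff'.2 hD₀⟩), Subtype.ext ?_⟩
      rw [hΨ]
      change P * Matrix.fromBlocks X.toBlocks₁₁ 0 0 X.toBlocks₂₂ * Ps = _
      rw [← hXb, hX]
      calc P * (Ps * (g : Matrix (Fin m ⊕ Fin m) (Fin m ⊕ Fin m) F) * P) * Ps
          = (P * Ps) * (g : Matrix (Fin m ⊕ Fin m) (Fin m ⊕ Fin m) F) * (P * Ps) := by
            simp only [Matrix.mul_assoc]
        _ = g := by rw [h2, Matrix.one_mul, Matrix.mul_one]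
  exact ⟨(MulEquiv.subgroupCongr hrange.symm).trans (MonoidHom.ofInjective hinj).symm⟩

/-- If W ≤ F^(2m) is a 2k-dimensional subspace on which the symplectic form is non-degenerate, then the stabiliser of W in Sp_2m(F) is isomorphic to Sp_2k(F) × Sp_(2m−2k)(F). -/
theorem result {F : Type*} [Field F] (m k : ℕ) (hk : k ≤ m) (W : Submodule F (Fin m ⊕ Fin m → F)) (hWk : Module.finrank F W = 2 * k) (hW : ∀ u ∈ W, (∀ v ∈ W, Cfsg.sympForm m F u v = 0) → u = 0) : Nonempty (↥(Cfsg.stabilizing (Cfsg.spToMat m F) (W : Set (Fin m ⊕ Fin m → F))) ≃* Matrix.symplecticGroup (Fin k) F × Matrix.symplecticGroup (Fin (m - k)) F) := by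
  obtain ⟨P, hP1, hP2⟩ := exists_P m k hk W hWk hW
  exact main m k hk W P hP1 hP2

end Cfsg.Agent.S0776
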