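import Cfsg.Statements.S0778
import Mathlib

set_option autoImplicit false
open Cfsg

namespace Cfsg.Agent.S0778

open Matrix

/-- block diagonal matrix attached to `X ∈ GL` -/
noncomputable def blk {F : Type*} [Field F] {m : ℕ} (X : GL (Fin m) F) :
    Matrix (Fin m ⊕ Fin m) (Fin m ⊕ Fin m) F :=
  fromBlocks (X : Matrix (Fin m) (Fin m) F) 0 0
    ((X⁻¹ : GL (Fin m) F) : Matrix (Fin m) (Fin m) F)ᵀ

lemma blk_mul {F : Type*} [Field F] {m : ℕ} (X Y : GL (Fin m) F) :
    blk (X * Y) = blk X * blk Y := by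
  unfold blk
  rw [fromBlocks_multiply]
  simp [_root_.mul_inv_rev, transpose_mul]

lemma blk_one {F : Type*} [Field F] {m : ℕ} : blk (1 : GL (Fin m) F) = 1 := by
  unfold blk
  simp [fromBlocks_one]

lemma blk_mem {F : Type*} [Field F] {m : ℕ} (X : GL (Fin m) F) :
    blk X ∈ symplecticGroup (Fin m) F := by
  unfold blk
  rw [SymplecticGroup.fromBlocks_mem_iff]
  refine ⟨by simp, by simp, ?_⟩
  rw [transpose_zero, zero_mul, sub_zero, ← transpose_mul]
  have h1 : ((X⁻¹ : GL (Fin m) F) : Matrix (Fin m) (Fin m) F) * (X : Matrix (Fin m) (Fin m) F) = 1 := by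
    rw [← Units.val_mul, inv_mul_cancel, Units.val_one]
  rw [h1, transpose_one]

lemma blk_mulVec_inl {F : Type*} [Field F] {m : ℕ} (X : GL (Fin m) F) (v : Fin m ⊕ Fin m → F)
    (hv : ∀ i, v (Sum.inr i) = 0) (i : Fin m) : (blk X *ᵥ v) (Sum.inr i) = 0 := by
  unfold blk
  rw [fromBlocks_mulVec]
  have h0 : v ∘ Sum.inr = 0 := funext hv
  simp [h0]

lemma blk_mulVec_inr {F : Type*} [Field F] {m : ℕ} (X : GL (Fin m) F) (v : Fin m ⊕ Fin m → F)
    (hv : ∀ i, v (Sum.inl i) = 0) (i : Fin m) : (blk X *ᵥ v) (Sum.inl i) = 0 := by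
  unfold blk
  rw [fromBlocks_mulVec]
  have h0 : v ∘ Sum.inl = 0 := funext hv
  simp [h0]


/-- The elements of Sp_2m(F) stabilising both W = ⟨e_1..e_m⟩ and U = ⟨f_1..f_m⟩ form a subgroup isomorphic to GL_m(F) (block-diagonal matrices diag(X, X^(−ᵀ)) up to the sign convention of J), for m ≥ 1 or m = 0 alike. -/
theorem result {F : Type*} [Field F] (m : ℕ) : Nonempty (↥(Cfsg.stabilizing (Cfsg.spToMat m F) {v : Fin m ⊕ Fin m → F | ∀ i : Fin m, v (Sum.inr i) = 0} ⊓ Cfsg.stabilizing (Cfsg.spToMat m F) {v : Fin m ⊕ Fin m → F | ∀ i : Fin m, v (Sum.inl i) = 0}) ≃* Matrix.GeneralLinearGroup (Fin m) F) := by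
  classical
  have hinvv : ∀ (X : GL (Fin m) F) (v : Fin m ⊕ Fin m → F), blk X⁻¹ *ᵥ (blk X *ᵥ v) = v := by
    intro X v
    rw [Matrix.mulVec_mulVec, ← blk_mul, inv_mul_cancel, blk_one, Matrix.one_mulVec]
  have hstab : ∀ X : GL (Fin m) F, (⟨blk X, blk_mem X⟩ : symplecticGroup (Fin m) F) ∈
      Cfsg.stabilizing (Cfsg.spToMat m F)
        {v : Fin m ⊕ Fin m → F | ∀ i : Fin m, v (Sum.inr i) = 0} ⊓
      Cfsg.stabilizing (Cfsg.spToMat m F)
        {v : Fin m ⊕ Fin m → F | ∀ i : Fin m, v (Sum.inl i) = 0} := by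
    intro X
    constructor
    · intro v
      show (∀ i, v (Sum.inr i) = 0) ↔ ∀ i, (blk X *ᵥ v) (Sum.inr i) = 0
      constructor
      · intro hv i; exact blk_mulVec_inl X v hv i
      · intro hv i
        have h1 := blk_mulVec_inl X⁻¹ (blk X *ᵥ v) hv i
        rwa [hinvv] at h1
    · intro v
      show (∀ i, v (Sum.inl i) = 0) ↔ ∀ i, (blk X *ᵥ v) (Sum.inl i) = 0
      constructor
      · intro hv i; exact blk_mulVec_inr X v hv i
      · intro hv i
        have h1 := blk_mulVec_inr X⁻¹ (blk X *ᵥ v) hv i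
        rwa [hinvv] at h1
  let φ : GL (Fin m) F →* ↥(Cfsg.stabilizing (Cfsg.spToMat m F)
        {v : Fin m ⊕ Fin m → F | ∀ i : Fin m, v (Sum.inr i) = 0} ⊓
      Cfsg.stabilizing (Cfsg.spToMat m F)
        {v : Fin m ⊕ Fin m → F | ∀ i : Fin m, v (Sum.inl i) = 0}) :=
    { toFun := fun X => ⟨⟨blk X, blk_mem X⟩, hstab X⟩
      map_one' := by
        apply Subtype.ext; apply Subtype.ext; exact blk_one
      map_mul' := fun X Y => by
        apply Subtype.ext; apply Subtype.ext; exact blk_mul X Y }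
  have hinj : Function.Injective φ := by
    intro X Y h
    have h1 : blk X = blk Y := congrArg (fun g => (g.1.1 : Matrix _ _ F)) h
    have h2 := congrArg Matrix.toBlocks₁₁ h1
    unfold blk at h2
    simp only [Matrix.toBlocks_fromBlocks₁₁] at h2
    exact Units.ext h2
  have hsurj : Function.Surjective φ := by
    rintro ⟨⟨A, hA⟩, hS⟩
    obtain ⟨hAW, hAU⟩ := Subgroup.mem_inf.mp hS
    have h21 : ∀ i j, A (Sum.inr i) (Sum.inl j) = 0 := by
      intro i j
      have h1 := (hAW (Pi.single (Sum.inl j) 1)).mp (by intro i'; simp)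
      have h3 : (A *ᵥ Pi.single (Sum.inl j) 1) (Sum.inr i) = 0 := h1 i
      rw [Matrix.mulVec_single_one] at h3
      exact h3
    have h12 : ∀ i j, A (Sum.inl i) (Sum.inr j) = 0 := by
      intro i j
      have h1 := (hAU (Pi.single (Sum.inr j) 1)).mp (by intro i'; simp)
      have h3 : (A *ᵥ Pi.single (Sum.inr j) 1) (Sum.inl i) = 0 := h1 i
      rw [Matrix.mulVec_single_one] at h3
      exact h3
    have hA' : A = fromBlocks A.toBlocks₁₁ 0 0 A.toBlocks₂₂ := by
      ext (i | i) (j | j)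
      · rfl
      · exact h12 i j
      · exact h21 i j
      · rfl
    have hA2 := hA
    rw [hA', SymplecticGroup.fromBlocks_mem_iff] at hA2
    obtain ⟨-, -, h3⟩ := hA2
    rw [transpose_zero, zero_mul, sub_zero] at h3
    have h4 : A.toBlocks₂₂ᵀ * A.toBlocks₁₁ = 1 := by
      have h5 := congrArg transpose h3
      rwa [transpose_mul, transpose_transpose, transpose_one] at h5
    have h5 : A.toBlocks₁₁ * A.toBlocks₂₂ᵀ = 1 := mul_eq_one_comm.mp h4
    refine ⟨⟨A.toBlocks₁₁, A.toBlocks₂₂ᵀ, h5, h4⟩, ?_⟩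
    apply Subtype.ext
    apply Subtype.ext
    show fromBlocks A.toBlocks₁₁ 0 0 (A.toBlocks₂₂ᵀ)ᵀ = A
    rw [transpose_transpose]
    exact hA'.symm
  exact ⟨(MulEquiv.ofBijective φ ⟨hinj, hsurj⟩).symm⟩

end Cfsg.Agent.S0778
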