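import Cfsg.Statements.S0779
import Mathlib
import Cfsg.Agent.Lib_helper4_Herm

set_option autoImplicit false
open Cfsg

namespace Cfsg.Agent.S0779

/-- Unitary transvections: let |F| = q², h the standard Hermitian form Σ x_i y_i^q and v ≠ 0 with h(v, v) = 0. The linear map x ↦ x + c h(x, v) v is an isometry of h if and only if c = 0 or c^(q−1) = −1. -/
theorem result {F : Type*} [Field F] [Fintype F] {q : ℕ} (hF : Fintype.card F = q ^ 2) (n : ℕ) (v : Fin n → F) (hv : v ≠ 0) (hv0 : Cfsg.hermForm n F q v v = 0) (c : F) : (∀ x y : Fin n → F, Cfsg.hermForm n F q ((Cfsg.unitaryTransvection n q v c).mulVec x) ((Cfsg.unitaryTransvection n q v c).mulVec y) = Cfsg.hermForm n F q x y) ↔ (c = 0 ∨ c ^ (q - 1) = -1) := by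
  classical
  have hq1 := Cfsg.Agent.Lib_helper4_Herm.q_pos hF
  have key : ∀ x y : Fin n → F,
      Cfsg.hermForm n F q ((Cfsg.unitaryTransvection n q v c).mulVec x)
        ((Cfsg.unitaryTransvection n q v c).mulVec y)
      = Cfsg.hermForm n F q x y
        + (c ^ q + c) * (Cfsg.hermForm n F q x v * Cfsg.hermForm n F q v y) := by
    intro x y
    rw [Cfsg.Agent.Lib_helper4_Herm.herm_transvection hF, hv0, mul_zero, add_zero]
  have hcq : c ^ q = c ^ (q - 1) * c := by
    rw [← pow_succ]
    congr 1
    omega
  constructor
  · intro h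
    obtain ⟨i, hi⟩ : ∃ i, v i ≠ 0 := by
      by_contra hcon
      apply hv
      funext j
      by_contra hj
      exact hcon ⟨j, hj⟩
    have h1 := h (Pi.single i 1) (Pi.single i 1)
    rw [key] at h1
    have h2 : Cfsg.hermForm n F q (Pi.single i 1) v = v i ^ q := by
      unfold Cfsg.hermForm
      rw [Finset.sum_eq_single i]
      · simp
      · intro j _ hj
        simp [Pi.single_apply, hj]
      · intro hh
        exact absurd (Finset.mem_univ i) hh
    have h3 : Cfsg.hermForm n F q v (Pi.single i 1) = v i := by
      unfold Cfsg.hermForm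
      rw [Finset.sum_eq_single i]
      · simp
      · intro j _ hj
        have : (Pi.single i (1 : F) : Fin n → F) j = 0 := by simp [Pi.single_apply, hj]
        rw [this, zero_pow (by omega), mul_zero]
      · intro hh
        exact absurd (Finset.mem_univ i) hh
    rw [h2, h3] at h1
    have h4 : (c ^ q + c) * (v i ^ q * v i) = 0 := by
      have h5 := h1
      rw [add_eq_left] at h5
      exact h5
    have h6 : v i ^ q * v i ≠ 0 := mul_ne_zero (pow_ne_zero _ hi) hi
    have h7 : c ^ q + c = 0 := by
      rcases mul_eq_zero.mp h4 with h | h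
      · exact h
      · exact absurd h h6
    by_cases hc : c = 0
    · exact Or.inl hc
    · right
      rw [hcq] at h7
      have h8 : (c ^ (q - 1) + 1) * c = 0 := by
        rw [add_mul, one_mul]
        exact h7
      rcases mul_eq_zero.mp h8 with h | h
      · exact eq_neg_of_add_eq_zero_left h
      · exact absurd h hc
  · intro h x y
    rw [key]
    have h1 : c ^ q + c = 0 := by
      rcases h with h | h
      · rw [h, zero_pow (by omega), add_zero]
      · rw [hcq, h]
        ring
    rw [h1, zero_mul, add_zero]

end Cfsg.Agent.S0779
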