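import Cfsg.Statements.S0783
import Mathlib
import Cfsg.Agent.Lib_helper4_CycQuot
import Cfsg.Agent.Lib_helper4_GU
import Cfsg.Agent.Lib_helper4_SU
import Cfsg.Agent.Lib_helper4_SUCenter
import Cfsg.Agent.Lib_helper4_Herm

set_option autoImplicit false
open Cfsg

namespace Cfsg.Agent.S0783

open Matrix Cfsg.Agent.Lib_helper4_Herm Cfsg.Agent.Lib_helper4_GU Cfsg.Agent.Lib_helper4_SU
  Cfsg.Agent.Lib_helper4_SUCenter

/-- A scalar of norm one as a central element of `GU`. -/
lemma exists_scalar {F : Type*} [Field F] [Fintype F] {q : ℕ} (hF : Fintype.card F = q ^ 2) (n : ℕ)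
    (u : Fˣ) (hu : u ^ (q + 1) = 1) :
    ∃ A : Cfsg.GU n F q, ((A : GL (Fin n) F) : Matrix (Fin n) (Fin n) F) = (u : F) • 1 ∧
      A ∈ Subgroup.center (Cfsg.GU n F q) ∧ detHom n F q A = u ^ n := by
  have hu' : (u : F) ^ (q + 1) = 1 := by
    have := congrArg Units.val hu
    rw [Units.val_pow_eq_pow_val] at this
    exact this
  obtain ⟨A, hA⟩ := exists_GU_of_preserves hF ((u : F) • (1 : Matrix (Fin n) (Fin n) F)) (by
    intro x y
    rw [Matrix.smul_mulVec, Matrix.one_mulVec, Matrix.smul_mulVec, Matrix.one_mulVec,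
      herm_smul_left, herm_smul_right, ← mul_assoc, ← pow_succ', hu', one_mul])
  refine ⟨A, hA, ?_, ?_⟩
  · rw [Subgroup.mem_center_iff]
    intro B
    apply Subtype.ext
    apply Units.ext
    show ((B : GL (Fin n) F) : Matrix (Fin n) (Fin n) F) * ((A : GL (Fin n) F) : Matrix (Fin n) (Fin n) F)
      = ((A : GL (Fin n) F) : Matrix (Fin n) (Fin n) F) * ((B : GL (Fin n) F) : Matrix (Fin n) (Fin n) F)
    rw [hA, Matrix.mul_smul, Matrix.smul_mul, mul_one, one_mul]
  · apply Units.ext
    rw [detHom_val, hA, Matrix.det_smul, Matrix.det_one, mul_one, Fintype.card_fin,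
      Units.val_pow_eq_pow_val]

/-- A central element of `GU` is a scalar of norm one. -/
lemma center_scalar {F : Type*} [Field F] [Fintype F] {q : ℕ} (hF : Fintype.card F = q ^ 2) (n : ℕ)
    (hn : 1 ≤ n) (z : Cfsg.GU n F q) (hz : z ∈ Subgroup.center (Cfsg.GU n F q)) :
    ∃ u : Fˣ, u ^ (q + 1) = 1 ∧ detHom n F q z = u ^ n := by
  have hqne : q ≠ 0 := Nat.pos_iff_ne_zero.mp (q_pos hF)
  have hscal := scalar_of_comm hF hn ((z : GL (Fin n) F) : Matrix (Fin n) (Fin n) F) (by
    intro S
    have h1 := Subgroup.mem_center_iff.mp hz (toGU n F q S)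
    have h2 := congrArg (fun s : Cfsg.GU n F q => ((s : GL (Fin n) F) : Matrix (Fin n) (Fin n) F)) h1
    exact h2.symm)
  set c := ((z : GL (Fin n) F) : Matrix (Fin n) (Fin n) F) ⟨0, by omega⟩ ⟨0, by omega⟩ with hc
  have hc1 : c ^ (q + 1) = 1 := by
    have hpres := (mem_GU_iff _).mp z.2 (Pi.single ⟨0, by omega⟩ 1) (Pi.single ⟨0, by omega⟩ 1)
    rw [hscal, Matrix.smul_mulVec, Matrix.one_mulVec, herm_smul_left, herm_smul_right,
      herm_single_right hqne, Pi.single_eq_same, mul_one, ← pow_succ'] at hpres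
    exact hpres
  have hc0 : c ≠ 0 := by
    intro h
    rw [h, zero_pow (Nat.succ_ne_zero q)] at hc1
    exact zero_ne_one hc1
  refine ⟨Units.mk0 c hc0, ?_, ?_⟩
  · apply Units.ext
    rw [Units.val_pow_eq_pow_val]
    exact hc1
  · apply Units.ext
    rw [detHom_val, hscal, Matrix.det_smul, Matrix.det_one, mul_one, Fintype.card_fin,
      Units.val_pow_eq_pow_val]
    rfl

/-- PGU_n(q)/PSU_n(q) is cyclic of order (n, q+1): for n ≥ 2 and |F| = q² there is a surjective homomorphism from GU_n(q) onto the cyclic group of order gcd(n, q + 1) whose kernel is generated by the determinant-one elements together with the centre. -/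
theorem result {F : Type*} [Field F] [Fintype F] {q : ℕ} (hF : Fintype.card F = q ^ 2) (n : ℕ) (hn : 2 ≤ n) : ∃ φ : ↥(Cfsg.GU n F q) →* Multiplicative (ZMod (Nat.gcd n (q + 1))), Function.Surjective φ ∧ φ.ker = (Matrix.GeneralLinearGroup.det : Matrix.GeneralLinearGroup (Fin n) F →* Fˣ).ker.subgroupOf (Cfsg.GU n F q) ⊔ Subgroup.center ↥(Cfsg.GU n F q) := by
  have hn1 : 1 ≤ n := by omega
  have hrange := range_detHom hF hn1
  have hcardC : Nat.card (detHom n F q).range = q + 1 := card_range_detHom hF hn1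
  have key : ∃ ψ : (detHom n F q).range →* Multiplicative (ZMod (Nat.gcd n (q + 1))),
      Function.Surjective ψ ∧ ψ.ker = (powMonoidHom n : (detHom n F q).range →* (detHom n F q).range).range := by
    rw [← hcardC]
    exact Cfsg.Agent.Lib_helper4_CycQuot.exists_hom_ker_pow (detHom n F q).range n
  obtain ⟨ψ, hψs, hψk⟩ := key
  have hmemker : ∀ g : Cfsg.GU n F q, g ∈ (ψ.comp (detHom n F q).rangeRestrict).ker ↔
      ∃ u : Fˣ, u ^ (q + 1) = 1 ∧ detHom n F q g = u ^ n := by
    intro g
    rw [MonoidHom.mem_ker, MonoidHom.comp_apply, ← MonoidHom.mem_ker, hψk]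
    constructor
    · rintro ⟨c, hc⟩
      refine ⟨c.1, ?_, ?_⟩
      · have h1 : (c : Fˣ) ∈ (powMonoidHom (q + 1) : Fˣ →* Fˣ).ker := hrange ▸ c.2
        rw [MonoidHom.mem_ker, powMonoidHom_apply] at h1
        exact h1
      · have h2 := congrArg Subtype.val hc
        exact h2.symm
    · rintro ⟨u, hu1, hu2⟩
      have hu : u ∈ (detHom n F q).range := by
        rw [hrange, MonoidHom.mem_ker, powMonoidHom_apply]
        exact hu1
      refine ⟨⟨u, hu⟩, ?_⟩
      apply Subtype.ext
      exact hu2.symm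
  refine ⟨ψ.comp (detHom n F q).rangeRestrict, ?_, ?_⟩
  · exact hψs.comp (detHom n F q).rangeRestrict_surjective
  · apply le_antisymm
    · intro g hg
      obtain ⟨u, hu1, hu2⟩ := (hmemker g).mp hg
      obtain ⟨A, hA, hAc, hAd⟩ := exists_scalar hF n u hu1
      have h1 : g = (g * A⁻¹) * A := by rw [inv_mul_cancel_right]
      rw [h1]
      apply Subgroup.mul_mem_sup _ hAc
      rw [Subgroup.mem_subgroupOf, MonoidHom.mem_ker]
      show detHom n F q (g * A⁻¹) = 1
      rw [map_mul, map_inv, hAd, hu2, mul_inv_cancel]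
    · apply sup_le
      · intro s hs
        rw [Subgroup.mem_subgroupOf, MonoidHom.mem_ker] at hs
        rw [hmemker]
        refine ⟨1, one_pow _, ?_⟩
        rw [one_pow]
        exact hs
      · intro z hz
        rw [hmemker]
        exact center_scalar hF n hn1 z hz

end Cfsg.Agent.S0783
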