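import Cfsg.Statements.S0792
import Mathlib
import Cfsg.Agent.Lib_helper4_CD

set_option autoImplicit false
open Cfsg

namespace Cfsg.Agent.S0792

/-- For q odd and Q with non-degenerate polar form on F^n, the determinant-one isometries form the subgroup generated by all products r_u r_v of two reflections (Q(u), Q(v) ≠ 0). -/
theorem result {F : Type*} [Field F] [Fintype F] (h2 : (2 : F) ≠ 0) {n : ℕ} (Q : QuadraticForm F (Fin n → F)) (hQ : (QuadraticMap.polarBilin Q).Nondegenerate) : Cfsg.specialIsometryGroup F ⇑Q = Subgroup.closure {g : ↥(Cfsg.isometryGroup F ⇑Q) | ∃ u v : Fin n → F, Q u ≠ 0 ∧ Q v ≠ 0 ∧ ((g : Matrix.GeneralLinearGroup (Fin n) F) : Matrix (Fin n) (Fin n) F) = Cfsg.reflectionMatrix ⇑Q u * Cfsg.reflectionMatrix ⇑Q v} := by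
  classical
  apply le_antisymm
  · intro g hg
    obtain ⟨l, hl, rfl⟩ := Cfsg.Agent.Lib_helper4_CD.isReflProd_all h2 Q hQ g
    have hdet : (((l.prod : Cfsg.isometryGroup F ⇑Q) : Matrix.GeneralLinearGroup (Fin n) F) :
        Matrix (Fin n) (Fin n) F).det = 1 := by
      have h3 := hg
      rw [Cfsg.specialIsometryGroup, MonoidHom.mem_ker] at h3
      have h4 := congrArg Units.val h3
      simpa using h4
    rw [Cfsg.Agent.Lib_helper4_CD.det_prod Q l hl] at hdet
    have heven : Even l.length := by
      by_contra hodd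
      rw [Nat.not_even_iff_odd] at hodd
      rw [hodd.neg_one_pow] at hdet
      apply h2
      linear_combination -hdet
    obtain ⟨k, hk⟩ := heven
    exact Cfsg.Agent.Lib_helper4_CD.even_prod_mem Q k l (by omega) hl
  · rw [Subgroup.closure_le]
    rintro g ⟨u, v, hu, hv, hg⟩
    rw [SetLike.mem_coe, Cfsg.specialIsometryGroup, MonoidHom.mem_ker]
    apply Units.ext
    simp only [MonoidHom.comp_apply, Subgroup.coe_subtype, Matrix.GeneralLinearGroup.val_det_apply,
      Units.val_one]
    rw [hg, Matrix.det_mul, Cfsg.Agent.Lib_helper4_Quad.reflection_det Q u hu,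
      Cfsg.Agent.Lib_helper4_Quad.reflection_det Q v hv]
    norm_num

end Cfsg.Agent.S0792
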