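import Cfsg.Statements.S0793
import Mathlib
import Cfsg.Agent.Lib_helper4_Quad

set_option autoImplicit false
open Cfsg

namespace Cfsg.Agent.S0793

open Matrix

open Cfsg.Agent.Lib_helper4_Quad in
lemma polar_siegel_left {F : Type*} [Field F] {n : ℕ} (Q : QuadraticForm F (Fin n → F))
    (u v w : Fin n → F) (hwu : QuadraticMap.polar ⇑Q w u = 0) (hwv : QuadraticMap.polar ⇑Q w v = 0)
    (c : F) (x : Fin n → F) :
    QuadraticMap.polar ⇑Q w (Cfsg.siegelMatrix ⇑Q u v c *ᵥ x) = QuadraticMap.polar ⇑Q w x := by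
  rw [siegel_mulVec, QuadraticMap.polar_sub_right, QuadraticMap.polar_add_right,
    QuadraticMap.polar_smul_right, QuadraticMap.polar_smul_right, hwu, hwv]
  simp

/-- Root elements: if Q(u) = Q(v) = 0 and f(u, v) = 0 (f the polar form), then for every c the Siegel matrix T_(u,v)(c) preserves Q, fixes u and v, and T(c) T(d) = T(c + d). -/
theorem result {F : Type*} [Field F] {n : ℕ} (Q : QuadraticForm F (Fin n → F)) (u v : Fin n → F) (hu : Q u = 0) (hv : Q v = 0) (huv : QuadraticMap.polar ⇑Q u v = 0) : (∀ c x, Q ((Cfsg.siegelMatrix ⇑Q u v c).mulVec x) = Q x) ∧ (∀ c, (Cfsg.siegelMatrix ⇑Q u v c).mulVec u = u ∧ (Cfsg.siegelMatrix ⇑Q u v c).mulVec v = v) ∧ ∀ c d, Cfsg.siegelMatrix ⇑Q u v c * Cfsg.siegelMatrix ⇑Q u v d = Cfsg.siegelMatrix ⇑Q u v (c + d) := by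
  have huu : QuadraticMap.polar ⇑Q u u = 0 := by
    rw [Cfsg.Agent.Lib_helper4_Quad.polar_self', hu, mul_zero]
  have hvv : QuadraticMap.polar ⇑Q v v = 0 := by
    rw [Cfsg.Agent.Lib_helper4_Quad.polar_self', hv, mul_zero]
  have hvu : QuadraticMap.polar ⇑Q v u = 0 := by
    rw [QuadraticMap.polar_comm, huv]
  refine ⟨fun c x => ?_, fun c => ⟨?_, ?_⟩, fun c d => ?_⟩
  · show Q (Cfsg.siegelMatrix ⇑Q u v c *ᵥ x) = Q x
    rw [Cfsg.Agent.Lib_helper4_Quad.siegel_mulVec, sub_eq_add_neg, ← neg_smul,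
      Cfsg.Agent.Lib_helper4_Quad.quad_add_smul, Cfsg.Agent.Lib_helper4_Quad.quad_add_smul,
      QuadraticMap.polar_add_left, QuadraticMap.polar_smul_left, hu, hv, hvu,
      QuadraticMap.polar_comm (⇑Q) x v, QuadraticMap.polar_comm (⇑Q) x u, smul_eq_mul]
    ring
  · show Cfsg.siegelMatrix ⇑Q u v c *ᵥ u = u
    rw [Cfsg.Agent.Lib_helper4_Quad.siegel_mulVec, huu, hvu]
    simp
  · show Cfsg.siegelMatrix ⇑Q u v c *ᵥ v = v
    rw [Cfsg.Agent.Lib_helper4_Quad.siegel_mulVec, huv, hvv]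
    simp
  · apply Matrix.ext_of_mulVec_single
    intro i
    rw [← Matrix.mulVec_mulVec, Cfsg.Agent.Lib_helper4_Quad.siegel_mulVec Q u v c,
      polar_siegel_left Q u v u huu huv, polar_siegel_left Q u v v hvu hvv,
      Cfsg.Agent.Lib_helper4_Quad.siegel_mulVec, Cfsg.Agent.Lib_helper4_Quad.siegel_mulVec]
    module

end Cfsg.Agent.S0793
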