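import Cfsg.Statements.S0794
import Mathlib
import Cfsg.Agent.Lib_helper4_Quad
import Cfsg.Agent.Lib_helper4_Quad2
import Cfsg.Agent.Lib_helper4_Orth
import Cfsg.Agent.Lib_helper4_WittQuad

set_option autoImplicit false
open Cfsg

namespace Cfsg.Agent.S0794

open Matrix Cfsg.Agent.Lib_helper4_Quad Cfsg.Agent.Lib_helper4_Quad2 Cfsg.Agent.Lib_helper4_Orth
  Cfsg.Agent.Lib_helper4_WittQuad in
lemma exists_iso_of_equiv {F : Type*} [Field F] {n : ℕ} (Q : (Fin n → F) → F)
    (e : (Fin n → F) ≃ₗ[F] (Fin n → F)) (he : ∀ x, Q (e x) = Q x) :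
    ∃ h : Cfsg.isometryGroup F Q,
      ∀ x, ((h : Matrix.GeneralLinearGroup (Fin n) F) : Matrix (Fin n) (Fin n) F) *ᵥ x = e x := by
  have h1 : LinearMap.toMatrix' (e : (Fin n → F) →ₗ[F] (Fin n → F))
      * LinearMap.toMatrix' (e.symm : (Fin n → F) →ₗ[F] (Fin n → F)) = 1 := by
    rw [← LinearMap.toMatrix'_comp]
    have : (e : (Fin n → F) →ₗ[F] (Fin n → F)) ∘ₗ (e.symm : (Fin n → F) →ₗ[F] (Fin n → F))
        = LinearMap.id := by
      ext x; simp
    rw [this, LinearMap.toMatrix'_id]
  have h2 : LinearMap.toMatrix' (e.symm : (Fin n → F) →ₗ[F] (Fin n → F))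
      * LinearMap.toMatrix' (e : (Fin n → F) →ₗ[F] (Fin n → F)) = 1 := by
    rw [← LinearMap.toMatrix'_comp]
    have : (e.symm : (Fin n → F) →ₗ[F] (Fin n → F)) ∘ₗ (e : (Fin n → F) →ₗ[F] (Fin n → F))
        = LinearMap.id := by
      ext x; simp
    rw [this, LinearMap.toMatrix'_id]
  have h3 : ∀ x, LinearMap.toMatrix' (e : (Fin n → F) →ₗ[F] (Fin n → F)) *ᵥ x = e x := by
    intro x
    rw [LinearMap.toMatrix'_mulVec]
    rfl
  refine ⟨⟨⟨_, _, h1, h2⟩, ?_⟩, h3⟩
  rw [mem_isometryGroup_iff]
  intro x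
  show Q (LinearMap.toMatrix' (e : (Fin n → F) →ₗ[F] (Fin n → F)) *ᵥ x) = Q x
  rw [h3, he]


/-- For q odd, n ≥ 5 and Q with non-degenerate polar form: an isometry whose matrix is a Siegel transformation T_(u,v)(c) (u, v singular and orthogonal) is a commutator in the isometry group, so lies in Ω. -/
theorem result {F : Type*} [Field F] [Fintype F] (h2 : (2 : F) ≠ 0) {n : ℕ} (hn : 5 ≤ n) (Q : QuadraticForm F (Fin n → F)) (hQ : (QuadraticMap.polarBilin Q).Nondegenerate) (u v : Fin n → F) (hu : Q u = 0) (hv : Q v = 0) (huv : QuadraticMap.polar ⇑Q u v = 0) (c : F) (g : ↥(Cfsg.isometryGroup F ⇑Q)) (hg : ((g : Matrix.GeneralLinearGroup (Fin n) F) : Matrix (Fin n) (Fin n) F) = Cfsg.siegelMatrix ⇑Q u v c) : g ∈ commutatorSet ↥(Cfsg.isometryGroup F ⇑Q) ∧ g ∈ Cfsg.Omega F ⇑Q := by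
  classical
  suffices h : g ∈ commutatorSet ↥(Cfsg.isometryGroup F ⇑Q) by
    refine ⟨h, ?_⟩
    show g ∈ commutator ↥(Cfsg.isometryGroup F ⇑Q)
    rw [commutator_eq_closure]
    exact Subgroup.subset_closure h
  have huu : QuadraticMap.polar ⇑Q u u = 0 := by
    rw [Cfsg.Agent.Lib_helper4_Quad.polar_self', hu, mul_zero]
  have hvv : QuadraticMap.polar ⇑Q v v = 0 := by
    rw [Cfsg.Agent.Lib_helper4_Quad.polar_self', hv, mul_zero]
  have hvu : QuadraticMap.polar ⇑Q v u = 0 := by
    rw [QuadraticMap.polar_comm, huv]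
  by_cases hli : u ∈ Submodule.span F {v}
  · obtain ⟨a, rfl⟩ := Submodule.mem_span_singleton.mp hli
    have h1 : g = 1 := by
      apply Subtype.ext
      apply Units.ext
      rw [hg]
      apply Matrix.ext_of_mulVec_single
      intro i
      rw [Cfsg.Agent.Lib_helper4_Quad.siegel_mulVec, QuadraticMap.polar_smul_left]
      simp only [OneMemClass.coe_one, Units.val_one, smul_eq_mul]
      rw [smul_smul]
      have : c * QuadraticMap.polar (⇑Q) v (Pi.single i 1) * a
          = c * (a * QuadraticMap.polar (⇑Q) v (Pi.single i 1)) := by ring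
      rw [this, Matrix.one_mulVec]
      abel
    rw [h1]
    exact ⟨1, 1, by simp⟩
  · obtain ⟨ℓ, hℓu, hℓv⟩ :=
      Cfsg.Agent.Lib_helper4_WittQuad.exists_dual_one (Submodule.span F {v}) u hli
    have hℓv' : ℓ v = 0 := hℓv v (Submodule.mem_span_singleton_self v)
    have hX : ∀ x ∈ Submodule.span F {u, v}, Q x = 0 := by
      intro x hx
      obtain ⟨a, b, rfl⟩ := Submodule.mem_span_pair.mp hx
      rw [Cfsg.Agent.Lib_helper4_Quad.quad_add_smul, QuadraticMap.map_smul, hu, hv,
        QuadraticMap.polar_smul_left, huv]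
      simp
    have hG : Cfsg.Agent.Lib_helper4_WittQuad.Good Q (Submodule.span F {u, v})
        (LinearMap.id + ℓ.smulRight u) := by
      constructor
      · intro x hx
        rw [hX x hx]
        apply hX
        simp only [LinearMap.add_apply, LinearMap.id_coe, id_eq, LinearMap.coe_smulRight]
        exact Submodule.add_mem _ hx
          (Submodule.smul_mem _ _ (Submodule.subset_span (by simp)))
      · intro x _ h0
        simp only [LinearMap.add_apply, LinearMap.id_coe, id_eq, LinearMap.coe_smulRight] at h0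
        have h1 : x = -(ℓ x • u) := eq_neg_of_add_eq_zero_left h0
        have h2' : ℓ x = -ℓ x := by
          conv_lhs => rw [h1]
          rw [map_neg, map_smul, hℓu, smul_eq_mul, mul_one]
        have h3 : (2 : F) * ℓ x = 0 := by
          rw [two_mul]
          nth_rewrite 1 [h2']
          exact neg_add_cancel _
        have h4 : ℓ x = 0 := by
          rcases mul_eq_zero.mp h3 with h | h
          · exact absurd h h2
          · exact h
        rw [h1, h4, zero_smul, neg_zero]
    obtain ⟨e, he1, he2⟩ := Cfsg.Agent.Lib_helper4_WittQuad.witt_aux Q hQ _ _ _ le_rfl hG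
    obtain ⟨h, hh⟩ := exists_iso_of_equiv (⇑Q) e he1
    have heu : e u = (2 : F) • u := by
      rw [he2 u (Submodule.subset_span (by simp))]
      simp only [LinearMap.add_apply, LinearMap.id_coe, id_eq, LinearMap.coe_smulRight, hℓu]
      rw [two_smul, one_smul]
    have hev : e v = v := by
      rw [he2 v (Submodule.subset_span (by simp))]
      simp only [LinearMap.add_apply, LinearMap.id_coe, id_eq, LinearMap.coe_smulRight, hℓv']
      rw [zero_smul, add_zero]
    refine ⟨h, g, ?_⟩
    rw [commutatorElement_def, mul_inv_eq_iff_eq_mul, mul_inv_eq_iff_eq_mul]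
    apply Subtype.ext
    apply Units.ext
    simp only [Subgroup.coe_mul, Units.val_mul]
    rw [hg]
    apply Matrix.ext_of_mulVec_single
    intro i
    set x : Fin n → F := Pi.single i 1 with hx
    rw [← Matrix.mulVec_mulVec, ← Matrix.mulVec_mulVec, ← Matrix.mulVec_mulVec,
      Cfsg.Agent.Lib_helper4_Quad.siegel_mulVec, hh, hh,
      Cfsg.Agent.Lib_helper4_Quad.siegel_mulVec,
      Cfsg.Agent.Lib_helper4_Quad.siegel_mulVec]
    have hp : ∀ a b : Fin n → F, QuadraticMap.polar (⇑Q) (e a) (e b) = QuadraticMap.polar (⇑Q) a b := by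
      intro a b
      unfold QuadraticMap.polar
      rw [← map_add, he1, he1, he1]
    have h1 : QuadraticMap.polar (⇑Q) v (e x) = QuadraticMap.polar (⇑Q) v x := by
      conv_lhs => rw [← hev]
      exact hp v x
    have h2 : (2 : F) * QuadraticMap.polar (⇑Q) u (e x) = QuadraticMap.polar (⇑Q) u x := by
      rw [← hp u x, heu, QuadraticMap.polar_smul_left, smul_eq_mul]
    rw [map_sub, map_add, map_smul, map_smul, heu, hev]
    simp only [QuadraticMap.polar_add_right, QuadraticMap.polar_sub_right,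
      QuadraticMap.polar_smul_right, huu, hvv, huv, hvu, h1, smul_eq_mul, mul_zero, add_zero,
      sub_zero]
    rw [← h2]
    module

end Cfsg.Agent.S0794
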