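import Cfsg.Statements.S0796
import Mathlib

set_option autoImplicit false
open Cfsg

namespace Cfsg.Agent.S0796

/-- If G is finite and acts faithfully and primitively on X, H is the stabiliser of a point, A is a normal subgroup of H whose normal closure in G is G, then for every non-trivial normal subgroup K of G the quotient G ⧸ K is isomorphic to A ⧸ B for some normal subgroup B of A. -/
theorem result {G X : Type*} [Group G] [Finite G] [MulAction G X] [FaithfulSMul G X] (hprim : MulAction.IsPreprimitive G X) (x : X) (A : Subgroup G) (hA : A ≤ MulAction.stabilizer G x) (hAn : (A.subgroupOf (MulAction.stabilizer G x)).Normal) (hgen : Subgroup.normalClosure (A : Set G) = ⊤) (K : Subgroup G) [K.Normal] (hK : K ≠ ⊥) : ∃ (B : Subgroup A) (_ : B.Normal), Nonempty (G ⧸ K ≃* A ⧸ B) := by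
  classical
  have hq : MulAction.IsQuasiPreprimitive G X := inferInstance
  have hfix : MulAction.fixedPoints K X ≠ Set.univ := by
    intro h
    apply hK
    rw [Subgroup.eq_bot_iff_forall]
    intro k hk
    apply FaithfulSMul.eq_of_smul_eq_smul (α := X)
    intro y
    have hy : y ∈ MulAction.fixedPoints K X := by
      rw [h]
      trivial
    have h1 := hy ⟨k, hk⟩
    rw [one_smul]
    exact h1
  have hKt : MulAction.IsPretransitive K X := hq.isPretransitive_of_normal hfix
  have hsub : Subgroup.normalClosure (A : Set G) ≤ A ⊔ K := by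
    rw [Subgroup.normalClosure]
    rw [Subgroup.closure_le]
    intro y hy
    rw [Group.mem_conjugatesOfSet_iff] at hy
    obtain ⟨a, ha, hconj⟩ := hy
    rw [isConj_iff] at hconj
    obtain ⟨c, rfl⟩ := hconj
    obtain ⟨k, hk⟩ := MulAction.exists_smul_eq K x (c • x)
    have hh : (k : G)⁻¹ * c ∈ MulAction.stabilizer G x := by
      rw [MulAction.mem_stabilizer_iff, mul_smul, ← hk]
      show (k : G)⁻¹ • ((k : G) • x) = x
      rw [inv_smul_smul]
    have h1 := hAn.conj_mem ⟨a, hA ha⟩ (Subgroup.mem_subgroupOf.mpr ha) ⟨(k : G)⁻¹ * c, hh⟩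
    rw [Subgroup.mem_subgroupOf] at h1
    have h2 : (k : G)⁻¹ * c * a * ((k : G)⁻¹ * c)⁻¹ ∈ A := h1
    have h3 : c * a * c⁻¹ = (k : G) * ((k : G)⁻¹ * c * a * ((k : G)⁻¹ * c)⁻¹) * (k : G)⁻¹ := by group
    show c * a * c⁻¹ ∈ A ⊔ K
    rw [h3]
    have hkK : (k : G) ∈ A ⊔ K := Subgroup.mem_sup_right k.2
    exact Subgroup.mul_mem _ (Subgroup.mul_mem _ hkK (Subgroup.mem_sup_left h2)) (Subgroup.inv_mem _ hkK)
  have htop : A ⊔ K = ⊤ := by
    rw [hgen] at hsub
    exact top_le_iff.mp hsub
  let φ : A →* G ⧸ K := (QuotientGroup.mk' K).comp A.subtype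
  have hφ : Function.Surjective φ := by
    intro y
    obtain ⟨g, rfl⟩ := QuotientGroup.mk_surjective y
    have hg : g ∈ ((A ⊔ K : Subgroup G) : Set G) := by
      rw [htop]
      trivial
    rw [Subgroup.mul_normal, Set.mem_mul] at hg
    obtain ⟨a, ha, k, hk, rfl⟩ := hg
    refine ⟨⟨a, ha⟩, ?_⟩
    show (QuotientGroup.mk a : G ⧸ K) = QuotientGroup.mk (a * k)
    rw [QuotientGroup.eq]
    have : a⁻¹ * (a * k) = k := by group
    rw [this]
    exact hk
  exact ⟨φ.ker, inferInstance, ⟨(QuotientGroup.quotientKerEquivOfSurjective φ hφ).symm⟩⟩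

end Cfsg.Agent.S0796
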