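import Cfsg.Statements.S0802
import Mathlib
import Cfsg.Agent.Lib_helper2_Ord12

set_option autoImplicit false
open Cfsg

namespace Cfsg.Agent.S0802

open Matrix

open Matrix

theorem card_sup {G : Type*} [Group G] (A B : Subgroup G)
    (hnorm : ∀ b ∈ B, ∀ a ∈ A, b * a * b⁻¹ ∈ A) (hdisj : A ⊓ B = ⊥) :
    Nat.card ↥(A ⊔ B) = Nat.card A * Nat.card B ∧ ∀ z ∈ A ⊔ B, ∃ a ∈ A, ∃ b ∈ B, z = a * b := by
  have hmem : ∀ z ∈ A ⊔ B, ∃ a ∈ A, ∃ b ∈ B, z = a * b := by
    intro z hz
    rw [Subgroup.sup_eq_closure] at hz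
    induction hz using Subgroup.closure_induction with
    | mem z hz =>
      rcases hz with h | h
      · exact ⟨z, h, 1, B.one_mem, by simp⟩
      · exact ⟨1, A.one_mem, z, h, by simp⟩
    | one => exact ⟨1, A.one_mem, 1, B.one_mem, by simp⟩
    | mul z w _ _ ihz ihw =>
      obtain ⟨a, ha, b, hb, rfl⟩ := ihz
      obtain ⟨a', ha', b', hb', rfl⟩ := ihw
      exact ⟨a * (b * a' * b⁻¹), A.mul_mem ha (hnorm b hb a' ha'), b * b', B.mul_mem hb hb',
        by group⟩
    | inv z _ ih =>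
      obtain ⟨a, ha, b, hb, rfl⟩ := ih
      exact ⟨b⁻¹ * a⁻¹ * b⁻¹⁻¹, hnorm b⁻¹ (B.inv_mem hb) a⁻¹ (A.inv_mem ha), b⁻¹, B.inv_mem hb,
        by group⟩
  refine ⟨?_, hmem⟩
  have : Nat.card (A × B) = Nat.card ↥(A ⊔ B) := by
    refine Nat.card_congr (Equiv.ofBijective (fun p : A × B =>
      (⟨p.1.1 * p.2.1, Subgroup.mul_mem _ ((le_sup_left : A ≤ A ⊔ B) p.1.2)
        ((le_sup_right : B ≤ A ⊔ B) p.2.2)⟩ : ↥(A ⊔ B))) ⟨?_, ?_⟩)
    · rintro ⟨⟨a, ha⟩, ⟨b, hb⟩⟩ ⟨⟨a', ha'⟩, ⟨b', hb'⟩⟩ h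
      have h1 : a * b = a' * b' := congrArg Subtype.val h
      have h2 : a'⁻¹ * a = b' * b⁻¹ := by
        have : a'⁻¹ * (a * b) * b⁻¹ = a'⁻¹ * (a' * b') * b⁻¹ := by rw [h1]
        calc a'⁻¹ * a = a'⁻¹ * (a * b) * b⁻¹ := by group
          _ = a'⁻¹ * (a' * b') * b⁻¹ := this
          _ = b' * b⁻¹ := by group
      have h3 : a'⁻¹ * a ∈ A ⊓ B :=
        ⟨A.mul_mem (A.inv_mem ha') ha, by rw [h2]; exact B.mul_mem hb' (B.inv_mem hb)⟩
      rw [hdisj, Subgroup.mem_bot, inv_mul_eq_one] at h3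
      subst h3
      have h5 : b = b' := mul_left_cancel h1
      subst h5
      rfl
    · rintro ⟨z, hz⟩
      obtain ⟨a, ha, b, hb, rfl⟩ := hmem z hz
      exact ⟨(⟨a, ha⟩, ⟨b, hb⟩), rfl⟩
  rw [← this, Nat.card_prod]

theorem mem_zpowers_two {G : Type*} [Group G] {x z : G} (ox : orderOf x = 2)
    (hz : z ∈ Subgroup.zpowers x) : z = 1 ∨ z = x := by
  obtain ⟨k, rfl⟩ := hz
  have hmod := zpow_mod_orderOf x k
  rw [ox] at hmod
  show x ^ k = 1 ∨ x ^ k = x
  rw [← hmod]
  rcases Int.emod_two_eq_zero_or_one k with h | h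
  · left
    have : k % ((2 : ℕ) : ℤ) = 0 := h
    rw [this, zpow_zero]
  · right
    have : k % ((2 : ℕ) : ℤ) = 1 := h
    rw [this, zpow_one]

theorem exists_A4 {G : Type*} [Group G] (x y c : G) (hx : x * x = 1) (hy : y * y = 1)
    (hxy : x * y = y * x) (hc : c * c * c = 1) (h1 : c * x = y * c) (h2 : c * y = x * y * c)
    (hx1 : x ≠ 1) (hy1 : y ≠ 1) (hne : x ≠ y) :
    ∃ H : Subgroup G, Nonempty (H ≃* alternatingGroup (Fin 4)) := by
  haveI : Fact (Nat.Prime 2) := ⟨Nat.prime_two⟩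
  haveI : Fact (Nat.Prime 3) := ⟨Nat.prime_three⟩
  have ox : orderOf x = 2 := orderOf_eq_prime (by rw [pow_two]; exact hx) hx1
  have oy : orderOf y = 2 := orderOf_eq_prime (by rw [pow_two]; exact hy) hy1
  have hc1 : c ≠ 1 := by
    rintro rfl
    rw [one_mul, mul_one] at h1
    exact hne h1
  have oc : orderOf c = 3 := orderOf_eq_prime (by rw [pow_succ, pow_two]; exact hc) hc1
  have hzx : ∀ z ∈ Subgroup.zpowers x, z = 1 ∨ z = x := fun z hz => mem_zpowers_two ox hz
  have hzy : ∀ z ∈ Subgroup.zpowers y, z = 1 ∨ z = y := fun z hz => mem_zpowers_two oy hz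
  have hcinv : c⁻¹ = c * c := by
    rw [inv_eq_iff_mul_eq_one, ← mul_assoc]
    exact hc
  have hAB : Subgroup.zpowers x ⊓ Subgroup.zpowers y = ⊥ := by
    rw [eq_bot_iff]
    rintro z ⟨hzA, hzB⟩
    rcases hzx z hzA with h | h
    · exact h
    · rcases hzy z hzB with h' | h'
      · exact h'
      · exact absurd (h.symm.trans h') hne
  have hnormAB : ∀ b ∈ Subgroup.zpowers y, ∀ a ∈ Subgroup.zpowers x, b * a * b⁻¹ ∈ Subgroup.zpowers x := by
    intro b hb a ha
    have : b * a = a * b := by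
      rcases hzy b hb with rfl | rfl <;> rcases hzx a ha with rfl | rfl <;> simp [hxy]
    rw [this, mul_inv_cancel_right]
    exact ha
  obtain ⟨cN, hNmem⟩ := card_sup _ _ hnormAB hAB
  rw [Nat.card_zpowers, Nat.card_zpowers, ox, oy] at cN
  obtain ⟨N, hN⟩ : ∃ N : Subgroup G, N = Subgroup.zpowers x ⊔ Subgroup.zpowers y := ⟨_, rfl⟩
  rw [← hN] at cN hNmem
  have hxN : x ∈ N := by rw [hN]; exact Subgroup.mem_sup_left (Subgroup.mem_zpowers x)
  have hyN : y ∈ N := by rw [hN]; exact Subgroup.mem_sup_right (Subgroup.mem_zpowers y)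
  have hNel : ∀ z ∈ N, z = 1 ∨ z = x ∨ z = y ∨ z = x * y := by
    intro z hz
    obtain ⟨a, ha, b, hb, rfl⟩ := hNmem z hz
    rcases hzx a ha with rfl | rfl <;> rcases hzy b hb with rfl | rfl <;> simp
  have hNC : N ⊓ Subgroup.zpowers c = ⊥ := by
    apply disjoint_iff.1
    apply Subgroup.disjoint_of_coprime_natCard
    rw [cN, Nat.card_zpowers, oc]
    decide
  have hconj : ∀ a ∈ N, c * a * c⁻¹ ∈ N := by
    intro a ha
    rcases hNel a ha with rfl | rfl | rfl | rfl
    · simp [N.one_mem]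
    · rw [h1, mul_inv_cancel_right]; exact hyN
    · rw [h2, mul_inv_cancel_right]; exact N.mul_mem hxN hyN
    · have : c * (x * y) = x * c := by
        rw [← mul_assoc, h1, mul_assoc, h2, ← mul_assoc, ← mul_assoc, ← hxy, mul_assoc x y y, hy,
          mul_one]
      rw [this, mul_inv_cancel_right]; exact hxN
  have hnormNC : ∀ b ∈ Subgroup.zpowers c, ∀ a ∈ N, b * a * b⁻¹ ∈ N := by
    intro b hb a ha
    rcases Cfsg.Agent.Lib_helper2_Ord12.mem_zpowers_three oc hb with rfl | rfl | rfl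
    · simpa using ha
    · exact hconj a ha
    · rw [inv_inv, hcinv]
      have := hconj _ (hconj a ha)
      have e : c * c * a * c = c * (c * a * c⁻¹) * c⁻¹ * (c * c * c) := by group
      rw [e, hc, mul_one]
      exact this
  obtain ⟨cH, hHmem⟩ := card_sup _ _ hnormNC hNC
  rw [cN, Nat.card_zpowers, oc] at cH
  obtain ⟨H, hH⟩ : ∃ H : Subgroup G, H = N ⊔ Subgroup.zpowers c := ⟨_, rfl⟩
  rw [← hH] at cH hHmem
  have hcH : c ∈ H := by rw [hH]; exact Subgroup.mem_sup_right (Subgroup.mem_zpowers c)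
  haveI : Finite H := Nat.finite_of_card_ne_zero (by rw [cH]; norm_num)
  refine ⟨H, Cfsg.Agent.Lib_helper2_Ord12.order12 cH ?_⟩
  intro z oz hzc
  obtain ⟨n, hn, b, hb, hzeq⟩ := hHmem z.1 z.2
  have hz2 : z.1 * z.1 = 1 := by
    have := pow_orderOf_eq_one z
    rw [oz, pow_two] at this
    exact congrArg Subtype.val this
  have hz1 : z.1 ≠ 1 := by
    intro h
    have : z = 1 := Subtype.ext h
    rw [this, orderOf_one] at oz
    norm_num at oz
  have hcomm : c * z.1 = z.1 * c := by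
    have := Subgroup.mem_center_iff.1 hzc ⟨c, hcH⟩
    exact congrArg Subtype.val this
  -- b = 1
  have hb1 : b = 1 := by
    have hbb : b * b ∈ N := by
      have e0 : (n * (b * n * b⁻¹)) * (b * b) = 1 := by
        calc (n * (b * n * b⁻¹)) * (b * b) = n * b * (n * b) := by group
          _ = 1 := by rw [← hzeq]; exact hz2
      have e : b * b = (n * (b * n * b⁻¹))⁻¹ := eq_inv_of_mul_eq_one_right e0
      rw [e]
      exact N.inv_mem (N.mul_mem hn (hnormNC b hb n hn))
    have hbb1 : b * b = 1 := by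
      have : b * b ∈ N ⊓ Subgroup.zpowers c := ⟨hbb, Subgroup.mul_mem _ hb hb⟩
      rw [hNC, Subgroup.mem_bot] at this
      exact this
    rcases Cfsg.Agent.Lib_helper2_Ord12.mem_zpowers_three oc hb with rfl | rfl | rfl
    · rfl
    · exfalso
      rw [hbb1, one_mul] at hc
      exact hc1 hc
    · exfalso
      have : c * c = 1 := by
        have := congrArg (fun g => g⁻¹) hbb1
        simpa using this
      rw [this, one_mul] at hc
      exact hc1 hc
  rw [hb1, mul_one] at hzeq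
  rw [hzeq] at hz1 hcomm
  rcases hNel n hn with rfl | rfl | rfl | rfl
  · exact hz1 rfl
  · rw [h1] at hcomm
    exact hne (mul_right_cancel hcomm).symm
  · rw [h2] at hcomm
    have := mul_right_cancel hcomm
    -- x * y = y
    exact hx1 (by simpa using this)
  · have e : c * (x * y) = x * c := by
      rw [← mul_assoc, h1, mul_assoc, h2, ← mul_assoc, ← mul_assoc, ← hxy, mul_assoc x y y, hy,
        mul_one]
    rw [e] at hcomm
    have := mul_right_cancel hcomm
    exact hy1 (by simpa using this.symm)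


section PSL
variable {F : Type*} [Field F]

theorem center_entries (A : Matrix.SpecialLinearGroup (Fin 2) F)
    (h : (QuotientGroup.mk A : Matrix.ProjectiveSpecialLinearGroup (Fin 2) F) = 1) :
    A.val 0 1 = 0 ∧ A.val 1 0 = 0 ∧ A.val 0 0 = A.val 1 1 := by
  rw [QuotientGroup.eq_one_iff, Matrix.SpecialLinearGroup.mem_center_iff] at h
  obtain ⟨r, -, hr⟩ := h
  have h01 := congrFun (congrFun hr 0) 1
  have h10 := congrFun (congrFun hr 1) 0
  have h00 := congrFun (congrFun hr 0) 0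
  have h11 := congrFun (congrFun hr 1) 1
  simp at h01 h10 h00 h11
  exact ⟨h01.symm, h10.symm, h00.symm.trans h11⟩

def negOne : Matrix.SpecialLinearGroup (Fin 2) F :=
  ⟨-1, by rw [Matrix.det_neg, Matrix.det_one, Fintype.card_fin]; ring⟩

theorem mk_negOne :
    (QuotientGroup.mk (negOne : Matrix.SpecialLinearGroup (Fin 2) F) :
      Matrix.ProjectiveSpecialLinearGroup (Fin 2) F) = 1 := by
  rw [QuotientGroup.eq_one_iff, Matrix.SpecialLinearGroup.mem_center_iff]
  refine ⟨-1, by simp, ?_⟩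
  ext i j
  fin_cases i <;> fin_cases j <;> simp [negOne]

theorem exists_odd [Finite F] (h2 : (2 : F) ≠ 0) :
    ∃ H : Subgroup (Matrix.ProjectiveSpecialLinearGroup (Fin 2) F),
      Nonempty (H ≃* alternatingGroup (Fin 4)) := by
  obtain ⟨p, hp⟩ := CharP.exists F
  haveI := hp
  haveI : NeZero p := ⟨CharP.char_ne_zero_of_finite F p⟩
  obtain ⟨a', b', hab'⟩ := CharP.sq_add_sq F p (-1)
  obtain ⟨a, b, hab⟩ : ∃ a b : F, a ^ 2 + b ^ 2 = -1 := ⟨a', b', by simpa using hab'⟩
  have d1 : (!![a, b; b, -a] : Matrix (Fin 2) (Fin 2) F).det = 1 := by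
    rw [Matrix.det_fin_two_of]; grind
  have d2 : (!![0, 1; -1, 0] : Matrix (Fin 2) (Fin 2) F).det = 1 := by
    simp [Matrix.det_fin_two_of]
  have d3 : (!![(1 + a - b) / 2, (1 + a + b) / 2; (a + b - 1) / 2, (1 - a + b) / 2] :
      Matrix (Fin 2) (Fin 2) F).det = 1 := by
    rw [Matrix.det_fin_two_of]; grind
  obtain ⟨qi, hqi⟩ : ∃ q : Matrix.SpecialLinearGroup (Fin 2) F, q.val = !![a, b; b, -a] :=
    ⟨⟨_, d1⟩, rfl⟩
  obtain ⟨qj, hqj⟩ : ∃ q : Matrix.SpecialLinearGroup (Fin 2) F, q.val = !![0, 1; -1, 0] :=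
    ⟨⟨_, d2⟩, rfl⟩
  obtain ⟨qh, hqh⟩ : ∃ q : Matrix.SpecialLinearGroup (Fin 2) F,
      q.val = !![(1 + a - b) / 2, (1 + a + b) / 2; (a + b - 1) / 2, (1 - a + b) / 2] :=
    ⟨⟨_, d3⟩, rfl⟩
  have r_ii : qi * qi = negOne := by
    apply Subtype.ext
    change qi.val * qi.val = -1
    rw [hqi]
    ext i j
    fin_cases i <;> fin_cases j <;> simp [Matrix.mul_apply, Fin.sum_univ_two] <;> grind
  have r_jj : qj * qj = negOne := by
    apply Subtype.ext
    change qj.val * qj.val = -1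
    rw [hqj]
    ext i j
    fin_cases i <;> fin_cases j <;> simp [Matrix.mul_apply, Fin.sum_univ_two]
  have r_ij : qi * qj = negOne * (qj * qi) := by
    apply Subtype.ext
    change qi.val * qj.val = -1 * (qj.val * qi.val)
    rw [hqi, hqj]
    ext i j
    fin_cases i <;> fin_cases j <;> simp [Matrix.mul_apply, Fin.sum_univ_two]
  have r_hhh : qh * qh * qh = negOne := by
    apply Subtype.ext
    change qh.val * qh.val * qh.val = -1
    rw [hqh]
    ext i j
    fin_cases i <;> fin_cases j <;> simp [Matrix.mul_apply, Fin.sum_univ_two] <;> grind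
  have r_hi : qh * qi = qj * qh := by
    apply Subtype.ext
    change qh.val * qi.val = qj.val * qh.val
    rw [hqh, hqi, hqj]
    ext i j
    fin_cases i <;> fin_cases j <;> simp [Matrix.mul_apply, Fin.sum_univ_two] <;> grind
  have r_hj : qh * qj = qi * qj * qh := by
    apply Subtype.ext
    change qh.val * qj.val = qi.val * qj.val * qh.val
    rw [hqh, hqi, hqj]
    ext i j
    fin_cases i <;> fin_cases j <;> simp [Matrix.mul_apply, Fin.sum_univ_two] <;> grind
  have hnegc : ∀ g : Matrix.SpecialLinearGroup (Fin 2) F,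
      (QuotientGroup.mk (negOne * g) : Matrix.ProjectiveSpecialLinearGroup (Fin 2) F)
        = QuotientGroup.mk g := by
    intro g
    rw [QuotientGroup.mk_mul, mk_negOne, one_mul]
  refine exists_A4 (QuotientGroup.mk qi) (QuotientGroup.mk qj) (QuotientGroup.mk qh) ?_ ?_ ?_ ?_ ?_ ?_
    ?_ ?_ ?_
  · rw [← QuotientGroup.mk_mul, r_ii, mk_negOne]
  · rw [← QuotientGroup.mk_mul, r_jj, mk_negOne]
  · rw [← QuotientGroup.mk_mul, ← QuotientGroup.mk_mul, r_ij, hnegc]
  · rw [← QuotientGroup.mk_mul, ← QuotientGroup.mk_mul, r_hhh, mk_negOne]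
  · rw [← QuotientGroup.mk_mul, ← QuotientGroup.mk_mul, r_hi]
  · rw [← QuotientGroup.mk_mul, ← QuotientGroup.mk_mul, ← QuotientGroup.mk_mul, r_hj]
  · intro h
    obtain ⟨h01, -, h00⟩ := center_entries qi h
    rw [hqi] at h01 h00
    simp at h01 h00
    grind
  · intro h
    obtain ⟨h01, -, -⟩ := center_entries qj h
    rw [hqj] at h01
    simp at h01
  · intro h
    have h' : (QuotientGroup.mk (qi * qj) : Matrix.ProjectiveSpecialLinearGroup (Fin 2) F) = 1 := by
      rw [QuotientGroup.mk_mul, h, ← QuotientGroup.mk_mul, r_jj, mk_negOne]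
    obtain ⟨h01, -, h00⟩ := center_entries (qi * qj) h'
    have e : (qi * qj).val = qi.val * qj.val := rfl
    rw [e, hqi, hqj] at h01 h00
    simp [Matrix.mul_apply, Fin.sum_univ_two] at h01 h00
    grind

theorem exists_even [CharP F 2] (ω : F) (hω : ω ^ 2 + ω + 1 = 0) :
    ∃ H : Subgroup (Matrix.ProjectiveSpecialLinearGroup (Fin 2) F),
      Nonempty (H ≃* alternatingGroup (Fin 4)) := by
  have h2 : (2 : F) = 0 := CharTwo.two_eq_zero
  have hω3 : ω ^ 3 = 1 := by grind
  have d1 : (!![1, 1; 0, 1] : Matrix (Fin 2) (Fin 2) F).det = 1 := by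
    simp [Matrix.det_fin_two_of]
  have d2 : (!![1, ω; 0, 1] : Matrix (Fin 2) (Fin 2) F).det = 1 := by
    simp [Matrix.det_fin_two_of]
  have d3 : (!![ω ^ 2, 0; 0, ω] : Matrix (Fin 2) (Fin 2) F).det = 1 := by
    rw [Matrix.det_fin_two_of]; grind
  obtain ⟨qx, hqx⟩ : ∃ q : Matrix.SpecialLinearGroup (Fin 2) F, q.val = !![1, 1; 0, 1] :=
    ⟨⟨_, d1⟩, rfl⟩
  obtain ⟨qy, hqy⟩ : ∃ q : Matrix.SpecialLinearGroup (Fin 2) F, q.val = !![1, ω; 0, 1] :=
    ⟨⟨_, d2⟩, rfl⟩
  obtain ⟨qc, hqc⟩ : ∃ q : Matrix.SpecialLinearGroup (Fin 2) F, q.val = !![ω ^ 2, 0; 0, ω] :=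
    ⟨⟨_, d3⟩, rfl⟩
  have r_xx : qx * qx = 1 := by
    apply Subtype.ext
    change qx.val * qx.val = 1
    rw [hqx]
    ext i j
    fin_cases i <;> fin_cases j <;> simp [Matrix.mul_apply, Fin.sum_univ_two] <;> grind
  have r_yy : qy * qy = 1 := by
    apply Subtype.ext
    change qy.val * qy.val = 1
    rw [hqy]
    ext i j
    fin_cases i <;> fin_cases j <;> simp [Matrix.mul_apply, Fin.sum_univ_two] <;> grind
  have r_xy : qx * qy = qy * qx := by
    apply Subtype.ext
    change qx.val * qy.val = qy.val * qx.val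
    rw [hqx, hqy]
    ext i j
    fin_cases i <;> fin_cases j <;> simp [Matrix.mul_apply, Fin.sum_univ_two] <;> grind
  have r_ccc : qc * qc * qc = 1 := by
    apply Subtype.ext
    change qc.val * qc.val * qc.val = 1
    rw [hqc]
    ext i j
    fin_cases i <;> fin_cases j <;> simp [Matrix.mul_apply, Fin.sum_univ_two] <;> grind
  have r_cx : qc * qx = qy * qc := by
    apply Subtype.ext
    change qc.val * qx.val = qy.val * qc.val
    rw [hqc, hqx, hqy]
    ext i j
    fin_cases i <;> fin_cases j <;> simp [Matrix.mul_apply, Fin.sum_univ_two] <;> grind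
  have r_cy : qc * qy = qx * qy * qc := by
    apply Subtype.ext
    change qc.val * qy.val = qx.val * qy.val * qc.val
    rw [hqc, hqx, hqy]
    ext i j
    fin_cases i <;> fin_cases j <;> simp [Matrix.mul_apply, Fin.sum_univ_two] <;> grind
  refine exists_A4 (QuotientGroup.mk qx) (QuotientGroup.mk qy) (QuotientGroup.mk qc) ?_ ?_ ?_ ?_ ?_ ?_
    ?_ ?_ ?_
  · rw [← QuotientGroup.mk_mul, r_xx]; rfl
  · rw [← QuotientGroup.mk_mul, r_yy]; rfl
  · rw [← QuotientGroup.mk_mul, ← QuotientGroup.mk_mul, r_xy]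
  · rw [← QuotientGroup.mk_mul, ← QuotientGroup.mk_mul, r_ccc]; rfl
  · rw [← QuotientGroup.mk_mul, ← QuotientGroup.mk_mul, r_cx]
  · rw [← QuotientGroup.mk_mul, ← QuotientGroup.mk_mul, ← QuotientGroup.mk_mul, r_cy]
  · intro h
    obtain ⟨h01, -, -⟩ := center_entries qx h
    rw [hqx] at h01
    simp at h01
  · intro h
    obtain ⟨h01, -, -⟩ := center_entries qy h
    rw [hqy] at h01
    simp at h01
    grind
  · intro h
    have h' : (QuotientGroup.mk (qx * qy) : Matrix.ProjectiveSpecialLinearGroup (Fin 2) F) = 1 := by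
      rw [QuotientGroup.mk_mul, h, ← QuotientGroup.mk_mul, r_yy]; rfl
    obtain ⟨h01, -, -⟩ := center_entries (qx * qy) h'
    have e : (qx * qy).val = qx.val * qy.val := rfl
    rw [e, hqx, hqy] at h01
    simp [Matrix.mul_apply, Fin.sum_univ_two] at h01
    grind

end PSL


section Char2
variable {F : Type*} [Field F] [CharP F 2]

theorem kernel_line (N : Matrix (Fin 2) (Fin 2) F) (hN : N ≠ 0) (v w : Fin 2 → F)
    (hv : N *ᵥ v = 0) (hw : N *ᵥ w = 0) (hv0 : v ≠ 0) : ∃ t : F, w = t • v := by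
  have : ∃ i j, N i j ≠ 0 := by
    by_contra h
    push_neg at h
    exact hN (by ext i j; exact h i j)
  obtain ⟨i, j, hij⟩ := this
  have e1 : N i 0 * v 0 + N i 1 * v 1 = 0 := by
    have := congrFun hv i
    simpa [Matrix.mulVec, dotProduct, Fin.sum_univ_two] using this
  have e2 : N i 0 * w 0 + N i 1 * w 1 = 0 := by
    have := congrFun hw i
    simpa [Matrix.mulVec, dotProduct, Fin.sum_univ_two] using this
  have hc : v 0 * w 1 = v 1 * w 0 := by
    have c0 : N i 0 * (v 0 * w 1 - v 1 * w 0) = 0 := by linear_combination w 1 * e1 - v 1 * e2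
    have c1 : N i 1 * (v 0 * w 1 - v 1 * w 0) = 0 := by linear_combination v 0 * e2 - w 0 * e1
    have : N i 0 ≠ 0 ∨ N i 1 ≠ 0 := by
      fin_cases j
      · left; exact hij
      · right; exact hij
    rcases this with h | h
    · exact sub_eq_zero.1 ((mul_eq_zero.1 c0).resolve_left h)
    · exact sub_eq_zero.1 ((mul_eq_zero.1 c1).resolve_left h)
  by_cases h0 : v 0 = 0
  · have h1 : v 1 ≠ 0 := by
      intro h1
      apply hv0
      funext k
      fin_cases k
      · exact h0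
      · exact h1
    refine ⟨w 1 / v 1, ?_⟩
    have hw0 : w 0 = 0 := by
      rw [h0, zero_mul] at hc
      exact (mul_eq_zero.1 hc.symm).resolve_left h1
    funext k
    fin_cases k
    · simp [h0, hw0]
    · simp
      field_simp
  · refine ⟨w 0 / v 0, ?_⟩
    funext k
    fin_cases k
    · simp
      field_simp
    · simp
      field_simp
      linear_combination hc

theorem exists_fixed (A : Matrix (Fin 2) (Fin 2) F) (hA : A * A = 1) (hA1 : A ≠ 1) :
    ∃ v : Fin 2 → F, v ≠ 0 ∧ A *ᵥ v = v ∧ A + 1 ≠ 0 := by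
  have hN : A + 1 ≠ 0 := by
    intro h
    apply hA1
    ext i j
    have := congrFun (congrFun h i) j
    simp only [Matrix.add_apply, Matrix.zero_apply] at this
    exact CharTwo.add_eq_zero.1 this
  have hAA : A + A = 0 := by
    ext i j
    simp [CharTwo.add_self_eq_zero]
  have h11 : (1 : Matrix (Fin 2) (Fin 2) F) + 1 = 0 := by
    ext i j
    simp [CharTwo.add_self_eq_zero]
  have hNN : (A + 1) * (A + 1) = 0 := by
    calc (A + 1) * (A + 1) = A * A + (A + A) + 1 := by
          rw [add_mul, mul_add, mul_add, mul_one, one_mul, one_mul]; abel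
      _ = 0 := by rw [hA, hAA, add_zero, h11]
  obtain ⟨i, j, hij⟩ : ∃ i j, (A + 1) i j ≠ 0 := by
    by_contra h
    push_neg at h
    exact hN (by ext i j; exact h i j)
  refine ⟨(A + 1) *ᵥ Pi.single j 1, ?_, ?_, hN⟩
  · intro h
    apply hij
    have := congrFun h i
    simpa [Matrix.mulVec_single_one] using this
  · have : (A + 1) *ᵥ ((A + 1) *ᵥ Pi.single j 1) = 0 := by
      rw [Matrix.mulVec_mulVec, hNN, Matrix.zero_mulVec]
    rw [Matrix.add_mulVec, Matrix.one_mulVec] at this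
    funext k
    have h' := congrFun this k
    simp only [Pi.add_apply, Pi.zero_apply] at h'
    exact CharTwo.add_eq_zero.1 h'

theorem vec_add_self (v : Fin 2 → F) : v + v = 0 := by
  funext k
  simp [CharTwo.add_self_eq_zero]

theorem no_A4 [Fintype F] (n : ℕ) (hF : Fintype.card F = 2 ^ n) (hn : Odd n)
    (H : Subgroup (Matrix.ProjectiveSpecialLinearGroup (Fin 2) F))
    (e : H ≃* alternatingGroup (Fin 4)) : False := by
  have h2 : (2 : F) = 0 := CharTwo.two_eq_zero
  -- the centre is trivial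
  have hcen : ∀ X : Matrix.SpecialLinearGroup (Fin 2) F,
      (QuotientGroup.mk X : Matrix.ProjectiveSpecialLinearGroup (Fin 2) F) = 1 → X = 1 := by
    intro X hX
    obtain ⟨h01, h10, h00⟩ := center_entries X hX
    have hdet := X.2
    rw [Matrix.det_fin_two, h01, h10, ← h00] at hdet
    have hx : X.val 0 0 = 1 := by grind
    apply Subtype.ext
    ext i j
    fin_cases i <;> fin_cases j
    · simpa using hx
    · simpa using h01
    · simpa using h10
    · simp
      rw [← h00]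
      exact hx
  have hinj : ∀ X Y : Matrix.SpecialLinearGroup (Fin 2) F,
      (QuotientGroup.mk X : Matrix.ProjectiveSpecialLinearGroup (Fin 2) F) = QuotientGroup.mk Y →
      X = Y := by
    intro X Y h
    have : (QuotientGroup.mk (X⁻¹ * Y) : Matrix.ProjectiveSpecialLinearGroup (Fin 2) F) = 1 := by
      rw [QuotientGroup.mk_mul, QuotientGroup.mk_inv, h, inv_mul_cancel]
    have := hcen _ this
    rw [inv_mul_eq_one] at this
    exact this
  -- elements of A4
  obtain ⟨σa, hσa⟩ : ∃ σ : Equiv.Perm (Fin 4), σ = Equiv.swap (0 : Fin 4) 1 * Equiv.swap 2 3 :=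
    ⟨_, rfl⟩
  obtain ⟨σb, hσb⟩ : ∃ σ : Equiv.Perm (Fin 4), σ = Equiv.swap (0 : Fin 4) 2 * Equiv.swap 1 3 :=
    ⟨_, rfl⟩
  obtain ⟨σc, hσc⟩ : ∃ σ : Equiv.Perm (Fin 4), σ = Equiv.swap (1 : Fin 4) 2 * Equiv.swap 2 3 :=
    ⟨_, rfl⟩
  have ha : σa ∈ alternatingGroup (Fin 4) := by
    rw [hσa, Equiv.Perm.mem_alternatingGroup, Equiv.Perm.sign_mul,
      Equiv.Perm.sign_swap (by decide), Equiv.Perm.sign_swap (by decide)]
    rfl
  have hb : σb ∈ alternatingGroup (Fin 4) := by
    rw [hσb, Equiv.Perm.mem_alternatingGroup, Equiv.Perm.sign_mul,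
      Equiv.Perm.sign_swap (by decide), Equiv.Perm.sign_swap (by decide)]
    rfl
  have hc : σc ∈ alternatingGroup (Fin 4) := by
    rw [hσc, Equiv.Perm.mem_alternatingGroup, Equiv.Perm.sign_mul,
      Equiv.Perm.sign_swap (by decide), Equiv.Perm.sign_swap (by decide)]
    rfl
  have f1 : σa * σa = 1 := by rw [hσa]; decide
  have f2 : σb * σb = 1 := by rw [hσb]; decide
  have f3 : σa * σb = σb * σa := by rw [hσa, hσb]; decide
  have f4 : σc * σc * σc = 1 := by rw [hσc]; decide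
  have f5 : σc * σa = σb * σc := by rw [hσa, hσb, hσc]; decide
  have f6 : σa ≠ 1 := by rw [hσa]; decide
  have f7 : σb ≠ 1 := by rw [hσb]; decide
  have f8 : σc ≠ 1 := by rw [hσc]; decide
  -- transfer to PSL and lift to SL
  obtain ⟨A, hA⟩ := QuotientGroup.mk_surjective
    ((e.symm ⟨σa, ha⟩ : H) : Matrix.ProjectiveSpecialLinearGroup (Fin 2) F)
  obtain ⟨B, hB⟩ := QuotientGroup.mk_surjective
    ((e.symm ⟨σb, hb⟩ : H) : Matrix.ProjectiveSpecialLinearGroup (Fin 2) F)
  obtain ⟨C, hC⟩ := QuotientGroup.mk_surjective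
    ((e.symm ⟨σc, hc⟩ : H) : Matrix.ProjectiveSpecialLinearGroup (Fin 2) F)
  have tr : ∀ s t : alternatingGroup (Fin 4),
      ((e.symm (s * t) : H) : Matrix.ProjectiveSpecialLinearGroup (Fin 2) F)
        = (e.symm s : H) * (e.symm t : H) := by
    intro s t
    rw [map_mul]
    rfl
  have rAA : A * A = 1 := by
    apply hinj
    rw [QuotientGroup.mk_mul, hA, ← tr]
    have : (⟨σa, ha⟩ : alternatingGroup (Fin 4)) * ⟨σa, ha⟩ = 1 := Subtype.ext f1
    rw [this, map_one]
    rfl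
  have rBB : B * B = 1 := by
    apply hinj
    rw [QuotientGroup.mk_mul, hB, ← tr]
    have : (⟨σb, hb⟩ : alternatingGroup (Fin 4)) * ⟨σb, hb⟩ = 1 := Subtype.ext f2
    rw [this, map_one]
    rfl
  have rAB : A * B = B * A := by
    apply hinj
    rw [QuotientGroup.mk_mul, QuotientGroup.mk_mul, hA, hB, ← tr, ← tr]
    have : (⟨σa, ha⟩ : alternatingGroup (Fin 4)) * ⟨σb, hb⟩ = ⟨σb, hb⟩ * ⟨σa, ha⟩ := Subtype.ext f3
    rw [this]
  have rCCC : C * C * C = 1 := by
    apply hinj
    rw [QuotientGroup.mk_mul, QuotientGroup.mk_mul, hC, ← tr, ← tr]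
    have : (⟨σc, hc⟩ : alternatingGroup (Fin 4)) * ⟨σc, hc⟩ * ⟨σc, hc⟩ = 1 := Subtype.ext f4
    rw [this, map_one]
    rfl
  have rCA : C * A = B * C := by
    apply hinj
    rw [QuotientGroup.mk_mul, QuotientGroup.mk_mul, hA, hB, hC, ← tr, ← tr]
    have : (⟨σc, hc⟩ : alternatingGroup (Fin 4)) * ⟨σa, ha⟩ = ⟨σb, hb⟩ * ⟨σc, hc⟩ := Subtype.ext f5
    rw [this]
  have ne_one : ∀ (X : Matrix.SpecialLinearGroup (Fin 2) F) (σ : Equiv.Perm (Fin 4))
      (hσ : σ ∈ alternatingGroup (Fin 4)),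
      (QuotientGroup.mk X : Matrix.ProjectiveSpecialLinearGroup (Fin 2) F) =
        ((e.symm ⟨σ, hσ⟩ : H) : Matrix.ProjectiveSpecialLinearGroup (Fin 2) F) → σ ≠ 1 →
      X.val ≠ 1 := by
    intro X σ hσ hX hσ1 hX1
    have : X = 1 := Subtype.ext hX1
    rw [this] at hX
    have h1 : (e.symm ⟨σ, hσ⟩ : H) = 1 := by
      apply Subtype.ext
      rw [← hX]
      rfl
    have h2 : (⟨σ, hσ⟩ : alternatingGroup (Fin 4)) = 1 := by
      have := congrArg e h1
      rw [MulEquiv.apply_symm_apply, map_one] at this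
      exact this
    exact hσ1 (congrArg Subtype.val h2)
  have nA := ne_one A σa ha hA f6
  have nB := ne_one B σb hb hB f7
  have nC := ne_one C σc hc hC f8
  have mAA : A.val * A.val = 1 := congrArg Subtype.val rAA
  have mBB : B.val * B.val = 1 := congrArg Subtype.val rBB
  have mAB : A.val * B.val = B.val * A.val := congrArg Subtype.val rAB
  have mCCC : C.val * C.val * C.val = 1 := congrArg Subtype.val rCCC
  have mCA : C.val * A.val = B.val * C.val := congrArg Subtype.val rCA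
  -- the common fixed vector
  obtain ⟨v, hv0, hAv, hNA⟩ := exists_fixed A.val mAA nA
  obtain ⟨-, -, -, hNB⟩ := exists_fixed B.val mBB nB
  have hNAv : (A.val + 1) *ᵥ v = 0 := by
    rw [Matrix.add_mulVec, Matrix.one_mulVec, hAv, vec_add_self]
  have hNABv : (A.val + 1) *ᵥ (B.val *ᵥ v) = 0 := by
    rw [Matrix.add_mulVec, Matrix.one_mulVec, Matrix.mulVec_mulVec, mAB, ← Matrix.mulVec_mulVec,
      hAv, vec_add_self]
  obtain ⟨μ, hμ⟩ := kernel_line (A.val + 1) hNA v (B.val *ᵥ v) hNAv hNABv hv0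
  obtain ⟨k, hk⟩ : ∃ k, v k ≠ 0 := by
    by_contra h
    push_neg at h
    exact hv0 (funext h)
  have hμ1 : μ = 1 := by
    have h1 : B.val *ᵥ (B.val *ᵥ v) = v := by
      rw [Matrix.mulVec_mulVec, mBB, Matrix.one_mulVec]
    rw [hμ, Matrix.mulVec_smul, hμ] at h1
    have h3 := congrFun h1 k
    simp only [Pi.smul_apply, smul_eq_mul] at h3
    have h4 : μ * μ = 1 := by
      have : (μ * μ - 1) * v k = 0 := by linear_combination h3
      exact sub_eq_zero.1 ((mul_eq_zero.1 this).resolve_right hk)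
    grind
  have hBv : B.val *ᵥ v = v := by rw [hμ, hμ1, one_smul]
  have hNBv : (B.val + 1) *ᵥ v = 0 := by
    rw [Matrix.add_mulVec, Matrix.one_mulVec, hBv, vec_add_self]
  have hNBCv : (B.val + 1) *ᵥ (C.val *ᵥ v) = 0 := by
    rw [Matrix.add_mulVec, Matrix.one_mulVec, Matrix.mulVec_mulVec, ← mCA, ← Matrix.mulVec_mulVec,
      hAv, vec_add_self]
  obtain ⟨l, hl⟩ := kernel_line (B.val + 1) hNB v (C.val *ᵥ v) hNBv hNBCv hv0
  have hl3 : l * l * l = 1 := by
    have h1 : C.val *ᵥ (C.val *ᵥ (C.val *ᵥ v)) = v := by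
      rw [Matrix.mulVec_mulVec, Matrix.mulVec_mulVec, mCCC, Matrix.one_mulVec]
    rw [hl, Matrix.mulVec_smul, hl, Matrix.mulVec_smul, Matrix.mulVec_smul, hl] at h1
    have h3 := congrFun h1 k
    simp only [Pi.smul_apply, smul_eq_mul] at h3
    have : (l * l * l - 1) * v k = 0 := by linear_combination h3
    exact sub_eq_zero.1 ((mul_eq_zero.1 this).resolve_right hk)
  have hl1 : l ≠ 1 := by
    intro h
    rw [h, one_smul] at hl
    have hdet := C.2
    rw [Matrix.det_fin_two] at hdet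
    have ch : C.val * C.val = (C.val 0 0 + C.val 1 1) • C.val + 1 := by
      ext i j
      fin_cases i <;> fin_cases j <;>
        simp [Matrix.mul_apply, Fin.sum_univ_two] <;> grind
    have h1 : C.val *ᵥ (C.val *ᵥ v) = v := by rw [hl, hl]
    rw [Matrix.mulVec_mulVec, ch, Matrix.add_mulVec, Matrix.one_mulVec, Matrix.smul_mulVec, hl]
      at h1
    have h3 := congrFun h1 k
    simp only [Pi.add_apply, Pi.smul_apply, smul_eq_mul] at h3
    have ht : C.val 0 0 + C.val 1 1 = 0 := by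
      have : (C.val 0 0 + C.val 1 1) * v k = 0 := by linear_combination h3
      exact (mul_eq_zero.1 this).resolve_right hk
    rw [ht, zero_smul, zero_add] at ch
    have h5 := mCCC
    rw [ch, one_mul] at h5
    exact nC h5
  -- an element of order 3 in the multiplicative group
  have hl0 : l ≠ 0 := by
    rintro rfl
    simp at hl3
  have ho : orderOf (Units.mk0 l hl0) = 3 := by
    haveI : Fact (Nat.Prime 3) := ⟨Nat.prime_three⟩
    apply orderOf_eq_prime
    · apply Units.ext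
      rw [Units.val_pow_eq_pow_val, Units.val_mk0, Units.val_one, pow_succ, pow_two]
      exact hl3
    · intro h
      exact hl1 (congrArg Units.val h)
  have hdvd : 3 ∣ Nat.card Fˣ := by
    rw [← ho]
    exact orderOf_dvd_natCard _
  rw [Nat.card_units, Nat.card_eq_fintype_card, hF] at hdvd
  obtain ⟨j, rfl⟩ := hn
  have h4 : 4 ^ j % 3 = 1 := by
    rw [Nat.pow_mod]
    simp
  have h5 : 2 ^ (2 * j + 1) = 2 * 4 ^ j := by
    rw [pow_succ, pow_mul]
    norm_num
    ring
  rw [h5] at hdvd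
  have hpos : 1 ≤ 4 ^ j := Nat.one_le_pow _ _ (by norm_num)
  omega

end Char2


/-- PSL_2(p^n) has a subgroup isomorphic to A_4 if and only if it is not the case that p = 2 and n is odd. -/
theorem result {F : Type*} [Field F] [Fintype F] (p n : ℕ) [Fact p.Prime] [CharP F p] (hF : Fintype.card F = p ^ n) : (∃ H : Subgroup (Matrix.ProjectiveSpecialLinearGroup (Fin 2) F), Nonempty (H ≃* alternatingGroup (Fin 4))) ↔ ¬ (p = 2 ∧ Odd n) := by
  constructor
  · rintro ⟨H, ⟨e⟩⟩ ⟨rfl, hn⟩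
    exact no_A4 n hF hn H e
  · intro h
    by_cases hp : p = 2
    · subst hp
      have hn : ¬ Odd n := fun hn => h ⟨rfl, hn⟩
      rw [Nat.not_odd_iff_even] at hn
      obtain ⟨k, rfl⟩ := hn
      have h4 : 4 ^ k % 3 = 1 := by
        rw [Nat.pow_mod]
        simp
      have h5 : 2 ^ (k + k) = 4 ^ k := by
        rw [← two_mul, pow_mul]
        norm_num
      have hpos : 1 ≤ 4 ^ k := Nat.one_le_pow _ _ (by norm_num)
      have hdvd : 3 ∣ Nat.card Fˣ := by
        rw [Nat.card_units, Nat.card_eq_fintype_card, hF, h5]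
        omega
      haveI : Fact (Nat.Prime 3) := ⟨Nat.prime_three⟩
      obtain ⟨u, hu⟩ := exists_prime_orderOf_dvd_card' 3 hdvd
      have hu3 : (u : F) ^ 3 = 1 := by
        rw [← Units.val_pow_eq_pow_val, ← hu, pow_orderOf_eq_one, Units.val_one]
      have hu1 : (u : F) ≠ 1 := by
        intro h1
        have : u = 1 := Units.ext h1
        rw [this, orderOf_one] at hu
        omega
      have hω : (u : F) ^ 2 + (u : F) + 1 = 0 := by
        have : ((u : F) - 1) * ((u : F) ^ 2 + (u : F) + 1) = 0 := by linear_combination hu3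
        exact (mul_eq_zero.1 this).resolve_left (sub_ne_zero.2 hu1)
      exact exists_even (u : F) hω
    · have h2 : (2 : F) ≠ 0 := by
        intro h2
        have : ((2 : ℕ) : F) = 0 := by exact_mod_cast h2
        rw [CharP.cast_eq_zero_iff F p 2] at this
        have hp2 := (Nat.prime_dvd_prime_iff_eq (Fact.out : p.Prime) Nat.prime_two).1 this
        exact hp hp2
      exact exists_odd h2

end Cfsg.Agent.S0802
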