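import Cfsg.Statements.S3377
import Mathlib
import Cfsg.Agent.Lib_helper8_CoxData

set_option autoImplicit false
open Cfsg

namespace Cfsg.Agent.S3377

set_option maxRecDepth 100000
set_option synthInstance.maxSize 100000

/-! ### Coset tables bounding the order of the Coxeter group of type H₃ -/

def H3_Mn : ℕ → ℕ → ℕ := Cfsg.Agent.Lib_helper8_CoxData.mlook [[1, 3, 2], [3, 1, 5], [2, 5, 1]]
abbrev H3_M3 : CoxeterMatrix (Fin 3) := CoxeterMatrix.H₃
abbrev H3_M2 : CoxeterMatrix (Fin 2) := Cfsg.Agent.Lib_helper8_CoxTable.restr H3_M3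
abbrev H3_M1 : CoxeterMatrix (Fin 1) := Cfsg.Agent.Lib_helper8_CoxTable.restr H3_M2
abbrev H3_M0 : CoxeterMatrix (Fin 0) := Cfsg.Agent.Lib_helper8_CoxTable.restr H3_M1
def H3_T1 : List ℕ := [1]
theorem H3_up1 : Finite H3_M1.Group ∧ Nat.card H3_M1.Group ≤ 2 := by
  have hfin := (Cfsg.Agent.Lib_helper8_CoxTable.card_zero H3_M0).1
  have h := Cfsg.Agent.Lib_helper8_CoxTable.card_le_mul H3_M1 H3_M0 (fun i j => rfl) H3_Mn (by intro a b; fin_cases a <;> fin_cases b <;> rfl) 2 (Cfsg.Agent.Lib_helper8_CoxData.look H3_T1)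
    (by decide) (by decide +kernel) (by decide +kernel) (by decide +kernel)
  refine ⟨h.1, h.2.trans ?_⟩
  rw [(Cfsg.Agent.Lib_helper8_CoxTable.card_zero H3_M0).2]

def H3_T2 : List ℕ := [66048, 131073]
theorem H3_up2 : Finite H3_M2.Group ∧ Nat.card H3_M2.Group ≤ 6 := by
  have hfin := H3_up1.1
  have h := Cfsg.Agent.Lib_helper8_CoxTable.card_le_mul H3_M2 H3_M1 (fun i j => rfl) H3_Mn (by intro a b; fin_cases a <;> fin_cases b <;> rfl) 3 (Cfsg.Agent.Lib_helper8_CoxData.look H3_T2)
    (by decide) (by decide +kernel) (by decide +kernel) (by decide +kernel)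
  refine ⟨h.1, h.2.trans ?_⟩
  calc 3 * Nat.card H3_M1.Group ≤ 3 * 2 := Nat.mul_le_mul_left _ H3_up1.2
    _ = 6 := by norm_num

def H3_T3 : List ℕ := [108873637657944224852830437171004441696483344640, 108851510798379914269982855661907555307531338240, 103186859164230833208234038517426324818981289985]
theorem H3_up3 : Finite H3_M3.Group ∧ Nat.card H3_M3.Group ≤ 120 := by
  have hfin := H3_up2.1
  have h := Cfsg.Agent.Lib_helper8_CoxTable.card_le_mul H3_M3 H3_M2 (fun i j => rfl) H3_Mn (by intro a b; fin_cases a <;> fin_cases b <;> rfl) 20 (Cfsg.Agent.Lib_helper8_CoxData.look H3_T3)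
    (by decide) (by decide +kernel) (by decide +kernel) (by decide +kernel)
  refine ⟨h.1, h.2.trans ?_⟩
  calc 20 * Nat.card H3_M2.Group ≤ 20 * 6 := Nat.mul_le_mul_left _ H3_up2.2
    _ = 120 := by norm_num

/-! ### The presented group -/

/-- The relators. -/
abbrev rels : Set (FreeGroup (Fin 2)) :=
  {FreeGroup.of (0 : Fin 2) ^ 3, FreeGroup.of (1 : Fin 2) ^ 5,
    (FreeGroup.of (0 : Fin 2) * FreeGroup.of 1) ^ 2}

/-- The presented group. -/
abbrev GG : Type := PresentedGroup rels

/-- First generator. -/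
def gx : GG := PresentedGroup.of 0
/-- Second generator. -/
def gy : GG := PresentedGroup.of 1

theorem gx3 : gx ^ 3 = 1 := by
  have h : PresentedGroup.mk rels (FreeGroup.of (0 : Fin 2) ^ 3) = 1 :=
    PresentedGroup.one_of_mem (Set.mem_insert _ _)
  rw [map_pow] at h
  exact h

theorem gy5 : gy ^ 5 = 1 := by
  have h : PresentedGroup.mk rels (FreeGroup.of (1 : Fin 2) ^ 5) = 1 :=
    PresentedGroup.one_of_mem (Set.mem_insert_of_mem _ (Set.mem_insert _ _))
  rw [map_pow] at h
  exact h

theorem gxy2 : (gx * gy) ^ 2 = 1 := by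
  have h : PresentedGroup.mk rels ((FreeGroup.of (0 : Fin 2) * FreeGroup.of 1) ^ 2) = 1 :=
    PresentedGroup.one_of_mem
      (Set.mem_insert_of_mem _ (Set.mem_insert_of_mem _ (Set.mem_singleton _)))
  rw [map_pow, map_mul] at h
  exact h

theorem rels_ok {H : Type*} [Group H] (u v : H) (hu : u ^ 3 = 1) (hv : v ^ 5 = 1)
    (huv : (u * v) ^ 2 = 1) : ∀ r ∈ rels, FreeGroup.lift ![u, v] r = 1 := by
  intro r hr
  rcases hr with rfl | rfl | rfl
  · simp [hu]
  · simp [hv]
  · simp [huv]

/-- The homomorphism out of the presented group given by images of the generators. -/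
noncomputable def toG {H : Type*} [Group H] (u v : H) (hu : u ^ 3 = 1) (hv : v ^ 5 = 1)
    (huv : (u * v) ^ 2 = 1) : GG →* H :=
  PresentedGroup.toGroup (rels_ok u v hu hv huv)

theorem toG_x {H : Type*} [Group H] (u v : H) (hu : u ^ 3 = 1) (hv : v ^ 5 = 1)
    (huv : (u * v) ^ 2 = 1) : toG u v hu hv huv gx = u :=
  PresentedGroup.toGroup.of _

theorem toG_y {H : Type*} [Group H] (u v : H) (hu : u ^ 3 = 1) (hv : v ^ 5 = 1)
    (huv : (u * v) ^ 2 = 1) : toG u v hu hv huv gy = v :=
  PresentedGroup.toGroup.of _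

/-! ### The map to `A₅` -/

/-- A 3-cycle. -/
def px : ↥(alternatingGroup (Fin 5)) :=
  ⟨Equiv.swap 0 1 * Equiv.swap 1 2, by rw [Equiv.Perm.mem_alternatingGroup]; decide⟩
/-- A 5-cycle. -/
def py : ↥(alternatingGroup (Fin 5)) :=
  ⟨Equiv.swap 0 2 * Equiv.swap 2 3 * Equiv.swap 3 1 * Equiv.swap 1 4,
    by rw [Equiv.Perm.mem_alternatingGroup]; decide⟩

theorem px3 : px ^ 3 = 1 := by decide
theorem py5 : py ^ 5 = 1 := by decide
theorem pxy2 : (px * py) ^ 2 = 1 := by decide
theorem px_ne : px ≠ 1 := by decide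
theorem py_ne : py ≠ 1 := by decide
theorem pxy_ne : px * py ≠ 1 := by decide
theorem px_inv_ne : px⁻¹ ≠ px := by decide

/-- The map to `A₅`. -/
noncomputable def piA : GG →* ↥(alternatingGroup (Fin 5)) := toG px py px3 py5 pxy2

theorem cardA5 : Nat.card ↥(alternatingGroup (Fin 5)) = 60 := by
  rw [nat_card_alternatingGroup, Nat.card_eq_fintype_card, Fintype.card_fin]
  rfl

theorem piA_surj : Function.Surjective piA := by
  rw [← MonoidHom.range_eq_top]
  have hx : px ∈ piA.range := ⟨gx, toG_x _ _ _ _ _⟩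
  have hy : py ∈ piA.range := ⟨gy, toG_y _ _ _ _ _⟩
  have hxy : px * py ∈ piA.range := piA.range.mul_mem hx hy
  have o3 : orderOf px = 3 := orderOf_eq_prime px3 px_ne
  have o5 : orderOf py = 5 := by
    have : Fact (Nat.Prime 5) := ⟨by norm_num⟩
    exact orderOf_eq_prime py5 py_ne
  have o2 : orderOf (px * py) = 2 := orderOf_eq_prime pxy2 pxy_ne
  have d3 : 3 ∣ Nat.card ↥piA.range := by
    have h := Subgroup.orderOf_dvd_natCard _ hx
    rw [o3] at h; exact h
  have d5 : 5 ∣ Nat.card ↥piA.range := by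
    have h := Subgroup.orderOf_dvd_natCard _ hy
    rw [o5] at h; exact h
  have d2 : 2 ∣ Nat.card ↥piA.range := by
    have h := Subgroup.orderOf_dvd_natCard _ hxy
    rw [o2] at h; exact h
  have d6 : 2 * 3 ∣ Nat.card ↥piA.range :=
    Nat.Coprime.mul_dvd_of_dvd_of_dvd (by norm_num) d2 d3
  have d30 : 2 * 3 * 5 ∣ Nat.card ↥piA.range :=
    Nat.Coprime.mul_dvd_of_dvd_of_dvd (by norm_num) d6 d5
  obtain ⟨k, hk⟩ := d30
  have hci := piA.range.card_mul_index
  rw [cardA5, hk] at hci
  have hk2 : k * piA.range.index = 2 := by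
    have : 2 * 3 * 5 * (k * piA.range.index) = 2 * 3 * 5 * 2 := by
      rw [← mul_assoc]; exact hci
    exact Nat.eq_of_mul_eq_mul_left (by norm_num) this
  have hdvd : piA.range.index ∣ 2 := Dvd.intro_left k hk2
  rcases (Nat.dvd_prime Nat.prime_two).mp hdvd with h1 | h2
  · exact Subgroup.index_eq_one.mp h1
  · have hn : piA.range.Normal := Subgroup.normal_of_index_eq_two h2
    rcases hn.eq_bot_or_eq_top with hb | ht
    · exfalso
      rw [hb] at hx
      exact px_ne (Subgroup.mem_bot.mp hx)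
    · exact ht

/-! ### The inverting automorphism and the semidirect product -/

theorem gyx2 : (gy * gx) ^ 2 = 1 := by
  have h := gxy2
  rw [pow_two] at h ⊢
  have e : gy * gx * (gy * gx) = gx⁻¹ * (gx * gy * (gx * gy)) * gx := by group
  rw [e, h, mul_one, inv_mul_cancel]

theorem ginv2 : (gx⁻¹ * gy⁻¹) ^ 2 = 1 := by
  rw [← mul_inv_rev, inv_pow, gyx2, inv_one]

/-- The endomorphism inverting both generators. -/
noncomputable def tau0 : GG →* GG :=
  toG gx⁻¹ gy⁻¹ (by rw [inv_pow, gx3, inv_one]) (by rw [inv_pow, gy5, inv_one]) ginv2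

theorem tau0_x : tau0 gx = gx⁻¹ := toG_x _ _ _ _ _
theorem tau0_y : tau0 gy = gy⁻¹ := toG_y _ _ _ _ _

theorem tau_tau : tau0.comp tau0 = MonoidHom.id GG := by
  apply PresentedGroup.ext
  intro i
  fin_cases i
  · show tau0 (tau0 gx) = gx
    rw [tau0_x, map_inv, tau0_x, inv_inv]
  · show tau0 (tau0 gy) = gy
    rw [tau0_y, map_inv, tau0_y, inv_inv]

/-- The inverting automorphism. -/
noncomputable def tau : MulAut GG := MonoidHom.toMulEquiv tau0 tau0 tau_tau tau_tau

theorem tau_apply (g : GG) : tau g = tau0 g := rfl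

theorem tau_sq : tau * tau = 1 := by
  apply MulEquiv.ext
  intro g
  show tau0 (tau0 g) = g
  exact DFunLike.congr_fun tau_tau g

theorem tau_ne : tau ≠ 1 := by
  intro h
  have h1 : tau gx = gx := by rw [h]; rfl
  rw [tau_apply, tau0_x] at h1
  have h2 := congrArg piA h1
  rw [map_inv] at h2
  have h3 : piA gx = px := toG_x _ _ _ _ _
  rw [h3] at h2
  exact px_inv_ne h2

/-- The group of order two generated by `tau`. -/
noncomputable abbrev Kt : Subgroup (MulAut GG) := Subgroup.zpowers tau

/-- The generator of `Kt`. -/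
noncomputable def tk : ↥Kt := ⟨tau, Subgroup.mem_zpowers tau⟩

theorem tk_sq : tk * tk = 1 := Subtype.ext tau_sq

theorem tk_inv : tk⁻¹ = tk := inv_eq_of_mul_eq_one_right tk_sq

theorem cardKt : Nat.card ↥Kt = 2 := by
  rw [Nat.card_zpowers]
  have h2 : tau ^ 2 = 1 := by rw [pow_two]; exact tau_sq
  exact orderOf_eq_prime h2 tau_ne

theorem mem_zpowers_sq {G : Type*} [Group G] (g c : G) (hg : g * g = 1)
    (hc : c ∈ Subgroup.zpowers g) : c = 1 ∨ c = g := by
  let K : Subgroup G :=
    { carrier := {x | x = 1 ∨ x = g}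
      one_mem' := Or.inl rfl
      mul_mem' := by
        rintro a b (rfl | rfl) (rfl | rfl)
        · exact Or.inl (mul_one 1)
        · exact Or.inr (one_mul _)
        · exact Or.inr (mul_one _)
        · exact Or.inl hg
      inv_mem' := by
        rintro a (rfl | rfl)
        · exact Or.inl inv_one
        · exact Or.inr (inv_eq_of_mul_eq_one_right hg) }
  have hle : Subgroup.zpowers g ≤ K := (Subgroup.zpowers_le).mpr (Or.inr rfl)
  exact hle hc

theorem Kt_mem (k : ↥Kt) : k = 1 ∨ k = tk := by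
  rcases mem_zpowers_sq tau k.1 tau_sq k.2 with h | h
  · exact Or.inl (Subtype.ext h)
  · exact Or.inr (Subtype.ext h)

/-- The semidirect product of the presented group with the group of order two. -/
noncomputable abbrev GH : Type := SemidirectProduct GG ↥Kt Kt.subtype

theorem tk2 : (SemidirectProduct.inr tk : GH) * SemidirectProduct.inr tk = 1 := by
  rw [← map_mul, tk_sq, map_one]

theorem conj_tk (n : GG) :
    (SemidirectProduct.inr tk : GH) * SemidirectProduct.inl n * SemidirectProduct.inr tk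
      = SemidirectProduct.inl (tau n) := by
  have h := SemidirectProduct.inl_aut (φ := Kt.subtype) tk n
  rw [tk_inv] at h
  exact h.symm

theorem liftH {H : Type*} [Group H] (a b c : H) (ha : a * a = 1) (hb : b * b = 1)
    (hc : c * c = 1) (hab : (a * b) ^ 3 = 1) (hbc : (b * c) ^ 5 = 1) (hac : (a * c) ^ 2 = 1) :
    CoxeterMatrix.H₃.IsLiftable ![a, b, c] := by
  have inv_a : a⁻¹ = a := inv_eq_of_mul_eq_one_right ha
  have inv_b : b⁻¹ = b := inv_eq_of_mul_eq_one_right hb
  have inv_c : c⁻¹ = c := inv_eq_of_mul_eq_one_right hc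
  have hba : (b * a) ^ 3 = 1 := by
    have e : b * a = (a * b)⁻¹ := by rw [mul_inv_rev, inv_a, inv_b]
    rw [e, inv_pow, hab, inv_one]
  have hcb : (c * b) ^ 5 = 1 := by
    have e : c * b = (b * c)⁻¹ := by rw [mul_inv_rev, inv_b, inv_c]
    rw [e, inv_pow, hbc, inv_one]
  have hca : (c * a) ^ 2 = 1 := by
    have e : c * a = (a * c)⁻¹ := by rw [mul_inv_rev, inv_a, inv_c]
    rw [e, inv_pow, hac, inv_one]
  have hM : ∀ i j : Fin 3, CoxeterMatrix.H₃ i j = H3_Mn i j := by
    intro a b; fin_cases a <;> fin_cases b <;> rfl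
  intro i j
  rw [hM]
  fin_cases i <;> fin_cases j
  · show (a * a) ^ 1 = 1
    rw [pow_one]; exact ha
  · show (a * b) ^ 3 = 1
    exact hab
  · show (a * c) ^ 2 = 1
    exact hac
  · show (b * a) ^ 3 = 1
    exact hba
  · show (b * b) ^ 1 = 1
    rw [pow_one]; exact hb
  · show (b * c) ^ 5 = 1
    exact hbc
  · show (c * a) ^ 2 = 1
    exact hca
  · show (c * b) ^ 5 = 1
    exact hcb
  · show (c * c) ^ 1 = 1
    rw [pow_one]; exact hc

/-- The three reflections in the semidirect product. -/
noncomputable def ra : GH := SemidirectProduct.inl gx * SemidirectProduct.inr tk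
noncomputable def rb : GH := SemidirectProduct.inr tk
noncomputable def rc : GH := SemidirectProduct.inr tk * SemidirectProduct.inl gy

theorem ra_rb : ra * rb = SemidirectProduct.inl gx := by
  unfold ra rb
  rw [mul_assoc, tk2, mul_one]

theorem rb_rc : rb * rc = SemidirectProduct.inl gy := by
  unfold rb rc
  rw [← mul_assoc, tk2, one_mul]

theorem ra_rc : ra * rc = SemidirectProduct.inl (gx * gy) := by
  unfold ra rc
  rw [mul_assoc, ← mul_assoc (SemidirectProduct.inr tk), tk2, one_mul, ← map_mul]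

theorem ra_sq : ra * ra = 1 := by
  unfold ra
  have e : (SemidirectProduct.inl gx : GH) * SemidirectProduct.inr tk
        * (SemidirectProduct.inl gx * SemidirectProduct.inr tk)
      = SemidirectProduct.inl gx
        * (SemidirectProduct.inr tk * SemidirectProduct.inl gx * SemidirectProduct.inr tk) := by
    group
  rw [e, conj_tk, ← map_mul, tau_apply, tau0_x, mul_inv_cancel, map_one]

theorem rb_sq : rb * rb = 1 := tk2

theorem rc_sq : rc * rc = 1 := by
  unfold rc
  have e : (SemidirectProduct.inr tk : GH) * SemidirectProduct.inl gy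
        * (SemidirectProduct.inr tk * SemidirectProduct.inl gy)
      = (SemidirectProduct.inr tk * SemidirectProduct.inl gy * SemidirectProduct.inr tk)
        * SemidirectProduct.inl gy := by
    group
  rw [e, conj_tk, ← map_mul, tau_apply, tau0_y, inv_mul_cancel, map_one]

theorem r_liftable : CoxeterMatrix.H₃.IsLiftable ![ra, rb, rc] := by
  apply liftH ra rb rc ra_sq rb_sq rc_sq
  · rw [ra_rb, ← map_pow, gx3, map_one]
  · rw [rb_rc, ← map_pow, gy5, map_one]
  · rw [ra_rc, ← map_pow, gxy2, map_one]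

/-- The map from the Coxeter group of type H₃ onto the semidirect product. -/
noncomputable def psiH : CoxeterMatrix.H₃.Group →* GH :=
  CoxeterMatrix.H₃.toCoxeterSystem.lift ⟨![ra, rb, rc], r_liftable⟩

theorem psiH_surj : Function.Surjective psiH := by
  rw [← MonoidHom.range_eq_top]
  have h0 : ra ∈ psiH.range :=
    ⟨_, CoxeterMatrix.H₃.toCoxeterSystem.lift_apply_simple r_liftable 0⟩
  have h1 : rb ∈ psiH.range :=
    ⟨_, CoxeterMatrix.H₃.toCoxeterSystem.lift_apply_simple r_liftable 1⟩
  have h2 : rc ∈ psiH.range :=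
    ⟨_, CoxeterMatrix.H₃.toCoxeterSystem.lift_apply_simple r_liftable 2⟩
  have hx : (SemidirectProduct.inl gx : GH) ∈ psiH.range := by
    rw [← ra_rb]; exact psiH.range.mul_mem h0 h1
  have hy : (SemidirectProduct.inl gy : GH) ∈ psiH.range := by
    rw [← rb_rc]; exact psiH.range.mul_mem h1 h2
  have hl : ∀ n : GG, (SemidirectProduct.inl n : GH) ∈ psiH.range := by
    intro n
    have := PresentedGroup.generated_by rels (psiH.range.comap SemidirectProduct.inl)
      (by
        intro j
        fin_cases j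
        · exact Subgroup.mem_comap.mpr hx
        · exact Subgroup.mem_comap.mpr hy) n
    exact Subgroup.mem_comap.mp this
  have hr : ∀ k : ↥Kt, (SemidirectProduct.inr k : GH) ∈ psiH.range := by
    intro k
    rcases Kt_mem k with h | h
    · rw [h, map_one]; exact psiH.range.one_mem
    · rw [h]; exact h1
  rw [Subgroup.eq_top_iff']
  intro g
  rw [← SemidirectProduct.inl_left_mul_inr_right g]
  exact psiH.range.mul_mem (hl _) (hr _)

theorem finiteGH : Finite GH := by
  have : Finite CoxeterMatrix.H₃.Group := H3_up3.1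
  exact Finite.of_surjective psiH psiH_surj

theorem finiteGG : Finite GG := by
  have := finiteGH
  exact Finite.of_injective (SemidirectProduct.inl : GG → GH) SemidirectProduct.inl_injective

theorem cardGG : Nat.card GG ≤ 60 := by
  have : Finite CoxeterMatrix.H₃.Group := H3_up3.1
  have h1 : Nat.card GH ≤ Nat.card CoxeterMatrix.H₃.Group :=
    Nat.card_le_card_of_surjective psiH psiH_surj
  have h2 : Nat.card CoxeterMatrix.H₃.Group ≤ 120 := H3_up3.2
  have h3 : Nat.card GH = Nat.card GG * Nat.card ↥Kt := SemidirectProduct.card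
  rw [cardKt] at h3
  omega

/-- The alternating group of degree 5 has the presentation ⟨x, y | x³ = 1, y⁵ = 1, (xy)² = 1⟩: the group so presented is isomorphic to Alt(5). -/
theorem result :
    Nonempty (PresentedGroup ({FreeGroup.of (0 : Fin 2) ^ 3, FreeGroup.of (1 : Fin 2) ^ 5,
        (FreeGroup.of (0 : Fin 2) * FreeGroup.of 1) ^ 2} : Set (FreeGroup (Fin 2))) ≃* alternatingGroup (Fin 5)) := by
  have := finiteGG
  have hbij : Function.Bijective piA := by
    apply piA_surj.bijective_of_nat_card_le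
    rw [cardA5]
    exact cardGG
  exact ⟨MulEquiv.ofBijective piA hbij⟩

end Cfsg.Agent.S3377
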