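import Cfsg.Statements.S0804
import Mathlib
import Cfsg.Agent.S3377
import Cfsg.Agent.Lib_helper4_SL2Cyc

set_option autoImplicit false
open Cfsg

namespace Cfsg.Agent.S0804

/-- Cayley–Hamilton for 2×2 matrices of determinant one. -/
theorem ch2 {F : Type*} [Field F] (a b c d : F) (h : a * d - b * c = 1) :
    (!![a, b; c, d] : Matrix (Fin 2) (Fin 2) F) * !![a, b; c, d]
      = (a + d) • !![a, b; c, d] - 1 := by
  ext i j
  fin_cases i <;> fin_cases j <;> simp [Matrix.mul_apply, Fin.sum_univ_two] <;>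
    first | linear_combination -h | ring1

theorem pow5 {F : Type*} [Field F] (W : Matrix (Fin 2) (Fin 2) F) (t : F)
    (h2 : W * W = t • W - 1) :
    W ^ 5 = (t ^ 4 - 3 * t ^ 2 + 1) • W - (t ^ 3 - 2 * t) • (1 : Matrix (Fin 2) (Fin 2) F) := by
  have h3 : W * W * W = (t ^ 2 - 1) • W - t • (1 : Matrix (Fin 2) (Fin 2) F) := by
    rw [h2, sub_mul, smul_mul_assoc, h2, one_mul]; module
  have h4 : W * W * W * W
      = (t ^ 3 - 2 * t) • W - (t ^ 2 - 1) • (1 : Matrix (Fin 2) (Fin 2) F) := by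
    rw [h3, sub_mul, smul_mul_assoc, h2, smul_mul_assoc, one_mul]; module
  have h5 : W * W * W * W * W
      = (t ^ 4 - 3 * t ^ 2 + 1) • W - (t ^ 3 - 2 * t) • (1 : Matrix (Fin 2) (Fin 2) F) := by
    rw [h4, sub_mul, smul_mul_assoc, h2, smul_mul_assoc, one_mul]; module
  have e : W ^ 5 = W * W * W * W * W := by simp [pow_succ]
  rw [e]; exact h5

theorem nat_sq (q : ℕ) (hq : 0 < q) : (q - 1) * (q + 1) = q ^ 2 - 1 := by
  obtain ⟨k, rfl⟩ : ∃ k, q = k + 1 := ⟨q - 1, by omega⟩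
  rw [Nat.add_sub_cancel]
  exact (Nat.sub_eq_of_eq_add (by ring)).symm

/-- If 5 divides the order of `SL₂(F)` then `t² + t - 1` has a root in `F`. -/
theorem exists_t {F : Type*} [Field F] [Fintype F]
    (h5 : 5 ∣ Fintype.card F * (Fintype.card F ^ 2 - 1)) : ∃ t : F, t ^ 2 + t - 1 = 0 := by
  have hcard := Cfsg.Agent.Lib_helper4_SL2Cyc.card_SL2 (F := F)
  have h5' : 5 ∣ Nat.card (Matrix.SpecialLinearGroup (Fin 2) F) := by
    rw [hcard, nat_sq _ Fintype.card_pos]; exact h5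
  have : Fact (Nat.Prime 5) := ⟨by norm_num⟩
  obtain ⟨B, hB⟩ := exists_prime_orderOf_dvd_card' 5 h5'
  have hB5 : B ^ 5 = 1 := by rw [← hB]; exact pow_orderOf_eq_one B
  obtain ⟨M, hM⟩ : ∃ M : Matrix (Fin 2) (Fin 2) F, M = (B : Matrix (Fin 2) (Fin 2) F) := ⟨_, rfl⟩
  have hdet : M 0 0 * M 1 1 - M 0 1 * M 1 0 = 1 := by
    have h := B.2
    rw [Matrix.det_fin_two] at h
    rw [hM]; exact h
  have heta : M = !![M 0 0, M 0 1; M 1 0, M 1 1] := Matrix.eta_fin_two M
  have h2 : M * M = (M 0 0 + M 1 1) • M - 1 := by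
    have h := ch2 (M 0 0) (M 0 1) (M 1 0) (M 1 1) hdet
    rw [← heta] at h
    exact h
  have hM5 : M ^ 5 = 1 := by
    have h := congrArg Subtype.val hB5
    rw [Matrix.SpecialLinearGroup.coe_pow, Matrix.SpecialLinearGroup.coe_one] at h
    rw [hM]; exact h
  obtain ⟨t, ht⟩ : ∃ t : F, t = M 0 0 + M 1 1 := ⟨_, rfl⟩
  rw [← ht] at h2
  have h5m := pow5 M t h2
  rw [hM5] at h5m
  obtain ⟨α, hα⟩ : ∃ α : F, α = t ^ 4 - 3 * t ^ 2 + 1 := ⟨_, rfl⟩
  obtain ⟨β, hβ⟩ : ∃ β : F, β = t ^ 3 - 2 * t := ⟨_, rfl⟩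
  rw [← hα, ← hβ] at h5m
  have e00 : α * M 0 0 - β = 1 := by
    have h := congrFun (congrFun h5m 0) 0
    simp at h
    exact h.symm
  have e01 : α * M 0 1 = 0 := by
    have h := congrFun (congrFun h5m 0) 1
    simpa using h
  have e10 : α * M 1 0 = 0 := by
    have h := congrFun (congrFun h5m 1) 0
    simpa using h
  have e11 : α * M 1 1 - β = 1 := by
    have h := congrFun (congrFun h5m 1) 1
    simp at h
    exact h.symm
  by_cases hα0 : α = 0
  · refine ⟨t, ?_⟩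
    have hβ1 : t ^ 3 - 2 * t = -1 := by
      rw [← hβ]
      rw [hα0, zero_mul, zero_sub] at e00
      linear_combination -e00
    have hα1 : t ^ 4 - 3 * t ^ 2 + 1 = 0 := by rw [← hα]; exact hα0
    have e1 : (t - 1) * (t ^ 2 + t - 1) = 0 := by linear_combination hβ1
    have e2 : (t ^ 2 + t - 1) * (t ^ 2 - t - 1) = 0 := by linear_combination hα1
    by_contra hne
    have ht1 : t - 1 = 0 := by
      rcases mul_eq_zero.mp e1 with h | h
      · exact h
      · exact absurd h hne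
    have ht1' : t = 1 := sub_eq_zero.mp ht1
    rcases mul_eq_zero.mp e2 with h | h
    · exact hne h
    · rw [ht1'] at h
      norm_num at h
  · exfalso
    have hb : M 0 1 = 0 := by
      rcases mul_eq_zero.mp e01 with h | h
      · exact absurd h hα0
      · exact h
    have hc : M 1 0 = 0 := by
      rcases mul_eq_zero.mp e10 with h | h
      · exact absurd h hα0
      · exact h
    have had : M 0 0 = M 1 1 := by
      have h : α * M 0 0 = α * M 1 1 := by linear_combination e00 - e11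
      exact mul_left_cancel₀ hα0 h
    have hsq : M 0 0 * M 0 0 = 1 := by
      rw [hb, ← had] at hdet
      linear_combination hdet
    have hMM : M * M = 1 := by
      rw [heta, hb, hc, ← had, Matrix.mul_fin_two, Matrix.one_fin_two]
      simp [hsq]
    have hBB : B * B = 1 := by
      apply Subtype.ext
      rw [Matrix.SpecialLinearGroup.coe_mul, Matrix.SpecialLinearGroup.coe_one, ← hM]
      exact hMM
    have hdvd : orderOf B ∣ 2 := orderOf_dvd_of_pow_eq_one (by rw [pow_two]; exact hBB)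
    rw [hB] at hdvd
    omega

theorem exists_ab {F : Type*} [Field F] [Fintype F] (t : F) (ht : t ^ 2 + t - 1 = 0) :
    ∃ a b : F, a ^ 2 - a + 1 + (b ^ 2 - t * b) = 0 := by
  by_cases hodd : Fintype.card F % 2 = 1
  · have hf : (Polynomial.X ^ 2 - Polynomial.X + 1 : Polynomial F).degree = 2 := by
      compute_degree!
    have hg : (Polynomial.X ^ 2 - Polynomial.C t * Polynomial.X : Polynomial F).degree = 2 := by
      compute_degree!
    obtain ⟨a, b, hab⟩ := FiniteField.exists_root_sum_quadratic hf hg hodd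
    refine ⟨a, b, ?_⟩
    simpa using hab
  · have heven : Fintype.card F % 2 = 0 := by omega
    have hchar : ringChar F = 2 := FiniteField.even_card_iff_char_two.mpr heven
    have : CharP F 2 := ringChar.of_eq hchar
    have h2 : (2 : F) = 0 := CharTwo.two_eq_zero
    refine ⟨t, 0, ?_⟩
    linear_combination ht - (t - 1) * h2

theorem exists_A5 {F : Type*} [Field F] [Fintype F] (t a b : F) (ht : t ^ 2 + t - 1 = 0)
    (hab : a ^ 2 - a + 1 + (b ^ 2 - t * b) = 0) :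
    ∃ u v : Matrix.ProjectiveSpecialLinearGroup (Fin 2) F,
      u ^ 3 = 1 ∧ v ^ 5 = 1 ∧ (u * v) ^ 2 = 1 ∧ u ≠ 1 := by
  have hUdet : a * (1 - a) - b * (b - t) = 1 := by linear_combination -hab
  have hVdet : (t - b) * b - (a - 1) * a = 1 := by linear_combination -hab
  obtain ⟨U, hU⟩ : ∃ U : Matrix.SpecialLinearGroup (Fin 2) F,
      (U : Matrix (Fin 2) (Fin 2) F) = !![a, b; b - t, 1 - a] :=
    ⟨⟨!![a, b; b - t, 1 - a], by rw [Matrix.det_fin_two_of]; exact hUdet⟩, rfl⟩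
  obtain ⟨Z, hZ⟩ : ∃ Z : Matrix.SpecialLinearGroup (Fin 2) F,
      (Z : Matrix (Fin 2) (Fin 2) F) = !![0, -1; 1, 0] :=
    ⟨⟨!![0, -1; 1, 0], by rw [Matrix.det_fin_two_of]; ring⟩, rfl⟩
  obtain ⟨N, hN⟩ : ∃ N : Matrix.SpecialLinearGroup (Fin 2) F,
      (N : Matrix (Fin 2) (Fin 2) F) = -1 :=
    ⟨⟨-1, by rw [Matrix.det_neg, Matrix.det_one]; simp⟩, rfl⟩
  obtain ⟨T, hT⟩ : ∃ T : Matrix.SpecialLinearGroup (Fin 2) F,
      (T : Matrix (Fin 2) (Fin 2) F) = !![1, 1; 0, 1] :=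
    ⟨⟨!![1, 1; 0, 1], by rw [Matrix.det_fin_two_of]; ring⟩, rfl⟩
  obtain ⟨T', hT'⟩ : ∃ T' : Matrix.SpecialLinearGroup (Fin 2) F,
      (T' : Matrix (Fin 2) (Fin 2) F) = !![1, 0; 1, 1] :=
    ⟨⟨!![1, 0; 1, 1], by rw [Matrix.det_fin_two_of]; ring⟩, rfl⟩
  -- matrix identities
  have hU2 : (!![a, b; b - t, 1 - a] : Matrix (Fin 2) (Fin 2) F) * !![a, b; b - t, 1 - a]
      = !![a, b; b - t, 1 - a] - 1 := by
    have h := ch2 a b (b - t) (1 - a) hUdet
    have e : a + (1 - a) = 1 := by ring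
    rw [e, one_smul] at h
    exact h
  have hU3 : U * U * U = N := by
    apply Subtype.ext
    rw [Matrix.SpecialLinearGroup.coe_mul, Matrix.SpecialLinearGroup.coe_mul, hU, hN, hU2,
      sub_mul, hU2, one_mul]
    abel
  have hZ2 : Z * Z = N := by
    apply Subtype.ext
    rw [Matrix.SpecialLinearGroup.coe_mul, hZ, hN, Matrix.mul_fin_two]
    ext i j
    fin_cases i <;> fin_cases j <;> simp
  have hZU : ((Z * U : Matrix.SpecialLinearGroup (Fin 2) F) : Matrix (Fin 2) (Fin 2) F)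
      = !![t - b, a - 1; a, b] := by
    rw [Matrix.SpecialLinearGroup.coe_mul, hZ, hU, Matrix.mul_fin_two]
    ext i j
    fin_cases i <;> fin_cases j <;> simp
  have hV2 : (!![t - b, a - 1; a, b] : Matrix (Fin 2) (Fin 2) F) * !![t - b, a - 1; a, b]
      = t • !![t - b, a - 1; a, b] - 1 := by
    have h := ch2 (t - b) (a - 1) a b hVdet
    have e : t - b + b = t := by ring
    rw [e] at h
    exact h
  have hV5 : (Z * U) ^ 5 = 1 := by
    apply Subtype.ext
    rw [Matrix.SpecialLinearGroup.coe_pow, Matrix.SpecialLinearGroup.coe_one, hZU, pow5 _ t hV2]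
    have hα : t ^ 4 - 3 * t ^ 2 + 1 = 0 := by linear_combination (t ^ 2 - t - 1) * ht
    have hβ : t ^ 3 - 2 * t = -1 := by linear_combination (t - 1) * ht
    rw [hα, hβ]
    simp
  have hNc : N ∈ Subgroup.center (Matrix.SpecialLinearGroup (Fin 2) F) := by
    rw [Subgroup.mem_center_iff]
    intro g
    apply Subtype.ext
    rw [Matrix.SpecialLinearGroup.coe_mul, Matrix.SpecialLinearGroup.coe_mul, hN]
    simp
  -- the projection
  obtain ⟨π, hπ⟩ : ∃ π : Matrix.SpecialLinearGroup (Fin 2) F →*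
      Matrix.ProjectiveSpecialLinearGroup (Fin 2) F,
      ∀ x, π x = 1 ↔ x ∈ Subgroup.center (Matrix.SpecialLinearGroup (Fin 2) F) :=
    ⟨QuotientGroup.mk' (Subgroup.center (Matrix.SpecialLinearGroup (Fin 2) F)),
      fun x => QuotientGroup.eq_one_iff x⟩
  have hπN : π N = 1 := (hπ N).mpr hNc
  refine ⟨π U, (π (Z * U))⁻¹, ?_, ?_, ?_, ?_⟩
  · have e : U ^ 3 = N := by rw [pow_succ, pow_two]; exact hU3
    rw [← map_pow, e, hπN]
  · rw [inv_pow, ← map_pow, hV5, map_one, inv_one]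
  · have e : π U * (π (Z * U))⁻¹ = (π Z)⁻¹ := by
      rw [map_mul, mul_inv_rev, ← mul_assoc, mul_inv_cancel, one_mul]
    rw [e, inv_pow, ← map_pow, pow_two, hZ2, hπN, inv_one]
  · intro h
    have hc := Subgroup.mem_center_iff.mp ((hπ U).mp h)
    have h1 : ((T : Matrix (Fin 2) (Fin 2) F) * (U : Matrix (Fin 2) (Fin 2) F)) 0 0
        = ((U : Matrix (Fin 2) (Fin 2) F) * (T : Matrix (Fin 2) (Fin 2) F)) 0 0 := by
      rw [← Matrix.SpecialLinearGroup.coe_mul, ← Matrix.SpecialLinearGroup.coe_mul, hc T]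
    have h2 : ((T' : Matrix (Fin 2) (Fin 2) F) * (U : Matrix (Fin 2) (Fin 2) F)) 0 0
        = ((U : Matrix (Fin 2) (Fin 2) F) * (T' : Matrix (Fin 2) (Fin 2) F)) 0 0 := by
      rw [← Matrix.SpecialLinearGroup.coe_mul, ← Matrix.SpecialLinearGroup.coe_mul, hc T']
    rw [hT, hU, Matrix.mul_fin_two, Matrix.mul_fin_two] at h1
    rw [hT', hU, Matrix.mul_fin_two, Matrix.mul_fin_two] at h2
    have h1' : 1 * a + 1 * (b - t) = a * 1 + b * 0 := h1
    have h2' : 1 * a + 0 * (b - t) = a * 1 + b * 1 := h2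
    have ht0 : t = 0 := by linear_combination -h1' - h2'
    rw [ht0] at ht
    norm_num at ht

theorem a5_embeds {H : Type*} [Group H] (u v : H) (hu : u ^ 3 = 1) (hv : v ^ 5 = 1)
    (huv : (u * v) ^ 2 = 1) (hne : u ≠ 1) :
    ∃ K : Subgroup H, Nonempty (K ≃* alternatingGroup (Fin 5)) := by
  have := Cfsg.Agent.S3377.finiteGG
  have hbij : Function.Bijective Cfsg.Agent.S3377.piA := by
    apply Cfsg.Agent.S3377.piA_surj.bijective_of_nat_card_le
    rw [Cfsg.Agent.S3377.cardA5]; exact Cfsg.Agent.S3377.cardGG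
  obtain ⟨e, he⟩ : ∃ e : Cfsg.Agent.S3377.GG ≃* alternatingGroup (Fin 5), True :=
    ⟨MulEquiv.ofBijective _ hbij, trivial⟩
  obtain ⟨f, hf⟩ : ∃ f : Cfsg.Agent.S3377.GG →* H, f Cfsg.Agent.S3377.gx = u :=
    ⟨Cfsg.Agent.S3377.toG u v hu hv huv, Cfsg.Agent.S3377.toG_x u v hu hv huv⟩
  obtain ⟨φ, hφ⟩ : ∃ φ : alternatingGroup (Fin 5) →* H, ∀ x, φ x = f (e.symm x) :=
    ⟨f.comp e.symm.toMonoidHom, fun x => rfl⟩
  have hker : φ.ker = ⊥ := by
    rcases (MonoidHom.normal_ker φ).eq_bot_or_eq_top with h | h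
    · exact h
    · exfalso
      have h1 : φ (e Cfsg.Agent.S3377.gx) = u := by
        rw [hφ, MulEquiv.symm_apply_apply, hf]
      have h2 : e Cfsg.Agent.S3377.gx ∈ φ.ker := by rw [h]; exact Subgroup.mem_top _
      rw [MonoidHom.mem_ker, h1] at h2
      exact hne h2
  have hinj : Function.Injective φ := (MonoidHom.ker_eq_bot_iff φ).mp hker
  exact ⟨φ.range, ⟨(MonoidHom.ofInjective hinj).symm⟩⟩

/-- PSL_2(q) has a subgroup isomorphic to A_5 iff 5 ∣ q(q² − 1). -/
theorem result {F : Type*} [Field F] [Fintype F] {q : ℕ} (hF : Fintype.card F = q) : (∃ H : Subgroup (Matrix.ProjectiveSpecialLinearGroup (Fin 2) F), Nonempty (H ≃* alternatingGroup (Fin 5))) ↔ 5 ∣ q * (q ^ 2 - 1) := by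
  subst hF
  constructor
  · rintro ⟨H, ⟨e⟩⟩
    have h60 : Nat.card H = 60 := by
      rw [Nat.card_congr e.toEquiv]; exact Cfsg.Agent.S3377.cardA5
    have h1 : Nat.card H ∣ Nat.card (Matrix.ProjectiveSpecialLinearGroup (Fin 2) F) :=
      Subgroup.card_subgroup_dvd_card H
    have h2 : Nat.card (Matrix.ProjectiveSpecialLinearGroup (Fin 2) F)
        ∣ Nat.card (Matrix.SpecialLinearGroup (Fin 2) F) :=
      Subgroup.card_quotient_dvd_card (Subgroup.center (Matrix.SpecialLinearGroup (Fin 2) F))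
    rw [h60] at h1
    have h3 := h1.trans h2
    rw [Cfsg.Agent.Lib_helper4_SL2Cyc.card_SL2, nat_sq _ Fintype.card_pos] at h3
    exact (by norm_num : 5 ∣ 60).trans h3
  · intro h5
    obtain ⟨t, ht⟩ := exists_t h5
    obtain ⟨a, b, hab⟩ := exists_ab t ht
    obtain ⟨u, v, hu, hv, huv, hne⟩ := exists_A5 t a b ht hab
    exact a5_embeds u v hu hv huv hne

end Cfsg.Agent.S0804
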