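import Cfsg.Statements.S0805
import Mathlib
import Cfsg.Agent.Lib_helper4_Card

set_option autoImplicit false
open Cfsg

namespace Cfsg.Agent.S0805

open Matrix

theorem exists_emb {F K : Type*} [Field F] [Fintype F] [Field K] [Fintype K] (m : ℕ) (hm : 1 ≤ m)
    (hK : Fintype.card K ^ m = Fintype.card F) : Nonempty (K →+* F) := by
  obtain ⟨p, hp⟩ := CharP.exists F
  haveI := hp
  obtain ⟨k, hprime, hk⟩ := FiniteField.card F p
  haveI : Fact p.Prime := ⟨hprime⟩
  have hcharK : CharP K p := by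
    obtain ⟨p', hp'⟩ := CharP.exists K
    haveI := hp'
    obtain ⟨n, hprime', hn⟩ := FiniteField.card K p'
    have h1 : p' ∣ p ^ (k : ℕ) := by
      rw [← hk, ← hK, hn, ← pow_mul]
      have hn0 : (n : ℕ) * m ≠ 0 := by
        have := n.pos
        positivity
      exact dvd_pow_self p' hn0
    have h2 := (Nat.prime_dvd_prime_iff_eq hprime' hprime).1 (hprime'.dvd_of_dvd_pow h1)
    rw [← h2]
    exact hp'
  haveI := hcharK
  letI : Algebra (ZMod p) K := ZMod.algebra K p
  letI : Algebra (ZMod p) F := ZMod.algebra F p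
  have h1 : p ^ (Module.finrank (ZMod p) K * m) = p ^ Module.finrank (ZMod p) F := by
    rw [pow_mul, FiniteField.pow_finrank_eq_card, FiniteField.pow_finrank_eq_card, hK]
  have e1 := Nat.pow_right_injective hprime.two_le h1
  obtain ⟨f⟩ := FiniteField.nonempty_algHom_of_finrank_dvd (F := ZMod p) (K := K) (L := F)
    (by rw [← e1]; exact dvd_mul_right _ _)
  exact ⟨f.toRingHom⟩

theorem sub_of_range_le {A B C : Type*} [Group A] [Group B] [Group C] (i : A →* C) (j : B →* C)
    (hi : Function.Injective i) (hj : Function.Injective j) (h : ∀ a, ∃ b, j b = i a) :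
    ∃ H : Subgroup B, Nonempty (H ≃* A) := by
  choose e he using h
  let f : A →* B := MonoidHom.mk' e (fun a b => hj (by rw [map_mul, he, he, he, map_mul]))
  have hf : Function.Injective f := fun a b hab => hi (by
    rw [← he a, ← he b]
    exact congrArg j hab)
  exact ⟨f.range, ⟨(MonoidHom.ofInjective hf).symm⟩⟩

theorem map_injective {F K : Type*} [Field F] [Field K] (ι : K →+* F) :
    Function.Injective (Matrix.ProjGenLinGroup.map (n := Fin 2) ι) := by
  rw [injective_iff_map_eq_one]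
  intro x hx
  induction x using Matrix.ProjGenLinGroup.induction_on with | mk g =>
  rw [Matrix.ProjGenLinGroup.map_mk, Matrix.ProjGenLinGroup.mk_eq_one,
    Matrix.GeneralLinearGroup.center_eq_range_scalar] at hx
  rw [Matrix.ProjGenLinGroup.mk_eq_one, Matrix.GeneralLinearGroup.center_eq_range_scalar]
  obtain ⟨u, hu⟩ := hx
  have hinj := ι.injective
  have h : ∀ a b, (Matrix.scalar (Fin 2) (u : F)) a b = ι (g a b) := fun a b =>
    congrArg (fun M : GL (Fin 2) F => (M : Matrix (Fin 2) (Fin 2) F) a b) hu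
  have h01 : g 0 1 = 0 := by
    have := h 0 1
    simp only [Matrix.scalar_apply, Matrix.diagonal_apply] at this
    simp at this
    exact (map_eq_zero ι).1 this.symm
  have h10 : g 1 0 = 0 := by
    have := h 1 0
    simp only [Matrix.scalar_apply, Matrix.diagonal_apply] at this
    simp at this
    exact (map_eq_zero ι).1 this.symm
  have h11 : g 1 1 = g 0 0 := by
    have h1 := h 1 1
    have h0 := h 0 0
    simp only [Matrix.scalar_apply, Matrix.diagonal_apply_eq] at h1 h0
    exact hinj (h1.symm.trans h0)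
  have hdet : IsUnit (g : Matrix (Fin 2) (Fin 2) K).det :=
    (Matrix.isUnit_iff_isUnit_det _).1 g.isUnit
  have hc : g 0 0 ≠ 0 := by
    intro h0
    have := hdet.ne_zero
    rw [Matrix.det_fin_two, h01, h0] at this
    simp at this
  refine ⟨Units.mk0 (g 0 0) hc, ?_⟩
  apply Units.ext
  ext a b
  fin_cases a <;> fin_cases b <;>
    simp [Matrix.GeneralLinearGroup.coe_scalar, Matrix.scalar_apply, Matrix.diagonal_apply, h01, h10, h11]

theorem nat_aux (a j : ℕ) : ∃ c, (2 * a + 1) ^ (j + j) = 1 + 2 * ((2 * a) * c) := by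
  induction j with
  | zero => exact ⟨0, by simp⟩
  | succ j ih =>
    obtain ⟨c, hc⟩ := ih
    refine ⟨c + (a + 1) + 4 * a * c * (a + 1), ?_⟩
    have : (2 * a + 1) ^ (j + 1 + (j + 1)) = (2 * a + 1) ^ (j + j) * (2 * a + 1) ^ 2 := by ring
    rw [this, hc]
    ring

theorem nat_aux2 (y m : ℕ) (hy : Even y) : ∃ S, (y + 1) ^ m = 1 + y * S ∧ S % 2 = m % 2 := by
  induction m with
  | zero => exact ⟨0, by simp⟩
  | succ m ih =>
    obtain ⟨S, hS, hS2⟩ := ih
    refine ⟨1 + S * (y + 1), by rw [pow_succ, hS]; ring, ?_⟩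
    obtain ⟨t, rfl⟩ := hy
    have : (1 + S * (t + t + 1)) = 1 + S + 2 * (S * t) := by ring
    rw [this]
    omega

theorem isSquare_emb {F K : Type*} [Field F] [Fintype F] [Field K] [Fintype K] (ι : K →+* F)
    (hodd : Odd (Fintype.card F)) (m : ℕ) (hK : Fintype.card K ^ m = Fintype.card F) (hm : Even m)
    (hm1 : 1 ≤ m) (x : K) : IsSquare (ι x) := by
  rcases eq_or_ne x 0 with rfl | hx
  · rw [map_zero]
    exact ⟨0, (mul_zero 0).symm⟩
  have hchar : ringChar F ≠ 2 := by
    intro h
    rw [FiniteField.even_card_iff_char_two] at h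
    rcases hodd with ⟨t, ht⟩
    omega
  have hιx : ι x ≠ 0 := (map_ne_zero ι).2 hx
  rw [FiniteField.isSquare_iff hchar hιx]
  obtain ⟨j, rfl⟩ := hm
  have hrodd : Odd (Fintype.card K) := by
    rw [← hK, Nat.odd_pow_iff (by omega)] at hodd
    exact hodd
  obtain ⟨a, ha⟩ := hrodd
  obtain ⟨c, hc⟩ := nat_aux a j
  have h1 : Fintype.card F / 2 = (Fintype.card K - 1) * c := by
    rw [← hK, ha, hc]
    have : 2 * a + 1 - 1 = 2 * a := by omega
    rw [this]
    omega
  rw [h1, pow_mul, ← map_pow, FiniteField.pow_card_sub_one_eq_one x hx, map_one, one_pow]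

theorem exists_pre {F K : Type*} [Field F] [Field K] (ι : K →+* F)
    (hsq : ∀ x : K, IsSquare (ι x)) (g : GL (Fin 2) K) :
    ∃ b : Matrix.ProjectiveSpecialLinearGroup (Fin 2) F,
      Matrix.ProjectiveSpecialLinearGroup.toPGL b =
        Matrix.ProjGenLinGroup.map ι (Matrix.ProjGenLinGroup.mk g) := by
  obtain ⟨s, hs⟩ := hsq (g : Matrix (Fin 2) (Fin 2) K).det
  have hval : ((Matrix.GeneralLinearGroup.map ι g : GL (Fin 2) F) : Matrix (Fin 2) (Fin 2) F) =
      ι.mapMatrix (g : Matrix (Fin 2) (Fin 2) K) := rfl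
  have hdet : ((Matrix.GeneralLinearGroup.map ι g : GL (Fin 2) F) : Matrix (Fin 2) (Fin 2) F).det
      = s * s := by
    rw [hval, ← RingHom.map_det, hs]
  have hdetu : IsUnit (g : Matrix (Fin 2) (Fin 2) K).det :=
    (Matrix.isUnit_iff_isUnit_det _).1 g.isUnit
  have hs0 : s ≠ 0 := by
    rintro rfl
    rw [mul_zero] at hs
    exact hdetu.ne_zero ((map_eq_zero ι).1 hs)
  have hX : (s⁻¹ • ((Matrix.GeneralLinearGroup.map ι g : GL (Fin 2) F) :
      Matrix (Fin 2) (Fin 2) F)).det = 1 := by
    rw [Matrix.det_smul, hdet, Fintype.card_fin]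
    field_simp
  refine ⟨QuotientGroup.mk (⟨_, hX⟩ : Matrix.SpecialLinearGroup (Fin 2) F), ?_⟩
  change Matrix.ProjGenLinGroup.mk (Matrix.SpecialLinearGroup.toGL _) = _
  rw [Matrix.ProjGenLinGroup.map_mk, Matrix.ProjGenLinGroup.mk_eq_mk_iff]
  refine ⟨Units.mk0 s hs0, ?_⟩
  apply Units.ext
  change (s⁻¹ • ((Matrix.GeneralLinearGroup.map ι g : GL (Fin 2) F) :
      Matrix (Fin 2) (Fin 2) F)) * Matrix.scalar (Fin 2) s = _
  ext a b
  simp only [Matrix.mul_apply, Matrix.scalar_apply, Matrix.diagonal_apply, Matrix.smul_apply,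
    Units.val_mk0, smul_eq_mul, mul_ite, mul_zero, Finset.sum_ite_eq', Finset.mem_univ, if_true]
  field_simp

theorem exists_pre_sl {F K : Type*} [Field F] [Field K] (ι : K →+* F)
    (a : Matrix.ProjectiveSpecialLinearGroup (Fin 2) K) :
    ∃ b : Matrix.ProjectiveSpecialLinearGroup (Fin 2) F,
      Matrix.ProjectiveSpecialLinearGroup.toPGL b =
        ((Matrix.ProjGenLinGroup.map ι).comp Matrix.ProjectiveSpecialLinearGroup.toPGL) a := by
  induction a using QuotientGroup.induction_on with | H g =>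
  refine ⟨QuotientGroup.mk (Matrix.SpecialLinearGroup.map ι g), ?_⟩
  change Matrix.ProjGenLinGroup.mk (Matrix.SpecialLinearGroup.toGL _) =
    Matrix.ProjGenLinGroup.map ι (Matrix.ProjGenLinGroup.mk (Matrix.SpecialLinearGroup.toGL g))
  rw [Matrix.ProjGenLinGroup.map_mk]
  congr 1
  apply Units.ext
  rfl

theorem count {F K : Type*} [Field F] [Fintype F] [Field K] [Fintype K]
    (hodd : Odd (Fintype.card F)) (m : ℕ) (hm : 1 ≤ m) (hK : Fintype.card K ^ m = Fintype.card F)
    (hm2 : ¬ Even m)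
    (hdvd : Nat.card (Matrix.ProjGenLinGroup (Fin 2) K) ∣
      Nat.card (Matrix.ProjectiveSpecialLinearGroup (Fin 2) F)) : False := by
  rw [Cfsg.Agent.Lib_helper4_Card.card_PGL_eq_card_SL] at hdvd
  have hSL := Cfsg.Agent.Lib_helper4_Card.card_SL (F := K) rfl 2 (by norm_num)
  have hPSL := Cfsg.Agent.Lib_helper4_Card.card_PSL (F := F) rfl 2 (by norm_num)
  rw [Fin.prod_univ_two] at hSL hPSL
  simp only [Fin.val_zero, Fin.val_one, pow_zero, pow_one] at hSL hPSL
  set r := Fintype.card K with hr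
  set q := Fintype.card F with hq
  set M := Nat.card (Matrix.SpecialLinearGroup (Fin 2) K) with hM
  set N := Nat.card (Matrix.ProjectiveSpecialLinearGroup (Fin 2) F) with hN
  have hr2 : 2 ≤ r := Fintype.one_lt_card
  have hq2 : 2 ≤ q := Fintype.one_lt_card
  have hrodd : Odd r := by
    rw [← hK, Nat.odd_pow_iff (by omega)] at hodd
    exact hodd
  have hrr : 1 ≤ r * r := Nat.mul_pos (by omega) (by omega)
  obtain ⟨y, hy⟩ : ∃ y, r * r = y + 1 := ⟨r * r - 1, by omega⟩
  have hyeven : Even y := by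
    have : Odd (r * r) := hrodd.mul hrodd
    rw [hy] at this
    rcases this with ⟨t, ht⟩
    exact ⟨t, by omega⟩
  have hypos : 0 < y := by nlinarith
  obtain ⟨S, hS, hS2⟩ := nat_aux2 y m hyeven
  have hqq : q * q = 1 + y * S := by
    rw [← hS, ← hy, ← hK]
    ring
  -- |SL| = r * y
  have e1 : r ^ 2 - 1 = y := by rw [sq, hy]; omega
  have e2 : r ^ 2 - r = r * (r - 1) := by rw [sq, Nat.mul_sub_one]
  rw [e1, e2] at hSL
  have hMeq : M = y * r := by
    have : (r - 1) * M = (r - 1) * (y * r) := by rw [hSL]; ring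
    exact Nat.eq_of_mul_eq_mul_left (by omega) this
  have e3 : q ^ 2 - 1 = y * S := by rw [sq, hqq]; omega
  have e4 : q ^ 2 - q = q * (q - 1) := by rw [sq, Nat.mul_sub_one]
  have e5 : Nat.gcd 2 (q - 1) = 2 := by
    apply Nat.gcd_eq_left
    rcases hodd with ⟨t, ht⟩
    exact ⟨t, by omega⟩
  rw [e3, e4, e5] at hPSL
  have hNeq : 2 * N = y * S * q := by
    have : (q - 1) * (2 * N) = (q - 1) * (y * S * q) := by
      calc (q - 1) * (2 * N) = 2 * ((q - 1) * N) := by ring
        _ = y * S * (q * (q - 1)) := hPSL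
        _ = (q - 1) * (y * S * q) := by ring
    exact Nat.eq_of_mul_eq_mul_left (by omega) this
  obtain ⟨k, hk⟩ := hdvd
  rw [hk, hMeq] at hNeq
  have h2 : 2 * (r * k) = S * q := by
    have : y * (2 * (r * k)) = y * (S * q) := by
      calc y * (2 * (r * k)) = 2 * (y * r * k) := by ring
        _ = y * S * q := hNeq
        _ = y * (S * q) := by ring
    exact Nat.eq_of_mul_eq_mul_left hypos this
  have hmodd : m % 2 = 1 := by
    rcases Nat.even_or_odd m with h | h
    · exact absurd h hm2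
    · rcases h with ⟨t, ht⟩
      omega
  have hqodd : q % 2 = 1 := by
    rcases hodd with ⟨t, ht⟩
    omega
  have : (S * q) % 2 = 1 := by
    rw [Nat.mul_mod, hS2, hmodd, hqodd]
  omega

/-- Subfield subgroups: let F be a finite field of odd order q and K a finite field with |K|^m = q, m ≥ 1. Then PSL_2(F) has a subgroup isomorphic to PSL_2(K), and has a subgroup isomorphic to PGL_2(K) if and only if m is even. -/
theorem result {F K : Type*} [Field F] [Fintype F] [Field K] [Fintype K] {q : ℕ} (hF : Fintype.card F = q) (hodd : Odd q) (m : ℕ) (hm : 1 ≤ m) (hK : Fintype.card K ^ m = q) : (∃ H : Subgroup (Matrix.ProjectiveSpecialLinearGroup (Fin 2) F), Nonempty (H ≃* Matrix.ProjectiveSpecialLinearGroup (Fin 2) K)) ∧ ((∃ H : Subgroup (Matrix.ProjectiveSpecialLinearGroup (Fin 2) F), Nonempty (H ≃* Matrix.ProjGenLinGroup (Fin 2) K)) ↔ Even m) := by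
  subst hF
  obtain ⟨ι⟩ := exists_emb m hm hK
  have hinj := map_injective (F := F) ι
  refine ⟨?_, ⟨?_, ?_⟩⟩
  · exact sub_of_range_le
      ((Matrix.ProjGenLinGroup.map ι).comp Matrix.ProjectiveSpecialLinearGroup.toPGL)
      Matrix.ProjectiveSpecialLinearGroup.toPGL
      (hinj.comp Matrix.ProjectiveSpecialLinearGroup.toPGL_injective)
      Matrix.ProjectiveSpecialLinearGroup.toPGL_injective (fun a => exists_pre_sl ι a)
  · rintro ⟨H, ⟨e⟩⟩
    by_contra hm2
    apply count hodd m hm hK hm2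
    rw [← Nat.card_congr e.toEquiv]
    exact Subgroup.card_subgroup_dvd_card H
  · intro hm2
    refine sub_of_range_le (Matrix.ProjGenLinGroup.map ι)
      Matrix.ProjectiveSpecialLinearGroup.toPGL hinj
      Matrix.ProjectiveSpecialLinearGroup.toPGL_injective (fun a => ?_)
    induction a using Matrix.ProjGenLinGroup.induction_on with | mk g =>
    exact exists_pre ι (isSquare_emb ι hodd m hK hm2 hm) g

end Cfsg.Agent.S0805
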