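import Cfsg.Statements.S5656
import Mathlib
import Cfsg.Agent.Lib_helper4_Herm
import Cfsg.Agent.Lib_helper4_GU
import Cfsg.Agent.Lib_helper4_SUCenter

set_option autoImplicit false
open Cfsg

namespace Cfsg.Agent.S5656

open Matrix
open Cfsg.Agent.Lib_helper4_Herm

section
variable {F : Type*} [Field F] [Fintype F] {n : ℕ}

theorem card4 (hF : Fintype.card F = 4) : Fintype.card F = 2 ^ 2 := by rw [hF]; norm_num

theorem two_zero (hF : Fintype.card F = 4) : (2 : F) = 0 := by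
  have h := FiniteField.cast_card_eq_zero F
  rw [hF] at h
  have h4 : (2 : F) * 2 = 0 := by
    have : ((4 : ℕ) : F) = 2 * 2 := by norm_num
    rw [← this]
    exact h
  exact mul_self_eq_zero.1 h4

theorem cube_one (hF : Fintype.card F = 4) (a : F) (ha : a ≠ 0) : a ^ 3 = 1 := by
  have := FiniteField.pow_card_sub_one_eq_one a ha
  rwa [hF] at this

theorem exists_tr (hF : Fintype.card F = 4) : ∃ μ : F, μ ^ 2 + μ ≠ 0 := by
  by_contra hcon
  push_neg at hcon
  have hall : ∀ μ : F, μ = 0 ∨ μ = -1 := by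
    intro μ
    have h := hcon μ
    have : μ * (μ + 1) = 0 := by linear_combination h
    rcases mul_eq_zero.1 this with h | h
    · exact Or.inl h
    · exact Or.inr (eq_neg_of_add_eq_zero_left h)
  classical
  have hsub : (Finset.univ : Finset F) ⊆ {0, -1} := by
    intro μ _
    rcases hall μ with h | h <;> simp [h]
  have := Finset.card_le_card hsub
  rw [Finset.card_univ, hF] at this
  have h2 : ({0, -1} : Finset F).card ≤ 2 := Finset.card_le_two
  omega

theorem self_sq (hF : Fintype.card F = 4) (x : Fin n → F) :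
    Cfsg.hermForm n F 2 x x = 0 ∨ Cfsg.hermForm n F 2 x x = 1 := by
  have h := herm_conj (card4 hF) x x
  have : Cfsg.hermForm n F 2 x x * (Cfsg.hermForm n F 2 x x - 1) = 0 := by linear_combination h
  rcases mul_eq_zero.1 this with h | h
  · exact Or.inl h
  · exact Or.inr (sub_eq_zero.1 h)

omit [Fintype F] in
theorem span2 (W : Submodule F (Fin n → F)) (hW : Module.finrank F W = 2)
    (a b : Fin n → F) (ha : a ∈ W) (hb : b ∈ W)
    (hind : ∀ s t : F, s • a + t • b = 0 → s = 0 ∧ t = 0) (d : Fin n → F) (hd : d ∈ W) :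
    ∃ α β : F, d = α • a + β • b := by
  have hli : LinearIndependent F ![a, b] := LinearIndependent.pair_iff.2 hind
  have hle : Submodule.span F (Set.range ![a, b]) ≤ W := by
    rw [Submodule.span_le]
    rintro _ ⟨i, rfl⟩
    fin_cases i
    · exact ha
    · exact hb
  have hfr : Module.finrank F (Submodule.span F (Set.range ![a, b])) = Module.finrank F W := by
    rw [finrank_span_eq_card hli, hW, Fintype.card_fin]
  have heq := Submodule.eq_of_le_of_finrank_eq hle hfr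
  rw [← heq] at hd
  obtain ⟨c, hc⟩ := (Submodule.mem_span_range_iff_exists_fun F).1 hd
  refine ⟨c 0, c 1, ?_⟩
  rw [← hc, Fin.sum_univ_two]
  rfl

variable {t : ℕ} (D : Fin t → Submodule F (Fin n → F))

theorem perp_iso (hF : Fintype.card F = 4)
    (hD : Cfsg.Geo.IsNondegenerateMDecomposition (Cfsg.hermForm n F 2) 2 D) (i : Fin t)
    (u y : Fin n → F) (hu : u ∈ D i) (hy : y ∈ D i) (huu : Cfsg.hermForm n F 2 u u = 1)
    (hyu : Cfsg.hermForm n F 2 y u = 0) (hyy : Cfsg.hermForm n F 2 y y = 0) : y = 0 := by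
  by_contra hy0
  obtain ⟨⟨d, hd, hne⟩, -⟩ := hD.nondegenerate i y hy hy0
  have hind : ∀ s t : F, s • u + t • y = 0 → s = 0 ∧ t = 0 := by
    intro s t hst
    have h1 := congrArg (fun z => Cfsg.hermForm n F 2 z u) hst
    simp only [herm_add_left, herm_smul_left, huu, hyu, mul_one, mul_zero, add_zero] at h1
    rw [Cfsg.Agent.Lib_helper4_GU.herm_zero_left] at h1
    subst h1
    rw [zero_smul, zero_add] at hst
    exact ⟨rfl, (smul_eq_zero.1 hst).resolve_right hy0⟩
  obtain ⟨α, β, rfl⟩ := span2 (D i) (hD.decomp.finrank_eq i) u y hu hy hind d hd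
  apply hne
  have huy : Cfsg.hermForm n F 2 u y = 0 := by
    rw [← herm_conj (card4 hF) y u, hyu]
    simp
  rw [herm_add_left, herm_smul_left, herm_smul_left, huy, hyy, mul_zero, mul_zero, add_zero]

theorem exists_unit (hF : Fintype.card F = 4)
    (hD : Cfsg.Geo.IsNondegenerateMDecomposition (Cfsg.hermForm n F 2) 2 D) (i : Fin t) :
    ∃ u ∈ D i, Cfsg.hermForm n F 2 u u = 1 := by
  have hne : D i ≠ ⊥ := by
    intro h
    have := hD.decomp.finrank_eq i
    rw [h, finrank_bot] at this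
    omega
  obtain ⟨x, hx, hx0⟩ := Submodule.exists_mem_ne_zero_of_ne_bot hne
  obtain ⟨⟨y, hy, hyx⟩, -⟩ := hD.nondegenerate i x hx hx0
  rcases self_sq hF x with hxx | hxx
  swap
  · exact ⟨x, hx, hxx⟩
  rcases self_sq hF y with hyy | hyy
  swap
  · exact ⟨y, hy, hyy⟩
  obtain ⟨μ, hμ⟩ := exists_tr hF
  have hxy : Cfsg.hermForm n F 2 x y = (Cfsg.hermForm n F 2 y x) ^ 2 :=
    (herm_conj (card4 hF) y x).symm
  refine ⟨x + (μ * (Cfsg.hermForm n F 2 y x)⁻¹) • y,
    (D i).add_mem hx ((D i).smul_mem _ hy), ?_⟩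
  refine (self_sq hF _).resolve_left ?_
  rw [herm_add_left, herm_add_right (card4 hF), herm_add_right (card4 hF), herm_smul_left,
    herm_smul_left, herm_smul_right, herm_smul_right, hxx, hyy, hxy]
  intro h0
  apply hμ
  rw [← h0]
  field_simp
  ring

theorem exists_frame (hF : Fintype.card F = 4)
    (hD : Cfsg.Geo.IsNondegenerateMDecomposition (Cfsg.hermForm n F 2) 2 D) (i : Fin t) :
    ∃ u ∈ D i, ∃ u' ∈ D i, Cfsg.hermForm n F 2 u u = 1 ∧ Cfsg.hermForm n F 2 u' u' = 1 ∧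
      Cfsg.hermForm n F 2 u' u = 0 ∧ Cfsg.hermForm n F 2 u u' = 0 := by
  obtain ⟨u, hu, huu⟩ := exists_unit D hF hD i
  have h2 := two_zero hF
  have hu0 : u ≠ 0 := by
    rintro rfl
    rw [Cfsg.Agent.Lib_helper4_GU.herm_zero_left] at huu
    exact zero_ne_one huu
  have hlt : Submodule.span F {u} < D i := by
    refine lt_of_le_of_ne ((Submodule.span_singleton_le_iff_mem _ _).2 hu) ?_
    intro heq
    have h1 := finrank_span_singleton (K := F) hu0
    rw [heq, hD.decomp.finrank_eq i] at h1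
    omega
  obtain ⟨w, hw, hwn⟩ := SetLike.exists_of_lt hlt
  have hu'm : w + (Cfsg.hermForm n F 2 w u) • u ∈ D i :=
    (D i).add_mem hw ((D i).smul_mem _ hu)
  have hu'u : Cfsg.hermForm n F 2 (w + (Cfsg.hermForm n F 2 w u) • u) u = 0 := by
    rw [herm_add_left, herm_smul_left, huu, mul_one]
    linear_combination (Cfsg.hermForm n F 2 w u) * h2
  have hu'0 : w + (Cfsg.hermForm n F 2 w u) • u ≠ 0 := by
    intro h0
    apply hwn
    have : w = (-(Cfsg.hermForm n F 2 w u)) • u := by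
      rw [neg_smul]
      exact eq_neg_of_add_eq_zero_left h0
    rw [this]
    exact Submodule.smul_mem _ _ (Submodule.mem_span_singleton_self u)
  have hu'u' : Cfsg.hermForm n F 2 (w + (Cfsg.hermForm n F 2 w u) • u)
      (w + (Cfsg.hermForm n F 2 w u) • u) = 1 := by
    refine (self_sq hF _).resolve_left ?_
    intro h0
    exact hu'0 (perp_iso D hF hD i u _ hu hu'm huu hu'u h0)
  have huu' : Cfsg.hermForm n F 2 u (w + (Cfsg.hermForm n F 2 w u) • u) = 0 := by
    rw [← herm_conj (card4 hF) _ u, hu'u]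
    simp
  exact ⟨u, hu, _, hu'm, huu, hu'u', hu'u, huu'⟩

theorem unit_or (hF : Fintype.card F = 4)
    (hD : Cfsg.Geo.IsNondegenerateMDecomposition (Cfsg.hermForm n F 2) 2 D) (i : Fin t)
    (u x : Fin n → F) (hu : u ∈ D i) (hx : x ∈ D i) (huu : Cfsg.hermForm n F 2 u u = 1)
    (hxx : Cfsg.hermForm n F 2 x x ≠ 0) :
    Cfsg.hermForm n F 2 x u = 0 ∨ ∃ α : F, α ≠ 0 ∧ x = α • u ∧ Cfsg.hermForm n F 2 x u = α := by
  by_cases hα : Cfsg.hermForm n F 2 x u = 0
  · exact Or.inl hα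
  right
  have h2 := two_zero hF
  have hxx1 : Cfsg.hermForm n F 2 x x = 1 := (self_sq hF x).resolve_left hxx
  have hα3 := cube_one hF _ hα
  have hux : Cfsg.hermForm n F 2 u x = (Cfsg.hermForm n F 2 x u) ^ 2 :=
    (herm_conj (card4 hF) x u).symm
  have hy : x + (Cfsg.hermForm n F 2 x u) • u = 0 := by
    apply perp_iso D hF hD i u _ hu ((D i).add_mem hx ((D i).smul_mem _ hu)) huu
    · rw [herm_add_left, herm_smul_left, huu, mul_one]
      linear_combination (Cfsg.hermForm n F 2 x u) * h2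
    · rw [herm_add_left, herm_add_right (card4 hF), herm_add_right (card4 hF), herm_smul_left,
        herm_smul_left, herm_smul_right, herm_smul_right, hxx1, huu, hux]
      linear_combination (3 : F) * hα3 + 2 * h2
  refine ⟨_, hα, ?_, rfl⟩
  calc x = -((Cfsg.hermForm n F 2 x u) • u) := eq_neg_of_add_eq_zero_left hy
    _ = (-(Cfsg.hermForm n F 2 x u)) • u := (neg_smul _ _).symm
    _ = (Cfsg.hermForm n F 2 x u) • u := by
        congr 1
        linear_combination (-(Cfsg.hermForm n F 2 x u)) * h2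

end

section
variable {F : Type*} [Field F] [Fintype F] {n : ℕ}

omit [Fintype F] in
theorem tu_mulVec (v x : Fin n → F) :
    Cfsg.unitaryTransvection n 2 v 1 *ᵥ x = x + Cfsg.hermForm n F 2 x v • v := by
  rw [unitaryTransvection_mulVec, one_mul]

theorem exists_tu (hF : Fintype.card F = 4) (v : Fin n → F)
    (hv : Cfsg.hermForm n F 2 v v = 0) :
    ∃ g : Matrix.GeneralLinearGroup (Fin n) F, g.val = Cfsg.unitaryTransvection n 2 v 1 ∧
      g ∈ Cfsg.GU n F 2 ⊓ Cfsg.Geo.specialLinear (Fin n) F := by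
  have h2 := two_zero hF
  have hc : (1 : F) ^ 2 + 1 = 0 := by
    rw [one_pow, one_add_one_eq_two]
    exact h2
  obtain ⟨S, hS⟩ := Cfsg.Agent.Lib_helper4_SUCenter.exists_SU_transvection (card4 hF) v hv 1 hc
  have hdet : (Cfsg.unitaryTransvection n 2 v 1).det = 1 := by
    rw [← hS]
    exact S.val.2
  refine ⟨Matrix.GeneralLinearGroup.mkOfDetNeZero (Cfsg.unitaryTransvection n 2 v 1)
    (by rw [hdet]; exact one_ne_zero), rfl,
    Subgroup.mem_inf.2 ⟨?_, ?_⟩⟩
  · intro x y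
    show Cfsg.hermForm n F 2 (Cfsg.unitaryTransvection n 2 v 1 *ᵥ x)
      (Cfsg.unitaryTransvection n 2 v 1 *ᵥ y) = _
    rw [herm_transvection (card4 hF), hc, hv]
    ring
  · show Matrix.GeneralLinearGroup.det _ = 1
    apply Units.ext
    exact hdet

variable {t : ℕ} (D : Fin t → Submodule F (Fin n → F))

/-- The non-isotropic vectors lying in a member of the decomposition. -/
def SS : Set (Fin n → F) := {x | ∃ i, x ∈ D i ∧ Cfsg.hermForm n F 2 x x ≠ 0}

theorem tu_maps (hF : Fintype.card F = 4)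
    (hD : Cfsg.Geo.IsNondegenerateMDecomposition (Cfsg.hermForm n F 2) 2 D) (i₁ i₂ : Fin t)
    (h12 : i₁ ≠ i₂) (u₁ u₂ : Fin n → F) (hu₁ : u₁ ∈ D i₁) (hu₂ : u₂ ∈ D i₂)
    (h1 : Cfsg.hermForm n F 2 u₁ u₁ = 1) (h2 : Cfsg.hermForm n F 2 u₂ u₂ = 1)
    (x : Fin n → F) (hx : x ∈ SS D) :
    x + Cfsg.hermForm n F 2 x (u₁ + u₂) • (u₁ + u₂) ∈ SS D := by
  obtain ⟨i, hxi, hxx⟩ := hx
  have h2' := two_zero hF
  rw [herm_add_right (card4 hF)]
  by_cases hi1 : i = i₁
  · subst hi1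
    have hx2 : Cfsg.hermForm n F 2 x u₂ = 0 := hD.orthogonal i i₂ h12 x hxi u₂ hu₂
    rw [hx2, add_zero]
    rcases unit_or D hF hD i u₁ x hu₁ hxi h1 hxx with h0 | ⟨α, hα, rfl, hxu⟩
    · rw [h0, zero_smul, add_zero]
      exact ⟨i, hxi, hxx⟩
    · rw [hxu]
      have he : α • u₁ + α • (u₁ + u₂) = α • u₂ := by
        rw [smul_add, ← add_assoc, ← add_smul,
          show α + α = 0 by linear_combination α * h2', zero_smul, zero_add]
      rw [he]
      refine ⟨i₂, (D i₂).smul_mem _ hu₂, ?_⟩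
      rw [herm_smul_left, herm_smul_right, h2, mul_one]
      have := cube_one hF α hα
      intro h0
      have h3 : α ^ 3 = 0 := by linear_combination h0
      rw [this] at h3
      exact one_ne_zero h3
  · by_cases hi2 : i = i₂
    · subst hi2
      have hx1 : Cfsg.hermForm n F 2 x u₁ = 0 := hD.orthogonal i i₁ (Ne.symm h12) x hxi u₁ hu₁
      rw [hx1, zero_add]
      rcases unit_or D hF hD i u₂ x hu₂ hxi h2 hxx with h0 | ⟨α, hα, rfl, hxu⟩
      · rw [h0, zero_smul, add_zero]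
        exact ⟨i, hxi, hxx⟩
      · rw [hxu]
        have he : α • u₂ + α • (u₁ + u₂) = α • u₁ := by
          rw [smul_add, add_comm (α • u₁), ← add_assoc, ← add_smul,
            show α + α = 0 by linear_combination α * h2', zero_smul, zero_add]
        rw [he]
        refine ⟨i₁, (D i₁).smul_mem _ hu₁, ?_⟩
        rw [herm_smul_left, herm_smul_right, h1, mul_one]
        have := cube_one hF α hα
        intro h0
        have h3 : α ^ 3 = 0 := by linear_combination h0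
        rw [this] at h3
        exact one_ne_zero h3
    · have hx1 : Cfsg.hermForm n F 2 x u₁ = 0 := hD.orthogonal i i₁ hi1 x hxi u₁ hu₁
      have hx2 : Cfsg.hermForm n F 2 x u₂ = 0 := hD.orthogonal i i₂ hi2 x hxi u₂ hu₂
      rw [hx1, hx2, add_zero, zero_smul, add_zero]
      exact ⟨i, hxi, hxx⟩

/-- The overgroup: the stabiliser of the set of non-isotropic vectors of the members. -/
def KK : Subgroup (Matrix.GeneralLinearGroup (Fin n) F) :=
  Cfsg.stabilizing (Cfsg.glToMat (Fin n) F) (SS D) ⊓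
    (Cfsg.GU n F 2 ⊓ Cfsg.Geo.specialLinear (Fin n) F)

omit [Fintype F] in
theorem stab_le : Cfsg.Geo.decompositionStabilizer D ⊓
    (Cfsg.GU n F 2 ⊓ Cfsg.Geo.specialLinear (Fin n) F) ≤ KK D := by
  intro g hg
  obtain ⟨⟨σ, hσ⟩, hg2⟩ := Subgroup.mem_inf.1 hg
  have hgu : ∀ u w, Cfsg.hermForm n F 2 (g.val *ᵥ u) (g.val *ᵥ w) = Cfsg.hermForm n F 2 u w :=
    (Subgroup.mem_inf.1 hg2).1
  have hinj : ∀ z, (g⁻¹).val *ᵥ (g.val *ᵥ z) = z := fun z => by
    rw [Matrix.mulVec_mulVec, ← Units.val_mul, inv_mul_cancel, Units.val_one, Matrix.one_mulVec]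
  refine Subgroup.mem_inf.2 ⟨?_, hg2⟩
  intro x
  show x ∈ SS D ↔ g.val *ᵥ x ∈ SS D
  constructor
  · rintro ⟨i, hxi, hxx⟩
    refine ⟨σ i, ?_, ?_⟩
    · rw [← hσ i]
      exact ⟨x, hxi, Matrix.toLin'_apply _ _⟩
    · rw [hgu]
      exact hxx
  · rintro ⟨j, hxj, hxx⟩
    refine ⟨σ.symm j, ?_, ?_⟩
    · have h1 := hσ (σ.symm j)
      rw [Equiv.apply_symm_apply] at h1
      rw [← h1] at hxj
      obtain ⟨d, hd, hde⟩ := hxj
      rw [Matrix.toLin'_apply] at hde
      have : d = x := by rw [← hinj d, hde, hinj x]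
      rw [← this]
      exact hd
    · rw [hgu] at hxx
      exact hxx

end


/-- Let F be the field with 4 elements (q = 2) and n ≥ 13. Let D be a decomposition of F^n into t pairwise orthogonal 2-dimensional subspaces, each non-degenerate for the standard unitary form Σ u_i v_i². Then the elements of SU_n(2) permuting the members of D form a subgroup that is not maximal: some subgroup lies strictly between it and SU_n(2). -/
theorem result {F : Type*} [Field F] [Fintype F] (n : ℕ) (hF : Fintype.card F = 4) (hn : 13 ≤ n) {t : ℕ} (D : Fin t → Submodule F (Fin n → F)) (hD : Cfsg.Geo.IsNondegenerateMDecomposition (Cfsg.hermForm n F 2) 2 D) : ∃ K : Subgroup (Matrix.GeneralLinearGroup (Fin n) F), Cfsg.Geo.decompositionStabilizer D ⊓ (Cfsg.GU n F 2 ⊓ Cfsg.Geo.specialLinear (Fin n) F) < K ∧ K < (Cfsg.GU n F 2 ⊓ Cfsg.Geo.specialLinear (Fin n) F) := by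
  have h2 := two_zero hF
  have ht := hD.decomp.two_le
  obtain ⟨i₁, i₂, h12⟩ : ∃ i₁ i₂ : Fin t, i₁ ≠ i₂ :=
    ⟨⟨0, by omega⟩, ⟨1, by omega⟩, by simp [Fin.ext_iff]⟩
  obtain ⟨u₁, hu₁, u₁', hu₁', h1, h1', h1'1, h11'⟩ := exists_frame D hF hD i₁
  obtain ⟨u₂, hu₂, u₂', hu₂', h2_, h2', h2'2, h22'⟩ := exists_frame D hF hD i₂
  have o12 : ∀ a ∈ D i₁, ∀ b ∈ D i₂, Cfsg.hermForm n F 2 a b = 0 := hD.orthogonal i₁ i₂ h12
  have o21 : ∀ a ∈ D i₂, ∀ b ∈ D i₁, Cfsg.hermForm n F 2 a b = 0 :=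
    hD.orthogonal i₂ i₁ (Ne.symm h12)
  refine ⟨KK D, ?_, ?_⟩
  · refine lt_of_le_of_ne (stab_le D) ?_
    intro heq
    have hv : Cfsg.hermForm n F 2 (u₁ + u₂) (u₁ + u₂) = 0 := by
      rw [herm_add_left, herm_add_right (card4 hF), herm_add_right (card4 hF), h1, h2_,
        o12 u₁ hu₁ u₂ hu₂, o21 u₂ hu₂ u₁ hu₁]
      linear_combination h2
    obtain ⟨g, hgv, hgm⟩ := exists_tu hF (u₁ + u₂) hv
    have hgx : ∀ x, g.val *ᵥ x = x + Cfsg.hermForm n F 2 x (u₁ + u₂) • (u₁ + u₂) := fun x => by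
      rw [hgv, tu_mulVec]
    have hinv : ∀ x, g.val *ᵥ (g.val *ᵥ x) = x := by
      intro x
      rw [hgx (g.val *ᵥ x), hgx x, herm_add_left, herm_smul_left, hv, mul_zero, add_zero,
        add_assoc, ← add_smul,
        show Cfsg.hermForm n F 2 x (u₁ + u₂) + Cfsg.hermForm n F 2 x (u₁ + u₂) = 0 by
          linear_combination (Cfsg.hermForm n F 2 x (u₁ + u₂)) * h2, zero_smul, add_zero]
    have hmem : g ∈ KK D := by
      refine Subgroup.mem_inf.2 ⟨?_, hgm⟩
      intro x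
      show x ∈ SS D ↔ g.val *ᵥ x ∈ SS D
      constructor
      · intro hx
        rw [hgx]
        exact tu_maps D hF hD i₁ i₂ h12 u₁ u₂ hu₁ hu₂ h1 h2_ x hx
      · intro hx
        have := tu_maps D hF hD i₁ i₂ h12 u₁ u₂ hu₁ hu₂ h1 h2_ _ hx
        rw [← hgx, hinv] at this
        exact this
    rw [← heq] at hmem
    obtain ⟨⟨σ, hσ⟩, -⟩ := Subgroup.mem_inf.1 hmem
    have hg1 : g.val *ᵥ u₁ = u₂ := by
      rw [hgx, herm_add_right (card4 hF), h1, o12 u₁ hu₁ u₂ hu₂, add_zero, one_smul, ← add_assoc,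
        ← two_smul F u₁, h2, zero_smul, zero_add]
    have hg1' : g.val *ᵥ u₁' = u₁' := by
      rw [hgx, herm_add_right (card4 hF), h1'1, o12 u₁' hu₁' u₂ hu₂, add_zero, zero_smul, add_zero]
    have hm1 : u₂ ∈ D (σ i₁) := by
      rw [← hσ i₁, ← hg1]
      exact ⟨u₁, hu₁, Matrix.toLin'_apply _ _⟩
    have hm2 : u₁' ∈ D (σ i₁) := by
      rw [← hσ i₁]
      exact ⟨u₁', hu₁', by rw [Matrix.toLin'_apply, hg1']⟩
    have hj : σ i₁ = i₂ := by
      by_contra hne
      have := hD.orthogonal (σ i₁) i₂ hne u₂ hm1 u₂ hu₂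
      rw [h2_] at this
      exact one_ne_zero this
    rw [hj] at hm2
    have := o12 u₁' hu₁' u₁' hm2
    rw [h1'] at this
    exact one_ne_zero this
  · refine lt_of_le_of_ne inf_le_right ?_
    intro heq
    have hv1 : Cfsg.hermForm n F 2 u₁ (u₁ + u₁' + (u₂ + u₂')) = 1 := by
      simp only [herm_add_right (card4 hF), h1, h11', o12 u₁ hu₁ u₂ hu₂, o12 u₁ hu₁ u₂' hu₂',
        add_zero]
    have hv : Cfsg.hermForm n F 2 (u₁ + u₁' + (u₂ + u₂')) (u₁ + u₁' + (u₂ + u₂')) = 0 := by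
      simp only [herm_add_left, herm_add_right (card4 hF), h1, h1', h2_, h2', h1'1, h11', h2'2,
        h22', o12 u₁ hu₁ u₂ hu₂, o12 u₁ hu₁ u₂' hu₂', o12 u₁' hu₁' u₂ hu₂, o12 u₁' hu₁' u₂' hu₂',
        o21 u₂ hu₂ u₁ hu₁, o21 u₂ hu₂ u₁' hu₁', o21 u₂' hu₂' u₁ hu₁, o21 u₂' hu₂' u₁' hu₁']
      linear_combination 2 * h2
    obtain ⟨g, hgv, hgm⟩ := exists_tu hF _ hv
    have hmem : g ∈ KK D := by
      rw [heq]
      exact hgm
    have hst := (Subgroup.mem_inf.1 hmem).1 u₁
    have hu₁S : u₁ ∈ SS D := ⟨i₁, hu₁, by rw [h1]; exact one_ne_zero⟩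
    obtain ⟨j, hwj, -⟩ := hst.1 hu₁S
    have hw : g.val *ᵥ u₁ = u₁' + (u₂ + u₂') := by
      rw [hgv, tu_mulVec, hv1, one_smul, ← add_assoc, ← add_assoc, ← add_assoc, ← two_smul F u₁,
        h2, zero_smul, zero_add, add_assoc]
    change g.val *ᵥ u₁ ∈ D j at hwj
    rw [hw] at hwj
    by_cases hj : j = i₂
    · rw [hj] at hwj
      have := o21 _ hwj u₁' hu₁'
      rw [herm_add_left, herm_add_left, h1', o21 u₂ hu₂ u₁' hu₁', o21 u₂' hu₂' u₁' hu₁', add_zero,
        add_zero] at this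
      exact one_ne_zero this
    · have := hD.orthogonal j i₂ hj _ hwj u₂ hu₂
      rw [herm_add_left, herm_add_left, o12 u₁' hu₁' u₂ hu₂, h2_, h2'2, zero_add, add_zero] at this
      exact one_ne_zero this

end Cfsg.Agent.S5656
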