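import Cfsg.Statements.S0819
import Mathlib
import Cfsg.Agent.S5656

set_option autoImplicit false
open Cfsg

namespace Cfsg.Agent.S0819

open Matrix Polynomial

theorem CW {F : Type*} [Field F] (w : F) (hw : w ^ 2 = w + 1) : (C w : F[X]) ^ 2 = C w + 1 := by
  rw [← C_pow, hw, C_add, C_1]

theorem C2 {F : Type*} [Field F] (h2 : (2 : F) = 0) : (2 : F[X]) = 0 := by
  have h := congrArg (C : F → F[X]) h2
  rw [C_0] at h
  rw [← h]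
  rfl

theorem id_0_0 {F : Type*} [Field F] (w : F) (hw : w ^ 2 = w + 1) (h2 : (2 : F) = 0) :
    (X : F[X]) ^ 21 + C 1 = (X ^ 3 + C 0 * X ^ 2 + C 0 * X + 1) * (1 + X ^ 3 + X ^ 6 + X ^ 9 + X ^ 12 + X ^ 15 + X ^ 18) := by
  have hW := CW w hw
  have h2' := C2 (F := F) h2
  try simp only [C_add, C_1, C_0]
  linear_combination (exp := 1) (0) * hW + ((-1) * X ^ 3 + (-1) * X ^ 6 + (-1) * X ^ 9 + (-1) * X ^ 12 + (-1) * X ^ 15 + (-1) * X ^ 18) * h2'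

theorem id_0_1 {F : Type*} [Field F] (w : F) (hw : w ^ 2 = w + 1) (h2 : (2 : F) = 0) :
    (X : F[X]) ^ 21 + C 1 = (X ^ 3 + C 0 * X ^ 2 + C 1 * X + 1) * (1 + X + X ^ 2 + X ^ 4 + X ^ 7 + X ^ 8 + X ^ 9 + X ^ 11 + X ^ 14 + X ^ 15 + X ^ 16 + X ^ 18) := by
  have hW := CW w hw
  have h2' := C2 (F := F) h2
  try simp only [C_add, C_1, C_0]
  linear_combination (exp := 1) (0) * hW + ((-1) * X + (-1) * X ^ 2 + (-1) * X ^ 3 + (-1) * X ^ 4 + (-1) * X ^ 5 + (-1) * X ^ 7 + (-1) * X ^ 8 + (-1) * X ^ 9 + (-1) * X ^ 10 + (-1) * X ^ 11 + (-1) * X ^ 12 + (-1) * X ^ 14 + (-1) * X ^ 15 + (-1) * X ^ 16 + (-1) * X ^ 17 + (-1) * X ^ 18 + (-1) * X ^ 19) * h2'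

theorem id_0_2 {F : Type*} [Field F] (w : F) (hw : w ^ 2 = w + 1) (h2 : (2 : F) = 0) :
    (X : F[X]) ^ 21 + C 1 = (X ^ 3 + C 0 * X ^ 2 + C w * X + 1) * (1 + C w * X + (C w + 1) * X ^ 2 + C w * X ^ 4 + C w * X ^ 7 + (C w + 1) * X ^ 8 + X ^ 9 + (C w + 1) * X ^ 11 + (C w + 1) * X ^ 14 + X ^ 15 + C w * X ^ 16 + X ^ 18) := by
  have hW := CW w hw
  have h2' := C2 (F := F) h2
  try simp only [C_add, C_1, C_0]
  linear_combination (exp := 1) ((-1) * X ^ 2 + (-1) * X ^ 3 + (-1) * X ^ 5 + (-1) * X ^ 8 + (-1) * X ^ 9 + (-1) * X ^ 12 + (-1) * X ^ 15 + (-1) * X ^ 17) * hW + ((-1) * X * (C w) + (-1) * X ^ 2 + (-1) * X ^ 2 * (C w) + (-1) * X ^ 3 + (-1) * X ^ 3 * (C w) + (-1) * X ^ 4 * (C w) + (-1) * X ^ 5 + (-1) * X ^ 5 * (C w) + (-1) * X ^ 7 * (C w) + (-1) * X ^ 8 + (-1) * X ^ 8 * (C w) + (-1) * X ^ 9 + (-1) * X ^ 9 * (C w) + (-1) * X ^ 10 * (C w) + (-1) * X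 ^ 11 + (-1) * X ^ 11 * (C w) + (-1) * X ^ 12 + (-1) * X ^ 12 * (C w) + (-1) * X ^ 14 + (-1) * X ^ 14 * (C w) + (-1) * X ^ 15 + (-1) * X ^ 15 * (C w) + (-1) * X ^ 16 * (C w) + (-1) * X ^ 17 + (-1) * X ^ 17 * (C w) + (-1) * X ^ 18 + (-1) * X ^ 19 * (C w)) * h2'

theorem id_0_3 {F : Type*} [Field F] (w : F) (hw : w ^ 2 = w + 1) (h2 : (2 : F) = 0) :
    (X : F[X]) ^ 21 + C 1 = (X ^ 3 + C 0 * X ^ 2 + C (w + 1) * X + 1) * (1 + (C w + 1) * X + C w * X ^ 2 + (C w + 1) * X ^ 4 + (C w + 1) * X ^ 7 + C w * X ^ 8 + X ^ 9 + C w * X ^ 11 + C w * X ^ 14 + X ^ 15 + (C w + 1) * X ^ 16 + X ^ 18) := by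
  have hW := CW w hw
  have h2' := C2 (F := F) h2
  try simp only [C_add, C_1, C_0]
  linear_combination (exp := 1) ((-1) * X ^ 2 + (-1) * X ^ 3 + (-1) * X ^ 5 + (-1) * X ^ 8 + (-1) * X ^ 9 + (-1) * X ^ 12 + (-1) * X ^ 15 + (-1) * X ^ 17) * hW + ((-1) * X + (-1) * X * (C w) + (-1) * X ^ 2 + (-2) * X ^ 2 * (C w) + (-1) * X ^ 3 + (-1) * X ^ 3 * (C w) + (-1) * X ^ 4 + (-1) * X ^ 4 * (C w) + (-1) * X ^ 5 + (-2) * X ^ 5 * (C w) + (-1) * X ^ 7 + (-1) * X ^ 7 * (C w) + (-1) * X ^ 8 + (-2) * X ^ 8 * (C w) + (-1) * X ^ 9 + (-1) * X ^ 9 * (C w) + (-1) * X ^ 10 + (-1) * X ^ 10 * (C w) + (-1) * X ^ 11 * (C w) + (-1) * X ^ 12 + (-1) * X ^ 12 * (C w) + (-1) * X ^ 14 * (C w) + (-1) * X ^ 15 + (-1) * X ^ 15 * (C w) + (-1) * X ^ 16 + (-1) * X ^ 16 * (C w) + (-1) * X ^ 17 + (-2) * X ^ 17 * (C w) + (-1) * X ^ 18 + (-1) * X ^ 19 + (-1) * X ^ 19 * (C w)) * h2'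

theorem id_1_0 {F : Type*} [Field F] (w : F) (hw : w ^ 2 = w + 1) (h2 : (2 : F) = 0) :
    (X : F[X]) ^ 21 + C 1 = (X ^ 3 + C 1 * X ^ 2 + C 0 * X + 1) * (1 + X ^ 2 + X ^ 3 + X ^ 4 + X ^ 7 + X ^ 9 + X ^ 10 + X ^ 11 + X ^ 14 + X ^ 16 + X ^ 17 + X ^ 18) := by
  have hW := CW w hw
  have h2' := C2 (F := F) h2
  try simp only [C_add, C_1, C_0]
  linear_combination (exp := 1) (0) * hW + ((-1) * X ^ 2 + (-1) * X ^ 3 + (-1) * X ^ 4 + (-1) * X ^ 5 + (-1) * X ^ 6 + (-1) * X ^ 7 + (-1) * X ^ 9 + (-1) * X ^ 10 + (-1) * X ^ 11 + (-1) * X ^ 12 + (-1) * X ^ 13 + (-1) * X ^ 14 + (-1) * X ^ 16 + (-1) * X ^ 17 + (-1) * X ^ 18 + (-1) * X ^ 19 + (-1) * X ^ 20) * h2'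

theorem id_1_1 {F : Type*} [Field F] (w : F) (hw : w ^ 2 = w + 1) (h2 : (2 : F) = 0) :
    (X : F[X]) ^ 16 + C 1 = (X ^ 3 + C 1 * X ^ 2 + C 1 * X + 1) * (1 + X + X ^ 4 + X ^ 5 + X ^ 8 + X ^ 9 + X ^ 12 + X ^ 13) := by
  have hW := CW w hw
  have h2' := C2 (F := F) h2
  try simp only [C_add, C_1, C_0]
  linear_combination (exp := 1) (0) * hW + ((-1) * X + (-1) * X ^ 2 + (-1) * X ^ 3 + (-1) * X ^ 4 + (-1) * X ^ 5 + (-1) * X ^ 6 + (-1) * X ^ 7 + (-1) * X ^ 8 + (-1) * X ^ 9 + (-1) * X ^ 10 + (-1) * X ^ 11 + (-1) * X ^ 12 + (-1) * X ^ 13 + (-1) * X ^ 14 + (-1) * X ^ 15) * h2'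

theorem id_1_2 {F : Type*} [Field F] (w : F) (hw : w ^ 2 = w + 1) (h2 : (2 : F) = 0) :
    (X : F[X]) ^ 5 + C (w + 1) = (X ^ 3 + C 1 * X ^ 2 + C w * X + 1) * ((C w + 1) + X + X ^ 2) := by
  have hW := CW w hw
  have h2' := C2 (F := F) h2
  try simp only [C_add, C_1, C_0]
  linear_combination (exp := 1) ((-1) * X) * hW + ((-1) * X + (-1) * X * (C w) + (-1) * X ^ 2 + (-1) * X ^ 2 * (C w) + (-1) * X ^ 3 + (-1) * X ^ 3 * (C w) + (-1) * X ^ 4) * h2'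

theorem id_1_3 {F : Type*} [Field F] (w : F) (hw : w ^ 2 = w + 1) (h2 : (2 : F) = 0) :
    (X : F[X]) ^ 5 + C w = (X ^ 3 + C 1 * X ^ 2 + C (w + 1) * X + 1) * (C w + X + X ^ 2) := by
  have hW := CW w hw
  have h2' := C2 (F := F) h2
  try simp only [C_add, C_1, C_0]
  linear_combination (exp := 1) ((-1) * X) * hW + ((-1) * X + (-1) * X * (C w) + (-1) * X ^ 2 + (-1) * X ^ 2 * (C w) + (-1) * X ^ 3 + (-1) * X ^ 3 * (C w) + (-1) * X ^ 4) * h2'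

theorem id_2_0 {F : Type*} [Field F] (w : F) (hw : w ^ 2 = w + 1) (h2 : (2 : F) = 0) :
    (X : F[X]) ^ 21 + C 1 = (X ^ 3 + C w * X ^ 2 + C 0 * X + 1) * (1 + C w * X ^ 2 + X ^ 3 + (C w + 1) * X ^ 4 + (C w + 1) * X ^ 7 + X ^ 9 + (C w + 1) * X ^ 10 + C w * X ^ 11 + C w * X ^ 14 + (C w + 1) * X ^ 16 + C w * X ^ 17 + X ^ 18) := by
  have hW := CW w hw
  have h2' := C2 (F := F) h2
  try simp only [C_add, C_1, C_0]
  linear_combination (exp := 1) ((-1) * X ^ 4 + (-1) * X ^ 6 + (-1) * X ^ 9 + (-1) * X ^ 12 + (-1) * X ^ 13 + (-1) * X ^ 16 + (-1) * X ^ 18 + (-1) * X ^ 19) * hW + ((-1) * X ^ 2 * (C w) + (-1) * X ^ 3 + (-1) * X ^ 4 + (-1) * X ^ 4 * (C w) + (-1) * X ^ 5 * (C w) + (-1) * X ^ 6 + (-1) * X ^ 6 * (C w) + (-1) * X ^ 7 + (-1) * X ^ 7 * (C w) + (-1) * X ^ 9 + (-1) * X ^ 9 * (C w) + (-1) * X ^ 10 + (-1) * X ^ 10 * (C w) + (-1) * X ^ 11 * (C w) + (-1)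 * X ^ 12 + (-1) * X ^ 12 * (C w) + (-1) * X ^ 13 + (-1) * X ^ 13 * (C w) + (-1) * X ^ 14 * (C w) + (-1) * X ^ 16 + (-1) * X ^ 16 * (C w) + (-1) * X ^ 17 * (C w) + (-1) * X ^ 18 + (-1) * X ^ 18 * (C w) + (-1) * X ^ 19 + (-1) * X ^ 19 * (C w) + (-1) * X ^ 20 * (C w)) * h2'

theorem id_2_1 {F : Type*} [Field F] (w : F) (hw : w ^ 2 = w + 1) (h2 : (2 : F) = 0) :
    (X : F[X]) ^ 5 + C w = (X ^ 3 + C w * X ^ 2 + C 1 * X + 1) * (C w + C w * X + X ^ 2) := by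
  have hW := CW w hw
  have h2' := C2 (F := F) h2
  try simp only [C_add, C_1, C_0]
  linear_combination (exp := 1) ((-1) * X ^ 2 + (-1) * X ^ 3) * hW + ((-1) * X * (C w) + (-1) * X ^ 2 + (-1) * X ^ 2 * (C w) + (-1) * X ^ 3 + (-1) * X ^ 3 * (C w) + (-1) * X ^ 4 * (C w)) * h2'

theorem id_2_2 {F : Type*} [Field F] (w : F) (hw : w ^ 2 = w + 1) (h2 : (2 : F) = 0) :
    (X : F[X]) ^ 5 + C 1 = (X ^ 3 + C w * X ^ 2 + C w * X + 1) * (1 + C w * X + X ^ 2) := by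
  have hW := CW w hw
  have h2' := C2 (F := F) h2
  try simp only [C_add, C_1, C_0]
  linear_combination (exp := 1) ((-1) * X ^ 2 + (-1) * X ^ 3) * hW + ((-1) * X * (C w) + (-1) * X ^ 2 + (-1) * X ^ 2 * (C w) + (-1) * X ^ 3 + (-1) * X ^ 3 * (C w) + (-1) * X ^ 4 * (C w)) * h2'

theorem id_2_3 {F : Type*} [Field F] (w : F) (hw : w ^ 2 = w + 1) (h2 : (2 : F) = 0) :
    (X : F[X]) ^ 16 + C w = (X ^ 3 + C w * X ^ 2 + C (w + 1) * X + 1) * (C w + X + X ^ 4 + (C w + 1) * X ^ 5 + (C w + 1) * X ^ 8 + C w * X ^ 9 + C w * X ^ 12 + X ^ 13) := by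
  have hW := CW w hw
  have h2' := C2 (F := F) h2
  try simp only [C_add, C_1, C_0]
  linear_combination (exp := 1) ((-1) * X + (-1) * X ^ 2 + (-1) * X ^ 6 + (-1) * X ^ 7 + (-1) * X ^ 9 + (-2) * X ^ 10 + (-1) * X ^ 11 + (-1) * X ^ 13 + (-1) * X ^ 14) * hW + ((-1) * X + (-1) * X * (C w) + (-1) * X ^ 2 + (-1) * X ^ 2 * (C w) + (-1) * X ^ 3 * (C w) + (-1) * X ^ 4 + (-1) * X ^ 5 + (-1) * X ^ 5 * (C w) + (-1) * X ^ 6 + (-2) * X ^ 6 * (C w) + (-1) * X ^ 7 + (-1) * X ^ 7 * (C w) + (-1) * X ^ 8 + (-1) * X ^ 8 * (C w) + (-1) * X ^ 9 + (-2) * X ^ 9 * (C w) + (-1) * X ^ 10 + (-2) * X ^ 10 * (C w) + (-1) * X ^ 11 + (-1) * X ^ 11 * (C w) + (-1) * X ^ 12 * (C w) + (-1) * X ^ 13 + (-1) * X ^ 13 * (C w) + (-1) * X ^ 14 + (-1) * X ^ 14 * (C w) + (-1) * X ^ 15 * (C w)) * h2'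

theorem id_3_0 {F : Type*} [Field F] (w : F) (hw : w ^ 2 = w + 1) (h2 : (2 : F) = 0) :
    (X : F[X]) ^ 21 + C 1 = (X ^ 3 + C (w + 1) * X ^ 2 + C 0 * X + 1) * (1 + (C w + 1) * X ^ 2 + X ^ 3 + C w * X ^ 4 + C w * X ^ 7 + X ^ 9 + C w * X ^ 10 + (C w + 1) * X ^ 11 + (C w + 1) * X ^ 14 + C w * X ^ 16 + (C w + 1) * X ^ 17 + X ^ 18) := by
  have hW := CW w hw
  have h2' := C2 (F := F) h2
  try simp only [C_add, C_1, C_0]
  linear_combination (exp := 1) ((-1) * X ^ 4 + (-1) * X ^ 6 + (-1) * X ^ 9 + (-1) * X ^ 12 + (-1) * X ^ 13 + (-1) * X ^ 16 + (-1) * X ^ 18 + (-1) * X ^ 19) * hW + ((-1) * X ^ 2 + (-1) * X ^ 2 * (C w) + (-1) * X ^ 3 + (-1) * X ^ 4 + (-2) * X ^ 4 * (C w) + (-1) * X ^ 5 + (-1) * X ^ 5 * (C w) + (-1) * X ^ 6 + (-1) * X ^ 6 * (C w) + (-1) * X ^ 7 * (C w) + (-1) * X ^ 9 + (-1) * X ^ 9 * (C w) + (-1) * X ^ 10 * (C w) + (-1) * X ^ 11 + (-1) *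 X ^ 11 * (C w) + (-1) * X ^ 12 + (-1) * X ^ 12 * (C w) + (-1) * X ^ 13 + (-2) * X ^ 13 * (C w) + (-1) * X ^ 14 + (-1) * X ^ 14 * (C w) + (-1) * X ^ 16 + (-2) * X ^ 16 * (C w) + (-1) * X ^ 17 + (-1) * X ^ 17 * (C w) + (-1) * X ^ 18 + (-1) * X ^ 18 * (C w) + (-1) * X ^ 19 + (-2) * X ^ 19 * (C w) + (-1) * X ^ 20 + (-1) * X ^ 20 * (C w)) * h2'

theorem id_3_1 {F : Type*} [Field F] (w : F) (hw : w ^ 2 = w + 1) (h2 : (2 : F) = 0) :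
    (X : F[X]) ^ 5 + C (w + 1) = (X ^ 3 + C (w + 1) * X ^ 2 + C 1 * X + 1) * ((C w + 1) + (C w + 1) * X + X ^ 2) := by
  have hW := CW w hw
  have h2' := C2 (F := F) h2
  try simp only [C_add, C_1, C_0]
  linear_combination (exp := 1) ((-1) * X ^ 2 + (-1) * X ^ 3) * hW + ((-1) * X + (-1) * X * (C w) + (-2) * X ^ 2 + (-2) * X ^ 2 * (C w) + (-2) * X ^ 3 + (-2) * X ^ 3 * (C w) + (-1) * X ^ 4 + (-1) * X ^ 4 * (C w)) * h2'

theorem id_3_2 {F : Type*} [Field F] (w : F) (hw : w ^ 2 = w + 1) (h2 : (2 : F) = 0) :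
    (X : F[X]) ^ 16 + C (w + 1) = (X ^ 3 + C (w + 1) * X ^ 2 + C w * X + 1) * ((C w + 1) + X + X ^ 4 + C w * X ^ 5 + C w * X ^ 8 + (C w + 1) * X ^ 9 + (C w + 1) * X ^ 12 + X ^ 13) := by
  have hW := CW w hw
  have h2' := C2 (F := F) h2
  try simp only [C_add, C_1, C_0]
  linear_combination (exp := 1) ((-1) * X + (-1) * X ^ 2 + (-1) * X ^ 6 + (-1) * X ^ 7 + (-1) * X ^ 9 + (-2) * X ^ 10 + (-1) * X ^ 11 + (-1) * X ^ 13 + (-1) * X ^ 14) * hW + ((-1) * X + (-1) * X * (C w) + (-1) * X ^ 2 + (-2) * X ^ 2 * (C w) + (-1) * X ^ 3 + (-1) * X ^ 3 * (C w) + (-1) * X ^ 4 + (-1) * X ^ 5 * (C w) + (-1) * X ^ 6 + (-1) * X ^ 6 * (C w) + (-1) * X ^ 7 + (-1) * X ^ 7 * (C w) + (-1) * X ^ 8 * (C w) + (-1) * X ^ 9 + (-1) * X ^ 9 * (C w) + (-1) * X ^ 10 + (-2) * X ^ 10 * (C w) + (-1) * X ^ 11 + (-2) * X ^ 11 * (C w) + (-1) * X ^ 12 + (-1) * X ^ 12 * (C w) + (-1) * X ^ 13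 + (-1) * X ^ 13 * (C w) + (-1) * X ^ 14 + (-2) * X ^ 14 * (C w) + (-1) * X ^ 15 + (-1) * X ^ 15 * (C w)) * h2'

theorem id_3_3 {F : Type*} [Field F] (w : F) (hw : w ^ 2 = w + 1) (h2 : (2 : F) = 0) :
    (X : F[X]) ^ 5 + C 1 = (X ^ 3 + C (w + 1) * X ^ 2 + C (w + 1) * X + 1) * (1 + (C w + 1) * X + X ^ 2) := by
  have hW := CW w hw
  have h2' := C2 (F := F) h2
  try simp only [C_add, C_1, C_0]
  linear_combination (exp := 1) ((-1) * X ^ 2 + (-1) * X ^ 3) * hW + ((-1) * X + (-1) * X * (C w) + (-2) * X ^ 2 + (-2) * X ^ 2 * (C w) + (-2) * X ^ 3 + (-2) * X ^ 3 * (C w) + (-1) * X ^ 4 + (-1) * X ^ 4 * (C w)) * h2'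

theorem key {F : Type*} [Field F] (a b s : F) (k : ℕ) (Q : F[X])
    (h : (X : F[X]) ^ k + C s = (X ^ 3 + C a * X ^ 2 + C b * X + 1) * Q)
    (M : Matrix (Fin 3) (Fin 3) F) (hM : M ^ 3 + a • M ^ 2 + b • M + 1 = 0) :
    M ^ k = (-s) • (1 : Matrix (Fin 3) (Fin 3) F) := by
  have h1 := congrArg (Polynomial.aeval M) h
  simp only [map_add, map_mul, map_pow, Polynomial.aeval_X, Polynomial.aeval_C, map_one] at h1
  have h3 : M ^ 3 + (algebraMap F (Matrix (Fin 3) (Fin 3) F)) a * M ^ 2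
      + (algebraMap F (Matrix (Fin 3) (Fin 3) F)) b * M + 1 = 0 := by
    rw [Algebra.algebraMap_eq_smul_one, Algebra.algebraMap_eq_smul_one, smul_mul_assoc,
      smul_mul_assoc, one_mul, one_mul]
    exact hM
  rw [h3, zero_mul] at h1
  rw [eq_neg_of_add_eq_zero_left h1, Algebra.algebraMap_eq_smul_one, neg_smul]

theorem ch {F : Type*} [Field F] (h2 : (2 : F) = 0) (M : Matrix (Fin 3) (Fin 3) F)
    (hdet : M.det = 1) : ∃ a b : F, M ^ 3 + a • M ^ 2 + b • M + 1 = 0 := by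
  have hmon := Matrix.charpoly_monic M
  have hdeg : M.charpoly.natDegree = 3 := by
    rw [Matrix.charpoly_natDegree_eq_dim, Fintype.card_fin]
  have h0 : M.charpoly.coeff 0 = 1 := by
    have h := Matrix.det_eq_sign_charpoly_coeff M
    rw [hdet, Fintype.card_fin] at h
    have hneg : (-1 : F) = 1 := by linear_combination (-1 : F) * h2
    rw [hneg, one_pow, one_mul] at h
    exact h.symm
  have h3 : M.charpoly.coeff 3 = 1 := by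
    have h := hmon.coeff_natDegree
    rw [hdeg] at h
    exact h
  have hch := Matrix.aeval_self_charpoly M
  rw [Polynomial.as_sum_range_C_mul_X_pow M.charpoly, hdeg] at hch
  simp only [Finset.sum_range_succ, Finset.sum_range_zero, map_add, map_mul, map_pow,
    Polynomial.aeval_X, Polynomial.aeval_C, zero_add, pow_zero, mul_one, pow_one, h0, h3,
    map_one, one_mul] at hch
  refine ⟨M.charpoly.coeff 2, M.charpoly.coeff 1, ?_⟩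
  rw [← hch]
  simp only [Algebra.algebraMap_eq_smul_one, smul_mul_assoc, one_mul]
  abel

theorem f4 {F : Type*} [Field F] [Fintype F] (hF : Fintype.card F = 4) :
    ∃ w : F, w ^ 2 = w + 1 ∧ ∀ x : F, x = 0 ∨ x = 1 ∨ x = w ∨ x = w + 1 := by
  have h2 := Cfsg.Agent.S5656.two_zero hF
  obtain ⟨w, hw⟩ := Cfsg.Agent.S5656.exists_tr hF
  have hw0 : w ≠ 0 := by
    rintro rfl
    exact hw (by ring)
  have hw3 := Cfsg.Agent.S5656.cube_one hF w hw0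
  have hw1 : w ^ 2 + w + 1 = 0 := by
    have h : (w + 1) * (w ^ 2 + w + 1) = 0 := by
      linear_combination hw3 + (w ^ 2 + w + 1) * h2
    rcases mul_eq_zero.mp h with h' | h'
    · exfalso
      apply hw
      linear_combination w * h'
    · exact h'
  refine ⟨w, by linear_combination hw1 - (w + 1) * h2, ?_⟩
  intro x
  by_cases hx0 : x = 0
  · exact Or.inl hx0
  right
  have hx3 := Cfsg.Agent.S5656.cube_one hF x hx0
  have h : (x + 1) * (x ^ 2 + x + 1) = 0 := by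
    linear_combination hx3 + (x ^ 2 + x + 1) * h2
  rcases mul_eq_zero.mp h with h' | h'
  · left
    linear_combination h' - h2
  · right
    have h4 : (x + w) * (x + w + 1) = 0 := by
      linear_combination h' + hw1 + (x * w - 1) * h2
    rcases mul_eq_zero.mp h4 with h5 | h5
    · left
      linear_combination h5 - w * h2
    · right
      linear_combination h5 - (w + 1) * h2

theorem good {F : Type*} [Field F] [Fintype F] (hF : Fintype.card F = 4)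
    (M : Matrix (Fin 3) (Fin 3) F) (hdet : M.det = 1) :
    ∃ k ∈ ({5, 16, 21} : Finset ℕ), ∃ c : F, M ^ k = c • (1 : Matrix (Fin 3) (Fin 3) F) := by
  have h2 := Cfsg.Agent.S5656.two_zero hF
  obtain ⟨w, hw, hall⟩ := f4 hF
  obtain ⟨a, b, hM⟩ := ch h2 M hdet
  have ha := hall a
  have hb := hall b
  rcases ha with ha | ha | ha | ha <;> rcases hb with hb | hb | hb | hb <;> rw [ha, hb] at hM
  · exact ⟨21, by simp, _, key 0 0 1 21 _ (id_0_0 w hw h2) M hM⟩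
  · exact ⟨21, by simp, _, key 0 1 1 21 _ (id_0_1 w hw h2) M hM⟩
  · exact ⟨21, by simp, _, key 0 w 1 21 _ (id_0_2 w hw h2) M hM⟩
  · exact ⟨21, by simp, _, key 0 (w + 1) 1 21 _ (id_0_3 w hw h2) M hM⟩
  · exact ⟨21, by simp, _, key 1 0 1 21 _ (id_1_0 w hw h2) M hM⟩
  · exact ⟨16, by simp, _, key 1 1 1 16 _ (id_1_1 w hw h2) M hM⟩
  · exact ⟨5, by simp, _, key 1 w (w + 1) 5 _ (id_1_2 w hw h2) M hM⟩
  · exact ⟨5, by simp, _, key 1 (w + 1) w 5 _ (id_1_3 w hw h2) M hM⟩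
  · exact ⟨21, by simp, _, key w 0 1 21 _ (id_2_0 w hw h2) M hM⟩
  · exact ⟨5, by simp, _, key w 1 w 5 _ (id_2_1 w hw h2) M hM⟩
  · exact ⟨5, by simp, _, key w w 1 5 _ (id_2_2 w hw h2) M hM⟩
  · exact ⟨16, by simp, _, key w (w + 1) w 16 _ (id_2_3 w hw h2) M hM⟩
  · exact ⟨21, by simp, _, key (w + 1) 0 1 21 _ (id_3_0 w hw h2) M hM⟩
  · exact ⟨5, by simp, _, key (w + 1) 1 (w + 1) 5 _ (id_3_1 w hw h2) M hM⟩
  · exact ⟨16, by simp, _, key (w + 1) w (w + 1) 16 _ (id_3_2 w hw h2) M hM⟩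
  · exact ⟨5, by simp, _, key (w + 1) (w + 1) 1 5 _ (id_3_3 w hw h2) M hM⟩

/-- No element of PSL_3(4) has order 15. -/
theorem result {F : Type*} [Field F] [Fintype F] (hF : Fintype.card F = 4) (g : Matrix.ProjectiveSpecialLinearGroup (Fin 3) F) : orderOf g ≠ 15 := by
  intro h15
  obtain ⟨g, rfl⟩ := QuotientGroup.mk_surjective g
  obtain ⟨k, hk, c, hc⟩ := good hF g.val g.2
  have hcen : g ^ k ∈ Subgroup.center (Matrix.SpecialLinearGroup (Fin 3) F) := by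
    rw [Matrix.SpecialLinearGroup.mem_center_iff]
    refine ⟨c, ?_, ?_⟩
    · have hd : (g.val ^ k).det = 1 := by rw [Matrix.det_pow, g.2, one_pow]
      rw [hc, Matrix.det_smul, Matrix.det_one, mul_one, Fintype.card_fin] at hd
      rw [Fintype.card_fin]
      exact hd
    · rw [Matrix.SpecialLinearGroup.coe_pow]
      show _ = g.val ^ k
      rw [hc]
      ext i j
      simp [Matrix.scalar_apply, Matrix.diagonal_apply, Matrix.one_apply]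
  have hxk : (QuotientGroup.mk g : Matrix.ProjectiveSpecialLinearGroup (Fin 3) F) ^ k = 1 := by
    rw [← QuotientGroup.mk_pow]
    exact (QuotientGroup.eq_one_iff _).mpr hcen
  have hdvd := orderOf_dvd_of_pow_eq_one hxk
  rw [h15] at hdvd
  simp only [Finset.mem_insert, Finset.mem_singleton] at hk
  rcases hk with rfl | rfl | rfl <;> omega

end Cfsg.Agent.S0819
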