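import Cfsg.Statements.S0820
import Mathlib
import Cfsg.Agent.S5676
import Cfsg.Agent.S2579

set_option autoImplicit false
open Cfsg

namespace Cfsg.Agent.S0820

open Matrix

theorem rank_ne_zero {F : Type*} [Field F] (A : Matrix (Fin 3) (Fin 3) F) (hA : A ≠ 0) :
    A.rank ≠ 0 := by
  intro h
  apply hA
  unfold Matrix.rank at h
  have h1 : LinearMap.range A.mulVecLin = ⊥ := Submodule.finrank_eq_zero.mp h
  have h2 : A.mulVecLin = 0 := LinearMap.range_eq_bot.mp h1
  apply Cfsg.Agent.S5676.mat_ext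
  intro x
  have h3 : A.mulVecLin x = 0 := by
    rw [h2]
    rfl
  rw [Matrix.mulVecLin_apply] at h3
  rw [h3, Matrix.zero_mulVec]

theorem exists_lift {F : Type*} [Field F] [Fintype F] (hF : Fintype.card F = 4)
    (x : Matrix.ProjectiveSpecialLinearGroup (Fin 3) F) (hx : orderOf x = 2) :
    ∃ g : Matrix.SpecialLinearGroup (Fin 3) F,
      (QuotientGroup.mk g : Matrix.ProjectiveSpecialLinearGroup (Fin 3) F) = x ∧
      Cfsg.IsTransvection (g : Matrix (Fin 3) (Fin 3) F) := by
  have h2 : ringChar F = 2 := by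
    have hp : (ringChar F).Prime := CharP.char_is_prime F (ringChar F)
    have hdvd : ringChar F ∣ 2 ^ 2 := by
      rw [← CharP.cast_eq_zero_iff F (ringChar F) (2 ^ 2)]
      have h4 : (2 ^ 2 : ℕ) = Fintype.card F := by rw [hF]; norm_num
      rw [h4]
      exact Nat.cast_card_eq_zero F
    exact (Nat.prime_dvd_prime_iff_eq hp Nat.prime_two).mp (hp.dvd_of_dvd_pow hdvd)
  have hchar : CharP F 2 := h2 ▸ ringChar.charP F
  obtain ⟨g, rfl⟩ := QuotientGroup.mk_surjective x
  have hx2 : (QuotientGroup.mk g : Matrix.ProjectiveSpecialLinearGroup (Fin 3) F) ^ 2 = 1 := by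
    rw [← hx]
    exact pow_orderOf_eq_one _
  have hz : g ^ 2 ∈ Subgroup.center (Matrix.SpecialLinearGroup (Fin 3) F) := by
    rw [← QuotientGroup.eq_one_iff, QuotientGroup.mk_pow]
    exact hx2
  have hz3 : (g ^ 2) ^ 3 = 1 := by
    obtain ⟨r, hr, hrz⟩ := Matrix.SpecialLinearGroup.mem_center_iff.mp hz
    apply Subtype.ext
    rw [Matrix.SpecialLinearGroup.coe_pow, ← hrz, ← map_pow]
    rw [Fintype.card_fin] at hr
    rw [hr, map_one]
    rfl
  refine ⟨g ^ 3, ?_, ?_⟩
  · rw [QuotientGroup.mk_pow, pow_succ, hx2, one_mul]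
  · have hne : g ^ 3 ≠ 1 := by
      intro h
      have h1 : (QuotientGroup.mk g : Matrix.ProjectiveSpecialLinearGroup (Fin 3) F) = 1 := by
        have h3 : (QuotientGroup.mk (g ^ 3) : Matrix.ProjectiveSpecialLinearGroup (Fin 3) F)
            = QuotientGroup.mk g := by
          rw [QuotientGroup.mk_pow, pow_succ, hx2, one_mul]
        rw [← h3, h]
        rfl
      rw [← orderOf_eq_one_iff, hx] at h1
      omega
    have hsq : ((g ^ 3 : Matrix.SpecialLinearGroup (Fin 3) F) : Matrix (Fin 3) (Fin 3) F)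
        * ((g ^ 3 : Matrix.SpecialLinearGroup (Fin 3) F) : Matrix (Fin 3) (Fin 3) F) = 1 := by
      rw [← Matrix.SpecialLinearGroup.coe_mul, ← pow_add, show 3 + 3 = 2 * 3 by norm_num, pow_mul,
        hz3]
      rfl
    have hM : ((g ^ 3 : Matrix.SpecialLinearGroup (Fin 3) F) : Matrix (Fin 3) (Fin 3) F) ≠ 1 := by
      intro h
      apply hne
      apply Subtype.ext
      rw [h]
      rfl
    have hAA : (((g ^ 3 : Matrix.SpecialLinearGroup (Fin 3) F) : Matrix (Fin 3) (Fin 3) F) - 1)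
        * (((g ^ 3 : Matrix.SpecialLinearGroup (Fin 3) F) : Matrix (Fin 3) (Fin 3) F) - 1) = 0 := by
      rw [sub_mul, mul_sub, mul_sub, hsq, mul_one, one_mul, one_mul]
      have e : ∀ M : Matrix (Fin 3) (Fin 3) F, (1 : Matrix (Fin 3) (Fin 3) F) - M - (M - 1)
          = (1 + 1) - (M + M) := by
        intro M
        abel
      rw [e, CharTwo.add_self_eq_zero, CharTwo.add_self_eq_zero, sub_zero]
    refine ⟨?_, hAA⟩
    have h1 := Matrix.rank_add_rank_le_card_of_mul_eq_zero hAA
    rw [Fintype.card_fin] at h1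
    have h2 := rank_ne_zero _ (sub_ne_zero.mpr hM)
    omega

/-- Any two elements of order 2 of PSL_3(4) are conjugate. -/
theorem result {F : Type*} [Field F] [Fintype F] (hF : Fintype.card F = 4) (x y : Matrix.ProjectiveSpecialLinearGroup (Fin 3) F) (hx : orderOf x = 2) (hy : orderOf y = 2) : IsConj x y := by
  obtain ⟨g, rfl, hg⟩ := exists_lift hF x hx
  obtain ⟨k, rfl, hk⟩ := exists_lift hF y hy
  have h := Cfsg.Agent.S2579.result (le_refl 3) g k hg hk
  exact (QuotientGroup.mk' _).map_isConj h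

end Cfsg.Agent.S0820
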