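import Cfsg.Statements.S0823
import Mathlib
import Cfsg.Agent.Lib_helper4_OOdd
import Cfsg.Agent.S5676

set_option autoImplicit false
open Cfsg

namespace Cfsg.Agent.S0823

open Matrix

/-- The embedding matrix. -/
def B0 : Matrix (Fin 4) (Unit ⊕ (Fin 1 ⊕ Fin 1)) (ZMod 3) :=
  Matrix.of fun i j => Sum.elim (fun _ => (![0, 1, 2, 0] : Fin 4 → ZMod 3) i)
    (Sum.elim (fun _ => (![1, 1, 1, 0] : Fin 4 → ZMod 3) i)
      (fun _ => (![0, 2, 2, 2] : Fin 4 → ZMod 3) i)) j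

/-- The projection matrix. -/
def A0 : Matrix (Unit ⊕ (Fin 1 ⊕ Fin 1)) (Fin 4) (ZMod 3) :=
  Matrix.of fun j i => Sum.elim (fun _ => (![0, 2, 1, 0] : Fin 4 → ZMod 3) i)
    (Sum.elim (fun _ => (![0, 2, 2, 2] : Fin 4 → ZMod 3) i)
      (fun _ => (![1, 1, 1, 0] : Fin 4 → ZMod 3) i)) j

/-- Sum zero. -/
def Ev (y : Fin 4 → ZMod 3) : Prop := ∑ i, y i = 0

instance (y : Fin 4 → ZMod 3) : Decidable (Ev y) := by
  unfold Ev
  infer_instance

/-- The norm. -/
def nm (y : Fin 4 → ZMod 3) : ZMod 3 := ∑ i, y i ^ 2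

theorem all4 (P : (Fin 4 → ZMod 3) → Prop)
    (h : ∀ a b c d : ZMod 3, P ![a, b, c, d]) : ∀ y, P y := by
  intro y
  have hy : y = ![y 0, y 1, y 2, y 3] := by
    funext i
    fin_cases i <;> rfl
  rw [hy]
  exact h _ _ _ _

theorem all3 (P : (Unit ⊕ (Fin 1 ⊕ Fin 1) → ZMod 3) → Prop)
    (h : ∀ a b c : ZMod 3, P (Sum.elim (fun _ => a) (Sum.elim (fun _ => b) (fun _ => c)))) :
    ∀ v, P v := by
  intro v
  have hv : v = Sum.elim (fun _ => v (Sum.inl ()))
      (Sum.elim (fun _ => v (Sum.inr (Sum.inl 0))) (fun _ => v (Sum.inr (Sum.inr 0)))) := by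
    funext i
    rcases i with i | i | i
    · rfl
    · have : i = 0 := Subsingleton.elim _ _
      subst this
      rfl
    · have : i = 0 := Subsingleton.elim _ _
      subst this
      rfl
  rw [hv]
  exact h _ _ _

theorem K1 : ∀ y, Ev y → Cfsg.quadFormOdd 1 (ZMod 3) (A0 *ᵥ y) = 2 * nm y :=
  all4 _ (by decide +kernel)

theorem K2 : A0 * B0 = 1 := by decide +kernel

theorem K4 : ∀ v, Ev (B0 *ᵥ v) := all3 _ (by decide +kernel)

theorem K5 : ∀ y, Ev y → B0 *ᵥ (A0 *ᵥ y) = y :=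
  all4 _ (by decide +kernel)

/-- The sign as a scalar. -/
def sg (σ : Equiv.Perm (Fin 4)) : ZMod 3 := ((Equiv.Perm.sign σ : ℤˣ) : ℤ)

/-- The matrix of a permutation. -/
def Gm (σ : Equiv.Perm (Fin 4)) :
    Matrix (Unit ⊕ (Fin 1 ⊕ Fin 1)) (Unit ⊕ (Fin 1 ⊕ Fin 1)) (ZMod 3) :=
  sg σ • (A0 * (σ⁻¹).permMatrix (ZMod 3) * B0)

set_option maxRecDepth 100000 in
theorem Gm_det : ∀ σ : Equiv.Perm (Fin 4), (Gm σ).det = 1 := by decide +kernel

set_option maxRecDepth 100000 in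
theorem Gm_inj : ∀ σ : Equiv.Perm (Fin 4), Gm σ = 1 → σ = 1 := by decide +kernel



theorem Ev_perm (σ : Equiv.Perm (Fin 4)) (y : Fin 4 → ZMod 3) (h : Ev y) : Ev (y ∘ σ) := by
  unfold Ev at h ⊢
  rw [← h]
  exact Equiv.sum_comp σ y

theorem nm_perm (σ : Equiv.Perm (Fin 4)) (y : Fin 4 → ZMod 3) : nm (y ∘ σ) = nm y := by
  unfold nm
  exact Equiv.sum_comp σ (fun i => y i ^ 2)

theorem sg_mul (σ τ : Equiv.Perm (Fin 4)) : sg (σ * τ) = sg σ * sg τ := by
  unfold sg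
  rw [Equiv.Perm.sign_mul, Units.val_mul, Int.cast_mul]

theorem sg_sq (σ : Equiv.Perm (Fin 4)) : sg σ * sg σ = 1 := by
  unfold sg
  rw [← Int.cast_mul, ← Units.val_mul, Int.units_mul_self, Units.val_one, Int.cast_one]

theorem sg_one : sg 1 = 1 := by
  unfold sg
  rw [Equiv.Perm.sign_one, Units.val_one, Int.cast_one]

theorem Gm_mulVec (σ : Equiv.Perm (Fin 4)) (v : Unit ⊕ (Fin 1 ⊕ Fin 1) → ZMod 3) :
    Gm σ *ᵥ v = sg σ • (A0 *ᵥ ((B0 *ᵥ v) ∘ ⇑σ⁻¹)) := by
  unfold Gm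
  rw [Matrix.smul_mulVec, ← Matrix.mulVec_mulVec, ← Matrix.mulVec_mulVec,
    Matrix.permMatrix_mulVec]

theorem Gm_mul (σ τ : Equiv.Perm (Fin 4)) : Gm (σ * τ) = Gm σ * Gm τ := by
  apply Cfsg.Agent.S5676.mat_ext
  intro v
  rw [← Matrix.mulVec_mulVec, Gm_mulVec, Gm_mulVec, Gm_mulVec, Matrix.mulVec_smul,
    K5 _ (Ev_perm _ _ (K4 v)), sg_mul, mul_smul]
  have h : (sg τ • ((B0 *ᵥ v) ∘ ⇑τ⁻¹)) ∘ ⇑σ⁻¹ = sg τ • (((B0 *ᵥ v) ∘ ⇑τ⁻¹) ∘ ⇑σ⁻¹) := by
    funext i
    rfl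
  rw [h, Matrix.mulVec_smul]
  congr 2

theorem Gm_one : Gm 1 = 1 := by
  apply Cfsg.Agent.S5676.mat_ext
  intro v
  rw [Gm_mulVec, Matrix.one_mulVec, sg_one, one_smul]
  have : (B0 *ᵥ v) ∘ ⇑(1 : Equiv.Perm (Fin 4))⁻¹ = B0 *ᵥ v := by
    funext i
    simp
  rw [this, Matrix.mulVec_mulVec, K2, Matrix.one_mulVec]

theorem Q_smul (c : ZMod 3) (w : Unit ⊕ (Fin 1 ⊕ Fin 1) → ZMod 3) :
    Cfsg.quadFormOdd 1 (ZMod 3) (c • w) = (c * c) * Cfsg.quadFormOdd 1 (ZMod 3) w := by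
  simp only [Cfsg.quadFormOdd, Pi.smul_apply, smul_eq_mul, Finset.univ_unique,
    Finset.sum_singleton]
  ring

theorem Gm_iso (σ : Equiv.Perm (Fin 4)) (v : Unit ⊕ (Fin 1 ⊕ Fin 1) → ZMod 3) :
    Cfsg.quadFormOdd 1 (ZMod 3) (Gm σ *ᵥ v) = Cfsg.quadFormOdd 1 (ZMod 3) v := by
  rw [Gm_mulVec, Q_smul, sg_sq, one_mul, K1 _ (Ev_perm _ _ (K4 v)), nm_perm, ← K1 _ (K4 v),
    Matrix.mulVec_mulVec, K2, Matrix.one_mulVec]

/-- The matrix of a permutation as an invertible matrix. -/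
def Gu (σ : Equiv.Perm (Fin 4)) : GL (Unit ⊕ (Fin 1 ⊕ Fin 1)) (ZMod 3) :=
  ⟨Gm σ, Gm σ⁻¹, by rw [← Gm_mul, mul_inv_cancel, Gm_one], by rw [← Gm_mul, inv_mul_cancel, Gm_one]⟩

/-- The homomorphism into the orthogonal group. -/
def phi0 : Equiv.Perm (Fin 4) →* Cfsg.isometryGroup (ZMod 3) (Cfsg.quadFormOdd 1 (ZMod 3)) where
  toFun σ := ⟨Gu σ, fun u _ => Gm_iso σ u⟩
  map_one' := by
    apply Subtype.ext
    apply Units.ext
    exact Gm_one
  map_mul' σ τ := by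
    apply Subtype.ext
    apply Units.ext
    exact Gm_mul σ τ

theorem phi0_mem (σ : Equiv.Perm (Fin 4)) :
    phi0 σ ∈ Cfsg.specialIsometryGroup (ZMod 3) (Cfsg.quadFormOdd 1 (ZMod 3)) := by
  rw [Cfsg.specialIsometryGroup, MonoidHom.mem_ker]
  apply Units.ext
  show (Gm σ).det = 1
  exact Gm_det σ

/-- The homomorphism into the special orthogonal group. -/
def phi : Equiv.Perm (Fin 4) →* Cfsg.specialIsometryGroup (ZMod 3) (Cfsg.quadFormOdd 1 (ZMod 3)) :=
  phi0.codRestrict _ phi0_mem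

theorem phi_inj : Function.Injective phi := by
  rw [injective_iff_map_eq_one]
  intro σ hσ
  apply Gm_inj
  have h1 : phi0 σ = 1 := congrArg Subtype.val hσ
  have h2 := congrArg (fun g : Cfsg.isometryGroup (ZMod 3) (Cfsg.quadFormOdd 1 (ZMod 3)) => g.1.val) h1
  exact h2



section Card
variable {F : Type*} [Field F] [Fintype F]

theorem Q_neg (v : Unit ⊕ (Fin 1 ⊕ Fin 1) → F) :
    Cfsg.quadFormOdd 1 F (-v) = Cfsg.quadFormOdd 1 F v := by
  simp [Cfsg.quadFormOdd]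

/-- Minus the identity as an isometry. -/
def negOne : Cfsg.isometryGroup F (Cfsg.quadFormOdd 1 F) :=
  ⟨-1, fun u _ => by
    show Cfsg.quadFormOdd 1 F ((-1 : GL (Unit ⊕ (Fin 1 ⊕ Fin 1)) F).val *ᵥ u) = _
    rw [Units.val_neg, Units.val_one, Matrix.neg_mulVec, Matrix.one_mulVec]
    exact Q_neg u⟩

theorem card_SO (hF : Fintype.card F = 3) :
    Nat.card (Cfsg.specialIsometryGroup F (Cfsg.quadFormOdd 1 F)) = 24 := by
  have hO : Nat.card (Cfsg.isometryGroup F (Cfsg.quadFormOdd 1 F)) = 48 := by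
    rw [Cfsg.Agent.Lib_helper4_OOdd.card_OOdd hF (by decide) 1]
    norm_num [Finset.prod_range_succ]
  have hsurj : Function.Surjective (Matrix.GeneralLinearGroup.det.comp
      (Cfsg.isometryGroup F (Cfsg.quadFormOdd 1 F)).subtype) := by
    intro u
    have hu : (u : F) ^ 2 = 1 := by
      have := FiniteField.pow_card_sub_one_eq_one (u : F) u.ne_zero
      rw [hF] at this
      exact this
    have h1 : ((u : F) - 1) * ((u : F) + 1) = 0 := by linear_combination hu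
    rcases mul_eq_zero.mp h1 with h | h
    · refine ⟨1, ?_⟩
      rw [map_one]
      apply Units.ext
      rw [Units.val_one]
      linear_combination -h
    · refine ⟨negOne, ?_⟩
      apply Units.ext
      show ((-1 : GL (Unit ⊕ (Fin 1 ⊕ Fin 1)) F).val).det = (u : F)
      rw [Units.val_neg, Units.val_one, Matrix.det_neg, Matrix.det_one]
      have hc : Fintype.card (Unit ⊕ (Fin 1 ⊕ Fin 1)) = 3 := by simp
      rw [hc]
      linear_combination -h
  have hr : Nat.card (Matrix.GeneralLinearGroup.det.comp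
      (Cfsg.isometryGroup F (Cfsg.quadFormOdd 1 F)).subtype).range = 2 := by
    rw [MonoidHom.range_eq_top.mpr hsurj, Subgroup.card_top, Nat.card_units,
      Nat.card_eq_fintype_card, hF]
  have h := Subgroup.index_mul_card (Matrix.GeneralLinearGroup.det.comp
      (Cfsg.isometryGroup F (Cfsg.quadFormOdd 1 F)).subtype).ker
  rw [Subgroup.index_ker, hr, hO] at h
  show Nat.card (Matrix.GeneralLinearGroup.det.comp
      (Cfsg.isometryGroup F (Cfsg.quadFormOdd 1 F)).subtype).ker = 24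
  omega

theorem Q_map (e : F →+* ZMod 3) (v : Unit ⊕ (Fin 1 ⊕ Fin 1) → F) :
    Cfsg.quadFormOdd 1 (ZMod 3) (fun i => e (v i)) = e (Cfsg.quadFormOdd 1 F v) := by
  simp [Cfsg.quadFormOdd, map_mul, map_pow]

theorem map_mulVec' (e : F →+* ZMod 3)
    (g : Matrix (Unit ⊕ (Fin 1 ⊕ Fin 1)) (Unit ⊕ (Fin 1 ⊕ Fin 1)) F)
    (v : Unit ⊕ (Fin 1 ⊕ Fin 1) → F) :
    (g.map e) *ᵥ (fun i => e (v i)) = fun i => e ((g *ᵥ v) i) := by
  funext i
  simp [Matrix.mulVec, dotProduct, map_sum, map_mul]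

theorem psi_mem (e : F →+* ZMod 3) (e' : ZMod 3 → F) (he : ∀ x, e (e' x) = x)
    (g : Cfsg.isometryGroup F (Cfsg.quadFormOdd 1 F)) (u : Unit ⊕ (Fin 1 ⊕ Fin 1) → ZMod 3) :
    Cfsg.quadFormOdd 1 (ZMod 3) ((g.1.val.map e) *ᵥ u) = Cfsg.quadFormOdd 1 (ZMod 3) u := by
  have hu : u = fun i => e (e' (u i)) := by
    funext i
    rw [he]
  have h1 := map_mulVec' e g.1.val (fun i => e' (u i))
  rw [← hu] at h1
  rw [h1, Q_map]
  have h2 : Cfsg.quadFormOdd 1 F (g.1.val *ᵥ fun i => e' (u i))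
      = Cfsg.quadFormOdd 1 F (fun i => e' (u i)) := g.2 _ 0
  rw [h2, ← Q_map, ← hu]

/-- The transport of isometries. -/
def psi0 (e : F →+* ZMod 3) (e' : ZMod 3 → F) (he : ∀ x, e (e' x) = x) :
    Cfsg.isometryGroup F (Cfsg.quadFormOdd 1 F) →*
      Cfsg.isometryGroup (ZMod 3) (Cfsg.quadFormOdd 1 (ZMod 3)) where
  toFun g := ⟨Matrix.GeneralLinearGroup.map e g.1, fun u _ => psi_mem e e' he g u⟩
  map_one' := by
    apply Subtype.ext
    exact map_one _
  map_mul' a b := by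
    apply Subtype.ext
    exact map_mul _ _ _

theorem psi0_inj (e : F →+* ZMod 3) (e' : ZMod 3 → F) (he : ∀ x, e (e' x) = x) :
    Function.Injective (psi0 e e' he) := by
  intro a b hab
  apply Subtype.ext
  apply Units.ext
  ext i j
  have h1 : Matrix.GeneralLinearGroup.map e a.1 = Matrix.GeneralLinearGroup.map e b.1 :=
    congrArg Subtype.val hab
  have h2 : (Matrix.GeneralLinearGroup.map e a.1) i j = (Matrix.GeneralLinearGroup.map e b.1) i j := by
    rw [h1]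
  rw [Matrix.GeneralLinearGroup.map_apply, Matrix.GeneralLinearGroup.map_apply] at h2
  exact e.injective h2

theorem psi0_mem (e : F →+* ZMod 3) (e' : ZMod 3 → F) (he : ∀ x, e (e' x) = x)
    (g : Cfsg.specialIsometryGroup F (Cfsg.quadFormOdd 1 F)) :
    psi0 e e' he g.1 ∈ Cfsg.specialIsometryGroup (ZMod 3) (Cfsg.quadFormOdd 1 (ZMod 3)) := by
  have hg := g.2
  unfold Cfsg.specialIsometryGroup at hg
  rw [MonoidHom.mem_ker] at hg
  have hg' : (g.1.1.val).det = 1 := by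
    have := congrArg Units.val hg
    exact this
  unfold Cfsg.specialIsometryGroup
  rw [MonoidHom.mem_ker]
  apply Units.ext
  show ((g.1.1.val).map e).det = 1
  have h := RingHom.map_det e g.1.1.val
  rw [hg', map_one] at h
  exact h.symm

/-- The transport of special isometries. -/
def psi (e : F →+* ZMod 3) (e' : ZMod 3 → F) (he : ∀ x, e (e' x) = x) :
    Cfsg.specialIsometryGroup F (Cfsg.quadFormOdd 1 F) →*
      Cfsg.specialIsometryGroup (ZMod 3) (Cfsg.quadFormOdd 1 (ZMod 3)) :=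
  ((psi0 e e' he).comp (Cfsg.specialIsometryGroup F (Cfsg.quadFormOdd 1 F)).subtype).codRestrict _
    (psi0_mem e e' he)

theorem psi_inj (e : F →+* ZMod 3) (e' : ZMod 3 → F) (he : ∀ x, e (e' x) = x) :
    Function.Injective (psi e e' he) := by
  intro a b hab
  apply Subtype.ext
  apply psi0_inj e e' he
  exact congrArg Subtype.val hab

theorem main (hF : Fintype.card F = 3) :
    Nonempty (↥(Cfsg.specialIsometryGroup F (Cfsg.quadFormOdd 1 F)) ≃* Equiv.Perm (Fin 4)) := by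
  haveI : Fact (Nat.Prime 3) := ⟨Nat.prime_three⟩
  obtain ⟨e0⟩ : Nonempty (F ≃+* ZMod 3) := by
    have h3 : ringChar F = 3 := by
      have hp : (ringChar F).Prime := CharP.char_is_prime F (ringChar F)
      have hdvd : ringChar F ∣ 3 := by
        rw [← CharP.cast_eq_zero_iff F (ringChar F) 3, ← hF]
        exact Nat.cast_card_eq_zero F
      exact (Nat.prime_dvd_prime_iff_eq hp Nat.prime_three).mp hdvd
    have : CharP F 3 := h3 ▸ ringChar.charP F
    exact ⟨(ZMod.ringEquivOfPrime F Nat.prime_three hF).symm⟩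
  have hb : Function.Bijective (psi (e0 : F →+* ZMod 3) e0.symm (fun x => e0.apply_symm_apply x)) := by
    apply Function.Injective.bijective_of_nat_card_le (psi_inj _ _ _)
    rw [card_SO (ZMod.card 3), card_SO hF]
  have hphi : Function.Bijective phi := by
    apply Function.Injective.bijective_of_nat_card_le phi_inj
    rw [card_SO (ZMod.card 3), Nat.card_eq_fintype_card, Fintype.card_perm, Fintype.card_fin]
    decide
  exact ⟨(MulEquiv.ofBijective _ hb).trans (MulEquiv.ofBijective phi hphi).symm⟩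

end Card



/-- SO_3(3) ≅ S_4: the determinant-one isometries of the form x_0² + x_1y_1 over the field with 3 elements form a group isomorphic to the symmetric group on 4 letters. -/
theorem result {F : Type*} [Field F] [Fintype F] (hF : Fintype.card F = 3) : Nonempty (↥(Cfsg.specialIsometryGroup F (Cfsg.quadFormOdd 1 F)) ≃* Equiv.Perm (Fin 4)) := by
  exact main hF

end Cfsg.Agent.S0823
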