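import Cfsg.Statements.S5690
import Mathlib
import Cfsg.Agent.S5676
import Cfsg.Agent.Lib_helper4_OOdd
import Cfsg.Agent.Lib_helper4_Transv

set_option autoImplicit false
open Cfsg

namespace Cfsg.Agent.S5690

open Matrix
open Cfsg.Agent.Lib_helper4_Quad Cfsg.Agent.Lib_helper4_Quad2 Cfsg.Agent.Lib_helper4_Orth
open Cfsg.Agent.S5676
open scoped commutatorElement

section Generic
variable {ι : Type} [Fintype ι] [DecidableEq ι] {F : Type*} [Field F]

/-- The quadratic form structure on a function satisfying the prelude's predicate. -/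
noncomputable def mkQ (Q : (ι → F) → F) (hQ : Cfsg.Geo.IsNondegenerateQuadraticForm Q) :
    QuadraticForm F (ι → F) where
  toFun := Q
  toFun_smul := fun a x => by rw [hQ.smul, smul_eq_mul, pow_two]
  exists_companion' := ⟨LinearMap.mk₂ F (QuadraticMap.polar Q) hQ.polar_bilinear.add_left
      (fun c x v => by rw [hQ.polar_bilinear.smul_left, smul_eq_mul])
      hQ.polar_bilinear.add_right
      (fun c v x => by rw [hQ.polar_bilinear.smul_right, smul_eq_mul]), fun x y => by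
        rw [LinearMap.mk₂_apply, QuadraticMap.polar]; ring⟩

theorem coe_mkQ (Q : (ι → F) → F) (hQ : Cfsg.Geo.IsNondegenerateQuadraticForm Q) :
    ⇑(mkQ Q hQ) = Q := rfl

theorem exists_perp (Q : QuadraticForm F (ι → F)) (k : ℕ) (hk : k < Fintype.card ι)
    (v : Fin k → ι → F) : ∃ x : ι → F, x ≠ 0 ∧ ∀ i, QuadraticMap.polar ⇑Q (v i) x = 0 := by
  let L : (ι → F) →ₗ[F] (Fin k → F) := LinearMap.pi (fun i => QuadraticMap.polarBilin Q (v i))
  have hker : LinearMap.ker L ≠ ⊥ := by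
    apply LinearMap.ker_ne_bot_of_finrank_lt
    rw [Module.finrank_fin_fun, Module.finrank_fintype_fun_eq_card]
    exact hk
  obtain ⟨x, hx, hx0⟩ := Submodule.exists_mem_ne_zero_of_ne_bot hker
  refine ⟨x, hx0, fun i => ?_⟩
  have h1 := congrFun (LinearMap.mem_ker.1 hx) i
  exact h1

/-- Projection to the orthogonal complement of a hyperbolic pair. -/
theorem exists_proj (Q : QuadraticForm F (ι → F)) (e f : ι → F) (he : Q e = 0) (hf : Q f = 0)
    (hef : QuadraticMap.polar ⇑Q e f = 1) (x : ι → F) :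
    ∃ x' : ι → F, QuadraticMap.polar ⇑Q e x' = 0 ∧ QuadraticMap.polar ⇑Q f x' = 0 ∧
      ∀ y, QuadraticMap.polar ⇑Q e y = 0 → QuadraticMap.polar ⇑Q f y = 0 →
        QuadraticMap.polar ⇑Q y x' = QuadraticMap.polar ⇑Q y x := by
  have hfe : QuadraticMap.polar ⇑Q f e = 1 := by rw [QuadraticMap.polar_comm, hef]
  have hee : QuadraticMap.polar ⇑Q e e = 0 := by rw [polar_self', he, mul_zero]
  have hff : QuadraticMap.polar ⇑Q f f = 0 := by rw [polar_self', hf, mul_zero]
  refine ⟨x - QuadraticMap.polar ⇑Q f x • e - QuadraticMap.polar ⇑Q e x • f, ?_, ?_, ?_⟩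
  · rw [QuadraticMap.polar_sub_right, QuadraticMap.polar_sub_right, QuadraticMap.polar_smul_right,
      QuadraticMap.polar_smul_right, hee, hef]
    simp
  · rw [QuadraticMap.polar_sub_right, QuadraticMap.polar_sub_right, QuadraticMap.polar_smul_right,
      QuadraticMap.polar_smul_right, hfe, hff]
    simp
  · intro y hey hfy
    rw [QuadraticMap.polar_sub_right, QuadraticMap.polar_sub_right, QuadraticMap.polar_smul_right,
      QuadraticMap.polar_smul_right, QuadraticMap.polar_comm (⇑Q) y e,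
      QuadraticMap.polar_comm (⇑Q) y f, hey, hfy]
    simp

theorem exists_sing3 (Q : QuadraticForm F (ι → F)) (h3 : (3 : F) = 0)
    (hF : ∀ x : F, x ≠ 0 → x = 1 ∨ x = -1) (hcard : 5 ≤ Fintype.card ι) (e f : ι → F) :
    ∃ y : ι → F, y ≠ 0 ∧ Q y = 0 ∧ QuadraticMap.polar ⇑Q e y = 0 ∧
      QuadraticMap.polar ⇑Q f y = 0 := by
  have h2 : (2 : F) ≠ 0 := by
    intro h
    have h1 : (1 : F) = 0 := by linear_combination h3 - h
    exact one_ne_zero h1
  obtain ⟨a, ha0, ha⟩ := exists_perp Q 2 (by omega) ![e, f]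
  have hea : QuadraticMap.polar ⇑Q e a = 0 := ha 0
  have hfa : QuadraticMap.polar ⇑Q f a = 0 := ha 1
  by_cases hQa : Q a = 0
  · exact ⟨a, ha0, hQa, hea, hfa⟩
  obtain ⟨b, hb0, hb⟩ := exists_perp Q 3 (by omega) ![e, f, a]
  have heb : QuadraticMap.polar ⇑Q e b = 0 := hb 0
  have hfb : QuadraticMap.polar ⇑Q f b = 0 := hb 1
  have hab : QuadraticMap.polar ⇑Q a b = 0 := hb 2
  by_cases hQb : Q b = 0
  · exact ⟨b, hb0, hQb, heb, hfb⟩
  obtain ⟨c, hc0, hc⟩ := exists_perp Q 4 (by omega) ![e, f, a, b]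
  have hec : QuadraticMap.polar ⇑Q e c = 0 := hc 0
  have hfc : QuadraticMap.polar ⇑Q f c = 0 := hc 1
  have hac : QuadraticMap.polar ⇑Q a c = 0 := hc 2
  have hbc : QuadraticMap.polar ⇑Q b c = 0 := hc 3
  by_cases hQc : Q c = 0
  · exact ⟨c, hc0, hQc, hec, hfc⟩
  have key : ∀ s t : ι → F, Q s ≠ 0 → QuadraticMap.polar ⇑Q s t = 0 → Q s + Q t = 0 →
      QuadraticMap.polar ⇑Q e s = 0 → QuadraticMap.polar ⇑Q f s = 0 →
      QuadraticMap.polar ⇑Q e t = 0 → QuadraticMap.polar ⇑Q f t = 0 →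
      ∃ y : ι → F, y ≠ 0 ∧ Q y = 0 ∧ QuadraticMap.polar ⇑Q e y = 0 ∧
        QuadraticMap.polar ⇑Q f y = 0 := by
    intro s t hs hst hsum hes hfs het hft
    refine ⟨s + t, ?_, ?_, ?_, ?_⟩
    · intro h0
      have h1 : QuadraticMap.polar ⇑Q s (s + t) = 2 * Q s := by
        rw [QuadraticMap.polar_add_right, polar_self', hst, add_zero]
      rw [h0, QuadraticMap.polar_zero_right] at h1
      exact mul_ne_zero h2 hs h1.symm
    · rw [QuadraticMap.map_add (⇑Q) s t, hst, add_zero, hsum]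
    · rw [QuadraticMap.polar_add_right, hes, het, add_zero]
    · rw [QuadraticMap.polar_add_right, hfs, hft, add_zero]
  by_cases hsab : Q a + Q b = 0
  · exact key a b hQa hab hsab hea hfa heb hfb
  by_cases hsac : Q a + Q c = 0
  · exact key a c hQa hac hsac hea hfa hec hfc
  have hQab : Q b = Q a := by
    rcases hF _ hQa with h | h <;> rcases hF _ hQb with h' | h'
    · rw [h, h']
    · exact absurd (by rw [h, h']; ring) hsab
    · exact absurd (by rw [h, h']; ring) hsab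
    · rw [h, h']
  have hQac : Q c = Q a := by
    rcases hF _ hQa with h | h <;> rcases hF _ hQc with h' | h'
    · rw [h, h']
    · exact absurd (by rw [h, h']; ring) hsac
    · exact absurd (by rw [h, h']; ring) hsac
    · rw [h, h']
  refine ⟨a + b + c, ?_, ?_, ?_, ?_⟩
  · intro h0
    have h1 : QuadraticMap.polar ⇑Q a (a + b + c) = 2 * Q a := by
      rw [QuadraticMap.polar_add_right, QuadraticMap.polar_add_right, polar_self', hab, hac,
        add_zero, add_zero]
    rw [h0, QuadraticMap.polar_zero_right] at h1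
    exact mul_ne_zero h2 hQa h1.symm
  · rw [QuadraticMap.map_add (⇑Q) (a + b) c, QuadraticMap.map_add (⇑Q) a b,
      QuadraticMap.polar_add_left, hab, hac, hbc, hQab, hQac]
    linear_combination Q a * h3
  · rw [QuadraticMap.polar_add_right, QuadraticMap.polar_add_right, hea, heb, hec, add_zero,
      add_zero]
  · rw [QuadraticMap.polar_add_right, QuadraticMap.polar_add_right, hfa, hfb, hfc, add_zero,
      add_zero]

theorem exists_sing2 (Q : QuadraticForm F (ι → F)) (h2 : (2 : F) = 0)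
    (hF : ∀ x : F, x ≠ 0 → x = 1)
    (hnd : ∀ v : ι → F, v ≠ 0 → ∃ x, QuadraticMap.polar ⇑Q v x ≠ 0)
    (hcard : 5 ≤ Fintype.card ι) (e f : ι → F) (he : Q e = 0) (hf : Q f = 0)
    (hef : QuadraticMap.polar ⇑Q e f = 1) :
    ∃ y : ι → F, y ≠ 0 ∧ Q y = 0 ∧ QuadraticMap.polar ⇑Q e y = 0 ∧
      QuadraticMap.polar ⇑Q f y = 0 := by
  obtain ⟨a, ha0, ha⟩ := exists_perp Q 2 (by omega) ![e, f]
  have hea : QuadraticMap.polar ⇑Q e a = 0 := ha 0
  have hfa : QuadraticMap.polar ⇑Q f a = 0 := ha 1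
  by_cases hQa : Q a = 0
  · exact ⟨a, ha0, hQa, hea, hfa⟩
  obtain ⟨x, hx⟩ := hnd a ha0
  obtain ⟨b, heb, hfb, hb⟩ := exists_proj Q e f he hf hef x
  have hab : QuadraticMap.polar ⇑Q a b = 1 := by
    rw [hb a hea hfa]
    exact hF _ hx
  by_cases hQb : Q b = 0
  · refine ⟨b, ?_, hQb, heb, hfb⟩
    rintro rfl
    rw [QuadraticMap.polar_zero_right] at hab
    exact zero_ne_one hab
  obtain ⟨c, hc0, hc⟩ := exists_perp Q 4 (by omega) ![e, f, a, b]
  have hec : QuadraticMap.polar ⇑Q e c = 0 := hc 0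
  have hfc : QuadraticMap.polar ⇑Q f c = 0 := hc 1
  have hac : QuadraticMap.polar ⇑Q a c = 0 := hc 2
  have hbc : QuadraticMap.polar ⇑Q b c = 0 := hc 3
  by_cases hQc : Q c = 0
  · exact ⟨c, hc0, hQc, hec, hfc⟩
  refine ⟨a + c, ?_, ?_, ?_, ?_⟩
  · intro h0
    have h1 : QuadraticMap.polar ⇑Q (a + c) b = 1 := by
      rw [QuadraticMap.polar_add_left, hab, QuadraticMap.polar_comm (⇑Q) c b, hbc, add_zero]
    rw [h0, QuadraticMap.polar_zero_left] at h1
    exact zero_ne_one h1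
  · rw [QuadraticMap.map_add (⇑Q) a c, hac, hF _ hQa, hF _ hQc]
    linear_combination h2
  · rw [QuadraticMap.polar_add_right, hea, hec, add_zero]
  · rw [QuadraticMap.polar_add_right, hfa, hfc, add_zero]

theorem exists_partner (Q : QuadraticForm F (ι → F))
    (hnd : ∀ v : ι → F, v ≠ 0 → ∃ x, QuadraticMap.polar ⇑Q v x ≠ 0)
    (e f : ι → F) (he : Q e = 0) (hf : Q f = 0) (hef : QuadraticMap.polar ⇑Q e f = 1)
    (y : ι → F) (hy0 : y ≠ 0) (hy : Q y = 0) (hey : QuadraticMap.polar ⇑Q e y = 0)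
    (hfy : QuadraticMap.polar ⇑Q f y = 0) :
    ∃ y' : ι → F, Q y' = 0 ∧ QuadraticMap.polar ⇑Q y y' = 1 ∧
      QuadraticMap.polar ⇑Q e y' = 0 ∧ QuadraticMap.polar ⇑Q f y' = 0 := by
  obtain ⟨x₀, hx₀⟩ := hnd y hy0
  obtain ⟨x, hex, hfx, hx⟩ := exists_proj Q e f he hf hef x₀
  have hyx : QuadraticMap.polar ⇑Q y x ≠ 0 := by
    rw [hx y hey hfy]
    exact hx₀
  refine ⟨(QuadraticMap.polar ⇑Q y x)⁻¹ • x +
      (-((QuadraticMap.polar ⇑Q y x)⁻¹ * (QuadraticMap.polar ⇑Q y x)⁻¹ * Q x)) • y, ?_, ?_, ?_, ?_⟩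
  · rw [quad_add_smul, QuadraticMap.map_smul, hy, QuadraticMap.polar_smul_left,
      QuadraticMap.polar_comm (⇑Q) x y, smul_eq_mul, smul_eq_mul]
    field_simp
    ring
  · rw [QuadraticMap.polar_add_right, QuadraticMap.polar_smul_right,
      QuadraticMap.polar_smul_right, polar_self', hy, smul_eq_mul, smul_eq_mul,
      inv_mul_cancel₀ hyx]
    ring
  · rw [QuadraticMap.polar_add_right, QuadraticMap.polar_smul_right,
      QuadraticMap.polar_smul_right, hex, hey]
    simp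
  · rw [QuadraticMap.polar_add_right, QuadraticMap.polar_smul_right,
      QuadraticMap.polar_smul_right, hfx, hfy]
    simp

end Generic
section Generic2
variable {ι : Type} [Fintype ι] [DecidableEq ι] {F : Type*} [Field F]

theorem exists_omega2 (Q : QuadraticForm F (ι → F)) (h2 : (2 : F) = 0) (u z : ι → F)
    (hu : Q u = 1) (hz : Q z = 1) (huz : QuadraticMap.polar ⇑Q u z = 1) :
    ∃ ω : Matrix.GeneralLinearGroup ι F, ω ∈ Cfsg.Geo.omegaGL ⇑Q ∧
      ∀ x, ω.val *ᵥ x = x + QuadraticMap.polar ⇑Q u x • u +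
        (QuadraticMap.polar ⇑Q u x + QuadraticMap.polar ⇑Q z x) • z := by
  have hu0 : Q u ≠ 0 := by rw [hu]; exact one_ne_zero
  have hz0 : Q z ≠ 0 := by rw [hz]; exact one_ne_zero
  have hainv : (rf Q u hu0)⁻¹ = rf Q u hu0 := inv_eq_of_mul_eq_one_right (rf_mul_self Q u hu0)
  have hbinv : (rf Q z hz0)⁻¹ = rf Q z hz0 := inv_eq_of_mul_eq_one_right (rf_mul_self Q z hz0)
  have hcomm : ⁅rf Q u hu0, rf Q z hz0⁆ = rf Q u hu0 * rf Q z hz0 * rf Q u hu0 * rf Q z hz0 := by
    rw [commutatorElement_def, hainv, hbinv]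
  have hact : ∀ x, ((⁅rf Q u hu0, rf Q z hz0⁆ : Cfsg.isometryGroup F ⇑Q) :
      Matrix.GeneralLinearGroup ι F).val *ᵥ x =
      Cfsg.reflectionMatrix ⇑Q u *ᵥ (Cfsg.reflectionMatrix ⇑Q z *ᵥ
        (Cfsg.reflectionMatrix ⇑Q u *ᵥ (Cfsg.reflectionMatrix ⇑Q z *ᵥ x))) := by
    intro x
    rw [hcomm, coe_mul_mulVec, coe_mul_mulVec, coe_mul_mulVec]
    rfl
  have hA : ∀ x, Cfsg.reflectionMatrix ⇑Q u *ᵥ x = x - QuadraticMap.polar ⇑Q u x • u := by
    intro x
    rw [reflection_mulVec, hu, inv_one, one_mul]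
  have hB : ∀ x, Cfsg.reflectionMatrix ⇑Q z *ᵥ x = x - QuadraticMap.polar ⇑Q z x • z := by
    intro x
    rw [reflection_mulVec, hz, inv_one, one_mul]
  have hzu : QuadraticMap.polar ⇑Q z u = 1 := by rw [QuadraticMap.polar_comm, huz]
  have huu : QuadraticMap.polar ⇑Q u u = 0 := by rw [polar_self', h2, zero_mul]
  have hzz : QuadraticMap.polar ⇑Q z z = 0 := by rw [polar_self', h2, zero_mul]
  have hAu : Cfsg.reflectionMatrix ⇑Q u *ᵥ u = u := by rw [hA, huu, zero_smul, sub_zero]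
  have hAz : Cfsg.reflectionMatrix ⇑Q u *ᵥ z = z - u := by rw [hA, huz, one_smul]
  have hBu : Cfsg.reflectionMatrix ⇑Q z *ᵥ u = u - z := by rw [hB, hzu, one_smul]
  have hBz : Cfsg.reflectionMatrix ⇑Q z *ᵥ z = z := by rw [hB, hzz, zero_smul, sub_zero]
  refine ⟨((⁅rf Q u hu0, rf Q z hz0⁆ : Cfsg.isometryGroup F ⇑Q) :
      Matrix.GeneralLinearGroup ι F), ?_, ?_⟩
  · refine ⟨⁅rf Q u hu0, rf Q z hz0⁆, ?_, rfl⟩
    show ⁅rf Q u hu0, rf Q z hz0⁆ ∈ commutator (Cfsg.isometryGroup F ⇑Q)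
    rw [commutator_def]
    exact Subgroup.commutator_mem_commutator (Subgroup.mem_top _) (Subgroup.mem_top _)
  · intro x
    have s1 : Cfsg.reflectionMatrix ⇑Q u *ᵥ (Cfsg.reflectionMatrix ⇑Q z *ᵥ x) =
        x - QuadraticMap.polar ⇑Q u x • u - QuadraticMap.polar ⇑Q z x • (z - u) := by
      rw [hB x, Matrix.mulVec_sub, Matrix.mulVec_smul, hA x, hAz]
    have s2 : Cfsg.reflectionMatrix ⇑Q z *ᵥ (Cfsg.reflectionMatrix ⇑Q u *ᵥ
        (Cfsg.reflectionMatrix ⇑Q z *ᵥ x)) =
        x - QuadraticMap.polar ⇑Q z x • z - QuadraticMap.polar ⇑Q u x • (u - z) -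
          QuadraticMap.polar ⇑Q z x • (z - (u - z)) := by
      rw [s1, Matrix.mulVec_sub, Matrix.mulVec_sub, Matrix.mulVec_smul, Matrix.mulVec_smul,
        Matrix.mulVec_sub, hB x, hBu, hBz]
    rw [hact, s2, Matrix.mulVec_sub, Matrix.mulVec_sub, Matrix.mulVec_sub, Matrix.mulVec_smul,
      Matrix.mulVec_smul, Matrix.mulVec_smul, Matrix.mulVec_sub, Matrix.mulVec_sub,
      Matrix.mulVec_sub, hA x, hAu, hAz]
    calc _ = x + QuadraticMap.polar ⇑Q u x • u +
          (QuadraticMap.polar ⇑Q u x + QuadraticMap.polar ⇑Q z x) • z -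
          (2 : F) • ((2 * QuadraticMap.polar ⇑Q u x - 2 * QuadraticMap.polar ⇑Q z x) • u +
            (2 * QuadraticMap.polar ⇑Q z x) • z) := by module
      _ = _ := by rw [h2, zero_smul, sub_zero]

theorem stabW_le (Q : QuadraticForm F (ι → F)) (W : Submodule F (ι → F)) (e f : ι → F)
    (heW : e ∈ W) (hfW : f ∈ W) (he : Q e = 0) (hf : Q f = 0)
    (hef : QuadraticMap.polar ⇑Q e f = 1) (hspan : ∀ x ∈ W, ∃ α β : F, x = α • e + β • f)
    (hF : ∀ α β : F, α * β = 1 → α = β) :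
    Cfsg.Geo.subspaceStabilizer W ⊓ Cfsg.Geo.omegaGL ⇑Q ≤
      Cfsg.Geo.subspaceStabilizer (Submodule.span F {e + f}) ⊓ Cfsg.Geo.omegaGL ⇑Q := by
  intro g hg
  obtain ⟨hgW, hgΩ⟩ := Subgroup.mem_inf.1 hg
  refine Subgroup.mem_inf.2 ⟨?_, hgΩ⟩
  have hgiso : g ∈ Cfsg.isometryGroup F ⇑Q := by
    obtain ⟨x, -, rfl⟩ := hgΩ
    exact x.2
  have hp : Q (e + f) = 1 := by
    rw [QuadraticMap.map_add (⇑Q) e f, he, hf, hef]
    ring
  have h1 : g.val *ᵥ (e + f) ∈ W :=
    ((Cfsg.Agent.Lib_helper4_Transv.mem_subspaceStabilizer_iff g W).1 hgW (e + f)).1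
      (W.add_mem heW hfW)
  obtain ⟨α, β, hαβ⟩ := hspan _ h1
  have h2 : Q (g.val *ᵥ (e + f)) = 1 := by
    rw [(mem_isometryGroup_iff _ g).1 hgiso, hp]
  have h4 : α * β = 1 := by
    rw [hαβ, QuadraticMap.map_add (⇑Q), QuadraticMap.map_smul, QuadraticMap.map_smul, he, hf,
      QuadraticMap.polar_smul_left, QuadraticMap.polar_smul_right, hef] at h2
    simpa using h2
  have hβ : β ≠ 0 := by
    rintro rfl
    rw [mul_zero] at h4
    exact zero_ne_one h4
  exact stab_span_of_smul g (e + f) β hβ (by rw [hαβ, hF α β h4, smul_add])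

theorem eq_zero_of_mem (Q : QuadraticForm F (ι → F)) (W : Submodule F (ι → F)) (e f : ι → F)
    (he : Q e = 0) (hf : Q f = 0)
    (hef : QuadraticMap.polar ⇑Q e f = 1) (hspan : ∀ x ∈ W, ∃ α β : F, x = α • e + β • f)
    (w : ι → F) (hw : w ∈ W) (hew : QuadraticMap.polar ⇑Q e w = 0)
    (hfw : QuadraticMap.polar ⇑Q f w = 0) : w = 0 := by
  have hfe : QuadraticMap.polar ⇑Q f e = 1 := by rw [QuadraticMap.polar_comm, hef]
  have hee : QuadraticMap.polar ⇑Q e e = 0 := by rw [polar_self', he, mul_zero]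
  have hff : QuadraticMap.polar ⇑Q f f = 0 := by rw [polar_self', hf, mul_zero]
  obtain ⟨α, β, hαβ⟩ := hspan w hw
  have h1 : QuadraticMap.polar ⇑Q e w = β := by
    rw [hαβ, QuadraticMap.polar_add_right, QuadraticMap.polar_smul_right,
      QuadraticMap.polar_smul_right, hee, hef]
    simp
  have h2 : QuadraticMap.polar ⇑Q f w = α := by
    rw [hαβ, QuadraticMap.polar_add_right, QuadraticMap.polar_smul_right,
      QuadraticMap.polar_smul_right, hfe, hff]
    simp
  rw [hew] at h1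
  rw [hfw] at h2
  rw [hαβ, ← h1, ← h2, zero_smul, zero_smul, add_zero]

theorem main3 (Q : QuadraticForm F (ι → F)) (h3 : (3 : F) = 0)
    (hF : ∀ α β : F, α * β = 1 → α = β) (W : Submodule F (ι → F)) (e f : ι → F)
    (heW : e ∈ W) (hfW : f ∈ W) (he : Q e = 0) (hf : Q f = 0)
    (hef : QuadraticMap.polar ⇑Q e f = 1) (hspan : ∀ x ∈ W, ∃ α β : F, x = α • e + β • f)
    (y : ι → F) (hy0 : y ≠ 0) (hy : Q y = 0) (hey : QuadraticMap.polar ⇑Q e y = 0)
    (hfy : QuadraticMap.polar ⇑Q f y = 0) :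
    ∃ K : Subgroup (Matrix.GeneralLinearGroup ι F),
      Cfsg.Geo.subspaceStabilizer W ⊓ Cfsg.Geo.omegaGL ⇑Q < K ∧ K < Cfsg.Geo.omegaGL ⇑Q := by
  have hfe : QuadraticMap.polar ⇑Q f e = 1 := by rw [QuadraticMap.polar_comm, hef]
  have hee : QuadraticMap.polar ⇑Q e e = 0 := by rw [polar_self', he, mul_zero]
  have hff : QuadraticMap.polar ⇑Q f f = 0 := by rw [polar_self', hf, mul_zero]
  have hp : Q (e + f) = 1 := by
    rw [QuadraticMap.map_add (⇑Q) e f, he, hf, hef]
    ring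
  have hw : Q (e - f) = -1 := by
    have : e - f = e + (-1 : F) • f := by module
    rw [this, quad_add_smul, he, hf, hef]
    ring
  have hyW : y ∉ W := fun h => hy0 (eq_zero_of_mem Q W e f he hf hef hspan y h hey hfy)
  obtain ⟨ω₁, hω₁m, hω₁w, hω₁fix⟩ := exists_omega Q h3 (e - f) y
    (by rw [hw]; exact neg_ne_zero.2 one_ne_zero) hy
    (by rw [QuadraticMap.polar_sub_left, hey, hfy, sub_zero])
  obtain ⟨ω₂, hω₂m, hω₂p, -⟩ := exists_omega Q h3 (e + f) y
    (by rw [hp]; exact one_ne_zero) hy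
    (by rw [QuadraticMap.polar_add_left, hey, hfy, add_zero])
  refine ⟨Cfsg.Geo.subspaceStabilizer (Submodule.span F {e + f}) ⊓ Cfsg.Geo.omegaGL ⇑Q,
    lt_of_le_of_ne (stabW_le Q W e f heW hfW he hf hef hspan hF) ?_,
    lt_of_le_of_ne inf_le_right ?_⟩
  · intro heq
    have hfixp : ω₁.val *ᵥ (e + f) = e + f := hω₁fix (e + f)
      (by
        rw [QuadraticMap.polar_sub_left, QuadraticMap.polar_add_right,
          QuadraticMap.polar_add_right, hee, hef, hfe, hff]
        ring)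
      (by rw [QuadraticMap.polar_comm, QuadraticMap.polar_add_left, hey, hfy, add_zero])
    have hmem : ω₁ ∈ Cfsg.Geo.subspaceStabilizer (Submodule.span F {e + f}) ⊓
        Cfsg.Geo.omegaGL ⇑Q :=
      Subgroup.mem_inf.2 ⟨stab_span_of_smul ω₁ (e + f) 1 one_ne_zero
        (by rw [hfixp, one_smul]), hω₁m⟩
    rw [← heq] at hmem
    have h5 := ((Cfsg.Agent.Lib_helper4_Transv.mem_subspaceStabilizer_iff ω₁ W).1
      (Subgroup.mem_inf.1 hmem).1 (e - f)).1 (W.sub_mem heW hfW)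
    rw [hω₁w] at h5
    apply hyW
    have h6 := W.sub_mem (W.sub_mem heW hfW) h5
    simpa using h6
  · intro heq
    have hmem : ω₂ ∈ Cfsg.Geo.subspaceStabilizer (Submodule.span F {e + f}) ⊓
        Cfsg.Geo.omegaGL ⇑Q := by
      rw [heq]
      exact hω₂m
    have h1 := ((Cfsg.Agent.Lib_helper4_Transv.mem_subspaceStabilizer_iff ω₂ _).1
      (Subgroup.mem_inf.1 hmem).1 (e + f)).1 (Submodule.mem_span_singleton_self _)
    rw [hω₂p] at h1
    apply hyW
    have h2 : e + f - y ∈ W :=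
      (Submodule.span_singleton_le_iff_mem _ _).2 (W.add_mem heW hfW) h1
    have h6 := W.sub_mem (W.add_mem heW hfW) h2
    simpa using h6

theorem main2 (Q : QuadraticForm F (ι → F)) (h2 : (2 : F) = 0)
    (hF : ∀ α β : F, α * β = 1 → α = β) (W : Submodule F (ι → F)) (e f : ι → F)
    (heW : e ∈ W) (hfW : f ∈ W) (he : Q e = 0) (hf : Q f = 0)
    (hef : QuadraticMap.polar ⇑Q e f = 1) (hspan : ∀ x ∈ W, ∃ α β : F, x = α • e + β • f)
    (y y' : ι → F) (hy : Q y = 0) (hy' : Q y' = 0) (hyy' : QuadraticMap.polar ⇑Q y y' = 1)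
    (hey : QuadraticMap.polar ⇑Q e y = 0) (hfy : QuadraticMap.polar ⇑Q f y = 0)
    (hey' : QuadraticMap.polar ⇑Q e y' = 0) (hfy' : QuadraticMap.polar ⇑Q f y' = 0) :
    ∃ K : Subgroup (Matrix.GeneralLinearGroup ι F),
      Cfsg.Geo.subspaceStabilizer W ⊓ Cfsg.Geo.omegaGL ⇑Q < K ∧ K < Cfsg.Geo.omegaGL ⇑Q := by
  have hfe : QuadraticMap.polar ⇑Q f e = 1 := by rw [QuadraticMap.polar_comm, hef]
  have hee : QuadraticMap.polar ⇑Q e e = 0 := by rw [polar_self', he, mul_zero]
  have hff : QuadraticMap.polar ⇑Q f f = 0 := by rw [polar_self', hf, mul_zero]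
  have hp : Q (e + f) = 1 := by
    rw [QuadraticMap.map_add (⇑Q) e f, he, hf, hef]
    ring
  have hpy : ∀ t, QuadraticMap.polar ⇑Q e t = 0 → QuadraticMap.polar ⇑Q f t = 0 →
      QuadraticMap.polar ⇑Q (e + f) t = 0 := by
    intro t h1 h2'
    rw [QuadraticMap.polar_add_left, h1, h2', add_zero]
  have hpp : QuadraticMap.polar ⇑Q (e + f) (e + f) = 0 := by rw [polar_self', h2, zero_mul]
  have hu₁ : Q (e + f + y') = 1 := by
    rw [QuadraticMap.map_add (⇑Q) (e + f) y', hp, hy', hpy y' hey' hfy']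
    ring
  have hz₁ : Q (e + f + y) = 1 := by
    rw [QuadraticMap.map_add (⇑Q) (e + f) y, hp, hy, hpy y hey hfy]
    ring
  have huz₁ : QuadraticMap.polar ⇑Q (e + f + y') (e + f + y) = 1 := by
    rw [QuadraticMap.polar_add_left Q (e + f) y' (e + f + y),
      QuadraticMap.polar_add_right Q (e + f) (e + f) y,
      QuadraticMap.polar_add_right Q y' (e + f) y,
      hpp, hpy y hey hfy, QuadraticMap.polar_comm (⇑Q) y' (e + f), hpy y' hey' hfy',
      QuadraticMap.polar_comm (⇑Q) y' y, hyy']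
    ring
  obtain ⟨ω₁, hω₁m, hω₁⟩ := exists_omega2 Q h2 _ _ hu₁ hz₁ huz₁
  have hyy : Q (y + y') = 1 := by
    rw [QuadraticMap.map_add (⇑Q) y y', hy, hy', hyy']
    ring
  have heyy : QuadraticMap.polar ⇑Q e (y + y') = 0 := by
    rw [QuadraticMap.polar_add_right, hey, hey', add_zero]
  have hfyy : QuadraticMap.polar ⇑Q f (y + y') = 0 := by
    rw [QuadraticMap.polar_add_right, hfy, hfy', add_zero]
  have hz₂ : Q (e + (y + y')) = 1 := by
    rw [QuadraticMap.map_add (⇑Q) e (y + y'), he, hyy, heyy]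
    ring
  have huz₂ : QuadraticMap.polar ⇑Q (e + f) (e + (y + y')) = 1 := by
    rw [QuadraticMap.polar_add_right, QuadraticMap.polar_add_left, hee, hfe,
      hpy (y + y') heyy hfyy]
    ring
  obtain ⟨ω₂, hω₂m, hω₂⟩ := exists_omega2 Q h2 _ _ hp hz₂ huz₂
  refine ⟨Cfsg.Geo.subspaceStabilizer (Submodule.span F {e + f}) ⊓ Cfsg.Geo.omegaGL ⇑Q,
    lt_of_le_of_ne (stabW_le Q W e f heW hfW he hf hef hspan hF) ?_,
    lt_of_le_of_ne inf_le_right ?_⟩
  · intro heq
    have hfix : ω₁.val *ᵥ (e + f) = e + f := by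
      rw [hω₁, QuadraticMap.polar_comm (⇑Q) (e + f + y') (e + f),
        QuadraticMap.polar_add_right Q (e + f) (e + f) y',
        hpp, hpy y' hey' hfy', QuadraticMap.polar_comm (⇑Q) (e + f + y) (e + f),
        QuadraticMap.polar_add_right Q (e + f) (e + f) y, hpp, hpy y hey hfy]
      simp
    have hmem : ω₁ ∈ Cfsg.Geo.subspaceStabilizer (Submodule.span F {e + f}) ⊓
        Cfsg.Geo.omegaGL ⇑Q :=
      Subgroup.mem_inf.2 ⟨stab_span_of_smul ω₁ (e + f) 1 one_ne_zero
        (by rw [hfix, one_smul]), hω₁m⟩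
    rw [← heq] at hmem
    have h5 := ((Cfsg.Agent.Lib_helper4_Transv.mem_subspaceStabilizer_iff ω₁ W).1
      (Subgroup.mem_inf.1 hmem).1 e).1 heW
    have hpu : QuadraticMap.polar ⇑Q (e + f + y') e = 1 := by
      rw [QuadraticMap.polar_add_left, QuadraticMap.polar_add_left, hee, hfe,
        QuadraticMap.polar_comm (⇑Q) y' e, hey']
      ring
    have hpz : QuadraticMap.polar ⇑Q (e + f + y) e = 1 := by
      rw [QuadraticMap.polar_add_left, QuadraticMap.polar_add_left, hee, hfe,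
        QuadraticMap.polar_comm (⇑Q) y e, hey]
      ring
    rw [hω₁, hpu, hpz] at h5
    have h6 : y' ∈ W := by
      have h7 : e + (1 : F) • (e + f + y') + ((1 : F) + 1) • (e + f + y) =
          y' + f + (2 : F) • (e + (e + f + y)) := by module
      rw [h7, h2, zero_smul, add_zero] at h5
      have h8 := W.sub_mem h5 hfW
      simpa using h8
    have h9 := eq_zero_of_mem Q W e f he hf hef hspan y' h6 hey' hfy'
    rw [h9, QuadraticMap.polar_zero_right] at hyy'
    exact zero_ne_one hyy'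
  · intro heq
    have hmem : ω₂ ∈ Cfsg.Geo.subspaceStabilizer (Submodule.span F {e + f}) ⊓
        Cfsg.Geo.omegaGL ⇑Q := by
      rw [heq]
      exact hω₂m
    have h1 := ((Cfsg.Agent.Lib_helper4_Transv.mem_subspaceStabilizer_iff ω₂ _).1
      (Subgroup.mem_inf.1 hmem).1 (e + f)).1 (Submodule.mem_span_singleton_self _)
    rw [hω₂, hpp, QuadraticMap.polar_comm (⇑Q) (e + (y + y')) (e + f), huz₂] at h1
    have h2' : (e + f) + (0 : F) • (e + f) + ((0 : F) + 1) • (e + (y + y')) ∈ W :=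
      (Submodule.span_singleton_le_iff_mem _ _).2 (W.add_mem heW hfW) h1
    have h6 : y + y' ∈ W := by
      have h7 : (e + f) + (0 : F) • (e + f) + ((0 : F) + 1) • (e + (y + y')) =
          (y + y') + f + (2 : F) • e := by module
      rw [h7, h2, zero_smul, add_zero] at h2'
      have h8 := W.sub_mem h2' hfW
      simpa using h8
    have h9 := eq_zero_of_mem Q W e f he hf hef hspan (y + y') h6 heyy hfyy
    rw [h9, QuadraticMap.map_zero] at hyy
    exact zero_ne_one hyy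

end Generic2

/-- Let F be a finite field with q elements, n ≥ 13 even, Q a non-degenerate quadratic form on F^n (of either type), and Ω the commutator subgroup of the isometry group of Q, viewed inside GL_n(F). Suppose q ≤ 3 and W is a plane on which the polar form is non-degenerate and which contains a line on which Q vanishes. Then the elements of Ω stabilising W form a subgroup that is not maximal: some subgroup lies strictly between it and Ω. -/
theorem result {F : Type*} [Field F] [Fintype F] {n : ℕ} (hn : 13 ≤ n) (heven : Even n) (Q : (Fin n → F) → F) (hQ : Cfsg.Geo.IsNondegenerateQuadraticForm Q) (hq : Fintype.card F ≤ 3) (W : Submodule F (Fin n → F)) (hdim : Module.finrank F W = 2) (hW : Cfsg.Geo.IsNondegenerateOn (QuadraticMap.polar Q) W) (hWp : Cfsg.Geo.IsPlusTypeOn Q W) : ∃ K : Subgroup (Matrix.GeneralLinearGroup (Fin n) F), Cfsg.Geo.subspaceStabilizer W ⊓ Cfsg.Geo.omegaGL Q < K ∧ K < Cfsg.Geo.omegaGL Q := by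
  classical
  have hnd : ∀ v : Fin n → F, v ≠ 0 → ∃ x, QuadraticMap.polar ⇑(mkQ Q hQ) v x ≠ 0 :=
    fun v hv => (hQ.nondegenerate v hv).2
  obtain ⟨e, f, heW, hfW, he, hf, hef, hspan⟩ := exists_hyp (mkQ Q hQ) W hdim hW hWp
  have hcard : 5 ≤ Fintype.card (Fin n) := by
    rw [Fintype.card_fin]
    omega
  have h1 : 1 < Fintype.card F := Fintype.one_lt_card
  have hq' : Fintype.card F = 2 ∨ Fintype.card F = 3 := by omega
  have key : ∃ K : Subgroup (Matrix.GeneralLinearGroup (Fin n) F),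
      Cfsg.Geo.subspaceStabilizer W ⊓ Cfsg.Geo.omegaGL ⇑(mkQ Q hQ) < K ∧
        K < Cfsg.Geo.omegaGL ⇑(mkQ Q hQ) := by
    rcases hq' with hq2 | hq3
    · have h2 : (2 : F) = 0 := by
        have h0 := FiniteField.cast_card_eq_zero F
        rw [hq2] at h0
        exact_mod_cast h0
      have hF1 : ∀ x : F, x ≠ 0 → x = 1 := by
        intro x hx
        have h := FiniteField.pow_card_sub_one_eq_one x hx
        rw [hq2] at h
        simpa using h
      obtain ⟨y, hy0, hy, hey, hfy⟩ := exists_sing2 (mkQ Q hQ) h2 hF1 hnd hcard e f he hf hef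
      obtain ⟨y', hy', hyy', hey', hfy'⟩ :=
        exists_partner (mkQ Q hQ) hnd e f he hf hef y hy0 hy hey hfy
      refine main2 (mkQ Q hQ) h2 ?_ W e f heW hfW he hf hef hspan y y' hy hy' hyy' hey hfy
        hey' hfy'
      intro α β hαβ
      have hα : α ≠ 0 := by
        rintro rfl
        rw [zero_mul] at hαβ
        exact zero_ne_one hαβ
      have hβ : β ≠ 0 := by
        rintro rfl
        rw [mul_zero] at hαβ
        exact zero_ne_one hαβ
      rw [hF1 α hα, hF1 β hβ]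
    · have h3 : (3 : F) = 0 := by
        have h0 := FiniteField.cast_card_eq_zero F
        rw [hq3] at h0
        exact_mod_cast h0
      have hsq : ∀ x : F, x ≠ 0 → x ^ 2 = 1 := by
        intro x hx
        have h := FiniteField.pow_card_sub_one_eq_one x hx
        rwa [hq3] at h
      have hF3 : ∀ x : F, x ≠ 0 → x = 1 ∨ x = -1 := by
        intro x hx
        have h : (x - 1) * (x + 1) = 0 := by linear_combination hsq x hx
        rcases mul_eq_zero.1 h with h | h
        · left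
          linear_combination h
        · right
          linear_combination h
      obtain ⟨y, hy0, hy, hey, hfy⟩ := exists_sing3 (mkQ Q hQ) h3 hF3 hcard e f
      refine main3 (mkQ Q hQ) h3 ?_ W e f heW hfW he hf hef hspan y hy0 hy hey hfy
      intro α β hαβ
      have hβ : β ≠ 0 := by
        rintro rfl
        rw [mul_zero] at hαβ
        exact zero_ne_one hαβ
      linear_combination β * hαβ - α * hsq β hβ
  exact key

end Cfsg.Agent.S5690
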