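import Cfsg.Statements.S5678
import Mathlib
import Cfsg.Agent.S5690
import Cfsg.Agent.Lib_helper4_OOdd

set_option autoImplicit false
open Cfsg

namespace Cfsg.Agent.S5678

open Matrix
open Cfsg.Agent.Lib_helper4_Quad Cfsg.Agent.Lib_helper4_Quad2 Cfsg.Agent.Lib_helper4_Orth
open Cfsg.Agent.S5676
open scoped commutatorElement

section Frame
variable {ι : Type} [Fintype ι] [DecidableEq ι] {F : Type*} [Field F]

/-- The subgroup of GL stabilising a set of vectors. -/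
def setStab (S : Set (ι → F)) : Subgroup (Matrix.GeneralLinearGroup ι F) where
  carrier := {g | ∀ v, g.val *ᵥ v ∈ S ↔ v ∈ S}
  mul_mem' := by
    intro a b ha hb v
    rw [Units.val_mul, ← Matrix.mulVec_mulVec, ha, hb]
  one_mem' := by
    intro v
    rw [Units.val_one, Matrix.one_mulVec]
  inv_mem' := by
    intro a ha v
    rw [← ha ((a⁻¹).val *ᵥ v), Matrix.mulVec_mulVec, ← Units.val_mul, mul_inv_cancel,
      Units.val_one, Matrix.one_mulVec]

theorem mem_setStab (S : Set (ι → F)) (g : Matrix.GeneralLinearGroup ι F) :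
    g ∈ setStab S ↔ ∀ v, g.val *ᵥ v ∈ S ↔ v ∈ S := Iff.rfl

theorem gl_inj (g : Matrix.GeneralLinearGroup ι F) (x y : ι → F)
    (h : g.val *ᵥ x = g.val *ᵥ y) : x = y := by
  have hinj : ∀ z, (g⁻¹).val *ᵥ (g.val *ᵥ z) = z := fun z => by
    rw [Matrix.mulVec_mulVec, ← Units.val_mul, inv_mul_cancel, Units.val_one, Matrix.one_mulVec]
  rw [← hinj x, h, hinj y]

/-- A product of two reflections in vectors conjugate under the isometry group lies in Ω. -/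
theorem rf_mul_rf_mem (Q : QuadraticForm F (ι → F)) (g : Cfsg.isometryGroup F ⇑Q) (a : ι → F)
    (ha : Q a ≠ 0) (b : ι → F) (hb : Q b ≠ 0)
    (hgab : g.val.val *ᵥ a = b) :
    ((rf Q a ha * rf Q b hb : Cfsg.isometryGroup F ⇑Q) : Matrix.GeneralLinearGroup ι F) ∈
      Cfsg.Geo.omegaGL ⇑Q := by
  have hginv : ∀ x, g.val.val *ᵥ ((g⁻¹).val.val *ᵥ x) = x := by
    intro x
    rw [← coe_mul_mulVec, mul_inv_cancel]
    exact Matrix.one_mulVec x
  have hconj : rf Q b hb = g * rf Q a ha * g⁻¹ := by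
    apply Subtype.ext
    apply Units.ext
    apply mat_ext
    intro x
    have hl : ((rf Q b hb : Matrix.GeneralLinearGroup ι F) : Matrix ι ι F) *ᵥ x =
        Cfsg.reflectionMatrix ⇑Q b *ᵥ x := rfl
    rw [hl, coe_mul_mulVec, coe_mul_mulVec, rf_apply, reflection_mulVec, reflection_mulVec,
      Matrix.mulVec_sub, Matrix.mulVec_smul, hginv, hgab]
    have h1 : Q b = Q a := by
      rw [← hgab]
      exact iso_apply ⇑Q g a
    have h2 : QuadraticMap.polar ⇑Q b x = QuadraticMap.polar ⇑Q a ((g⁻¹).val.val *ᵥ x) := by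
      rw [← iso_polar ⇑Q g a, hgab, hginv]
    rw [h1, h2]
  have hainv : (rf Q a ha)⁻¹ = rf Q a ha := inv_eq_of_mul_eq_one_right (rf_mul_self Q a ha)
  have hcomm : rf Q a ha * rf Q b hb = ⁅rf Q a ha, g⁆ := by
    rw [commutatorElement_def, hainv, hconj]
    group
  rw [hcomm]
  refine ⟨⁅rf Q a ha, g⁆, ?_, rfl⟩
  show ⁅rf Q a ha, g⁆ ∈ commutator (Cfsg.isometryGroup F ⇑Q)
  rw [commutator_def]
  exact Subgroup.commutator_mem_commutator (Subgroup.mem_top _) (Subgroup.mem_top _)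

/-- The reflection in `p - q` swaps `p` and `q` when they are orthogonal of the same norm. -/
theorem swap_refl (Q : QuadraticForm F (ι → F)) (c : F) (h2c : 2 * c ≠ 0) (p q : ι → F)
    (hp : Q p = c) (hq : Q q = c) (hpq : QuadraticMap.polar ⇑Q p q = 0) :
    Q (p - q) = 2 * c ∧ Cfsg.reflectionMatrix ⇑Q (p - q) *ᵥ p = q ∧
      Cfsg.reflectionMatrix ⇑Q (p - q) *ᵥ q = p ∧
      ∀ x, QuadraticMap.polar ⇑Q p x = 0 → QuadraticMap.polar ⇑Q q x = 0 →
        Cfsg.reflectionMatrix ⇑Q (p - q) *ᵥ x = x := by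
  have hqp : QuadraticMap.polar ⇑Q q p = 0 := by rw [QuadraticMap.polar_comm, hpq]
  have hQ : Q (p - q) = 2 * c := by
    have : p - q = p + (-1 : F) • q := by module
    rw [this, quad_add_smul, hp, hq, hpq]
    ring
  have hinv : (2 * c)⁻¹ * (2 * c) = 1 := inv_mul_cancel₀ h2c
  refine ⟨hQ, ?_, ?_, ?_⟩
  · rw [reflection_mulVec, hQ, QuadraticMap.polar_sub_left, polar_self', hp, hqp, sub_zero, hinv,
      one_smul]
    abel
  · rw [reflection_mulVec, hQ, QuadraticMap.polar_sub_left, polar_self', hq, hpq, zero_sub,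
      mul_neg, hinv, neg_smul, one_smul]
    abel
  · intro x hpx hqx
    apply reflection_fix
    rw [QuadraticMap.polar_sub_left, hpx, hqx, sub_zero]

end Frame
section FrameMain
variable {ι : Type} [Fintype ι] [DecidableEq ι] {F : Type*} [Field F]

theorem frame_main (Q : QuadraticForm F (ι → F)) (h3 : (3 : F) = 0) {t k : ℕ}
    (D : Fin t → Submodule F (ι → F))
    (hort : ∀ i j, i ≠ j → Cfsg.Geo.AreOrthogonalFor (QuadraticMap.polar ⇑Q) (D i) (D j))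
    (c : F) (hc : c ≠ 0) (fr : Fin t → Fin k → ι → F)
    (hfrD : ∀ i j, fr i j ∈ D i) (hfrQ : ∀ i j, Q (fr i j) = c)
    (hfro : ∀ i j j', j ≠ j' → QuadraticMap.polar ⇑Q (fr i j) (fr i j') = 0)
    (huniq : ∀ i, ∀ v ∈ D i, Q v = c → ∃ j, v = fr i j ∨ v = -fr i j)
    (i₀ i₁ i₂ : Fin t) (h01 : i₀ ≠ i₁) (h02 : i₀ ≠ i₂) (h12 : i₁ ≠ i₂) (j₀ j₁ : Fin k)
    (hj : j₀ ≠ j₁) :
    ∃ K : Subgroup (Matrix.GeneralLinearGroup ι F),
      Cfsg.Geo.decompositionStabilizer D ⊓ Cfsg.Geo.omegaGL ⇑Q < K ∧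
        K < Cfsg.Geo.omegaGL ⇑Q := by
  have h2 : (2 : F) ≠ 0 := by
    intro h
    have h1 : (1 : F) = 0 := by linear_combination h3 - h
    exact one_ne_zero h1
  have h2c : 2 * c ≠ 0 := mul_ne_zero h2 hc
  have hpo : ∀ i j i' j', (i ≠ i' ∨ j ≠ j') →
      QuadraticMap.polar ⇑Q (fr i j) (fr i' j') = 0 := by
    intro i j i' j' h
    by_cases hi : i = i'
    · subst hi
      rcases h with h | h
      · exact absurd rfl h
      · exact hfro i j j' h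
    · exact hort i i' hi _ (hfrD i j) _ (hfrD i' j')
  have hpp : ∀ i j, QuadraticMap.polar ⇑Q (fr i j) (fr i j) = 2 * c := by
    intro i j
    rw [polar_self', hfrQ]
  have hSfr : ∀ i j, fr i j ∈ {v : ι → F | ∃ i, v ∈ D i ∧ Q v = c} :=
    fun i j => ⟨i, hfrD i j, hfrQ i j⟩
  have hSneg : ∀ i j, -fr i j ∈ {v : ι → F | ∃ i, v ∈ D i ∧ Q v = c} :=
    fun i j => ⟨i, (D i).neg_mem (hfrD i j), by rw [QuadraticMap.map_neg, hfrQ]⟩
  have hSiff : ∀ v, v ∈ {v : ι → F | ∃ i, v ∈ D i ∧ Q v = c} →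
      ∃ i j, v = fr i j ∨ v = -fr i j := by
    rintro v ⟨i, hv, hQv⟩
    obtain ⟨j, hj'⟩ := huniq i v hv hQv
    exact ⟨i, j, hj'⟩
  refine ⟨setStab {v : ι → F | ∃ i, v ∈ D i ∧ Q v = c} ⊓ Cfsg.Geo.omegaGL ⇑Q,
    lt_of_le_of_ne ?_ ?_, lt_of_le_of_ne inf_le_right ?_⟩
  · intro g hg
    obtain ⟨hgD, hgΩ⟩ := Subgroup.mem_inf.1 hg
    refine Subgroup.mem_inf.2 ⟨?_, hgΩ⟩
    have hgiso : g ∈ Cfsg.isometryGroup F ⇑Q := by
      obtain ⟨x, -, rfl⟩ := hgΩ
      exact x.2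
    have hQg : ∀ v, Q (g.val *ᵥ v) = Q v := (mem_isometryGroup_iff _ g).1 hgiso
    obtain ⟨σ, hσ⟩ := hgD
    rw [mem_setStab]
    intro v
    constructor
    · rintro ⟨j, hv, hQv⟩
      have h1 := hσ (σ.symm j)
      rw [Equiv.apply_symm_apply] at h1
      rw [← h1] at hv
      obtain ⟨w, hw, hwv⟩ := Submodule.mem_map.1 hv
      rw [Matrix.toLin'_apply] at hwv
      have h5 := gl_inj g w v hwv
      rw [h5] at hw
      exact ⟨σ.symm j, hw, by rw [← hQg, hQv]⟩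
    · rintro ⟨i, hv, hQv⟩
      refine ⟨σ i, ?_, by rw [hQg, hQv]⟩
      rw [← hσ i]
      exact Submodule.mem_map.2 ⟨v, hv, Matrix.toLin'_apply _ _⟩
  · intro heq
    obtain ⟨hQa, hA1, hA2, hAfix⟩ := swap_refl Q c h2c (fr i₀ j₀) (fr i₁ j₀) (hfrQ _ _)
      (hfrQ _ _) (hpo _ _ _ _ (Or.inl h01))
    obtain ⟨hQb, hB3, hB4, hBfix⟩ := swap_refl Q c h2c (fr i₀ j₁) (fr i₂ j₀) (hfrQ _ _)
      (hfrQ _ _) (hpo _ _ _ _ (Or.inl h02))
    obtain ⟨hQc, hC1, hC3, hCfix⟩ := swap_refl Q c h2c (fr i₀ j₀) (fr i₀ j₁) (hfrQ _ _)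
      (hfrQ _ _) (hpo _ _ _ _ (Or.inr hj))
    obtain ⟨hQd, hD2, hD4, hDfix⟩ := swap_refl Q c h2c (fr i₁ j₀) (fr i₂ j₀) (hfrQ _ _)
      (hfrQ _ _) (hpo _ _ _ _ (Or.inl h12))
    have ha0 : Q (fr i₀ j₀ - fr i₁ j₀) ≠ 0 := by rw [hQa]; exact h2c
    have hb0 : Q (fr i₀ j₁ - fr i₂ j₀) ≠ 0 := by rw [hQb]; exact h2c
    have hc0 : Q (fr i₀ j₀ - fr i₀ j₁) ≠ 0 := by rw [hQc]; exact h2c
    have hd0 : Q (fr i₁ j₀ - fr i₂ j₀) ≠ 0 := by rw [hQd]; exact h2c
    have hg : (rf Q _ hc0 * rf Q _ hd0).val.val *ᵥ (fr i₀ j₀ - fr i₁ j₀) =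
        fr i₀ j₁ - fr i₂ j₀ := by
      rw [coe_mul_mulVec, rf_apply, rf_apply, Matrix.mulVec_sub, hD2,
        hDfix (fr i₀ j₀) (hpo _ _ _ _ (Or.inl h01.symm)) (hpo _ _ _ _ (Or.inl h02.symm)),
        Matrix.mulVec_sub, hC1,
        hCfix (fr i₂ j₀) (hpo _ _ _ _ (Or.inl h02)) (hpo _ _ _ _ (Or.inl h02))]
    have hω₁m := rf_mul_rf_mem Q (rf Q _ hc0 * rf Q _ hd0) _ ha0 _ hb0 hg
    have hact : ∀ x, ((rf Q _ ha0 * rf Q _ hb0 : Cfsg.isometryGroup F ⇑Q) :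
        Matrix.GeneralLinearGroup ι F).val *ᵥ x =
        Cfsg.reflectionMatrix ⇑Q (fr i₀ j₀ - fr i₁ j₀) *ᵥ
          (Cfsg.reflectionMatrix ⇑Q (fr i₀ j₁ - fr i₂ j₀) *ᵥ x) := by
      intro x
      rw [coe_mul_mulVec]
      rfl
    generalize ((rf Q _ ha0 * rf Q _ hb0 : Cfsg.isometryGroup F ⇑Q) :
        Matrix.GeneralLinearGroup ι F) = ω₁ at hω₁m hact
    have e1 : ω₁.val *ᵥ fr i₀ j₀ = fr i₁ j₀ := by
      rw [hact, hBfix _ (hpo _ _ _ _ (Or.inr hj.symm)) (hpo _ _ _ _ (Or.inl h02.symm)), hA1]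
    have e2 : ω₁.val *ᵥ fr i₁ j₀ = fr i₀ j₀ := by
      rw [hact, hBfix _ (hpo _ _ _ _ (Or.inl h01)) (hpo _ _ _ _ (Or.inl h12.symm)), hA2]
    have e3 : ω₁.val *ᵥ fr i₀ j₁ = fr i₂ j₀ := by
      rw [hact, hB3, hAfix _ (hpo _ _ _ _ (Or.inl h02)) (hpo _ _ _ _ (Or.inl h12))]
    have e4 : ω₁.val *ᵥ fr i₂ j₀ = fr i₀ j₁ := by
      rw [hact, hB4, hAfix _ (hpo _ _ _ _ (Or.inr hj)) (hpo _ _ _ _ (Or.inl h01.symm))]
    have e5 : ∀ i j, ¬(i = i₀ ∧ j = j₀) → ¬(i = i₁ ∧ j = j₀) → ¬(i = i₀ ∧ j = j₁) →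
        ¬(i = i₂ ∧ j = j₀) → ω₁.val *ᵥ fr i j = fr i j := by
      intro i j n1 n2 n3 n4
      have o : ∀ i' j', ¬(i = i' ∧ j = j') →
          QuadraticMap.polar ⇑Q (fr i' j') (fr i j) = 0 := by
        intro i' j' hn
        apply hpo
        by_contra hcon
        push_neg at hcon
        exact hn ⟨hcon.1.symm, hcon.2.symm⟩
      rw [hact, hBfix _ (o _ _ n3) (o _ _ n4), hAfix _ (o _ _ n1) (o _ _ n2)]
    have hperm : ∀ i j, ∃ i' j', ω₁.val *ᵥ fr i j = fr i' j' := by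
      intro i j
      by_cases n1 : i = i₀ ∧ j = j₀
      · rw [n1.1, n1.2]
        exact ⟨_, _, e1⟩
      by_cases n2 : i = i₁ ∧ j = j₀
      · rw [n2.1, n2.2]
        exact ⟨_, _, e2⟩
      by_cases n3 : i = i₀ ∧ j = j₁
      · rw [n3.1, n3.2]
        exact ⟨_, _, e3⟩
      by_cases n4 : i = i₂ ∧ j = j₀
      · rw [n4.1, n4.2]
        exact ⟨_, _, e4⟩
      exact ⟨i, j, e5 i j n1 n2 n3 n4⟩
    have hperm' : ∀ i j, ∃ i' j', ω₁.val *ᵥ fr i' j' = fr i j := by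
      intro i j
      by_cases n1 : i = i₀ ∧ j = j₀
      · rw [n1.1, n1.2]
        exact ⟨_, _, e2⟩
      by_cases n2 : i = i₁ ∧ j = j₀
      · rw [n2.1, n2.2]
        exact ⟨_, _, e1⟩
      by_cases n3 : i = i₀ ∧ j = j₁
      · rw [n3.1, n3.2]
        exact ⟨_, _, e4⟩
      by_cases n4 : i = i₂ ∧ j = j₀
      · rw [n4.1, n4.2]
        exact ⟨_, _, e3⟩
      exact ⟨i, j, e5 i j n1 n2 n3 n4⟩
    have hω₁S : ω₁ ∈ setStab {v : ι → F | ∃ i, v ∈ D i ∧ Q v = c} := by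
      rw [mem_setStab]
      intro v
      constructor
      · intro hv
        obtain ⟨i, j, h | h⟩ := hSiff _ hv
        · obtain ⟨i', j', h'⟩ := hperm' i j
          rw [← h'] at h
          rw [gl_inj ω₁ _ _ h]
          exact hSfr i' j'
        · obtain ⟨i', j', h'⟩ := hperm' i j
          rw [← h', ← Matrix.mulVec_neg] at h
          rw [gl_inj ω₁ _ _ h]
          exact hSneg i' j'
      · intro hv
        obtain ⟨i, j, h | h⟩ := hSiff _ hv
        · obtain ⟨i', j', h'⟩ := hperm i j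
          rw [h, h']
          exact hSfr i' j'
        · obtain ⟨i', j', h'⟩ := hperm i j
          rw [h, Matrix.mulVec_neg, h']
          exact hSneg i' j'
    have hmem : ω₁ ∈ setStab {v : ι → F | ∃ i, v ∈ D i ∧ Q v = c} ⊓ Cfsg.Geo.omegaGL ⇑Q :=
      Subgroup.mem_inf.2 ⟨hω₁S, hω₁m⟩
    rw [← heq] at hmem
    obtain ⟨σ, hσ⟩ := (Subgroup.mem_inf.1 hmem).1
    have hmap : ∀ i v, v ∈ D i → ω₁.val *ᵥ v ∈ D (σ i) := by
      intro i v hv
      rw [← hσ i]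
      exact Submodule.mem_map.2 ⟨v, hv, Matrix.toLin'_apply _ _⟩
    have hσ1 : σ i₀ = i₁ := by
      by_contra hne
      have h1 := hort (σ i₀) i₁ hne _ (hmap i₀ _ (hfrD i₀ j₀)) _ (hfrD i₁ j₀)
      rw [e1, hpp] at h1
      exact h2c h1
    have hσ2 : σ i₀ = i₂ := by
      by_contra hne
      have h1 := hort (σ i₀) i₂ hne _ (hmap i₀ _ (hfrD i₀ j₁)) _ (hfrD i₂ j₀)
      rw [e3, hpp] at h1
      exact h2c h1
    exact h12 (hσ1.symm.trans hσ2)
  · intro heq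
    have hyQ : Q (fr i₀ j₁ + fr i₁ j₀ + fr i₁ j₁) = 0 := by
      rw [QuadraticMap.map_add (⇑Q) (fr i₀ j₁ + fr i₁ j₀) (fr i₁ j₁),
        QuadraticMap.map_add (⇑Q) (fr i₀ j₁) (fr i₁ j₀), QuadraticMap.polar_add_left, hfrQ, hfrQ,
        hfrQ, hpo i₀ j₁ i₁ j₀ (Or.inl h01), hpo i₀ j₁ i₁ j₁ (Or.inl h01),
        hpo i₁ j₀ i₁ j₁ (Or.inr hj)]
      linear_combination c * h3
    have huy : QuadraticMap.polar ⇑Q (fr i₀ j₀) (fr i₀ j₁ + fr i₁ j₀ + fr i₁ j₁) = 0 := by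
      rw [QuadraticMap.polar_add_right, QuadraticMap.polar_add_right,
        hpo i₀ j₀ i₀ j₁ (Or.inr hj), hpo i₀ j₀ i₁ j₀ (Or.inl h01), hpo i₀ j₀ i₁ j₁ (Or.inl h01),
        add_zero, add_zero]
    obtain ⟨ω₂, hω₂m, hω₂u, -⟩ := exists_omega Q h3 (fr i₀ j₀) _ (by rw [hfrQ]; exact hc) hyQ huy
    have hmem : ω₂ ∈ setStab {v : ι → F | ∃ i, v ∈ D i ∧ Q v = c} ⊓ Cfsg.Geo.omegaGL ⇑Q := by
      rw [heq]
      exact hω₂m
    have h1 := ((mem_setStab _ ω₂).1 (Subgroup.mem_inf.1 hmem).1 (fr i₀ j₀)).2 (hSfr i₀ j₀)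
    rw [hω₂u] at h1
    obtain ⟨i, hi, -⟩ := h1
    by_cases hii : i = i₁
    · rw [hii] at hi
      have h4 := hort i₁ i₀ h01.symm _ hi _ (hfrD i₀ j₀)
      rw [QuadraticMap.polar_sub_left, QuadraticMap.polar_add_left, QuadraticMap.polar_add_left,
        hpp, hpo i₀ j₁ i₀ j₀ (Or.inr hj.symm), hpo i₁ j₀ i₀ j₀ (Or.inl h01.symm),
        hpo i₁ j₁ i₀ j₀ (Or.inl h01.symm)] at h4
      apply h2c
      linear_combination h4
    · have h4 := hort i i₁ hii _ hi _ (hfrD i₁ j₀)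
      rw [QuadraticMap.polar_sub_left, QuadraticMap.polar_add_left, QuadraticMap.polar_add_left,
        hpo i₀ j₀ i₁ j₀ (Or.inl h01), hpo i₀ j₁ i₁ j₀ (Or.inl h01), hpp,
        hpo i₁ j₁ i₁ j₀ (Or.inr hj.symm)] at h4
      apply h2c
      linear_combination -h4

end FrameMain
section Blocks
variable {ι : Type} [Fintype ι] [DecidableEq ι] {F : Type*} [Field F]

theorem dim_count' {t k : ℕ} (D : Fin t → Submodule F (ι → F))
    (hD : Cfsg.Geo.IsMDecomposition k D) : Fintype.card ι = t * k := by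
  classical
  have hint := DirectSum.isInternal_submodule_of_iSupIndep_of_iSup_eq_top hD.indep hD.iSup_eq_top
  have h1 := Module.finrank_eq_card_basis
    (hint.collectedBasis (fun i => Module.finBasisOfFinrankEq F (D i) (hD.finrank_eq i)))
  rw [Module.finrank_fintype_fun_eq_card] at h1
  simpa using h1

theorem exists_orth_basis (Q : QuadraticForm F (ι → F)) (h2 : (2 : F) ≠ 0)
    (U : Submodule F (ι → F)) (d : ℕ) (hd : Module.finrank F U = d)
    (hU : Cfsg.Geo.IsNondegenerateOn (QuadraticMap.polar ⇑Q) U) :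
    ∃ w : Fin d → ι → F, (∀ j, w j ∈ U) ∧
      (∀ j j', j ≠ j' → QuadraticMap.polar ⇑Q (w j) (w j') = 0) ∧ (∀ j, Q (w j) ≠ 0) ∧
      (∀ x ∈ U, ∃ α : Fin d → F, x = ∑ j, α j • w j) := by
  subst hd
  haveI : Invertible (2 : F) := invertibleOfNonzero h2
  have hB : ∀ x y : U, ((QuadraticMap.polarBilin Q).compl₁₂ U.subtype U.subtype) x y =
      QuadraticMap.polar ⇑Q (x : ι → F) (y : ι → F) := fun x y => rfl
  have hBs : LinearMap.BilinForm.IsSymm ((QuadraticMap.polarBilin Q).compl₁₂ U.subtype U.subtype) :=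
    ⟨fun x y => by rw [hB, hB, QuadraticMap.polar_comm]⟩
  obtain ⟨v, hv⟩ := LinearMap.BilinForm.exists_orthogonal_basis
    (LinearMap.BilinForm.isSymm_iff.1 hBs)
  rw [LinearMap.isOrthoᵢ_def] at hv
  have hrep : ∀ x (hx : x ∈ U), x = ∑ l, (v.repr ⟨x, hx⟩ l) • (v l : ι → F) := by
    intro x hx
    have h1 : ((∑ i, (v.repr ⟨x, hx⟩) i • v i : U) : ι → F) = x :=
      congrArg (Subtype.val) (v.sum_repr ⟨x, hx⟩)
    refine h1.symm.trans ?_
    rw [Submodule.coe_sum]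
    exact Finset.sum_congr rfl (fun _ _ => rfl)
  have hort : ∀ j j', j ≠ j' → QuadraticMap.polar ⇑Q (v j : ι → F) (v j' : ι → F) = 0 := by
    intro j j' hjj
    have h1 := hv j j' hjj
    rwa [hB] at h1
  refine ⟨fun j => (v j : ι → F), fun j => (v j).2, hort, ?_, fun x hx => ⟨_, hrep x hx⟩⟩
  intro j hQ
  have hne : (v j : ι → F) ≠ 0 := by
    intro h0
    exact v.ne_zero j (Subtype.ext h0)
  obtain ⟨-, x, hx, hx0⟩ := hU _ (v j).2 hne
  apply hx0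
  have h5 : QuadraticMap.polar ⇑Q (v j : ι → F) x = QuadraticMap.polarBilin Q (v j : ι → F) x :=
    rfl
  rw [h5, hrep x hx, map_sum]
  apply Finset.sum_eq_zero
  intro l _
  rw [map_smul, QuadraticMap.polarBilin_apply_apply]
  by_cases hjl : j = l
  · subst hjl
    rw [polar_self', hQ, mul_zero, smul_zero]
  · rw [hort j l hjl, smul_zero]

/-- Turning an orthogonal triple with norms `(c', c', -c')` into one with constant norm. -/
theorem fix3 (Q : QuadraticForm F (ι → F)) (h3 : (3 : F) = 0) (U : Submodule F (ι → F))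
    (a b d : ι → F) (ha : a ∈ U) (hb : b ∈ U) (hd : d ∈ U) (hQb : Q b = Q a)
    (hQd : Q d = -Q a) (hab : QuadraticMap.polar ⇑Q a b = 0)
    (had : QuadraticMap.polar ⇑Q a d = 0) (hbd : QuadraticMap.polar ⇑Q b d = 0)
    (hspan : ∀ x ∈ U, ∃ α β γ : F, x = α • a + β • b + γ • d) :
    ∃ a' b' d' : ι → F, a' ∈ U ∧ b' ∈ U ∧ d' ∈ U ∧ Q a' = -Q a ∧ Q b' = -Q a ∧ Q d' = -Q a ∧
      QuadraticMap.polar ⇑Q a' b' = 0 ∧ QuadraticMap.polar ⇑Q a' d' = 0 ∧
      QuadraticMap.polar ⇑Q b' d' = 0 ∧ ∀ x ∈ U, ∃ α β γ : F, x = α • a' + β • b' + γ • d' := by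
  have hba : QuadraticMap.polar ⇑Q b a = 0 := by rw [QuadraticMap.polar_comm, hab]
  refine ⟨a + b, a - b, d, U.add_mem ha hb, U.sub_mem ha hb, hd, ?_, ?_, hQd, ?_, ?_, ?_, ?_⟩
  · rw [QuadraticMap.map_add (⇑Q) a b, hQb, hab]
    linear_combination Q a * h3
  · have : a - b = a + (-1 : F) • b := by module
    rw [this, quad_add_smul, hQb, hab]
    linear_combination Q a * h3
  · rw [QuadraticMap.polar_add_left, QuadraticMap.polar_sub_right, QuadraticMap.polar_sub_right,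
      polar_self', polar_self', hab, hba, hQb]
    ring
  · rw [QuadraticMap.polar_add_left, had, hbd, add_zero]
  · rw [QuadraticMap.polar_sub_left, had, hbd, sub_zero]
  · intro x hx
    obtain ⟨α, β, γ, rfl⟩ := hspan x hx
    refine ⟨2 * (α + β), 2 * (α - β), γ, ?_⟩
    calc α • a + β • b + γ • d = (2 * (α + β)) • (a + b) + (2 * (α - β)) • (a - b) + γ • d -
          (3 : F) • (α • a + β • b) := by module
      _ = _ := by rw [h3, zero_smul, sub_zero]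

theorem exists_frame3 (Q : QuadraticForm F (ι → F)) (h3 : (3 : F) = 0)
    (hF : ∀ x : F, x ≠ 0 → x = 1 ∨ x = -1) (U : Submodule F (ι → F))
    (hd : Module.finrank F U = 3)
    (hU : Cfsg.Geo.IsNondegenerateOn (QuadraticMap.polar ⇑Q) U) :
    ∃ c : F, c ≠ 0 ∧ ∃ a b d : ι → F, a ∈ U ∧ b ∈ U ∧ d ∈ U ∧ Q a = c ∧ Q b = c ∧ Q d = c ∧
      QuadraticMap.polar ⇑Q a b = 0 ∧ QuadraticMap.polar ⇑Q a d = 0 ∧
      QuadraticMap.polar ⇑Q b d = 0 ∧ ∀ x ∈ U, ∃ α β γ : F, x = α • a + β • b + γ • d := by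
  have h2 : (2 : F) ≠ 0 := by
    intro h
    have h1 : (1 : F) = 0 := by linear_combination h3 - h
    exact one_ne_zero h1
  obtain ⟨w, hwU, hwo, hwQ, hws⟩ := exists_orth_basis Q h2 U 3 hd hU
  have hspan : ∀ x ∈ U, ∃ α β γ : F, x = α • w 0 + β • w 1 + γ • w 2 := by
    intro x hx
    obtain ⟨α, hα⟩ := hws x hx
    refine ⟨α 0, α 1, α 2, ?_⟩
    rw [hα, Fin.sum_univ_three]
  have hne : ∀ x y : F, x ≠ 0 → y ≠ 0 → x ≠ y → y = -x := by
    intro x y hx hy hxy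
    rcases hF x hx with h | h <;> rcases hF y hy with h' | h'
    · exact absurd (h.trans h'.symm) hxy
    · rw [h, h']
    · rw [h, h', neg_neg]
    · exact absurd (h.trans h'.symm) hxy
  have h01 : QuadraticMap.polar ⇑Q (w 0) (w 1) = 0 := hwo 0 1 (by decide)
  have h02 : QuadraticMap.polar ⇑Q (w 0) (w 2) = 0 := hwo 0 2 (by decide)
  have h12 : QuadraticMap.polar ⇑Q (w 1) (w 2) = 0 := hwo 1 2 (by decide)
  have h10 : QuadraticMap.polar ⇑Q (w 1) (w 0) = 0 := hwo 1 0 (by decide)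
  have h20 : QuadraticMap.polar ⇑Q (w 2) (w 0) = 0 := hwo 2 0 (by decide)
  have h21 : QuadraticMap.polar ⇑Q (w 2) (w 1) = 0 := hwo 2 1 (by decide)
  by_cases hab : Q (w 0) = Q (w 1)
  · by_cases had : Q (w 0) = Q (w 2)
    · exact ⟨Q (w 0), hwQ 0, w 0, w 1, w 2, hwU 0, hwU 1, hwU 2, rfl, hab.symm, had.symm, h01, h02,
        h12, hspan⟩
    · obtain ⟨a', b', d', h⟩ := fix3 Q h3 U (w 0) (w 1) (w 2) (hwU 0) (hwU 1) (hwU 2) hab.symm
        (hne _ _ (hwQ 0) (hwQ 2) had) h01 h02 h12 hspan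
      exact ⟨-Q (w 0), neg_ne_zero.2 (hwQ 0), a', b', d', h⟩
  · by_cases had : Q (w 0) = Q (w 2)
    · obtain ⟨a', b', d', h⟩ := fix3 Q h3 U (w 0) (w 2) (w 1) (hwU 0) (hwU 2) (hwU 1) had.symm
        (hne _ _ (hwQ 0) (hwQ 1) hab) h02 h01 h21 (by
          intro x hx
          obtain ⟨α, β, γ, rfl⟩ := hspan x hx
          exact ⟨α, γ, β, by abel⟩)
      exact ⟨-Q (w 0), neg_ne_zero.2 (hwQ 0), a', b', d', h⟩
    · have e1 := hne _ _ (hwQ 0) (hwQ 1) hab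
      have e2 := hne _ _ (hwQ 0) (hwQ 2) had
      obtain ⟨a', b', d', h⟩ := fix3 Q h3 U (w 1) (w 2) (w 0) (hwU 1) (hwU 2) (hwU 0)
        (by rw [e1, e2]) (by rw [e1, neg_neg]) h12 h10 h20 (by
          intro x hx
          obtain ⟨α, β, γ, rfl⟩ := hspan x hx
          exact ⟨β, γ, α, by abel⟩)
      exact ⟨-Q (w 1), neg_ne_zero.2 (hwQ 1), a', b', d', h⟩

theorem uniq3 (Q : QuadraticForm F (ι → F)) (h3 : (3 : F) = 0)
    (hF0 : ∀ x : F, x = 0 ∨ x = 1 ∨ x = -1) (c : F) (hc : c ≠ 0) (a b d : ι → F)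
    (hQa : Q a = c) (hQb : Q b = c) (hQd : Q d = c) (hab : QuadraticMap.polar ⇑Q a b = 0)
    (had : QuadraticMap.polar ⇑Q a d = 0) (hbd : QuadraticMap.polar ⇑Q b d = 0)
    (x : ι → F) (α β γ : F) (hx : x = α • a + β • b + γ • d) (hQx : Q x = c) :
    x = a ∨ x = -a ∨ x = b ∨ x = -b ∨ x = d ∨ x = -d := by
  have hsum : α * α + β * β + γ * γ = 1 := by
    rw [hx, QuadraticMap.map_add (⇑Q) (α • a + β • b) (γ • d),
      QuadraticMap.map_add (⇑Q) (α • a) (β • b), QuadraticMap.map_smul, QuadraticMap.map_smul,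
      QuadraticMap.map_smul, QuadraticMap.polar_add_left, QuadraticMap.polar_smul_left,
      QuadraticMap.polar_smul_left, QuadraticMap.polar_smul_left, QuadraticMap.polar_smul_right,
      QuadraticMap.polar_smul_right, QuadraticMap.polar_smul_right, hab, had, hbd, hQa, hQb,
      hQd] at hQx
    apply mul_left_cancel₀ hc
    simp only [smul_eq_mul, mul_zero, add_zero] at hQx
    linear_combination hQx
  rcases hF0 α with rfl | rfl | rfl <;> rcases hF0 β with rfl | rfl | rfl <;>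
    rcases hF0 γ with rfl | rfl | rfl <;>
    first
    | (exfalso; exact one_ne_zero (by linear_combination hsum))
    | (exfalso; exact one_ne_zero (by linear_combination h3 - hsum))
    | (exfalso; exact one_ne_zero (by linear_combination (-1 : F) * hsum))
    | (rw [hx]; simp)

theorem transport3 (Q : QuadraticForm F (ι → F)) (U U' : Submodule F (ι → F))
    (hiso : Cfsg.Geo.AreIsometricFor ⇑Q U U') (c : F) (a b d : ι → F)
    (ha : a ∈ U) (hb : b ∈ U) (hd : d ∈ U) (hQa : Q a = c) (hQb : Q b = c) (hQd : Q d = c)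
    (hab : QuadraticMap.polar ⇑Q a b = 0) (had : QuadraticMap.polar ⇑Q a d = 0)
    (hbd : QuadraticMap.polar ⇑Q b d = 0)
    (hspan : ∀ x ∈ U, ∃ α β γ : F, x = α • a + β • b + γ • d) :
    ∃ a' b' d' : ι → F, a' ∈ U' ∧ b' ∈ U' ∧ d' ∈ U' ∧ Q a' = c ∧ Q b' = c ∧ Q d' = c ∧
      QuadraticMap.polar ⇑Q a' b' = 0 ∧ QuadraticMap.polar ⇑Q a' d' = 0 ∧
      QuadraticMap.polar ⇑Q b' d' = 0 ∧ ∀ x ∈ U', ∃ α β γ : F, x = α • a' + β • b' + γ • d' := by
  obtain ⟨e, he⟩ := hiso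
  have hpol : ∀ x y : U, QuadraticMap.polar ⇑Q ((e x : U') : ι → F) ((e y : U') : ι → F) =
      QuadraticMap.polar ⇑Q (x : ι → F) (y : ι → F) := by
    intro x y
    unfold QuadraticMap.polar
    rw [← Submodule.coe_add, ← map_add, he, he, he, Submodule.coe_add]
  refine ⟨_, _, _, (e ⟨a, ha⟩).2, (e ⟨b, hb⟩).2, (e ⟨d, hd⟩).2, (he _).trans hQa,
    (he _).trans hQb, (he _).trans hQd, (hpol _ _).trans hab, (hpol _ _).trans had,
    (hpol _ _).trans hbd, ?_⟩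
  intro x hx
  obtain ⟨α, β, γ, h⟩ := hspan _ (e.symm ⟨x, hx⟩).2
  refine ⟨α, β, γ, ?_⟩
  have h1 : e.symm ⟨x, hx⟩ = α • (⟨a, ha⟩ : U) + β • (⟨b, hb⟩ : U) + γ • (⟨d, hd⟩ : U) :=
    Subtype.ext h
  have h2 := congrArg e h1
  rw [LinearEquiv.apply_symm_apply, map_add, map_add, map_smul, map_smul, map_smul] at h2
  have h3 := congrArg Subtype.val h2
  simpa using h3

end Blocks

/-- Let F be the field with 3 elements, m ≥ 6, Q the standard quadratic form on F^(2m+1) and Ω the commutator subgroup of its isometry group. Let D be a decomposition of F^(2m+1) into t pairwise orthogonal, pairwise Q-isometric 3-dimensional subspaces on which the polar form is non-degenerate. Then the elements of Ω permuting the members of D form a subgroup that is not maximal: some subgroup lies strictly between it and Ω. -/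
theorem result {F : Type*} [Field F] [Fintype F] (hq : Fintype.card F = 3) (m : ℕ) (hm : 6 ≤ m) {t : ℕ} (D : Fin t → Submodule F (Unit ⊕ (Fin m ⊕ Fin m) → F)) (hD : Cfsg.Geo.IsOrthogonalMDecomposition (Cfsg.quadFormOdd m F) 3 D) : ∃ K : Subgroup (Matrix.GeneralLinearGroup (Unit ⊕ (Fin m ⊕ Fin m)) F), Cfsg.Geo.decompositionStabilizer D ⊓ Cfsg.Geo.omegaGL (Cfsg.quadFormOdd m F) < K ∧ K < Cfsg.Geo.omegaGL (Cfsg.quadFormOdd m F) := by
  classical
  have hco : ⇑(Cfsg.Agent.Lib_helper4_OOdd.QO m F) = Cfsg.quadFormOdd m F :=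
    Cfsg.Agent.Lib_helper4_OOdd.coe_QO
  rw [← hco] at hD ⊢
  have h3 : (3 : F) = 0 := by
    have h0 := FiniteField.cast_card_eq_zero F
    rw [hq] at h0
    exact_mod_cast h0
  have hsq : ∀ x : F, x ≠ 0 → x ^ 2 = 1 := by
    intro x hx
    have h := FiniteField.pow_card_sub_one_eq_one x hx
    rwa [hq] at h
  have hF : ∀ x : F, x ≠ 0 → x = 1 ∨ x = -1 := by
    intro x hx
    have h : (x - 1) * (x + 1) = 0 := by linear_combination hsq x hx
    rcases mul_eq_zero.1 h with h | h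
    · left
      linear_combination h
    · right
      linear_combination h
  have hF0 : ∀ x : F, x = 0 ∨ x = 1 ∨ x = -1 := by
    intro x
    by_cases hx : x = 0
    · exact Or.inl hx
    · exact Or.inr (hF x hx)
  have hcard := dim_count' D hD.decomp.decomp
  have ht : 3 ≤ t := by
    simp only [Fintype.card_sum, Fintype.card_unit, Fintype.card_fin] at hcard
    omega
  obtain ⟨c, hc, a, b, d, ha, hb, hd, hQa, hQb, hQd, hab, had, hbd, hsp⟩ :=
    exists_frame3 (Cfsg.Agent.Lib_helper4_OOdd.QO m F) h3 hF (D ⟨0, by omega⟩)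
      (hD.decomp.decomp.finrank_eq _) (hD.decomp.nondegenerate _)
  have hall : ∀ i, ∃ a' b' d' : Unit ⊕ (Fin m ⊕ Fin m) → F, a' ∈ D i ∧ b' ∈ D i ∧ d' ∈ D i ∧
      Cfsg.Agent.Lib_helper4_OOdd.QO m F a' = c ∧ Cfsg.Agent.Lib_helper4_OOdd.QO m F b' = c ∧
      Cfsg.Agent.Lib_helper4_OOdd.QO m F d' = c ∧
      QuadraticMap.polar ⇑(Cfsg.Agent.Lib_helper4_OOdd.QO m F) a' b' = 0 ∧
      QuadraticMap.polar ⇑(Cfsg.Agent.Lib_helper4_OOdd.QO m F) a' d' = 0 ∧
      QuadraticMap.polar ⇑(Cfsg.Agent.Lib_helper4_OOdd.QO m F) b' d' = 0 ∧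
      ∀ x ∈ D i, ∃ α β γ : F, x = α • a' + β • b' + γ • d' :=
    fun i => transport3 (Cfsg.Agent.Lib_helper4_OOdd.QO m F) (D ⟨0, by omega⟩) (D i)
      (hD.isometric _ i) c a b d ha hb hd hQa hQb hQd hab had hbd hsp
  choose fa fb fd hfa hfb hfd hfQa hfQb hfQd hfab hfad hfbd hfsp using hall
  refine frame_main (Cfsg.Agent.Lib_helper4_OOdd.QO m F) h3 D hD.decomp.orthogonal c hc
    (fun i => ![fa i, fb i, fd i]) ?_ ?_ ?_ ?_ ⟨0, by omega⟩ ⟨1, by omega⟩ ⟨2, by omega⟩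
    (by simp [Fin.ext_iff]) (by simp [Fin.ext_iff]) (by simp [Fin.ext_iff]) 0 1 (by decide)
  · intro i j
    fin_cases j
    · exact hfa i
    · exact hfb i
    · exact hfd i
  · intro i j
    fin_cases j
    · exact hfQa i
    · exact hfQb i
    · exact hfQd i
  · intro i j j' hjj
    fin_cases j <;> fin_cases j'
    · exact absurd rfl hjj
    · exact hfab i
    · exact hfad i
    · exact (QuadraticMap.polar_comm _ _ _).trans (hfab i)
    · exact absurd rfl hjj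
    · exact hfbd i
    · exact (QuadraticMap.polar_comm _ _ _).trans (hfad i)
    · exact (QuadraticMap.polar_comm _ _ _).trans (hfbd i)
    · exact absurd rfl hjj
  · intro i v hv hQv
    obtain ⟨α, β, γ, hx⟩ := hfsp i v hv
    rcases uniq3 (Cfsg.Agent.Lib_helper4_OOdd.QO m F) h3 hF0 c hc (fa i) (fb i) (fd i) (hfQa i)
      (hfQb i) (hfQd i) (hfab i) (hfad i) (hfbd i) v α β γ hx hQv with h | h | h | h | h | h
    · exact ⟨0, Or.inl h⟩
    · exact ⟨0, Or.inr h⟩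
    · exact ⟨1, Or.inl h⟩
    · exact ⟨1, Or.inr h⟩
    · exact ⟨2, Or.inl h⟩
    · exact ⟨2, Or.inr h⟩

end Cfsg.Agent.S5678
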