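import Cfsg.Statements.S0824
import Mathlib
import Cfsg.Agent.Lib_helper4_OMinus
import Cfsg.Agent.S5678

set_option autoImplicit false
open Cfsg

namespace Cfsg.Agent.S0824

open Matrix

section Gen
variable {F : Type*} [Field F]

/-- The vector with the given four coordinates. -/
def mk (x y z w : F) : (Fin 1 ⊕ Fin 1) ⊕ Fin 2 → F :=
  Sum.elim (Sum.elim (fun _ => x) (fun _ => y)) ![z, w]

theorem mk_eta (v : (Fin 1 ⊕ Fin 1) ⊕ Fin 2 → F) :
    v = mk (v (Sum.inl (Sum.inl 0))) (v (Sum.inl (Sum.inr 0))) (v (Sum.inr 0)) (v (Sum.inr 1)) := by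
  funext i
  rcases i with (i | i) | i
  · have h : i = 0 := Subsingleton.elim _ _
    subst h
    rfl
  · have h : i = 0 := Subsingleton.elim _ _
    subst h
    rfl
  · fin_cases i <;> rfl

theorem Q_mk (x y z w : F) :
    Cfsg.quadFormMinus 1 F 1 1 (mk x y z w) = x * y + (z ^ 2 + z * w + w ^ 2) := by
  simp [Cfsg.quadFormMinus, mk]

/-- The five singular vectors. -/
def pv : Fin 5 → (Fin 1 ⊕ Fin 1) ⊕ Fin 2 → F :=
  ![mk 1 0 0 0, mk 0 1 0 0, mk 1 1 1 0, mk 1 1 0 1, mk 1 1 1 1]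

/-- The non-zero singular vectors. -/
def SV (F : Type*) [Field F] : Type _ :=
  {v : (Fin 1 ⊕ Fin 1) ⊕ Fin 2 → F // Cfsg.quadFormMinus 1 F 1 1 v = 0 ∧ v ≠ 0}

theorem act_mem (g : Cfsg.isometryGroup F (Cfsg.quadFormMinus 1 F 1 1))
    (v : (Fin 1 ⊕ Fin 1) ⊕ Fin 2 → F) (hv : Cfsg.quadFormMinus 1 F 1 1 v = 0 ∧ v ≠ 0) :
    Cfsg.quadFormMinus 1 F 1 1 (g.1.val *ᵥ v) = 0 ∧ g.1.val *ᵥ v ≠ 0 := by
  refine ⟨?_, ?_⟩
  · have h := g.2 v v
    exact h.trans hv.1
  · intro h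
    exact hv.2 (Cfsg.Agent.S5678.gl_inj g.1 _ _ (h.trans (Matrix.mulVec_zero _).symm))

/-- The action of an isometry on the singular vectors. -/
def act (g : Cfsg.isometryGroup F (Cfsg.quadFormMinus 1 F 1 1)) : Equiv.Perm (SV F) where
  toFun v := ⟨g.1.val *ᵥ v.1, act_mem g v.1 v.2⟩
  invFun v := ⟨(g⁻¹).1.val *ᵥ v.1, act_mem g⁻¹ v.1 v.2⟩
  left_inv v := by
    apply Subtype.ext
    show (g⁻¹).1.val *ᵥ (g.1.val *ᵥ v.1) = v.1
    rw [Matrix.mulVec_mulVec, ← Units.val_mul, ← Subgroup.coe_mul, inv_mul_cancel,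
      Subgroup.coe_one, Units.val_one, Matrix.one_mulVec]
  right_inv v := by
    apply Subtype.ext
    show g.1.val *ᵥ ((g⁻¹).1.val *ᵥ v.1) = v.1
    rw [Matrix.mulVec_mulVec, ← Units.val_mul, ← Subgroup.coe_mul, mul_inv_cancel,
      Subgroup.coe_one, Units.val_one, Matrix.one_mulVec]

/-- The action as a homomorphism. -/
def actHom : Cfsg.isometryGroup F (Cfsg.quadFormMinus 1 F 1 1) →* Equiv.Perm (SV F) where
  toFun := act
  map_one' := by
    apply Equiv.ext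
    intro v
    apply Subtype.ext
    show ((1 : Cfsg.isometryGroup F (Cfsg.quadFormMinus 1 F 1 1)).1).val *ᵥ v.1 = v.1
    rw [Subgroup.coe_one, Units.val_one, Matrix.one_mulVec]
  map_mul' g h := by
    apply Equiv.ext
    intro v
    apply Subtype.ext
    show ((g * h).1).val *ᵥ v.1 = g.1.val *ᵥ (h.1.val *ᵥ v.1)
    rw [Subgroup.coe_mul, Units.val_mul, Matrix.mulVec_mulVec]

theorem actHom_apply (g : Cfsg.isometryGroup F (Cfsg.quadFormMinus 1 F 1 1)) (v : SV F) :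
    (actHom g v).1 = g.1.val *ᵥ v.1 := rfl

theorem pv_mem (hc2 : (2 : F) = 0) (i : Fin 5) :
    Cfsg.quadFormMinus 1 F 1 1 (pv i) = 0 ∧ (pv i : (Fin 1 ⊕ Fin 1) ⊕ Fin 2 → F) ≠ 0 := by
  fin_cases i
  · refine ⟨?_, ?_⟩
    · show Cfsg.quadFormMinus 1 F 1 1 (mk 1 0 0 0) = 0
      rw [Q_mk]
      ring
    · intro h
      exact one_ne_zero (congrFun h (Sum.inl (Sum.inl 0)))
  · refine ⟨?_, ?_⟩
    · show Cfsg.quadFormMinus 1 F 1 1 (mk 0 1 0 0) = 0
      rw [Q_mk]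
      ring
    · intro h
      exact one_ne_zero (congrFun h (Sum.inl (Sum.inr 0)))
  · refine ⟨?_, ?_⟩
    · show Cfsg.quadFormMinus 1 F 1 1 (mk 1 1 1 0) = 0
      rw [Q_mk]
      linear_combination hc2
    · intro h
      exact one_ne_zero (congrFun h (Sum.inl (Sum.inl 0)))
  · refine ⟨?_, ?_⟩
    · show Cfsg.quadFormMinus 1 F 1 1 (mk 1 1 0 1) = 0
      rw [Q_mk]
      linear_combination hc2
    · intro h
      exact one_ne_zero (congrFun h (Sum.inl (Sum.inl 0)))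
  · refine ⟨?_, ?_⟩
    · show Cfsg.quadFormMinus 1 F 1 1 (mk 1 1 1 1) = 0
      rw [Q_mk]
      linear_combination 2 * hc2
    · intro h
      exact one_ne_zero (congrFun h (Sum.inl (Sum.inl 0)))

theorem pv_surj (hc2 : (2 : F) = 0) (hF : ∀ x : F, x = 0 ∨ x = 1)
    (v : (Fin 1 ⊕ Fin 1) ⊕ Fin 2 → F) (hQ : Cfsg.quadFormMinus 1 F 1 1 v = 0) (hv0 : v ≠ 0) :
    ∃ i, v = pv i := by
  have hv := mk_eta v
  have h11 : (1 : F) + 1 = 0 := by rw [one_add_one_eq_two]; exact hc2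
  have hz : (mk 0 0 0 0 : (Fin 1 ⊕ Fin 1) ⊕ Fin 2 → F) = 0 := by
    funext i
    rcases i with (i | i) | i
    · rfl
    · rfl
    · fin_cases i <;> rfl
  rw [hv, Q_mk] at hQ
  rcases hF (v (Sum.inl (Sum.inl 0))) with h1 | h1 <;>
    rcases hF (v (Sum.inl (Sum.inr 0))) with h2 | h2 <;>
    rcases hF (v (Sum.inr 0)) with h3 | h3 <;>
    rcases hF (v (Sum.inr 1)) with h4 | h4 <;>
    rw [h1, h2, h3, h4] at hv hQ <;>
    first
      | exact ⟨0, hv⟩
      | exact ⟨1, hv⟩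
      | exact ⟨2, hv⟩
      | exact ⟨3, hv⟩
      | exact ⟨4, hv⟩
      | exact absurd (hv.trans hz) hv0
      | (exfalso; simp [h11] at hQ)

theorem pv_inj : Function.Injective (pv : Fin 5 → (Fin 1 ⊕ Fin 1) ⊕ Fin 2 → F) := by
  intro i j h
  have h1 := congrFun h (Sum.inl (Sum.inl 0))
  have h2 := congrFun h (Sum.inl (Sum.inr 0))
  have h3 := congrFun h (Sum.inr 0)
  have h4 := congrFun h (Sum.inr 1)
  fin_cases i <;> fin_cases j <;> first | rfl | (exfalso; simp [pv, mk] at h1 h2 h3 h4)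

theorem vec_decomp (hc2 : (2 : F) = 0) (x y z w : F) :
    mk x y z w = x • (pv 0 : (Fin 1 ⊕ Fin 1) ⊕ Fin 2 → F) + y • pv 1 +
      z • (pv 0 + pv 1 + pv 2) + w • (pv 0 + pv 1 + pv 3) := by
  funext i
  rcases i with (i | i) | i
  · show x = x * 1 + y * 0 + z * (1 + 0 + 1) + w * (1 + 0 + 1)
    linear_combination (-(z + w)) * hc2
  · show y = x * 0 + y * 1 + z * (0 + 1 + 1) + w * (0 + 1 + 1)
    linear_combination (-(z + w)) * hc2
  · fin_cases i
    · show z = x * 0 + y * 0 + z * (0 + 0 + 1) + w * (0 + 0 + 0)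
      ring
    · show w = x * 0 + y * 0 + z * (0 + 0 + 0) + w * (0 + 0 + 1)
      ring

end Gen


/-- O⁻_4(2) ≅ S_5: the isometry group of the form x y + z_1² + z_1 z_2 + z_2² over the field with 2 elements is isomorphic to the symmetric group on 5 letters. -/
theorem result {F : Type*} [Field F] [Fintype F] (hF : Fintype.card F = 2) : Nonempty (↥(Cfsg.isometryGroup F (Cfsg.quadFormMinus 1 F 1 1)) ≃* Equiv.Perm (Fin 5)) := by
  classical
  have hc2 : (2 : F) = 0 := by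
    have h0 := FiniteField.cast_card_eq_zero F
    rw [hF] at h0
    exact_mod_cast h0
  have hF01 : ∀ x : F, x = 0 ∨ x = 1 := by
    intro x
    by_cases hx : x = 0
    · exact Or.inl hx
    · right
      have h := FiniteField.pow_card_sub_one_eq_one x hx
      rw [hF] at h
      simpa using h
  have h11 : (1 : F) + 1 = 0 := by rw [one_add_one_eq_two]; exact hc2
  have hbij : Function.Bijective (fun i : Fin 5 => (⟨pv i, pv_mem hc2 i⟩ : SV F)) := by
    constructor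
    · intro i j h
      exact pv_inj (congrArg Subtype.val h)
    · rintro ⟨v, hv⟩
      obtain ⟨i, hi⟩ := pv_surj hc2 hF01 v hv.1 hv.2
      exact ⟨i, Subtype.ext hi.symm⟩
  obtain ⟨e, he⟩ : ∃ e : Fin 5 ≃ SV F, ∀ i, (e i).1 = pv i :=
    ⟨Equiv.ofBijective _ hbij, fun i => rfl⟩
  obtain ⟨ψ, hψ⟩ : ∃ ψ : Cfsg.isometryGroup F (Cfsg.quadFormMinus 1 F 1 1) →*
      Equiv.Perm (Fin 5), ψ = (Equiv.permCongrHom e.symm).toMonoidHom.comp actHom := ⟨_, rfl⟩
  have hinj : Function.Injective ψ := by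
    rw [injective_iff_map_eq_one]
    intro g hg
    rw [hψ] at hg
    have h1 : actHom g = 1 := by
      have h2 : (Equiv.permCongrHom e.symm) (actHom g) = 1 := hg
      exact (Equiv.permCongrHom e.symm).injective (h2.trans (map_one _).symm)
    have hfix : ∀ i, g.1.val *ᵥ pv i = pv i := by
      intro i
      have h3 := congrArg (fun σ : Equiv.Perm (SV F) => (σ (e i)).1) h1
      simp only [actHom_apply, he, Equiv.Perm.one_apply] at h3
      exact h3
    have hall : ∀ v, g.1.val *ᵥ v = (1 : Matrix _ _ F) *ᵥ v := by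
      intro v
      rw [Matrix.one_mulVec, mk_eta v, vec_decomp hc2]
      simp only [Matrix.mulVec_add, Matrix.mulVec_smul, hfix]
    apply Subtype.ext
    apply Units.ext
    exact Cfsg.Agent.S5676.mat_ext _ _ hall
  have hcard : Nat.card (Equiv.Perm (Fin 5)) ≤
      Nat.card (Cfsg.isometryGroup F (Cfsg.quadFormMinus 1 F 1 1)) := by
    have hab : ∀ z₁ z₂ : F, z₁ ^ 2 + 1 * z₁ * z₂ + 1 * z₂ ^ 2 = 0 → z₁ = 0 ∧ z₂ = 0 := by
      intro z₁ z₂ h
      rcases hF01 z₁ with rfl | rfl <;> rcases hF01 z₂ with rfl | rfl <;> simp [h11] at h ⊢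
    have h1 := Cfsg.Agent.Lib_helper4_OMinus.card_OMinus hF 2 (by norm_num) 1 1 hab
    have h2 : Nat.card (Cfsg.isometryGroup F (Cfsg.quadFormMinus 1 F 1 1)) = 120 :=
      h1.trans (by norm_num [Finset.prod_range_one])
    rw [h2, Nat.card_eq_fintype_card, Fintype.card_perm, Fintype.card_fin]
    decide
  exact ⟨MulEquiv.ofBijective ψ (hinj.bijective_of_nat_card_le hcard)⟩

end Cfsg.Agent.S0824
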