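import Cfsg.Statements.S0828
import Mathlib
import Cfsg.Agent.Lib_helper4_Sp

set_option autoImplicit false
open Cfsg

namespace Cfsg.Agent.S0828

open Cfsg.Agent.Lib_helper4_Sp

def fl {F : Type*} [Field F] (v : Fin 2 ⊕ Fin 2 → F) : (Fin 2 ⊕ Fin 2 → F) →ₗ[F] F where
  toFun w := Cfsg.sympForm 2 F v w
  map_add' := form_add_right v
  map_smul' := by
    intro c w
    simp [form_smul_right]

lemma fl_apply {F : Type*} [Field F] (v w : Fin 2 ⊕ Fin 2 → F) : fl v w = Cfsg.sympForm 2 F v w := rfl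

lemma fl_ne_zero {F : Type*} [Field F] (v : Fin 2 ⊕ Fin 2 → F) (hv : v ≠ 0) : fl v ≠ 0 := by
  obtain ⟨z, hz⟩ := exists_form_ne_zero v hv
  intro h
  apply hz
  rw [← fl_apply, h]; rfl

lemma card_diff {F : Type*} [Field F] [Finite F] (W S : Submodule F (Fin 2 ⊕ Fin 2 → F)) (h : S ≤ W) :
    Nat.card {w : Fin 2 ⊕ Fin 2 → F // w ∈ W ∧ w ∉ S}
      = Nat.card F ^ Module.finrank F W - Nat.card F ^ Module.finrank F S := by
  have h1 : Nat.card {w : Fin 2 ⊕ Fin 2 → F // w ∈ W ∧ w ∉ S}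
      = ((W : Set (Fin 2 ⊕ Fin 2 → F)) \ (S : Set (Fin 2 ⊕ Fin 2 → F))).ncard := by
    rw [← Nat.card_coe_set_eq]; rfl
  have h2 : Nat.card W = (W : Set (Fin 2 ⊕ Fin 2 → F)).ncard := by
    rw [← Nat.card_coe_set_eq]; rfl
  have h3 : Nat.card S = (S : Set (Fin 2 ⊕ Fin 2 → F)).ncard := by
    rw [← Nat.card_coe_set_eq]; rfl
  rw [h1, Set.ncard_diff h, ← h2, ← h3, Module.natCard_eq_pow_finrank (K := F) (V := W),
    Module.natCard_eq_pow_finrank (K := F) (V := S)]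

lemma finrank_ker {F : Type*} [Field F] (v : Fin 2 ⊕ Fin 2 → F) (hv : v ≠ 0) :
    Module.finrank F (LinearMap.ker (fl v)) = 3 := by
  have h := Module.Dual.finrank_ker_add_one_of_ne_zero (fl_ne_zero v hv)
  have h4 : Module.finrank F (Fin 2 ⊕ Fin 2 → F) = 4 := by
    rw [Module.finrank_fintype_fun_eq_card]; rfl
  omega

lemma finrank_pair {F : Type*} [Field F] (v w : Fin 2 ⊕ Fin 2 → F) (hv : v ≠ 0)
    (hw : w ∉ Submodule.span F {v}) :
    Module.finrank F (Submodule.span F {v, w}) = 2 := by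
  have hli : LinearIndependent F ![v, w] := by
    rw [LinearIndependent.pair_iff' hv]
    intro a ha
    apply hw
    rw [← ha]
    exact Submodule.smul_mem _ _ (Submodule.mem_span_singleton_self v)
  have := finrank_span_eq_card hli
  rw [Matrix.range_cons_cons_empty] at this
  simpa using this

lemma ti_pair {F : Type*} [Field F] (v w : Fin 2 ⊕ Fin 2 → F) (h : Cfsg.sympForm 2 F v w = 0) :
    ∀ u ∈ Submodule.span F {v, w}, ∀ x ∈ Submodule.span F {v, w}, Cfsg.sympForm 2 F u x = 0 := by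
  intro u hu x hx
  obtain ⟨a, b, rfl⟩ := Submodule.mem_span_pair.mp hu
  obtain ⟨c, d, rfl⟩ := Submodule.mem_span_pair.mp hx
  have h' : Cfsg.sympForm 2 F w v = 0 := by rw [form_swap, h, neg_zero]
  simp only [form_add_left, form_add_right, form_smul_left, form_smul_right, form_self, h, h']
  ring

lemma arithA (q N : ℕ) (hq : 2 ≤ q) (h : q ^ 3 - q = N * (q ^ 2 - q)) : N = q + 1 := by
  obtain ⟨k, rfl⟩ : ∃ k, q = k + 2 := ⟨q - 2, by omega⟩
  have e1 : (k + 2) ^ 2 - (k + 2) = (k + 2) * (k + 1) := by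
    apply Nat.sub_eq_of_eq_add; ring
  have e2 : (k + 2) ^ 3 - (k + 2) = (k + 2 + 1) * ((k + 2) * (k + 1)) := by
    apply Nat.sub_eq_of_eq_add; ring
  rw [e1, e2] at h
  exact (Nat.eq_of_mul_eq_mul_right (by positivity) h).symm

lemma arithB (q N : ℕ) (hq : 2 ≤ q) (h : (q ^ 4 - 1) * (q + 1) = N * (q ^ 2 - 1)) :
    N = (q + 1) * (q ^ 2 + 1) := by
  obtain ⟨k, rfl⟩ : ∃ k, q = k + 2 := ⟨q - 2, by omega⟩
  have e1 : (k + 2) ^ 2 - 1 = (k + 1) * (k + 3) := by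
    apply Nat.sub_eq_of_eq_add; ring
  have e2 : (k + 2) ^ 4 - 1 = ((k + 2) ^ 2 + 1) * ((k + 1) * (k + 3)) := by
    apply Nat.sub_eq_of_eq_add; ring
  rw [e1, e2] at h
  have h' : ((k + 2 + 1) * ((k + 2) ^ 2 + 1)) * ((k + 1) * (k + 3)) = N * ((k + 1) * (k + 3)) := by
    rw [← h]; ring
  exact (Nat.eq_of_mul_eq_mul_right (by positivity) h').symm


/-- The symplectic generalised quadrangle over a field with q elements: the number of 2-dimensional subspaces of F^4 on which the symplectic form vanishes is (q + 1)(q² + 1), and every non-zero vector lies in exactly q + 1 of them. -/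
theorem result {F : Type*} [Field F] [Fintype F] {q : ℕ} (hF : Fintype.card F = q) : Nat.card {W : Submodule F (Fin 2 ⊕ Fin 2 → F) // Module.finrank F W = 2 ∧ ∀ u ∈ W, ∀ v ∈ W, Cfsg.sympForm 2 F u v = 0} = (q + 1) * (q ^ 2 + 1) ∧ ∀ v : Fin 2 ⊕ Fin 2 → F, v ≠ 0 → Nat.card {W : Submodule F (Fin 2 ⊕ Fin 2 → F) // Module.finrank F W = 2 ∧ v ∈ W ∧ ∀ u ∈ W, ∀ w ∈ W, Cfsg.sympForm 2 F u w = 0} = q + 1 := by
  subst hF
  have hq : Nat.card F = Fintype.card F := Nat.card_eq_fintype_card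
  have hq2 : 2 ≤ Fintype.card F := Fintype.one_lt_card
  have hA : ∀ v : Fin 2 ⊕ Fin 2 → F, v ≠ 0 → Nat.card {W : Submodule F (Fin 2 ⊕ Fin 2 → F) // Module.finrank F W = 2 ∧ v ∈ W ∧ ∀ u ∈ W, ∀ w ∈ W, Cfsg.sympForm 2 F u w = 0} = Fintype.card F + 1 := by
    intro v hv
    have hvker : Submodule.span F {v} ≤ LinearMap.ker (fl v) := by
      rw [Submodule.span_singleton_le_iff_mem, LinearMap.mem_ker, fl_apply, form_self]
    have hcA : Nat.card {w : Fin 2 ⊕ Fin 2 → F // w ∈ LinearMap.ker (fl v) ∧ w ∉ Submodule.span F {v}} = Fintype.card F ^ 3 - Fintype.card F := by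
      rw [card_diff _ _ hvker, finrank_ker v hv, finrank_span_singleton hv, hq, pow_one]
    let f : {w : Fin 2 ⊕ Fin 2 → F // w ∈ LinearMap.ker (fl v) ∧ w ∉ Submodule.span F {v}} → {W : Submodule F (Fin 2 ⊕ Fin 2 → F) // Module.finrank F W = 2 ∧ v ∈ W ∧ ∀ u ∈ W, ∀ w ∈ W, Cfsg.sympForm 2 F u w = 0} :=
      fun a => ⟨Submodule.span F {v, a.1}, finrank_pair v a.1 hv a.2.2, Submodule.subset_span (by simp),
        ti_pair v a.1 a.2.1⟩
    have hfib : ∀ b : {W : Submodule F (Fin 2 ⊕ Fin 2 → F) // Module.finrank F W = 2 ∧ v ∈ W ∧ ∀ u ∈ W, ∀ w ∈ W, Cfsg.sympForm 2 F u w = 0}, Nat.card {a // f a = b} = Fintype.card F ^ 2 - Fintype.card F := by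
      intro b
      have hvb : Submodule.span F {v} ≤ b.1 := by
        rw [Submodule.span_singleton_le_iff_mem]; exact b.2.2.1
      have := card_diff b.1 (Submodule.span F {v}) hvb
      rw [b.2.1, finrank_span_singleton hv, hq, pow_one] at this
      rw [← this]
      refine Nat.card_congr
        { toFun := fun a => ⟨a.1.1, ?_, a.1.2.2⟩
          invFun := fun w => ⟨⟨w.1, b.2.2.2 v b.2.2.1 w.1 w.2.1, w.2.2⟩, ?_⟩
          left_inv := fun a => rfl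
          right_inv := fun w => rfl }
      · have h1 := a.2
        have h2 : Submodule.span F {v, a.1.1} = b.1 := congrArg Subtype.val h1
        rw [← h2]
        exact Submodule.subset_span (by simp)
      · apply Subtype.ext
        show Submodule.span F {v, w.1} = b.1
        apply Submodule.eq_of_le_of_finrank_eq
        · rw [Submodule.span_le]
          intro x hx
          rcases hx with rfl | rfl
          · exact b.2.2.1
          · exact w.2.1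
        · rw [finrank_pair v w.1 hv w.2.2, b.2.1]
    haveI : Fintype {W : Submodule F (Fin 2 ⊕ Fin 2 → F) // Module.finrank F W = 2 ∧ v ∈ W ∧ ∀ u ∈ W, ∀ w ∈ W, Cfsg.sympForm 2 F u w = 0} := Fintype.ofFinite _
    have hsum := Nat.card_congr (Equiv.sigmaFiberEquiv f)
    rw [Nat.card_sigma, hcA] at hsum
    simp only [hfib, Finset.sum_const, Finset.card_univ, smul_eq_mul] at hsum
    rw [Nat.card_eq_fintype_card]
    exact arithA _ _ hq2 hsum.symm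
  refine ⟨?_, hA⟩
  haveI : Fintype {W : Submodule F (Fin 2 ⊕ Fin 2 → F) // Module.finrank F W = 2 ∧ ∀ u ∈ W, ∀ v ∈ W, Cfsg.sympForm 2 F u v = 0} := Fintype.ofFinite _
  haveI : Fintype {v : Fin 2 ⊕ Fin 2 → F // v ∈ (⊤ : Submodule F (Fin 2 ⊕ Fin 2 → F)) ∧ v ∉ (⊥ : Submodule F (Fin 2 ⊕ Fin 2 → F))} := Fintype.ofFinite _
  have e : (Σ v : {v : Fin 2 ⊕ Fin 2 → F // v ∈ (⊤ : Submodule F (Fin 2 ⊕ Fin 2 → F)) ∧ v ∉ (⊥ : Submodule F (Fin 2 ⊕ Fin 2 → F))}, {W : Submodule F (Fin 2 ⊕ Fin 2 → F) // Module.finrank F W = 2 ∧ v.1 ∈ W ∧ ∀ u ∈ W, ∀ w ∈ W, Cfsg.sympForm 2 F u w = 0}) ≃ (Σ W : {W : Submodule F (Fin 2 ⊕ Fin 2 → F) // Module.finrank F W = 2 ∧ ∀ u ∈ W, ∀ v ∈ W, Cfsg.sympForm 2 F u v = 0}, {v : Fin 2 ⊕ Fin 2 → F // v ∈ W.1 ∧ v ∉ (⊥ : Submodule F (Fin 2 ⊕ Fin 2 → F))}) :=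
    { toFun := fun p => ⟨⟨p.2.1, p.2.2.1, p.2.2.2.2⟩, ⟨p.1.1, p.2.2.2.1, p.1.2.2⟩⟩
      invFun := fun p => ⟨⟨p.2.1, Submodule.mem_top, p.2.2.2⟩, ⟨p.1.1, p.1.2.1, p.2.2.1, p.1.2.2⟩⟩
      left_inv := fun p => rfl
      right_inv := fun p => rfl }
  have h1 := Nat.card_congr e
  rw [Nat.card_sigma, Nat.card_sigma] at h1
  have hL : ∀ v : {v : Fin 2 ⊕ Fin 2 → F // v ∈ (⊤ : Submodule F (Fin 2 ⊕ Fin 2 → F)) ∧ v ∉ (⊥ : Submodule F (Fin 2 ⊕ Fin 2 → F))}, Nat.card {W : Submodule F (Fin 2 ⊕ Fin 2 → F) // Module.finrank F W = 2 ∧ v.1 ∈ W ∧ ∀ u ∈ W, ∀ w ∈ W, Cfsg.sympForm 2 F u w = 0} = Fintype.card F + 1 := by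
    intro v
    exact hA v.1 (by simpa using v.2.2)
  have hR : ∀ W : {W : Submodule F (Fin 2 ⊕ Fin 2 → F) // Module.finrank F W = 2 ∧ ∀ u ∈ W, ∀ v ∈ W, Cfsg.sympForm 2 F u v = 0}, Nat.card {v : Fin 2 ⊕ Fin 2 → F // v ∈ W.1 ∧ v ∉ (⊥ : Submodule F (Fin 2 ⊕ Fin 2 → F))} = Fintype.card F ^ 2 - 1 := by
    intro W
    rw [card_diff _ _ bot_le, W.2.1, finrank_bot, hq, pow_zero]
  have hc : Fintype.card {v : Fin 2 ⊕ Fin 2 → F // v ∈ (⊤ : Submodule F (Fin 2 ⊕ Fin 2 → F)) ∧ v ∉ (⊥ : Submodule F (Fin 2 ⊕ Fin 2 → F))} = Fintype.card F ^ 4 - 1 := by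
    rw [← Nat.card_eq_fintype_card, card_diff _ _ bot_le, finrank_top, finrank_bot, hq, pow_zero,
      Module.finrank_fintype_fun_eq_card]
    rfl
  simp only [hL, hR, Finset.sum_const, Finset.card_univ, smul_eq_mul, hc] at h1
  rw [Nat.card_eq_fintype_card]
  exact arithB _ _ hq2 h1

end Cfsg.Agent.S0828
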