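import Cfsg.Statements.S0829
import Mathlib
import Cfsg.Agent.Lib_helper4_Herm
import Cfsg.Agent.Lib_helper4_HermCount

set_option autoImplicit false
open Cfsg

namespace Cfsg.Agent.S0829

open Cfsg.Agent.Lib_helper4_Herm Cfsg.Agent.Lib_helper4_HermCount

section Gen
variable {F : Type*} [Field F] [Fintype F] {q : ℕ}

theorem q_two (hF : Fintype.card F = q ^ 2) : 2 ≤ q := by
  have h1 : 1 < Fintype.card F := Fintype.one_lt_card
  rw [hF] at h1
  by_contra h
  have h2 : q ≤ 1 := by omega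
  have h3 : q ^ 2 ≤ 1 ^ 2 := Nat.pow_le_pow_left h2 2
  omega

theorem roots_le [DecidableEq F] (hF : Fintype.card F = q ^ 2) (c μ : F) :
    ((Finset.univ : Finset F).filter (fun t => t ^ q + c * t = μ)).card ≤ q := by
  have hq := q_two hF
  let p : Polynomial F := Polynomial.X ^ q + (Polynomial.C c * Polynomial.X - Polynomial.C μ)
  have hdeg : p.natDegree = q := by
    have h1 : (Polynomial.C c * Polynomial.X - Polynomial.C μ : Polynomial F).natDegree
        < (Polynomial.X ^ q : Polynomial F).natDegree := by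
      rw [Polynomial.natDegree_X_pow]
      have h2 : (Polynomial.C c * Polynomial.X - Polynomial.C μ : Polynomial F).natDegree ≤ 1 := by
        refine (Polynomial.natDegree_sub_le _ _).trans ?_
        rw [Polynomial.natDegree_C, max_eq_left (Nat.zero_le _)]
        exact (Polynomial.natDegree_C_mul_le c _).trans Polynomial.natDegree_X_le
      omega
    rw [Polynomial.natDegree_add_eq_left_of_natDegree_lt h1, Polynomial.natDegree_X_pow]
  have hp0 : p ≠ 0 := by
    intro h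
    rw [h, Polynomial.natDegree_zero] at hdeg
    omega
  have hsub : (Finset.univ : Finset F).filter (fun t => t ^ q + c * t = μ) ⊆ p.roots.toFinset := by
    intro t ht
    rw [Finset.mem_filter] at ht
    rw [Multiset.mem_toFinset, Polynomial.mem_roots hp0, Polynomial.IsRoot.def]
    simp only [p, Polynomial.eval_add, Polynomial.eval_pow, Polynomial.eval_X, Polynomial.eval_sub,
      Polynomial.eval_mul, Polynomial.eval_C]
    rw [← add_sub_assoc, ht.2, sub_self]
  calc _ ≤ p.roots.toFinset.card := Finset.card_le_card hsub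
    _ ≤ Multiset.card p.roots := Multiset.toFinset_card_le _
    _ ≤ p.natDegree := Polynomial.card_roots' p
    _ = q := hdeg

theorem trace_fiber (hF : Fintype.card F = q ^ 2) (μ : F) (hμ : μ ^ q = μ) :
    Nat.card {s : F // s + s ^ q = μ} = q := by
  classical
  have hq := q_two hF
  rw [Nat.card_eq_fintype_card, Fintype.card_subtype]
  have hScard : ((Finset.univ : Finset F).filter (fun x : F => x ^ q + (-1) * x = 0)).card ≤ q :=
    roots_le hF (-1) 0
  have hmem : μ ∈ (Finset.univ : Finset F).filter (fun x : F => x ^ q + (-1) * x = 0) := by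
    rw [Finset.mem_filter]
    refine ⟨Finset.mem_univ _, ?_⟩
    rw [hμ]
    ring
  have hmaps : ∀ t ∈ (Finset.univ : Finset F),
      t + t ^ q ∈ (Finset.univ : Finset F).filter (fun x : F => x ^ q + (-1) * x = 0) := by
    intro t _
    rw [Finset.mem_filter]
    refine ⟨Finset.mem_univ _, ?_⟩
    rw [frob_add hF, frob_frob hF]
    ring
  have hsum := Finset.card_eq_sum_card_fiberwise hmaps
  rw [Finset.card_univ, hF] at hsum
  have hle : ∀ b ∈ (Finset.univ : Finset F).filter (fun x : F => x ^ q + (-1) * x = 0),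
      ((Finset.univ : Finset F).filter (fun t => t + t ^ q = b)).card ≤ q := by
    intro b _
    have h1 := roots_le hF 1 b
    have e : (Finset.univ : Finset F).filter (fun t => t + t ^ q = b)
        = Finset.univ.filter (fun t => t ^ q + 1 * t = b) := by
      apply Finset.filter_congr
      intro t _
      rw [one_mul, add_comm]
    rw [e]
    exact h1
  by_contra hne
  have hlt : ((Finset.univ : Finset F).filter (fun t => t + t ^ q = μ)).card < q :=
    lt_of_le_of_ne (hle μ hmem) hne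
  have h1 := Finset.sum_lt_sum hle ⟨μ, hmem, hlt⟩
  rw [Finset.sum_const, smul_eq_mul, ← hsum] at h1
  have h2 : ((Finset.univ : Finset F).filter (fun x : F => x ^ q + (-1) * x = 0)).card * q ≤ q * q :=
    Nat.mul_le_mul_right q hScard
  nlinarith

end Gen

section Gen2
variable {F : Type*} [Field F] [Fintype F] {q : ℕ} {n : ℕ}

/-- The linear functional `w ↦ h(w, v)`. -/
def fl (q : ℕ) (v : Fin n → F) : (Fin n → F) →ₗ[F] F where
  toFun w := Cfsg.hermForm n F q w v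
  map_add' w w' := herm_add_left w w' v
  map_smul' c w := by
    rw [herm_smul_left]
    rfl

theorem fl_apply (v w : Fin n → F) : fl q v w = Cfsg.hermForm n F q w v := rfl

theorem fl_ne_zero (v : Fin n → F) (hv : v ≠ 0) : fl q v ≠ 0 := by
  classical
  obtain ⟨i, hi⟩ : ∃ i, v i ≠ 0 := by
    by_contra hcon
    apply hv
    funext i
    by_contra hi
    exact hcon ⟨i, hi⟩
  intro h
  have h1 : fl q v (Pi.single i 1) = 0 := by
    rw [h]
    rfl
  rw [fl_apply] at h1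
  unfold Cfsg.hermForm at h1
  rw [Finset.sum_eq_single i] at h1
  · rw [Pi.single_eq_same, one_mul] at h1
    exact hi (by
      by_contra hne
      exact (pow_ne_zero q hne) h1)
  · intro j _ hj
    rw [Pi.single_eq_of_ne hj, zero_mul]
  · intro hi'
    exact absurd (Finset.mem_univ i) hi'

theorem card_perp (hF : Fintype.card F = q ^ 2) (v : Fin n → F) (hv : v ≠ 0) :
    Nat.card {w : Fin n → F // Cfsg.hermForm n F q w v = 0} * q ^ 2 = (q ^ 2) ^ n := by
  have h := Module.Dual.finrank_ker_add_one_of_ne_zero (fl_ne_zero (q := q) v hv)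
  have hn : Module.finrank F (Fin n → F) = n := by
    rw [Module.finrank_fintype_fun_eq_card, Fintype.card_fin]
  have e : {w : Fin n → F // Cfsg.hermForm n F q w v = 0} ≃ LinearMap.ker (fl q v) :=
    Equiv.subtypeEquivRight (fun w => by
      rw [LinearMap.mem_ker]
      rfl)
  rw [Nat.card_congr e, Module.natCard_eq_pow_finrank (K := F) (V := LinearMap.ker (fl q v)),
    Nat.card_eq_fintype_card, hF]
  conv_rhs => rw [show n = Module.finrank F ↥(LinearMap.ker (fl q v)) + 1 by omega]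
  exact (pow_succ _ _).symm

theorem expand (hF : Fintype.card F = q ^ 2) (v w : Fin n → F)
    (hv : Cfsg.hermForm n F q v v = 0) (t : F) :
    Cfsg.hermForm n F q (w + t • v) (w + t • v)
      = Cfsg.hermForm n F q w w
        + (t ^ q * Cfsg.hermForm n F q w v + t * (Cfsg.hermForm n F q w v) ^ q) := by
  rw [herm_add_left, herm_add_right hF, herm_add_right hF, herm_smul_left, herm_smul_left,
    herm_smul_right, herm_smul_right, hv, herm_conj hF w v]
  ring

theorem count_t [DecidableEq F] (hF : Fintype.card F = q ^ 2) (v w : Fin n → F)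
    (hv : Cfsg.hermForm n F q v v = 0) :
    Nat.card {t : F // Cfsg.hermForm n F q (w + t • v) (w + t • v) = 0}
      = if Cfsg.hermForm n F q w v = 0 then
          (if Cfsg.hermForm n F q w w = 0 then q ^ 2 else 0) else q := by
  have hq := q_two hF
  by_cases ha : Cfsg.hermForm n F q w v = 0
  · rw [if_pos ha]
    have hex : ∀ t : F, Cfsg.hermForm n F q (w + t • v) (w + t • v) = Cfsg.hermForm n F q w w := by
      intro t
      rw [expand hF v w hv, ha, zero_pow (by omega), mul_zero, mul_zero, add_zero, add_zero]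
    by_cases hw : Cfsg.hermForm n F q w w = 0
    · rw [if_pos hw, Nat.card_congr (Equiv.subtypeUnivEquiv (fun t => by rw [hex, hw])),
        Nat.card_eq_fintype_card, hF]
    · rw [if_neg hw, Nat.card_eq_zero]
      left
      constructor
      rintro ⟨t, ht⟩
      rw [hex] at ht
      exact hw ht
  · rw [if_neg ha]
    have haq : (Cfsg.hermForm n F q w v) ^ q ≠ 0 := pow_ne_zero _ ha
    have hμ : (-(Cfsg.hermForm n F q w w)) ^ q = -(Cfsg.hermForm n F q w w) := by
      rw [frob_neg hF, herm_conj hF]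
    refine Eq.trans ?_ (trace_fiber hF _ hμ)
    apply Nat.card_congr
    refine (Equiv.mulRight₀ _ haq).subtypeEquiv ?_
    intro t
    rw [expand hF v w hv]
    show _ ↔ t * (Cfsg.hermForm n F q w v) ^ q + (t * (Cfsg.hermForm n F q w v) ^ q) ^ q = _
    rw [mul_pow, frob_frob hF]
    constructor
    · intro h
      linear_combination h
    · intro h
      linear_combination h

theorem perp_count (hF : Fintype.card F = q ^ 2) (v : Fin n → F)
    (hv : Cfsg.hermForm n F q v v = 0) :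
    q ^ 2 * Nat.card {w : Fin n → F // Cfsg.hermForm n F q w v = 0 ∧ Cfsg.hermForm n F q w w = 0}
      + q * Nat.card {w : Fin n → F // ¬ Cfsg.hermForm n F q w v = 0}
      = q ^ 2 * N F q n 0 := by
  classical
  have e1 : {p : (Fin n → F) × F // Cfsg.hermForm n F q (p.1 + p.2 • v) (p.1 + p.2 • v) = 0}
      ≃ {u : Fin n → F // Cfsg.hermForm n F q u u = 0} × F :=
    { toFun := fun p => (⟨p.1.1 + p.1.2 • v, p.2⟩, p.1.2)
      invFun := fun p => ⟨(p.1.1 - p.2 • v, p.2), by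
        show Cfsg.hermForm n F q (p.1.1 - p.2 • v + p.2 • v) (p.1.1 - p.2 • v + p.2 • v) = 0
        rw [sub_add_cancel]
        exact p.1.2⟩
      left_inv := fun p => by
        apply Subtype.ext
        apply Prod.ext
        · show p.1.1 + p.1.2 • v - p.1.2 • v = p.1.1
          rw [add_sub_cancel_right]
        · rfl
      right_inv := fun p => by
        apply Prod.ext
        · apply Subtype.ext
          show p.1.1 - p.2 • v + p.2 • v = p.1.1
          rw [sub_add_cancel]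
        · rfl }
  have e2 : {p : (Fin n → F) × F // Cfsg.hermForm n F q (p.1 + p.2 • v) (p.1 + p.2 • v) = 0}
      ≃ Σ w : Fin n → F, {t : F // Cfsg.hermForm n F q (w + t • v) (w + t • v) = 0} :=
    { toFun := fun p => ⟨p.1.1, ⟨p.1.2, p.2⟩⟩
      invFun := fun p => ⟨(p.1, p.2.1), p.2.2⟩
      left_inv := fun p => rfl
      right_inv := fun p => rfl }
  have h1 := Nat.card_congr (e1.symm.trans e2)
  rw [Nat.card_prod, Nat.card_sigma] at h1
  rw [Finset.sum_congr rfl (fun w _ => count_t hF v w hv)] at h1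
  rw [Finset.sum_ite, Finset.sum_ite, Finset.sum_const, Finset.sum_const, Finset.sum_const,
    smul_eq_mul, smul_eq_mul, smul_eq_mul, mul_zero, add_zero, Finset.filter_filter] at h1
  rw [Nat.card_eq_fintype_card (α := F), hF] at h1
  rw [Nat.card_eq_fintype_card, Nat.card_eq_fintype_card, Fintype.card_subtype, Fintype.card_subtype]
  unfold N
  linarith

end Gen2

section Gen3
variable {F : Type*} [Field F] [Fintype F] {q : ℕ} {n : ℕ}

theorem card_diff' (W S : Submodule F (Fin n → F)) (h : S ≤ W) :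
    Nat.card {w : Fin n → F // w ∈ W ∧ w ∉ S}
      = Nat.card F ^ Module.finrank F W - Nat.card F ^ Module.finrank F S := by
  have h1 : Nat.card {w : Fin n → F // w ∈ W ∧ w ∉ S}
      = ((W : Set (Fin n → F)) \ (S : Set (Fin n → F))).ncard := by
    rw [← Nat.card_coe_set_eq]; rfl
  have h2 : Nat.card W = (W : Set (Fin n → F)).ncard := by
    rw [← Nat.card_coe_set_eq]; rfl
  have h3 : Nat.card S = (S : Set (Fin n → F)).ncard := by
    rw [← Nat.card_coe_set_eq]; rfl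
  rw [h1, Set.ncard_diff h, ← h2, ← h3, Module.natCard_eq_pow_finrank (K := F) (V := W),
    Module.natCard_eq_pow_finrank (K := F) (V := S)]

theorem finrank_pair (v w : Fin n → F) (hv : v ≠ 0)
    (hw : w ∉ Submodule.span F {v}) :
    Module.finrank F (Submodule.span F {v, w}) = 2 := by
  have hli : LinearIndependent F ![v, w] := by
    rw [LinearIndependent.pair_iff' hv]
    intro a ha
    apply hw
    rw [← ha]
    exact Submodule.smul_mem _ _ (Submodule.mem_span_singleton_self v)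
  have := finrank_span_eq_card hli
  rw [Matrix.range_cons_cons_empty] at this
  simpa using this

theorem ti_pair (hF : Fintype.card F = q ^ 2) (v w : Fin n → F)
    (hv : Cfsg.hermForm n F q v v = 0) (hw : Cfsg.hermForm n F q w w = 0)
    (hwv : Cfsg.hermForm n F q w v = 0) :
    ∀ u ∈ Submodule.span F {v, w}, ∀ x ∈ Submodule.span F {v, w},
      Cfsg.hermForm n F q u x = 0 := by
  have hq := q_two hF
  have hvw : Cfsg.hermForm n F q v w = 0 := by
    rw [← herm_conj hF w v, hwv, zero_pow (by omega)]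
  intro u hu x hx
  obtain ⟨a, b, rfl⟩ := Submodule.mem_span_pair.mp hu
  obtain ⟨c, d, rfl⟩ := Submodule.mem_span_pair.mp hx
  simp only [herm_add_left, herm_add_right hF, herm_smul_left, herm_smul_right, hv, hw, hwv, hvw]
  ring

theorem perV (hF : Fintype.card F = q ^ 2) (v : Fin n → F) (hv0 : v ≠ 0)
    (hv : Cfsg.hermForm n F q v v = 0) :
    Nat.card {W : Submodule F (Fin n → F) // Module.finrank F W = 2 ∧ v ∈ W ∧
        ∀ u ∈ W, ∀ w ∈ W, Cfsg.hermForm n F q u w = 0} * ((q ^ 2) ^ 2 - q ^ 2) + q ^ 2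
      = Nat.card {w : Fin n → F // Cfsg.hermForm n F q w v = 0 ∧ Cfsg.hermForm n F q w w = 0} := by
  classical
  have hq := q_two hF
  have hcardF : Nat.card F = q ^ 2 := by rw [Nat.card_eq_fintype_card, hF]
  have hD : Nat.card {w : Fin n → F // (Cfsg.hermForm n F q w v = 0 ∧ Cfsg.hermForm n F q w w = 0)
        ∧ w ∉ Submodule.span F {v}} + q ^ 2
      = Nat.card {w : Fin n → F // Cfsg.hermForm n F q w v = 0 ∧ Cfsg.hermForm n F q w w = 0} := by
    have hsub : (Submodule.span F {v} : Set (Fin n → F))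
        ⊆ {w | Cfsg.hermForm n F q w v = 0 ∧ Cfsg.hermForm n F q w w = 0} := by
      intro w hw
      obtain ⟨a, rfl⟩ := Submodule.mem_span_singleton.mp hw
      exact ⟨by rw [herm_smul_left, hv, mul_zero],
        by rw [herm_smul_left, herm_smul_right, hv, mul_zero, mul_zero]⟩
    have h1 := Set.ncard_sdiff_add_ncard_of_subset hsub (Set.toFinite _)
    have h2 : Nat.card {w : Fin n → F // (Cfsg.hermForm n F q w v = 0 ∧ Cfsg.hermForm n F q w w = 0)
          ∧ w ∉ Submodule.span F {v}}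
        = ({w | Cfsg.hermForm n F q w v = 0 ∧ Cfsg.hermForm n F q w w = 0}
            \ (Submodule.span F {v} : Set (Fin n → F))).ncard := by
      rw [← Nat.card_coe_set_eq]; rfl
    have h3 : Nat.card {w : Fin n → F // Cfsg.hermForm n F q w v = 0 ∧ Cfsg.hermForm n F q w w = 0}
        = ({w | Cfsg.hermForm n F q w v = 0 ∧ Cfsg.hermForm n F q w w = 0} : Set (Fin n → F)).ncard := by
      rw [← Nat.card_coe_set_eq]; rfl
    have h4 : ((Submodule.span F {v} : Submodule F (Fin n → F)) : Set (Fin n → F)).ncard = q ^ 2 := by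
      have h5 : Nat.card (Submodule.span F {v} : Submodule F (Fin n → F))
          = ((Submodule.span F {v} : Submodule F (Fin n → F)) : Set (Fin n → F)).ncard := by
        rw [← Nat.card_coe_set_eq]; rfl
      rw [← h5, Module.natCard_eq_pow_finrank (K := F) (V := Submodule.span F {v}),
        finrank_span_singleton hv0, pow_one, hcardF]
    rw [h2, h3, ← h4]
    exact h1
  let f : {w : Fin n → F // (Cfsg.hermForm n F q w v = 0 ∧ Cfsg.hermForm n F q w w = 0)
        ∧ w ∉ Submodule.span F {v}} →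
      {W : Submodule F (Fin n → F) // Module.finrank F W = 2 ∧ v ∈ W ∧
        ∀ u ∈ W, ∀ w ∈ W, Cfsg.hermForm n F q u w = 0} :=
    fun a => ⟨Submodule.span F {v, a.1}, finrank_pair v a.1 hv0 a.2.2,
      Submodule.subset_span (by simp), ti_pair hF v a.1 hv a.2.1.2 a.2.1.1⟩
  have hfib : ∀ b : {W : Submodule F (Fin n → F) // Module.finrank F W = 2 ∧ v ∈ W ∧
        ∀ u ∈ W, ∀ w ∈ W, Cfsg.hermForm n F q u w = 0},
      Nat.card {a // f a = b} = (q ^ 2) ^ 2 - q ^ 2 := by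
    intro b
    have hvb : Submodule.span F {v} ≤ b.1 := by
      rw [Submodule.span_singleton_le_iff_mem]
      exact b.2.2.1
    have := card_diff' b.1 (Submodule.span F {v}) hvb
    rw [b.2.1, finrank_span_singleton hv0, hcardF, pow_one] at this
    rw [← this]
    refine Nat.card_congr
      { toFun := fun a => ⟨a.1.1, ?_, a.1.2.2⟩
        invFun := fun w => ⟨⟨w.1, ⟨b.2.2.2 w.1 w.2.1 v b.2.2.1, b.2.2.2 w.1 w.2.1 w.1 w.2.1⟩,
          w.2.2⟩, ?_⟩
        left_inv := fun a => rfl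
        right_inv := fun w => rfl }
    · have h1 := a.2
      have h2 : Submodule.span F {v, a.1.1} = b.1 := congrArg Subtype.val h1
      rw [← h2]
      exact Submodule.subset_span (by simp)
    · apply Subtype.ext
      show Submodule.span F {v, w.1} = b.1
      apply Submodule.eq_of_le_of_finrank_eq
      · rw [Submodule.span_le]
        intro x hx
        rcases hx with rfl | rfl
        · exact b.2.2.1
        · exact w.2.1
      · rw [finrank_pair v w.1 hv0 w.2.2, b.2.1]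
  haveI : Fintype {W : Submodule F (Fin n → F) // Module.finrank F W = 2 ∧ v ∈ W ∧
        ∀ u ∈ W, ∀ w ∈ W, Cfsg.hermForm n F q u w = 0} := Fintype.ofFinite _
  have hsum := Nat.card_congr (Equiv.sigmaFiberEquiv f)
  rw [Nat.card_sigma] at hsum
  simp only [hfib, Finset.sum_const, Finset.card_univ, smul_eq_mul] at hsum
  rw [← hD, ← hsum, Nat.card_eq_fintype_card]

theorem perp_count' (hF : Fintype.card F = q ^ 2) (v : Fin n → F) (hv0 : v ≠ 0)
    (hv : Cfsg.hermForm n F q v v = 0) :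
    ∃ c1 : ℕ, q ^ 2 * Nat.card {w : Fin n → F // Cfsg.hermForm n F q w v = 0 ∧
        Cfsg.hermForm n F q w w = 0} + q * c1 = q ^ 2 * N F q n 0 ∧
      c1 * q ^ 2 + (q ^ 2) ^ n = (q ^ 2) ^ n * q ^ 2 := by
  classical
  refine ⟨_, perp_count hF v hv, ?_⟩
  have h1 := card_perp hF v hv0
  have h2 : Nat.card {w : Fin n → F // ¬ Cfsg.hermForm n F q w v = 0}
      + Nat.card {w : Fin n → F // Cfsg.hermForm n F q w v = 0} = (q ^ 2) ^ n := by
    rw [Nat.card_eq_fintype_card, Nat.card_eq_fintype_card, Fintype.card_subtype,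
      Fintype.card_subtype, add_comm, Finset.card_filter_add_card_filter_not, Finset.card_univ,
      Fintype.card_pi, Finset.prod_const, Finset.card_univ, Fintype.card_fin, hF]
  rw [← h2, add_mul, h1, h2]

theorem total (hF : Fintype.card F = q ^ 2) (a : ℕ)
    (ha : ∀ v : Fin n → F, v ≠ 0 → Cfsg.hermForm n F q v v = 0 →
      Nat.card {W : Submodule F (Fin n → F) // Module.finrank F W = 2 ∧ v ∈ W ∧
        ∀ u ∈ W, ∀ w ∈ W, Cfsg.hermForm n F q u w = 0} = a) :
    Nat.card {W : Submodule F (Fin n → F) // Module.finrank F W = 2 ∧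
        ∀ u ∈ W, ∀ v ∈ W, Cfsg.hermForm n F q u v = 0} * ((q ^ 2) ^ 2 - 1) + a
      = N F q n 0 * a := by
  classical
  have hq := q_two hF
  have hcardF : Nat.card F = q ^ 2 := by rw [Nat.card_eq_fintype_card, hF]
  haveI : Fintype {W : Submodule F (Fin n → F) // Module.finrank F W = 2 ∧
        ∀ u ∈ W, ∀ v ∈ W, Cfsg.hermForm n F q u v = 0} := Fintype.ofFinite _
  have e : (Σ v : {v : Fin n → F // Cfsg.hermForm n F q v v = 0 ∧ v ≠ 0},
        {W : Submodule F (Fin n → F) // Module.finrank F W = 2 ∧ v.1 ∈ W ∧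
          ∀ u ∈ W, ∀ w ∈ W, Cfsg.hermForm n F q u w = 0})
      ≃ (Σ W : {W : Submodule F (Fin n → F) // Module.finrank F W = 2 ∧
          ∀ u ∈ W, ∀ v ∈ W, Cfsg.hermForm n F q u v = 0},
        {v : Fin n → F // v ∈ W.1 ∧ v ∉ (⊥ : Submodule F (Fin n → F))}) :=
    { toFun := fun p => ⟨⟨p.2.1, p.2.2.1, p.2.2.2.2⟩, ⟨p.1.1, p.2.2.2.1, by
        rw [Submodule.mem_bot]
        exact p.1.2.2⟩⟩
      invFun := fun p => ⟨⟨p.2.1, p.1.2.2 _ p.2.2.1 _ p.2.2.1, by
        have := p.2.2.2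
        rw [Submodule.mem_bot] at this
        exact this⟩, ⟨p.1.1, p.1.2.1, p.2.2.1, p.1.2.2⟩⟩
      left_inv := fun p => rfl
      right_inv := fun p => rfl }
  have h1 := Nat.card_congr e
  rw [Nat.card_sigma, Nat.card_sigma] at h1
  have hL : ∀ v : {v : Fin n → F // Cfsg.hermForm n F q v v = 0 ∧ v ≠ 0},
      Nat.card {W : Submodule F (Fin n → F) // Module.finrank F W = 2 ∧ v.1 ∈ W ∧
          ∀ u ∈ W, ∀ w ∈ W, Cfsg.hermForm n F q u w = 0} = a :=
    fun v => ha v.1 v.2.2 v.2.1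
  have hR : ∀ W : {W : Submodule F (Fin n → F) // Module.finrank F W = 2 ∧
          ∀ u ∈ W, ∀ v ∈ W, Cfsg.hermForm n F q u v = 0},
      Nat.card {v : Fin n → F // v ∈ W.1 ∧ v ∉ (⊥ : Submodule F (Fin n → F))} = (q ^ 2) ^ 2 - 1 := by
    intro W
    rw [card_diff' _ _ bot_le, W.2.1, finrank_bot, hcardF, pow_zero]
  have hc : Fintype.card {v : Fin n → F // Cfsg.hermForm n F q v v = 0 ∧ v ≠ 0} + 1 = N F q n 0 := by
    unfold N
    have hsub : ({0} : Set (Fin n → F)) ⊆ {w | Cfsg.hermForm n F q w w = 0} := by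
      intro w hw
      rw [Set.mem_singleton_iff] at hw
      subst hw
      show Cfsg.hermForm n F q 0 0 = 0
      unfold Cfsg.hermForm
      simp
    have h2 := Set.ncard_sdiff_add_ncard_of_subset hsub (Set.toFinite _)
    rw [Set.ncard_singleton] at h2
    have h3 : Nat.card {v : Fin n → F // Cfsg.hermForm n F q v v = 0 ∧ v ≠ 0}
        = ({w | Cfsg.hermForm n F q w w = 0} \ ({0} : Set (Fin n → F))).ncard := by
      rw [← Nat.card_coe_set_eq]; rfl
    have h4 : Nat.card {v : Fin n → F // Cfsg.hermForm n F q v v = 0}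
        = ({w | Cfsg.hermForm n F q w w = 0} : Set (Fin n → F)).ncard := by
      rw [← Nat.card_coe_set_eq]; rfl
    rw [← Nat.card_eq_fintype_card, h3, h4]
    exact h2
  simp only [hL, hR, Finset.sum_const, Finset.card_univ, smul_eq_mul] at h1
  rw [Nat.card_eq_fintype_card, ← h1, ← hc]
  ring

end Gen3

theorem arith4A (q N0 f0 c1 A : ℕ) (hq : 2 ≤ q)
    (hN : (q : ℤ) * (N0 : ℤ) = (q : ℤ) ^ 8 + (q : ℤ) ^ 5 - (q : ℤ) ^ 4)
    (h1 : c1 * q ^ 2 + (q ^ 2) ^ 4 = (q ^ 2) ^ 4 * q ^ 2)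
    (h2 : q ^ 2 * f0 + q * c1 = q ^ 2 * N0)
    (h3 : A * ((q ^ 2) ^ 2 - q ^ 2) + q ^ 2 = f0) : A = q + 1 := by
  have hZ : (2 : ℤ) ≤ (q : ℤ) := by exact_mod_cast hq
  have hZ0 : (q : ℤ) ≠ 0 := by linarith
  have hle : q ^ 2 ≤ (q ^ 2) ^ 2 := by nlinarith [Nat.pos_of_ne_zero (by omega : q ≠ 0)]
  zify at h1 h2
  zify [hle] at h3
  have hc1 : (c1 : ℤ) = (q : ℤ) ^ 8 - (q : ℤ) ^ 6 := by
    have h : (q : ℤ) ^ 2 * (c1 : ℤ) = (q : ℤ) ^ 2 * ((q : ℤ) ^ 8 - (q : ℤ) ^ 6) := by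
      linear_combination h1
    exact mul_left_cancel₀ (pow_ne_zero 2 hZ0) h
  have hf0 : (f0 : ℤ) = (q : ℤ) ^ 5 + (q : ℤ) ^ 4 - (q : ℤ) ^ 3 := by
    have h : (q : ℤ) ^ 3 * (f0 : ℤ) = (q : ℤ) ^ 3 * ((q : ℤ) ^ 5 + (q : ℤ) ^ 4 - (q : ℤ) ^ 3) := by
      linear_combination (q : ℤ) * h2 + (q : ℤ) ^ 2 * hN - (q : ℤ) ^ 2 * hc1
    exact mul_left_cancel₀ (pow_ne_zero 3 hZ0) h
  have hpos : (0 : ℤ) < (q : ℤ) ^ 4 - (q : ℤ) ^ 2 := by
    have h : (q : ℤ) ^ 4 - (q : ℤ) ^ 2 = (q : ℤ) ^ 2 * (((q : ℤ) - 1) * ((q : ℤ) + 1)) := by ring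
    rw [h]
    exact mul_pos (by positivity) (mul_pos (by linarith) (by linarith))
  have hA : ((q : ℤ) ^ 4 - (q : ℤ) ^ 2) * (A : ℤ) = ((q : ℤ) ^ 4 - (q : ℤ) ^ 2) * ((q : ℤ) + 1) := by
    linear_combination h3 + hf0
  have hA' := mul_left_cancel₀ (ne_of_gt hpos) hA
  exact_mod_cast hA'

theorem arith4B (q N0 T : ℕ) (hq : 2 ≤ q)
    (hN : (q : ℤ) * (N0 : ℤ) = (q : ℤ) ^ 8 + (q : ℤ) ^ 5 - (q : ℤ) ^ 4)
    (h4 : T * ((q ^ 2) ^ 2 - 1) + (q + 1) = N0 * (q + 1)) : T = (q + 1) * (q ^ 3 + 1) := by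
  have hZ : (2 : ℤ) ≤ (q : ℤ) := by exact_mod_cast hq
  have hZ0 : (q : ℤ) ≠ 0 := by linarith
  have hle : 1 ≤ (q ^ 2) ^ 2 := Nat.one_le_pow _ _ (by positivity)
  zify [hle] at h4
  have hN0 : (N0 : ℤ) = (q : ℤ) ^ 7 + (q : ℤ) ^ 4 - (q : ℤ) ^ 3 := by
    have h : (q : ℤ) * (N0 : ℤ) = (q : ℤ) * ((q : ℤ) ^ 7 + (q : ℤ) ^ 4 - (q : ℤ) ^ 3) := by
      linear_combination hN
    exact mul_left_cancel₀ hZ0 h
  have hpos : (0 : ℤ) < (q : ℤ) ^ 4 - 1 := by
    have h : (q : ℤ) ^ 4 - 1 = ((q : ℤ) ^ 2 + 1) * (((q : ℤ) - 1) * ((q : ℤ) + 1)) := by ring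
    rw [h]
    exact mul_pos (by positivity) (mul_pos (by linarith) (by linarith))
  have hT : ((q : ℤ) ^ 4 - 1) * (T : ℤ)
      = ((q : ℤ) ^ 4 - 1) * (((q : ℤ) + 1) * ((q : ℤ) ^ 3 + 1)) := by
    linear_combination h4 + ((q : ℤ) + 1) * hN0
  have hT' := mul_left_cancel₀ (ne_of_gt hpos) hT
  exact_mod_cast hT'

theorem arith5A (q N0 f0 c1 A : ℕ) (hq : 2 ≤ q)
    (hN : (q : ℤ) * (N0 : ℤ) = (q : ℤ) ^ 10 - (q : ℤ) ^ 6 + (q : ℤ) ^ 5)
    (h1 : c1 * q ^ 2 + (q ^ 2) ^ 5 = (q ^ 2) ^ 5 * q ^ 2)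
    (h2 : q ^ 2 * f0 + q * c1 = q ^ 2 * N0)
    (h3 : A * ((q ^ 2) ^ 2 - q ^ 2) + q ^ 2 = f0) : A = q ^ 3 + 1 := by
  have hZ : (2 : ℤ) ≤ (q : ℤ) := by exact_mod_cast hq
  have hZ0 : (q : ℤ) ≠ 0 := by linarith
  have hle : q ^ 2 ≤ (q ^ 2) ^ 2 := by nlinarith [Nat.pos_of_ne_zero (by omega : q ≠ 0)]
  zify at h1 h2
  zify [hle] at h3
  have hc1 : (c1 : ℤ) = (q : ℤ) ^ 10 - (q : ℤ) ^ 8 := by
    have h : (q : ℤ) ^ 2 * (c1 : ℤ) = (q : ℤ) ^ 2 * ((q : ℤ) ^ 10 - (q : ℤ) ^ 8) := by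
      linear_combination h1
    exact mul_left_cancel₀ (pow_ne_zero 2 hZ0) h
  have hf0 : (f0 : ℤ) = (q : ℤ) ^ 7 - (q : ℤ) ^ 5 + (q : ℤ) ^ 4 := by
    have h : (q : ℤ) ^ 3 * (f0 : ℤ) = (q : ℤ) ^ 3 * ((q : ℤ) ^ 7 - (q : ℤ) ^ 5 + (q : ℤ) ^ 4) := by
      linear_combination (q : ℤ) * h2 + (q : ℤ) ^ 2 * hN - (q : ℤ) ^ 2 * hc1
    exact mul_left_cancel₀ (pow_ne_zero 3 hZ0) h
  have hpos : (0 : ℤ) < (q : ℤ) ^ 4 - (q : ℤ) ^ 2 := by
    have h : (q : ℤ) ^ 4 - (q : ℤ) ^ 2 = (q : ℤ) ^ 2 * (((q : ℤ) - 1) * ((q : ℤ) + 1)) := by ring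
    rw [h]
    exact mul_pos (by positivity) (mul_pos (by linarith) (by linarith))
  have hA : ((q : ℤ) ^ 4 - (q : ℤ) ^ 2) * (A : ℤ)
      = ((q : ℤ) ^ 4 - (q : ℤ) ^ 2) * ((q : ℤ) ^ 3 + 1) := by
    linear_combination h3 + hf0
  have hA' := mul_left_cancel₀ (ne_of_gt hpos) hA
  exact_mod_cast hA'

theorem arith5B (q N0 T : ℕ) (hq : 2 ≤ q)
    (hN : (q : ℤ) * (N0 : ℤ) = (q : ℤ) ^ 10 - (q : ℤ) ^ 6 + (q : ℤ) ^ 5)
    (h4 : T * ((q ^ 2) ^ 2 - 1) + (q ^ 3 + 1) = N0 * (q ^ 3 + 1)) :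
    T = (q ^ 3 + 1) * (q ^ 5 + 1) := by
  have hZ : (2 : ℤ) ≤ (q : ℤ) := by exact_mod_cast hq
  have hZ0 : (q : ℤ) ≠ 0 := by linarith
  have hle : 1 ≤ (q ^ 2) ^ 2 := Nat.one_le_pow _ _ (by positivity)
  zify [hle] at h4
  have hN0 : (N0 : ℤ) = (q : ℤ) ^ 9 - (q : ℤ) ^ 5 + (q : ℤ) ^ 4 := by
    have h : (q : ℤ) * (N0 : ℤ) = (q : ℤ) * ((q : ℤ) ^ 9 - (q : ℤ) ^ 5 + (q : ℤ) ^ 4) := by
      linear_combination hN
    exact mul_left_cancel₀ hZ0 h
  have hpos : (0 : ℤ) < (q : ℤ) ^ 4 - 1 := by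
    have h : (q : ℤ) ^ 4 - 1 = ((q : ℤ) ^ 2 + 1) * (((q : ℤ) - 1) * ((q : ℤ) + 1)) := by ring
    rw [h]
    exact mul_pos (by positivity) (mul_pos (by linarith) (by linarith))
  have hT : ((q : ℤ) ^ 4 - 1) * (T : ℤ)
      = ((q : ℤ) ^ 4 - 1) * (((q : ℤ) ^ 3 + 1) * ((q : ℤ) ^ 5 + 1)) := by
    linear_combination h4 + ((q : ℤ) ^ 3 + 1) * hN0
  have hT' := mul_left_cancel₀ (ne_of_gt hpos) hT
  exact_mod_cast hT'

section Fin
variable {F : Type*} [Field F] [Fintype F] {q : ℕ}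

theorem main4 (hF : Fintype.card F = q ^ 2) :
    Nat.card {W : Submodule F (Fin 4 → F) // Module.finrank F W = 2 ∧
        ∀ u ∈ W, ∀ v ∈ W, Cfsg.hermForm 4 F q u v = 0} = (q + 1) * (q ^ 3 + 1) := by
  have hq := q_two hF
  have hN : (q : ℤ) * (N F q 4 0 : ℤ) = (q : ℤ) ^ 8 + (q : ℤ) ^ 5 - (q : ℤ) ^ 4 := by
    have h := (closed hF 4).2
    norm_num at h
    linear_combination h
  have hA : ∀ v : Fin 4 → F, v ≠ 0 → Cfsg.hermForm 4 F q v v = 0 →
      Nat.card {W : Submodule F (Fin 4 → F) // Module.finrank F W = 2 ∧ v ∈ W ∧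
        ∀ u ∈ W, ∀ w ∈ W, Cfsg.hermForm 4 F q u w = 0} = q + 1 := by
    intro v hv0 hv
    obtain ⟨c1, h2, h1⟩ := perp_count' hF v hv0 hv
    exact arith4A q _ _ c1 _ hq hN h1 h2 (perV hF v hv0 hv)
  exact arith4B q _ _ hq hN (total hF (q + 1) hA)

theorem main5 (hF : Fintype.card F = q ^ 2) :
    Nat.card {W : Submodule F (Fin 5 → F) // Module.finrank F W = 2 ∧
        ∀ u ∈ W, ∀ v ∈ W, Cfsg.hermForm 5 F q u v = 0} = (q ^ 3 + 1) * (q ^ 5 + 1) := by
  have hq := q_two hF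
  have hN : (q : ℤ) * (N F q 5 0 : ℤ) = (q : ℤ) ^ 10 - (q : ℤ) ^ 6 + (q : ℤ) ^ 5 := by
    have h := (closed hF 5).2
    norm_num at h
    linear_combination h
  have hA : ∀ v : Fin 5 → F, v ≠ 0 → Cfsg.hermForm 5 F q v v = 0 →
      Nat.card {W : Submodule F (Fin 5 → F) // Module.finrank F W = 2 ∧ v ∈ W ∧
        ∀ u ∈ W, ∀ w ∈ W, Cfsg.hermForm 5 F q u w = 0} = q ^ 3 + 1 := by
    intro v hv0 hv
    obtain ⟨c1, h2, h1⟩ := perp_count' hF v hv0 hv
    exact arith5A q _ _ c1 _ hq hN h1 h2 (perV hF v hv0 hv)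
  exact arith5B q _ _ hq hN (total hF (q ^ 3 + 1) hA)

end Fin

/-- The unitary quadrangle of PSU_4(q): with |F| = q², the number of 2-dimensional subspaces of F^4 on which the Hermitian form Σ x_i y_i^q vanishes is (q + 1)(q³ + 1). -/
theorem result {F : Type*} [Field F] [Fintype F] {q : ℕ} (hF : Fintype.card F = q ^ 2) : Nat.card {W : Submodule F (Fin 4 → F) // Module.finrank F W = 2 ∧ ∀ u ∈ W, ∀ v ∈ W, Cfsg.hermForm 4 F q u v = 0} = (q + 1) * (q ^ 3 + 1) := by
  exact main4 hF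

end Cfsg.Agent.S0829
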