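import Cfsg.Statements.S0831
import Mathlib
import Cfsg.Agent.Lib_helper4_TwoFam

set_option autoImplicit false
open Cfsg

namespace Cfsg.Agent.S0831

/-- The two families of maximal totally singular subspaces of the hyperbolic quadric: for the form Σ x_i y_i on F^(2m), m ≥ 1, and m-dimensional subspaces U, W, X on which it vanishes, the parities of m − dim(U ∩ W), m − dim(W ∩ X) and m − dim(U ∩ X) sum to an even number (so 'even codimension of the intersection' is an equivalence relation), and there exist two such subspaces meeting in codimension 1 (so there are exactly two classes). -/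
theorem result {F : Type*} [Field F] (m : ℕ) (hm : 1 ≤ m) : (∀ U W X : Submodule F (Fin m ⊕ Fin m → F), (Module.finrank F U = m ∧ ∀ w ∈ U, Cfsg.quadFormPlus m F w = 0) → (Module.finrank F W = m ∧ ∀ w ∈ W, Cfsg.quadFormPlus m F w = 0) → (Module.finrank F X = m ∧ ∀ w ∈ X, Cfsg.quadFormPlus m F w = 0) → Even ((m - Module.finrank F ↥(U ⊓ W)) + (m - Module.finrank F ↥(W ⊓ X)) + (m - Module.finrank F ↥(U ⊓ X)))) ∧ ∃ U W : Submodule F (Fin m ⊕ Fin m → F), (Module.finrank F U = m ∧ ∀ w ∈ U, Cfsg.quadFormPlus m F w = 0) ∧ (Module.finrank F W = m ∧ ∀ w ∈ W, Cfsg.quadFormPlus m F w = 0) ∧ Module.finrank F ↥(U ⊓ W) + 1 = m := by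
  classical
  have hQapp : ∀ v, Cfsg.Agent.Lib_helper4_OPlus.QP m F v = Cfsg.quadFormPlus m F v :=
    Cfsg.Agent.Lib_helper4_OPlus.QP_apply
  have hQ := Cfsg.Agent.Lib_helper4_TwoFam.QP_nondeg (F := F) m
  have hV := Cfsg.Agent.Lib_helper4_TwoFam.finrank_plus (F := F) m
  have conv : ∀ X : Submodule F (Fin m ⊕ Fin m → F),
      (Module.finrank F X = m ∧ ∀ w ∈ X, Cfsg.quadFormPlus m F w = 0) ↔
      Cfsg.Agent.Lib_helper4_TwoFam.MaxTS (Cfsg.Agent.Lib_helper4_OPlus.QP m F) m X := by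
    intro X
    unfold Cfsg.Agent.Lib_helper4_TwoFam.MaxTS
    simp only [hQapp]
  constructor
  · intro U W X hU hW hX
    exact Cfsg.Agent.Lib_helper4_TwoFam.parity _ hQ m hV _ U W X ((conv U).1 hU) ((conv W).1 hW)
      ((conv X).1 hX) rfl
  · obtain ⟨H, W₀, hHm, hW₀, hHW₀⟩ := Cfsg.Agent.Lib_helper4_TwoFam.exists_std (F := F) m hm
    obtain ⟨U, W, hU, hW, hUW⟩ := Cfsg.Agent.Lib_helper4_TwoFam.exists_adjacent _ hQ m hV H W₀ hHm
      hW₀ hHW₀
    exact ⟨U, W, (conv U).2 hU, (conv W).2 hW, hUW⟩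

end Cfsg.Agent.S0831
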