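import Cfsg.Statements.S0832
import Mathlib
import Cfsg.Agent.Lib_helper4_TwoMax
import Cfsg.Agent.Lib_helper4_OPlus

set_option autoImplicit false
open Cfsg

namespace Cfsg.Agent.S0832

/-- For the form Σ x_i y_i on F^(2m) over a finite field, m ≥ 1: an (m−1)-dimensional subspace on which the form vanishes is contained in exactly two m-dimensional subspaces on which it vanishes. -/
theorem result {F : Type*} [Field F] [Finite F] (m : ℕ) (hm : 1 ≤ m) (U : Submodule F (Fin m ⊕ Fin m → F)) (hU : Module.finrank F U + 1 = m ∧ ∀ u ∈ U, Cfsg.quadFormPlus m F u = 0) : Nat.card {W : Submodule F (Fin m ⊕ Fin m → F) // Module.finrank F W = m ∧ (∀ w ∈ W, Cfsg.quadFormPlus m F w = 0) ∧ U ≤ W} = 2 := by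
  classical
  have hQapp : ∀ v, Cfsg.Agent.Lib_helper4_OPlus.QP m F v = Cfsg.quadFormPlus m F v :=
    Cfsg.Agent.Lib_helper4_OPlus.QP_apply
  have hd := Cfsg.Agent.Lib_helper4_OPlus.hypData (F := F) (m := m)
  have hL : (Cfsg.Agent.Lib_helper4_WittQuad.pB (Cfsg.Agent.Lib_helper4_OPlus.QP m F)).SeparatingLeft := by
    intro x hx
    funext s
    rcases s with i | i
    · have := hx (Pi.single (Sum.inr i) 1)
      rw [Cfsg.Agent.Lib_helper4_WittQuad.B_comm, QuadraticMap.polarBilin_apply_apply,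
        hd.polar_b] at this
      exact this
    · have := hx (Pi.single (Sum.inl i) 1)
      rw [Cfsg.Agent.Lib_helper4_WittQuad.B_comm, QuadraticMap.polarBilin_apply_apply,
        hd.polar_a] at this
      exact this
  have hQ : (Cfsg.Agent.Lib_helper4_WittQuad.pB (Cfsg.Agent.Lib_helper4_OPlus.QP m F)).Nondegenerate := by
    refine ⟨hL, ?_⟩
    intro y hy
    apply hL
    intro x
    rw [Cfsg.Agent.Lib_helper4_WittQuad.B_comm]; exact hy x
  have hV : Module.finrank F (Fin m ⊕ Fin m → F) = 2 * m := by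
    simp [Module.finrank_fintype_fun_eq_card]; ring
  let φ : (Fin m → F) →ₗ[F] (Fin m ⊕ Fin m → F) :=
    { toFun := fun x => Sum.elim x 0
      map_add' := by
        intro x y; ext s
        rcases s with s | s <;> simp
      map_smul' := by
        intro a x; ext s
        rcases s with s | s <;> simp }
  have hφ : Function.Injective φ := by
    intro x y hxy
    ext j
    exact congrFun hxy (Sum.inl j)
  have hφQ : ∀ x, Cfsg.Agent.Lib_helper4_OPlus.QP m F (φ x) = 0 := by
    intro x; rw [hQapp]; simp [Cfsg.quadFormPlus, φ]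
  have hW₀m : Module.finrank F (LinearMap.range φ) = m := by
    rw [LinearMap.finrank_range_of_inj hφ, Module.finrank_fin_fun]
  have hUle : Module.finrank F U ≤ Module.finrank F (Fin m → F) := by
    rw [Module.finrank_fin_fun]; omega
  obtain ⟨j, hj⟩ := (finrank_le_iff_exists_linearMap (R := F) (M := U)
    (M' := (Fin m → F))).1 hUle
  let ψ : U →ₗ[F] (Fin m ⊕ Fin m → F) := φ ∘ₗ j
  have hψ : Function.Injective ψ := hφ.comp hj
  let e : U ≃ₗ[F] LinearMap.range ψ := LinearEquiv.ofInjective ψ hψ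
  obtain ⟨g, hgQ, hg⟩ := Cfsg.Agent.Lib_helper4_WittQuad.witt
    (Cfsg.Agent.Lib_helper4_OPlus.QP m F) hQ U (LinearMap.range ψ) e (by
      intro x
      show Cfsg.Agent.Lib_helper4_OPlus.QP m F (ψ x) = _
      rw [hQapp (x : Fin m ⊕ Fin m → F), hU.2 x x.2]
      exact hφQ (j x))
  have hW₁m : Module.finrank F ((LinearMap.range φ).map g.symm.toLinearMap) = m := by
    rw [LinearEquiv.finrank_map_eq, hW₀m]
  have hW₁s : ∀ w ∈ (LinearMap.range φ).map g.symm.toLinearMap,
      Cfsg.Agent.Lib_helper4_OPlus.QP m F w = 0 := by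
    rintro _ ⟨_, ⟨x, rfl⟩, rfl⟩
    have := hgQ (g.symm (φ x))
    rw [LinearEquiv.apply_symm_apply] at this
    simp only [LinearEquiv.coe_coe]
    rw [← this, hφQ]
  have hUW₁ : U ≤ (LinearMap.range φ).map g.symm.toLinearMap := by
    intro u hu
    refine ⟨g u, ?_, by simp⟩
    have := hg ⟨u, hu⟩
    simp only at this
    rw [this]
    exact ⟨j ⟨u, hu⟩, rfl⟩
  have h := Cfsg.Agent.Lib_helper4_TwoMax.card_two (Cfsg.Agent.Lib_helper4_OPlus.QP m F) hQ m hV U
    hU.1 (fun u hu => by rw [hQapp]; exact hU.2 u hu) _ hW₁m hW₁s hUW₁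
  simp only [hQapp] at h
  exact h

end Cfsg.Agent.S0832
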