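import Cfsg.Statements.S0834
import Mathlib
import Cfsg.Agent.Lib_helper4_SymDisc

set_option autoImplicit false
open Cfsg

namespace Cfsg.Agent.S0834

/-- Over a finite field with 2 ≠ 0: if B₁ on U (dim 2k, k ≥ 1) and B₂ on W (dim 2l, l ≥ 1) are non-degenerate symmetric forms admitting no totally isotropic subspaces of dimensions k, resp. l (minus type), then B₁ ⊗ B₂ admits a totally isotropic subspace of dimension 2kl (plus type). -/
theorem result {F U W : Type*} [Field F] [Fintype F] [AddCommGroup U] [Module F U] [FiniteDimensional F U] [AddCommGroup W] [Module F W] [FiniteDimensional F W] (h2 : (2 : F) ≠ 0) (B₁ : LinearMap.BilinForm F U) (B₂ : LinearMap.BilinForm F W) (h₁ : B₁.Nondegenerate) (h₂ : B₂.Nondegenerate) (hS₁ : B₁.IsSymm) (hS₂ : B₂.IsSymm) (k l : ℕ) (hk : 1 ≤ k) (hl : 1 ≤ l) (hU : Module.finrank F U = 2 * k) (hW : Module.finrank F W = 2 * l) (hm₁ : ¬ (∃ X : Submodule F (U), Module.finrank F X = k ∧ ∀ x ∈ X, ∀ y ∈ X, (B₁)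 x y = 0)) (hm₂ : ¬ (∃ X : Submodule F (W), Module.finrank F X = l ∧ ∀ x ∈ X, ∀ y ∈ X, (B₂) x y = 0)) : (∃ X : Submodule F (TensorProduct F U W), Module.finrank F X = 2 * k * l ∧ ∀ x ∈ X, ∀ y ∈ X, (B₁.tmul B₂) x y = 0) := by
  classical
  let b₁ := Module.finBasisOfFinrankEq F U hU
  let b₂ := Module.finBasisOfFinrankEq F W hW
  have hS : LinearMap.BilinForm.IsSymm (B₁.tmul B₂) :=
    LinearMap.BilinForm.isSymm_iff.2
      (LinearMap.IsSymm.tmul (LinearMap.BilinForm.isSymm_iff.1 hS₁)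
        (LinearMap.BilinForm.isSymm_iff.1 hS₂))
  have hdet := Cfsg.Agent.Lib_helper4_SymDisc.det_toMatrix_tmul B₁ B₂ b₁ b₂
  have hd₁ := (LinearMap.BilinForm.nondegenerate_iff_det_ne_zero b₁).1 h₁
  have hd₂ := (LinearMap.BilinForm.nondegenerate_iff_det_ne_zero b₂).1 h₂
  have hN : LinearMap.BilinForm.Nondegenerate (B₁.tmul B₂) := by
    refine (LinearMap.BilinForm.nondegenerate_iff_det_ne_zero (b₁.tensorProduct b₂)).2 ?_
    rw [hdet]
    exact mul_ne_zero (pow_ne_zero _ hd₁) (pow_ne_zero _ hd₂)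
  have hV : Module.finrank F (TensorProduct F U W) = 2 * (2 * k * l) := by
    rw [Module.finrank_tensorProduct, hU, hW]; ring
  exact Cfsg.Agent.Lib_helper4_SymDisc.exists_isotropic_of_isSquare h2 (B₁.tmul B₂) hS hN
    (b₁.tensorProduct b₂) (2 * k * l) hV (by
      rw [hdet]
      simp only [Fintype.card_fin]
      refine ⟨(-1) ^ (k * l) * ((LinearMap.BilinForm.toMatrix b₁ B₁).det ^ l
        * (LinearMap.BilinForm.toMatrix b₂ B₂).det ^ k), ?_⟩
      ring)

end Cfsg.Agent.S0834
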