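import Cfsg.Statements.S0835
import Mathlib
import Cfsg.Agent.Lib_helper4_SymDisc

set_option autoImplicit false
open Cfsg

namespace Cfsg.Agent.S0835

/-- Over a finite field with 2 ≠ 0: if B₁ on U (dim 2k, k ≥ 1) is non-degenerate symmetric of minus type (no totally isotropic k-subspace) and B₂ on W (dim 2l + 1) is non-degenerate symmetric, then B₁ ⊗ B₂ (dimension 2k(2l+1)) admits no totally isotropic subspace of dimension k(2l+1) (minus type). -/
theorem result {F U W : Type*} [Field F] [Fintype F] [AddCommGroup U] [Module F U] [FiniteDimensional F U] [AddCommGroup W] [Module F W] [FiniteDimensional F W] (h2 : (2 : F) ≠ 0) (B₁ : LinearMap.BilinForm F U) (B₂ : LinearMap.BilinForm F W) (h₁ : B₁.Nondegenerate) (h₂ : B₂.Nondegenerate) (hS₁ : B₁.IsSymm) (hS₂ : B₂.IsSymm) (k l : ℕ) (hk : 1 ≤ k) (hU : Module.finrank F U = 2 * k) (hW : Module.finrank F W = 2 * l + 1) (hm₁ : ¬ (∃ X : Submodule F (U), Module.finrank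 F X = k ∧ ∀ x ∈ X, ∀ y ∈ X, (B₁) x y = 0)) : ¬ (∃ X : Submodule F (TensorProduct F U W), Module.finrank F X = k * (2 * l + 1) ∧ ∀ x ∈ X, ∀ y ∈ X, (B₁.tmul B₂) x y = 0) := by
  classical
  rintro ⟨X, hX, h0⟩
  let b₁ := Module.finBasisOfFinrankEq F U hU
  let b₂ := Module.finBasisOfFinrankEq F W hW
  have hS : LinearMap.BilinForm.IsSymm (B₁.tmul B₂) :=
    LinearMap.BilinForm.isSymm_iff.2
      (LinearMap.IsSymm.tmul (LinearMap.BilinForm.isSymm_iff.1 hS₁)
        (LinearMap.BilinForm.isSymm_iff.1 hS₂))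
  have hdet := Cfsg.Agent.Lib_helper4_SymDisc.det_toMatrix_tmul B₁ B₂ b₁ b₂
  have hV : Module.finrank F (TensorProduct F U W) = 2 * (k * (2 * l + 1)) := by
    rw [Module.finrank_tensorProduct, hU, hW]; ring
  have hsq := Cfsg.Agent.Lib_helper4_SymDisc.isSquare_of_isotropic (B₁.tmul B₂) hS
    (b₁.tensorProduct b₂) (k * (2 * l + 1)) hV X hX h0
  rw [hdet] at hsq
  simp only [Fintype.card_fin] at hsq
  have hd₁ := (LinearMap.BilinForm.nondegenerate_iff_det_ne_zero b₁).1 h₁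
  have hd₂ := (LinearMap.BilinForm.nondegenerate_iff_det_ne_zero b₂).1 h₂
  apply hm₁
  apply Cfsg.Agent.Lib_helper4_SymDisc.exists_isotropic_of_isSquare h2 B₁ hS₁ h₁ b₁ k hU
  generalize (LinearMap.BilinForm.toMatrix b₁ B₁).det = d₁ at hsq hd₁ ⊢
  generalize (LinearMap.BilinForm.toMatrix b₂ B₂).det = d₂ at hsq hd₂
  obtain ⟨r, hr⟩ := hsq
  have hne : (-1 : F) ^ (k * l) * d₁ ^ l * d₂ ^ k ≠ 0 :=
    mul_ne_zero (mul_ne_zero (pow_ne_zero _ (neg_ne_zero.2 one_ne_zero)) (pow_ne_zero _ hd₁))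
      (pow_ne_zero _ hd₂)
  have key : (-1 : F) ^ k * d₁ * ((-1) ^ (k * l) * d₁ ^ l * d₂ ^ k) ^ 2 = r * r := by
    rw [← hr]; ring
  refine ⟨r / ((-1) ^ (k * l) * d₁ ^ l * d₂ ^ k), ?_⟩
  generalize (-1 : F) ^ (k * l) * d₁ ^ l * d₂ ^ k = t at hne key
  field_simp
  linear_combination key

end Cfsg.Agent.S0835
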