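import Cfsg.Statements.S0836
import Cfsg.Agent.Lib_helper4_SL

set_option autoImplicit false
open Cfsg

namespace Cfsg.Agent.S0836

open Matrix Matrix.SpecialLinearGroup in
open scoped commutatorElement MatrixGroups in
lemma comm_diag2_transvection_one_zero {F : Type*} [Field F] (a : F) (ha : a ≠ 0) (b c' : F)
    (hc : c' = b * (a ^ 2 - 1)) :
    ⁅diag2 a⁻¹ (inv_ne_zero ha), SpecialLinearGroup.transvection one_ne_zero b⁆ =
      (SpecialLinearGroup.transvection one_ne_zero c' : SL(2, F)) := by
  rw [commutatorElement_def, diag2_inv a⁻¹ (inv_ne_zero ha),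
    SpecialLinearGroup.transvection_inv one_ne_zero b]
  refine Subtype.ext <| Matrix.ext fun i j ↦ ?_
  fin_cases i <;> fin_cases j <;>
  simp [hc, SpecialLinearGroup.transvection_coe, diag2_coe, inv_inv, mul_add, add_mul,
    mul_inv_cancel₀ ha, inv_mul_cancel₀ ha, mul_comm a b, mul_assoc b a a, ← pow_two,
    mul_sub_one, ← sub_eq_add_neg]


/-- For i ≠ j and any scalar c, the elementary transvection 1 + c E_ij is a commutator ⁅g, h⁆ of two elements of SL_n(F) provided n ≥ 3, or n = 2 and F contains x ≠ 0 with x² ≠ 1. -/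
theorem result {F : Type*} [Field F] (n : ℕ) (hn : 3 ≤ n ∨ (n = 2 ∧ ∃ x : F, x ≠ 0 ∧ x ^ 2 ≠ 1)) (i j : Fin n) (hij : i ≠ j) (c : F) (t : Matrix.SpecialLinearGroup (Fin n) F) (ht : (t : Matrix (Fin n) (Fin n) F) = Matrix.transvection i j c) : t ∈ commutatorSet (Matrix.SpecialLinearGroup (Fin n) F) := by
  rcases hn with hn | ⟨rfl, a, ha, hasq⟩
  · have ht' : t = Matrix.SpecialLinearGroup.transvection hij c := Subtype.ext ht
    rw [ht']
    exact Cfsg.Agent.Lib_helper4_SL.transvection_mem_commutatorSet (by simpa using hn) hij c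
  · have hne : a ^ 2 - 1 ≠ 0 := sub_ne_zero_of_ne hasq
    have ht' : t = Matrix.SpecialLinearGroup.transvection hij c := Subtype.ext ht
    rw [ht']
    fin_cases i <;> fin_cases j
    · exact absurd rfl hij
    · exact ⟨_, _, Matrix.commutator_diag2_transvection a ha (c / (a ^ 2 - 1)) c
        (div_mul_cancel₀ c hne).symm⟩
    · exact ⟨_, _, comm_diag2_transvection_one_zero a ha (c / (a ^ 2 - 1)) c
        (div_mul_cancel₀ c hne).symm⟩
    · exact absurd rfl hij

end Cfsg.Agent.S0836
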