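import Cfsg.Statements.S0837
import Mathlib
import Cfsg.Agent.Lib_helper4_Herm
import Cfsg.Agent.Lib_helper4_GU
import Cfsg.Agent.Lib_helper4_SUCenter
import Cfsg.Agent.Lib_helper4_HermBasis
import Cfsg.Agent.Lib_helper4_WittHerm
import Cfsg.Agent.S0281

set_option autoImplicit false
open Cfsg

namespace Cfsg.Agent.S0837

open Matrix Module Cfsg.Agent.Lib_helper4_Herm Cfsg.Agent.Lib_helper4_GU
open Cfsg.Agent.S0281 (frob frob_apply)

section Abstract
variable {F : Type*} [Field F] [Finite F]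

theorem exists_compl {V : Type*} [AddCommGroup V] [Module F V] [FiniteDimensional F V]
    {σ : F →+* F} (B : V →ₛₗ[σ] V →ₗ[F] F) (hS : B.IsSymm) (hB : B.Nondegenerate)
    (hσ : σ ≠ RingHom.id F) (hσ2 : ∀ a : F, σ (σ a) = a) {k : ℕ} (e : Fin k → V)
    (he : ∀ i j, B (e i) (e j) = if i = j then 1 else 0) :
    ∀ j, k + j ≤ finrank F V → ∃ c : Fin j → V,
      (∀ i i', B (c i) (c i') = if i = i' then 1 else 0) ∧ ∀ a i, B (e a) (c i) = 0 := by
  intro j
  induction j with
  | zero => intro _; exact ⟨fun i => i.elim0, fun i => i.elim0, fun a i => i.elim0⟩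
  | succ j ih =>
    intro hj
    obtain ⟨c, hc1, hc2⟩ := ih (by omega)
    have horth : ∀ x y : Fin k ⊕ Fin j,
        B (Sum.elim e c x) (Sum.elim e c y) = if x = y then 1 else 0 := by
      rintro (a | i) (a' | i')
      · simp [he]
      · simp [hc2]
      · simp only [Sum.elim_inr, Sum.elim_inl]
        rw [← hS.eq, hc2, map_zero]
        simp
      · simp [hc1]
    have hsp : Submodule.span F (Set.range (Sum.elim e c)) ≠ ⊤ := by
      intro h
      have h1 := finrank_range_le_card (R := F) (Sum.elim e c)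
      have h2 : (Set.range (Sum.elim e c)).finrank F
          = finrank F (Submodule.span F (Set.range (Sum.elim e c))) := rfl
      rw [h2, h, finrank_top, Fintype.card_sum, Fintype.card_fin, Fintype.card_fin] at h1
      omega
    obtain ⟨v, hv1, hv2⟩ := Cfsg.Agent.Lib_helper4_WittHerm.exists_perp_unit B hS hB hσ hσ2
      (Sum.elim e c) horth hsp
    refine ⟨(Fin.snoc c v : Fin (j + 1) → V), ?_, ?_⟩
    · intro i i'
      induction i using Fin.lastCases with
      | last =>
        induction i' using Fin.lastCases with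
        | last => simp [hv1]
        | cast i' =>
          have := hv2 (Sum.inr i')
          simp only [Sum.elim_inr] at this
          rw [Fin.snoc_last, Fin.snoc_castSucc, ← hS.eq, this, map_zero,
            if_neg (Fin.castSucc_lt_last i').ne']
      | cast i =>
        induction i' using Fin.lastCases with
        | last =>
          have := hv2 (Sum.inr i)
          simp only [Sum.elim_inr] at this
          rw [Fin.snoc_last, Fin.snoc_castSucc, this, if_neg (Fin.castSucc_lt_last i).ne]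
        | cast i' =>
          rw [Fin.snoc_castSucc, Fin.snoc_castSucc, hc1]
          simp [Fin.castSucc_inj]
    · intro a i
      induction i using Fin.lastCases with
      | last => rw [Fin.snoc_last]; exact hv2 (Sum.inl a)
      | cast i => rw [Fin.snoc_castSucc]; exact hc2 a i

end Abstract

variable {F : Type*} [Field F] [Fintype F] {q : ℕ}

noncomputable def hB (hF : Fintype.card F = q ^ 2) (n : ℕ) :
    (Fin n → F) →ₛₗ[frob hF] (Fin n → F) →ₗ[F] F :=
  LinearMap.mk₂'ₛₗ (frob hF) (RingHom.id F) (fun x y => Cfsg.hermForm n F q y x)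
    (fun x₁ x₂ y => herm_add_right hF y x₁ x₂)
    (fun c x y => by rw [herm_smul_right, frob_apply, smul_eq_mul])
    (fun x y₁ y₂ => herm_add_left y₁ y₂ x)
    (fun c x y => by rw [herm_smul_left, RingHom.id_apply, smul_eq_mul])

theorem hB_apply (hF : Fintype.card F = q ^ 2) (n : ℕ) (x y : Fin n → F) :
    hB hF n x y = Cfsg.hermForm n F q y x := rfl

theorem hB_symm (hF : Fintype.card F = q ^ 2) (n : ℕ) : (hB hF n).IsSymm :=
  ⟨fun x y => by rw [hB_apply, hB_apply, frob_apply, herm_conj hF]⟩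

theorem hB_nondeg (hF : Fintype.card F = q ^ 2) (n : ℕ) : (hB hF n).Nondegenerate := by
  have hq : q ≠ 0 := by have := q_pos hF; omega
  constructor
  · intro x hx
    funext i
    have := hx (Pi.single i 1)
    rw [hB_apply, herm_single_left] at this
    exact (pow_eq_zero_iff hq).1 this
  · intro y hy
    funext i
    have := hy (Pi.single i 1)
    rw [hB_apply, herm_single_right hq] at this
    exact this

theorem frob_ne_id (hF : Fintype.card F = q ^ 2) : frob hF ≠ RingHom.id F := by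
  intro h
  have hq := Cfsg.Agent.Lib_helper4_SUCenter.two_le_q hF
  obtain ⟨g, hg⟩ := IsCyclic.exists_generator (α := Fˣ)
  have h1 : (g : F) ^ q = g := by
    have := congrArg (fun f : F →+* F => f (g : F)) h
    simpa [frob_apply] using this
  have h2 : g ^ (q - 1) = 1 := by
    apply Units.ext
    rw [Units.val_pow_eq_pow_val, Units.val_one]
    have : (g : F) ^ (q - 1) * g = 1 * g := by
      rw [← pow_succ, Nat.sub_add_cancel (by omega), h1, one_mul]
    exact mul_right_cancel₀ g.ne_zero this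
  have h3 := orderOf_dvd_of_pow_eq_one h2
  rw [orderOf_eq_card_of_forall_mem_zpowers hg, Nat.card_units, Nat.card_eq_fintype_card, hF] at h3
  have h4 := Nat.le_of_dvd (by omega) h3
  have h5 : q * q ≥ 2 * q := Nat.mul_le_mul_right q hq
  rw [sq] at h4
  omega

theorem pres_iff (hF : Fintype.card F = q ^ 2) {n : ℕ} (M : Matrix (Fin n) (Fin n) F) :
    (∀ u v, Cfsg.hermForm n F q (M *ᵥ u) (M *ᵥ v) = Cfsg.hermForm n F q u v) ↔
      Mᵀ * M.map (frob hF) = 1 := by
  have hq : q ≠ 0 := by have := q_pos hF; omega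
  have key : ∀ u v, Cfsg.hermForm n F q (M *ᵥ u) (M *ᵥ v)
      = u ⬝ᵥ ((Mᵀ * M.map (frob hF)) *ᵥ (fun i => v i ^ q)) := by
    intro u v
    have h1 : Cfsg.hermForm n F q (M *ᵥ u) (M *ᵥ v) = (M *ᵥ u) ⬝ᵥ (fun i => (M *ᵥ v) i ^ q) := rfl
    have h2 : (fun i => (M *ᵥ v) i ^ q) = (M.map (frob hF)) *ᵥ (fun i => v i ^ q) := by
      funext i
      simp only [Matrix.mulVec, dotProduct, Matrix.map_apply, frob_apply]
      rw [frob_sum hF]
      exact Finset.sum_congr rfl fun j _ => mul_pow _ _ _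
    rw [h1, h2, ← Matrix.mulVec_mulVec, Matrix.dotProduct_mulVec u Mᵀ, Matrix.vecMul_transpose]
  constructor
  · intro h
    ext j l
    have := h (Pi.single j 1) (Pi.single l 1)
    rw [key] at this
    have h3 : (fun i => (Pi.single l 1 : Fin n → F) i ^ q) = Pi.single l 1 := by
      funext i
      by_cases hil : i = l
      · subst hil; simp
      · simp [hil, hq]
    rw [h3, Matrix.mulVec_single_one, single_one_dotProduct, herm_single_left] at this
    rw [Matrix.one_apply]
    rw [show (Mᵀ * M.map (frob hF)) j l = (Mᵀ * M.map (frob hF)).col l j from rfl, this]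
    by_cases hjl : j = l
    · subst hjl; simp
    · simp [hjl, hq]
  · intro h u v
    rw [key, h, Matrix.one_mulVec]
    rfl

theorem exists_P (hF : Fintype.card F = q ^ 2) (n k : ℕ) (hk : k ≤ n)
    (W : Submodule F (Fin n → F)) (hWk : finrank F W = k)
    (hW : ∀ u ∈ W, (∀ v ∈ W, Cfsg.hermForm n F q u v = 0) → u = 0) :
    ∃ P : Matrix (Fin n) (Fin k ⊕ Fin (n - k)) F, Pᵀ * P.map (frob hF) = 1 ∧
      ∀ v, v ∈ W ↔ ∃ x : Fin k ⊕ Fin (n - k) → F, (∀ c, x (Sum.inr c) = 0) ∧ P *ᵥ x = v := by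
  subst hWk
  have hS := hB_symm hF n
  have hσ := frob_ne_id hF
  have hσ2 : ∀ a : F, frob hF (frob hF a) = a := fun a => frob_frob hF a
  have hsepR : ((hB hF n).domRestrict₁₂ W W).SeparatingRight := by
    intro y hy
    apply Subtype.ext
    apply hW y y.2
    intro v hv
    exact hy ⟨v, hv⟩
  have hS' := hS.domRestrict W
  have hsepL : ((hB hF n).domRestrict₁₂ W W).SeparatingLeft := by
    intro x hx
    apply hsepR
    intro y
    exact (hS'.eq_iff).1 (hx y)
  obtain ⟨b, hb⟩ := Cfsg.Agent.Lib_helper4_HermBasis.exists_orthonormal hσ hσ2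
    ((hB hF n).domRestrict₁₂ W W) hS' ⟨hsepL, hsepR⟩
  let e : Fin (finrank F W) → (Fin n → F) := fun i => (b i : Fin n → F)
  have he : ∀ i j, hB hF n (e i) (e j) = if i = j then 1 else 0 := fun i j => hb i j
  obtain ⟨c, hc1, hc2⟩ := exists_compl (hB hF n) hS (hB_nondeg hF n) hσ hσ2 e he
    (n - finrank F W) (by rw [finrank_fin_fun]; omega)
  let P : Matrix (Fin n) (Fin (finrank F W) ⊕ Fin (n - finrank F W)) F :=
    Matrix.of (fun i j => Sum.elim e c j i)
  refine ⟨P, ?_, ?_⟩
  · ext j j'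
    rw [Matrix.mul_apply]
    have : ∑ i, Pᵀ j i * (P.map (frob hF)) i j' = hB hF n (Sum.elim e c j') (Sum.elim e c j) := by
      rw [hB_apply]
      rfl
    rw [this, Matrix.one_apply]
    rcases j with a | i <;> rcases j' with a' | i'
    · rw [Sum.elim_inl, Sum.elim_inl, he]
      simp [eq_comm]
    · rw [Sum.elim_inl, Sum.elim_inr, ← hS.eq, hc2, map_zero]
      simp
    · rw [Sum.elim_inl, Sum.elim_inr, hc2]
      simp
    · rw [Sum.elim_inr, Sum.elim_inr, hc1]
      simp [eq_comm]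
  · have hPx : ∀ x : Fin (finrank F W) ⊕ Fin (n - finrank F W) → F,
        (∀ c, x (Sum.inr c) = 0) → P *ᵥ x = ∑ a, x (Sum.inl a) • e a := by
      intro x hx
      funext i
      simp [Matrix.mulVec, dotProduct, Fintype.sum_sum_type, hx, P, mul_comm]
    intro v
    constructor
    · intro hv
      refine ⟨Sum.elim (b.repr ⟨v, hv⟩) 0, fun c => rfl, ?_⟩
      rw [hPx _ (fun c => rfl)]
      have := congrArg Subtype.val (b.sum_repr ⟨v, hv⟩)
      rw [Submodule.coe_sum] at this
      simpa using this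
    · rintro ⟨x, hx, rfl⟩
      rw [hPx x hx]
      exact Submodule.sum_mem _ fun a _ => Submodule.smul_mem _ _ (b a).2

def conjHom {n k l : Type} [Fintype n] [Fintype k] [Fintype l] [DecidableEq n] [DecidableEq k]
    [DecidableEq l] (P : Matrix n (k ⊕ l) F) (Ps : Matrix (k ⊕ l) n F) (h1 : Ps * P = 1)
    (h2 : P * Ps = 1) : Matrix k k F × Matrix l l F →* Matrix n n F where
  toFun X := P * Matrix.fromBlocks X.1 0 0 X.2 * Ps
  map_one' := by
    simp only [Prod.fst_one, Prod.snd_one, Matrix.fromBlocks_one, Matrix.mul_one, h2]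
  map_mul' X Y := by
    have : P * Matrix.fromBlocks X.1 0 0 X.2 * Ps * (P * Matrix.fromBlocks Y.1 0 0 Y.2 * Ps)
        = P * (Matrix.fromBlocks X.1 0 0 X.2 * (Ps * P) * Matrix.fromBlocks Y.1 0 0 Y.2) * Ps := by
      simp only [Matrix.mul_assoc]
    simp only [Prod.fst_mul, Prod.snd_mul]
    rw [this, h1, Matrix.mul_one, Matrix.fromBlocks_multiply]
    simp

theorem block_stab {k l : Type} [Fintype k] [Fintype l] [DecidableEq k] [DecidableEq l]
    (A : Matrix k k F) (D D' : Matrix l l F) (hD : D' * D = 1) (y : k ⊕ l → F) :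
    (∀ c, y (Sum.inr c) = 0) ↔ ∀ c, (Matrix.fromBlocks A 0 0 D *ᵥ y) (Sum.inr c) = 0 := by
  have key : (fun c => (Matrix.fromBlocks A 0 0 D *ᵥ y) (Sum.inr c))
      = D *ᵥ (fun c => y (Sum.inr c)) := by
    funext c
    simp [Matrix.mulVec, dotProduct, Fintype.sum_sum_type]
  constructor
  · intro h c
    have h0 : (fun c => y (Sum.inr c)) = 0 := funext h
    have := congrFun key c
    rw [h0, Matrix.mulVec_zero] at this
    exact this
  · intro h c
    have h0 : D *ᵥ (fun c => y (Sum.inr c)) = 0 := by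
      rw [← key]
      exact funext h
    have h3 : (fun c => y (Sum.inr c)) = D' *ᵥ (D *ᵥ (fun c => y (Sum.inr c))) := by
      rw [Matrix.mulVec_mulVec, hD, Matrix.one_mulVec]
    rw [h0, Matrix.mulVec_zero] at h3
    exact congrFun h3 c

theorem main (hF : Fintype.card F = q ^ 2) (n k : ℕ) (hk : k ≤ n) (W : Submodule F (Fin n → F))
    (P : Matrix (Fin n) (Fin k ⊕ Fin (n - k)) F)
    (hP1 : Pᵀ * P.map (frob hF) = 1)
    (hP2 : ∀ v, v ∈ W ↔ ∃ x : Fin k ⊕ Fin (n - k) → F, (∀ c, x (Sum.inr c) = 0) ∧ P *ᵥ x = v) :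
    Nonempty (↥((Cfsg.stabilizing (Cfsg.glToMat (Fin n) F) (W : Set (Fin n → F))).subgroupOf
      (Cfsg.GU n F q)) ≃* ↥(Cfsg.GU k F q) × ↥(Cfsg.GU (n - k) F q)) := by
  classical
  have hσσ : ∀ a, frob hF (frob hF a) = a := fun a => frob_frob hF a
  have mapmap : ∀ {ι κ : Type} (M : Matrix ι κ F), (M.map (frob hF)).map (frob hF) = M := by
    intro ι κ M
    ext i j
    simp [hσσ]
  obtain ⟨Ps, hPs⟩ : ∃ Ps : Matrix (Fin k ⊕ Fin (n - k)) (Fin n) F, Ps = (P.map (frob hF))ᵀ :=
    ⟨_, rfl⟩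
  have h1 : Ps * P = 1 := by
    have := congrArg Matrix.transpose hP1
    rw [Matrix.transpose_mul, Matrix.transpose_transpose, Matrix.transpose_one] at this
    rw [hPs]
    exact this
  have e : (Fin k ⊕ Fin (n - k)) ≃ Fin n := finSumFinEquiv.trans (finCongr (by omega))
  have h2 : P * Ps = 1 := (Matrix.mul_eq_one_comm_of_equiv e).1 h1
  have h3 : P.map (frob hF) * Pᵀ = 1 := (Matrix.mul_eq_one_comm_of_equiv e).1 hP1
  have h4 : Ps.map (frob hF) = Pᵀ := by
    rw [hPs, Matrix.transpose_map, mapmap]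
  have h5 : Psᵀ = P.map (frob hF) := by
    rw [hPs, Matrix.transpose_transpose]
  have hW' : ∀ v, v ∈ W ↔ ∀ c, (Ps *ᵥ v) (Sum.inr c) = 0 := by
    intro v
    rw [hP2]
    constructor
    · rintro ⟨x, hx, rfl⟩
      rw [Matrix.mulVec_mulVec, h1, Matrix.one_mulVec]
      exact hx
    · intro h
      exact ⟨Ps *ᵥ v, h, by rw [Matrix.mulVec_mulVec, h2, Matrix.one_mulVec]⟩
  let Ψ : ↥(Cfsg.GU k F q) × ↥(Cfsg.GU (n - k) F q) →* GL (Fin n) F :=
    ((Units.map (conjHom P Ps h1 h2)).comp (MulEquiv.prodUnits.symm.toMonoidHom)).comp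
      (MonoidHom.prodMap (Cfsg.GU k F q).subtype (Cfsg.GU (n - k) F q).subtype)
  have hΨ : ∀ (A : ↥(Cfsg.GU k F q)) (D : ↥(Cfsg.GU (n - k) F q)),
      ((Ψ (A, D) : GL (Fin n) F) : Matrix (Fin n) (Fin n) F)
        = P * Matrix.fromBlocks ((A : GL (Fin k) F) : Matrix (Fin k) (Fin k) F) 0 0
          ((D : GL (Fin (n - k)) F) : Matrix (Fin (n - k)) (Fin (n - k)) F) * Ps := fun A D => rfl
  have cancel : ∀ X : Matrix (Fin k ⊕ Fin (n - k)) (Fin k ⊕ Fin (n - k)) F,
      Ps * (P * X * Ps) * P = X := by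
    intro X
    calc Ps * (P * X * Ps) * P = (Ps * P) * X * (Ps * P) := by simp only [Matrix.mul_assoc]
      _ = X := by rw [h1, Matrix.one_mul, Matrix.mul_one]
  have hinj : Function.Injective Ψ := by
    rintro ⟨A, D⟩ ⟨A', D'⟩ h
    have h' := congrArg (fun g : GL (Fin n) F => Ps * (g : Matrix (Fin n) (Fin n) F) * P) h
    simp only [hΨ] at h'
    rw [cancel, cancel, Matrix.fromBlocks_inj] at h'
    obtain ⟨hA, -, -, hD⟩ := h'
    exact Prod.ext (Subtype.ext (Units.ext hA)) (Subtype.ext (Units.ext hD))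
  have hrange : Ψ.range = Cfsg.stabilizing (Cfsg.glToMat (Fin n) F) (W : Set (Fin n → F)) ⊓
      Cfsg.GU n F q := by
    ext g
    constructor
    · rintro ⟨⟨A, D⟩, rfl⟩
      have hA : ((A : GL (Fin k) F) : Matrix (Fin k) (Fin k) F)ᵀ *
          ((A : GL (Fin k) F) : Matrix (Fin k) (Fin k) F).map (frob hF) = 1 :=
        (pres_iff hF _).1 ((mem_GU_iff _).1 A.2)
      have hD : ((D : GL (Fin (n - k)) F) : Matrix (Fin (n - k)) (Fin (n - k)) F)ᵀ *
          ((D : GL (Fin (n - k)) F) : Matrix (Fin (n - k)) (Fin (n - k)) F).map (frob hF) = 1 :=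
        (pres_iff hF _).1 ((mem_GU_iff _).1 D.2)
      obtain ⟨X, hX⟩ : ∃ X : Matrix (Fin k ⊕ Fin (n - k)) (Fin k ⊕ Fin (n - k)) F,
        X = Matrix.fromBlocks ((A : GL (Fin k) F) : Matrix (Fin k) (Fin k) F) 0 0
          ((D : GL (Fin (n - k)) F) : Matrix (Fin (n - k)) (Fin (n - k)) F) := ⟨_, rfl⟩
      have hXu : Xᵀ * X.map (frob hF) = 1 := by
        rw [hX, Matrix.fromBlocks_transpose, Matrix.fromBlocks_map, Matrix.fromBlocks_multiply]
        simp [hA, hD, Matrix.fromBlocks_one]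
      have hM : ((Ψ (A, D) : GL (Fin n) F) : Matrix (Fin n) (Fin n) F) = P * X * Ps := by
        rw [hΨ, hX]
      constructor
      · intro v
        change v ∈ W ↔ ((Ψ (A, D) : GL (Fin n) F) : Matrix (Fin n) (Fin n) F) *ᵥ v ∈ W
        rw [hW', hW', hM, Matrix.mulVec_mulVec]
        have : Ps * (P * X * Ps) = X * Ps := by
          calc Ps * (P * X * Ps) = (Ps * P) * X * Ps := by simp only [Matrix.mul_assoc]
            _ = X * Ps := by rw [h1, Matrix.one_mul]
        rw [this, ← Matrix.mulVec_mulVec, hX]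
        have hDinv : (((D⁻¹ : ↥(Cfsg.GU (n - k) F q)) : GL (Fin (n - k)) F) :
            Matrix (Fin (n - k)) (Fin (n - k)) F) *
            ((D : GL (Fin (n - k)) F) : Matrix (Fin (n - k)) (Fin (n - k)) F) = 1 := by
          rw [← Units.val_mul, ← Subgroup.coe_mul, inv_mul_cancel]
          rfl
        exact block_stab _ _ _ hDinv _
      · refine (mem_GU_iff _).2 ((pres_iff hF _).2 ?_)
        rw [hM]
        rw [Matrix.transpose_mul, Matrix.transpose_mul, Matrix.map_mul, Matrix.map_mul, h4, h5]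
        calc P.map (frob hF) * (Xᵀ * Pᵀ) * (P.map (frob hF) * X.map (frob hF) * Pᵀ)
            = P.map (frob hF) * (Xᵀ * (Pᵀ * P.map (frob hF)) * X.map (frob hF)) * Pᵀ := by
              simp only [Matrix.mul_assoc]
          _ = 1 := by rw [hP1, Matrix.mul_one, hXu, Matrix.mul_one, h3]
    · rintro ⟨hg1, hg2⟩
      have hg : ((g : Matrix (Fin n) (Fin n) F))ᵀ * (g : Matrix (Fin n) (Fin n) F).map (frob hF)
          = 1 := (pres_iff hF _).1 ((mem_GU_iff _).1 hg2)
      obtain ⟨X, hX⟩ : ∃ X : Matrix (Fin k ⊕ Fin (n - k)) (Fin k ⊕ Fin (n - k)) F,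
        X = Ps * (g : Matrix (Fin n) (Fin n) F) * P := ⟨_, rfl⟩
      have hXu : Xᵀ * X.map (frob hF) = 1 := by
        rw [hX, Matrix.transpose_mul, Matrix.transpose_mul, Matrix.map_mul, Matrix.map_mul, h4, h5]
        calc Pᵀ * ((g : Matrix (Fin n) (Fin n) F)ᵀ * P.map (frob hF)) *
              (Pᵀ * (g : Matrix (Fin n) (Fin n) F).map (frob hF) * P.map (frob hF))
            = Pᵀ * ((g : Matrix (Fin n) (Fin n) F)ᵀ * (P.map (frob hF) * Pᵀ) *
                (g : Matrix (Fin n) (Fin n) F).map (frob hF)) * P.map (frob hF) := by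
              simp only [Matrix.mul_assoc]
          _ = 1 := by rw [h3, Matrix.mul_one, hg, Matrix.mul_one, hP1]
      have hXs : X * (X.map (frob hF))ᵀ = 1 := by
        have := congrArg Matrix.transpose hXu
        rw [Matrix.transpose_mul, Matrix.transpose_transpose, Matrix.transpose_one] at this
        exact mul_eq_one_comm.1 this
      have hstab : ∀ y : Fin k ⊕ Fin (n - k) → F,
          (∀ c, y (Sum.inr c) = 0) ↔ (∀ c, (X *ᵥ y) (Sum.inr c) = 0) := by
        intro y
        have := hg1 (P *ᵥ y)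
        change P *ᵥ y ∈ W ↔ (g : Matrix (Fin n) (Fin n) F) *ᵥ (P *ᵥ y) ∈ W at this
        rw [hW', hW', Matrix.mulVec_mulVec, h1, Matrix.one_mulVec, Matrix.mulVec_mulVec,
          Matrix.mulVec_mulVec, ← hX] at this
        exact this
      have h21 : ∀ c a, X (Sum.inr c) (Sum.inl a) = 0 := by
        intro c a
        have := (hstab (Pi.single (Sum.inl a) 1)).1 (fun c => by simp) c
        rw [Matrix.mulVec_single_one] at this
        exact this
      have h12 : ∀ a c, X (Sum.inl a) (Sum.inr c) = 0 := by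
        intro a c
        have := (hstab ((X.map (frob hF))ᵀ *ᵥ Pi.single (Sum.inl a) 1)).2 (fun c => by
          rw [Matrix.mulVec_mulVec, hXs, Matrix.one_mulVec]
          simp) c
        rw [Matrix.mulVec_single_one] at this
        exact (map_eq_zero (frob hF)).1 this
      have hXb : X = Matrix.fromBlocks X.toBlocks₁₁ 0 0 X.toBlocks₂₂ := by
        ext (i | i) (j | j) <;> simp [Matrix.toBlocks₁₁, Matrix.toBlocks₂₂, h12, h21]
      have hXu' := hXu
      rw [hXb, Matrix.fromBlocks_transpose, Matrix.fromBlocks_map, Matrix.fromBlocks_multiply,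
        ← Matrix.fromBlocks_one, Matrix.fromBlocks_inj] at hXu'
      obtain ⟨hA₀, -, -, hD₀⟩ := hXu'
      simp only [Matrix.transpose_zero, Matrix.zero_mul, add_zero, zero_add] at hA₀ hD₀
      have hA₀' : X.toBlocks₁₁ᵀ * X.toBlocks₁₁.map (frob hF) = 1 := by
        simpa using hA₀
      have hD₀' : X.toBlocks₂₂ᵀ * X.toBlocks₂₂.map (frob hF) = 1 := by
        simpa using hD₀
      obtain ⟨A, hA⟩ := exists_GU_of_preserves hF X.toBlocks₁₁ ((pres_iff hF _).2 hA₀')
      obtain ⟨D, hD⟩ := exists_GU_of_preserves hF X.toBlocks₂₂ ((pres_iff hF _).2 hD₀')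
      refine ⟨(A, D), Units.ext ?_⟩
      rw [hΨ, hA, hD, ← hXb, hX]
      calc P * (Ps * (g : Matrix (Fin n) (Fin n) F) * P) * Ps
          = (P * Ps) * (g : Matrix (Fin n) (Fin n) F) * (P * Ps) := by simp only [Matrix.mul_assoc]
        _ = g := by rw [h2, Matrix.one_mul, Matrix.mul_one]
  exact ⟨((MulEquiv.subgroupCongr (Subgroup.inf_subgroupOf_right _ _).symm).trans
    (Subgroup.subgroupOfEquivOfLe inf_le_right)).trans
    ((MulEquiv.subgroupCongr hrange.symm).trans (MonoidHom.ofInjective hinj).symm)⟩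

/-- If W ≤ F^n (|F| = q²) is a k-dimensional subspace on which the Hermitian form Σ x_i y_i^q is non-degenerate, then the stabiliser of W in GU_n(q) is isomorphic to GU_k(q) × GU_(n−k)(q). -/
theorem result {F : Type*} [Field F] [Fintype F] {q : ℕ} (hF : Fintype.card F = q ^ 2) (n k : ℕ) (hk : k ≤ n) (W : Submodule F (Fin n → F)) (hWk : Module.finrank F W = k) (hW : ∀ u ∈ W, (∀ v ∈ W, Cfsg.hermForm n F q u v = 0) → u = 0) : Nonempty (↥((Cfsg.stabilizing (Cfsg.glToMat (Fin n) F) (W : Set (Fin n → F))).subgroupOf (Cfsg.GU n F q)) ≃* ↥(Cfsg.GU k F q) × ↥(Cfsg.GU (n - k) F q)) := by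
  obtain ⟨P, hP1, hP2⟩ := exists_P hF n k hk W hWk hW
  exact main hF n k hk W P hP1 hP2

end Cfsg.Agent.S0837
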