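import Cfsg.Statements.S0838
import Mathlib
import Cfsg.Agent.Lib_helper4_SymSimilar

set_option autoImplicit false
open Cfsg

namespace Cfsg.Agent.S0838

/-- Over a finite field with 2 ≠ 0 and n odd: two quadratic forms Q₁, Q₂ on F^n with non-degenerate polar forms are similar — there are an invertible linear map g and a scalar c ≠ 0 with Q₂ (g v) = c · Q₁ v for all v. -/
theorem result {F : Type*} [Field F] [Fintype F] (h2 : (2 : F) ≠ 0) {n : ℕ} (hn : Odd n) (Q₁ Q₂ : QuadraticForm F (Fin n → F)) (h₁ : (QuadraticMap.polarBilin Q₁).Nondegenerate) (h₂ : (QuadraticMap.polarBilin Q₂).Nondegenerate) : ∃ (g : (Fin n → F) ≃ₗ[F] (Fin n → F)) (c : F), c ≠ 0 ∧ ∀ v, Q₂ (g v) = c * Q₁ v := by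
  classical
  have hS : ∀ Q : QuadraticForm F (Fin n → F),
      LinearMap.BilinForm.IsSymm (QuadraticMap.polarBilin Q) := fun Q =>
    ⟨fun x y => QuadraticMap.polar_comm Q x y⟩
  have hodd : Odd (Module.finrank F (Fin n → F)) := by
    rw [Module.finrank_fin_fun]; exact hn
  obtain ⟨g, c, hc, hg⟩ := Cfsg.Agent.Lib_helper4_SymSimilar.similar_of_odd h2
    (QuadraticMap.polarBilin Q₁) (QuadraticMap.polarBilin Q₂) (hS Q₁) (hS Q₂) h₁ h₂ hodd
  refine ⟨g, c, hc, fun v => ?_⟩
  have h := hg v v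
  simp only [QuadraticMap.polarBilin_apply_apply, QuadraticMap.polar_self, nsmul_eq_mul,
    Nat.cast_ofNat] at h
  have : (2 : F) * Q₂ (g v) = 2 * (c * Q₁ v) := by rw [h]; ring
  exact mul_left_cancel₀ h2 this

end Cfsg.Agent.S0838
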