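import Cfsg.Statements.S0839
import Mathlib
import Cfsg.Agent.Lib_helper8_Transv

set_option autoImplicit false
open Cfsg

namespace Cfsg.Agent.S0839

open Matrix

theorem mul_vmv_mul {ι : Type} [Fintype ι] [DecidableEq ι] {F : Type*} [Field F]
    (A B : Matrix ι ι F) (u w : ι → F) :
    A * vecMulVec u w * B = vecMulVec (A *ᵥ u) (w ᵥ* B) := by
  ext i j
  simp only [Matrix.mul_apply, vecMulVec_apply, Matrix.mulVec, Matrix.vecMul, dotProduct]
  rw [Finset.sum_mul_sum, Finset.sum_comm]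
  apply Finset.sum_congr rfl
  intro k _
  rw [Finset.sum_mul]
  apply Finset.sum_congr rfl
  intro l _
  ring


/-- Every transvection t ∈ SL_(n+2)(F) (rank(t − 1) = 1, (t − 1)² = 0) is conjugate in SL_(n+2)(F) to 1 + v·e_0ᵀ for some column vector v with v_0 = 0 (the group A of matrices that are the identity except in the first column below the diagonal); the dimension is written n + 2 ≥ 2. -/
theorem result {F : Type*} [Field F] (n : ℕ) (t : Matrix.SpecialLinearGroup (Fin (n + 2)) F) (ht : Cfsg.IsTransvection (t : Matrix (Fin (n + 2)) (Fin (n + 2)) F)) : ∃ (g : Matrix.SpecialLinearGroup (Fin (n + 2)) F) (v : Fin (n + 2) → F), v 0 = 0 ∧ ((g⁻¹ * t * g : Matrix.SpecialLinearGroup (Fin (n + 2)) F) : Matrix (Fin (n + 2)) (Fin (n + 2)) F) = 1 + Matrix.vecMulVec v (Pi.single 0 1) := by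
  obtain ⟨x, φ, hx, hφ, hφx, htE⟩ := Cfsg.Agent.Lib_helper8_Transv.exists_eq_one_add_vmv _ ht
  have he0 : (Pi.single 0 1 : Fin (n + 2) → F) ≠ 0 := by
    intro h
    have := congrFun h 0
    simp at this
  obtain ⟨h, hh⟩ := Cfsg.Agent.Lib_helper8_Transv.exists_sl_mulVec (by simp) φ
    (Pi.single 0 1) hφ he0
  obtain ⟨gi, hgi⟩ : ∃ gi : Matrix.SpecialLinearGroup (Fin (n + 2)) F, gi = h.transpose⁻¹ :=
    ⟨_, rfl⟩
  have hgT : (h.transpose : Matrix (Fin (n + 2)) (Fin (n + 2)) F) = (h : Matrix _ _ F)ᵀ := rfl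
  have hinv : (gi : Matrix (Fin (n + 2)) (Fin (n + 2)) F)
      * (h.transpose : Matrix (Fin (n + 2)) (Fin (n + 2)) F) = 1 := by
    rw [hgi, ← Matrix.SpecialLinearGroup.coe_mul, inv_mul_cancel,
      Matrix.SpecialLinearGroup.coe_one]
  have hinv' : (h.transpose : Matrix (Fin (n + 2)) (Fin (n + 2)) F)
      * (gi : Matrix (Fin (n + 2)) (Fin (n + 2)) F) = 1 := by
    rw [hgi, ← Matrix.SpecialLinearGroup.coe_mul, mul_inv_cancel,
      Matrix.SpecialLinearGroup.coe_one]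
  have hφg : φ ᵥ* (h.transpose : Matrix (Fin (n + 2)) (Fin (n + 2)) F) = Pi.single 0 1 := by
    rw [hgT, Matrix.vecMul_transpose, hh]
  refine ⟨h.transpose, (gi : Matrix (Fin (n + 2)) (Fin (n + 2)) F) *ᵥ x, ?_, ?_⟩
  · have hv0 : ((gi : Matrix (Fin (n + 2)) (Fin (n + 2)) F) *ᵥ x) 0
        = (Pi.single 0 1 : Fin (n + 2) → F) ⬝ᵥ ((gi : Matrix (Fin (n + 2)) (Fin (n + 2)) F) *ᵥ x) := by
      rw [single_dotProduct, one_mul]
    rw [hv0, ← hφg, ← Matrix.dotProduct_mulVec, Matrix.mulVec_mulVec, hinv', Matrix.one_mulVec]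
    exact hφx
  · rw [← hgi, Matrix.SpecialLinearGroup.coe_mul, Matrix.SpecialLinearGroup.coe_mul, htE,
      Matrix.mul_add, Matrix.add_mul, Matrix.mul_one, hinv, mul_vmv_mul, hφg]

end Cfsg.Agent.S0839
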