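import Cfsg.Statements.S0849
import Cfsg.Agent.Lib_helper3_CharInd

set_option autoImplicit false
open Cfsg

namespace Cfsg.Agent.S0849

/-- Let H be a subgroup of a finite group G and S a subset of H that is mapped to itself under conjugation by H, is disjoint from its conjugate by any element outside H, and is closed under inverses. Let φ be a class function of H vanishing on H away from S, and let u, v be involutions of G. Then the sum of the induced function of φ over all products a * b with a conjugate to u and b conjugate to v equals the index of H times the sum of φ (a * b) over such pairs with a and b in H. -/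
theorem result {G : Type*} [Group G] [Fintype G] (H : Subgroup G) (S : Set G) (hSH : S ⊆ H) (hHS : ∀ h ∈ H, ∀ s ∈ S, h * s * h⁻¹ ∈ S) (hTI : ∀ g : G, g ∉ H → ∀ s ∈ S, g * s * g⁻¹ ∉ S) (hinv : ∀ s ∈ S, s⁻¹ ∈ S) (φ : H → ℂ) (hφ : Cfsg.IsClassFunction H φ) (hφS : ∀ x : H, (x : G) ∉ S → φ x = 0) (u v : G) (hu : orderOf u = 2) (hv : orderOf v = 2) : ∑ᶠ p ∈ {p : G × G | IsConj u p.1 ∧ IsConj v p.2}, Cfsg.indFun H φ (p.1 * p.2) = (H.index : ℂ) * ∑ᶠ p ∈ {p : H × H | IsConj u (p.1 : G) ∧ IsConj v (p.2 : G)}, φ (p.1 * p.2) := by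
  classical
  have := Fintype.ofFinite H
  -- involutions
  have hinvol : ∀ (w a : G), orderOf w = 2 → IsConj w a → a⁻¹ = a := by
    intro w a hw hwa
    obtain ⟨c, hc⟩ := isConj_iff.1 hwa
    have hw2 : w * w = 1 := by
      have := pow_orderOf_eq_one w
      rw [hw, pow_two] at this
      exact this
    have ha2 : a * a = 1 := by
      rw [← hc]
      calc c * w * c⁻¹ * (c * w * c⁻¹) = c * (w * w) * c⁻¹ := by group
        _ = 1 := by rw [hw2]; group
    exact inv_eq_of_mul_eq_one_left ha2
  -- finsets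
  let PG : Finset (G × G) := Finset.univ.filter (fun p => IsConj u p.1 ∧ IsConj v p.2)
  let PH : Finset (H × H) := Finset.univ.filter (fun p => IsConj u (p.1 : G) ∧ IsConj v (p.2 : G))
  have hPG : (PG : Set (G × G)) = {p : G × G | IsConj u p.1 ∧ IsConj v p.2} := by
    ext p
    simp [PG]
  have hPH : (PH : Set (H × H)) = {p : H × H | IsConj u (p.1 : G) ∧ IsConj v (p.2 : G)} := by
    ext p
    simp [PH]
  rw [← hPG, ← hPH, finsum_mem_coe_finset, finsum_mem_coe_finset]
  -- step 1: sum over conjugates
  have h1 : ∀ x : G, ∑ p ∈ PG, Cfsg.extendByZero H φ (x⁻¹ * (p.1 * p.2) * x)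
      = ∑ p ∈ PG, Cfsg.extendByZero H φ (p.1 * p.2) := by
    intro x
    apply Finset.sum_bij (fun (p : G × G) _ => (x⁻¹ * p.1 * x, x⁻¹ * p.2 * x))
    · intro p hp
      simp only [PG, Finset.mem_filter, Finset.mem_univ, true_and] at hp ⊢
      refine ⟨hp.1.trans ?_, hp.2.trans ?_⟩
      · exact isConj_iff.2 ⟨x⁻¹, by simp⟩
      · exact isConj_iff.2 ⟨x⁻¹, by simp⟩
    · intro p _ q _ h
      have h2 := congrArg Prod.fst h
      have h3 := congrArg Prod.snd h
      simp only at h2 h3
      exact Prod.ext (mul_left_cancel (mul_right_cancel h2)) (mul_left_cancel (mul_right_cancel h3))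
    · intro q hq
      simp only [PG, Finset.mem_filter, Finset.mem_univ, true_and] at hq
      refine ⟨(x * q.1 * x⁻¹, x * q.2 * x⁻¹), ?_, ?_⟩
      · simp only [PG, Finset.mem_filter, Finset.mem_univ, true_and]
        exact ⟨hq.1.trans (isConj_iff.2 ⟨x, rfl⟩), hq.2.trans (isConj_iff.2 ⟨x, rfl⟩)⟩
      · apply Prod.ext
        · simp only; group
        · simp only; group
    · intro p _
      congr 1
      group
  have h2 : ∑ p ∈ PG, Cfsg.indFun H φ (p.1 * p.2)
      = (H.index : ℂ) * ∑ p ∈ PG, Cfsg.extendByZero H φ (p.1 * p.2) := by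
    simp only [Cfsg.Agent.Lib_helper3_CharInd.indFun_apply]
    rw [← Finset.mul_sum, Finset.sum_comm]
    simp only [h1]
    rw [Finset.sum_const, Finset.card_univ, nsmul_eq_mul, ← mul_assoc]
    congr 1
    have hH : (Nat.card H : ℂ) ≠ 0 := Cfsg.Agent.Lib_helper3_CharInd.card_subgroup_ne_zero H
    have hidx : (Nat.card H : ℂ) * (H.index : ℂ) = (Fintype.card G : ℂ) := by
      rw [← Nat.card_eq_fintype_card, ← Subgroup.card_mul_index H]
      push_cast
      ring
    rw [← hidx]
    field_simp
  rw [h2]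
  congr 1
  symm
  apply Finset.sum_of_injOn (fun p : H × H => ((p.1 : G), (p.2 : G)))
  · intro p _ q _ h
    have h3 := congrArg Prod.fst h
    have h4 := congrArg Prod.snd h
    exact Prod.ext (Subtype.ext h3) (Subtype.ext h4)
  · intro p hp
    simp only [PH, Finset.coe_filter, Finset.mem_univ, true_and, Set.mem_ofPred_eq] at hp
    simp only [PG, Finset.coe_filter, Finset.mem_univ, true_and, Set.mem_ofPred_eq]
    exact hp
  · intro p hp hnot
    simp only [PG, Finset.mem_filter, Finset.mem_univ, true_and] at hp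
    by_contra hne
    have hmem : p.1 * p.2 ∈ H := by
      by_contra hnm
      exact hne (Cfsg.Agent.Lib_helper3_CharInd.extendByZero_not_mem H φ hnm)
    rw [Cfsg.Agent.Lib_helper3_CharInd.extendByZero_mem H φ hmem] at hne
    have hS : p.1 * p.2 ∈ S := by
      by_contra hnS
      exact hne (hφS ⟨p.1 * p.2, hmem⟩ hnS)
    have ha := hinvol u p.1 hu hp.1
    have hb := hinvol v p.2 hv hp.2
    have hSi : p.2 * p.1 ∈ S := by
      have := hinv _ hS
      rw [mul_inv_rev, ha, hb] at this
      exact this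
    have haH : p.1 ∈ H := by
      by_contra hna
      apply hTI p.1 hna _ hS
      have : p.1 * (p.1 * p.2) * p.1⁻¹ = p.2 * p.1 := by
        rw [ha]
        have h5 : p.1 * p.1 = 1 := by
          have := mul_inv_cancel p.1
          rw [ha] at this
          exact this
        calc p.1 * (p.1 * p.2) * p.1 = (p.1 * p.1) * p.2 * p.1 := by group
          _ = p.2 * p.1 := by rw [h5, one_mul]
      rw [this]
      exact hSi
    have hbH : p.2 ∈ H := by
      by_contra hnb
      apply hTI p.2 hnb _ hS
      have : p.2 * (p.1 * p.2) * p.2⁻¹ = p.2 * p.1 := by group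
      rw [this]
      exact hSi
    apply hnot
    refine ⟨(⟨p.1, haH⟩, ⟨p.2, hbH⟩), ?_, rfl⟩
    simp only [PH, Finset.coe_filter, Finset.mem_univ, true_and, Set.mem_ofPred_eq]
    exact hp
  · intro p _
    rw [Cfsg.Agent.Lib_helper3_CharInd.extendByZero_mem H φ (H.mul_mem p.1.2 p.2.2)]
    rfl
end Cfsg.Agent.S0849
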