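import Cfsg.Statements.S0850
import Mathlib
import Cfsg.Agent.S0149
import Cfsg.Agent.Lib_helper3_CharInd

set_option autoImplicit false
open Cfsg

namespace Cfsg.Agent.S0850

/-- Let K be a subgroup of the finite group G that meets each conjugate by an element outside its normalizer N trivially, is properly contained in N, and contains the centralizer of each of its non-identity elements (a T.I. subgroup with Frobenius normalizer). Then no element of N outside K is conjugate in G to an element of K, and for every class function ϑ of N that vanishes on N away from K and at the identity, the function induced from ϑ to G agrees with ϑ on all of N. -/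
theorem result {G : Type*} [Group G] [Fintype G] (K : Subgroup G) (hTI : ∀ g : G, g ∉ Subgroup.normalizer (K : Set G) → ∀ k ∈ K, g * k * g⁻¹ ∈ K → k = 1) (hlt : K < Subgroup.normalizer (K : Set G)) (hC : ∀ k ∈ K, k ≠ 1 → Subgroup.centralizer ({k} : Set G) ≤ K) : (∀ x ∈ Subgroup.normalizer (K : Set G), x ∉ K → ∀ g : G, g * x * g⁻¹ ∉ K) ∧ ∀ (ϑ : Subgroup.normalizer (K : Set G) → ℂ), Cfsg.IsClassFunction (Subgroup.normalizer (K : Set G)) ϑ → (∀ x : Subgroup.normalizer (K : Set G), (x : G) ∉ K → ϑ x = 0) → ϑ 1 = 0 → ∀ x : Subgroup.normalizer (K : Set G), Cfsg.indFun (Subgroup.normalizer (K : Set G)) ϑ x = ϑ x := by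
  classical
  have := Fintype.ofFinite (Subgroup.normalizer (K : Set G))
  have := Fintype.ofFinite K
  -- fixed point lemma
  have key : ∀ (p : ℕ) [Fact p.Prime] (y : G), y ∈ Subgroup.normalizer (K : Set G) → y ^ p = 1 →
      p ∣ Nat.card K → ∃ k ∈ K, k ≠ 1 ∧ y * k = k * y := by
    intro p _ y hy hyp hpK
    have hyK : ∀ k : G, k ∈ K → y * k * y⁻¹ ∈ K := fun k hk =>
      (Subgroup.mem_set_normalizer_iff.mp hy k).mp hk
    let f : Function.End K := fun k => ⟨y * k * y⁻¹, hyK k k.2⟩
    have hfn : ∀ (n : ℕ) (k : K), (((f ^ n) k : K) : G) = y ^ n * k * (y ^ n)⁻¹ := by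
      intro n
      induction n with
      | zero =>
        intro k
        rw [pow_zero, pow_zero]
        show ((k : K) : G) = 1 * (k : G) * 1⁻¹
        simp
      | succ n ih =>
        intro k
        rw [pow_succ']
        show ((f ((f ^ n) k) : K) : G) = _
        show y * (((f ^ n) k : K) : G) * y⁻¹ = _
        rw [ih k, pow_succ']
        group
    have hfp : f ^ p ^ 1 = 1 := by
      rw [pow_one]
      funext k
      apply Subtype.ext
      show (((f ^ p) k : K) : G) = (k : G)
      rw [hfn p k, hyp]
      simp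
    have hmod := Equiv.Perm.card_fixedPoints_modEq (p := p) (n := 1) hfp
    have hdvd : p ∣ Fintype.card (Function.fixedPoints f) := by
      have h1 : p ∣ Fintype.card K := by rwa [Nat.card_eq_fintype_card] at hpK
      exact (Nat.modEq_zero_iff_dvd.mp ((hmod.symm.trans (Nat.modEq_zero_iff_dvd.mpr h1))))
    have h1fix : (1 : K) ∈ Function.fixedPoints f := by
      show f 1 = 1
      apply Subtype.ext
      show y * ((1 : K) : G) * y⁻¹ = ((1 : K) : G)
      simp
    have hcard : 1 < Fintype.card (Function.fixedPoints f) := by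
      have hpos : 0 < Fintype.card (Function.fixedPoints f) :=
        Fintype.card_pos_iff.mpr ⟨⟨1, h1fix⟩⟩
      have := Nat.le_of_dvd hpos hdvd
      have h2 := (Fact.out : p.Prime).two_le
      omega
    obtain ⟨⟨a, ha⟩, ⟨b, hb⟩, hab⟩ := Fintype.one_lt_card_iff.mp hcard
    have hex : ∃ k : K, k ∈ Function.fixedPoints f ∧ k ≠ 1 := by
      by_cases ha1 : a = 1
      · refine ⟨b, hb, ?_⟩
        intro hb1
        apply hab
        apply Subtype.ext
        show a = b
        rw [ha1, hb1]
      · exact ⟨a, ha, ha1⟩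
    obtain ⟨k, hk, hk1⟩ := hex
    refine ⟨(k : G), k.2, ?_, ?_⟩
    · intro h
      apply hk1
      apply Subtype.ext
      simpa using h
    · have h2 : f k = k := hk
      have h3 : y * (k : G) * y⁻¹ = (k : G) := congrArg Subtype.val h2
      calc y * (k : G) = y * (k : G) * y⁻¹ * y := by group
        _ = (k : G) * y := by rw [h3]
  have part1 : ∀ x ∈ Subgroup.normalizer (K : Set G), x ∉ K → ∀ g : G, g * x * g⁻¹ ∉ K := by
    intro x hxN hxK g hgx
    have hgN : g ∉ Subgroup.normalizer (K : Set G) := by
      intro hg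
      apply hxK
      have h1 := (Subgroup.mem_set_normalizer_iff.mp ((Subgroup.normalizer (K : Set G)).inv_mem hg)
        (g * x * g⁻¹)).mp hgx
      have h2 : g⁻¹ * (g * x * g⁻¹) * g⁻¹⁻¹ = x := by group
      rw [h2] at h1
      exact h1
    have hx1 : x ≠ 1 := fun h => hxK (h ▸ K.one_mem)
    have ho1 : orderOf x ≠ 1 := fun h => hx1 (orderOf_eq_one_iff.mp h)
    have hopos : 0 < orderOf x := orderOf_pos x
    set p := (orderOf x).minFac with hp
    have hpp : p.Prime := Nat.minFac_prime ho1
    have : Fact p.Prime := ⟨hpp⟩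
    have hpdvd : p ∣ orderOf x := Nat.minFac_dvd _
    obtain ⟨m, hm⟩ := hpdvd
    set y := x ^ m with hy
    have hyp : y ^ p = 1 := by
      rw [hy, ← pow_mul, mul_comm, ← hm]
      exact pow_orderOf_eq_one x
    have hy1 : y ≠ 1 := by
      intro h
      have h1 : orderOf x ∣ m := orderOf_dvd_of_pow_eq_one h
      have hmpos : 0 < m := by
        rcases Nat.eq_zero_or_pos m with h0 | h0
        · rw [h0, mul_zero] at hm; omega
        · exact h0
      have h2 := Nat.le_of_dvd hmpos h1
      have h3 : m * 2 ≤ p * m := by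
        rw [mul_comm]; exact Nat.mul_le_mul_right m hpp.two_le
      omega
    have hyN : y ∈ Subgroup.normalizer (K : Set G) :=
      (Subgroup.normalizer (K : Set G)).pow_mem hxN m
    have hgy : g * y * g⁻¹ ∈ K := by
      have : g * y * g⁻¹ = (g * x * g⁻¹) ^ m := by rw [hy, conj_pow]
      rw [this]
      exact K.pow_mem hgx m
    have hoy : orderOf y = p := orderOf_eq_prime hyp hy1
    have hpK : p ∣ Nat.card K := by
      have h1 : orderOf (g * y * g⁻¹) = p := by
        rw [← hoy]
        exact orderOf_injective (MulAut.conj g).toMonoidHom (MulAut.conj g).injective y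
      have h2 : orderOf (⟨g * y * g⁻¹, hgy⟩ : K) = p := by
        rw [← h1]
        exact (Subgroup.orderOf_mk _ hgy)
      rw [← h2]
      exact orderOf_dvd_natCard _
    obtain ⟨k, hkK, hk1, hyk⟩ := key p y hyN hyp hpK
    have hyK : y ∈ K := by
      apply hC k hkK hk1
      rw [Subgroup.mem_centralizer_iff]
      intro z hz
      rw [Set.mem_singleton_iff] at hz
      rw [hz]
      exact hyk.symm
    exact hy1 (hTI g hgN y hyK hgy)
  refine ⟨part1, ?_⟩
  intro ϑ hϑ hϑK hϑ1 x
  by_cases hxK : (x : G) ∈ K
  · by_cases hx1 : x = 1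
    · rw [hx1, Cfsg.Agent.Lib_helper3_CharInd.indFun_apply]
      have : ∀ a : G, Cfsg.extendByZero (Subgroup.normalizer (K : Set G)) ϑ
          (a⁻¹ * ((1 : Subgroup.normalizer (K : Set G)) : G) * a) = 0 := by
        intro a
        have h1 : a⁻¹ * ((1 : Subgroup.normalizer (K : Set G)) : G) * a
            = (1 : G) := by simp
        rw [h1, Cfsg.Agent.Lib_helper3_CharInd.extendByZero_mem _ _ (Subgroup.one_mem _)]
        exact hϑ1
      rw [Finset.sum_eq_zero (fun a _ => this a), mul_zero, hϑ1]
    · exact Cfsg.Agent.S0149.result (K : Set G) hTI (fun t ht => hlt.le ht) ϑ hϑ hϑK x hxK hx1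
  · rw [hϑK x hxK, Cfsg.Agent.Lib_helper3_CharInd.indFun_apply]
    have : ∀ a : G, Cfsg.extendByZero (Subgroup.normalizer (K : Set G)) ϑ
        (a⁻¹ * (x : G) * a) = 0 := by
      intro a
      by_cases hmem : a⁻¹ * (x : G) * a ∈ Subgroup.normalizer (K : Set G)
      · rw [Cfsg.Agent.Lib_helper3_CharInd.extendByZero_mem _ _ hmem]
        apply hϑK
        have := part1 x x.2 hxK a⁻¹
        simpa using this
      · exact Cfsg.Agent.Lib_helper3_CharInd.extendByZero_not_mem _ _ hmem
    rw [Finset.sum_eq_zero (fun a _ => this a), mul_zero]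
end Cfsg.Agent.S0850
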