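import Cfsg.Statements.S0851
import Mathlib
import Cfsg.Agent.S0170
import Cfsg.Agent.Lib_helper3_TIFN

set_option autoImplicit false
open Cfsg

namespace Cfsg.Agent.S0851

/-- Let K be a subgroup of the finite group G that meets each conjugate by an element outside its normalizer N trivially, is properly contained in N, and contains the centralizer of each of its non-identity elements (a T.I. subgroup with Frobenius normalizer). Suppose K is abelian, let e be the index of K in N, and call an irreducible character of N relevant when it takes at some element of K a value different from its degree. Then either there is exactly one relevant character and K is an elementary abelian p-group of order e + 1 for some prime p, or there are a sign ε and an injective map f from the relevant characters to the irreducible characters of G such that inducing χ - ξ to G gives ε (f χ - f ξ) for all relevant χ and ξ. -/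
theorem result {G : Type*} [Group G] [Fintype G] (K : Subgroup G) (hTI : ∀ g : G, g ∉ Subgroup.normalizer (K : Set G) → ∀ k ∈ K, g * k * g⁻¹ ∈ K → k = 1) (hlt : K < Subgroup.normalizer (K : Set G)) (hC : ∀ k ∈ K, k ≠ 1 → Subgroup.centralizer ({k} : Set G) ≤ K) (hab : ∀ a ∈ K, ∀ b ∈ K, a * b = b * a) : (Nat.card {χ : Cfsg.IrrCharacter (Subgroup.normalizer (K : Set G)) // ∃ k : Subgroup.normalizer (K : Set G), (k : G) ∈ K ∧ (χ : ↥(Subgroup.normalizer (K : Set G)) → ℂ) k ≠ (χ : ↥(Subgroup.normalizer (K : Set G)) → ℂ) 1} = 1 ∧ ∃ p : ℕ, p.Prime ∧ Cfsg.IsElementaryAbelian p K ∧ Nat.card K = (K.subgroupOf (Subgroup.normalizer (K : Set G))).index + 1) ∨ ∃ (ε : ℂ) (f : {χ : Cfsg.IrrCharacter (Subgroup.normalizer (K : Set G)) // ∃ k : Subgroup.normalizer (K : Set G), (k : G) ∈ K ∧ (χ : ↥(Subgroup.normalizer (K : Set G)) → ℂ) k ≠ (χ : ↥(Subgroup.normalizer (K : Set G)) → ℂ) 1} → Cfsg.IrrCharacter G), (ε = 1 ∨ ε = -1) ∧ Function.Injective f ∧ ∀ χ ξ, Cfsg.indFun (Subgroup.normalizer (K : Set G)) ((χ.1 : ↥(Subgroup.normalizer (K : Set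 G)) → ℂ) - (ξ.1 : ↥(Subgroup.normalizer (K : Set G)) → ℂ)) = ε • ((f χ : G → ℂ) - (f ξ : G → ℂ)) := by
  classical
  have := Fintype.ofFinite (Subgroup.normalizer (K : Set G))
  have hfinI : Finite (Cfsg.IrrCharacter (Subgroup.normalizer (K : Set G))) :=
    Cfsg.Agent.Lib_helper3_CharBasic.irr_finite
  right
  set R := {χ : Cfsg.IrrCharacter (Subgroup.normalizer (K : Set G)) //
    ∃ k : Subgroup.normalizer (K : Set G), (k : G) ∈ K ∧
      (χ : ↥(Subgroup.normalizer (K : Set G)) → ℂ) k ≠
        (χ : ↥(Subgroup.normalizer (K : Set G)) → ℂ) 1} with hR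
  have hfinR : Finite R := Subtype.finite
  have := Fintype.ofFinite R
  by_cases hn : Fintype.card R < 2
  · -- at most one relevant character
    have hsub : ∀ a b : R, a = b := by
      intro a b
      by_contra hab'
      have : 1 < Fintype.card R := Fintype.one_lt_card_iff.mpr ⟨a, b, hab'⟩
      omega
    refine ⟨1, fun _ => ⟨fun _ => 1, Cfsg.Agent.Lib_helper3_CharMore.isIrrCharacter_one⟩,
      Or.inl rfl, fun a b _ => hsub a b, ?_⟩
    intro χ ξ
    rw [hsub χ ξ, sub_self, sub_self, smul_zero,
      Cfsg.Agent.Lib_helper3_CharInd.indFun_zero]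
  · have hn2 : 2 ≤ Fintype.card R := by omega
    let e : Fin (Fintype.card R) ≃ R := (Fintype.equivFin R).symm
    -- the kernel inside the normalizer
    set K' : Subgroup (Subgroup.normalizer (K : Set G)) :=
      K.subgroupOf (Subgroup.normalizer (K : Set G)) with hK'
    have hK'n : K'.Normal := Subgroup.normal_in_normalizer
    have hfr : ∀ x : Subgroup.normalizer (K : Set G), x ∉ K' → ∀ k ∈ K', x * k = k * x →
        k = 1 := by
      intro x hx k hk hxk
      by_contra hk1
      apply hx
      rw [hK', Subgroup.mem_subgroupOf] at hk ⊢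
      have hk1' : (k : G) ≠ 1 := fun h => hk1 (Subtype.ext h)
      apply hC (k : G) hk hk1'
      rw [Subgroup.mem_centralizer_iff]
      intro z hz
      rw [Set.mem_singleton_iff] at hz
      rw [hz]
      exact (congrArg Subtype.val hxk).symm
    have hab' : ∀ a ∈ K', ∀ b ∈ K', a * b = b * a := by
      intro a ha b hb
      rw [hK', Subgroup.mem_subgroupOf] at ha hb
      apply Subtype.ext
      exact hab a ha b hb
    have hrel' : ∀ r : R, ∃ k : Subgroup.normalizer (K : Set G), k ∈ K' ∧
        (r.1 : ↥(Subgroup.normalizer (K : Set G)) → ℂ) k ≠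
          (r.1 : ↥(Subgroup.normalizer (K : Set G)) → ℂ) 1 := by
      intro r
      obtain ⟨k, hk, hk1⟩ := r.2
      exact ⟨k, by rw [hK', Subgroup.mem_subgroupOf]; exact hk, hk1⟩
    obtain ⟨ε, hε, θ, hθirr, hθinj, hθ⟩ := Cfsg.Agent.S0170.result (K : Set G)
      (fun t ht => hlt.le ht) hTI (Fintype.card R) hn2
      (fun i => ((e i).1 : ↥(Subgroup.normalizer (K : Set G)) → ℂ))
      (fun i => (e i).1.2)
      (fun i j hij => e.injective (Subtype.ext (Subtype.ext hij)))
      (fun i x hx => Cfsg.Agent.Lib_helper3_TIFN.vanish_off (e i).1.2 K' hfr (hrel' (e i)) x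
        (by rw [hK', Subgroup.mem_subgroupOf]; exact hx))
      (fun i j => by
        rw [Cfsg.Agent.Lib_helper3_TIFN.degree_eq_index_of_abelian (e i).1.2 K' hfr
          (hrel' (e i)) hab',
          Cfsg.Agent.Lib_helper3_TIFN.degree_eq_index_of_abelian (e j).1.2 K' hfr
          (hrel' (e j)) hab'])
    refine ⟨ε, fun r => ⟨θ (e.symm r), hθirr _⟩, hε, ?_, ?_⟩
    · intro a b hab2
      have h1 : θ (e.symm a) = θ (e.symm b) := congrArg Subtype.val hab2
      exact e.symm.injective (hθinj h1)
    · intro χ ξ
      rw [Cfsg.Agent.Lib_helper3_CharInd.indFun_sub]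
      have h1 := hθ (e.symm χ) (e.symm ξ)
      simp only [Equiv.apply_symm_apply] at h1
      exact h1
end Cfsg.Agent.S0851
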