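import Cfsg.Statements.S0852
import Mathlib
import Cfsg.Agent.Lib_helper3_TIFN2

set_option autoImplicit false
open Cfsg

namespace Cfsg.Agent.S0852

/-- Let K be a subgroup of the finite group G that meets each conjugate by an element outside its normalizer N trivially, is properly contained in N, and contains the centralizer of each of its non-identity elements (a T.I. subgroup with Frobenius normalizer). Let S be the set of irreducible characters of N taking at some element of K a value different from their degree, suppose S has at least two members, and let star be a linear isometry on the integer span of S into the generalized characters of G that agrees with induction on the members vanishing at the identity (so S is coherent, with star as the extending isometry). Then an irreducible character ψ of G is of the form star χ or -star χ for some χ in S if and only if ψ is not constant on the non-identity elements of K. -/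
theorem result {G : Type*} [Group G] [Fintype G] (K : Subgroup G) (hTI : ∀ g : G, g ∉ Subgroup.normalizer (K : Set G) → ∀ k ∈ K, g * k * g⁻¹ ∈ K → k = 1) (hlt : K < Subgroup.normalizer (K : Set G)) (hC : ∀ k ∈ K, k ≠ 1 → Subgroup.centralizer ({k} : Set G) ≤ K) [Fintype ↥(Subgroup.normalizer (K : Set G))] (S : Set (↥(Subgroup.normalizer (K : Set G)) → ℂ)) (hS : S = {χ : ↥(Subgroup.normalizer (K : Set G)) → ℂ | Cfsg.IsIrrCharacter ↥(Subgroup.normalizer (K : Set G)) χ ∧ ∃ k : ↥(Subgroup.normalizer (K : Set G)), (k : G) ∈ K ∧ χ k ≠ χ 1}) (htwo : ∃ χ ∈ S, ∃ ξ ∈ S, χ ≠ ξ) (star : (↥(Subgroup.normalizer (K : Set G)) → ℂ) → (G → ℂ)) (hstar : Cfsg.IsLinearIsometryOn (Cfsg.zspan S) star) (hext : ∀ α ∈ Cfsg.zspanOn S ({1}ᶜ : Set ↥(Subgroup.normalizer (K : Set G))), star α = Cfsg.indFun (Subgroup.normalizer (K : Set G)) α) (ψ : G → ℂ) (hψ : Cfsg.IsIrrCharacter G ψ) : (∃ χ ∈ S, ψ = star χ ∨ ψ = -star χ) ↔ ∃ a ∈ K, ∃ b ∈ K, a ≠ 1 ∧ b ≠ 1 ∧ ψ a ≠ ψ b := by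
  classical
  have hKn : (K.subgroupOf (Subgroup.normalizer (K : Set G))).Normal :=
    Subgroup.normal_in_normalizer
  have := Fintype.ofFinite (K.subgroupOf (Subgroup.normalizer (K : Set G)))
  have hfr := Cfsg.Agent.Lib_helper3_TIFN2.hfr_of_hC K hC
  have hSirr : ∀ χ ∈ S, Cfsg.IsIrrCharacter ↥(Subgroup.normalizer (K : Set G)) χ := by
    intro χ hχ
    rw [hS] at hχ
    exact hχ.1
  have hSrel : ∀ χ ∈ S, ∃ k : ↥(Subgroup.normalizer (K : Set G)),
      k ∈ K.subgroupOf (Subgroup.normalizer (K : Set G)) ∧ χ k ≠ χ 1 := by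
    intro χ hχ
    rw [hS] at hχ
    exact hχ.2
  constructor
  · rintro ⟨χ, hχS, hψχ⟩
    obtain ⟨c, hc⟩ := Cfsg.Agent.Lib_helper3_TIFN2.const_of_star K hC S hS star hstar hext
      (star χ) (Cfsg.Agent.Lib_helper3_GenChar.isClassFunction_of_isGen
        (hstar.2.2.2 χ (Cfsg.Agent.Lib_helper3_TIFN2.mem_zspan hχS))) χ
      (Cfsg.Agent.Lib_helper3_CharBasic.isClassFunction_of_irr (hSirr χ hχS))
      (fun χ' hχ' => hstar.2.2.1 χ (Cfsg.Agent.Lib_helper3_TIFN2.mem_zspan hχS) χ'
        (Cfsg.Agent.Lib_helper3_TIFN2.mem_zspan hχ'))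
    obtain ⟨χ₁, hχ₁, χ₂, hχ₂, hne⟩ := htwo
    have hex : ∃ ξ ∈ S, χ ≠ ξ := by
      by_cases h : χ = χ₁
      · exact ⟨χ₂, hχ₂, h ▸ hne⟩
      · exact ⟨χ₁, hχ₁, h⟩
    obtain ⟨ξ, hξS, hχξ⟩ := hex
    obtain ⟨a, ha, b, hb, ha1, hb1, hab⟩ := Cfsg.Agent.Lib_helper3_TIFN2.nonconst_of_two
      (K.subgroupOf (Subgroup.normalizer (K : Set G))) hfr (hSirr χ hχS) (hSrel χ hχS)
      (hSirr ξ hξS) (hSrel ξ hξS) hχξ
    refine ⟨(a : G), ha, (b : G), hb, fun h => ha1 (Subtype.ext h), fun h => hb1 (Subtype.ext h),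
      ?_⟩
    have h1 := hc a ha ha1
    have h2 := hc b hb hb1
    have h3 : star χ a ≠ star χ b := by
      intro h
      apply hab
      linear_combination h - h1 + h2
    rcases hψχ with h | h
    · rw [h]; exact h3
    · rw [h]
      simp only [Pi.neg_apply]
      intro h4
      exact h3 (neg_injective h4)
  · rintro ⟨a, ha, b, hb, ha1, hb1, hab⟩
    by_contra hcon
    push Not at hcon
    have hinner : ∀ χ ∈ S, Cfsg.classInner ψ (star χ) =
        Cfsg.classInner (0 : ↥(Subgroup.normalizer (K : Set G)) → ℂ) χ := by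
      intro χ hχS
      rw [Cfsg.Agent.Lib_helper3_CharBasic.classInner_zero_left]
      have hnorm : Cfsg.classInner (star χ) (star χ) = 1 := by
        rw [hstar.2.2.1 χ (Cfsg.Agent.Lib_helper3_TIFN2.mem_zspan hχS) χ
          (Cfsg.Agent.Lib_helper3_TIFN2.mem_zspan hχS)]
        exact Cfsg.Agent.Lib_helper3_CharBasic.irr_inner_self (hSirr χ hχS)
      obtain ⟨μ, hμ, hμ'⟩ := Cfsg.Agent.Lib_helper3_TIFN2.norm_one_gen
        (hstar.2.2.2 χ (Cfsg.Agent.Lib_helper3_TIFN2.mem_zspan hχS)) hnorm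
      have hne : ψ ≠ μ := by
        intro h
        rcases hμ' with h' | h'
        · exact (hcon χ hχS).1 (by rw [h', h])
        · exact (hcon χ hχS).2 (by rw [h', neg_neg, h])
      rcases hμ' with h' | h'
      · rw [h']
        exact Cfsg.Agent.Lib_helper3_CharBasic.irr_inner_ne hψ hμ hne
      · rw [h', Cfsg.Agent.Lib_helper3_CharBasic.classInner_neg_right,
          Cfsg.Agent.Lib_helper3_CharBasic.irr_inner_ne hψ hμ hne, neg_zero]
    obtain ⟨c, hc⟩ := Cfsg.Agent.Lib_helper3_TIFN2.const_of_star K hC S hS star hstar hext ψ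
      (Cfsg.Agent.Lib_helper3_CharBasic.isClassFunction_of_irr hψ) 0
      Cfsg.Agent.Lib_helper3_CharBasic.isClassFunction_zero hinner
    have h1 := hc ⟨a, hlt.le ha⟩ ha (fun h => ha1 (congrArg Subtype.val h))
    have h2 := hc ⟨b, hlt.le hb⟩ hb (fun h => hb1 (congrArg Subtype.val h))
    simp only [Pi.zero_apply, sub_zero] at h1 h2
    exact hab (h1.trans h2.symm)
end Cfsg.Agent.S0852
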