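import Cfsg.Statements.S0853
import Mathlib
import Cfsg.Agent.S0149
import Cfsg.Agent.Lib_helper3_TIFN2

set_option autoImplicit false
open Cfsg

namespace Cfsg.Agent.S0853

/-- Let K be a subgroup of the finite group G that meets each conjugate by an element outside its normalizer N trivially, is properly contained in N, and contains the centralizer of each of its non-identity elements (a T.I. subgroup with Frobenius normalizer). Let S be the set of irreducible characters of N taking at some element of K a value different from their degree, suppose S has at least two members, and let star be a linear isometry on the integer span of S into the generalized characters of G that agrees with induction on the members vanishing at the identity (so S is coherent, with star as the extending isometry). Then there is a single integer m such that star χ k - χ k = m * χ 1 / e for every χ in S and every non-identity element k of K, where e is the index of K in N.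 -/
theorem result {G : Type*} [Group G] [Fintype G] (K : Subgroup G) (hTI : ∀ g : G, g ∉ Subgroup.normalizer (K : Set G) → ∀ k ∈ K, g * k * g⁻¹ ∈ K → k = 1) (hlt : K < Subgroup.normalizer (K : Set G)) (hC : ∀ k ∈ K, k ≠ 1 → Subgroup.centralizer ({k} : Set G) ≤ K) [Fintype ↥(Subgroup.normalizer (K : Set G))] (S : Set (↥(Subgroup.normalizer (K : Set G)) → ℂ)) (hS : S = {χ : ↥(Subgroup.normalizer (K : Set G)) → ℂ | Cfsg.IsIrrCharacter ↥(Subgroup.normalizer (K : Set G)) χ ∧ ∃ k : ↥(Subgroup.normalizer (K : Set G)), (k : G) ∈ K ∧ χ k ≠ χ 1}) (htwo : ∃ χ ∈ S, ∃ ξ ∈ S, χ ≠ ξ) (star : (↥(Subgroup.normalizer (K : Set G)) → ℂ) → (G → ℂ)) (hstar : Cfsg.IsLinearIsometryOn (Cfsg.zspan S) star) (hext : ∀ α ∈ Cfsg.zspanOn S ({1}ᶜ : Set ↥(Subgroup.normalizer (K : Set G))), star α = Cfsg.indFun (Subgroup.normalizer (K : Set G)) α) : ∃ m : ℤ, ∀ χ ∈ S, ∀ k : ↥(Subgroup.normalizer (K : Set G)), (k : G) ∈ K → k ≠ 1 → star χ k - χ k = (m : ℂ) * χ 1 / ((K.subgroupOf (Subgroup.normalizer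 (K : Set G))).index : ℂ) := by
  classical
  have hKn : (K.subgroupOf (Subgroup.normalizer (K : Set G))).Normal :=
    Subgroup.normal_in_normalizer
  have := Fintype.ofFinite (K.subgroupOf (Subgroup.normalizer (K : Set G)))
  have hfinI : Finite (Cfsg.IrrCharacter (Subgroup.normalizer (K : Set G))) :=
    Cfsg.Agent.Lib_helper3_CharBasic.irr_finite
  have := Fintype.ofFinite (Cfsg.IrrCharacter (Subgroup.normalizer (K : Set G)))
  have hfr := Cfsg.Agent.Lib_helper3_TIFN2.hfr_of_hC K hC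
  have hSirr : ∀ χ ∈ S, Cfsg.IsIrrCharacter ↥(Subgroup.normalizer (K : Set G)) χ := by
    intro χ hχ
    rw [hS] at hχ
    exact hχ.1
  have hSrel : ∀ χ ∈ S, ∃ k : ↥(Subgroup.normalizer (K : Set G)),
      k ∈ K.subgroupOf (Subgroup.normalizer (K : Set G)) ∧ χ k ≠ χ 1 := by
    intro χ hχ
    rw [hS] at hχ
    exact hχ.2
  obtain ⟨χ₀, hχ₀S, -, -, -⟩ := htwo
  obtain ⟨k₀, hk₀K, hk₀ne⟩ := hSrel χ₀ hχ₀S
  have hk₀1 : k₀ ≠ 1 := fun h => hk₀ne (by rw [h])
  have hgen : ∀ χ ∈ S, Cfsg.IsGeneralizedCharacter G (star χ) := fun χ hχ =>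
    hstar.2.2.2 χ (Cfsg.Agent.Lib_helper3_TIFN2.mem_zspan hχ)
  have hconst : ∀ χ ∈ S, ∀ k : ↥(Subgroup.normalizer (K : Set G)), (k : G) ∈ K → k ≠ 1 →
      star χ k - χ k = star χ k₀ - χ k₀ := by
    intro χ hχS k hk hk1
    obtain ⟨c, hc⟩ := Cfsg.Agent.Lib_helper3_TIFN2.const_of_star K hC S hS star hstar hext
      (star χ) (Cfsg.Agent.Lib_helper3_GenChar.isClassFunction_of_isGen (hgen χ hχS)) χ
      (Cfsg.Agent.Lib_helper3_CharBasic.isClassFunction_of_irr (hSirr χ hχS))
      (fun χ' hχ' => hstar.2.2.1 χ (Cfsg.Agent.Lib_helper3_TIFN2.mem_zspan hχS) χ'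
        (Cfsg.Agent.Lib_helper3_TIFN2.mem_zspan hχ'))
    rw [hc k hk hk1, hc k₀ hk₀K hk₀1]
  have hvan : ∀ χ ∈ S, ∀ x : ↥(Subgroup.normalizer (K : Set G)), (x : G) ∉ K → χ x = 0 :=
    fun χ hχS x hx => Cfsg.Agent.Lib_helper3_TIFN.vanish_off (hSirr χ hχS)
      (K.subgroupOf (Subgroup.normalizer (K : Set G))) hfr (hSrel χ hχS) x hx
  have hrel2 : ∀ χ ∈ S, (star χ k₀ - χ k₀) * χ₀ 1 = (star χ₀ k₀ - χ₀ k₀) * χ 1 := by
    intro χ hχS
    have h1 := Cfsg.Agent.Lib_helper3_TIFN2.star_comb (Subgroup.normalizer (K : Set G)) S hSirr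
      star hstar hext hχS hχ₀S
    have hcf : Cfsg.IsClassFunction ↥(Subgroup.normalizer (K : Set G))
        ((χ₀ 1) • χ - (χ 1) • χ₀) :=
      Cfsg.Agent.Lib_helper3_CharBasic.isClassFunction_sub
        (Cfsg.Agent.Lib_helper3_CharBasic.isClassFunction_smul _
          (Cfsg.Agent.Lib_helper3_CharBasic.isClassFunction_of_irr (hSirr χ hχS)))
        (Cfsg.Agent.Lib_helper3_CharBasic.isClassFunction_smul _
          (Cfsg.Agent.Lib_helper3_CharBasic.isClassFunction_of_irr (hSirr χ₀ hχ₀S)))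
    have hvan' : ∀ x : ↥(Subgroup.normalizer (K : Set G)), (x : G) ∉ (K : Set G) →
        ((χ₀ 1) • χ - (χ 1) • χ₀) x = 0 := by
      intro x hx
      simp only [Pi.sub_apply, Pi.smul_apply, smul_eq_mul]
      rw [hvan χ hχS x hx, hvan χ₀ hχ₀S x hx]
      ring
    have h2 := Cfsg.Agent.S0149.result (K : Set G) hTI (fun t ht => hlt.le ht)
      ((χ₀ 1) • χ - (χ 1) • χ₀) hcf hvan' k₀ hk₀K hk₀1
    rw [h1] at h2
    simp only [Pi.sub_apply, Pi.smul_apply, smul_eq_mul] at h2
    linear_combination h2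
  set e : ℂ := ((K.subgroupOf (Subgroup.normalizer (K : Set G))).index : ℂ) with he
  have he0 : e ≠ 0 := by
    rw [he]
    exact_mod_cast (Subgroup.index_ne_zero_of_finite
      (H := K.subgroupOf (Subgroup.normalizer (K : Set G))))
  have hχ₀0 := Cfsg.Agent.Lib_helper3_CharMore.irr_apply_one_ne_zero (hSirr χ₀ hχ₀S)
  set q : ℂ := e * (star χ₀ k₀ - χ₀ k₀) / χ₀ 1 with hq
  have hcq : ∀ χ ∈ S, star χ k₀ - χ k₀ = q * χ 1 / e := by
    intro χ hχS
    have h1 := hrel2 χ hχS
    rw [hq, eq_div_iff he0, div_mul_eq_mul_div, eq_div_iff hχ₀0]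
    linear_combination e * h1
  have hqint : IsIntegral ℤ q := by
    have hsum := Cfsg.Agent.Lib_helper3_TIFN2.sum_rel_deg_mul
      (K.subgroupOf (Subgroup.normalizer (K : Set G))) k₀ hk₀K hk₀1
    have hmemS : ∀ ξ : Cfsg.IrrCharacter (Subgroup.normalizer (K : Set G)),
        (¬ ∀ k ∈ K.subgroupOf (Subgroup.normalizer (K : Set G)),
          (ξ : ↥(Subgroup.normalizer (K : Set G)) → ℂ) k =
            (ξ : ↥(Subgroup.normalizer (K : Set G)) → ℂ) 1) →
        (ξ : ↥(Subgroup.normalizer (K : Set G)) → ℂ) ∈ S := by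
      intro ξ hirr
      rw [hS]
      refine ⟨ξ.2, ?_⟩
      push Not at hirr
      exact hirr
    have h1 : q = -∑ ξ : Cfsg.IrrCharacter (Subgroup.normalizer (K : Set G)),
        (if ∀ k ∈ K.subgroupOf (Subgroup.normalizer (K : Set G)),
          (ξ : ↥(Subgroup.normalizer (K : Set G)) → ℂ) k =
            (ξ : ↥(Subgroup.normalizer (K : Set G)) → ℂ) 1 then 0
        else (star (ξ : ↥(Subgroup.normalizer (K : Set G)) → ℂ) k₀ -
          (ξ : ↥(Subgroup.normalizer (K : Set G)) → ℂ) k₀) *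
            (ξ : ↥(Subgroup.normalizer (K : Set G)) → ℂ) k₀) := by
      have h2 : ∀ ξ : Cfsg.IrrCharacter (Subgroup.normalizer (K : Set G)),
          (if ∀ k ∈ K.subgroupOf (Subgroup.normalizer (K : Set G)),
            (ξ : ↥(Subgroup.normalizer (K : Set G)) → ℂ) k =
              (ξ : ↥(Subgroup.normalizer (K : Set G)) → ℂ) 1 then 0
          else (star (ξ : ↥(Subgroup.normalizer (K : Set G)) → ℂ) k₀ -
            (ξ : ↥(Subgroup.normalizer (K : Set G)) → ℂ) k₀) *
              (ξ : ↥(Subgroup.normalizer (K : Set G)) → ℂ) k₀) =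
          (q / e) * (if ∀ k ∈ K.subgroupOf (Subgroup.normalizer (K : Set G)),
            (ξ : ↥(Subgroup.normalizer (K : Set G)) → ℂ) k =
              (ξ : ↥(Subgroup.normalizer (K : Set G)) → ℂ) 1 then 0
          else (ξ : ↥(Subgroup.normalizer (K : Set G)) → ℂ) 1 *
            (ξ : ↥(Subgroup.normalizer (K : Set G)) → ℂ) k₀) := by
        intro ξ
        by_cases hirr : ∀ k ∈ K.subgroupOf (Subgroup.normalizer (K : Set G)),
            (ξ : ↥(Subgroup.normalizer (K : Set G)) → ℂ) k =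
              (ξ : ↥(Subgroup.normalizer (K : Set G)) → ℂ) 1
        · rw [if_pos hirr, if_pos hirr, mul_zero]
        · rw [if_neg hirr, if_neg hirr, hcq _ (hmemS ξ hirr)]
          ring
      rw [Finset.sum_congr rfl (fun ξ _ => h2 ξ), ← Finset.mul_sum, hsum, ← he]
      field_simp
    rw [h1]
    apply IsIntegral.neg
    apply IsIntegral.sum
    intro ξ _
    by_cases hirr : ∀ k ∈ K.subgroupOf (Subgroup.normalizer (K : Set G)),
        (ξ : ↥(Subgroup.normalizer (K : Set G)) → ℂ) k =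
          (ξ : ↥(Subgroup.normalizer (K : Set G)) → ℂ) 1
    · rw [if_pos hirr]
      exact isIntegral_zero
    · rw [if_neg hirr]
      exact IsIntegral.mul (IsIntegral.sub
        (Cfsg.Agent.Lib_helper3_TIFN2.isGen_isIntegral (hgen _ (hmemS ξ hirr)) _)
        (Cfsg.Agent.Lib_helper3_CharDiag.isCharacter_isIntegral
          (Cfsg.Agent.Lib_helper3_CharBasic.isCharacter_of_irr ξ.2) _))
        (Cfsg.Agent.Lib_helper3_CharDiag.isCharacter_isIntegral
          (Cfsg.Agent.Lib_helper3_CharBasic.isCharacter_of_irr ξ.2) _)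
  have hqrat : ∃ r : ℚ, q = r := by
    have hβN : Cfsg.IsGeneralizedCharacter ↥(Subgroup.normalizer (K : Set G))
        ((fun x : ↥(Subgroup.normalizer (K : Set G)) => star χ₀ x) - χ₀) :=
      Cfsg.Agent.Lib_helper3_GenChar.isGen_sub
        (Cfsg.Agent.Lib_helper3_GenChar.isGen_restrict (Subgroup.normalizer (K : Set G))
          (hgen χ₀ hχ₀S))
        (Cfsg.Agent.Lib_helper3_GenChar.isGen_of_char
          (Cfsg.Agent.Lib_helper3_CharBasic.isCharacter_of_irr (hSirr χ₀ hχ₀S)))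
    have hβK := Cfsg.Agent.Lib_helper3_GenChar.isGen_restrict
      (K.subgroupOf (Subgroup.normalizer (K : Set G))) hβN
    obtain ⟨r, hr⟩ := Cfsg.Agent.Lib_helper3_TIFN2.rat_of_const hβK (star χ₀ k₀ - χ₀ k₀) (by
        intro k hk1
        exact hconst χ₀ hχ₀S (k : ↥(Subgroup.normalizer (K : Set G))) k.2
          (fun h => hk1 (Subtype.ext h)))
      ⟨⟨k₀, hk₀K⟩, fun h => hk₀1 (congrArg Subtype.val h)⟩
    obtain ⟨d₀, -, hd₀⟩ := Cfsg.Agent.Lib_helper3_CharMore.irr_apply_one_pos (hSirr χ₀ hχ₀S)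
    refine ⟨((K.subgroupOf (Subgroup.normalizer (K : Set G))).index : ℚ) * r / d₀, ?_⟩
    rw [hq, hr, hd₀, he]
    push_cast
    ring
  obtain ⟨r, hr⟩ := hqrat
  rw [hr] at hqint
  obtain ⟨m, hm⟩ := Cfsg.Agent.Lib_helper3_IntLemmas.exists_int_of_isIntegral_rat hqint
  refine ⟨m, ?_⟩
  intro χ hχS k hk hk1
  rw [hconst χ hχS k hk hk1, hcq χ hχS, hr, hm]
  push_cast
  rfl
end Cfsg.Agent.S0853
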