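import Cfsg.Statements.S0856
import Cfsg.Agent.Lib_helper3_Gallagher

set_option autoImplicit false
open Cfsg

namespace Cfsg.Agent.S0856

/-- Let N be a normal subgroup of the finite group G and φ, ϑ irreducible characters of N that are invariant under conjugation by G, such that the pointwise product φ * ϑ is irreducible and ϑ is the restriction of an irreducible character χ of G. Then multiplication by χ is a bijection from the set of irreducible characters of G having nonzero inner product with the function induced from φ onto the set of those having nonzero inner product with the function induced from φ * ϑ. -/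
theorem result {G : Type*} [Group G] [Fintype G] (N : Subgroup G) [hN : N.Normal] (φ ϑ : N → ℂ) (hφ : Cfsg.IsIrrCharacter N φ) (hϑ : Cfsg.IsIrrCharacter N ϑ) (hφinv : ∀ (g : G) (n : N), φ ⟨g * n * g⁻¹, hN.conj_mem (n : G) n.2 g⟩ = φ n) (hϑinv : ∀ (g : G) (n : N), ϑ ⟨g * n * g⁻¹, hN.conj_mem (n : G) n.2 g⟩ = ϑ n) (hprod : Cfsg.IsIrrCharacter N (φ * ϑ)) (χ : G → ℂ) (hχ : Cfsg.IsIrrCharacter G χ) (hext : ∀ n : N, χ n = ϑ n) : Set.BijOn (fun β : G → ℂ => β * χ) {β : G → ℂ | Cfsg.IsIrrCharacter G β ∧ Cfsg.classInner (Cfsg.indFun N φ) β ≠ 0} {ψ : G → ℂ | Cfsg.IsIrrCharacter G ψ ∧ Cfsg.classInner (Cfsg.indFun N (φ * ϑ)) ψ ≠ 0} := by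
  have hφinv' : ∀ g : G, Cfsg.Agent.Lib_helper3_CharNormal.conjFun N g φ = φ := by
    intro g
    funext n
    exact hφinv g n
  have hϑinv' : ∀ g : G, Cfsg.Agent.Lib_helper3_CharNormal.conjFun N g ϑ = ϑ := by
    intro g
    funext n
    exact hϑinv g n
  obtain ⟨h1, h2, h3⟩ := Cfsg.Agent.Lib_helper3_Gallagher.gallagher_bij N φ ϑ hφ hφinv' hϑinv'
    hprod χ hχ hext
  refine ⟨?_, ?_, ?_⟩
  · intro β hβ
    exact h1 β hβ.1 hβ.2
  · intro β hβ β' hβ' heq
    exact h2 β β' hβ.1 hβ.2 hβ'.1 hβ'.2 heq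
  · intro ψ hψ
    obtain ⟨β, hβ, hne, heq⟩ := h3 ψ hψ.1 hψ.2
    exact ⟨β, ⟨hβ, hne⟩, heq⟩
end Cfsg.Agent.S0856
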