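import Cfsg.Statements.S0860
import Cfsg.Agent.Lib_helper3_CharPerm

set_option autoImplicit false
open Cfsg

namespace Cfsg.Agent.S0860

/-- Let a group A act on the set of irreducible characters and on the set of conjugacy classes of a finite group G in such a way that (a • χ) evaluated on the class a • C equals χ evaluated on C, for all a, χ and C. Then every element of A fixes exactly as many irreducible characters as it fixes conjugacy classes. -/
theorem result {G : Type*} [Group G] [Finite G] {A : Type*} [Group A] [MulAction A (Cfsg.IrrCharacter G)] [MulAction A (ConjClasses G)] (hcompat : ∀ (a : A) (χ : Cfsg.IrrCharacter G) (g g' : G), ConjClasses.mk g' = a • ConjClasses.mk g → ((a • χ : Cfsg.IrrCharacter G) : G → ℂ) g' = (χ : G → ℂ) g) (a : A) : Nat.card {χ : Cfsg.IrrCharacter G // a • χ = χ} = Nat.card {C : ConjClasses G // a • C = C} := by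
  classical
  let τ : G → G := fun g => Quotient.out (a⁻¹ • ConjClasses.mk g)
  have hτmk : ∀ g, ConjClasses.mk (τ g) = a⁻¹ • ConjClasses.mk g := fun g => Quotient.out_eq _
  have hact : ∀ χ : Cfsg.IrrCharacter G, ((a • χ : Cfsg.IrrCharacter G) : G → ℂ) = (χ : G → ℂ) ∘ τ := by
    intro χ
    funext g
    apply hcompat a χ (τ g) g
    rw [hτmk, smul_inv_smul]
  have h1 := Cfsg.Agent.Lib_helper3_CharPerm.card_fixed_irr_eq (G := G) τ
    (fun χ hχ => by
      have := hact ⟨χ, hχ⟩
      rw [← this]
      exact (a • (⟨χ, hχ⟩ : Cfsg.IrrCharacter G)).2)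
    (fun C => a • C = C)
    (fun g => by
      rw [← ConjClasses.mk_eq_mk_iff_isConj, hτmk]
      constructor
      · intro h
        rw [eq_inv_smul_iff]
        exact h
      · intro h
        rw [eq_inv_smul_iff] at h
        exact h)
  rw [← h1]
  apply Nat.card_congr
  apply Equiv.subtypeEquivRight
  intro χ
  rw [← hact χ]
  exact ⟨fun h => congrArg Subtype.val h, fun h => Subtype.ext h⟩
end Cfsg.Agent.S0860
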