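import Cfsg.Statements.S0864
import Cfsg.Agent.Lib_helper3_Transfer

set_option autoImplicit false
open Cfsg

namespace Cfsg.Agent.S0864

/-- Let N be a normal subgroup of the finite group G and λ a character of N of degree 1 invariant under conjugation by G. Suppose that for every prime p dividing the order of λ (in the group of functions under pointwise multiplication) there is a subgroup H containing N, of index prime to p and with the index of N in H a power of p, together with a character of H of degree 1 restricting to λ. Then λ is the restriction of a character of G of degree 1. -/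
theorem result {G : Type*} [Group G] [Finite G] (N : Subgroup G) [hN : N.Normal] (lam : N → ℂ) (hlam : Cfsg.IsCharacter N lam ∧ lam 1 = 1) (hinv : ∀ (g : G) (n : N), lam ⟨g * n * g⁻¹, hN.conj_mem (n : G) n.2 g⟩ = lam n) (hsyl : ∀ p : ℕ, p.Prime → p ∣ orderOf lam → ∃ (H : Subgroup G) (hNH : N ≤ H) (ν : H → ℂ), Nat.Coprime H.index p ∧ (∃ k : ℕ, N.relIndex H = p ^ k) ∧ Cfsg.IsCharacter H ν ∧ ν 1 = 1 ∧ ∀ n : N, ν ⟨(n : G), hNH n.2⟩ = lam n) : ∃ μ : G → ℂ, Cfsg.IsCharacter G μ ∧ μ 1 = 1 ∧ ∀ n : N, μ n = lam n := by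
  obtain ⟨lamh, rfl⟩ := Cfsg.Agent.Lib_helper3_Transfer.exists_hom_of_linear hlam.1 hlam.2
  set m := orderOf (fun n : N => (lamh n : ℂ)) with hm
  have hpow : ∀ a : N, lamh a ^ m = 1 := by
    intro a
    have h1 := pow_orderOf_eq_one (fun n : N => (lamh n : ℂ))
    have h2 := congrFun h1 a
    apply Units.ext
    simpa using h2
  have hinv' : ∀ (g : G) (a : N), lamh ⟨g * a * g⁻¹, hN.conj_mem a a.2 g⟩ = lamh a := by
    intro g a
    exact Units.ext (hinv g a)
  have key := Cfsg.Agent.Lib_helper3_Transfer.exists_hom_extension_of_index N lamh hinv' m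
    (by
      rw [hm, orderOf_pos_iff, isOfFinOrder_iff_pow_eq_one]
      refine ⟨Nat.card N, Nat.card_pos, ?_⟩
      funext a
      simp only [Pi.pow_apply, Pi.one_apply]
      rw [← Units.val_pow_eq_pow_val, ← map_pow, pow_card_eq_one', map_one, Units.val_one])
    hpow
    (by
      intro p hp hpm
      obtain ⟨H, hNH, ν, hcop, -, hν, hν1, hνN⟩ := hsyl p hp hpm
      obtain ⟨β, rfl⟩ := Cfsg.Agent.Lib_helper3_Transfer.exists_hom_of_linear hν hν1
      exact ⟨H, hNH, β, hcop, fun a => Units.ext (hνN a)⟩)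
  obtain ⟨μ, hμ⟩ := key
  refine ⟨fun g => (μ g : ℂ), (Cfsg.Agent.Lib_helper3_Transfer.linear_of_hom μ).1,
    (Cfsg.Agent.Lib_helper3_Transfer.linear_of_hom μ).2, fun n => ?_⟩
  show (μ (n : G) : ℂ) = (lamh n : ℂ)
  rw [hμ n]
end Cfsg.Agent.S0864
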