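import Cfsg.Statements.S0865
import Cfsg.Agent.Lib_helper3_Transfer2

set_option autoImplicit false
open Cfsg

namespace Cfsg.Agent.S0865

/-- Let N be a normal subgroup of the finite group G and λ a character of N of degree 1, invariant under conjugation by G, whose order (under pointwise multiplication) is coprime to the index of N. Then there is a character μ of G of degree 1 restricting to λ with the same order as λ, and μ is the only degree-1 character of G restricting to λ whose order is coprime to the index of N. -/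
theorem result {G : Type*} [Group G] [Finite G] (N : Subgroup G) [hN : N.Normal] (lam : N → ℂ) (hlam : Cfsg.IsCharacter N lam ∧ lam 1 = 1) (hinv : ∀ (g : G) (n : N), lam ⟨g * n * g⁻¹, hN.conj_mem (n : G) n.2 g⟩ = lam n) (hcop : Nat.Coprime N.index (orderOf lam)) : ∃ μ : G → ℂ, (Cfsg.IsCharacter G μ ∧ μ 1 = 1 ∧ (∀ n : N, μ n = lam n) ∧ orderOf μ = orderOf lam) ∧ ∀ μ' : G → ℂ, Cfsg.IsCharacter G μ' ∧ μ' 1 = 1 → (∀ n : N, μ' n = lam n) → Nat.Coprime N.index (orderOf μ') → μ' = μ := by
  obtain ⟨lamh, rfl⟩ := Cfsg.Agent.Lib_helper3_Transfer.exists_hom_of_linear hlam.1 hlam.2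
  set m := orderOf (fun n : N => (lamh n : ℂ)) with hm
  have hpow : ∀ a : N, lamh a ^ m = 1 := by
    intro a
    have h1 := pow_orderOf_eq_one (fun n : N => (lamh n : ℂ))
    have h2 := congrFun h1 a
    apply Units.ext
    simpa using h2
  have hinv' : ∀ (g : G) (a : N), lamh ⟨g * a * g⁻¹, hN.conj_mem a a.2 g⟩ = lamh a := by
    intro g a
    exact Units.ext (hinv g a)
  obtain ⟨μ, hμN, hμm⟩ := Cfsg.Agent.Lib_helper3_Transfer2.exists_extension_coprime N lamh hinv'
    m hpow hcop
  have hres : ∀ n : N, (fun g => (μ g : ℂ)) n = (fun n : N => (lamh n : ℂ)) n := by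
    intro n
    show (μ (n : G) : ℂ) = (lamh n : ℂ)
    rw [hμN n]
  have hord : orderOf (fun g : G => (μ g : ℂ)) = m := by
    apply Nat.dvd_antisymm
    · apply orderOf_dvd_of_pow_eq_one
      funext g
      simp only [Pi.pow_apply, Pi.one_apply]
      rw [← Units.val_pow_eq_pow_val, hμm g, Units.val_one]
    · rw [hm]
      apply orderOf_dvd_of_pow_eq_one
      funext a
      have h1 := pow_orderOf_eq_one (fun g : G => (μ g : ℂ))
      have h2 := congrFun h1 (a : G)
      simp only [Pi.pow_apply, Pi.one_apply] at h2 ⊢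
      rw [← hμN a]
      exact h2
  refine ⟨fun g => (μ g : ℂ), ⟨(Cfsg.Agent.Lib_helper3_Transfer.linear_of_hom μ).1,
    (Cfsg.Agent.Lib_helper3_Transfer.linear_of_hom μ).2, hres, hord⟩, ?_⟩
  intro μ' hμ' hμ'N hcop'
  obtain ⟨μ'h, rfl⟩ := Cfsg.Agent.Lib_helper3_Transfer.exists_hom_of_linear hμ'.1 hμ'.2
  have hpow' : ∀ g : G, μ'h g ^ orderOf (fun g : G => (μ'h g : ℂ)) = 1 := by
    intro g
    have h1 := pow_orderOf_eq_one (fun g : G => (μ'h g : ℂ))
    have h2 := congrFun h1 g
    apply Units.ext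
    simpa using h2
  have heq := Cfsg.Agent.Lib_helper3_Transfer2.hom_eq_of_coprime N μ'h μ
    (fun a => by
      have h1 := hμ'N a
      apply Units.ext
      rw [hμN a]
      exact h1)
    _ m hpow' hμm hcop' hcop
  rw [heq]
end Cfsg.Agent.S0865
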