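import Cfsg.Statements.S0867
import Cfsg.Agent.Lib_helper3_DetGal
import Cfsg.Agent.Lib_helper3_Transfer2

set_option autoImplicit false
open Cfsg

namespace Cfsg.Agent.S0867

/-- Let N be a normal subgroup of the finite group G and ϑ an irreducible character of N of degree d, invariant under conjugation by G, such that the index of N is coprime to the product of d and the determinantal order of ϑ. Then there is an irreducible character χ of G restricting to ϑ whose determinantal order equals that of ϑ, and χ is the only irreducible character of G restricting to ϑ whose determinantal order is coprime to the index of N. -/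
theorem result {G : Type*} [Group G] [Finite G] (N : Subgroup G) [hN : N.Normal] (ϑ : N → ℂ) (hϑ : Cfsg.IsIrrCharacter N ϑ) (hinv : ∀ (g : G) (n : N), ϑ ⟨g * n * g⁻¹, hN.conj_mem (n : G) n.2 g⟩ = ϑ n) (d : ℕ) (hd : ϑ 1 = d) (hcop : Nat.Coprime N.index (Cfsg.detOrder ϑ * d)) : ∃ χ : G → ℂ, (Cfsg.IsIrrCharacter G χ ∧ (∀ n : N, χ n = ϑ n) ∧ Cfsg.detOrder χ = Cfsg.detOrder ϑ) ∧ ∀ χ' : G → ℂ, Cfsg.IsIrrCharacter G χ' → (∀ n : N, χ' n = ϑ n) → Nat.Coprime N.index (Cfsg.detOrder χ') → χ' = χ := by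
  classical
  obtain ⟨lam, hlam⟩ := Cfsg.Agent.Lib_helper3_Det.exists_hom_detChar
    (Cfsg.Agent.Lib_helper3_CharBasic.isCharacter_of_irr hϑ)
  have hcop1 : Nat.Coprime N.index (Cfsg.detOrder ϑ) := Nat.Coprime.coprime_mul_right_right hcop
  have hcop2 : Nat.Coprime N.index d := Nat.Coprime.coprime_mul_left_right hcop
  -- the exponent of lam
  have hlamm : ∀ a : N, lam a ^ Cfsg.detOrder ϑ = 1 := by
    intro a
    have h1 : Cfsg.detChar ϑ ^ Cfsg.detOrder ϑ = 1 := pow_orderOf_eq_one _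
    have h2 := congrFun h1 a
    rw [hlam] at h2
    apply Units.ext
    rw [Units.val_pow_eq_pow_val]
    exact h2
  -- invariance of lam
  have hlaminv : ∀ (g : G) (a : N), lam ⟨g * a * g⁻¹, hN.conj_mem a a.2 g⟩ = lam a := by
    intro g a
    have h1 := Cfsg.Agent.Lib_helper3_Det.detChar_comp (MulAut.conjNormal g : N ≃* N).toMonoidHom
      (Cfsg.Agent.Lib_helper3_CharBasic.isCharacter_of_irr hϑ)
    have h2 : (fun h : N => ϑ ((MulAut.conjNormal g : N ≃* N).toMonoidHom h)) = ϑ := by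
      funext n
      exact hinv g n
    rw [h2] at h1
    have h3 := congrFun h1 a
    rw [hlam] at h3
    apply Units.ext
    exact h3.symm
  obtain ⟨μ, hμN, hμm⟩ := Cfsg.Agent.Lib_helper3_Transfer2.exists_extension_coprime N lam hlaminv
    (Cfsg.detOrder ϑ) hlamm hcop1
  have hμN' : ∀ n : N, (fun g => ((μ g : ℂˣ) : ℂ)) n = Cfsg.detChar ϑ n := by
    intro n
    rw [hlam]
    show ((μ n : ℂˣ) : ℂ) = ((lam n : ℂˣ) : ℂ)
    rw [hμN n]
  have hlin := Cfsg.Agent.Lib_helper3_Transfer.linear_of_hom μ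
  have hext := Cfsg.Agent.Lib_helper3_DetGal.extends_of_det N ϑ hϑ hinv d hd hcop2
    (fun g => ((μ g : ℂˣ) : ℂ)) hlin.1 hlin.2 hμN'
  obtain ⟨χ, ⟨hχ, hχN, hχdet⟩, huniq⟩ := Cfsg.Agent.Lib_helper3_DetExt.exists_unique_ext_det N ϑ hϑ
    d hd hcop2 hext (fun g => ((μ g : ℂˣ) : ℂ)) hlin hμN'
  refine ⟨χ, ⟨hχ, hχN, ?_⟩, ?_⟩
  · apply Nat.dvd_antisymm
    · apply orderOf_dvd_of_pow_eq_one
      rw [hχdet]
      funext g
      show ((μ g : ℂˣ) : ℂ) ^ Cfsg.detOrder ϑ = 1
      rw [← Units.val_pow_eq_pow_val, hμm g, Units.val_one]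
    · apply orderOf_dvd_of_pow_eq_one
      have h1 : Cfsg.detChar χ ^ Cfsg.detOrder χ = 1 := pow_orderOf_eq_one _
      funext n
      have h2 := congrFun h1 (n : G)
      rw [hχdet] at h2
      show Cfsg.detChar ϑ n ^ Cfsg.detOrder χ = 1
      rw [← hμN' n]
      exact h2
  · intro χ' hχ' hχ'N hcop'
    obtain ⟨μ', hμ'⟩ := Cfsg.Agent.Lib_helper3_Det.exists_hom_detChar
      (Cfsg.Agent.Lib_helper3_CharBasic.isCharacter_of_irr hχ')
    have hμ'm : ∀ g : G, μ' g ^ Cfsg.detOrder χ' = 1 := by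
      intro g
      have h1 : Cfsg.detChar χ' ^ Cfsg.detOrder χ' = 1 := pow_orderOf_eq_one _
      have h2 := congrFun h1 g
      rw [hμ'] at h2
      apply Units.ext
      rw [Units.val_pow_eq_pow_val]
      exact h2
    have hres : ∀ a : N, μ' a = μ a := by
      intro a
      have h1 : ϑ = fun n : N => χ' (N.subtype n) := by
        funext n; exact (hχ'N n).symm
      have h2 := Cfsg.Agent.Lib_helper3_Det.detChar_comp N.subtype
        (Cfsg.Agent.Lib_helper3_CharBasic.isCharacter_of_irr hχ')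
      rw [← h1, hμ', hlam] at h2
      have h3 := congrFun h2 a
      apply Units.ext
      rw [hμN a]
      exact h3.symm
    have heq := Cfsg.Agent.Lib_helper3_Transfer2.hom_eq_of_coprime N μ' μ hres (Cfsg.detOrder χ')
      (Cfsg.detOrder ϑ) hμ'm hμm hcop' hcop1
    apply huniq
    refine ⟨hχ', hχ'N, ?_⟩
    rw [hμ', heq]
end Cfsg.Agent.S0867
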