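import Cfsg.Statements.S0868
import Cfsg.Agent.Lib_helper3_CharAvg2

set_option autoImplicit false
open scoped ComplexConjugate
open Cfsg

namespace Cfsg.Agent.S0868

/-- Let N be a normal subgroup of the finite group G, χ an irreducible character of G whose restriction ϑ to N is irreducible, and ψ an irreducible character of G. Define η on G by η g = (1 / order of N) * Σ over n in N of ψ (n * g) * conj (χ (n * g)). Then: if the restriction of ψ to N has nonzero inner product with ϑ, η is an irreducible character of G; if that inner product is zero, η vanishes identically; and if ψ = χ then η is identically 1. -/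
theorem result {G : Type*} [Group G] [Fintype G] (N : Subgroup G) [N.Normal] [Fintype N] (χ : G → ℂ) (hχ : Cfsg.IsIrrCharacter G χ) (hχN : Cfsg.IsIrrCharacter N (fun n : N => χ n)) (ψ : G → ℂ) (hψ : Cfsg.IsIrrCharacter G ψ) (η : G → ℂ) (hη : η = fun g => (Nat.card N : ℂ)⁻¹ * ∑ n : N, ψ ((n : G) * g) * conj (χ ((n : G) * g))) : (Cfsg.classInner (fun n : N => ψ n) (fun n : N => χ n) ≠ 0 → Cfsg.IsIrrCharacter G η) ∧ (Cfsg.classInner (fun n : N => ψ n) (fun n : N => χ n) = 0 → η = 0) ∧ (ψ = χ → η = fun _ => 1) := by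
  have hχc := Cfsg.Agent.Lib_helper3_CharBasic.isCharacter_of_irr hχ
  have hψc := Cfsg.Agent.Lib_helper3_CharBasic.isCharacter_of_irr hψ
  have hfc : Cfsg.IsCharacter G (ψ * fun g => conj (χ g)) :=
    Cfsg.Agent.Lib_helper3_CharBasic.isCharacter_mul hψc
      (Cfsg.Agent.Lib_helper3_CharBasic.isCharacter_conj hχc)
  have hfcl := Cfsg.Agent.Lib_helper3_CharBasic.isClassFunction_of_isCharacter hfc
  have hηeq : η = Cfsg.Agent.Lib_helper3_CharAvg.avgFun N (ψ * fun g => conj (χ g)) := by
    rw [hη]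
    funext g
    rw [Cfsg.Agent.Lib_helper3_CharAvg.avgFun_apply]
    congr 1
    apply Finset.sum_congr rfl
    intro n _
    have h1 := hfcl (g * (n : G)) g⁻¹
    have h2 : g⁻¹ * (g * (n : G)) * g⁻¹⁻¹ = (n : G) * g := by group
    rw [h2] at h1
    exact h1
  have hηc : Cfsg.IsCharacter G η := by
    rw [hηeq]
    exact Cfsg.Agent.Lib_helper3_CharAvg.isCharacter_avgFun N hfc
  have hη1 : η 1 = Cfsg.classInner (fun n : N => ψ n) (fun n : N => χ n) := by
    rw [hηeq, Cfsg.Agent.Lib_helper3_CharAvg.avgFun_apply,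
      Cfsg.Agent.Lib_helper3_CharBasic.classInner_def]
    simp
  refine ⟨?_, ?_, ?_⟩
  · intro hne
    rw [hηeq]
    exact Cfsg.Agent.Lib_helper3_CharAvg2.avgFun_mul_conj_irr N hχ hχN hψ hne
  · intro h0
    exact Cfsg.Agent.Lib_helper3_CharAvg2.isCharacter_eq_zero hηc (by rw [hη1, h0])
  · intro heq
    subst heq
    rw [hηeq]
    exact Cfsg.Agent.Lib_helper3_CharAvg2.avgFun_mul_conj_eq_one N hψ hχN
end Cfsg.Agent.S0868
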