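import Cfsg.Statements.S0869
import Mathlib


set_option autoImplicit false
open Cfsg

namespace Cfsg.Agent.S0869

/-- Let S be a nonempty finite type and R an additive subgroup of the integer-valued functions on S that is closed under pointwise multiplication. If the constant function 1 is not in R, then there exist a point x of S and a prime p such that p divides f x for every f in R. -/
theorem result {S : Type*} [Finite S] [Nonempty S] (R : AddSubgroup (S → ℤ)) (hmul : ∀ f ∈ R, ∀ g ∈ R, f * g ∈ R) (h1 : (1 : S → ℤ) ∉ R) : ∃ (x : S) (p : ℕ), p.Prime ∧ ∀ f ∈ R, (p : ℤ) ∣ f x := by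
  classical
  have := Fintype.ofFinite S
  by_contra hcon
  push Not at hcon
  have hone : ∀ x : S, ∃ f ∈ R, f x = 1 := by
    intro x
    obtain ⟨d, hd⟩ := Int.subgroup_cyclic (R.map (Pi.evalAddMonoidHom (fun _ : S => ℤ) x))
    have hmem : ∀ f ∈ R, ∃ n : ℤ, n • d = f x := by
      intro f hf
      have h2 : f x ∈ R.map (Pi.evalAddMonoidHom (fun _ : S => ℤ) x) :=
        AddSubgroup.mem_map.mpr ⟨f, hf, rfl⟩
      rw [hd] at h2
      exact AddSubgroup.mem_closure_singleton.mp h2
    by_cases hd1 : d.natAbs = 1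
    · have h3 : d * d = 1 := by
        rcases Int.natAbs_eq d with h | h
        · rw [h, hd1]; norm_num
        · rw [h, hd1]; norm_num
      have h4 : (1 : ℤ) ∈ R.map (Pi.evalAddMonoidHom (fun _ : S => ℤ) x) := by
        rw [hd]
        exact AddSubgroup.mem_closure_singleton.mpr ⟨d, by rw [smul_eq_mul, h3]⟩
      obtain ⟨f, hf, hfx⟩ := AddSubgroup.mem_map.mp h4
      exact ⟨f, hf, hfx⟩
    · exfalso
      obtain ⟨p, hp, hpd⟩ := Nat.exists_prime_and_dvd hd1
      obtain ⟨f, hf, hfx⟩ := hcon x p hp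
      apply hfx
      obtain ⟨n, hn⟩ := hmem f hf
      rw [← hn, smul_eq_mul]
      exact Dvd.dvd.mul_left (Int.natCast_dvd.mpr hpd) n
  have hT : ∀ T : Finset S, ∃ g ∈ R, ∀ x ∈ T, g x = 1 := by
    intro T
    induction T using Finset.induction_on with
    | empty => exact ⟨0, R.zero_mem, fun x hx => absurd hx (Finset.notMem_empty x)⟩
    | insert x T hx ih =>
      obtain ⟨g, hg, hgT⟩ := ih
      obtain ⟨f, hf, hfx⟩ := hone x
      refine ⟨g + f - g * f, R.sub_mem (R.add_mem hg hf) (hmul g hg f hf), ?_⟩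
      intro y hy
      rcases Finset.mem_insert.mp hy with rfl | hy
      · simp [hfx]
      · simp [hgT y hy]
  obtain ⟨g, hg, hgT⟩ := hT Finset.univ
  apply h1
  have h5 : g = 1 := funext (fun x => hgT x (Finset.mem_univ x))
  rw [← h5]
  exact hg
end Cfsg.Agent.S0869
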