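import Cfsg.Statements.S0876
import Cfsg.Agent.Lib_helper3_Local
import Cfsg.Agent.S0875

set_option autoImplicit false
open Cfsg

namespace Cfsg.Agent.S0876

/-- Let G be a finite group, p a prime and M a maximal ideal of the ring of algebraic integers containing p. Let x, y be elements with p-parts a and b (so a⁻¹ * x and b⁻¹ * y are their p-regular parts). Then a⁻¹ * x and b⁻¹ * y are conjugate in G if and only if, for every irreducible character χ, the difference χ x - χ y lies in the local ideal at M. -/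
theorem result {G : Type*} [Group G] [Finite G] (p : ℕ) (M : Ideal Cfsg.AlgInt) (hM : Cfsg.IsPModular p M) (x y a b : G) (ha : Cfsg.IsPPart p x a) (hb : Cfsg.IsPPart p y b) : IsConj (a⁻¹ * x) (b⁻¹ * y) ↔ ∀ χ : Cfsg.IrrCharacter G, Cfsg.MemLocalIdeal M ((χ : G → ℂ) x - (χ : G → ℂ) y) := by
  classical
  have := Fintype.ofFinite G
  obtain ⟨hp, hmax, hpM⟩ := hM
  have hM' : Cfsg.IsPModular p M := ⟨hp, hmax, hpM⟩
  have hprime : M.IsPrime := hmax.isPrime
  constructor
  · intro hconj χ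
    obtain ⟨w₁, hw₁, e₁⟩ := Cfsg.Agent.Lib_helper3_Local.char_sub_reg_mem hM'
      (Cfsg.Agent.Lib_helper3_CharBasic.isCharacter_of_irr χ.2) ha
    obtain ⟨w₂, hw₂, e₂⟩ := Cfsg.Agent.Lib_helper3_Local.char_sub_reg_mem hM'
      (Cfsg.Agent.Lib_helper3_CharBasic.isCharacter_of_irr χ.2) hb
    have hcf := Cfsg.Agent.Lib_helper3_CharBasic.isClassFunction_of_irr χ.2
    have h1 : (χ : G → ℂ) (a⁻¹ * x) = (χ : G → ℂ) (b⁻¹ * y) :=
      (Cfsg.Agent.Lib_helper3_CharBasic.isClassFunction_iff_isConj.mp hcf) _ _ hconj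
    have h2 : (χ : G → ℂ) x - (χ : G → ℂ) y = ((w₁ - w₂ : Cfsg.AlgInt) : ℂ) := by
      push_cast
      rw [e₁, e₂, h1]
      ring
    rw [h2]
    exact Cfsg.Agent.Lib_helper3_Local.memLocalIdeal_of_mem hmax.ne_top (M.sub_mem hw₁ hw₂)
  · intro h
    by_contra hnc
    obtain ⟨y₁, hx1, hc1, ⟨k1, hk1⟩, hy1⟩ := ha
    obtain ⟨y₂, hx2, hc2, ⟨k2, hk2⟩, hy2⟩ := hb
    have hg1 : a⁻¹ * x = y₁ := by rw [← hx1, inv_mul_cancel_left]
    have hg2 : b⁻¹ * y = y₂ := by rw [← hx2, inv_mul_cancel_left]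
    rw [hg1, hg2] at hnc
    have hG0 : Nat.card G ≠ 0 := (Nat.card_pos (α := G)).ne'
    set m : ℕ := p ^ (Nat.card G).factorization p with hm
    set n : ℕ := Nat.card G / p ^ (Nat.card G).factorization p with hn
    have hmn : Nat.card G = m * n := (Nat.ordProj_mul_ordCompl_eq_self (Nat.card G) p).symm
    have hpn : Nat.Coprime p n := Nat.coprime_ordCompl hp hG0
    have hcop : Nat.Coprime m n := Nat.Coprime.pow_left _ hpn
    have hord : ∀ z : G, orderOf z ∣ m * n := fun z => hmn ▸ orderOf_dvd_natCard z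
    have hy1m : Nat.Coprime (orderOf y₁) m :=
      Nat.Coprime.pow_right _ ((Nat.Prime.coprime_iff_not_dvd hp).mpr hy1).symm
    have hy2m : Nat.Coprime (orderOf y₂) m :=
      Nat.Coprime.pow_right _ ((Nat.Prime.coprime_iff_not_dvd hp).mpr hy2).symm
    set ϑ : G → ℂ := fun z => if (∃ v : G, IsConj v y₁ ∧ (∃ u : G, z = u * v ∧ Commute u v ∧
      Nat.Coprime (orderOf u) n ∧ Nat.Coprime (orderOf v) m)) then (n : ℂ) else 0 with hϑ
    obtain ⟨c, hc, hsum⟩ := Cfsg.Agent.S0875.result m n hmn hcop y₁ hy1m ϑ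
      (fun z hz => if_pos hz) (fun z hz => if_neg hz)
    have hvx : ϑ x = n := by
      apply if_pos
      refine ⟨y₁, IsConj.refl _, a, hx1.symm, hc1, ?_, hy1m⟩
      rw [hk1]
      exact Nat.Coprime.pow_left _ hpn
    have hvy : ϑ y = 0 := by
      apply if_neg
      rintro ⟨v, hv, u, hyuv, hcuv, hu, hv'⟩
      apply hnc
      have hum : u ^ m = 1 :=
        orderOf_dvd_iff_pow_eq_one.mp (Nat.Coprime.dvd_of_dvd_mul_right hu (hord u))
      have hbm : b ^ m = 1 := by
        apply orderOf_dvd_iff_pow_eq_one.mp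
        apply Nat.Coprime.dvd_of_dvd_mul_right _ (hord b)
        rw [hk2]
        exact Nat.Coprime.pow_left _ hpn
      have hvn : v ^ n = 1 :=
        orderOf_dvd_iff_pow_eq_one.mp (Nat.Coprime.dvd_of_dvd_mul_left hv' (hord v))
      have hyn : y₂ ^ n = 1 :=
        orderOf_dvd_iff_pow_eq_one.mp (Nat.Coprime.dvd_of_dvd_mul_left hy2m (hord y₂))
      have h1 := Cfsg.Agent.Lib_helper3_Dade.parts_unique hcop hcuv hc2 hum hbm hvn hyn
        (hyuv.symm.trans hx2.symm)
      rw [← h1.2]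
      exact hv.symm
    have := Cfsg.Agent.Lib_helper3_CharBasic.irr_finite (G := G)
    have := Fintype.ofFinite (Cfsg.IrrCharacter G)
    have h1 : Cfsg.MemLocalIdeal M ((n : ℂ)) := by
      have h2 : (n : ℂ) = ϑ x - ϑ y := by rw [hvx, hvy, sub_zero]
      rw [h2, hsum, finsum_eq_sum_of_fintype]
      simp only [Finset.sum_apply, Pi.smul_apply, smul_eq_mul]
      rw [← Finset.sum_sub_distrib]
      apply Cfsg.Agent.Lib_helper3_Local.memLocalIdeal_sum
      intro χ _
      rw [← mul_sub]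
      exact Cfsg.Agent.Lib_helper3_Local.memLocalIdeal_algInt_mul (hc χ) (h χ)
    have h3 : (n : Cfsg.AlgInt) ∈ M :=
      Cfsg.Agent.Lib_helper3_Local.mem_of_memLocalIdeal (by simpa using h1)
    have h4 : IsCoprime (p : ℤ) (n : ℤ) := Nat.isCoprime_iff_coprime.mpr hpn
    obtain ⟨u, v, huv⟩ := h4
    have h5 : (1 : Cfsg.AlgInt) ∈ M := by
      have h6 : (1 : Cfsg.AlgInt) = (u : Cfsg.AlgInt) * (p : Cfsg.AlgInt) +
          (v : Cfsg.AlgInt) * (n : Cfsg.AlgInt) := by
        have h7 : ((u * (p : ℤ) + v * (n : ℤ) : ℤ) : Cfsg.AlgInt) = ((1 : ℤ) : Cfsg.AlgInt) := by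
          rw [huv]
        push_cast at h7
        exact h7.symm
      rw [h6]
      exact M.add_mem (M.mul_mem_left _ hpM) (M.mul_mem_left _ h3)
    exact hmax.ne_top ((Ideal.eq_top_iff_one M).mpr h5)
end Cfsg.Agent.S0876
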