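import Cfsg.Statements.S0893
import Cfsg.Agent.Lib_helper3_Extraspecial

set_option autoImplicit false
open Cfsg

namespace Cfsg.Agent.S0893

/-- Let P be an extraspecial p-group of order p ^ (2 * n + 1), A an abelian subgroup of order p ^ (n + 1), and λ a character of A of degree 1 that is not identically 1 on the elements of A lying in the centre of P. Then the function induced from λ to P is an irreducible character of P and vanishes at every element outside the centre. -/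
theorem result {P : Type*} [Group P] [Fintype P] (p n : ℕ) [Fact p.Prime] (hP : Cfsg.IsExtraspecial p P) (hcard : Nat.card P = p ^ (2 * n + 1)) (A : Subgroup P) (hab : ∀ a ∈ A, ∀ b ∈ A, a * b = b * a) (hA : Nat.card A = p ^ (n + 1)) (lam : A → ℂ) (hlam : Cfsg.IsCharacter A lam ∧ lam 1 = 1) (hZ : ∃ a : A, (a : P) ∈ Subgroup.center P ∧ lam a ≠ 1) : Cfsg.IsIrrCharacter P (Cfsg.indFun A lam) ∧ ∀ x : P, x ∉ Subgroup.center P → Cfsg.indFun A lam x = 0 := by
  classical
  have hp := (Fact.out : p.Prime)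
  obtain ⟨⟨hpg, hfr, hcomm⟩, hZc⟩ := hP
  obtain ⟨μ, rfl⟩ := Cfsg.Agent.Lib_helper3_Transfer.exists_hom_of_linear hlam.1 hlam.2
  obtain ⟨a, haZ, halam⟩ := hZ
  have ha1 : (a : P) ≠ 1 := by
    intro h
    apply halam
    have h2 : a = 1 := Subtype.ext h
    rw [h2]
    simp
  have hZA : Subgroup.center P ≤ A := by
    intro z hz
    obtain ⟨j, hj⟩ := Cfsg.Agent.Lib_helper3_Extraspecial.exists_pow_eq_of_prime_card hZc haZ ha1 hz
    rw [← hj]
    exact A.pow_mem a.2 j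
  have hμ1 : ∀ k (hk : k ∈ Subgroup.center P), k ≠ 1 → ((μ ⟨k, hZA hk⟩ : ℂˣ) : ℂ) ≠ 1 := by
    intro k hk hk1 h
    apply halam
    obtain ⟨j, hj⟩ := Cfsg.Agent.Lib_helper3_Extraspecial.exists_pow_eq_of_prime_card hZc hk hk1 haZ
    have h2 : a = (⟨k, hZA hk⟩ : A) ^ j := Subtype.ext (by simp [hj])
    show ((μ a : ℂˣ) : ℂ) = 1
    rw [h2, map_pow, Units.val_pow_eq_pow_val, h, one_pow]
  let c : P → ℂ := fun k => if hk : k ∈ Subgroup.center P then ((μ ⟨k, hZA hk⟩ : ℂˣ) : ℂ) else 0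
  have hcdef : ∀ k (hk : k ∈ Subgroup.center P), c k = ((μ ⟨k, hZA hk⟩ : ℂˣ) : ℂ) :=
    fun k hk => dif_pos hk
  have hext : ∀ (g k : P) (hk : k ∈ Subgroup.center P),
      Cfsg.extendByZero A (fun g => ((μ g : ℂˣ) : ℂ)) (g * k)
        = c k * Cfsg.extendByZero A (fun g => ((μ g : ℂˣ) : ℂ)) g := by
    intro g k hk
    by_cases hg : g ∈ A
    · rw [Cfsg.Agent.Lib_helper3_CharInd.extendByZero_mem A _ (A.mul_mem hg (hZA hk)),
        Cfsg.Agent.Lib_helper3_CharInd.extendByZero_mem A _ hg, hcdef k hk]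
      have h2 : (⟨g * k, A.mul_mem hg (hZA hk)⟩ : A) = ⟨g, hg⟩ * ⟨k, hZA hk⟩ := rfl
      rw [h2, map_mul, Units.val_mul, mul_comm]
    · have hgk : g * k ∉ A := fun h => hg (by
        have h3 := A.mul_mem h (A.inv_mem (hZA hk))
        simpa using h3)
      rw [Cfsg.Agent.Lib_helper3_CharInd.extendByZero_not_mem A _ hgk,
        Cfsg.Agent.Lib_helper3_CharInd.extendByZero_not_mem A _ hg, mul_zero]
  have hc : ∀ x k, k ∈ Subgroup.center P →
      Cfsg.indFun A (fun g => ((μ g : ℂˣ) : ℂ)) (x * k)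
        = c k * Cfsg.indFun A (fun g => ((μ g : ℂˣ) : ℂ)) x := by
    intro x k hk
    rw [Cfsg.Agent.Lib_helper3_CharInd.indFun_apply, Cfsg.Agent.Lib_helper3_CharInd.indFun_apply]
    have h2 : ∀ y : P, y⁻¹ * (x * k) * y = (y⁻¹ * x * y) * k := by
      intro y
      have h3 := Subgroup.mem_center_iff.mp hk y
      calc y⁻¹ * (x * k) * y = y⁻¹ * x * (k * y) := by group
        _ = y⁻¹ * x * (y * k) := by rw [h3]
        _ = (y⁻¹ * x * y) * k := by group
    rw [Finset.sum_congr rfl (fun y _ => by rw [h2 y, hext _ k hk]), ← Finset.mul_sum]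
    ring
  have hc1 : ∀ k ∈ Subgroup.center P, k ≠ 1 → c k ≠ 1 := fun k hk hk1 => by
    rw [hcdef k hk]
    exact hμ1 k hk hk1
  have hvan : ∀ x : P, x ∉ Subgroup.center P → Cfsg.indFun A (fun g => ((μ g : ℂˣ) : ℂ)) x = 0 :=
    fun x hx => Cfsg.Agent.Lib_helper3_Extraspecial.vanish_off_center hcomm.le _
      (Cfsg.Agent.Lib_helper3_CharInd.isClassFunction_indFun A _) c hc hc1 hx
  refine ⟨?_, hvan⟩
  apply Cfsg.Agent.Lib_helper3_CharMore.isIrrCharacter_of_inner_self_eq_one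
    (Cfsg.Agent.Lib_helper3_CharInd.isCharacter_indFun A hlam.1)
  have hψ1 : Cfsg.indFun A (fun g => ((μ g : ℂˣ) : ℂ)) 1 = (p : ℂ) ^ n := by
    rw [Cfsg.Agent.Lib_helper3_CharInd.indFun_apply_one]
    have hidx : A.index = p ^ n := by
      have h1 := Subgroup.card_mul_index A
      rw [hA, hcard] at h1
      have h2 : p ^ (2 * n + 1) = p ^ (n + 1) * p ^ n := by
        rw [← pow_add]
        congr 1
        omega
      rw [h2] at h1
      exact Nat.eq_of_mul_eq_mul_left (pow_pos hp.pos _) h1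
    rw [hidx]
    simp
  have hnorm : ∀ x ∈ Subgroup.center P,
      ‖Cfsg.indFun A (fun g => ((μ g : ℂˣ) : ℂ)) x‖ = (p : ℝ) ^ n := by
    intro x hx
    have h2 := hc 1 x hx
    rw [one_mul, hψ1] at h2
    have h3 : ((μ ⟨x, hZA hx⟩ : ℂˣ) : ℂ) ^ orderOf (⟨x, hZA hx⟩ : A) = 1 := by
      rw [← Units.val_pow_eq_pow_val, ← map_pow, pow_orderOf_eq_one, map_one, Units.val_one]
    rw [h2, norm_mul, hcdef x hx,
      Complex.norm_eq_one_of_pow_eq_one h3 (orderOf_pos _).ne', one_mul]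
    simp
  have hsum := Cfsg.Agent.Lib_helper3_Extraspecial.sum_norm_sq_of_center
    (Cfsg.indFun A (fun g => ((μ g : ℂˣ) : ℂ))) ((p : ℝ) ^ n) hvan hnorm
  rw [Cfsg.Agent.Lib_helper3_CharBasic.classInner_self_eq, hsum, hZc, hcard]
  push_cast
  have hp0 : (p : ℂ) ≠ 0 := by exact_mod_cast hp.ne_zero
  field_simp
  ring
end Cfsg.Agent.S0893
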