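import Cfsg.Statements.S0894
import Cfsg.Agent.Lib_helper3_Extraspecial
import Cfsg.Agent.S0154

set_option autoImplicit false
open Cfsg

namespace Cfsg.Agent.S0894

/-- Let P be an extraspecial p-group of order p ^ (2 * n + 1). Then every irreducible character of P has degree 1 or p ^ n, and exactly p - 1 of them have degree p ^ n. -/
theorem result {P : Type*} [Group P] [Finite P] (p n : ℕ) [Fact p.Prime] (hP : Cfsg.IsExtraspecial p P) (hcard : Nat.card P = p ^ (2 * n + 1)) : (∀ χ : Cfsg.IrrCharacter P, (χ : P → ℂ) 1 = 1 ∨ (χ : P → ℂ) 1 = (p : ℂ) ^ n) ∧ Nat.card {χ : Cfsg.IrrCharacter P // (χ : P → ℂ) 1 = (p : ℂ) ^ n} = p - 1 := by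
  classical
  have := Fintype.ofFinite P
  have hfin : Finite (Cfsg.IrrCharacter P) := Cfsg.Agent.Lib_helper3_CharBasic.irr_finite
  have := Fintype.ofFinite (Cfsg.IrrCharacter P)
  have hp := (Fact.out : p.Prime)
  have hdich : ∀ χ : Cfsg.IrrCharacter P, (χ : P → ℂ) 1 = 1 ∨ (χ : P → ℂ) 1 = (p : ℂ) ^ n := by
    intro χ
    by_cases h1 : (χ : P → ℂ) 1 = 1
    · exact Or.inl h1
    · exact Or.inr (Cfsg.Agent.Lib_helper3_Extraspecial.degree_of_nonlinear p n hP hcard χ.2 h1).1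
  refine ⟨hdich, ?_⟩
  have hlin := Cfsg.Agent.S0154.result (G := P)
  have hidx : (commutator P).index = p ^ (2 * n) := by
    have h1 := Subgroup.card_mul_index (commutator P)
    rw [hP.1.2.2, hP.2, hcard, pow_succ, mul_comm] at h1
    rw [hP.1.2.2]
    exact Nat.eq_of_mul_eq_mul_right hp.pos h1
  rw [hidx] at hlin
  have hsum := Cfsg.Agent.Lib_helper3_CharBasic.sum_sq_degree (G := P)
  rw [hcard] at hsum
  -- the two filters
  have hL : Nat.card {χ : Cfsg.IrrCharacter P // (χ : P → ℂ) 1 = 1}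
      = (Finset.univ.filter (fun χ : Cfsg.IrrCharacter P => (χ : P → ℂ) 1 = 1)).card := by
    rw [Nat.card_eq_fintype_card, Fintype.card_subtype]
  have hM : Nat.card {χ : Cfsg.IrrCharacter P // (χ : P → ℂ) 1 = (p : ℂ) ^ n}
      = (Finset.univ.filter (fun χ : Cfsg.IrrCharacter P => (χ : P → ℂ) 1 = (p : ℂ) ^ n)).card := by
    rw [Nat.card_eq_fintype_card, Fintype.card_subtype]
  rw [hL] at hlin
  rw [hM]
  -- p ^ n ≠ 1
  have hpn : (p : ℂ) ^ n ≠ 1 := by
    intro h
    have hall : ∀ χ : Cfsg.IrrCharacter P, (χ : P → ℂ) 1 = 1 := by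
      intro χ
      rcases hdich χ with h1 | h1
      · exact h1
      · rw [h1, h]
    have h2 : (Finset.univ.filter (fun χ : Cfsg.IrrCharacter P => (χ : P → ℂ) 1 = 1))
        = Finset.univ := Finset.filter_true_of_mem (fun χ _ => hall χ)
    rw [h2] at hlin
    have h3 : ∑ χ : Cfsg.IrrCharacter P, (χ : P → ℂ) 1 ^ 2
        = ((Finset.univ : Finset (Cfsg.IrrCharacter P)).card : ℂ) := by
      rw [Finset.sum_congr rfl (fun χ _ => by rw [hall χ, one_pow]), Finset.sum_const,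
        nsmul_eq_mul, mul_one]
    rw [h3, hlin] at hsum
    have h4 : p ^ (2 * n) = p ^ (2 * n + 1) := by exact_mod_cast hsum
    have h5 := Nat.pow_right_injective hp.two_le h4
    omega
  have hsplit := Finset.sum_filter_add_sum_filter_not Finset.univ
    (fun χ : Cfsg.IrrCharacter P => (χ : P → ℂ) 1 = 1) (fun χ => (χ : P → ℂ) 1 ^ 2)
  have hfilt : (Finset.univ.filter (fun χ : Cfsg.IrrCharacter P => ¬ (χ : P → ℂ) 1 = 1))
      = Finset.univ.filter (fun χ : Cfsg.IrrCharacter P => (χ : P → ℂ) 1 = (p : ℂ) ^ n) := by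
    apply Finset.filter_congr
    intro χ _
    constructor
    · intro h1
      rcases hdich χ with h2 | h2
      · exact absurd h2 h1
      · exact h2
    · intro h1 h2
      rw [h2] at h1
      exact hpn h1.symm
  rw [hfilt] at hsplit
  have h1 : ∑ χ ∈ Finset.univ.filter (fun χ : Cfsg.IrrCharacter P => (χ : P → ℂ) 1 = 1),
      (χ : P → ℂ) 1 ^ 2 = ((p ^ (2 * n) : ℕ) : ℂ) := by
    rw [Finset.sum_congr rfl (fun χ hχ => by rw [(Finset.mem_filter.mp hχ).2, one_pow]),
      Finset.sum_const, nsmul_eq_mul, mul_one, hlin]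
  have h2 : ∑ χ ∈ Finset.univ.filter (fun χ : Cfsg.IrrCharacter P => (χ : P → ℂ) 1 = (p : ℂ) ^ n),
      (χ : P → ℂ) 1 ^ 2 = (((Finset.univ.filter
        (fun χ : Cfsg.IrrCharacter P => (χ : P → ℂ) 1 = (p : ℂ) ^ n)).card * p ^ (2 * n) : ℕ) : ℂ) := by
    rw [Finset.sum_congr rfl (fun χ hχ => by rw [(Finset.mem_filter.mp hχ).2]),
      Finset.sum_const, nsmul_eq_mul]
    push_cast
    ring
  rw [h1, h2, hsum] at hsplit
  have h3 : p ^ (2 * n) + (Finset.univ.filter
        (fun χ : Cfsg.IrrCharacter P => (χ : P → ℂ) 1 = (p : ℂ) ^ n)).card * p ^ (2 * n)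
      = p ^ (2 * n + 1) := by exact_mod_cast hsplit
  have h4 : ((Finset.univ.filter
        (fun χ : Cfsg.IrrCharacter P => (χ : P → ℂ) 1 = (p : ℂ) ^ n)).card + 1) * p ^ (2 * n)
      = p * p ^ (2 * n) := by
    rw [add_mul, one_mul, add_comm, h3, pow_succ, mul_comm]
  have h5 := Nat.eq_of_mul_eq_mul_right (pow_pos hp.pos (2 * n)) h4
  omega
end Cfsg.Agent.S0894
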