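import Cfsg.Statements.S0900
import Cfsg.Agent.Lib_helper3_Clifford
import Cfsg.Agent.Lib_helper3_Galois2

set_option autoImplicit false
open Cfsg

namespace Cfsg.Agent.S0900

/-- Let N be a normal subgroup of the finite group G, χ an irreducible character of G and ϑ an irreducible character of N having nonzero inner product with the restriction of χ. Consider: (a) the restriction of χ to N is e • ϑ for a natural number e with e ^ 2 equal to the index of N; (b) χ vanishes outside N and ϑ is invariant under conjugation by G; (c) ϑ is invariant and every irreducible character of G having nonzero inner product with the function induced from ϑ equals χ. Then (a) ↔ (b) and (a) ↔ (c). -/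
theorem result {G : Type*} [Group G] [Fintype G] (N : Subgroup G) [hN : N.Normal] [Fintype N] (χ : G → ℂ) (hχ : Cfsg.IsIrrCharacter G χ) (ϑ : N → ℂ) (hϑ : Cfsg.IsIrrCharacter N ϑ) (hcon : Cfsg.classInner (fun n : N => χ n) ϑ ≠ 0) : ((∃ e : ℕ, (fun n : N => χ n) = (e : ℂ) • ϑ ∧ e ^ 2 = N.index) ↔ ((∀ g : G, g ∉ N → χ g = 0) ∧ ∀ (g : G) (n : N), ϑ ⟨g * n * g⁻¹, hN.conj_mem (n : G) n.2 g⟩ = ϑ n)) ∧ ((∃ e : ℕ, (fun n : N => χ n) = (e : ℂ) • ϑ ∧ e ^ 2 = N.index) ↔ (∀ (g : G) (n : N), ϑ ⟨g * n * g⁻¹, hN.conj_mem (n : G) n.2 g⟩ = ϑ n ∧ ∀ ψ : G → ℂ, Cfsg.IsIrrCharacter G ψ → Cfsg.classInner (Cfsg.indFun N ϑ) ψ ≠ 0 → ψ = χ)) := by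
  classical
  have := Cfsg.Agent.Lib_helper3_CharBasic.irr_finite (G := G)
  have := Fintype.ofFinite (Cfsg.IrrCharacter G)
  have hχc := Cfsg.Agent.Lib_helper3_CharBasic.isCharacter_of_irr hχ
  have hχcl := Cfsg.Agent.Lib_helper3_CharBasic.isClassFunction_of_irr hχ
  have hϑc := Cfsg.Agent.Lib_helper3_CharBasic.isCharacter_of_irr hϑ
  obtain ⟨e, he⟩ := Cfsg.Agent.Lib_helper3_CharInd.classInner_nat
    (Cfsg.Agent.Lib_helper3_CharBasic.isCharacter_restrict N hχc) hϑc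
  have he0 : e ≠ 0 := by
    rintro rfl
    exact hcon (by rw [he]; simp)
  obtain ⟨dϑ, hdϑpos, hdϑ⟩ := Cfsg.Agent.Lib_helper3_CharMore.irr_apply_one_pos hϑ
  have hN0 : (0 : ℝ) < (Nat.card N : ℝ) := by exact_mod_cast (Nat.card_pos (α := N))
  -- L1
  have L1 : (∀ (g : G) (n : N), ϑ ⟨g * n * g⁻¹, hN.conj_mem (n : G) n.2 g⟩ = ϑ n) →
      (fun n : N => χ n) = (e : ℂ) • ϑ := by
    intro hinv
    have hcl := Cfsg.Agent.Lib_helper3_Clifford.clifford N hχ hϑ hcon
    have hset : {ψ : N → ℂ | ∃ g : G, ψ = Cfsg.Agent.Lib_helper3_CharNormal.conjFun N g ϑ} = {ϑ} := by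
      ext ψ
      constructor
      · rintro ⟨g, rfl⟩
        show Cfsg.Agent.Lib_helper3_CharNormal.conjFun N g ϑ = ϑ
        funext n
        exact hinv g n
      · intro h
        have h' : ψ = ϑ := h
        exact ⟨1, by rw [h', Cfsg.Agent.Lib_helper3_CharNormal.conjFun_one]⟩
    rw [hset, finsum_mem_singleton, he] at hcl
    exact hcl
  -- L2
  have L2 : ∀ c : ℂ, c ≠ 0 → (fun n : N => χ n) = c • ϑ →
      (∀ (g : G) (n : N), ϑ ⟨g * n * g⁻¹, hN.conj_mem (n : G) n.2 g⟩ = ϑ n) := by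
    intro c hc h g n
    have h1 := congrFun h ⟨g * n * g⁻¹, hN.conj_mem (n : G) n.2 g⟩
    have h2 := congrFun h n
    simp only [Pi.smul_apply, smul_eq_mul] at h1 h2
    have h3 : χ (g * (n : G) * g⁻¹) = χ (n : G) := hχcl (n : G) g
    rw [h1, h2] at h3
    exact mul_left_cancel₀ hc h3
  have L2' : ∀ e' : ℕ, (fun n : N => χ n) = (e' : ℂ) • ϑ → e' = e := by
    intro e' h
    have h1 := he
    rw [h, Cfsg.Agent.Lib_helper3_CharBasic.classInner_smul_left,
      Cfsg.Agent.Lib_helper3_CharBasic.irr_inner_self hϑ, mul_one] at h1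
    exact_mod_cast h1
  -- L3
  have L3 : (fun n : N => χ n) = (e : ℂ) • ϑ → (e ^ 2 = N.index ↔ ∀ g : G, g ∉ N → χ g = 0) := by
    intro h
    have hG := Cfsg.Agent.Lib_helper3_Galois2.sum_norm_sq_irr hχ
    have hNs := Cfsg.Agent.Lib_helper3_Galois2.sum_norm_sq_irr hϑ
    rw [← Finset.sum_filter_add_sum_filter_not Finset.univ (fun g : G => g ∈ N)] at hG
    have h1 : ∑ g ∈ Finset.univ.filter (fun g : G => g ∈ N), ‖χ g‖ ^ 2
        = (e : ℝ) ^ 2 * (Nat.card N : ℝ) := by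
      rw [Finset.sum_subtype (Finset.univ.filter (fun g : G => g ∈ N)) (p := fun g => g ∈ N)
        (fun x => by simp) (fun g => ‖χ g‖ ^ 2)]
      rw [← hNs, Finset.mul_sum]
      apply Finset.sum_congr rfl
      intro n _
      have h2 := congrFun h n
      simp only [Pi.smul_apply, smul_eq_mul] at h2
      show ‖χ (n : G)‖ ^ 2 = _
      rw [h2, norm_mul, mul_pow, Complex.norm_natCast]
    rw [h1] at hG
    have hidx : (Nat.card G : ℝ) = (Nat.card N : ℝ) * (N.index : ℝ) := by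
      rw [← Nat.cast_mul, Subgroup.card_mul_index]
    rw [hidx] at hG
    have hnn : ∀ g ∈ Finset.univ.filter (fun g : G => ¬ g ∈ N), 0 ≤ ‖χ g‖ ^ 2 :=
      fun g _ => by positivity
    constructor
    · intro heq g hg
      have h3 : ∑ g ∈ Finset.univ.filter (fun g : G => ¬ g ∈ N), ‖χ g‖ ^ 2 = 0 := by
        have : ((e ^ 2 : ℕ) : ℝ) = (N.index : ℝ) := by rw [heq]
        push_cast at this
        nlinarith
      have h4 := (Finset.sum_eq_zero_iff_of_nonneg hnn).mp h3 g (by simp [hg])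
      have h5 : ‖χ g‖ = 0 := by
        rcases pow_eq_zero_iff (n := 2) (by norm_num) |>.mp h4 with h6
        exact h6
      exact norm_eq_zero.mp h5
    · intro hvan
      have h3 : ∑ g ∈ Finset.univ.filter (fun g : G => ¬ g ∈ N), ‖χ g‖ ^ 2 = 0 := by
        apply Finset.sum_eq_zero
        intro g hg
        rw [Finset.mem_filter] at hg
        rw [hvan g hg.2]
        simp
      rw [h3, add_zero] at hG
      have h4 : (e : ℝ) ^ 2 = (N.index : ℝ) := by
        have : (Nat.card N : ℝ) * (e : ℝ) ^ 2 = (Nat.card N : ℝ) * (N.index : ℝ) := by linarith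
        exact mul_left_cancel₀ hN0.ne' this
      exact_mod_cast h4
  -- L4
  have L4 : (fun n : N => χ n) = (e : ℂ) • ϑ → (e ^ 2 = N.index ↔
      ∀ ψ : G → ℂ, Cfsg.IsIrrCharacter G ψ → Cfsg.classInner (Cfsg.indFun N ϑ) ψ ≠ 0 → ψ = χ) := by
    intro h
    have hindc := Cfsg.Agent.Lib_helper3_CharInd.isCharacter_indFun N hϑc
    choose a ha using fun ψ : Cfsg.IrrCharacter G =>
      Cfsg.Agent.Lib_helper3_CharInd.classInner_nat hindc
        (Cfsg.Agent.Lib_helper3_CharBasic.isCharacter_of_irr ψ.2)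
    choose d hdpos hd using fun ψ : Cfsg.IrrCharacter G =>
      Cfsg.Agent.Lib_helper3_CharMore.irr_apply_one_pos ψ.2
    have h1 := Cfsg.Agent.Lib_helper3_CharBasic.classFunction_eq_sum_apply (Cfsg.indFun N ϑ)
      (Cfsg.Agent.Lib_helper3_CharInd.isClassFunction_indFun N ϑ) 1
    rw [Cfsg.Agent.Lib_helper3_CharInd.indFun_apply_one, hdϑ] at h1
    have h2 : N.index * dϑ = ∑ ψ : Cfsg.IrrCharacter G, a ψ * d ψ := by
      have : ((N.index * dϑ : ℕ) : ℂ) = ((∑ ψ : Cfsg.IrrCharacter G, a ψ * d ψ : ℕ) : ℂ) := by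
        push_cast
        rw [h1]
        apply Finset.sum_congr rfl
        intro ψ _
        rw [ha, hd]
      exact_mod_cast this
    have haχ : a ⟨χ, hχ⟩ = e := by
      have h3 := ha ⟨χ, hχ⟩
      rw [Cfsg.Agent.Lib_helper3_CharInd.frobenius_reciprocity N ϑ χ hχcl,
        ← Cfsg.Agent.Lib_helper3_CharBasic.classInner_conj_symm, he] at h3
      simp only [Complex.conj_natCast] at h3
      exact_mod_cast h3.symm
    have hdχ : d ⟨χ, hχ⟩ = e * dϑ := by
      have h3 : χ 1 = (d ⟨χ, hχ⟩ : ℂ) := hd ⟨χ, hχ⟩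
      have h4 := congrFun h 1
      simp only [Pi.smul_apply, smul_eq_mul, hdϑ] at h4
      have h5 : χ 1 = (e : ℂ) * dϑ := h4
      rw [h5] at h3
      exact_mod_cast h3.symm
    rw [← Finset.add_sum_erase Finset.univ _ (Finset.mem_univ (⟨χ, hχ⟩ : Cfsg.IrrCharacter G)),
      haχ, hdχ] at h2
    constructor
    · intro heq ψ hψ hne
      by_contra hneq
      have h3 : ∑ x ∈ Finset.univ.erase (⟨χ, hχ⟩ : Cfsg.IrrCharacter G), a x * d x = 0 := by
        rw [← heq] at h2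
        nlinarith
      have h4 := (Finset.sum_eq_zero_iff.mp h3) ⟨ψ, hψ⟩ (by
        rw [Finset.mem_erase]
        exact ⟨fun h' => hneq (congrArg Subtype.val h'), Finset.mem_univ _⟩)
      rcases Nat.mul_eq_zero.mp h4 with h5 | h5
      · apply hne
        rw [ha ⟨ψ, hψ⟩, h5]
        simp
      · exact (hdpos ⟨ψ, hψ⟩).ne' h5
    · intro hall
      have h3 : ∑ x ∈ Finset.univ.erase (⟨χ, hχ⟩ : Cfsg.IrrCharacter G), a x * d x = 0 := by
        apply Finset.sum_eq_zero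
        intro ψ hψ
        rw [Finset.mem_erase] at hψ
        have h4 : a ψ = 0 := by
          by_contra h5
          apply hψ.1
          apply Subtype.ext
          apply hall ψ.1 ψ.2
          rw [ha ψ]
          exact_mod_cast h5
        rw [h4, zero_mul]
      rw [h3, add_zero] at h2
      have h4 : N.index * dϑ = e ^ 2 * dϑ := by rw [h2]; ring
      exact (Nat.eq_of_mul_eq_mul_right hdϑpos h4).symm
  have hidx0 : N.index ≠ 0 := Subgroup.index_ne_zero_of_finite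
  have hA : ∀ e' : ℕ, (fun n : N => χ n) = (e' : ℂ) • ϑ → e' ^ 2 = N.index →
      e' = e ∧ (fun n : N => χ n) = (e : ℂ) • ϑ ∧ e ^ 2 = N.index ∧
      (∀ (g : G) (n : N), ϑ ⟨g * n * g⁻¹, hN.conj_mem (n : G) n.2 g⟩ = ϑ n) := by
    intro e' h1 h2
    have h3 := L2' e' h1
    subst h3
    refine ⟨rfl, h1, h2, L2 (e' : ℂ) (by exact_mod_cast he0) h1⟩
  refine ⟨⟨?_, ?_⟩, ⟨?_, ?_⟩⟩
  · rintro ⟨e', h1, h2⟩
    obtain ⟨-, h3, h4, h5⟩ := hA e' h1 h2
    exact ⟨(L3 h3).mp h4, h5⟩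
  · rintro ⟨hvan, hinv⟩
    exact ⟨e, L1 hinv, (L3 (L1 hinv)).mpr hvan⟩
  · rintro ⟨e', h1, h2⟩
    obtain ⟨-, h3, h4, h5⟩ := hA e' h1 h2
    intro g n
    exact ⟨h5 g n, (L4 h3).mp h4⟩
  · intro hC
    have hinv : ∀ (g : G) (n : N), ϑ ⟨g * n * g⁻¹, hN.conj_mem (n : G) n.2 g⟩ = ϑ n :=
      fun g n => (hC g n).1
    exact ⟨e, L1 hinv, (L4 (L1 hinv)).mpr (hC 1 1).2⟩
end Cfsg.Agent.S0900
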