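import Cfsg.Statements.S0903
import Mathlib

set_option autoImplicit false
open Cfsg

namespace Cfsg.Agent.S0903

/-- Let P be a p-subgroup of the finite group G, let c centralize P and let g, h ∈ G. The number of pairs (x, y) with x conjugate to g, y conjugate to h and x * y = c is congruent modulo p to the number of such pairs in which x and y both centralize P. (This is why the Brauer map on class sums is multiplicative.) -/
theorem result {G : Type*} [Group G] [Finite G] (p : ℕ) [Fact p.Prime] (P : Subgroup G) (hP : IsPGroup p P) (c : G) (hc : c ∈ Subgroup.centralizer (P : Set G)) (g h : G) : Nat.card {xy : G × G // IsConj g xy.1 ∧ IsConj h xy.2 ∧ xy.1 * xy.2 = c} ≡ Nat.card {xy : G × G // IsConj g xy.1 ∧ IsConj h xy.2 ∧ xy.1 * xy.2 = c ∧ xy.1 ∈ Subgroup.centralizer (P : Set G) ∧ xy.2 ∈ Subgroup.centralizer (P : Set G)} [MOD p] := by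
  classical
  have hcc : ∀ t : G, t ∈ P → t * c * t⁻¹ = c := by
    intro t ht
    rw [Subgroup.mem_centralizer_iff] at hc
    have h1 := hc t ht
    calc t * c * t⁻¹ = c * t * t⁻¹ := by rw [h1]
      _ = c := by group
  letI inst : MulAction P {xy : G × G // IsConj g xy.1 ∧ IsConj h xy.2 ∧ xy.1 * xy.2 = c} :=
    { smul := fun t xy => ⟨((t : G) * xy.1.1 * (t : G)⁻¹, (t : G) * xy.1.2 * (t : G)⁻¹),
        xy.2.1.trans (isConj_iff.mpr ⟨(t : G), rfl⟩),
        xy.2.2.1.trans (isConj_iff.mpr ⟨(t : G), rfl⟩), by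
          have h1 := xy.2.2.2
          have h2 := hcc (t : G) t.2
          calc (t : G) * xy.1.1 * (t : G)⁻¹ * ((t : G) * xy.1.2 * (t : G)⁻¹)
              = (t : G) * (xy.1.1 * xy.1.2) * (t : G)⁻¹ := by group
            _ = c := by rw [h1, h2]⟩
      one_smul := by
        intro xy
        apply Subtype.ext
        apply Prod.ext
        · show ((1 : P) : G) * xy.1.1 * ((1 : P) : G)⁻¹ = xy.1.1
          simp
        · show ((1 : P) : G) * xy.1.2 * ((1 : P) : G)⁻¹ = xy.1.2
          simp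
      mul_smul := by
        intro s t xy
        apply Subtype.ext
        apply Prod.ext
        · show ((s * t : P) : G) * xy.1.1 * ((s * t : P) : G)⁻¹ =
            (s : G) * ((t : G) * xy.1.1 * (t : G)⁻¹) * (s : G)⁻¹
          simp only [Subgroup.coe_mul]
          group
        · show ((s * t : P) : G) * xy.1.2 * ((s * t : P) : G)⁻¹ =
            (s : G) * ((t : G) * xy.1.2 * (t : G)⁻¹) * (s : G)⁻¹
          simp only [Subgroup.coe_mul]
          group }
  have hmod := hP.card_modEq_card_fixedPoints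
    {xy : G × G // IsConj g xy.1 ∧ IsConj h xy.2 ∧ xy.1 * xy.2 = c}
  have hcard : Nat.card (MulAction.fixedPoints P
      {xy : G × G // IsConj g xy.1 ∧ IsConj h xy.2 ∧ xy.1 * xy.2 = c}) =
      Nat.card {xy : G × G // IsConj g xy.1 ∧ IsConj h xy.2 ∧ xy.1 * xy.2 = c ∧
        xy.1 ∈ Subgroup.centralizer (P : Set G) ∧ xy.2 ∈ Subgroup.centralizer (P : Set G)} := by
    apply Nat.card_congr
    refine ⟨fun ω => ⟨ω.1.1, ω.1.2.1, ω.1.2.2.1, ω.1.2.2.2, ?_, ?_⟩,
      fun ω => ⟨⟨ω.1, ω.2.1, ω.2.2.1, ω.2.2.2.1⟩, ?_⟩, ?_, ?_⟩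
    · rw [Subgroup.mem_centralizer_iff]
      intro t ht
      have h1 := ω.2 ⟨t, ht⟩
      have h2 : t * ω.1.1.1 * t⁻¹ = ω.1.1.1 := congrArg (fun z => z.1.1) h1
      calc t * ω.1.1.1 = t * ω.1.1.1 * t⁻¹ * t := by group
        _ = ω.1.1.1 * t := by rw [h2]
    · rw [Subgroup.mem_centralizer_iff]
      intro t ht
      have h1 := ω.2 ⟨t, ht⟩
      have h2 : t * ω.1.1.2 * t⁻¹ = ω.1.1.2 := congrArg (fun z => z.1.2) h1
      calc t * ω.1.1.2 = t * ω.1.1.2 * t⁻¹ * t := by group
        _ = ω.1.1.2 * t := by rw [h2]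
    · intro t
      have hx := ω.2.2.2.2.1
      have hy := ω.2.2.2.2.2
      rw [Subgroup.mem_centralizer_iff] at hx hy
      apply Subtype.ext
      apply Prod.ext
      · show (t : G) * ω.1.1 * (t : G)⁻¹ = ω.1.1
        rw [hx (t : G) t.2]
        group
      · show (t : G) * ω.1.2 * (t : G)⁻¹ = ω.1.2
        rw [hy (t : G) t.2]
        group
    · intro ω
      rfl
    · intro ω
      rfl
  rw [← hcard]
  exact hmod
end Cfsg.Agent.S0903
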