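import Cfsg.Statements.S0910
import Cfsg.Agent.Lib_helper3_BlockPQuot
import Cfsg.Agent.Lib_helper3_Burnside

set_option autoImplicit false
open Cfsg

namespace Cfsg.Agent.S0910

/-- Let G be a non-abelian finite simple group and p a prime. If an irreducible character χ lies in the principal block (relative to a maximal ideal of the algebraic integers containing p) and χ 1 is a power of p, then χ is the principal character. -/
theorem result {G : Type*} [Group G] [Finite G] (p : ℕ) [Fact p.Prime] (M : Ideal Cfsg.AlgInt) (hM : Cfsg.IsPModular p M) [IsSimpleGroup G] (hna : ∃ a b : G, a * b ≠ b * a) (χ : Cfsg.IrrCharacter G) (hχ : χ ∈ Cfsg.principalBlock M G) (k : ℕ) (hdeg : (χ : G → ℂ) 1 = (p : ℂ) ^ k) : (χ : G → ℂ) = fun _ => 1 := by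
  classical
  have := Fintype.ofFinite G
  have hMp : M.IsPrime := Cfsg.Agent.Lib_helper3_Local2.isPrime_of_modular hM
  have hp : p.Prime := Fact.out
  have hnp : ¬ (Nat.card G).Prime := by
    intro hpr
    obtain ⟨a, b, hab⟩ := hna
    have := Fact.mk hpr
    have hc : IsCyclic G := isCyclic_of_prime_card (p := Nat.card G) rfl
    exact hab ((IsCyclic.commGroup (α := G)).mul_comm a b)
  have hz : ∃ z : G, z ≠ 1 ∧ ¬ p ∣ (Subgroup.centralizer ({z} : Set G)).index := by
    by_cases hdvd : p ∣ Nat.card G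
    · let P : Sylow p G := default
      have hPne : (P : Subgroup G) ≠ ⊥ := P.ne_bot_of_dvd_card hdvd
      have hnt : Nontrivial (P : Subgroup G) := (Subgroup.nontrivial_iff_ne_bot _).mpr hPne
      have hcn := IsPGroup.center_nontrivial P.isPGroup'
      obtain ⟨⟨z', hz'⟩, hne⟩ := exists_ne (1 : Subgroup.center (P : Subgroup G))
      refine ⟨(z' : G), ?_, ?_⟩
      · intro h
        apply hne
        apply Subtype.ext
        apply Subtype.ext
        exact h
      · have hle : (P : Subgroup G) ≤ Subgroup.centralizer ({(z' : G)} : Set G) := by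
          intro x hx
          rw [Subgroup.mem_centralizer_singleton_iff]
          have h1 := Subgroup.mem_center_iff.mp hz' ⟨x, hx⟩
          exact congrArg Subtype.val h1
        intro hd
        exact P.not_dvd_index (dvd_trans hd (Subgroup.index_dvd_of_le hle))
    · obtain ⟨a, b, hab⟩ := hna
      refine ⟨a, ?_, fun hd => hdvd (dvd_trans hd (Subgroup.index_dvd_card _))⟩
      rintro rfl
      simp at hab
  obtain ⟨z, hz1, hzp⟩ := hz
  obtain ⟨n, ρ, hirr, hρ⟩ := χ.2
  have hχ1 : (χ : G → ℂ) 1 = (n : ℂ) := by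
    rw [← hρ, Representation.char_one]
    simp
  have hn : n = p ^ k := by
    rw [hχ1] at hdeg
    exact_mod_cast hdeg
  have hfr : Module.finrank ℂ (Fin n → ℂ) = n := by simp
  have hcop : Nat.Coprime (Module.finrank ℂ (Fin n → ℂ))
      (Subgroup.centralizer ({z} : Set G)).index := by
    rw [hfr, hn]
    exact Nat.Coprime.pow_left _ ((Nat.Prime.coprime_iff_not_dvd hp).mpr hzp)
  rcases Cfsg.Agent.Lib_helper3_CharGalois.char_zero_or_norm_of_coprime ρ z hcop with h0 | h0
  · exfalso
    have h1 : Cfsg.MemLocalIdeal M (Cfsg.centralChar (fun _ : G => (1 : ℂ)) z -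
        Cfsg.centralChar (χ : G → ℂ) z) := hχ z
    have h2 : Cfsg.centralChar (fun _ : G => (1 : ℂ)) z - Cfsg.centralChar (χ : G → ℂ) z =
        ((Subgroup.centralizer ({z} : Set G)).index : ℂ) := by
      unfold Cfsg.centralChar
      rw [← hρ, h0]
      simp
    rw [h2] at h1
    exact Cfsg.Agent.Lib_helper3_Local2.not_memLocalIdeal_natCast hM hzp h1
  · obtain ⟨ω, hω⟩ := (Cfsg.Agent.Lib_helper3_CharDiag.norm_char_eq_iff ρ z).mp h0
    have hsc : ∃ ω : ℂ, ∀ v, ρ z v = ω • v := ⟨ω, fun v => by rw [hω]; rfl⟩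
    rw [← hρ]
    exact Cfsg.Agent.Lib_helper3_Burnside.char_eq_one_of_scalar hnp ρ z hz1 hsc
end Cfsg.Agent.S0910
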