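import Cfsg.Statements.S0915
import Cfsg.Agent.Lib_helper3_IdemCent
import Cfsg.Agent.Lib_helper1_PSolvComp

set_option autoImplicit false
open Cfsg

namespace Cfsg.Agent.S0915

/-- Let G be a finite p-solvable group with trivial largest normal subgroup of order prime to p. Then any two irreducible characters of G lie in the same block relative to every maximal ideal M of the algebraic integers containing p: G has a single p-block. -/
theorem result {G : Type*} [Group G] [Finite G] (p : ℕ) [Fact p.Prime] (M : Ideal Cfsg.AlgInt) (hM : Cfsg.IsPModular p M) (hsolv : Cfsg.IsPSolvable p G) (hcore : Cfsg.pPrimeCore p G = ⊥) (χ ψ : Cfsg.IrrCharacter G) : Cfsg.SameBlock M (χ : G → ℂ) (ψ : G → ℂ) := by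
  classical
  have := Fintype.ofFinite G
  have hPn := Cfsg.Agent.Lib_helper3_AugNil.pCore_normal p (G := G)
  have hPp := Cfsg.Agent.Lib_helper3_AugNil.isPGroup_pCore p (G := G)
  have hHH := Cfsg.Agent.Lib_helper1_PSolvComp.centralizer_pCore_le_of_pSolvable p hcore hsolv
  exact Cfsg.Agent.Lib_helper3_IdemCent.sameBlock_of_centralizer_le hM (Cfsg.pCore p G) hPp hHH χ ψ
end Cfsg.Agent.S0915
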