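import Cfsg.Statements.S0919
import Cfsg.Agent.Lib_helper3_BrauerHom2

set_option autoImplicit false
open Cfsg

namespace Cfsg.Agent.S0919

/-- Let P be a p-subgroup of the finite group G and H a subgroup with P·C_G(P) ≤ H ≤ N_G(P). Then for every block b of H relative to a maximal ideal M of the algebraic integers containing p, the induced block of b in G is defined: some block B of G has its central character congruent modulo M, at every element, to the central character of b induced to G. -/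
theorem result {G : Type*} [Group G] [Finite G] (p : ℕ) [Fact p.Prime] (M : Ideal Cfsg.AlgInt) (hM : Cfsg.IsPModular p M) (P H : Subgroup G) (hP : IsPGroup p P) (hPH : P ≤ H) (hCH : Subgroup.centralizer (P : Set G) ≤ H) (hHN : H ≤ Subgroup.normalizer (P : Set G)) (b : Set (Cfsg.IrrCharacter H)) (hb : Cfsg.IsPBlock M b) : Cfsg.InducedBlockDefined M H b := by
  classical
  have := Fintype.ofFinite G
  have := Fintype.ofFinite H
  have hMm : M.IsMaximal := hM.2.1
  have hMp : M.IsPrime := hMm.isPrime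
  obtain ⟨ξ₀, rfl⟩ := hb
  obtain ⟨χ₀, hχ₀⟩ := Cfsg.Agent.Lib_helper3_BrauerHom2.exists_irr_induced hM P H hP hPH hCH hHN ξ₀
  refine ⟨Cfsg.blockOf M (χ₀ : G → ℂ), ⟨ξ₀, rfl⟩, ⟨χ₀, rfl⟩, ?_⟩
  intro ξ hξ χ hχ g
  have h1 := Cfsg.Agent.Lib_helper3_BlockInd.inducedCentralChar_congr (M := M)
    (Cfsg.Agent.Lib_helper3_CharBasic.isClassFunction_of_irr ξ.2)
    (Cfsg.Agent.Lib_helper3_CharBasic.isClassFunction_of_irr ξ₀.2)
    (Cfsg.Agent.Lib_helper3_BlockAlg.sameBlock_symm hξ) g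
  have h2 := hχ₀ g
  have h3 : Cfsg.MemLocalIdeal M (Cfsg.centralChar (χ₀ : G → ℂ) g - Cfsg.centralChar (χ : G → ℂ) g) :=
    hχ g
  have h4 := Cfsg.Agent.Lib_helper3_Local.memLocalIdeal_add
    (Cfsg.Agent.Lib_helper3_Local.memLocalIdeal_add h1 h2) h3
  have h5 : Cfsg.inducedCentralChar H (ξ : H → ℂ) g - Cfsg.inducedCentralChar H (ξ₀ : H → ℂ) g +
      (Cfsg.inducedCentralChar H (ξ₀ : H → ℂ) g - Cfsg.centralChar (χ₀ : G → ℂ) g) +
      (Cfsg.centralChar (χ₀ : G → ℂ) g - Cfsg.centralChar (χ : G → ℂ) g) =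
      Cfsg.inducedCentralChar H (ξ : H → ℂ) g - Cfsg.centralChar (χ : G → ℂ) g := by ring
  rwa [h5] at h4
end Cfsg.Agent.S0919
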