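import Cfsg.Statements.S0921
import Cfsg.Agent.Lib_helper3_BlockCover

set_option autoImplicit false
open Cfsg

namespace Cfsg.Agent.S0921

/-- Let N = O_p'(G) be the largest normal subgroup of the finite group G of order prime to p, and fix a maximal ideal M of the algebraic integers containing p. If two irreducible characters χ, ψ of G lie in the same block relative to M, then an irreducible character of N occurs in the restriction of χ exactly when it occurs in the restriction of ψ. -/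
theorem result {G : Type*} [Group G] [Finite G] (p : ℕ) [Fact p.Prime] (M : Ideal Cfsg.AlgInt) (hM : Cfsg.IsPModular p M) [Fintype G] (χ ψ : Cfsg.IrrCharacter G) (h : Cfsg.SameBlock M (χ : G → ℂ) (ψ : G → ℂ)) (θ : Cfsg.IrrCharacter (Cfsg.pPrimeCore p G)) [Fintype (Cfsg.pPrimeCore p G)] : Cfsg.classInner (fun n : Cfsg.pPrimeCore p G => (χ : G → ℂ) n) (θ : Cfsg.pPrimeCore p G → ℂ) ≠ 0 ↔ Cfsg.classInner (fun n : Cfsg.pPrimeCore p G => (ψ : G → ℂ) n) (θ : Cfsg.pPrimeCore p G → ℂ) ≠ 0 := by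
  classical
  have hMp : M.IsPrime := Cfsg.Agent.Lib_helper3_Local2.isPrime_of_modular hM
  haveI := Cfsg.Agent.Lib_helper3_BlockCover.pPrimeCore_normal' p G
  have hinv : Cfsg.MemLocalRing M (Nat.card (Cfsg.pPrimeCore p G) : ℂ)⁻¹ := by
    apply Cfsg.Agent.Lib_helper3_Local2.memLocalRing_inv
      (Cfsg.Agent.Lib_helper3_Local2.memLocalRing_natCast hMp.ne_top _)
    apply Cfsg.Agent.Lib_helper3_Local2.not_memLocalIdeal_natCast hM
    intro hdvd
    have hc := Cfsg.Agent.Lib_helper3_BlockCover.card_pPrimeCore_coprime p G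
    have h1 := Nat.Coprime.eq_one_of_dvd hc.symm hdvd
    exact (Fact.out : p.Prime).one_lt.ne' h1
  have key : ∀ χ ψ : Cfsg.IrrCharacter G, Cfsg.SameBlock M (χ : G → ℂ) (ψ : G → ℂ) →
      Cfsg.classInner (fun n : Cfsg.pPrimeCore p G => (χ : G → ℂ) n)
        (θ : Cfsg.pPrimeCore p G → ℂ) ≠ 0 →
      Cfsg.classInner (fun n : Cfsg.pPrimeCore p G => (ψ : G → ℂ) n)
        (θ : Cfsg.pPrimeCore p G → ℂ) ≠ 0 := by
    intro χ ψ h hχ
    have hS := Cfsg.Agent.Lib_helper3_BlockCover.invariant_orbClosure (Cfsg.pPrimeCore p G)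
      ({θ} : Set (Cfsg.IrrCharacter (Cfsg.pPrimeCore p G)))
    obtain ⟨θ', ⟨x, θ'', hθ'', rfl⟩, hne⟩ :=
      Cfsg.Agent.Lib_helper3_BlockCover.cover_congr (Cfsg.pPrimeCore p G) hS
        (fun n => Cfsg.Agent.Lib_helper3_BlockCover.memLocalRing_blockCoeff_of_inv hinv _ n) h
        ⟨θ, Cfsg.Agent.Lib_helper3_BlockCover.subset_orbClosure (Cfsg.pPrimeCore p G) _ rfl, hχ⟩
    rw [Set.mem_singleton_iff] at hθ''
    subst hθ''
    rw [Cfsg.Agent.Lib_helper3_BlockCover.conjIrr_coe,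
      Cfsg.Agent.Lib_helper3_Clifford.classInner_restrict_conjFun (Cfsg.pPrimeCore p G)
        (Cfsg.Agent.Lib_helper3_CharBasic.isClassFunction_of_irr ψ.2) x] at hne
    exact hne
  exact ⟨key χ ψ h, key ψ χ (Cfsg.Agent.Lib_helper3_BlockAlg.sameBlock_symm h)⟩
end Cfsg.Agent.S0921
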