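import Cfsg.Statements.S0923
import Cfsg.Agent.Lib_helper3_SecondMain2

set_option autoImplicit false
open Cfsg

namespace Cfsg.Agent.S0923

/-- Brauer's Second Main Theorem, in terms of ordinary characters. Let x be a p-element of the finite group G with centralizer C, let χ lie in the block B of G and let b be a block of C that does not induce B (relative to a maximal ideal M of the algebraic integers containing p). Form the class function ϑ(c) = χ(x c) on C and its b-part (the sum over ψ ∈ b of the inner product of ϑ with ψ, times ψ). Then the b-part of ϑ vanishes at every p-regular element of C. (Equivalently, the generalized decomposition numbers of χ with respect to b are zero.) -/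
theorem result {G : Type*} [Group G] [Finite G] (p : ℕ) [Fact p.Prime] (M : Ideal Cfsg.AlgInt) (hM : Cfsg.IsPModular p M) (x : G) (hx : ∃ k : ℕ, orderOf x = p ^ k) (B : Set (Cfsg.IrrCharacter G)) (hB : Cfsg.IsPBlock M B) (χ : Cfsg.IrrCharacter G) (hχ : χ ∈ B) (b : Set (Cfsg.IrrCharacter (Subgroup.centralizer ({x} : Set G)))) (hb : Cfsg.IsPBlock M b) (hnot : ¬ Cfsg.IsInducedBlock M (Subgroup.centralizer ({x} : Set G)) b B) (y : Subgroup.centralizer ({x} : Set G)) (hy : ¬ p ∣ orderOf y) : Cfsg.blockPart b (fun c : Subgroup.centralizer ({x} : Set G) => (χ : G → ℂ) (x * (c : G))) y = 0 := by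
  classical
  have := Fintype.ofFinite G
  have hϑ : IsClassFunction (Subgroup.centralizer ({x} : Set G))
      (fun c : Subgroup.centralizer ({x} : Set G) => (χ : G → ℂ) (x * (c : G))) := by
    intro c k
    show (χ : G → ℂ) (x * ((k * c * k⁻¹ : Subgroup.centralizer ({x} : Set G)) : G)) =
      (χ : G → ℂ) (x * (c : G))
    have hk : (k : G) * x = x * (k : G) := Subgroup.mem_centralizer_singleton_iff.mp k.2
    have h1 : x * ((k * c * k⁻¹ : Subgroup.centralizer ({x} : Set G)) : G) =
        (k : G) * (x * (c : G)) * (k : G)⁻¹ := by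
      simp only [Subgroup.coe_mul, Subgroup.coe_inv]
      rw [← mul_assoc, ← mul_assoc, ← hk]
      simp only [mul_assoc]
    rw [h1]
    exact Cfsg.Agent.Lib_helper3_CharBasic.isClassFunction_of_irr χ.2 _ _
  rw [Cfsg.Agent.Lib_helper3_SecondMain2.blockPart_eq b _ hϑ y]
  exact Cfsg.Agent.Lib_helper3_SecondMain2.second_main_char hM x hx B hB χ hχ b hb hnot y hy
end Cfsg.Agent.S0923
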