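import Cfsg.Statements.S0927
import Cfsg.Agent.Lib_helper3_DefectCard2

set_option autoImplicit false
open Cfsg

namespace Cfsg.Agent.S0927

/-- Let B be a block of the finite group G relative to a maximal ideal M of the algebraic integers containing p, let y represent a defect class of B and let P be a Sylow p-subgroup of the centralizer of y. (a) If x ∈ P and χ ∈ B has height zero, then χ (x * y) is not in the local ideal at M. (b) If x lies in the centre of P, then for every χ ∈ B the central character of χ at x * y is not in the local ideal at M. -/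
theorem result {G : Type*} [Group G] [Finite G] (p : ℕ) [Fact p.Prime] (M : Ideal Cfsg.AlgInt) (hM : Cfsg.IsPModular p M) (B : Set (Cfsg.IrrCharacter G)) (hB : Cfsg.IsPBlock M B) (y : G) (hy : Cfsg.IsDefectClass M B y) (P : Sylow p (Subgroup.centralizer ({y} : Set G))) (x : Subgroup.centralizer ({y} : Set G)) (hx : x ∈ (P : Subgroup (Subgroup.centralizer ({y} : Set G)))) : (∀ χ ∈ B, Cfsg.blockHeight p B (χ : G → ℂ) = 0 → ¬ Cfsg.MemLocalIdeal M ((χ : G → ℂ) ((x : G) * y))) ∧ ((∀ w ∈ (P : Subgroup (Subgroup.centralizer ({y} : Set G))), x * w = w * x) → ∀ χ ∈ B, ¬ Cfsg.MemLocalIdeal M (Cfsg.centralChar (χ : G → ℂ) ((x : G) * y))) := by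
  classical
  have := Fintype.ofFinite G
  have hp : p.Prime := Fact.out
  have hxy : (x : G) * y = y * (x : G) := Subgroup.mem_centralizer_singleton_iff.mp x.2
  have hxp : ∃ k : ℕ, orderOf (x : G) = p ^ k := by
    obtain ⟨k, hk⟩ := P.2 ⟨x, hx⟩
    have h1 : x ^ (p ^ k) = 1 := by
      have h2 := congrArg Subtype.val hk
      exact h2
    have h3 : (x : G) ^ (p ^ k) = 1 := by
      have h4 := congrArg Subtype.val h1
      exact h4
    obtain ⟨j, -, hj⟩ := (Nat.dvd_prime_pow hp).mp (orderOf_dvd_of_pow_eq_one h3)
    exact ⟨j, hj⟩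
  constructor
  · intro χ hχ h0
    exact Cfsg.Agent.Lib_helper3_DefectCard2.height_zero_not_mem hM hB hy (x : G) hxy hxp χ hχ h0
  · intro hcen χ hχ
    apply Cfsg.Agent.Lib_helper3_DefectCard2.centralChar_not_mem hM hB hy (x : G) hxy hxp
      ((P : Subgroup (Subgroup.centralizer ({y} : Set G))).map
        (Subgroup.centralizer ({y} : Set G)).subtype) (Subgroup.map_subtype_le _) _ _ χ hχ
    · rw [Subgroup.card_map_of_injective (Subgroup.centralizer ({y} : Set G)).subtype_injective]
      exact Sylow.card_eq_multiplicity P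
    · intro w hw
      obtain ⟨w', hw', rfl⟩ := Subgroup.mem_map.mp hw
      have h1 := hcen w' hw'
      exact congrArg Subtype.val h1
end Cfsg.Agent.S0927
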