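import Cfsg.Statements.S0929
import Cfsg.Agent.Lib_helper3_FirstMain2
import Cfsg.Agent.Lib_helper3_DefectVanish

set_option autoImplicit false
open Cfsg

namespace Cfsg.Agent.S0929

/-- Let B be a block of the finite group G with defect group P (relative to a maximal ideal M of the algebraic integers containing p), and let g be an element at which the central character of some member of B is not in the local ideal at M. Then some conjugate x of g centralizes P and has its p-part in the centre of P. -/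
theorem result {G : Type*} [Group G] [Finite G] (p : ℕ) [Fact p.Prime] (M : Ideal Cfsg.AlgInt) (hM : Cfsg.IsPModular p M) (B : Set (Cfsg.IrrCharacter G)) (hB : Cfsg.IsPBlock M B) (P : Subgroup G) (hP : Cfsg.IsDefectGroup p M B P) (g : G) (hg : ∃ χ ∈ B, ¬ Cfsg.MemLocalIdeal M (Cfsg.centralChar (χ : G → ℂ) g)) : ∃ x : G, IsConj g x ∧ x ∈ Subgroup.centralizer (P : Set G) ∧ ∀ z : G, Cfsg.IsPPart p x z → z ∈ P ∧ ∀ w ∈ P, z * w = w * z := by
  classical
  have := Fintype.ofFinite G
  have hp : p.Prime := Fact.out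
  have hMm : M.IsMaximal := hM.2.1
  have hMp : M.IsPrime := hMm.isPrime
  have hPp : IsPGroup p P := Cfsg.Agent.Lib_helper3_FirstMain2.isPGroup_of_isDefectGroup hP
  have hLN : P ⊔ Subgroup.centralizer (P : Set G) ≤ Subgroup.normalizer (P : Set G) :=
    sup_le Subgroup.le_normalizer (Cfsg.Agent.Lib_helper3_FirstMain.centralizer_le_normalizer' P)
  have := Fintype.ofFinite ↥(P ⊔ Subgroup.centralizer (P : Set G))
  obtain ⟨b, hb, hDb, hind⟩ := Cfsg.Agent.Lib_helper3_FirstMain2.exists_induced_with_defect hM P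
    (P ⊔ Subgroup.centralizer (P : Set G)) hPp le_rfl hLN B hB hP
  obtain ⟨χ, hχ, hχg⟩ := hg
  have hb' := hb
  obtain ⟨θ₀, hθ₀⟩ := hb
  have hθ₀b : θ₀ ∈ b := by
    rw [hθ₀]
    exact Cfsg.Agent.Lib_helper3_BlockAlg.mem_blockOf_self hMp.ne_top θ₀
  have h1 := hind.2.2 θ₀ hθ₀b χ hχ g
  have h2 : ¬ Cfsg.MemLocalIdeal M (Cfsg.inducedCentralChar (P ⊔ Subgroup.centralizer (P : Set G))
      (θ₀ : ↥(P ⊔ Subgroup.centralizer (P : Set G)) → ℂ) g) :=
    Cfsg.Agent.Lib_helper3_Local2.not_memLocalIdeal_of_sub h1 hχg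
  obtain ⟨x, hxconj, hxcc⟩ := Cfsg.Agent.Lib_helper3_DefectLoc2.exists_fusion_not_memLocalIdeal
    (P ⊔ Subgroup.centralizer (P : Set G)) θ₀ g h2
  have hxC : (x : G) ∈ Subgroup.centralizer (P : Set G) := by
    by_contra hnot
    exact hxcc (Cfsg.Agent.Lib_helper3_BrauerHom.centralChar_memLocalIdeal_of_not_mem_centralizer
      hM P (P ⊔ Subgroup.centralizer (P : Set G)) hPp le_sup_left hLN θ₀ x hnot)
  refine ⟨(x : G), hxconj, hxC, ?_⟩
  intro z hz
  obtain ⟨t, ht⟩ := Cfsg.Agent.Lib_helper3_DefectVanish.ppart_eq_pow hp hz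
  obtain ⟨y, hzy, hcomm, ⟨k, hk⟩, hy⟩ := hz
  constructor
  · have hn : (P.subgroupOf (P ⊔ Subgroup.centralizer (P : Set G))).Normal :=
      Subgroup.normal_subgroupOf_of_le_normalizer hLN
    have hcardP : Nat.card (P.subgroupOf (P ⊔ Subgroup.centralizer (P : Set G))) =
        p ^ Cfsg.blockDefect p b := Cfsg.Agent.S0908.result p M hM b hb' _ hDb
    have hnd := Cfsg.Agent.Lib_helper3_DefectVanish.not_dvd_orderOf_mk hM
      (P.subgroupOf (P ⊔ Subgroup.centralizer (P : Set G))) hPp.comap_subtype hb' hcardP θ₀ hθ₀b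
      x hxcc
    have hzL : ((x ^ t : ↥(P ⊔ Subgroup.centralizer (P : Set G))) : G) = z := by
      rw [Subgroup.coe_pow, ht]
    have ho1 : orderOf (QuotientGroup.mk (x ^ t) : ↥(P ⊔ Subgroup.centralizer (P : Set G)) ⧸
        P.subgroupOf (P ⊔ Subgroup.centralizer (P : Set G))) ∣
        orderOf (QuotientGroup.mk x : ↥(P ⊔ Subgroup.centralizer (P : Set G)) ⧸
        P.subgroupOf (P ⊔ Subgroup.centralizer (P : Set G))) := by
      rw [QuotientGroup.mk_pow]
      exact orderOf_pow_dvd t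
    have ho2 : orderOf (QuotientGroup.mk (x ^ t) : ↥(P ⊔ Subgroup.centralizer (P : Set G)) ⧸
        P.subgroupOf (P ⊔ Subgroup.centralizer (P : Set G))) ∣ p ^ k := by
      have h3 := orderOf_map_dvd (QuotientGroup.mk'
        (P.subgroupOf (P ⊔ Subgroup.centralizer (P : Set G)))) (x ^ t)
      rw [← Subgroup.orderOf_coe, hzL, hk] at h3
      exact h3
    obtain ⟨j, -, hj⟩ := (Nat.dvd_prime_pow hp).mp ho2
    have hj0 : j = 0 := by
      by_contra hj0
      apply hnd
      have h4 : p ∣ p ^ j := dvd_pow_self p hj0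
      rw [← hj] at h4
      exact h4.trans ho1
    rw [hj0, pow_zero, orderOf_eq_one_iff, QuotientGroup.eq_one_iff] at hj
    have h5 : ((x ^ t : ↥(P ⊔ Subgroup.centralizer (P : Set G))) : G) ∈ P := hj
    rwa [hzL] at h5
  · intro w hw
    have h3 : w * (x : G) = (x : G) * w := (Subgroup.mem_centralizer_iff.mp hxC) w hw
    have h4 : Commute w (x : G) := h3
    rw [← ht]
    exact ((h4.pow_right t).eq).symm
end Cfsg.Agent.S0929
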