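import Cfsg.Statements.S0930
import Cfsg.Agent.Lib_helper3_DefectCard2
import Cfsg.Agent.Lib_helper3_DefectVanish
import Cfsg.Agent.Lib_helper3_DefectLoc2
import Cfsg.Agent.Lib_helper3_PReg
import Cfsg.Agent.S0929

set_option autoImplicit false
open Cfsg

namespace Cfsg.Agent.S0930

/-- Let H be a subgroup of the finite group G and fix a maximal ideal M of the algebraic integers containing the prime p. If the block b of H with defect group D induces the block B of G with defect group P, then every element of the centre of P is conjugate in G to an element of the centre of D. -/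
theorem result {G : Type*} [Group G] [Finite G] (p : ℕ) [Fact p.Prime] (M : Ideal Cfsg.AlgInt) (hM : Cfsg.IsPModular p M) (H : Subgroup G) (b : Set (Cfsg.IrrCharacter H)) (B : Set (Cfsg.IrrCharacter G)) (hind : Cfsg.IsInducedBlock M H b B) (D : Subgroup H) (hD : Cfsg.IsDefectGroup p M b D) (P : Subgroup G) (hP : Cfsg.IsDefectGroup p M B P) (x : G) (hx : x ∈ P) (hxc : ∀ w ∈ P, x * w = w * x) : ∃ g : G, g * x * g⁻¹ ∈ D.map H.subtype ∧ ∀ w ∈ D.map H.subtype, (g * x * g⁻¹) * w = w * (g * x * g⁻¹) := by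
  classical
  have := Fintype.ofFinite G
  have := Fintype.ofFinite H
  have hp : p.Prime := Fact.out
  have hMm : M.IsMaximal := hM.2.1
  have hMp : M.IsPrime := hMm.isPrime
  obtain ⟨hb, hB, hcong⟩ := hind
  obtain ⟨y, hy, S, hS⟩ := hP
  have hPle : P ≤ Subgroup.centralizer ({y} : Set G) := by
    rw [hS]
    exact Subgroup.map_subtype_le _
  have hPcard : Nat.card P = p ^ (Nat.card (Subgroup.centralizer ({y} : Set G))).factorization p := by
    rw [hS, Subgroup.card_map_of_injective (Subgroup.subtype_injective _)]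
    exact Sylow.card_eq_multiplicity S
  have hPp : IsPGroup p P := IsPGroup.of_card hPcard
  have hxy : x * y = y * x := Subgroup.mem_centralizer_singleton_iff.mp (hPle hx)
  have hxord : ∃ k : ℕ, orderOf x = p ^ k := by
    obtain ⟨k, hk⟩ := hPp ⟨x, hx⟩
    have h1 : x ^ (p ^ k) = 1 := congrArg Subtype.val hk
    obtain ⟨j, -, hj⟩ := (Nat.dvd_prime_pow hp).mp (orderOf_dvd_of_pow_eq_one h1)
    exact ⟨j, hj⟩
  obtain ⟨χ₀, hχ₀⟩ := hB
  have hχ₀B : χ₀ ∈ B := by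
    rw [hχ₀]
    exact Cfsg.Agent.Lib_helper3_BlockAlg.mem_blockOf_self hMp.ne_top χ₀
  have hb' := hb
  obtain ⟨ξ₀, hξ₀⟩ := hb
  have hξ₀b : ξ₀ ∈ b := by
    rw [hξ₀]
    exact Cfsg.Agent.Lib_helper3_BlockAlg.mem_blockOf_self hMp.ne_top ξ₀
  have hcc := Cfsg.Agent.Lib_helper3_DefectCard2.centralChar_not_mem hM ⟨χ₀, hχ₀⟩ hy x hxy hxord P
    hPle hPcard hxc χ₀ hχ₀B
  have h1 := hcong ξ₀ hξ₀b χ₀ hχ₀B (x * y)
  have h2 : ¬ Cfsg.MemLocalIdeal M (Cfsg.inducedCentralChar H (ξ₀ : H → ℂ) (x * y)) :=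
    Cfsg.Agent.Lib_helper3_Local2.not_memLocalIdeal_of_sub h1 hcc
  obtain ⟨h, hconj, hhcc⟩ := Cfsg.Agent.Lib_helper3_DefectLoc2.exists_fusion_not_memLocalIdeal
    H ξ₀ (x * y) h2
  obtain ⟨h', hconj', hh'C, hh'⟩ := Cfsg.Agent.S0929.result p M hM b hb' D hD h ⟨ξ₀, hξ₀b, hhcc⟩
  -- the conjugating element
  obtain ⟨c₁, hc₁⟩ := isConj_iff.mp hconj
  obtain ⟨c₂, hc₂⟩ := isConj_iff.mp hconj'
  have hc : ((c₂ : G) * c₁) * (x * y) * ((c₂ : G) * c₁)⁻¹ = (h' : G) := by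
    have h3 : ((c₂ * h * c₂⁻¹ : H) : G) = (h' : G) := by rw [hc₂]
    rw [Subgroup.coe_mul, Subgroup.coe_mul, Subgroup.coe_inv, ← hc₁] at h3
    rw [← h3]
    group
  have hreg := Cfsg.Agent.Lib_helper3_DefectCard2.not_dvd_orderOf_of_defectClass hM
    ⟨χ₀, hχ₀⟩ hy
  obtain ⟨k, hk⟩ := hxord
  have hpp : Cfsg.IsPPart p (x * y) x := ⟨y, rfl, hxy, ⟨k, hk⟩, hreg⟩
  obtain ⟨t, ht⟩ := Cfsg.Agent.Lib_helper3_DefectVanish.ppart_eq_pow hp hpp
  have hzG : ((h' ^ t : H) : G) = ((c₂ : G) * c₁) * x * ((c₂ : G) * c₁)⁻¹ := by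
    rw [Subgroup.coe_pow, ← hc, conj_pow, ht]
  have hppH : Cfsg.IsPPart p h' (h' ^ t) := by
    refine ⟨(h' ^ t)⁻¹ * h', by group, ?_, ⟨k, ?_⟩, ?_⟩
    · have h3 : Commute (h' ^ t) h' := (Commute.refl h').pow_left t
      exact ((Commute.refl (h' ^ t)).inv_right).mul_right h3
    · rw [← Subgroup.orderOf_coe, hzG, Cfsg.Agent.Lib_helper3_PReg.orderOf_conj_eq, hk]
    · have h3 : (((h' ^ t)⁻¹ * h' : H) : G) = ((c₂ : G) * c₁) * y * ((c₂ : G) * c₁)⁻¹ := by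
        rw [Subgroup.coe_mul, Subgroup.coe_inv, hzG, ← hc]
        group
      rw [← Subgroup.orderOf_coe, h3, Cfsg.Agent.Lib_helper3_PReg.orderOf_conj_eq]
      exact hreg
  obtain ⟨hzD, hzc⟩ := hh' (h' ^ t) hppH
  refine ⟨(c₂ : G) * c₁, ?_, ?_⟩
  · rw [← hzG]
    exact Subgroup.mem_map.mpr ⟨h' ^ t, hzD, rfl⟩
  · intro w hw
    obtain ⟨w', hw', rfl⟩ := Subgroup.mem_map.mp hw
    rw [← hzG]
    have h3 := hzc w' hw'
    exact congrArg Subtype.val h3
end Cfsg.Agent.S0930
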