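import Cfsg.Statements.S0931
import Cfsg.Agent.Lib_helper3_DefectCard2
import Cfsg.Agent.Lib_helper3_PReg
import Cfsg.Agent.S0906
import Cfsg.Agent.S0908
import Cfsg.Agent.S0914
import Cfsg.Agent.S0917

set_option autoImplicit false
open Cfsg

namespace Cfsg.Agent.S0931

/-- Let H be a subgroup of the finite group G and fix a maximal ideal M of the algebraic integers containing the prime p. If the block b of H induces the block B of G, then b has defect 0 if and only if B has defect 0. -/
theorem result {G : Type*} [Group G] [Finite G] (p : ℕ) [Fact p.Prime] (M : Ideal Cfsg.AlgInt) (hM : Cfsg.IsPModular p M) (H : Subgroup G) (b : Set (Cfsg.IrrCharacter H)) (B : Set (Cfsg.IrrCharacter G)) (hind : Cfsg.IsInducedBlock M H b B) : Cfsg.blockDefect p b = 0 ↔ Cfsg.blockDefect p B = 0 := by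
  classical
  have := Fintype.ofFinite G
  have := Fintype.ofFinite H
  have hp : p.Prime := Fact.out
  have hMm : M.IsMaximal := hM.2.1
  have hMp : M.IsPrime := hMm.isPrime
  obtain ⟨hb, hB, hcong⟩ := hind
  constructor
  · intro hb0
    by_contra hB0
    obtain ⟨y, hy⟩ := Cfsg.Agent.S0906.result p M hM B hB
    obtain ⟨P⟩ : Nonempty (Sylow p (Subgroup.centralizer ({y} : Set G))) := inferInstance
    have hPcard : Nat.card P = p ^ Cfsg.blockDefect p B := by
      rw [Sylow.card_eq_multiplicity P, Cfsg.Agent.Lib_helper3_DefectCard.card_defect hM hB hy]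
    have hPnt : Nontrivial P := by
      rw [← Finite.one_lt_card_iff_nontrivial, hPcard]
      exact Nat.one_lt_pow hB0 hp.one_lt
    have hcen : Nontrivial (Subgroup.center P) := P.2.center_nontrivial
    obtain ⟨⟨x, hxc⟩, hx1⟩ := exists_ne (1 : Subgroup.center P)
    have hx1' : x ≠ 1 := fun h => hx1 (Subtype.ext h)
    have hxy : ((x : Subgroup.centralizer ({y} : Set G)) : G) * y =
        y * ((x : Subgroup.centralizer ({y} : Set G)) : G) :=
      Subgroup.mem_centralizer_singleton_iff.mp (x : Subgroup.centralizer ({y} : Set G)).2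
    have hxord : ∃ k : ℕ, k ≠ 0 ∧
        orderOf ((x : Subgroup.centralizer ({y} : Set G)) : G) = p ^ k := by
      obtain ⟨k, hk⟩ := P.2 x
      have h3 : orderOf x ∣ p ^ k := orderOf_dvd_of_pow_eq_one hk
      obtain ⟨j, -, hj⟩ := (Nat.dvd_prime_pow hp).mp h3
      refine ⟨j, ?_, ?_⟩
      · rintro rfl
        rw [pow_zero, orderOf_eq_one_iff] at hj
        exact hx1' hj
      · rw [Subgroup.orderOf_coe, Subgroup.orderOf_coe]
        exact hj
    obtain ⟨k, hk0, hk⟩ := hxord
    obtain ⟨χ₀, hχ₀⟩ := hB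
    have hχ₀B : χ₀ ∈ B := by
      rw [hχ₀]
      exact Cfsg.Agent.Lib_helper3_BlockAlg.mem_blockOf_self hMp.ne_top χ₀
    obtain ⟨ξ₀, hξ₀⟩ := hb
    have hξ₀b : ξ₀ ∈ b := by
      rw [hξ₀]
      exact Cfsg.Agent.Lib_helper3_BlockAlg.mem_blockOf_self hMp.ne_top ξ₀
    have hnot := Cfsg.Agent.Lib_helper3_DefectCard2.centralChar_not_mem hM ⟨χ₀, hχ₀⟩ hy
      ((x : Subgroup.centralizer ({y} : Set G)) : G) hxy ⟨k, hk⟩
      ((P : Subgroup (Subgroup.centralizer ({y} : Set G))).map
        (Subgroup.centralizer ({y} : Set G)).subtype) (Subgroup.map_subtype_le _)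
      (by
        rw [Subgroup.card_map_of_injective
          (Subgroup.centralizer ({y} : Set G)).subtype_injective]
        exact Sylow.card_eq_multiplicity P)
      (by
        intro w hw
        obtain ⟨w', hw', rfl⟩ := Subgroup.mem_map.mp hw
        have h1 := (Subgroup.mem_center_iff.mp hxc) ⟨w', hw'⟩
        have h2 := congrArg Subtype.val h1
        have h3 := congrArg Subtype.val h2
        exact h3.symm) χ₀ hχ₀B
    apply hnot
    have h1 := hcong ξ₀ hξ₀b χ₀ hχ₀B (((x : Subgroup.centralizer ({y} : Set G)) : G) * y)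
    -- the character of defect zero vanishes at the `p`-singular elements
    have hξdef : ¬ p ∣ Nat.card H / Cfsg.charDegree (ξ₀ : H → ℂ) := by
      obtain ⟨d, hd⟩ := Cfsg.Agent.Lib_helper3_CharBasic.isCharacter_apply_one
        (Cfsg.Agent.Lib_helper3_CharBasic.isCharacter_of_irr ξ₀.2)
      have hd' : Cfsg.charDegree (ξ₀ : H → ℂ) = d :=
        Cfsg.Agent.Lib_helper3_DefectZero.charDegree_eq hd
      have hdvd : d ∣ Nat.card H := Cfsg.Agent.Lib_helper3_CharOdd.irr_degree_dvd_card ξ₀.2 hd
      have hd0 : d ≠ 0 := by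
        rintro rfl
        exact Cfsg.Agent.Lib_helper3_CharMore.irr_apply_one_ne_zero ξ₀.2 (by rw [hd]; simp)
      have hle : sInf ((fun χ : Cfsg.IrrCharacter H =>
          (Cfsg.charDegree (χ : H → ℂ)).factorization p) '' b) ≤ d.factorization p := by
        apply Nat.sInf_le
        exact ⟨ξ₀, hξ₀b, by show (Cfsg.charDegree (ξ₀ : H → ℂ)).factorization p = _; rw [hd']⟩
      unfold Cfsg.blockDefect at hb0
      rw [hd']
      intro hdiv
      have hq0 : Nat.card H / d ≠ 0 := by
        obtain ⟨c, hc⟩ := hdvd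
        rw [hc, Nat.mul_div_cancel_left c (Nat.pos_of_ne_zero hd0)]
        rintro rfl
        rw [mul_zero] at hc
        exact Nat.card_pos.ne' hc
      have h2 := hp.factorization_pos_of_dvd hq0 hdiv
      rw [Nat.factorization_div hdvd] at h2
      have h3 : (Nat.card H).factorization p - d.factorization p = 0 := by
        have h4 : ((Nat.card H).factorization - d.factorization) p =
            (Nat.card H).factorization p - d.factorization p := rfl
        omega
      have h4 : ((Nat.card H).factorization - d.factorization) p =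
          (Nat.card H).factorization p - d.factorization p := rfl
      omega
    have hblk := (Cfsg.Agent.S0914.result p M hM ξ₀).mp hξdef
    have hR : ∀ g, Cfsg.MemLocalRing M (Cfsg.blockCoeff ({ξ₀} : Set (Cfsg.IrrCharacter H)) g) := by
      rw [← hblk]
      exact fun g => Cfsg.Agent.Lib_helper3_BlockAlg.osima ⟨ξ₀, rfl⟩ g
    have hvan : ∀ h : H, p ∣ orderOf h → (ξ₀ : H → ℂ) h = 0 :=
      fun h hh => Cfsg.Agent.Lib_helper3_DefectZero.eq_zero_of_singular hM ξ₀ hR h hh
    have hreg := Cfsg.Agent.Lib_helper3_DefectCard2.not_dvd_orderOf_of_defectClass hM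
      ⟨χ₀, hχ₀⟩ hy
    have hsing : p ∣ orderOf (((x : Subgroup.centralizer ({y} : Set G)) : G) * y) := by
      have hcop : (orderOf ((x : Subgroup.centralizer ({y} : Set G)) : G)).Coprime
          (orderOf y) := by
        rw [hk]
        exact Nat.Coprime.pow_left k ((Nat.Prime.coprime_iff_not_dvd hp).mpr hreg)
      have hcomm : Commute ((x : Subgroup.centralizer ({y} : Set G)) : G) y := hxy
      rw [hcomm.orderOf_mul_eq_mul_orderOf_of_coprime hcop, hk]
      exact Dvd.dvd.mul_right (dvd_pow_self p hk0) _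
    have hzero : Cfsg.inducedCentralChar H (ξ₀ : H → ℂ)
        (((x : Subgroup.centralizer ({y} : Set G)) : G) * y) = 0 := by
      unfold Cfsg.inducedCentralChar
      rw [← finsum_mem_zero {h : H | IsConj
        (((x : Subgroup.centralizer ({y} : Set G)) : G) * y) (h : G)}]
      apply finsum_mem_congr rfl
      intro h hh
      obtain ⟨c, hc⟩ := isConj_iff.mp hh
      have h2 : p ∣ orderOf h := by
        rw [← Subgroup.orderOf_coe, ← hc, Cfsg.Agent.Lib_helper3_PReg.orderOf_conj_eq]
        exact hsing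
      rw [hvan h h2, zero_div]
    rw [hzero, zero_sub] at h1
    have h2 := Cfsg.Agent.Lib_helper3_Local.memLocalIdeal_neg h1
    rwa [neg_neg] at h2
  · intro hB0
    obtain ⟨h, hh⟩ := Cfsg.Agent.S0906.result p M hM b hb
    obtain ⟨P⟩ : Nonempty (Sylow p (Subgroup.centralizer ({h} : Set H))) := inferInstance
    have hD : Cfsg.IsDefectGroup p M b ((P : Subgroup (Subgroup.centralizer ({h} : Set H))).map
        (Subgroup.centralizer ({h} : Set H)).subtype) := ⟨h, hh, P, rfl⟩
    obtain ⟨E, hE, hDE⟩ := Cfsg.Agent.S0917.result p M hM H b hb B hB ⟨hb, hB, hcong⟩ _ hD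
    have hEcard := Cfsg.Agent.S0908.result p M hM B hB E hE
    rw [hB0, pow_zero] at hEcard
    have hDcard := Cfsg.Agent.S0908.result p M hM b hb _ hD
    have h1 := Subgroup.card_dvd_of_le hDE
    rw [hEcard, Subgroup.card_map_of_injective H.subtype_injective, hDcard] at h1
    have h2 : p ^ Cfsg.blockDefect p b = 1 := Nat.dvd_one.mp h1
    rcases Nat.pow_eq_one.mp h2 with h3 | h3
    · exact absurd h3 hp.one_lt.ne'
    · exact h3
end Cfsg.Agent.S0931
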