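import Cfsg.Statements.S0932
import Mathlib
import Cfsg.Agent.Lib_helper3_CharInd
import Cfsg.Agent.Lib_helper3_ClassMult

set_option autoImplicit false
open Cfsg

namespace Cfsg.Agent.S0932

/-- Let H be a subgroup of the finite group G and ξ a character of H. For every g ∈ G, the sum of ξ h / ξ 1 over the elements h ∈ H that are conjugate in G to g equals the central character at g of the character of G induced from ξ (class size times value divided by degree). -/
theorem result {G : Type*} [Group G] [Fintype G] (H : Subgroup G) (ξ : H → ℂ) (hξ : Cfsg.IsCharacter H ξ) (g : G) : Cfsg.inducedCentralChar H ξ g = Cfsg.centralChar (Cfsg.indFun H ξ) g := by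
  classical
  have := Fintype.ofFinite H
  unfold Cfsg.inducedCentralChar Cfsg.centralChar
  rw [finsum_mem_def, finsum_eq_sum_of_fintype]
  have hL : ∑ h : H, Set.indicator {h : H | IsConj g (h : G)} (fun h => ξ h / ξ 1) h =
      (∑ h : H, (if IsConj g (h : G) then ξ h else 0)) / ξ 1 := by
    rw [Finset.sum_div]
    apply Finset.sum_congr rfl
    intro h _
    by_cases hc : IsConj g (h : G)
    · rw [Set.indicator_of_mem (show h ∈ {h : H | IsConj g (h : G)} from hc), if_pos hc]
    · rw [Set.indicator_of_notMem (show h ∉ {h : H | IsConj g (h : G)} from hc), if_neg hc,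
        zero_div]
  rw [hL]
  have hI : Cfsg.indFun H ξ g = (Nat.card H : ℂ)⁻¹ *
      ((Nat.card (Subgroup.centralizer ({g} : Set G)) : ℂ) *
        ∑ h : H, (if IsConj g (h : G) then ξ h else 0)) := by
    rw [Cfsg.Agent.Lib_helper3_CharInd.indFun_apply]
    congr 1
    have h1 : ∑ x : G, Cfsg.extendByZero H ξ (x⁻¹ * g * x) =
        ∑ s : G, Cfsg.extendByZero H ξ (s * g * s⁻¹) := by
      apply Fintype.sum_equiv (Equiv.inv G)
      intro x
      simp
    rw [h1, Cfsg.Agent.Lib_helper3_ClassMult.sum_conj_eq g (Cfsg.extendByZero H ξ)]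
    congr 1
    have h2 : ∀ x : G, (if IsConj g x then Cfsg.extendByZero H ξ x else 0) =
        Cfsg.extendByZero H ξ x * (if IsConj g x then 1 else 0) := by
      intro x
      split_ifs <;> simp
    rw [Finset.sum_congr rfl (fun x _ => h2 x),
      Cfsg.Agent.Lib_helper3_CharInd.sum_extendByZero_mul H ξ
        (fun x => if IsConj g x then 1 else 0)]
    apply Finset.sum_congr rfl
    intro h _
    split_ifs <;> simp
  rw [hI, Cfsg.Agent.Lib_helper3_CharInd.indFun_apply_one]
  by_cases h1 : ξ 1 = 0
  · rw [h1]
    simp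
  · have hH0 : (Nat.card H : ℂ) ≠ 0 := by
      exact_mod_cast (Nat.card_pos (α := H)).ne'
    have hidx : (Nat.card G : ℂ) = (Nat.card H : ℂ) * (H.index : ℂ) := by
      rw [← Nat.cast_mul, Subgroup.card_mul_index]
    have hC : (Nat.card G : ℂ) = (Nat.card (Subgroup.centralizer ({g} : Set G)) : ℂ) *
        ((Subgroup.centralizer ({g} : Set G)).index : ℂ) := by
      rw [← Nat.cast_mul, Subgroup.card_mul_index]
    have hG0 : (Nat.card G : ℂ) ≠ 0 := by
      exact_mod_cast (Nat.card_pos (α := G)).ne'
    have hi0 : (H.index : ℂ) ≠ 0 := by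
      intro h0
      rw [h0, mul_zero] at hidx
      exact hG0 hidx
    have key : ((Subgroup.centralizer ({g} : Set G)).index : ℂ) *
        (Nat.card (Subgroup.centralizer ({g} : Set G)) : ℂ) = (Nat.card H : ℂ) * (H.index : ℂ) := by
      rw [mul_comm, ← hC, hidx]
    field_simp
    linear_combination (-(∑ h : H, (if IsConj g (h : G) then ξ h else 0))) * key
end Cfsg.Agent.S0932
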