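import Cfsg.Statements.S0933
import Cfsg.Agent.Lib_helper3_BlockInd
import Cfsg.Agent.S0932

set_option autoImplicit false
open Cfsg

namespace Cfsg.Agent.S0933

/-- Let H be a subgroup of the finite group G and ξ an irreducible character of H such that the induced function ξ^G is an irreducible character of G. Then, relative to any maximal ideal M of the algebraic integers containing the prime p, the block of ξ induces the block of ξ^G. -/
theorem result {G : Type*} [Group G] [Fintype G] (p : ℕ) [Fact p.Prime] (M : Ideal Cfsg.AlgInt) (hM : Cfsg.IsPModular p M) (H : Subgroup G) (ξ : Cfsg.IrrCharacter H) (hind : Cfsg.IsIrrCharacter G (Cfsg.indFun H (ξ : H → ℂ))) : Cfsg.IsInducedBlock M H (Cfsg.blockOf M (ξ : H → ℂ)) (Cfsg.blockOf M (Cfsg.indFun H (ξ : H → ℂ))) := by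
  have hprime := Cfsg.Agent.Lib_helper3_Local2.isPrime_of_modular hM
  have : Fintype H := Fintype.ofFinite H
  refine ⟨⟨ξ, rfl⟩, ⟨⟨Cfsg.indFun H (ξ : H → ℂ), hind⟩, rfl⟩, ?_⟩
  intro ξ' hξ' χ hχ g
  have h1 := Cfsg.Agent.S0932.result H (ξ : H → ℂ)
    (Cfsg.Agent.Lib_helper3_CharBasic.isCharacter_of_irr ξ.2) g
  have h2 : Cfsg.inducedCentralChar H (ξ' : H → ℂ) g - Cfsg.centralChar (χ : G → ℂ) g =
      -(Cfsg.inducedCentralChar H (ξ : H → ℂ) g - Cfsg.inducedCentralChar H (ξ' : H → ℂ) g) +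
      (Cfsg.centralChar (Cfsg.indFun H (ξ : H → ℂ)) g - Cfsg.centralChar (χ : G → ℂ) g) := by
    rw [h1]
    ring
  rw [h2]
  exact Cfsg.Agent.Lib_helper3_Local.memLocalIdeal_add
    (Cfsg.Agent.Lib_helper3_Local.memLocalIdeal_neg
      (Cfsg.Agent.Lib_helper3_BlockInd.inducedCentralChar_congr
        (Cfsg.Agent.Lib_helper3_CharBasic.isClassFunction_of_irr ξ.2)
        (Cfsg.Agent.Lib_helper3_CharBasic.isClassFunction_of_irr ξ'.2) hξ' g))
    (hχ g)
end Cfsg.Agent.S0933
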