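import Cfsg.Statements.S0934
import Cfsg.Agent.Lib_helper3_BlockInd
import Cfsg.Agent.S0932

set_option autoImplicit false
open Cfsg

namespace Cfsg.Agent.S0934

/-- Let H be a subgroup of the finite group G and fix a maximal ideal M of the algebraic integers containing the prime p. If the block b of H induces the block B of G and ξ ∈ b, then there is χ ∈ B whose restriction to H has nonzero inner product with ξ. -/
theorem result {G : Type*} [Group G] [Fintype G] (p : ℕ) [Fact p.Prime] (M : Ideal Cfsg.AlgInt) (hM : Cfsg.IsPModular p M) (H : Subgroup G) [Fintype H] (b : Set (Cfsg.IrrCharacter H)) (B : Set (Cfsg.IrrCharacter G)) (hind : Cfsg.IsInducedBlock M H b B) (ξ : Cfsg.IrrCharacter H) (hξ : ξ ∈ b) : ∃ χ ∈ B, Cfsg.classInner (fun h : H => (χ : G → ℂ) h) (ξ : H → ℂ) ≠ 0 := by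
  classical
  have hprime := Cfsg.Agent.Lib_helper3_Local2.isPrime_of_modular hM
  obtain ⟨hb, hB, hcong⟩ := hind
  obtain ⟨χ₀, rfl⟩ := hB
  by_contra hcon
  push Not at hcon
  have hfinI := Cfsg.Agent.Lib_helper3_CharBasic.irr_finite (G := G)
  have := Fintype.ofFinite (Cfsg.IrrCharacter G)
  set θ := Cfsg.indFun H (ξ : H → ℂ) with hθ
  have hθc : Cfsg.IsClassFunction G θ :=
    Cfsg.Agent.Lib_helper3_CharInd.isClassFunction_indFun H (ξ : H → ℂ)
  have hχ₀ : χ₀ ∈ Cfsg.blockOf M (χ₀ : G → ℂ) :=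
    Cfsg.Agent.Lib_helper3_BlockAlg.mem_blockOf_self hprime.ne_top χ₀
  have hsame : Cfsg.SameBlock M θ (χ₀ : G → ℂ) := fun g => by
    rw [← Cfsg.Agent.S0932.result H (ξ : H → ℂ)
      (Cfsg.Agent.Lib_helper3_CharBasic.isCharacter_of_irr ξ.2) g]
    exact hcong ξ hξ χ₀ hχ₀ g
  set f := Cfsg.blockCoeff (Cfsg.blockOf M (χ₀ : G → ℂ)) with hf
  have h1 := Cfsg.Agent.Lib_helper3_BlockAlg.om_congr (M := M) hθc
    (Cfsg.Agent.Lib_helper3_CharBasic.isClassFunction_of_irr χ₀.2) hsame
    (Cfsg.Agent.Lib_helper3_BlockAlg.isClassFunction_blockCoeff _)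
    (fun g => Cfsg.Agent.Lib_helper3_BlockAlg.osima ⟨χ₀, rfl⟩ g)
  rw [Cfsg.Agent.Lib_helper3_BlockAlg.om_blockCoeff_of_mem hχ₀] at h1
  have h2 : Cfsg.Agent.Lib_helper3_BlockAlg.Om θ f = 0 := by
    unfold Cfsg.Agent.Lib_helper3_BlockAlg.Om
    have h3 : ∑ g, f g * θ g = 0 := by
      calc ∑ g, f g * θ g
          = ∑ g, f g * ∑ ψ : Cfsg.IrrCharacter G,
              Cfsg.classInner θ (ψ : G → ℂ) * (ψ : G → ℂ) g := by
            apply Finset.sum_congr rfl
            intro g _
            congr 1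
            exact Cfsg.Agent.Lib_helper3_CharBasic.classFunction_eq_sum_apply θ hθc g
        _ = ∑ ψ : Cfsg.IrrCharacter G, Cfsg.classInner θ (ψ : G → ℂ) *
              ∑ g, f g * (ψ : G → ℂ) g := by
            simp only [Finset.mul_sum]
            rw [Finset.sum_comm]
            apply Finset.sum_congr rfl
            intro ψ _
            apply Finset.sum_congr rfl
            intro g _
            ring
        _ = 0 := by
            apply Finset.sum_eq_zero
            intro ψ _
            rw [Cfsg.Agent.Lib_helper3_BlockAlg.sum_blockCoeff_mul _ ψ.2]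
            by_cases hψ : ψ ∈ Cfsg.blockOf M (χ₀ : G → ℂ)
            · have h4 : Cfsg.classInner θ (ψ : G → ℂ) = 0 := by
                rw [Cfsg.Agent.Lib_helper3_CharInd.frobenius_reciprocity H (ξ : H → ℂ)
                  (ψ : G → ℂ) (Cfsg.Agent.Lib_helper3_CharBasic.isClassFunction_of_irr ψ.2),
                  ← Cfsg.Agent.Lib_helper3_CharBasic.classInner_conj_symm, hcon ψ hψ, map_zero]
              rw [h4, zero_mul]
            · rw [Set.indicator_of_notMem hψ, mul_zero]
    rw [h3, zero_div]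
  rw [h2, zero_sub] at h1
  have h5 := Cfsg.Agent.Lib_helper3_Local.memLocalIdeal_neg h1
  rw [neg_neg] at h5
  exact Cfsg.Agent.Lib_helper3_Local2.not_memLocalIdeal_one h5
end Cfsg.Agent.S0934
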