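import Cfsg.Statements.S0943
import Mathlib
import Cfsg.Agent.Lib_helper3_CharComm

set_option autoImplicit false
open Cfsg

namespace Cfsg.Agent.S0943

/-- Let χ be an irreducible character of the finite group G and u, v ∈ G. If χ (x * y) = χ (u * v) whenever x is conjugate to u and y is conjugate to v, then χ u * χ v = χ 1 * χ (u * v). (Multiply the class sums of u and v and apply the central character of χ.) -/
theorem result {G : Type*} [Group G] [Finite G] (χ : Cfsg.IrrCharacter G) (u v : G) (hc : ∀ x y : G, IsConj u x → IsConj v y → (χ : G → ℂ) (x * y) = (χ : G → ℂ) (u * v)) : (χ : G → ℂ) u * (χ : G → ℂ) v = (χ : G → ℂ) 1 * (χ : G → ℂ) (u * v) := by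
  classical
  obtain ⟨n, ρ, hirr, hρ⟩ := χ.2
  have := Fintype.ofFinite G
  have hd0 : (Module.finrank ℂ (Fin n → ℂ) : ℂ) ≠ 0 := by
    exact_mod_cast (Cfsg.Agent.Lib_helper3_CharIntegral.finrank_pos_of_irreducible ρ).ne'
  have hG0 := Cfsg.Agent.Lib_helper3_CharBasic.card_ne_zero (G := G)
  have h1 : ∑ s : G, ∑ t : G, ρ.character (s * u * s⁻¹ * (t * v * t⁻¹)) =
      LinearMap.trace ℂ _ ((∑ s : G, ρ (s * u * s⁻¹)) * (∑ t : G, ρ (t * v * t⁻¹))) := by
    rw [Finset.sum_mul, map_sum]
    apply Finset.sum_congr rfl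
    intro s _
    rw [Finset.mul_sum, map_sum]
    apply Finset.sum_congr rfl
    intro t _
    rw [← map_mul]
    rfl
  rw [Cfsg.Agent.Lib_helper3_CharComm.sum_conj_rep ρ u,
    Cfsg.Agent.Lib_helper3_CharComm.sum_conj_rep ρ v] at h1
  have h2 : ∀ s t : G, ρ.character (s * u * s⁻¹ * (t * v * t⁻¹)) = ρ.character (u * v) := by
    intro s t
    have := hc (s * u * s⁻¹) (t * v * t⁻¹) (isConj_iff.mpr ⟨s, rfl⟩) (isConj_iff.mpr ⟨t, rfl⟩)
    rw [← hρ] at this
    exact this
  simp only [h2, Finset.sum_const, Finset.card_univ, nsmul_eq_mul] at h1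
  rw [smul_mul_smul_comm, mul_one, map_smul, LinearMap.trace_one, smul_eq_mul,
    ← Nat.card_eq_fintype_card] at h1
  rw [← hρ, Representation.char_one]
  field_simp at h1
  linear_combination (-1 : ℂ) * h1
end Cfsg.Agent.S0943
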