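import Cfsg.Statements.S0954
import Cfsg.Agent.Lib_helper3_BlockPQuot

set_option autoImplicit false
open Cfsg

namespace Cfsg.Agent.S0954

/-- Let N be a normal subgroup of the finite group G of order prime to p and of p-power index (a normal p-complement), and fix a maximal ideal M of the algebraic integers containing p. Then two irreducible characters χ, ψ of G lie in the same block if and only if some irreducible character of N has nonzero inner product with both the restriction of χ and the restriction of ψ. -/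
theorem result {G : Type*} [Group G] [Fintype G] (p : ℕ) [Fact p.Prime] (M : Ideal Cfsg.AlgInt) (hM : Cfsg.IsPModular p M) (N : Subgroup G) [N.Normal] [Fintype N] (hN : ¬ p ∣ Nat.card N) (hidx : ∃ k : ℕ, N.index = p ^ k) (χ ψ : Cfsg.IrrCharacter G) : Cfsg.SameBlock M (χ : G → ℂ) (ψ : G → ℂ) ↔ ∃ θ : Cfsg.IrrCharacter N, Cfsg.classInner (fun n : N => (χ : G → ℂ) n) (θ : N → ℂ) ≠ 0 ∧ Cfsg.classInner (fun n : N => (ψ : G → ℂ) n) (θ : N → ℂ) ≠ 0 := by
  classical
  have hMp : M.IsPrime := Cfsg.Agent.Lib_helper3_Local2.isPrime_of_modular hM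
  constructor
  · intro h
    obtain ⟨θ, hθ⟩ := Cfsg.Agent.Lib_helper3_BlockPQuot.exists_constituent N χ
    have hinv : Cfsg.MemLocalRing M (Nat.card N : ℂ)⁻¹ :=
      Cfsg.Agent.Lib_helper3_Local2.memLocalRing_inv
        (Cfsg.Agent.Lib_helper3_Local2.memLocalRing_natCast hMp.ne_top _)
        (Cfsg.Agent.Lib_helper3_Local2.not_memLocalIdeal_natCast hM hN)
    obtain ⟨θ', ⟨x, θ'', hθ'', rfl⟩, hne⟩ :=
      Cfsg.Agent.Lib_helper3_BlockCover.cover_congr N
        (Cfsg.Agent.Lib_helper3_BlockCover.invariant_orbClosure N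
          ({θ} : Set (Cfsg.IrrCharacter N)))
        (fun n => Cfsg.Agent.Lib_helper3_BlockCover.memLocalRing_blockCoeff_of_inv hinv _ n) h
        ⟨θ, Cfsg.Agent.Lib_helper3_BlockCover.subset_orbClosure N _ rfl, hθ⟩
    rw [Set.mem_singleton_iff] at hθ''
    subst hθ''
    rw [Cfsg.Agent.Lib_helper3_BlockCover.conjIrr_coe,
      Cfsg.Agent.Lib_helper3_Clifford.classInner_restrict_conjFun N
        (Cfsg.Agent.Lib_helper3_CharBasic.isClassFunction_of_irr ψ.2) x] at hne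
    exact ⟨θ'', hθ, hne⟩
  · rintro ⟨θ, h1, h2⟩
    have h3 := Cfsg.Agent.Lib_helper3_BlockPQuot.cover_unique hM N hidx
      (⟨χ, rfl⟩ : Cfsg.IsPBlock M (Cfsg.blockOf M (χ : G → ℂ)))
      (⟨ψ, rfl⟩ : Cfsg.IsPBlock M (Cfsg.blockOf M (ψ : G → ℂ)))
      (⟨θ, rfl⟩ : Cfsg.IsPBlock M (Cfsg.blockOf M (θ : N → ℂ)))
      ⟨χ, Cfsg.Agent.Lib_helper3_BlockAlg.mem_blockOf_self hMp.ne_top χ, θ,
        Cfsg.Agent.Lib_helper3_BlockAlg.mem_blockOf_self hMp.ne_top θ, h1⟩
      ⟨ψ, Cfsg.Agent.Lib_helper3_BlockAlg.mem_blockOf_self hMp.ne_top ψ, θ,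
        Cfsg.Agent.Lib_helper3_BlockAlg.mem_blockOf_self hMp.ne_top θ, h2⟩
    have h4 : ψ ∈ Cfsg.blockOf M (χ : G → ℂ) := by
      rw [h3]
      exact Cfsg.Agent.Lib_helper3_BlockAlg.mem_blockOf_self hMp.ne_top ψ
    exact h4
end Cfsg.Agent.S0954
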