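import Cfsg.Statements.S0955
import Cfsg.Agent.S0906
import Cfsg.Agent.S0908
import Cfsg.Agent.S0912
import Cfsg.Agent.S0917
import Cfsg.Agent.S0958

set_option autoImplicit false
open Cfsg

namespace Cfsg.Agent.S0955

/-- Let D be a defect group of a block of the finite group G relative to a maximal ideal M of the algebraic integers containing the prime p. Then D is the largest normal p-subgroup of its own normalizer: O_p(N_G(D)) = D. -/
theorem result {G : Type*} [Group G] [Finite G] (p : ℕ) [Fact p.Prime] (M : Ideal Cfsg.AlgInt) (hM : Cfsg.IsPModular p M) (B : Set (Cfsg.IrrCharacter G)) (hB : Cfsg.IsPBlock M B) (D : Subgroup G) (hD : Cfsg.IsDefectGroup p M B D) : (Cfsg.pCore p (Subgroup.normalizer (D : Set G))).map (Subgroup.normalizer (D : Set G)).subtype = D := by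
  classical
  have hp : p.Prime := Fact.out
  have hDp : IsPGroup p D := by
    obtain ⟨g, -, S, rfl⟩ := hD
    exact S.2.map _
  have hDN : D ≤ Subgroup.normalizer (D : Set G) := Subgroup.le_normalizer
  have hCN : Subgroup.centralizer (D : Set G) ≤ Subgroup.normalizer (D : Set G) := by
    intro c hc
    rw [Subgroup.mem_normalizer_iff]
    intro u
    have h1 : ∀ v ∈ D, c * v * c⁻¹ = v := by
      intro v hv
      have h2 := (Subgroup.mem_centralizer_iff.mp hc) v hv
      rw [← h2]
      group
    constructor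
    · intro hu
      rw [h1 u hu]
      exact hu
    · intro hu
      have h3 := h1 _ hu
      have h4 : u = c⁻¹ * (c * u * c⁻¹) * c := by group
      have h5 : c * (c * u * c⁻¹) * c⁻¹ = c * u * c⁻¹ := h3
      have h6 : c * u * c⁻¹ = u := by
        have h7 : c * (c * u * c⁻¹) * c⁻¹ = c * (c * u * c⁻¹) * c⁻¹ := rfl
        calc c * u * c⁻¹ = c⁻¹ * (c * (c * u * c⁻¹) * c⁻¹) * c := by group
          _ = c⁻¹ * (c * u * c⁻¹) * c := by rw [h5]
          _ = u := by group
      rw [← h6]
      exact hu
  obtain ⟨b, hind⟩ := (Cfsg.Agent.S0958.result p M hM D (Subgroup.normalizer (D : Set G)) hDp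
    (sup_le hDN hCN) le_rfl B hB).mpr ⟨D, hD, 1, by
      intro u hu
      obtain ⟨u', hu', rfl⟩ := Subgroup.mem_map.mp hu
      simpa using hu'⟩
  obtain ⟨hb, -, hcong⟩ := hind
  obtain ⟨h, hh⟩ := Cfsg.Agent.S0906.result p M hM b hb
  obtain ⟨Pb⟩ : Nonempty (Sylow p (Subgroup.centralizer
    ({h} : Set (Subgroup.normalizer (D : Set G))))) := inferInstance
  have hDb : Cfsg.IsDefectGroup p M b ((Pb : Subgroup (Subgroup.centralizer
      ({h} : Set (Subgroup.normalizer (D : Set G))))).map
      (Subgroup.centralizer ({h} : Set (Subgroup.normalizer (D : Set G)))).subtype) :=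
    ⟨h, hh, Pb, rfl⟩
  have hcore := Cfsg.Agent.S0912.result p M hM b hb _ hDb
  obtain ⟨E, hE, hDE⟩ := Cfsg.Agent.S0917.result p M hM (Subgroup.normalizer (D : Set G)) b hb B
    hB ⟨hb, hB, hcong⟩ _ hDb
  have hEcard := Cfsg.Agent.S0908.result p M hM B hB E hE
  have hDcard := Cfsg.Agent.S0908.result p M hM B hB D hD
  have hDn : (D.subgroupOf (Subgroup.normalizer (D : Set G))).Normal :=
    Subgroup.normal_subgroupOf_of_le_normalizer le_rfl
  have hDp' : IsPGroup p (D.subgroupOf (Subgroup.normalizer (D : Set G))) := hDp.comap_subtype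
  have hDcore : D.subgroupOf (Subgroup.normalizer (D : Set G)) ≤
      Cfsg.pCore p (Subgroup.normalizer (D : Set G)) := le_sSup ⟨hDn, hDp'⟩
  have h1 : D ≤ (Cfsg.pCore p (Subgroup.normalizer (D : Set G))).map
      (Subgroup.normalizer (D : Set G)).subtype := by
    intro u hu
    exact Subgroup.mem_map.mpr ⟨⟨u, hDN hu⟩, hDcore hu, rfl⟩
  have h2 : (Cfsg.pCore p (Subgroup.normalizer (D : Set G))).map
      (Subgroup.normalizer (D : Set G)).subtype ≤ E :=
    (Subgroup.map_mono hcore).trans hDE
  have h3 : D = E := Subgroup.eq_of_le_of_card_ge (h1.trans h2) (by rw [hEcard, hDcard])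
  apply le_antisymm
  · exact h2.trans (le_of_eq h3.symm)
  · exact h1
end Cfsg.Agent.S0955
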