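import Cfsg.Statements.S0957
import Mathlib

set_option autoImplicit false
open Cfsg

namespace Cfsg.Agent.S0957

/-- Let P be a Sylow p-subgroup of the finite group G, let g, h ∈ G and let p ^ d be the order of a Sylow p-subgroup of the centralizer of g. Then the number of pairs (y, z) with y conjugate to g, z conjugate to h and z * y⁻¹ ∈ P is divisible by the order of P divided by p ^ d. -/
theorem result {G : Type*} [Group G] [Finite G] (p : ℕ) [Fact p.Prime] (P : Sylow p G) (g h : G) (S : Sylow p (Subgroup.centralizer ({g} : Set G))) : Nat.card P / Nat.card S ∣ Nat.card {yz : G × G // IsConj g yz.1 ∧ IsConj h yz.2 ∧ yz.2 * yz.1⁻¹ ∈ (P : Subgroup G)} := by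
  classical
  letI inst : MulAction P {yz : G × G // IsConj g yz.1 ∧ IsConj h yz.2 ∧
      yz.2 * yz.1⁻¹ ∈ (P : Subgroup G)} :=
    { smul := fun t yz => ⟨((t : G) * yz.1.1 * (t : G)⁻¹, (t : G) * yz.1.2 * (t : G)⁻¹),
        yz.2.1.trans (isConj_iff.mpr ⟨(t : G), rfl⟩),
        yz.2.2.1.trans (isConj_iff.mpr ⟨(t : G), rfl⟩), by
          have h1 := yz.2.2.2
          have h2 : (t : G) * yz.1.2 * (t : G)⁻¹ * ((t : G) * yz.1.1 * (t : G)⁻¹)⁻¹ =
              (t : G) * (yz.1.2 * yz.1.1⁻¹) * (t : G)⁻¹ := by group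
          rw [h2]
          exact (P : Subgroup G).mul_mem ((P : Subgroup G).mul_mem t.2 h1)
            ((P : Subgroup G).inv_mem t.2)⟩
      one_smul := by
        intro xy
        apply Subtype.ext
        apply Prod.ext
        · show ((1 : P) : G) * xy.1.1 * ((1 : P) : G)⁻¹ = xy.1.1
          simp
        · show ((1 : P) : G) * xy.1.2 * ((1 : P) : G)⁻¹ = xy.1.2
          simp
      mul_smul := by
        intro s t xy
        apply Subtype.ext
        apply Prod.ext
        · show ((s * t : P) : G) * xy.1.1 * ((s * t : P) : G)⁻¹ =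
            (s : G) * ((t : G) * xy.1.1 * (t : G)⁻¹) * (s : G)⁻¹
          simp only [Subgroup.coe_mul]
          group
        · show ((s * t : P) : G) * xy.1.2 * ((s * t : P) : G)⁻¹ =
            (s : G) * ((t : G) * xy.1.2 * (t : G)⁻¹) * (s : G)⁻¹
          simp only [Subgroup.coe_mul]
          group }
  have := Fintype.ofFinite G
  have := Fintype.ofFinite P
  have := Fintype.ofFinite {yz : G × G // IsConj g yz.1 ∧ IsConj h yz.2 ∧
      yz.2 * yz.1⁻¹ ∈ (P : Subgroup G)}
  have hsum := MulAction.card_eq_sum_card_group_div_card_stabilizer P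
    {yz : G × G // IsConj g yz.1 ∧ IsConj h yz.2 ∧ yz.2 * yz.1⁻¹ ∈ (P : Subgroup G)}
  rw [Nat.card_eq_fintype_card (α := {yz : G × G // IsConj g yz.1 ∧ IsConj h yz.2 ∧
      yz.2 * yz.1⁻¹ ∈ (P : Subgroup G)}), hsum]
  apply Finset.dvd_sum
  intro ω _
  set b := Quotient.out ω with hb
  -- |S| divides |P|
  have hS : Nat.card S ∣ Nat.card P := by
    obtain ⟨d, hd⟩ := IsPGroup.iff_card.mp S.isPGroup'
    rw [hd]
    apply P.pow_dvd_card_of_pow_dvd_card
    rw [← hd]
    exact dvd_trans (Subgroup.card_subgroup_dvd_card _) (Subgroup.card_subgroup_dvd_card _)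
  -- the stabilizer has order dividing |S|
  have hstab : Nat.card (MulAction.stabilizer P b) ∣ Nat.card S := by
    obtain ⟨s, hs⟩ := IsPGroup.iff_card.mp (P.isPGroup'.to_subgroup (MulAction.stabilizer P b))
    rw [hs]
    apply S.pow_dvd_card_of_pow_dvd_card
    rw [← hs]
    -- the stabilizer embeds in the centralizer of the first coordinate
    have hle : (MulAction.stabilizer P b).map (P : Subgroup G).subtype ≤
        Subgroup.centralizer ({b.1.1} : Set G) := by
      rintro x ⟨t, ht, rfl⟩
      rw [Subgroup.mem_centralizer_iff]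
      intro z hz
      rw [Set.mem_singleton_iff] at hz
      rw [hz]
      have h1 : t • b = b := ht
      have h2 : (t : G) * b.1.1 * (t : G)⁻¹ = b.1.1 := congrArg (fun z => z.1.1) h1
      show b.1.1 * (t : G) = (t : G) * b.1.1
      calc b.1.1 * (t : G) = (t : G) * b.1.1 * (t : G)⁻¹ * (t : G) := by rw [h2]
        _ = (t : G) * b.1.1 := by group
    have h3 := Subgroup.card_dvd_of_le hle
    rw [Subgroup.card_map_of_injective (Subgroup.subtype_injective _)] at h3
    -- centralizers of conjugate elements have the same order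
    obtain ⟨x, hx⟩ := isConj_iff.mp b.2.1
    have hcc : ∀ y : G, x * g * x⁻¹ = y → Nat.card (Subgroup.centralizer ({y} : Set G)) =
        Nat.card (Subgroup.centralizer ({g} : Set G)) := by
      intro y hy
      subst hy
      apply Nat.card_congr
      refine ⟨fun c => ⟨x⁻¹ * c * x, ?_⟩, fun c => ⟨x * c * x⁻¹, ?_⟩, ?_, ?_⟩
      · have h5 := c.2
        rw [Subgroup.mem_centralizer_iff] at h5 ⊢
        intro z hz
        rw [Set.mem_singleton_iff] at hz
        rw [hz]
        have h6 := h5 (x * g * x⁻¹) (Set.mem_singleton _)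
        calc g * (x⁻¹ * (c : G) * x) = x⁻¹ * (x * g * x⁻¹ * (c : G)) * x := by group
          _ = x⁻¹ * ((c : G) * (x * g * x⁻¹)) * x := by rw [h6]
          _ = x⁻¹ * (c : G) * x * g := by group
      · have h5 := c.2
        rw [Subgroup.mem_centralizer_iff] at h5 ⊢
        intro z hz
        rw [Set.mem_singleton_iff] at hz
        rw [hz]
        have h6 := h5 g (Set.mem_singleton _)
        calc x * g * x⁻¹ * (x * (c : G) * x⁻¹) = x * (g * (c : G)) * x⁻¹ := by group
          _ = x * ((c : G) * g) * x⁻¹ := by rw [h6]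
          _ = x * (c : G) * x⁻¹ * (x * g * x⁻¹) := by group
      · intro c
        apply Subtype.ext
        show x * (x⁻¹ * (c : G) * x) * x⁻¹ = (c : G)
        group
      · intro c
        apply Subtype.ext
        show x⁻¹ * (x * (c : G) * x⁻¹) * x = (c : G)
        group
    have h4 := hcc b.1.1 hx
    rw [← h4]
    exact h3
  rw [← Nat.card_eq_fintype_card, ← Nat.card_eq_fintype_card]
  exact Nat.div_dvd_div_left hS hstab
end Cfsg.Agent.S0957
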