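import Cfsg.Statements.S0959
import Cfsg.Agent.Lib_helper3_DefectLoc

set_option autoImplicit false
open Cfsg

namespace Cfsg.Agent.S0959

/-- Let B be a block of the finite group G with defect group D (relative to a maximal ideal M of the algebraic integers containing the prime p), and let P be a p-subgroup. Then there is an element g whose idempotent coefficient for B is a local integer outside the local ideal at M and which has a conjugate centralizing P, if and only if some conjugate of P is contained in D. -/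
theorem result {G : Type*} [Group G] [Finite G] (p : ℕ) [Fact p.Prime] (M : Ideal Cfsg.AlgInt) (hM : Cfsg.IsPModular p M) (B : Set (Cfsg.IrrCharacter G)) (hB : Cfsg.IsPBlock M B) (D : Subgroup G) (hD : Cfsg.IsDefectGroup p M B D) (P : Subgroup G) (hP : IsPGroup p P) : (∃ g : G, Cfsg.MemLocalRing M (Cfsg.blockCoeff B g) ∧ ¬ Cfsg.MemLocalIdeal M (Cfsg.blockCoeff B g) ∧ ∃ c : G, IsConj g c ∧ c ∈ Subgroup.centralizer (P : Set G)) ↔ ∃ x : G, P.map (MulAut.conj x).toMonoidHom ≤ D := by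
  classical
  have := Fintype.ofFinite G
  have hMm : M.IsMaximal := hM.2.1
  have hMp : M.IsPrime := hMm.isPrime
  obtain ⟨g₀, hg₀, S, rfl⟩ := hD
  obtain ⟨χ₀, rfl⟩ := hB
  have hχ₀ : χ₀ ∈ Cfsg.blockOf M (χ₀ : G → ℂ) :=
    Cfsg.Agent.Lib_helper3_BlockAlg.mem_blockOf_self hMp.ne_top χ₀
  have hSle : (S : Subgroup (Subgroup.centralizer ({g₀} : Set G))).map
      (Subgroup.centralizer ({g₀} : Set G)).subtype ≤ Subgroup.centralizer ({g₀} : Set G) := by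
    rintro _ ⟨v, _, rfl⟩
    exact v.2
  constructor
  · rintro ⟨g, hR, hnI, c, hgc, hcP⟩
    obtain ⟨k₀, rfl⟩ := isConj_iff.mp hgc
    have hcl := Cfsg.Agent.Lib_helper3_BlockAlg.isClassFunction_blockCoeff
      (Cfsg.blockOf M (χ₀ : G → ℂ)) g k₀
    rw [← hcl] at hR hnI
    obtain ⟨x', hx', hx'c⟩ := Cfsg.Agent.Lib_helper3_DefectLoc.exists_conj_centralizing hM χ₀ g₀
      (k₀ * g * k₀⁻¹) (hg₀.2.2 χ₀ hχ₀) hR hnI P hP hcP
    obtain ⟨k, rfl⟩ := isConj_iff.mp hx'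
    have hle : P.map (MulAut.conj k⁻¹).toMonoidHom ≤ Subgroup.centralizer ({g₀} : Set G) := by
      rintro _ ⟨u, hu, rfl⟩
      rw [Subgroup.mem_centralizer_singleton_iff]
      have h1 := (Subgroup.mem_centralizer_iff.mp hx'c) u hu
      show k⁻¹ * u * k⁻¹⁻¹ * g₀ = g₀ * (k⁻¹ * u * k⁻¹⁻¹)
      rw [inv_inv]
      calc k⁻¹ * u * k * g₀ = k⁻¹ * (u * (k * g₀ * k⁻¹)) * k := by group
        _ = k⁻¹ * (k * g₀ * k⁻¹ * u) * k := by rw [h1]
        _ = g₀ * (k⁻¹ * u * k) := by group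
    obtain ⟨t, _, ht⟩ := Cfsg.Agent.Lib_helper3_DefectLoc.le_conj_sylow
      (Subgroup.centralizer ({g₀} : Set G)) S (hP.map _) hle
    refine ⟨t⁻¹ * k⁻¹, ?_⟩
    rintro _ ⟨u, hu, rfl⟩
    obtain ⟨d, hd, hdu⟩ := ht ⟨u, hu, rfl⟩
    have h3 : t * d * t⁻¹ = k⁻¹ * u * k⁻¹⁻¹ := hdu
    rw [inv_inv] at h3
    have h4 : t⁻¹ * k⁻¹ * u * (t⁻¹ * k⁻¹)⁻¹ = d := by
      calc t⁻¹ * k⁻¹ * u * (t⁻¹ * k⁻¹)⁻¹ = t⁻¹ * (k⁻¹ * u * k) * t := by group
        _ = t⁻¹ * (t * d * t⁻¹) * t := by rw [h3]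
        _ = d := by group
    show t⁻¹ * k⁻¹ * u * (t⁻¹ * k⁻¹)⁻¹ ∈ _
    rw [h4]
    exact hd
  · rintro ⟨x, hx⟩
    refine ⟨g₀, hg₀.1, hg₀.2.1, x⁻¹ * g₀ * x, isConj_iff.mpr ⟨x⁻¹, by rw [inv_inv]⟩, ?_⟩
    rw [Subgroup.mem_centralizer_iff]
    intro u hu
    have h1 : x * u * x⁻¹ ∈ Subgroup.centralizer ({g₀} : Set G) := hSle (hx ⟨u, hu, rfl⟩)
    rw [Subgroup.mem_centralizer_singleton_iff] at h1
    calc u * (x⁻¹ * g₀ * x) = x⁻¹ * (x * u * x⁻¹ * g₀) * x := by group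
      _ = x⁻¹ * (g₀ * (x * u * x⁻¹)) * x := by rw [h1]
      _ = x⁻¹ * g₀ * x * u := by group
end Cfsg.Agent.S0959
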