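import Cfsg.Statements.S0963
import Cfsg.Agent.Lib_helper3_BlockCover

set_option autoImplicit false
open Cfsg

namespace Cfsg.Agent.S0963

/-- Let N be a normal subgroup of the finite group G, χ an irreducible character of G and θ an irreducible character of N. Then θ occurs in the restriction of χ to N if and only if, for every n ∈ N, the central character of χ at n (class size in G times χ n over χ 1) equals the sum of θ m / θ 1 over the elements m of N conjugate in G to n. -/
theorem result {G : Type*} [Group G] [Fintype G] (N : Subgroup G) [N.Normal] [Fintype N] (χ : Cfsg.IrrCharacter G) (θ : Cfsg.IrrCharacter N) : Cfsg.classInner (fun n : N => (χ : G → ℂ) n) (θ : N → ℂ) ≠ 0 ↔ ∀ n : N, Cfsg.centralChar (χ : G → ℂ) (n : G) = Cfsg.inducedCentralChar N (θ : N → ℂ) (n : G) := by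
  classical
  constructor
  · intro h n
    exact Cfsg.Agent.Lib_helper3_BlockCover.centralChar_eq_of_constituent N χ θ h n
  · intro h h0
    have hS := Cfsg.Agent.Lib_helper3_BlockCover.invariant_orbClosure N
      ({θ} : Set (Cfsg.IrrCharacter N))
    have hf : ∀ x : G, Cfsg.Agent.Lib_helper3_CharNormal.conjFun N x
        (Cfsg.blockCoeff (Cfsg.Agent.Lib_helper3_BlockCover.orbClosure N
          ({θ} : Set (Cfsg.IrrCharacter N)))) =
        Cfsg.blockCoeff (Cfsg.Agent.Lib_helper3_BlockCover.orbClosure N
          ({θ} : Set (Cfsg.IrrCharacter N))) := fun x =>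
      funext (fun n => Cfsg.Agent.Lib_helper3_BlockCover.blockCoeff_conj N hS x n)
    have e1 := Cfsg.Agent.Lib_helper3_BlockCover.om_extend_eq N hf
      (Cfsg.Agent.Lib_helper3_CharBasic.isClassFunction_of_irr χ.2) (θ : N → ℂ) h
    have e2 : Cfsg.Agent.Lib_helper3_BlockAlg.Om (θ : N → ℂ)
        (Cfsg.blockCoeff (Cfsg.Agent.Lib_helper3_BlockCover.orbClosure N
          ({θ} : Set (Cfsg.IrrCharacter N)))) = 1 :=
      Cfsg.Agent.Lib_helper3_BlockAlg.om_blockCoeff_of_mem
        (Cfsg.Agent.Lib_helper3_BlockCover.subset_orbClosure N _ rfl)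
    have e3 := Cfsg.Agent.Lib_helper3_BlockCover.om_cover_of_not_exists N
      (Cfsg.Agent.Lib_helper3_BlockCover.orbClosure N ({θ} : Set (Cfsg.IrrCharacter N))) χ (by
        rintro ⟨θ', ⟨x, θ'', hθ'', rfl⟩, hne⟩
        rw [Set.mem_singleton_iff] at hθ''
        subst hθ''
        rw [Cfsg.Agent.Lib_helper3_BlockCover.conjIrr_coe,
          Cfsg.Agent.Lib_helper3_Clifford.classInner_restrict_conjFun N
            (Cfsg.Agent.Lib_helper3_CharBasic.isClassFunction_of_irr χ.2) x] at hne
        exact hne h0)
    rw [e3, e2] at e1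
    exact zero_ne_one e1
end Cfsg.Agent.S0963
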