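import Cfsg.Statements.S0965
import Cfsg.Agent.Lib_helper3_BlockCover

set_option autoImplicit false
open Cfsg

namespace Cfsg.Agent.S0965

/-- Let N be a normal subgroup of the finite group G and let B, b be blocks of G and of N relative to a maximal ideal M of the algebraic integers containing the prime p. Then some χ ∈ B has a constituent in b on restriction to N if and only if, for all χ ∈ B, θ ∈ b and n ∈ N, the central character of χ at n is congruent modulo the local ideal at M to the sum of θ m / θ 1 over the elements m ∈ N conjugate in G to n. -/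
theorem result {G : Type*} [Group G] [Fintype G] (p : ℕ) [Fact p.Prime] (M : Ideal Cfsg.AlgInt) (hM : Cfsg.IsPModular p M) (N : Subgroup G) [N.Normal] [Fintype N] (B : Set (Cfsg.IrrCharacter G)) (hB : Cfsg.IsPBlock M B) (b : Set (Cfsg.IrrCharacter N)) (hb : Cfsg.IsPBlock M b) : (∃ χ ∈ B, ∃ θ ∈ b, Cfsg.classInner (fun n : N => (χ : G → ℂ) n) (θ : N → ℂ) ≠ 0) ↔ ∀ χ ∈ B, ∀ θ ∈ b, ∀ n : N, Cfsg.MemLocalIdeal M (Cfsg.centralChar (χ : G → ℂ) (n : G) - Cfsg.inducedCentralChar N (θ : N → ℂ) (n : G)) := by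
  classical
  have hMp : M.IsPrime := Cfsg.Agent.Lib_helper3_Local2.isPrime_of_modular hM
  constructor
  · rintro ⟨χ₀, hχ₀, θ₀, hθ₀, hne⟩ χ hχ θ hθ n
    have e := Cfsg.Agent.Lib_helper3_BlockCover.centralChar_eq_of_constituent N χ₀ θ₀ hne n
    have h1 : Cfsg.MemLocalIdeal M (Cfsg.centralChar (χ : G → ℂ) (n : G) -
        Cfsg.centralChar (χ₀ : G → ℂ) (n : G)) := by
      obtain ⟨χ₁, rfl⟩ := hB
      exact Cfsg.Agent.Lib_helper3_BlockAlg.sameBlock_trans
        (Cfsg.Agent.Lib_helper3_BlockAlg.sameBlock_symm hχ) hχ₀ (n : G)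
    have h2 : Cfsg.MemLocalIdeal M (Cfsg.inducedCentralChar N (θ₀ : N → ℂ) (n : G) -
        Cfsg.inducedCentralChar N (θ : N → ℂ) (n : G)) := by
      obtain ⟨θ₁, rfl⟩ := hb
      exact Cfsg.Agent.Lib_helper3_BlockInd.inducedCentralChar_congr
        (Cfsg.Agent.Lib_helper3_CharBasic.isClassFunction_of_irr θ₀.2)
        (Cfsg.Agent.Lib_helper3_CharBasic.isClassFunction_of_irr θ.2)
        (Cfsg.Agent.Lib_helper3_BlockAlg.sameBlock_trans
          (Cfsg.Agent.Lib_helper3_BlockAlg.sameBlock_symm hθ₀) hθ) (n : G)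
    rw [e] at h1
    have h3 := Cfsg.Agent.Lib_helper3_Local.memLocalIdeal_add h1 h2
    rwa [sub_add_sub_cancel] at h3
  · intro h
    have hS := Cfsg.Agent.Lib_helper3_BlockCover.invariant_orbClosure N b
    have hR : ∀ n : N, Cfsg.MemLocalRing M
        (Cfsg.blockCoeff (Cfsg.Agent.Lib_helper3_BlockCover.orbClosure N b) n) := fun n =>
      Cfsg.Agent.Lib_helper3_BlockAlg.osima_union
        (Cfsg.Agent.Lib_helper3_BlockCover.orbClosure_closed N
          (Cfsg.Agent.Lib_helper3_BlockCover.block_closed N hb)) n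
    have hf : ∀ x : G, Cfsg.Agent.Lib_helper3_CharNormal.conjFun N x
        (Cfsg.blockCoeff (Cfsg.Agent.Lib_helper3_BlockCover.orbClosure N b)) =
        Cfsg.blockCoeff (Cfsg.Agent.Lib_helper3_BlockCover.orbClosure N b) := fun x =>
      funext (fun n => Cfsg.Agent.Lib_helper3_BlockCover.blockCoeff_conj N hS x n)
    obtain ⟨χ₁, hχ₁⟩ : ∃ χ₁ : Cfsg.IrrCharacter G, χ₁ ∈ B := by
      obtain ⟨χ₁, rfl⟩ := hB
      exact ⟨χ₁, Cfsg.Agent.Lib_helper3_BlockAlg.mem_blockOf_self hMp.ne_top χ₁⟩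
    obtain ⟨θ₁, hθ₁⟩ : ∃ θ₁ : Cfsg.IrrCharacter N, θ₁ ∈ b := by
      obtain ⟨θ₁, rfl⟩ := hb
      exact ⟨θ₁, Cfsg.Agent.Lib_helper3_BlockAlg.mem_blockOf_self hMp.ne_top θ₁⟩
    have e1 := Cfsg.Agent.Lib_helper3_BlockCover.om_extend_congr N hf hR
      (Cfsg.Agent.Lib_helper3_CharBasic.isClassFunction_of_irr χ₁.2) (θ₁ : N → ℂ)
      (h χ₁ hχ₁ θ₁ hθ₁)
    have e2 : Cfsg.Agent.Lib_helper3_BlockAlg.Om (θ₁ : N → ℂ)
        (Cfsg.blockCoeff (Cfsg.Agent.Lib_helper3_BlockCover.orbClosure N b)) = 1 :=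
      Cfsg.Agent.Lib_helper3_BlockAlg.om_blockCoeff_of_mem
        (Cfsg.Agent.Lib_helper3_BlockCover.subset_orbClosure N b hθ₁)
    by_contra hcon
    have e3 := Cfsg.Agent.Lib_helper3_BlockCover.om_cover_of_not_exists N
      (Cfsg.Agent.Lib_helper3_BlockCover.orbClosure N b) χ₁ (by
        rintro ⟨θ', ⟨x, θ'', hθ'', rfl⟩, hne⟩
        rw [Cfsg.Agent.Lib_helper3_BlockCover.conjIrr_coe,
          Cfsg.Agent.Lib_helper3_Clifford.classInner_restrict_conjFun N
            (Cfsg.Agent.Lib_helper3_CharBasic.isClassFunction_of_irr χ₁.2) x] at hne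
        exact hcon ⟨χ₁, hχ₁, θ'', hθ'', hne⟩)
    rw [e3, e2, zero_sub] at e1
    have e4 := Cfsg.Agent.Lib_helper3_Local.memLocalIdeal_neg e1
    rw [neg_neg] at e4
    exact Cfsg.Agent.Lib_helper3_Local2.not_memLocalIdeal_one e4
end Cfsg.Agent.S0965
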