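import Cfsg.Statements.S0967
import Cfsg.Agent.Lib_helper3_BlockInfl

set_option autoImplicit false
open Cfsg

namespace Cfsg.Agent.S0967

/-- Let N be a normal subgroup of the finite group G of order prime to p and fix a maximal ideal M of the algebraic integers containing p. If χ is an irreducible character of G ⧸ N and ψ lies in the block of its inflation χ ∘ (quotient map), then ψ is itself inflated from an irreducible character ψ' of G ⧸ N lying in the block of χ. (Over a normal p'-subgroup, blocks of the quotient are whole blocks of G.) -/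
theorem result {G : Type*} [Group G] [Finite G] (p : ℕ) [Fact p.Prime] (M : Ideal Cfsg.AlgInt) (hM : Cfsg.IsPModular p M) (N : Subgroup G) [N.Normal] (hN : ¬ p ∣ Nat.card N) (χ : Cfsg.IrrCharacter (G ⧸ N)) (ψ : Cfsg.IrrCharacter G) (hψ : ψ ∈ Cfsg.blockOf M ((χ : G ⧸ N → ℂ) ∘ QuotientGroup.mk)) : ∃ ψ' : Cfsg.IrrCharacter (G ⧸ N), (ψ : G → ℂ) = (ψ' : G ⧸ N → ℂ) ∘ QuotientGroup.mk ∧ Cfsg.SameBlock M (χ : G ⧸ N → ℂ) (ψ' : G ⧸ N → ℂ) := by
  classical
  have := Fintype.ofFinite G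
  have := Fintype.ofFinite N
  have hχG := Cfsg.Agent.Lib_helper3_BlockInfl.isIrrCharacter_infl N χ.2
  have hψN := Cfsg.Agent.Lib_helper3_BlockPQuot.trivial_on_of_sameBlock hM N hN
    (χ := ⟨_, hχG⟩) (ψ := ψ) hψ (by
      intro n hn
      show (χ : G ⧸ N → ℂ) (QuotientGroup.mk n) = (χ : G ⧸ N → ℂ) (QuotientGroup.mk (1 : G))
      rw [(QuotientGroup.eq_one_iff n).mpr hn]
      rfl)
  obtain ⟨ψ', hψ', heq⟩ := Cfsg.Agent.Lib_helper3_BlockInfl.exists_descent N ψ.2 hψN
  refine ⟨⟨ψ', hψ'⟩, heq, ?_⟩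
  apply Cfsg.Agent.Lib_helper3_BlockInfl.sameBlock_of_infl hM N hN
    (Cfsg.Agent.Lib_helper3_CharBasic.isClassFunction_of_irr χ.2)
    (Cfsg.Agent.Lib_helper3_CharBasic.isClassFunction_of_irr hψ')
  rw [← heq]
  exact hψ
end Cfsg.Agent.S0967
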