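import Cfsg.Statements.S0985
import Mathlib

set_option autoImplicit false
open Cfsg

namespace Cfsg.Agent.S0985

/-- If the number of Sylow p-subgroups of a finite group is not congruent to 1 modulo p^k, then there are two distinct Sylow p-subgroups P and R such that the index of P ∩ R in P is at most p^(k-1). -/
theorem result {G : Type*} [Group G] [Finite G] (p k : ℕ) [Fact p.Prime] (h : ¬ Nat.card (Sylow p G) ≡ 1 [MOD p ^ k]) : ∃ P R : Sylow p G, P ≠ R ∧ ((R : Subgroup G).subgroupOf (P : Subgroup G)).index ≤ p ^ (k - 1) := by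
  classical
  by_contra hcon
  push Not at hcon
  apply h
  obtain ⟨P⟩ : Nonempty (Sylow p G) := inferInstance
  have hstab : ∀ R : Sylow p G, MulAction.stabilizer ↥(P : Subgroup G) R
      = (R : Subgroup G).subgroupOf (P : Subgroup G) := by
    intro R
    ext g
    rw [MulAction.mem_stabilizer_iff, Subgroup.mem_subgroupOf, Subgroup.smul_def,
      Sylow.smul_eq_iff_mem_normalizer]
    constructor
    · intro hg
      exact ((IsPGroup.inf_normalizer_sylow P.2 R).le ⟨g.2, hg⟩).2
    · intro hg
      exact Subgroup.le_normalizer hg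
  have horb : ∀ R : Sylow p G, Nat.card (MulAction.orbit ↥(P : Subgroup G) R)
      = ((R : Subgroup G).subgroupOf (P : Subgroup G)).index := by
    intro R
    rw [← hstab, MulAction.index_stabilizer, Nat.card_coe_set_eq]
  haveI : Fintype (MulAction.orbitRel.Quotient ↥(P : Subgroup G) (Sylow p G)) := Fintype.ofFinite _
  have hsum := Nat.card_congr (MulAction.selfEquivSigmaOrbits' ↥(P : Subgroup G) (Sylow p G))
  rw [Nat.card_sigma] at hsum
  rw [hsum, ← Finset.add_sum_erase _ _ (Finset.mem_univ (Quotient.mk'' P :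
    MulAction.orbitRel.Quotient ↥(P : Subgroup G) (Sylow p G)))]
  have h1 : Nat.card (MulAction.orbitRel.Quotient.orbit (Quotient.mk'' P :
    MulAction.orbitRel.Quotient ↥(P : Subgroup G) (Sylow p G))) = 1 := by
    rw [MulAction.orbitRel.Quotient.orbit_mk, horb]; simp
  have h2 : p ^ k ∣ ∑ ω ∈ Finset.univ.erase (Quotient.mk'' P :
    MulAction.orbitRel.Quotient ↥(P : Subgroup G) (Sylow p G)), Nat.card (MulAction.orbitRel.Quotient.orbit ω) := by
    apply Finset.dvd_sum
    intro ω hω
    rw [Finset.mem_erase] at hω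
    induction ω using Quotient.inductionOn' with
    | h R =>
      rw [MulAction.orbitRel.Quotient.orbit_mk, horb]
      have hne : P ≠ R := by rintro rfl; exact hω.1 rfl
      have hlt := hcon P R hne
      have hdvd : ((R : Subgroup G).subgroupOf (P : Subgroup G)).index ∣ Nat.card ↥(P : Subgroup G) :=
        Subgroup.index_dvd_card _
      obtain ⟨n, hn⟩ := IsPGroup.iff_card.mp P.2
      rw [hn] at hdvd
      obtain ⟨j, hj, hj2⟩ := (Nat.dvd_prime_pow (Fact.out)).mp hdvd
      rw [hj2] at hlt ⊢
      apply pow_dvd_pow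
      have := (Nat.pow_lt_pow_iff_right (Fact.out : p.Prime).one_lt).mp hlt
      omega
  rw [h1]
  obtain ⟨c, hc⟩ := h2
  rw [hc]
  simp [Nat.ModEq]

end Cfsg.Agent.S0985
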