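import Cfsg.Statements.S0986
import Mathlib

set_option autoImplicit false
open Cfsg

namespace Cfsg.Agent.S0986

theorem key {G : Type*} [Group G] [Finite G] (p : ℕ) [Fact p.Prime] (P Q : Sylow p G)
    (hPQ : P ≠ Q) (D : Subgroup G) (hD : D = (P : Subgroup G) ⊓ (Q : Subgroup G))
    (hmax : ∀ P' Q' : Sylow p G, P' ≠ Q' →
      Nat.card ↥((P' : Subgroup G) ⊓ (Q' : Subgroup G)) ≤ Nat.card ↥D) :
    1 < Nat.card (Sylow p ↥(Subgroup.normalizer (D : Set G))) ∧
    (∀ S T : Sylow p ↥(Subgroup.normalizer (D : Set G)), S ≠ T →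
      (S : Subgroup _) ⊓ (T : Subgroup _) = D.subgroupOf (Subgroup.normalizer (D : Set G))) ∧
    ∀ S : Sylow p ↥(Subgroup.normalizer (D : Set G)), ∃! T : Sylow p G,
      (S : Subgroup _).map (Subgroup.normalizer (D : Set G)).subtype ≤ (T : Subgroup G) := by
  classical
  have hDP : D ≤ P := by rw [hD]; exact inf_le_left
  have hDQ : D ≤ Q := by rw [hD]; exact inf_le_right
  have hDN : D ≤ Subgroup.normalizer (D : Set G) := Subgroup.le_normalizer
  have hDneP : D ≠ (P : Subgroup G) := by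
    intro h
    apply hPQ
    have hle : (P : Subgroup G) ≤ Q := by rw [← h]; exact hDQ
    exact (Sylow.ext (P.is_maximal' Q.isPGroup' hle)).symm
  have hDneQ : D ≠ (Q : Subgroup G) := by
    intro h
    apply hPQ
    have hle : (Q : Subgroup G) ≤ P := by rw [← h]; exact hDP
    exact Sylow.ext (Q.is_maximal' P.isPGroup' hle)
  have hne : ∀ R : Sylow p G, D ≤ R → D ≠ (R : Subgroup G) →
      ∃ x, x ∈ (R : Subgroup G) ∧ x ∈ Subgroup.normalizer (D : Set G) ∧ x ∉ D := by
    intro R hDR hDne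
    have hnil : Group.IsNilpotent (R : Subgroup G) := R.isPGroup'.isNilpotent
    have hnc := Group.normalizerCondition_of_isNilpotent (G := (R : Subgroup G))
    have hlt : D.subgroupOf R < ⊤ := by
      rw [lt_top_iff_ne_top]
      intro h
      rw [Subgroup.subgroupOf_eq_top] at h
      exact hDne (le_antisymm hDR h)
    have h1 := hnc _ hlt
    obtain ⟨x, hxN, hxD⟩ := SetLike.exists_of_lt h1
    refine ⟨x.1, x.2, ?_, ?_⟩
    · rw [Subgroup.mem_normalizer_iff] at hxN
      rw [Subgroup.mem_set_normalizer_iff]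
      intro h
      constructor
      · intro hh
        have h2 := (hxN ⟨h, hDR hh⟩).1 (Subgroup.mem_subgroupOf.2 hh)
        exact Subgroup.mem_subgroupOf.1 h2
      · intro hh
        have hhR : h ∈ (R : Subgroup G) := by
          have h2 : x.1⁻¹ * (x.1 * h * x.1⁻¹) * x.1 ∈ (R : Subgroup G) :=
            mul_mem (mul_mem (inv_mem x.2) (hDR hh)) x.2
          simpa [mul_assoc] using h2
        have h2 := (hxN ⟨h, hhR⟩).2 (Subgroup.mem_subgroupOf.2 hh)
        exact Subgroup.mem_subgroupOf.1 h2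
    · intro hx
      exact hxD (Subgroup.mem_subgroupOf.2 hx)
  have hbig : ∀ R : Sylow p G, D ≤ R → D ≠ (R : Subgroup G) → Nat.card D <
      Nat.card ((R : Subgroup G) ⊓ Subgroup.normalizer (D : Set G) : Subgroup G) := by
    intro R hDR hDne
    obtain ⟨x, hxR, hxN, hxD⟩ := hne R hDR hDne
    have hle : D ≤ (R : Subgroup G) ⊓ Subgroup.normalizer (D : Set G) := le_inf hDR hDN
    by_contra hcon
    rw [not_lt] at hcon
    have heq := Subgroup.eq_of_le_of_card_ge hle hcon
    exact hxD (heq ▸ Subgroup.mem_inf.2 ⟨hxR, hxN⟩)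
  have hE : ∀ R : Sylow p G, IsPGroup p (((R : Subgroup G) ⊓
      Subgroup.normalizer (D : Set G)).subgroupOf (Subgroup.normalizer (D : Set G))) :=
    fun R => (R.isPGroup'.to_inf_left).comap_subtype
  have hcard : ∀ S : Sylow p ↥(Subgroup.normalizer (D : Set G)),
      Nat.card D < Nat.card (S : Subgroup ↥(Subgroup.normalizer (D : Set G))) := by
    intro S
    obtain ⟨S', hS'⟩ := (hE P).exists_le_sylow
    have h1 : Nat.card (S : Subgroup ↥(Subgroup.normalizer (D : Set G))) =
        Nat.card (S' : Subgroup ↥(Subgroup.normalizer (D : Set G))) :=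
      S.card_eq_multiplicity.trans S'.card_eq_multiplicity.symm
    have h2 := hbig P hDP hDneP
    have h3 : Nat.card ((P : Subgroup G) ⊓ Subgroup.normalizer (D : Set G) : Subgroup G) ≤
        Nat.card (S' : Subgroup ↥(Subgroup.normalizer (D : Set G))) := by
      rw [← Subgroup.card_subtype _ (S' : Subgroup ↥(Subgroup.normalizer (D : Set G)))]
      apply Subgroup.card_le_of_le
      intro z hz
      exact ⟨⟨z, (Subgroup.mem_inf.1 hz).2⟩, hS' (Subgroup.mem_subgroupOf.2 hz), rfl⟩
    omega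
  have h3 : ∀ S : Sylow p ↥(Subgroup.normalizer (D : Set G)), ∃! T : Sylow p G,
      (S : Subgroup _).map (Subgroup.normalizer (D : Set G)).subtype ≤ (T : Subgroup G) := by
    intro S
    obtain ⟨T, hT⟩ :=
      (S.isPGroup'.map (Subgroup.normalizer (D : Set G)).subtype).exists_le_sylow
    refine ⟨T, hT, ?_⟩
    intro T' hT'
    by_contra hne'
    have h1 := hmax T' T hne'
    have h2 : Nat.card ((S : Subgroup _).map (Subgroup.normalizer (D : Set G)).subtype) ≤
        Nat.card ((T' : Subgroup G) ⊓ (T : Subgroup G) : Subgroup G) :=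
      Subgroup.card_le_of_le (le_inf hT' hT)
    rw [Subgroup.card_subtype] at h2
    have h4 := hcard S
    omega
  have h2 : ∀ S T : Sylow p ↥(Subgroup.normalizer (D : Set G)), S ≠ T →
      (S : Subgroup _) ⊓ (T : Subgroup _) =
        D.subgroupOf (Subgroup.normalizer (D : Set G)) := by
    intro S T hST
    haveI : (D.subgroupOf (Subgroup.normalizer (D : Set G))).Normal :=
      Subgroup.normal_in_normalizer
    have hDp : IsPGroup p (D.subgroupOf (Subgroup.normalizer (D : Set G))) :=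
      (P.isPGroup'.to_le hDP).comap_subtype
    have hDS := hDp.le_sylow_of_normal S
    have hDT := hDp.le_sylow_of_normal T
    obtain ⟨S₁, hS₁, -⟩ := h3 S
    obtain ⟨T₁, hT₁, -⟩ := h3 T
    have hne' : S₁ ≠ T₁ := by
      rintro rfl
      apply hST
      have hp : IsPGroup p ((S₁ : Subgroup G).subgroupOf (Subgroup.normalizer (D : Set G))) :=
        S₁.isPGroup'.comap_subtype
      have hS' : (S : Subgroup _) ≤
          (S₁ : Subgroup G).subgroupOf (Subgroup.normalizer (D : Set G)) := by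
        intro z hz
        exact Subgroup.mem_subgroupOf.2 (hS₁ ⟨z, hz, rfl⟩)
      have hT' : (T : Subgroup _) ≤
          (S₁ : Subgroup G).subgroupOf (Subgroup.normalizer (D : Set G)) := by
        intro z hz
        exact Subgroup.mem_subgroupOf.2 (hT₁ ⟨z, hz, rfl⟩)
      have e1 := S.is_maximal' hp hS'
      have e2 := T.is_maximal' hp hT'
      exact Sylow.ext (e1.symm.trans e2)
    have hle : D ≤ (S₁ : Subgroup G) ⊓ (T₁ : Subgroup G) := by
      intro d hd
      exact Subgroup.mem_inf.2 ⟨hS₁ ⟨⟨d, hDN hd⟩, hDS (Subgroup.mem_subgroupOf.2 hd), rfl⟩,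
        hT₁ ⟨⟨d, hDN hd⟩, hDT (Subgroup.mem_subgroupOf.2 hd), rfl⟩⟩
    have heq := Subgroup.eq_of_le_of_card_ge hle (hmax S₁ T₁ hne')
    apply le_antisymm
    · intro z hz
      exact Subgroup.mem_subgroupOf.2 (heq.ge (Subgroup.mem_inf.2
        ⟨hS₁ ⟨z, (Subgroup.mem_inf.1 hz).1, rfl⟩, hT₁ ⟨z, (Subgroup.mem_inf.1 hz).2, rfl⟩⟩))
    · exact le_inf hDS hDT
  refine ⟨?_, h2, h3⟩
  rw [Finite.one_lt_card_iff_nontrivial]
  obtain ⟨SP, hSP⟩ := (hE P).exists_le_sylow
  obtain ⟨SQ, hSQ⟩ := (hE Q).exists_le_sylow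
  refine ⟨SP, SQ, ?_⟩
  intro hSS
  rw [← hSS] at hSQ
  obtain ⟨T, hT, -⟩ := h3 SP
  have hXT : ∀ X : Sylow p G, D ≤ X → D ≠ (X : Subgroup G) →
      ((X : Subgroup G) ⊓ Subgroup.normalizer (D : Set G)).subgroupOf
        (Subgroup.normalizer (D : Set G)) ≤ SP → X = T := by
    intro X hDX hDneX hXS
    by_contra hne'
    have e1 := hmax X T hne'
    have e2 : Nat.card ((X : Subgroup G) ⊓ Subgroup.normalizer (D : Set G) : Subgroup G) ≤
        Nat.card ((X : Subgroup G) ⊓ (T : Subgroup G) : Subgroup G) := by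
      apply Subgroup.card_le_of_le
      intro z hz
      exact Subgroup.mem_inf.2 ⟨(Subgroup.mem_inf.1 hz).1,
        hT ⟨⟨z, (Subgroup.mem_inf.1 hz).2⟩, hXS (Subgroup.mem_subgroupOf.2 hz), rfl⟩⟩
    have e3 := hbig X hDX hDneX
    omega
  exact hPQ ((hXT P hDP hDneP hSP).trans (hXT Q hDQ hDneQ hSQ).symm)

/-- Let P and Q be distinct Sylow p-subgroups of a finite group G chosen so that the order of P ∩ Q is as large as possible among intersections of two distinct Sylow p-subgroups, and let N be the normalizer of P ∩ Q. Then N has more than one Sylow p-subgroup, any two distinct Sylow p-subgroups of N intersect exactly in P ∩ Q, and each Sylow p-subgroup of N lies in exactly one Sylow p-subgroup of G. -/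
theorem result {G : Type*} [Group G] [Finite G] (p : ℕ) [Fact p.Prime] (P Q : Sylow p G) (hPQ : P ≠ Q) (hmax : ∀ P' Q' : Sylow p G, P' ≠ Q' → Nat.card ↥((P' : Subgroup G) ⊓ (Q' : Subgroup G)) ≤ Nat.card ↥((P : Subgroup G) ⊓ (Q : Subgroup G))) : 1 < Nat.card (Sylow p ↥(Subgroup.normalizer (((P : Subgroup G) ⊓ (Q : Subgroup G) : Subgroup G) : Set G))) ∧ (∀ S T : Sylow p ↥(Subgroup.normalizer (((P : Subgroup G) ⊓ (Q : Subgroup G) : Subgroup G) : Set G)), S ≠ T → (S : Subgroup _) ⊓ (T : Subgroup _) = ((P : Subgroup G) ⊓ (Q : Subgroup G)).subgroupOf (Subgroup.normalizer (((P : Subgroup G) ⊓ (Q : Subgroup G) : Subgroup G) : Set G))) ∧ ∀ S : Sylow p ↥(Subgroup.normalizer (((P : Subgroup G) ⊓ (Q : Subgroup G) : Subgroup G) : Set G)), ∃! T : Sylow p G, (S : Subgroup _).map (Subgroup.normalizer (((P : Subgroup G) ⊓ (Q : Subgroup G) : Subgroup G) : Set G)).subtype ≤ (T : Subgroup G) := by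
  exact key p P Q hPQ _ rfl hmax

end Cfsg.Agent.S0986
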