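import Cfsg.Statements.S0987
import Mathlib
import Cfsg.Agent.Lib_helper4_Count

set_option autoImplicit false
open Cfsg

namespace Cfsg.Agent.S0987

open scoped Pointwise

lemma dvd_prime_mul {a b n : ℕ} (ha : a.Prime) (hb : b.Prime) (h : n ∣ a * b) :
    n = 1 ∨ n = a ∨ n = b ∨ n = a * b := by
  by_cases han : a ∣ n
  · obtain ⟨m, rfl⟩ := han
    have hm : m ∣ b := Nat.dvd_of_mul_dvd_mul_left ha.pos h
    rcases (Nat.dvd_prime hb).mp hm with h1 | h1
    · right; left
      rw [h1, mul_one]
    · right; right; right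
      rw [h1]
  · have hcop : Nat.Coprime n a := (Nat.Coprime.symm ((Nat.Prime.coprime_iff_not_dvd ha).mpr han))
    have hnb : n ∣ b := hcop.dvd_of_dvd_mul_left h
    rcases (Nat.dvd_prime hb).mp hnb with h1 | h1
    · left; exact h1
    · right; right; left; exact h1

lemma modEq_one_lt {n r : ℕ} (h : n ≡ 1 [MOD r]) (h1 : 1 < n) (h2 : n < r) : False := by
  unfold Nat.ModEq at h
  rw [Nat.mod_eq_of_lt h2, Nat.mod_eq_of_lt (by omega)] at h
  omega

lemma arith (p q r nq : ℕ) (hpq : p < q) (hqr : q < r) (hnq : r ≤ nq)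
    (h : p * q * (r - 1) + nq * (q - 1) + 1 ≤ p * q * r) : False := by
  obtain ⟨r', rfl⟩ : ∃ r', r = r' + 1 := ⟨r - 1, by omega⟩
  obtain ⟨q', rfl⟩ : ∃ q', q = q' + 1 := ⟨q - 1, by omega⟩
  simp only [Nat.add_sub_cancel] at h
  have h1 : (q' + 2) * q' ≤ nq * q' := Nat.mul_le_mul_right q' (by omega)
  have h2 : p * q' ≤ q' * q' := Nat.mul_le_mul_right q' (by omega)
  nlinarith

/-- If a finite group has order pqr for primes p < q < r, then its Sylow r-subgroups are normal. -/
theorem result {G : Type*} [Group G] [Finite G] (p q r : ℕ) (hp : p.Prime) (hq : q.Prime) [Fact r.Prime] (hpq : p < q) (hqr : q < r) (hG : Nat.card G = p * q * r) (R : Sylow r G) : (R : Subgroup G).Normal := by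
  classical
  haveI : Fact q.Prime := ⟨hq⟩
  have hr : r.Prime := Fact.out
  have hp2 : 2 ≤ p := hp.two_le
  -- orders of Sylow subgroups
  have hGr : Nat.card G = r ^ 1 * (p * q) := by rw [hG]; ring
  have hGq : Nat.card G = q ^ 1 * (p * r) := by rw [hG]; ring
  have hr_ndvd : ¬ r ∣ p * q := by
    intro h
    rcases (Nat.Prime.dvd_mul hr).mp h with h1 | h1
    · have := Nat.le_of_dvd hp.pos h1
      omega
    · have := Nat.le_of_dvd hq.pos h1
      omega
  have hq_ndvd : ¬ q ∣ p * r := by
    intro h
    rcases (Nat.Prime.dvd_mul hq).mp h with h1 | h1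
    · have := Nat.le_of_dvd hp.pos h1
      omega
    · rcases (Nat.dvd_prime hr).mp h1 with h2 | h2
      · have := hq.two_le
        omega
      · omega
  have hcardR : ∀ P : Sylow r G, Nat.card P = r := fun P => by
    have := Cfsg.Agent.Lib_helper4_Count.sylow_card_eq_pow P hGr hr_ndvd
    rw [pow_one] at this
    exact this
  have hcardQ : ∀ P : Sylow q G, Nat.card P = q := fun P => by
    have := Cfsg.Agent.Lib_helper4_Count.sylow_card_eq_pow P hGq hq_ndvd
    rw [pow_one] at this
    exact this
  have hidxR : (R : Subgroup G).index = p * q := Cfsg.Agent.Lib_helper4_Count.sylow_index_eq R hGr hr_ndvd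
  have hnr_dvd : Nat.card (Sylow r G) ∣ p * q := by
    rw [← hidxR]
    exact Sylow.card_dvd_index R
  have hnr_mod : Nat.card (Sylow r G) ≡ 1 [MOD r] := card_sylow_modEq_one r G
  have hnr : Nat.card (Sylow r G) = 1 ∨ Nat.card (Sylow r G) = p * q := by
    rcases dvd_prime_mul hp hq hnr_dvd with h | h | h | h
    · exact Or.inl h
    · exfalso
      rw [h] at hnr_mod
      exact modEq_one_lt hnr_mod (by omega) (by omega)
    · exfalso
      rw [h] at hnr_mod
      exact modEq_one_lt hnr_mod (by have := hq.two_le; omega) (by omega)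
    · exact Or.inr h
  rcases hnr with h1 | hpqn
  · haveI : Subsingleton (Sylow r G) := (Nat.card_eq_one_iff_unique.mp h1).1
    exact Sylow.normal_of_subsingleton R
  · exfalso
    obtain ⟨Q⟩ : Nonempty (Sylow q G) := inferInstance
    have hidxQ : (Q : Subgroup G).index = p * r := Cfsg.Agent.Lib_helper4_Count.sylow_index_eq Q hGq hq_ndvd
    have hnq_dvd : Nat.card (Sylow q G) ∣ p * r := by
      rw [← hidxQ]
      exact Sylow.card_dvd_index Q
    have hnq_mod : Nat.card (Sylow q G) ≡ 1 [MOD q] := card_sylow_modEq_one q G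
    have hnq1 : Nat.card (Sylow q G) = 1 := by
      by_contra hne
      have hge : r ≤ Nat.card (Sylow q G) := by
        rcases dvd_prime_mul hp hr hnq_dvd with h | h | h | h
        · exact absurd h hne
        · exfalso
          rw [h] at hnq_mod
          exact modEq_one_lt hnq_mod (by omega) (by omega)
        · omega
        · rw [h]
          exact Nat.le_mul_of_pos_left r hp.pos
      have hcount := Cfsg.Agent.Lib_helper4_Count.card_sylow_elements_two (p := r) (q := q)
        (by omega) r q hcardR hcardQ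
        (Cfsg.Agent.Lib_helper4_Count.sylow_inf_eq_bot_of_card_prime hcardR)
        (Cfsg.Agent.Lib_helper4_Count.sylow_inf_eq_bot_of_card_prime hcardQ)
      rw [hpqn, hG] at hcount
      exact arith p q r _ hpq hqr hge hcount
    haveI : Subsingleton (Sylow q G) := (Nat.card_eq_one_iff_unique.mp hnq1).1
    haveI hQn : (Q : Subgroup G).Normal := Sylow.normal_of_subsingleton Q
    have hRK : (R : Subgroup G) ≤ (R : Subgroup G) ⊔ (Q : Subgroup G) := le_sup_left
    have hKcard : Nat.card ↥((R : Subgroup G) ⊔ (Q : Subgroup G)) ≤ r * q := by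
      have h1 : (((R : Subgroup G) ⊔ (Q : Subgroup G) : Subgroup G) : Set G)
          = ((R : Subgroup G) : Set G) * ((Q : Subgroup G) : Set G) :=
        Subgroup.mul_normal (R : Subgroup G) (Q : Subgroup G)
      have h2 : Nat.card ↥((R : Subgroup G) ⊔ (Q : Subgroup G))
          = Nat.card ↥(((R : Subgroup G) : Set G) * ((Q : Subgroup G) : Set G)) := by
        rw [← h1]
        rfl
      rw [h2]
      refine le_trans Set.natCard_mul_le ?_
      have h3 : Nat.card ↥((R : Subgroup G) : Set G) = r := hcardR R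
      have h4 : Nat.card ↥((Q : Subgroup G) : Set G) = q := hcardQ Q
      rw [h3, h4]
    have hcRK : Nat.card ↥((R.subtype hRK : Sylow r ↥((R : Subgroup G) ⊔ (Q : Subgroup G))) :
        Subgroup ↥((R : Subgroup G) ⊔ (Q : Subgroup G))) = r := by
      have h5 : ((R.subtype hRK : Sylow r ↥((R : Subgroup G) ⊔ (Q : Subgroup G))) :
        Subgroup ↥((R : Subgroup G) ⊔ (Q : Subgroup G))) = (R : Subgroup G).subgroupOf _ := rfl
      rw [h5, Nat.card_congr (Subgroup.subgroupOfEquivOfLe hRK).toEquiv]
      exact hcardR R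
    have hidx : ((R.subtype hRK : Sylow r ↥((R : Subgroup G) ⊔ (Q : Subgroup G))) :
        Subgroup ↥((R : Subgroup G) ⊔ (Q : Subgroup G))).index ≤ q := by
      have h6 := Subgroup.card_mul_index ((R.subtype hRK : Sylow r ↥((R : Subgroup G) ⊔ (Q : Subgroup G))) :
        Subgroup ↥((R : Subgroup G) ⊔ (Q : Subgroup G)))
      rw [hcRK] at h6
      have h7 : r * ((R.subtype hRK : Sylow r ↥((R : Subgroup G) ⊔ (Q : Subgroup G))) :
        Subgroup ↥((R : Subgroup G) ⊔ (Q : Subgroup G))).index ≤ r * q := by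
        rw [h6]
        exact hKcard
      exact Nat.le_of_mul_le_mul_left h7 hr.pos
    have hnK_dvd := Sylow.card_dvd_index (R.subtype hRK : Sylow r ↥((R : Subgroup G) ⊔ (Q : Subgroup G)))
    have hnK_mod : Nat.card (Sylow r ↥((R : Subgroup G) ⊔ (Q : Subgroup G))) ≡ 1 [MOD r] :=
      card_sylow_modEq_one r _
    have hidx_pos : 0 < ((R.subtype hRK : Sylow r ↥((R : Subgroup G) ⊔ (Q : Subgroup G))) :
        Subgroup ↥((R : Subgroup G) ⊔ (Q : Subgroup G))).index := by
      apply Nat.pos_of_ne_zero
      exact Subgroup.index_ne_zero_of_finite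
    have hnK_le : Nat.card (Sylow r ↥((R : Subgroup G) ⊔ (Q : Subgroup G))) ≤ q :=
      le_trans (Nat.le_of_dvd hidx_pos hnK_dvd) hidx
    have hnK1 : Nat.card (Sylow r ↥((R : Subgroup G) ⊔ (Q : Subgroup G))) = 1 := by
      by_contra hne
      have hpos : 0 < Nat.card (Sylow r ↥((R : Subgroup G) ⊔ (Q : Subgroup G))) := Nat.card_pos
      exact modEq_one_lt hnK_mod (by omega) (by omega)
    haveI : Subsingleton (Sylow r ↥((R : Subgroup G) ⊔ (Q : Subgroup G))) :=
      (Nat.card_eq_one_iff_unique.mp hnK1).1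
    have hnormK := Sylow.normal_of_subsingleton (R.subtype hRK : Sylow r ↥((R : Subgroup G) ⊔ (Q : Subgroup G)))
    have hKN : (R : Subgroup G) ⊔ (Q : Subgroup G) ≤ Subgroup.normalizer ((R : Subgroup G) : Set G) :=
      (Subgroup.normal_subgroupOf_iff_le_normalizer hRK).mp hnormK
    have hQN : (Q : Subgroup G) ≤ Subgroup.normalizer ((R : Subgroup G) : Set G) :=
      le_trans le_sup_right hKN
    have hNidx : (Subgroup.normalizer ((R : Subgroup G) : Set G)).index = p * q := by
      have h11 := Sylow.card_eq_index_normalizer R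
      rw [hpqn] at h11
      exact h11.symm
    have hNcard : Nat.card ↥(Subgroup.normalizer ((R : Subgroup G) : Set G)) = r := by
      have h8 := Subgroup.card_mul_index (Subgroup.normalizer ((R : Subgroup G) : Set G))
      rw [hNidx, hG] at h8
      have h9 : Nat.card ↥(Subgroup.normalizer ((R : Subgroup G) : Set G)) * (p * q) = r * (p * q) := by
        rw [h8]
        ring
      exact Nat.eq_of_mul_eq_mul_right (Nat.mul_pos hp.pos hq.pos) h9
    have hqr_dvd : q ∣ r := by
      have h10 := Subgroup.card_dvd_of_le hQN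
      rw [hcardQ Q, hNcard] at h10
      exact h10
    rcases (Nat.dvd_prime hr).mp hqr_dvd with h | h
    · have := hq.two_le
      omega
    · omega

end Cfsg.Agent.S0987
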