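import Cfsg.Statements.S0988
import Mathlib
import Cfsg.Agent.Lib_helper4_SmallSimple

set_option autoImplicit false
open Cfsg

namespace Cfsg.Agent.S0988

open Cfsg.Agent.Lib_helper4_SmallSimple

section
variable {G : Type*} [Group G] [Finite G]

theorem normal_card [IsSimpleGroup G] (N : Subgroup G) [hN : N.Normal] (h1 : Nat.card N ≠ 1)
    (h2 : Nat.card N ≠ Nat.card G) : False := by
  rcases hN.eq_bot_or_eq_top with h | h
  · exact h1 (by rw [h, Subgroup.card_bot])
  · exact h2 (by rw [h, Subgroup.card_top])

theorem transfer_contra [IsSimpleGroup G] {ℓ : ℕ} [Fact ℓ.Prime] (P : Sylow ℓ G)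
    (hNC : Subgroup.normalizer ((P : Subgroup G) : Set G)
      ≤ Subgroup.centralizer ((P : Subgroup G) : Set G))
    (h1 : Nat.card (P : Subgroup G) ≠ 1) (h2 : Nat.card (P : Subgroup G) ≠ Nat.card G) : False := by
  have hc := MonoidHom.ker_transferSylow_isComplement' P hNC
  have hcard := hc.card_mul
  haveI : (MonoidHom.transferSylow P hNC).ker.Normal := MonoidHom.normal_ker _
  apply normal_card (MonoidHom.transferSylow P hNC).ker
  · intro h
    rw [h, one_mul] at hcard
    exact h2 hcard
  · intro h
    rw [h] at hcard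
    have hpos : 0 < Nat.card G := Nat.card_pos
    have : Nat.card (P : Subgroup G) = 1 := by
      have h3 : Nat.card G * Nat.card (P : Subgroup G) = Nat.card G * 1 := by rw [mul_one]; exact hcard
      exact Nat.eq_of_mul_eq_mul_left hpos h3
    exact h1 this

theorem transfer_contra' [IsSimpleGroup G] {ℓ : ℕ} [Fact ℓ.Prime] (P : Sylow ℓ G)
    (hab : ∀ x ∈ (P : Subgroup G), ∀ y ∈ (P : Subgroup G), x * y = y * x)
    (hN : Nat.card (Sylow ℓ G) = (P : Subgroup G).index)
    (h1 : Nat.card (P : Subgroup G) ≠ 1) (h2 : Nat.card (P : Subgroup G) ≠ Nat.card G) : False := by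
  apply transfer_contra P _ h1 h2
  have hle : (P : Subgroup G) ≤ Subgroup.normalizer ((P : Subgroup G) : Set G) :=
    Subgroup.le_normalizer
  have hcN : Nat.card (Subgroup.normalizer ((P : Subgroup G) : Set G))
      = Nat.card (P : Subgroup G) := by
    have e1 := card_normalizer_sylow P
    have e2 := Subgroup.card_mul_index (P : Subgroup G)
    rw [hN] at e1
    have hpos : 0 < (P : Subgroup G).index := Nat.pos_of_ne_zero Subgroup.index_ne_zero_of_finite
    exact Nat.eq_of_mul_eq_mul_right hpos (e1.trans e2.symm)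
  have heq : (P : Subgroup G) = Subgroup.normalizer ((P : Subgroup G) : Set G) :=
    Subgroup.eq_of_le_of_card_ge hle (le_of_eq hcN)
  intro n hn
  rw [← heq] at hn
  rw [Subgroup.mem_centralizer_iff]
  intro y hy
  exact hab y hy n hn

theorem no_prime_power [IsSimpleGroup G] {a n : ℕ} (ha : a.Prime) (hn : 2 ≤ n)
    (hcard : Nat.card G = a ^ n) : False := by
  haveI := Fact.mk ha
  have hPG : IsPGroup a G := IsPGroup.of_card hcard
  haveI : Nontrivial G := IsSimpleGroup.toNontrivial
  have hc : Subgroup.center G ≠ ⊥ := (bot_lt_iff_ne_bot.1 hPG.bot_lt_center)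
  have hct : Subgroup.center G = ⊤ :=
    ((inferInstance : (Subgroup.center G).Normal).eq_bot_or_eq_top).resolve_left hc
  have hcomm : ∀ x y : G, x * y = y * x := fun x y => by
    have : y ∈ Subgroup.center G := by rw [hct]; trivial
    exact (Subgroup.mem_center_iff.1 this x)
  obtain ⟨K, hK⟩ := Sylow.exists_subgroup_card_pow_prime a (G := G) (n := 1)
    (by rw [hcard, pow_one]; exact dvd_pow_self a (by omega))
  haveI : K.Normal := ⟨fun k hk g => by rw [hcomm g k, mul_inv_cancel_right]; exact hk⟩
  apply normal_card K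
  · rw [hK, pow_one]; exact ha.one_lt.ne'
  · rw [hK, hcard]
    have : a ^ 1 < a ^ n := Nat.pow_lt_pow_right ha.one_lt (by omega)
    omega

theorem no_cyclic_min [IsSimpleGroup G] {s m : ℕ} (hs : s.Prime) (hcard : Nat.card G = s * m)
    (hsm : ¬ s ∣ m) (hm1 : m ≠ 1)
    (hmin : ∀ ℓ : ℕ, ℓ.Prime → ℓ ∣ Nat.card G → s ≤ ℓ) : False := by
  haveI := Fact.mk hs
  have hG1 : Nat.card G ≠ 1 := by
    rw [hcard]
    intro h
    exact hs.one_lt.ne' (Nat.eq_one_of_mul_eq_one_right h)
  have hminFac : (Nat.card G).minFac = s := by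
    apply le_antisymm
    · exact Nat.minFac_le_of_dvd hs.two_le (by rw [hcard]; exact dvd_mul_right s m)
    · exact hmin _ (Nat.minFac_prime hG1) (Nat.minFac_dvd _)
  let P : Sylow s G := default
  have hPcard : Nat.card (P : Subgroup G) = s := by
    have := card_sylow_of_card (k := 1) (by rw [pow_one]; exact hcard) hsm P
    rwa [pow_one] at this
  have hcyc : IsCyclic P := isCyclic_of_prime_card (p := s) hPcard
  have hc := IsCyclic.isComplement' hminFac hcyc
  have hcard2 := hc.card_mul
  haveI : (MonoidHom.transferSylow P (hcyc.normalizer_le_centralizer hminFac)).ker.Normal :=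
    MonoidHom.normal_ker _
  apply normal_card (MonoidHom.transferSylow P (hcyc.normalizer_le_centralizer hminFac)).ker
  · intro h
    rw [h, one_mul] at hcard2
    have h3 : Nat.card (P : Subgroup G) = Nat.card G := hcard2
    rw [hPcard, hcard] at h3
    have h4 : s * 1 = s * m := by rw [mul_one]; exact h3
    exact hm1 (Nat.eq_of_mul_eq_mul_left hs.pos h4).symm
  · intro h
    rw [h] at hcard2
    have h3 : Nat.card G * Nat.card (P : Subgroup G) = Nat.card G * 1 := by rw [mul_one]; exact hcard2
    have h4 := Nat.eq_of_mul_eq_mul_left Nat.card_pos h3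
    rw [hPcard] at h4
    exact hs.one_lt.ne' h4

theorem prime_comm {b : ℕ} [Fact b.Prime] (R : Sylow b G) (hR : Nat.card (R : Subgroup G) = b) :
    ∀ x ∈ (R : Subgroup G), ∀ y ∈ (R : Subgroup G), x * y = y * x := by
  intro x hx y hy
  haveI : IsCyclic (R : Subgroup G) := isCyclic_of_prime_card (p := b) hR
  exact congrArg Subtype.val
    ((IsCyclic.isMulCommutative (α := (R : Subgroup G))).is_comm.comm ⟨x, hx⟩ ⟨y, hy⟩)

theorem no_cube [IsSimpleGroup G] {a b : ℕ} (ha : a.Prime) (hb : b.Prime) (hab : a < b)
    (hcard : Nat.card G = a ^ 3 * b) : False := by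
  haveI := Fact.mk ha
  haveI := Fact.mk hb
  have hba : ¬ b ∣ a ^ 3 := fun h => by
    have := (Nat.prime_dvd_prime_iff_eq hb ha).1 (hb.dvd_of_dvd_pow h)
    omega
  have hcard' : Nat.card G = b ^ 1 * a ^ 3 := by rw [hcard, pow_one, mul_comm]
  have hn1 := card_sylow_ne_one hcard' hba one_ne_zero
    (Nat.one_lt_pow (by norm_num) ha.one_lt).ne'
  have hdvd := card_sylow_dvd hcard' hba
  have hmod := card_sylow_modEq_one b G
  obtain ⟨i, hi, hni⟩ := (Nat.dvd_prime_pow ha).1 hdvd
  have hRcard : ∀ R : Sylow b G, Nat.card (R : Subgroup G) = b := fun R => by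
    simpa using card_sylow_of_card hcard' hba R
  have ha2 := ha.two_le
  interval_cases i
  · exact hn1 (by simpa using hni)
  · rw [hni, pow_one] at hmod
    have h1 : b ∣ a - 1 := (Nat.modEq_iff_dvd' ha.one_lt.le).1 hmod.symm
    have := Nat.le_of_dvd (by omega) h1
    omega
  · rw [hni] at hmod
    have h1 : b ∣ a ^ 2 - 1 := (Nat.modEq_iff_dvd' (Nat.one_le_pow _ _ ha.pos)).1 hmod.symm
    have h2 : a ^ 2 - 1 = (a - 1) * (a + 1) := by
      obtain ⟨j, rfl⟩ : ∃ j, a = j + 1 := ⟨a - 1, by omega⟩
      simp only [Nat.add_sub_cancel]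
      have : (j + 1) ^ 2 = j * (j + 1 + 1) + 1 := by ring
      omega
    rw [h2] at h1
    rcases (Nat.Prime.dvd_mul hb).1 h1 with h | h
    · have := Nat.le_of_dvd (by omega) h
      omega
    · have hle := Nat.le_of_dvd (by omega) h
      have hb' : b = a + 1 := by omega
      have ha2' : a = 2 := by
        rcases ha.eq_two_or_odd with h2 | hodd
        · exact h2
        · rcases hb.eq_two_or_odd with h2 | hodd'
          · omega
          · omega
      subst ha2'
      have hb3 : b = 3 := by omega
      subst hb3
      have hcard2 : Nat.card G = 2 ^ 3 * 3 := hcard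
      have h3 : ¬ 2 ∣ 3 := by norm_num
      have hn2 := card_sylow_ne_one hcard2 h3 (by norm_num) (by norm_num)
      have hd2 := card_sylow_dvd hcard2 h3
      have hn2' : Nat.card (Sylow 2 G) = 3 := by
        rcases (Nat.dvd_prime Nat.prime_three).1 hd2 with h | h
        · exact absurd h hn2
        · exact h
      let P2 : Sylow 2 G := default
      have hidx : (Subgroup.normalizer ((P2 : Subgroup G) : Set G)).index = 3 := by
        have := Sylow.card_eq_index_normalizer P2
        rw [hn2'] at this
        exact this.symm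
      have hne : Subgroup.normalizer ((P2 : Subgroup G) : Set G) ≠ ⊤ := by
        intro h
        rw [h, Subgroup.index_top] at hidx
        omega
      have := card_dvd_factorial_index _ hne
      rw [hidx, hcard] at this
      norm_num [Nat.factorial] at this
  · let R : Sylow b G := default
    apply transfer_contra' R (prime_comm R (hRcard R))
    · rw [hni, index_sylow_of_card hcard' hba R]
    · rw [hRcard]; exact hb.one_lt.ne'
    · rw [hRcard, hcard]
      intro h
      have h3 : 1 * b = a ^ 3 * b := by rw [one_mul]; exact h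
      have h4 := Nat.eq_of_mul_eq_mul_right hb.pos h3
      have : 1 < a ^ 3 := Nat.one_lt_pow (by norm_num) ha.one_lt
      omega

theorem nc_or_23 {a b c : ℕ} [Fact a.Prime] (ha : a.Prime) (hb : b.Prime) (hc : c.Prime)
    (hab : a < b) (hac : a < c) (hcard : Nat.card G = a ^ 2 * (b * c)) (P : Sylow a G) :
    Subgroup.normalizer ((P : Subgroup G) : Set G)
      ≤ Subgroup.centralizer ((P : Subgroup G) : Set G) ∨ (a = 2 ∧ (b = 3 ∨ c = 3)) := by
  have habc : ¬ a ∣ b * c := by
    intro h
    rcases (Nat.Prime.dvd_mul ha).1 h with h | h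
    · have := (Nat.prime_dvd_prime_iff_eq ha hb).1 h; omega
    · have := (Nat.prime_dvd_prime_iff_eq ha hc).1 h; omega
  have hPcard : Nat.card (P : Subgroup G) = a ^ 2 := card_sylow_of_card hcard habc P
  have hPcomm : ∀ x y : (P : Subgroup G), x * y = y * x :=
    IsPGroup.commutative_of_card_eq_prime_sq hPcard
  by_cases hA : Nat.card ((P : Subgroup G).normalizerMonoidHom).range = 1
  · left
    have hker : ((P : Subgroup G).normalizerMonoidHom).ker = ⊤ := by
      rw [← Subgroup.index_eq_one, Subgroup.index_ker, hA]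
    rw [Subgroup.normalizerMonoidHom_ker] at hker
    intro n hn
    have : (⟨n, hn⟩ : Subgroup.normalizer ((P : Subgroup G) : Set G)) ∈
        (Subgroup.centralizer ((P : Subgroup G) : Set G)).subgroupOf _ := by
      rw [hker]; trivial
    exact this
  · right
    have hdiv : Nat.card ((P : Subgroup G).normalizerMonoidHom).range ∣ b * c := by
      rw [← Subgroup.index_ker, Subgroup.normalizerMonoidHom_ker]
      have h1 : (P : Subgroup G).subgroupOf (Subgroup.normalizer ((P : Subgroup G) : Set G))
          ≤ (Subgroup.centralizer ((P : Subgroup G) : Set G)).subgroupOf _ := by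
        intro x hx
        rw [Subgroup.mem_subgroupOf] at hx ⊢
        rw [Subgroup.mem_centralizer_iff]
        intro y hy
        exact congrArg Subtype.val (hPcomm ⟨y, hy⟩ ⟨x.1, hx⟩)
      have h2 := Subgroup.index_dvd_of_le h1
      have h3 : ((P : Subgroup G).subgroupOf
          (Subgroup.normalizer ((P : Subgroup G) : Set G))).index ∣ (P : Subgroup G).index :=
        Subgroup.relIndex_dvd_index_of_le Subgroup.le_normalizer
      rw [index_sylow_of_card hcard habc P] at h3
      exact h2.trans h3
    obtain ⟨ℓ, hℓ, hℓdvd⟩ := Nat.exists_prime_and_dvd hA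
    haveI := Fact.mk hℓ
    have hℓbc : ℓ = b ∨ ℓ = c := by
      rcases (Nat.Prime.dvd_mul hℓ).1 (hℓdvd.trans hdiv) with h | h
      · left; exact (Nat.prime_dvd_prime_iff_eq hℓ hb).1 h
      · right; exact (Nat.prime_dvd_prime_iff_eq hℓ hc).1 h
    have haℓ : a < ℓ := by rcases hℓbc with h | h <;> omega
    obtain ⟨φ, hφ⟩ := exists_prime_orderOf_dvd_card' ℓ hℓdvd
    have hψ : orderOf (φ : MulAut (P : Subgroup G)) = ℓ := by
      rw [Subgroup.orderOf_coe]; exact hφ
    set ψ : MulAut (P : Subgroup G) := φ.1 with hψdef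
    let F : Subgroup (P : Subgroup G) :=
      { carrier := {x | ψ x = x}
        one_mem' := map_one ψ
        mul_mem' := fun {x y} hx hy => by
          simp only [Set.mem_setOf_eq] at *
          rw [map_mul, hx, hy]
        inv_mem' := fun {x} hx => by
          simp only [Set.mem_setOf_eq] at *
          rw [map_inv, hx] }
    have hFmem : ∀ x, x ∈ F ↔ ψ x = x := fun x => Iff.rfl
    have hFdvd : Nat.card F ∣ a ^ 2 := by
      rw [← hPcard]; exact Subgroup.card_subgroup_dvd_card F
    have hZp : IsPGroup ℓ (Subgroup.zpowers ψ) :=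
      IsPGroup.of_card (n := 1) (by rw [Nat.card_zpowers, hψ, pow_one])
    have hmod := hZp.card_modEq_card_fixedPoints (P : Subgroup G)
    have hfixeq : Nat.card (MulAction.fixedPoints (Subgroup.zpowers ψ) (P : Subgroup G))
        = Nat.card F := by
      apply Nat.card_congr
      refine Equiv.subtypeEquivRight (fun x => ?_)
      constructor
      · intro hx
        exact hx ⟨ψ, Subgroup.mem_zpowers ψ⟩
      · intro hx g
        have hle : Subgroup.zpowers ψ ≤ MulAction.stabilizer (MulAut (P : Subgroup G)) x :=
          (Subgroup.zpowers_le).2 hx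
        exact hle g.2
    rw [hfixeq, hPcard] at hmod
    obtain ⟨i, hi, hFi⟩ := (Nat.dvd_prime_pow ha).1 hFdvd
    have ha2 := ha.two_le
    interval_cases i
    · rw [hFi, pow_zero] at hmod
      have h1 : ℓ ∣ a ^ 2 - 1 := (Nat.modEq_iff_dvd' (Nat.one_le_pow _ _ ha.pos)).1 hmod.symm
      have h2 : a ^ 2 - 1 = (a - 1) * (a + 1) := by
        obtain ⟨j, rfl⟩ : ∃ j, a = j + 1 := ⟨a - 1, by omega⟩
        simp only [Nat.add_sub_cancel]
        have : (j + 1) ^ 2 = j * (j + 1 + 1) + 1 := by ring
        omega
      rw [h2] at h1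
      rcases (Nat.Prime.dvd_mul hℓ).1 h1 with h | h
      · have := Nat.le_of_dvd (by omega) h
        omega
      · have hle := Nat.le_of_dvd (by omega) h
        have hℓ' : ℓ = a + 1 := by omega
        have ha2' : a = 2 := by
          rcases ha.eq_two_or_odd with h2 | hodd
          · exact h2
          · rcases hℓ.eq_two_or_odd with h2 | hodd'
            · omega
            · omega
        refine ⟨ha2', ?_⟩
        rcases hℓbc with h | h
        · left; omega
        · right; omega
    · rw [hFi, pow_one] at hmod
      have hle : a ≤ a ^ 2 := by nlinarith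
      have h1 : ℓ ∣ a ^ 2 - a := (Nat.modEq_iff_dvd' hle).1 hmod.symm
      have h2 : a ^ 2 - a = a * (a - 1) := by
        obtain ⟨j, rfl⟩ : ∃ j, a = j + 1 := ⟨a - 1, by omega⟩
        simp only [Nat.add_sub_cancel]
        have : (j + 1) ^ 2 = (j + 1) * j + (j + 1) := by ring
        omega
      rw [h2] at h1
      rcases (Nat.Prime.dvd_mul hℓ).1 h1 with h | h
      · have := Nat.le_of_dvd (by omega) h
        omega
      · have := Nat.le_of_dvd (by omega) h
        omega
    · exfalso
      have hFtop : F = ⊤ := Subgroup.eq_top_of_card_eq F (by rw [hFi, hPcard])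
      have hψ1 : ψ = 1 := by
        apply MulEquiv.ext
        intro x
        have : x ∈ F := by rw [hFtop]; trivial
        exact this
      rw [hψ1, orderOf_one] at hψ
      exact hℓ.one_lt.ne' hψ.symm

theorem arith1 (n c' : ℕ) (hc5 : 5 ≤ c') (hd : n ∣ 12) (hn1 : n ≠ 1) (hmod : n ≡ 1 [MOD c']) :
    n = 6 ∨ n = 12 := by
  have hle := Nat.le_of_dvd (by norm_num) hd
  have h5 : 5 ≤ n := by
    by_contra hlt
    push Not at hlt
    have h1 : n % c' = n := Nat.mod_eq_of_lt (by omega)
    have h2 : 1 % c' = 1 := Nat.mod_eq_of_lt (by omega)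
    have : n % c' = 1 % c' := hmod
    omega
  interval_cases n <;> first | omega | (exfalso; revert hd; decide)

theorem sq_case [IsSimpleGroup G] {a b c : ℕ} (ha : a.Prime) (hb : b.Prime) (hc : c.Prime)
    (hab : a < b) (hac : a < c) (hcard : Nat.card G = a ^ 2 * (b * c)) : Nat.card G = 60 := by
  haveI := Fact.mk ha
  have habc : ¬ a ∣ b * c := by
    intro h
    rcases (Nat.Prime.dvd_mul ha).1 h with h | h
    · have := (Nat.prime_dvd_prime_iff_eq ha hb).1 h; omega
    · have := (Nat.prime_dvd_prime_iff_eq ha hc).1 h; omega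
  let P : Sylow a G := default
  have hPcard : Nat.card (P : Subgroup G) = a ^ 2 := card_sylow_of_card hcard habc P
  have hbc2 : 2 ≤ b * c := by
    have := hb.two_le
    have := hc.two_le
    nlinarith
  rcases nc_or_23 ha hb hc hab hac hcard P with hNC | ⟨ha2, h3⟩
  · exfalso
    apply transfer_contra P hNC
    · rw [hPcard]; exact (Nat.one_lt_pow (by norm_num) ha.one_lt).ne'
    · rw [hPcard, hcard]
      intro h
      have h3 : a ^ 2 * 1 = a ^ 2 * (b * c) := by rw [mul_one]; exact h
      have h4 := Nat.eq_of_mul_eq_mul_left (pow_pos ha.pos 2) h3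
      omega
  · subst ha2
    obtain ⟨c', hc', hc'2, hcard'⟩ : ∃ c' : ℕ, c'.Prime ∧ 2 < c' ∧ Nat.card G = 12 * c' := by
      rcases h3 with h | h
      · exact ⟨c, hc, hac, by rw [hcard, h]; ring⟩
      · exact ⟨b, hb, hab, by rw [hcard, h]; ring⟩
    by_cases hc3 : c' = 3
    · exfalso
      subst hc3
      have hcard3 : Nat.card G = 3 ^ 2 * 4 := by rw [hcard']; norm_num
      haveI : Fact (Nat.Prime 3) := ⟨Nat.prime_three⟩
      have h34 : ¬ 3 ∣ 4 := by norm_num
      have hn1 := card_sylow_ne_one hcard3 h34 (by norm_num) (by norm_num)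
      have hd := card_sylow_dvd hcard3 h34
      have hmod := card_sylow_modEq_one 3 G
      have hn4 : Nat.card (Sylow 3 G) = 4 := by
        have hle := Nat.le_of_dvd (by norm_num) hd
        have hm : Nat.card (Sylow 3 G) % 3 = 1 := hmod
        omega
      let P3 : Sylow 3 G := default
      have hidx : (Subgroup.normalizer ((P3 : Subgroup G) : Set G)).index = 4 := by
        have := Sylow.card_eq_index_normalizer P3
        rw [hn4] at this
        exact this.symm
      have hne : Subgroup.normalizer ((P3 : Subgroup G) : Set G) ≠ ⊤ := by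
        intro h
        rw [h, Subgroup.index_top] at hidx
        omega
      have := card_dvd_factorial_index _ hne
      rw [hidx, hcard'] at this
      norm_num [Nat.factorial] at this
    · have hc5 : 5 ≤ c' := by
        by_contra hlt
        have : c' = 4 := by omega
        subst this
        norm_num at hc'
      haveI := Fact.mk hc'
      have hc12 : ¬ c' ∣ 12 := by
        intro h
        have h12 : (12 : ℕ) = 2 ^ 2 * 3 := by norm_num
        rw [h12] at h
        rcases (Nat.Prime.dvd_mul hc').1 h with h | h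
        · have := (Nat.prime_dvd_prime_iff_eq hc' Nat.prime_two).1 (hc'.dvd_of_dvd_pow h)
          omega
        · have := (Nat.prime_dvd_prime_iff_eq hc' Nat.prime_three).1 h
          omega
      have hcardc : Nat.card G = c' ^ 1 * 12 := by rw [hcard', pow_one, mul_comm]
      have hn1 := card_sylow_ne_one hcardc hc12 one_ne_zero (by norm_num)
      have hd := card_sylow_dvd hcardc hc12
      have hmod := card_sylow_modEq_one c' G
      rcases arith1 _ c' hc5 hd hn1 hmod with h6 | h12
      · rw [h6] at hmod
        have h5 : c' ∣ 6 - 1 := (Nat.modEq_iff_dvd' (by norm_num)).1 hmod.symm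
        have hle := Nat.le_of_dvd (by norm_num) h5
        have : c' = 5 := by omega
        rw [hcard', this]
      · exfalso
        let R : Sylow c' G := default
        have hRcard : Nat.card (R : Subgroup G) = c' := by
          simpa using card_sylow_of_card hcardc hc12 R
        apply transfer_contra' R (prime_comm R hRcard)
        · rw [h12, index_sylow_of_card hcardc hc12 R]
        · rw [hRcard]; exact hc'.one_lt.ne'
        · rw [hRcard, hcard']; omega

theorem prime_dvd_cases {p q r ℓ : ℕ} (hp : p.Prime) (hq : q.Prime) (hr : r.Prime) (hℓ : ℓ.Prime)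
    (h : ℓ ∣ p ^ 2 * q * r) : ℓ = p ∨ ℓ = q ∨ ℓ = r := by
  rcases (Nat.Prime.dvd_mul hℓ).1 h with h | h
  · rcases (Nat.Prime.dvd_mul hℓ).1 h with h | h
    · left; exact (Nat.prime_dvd_prime_iff_eq hℓ hp).1 (hℓ.dvd_of_dvd_pow h)
    · right; left; exact (Nat.prime_dvd_prime_iff_eq hℓ hq).1 h
  · right; right; exact (Nat.prime_dvd_prime_iff_eq hℓ hr).1 h

end


/-- If a finite simple group has order p^2 * q * r with p, q and r prime, then its order is 60. -/
theorem result {G : Type*} [Group G] [Finite G] [IsSimpleGroup G] (p q r : ℕ) (hp : p.Prime) (hq : q.Prime) (hr : r.Prime) (hG : Nat.card G = p ^ 2 * q * r) : Nat.card G = 60 := by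
  have hp2 := hp.two_le
  have hq2 := hq.two_le
  have hr2 := hr.two_le
  have hmin : ∀ s : ℕ, s ≤ p → s ≤ q → s ≤ r → ∀ ℓ : ℕ, ℓ.Prime → ℓ ∣ Nat.card G → s ≤ ℓ := by
    intro s h1 h2 h3 ℓ hℓ hd
    rw [hG] at hd
    rcases prime_dvd_cases hp hq hr hℓ hd with h | h | h <;> omega
  by_cases hpq : p = q
  · by_cases hpr : p = r
    · exfalso
      subst hpq
      subst hpr
      exact no_prime_power hp (n := 4) (by norm_num) (by rw [hG]; ring)
    · exfalso
      subst hpq
      rcases lt_or_gt_of_ne hpr with h | h
      · exact no_cube hp hr h (by rw [hG]; ring)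
      · refine no_cyclic_min hr (m := p ^ 3) (by rw [hG]; ring) ?_ ?_
          (hmin r (by omega) (by omega) le_rfl)
        · intro hd
          have := (Nat.prime_dvd_prime_iff_eq hr hp).1 (hr.dvd_of_dvd_pow hd)
          omega
        · exact (Nat.one_lt_pow (by norm_num) hp.one_lt).ne'
  · by_cases hpr : p = r
    · exfalso
      subst hpr
      rcases lt_or_gt_of_ne hpq with h | h
      · exact no_cube hp hq h (by rw [hG]; ring)
      · refine no_cyclic_min hq (m := p ^ 3) (by rw [hG]; ring) ?_ ?_
          (hmin q (by omega) le_rfl (by omega))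
        · intro hd
          have := (Nat.prime_dvd_prime_iff_eq hq hp).1 (hq.dvd_of_dvd_pow hd)
          omega
        · exact (Nat.one_lt_pow (by norm_num) hp.one_lt).ne'
    · by_cases hlt : p < q ∧ p < r
      · exact sq_case hp hq hr hlt.1 hlt.2 (by rw [hG]; ring)
      · by_cases hqr : q = r
        · subst hqr
          have hqp : q < p := by omega
          exact sq_case hq hp hp hqp hqp (by rw [hG]; ring)
        · exfalso
          rcases lt_or_gt_of_ne hqr with h | h
          · have hqp : q < p := by omega
            refine no_cyclic_min hq (m := p ^ 2 * r) (by rw [hG]; ring) ?_ ?_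
              (hmin q (by omega) le_rfl (by omega))
            · intro hd
              rcases (Nat.Prime.dvd_mul hq).1 hd with hd | hd
              · have := (Nat.prime_dvd_prime_iff_eq hq hp).1 (hq.dvd_of_dvd_pow hd)
                omega
              · have := (Nat.prime_dvd_prime_iff_eq hq hr).1 hd
                omega
            · intro h1
              exact hr.one_lt.ne' (Nat.eq_one_of_mul_eq_one_left h1)
          · have hrp : r < p := by omega
            refine no_cyclic_min hr (m := p ^ 2 * q) (by rw [hG]; ring) ?_ ?_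
              (hmin r (by omega) (by omega) le_rfl)
            · intro hd
              rcases (Nat.Prime.dvd_mul hr).1 hd with hd | hd
              · have := (Nat.prime_dvd_prime_iff_eq hr hp).1 (hr.dvd_of_dvd_pow hd)
                omega
              · have := (Nat.prime_dvd_prime_iff_eq hr hq).1 hd
                omega
            · intro h1
              exact hq.one_lt.ne' (Nat.eq_one_of_mul_eq_one_left h1)

end Cfsg.Agent.S0988
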