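import Cfsg.Statements.S0992
import Mathlib

set_option autoImplicit false
open Cfsg

namespace Cfsg.Agent.S0992

/-- Let G be a non-abelian finite simple group of even order not divisible by 8, and T a Sylow 2-subgroup. Then T is a Klein four-group and the centralizer of T has index 3 in the normalizer of T. -/
theorem result {G : Type*} [Group G] [Finite G] [IsSimpleGroup G] (hG : ¬ IsMulCommutative G) (h2 : Even (Nat.card G)) (h8 : ¬ 8 ∣ Nat.card G) (T : Sylow 2 G) : IsKleinFour ↥(T : Subgroup G) ∧ (Subgroup.centralizer ((T : Subgroup G) : Set G)).relIndex (Subgroup.normalizer ((T : Subgroup G) : Set G)) = 3 := by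
  classical
  haveI : Fact (Nat.Prime 2) := ⟨Nat.prime_two⟩
  have h2' : 2 ∣ Nat.card G := even_iff_two_dvd.mp h2
  have hmin : (Nat.card G).minFac = 2 := (Nat.minFac_eq_two_iff _).mpr h2'
  have hTdvd : 2 ∣ Nat.card (T : Subgroup G) := T.dvd_card_of_dvd_card h2'
  obtain ⟨k, hk⟩ := IsPGroup.iff_card.mp T.2
  have hk1 : k ≠ 0 := by
    rintro rfl
    rw [hk, pow_zero] at hTdvd
    omega
  have hk2 : k < 3 := by
    by_contra hge
    push Not at hge
    apply h8
    have h3 : 2 ^ 3 ∣ 2 ^ k := pow_dvd_pow 2 hge
    have h4 : 2 ^ k ∣ Nat.card G := hk ▸ Subgroup.card_subgroup_dvd_card _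
    exact h3.trans h4
  have hcomm : IsMulCommutative ↥(T : Subgroup G) := by
    have : k = 1 ∨ k = 2 := by omega
    rcases this with rfl | rfl
    · haveI : IsCyclic ↥(T : Subgroup G) := isCyclic_of_prime_card (p := 2) (by rw [hk, pow_one])
      infer_instance
    · exact IsPGroup.isMulCommutative_of_card_eq_prime_sq (p := 2) hk
  have hTtop : (T : Subgroup G) ≠ ⊤ := by
    intro h
    apply hG
    rw [isMulCommutative_iff]
    intro a b
    have := (isMulCommutative_iff.mp hcomm) ⟨a, by rw [h]; trivial⟩ ⟨b, by rw [h]; trivial⟩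
    exact congrArg Subtype.val this
  have hTbot : (T : Subgroup G) ≠ ⊥ := by
    intro h
    rw [h, Subgroup.card_bot] at hTdvd
    omega
  have hburn : ∀ K : Subgroup G, K.Normal → ¬ K.IsComplement' (T : Subgroup G) := by
    intro K hK hcomp
    rcases hK.eq_bot_or_eq_top with h | h
    · rw [h, Subgroup.isComplement'_bot_left] at hcomp
      exact hTtop hcomp
    · rw [h, Subgroup.isComplement'_top_left] at hcomp
      exact hTbot hcomp
  have hncyc : ¬ IsCyclic ↥(T : Subgroup G) := by
    intro hc
    exact hburn _ (MonoidHom.normal_ker _) (IsCyclic.isComplement' hmin hc)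
  have hk4 : k = 2 := by
    by_contra hne
    have : k = 1 := by omega
    subst this
    exact hncyc (isCyclic_of_prime_card (p := 2) (by rw [hk, pow_one]))
  subst hk4
  have hexp : Monoid.exponent ↥(T : Subgroup G) = 2 :=
    (not_isCyclic_iff_exponent_eq_prime Nat.prime_two hk).mp hncyc
  refine ⟨⟨by rw [hk]; norm_num, hexp⟩, ?_⟩
  have key := Subgroup.card_dvd_of_injective _
    (QuotientGroup.kerLift_injective (T : Subgroup G).normalizerMonoidHom)
  rw [Subgroup.normalizerMonoidHom_ker, ← Subgroup.index, ← Subgroup.relIndex] at key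
  have h24 : Nat.card (MulAut ↥(T : Subgroup G)) ∣ 24 := by
    have h5 := Subgroup.card_dvd_of_injective (MulAut.toPerm ↥(T : Subgroup G))
      (fun a b hab => by
        ext x
        exact congrArg (fun e : Equiv.Perm ↥(T : Subgroup G) => (e x : G)) hab)
    haveI : Fintype ↥(T : Subgroup G) := Fintype.ofFinite _
    rw [Nat.card_eq_fintype_card (α := Equiv.Perm ↥(T : Subgroup G)), Fintype.card_perm,
      ← Nat.card_eq_fintype_card, hk] at h5
    exact h5
  have hodd : Nat.Coprime ((Subgroup.centralizer ((T : Subgroup G) : Set G)).relIndex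
      (Subgroup.normalizer ((T : Subgroup G) : Set G))) 2 := by
    apply Nat.Coprime.coprime_dvd_left (Subgroup.relIndex_dvd_of_le_left _
      (Subgroup.le_centralizer (H := (T : Subgroup G))))
    apply Nat.Coprime.coprime_dvd_left (Subgroup.relIndex_dvd_index_of_le Subgroup.le_normalizer)
    rw [Nat.coprime_comm, Nat.Prime.coprime_iff_not_dvd Nat.prime_two]
    exact T.not_dvd_index
  have hne1 : (Subgroup.centralizer ((T : Subgroup G) : Set G)).relIndex
      (Subgroup.normalizer ((T : Subgroup G) : Set G)) ≠ 1 := by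
    intro h1
    rw [Subgroup.relIndex_eq_one] at h1
    exact hburn _ (MonoidHom.normal_ker _) (MonoidHom.ker_transferSylow_isComplement' T h1)
  have hr := key.trans h24
  have hfin : ∀ r ≤ 24, r ∣ 24 → Nat.Coprime r 2 → r ≠ 1 → r = 3 := by decide
  exact hfin _ (Nat.le_of_dvd (by norm_num) hr) hr hodd hne1

end Cfsg.Agent.S0992
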