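import Cfsg.Statements.S0995
import Mathlib
import Cfsg.Agent.Lib_helper4_ConjCount

set_option autoImplicit false
open Cfsg

namespace Cfsg.Agent.S0995

open Cfsg.Agent.Lib_helper4_ConjCount

lemma zpowers_eq_of_mem {G : Type*} [Group G] [Finite G] {p : ℕ} (hp : p.Prime) {z c : G}
    (hz : orderOf z = p) (hc : c ∈ Subgroup.zpowers z) (hc1 : c ≠ 1) :
    Subgroup.zpowers c = Subgroup.zpowers z := by
  apply Subgroup.eq_of_le_of_card_ge
  · rw [Subgroup.zpowers_le]; exact hc
  · rw [Nat.card_zpowers, Nat.card_zpowers, hz]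
    have h1 : orderOf c ∣ p := by rw [← hz]; exact orderOf_dvd_of_mem_zpowers hc
    rcases (Nat.dvd_prime hp).mp h1 with h | h
    · exact absurd (orderOf_eq_one_iff.mp h) hc1
    · rw [h]

lemma card_ne_one {G : Type*} [Group G] [Finite G] {p : ℕ} (Q : Subgroup G) (hQ : Nat.card Q = p) :
    Nat.card {x : G // x ∈ Q ∧ x ≠ 1} = p - 1 := by
  have h1 : Nat.card {x : G // x ∈ Q ∧ x ≠ 1} = ((Q : Set G) \ {1}).ncard := by
    rw [← Nat.card_coe_set_eq]; rfl
  rw [h1, Set.ncard_diff_singleton_of_mem (one_mem _), ← Nat.card_coe_set_eq]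
  show Nat.card ↥Q - 1 = p - 1
  rw [hQ]

lemma orderOf_of_mem {G : Type*} [Group G] [Finite G] {p : ℕ} (hp : p.Prime) (Q : Subgroup G)
    (hQ : Nat.card Q = p) {x : G} (hx : x ∈ Q) (hx1 : x ≠ 1) : orderOf x = p := by
  have h1 : orderOf (⟨x, hx⟩ : ↥Q) ∣ Nat.card ↥Q := orderOf_dvd_natCard _
  rw [hQ, Subgroup.orderOf_mk] at h1
  rcases (Nat.dvd_prime hp).mp h1 with h | h
  · exact absurd (orderOf_eq_one_iff.mp h) hx1
  · exact h


/-- Let G be a finite perfect group containing an element z of prime order p whose centralizer is the cyclic group it generates. Let t be the number of conjugacy classes of elements of order p. Then t divides p - 1, the number of Sylow p-subgroups has the form 1 + n * p, and |G| * t = (p - 1) * p * (1 + n * p). -/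
theorem result {G : Type*} [Group G] [Finite G] (hperf : commutator G = ⊤) (p : ℕ) [Fact p.Prime] (z : G) (hz : orderOf z = p) (hC : Subgroup.centralizer ({z} : Set G) = Subgroup.zpowers z) : ∃ n t : ℕ, t = Nat.card {c : ConjClasses G // ∃ g : G, ConjClasses.mk g = c ∧ orderOf g = p} ∧ t ∣ p - 1 ∧ Nat.card (Sylow p G) = 1 + n * p ∧ Nat.card G * t = (p - 1) * p * (1 + n * p) := by
  classical
  have hp := (Fact.out : p.Prime)
  have hp2 := hp.two_le
  have hz1 : z ≠ 1 := by rintro rfl; rw [orderOf_one] at hz; omega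
  have hpz : IsPGroup p (Subgroup.zpowers z) :=
    IsPGroup.of_card (n := 1) (by rw [Nat.card_zpowers, hz, pow_one])
  obtain ⟨P, hzP⟩ := hpz.exists_le_sylow
  have hzP' : z ∈ (P : Subgroup G) := hzP (Subgroup.mem_zpowers z)
  have hPz : (P : Subgroup G) = Subgroup.zpowers z := by
    refine le_antisymm ?_ hzP
    haveI : Nontrivial ↥(P : Subgroup G) :=
      ⟨⟨⟨z, hzP'⟩, 1, fun h => hz1 (congrArg Subtype.val h)⟩⟩
    haveI := IsPGroup.center_nontrivial P.2
    obtain ⟨c, hc⟩ := exists_ne (1 : Subgroup.center ↥(P : Subgroup G))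
    have hc1 : (c.1.1 : G) ∈ Subgroup.zpowers z := by
      rw [← hC, Subgroup.mem_centralizer_singleton_iff]
      have := Subgroup.mem_center_iff.mp c.2 ⟨z, hzP'⟩
      exact (congrArg Subtype.val this).symm
    have hc2 : (c.1.1 : G) ≠ 1 := fun h => hc (Subtype.ext (Subtype.ext h))
    have hcz := zpowers_eq_of_mem hp hz hc1 hc2
    intro x hx
    rw [← hC, Subgroup.mem_centralizer_singleton_iff]
    have hzc : z ∈ Subgroup.zpowers (c.1.1 : G) := by rw [hcz]; exact Subgroup.mem_zpowers z
    obtain ⟨k, hk⟩ := Subgroup.mem_zpowers_iff.mp hzc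
    have hcomm : Commute x (c.1.1 : G) := by
      have := Subgroup.mem_center_iff.mp c.2 ⟨x, hx⟩
      exact congrArg Subtype.val this
    rw [← hk]
    exact (hcomm.zpow_right k).eq
  have hcardP : Nat.card (P : Subgroup G) = p := by rw [hPz, Nat.card_zpowers, hz]
  have hcardQ : ∀ Q : Sylow p G, Nat.card (Q : Subgroup G) = p := fun Q => by
    rw [Sylow.card_eq_multiplicity, ← Sylow.card_eq_multiplicity P, hcardP]
  have hcent : ∀ g : G, orderOf g = p → Nat.card (Subgroup.centralizer ({g} : Set G)) = p := by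
    intro g hg
    have hpg : IsPGroup p (Subgroup.zpowers g) :=
      IsPGroup.of_card (n := 1) (by rw [Nat.card_zpowers, hg, pow_one])
    obtain ⟨Q, hgQ⟩ := hpg.exists_le_sylow
    have hQg : Subgroup.zpowers g = (Q : Subgroup G) :=
      Subgroup.eq_of_le_of_card_ge hgQ (by rw [hcardQ, Nat.card_zpowers, hg])
    obtain ⟨x, hx⟩ := MulAction.exists_smul_eq G P Q
    have hw : x * z * x⁻¹ ∈ (Q : Subgroup G) := by
      rw [← hx]
      show x * z * x⁻¹ ∈ (P : Subgroup G).map (MulAut.conj x).toMonoidHom
      exact ⟨z, hzP', rfl⟩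
    apply le_antisymm
    · calc Nat.card (Subgroup.centralizer ({g} : Set G)) ≤ Nat.card (Q : Subgroup G) := by
            apply Subgroup.card_le_of_le
            intro y hy
            rw [Subgroup.mem_centralizer_singleton_iff] at hy
            rw [← hQg] at hw
            obtain ⟨k, hk⟩ := Subgroup.mem_zpowers_iff.mp hw
            have hyw : Commute y (x * z * x⁻¹) := by
              rw [← hk]; exact (Commute.zpow_right hy k)
            have h1 : x⁻¹ * y * x ∈ Subgroup.zpowers z := by
              rw [← hC, Subgroup.mem_centralizer_singleton_iff]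
              have := hyw.eq
              calc x⁻¹ * y * x * z = x⁻¹ * (y * (x * z * x⁻¹)) * x := by group
                _ = x⁻¹ * ((x * z * x⁻¹) * y) * x := by rw [this]
                _ = z * (x⁻¹ * y * x) := by group
            rw [← hx]
            show y ∈ (P : Subgroup G).map (MulAut.conj x).toMonoidHom
            refine ⟨x⁻¹ * y * x, by rw [hPz]; exact h1, ?_⟩
            simp [MulAut.conj_apply]
            group
        _ = p := hcardQ Q
    · calc p = Nat.card (Subgroup.zpowers g) := by rw [Nat.card_zpowers, hg]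
        _ ≤ Nat.card (Subgroup.centralizer ({g} : Set G)) := by
            apply Subgroup.card_le_of_le
            rw [Subgroup.zpowers_le, Subgroup.mem_centralizer_singleton_iff]
  -- the set of elements of order p
  have hsyl : ∀ g : {g : G // orderOf g = p}, ∃ Q : Sylow p G, Subgroup.zpowers g.1 ≤ (Q : Subgroup G) := by
    intro g
    have hpg : IsPGroup p (Subgroup.zpowers g.1) :=
      IsPGroup.of_card (n := 1) (by rw [Nat.card_zpowers, g.2, pow_one])
    exact hpg.exists_le_sylow
  have hB : Nat.card {g : G // orderOf g = p} = Nat.card (Sylow p G) * (p - 1) := by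
    refine card_eq_mul_of_fibers (fun g => Classical.choose (hsyl g)) _ ?_
    intro Q
    rw [← card_ne_one (Q : Subgroup G) (hcardQ Q)]
    have hto : ∀ g : {g : {g : G // orderOf g = p} // Classical.choose (hsyl g) = Q},
        g.1.1 ∈ (Q : Subgroup G) ∧ g.1.1 ≠ 1 := by
      intro g
      refine ⟨?_, ?_⟩
      · have h1 := Classical.choose_spec (hsyl g.1) (Subgroup.mem_zpowers _)
        have h2 := g.2
        rw [h2] at h1
        exact h1
      · intro h
        have := g.1.2
        rw [h, orderOf_one] at this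
        omega
    have hinv : ∀ x : {x : G // x ∈ (Q : Subgroup G) ∧ x ≠ 1},
        Classical.choose (hsyl ⟨x.1, orderOf_of_mem hp _ (hcardQ Q) x.2.1 x.2.2⟩) = Q := by
      intro x
      have ho := orderOf_of_mem hp _ (hcardQ Q) x.2.1 x.2.2
      have h1 := Classical.choose_spec (hsyl ⟨x.1, ho⟩)
      have h2 : Subgroup.zpowers x.1 = ((Classical.choose (hsyl ⟨x.1, ho⟩) : Sylow p G) : Subgroup G) :=
        Subgroup.eq_of_le_of_card_ge h1 (by rw [hcardQ, Nat.card_zpowers, ho])
      have h3 : Subgroup.zpowers x.1 = (Q : Subgroup G) :=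
        Subgroup.eq_of_le_of_card_ge (by rw [Subgroup.zpowers_le]; exact x.2.1)
          (by rw [hcardQ, Nat.card_zpowers, ho])
      exact Sylow.ext (h2.symm.trans h3)
    exact Nat.card_congr
      { toFun := fun g => ⟨g.1.1, hto g⟩
        invFun := fun x => ⟨⟨x.1, orderOf_of_mem hp _ (hcardQ Q) x.2.1 x.2.2⟩, hinv x⟩
        left_inv := fun g => rfl
        right_inv := fun x => rfl }
  have hpG : p ∣ Nat.card G := by rw [← hz]; exact orderOf_dvd_natCard z
  obtain ⟨k, hk⟩ := hpG
  have hA : Nat.card {g : G // orderOf g = p}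
      = Nat.card {c : ConjClasses G // ∃ g : G, ConjClasses.mk g = c ∧ orderOf g = p} * k := by
    refine card_eq_mul_of_fibers (fun g => (⟨ConjClasses.mk g.1, g.1, rfl, g.2⟩ :
      {c : ConjClasses G // ∃ g : G, ConjClasses.mk g = c ∧ orderOf g = p})) _ ?_
    intro c
    obtain ⟨g₀, hg₀c, hg₀⟩ := c.2
    have h1 := card_isConj_mul_card_centralizer g₀
    rw [hcent g₀ hg₀, hk, mul_comm] at h1
    have h2 : Nat.card {x : G // IsConj g₀ x} = k := Nat.eq_of_mul_eq_mul_left hp.pos h1
    rw [← h2]
    have hinv : ∀ x : {x : G // IsConj g₀ x}, orderOf x.1 = p := by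
      intro x
      obtain ⟨h, hh⟩ := isConj_iff.mp x.2
      rw [← hg₀, ← hh]
      exact (SemiconjBy.orderOf_eq h (by unfold SemiconjBy; group)).symm
    exact Nat.card_congr
      { toFun := fun g => ⟨g.1.1, ConjClasses.mk_eq_mk_iff_isConj.mp
          (hg₀c.trans (congrArg Subtype.val g.2).symm)⟩
        invFun := fun x => ⟨⟨x.1, hinv x⟩, Subtype.ext
          ((ConjClasses.mk_eq_mk_iff_isConj.mpr x.2).symm.trans hg₀c)⟩
        left_inv := fun g => rfl
        right_inv := fun x => rfl }
  have hmod := card_sylow_modEq_one p G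
  have hN : Nat.card (Subgroup.normalizer ((P : Subgroup G) : Set G)) * Nat.card (Sylow p G) = Nat.card G := by
    rw [Sylow.card_eq_index_normalizer P]
    exact Subgroup.card_mul_index _
  obtain ⟨m, hm⟩ : p ∣ Nat.card (Subgroup.normalizer ((P : Subgroup G) : Set G)) := by
    have := Subgroup.card_dvd_of_le (Subgroup.le_normalizer (H := (P : Subgroup G)))
    rwa [hcardP] at this
  refine ⟨Nat.card (Sylow p G) / p, _, rfl, ?_, ?_, ?_⟩
  · -- t ∣ p - 1
    have hnpos : 0 < Nat.card (Sylow p G) := Nat.card_pos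
    rw [hB] at hA
    rw [hm, hk] at hN
    -- p * m * n_p = p * k ; n_p * (p-1) = t * k
    have h1 : m * Nat.card (Sylow p G) = k := by
      apply Nat.eq_of_mul_eq_mul_left hp.pos
      rw [← hN]; ring
    rw [← h1] at hA
    have h2 : Nat.card (Sylow p G) * (p - 1) = Nat.card (Sylow p G) * (Nat.card {c : ConjClasses G // ∃ g : G, ConjClasses.mk g = c ∧ orderOf g = p} * m) := by
      rw [hA]; ring
    have h3 := Nat.eq_of_mul_eq_mul_left hnpos h2
    exact Dvd.intro _ h3.symm
  · unfold Nat.ModEq at hmod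
    rw [Nat.mod_eq_of_lt (show 1 < p by omega)] at hmod
    have := Nat.div_add_mod (Nat.card (Sylow p G)) p
    rw [hmod] at this
    rw [mul_comm (Nat.card (Sylow p G) / p) p, add_comm]
    exact this.symm
  · have h4 : 1 + Nat.card (Sylow p G) / p * p = Nat.card (Sylow p G) := by
      unfold Nat.ModEq at hmod
      rw [Nat.mod_eq_of_lt (show 1 < p by omega)] at hmod
      have := Nat.div_add_mod (Nat.card (Sylow p G)) p
      rw [hmod] at this
      rw [mul_comm (Nat.card (Sylow p G) / p) p, add_comm]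
      exact this
    rw [h4, hk]
    rw [hB] at hA
    calc p * k * Nat.card {c : ConjClasses G // ∃ g : G, ConjClasses.mk g = c ∧ orderOf g = p}
        = p * (Nat.card {c : ConjClasses G // ∃ g : G, ConjClasses.mk g = c ∧ orderOf g = p} * k) := by ring
      _ = p * (Nat.card (Sylow p G) * (p - 1)) := by rw [hA]
      _ = (p - 1) * p * Nat.card (Sylow p G) := by ring

end Cfsg.Agent.S0995
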