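import Cfsg.Statements.S1003
import Mathlib

set_option autoImplicit false
open Cfsg

namespace Cfsg.Agent.S1003

universe u

open scoped Pointwise

theorem sylCard {G : Type*} [Group G] [Finite G] {p : ℕ} [Fact p.Prime] (P : Sylow p G)
    (k m : ℕ) (h : Nat.card G = p ^ k * m) (hm : ¬ p ∣ m) : Nat.card P = p ^ k := by
  have hp := (Fact.out : p.Prime)
  have hm0 : m ≠ 0 := by rintro rfl; exact hm (dvd_zero p)
  rw [Sylow.card_eq_multiplicity, h, Nat.factorization_mul (pow_ne_zero _ hp.ne_zero) hm0,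
    Nat.Prime.factorization_pow hp]
  simp [Nat.factorization_eq_zero_of_not_dvd hm]

theorem card_dvd_fact {G : Type*} [Group G] [Finite G] [IsSimpleGroup G] (H : Subgroup G)
    (hH : H ≠ ⊤) : Nat.card G ∣ (H.index).factorial := by
  have hker : (MulAction.toPermHom G (G ⧸ H)).ker = ⊥ := by
    rcases (MonoidHom.normal_ker (MulAction.toPermHom G (G ⧸ H))).eq_bot_or_eq_top with h | h
    · exact h
    · exfalso
      apply hH
      rw [eq_top_iff, ← h, ← Subgroup.normalCore_eq_ker]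
      exact Subgroup.normalCore_le H
  have hinj : Function.Injective (MulAction.toPermHom G (G ⧸ H)) :=
    (MonoidHom.ker_eq_bot_iff _).mp hker
  have := Subgroup.card_dvd_of_injective _ hinj
  rw [Nat.card_perm] at this
  exact this

theorem norm_ne_top {G : Type*} [Group G] [Finite G] [IsSimpleGroup G] {p : ℕ} [Fact p.Prime]
    (P : Sylow p G) (h1 : Nat.card P ≠ 1) (h2 : Nat.card P ≠ Nat.card G) :
    Subgroup.normalizer ((P : Subgroup G) : Set G) ≠ ⊤ := by
  intro h
  have hn : (P : Subgroup G).Normal := Subgroup.normalizer_eq_top_iff.mp h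
  rcases hn.eq_bot_or_eq_top with h' | h'
  · apply h1
    have : Nat.card (P : Subgroup G) = 1 := by rw [h']; exact Subgroup.card_bot
    exact this
  · apply h2
    have : Nat.card (P : Subgroup G) = Nat.card G := by rw [h']; exact Subgroup.card_top
    exact this

theorem sylow_facts {G : Type*} [Group G] [Finite G] [IsSimpleGroup G] {p : ℕ} [Fact p.Prime]
    (P : Sylow p G) (h1 : Nat.card P ≠ 1) (h2 : Nat.card P ≠ Nat.card G) :
    Nat.card (Sylow p G) ≡ 1 [MOD p] ∧ Nat.card (Sylow p G) * Nat.card P ∣ Nat.card G ∧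
    Nat.card G ∣ (Nat.card (Sylow p G)).factorial ∧
    Nat.card (Subgroup.normalizer ((P : Subgroup G) : Set G)) * Nat.card (Sylow p G) =
      Nat.card G := by
  have hidx : Nat.card (Sylow p G) = (Subgroup.normalizer ((P : Subgroup G) : Set G)).index :=
    Sylow.card_eq_index_normalizer P
  refine ⟨card_sylow_modEq_one p G, ?_, ?_, ?_⟩
  · have hd : Nat.card (Sylow p G) ∣ (P : Subgroup G).index := Sylow.card_dvd_index P
    calc Nat.card (Sylow p G) * Nat.card P = Nat.card P * Nat.card (Sylow p G) := mul_comm _ _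
      _ ∣ Nat.card P * (P : Subgroup G).index := Nat.mul_dvd_mul_left _ hd
      _ = Nat.card G := Subgroup.card_mul_index _
  · rw [hidx]; exact card_dvd_fact _ (norm_ne_top P h1 h2)
  · rw [hidx]; exact Subgroup.card_mul_index _

theorem arith7 (n : ℕ) (h1 : n ≡ 1 [MOD 7]) (h2 : n * 7 ∣ 168) (h3 : 168 ∣ n.factorial) :
    n = 8 := by
  have hn : n ∣ 24 := by
    have : n * 7 ∣ 24 * 7 := h2
    exact Nat.dvd_of_mul_dvd_mul_right (by norm_num) this
  have hle : n ≤ 24 := Nat.le_of_dvd (by norm_num) hn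
  interval_cases n <;> first | rfl | (exfalso; revert h1 hn h3; decide)

theorem arith3 (n : ℕ) (h1 : n ≡ 1 [MOD 3]) (h2 : n * 3 ∣ 168) (h3 : 168 ∣ n.factorial) :
    n = 7 ∨ n = 28 := by
  have hn : n ∣ 56 := by
    have : n * 3 ∣ 56 * 3 := h2
    exact Nat.dvd_of_mul_dvd_mul_right (by norm_num) this
  have hle : n ≤ 56 := Nat.le_of_dvd (by norm_num) hn
  interval_cases n <;>
    first | (left; rfl) | (right; rfl) | (exfalso; revert h1 hn h3; decide)

theorem arith2 (n : ℕ) (h1 : n ≡ 1 [MOD 2]) (h2 : n * 8 ∣ 168) (h3 : 168 ∣ n.factorial) :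
    n = 7 ∨ n = 21 := by
  have hn : n ∣ 21 := by
    have : n * 8 ∣ 21 * 8 := h2
    exact Nat.dvd_of_mul_dvd_mul_right (by norm_num) this
  have hle : n ≤ 21 := Nat.le_of_dvd (by norm_num) hn
  interval_cases n <;>
    first | (left; rfl) | (right; rfl) | (exfalso; revert h1 hn h3; decide)

theorem no_n3_7 {G : Type*} [Group G] [Finite G] [IsSimpleGroup G] (h : Nat.card G = 168)
    (M : Subgroup G) (hM : Nat.card M = 21) (hn3 : Nat.card (Sylow 3 G) = 7)
    (hN : ∀ Q : Sylow 3 G, Nat.card (Subgroup.normalizer ((Q : Subgroup G) : Set G)) = 24)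
    (c3 : ∀ Q : Sylow 3 G, Nat.card Q = 3) : False := by
  classical
  haveI : Fact (Nat.Prime 3) := ⟨Nat.prime_three⟩
  haveI : Fact (Nat.Prime 7) := ⟨by norm_num⟩
  obtain ⟨x, hx⟩ := exists_prime_orderOf_dvd_card' (G := M) 7 (by rw [hM]; norm_num)
  obtain ⟨y, hy⟩ := exists_prime_orderOf_dvd_card' (G := M) 3 (by rw [hM]; norm_num)
  have hyG : orderOf (y : G) = 3 := by rw [Subgroup.orderOf_coe]; exact hy
  have hxG : orderOf (x : G) = 7 := by rw [Subgroup.orderOf_coe]; exact hx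
  have hz3 : IsPGroup 3 (Subgroup.zpowers (y : G)) := by
    apply IsPGroup.of_card (n := 1)
    rw [Nat.card_zpowers, hyG, pow_one]
  obtain ⟨Q0, hQ0⟩ := hz3.exists_le_sylow
  have hQ0eq : Subgroup.zpowers (y : G) = (Q0 : Subgroup G) := by
    apply Subgroup.eq_of_le_of_card_ge hQ0
    rw [Nat.card_zpowers, hyG]
    exact (c3 Q0).le
  have hQ0M : (Q0 : Subgroup G) ≤ M := by
    rw [← hQ0eq, Subgroup.zpowers_le]; exact y.2
  have hx7 : (x : G) ^ 7 = 1 := by rw [← hxG]; exact pow_orderOf_eq_one _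
  have hinj : Function.Injective (fun i : Fin 7 => (x : G) ^ (i : ℕ) • Q0) := by
    intro i j hij
    have hij2 : (x : G) ^ (i : ℕ) • Q0 = (x : G) ^ (j : ℕ) • Q0 := hij
    by_contra hne
    have hij' : ((x : G) ^ (i : ℕ))⁻¹ * (x : G) ^ (j : ℕ) ∈
        Subgroup.normalizer ((Q0 : Subgroup G) : Set G) := by
      have : (((x : G) ^ (i : ℕ))⁻¹ * (x : G) ^ (j : ℕ)) • Q0 = Q0 := by
        rw [mul_smul, ← hij2, inv_smul_smul]
      exact Sylow.smul_eq_iff_mem_normalizer.mp this
    obtain ⟨z, hz⟩ : ∃ z : G, z = ((x : G) ^ (i : ℕ))⁻¹ * (x : G) ^ (j : ℕ) := ⟨_, rfl⟩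
    rw [← hz] at hij'
    have hcomm : Commute (((x : G) ^ (i : ℕ))⁻¹) ((x : G) ^ (j : ℕ)) :=
      ((Commute.refl (x : G)).pow_pow _ _).inv_left
    have hz7 : z ^ 7 = 1 := by
      rw [hz, hcomm.mul_pow, inv_pow, ← pow_mul, ← pow_mul, mul_comm (i : ℕ) 7,
        mul_comm (j : ℕ) 7, pow_mul, pow_mul, hx7, one_pow, one_pow, inv_one, one_mul]
    have hz24 : z ^ 24 = 1 := by
      have := pow_card_eq_one' (G := Subgroup.normalizer ((Q0 : Subgroup G) : Set G))
        (x := ⟨z, hij'⟩)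
      rw [hN Q0] at this
      have h2 := congrArg Subtype.val this
      simpa using h2
    have hz1 : z = 1 := by
      have h49 : z ^ 49 = 1 := by rw [show 49 = 7 * 7 from rfl, pow_mul, hz7, one_pow]
      have h48 : z ^ 48 = 1 := by rw [show 48 = 24 * 2 from rfl, pow_mul, hz24, one_pow]
      have : z ^ 49 = z ^ 48 * z := pow_succ z 48
      rw [h49, h48, one_mul] at this
      exact this.symm
    have hpow : (x : G) ^ (i : ℕ) = (x : G) ^ (j : ℕ) := by
      rw [hz] at hz1; exact inv_mul_eq_one.mp hz1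
    have hval : (i : ℕ) = (j : ℕ) :=
      pow_injOn_Iio_orderOf (by rw [Set.mem_Iio, hxG]; exact i.2)
        (by rw [Set.mem_Iio, hxG]; exact j.2) hpow
    exact hne (Fin.ext hval)
  have hbij := hinj.bijective_of_nat_card_le
    (by rw [hn3, Nat.card_eq_fintype_card, Fintype.card_fin])
  have hcl : Subgroup.normalClosure ((Q0 : Subgroup G) : Set G) ≤ M := by
    unfold Subgroup.normalClosure
    rw [Subgroup.closure_le]
    intro a ha
    rw [Group.mem_conjugatesOfSet_iff] at ha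
    obtain ⟨q, hq, hqa⟩ := ha
    rw [isConj_iff] at hqa
    obtain ⟨g, rfl⟩ := hqa
    obtain ⟨i, hi⟩ := hbij.2 (g • Q0)
    have hi' : (x : G) ^ (i : ℕ) • Q0 = g • Q0 := hi
    have hmem : g * q * g⁻¹ ∈ ((g • Q0 : Sylow 3 G) : Subgroup G) :=
      Subgroup.smul_mem_pointwise_smul q (MulAut.conj g) (Q0 : Subgroup G) hq
    rw [← hi'] at hmem
    have hmem2 : g * q * g⁻¹ ∈ MulAut.conj ((x : G) ^ (i : ℕ)) • (Q0 : Subgroup G) := hmem
    rw [Subgroup.mem_smul_pointwise_iff_exists] at hmem2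
    obtain ⟨s, hs, hsm⟩ := hmem2
    rw [SetLike.mem_coe, ← hsm]
    show (x : G) ^ (i : ℕ) * s * ((x : G) ^ (i : ℕ))⁻¹ ∈ M
    exact M.mul_mem (M.mul_mem (M.pow_mem x.2 _) (hQ0M hs)) (M.inv_mem (M.pow_mem x.2 _))
  rcases (Subgroup.normalClosure_normal (s := ((Q0 : Subgroup G) : Set G))).eq_bot_or_eq_top
    with hb | ht
  · have hmem : (y : G) ∈ Subgroup.normalClosure ((Q0 : Subgroup G) : Set G) :=
      Subgroup.subset_normalClosure (by
        rw [SetLike.mem_coe, ← hQ0eq]; exact Subgroup.mem_zpowers _)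
    rw [hb, Subgroup.mem_bot] at hmem
    rw [hmem, orderOf_one] at hyG
    norm_num at hyG
  · rw [ht, top_le_iff] at hcl
    have : Nat.card M = 168 := by rw [hcl, Subgroup.card_top, h]
    omega

theorem no_n2_7 {G : Type*} [Group G] [Finite G] [IsSimpleGroup G] (h : Nat.card G = 168)
    (T : Sylow 2 G) (cT : Nat.card T = 8)
    (hNT : Nat.card (Subgroup.normalizer ((T : Subgroup G) : Set G)) = 24)
    (hN : ∀ Q : Sylow 3 G, Nat.card (Subgroup.normalizer ((Q : Subgroup G) : Set G)) = 6)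
    (c3 : ∀ Q : Sylow 3 G, Nat.card Q = 3) : False := by
  classical
  haveI : Fact (Nat.Prime 3) := ⟨Nat.prime_three⟩
  obtain ⟨y, hy⟩ := exists_prime_orderOf_dvd_card'
    (G := Subgroup.normalizer ((T : Subgroup G) : Set G)) 3 (by rw [hNT]; norm_num)
  have hyG : orderOf (y : G) = 3 := by rw [Subgroup.orderOf_coe]; exact hy
  have hy3 : (y : G) * (y : G) * (y : G) = 1 := by
    have := pow_orderOf_eq_one (y : G)
    rw [hyG] at this
    rw [← this, pow_succ, pow_succ, pow_one]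
  have hz3 : IsPGroup 3 (Subgroup.zpowers (y : G)) := by
    apply IsPGroup.of_card (n := 1)
    rw [Nat.card_zpowers, hyG, pow_one]
  obtain ⟨Q0, hQ0⟩ := hz3.exists_le_sylow
  have hQ0eq : Subgroup.zpowers (y : G) = (Q0 : Subgroup G) := by
    apply Subgroup.eq_of_le_of_card_ge hQ0
    rw [Nat.card_zpowers, hyG]
    exact (c3 Q0).le
  have hnorm : ∀ t : G, t ∈ (T : Subgroup G) → MulAut.conj (y : G) t ∈ (T : Subgroup G) := by
    intro t ht
    exact (Subgroup.mem_normalizer_iff.mp y.2 t).mp ht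
  obtain ⟨f, hf⟩ : ∃ f : Function.End (T : Subgroup G),
      ∀ t, ((f t : (T : Subgroup G)) : G) = MulAut.conj (y : G) (t : G) :=
    ⟨fun t => ⟨MulAut.conj (y : G) (t : G), hnorm t t.2⟩, fun t => rfl⟩
  have hf3 : f ^ 3 ^ 1 = 1 := by
    rw [pow_one, pow_succ, pow_succ, pow_one]
    funext t
    apply Subtype.ext
    show ((f (f (f t)) : (T : Subgroup G)) : G) = t
    rw [hf, hf, hf, ← MulAut.mul_apply, ← MulAut.mul_apply, ← map_mul, ← map_mul, hy3, map_one,
      MulAut.one_apply]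
  haveI : Fintype (T : Subgroup G) := Fintype.ofFinite _
  have hmod := Equiv.Perm.card_fixedPoints_modEq (f := f) (p := 3) (n := 1) hf3
  have hcT : Fintype.card (T : Subgroup G) = 8 := by
    rw [← Nat.card_eq_fintype_card]; exact cT
  rw [hcT] at hmod
  have hex : ∃ t : (T : Subgroup G), t ≠ 1 ∧ f t = t := by
    by_contra hcon
    push Not at hcon
    have hone : ∀ inst : Fintype (Function.fixedPoints f),
        @Fintype.card (Function.fixedPoints f) inst = 1 := by
      intro inst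
      rw [Fintype.card_eq_one_iff]
      refine ⟨⟨1, ?_⟩, ?_⟩
      · show f 1 = 1
        apply Subtype.ext
        rw [hf]; simp
      · rintro ⟨t, ht⟩
        apply Subtype.ext
        by_contra hne
        exact hcon t hne ht
    rw [hone] at hmod
    revert hmod; decide
  obtain ⟨t, ht1, htf⟩ := hex
  have htc : (y : G) * (t : G) * (y : G)⁻¹ = (t : G) := by
    have := congrArg Subtype.val htf
    rw [hf] at this
    exact this
  have hcomm : Commute (y : G) (t : G) := mul_inv_eq_iff_eq_mul.mp htc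
  have hyC : (y : G) ∈ Subgroup.centralizer ((Q0 : Subgroup G) : Set G) := by
    rw [Subgroup.mem_centralizer_iff]
    intro q hq
    rw [SetLike.mem_coe, ← hQ0eq] at hq
    obtain ⟨k, rfl⟩ := Subgroup.mem_zpowers_iff.mp hq
    exact ((Commute.refl (y : G)).zpow_left k).eq
  have htC : (t : G) ∈ Subgroup.centralizer ((Q0 : Subgroup G) : Set G) := by
    rw [Subgroup.mem_centralizer_iff]
    intro q hq
    rw [SetLike.mem_coe, ← hQ0eq] at hq
    obtain ⟨k, rfl⟩ := Subgroup.mem_zpowers_iff.mp hq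
    exact (hcomm.zpow_left k).eq
  have h3C : 3 ∣ Nat.card (Subgroup.centralizer ((Q0 : Subgroup G) : Set G)) := by
    have := orderOf_dvd_natCard (⟨(y : G), hyC⟩ :
      Subgroup.centralizer ((Q0 : Subgroup G) : Set G))
    rwa [Subgroup.orderOf_mk, hyG] at this
  have h2C : 2 ∣ Nat.card (Subgroup.centralizer ((Q0 : Subgroup G) : Set G)) := by
    have h1 := orderOf_dvd_natCard (⟨(t : G), htC⟩ :
      Subgroup.centralizer ((Q0 : Subgroup G) : Set G))
    rw [Subgroup.orderOf_mk] at h1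
    have h8 : orderOf (t : G) ∣ 2 ^ 3 := by
      have := orderOf_dvd_natCard t
      rw [cT] at this
      rw [Subgroup.orderOf_coe]; exact this
    obtain ⟨k, -, hk⟩ := (Nat.dvd_prime_pow Nat.prime_two).mp h8
    have hk0 : k ≠ 0 := by
      rintro rfl
      rw [pow_zero, orderOf_eq_one_iff] at hk
      exact ht1 (Subtype.ext hk)
    exact (hk ▸ dvd_pow_self 2 hk0 : 2 ∣ orderOf (t : G)).trans h1
  have h6 : 6 ∣ Nat.card (Subgroup.centralizer ((Q0 : Subgroup G) : Set G)) :=
    Nat.Coprime.mul_dvd_of_dvd_of_dvd (by norm_num : Nat.Coprime 2 3) h2C h3C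
  have hCN : Subgroup.centralizer ((Q0 : Subgroup G) : Set G) =
      Subgroup.normalizer ((Q0 : Subgroup G) : Set G) := by
    apply Subgroup.eq_of_le_of_card_ge (Subgroup.centralizer_le_normalizer _)
    rw [hN Q0]
    exact Nat.le_of_dvd Nat.card_pos h6
  have hP : Subgroup.normalizer ((Q0 : Subgroup G) : Set G) ≤
      Subgroup.centralizer ((Q0 : Subgroup G) : Set G) := hCN.ge
  have hcomp := MonoidHom.ker_transferSylow_isComplement' Q0 hP
  have hcard := hcomp.card_mul_card
  rw [h] at hcard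
  have hc3 : Nat.card (Q0 : Subgroup G) = 3 := c3 Q0
  rw [hc3] at hcard
  rcases (MonoidHom.normal_ker (MonoidHom.transferSylow Q0 hP)).eq_bot_or_eq_top with hb | ht
  · rw [hb, Subgroup.card_bot] at hcard; omega
  · rw [ht, Subgroup.card_top, h] at hcard; omega


/-- A simple group of order 168 has exactly 21 Sylow 2-subgroups, 28 Sylow 3-subgroups and 8 Sylow 7-subgroups. -/
theorem result {G : Type*} [Group G] [Finite G] [IsSimpleGroup G] (h : Nat.card G = 168) : Nat.card (Sylow 2 G) = 21 ∧ Nat.card (Sylow 3 G) = 28 ∧ Nat.card (Sylow 7 G) = 8 := by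
  classical
  haveI : Fact (Nat.Prime 2) := ⟨Nat.prime_two⟩
  haveI : Fact (Nat.Prime 3) := ⟨Nat.prime_three⟩
  haveI : Fact (Nat.Prime 7) := ⟨by norm_num⟩
  obtain ⟨P7⟩ : Nonempty (Sylow 7 G) := inferInstance
  obtain ⟨P3⟩ : Nonempty (Sylow 3 G) := inferInstance
  obtain ⟨P2⟩ : Nonempty (Sylow 2 G) := inferInstance
  have c7 : ∀ P : Sylow 7 G, Nat.card P = 7 := fun P => by
    have := sylCard P 1 24 (by rw [h]; norm_num) (by norm_num)
    simpa using this
  have c3 : ∀ P : Sylow 3 G, Nat.card P = 3 := fun P => by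
    have := sylCard P 1 56 (by rw [h]; norm_num) (by norm_num)
    simpa using this
  have c2 : ∀ P : Sylow 2 G, Nat.card P = 8 := fun P => by
    have := sylCard P 3 21 (by rw [h]; norm_num) (by norm_num)
    simpa using this
  obtain ⟨m7, d7, f7, e7⟩ := sylow_facts P7 (by rw [c7]; norm_num) (by rw [c7, h]; norm_num)
  obtain ⟨m3, d3, f3, e3⟩ := sylow_facts P3 (by rw [c3]; norm_num) (by rw [c3, h]; norm_num)
  obtain ⟨m2, d2, f2, e2⟩ := sylow_facts P2 (by rw [c2]; norm_num) (by rw [c2, h]; norm_num)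
  rw [c7, h] at d7
  rw [c3, h] at d3
  rw [c2, h] at d2
  rw [h] at f7 f3 f2 e7 e3 e2
  have n7 : Nat.card (Sylow 7 G) = 8 := arith7 _ m7 d7 f7
  have n3' : Nat.card (Sylow 3 G) = 7 ∨ Nat.card (Sylow 3 G) = 28 := arith3 _ m3 d3 f3
  have n2' : Nat.card (Sylow 2 G) = 7 ∨ Nat.card (Sylow 2 G) = 21 := arith2 _ m2 d2 f2
  have n3 : Nat.card (Sylow 3 G) = 28 := by
    rcases n3' with h7 | h28
    · exfalso
      have hM : Nat.card (Subgroup.normalizer ((P7 : Subgroup G) : Set G)) = 21 := by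
        rw [n7] at e7; omega
      refine no_n3_7 h _ hM h7 (fun Q => ?_) c3
      obtain ⟨-, -, -, eQ⟩ := sylow_facts Q (by rw [c3]; norm_num) (by rw [c3, h]; norm_num)
      rw [h7, h] at eQ; omega
    · exact h28
  have n2 : Nat.card (Sylow 2 G) = 21 := by
    rcases n2' with h7 | h21
    · exfalso
      refine no_n2_7 h P2 (c2 P2) (by rw [h7] at e2; omega) (fun Q => ?_) c3
      obtain ⟨-, -, -, eQ⟩ := sylow_facts Q (by rw [c3]; norm_num) (by rw [c3, h]; norm_num)
      rw [n3, h] at eQ; omega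
    · exact h21
  exact ⟨n2, n3, n7⟩

end Cfsg.Agent.S1003
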