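import Cfsg.Statements.S1005
import Cfsg.Agent.S1003
import Cfsg.Agent.S0111
import Cfsg.Agent.Lib_helper3_CharBasic

set_option autoImplicit false
open Cfsg

namespace Cfsg.Agent.S1005

universe u

open scoped Pointwise

open Cfsg.Agent.S1003

theorem burn {G : Type*} [Group G] [Finite G] [IsSimpleGroup G] {p : ℕ} [Fact p.Prime]
    (P : Sylow p G) (h1 : Nat.card P ≠ 1) (h2 : Nat.card P ≠ Nat.card G)
    (hP : Subgroup.normalizer ((P : Subgroup G) : Set G) ≤
      Subgroup.centralizer ((P : Subgroup G) : Set G)) : False := by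
  have hcomp := MonoidHom.ker_transferSylow_isComplement' P hP
  have hcard := hcomp.card_mul_card
  rcases (MonoidHom.normal_ker (MonoidHom.transferSylow P hP)).eq_bot_or_eq_top with hb | ht
  · rw [hb, Subgroup.card_bot, one_mul] at hcard; exact h2 hcard
  · rw [ht, Subgroup.card_top] at hcard
    have hpos : 0 < Nat.card G := Nat.card_pos
    have : Nat.card (P : Subgroup G) = 1 :=
      Nat.eq_of_mul_eq_mul_left hpos (hcard.trans (mul_one _).symm)
    exact h1 this

theorem cent_eq {G : Type*} [Group G] [Finite G] [IsSimpleGroup G] {p : ℕ} [Fact p.Prime]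
    (y : G) (hy : orderOf y = p) (hcQ : ∀ Q : Sylow p G, Nat.card Q = p) (m : ℕ)
    (hN : ∀ Q : Sylow p G, Nat.card (Subgroup.normalizer ((Q : Subgroup G) : Set G)) = p * m)
    (hm : m.Prime) (hG : p ≠ Nat.card G) :
    ∀ g : G, Commute g y → g ∈ Subgroup.zpowers y := by
  intro g hg
  have hp := (Fact.out : p.Prime)
  have hz : IsPGroup p (Subgroup.zpowers y) :=
    IsPGroup.of_card (n := 1) (by rw [Nat.card_zpowers, hy, pow_one])
  obtain ⟨Q, hQ⟩ := hz.exists_le_sylow
  have hQc : Nat.card (Q : Subgroup G) = p := hcQ Q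
  have hQeq : Subgroup.zpowers y = (Q : Subgroup G) :=
    Subgroup.eq_of_le_of_card_ge hQ (by rw [Nat.card_zpowers, hy]; exact hQc.le)
  have hCN := Subgroup.centralizer_le_normalizer ((Q : Subgroup G) : Set G)
  have hQC : (Q : Subgroup G) ≤ Subgroup.centralizer ((Q : Subgroup G) : Set G) := by
    rw [← hQeq]
    intro a ha
    rw [Subgroup.mem_centralizer_iff]
    intro b hb
    rw [SetLike.mem_coe] at hb
    obtain ⟨i, rfl⟩ := Subgroup.mem_zpowers_iff.mp ha
    obtain ⟨j, rfl⟩ := Subgroup.mem_zpowers_iff.mp hb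
    exact ((Commute.refl y).zpow_zpow j i).eq
  have hne : Subgroup.centralizer ((Q : Subgroup G) : Set G) ≠
      Subgroup.normalizer ((Q : Subgroup G) : Set G) := by
    intro heq
    exact burn Q (by rw [hQc]; exact hp.one_lt.ne') (by rw [hQc]; exact hG) heq.ge
  have h1 : Nat.card (Q : Subgroup G) ∣
      Nat.card (Subgroup.centralizer ((Q : Subgroup G) : Set G)) := Subgroup.card_dvd_of_le hQC
  have h2 : Nat.card (Subgroup.centralizer ((Q : Subgroup G) : Set G)) ∣
      Nat.card (Subgroup.normalizer ((Q : Subgroup G) : Set G)) := Subgroup.card_dvd_of_le hCN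
  rw [hQc] at h1
  rw [hN Q] at h2
  obtain ⟨d, hd⟩ := h1
  rw [hd] at h2
  have hdm : d ∣ m := Nat.dvd_of_mul_dvd_mul_left hp.pos h2
  rcases (Nat.dvd_prime hm).mp hdm with rfl | rfl
  · have hCQ : (Q : Subgroup G) = Subgroup.centralizer ((Q : Subgroup G) : Set G) :=
      Subgroup.eq_of_le_of_card_ge hQC (by rw [hd, hQc, mul_one])
    have hgC : g ∈ Subgroup.centralizer ((Q : Subgroup G) : Set G) := by
      rw [Subgroup.mem_centralizer_iff]
      intro b hb
      rw [SetLike.mem_coe, ← hQeq] at hb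
      obtain ⟨j, rfl⟩ := Subgroup.mem_zpowers_iff.mp hb
      exact (hg.symm.zpow_left j).eq
    rw [← hCQ, ← hQeq] at hgC
    exact hgC
  · exact absurd (Subgroup.eq_of_le_of_card_ge hCN (by rw [hd, hN Q])) hne

theorem inv_in_c4 {G : Type*} [Group G] [Finite G] (u t : G) (hu : orderOf u = 4)
    (ht : orderOf t = 2) (htu : t ∈ Subgroup.zpowers u) : t = u ^ 2 := by
  classical
  have hu4 : u ^ 4 = 1 := by rw [← hu]; exact pow_orderOf_eq_one u
  have ht2 : t ^ 2 = 1 := by rw [← ht]; exact pow_orderOf_eq_one t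
  have ht1 : t ≠ 1 := by
    intro h; rw [h, orderOf_one] at ht; norm_num at ht
  have hu2 : u ^ 2 ≠ 1 := pow_ne_one_of_lt_orderOf (by norm_num) (by rw [hu]; norm_num)
  rw [← mem_powers_iff_mem_zpowers, mem_powers_iff_mem_range_orderOf, hu] at htu
  obtain ⟨n, hn, rfl⟩ := Finset.mem_image.mp htu
  rw [Finset.mem_range] at hn
  interval_cases n
  · exact absurd (pow_zero u) ht1
  · exfalso
    rw [pow_one] at ht
    rw [ht] at hu; norm_num at hu
  · rfl
  · exfalso
    apply hu2
    have : (u ^ 3) ^ 2 = u ^ 4 * u ^ 2 := by rw [← pow_mul, ← pow_add]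
    rw [ht2, hu4, one_mul] at this
    exact this.symm


/-- In a simple group of order 168 every element has order 1, 2, 3, 4 or 7; there are exactly 21 elements of order 2, and any two of them are conjugate. -/
theorem result {G : Type*} [Group G] [Finite G] [IsSimpleGroup G] (h : Nat.card G = 168) : (∀ g : G, orderOf g = 1 ∨ orderOf g = 2 ∨ orderOf g = 3 ∨ orderOf g = 4 ∨ orderOf g = 7) ∧ Nat.card {g : G // orderOf g = 2} = 21 ∧ ∀ s t : G, orderOf s = 2 → orderOf t = 2 → IsConj s t := by
  classical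
  haveI : Fact (Nat.Prime 2) := ⟨Nat.prime_two⟩
  haveI : Fact (Nat.Prime 3) := ⟨Nat.prime_three⟩
  haveI : Fact (Nat.Prime 7) := ⟨by norm_num⟩
  obtain ⟨n2, n3, n7⟩ := Cfsg.Agent.S1003.result h
  have c7 : ∀ P : Sylow 7 G, Nat.card P = 7 := fun P => by
    have := sylCard P 1 24 (by rw [h]; norm_num) (by norm_num)
    simpa using this
  have c3 : ∀ P : Sylow 3 G, Nat.card P = 3 := fun P => by
    have := sylCard P 1 56 (by rw [h]; norm_num) (by norm_num)
    simpa using this
  have c2 : ∀ P : Sylow 2 G, Nat.card P = 8 := fun P => by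
    have := sylCard P 3 21 (by rw [h]; norm_num) (by norm_num)
    simpa using this
  have N7 : ∀ Q : Sylow 7 G,
      Nat.card (Subgroup.normalizer ((Q : Subgroup G) : Set G)) = 7 * 3 := by
    intro Q
    obtain ⟨-, -, -, eQ⟩ := sylow_facts Q (by rw [c7]; norm_num) (by rw [c7, h]; norm_num)
    rw [n7, h] at eQ; omega
  have N3 : ∀ Q : Sylow 3 G,
      Nat.card (Subgroup.normalizer ((Q : Subgroup G) : Set G)) = 3 * 2 := by
    intro Q
    obtain ⟨-, -, -, eQ⟩ := sylow_facts Q (by rw [c3]; norm_num) (by rw [c3, h]; norm_num)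
    rw [n3, h] at eQ; omega
  have N2 : ∀ Q : Sylow 2 G,
      Nat.card (Subgroup.normalizer ((Q : Subgroup G) : Set G)) = 8 := by
    intro Q
    obtain ⟨-, -, -, eQ⟩ := sylow_facts Q (by rw [c2]; norm_num) (by rw [c2, h]; norm_num)
    rw [n2, h] at eQ; omega
  have C7 := fun (y : G) (hy : orderOf y = 7) =>
    cent_eq y hy c7 3 N7 Nat.prime_three (by rw [h]; norm_num)
  have C3 := fun (y : G) (hy : orderOf y = 3) =>
    cent_eq y hy c3 2 N3 Nat.prime_two (by rw [h]; norm_num)
  -- Sylow 2-subgroups are nonabelian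
  have hnab : ∀ T : Sylow 2 G, ¬ ∀ a ∈ (T : Subgroup G), ∀ b ∈ (T : Subgroup G), a * b = b * a := by
    intro T hab
    apply burn T (by rw [c2]; norm_num) (by rw [c2, h]; norm_num)
    have hNT : (T : Subgroup G) = Subgroup.normalizer ((T : Subgroup G) : Set G) :=
      Subgroup.eq_of_le_of_card_ge Subgroup.le_normalizer (by rw [N2 T, c2 T])
    rw [← hNT]
    intro a ha
    rw [Subgroup.mem_centralizer_iff]
    intro b hb
    exact hab b hb a ha
  -- a prime-power generic divisibility tool
  have hcyc : ∀ (g y : G) (q : ℕ), q.Prime → orderOf y = q → g ∈ Subgroup.zpowers y →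
      orderOf g ∣ q := by
    intro g y q hq hy hg
    have := orderOf_dvd_natCard (⟨g, hg⟩ : Subgroup.zpowers y)
    rwa [Subgroup.orderOf_mk, Nat.card_zpowers, hy] at this
  have hpowc : ∀ (g : G) (q : ℕ), q ∣ orderOf g → ∃ y : G, orderOf y = q ∧ Commute g y := by
    intro g q hq
    obtain ⟨k, hk⟩ := hq
    have hpos : 0 < orderOf g := orderOf_pos g
    have hk0 : k ≠ 0 := by rintro rfl; rw [mul_zero] at hk; omega
    have hq0 : 0 < q := by
      rcases Nat.eq_zero_or_pos q with h0 | h0
      · rw [h0, zero_mul] at hk; omega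
      · exact h0
    refine ⟨g ^ k, ?_, (Commute.refl g).pow_right k⟩
    rw [orderOf_pow_of_dvd hk0 ⟨q, by rw [hk, mul_comm]⟩, hk]
    exact Nat.mul_div_cancel _ (Nat.pos_of_ne_zero hk0)
  have horder : ∀ g : G, orderOf g = 1 ∨ orderOf g = 2 ∨ orderOf g = 3 ∨ orderOf g = 4 ∨
      orderOf g = 7 := by
    intro g
    have hdvd : orderOf g ∣ 168 := h ▸ orderOf_dvd_natCard g
    by_cases h7 : 7 ∣ orderOf g
    · obtain ⟨y, hy, hgy⟩ := hpowc g 7 h7
      have := hcyc g y 7 (by norm_num) hy (C7 y hy g hgy)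
      rcases (Nat.dvd_prime (by norm_num : Nat.Prime 7)).mp this with h1 | h1
      · left; exact h1
      · right; right; right; right; exact h1
    by_cases h3 : 3 ∣ orderOf g
    · obtain ⟨y, hy, hgy⟩ := hpowc g 3 h3
      have := hcyc g y 3 Nat.prime_three hy (C3 y hy g hgy)
      rcases (Nat.dvd_prime Nat.prime_three).mp this with h1 | h1
      · left; exact h1
      · right; right; left; exact h1
    have hcop : Nat.Coprime (orderOf g) 21 := by
      have h21 : (21 : ℕ) = 3 * 7 := by norm_num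
      rw [h21]
      exact Nat.Coprime.mul_right
        ((Nat.coprime_comm).mp ((Nat.Prime.coprime_iff_not_dvd Nat.prime_three).mpr h3))
        ((Nat.coprime_comm).mp ((Nat.Prime.coprime_iff_not_dvd (by norm_num : Nat.Prime 7)).mpr h7))
    have h8 : orderOf g ∣ 2 ^ 3 := by
      have h168 : (168 : ℕ) = 2 ^ 3 * 21 := by norm_num
      rw [h168] at hdvd
      exact hcop.dvd_of_dvd_mul_right hdvd
    obtain ⟨j, hj, hj2⟩ := (Nat.dvd_prime_pow Nat.prime_two).mp h8
    interval_cases j
    · left; simpa using hj2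
    · right; left; simpa using hj2
    · right; right; right; left; simpa using hj2
    · exfalso
      have hz : IsPGroup 2 (Subgroup.zpowers g) :=
        IsPGroup.of_card (n := 3) (by rw [Nat.card_zpowers, hj2])
      obtain ⟨T, hT⟩ := hz.exists_le_sylow
      have hTeq : Subgroup.zpowers g = (T : Subgroup G) :=
        Subgroup.eq_of_le_of_card_ge hT (by rw [Nat.card_zpowers, hj2, c2 T]; norm_num)
      apply hnab T
      intro a ha b hb
      rw [← hTeq] at ha hb
      obtain ⟨i, rfl⟩ := Subgroup.mem_zpowers_iff.mp ha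
      obtain ⟨k, rfl⟩ := Subgroup.mem_zpowers_iff.mp hb
      exact ((Commute.refl g).zpow_zpow i k).eq
  -- fix a Sylow 2-subgroup and an element of order 4
  obtain ⟨T⟩ : Nonempty (Sylow 2 G) := inferInstance
  have hex4 : ∃ u ∈ (T : Subgroup G), orderOf u = 4 := by
    by_contra hcon
    push Not at hcon
    have hsq : ∀ a ∈ (T : Subgroup G), a * a = 1 := by
      intro a ha
      have h8 : orderOf a ∣ 8 := by
        have := orderOf_dvd_natCard (⟨a, ha⟩ : (T : Subgroup G))
        rwa [Subgroup.orderOf_mk, c2 T] at this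
      have h2 : orderOf a ∣ 2 := by
        rcases horder a with h1 | h1 | h1 | h1 | h1
        · rw [h1]; norm_num
        · rw [h1]
        · rw [h1] at h8; norm_num at h8
        · exact absurd h1 (hcon a ha)
        · rw [h1] at h8; norm_num at h8
      have := orderOf_dvd_iff_pow_eq_one.mp h2
      rwa [pow_two] at this
    apply hnab T
    intro a ha b hb
    have ha' : a⁻¹ = a := inv_eq_of_mul_eq_one_left (hsq a ha)
    have hb' : b⁻¹ = b := inv_eq_of_mul_eq_one_left (hsq b hb)
    have hab := hsq (a * b) (Subgroup.mul_mem _ ha hb)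
    calc a * b = (a * b)⁻¹ := (inv_eq_of_mul_eq_one_left hab).symm
      _ = b⁻¹ * a⁻¹ := mul_inv_rev a b
      _ = b * a := by rw [ha', hb']
  obtain ⟨u, huT, hu4⟩ := hex4
  have hQT : Subgroup.zpowers u ≤ (T : Subgroup G) := by
    rw [Subgroup.zpowers_le]; exact huT
  have hrel : (Subgroup.zpowers u).relIndex (T : Subgroup G) = 2 := by
    have h1 := Subgroup.card_mul_index ((Subgroup.zpowers u).subgroupOf (T : Subgroup G))
    rw [Nat.card_congr (Subgroup.subgroupOfEquivOfLe hQT).toEquiv, Nat.card_zpowers, hu4,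
      c2 T] at h1
    have : ((Subgroup.zpowers u).subgroupOf (T : Subgroup G)).index = 2 := by omega
    exact this
  have hz2 : orderOf (u ^ 2) = 2 := by
    rw [orderOf_pow_of_dvd (by norm_num) (by rw [hu4]; norm_num), hu4]
  have hconjord : ∀ (c x : G), orderOf (c * x * c⁻¹) = orderOf x := by
    intro c x
    exact (MulAut.conj c).orderOf_eq x
  -- every involution of T is conjugate to u ^ 2
  have hT2 : ∀ t ∈ (T : Subgroup G), orderOf t = 2 → IsConj t (u ^ 2) := by
    intro t htT ht2
    by_cases htQ : t ∈ Subgroup.zpowers u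
    · rw [inv_in_c4 u t hu4 ht2 htQ]
    · rcases Cfsg.Agent.S0111.result T (Subgroup.zpowers u) hQT hrel t ht2 htT htQ with
        ⟨M, hMn, hMi, -⟩ | ⟨g, hg⟩
      · exfalso
        rcases hMn.eq_bot_or_eq_top with hb | htop
        · rw [hb, Subgroup.index_bot, h] at hMi; omega
        · rw [htop, Subgroup.index_top] at hMi; omega
      · rw [isConj_iff]
        refine ⟨g, ?_⟩
        exact inv_in_c4 u _ hu4 (by rw [hconjord, ht2]) hg
  have hA : ∀ t : G, orderOf t = 2 → IsConj t (u ^ 2) := by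
    intro t ht2
    have hz : IsPGroup 2 (Subgroup.zpowers t) :=
      IsPGroup.of_card (n := 1) (by rw [Nat.card_zpowers, ht2, pow_one])
    obtain ⟨T', hT'⟩ := hz.exists_le_sylow
    obtain ⟨g, hg⟩ := MulAction.exists_smul_eq G T' T
    have hmem : g * t * g⁻¹ ∈ ((g • T' : Sylow 2 G) : Subgroup G) :=
      Subgroup.smul_mem_pointwise_smul t (MulAut.conj g) (T' : Subgroup G)
        (hT' (Subgroup.mem_zpowers t))
    rw [hg] at hmem
    have h1 : IsConj t (g * t * g⁻¹) := isConj_iff.mpr ⟨g, rfl⟩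
    exact h1.trans (hT2 _ hmem (by rw [hconjord, ht2]))
  refine ⟨horder, ?_, fun s t hs ht => (hA s hs).trans (hA t ht).symm⟩
  -- the count
  have hset : Nat.card {g : G // orderOf g = 2} = Nat.card {g : G // IsConj (u ^ 2) g} := by
    apply Nat.card_congr
    apply Equiv.subtypeEquivRight
    intro g
    constructor
    · intro hg; exact (hA g hg).symm
    · intro hc
      obtain ⟨c, hc⟩ := isConj_iff.mp hc
      rw [← hc, hconjord, hz2]
  haveI : Fintype G := Fintype.ofFinite G
  rw [hset, Cfsg.Agent.Lib_helper3_CharBasic.card_isConj_eq_index]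
  -- centralizer of u ^ 2
  have hnormal : ((Subgroup.zpowers u).subgroupOf (T : Subgroup G)).Normal :=
    Subgroup.normal_of_index_eq_two hrel
  have hTC : (T : Subgroup G) ≤ Subgroup.centralizer ({u ^ 2} : Set G) := by
    intro a ha
    rw [Subgroup.mem_centralizer_iff]
    intro b hb
    rw [Set.mem_singleton_iff] at hb
    rw [hb]
    have hu2T : u ^ 2 ∈ (T : Subgroup G) := Subgroup.pow_mem _ huT 2
    have hmem := hnormal.conj_mem ⟨u ^ 2, hu2T⟩
      (by rw [Subgroup.mem_subgroupOf]; exact Subgroup.pow_mem _ (Subgroup.mem_zpowers u) 2)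
      ⟨a, ha⟩
    rw [Subgroup.mem_subgroupOf] at hmem
    have hmem2 : a * u ^ 2 * a⁻¹ ∈ Subgroup.zpowers u := hmem
    have := inv_in_c4 u _ hu4 (by rw [hconjord, hz2]) hmem2
    exact (mul_inv_eq_iff_eq_mul.mp this).symm
  have hC8 : Nat.card (Subgroup.centralizer ({u ^ 2} : Set G)) ∣ 8 := by
    have hd : Nat.card (Subgroup.centralizer ({u ^ 2} : Set G)) ∣ 168 :=
      h ▸ Subgroup.card_subgroup_dvd_card _
    have hno : ∀ q : ℕ, q.Prime → q ≠ 2 → (∀ y : G, orderOf y = q → ∀ g : G, Commute g y →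
        g ∈ Subgroup.zpowers y) → ¬ q ∣ Nat.card (Subgroup.centralizer ({u ^ 2} : Set G)) := by
      intro q hq hq2 hC hdq
      haveI : Fact q.Prime := ⟨hq⟩
      obtain ⟨y, hy⟩ := exists_prime_orderOf_dvd_card' q hdq
      have hyG : orderOf (y : G) = q := by rw [Subgroup.orderOf_coe]; exact hy
      have hcomm : Commute (u ^ 2) (y : G) := by
        have := Subgroup.mem_centralizer_iff.mp y.2 (u ^ 2) (Set.mem_singleton _)
        exact this
      have h1 := hcyc (u ^ 2) (y : G) q hq hyG (hC (y : G) hyG (u ^ 2) hcomm)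
      rw [hz2] at h1
      exact hq2 ((Nat.prime_dvd_prime_iff_eq Nat.prime_two hq).mp h1).symm
    have h3 := hno 3 Nat.prime_three (by norm_num) C3
    have h7 := hno 7 (by norm_num) (by norm_num) C7
    have hcop : Nat.Coprime (Nat.card (Subgroup.centralizer ({u ^ 2} : Set G))) 21 := by
      have h21 : (21 : ℕ) = 3 * 7 := by norm_num
      rw [h21]
      exact Nat.Coprime.mul_right
        ((Nat.coprime_comm).mp ((Nat.Prime.coprime_iff_not_dvd Nat.prime_three).mpr h3))
        ((Nat.coprime_comm).mp ((Nat.Prime.coprime_iff_not_dvd (by norm_num : Nat.Prime 7)).mpr h7))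
    have h168 : (168 : ℕ) = 8 * 21 := by norm_num
    rw [h168] at hd
    exact hcop.dvd_of_dvd_mul_right hd
  have hC8' : 8 ∣ Nat.card (Subgroup.centralizer ({u ^ 2} : Set G)) := by
    have := Subgroup.card_dvd_of_le hTC
    rwa [c2 T] at this
  have hCc : Nat.card (Subgroup.centralizer ({u ^ 2} : Set G)) = 8 := Nat.dvd_antisymm hC8 hC8'
  have := Subgroup.card_mul_index (Subgroup.centralizer ({u ^ 2} : Set G))
  rw [hCc, h] at this
  omega

end Cfsg.Agent.S1005
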