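import Cfsg.Statements.S1004
import Cfsg.Agent.S1005
import Cfsg.Agent.Lib_helper2_Dihedral

set_option autoImplicit false
open Cfsg

namespace Cfsg.Agent.S1004

universe u

open scoped Pointwise

open Cfsg.Agent.S1003 Cfsg.Agent.S1005

theorem ord4_in_c4 {G : Type*} [Group G] [Finite G] (u t : G) (hu : orderOf u = 4)
    (ht : orderOf t = 4) (htu : t ∈ Subgroup.zpowers u) : t = u ∨ t = u⁻¹ := by
  classical
  have hu4 : u ^ 4 = 1 := by rw [← hu]; exact pow_orderOf_eq_one u
  rw [← mem_powers_iff_mem_zpowers, mem_powers_iff_mem_range_orderOf, hu] at htu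
  obtain ⟨n, hn, rfl⟩ := Finset.mem_image.mp htu
  rw [Finset.mem_range] at hn
  interval_cases n
  · exfalso; rw [pow_zero, orderOf_one] at ht; norm_num at ht
  · left; exact pow_one u
  · exfalso
    rw [orderOf_pow_of_dvd (by norm_num) (by rw [hu]; norm_num), hu] at ht; norm_num at ht
  · right
    rw [eq_inv_iff_mul_eq_one, ← pow_succ]; exact hu4

theorem comm_of_central_c4 {G : Type*} [Group G] (T : Subgroup G) (u : G)
    (hidx : ((Subgroup.zpowers u).subgroupOf T).index = 2) (hc : ∀ a ∈ T, a * u = u * a) :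
    ∀ a ∈ T, ∀ b ∈ T, a * b = b * a := by
  have hz : ∀ c ∈ Subgroup.zpowers u, ∀ a ∈ T, a * c = c * a := by
    intro c hc' a ha
    obtain ⟨k, rfl⟩ := Subgroup.mem_zpowers_iff.mp hc'
    exact ((show Commute a u from hc a ha).zpow_right k).eq
  intro a ha b hb
  by_cases haQ : a ∈ Subgroup.zpowers u
  · exact (hz a haQ b hb).symm
  · by_cases hbQ : b ∈ Subgroup.zpowers u
    · exact hz b hbQ a ha
    · have hmem : (⟨a, ha⟩ : T)⁻¹ * ⟨b, hb⟩ ∈ (Subgroup.zpowers u).subgroupOf T := by
        rw [Subgroup.mul_mem_iff_of_index_two hidx, Subgroup.inv_mem_iff]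
        constructor
        · intro h; exact absurd (Subgroup.mem_subgroupOf.mp h) haQ
        · intro h; exact absurd (Subgroup.mem_subgroupOf.mp h) hbQ
      have hc2 : a⁻¹ * b ∈ Subgroup.zpowers u := Subgroup.mem_subgroupOf.mp hmem
      have h1 := hz _ hc2 a ha
      calc a * b = a * (a * (a⁻¹ * b)) := by group
        _ = a * ((a⁻¹ * b) * a) := by rw [h1]
        _ = b * a := by group


/-- Let G be a simple group of order 168 and T a Sylow 2-subgroup. Then T is dihedral of order 8, T is its own normalizer, and T is the centralizer of any non-identity element of T that commutes with every element of T. -/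
theorem result {G : Type*} [Group G] [Finite G] [IsSimpleGroup G] (h : Nat.card G = 168) (T : Sylow 2 G) : Nonempty (↥(T : Subgroup G) ≃* DihedralGroup 4) ∧ Subgroup.normalizer ((T : Subgroup G) : Set G) = T ∧ ∀ z : G, z ∈ (T : Subgroup G) → z ≠ 1 → (∀ t ∈ (T : Subgroup G), t * z = z * t) → Subgroup.centralizer ({z} : Set G) = T := by
  classical
  haveI : Fact (Nat.Prime 2) := ⟨Nat.prime_two⟩
  haveI : Fact (Nat.Prime 3) := ⟨Nat.prime_three⟩
  haveI : Fact (Nat.Prime 7) := ⟨by norm_num⟩
  haveI : Fintype G := Fintype.ofFinite G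
  obtain ⟨n2, n3, n7⟩ := Cfsg.Agent.S1003.result h
  obtain ⟨horder, -, -⟩ := Cfsg.Agent.S1005.result h
  have c7 : ∀ P : Sylow 7 G, Nat.card P = 7 := fun P => by
    have := sylCard P 1 24 (by rw [h]; norm_num) (by norm_num)
    simpa using this
  have c3 : ∀ P : Sylow 3 G, Nat.card P = 3 := fun P => by
    have := sylCard P 1 56 (by rw [h]; norm_num) (by norm_num)
    simpa using this
  have c2 : ∀ P : Sylow 2 G, Nat.card P = 8 := fun P => by
    have := sylCard P 3 21 (by rw [h]; norm_num) (by norm_num)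
    simpa using this
  have N7 : ∀ Q : Sylow 7 G,
      Nat.card (Subgroup.normalizer ((Q : Subgroup G) : Set G)) = 7 * 3 := by
    intro Q
    obtain ⟨-, -, -, eQ⟩ := sylow_facts Q (by rw [c7]; norm_num) (by rw [c7, h]; norm_num)
    rw [n7, h] at eQ; omega
  have N3 : ∀ Q : Sylow 3 G,
      Nat.card (Subgroup.normalizer ((Q : Subgroup G) : Set G)) = 3 * 2 := by
    intro Q
    obtain ⟨-, -, -, eQ⟩ := sylow_facts Q (by rw [c3]; norm_num) (by rw [c3, h]; norm_num)
    rw [n3, h] at eQ; omega
  have N2 : ∀ Q : Sylow 2 G,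
      Nat.card (Subgroup.normalizer ((Q : Subgroup G) : Set G)) = 8 := by
    intro Q
    obtain ⟨-, -, -, eQ⟩ := sylow_facts Q (by rw [c2]; norm_num) (by rw [c2, h]; norm_num)
    rw [n2, h] at eQ; omega
  have C7 := fun (y : G) (hy : orderOf y = 7) =>
    cent_eq y hy c7 3 N7 Nat.prime_three (by rw [h]; norm_num)
  have C3 := fun (y : G) (hy : orderOf y = 3) =>
    cent_eq y hy c3 2 N3 Nat.prime_two (by rw [h]; norm_num)
  have hNT : ∀ T : Sylow 2 G, (T : Subgroup G) = Subgroup.normalizer ((T : Subgroup G) : Set G) :=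
    fun T => Subgroup.eq_of_le_of_card_ge Subgroup.le_normalizer (by rw [N2 T, c2 T])
  have hnab : ∀ T : Sylow 2 G, ¬ ∀ a ∈ (T : Subgroup G), ∀ b ∈ (T : Subgroup G), a * b = b * a := by
    intro T hab
    apply burn T (by rw [c2]; norm_num) (by rw [c2, h]; norm_num)
    rw [← hNT T]
    intro a ha
    rw [Subgroup.mem_centralizer_iff]
    intro b hb
    exact hab b hb a ha
  have hcyc : ∀ (g y : G) (q : ℕ), orderOf y = q → g ∈ Subgroup.zpowers y → orderOf g ∣ q := by
    intro g y q hy hg
    have := orderOf_dvd_natCard (⟨g, hg⟩ : Subgroup.zpowers y)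
    rwa [Subgroup.orderOf_mk, Nat.card_zpowers, hy] at this
  have hconjord : ∀ (c x : G), orderOf (c * x * c⁻¹) = orderOf x := by
    intro c x
    exact (MulAut.conj c).orderOf_eq x
  -- centralizers of nontrivial 2-elements are 2-groups
  have hC2 : ∀ w : G, w ≠ 1 → orderOf w ∣ 8 →
      Nat.card (Subgroup.centralizer ({w} : Set G)) ∣ 8 := by
    intro w hw1 hw8
    have hd : Nat.card (Subgroup.centralizer ({w} : Set G)) ∣ 168 :=
      h ▸ Subgroup.card_subgroup_dvd_card _
    have hno : ∀ q : ℕ, q.Prime → ¬ q ∣ 8 → (∀ y : G, orderOf y = q → ∀ g : G, Commute g y →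
        g ∈ Subgroup.zpowers y) → ¬ q ∣ Nat.card (Subgroup.centralizer ({w} : Set G)) := by
      intro q hq hq8 hC hdq
      haveI : Fact q.Prime := ⟨hq⟩
      obtain ⟨y, hy⟩ := exists_prime_orderOf_dvd_card' q hdq
      have hyG : orderOf (y : G) = q := by rw [Subgroup.orderOf_coe]; exact hy
      have hcomm : Commute w (y : G) :=
        Subgroup.mem_centralizer_iff.mp y.2 w (Set.mem_singleton _)
      have h1 := hcyc w (y : G) q hyG (hC (y : G) hyG w hcomm)
      rcases (Nat.dvd_prime hq).mp h1 with h2 | h2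
      · exact hw1 (orderOf_eq_one_iff.mp h2)
      · rw [h2] at hw8; exact hq8 hw8
    have h3 := hno 3 Nat.prime_three (by norm_num) C3
    have h7 := hno 7 (by norm_num) (by norm_num) C7
    have hcop : Nat.Coprime (Nat.card (Subgroup.centralizer ({w} : Set G))) 21 := by
      have h21 : (21 : ℕ) = 3 * 7 := by norm_num
      rw [h21]
      exact Nat.Coprime.mul_right
        ((Nat.coprime_comm).mp ((Nat.Prime.coprime_iff_not_dvd Nat.prime_three).mpr h3))
        ((Nat.coprime_comm).mp ((Nat.Prime.coprime_iff_not_dvd (by norm_num : Nat.Prime 7)).mpr h7))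
    have h168 : (168 : ℕ) = 8 * 21 := by norm_num
    rw [h168] at hd
    exact hcop.dvd_of_dvd_mul_right hd
  have hc : ∀ z : G, z ∈ (T : Subgroup G) → z ≠ 1 → (∀ t ∈ (T : Subgroup G), t * z = z * t) →
      Subgroup.centralizer ({z} : Set G) = T := by
    intro z hzT hz1 hcomm
    have hord : orderOf z ∣ 8 := by
      have := orderOf_dvd_natCard (⟨z, hzT⟩ : (T : Subgroup G))
      rwa [Subgroup.orderOf_mk, c2 T] at this
    have hTC : (T : Subgroup G) ≤ Subgroup.centralizer ({z} : Set G) := by
      intro a ha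
      rw [Subgroup.mem_centralizer_iff]
      intro b hb
      rw [Set.mem_singleton_iff] at hb
      rw [hb]; exact (hcomm a ha).symm
    exact (Subgroup.eq_of_le_of_card_ge hTC
      (by rw [c2 T]; exact Nat.le_of_dvd (by norm_num) (hC2 z hz1 hord))).symm
  refine ⟨?_, (hNT T).symm, hc⟩
  -- an element of order 4
  have hT8 : ∀ a ∈ (T : Subgroup G), orderOf a ∣ 8 := by
    intro a ha
    have := orderOf_dvd_natCard (⟨a, ha⟩ : (T : Subgroup G))
    rwa [Subgroup.orderOf_mk, c2 T] at this
  have hT124 : ∀ a ∈ (T : Subgroup G), orderOf a = 1 ∨ orderOf a = 2 ∨ orderOf a = 4 := by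
    intro a ha
    have h8 := hT8 a ha
    rcases horder a with h1 | h1 | h1 | h1 | h1
    · left; exact h1
    · right; left; exact h1
    · rw [h1] at h8; norm_num at h8
    · right; right; exact h1
    · rw [h1] at h8; norm_num at h8
  have hex4 : ∃ u ∈ (T : Subgroup G), orderOf u = 4 := by
    by_contra hcon
    push Not at hcon
    have hsq : ∀ a ∈ (T : Subgroup G), a * a = 1 := by
      intro a ha
      have h2 : orderOf a ∣ 2 := by
        rcases hT124 a ha with h1 | h1 | h1
        · rw [h1]; norm_num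
        · rw [h1]
        · exact absurd h1 (hcon a ha)
      have := orderOf_dvd_iff_pow_eq_one.mp h2
      rwa [pow_two] at this
    apply hnab T
    intro a ha b hb
    have ha' : a⁻¹ = a := inv_eq_of_mul_eq_one_left (hsq a ha)
    have hb' : b⁻¹ = b := inv_eq_of_mul_eq_one_left (hsq b hb)
    have hab := hsq (a * b) (Subgroup.mul_mem _ ha hb)
    calc a * b = (a * b)⁻¹ := (inv_eq_of_mul_eq_one_left hab).symm
      _ = b⁻¹ * a⁻¹ := mul_inv_rev a b
      _ = b * a := by rw [ha', hb']
  obtain ⟨u, huT, hu4⟩ := hex4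
  have hQT : Subgroup.zpowers u ≤ (T : Subgroup G) := by
    rw [Subgroup.zpowers_le]; exact huT
  have hidx2 : ∀ (T' : Subgroup G) (w : G), Nat.card T' = 8 → orderOf w = 4 → w ∈ T' →
      ((Subgroup.zpowers w).subgroupOf T').index = 2 := by
    intro T' w hT' hw hwT
    have hle : Subgroup.zpowers w ≤ T' := by rw [Subgroup.zpowers_le]; exact hwT
    have h1 := Subgroup.card_mul_index ((Subgroup.zpowers w).subgroupOf T')
    rw [Nat.card_congr (Subgroup.subgroupOfEquivOfLe hle).toEquiv, Nat.card_zpowers, hw,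
      hT'] at h1
    omega
  have hrel := hidx2 (T : Subgroup G) u (c2 T) hu4 huT
  have hnormal : ((Subgroup.zpowers u).subgroupOf (T : Subgroup G)).Normal :=
    Subgroup.normal_of_index_eq_two hrel
  have hconjQ : ∀ a ∈ (T : Subgroup G), ∀ c ∈ Subgroup.zpowers u,
      a * c * a⁻¹ ∈ Subgroup.zpowers u := by
    intro a ha c hc'
    have hmem := hnormal.conj_mem ⟨c, hQT hc'⟩
      (by rw [Subgroup.mem_subgroupOf]; exact hc') ⟨a, ha⟩
    rw [Subgroup.mem_subgroupOf] at hmem
    exact hmem
  have hz2 : orderOf (u ^ 2) = 2 := by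
    rw [orderOf_pow_of_dvd (by norm_num) (by rw [hu4]; norm_num), hu4]
  have hzT : u ^ 2 ∈ (T : Subgroup G) := Subgroup.pow_mem _ huT 2
  have hz1 : u ^ 2 ≠ 1 := by
    intro h1; rw [h1, orderOf_one] at hz2; norm_num at hz2
  have hzc : ∀ t ∈ (T : Subgroup G), t * u ^ 2 = u ^ 2 * t := by
    intro a ha
    have := inv_in_c4 u _ hu4 (by rw [hconjord, hz2])
      (hconjQ a ha (u ^ 2) (Subgroup.pow_mem _ (Subgroup.mem_zpowers u) 2))
    exact mul_inv_eq_iff_eq_mul.mp this
  have hCz := hc (u ^ 2) hzT hz1 hzc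
  -- index computations
  have hidx : ∀ (w : G) (k : ℕ), Nat.card (Subgroup.centralizer ({w} : Set G)) = k →
      k * (Subgroup.centralizer ({w} : Set G)).index = 168 := by
    intro w k hk
    have := Subgroup.card_mul_index (Subgroup.centralizer ({w} : Set G))
    rw [hk, h] at this
    exact this
  have hself : ∀ w : G, Subgroup.zpowers w ≤ Subgroup.centralizer ({w} : Set G) := by
    intro w a ha
    rw [Subgroup.mem_centralizer_iff]
    intro b hb
    rw [Set.mem_singleton_iff] at hb
    rw [hb]
    obtain ⟨k, rfl⟩ := Subgroup.mem_zpowers_iff.mp ha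
    exact ((Commute.refl w).zpow_right k).eq
  have hcard4 : ∀ w : G, orderOf w = 4 →
      Nat.card (Subgroup.centralizer ({w} : Set G)) = 4 := by
    intro w hw
    have hw1 : w ≠ 1 := by
      intro h1; rw [h1, orderOf_one] at hw; norm_num at hw
    have h8 := hC2 w hw1 (by rw [hw]; norm_num)
    have h4 : 4 ∣ Nat.card (Subgroup.centralizer ({w} : Set G)) := by
      have := Subgroup.card_dvd_of_le (hself w)
      rwa [Nat.card_zpowers, hw] at this
    have hne8 : Nat.card (Subgroup.centralizer ({w} : Set G)) ≠ 8 := by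
      intro h8'
      have hz : IsPGroup 2 (Subgroup.centralizer ({w} : Set G)) :=
        IsPGroup.of_card (n := 3) (by rw [h8']; norm_num)
      obtain ⟨T', hT'⟩ := hz.exists_le_sylow
      have hTeq : Subgroup.centralizer ({w} : Set G) = (T' : Subgroup G) :=
        Subgroup.eq_of_le_of_card_ge hT' (by rw [h8', c2 T'])
      have hwT' : w ∈ (T' : Subgroup G) := by
        rw [← hTeq]; exact hself w (Subgroup.mem_zpowers w)
      apply hnab T'
      apply comm_of_central_c4 (T' : Subgroup G) w (hidx2 _ w (c2 T') hw hwT')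
      intro a ha
      rw [← hTeq] at ha
      exact (Subgroup.mem_centralizer_iff.mp ha w (Set.mem_singleton _)).symm
    obtain ⟨d, hd⟩ := h4
    rw [hd] at h8 hne8 ⊢
    have hd2 : d ∣ 2 := Nat.dvd_of_mul_dvd_mul_left (by norm_num : 0 < 4) h8
    rcases (Nat.dvd_prime Nat.prime_two).mp hd2 with rfl | rfl
    · rfl
    · exact absurd rfl hne8
  have hcardq : ∀ (q : ℕ) (y : G), orderOf y = q → (∀ g : G, Commute g y →
      g ∈ Subgroup.zpowers y) → Nat.card (Subgroup.centralizer ({y} : Set G)) = q := by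
    intro q y hy hC
    have : Subgroup.centralizer ({y} : Set G) = Subgroup.zpowers y := by
      apply le_antisymm
      · intro g hg
        exact hC g (Subgroup.mem_centralizer_iff.mp hg y (Set.mem_singleton _)).symm
      · exact hself y
    rw [this, Nat.card_zpowers, hy]
  have hncard : ∀ w : G, ({x : G | IsConj w x} : Set G).ncard =
      (Subgroup.centralizer ({w} : Set G)).index := by
    intro w
    rw [← Cfsg.Agent.Lib_helper3_CharBasic.card_isConj_eq_index w]
    rfl
  have hdisj : ∀ a b : G, ¬ IsConj a b →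
      Disjoint ({x : G | IsConj a x} : Set G) {x : G | IsConj b x} := by
    intro a b hab
    exact Set.disjoint_left.mpr (fun x hxa hxb => hab (IsConj.trans hxa (IsConj.symm hxb)))
  have hordconj : ∀ a b : G, IsConj a b → orderOf a = orderOf b := by
    intro a b hab
    obtain ⟨c, hc'⟩ := isConj_iff.mp hab
    rw [← hc', hconjord]
  -- an involution outside the cyclic subgroup
  have hs : ∃ s ∈ (T : Subgroup G), s ∉ Subgroup.zpowers u ∧ orderOf s = 2 := by
    by_contra hcon
    push Not at hcon
    obtain ⟨v, hvT, hvQ⟩ : ∃ v ∈ (T : Subgroup G), v ∉ Subgroup.zpowers u := by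
      by_contra h'
      push Not at h'
      have hle : (T : Subgroup G) ≤ Subgroup.zpowers u := h'
      have := Subgroup.card_le_of_le hle
      rw [c2 T, Nat.card_zpowers, hu4] at this; omega
    have hv4 : orderOf v = 4 := by
      rcases hT124 v hvT with h1 | h1 | h1
      · exfalso; rw [orderOf_eq_one_iff] at h1; rw [h1] at hvQ
        exact hvQ (Subgroup.one_mem _)
      · exact absurd h1 (hcon v hvT hvQ)
      · exact h1
    have hv2 : v ^ 2 = u ^ 2 := by
      have hv2o : orderOf (v ^ 2) = 2 := by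
        rw [orderOf_pow_of_dvd (by norm_num) (by rw [hv4]; norm_num), hv4]
      have hv2T : v ^ 2 ∈ (T : Subgroup G) := Subgroup.pow_mem _ hvT 2
      by_cases hin : v ^ 2 ∈ Subgroup.zpowers u
      · exact inv_in_c4 u _ hu4 hv2o hin
      · exact absurd hv2o (hcon _ hv2T hin)
    have huv : ¬ IsConj u v := by
      intro hconj
      obtain ⟨g, hg⟩ := isConj_iff.mp hconj
      have hg2 : g * u ^ 2 * g⁻¹ = u ^ 2 := by
        have h1 : (g * u * g⁻¹) ^ 2 = g * u ^ 2 * g⁻¹ := conj_pow
        rw [hg, hv2] at h1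
        exact h1.symm
      have hgT : g ∈ (T : Subgroup G) := by
        rw [← hCz, Subgroup.mem_centralizer_iff]
        intro b hb
        rw [Set.mem_singleton_iff] at hb
        rw [hb]
        exact (mul_inv_eq_iff_eq_mul.mp hg2).symm
      apply hvQ
      rw [← hg]
      exact hconjQ g hgT u (Subgroup.mem_zpowers u)
    obtain ⟨y, hy⟩ := exists_prime_orderOf_dvd_card' (G := G) 3 (by rw [h]; norm_num)
    obtain ⟨x, hx⟩ := exists_prime_orderOf_dvd_card' (G := G) 7 (by rw [h]; norm_num)
    have i1 : ({g : G | IsConj (u ^ 2) g} : Set G).ncard = 21 := by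
      rw [hncard]
      have := hidx (u ^ 2) 8 (by rw [hCz, c2 T])
      omega
    have i2 : ({g : G | IsConj u g} : Set G).ncard = 42 := by
      rw [hncard]
      have := hidx u 4 (hcard4 u hu4)
      omega
    have i3 : ({g : G | IsConj v g} : Set G).ncard = 42 := by
      rw [hncard]
      have := hidx v 4 (hcard4 v hv4)
      omega
    have i4 : ({g : G | IsConj y g} : Set G).ncard = 56 := by
      rw [hncard]
      have := hidx y 3 (hcardq 3 y hy (C3 y hy))
      omega
    have i5 : ({g : G | IsConj x g} : Set G).ncard = 24 := by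
      rw [hncard]
      have := hidx x 7 (hcardq 7 x hx (C7 x hx))
      omega
    have d12 := hdisj (u ^ 2) u (fun hc' => by have := hordconj _ _ hc'; rw [hz2, hu4] at this; omega)
    have d13 := hdisj (u ^ 2) v (fun hc' => by have := hordconj _ _ hc'; rw [hz2, hv4] at this; omega)
    have d14 := hdisj (u ^ 2) y (fun hc' => by have := hordconj _ _ hc'; rw [hz2, hy] at this; omega)
    have d15 := hdisj (u ^ 2) x (fun hc' => by have := hordconj _ _ hc'; rw [hz2, hx] at this; omega)
    have d23 := hdisj u v huv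
    have d24 := hdisj u y (fun hc' => by have := hordconj _ _ hc'; rw [hu4, hy] at this; omega)
    have d25 := hdisj u x (fun hc' => by have := hordconj _ _ hc'; rw [hu4, hx] at this; omega)
    have d34 := hdisj v y (fun hc' => by have := hordconj _ _ hc'; rw [hv4, hy] at this; omega)
    have d35 := hdisj v x (fun hc' => by have := hordconj _ _ hc'; rw [hv4, hx] at this; omega)
    have d45 := hdisj y x (fun hc' => by have := hordconj _ _ hc'; rw [hy, hx] at this; omega)
    have e2 := Set.ncard_union_eq d12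
    have e3 := Set.ncard_union_eq (Set.disjoint_union_left.mpr ⟨d13, d23⟩)
    have e4 := Set.ncard_union_eq (Set.disjoint_union_left.mpr
      ⟨Set.disjoint_union_left.mpr ⟨d14, d24⟩, d34⟩)
    have e5 := Set.ncard_union_eq (Set.disjoint_union_left.mpr
      ⟨Set.disjoint_union_left.mpr ⟨Set.disjoint_union_left.mpr ⟨d15, d25⟩, d35⟩, d45⟩)
    have hle := Set.ncard_le_card
      (({g : G | IsConj (u ^ 2) g} ∪ {g : G | IsConj u g} ∪ {g : G | IsConj v g} ∪
        {g : G | IsConj y g} ∪ {g : G | IsConj x g}) : Set G)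
    rw [h] at hle
    omega
  obtain ⟨s, hsT, hsQ, hs2⟩ := hs
  have hss : s * s = 1 := by
    have := pow_orderOf_eq_one s
    rwa [hs2, pow_two] at this
  have hinv : s * u * s⁻¹ = u⁻¹ := by
    rcases ord4_in_c4 u _ hu4 (by rw [hconjord, hu4]) (hconjQ s hsT u (Subgroup.mem_zpowers u))
      with h1 | h1
    · exfalso
      have hsu : s * u = u * s := mul_inv_eq_iff_eq_mul.mp h1
      -- then u is central in T, so T is abelian
      apply hnab T
      apply comm_of_central_c4 (T : Subgroup G) u hrel
      intro a ha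
      by_cases haQ : a ∈ Subgroup.zpowers u
      · obtain ⟨k, rfl⟩ := Subgroup.mem_zpowers_iff.mp haQ
        exact ((Commute.refl u).zpow_left k).eq
      · have hmem : (⟨s, hsT⟩ : (T : Subgroup G))⁻¹ * ⟨a, ha⟩ ∈
            (Subgroup.zpowers u).subgroupOf (T : Subgroup G) := by
          rw [Subgroup.mul_mem_iff_of_index_two hrel, Subgroup.inv_mem_iff]
          constructor
          · intro h'; exact absurd (Subgroup.mem_subgroupOf.mp h') hsQ
          · intro h'; exact absurd (Subgroup.mem_subgroupOf.mp h') haQ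
        have hc2 : s⁻¹ * a ∈ Subgroup.zpowers u := Subgroup.mem_subgroupOf.mp hmem
        obtain ⟨k, hk⟩ := Subgroup.mem_zpowers_iff.mp hc2
        have ha' : a = s * u ^ k := by rw [hk]; group
        have hcu : Commute (s * u ^ k) u :=
          (show Commute s u from hsu).mul_left ((Commute.refl u).zpow_left k)
        rw [ha']; exact hcu.eq
    · exact h1
  have key : ∀ n : ℕ, orderOf u = n → ∃ f : DihedralGroup n →* G, Function.Injective f ∧
      f.range = Subgroup.closure {s, u} := by
    rintro n rfl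
    exact ⟨Cfsg.Agent.Lib_helper2_Dihedral.dihHom s u hss hinv,
      Cfsg.Agent.Lib_helper2_Dihedral.dihHom_injective s u hss hinv hsQ,
      Cfsg.Agent.Lib_helper2_Dihedral.dihHom_range s u hss hinv⟩
  obtain ⟨f, hf, hfr⟩ := key 4 hu4
  have hrT : f.range = (T : Subgroup G) := by
    apply Subgroup.eq_of_le_of_card_ge
    · rw [hfr, Subgroup.closure_le]
      intro a ha
      rcases ha with rfl | rfl
      · exact hsT
      · exact huT
    · rw [c2 T, ← Nat.card_congr (MonoidHom.ofInjective hf).toEquiv, DihedralGroup.nat_card]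
  exact ⟨((MonoidHom.ofInjective hf).trans (MulEquiv.subgroupCongr hrT)).symm⟩

end Cfsg.Agent.S1004
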