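import Cfsg.Statements.S1006
import Cfsg.Agent.S1004

set_option autoImplicit false
open Cfsg

namespace Cfsg.Agent.S1006

universe u

open scoped Pointwise

open Cfsg.Agent.S1003 Cfsg.Agent.S1005 Cfsg.Agent.S1004


/-- In a simple group of order 168 there are 56 elements of order 3, all conjugate; 42 elements of order 4, all conjugate; and 48 elements of order 7 falling into two conjugacy classes of size 24, an element of order 7 not being conjugate to its inverse. -/
theorem result {G : Type*} [Group G] [Finite G] [IsSimpleGroup G] (h : Nat.card G = 168) : Nat.card {g : G // orderOf g = 3} = 56 ∧ (∀ s t : G, orderOf s = 3 → orderOf t = 3 → IsConj s t) ∧ Nat.card {g : G // orderOf g = 4} = 42 ∧ (∀ s t : G, orderOf s = 4 → orderOf t = 4 → IsConj s t) ∧ Nat.card {g : G // orderOf g = 7} = 48 ∧ ∀ x : G, orderOf x = 7 → Nat.card {g : G // IsConj x g} = 24 ∧ ¬ IsConj x x⁻¹ := by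
  classical
  haveI : Fact (Nat.Prime 2) := ⟨Nat.prime_two⟩
  haveI : Fact (Nat.Prime 3) := ⟨Nat.prime_three⟩
  haveI : Fact (Nat.Prime 7) := ⟨by norm_num⟩
  haveI : Fintype G := Fintype.ofFinite G
  obtain ⟨n2, n3, n7⟩ := Cfsg.Agent.S1003.result h
  obtain ⟨horder, -, -⟩ := Cfsg.Agent.S1005.result h
  have c7 : ∀ P : Sylow 7 G, Nat.card P = 7 := fun P => by
    have := sylCard P 1 24 (by rw [h]; norm_num) (by norm_num)
    simpa using this
  have c3 : ∀ P : Sylow 3 G, Nat.card P = 3 := fun P => by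
    have := sylCard P 1 56 (by rw [h]; norm_num) (by norm_num)
    simpa using this
  have c2 : ∀ P : Sylow 2 G, Nat.card P = 8 := fun P => by
    have := sylCard P 3 21 (by rw [h]; norm_num) (by norm_num)
    simpa using this
  have N7 : ∀ Q : Sylow 7 G,
      Nat.card (Subgroup.normalizer ((Q : Subgroup G) : Set G)) = 7 * 3 := by
    intro Q
    obtain ⟨-, -, -, eQ⟩ := sylow_facts Q (by rw [c7]; norm_num) (by rw [c7, h]; norm_num)
    rw [n7, h] at eQ; omega
  have N3 : ∀ Q : Sylow 3 G,
      Nat.card (Subgroup.normalizer ((Q : Subgroup G) : Set G)) = 3 * 2 := by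
    intro Q
    obtain ⟨-, -, -, eQ⟩ := sylow_facts Q (by rw [c3]; norm_num) (by rw [c3, h]; norm_num)
    rw [n3, h] at eQ; omega
  have N2 : ∀ Q : Sylow 2 G,
      Nat.card (Subgroup.normalizer ((Q : Subgroup G) : Set G)) = 8 := by
    intro Q
    obtain ⟨-, -, -, eQ⟩ := sylow_facts Q (by rw [c2]; norm_num) (by rw [c2, h]; norm_num)
    rw [n2, h] at eQ; omega
  have C7 := fun (y : G) (hy : orderOf y = 7) =>
    cent_eq y hy c7 3 N7 Nat.prime_three (by rw [h]; norm_num)
  have C3 := fun (y : G) (hy : orderOf y = 3) =>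
    cent_eq y hy c3 2 N3 Nat.prime_two (by rw [h]; norm_num)
  have hNT : ∀ T : Sylow 2 G, (T : Subgroup G) = Subgroup.normalizer ((T : Subgroup G) : Set G) :=
    fun T => Subgroup.eq_of_le_of_card_ge Subgroup.le_normalizer (by rw [N2 T, c2 T])
  have hnab : ∀ T : Sylow 2 G, ¬ ∀ a ∈ (T : Subgroup G), ∀ b ∈ (T : Subgroup G), a * b = b * a := by
    intro T hab
    apply burn T (by rw [c2]; norm_num) (by rw [c2, h]; norm_num)
    rw [← hNT T]
    intro a ha
    rw [Subgroup.mem_centralizer_iff]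
    intro b hb
    exact hab b hb a ha
  have hcyc : ∀ (g y : G) (q : ℕ), orderOf y = q → g ∈ Subgroup.zpowers y → orderOf g ∣ q := by
    intro g y q hy hg
    have := orderOf_dvd_natCard (⟨g, hg⟩ : Subgroup.zpowers y)
    rwa [Subgroup.orderOf_mk, Nat.card_zpowers, hy] at this
  have hconjord : ∀ (c x : G), orderOf (c * x * c⁻¹) = orderOf x := by
    intro c x
    exact (MulAut.conj c).orderOf_eq x
  -- centralizers of nontrivial 2-elements are 2-groups
  have hC2 : ∀ w : G, w ≠ 1 → orderOf w ∣ 8 →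
      Nat.card (Subgroup.centralizer ({w} : Set G)) ∣ 8 := by
    intro w hw1 hw8
    have hd : Nat.card (Subgroup.centralizer ({w} : Set G)) ∣ 168 :=
      h ▸ Subgroup.card_subgroup_dvd_card _
    have hno : ∀ q : ℕ, q.Prime → ¬ q ∣ 8 → (∀ y : G, orderOf y = q → ∀ g : G, Commute g y →
        g ∈ Subgroup.zpowers y) → ¬ q ∣ Nat.card (Subgroup.centralizer ({w} : Set G)) := by
      intro q hq hq8 hC hdq
      haveI : Fact q.Prime := ⟨hq⟩
      obtain ⟨y, hy⟩ := exists_prime_orderOf_dvd_card' q hdq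
      have hyG : orderOf (y : G) = q := by rw [Subgroup.orderOf_coe]; exact hy
      have hcomm : Commute w (y : G) :=
        Subgroup.mem_centralizer_iff.mp y.2 w (Set.mem_singleton _)
      have h1 := hcyc w (y : G) q hyG (hC (y : G) hyG w hcomm)
      rcases (Nat.dvd_prime hq).mp h1 with h2 | h2
      · exact hw1 (orderOf_eq_one_iff.mp h2)
      · rw [h2] at hw8; exact hq8 hw8
    have h3 := hno 3 Nat.prime_three (by norm_num) C3
    have h7 := hno 7 (by norm_num) (by norm_num) C7
    have hcop : Nat.Coprime (Nat.card (Subgroup.centralizer ({w} : Set G))) 21 := by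
      have h21 : (21 : ℕ) = 3 * 7 := by norm_num
      rw [h21]
      exact Nat.Coprime.mul_right
        ((Nat.coprime_comm).mp ((Nat.Prime.coprime_iff_not_dvd Nat.prime_three).mpr h3))
        ((Nat.coprime_comm).mp ((Nat.Prime.coprime_iff_not_dvd (by norm_num : Nat.Prime 7)).mpr h7))
    have h168 : (168 : ℕ) = 8 * 21 := by norm_num
    rw [h168] at hd
    exact hcop.dvd_of_dvd_mul_right hd
  have hidx2 : ∀ (T' : Subgroup G) (w : G), Nat.card T' = 8 → orderOf w = 4 → w ∈ T' →
      ((Subgroup.zpowers w).subgroupOf T').index = 2 := by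
    intro T' w hT' hw hwT
    have hle : Subgroup.zpowers w ≤ T' := by rw [Subgroup.zpowers_le]; exact hwT
    have h1 := Subgroup.card_mul_index ((Subgroup.zpowers w).subgroupOf T')
    rw [Nat.card_congr (Subgroup.subgroupOfEquivOfLe hle).toEquiv, Nat.card_zpowers, hw,
      hT'] at h1
    omega
  have hidx : ∀ (w : G) (k : ℕ), Nat.card (Subgroup.centralizer ({w} : Set G)) = k →
      k * (Subgroup.centralizer ({w} : Set G)).index = 168 := by
    intro w k hk
    have := Subgroup.card_mul_index (Subgroup.centralizer ({w} : Set G))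
    rw [hk, h] at this
    exact this
  have hself : ∀ w : G, Subgroup.zpowers w ≤ Subgroup.centralizer ({w} : Set G) := by
    intro w a ha
    rw [Subgroup.mem_centralizer_iff]
    intro b hb
    rw [Set.mem_singleton_iff] at hb
    rw [hb]
    obtain ⟨k, rfl⟩ := Subgroup.mem_zpowers_iff.mp ha
    exact ((Commute.refl w).zpow_right k).eq
  have hcard4 : ∀ w : G, orderOf w = 4 →
      Nat.card (Subgroup.centralizer ({w} : Set G)) = 4 := by
    intro w hw
    have hw1 : w ≠ 1 := by
      intro h1; rw [h1, orderOf_one] at hw; norm_num at hw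
    have h8 := hC2 w hw1 (by rw [hw]; norm_num)
    have h4 : 4 ∣ Nat.card (Subgroup.centralizer ({w} : Set G)) := by
      have := Subgroup.card_dvd_of_le (hself w)
      rwa [Nat.card_zpowers, hw] at this
    have hne8 : Nat.card (Subgroup.centralizer ({w} : Set G)) ≠ 8 := by
      intro h8'
      have hz : IsPGroup 2 (Subgroup.centralizer ({w} : Set G)) :=
        IsPGroup.of_card (n := 3) (by rw [h8']; norm_num)
      obtain ⟨T', hT'⟩ := hz.exists_le_sylow
      have hTeq : Subgroup.centralizer ({w} : Set G) = (T' : Subgroup G) :=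
        Subgroup.eq_of_le_of_card_ge hT' (by rw [h8', c2 T'])
      have hwT' : w ∈ (T' : Subgroup G) := by
        rw [← hTeq]; exact hself w (Subgroup.mem_zpowers w)
      apply hnab T'
      apply comm_of_central_c4 (T' : Subgroup G) w (hidx2 _ w (c2 T') hw hwT')
      intro a ha
      rw [← hTeq] at ha
      exact (Subgroup.mem_centralizer_iff.mp ha w (Set.mem_singleton _)).symm
    obtain ⟨d, hd⟩ := h4
    rw [hd] at h8 hne8 ⊢
    have hd2 : d ∣ 2 := Nat.dvd_of_mul_dvd_mul_left (by norm_num : 0 < 4) h8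
    rcases (Nat.dvd_prime Nat.prime_two).mp hd2 with rfl | rfl
    · rfl
    · exact absurd rfl hne8
  have hcardq : ∀ (q : ℕ) (y : G), orderOf y = q → (∀ g : G, Commute g y →
      g ∈ Subgroup.zpowers y) → Nat.card (Subgroup.centralizer ({y} : Set G)) = q := by
    intro q y hy hC
    have : Subgroup.centralizer ({y} : Set G) = Subgroup.zpowers y := by
      apply le_antisymm
      · intro g hg
        exact hC g (Subgroup.mem_centralizer_iff.mp hg y (Set.mem_singleton _)).symm
      · exact hself y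
    rw [this, Nat.card_zpowers, hy]
  have hncard : ∀ w : G, ({x : G | IsConj w x} : Set G).ncard =
      (Subgroup.centralizer ({w} : Set G)).index := by
    intro w
    rw [← Cfsg.Agent.Lib_helper3_CharBasic.card_isConj_eq_index w]
    rfl
  have hdisj : ∀ a b : G, ¬ IsConj a b →
      Disjoint ({x : G | IsConj a x} : Set G) {x : G | IsConj b x} := by
    intro a b hab
    exact Set.disjoint_left.mpr (fun x hxa hxb => hab (IsConj.trans hxa (IsConj.symm hxb)))
  have hordconj : ∀ a b : G, IsConj a b → orderOf a = orderOf b := by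
    intro a b hab
    obtain ⟨c, hc'⟩ := isConj_iff.mp hab
    rw [← hc', hconjord]
  obtain ⟨-, hI21, -⟩ := Cfsg.Agent.S1005.result h
  -- an element of order 4
  obtain ⟨T⟩ : Nonempty (Sylow 2 G) := inferInstance
  obtain ⟨⟨e⟩, -, -⟩ := Cfsg.Agent.S1004.result h T
  obtain ⟨u, hu4⟩ : ∃ u : G, orderOf u = 4 := by
    refine ⟨((e.symm (DihedralGroup.r 1) : (T : Subgroup G)) : G), ?_⟩
    rw [Subgroup.orderOf_coe, MulEquiv.orderOf_eq, DihedralGroup.orderOf_r_one]
  obtain ⟨y, hy⟩ := exists_prime_orderOf_dvd_card' (G := G) 3 (by rw [h]; norm_num)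
  obtain ⟨x, hx⟩ := exists_prime_orderOf_dvd_card' (G := G) 7 (by rw [h]; norm_num)
  -- elements of order 7 are not real
  have hnr : ∀ x : G, orderOf x = 7 → ¬ IsConj x x⁻¹ := by
    intro x hx hconj
    obtain ⟨g, hg⟩ := isConj_iff.mp hconj
    have hz : IsPGroup 7 (Subgroup.zpowers x) :=
      IsPGroup.of_card (n := 1) (by rw [Nat.card_zpowers, hx, pow_one])
    obtain ⟨P, hP⟩ := hz.exists_le_sylow
    have hPeq : Subgroup.zpowers x = (P : Subgroup G) :=
      Subgroup.eq_of_le_of_card_ge hP (by rw [Nat.card_zpowers, hx, c7 P])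
    have hg' : g⁻¹ * x * g = x⁻¹ := by
      have h0 : g⁻¹ * x⁻¹ * g = x := by rw [← hg]; group
      calc g⁻¹ * x * g = (g⁻¹ * x⁻¹ * g)⁻¹ := by group
        _ = x⁻¹ := by rw [h0]
    have hgN : g ∈ Subgroup.normalizer ((P : Subgroup G) : Set G) := by
      rw [← hPeq, Subgroup.mem_normalizer_iff]
      intro a
      constructor
      · intro ha
        obtain ⟨k, rfl⟩ := Subgroup.mem_zpowers_iff.mp ha
        rw [← conj_zpow, hg]
        exact Subgroup.zpow_mem _ (Subgroup.inv_mem _ (Subgroup.mem_zpowers x)) k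
      · intro ha
        obtain ⟨k, hk⟩ := Subgroup.mem_zpowers_iff.mp ha
        have : a = (g⁻¹ * x * g) ^ k := by
          have h1 : (g⁻¹ * x * g) ^ k = g⁻¹ * x ^ k * g := by
            have := conj_zpow (a := g⁻¹) (b := x) (i := k)
            rwa [inv_inv] at this
          rw [h1, hk]; group
        rw [this, hg']
        exact Subgroup.zpow_mem _ (Subgroup.inv_mem _ (Subgroup.mem_zpowers x)) k
    have h21 : orderOf g ∣ 21 := by
      have := orderOf_dvd_natCard (⟨g, hgN⟩ : Subgroup.normalizer ((P : Subgroup G) : Set G))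
      rwa [Subgroup.orderOf_mk, N7 P] at this
    have h1 : g * x⁻¹ * g⁻¹ = x := by rw [← conj_inv, hg, inv_inv]
    have hcomm : Commute (g * g) x := by
      have : g * g * x * (g * g)⁻¹ = x := by
        have h2 : g * g * x * (g * g)⁻¹ = g * (g * x * g⁻¹) * g⁻¹ := by group
        rw [h2, hg, h1]
      exact mul_inv_eq_iff_eq_mul.mp this
    have hgg := C7 x hx (g * g) hcomm
    have h7 := hcyc (g * g) x 7 hx hgg
    have hg14 : g ^ 14 = 1 := by
      have := orderOf_dvd_iff_pow_eq_one.mp h7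
      rw [← pow_two, ← pow_mul] at this
      exact this
    have h14 : orderOf g ∣ 14 := orderOf_dvd_of_pow_eq_one hg14
    have hg7 : g ^ 7 = 1 := orderOf_dvd_iff_pow_eq_one.mp (Nat.dvd_gcd h14 h21)
    have hgx : g ∈ Subgroup.zpowers x := by
      have : g = (g * g) ^ 4 := by
        rw [← pow_two, ← pow_mul]
        have : g ^ (2 * 4) = g ^ 7 * g := by rw [← pow_succ]
        rw [this, hg7, one_mul]
      rw [this]; exact Subgroup.pow_mem _ hgg 4
    obtain ⟨k, rfl⟩ := Subgroup.mem_zpowers_iff.mp hgx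
    have hc' : Commute (x ^ k) x := (Commute.refl x).zpow_left k
    have hxx : x = x⁻¹ := by
      rw [← hg]; exact (mul_inv_eq_iff_eq_mul.mpr hc'.eq).symm
    have hsq : x ^ 2 = 1 := by
      rw [pow_two]; nth_rewrite 1 [hxx]; exact inv_mul_cancel x
    have := orderOf_dvd_of_pow_eq_one hsq
    rw [hx] at this; norm_num at this
  have hx' : orderOf x⁻¹ = 7 := by rw [orderOf_inv, hx]
  -- the six pieces
  have n1 : ({1} : Set G).ncard = 1 := Set.ncard_singleton 1
  have n2' : ({g : G | orderOf g = 2} : Set G).ncard = 21 := hI21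
  have n3' : ({g : G | IsConj y g} : Set G).ncard = 56 := by
    rw [hncard]
    have := hidx y 3 (hcardq 3 y hy (C3 y hy))
    omega
  have n4 : ({g : G | IsConj u g} : Set G).ncard = 42 := by
    rw [hncard]
    have := hidx u 4 (hcard4 u hu4)
    omega
  have n5 : ({g : G | IsConj x g} : Set G).ncard = 24 := by
    rw [hncard]
    have := hidx x 7 (hcardq 7 x hx (C7 x hx))
    omega
  have n6 : ({g : G | IsConj x⁻¹ g} : Set G).ncard = 24 := by
    rw [hncard]
    have := hidx x⁻¹ 7 (hcardq 7 x⁻¹ hx' (C7 x⁻¹ hx'))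
    omega
  have o1 : ∀ g ∈ ({1} : Set G), orderOf g = 1 := by
    intro g hg; rw [Set.mem_singleton_iff] at hg; rw [hg, orderOf_one]
  have o2 : ∀ g ∈ ({g : G | orderOf g = 2} : Set G), orderOf g = 2 := fun g hg => hg
  have o3 : ∀ g ∈ ({g : G | IsConj y g} : Set G), orderOf g = 3 :=
    fun g hg => (hordconj y g hg).symm.trans hy
  have o4 : ∀ g ∈ ({g : G | IsConj u g} : Set G), orderOf g = 4 :=
    fun g hg => (hordconj u g hg).symm.trans hu4
  have o5 : ∀ g ∈ ({g : G | IsConj x g} : Set G), orderOf g = 7 :=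
    fun g hg => (hordconj x g hg).symm.trans hx
  have o6 : ∀ g ∈ ({g : G | IsConj x⁻¹ g} : Set G), orderOf g = 7 :=
    fun g hg => (hordconj x⁻¹ g hg).symm.trans hx'
  have hdO : ∀ (A B : Set G) (a b : ℕ), (∀ g ∈ A, orderOf g = a) → (∀ g ∈ B, orderOf g = b) →
      a ≠ b → Disjoint A B := by
    intro A B a b hA hB hab
    exact Set.disjoint_left.mpr (fun g hgA hgB => hab ((hA g hgA).symm.trans (hB g hgB)))
  have d12 := hdO _ _ 1 2 o1 o2 (by norm_num)
  have d13 := hdO _ _ 1 3 o1 o3 (by norm_num)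
  have d14 := hdO _ _ 1 4 o1 o4 (by norm_num)
  have d15 := hdO _ _ 1 7 o1 o5 (by norm_num)
  have d16 := hdO _ _ 1 7 o1 o6 (by norm_num)
  have d23 := hdO _ _ 2 3 o2 o3 (by norm_num)
  have d24 := hdO _ _ 2 4 o2 o4 (by norm_num)
  have d25 := hdO _ _ 2 7 o2 o5 (by norm_num)
  have d26 := hdO _ _ 2 7 o2 o6 (by norm_num)
  have d34 := hdO _ _ 3 4 o3 o4 (by norm_num)
  have d35 := hdO _ _ 3 7 o3 o5 (by norm_num)
  have d36 := hdO _ _ 3 7 o3 o6 (by norm_num)
  have d45 := hdO _ _ 4 7 o4 o5 (by norm_num)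
  have d46 := hdO _ _ 4 7 o4 o6 (by norm_num)
  have d56 := hdisj x x⁻¹ (hnr x hx)
  have e2 := Set.ncard_union_eq d12
  have e3 := Set.ncard_union_eq (Set.disjoint_union_left.mpr ⟨d13, d23⟩)
  have e4 := Set.ncard_union_eq (Set.disjoint_union_left.mpr
    ⟨Set.disjoint_union_left.mpr ⟨d14, d24⟩, d34⟩)
  have e5 := Set.ncard_union_eq (Set.disjoint_union_left.mpr
    ⟨Set.disjoint_union_left.mpr ⟨Set.disjoint_union_left.mpr ⟨d15, d25⟩, d35⟩, d45⟩)
  have e6 := Set.ncard_union_eq (Set.disjoint_union_left.mpr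
    ⟨Set.disjoint_union_left.mpr ⟨Set.disjoint_union_left.mpr
      ⟨Set.disjoint_union_left.mpr ⟨d16, d26⟩, d36⟩, d46⟩, d56⟩)
  have hU : (({1} : Set G) ∪ {g : G | orderOf g = 2} ∪ {g : G | IsConj y g} ∪
      {g : G | IsConj u g} ∪ {g : G | IsConj x g} ∪ {g : G | IsConj x⁻¹ g}) = Set.univ := by
    apply Set.eq_of_subset_of_ncard_le (Set.subset_univ _)
    rw [Set.ncard_univ, h]
    omega
  have hcls : ∀ w : G, (orderOf w = 3 → IsConj y w) ∧ (orderOf w = 4 → IsConj u w) ∧
      (orderOf w = 7 → IsConj x w ∨ IsConj x⁻¹ w) := by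
    intro w
    have hw : w ∈ (({1} : Set G) ∪ {g : G | orderOf g = 2} ∪ {g : G | IsConj y g} ∪
      {g : G | IsConj u g} ∪ {g : G | IsConj x g} ∪ {g : G | IsConj x⁻¹ g}) := by
      rw [hU]; exact Set.mem_univ w
    rcases hw with ((((hw | hw) | hw) | hw) | hw) | hw
    · have ho := o1 w hw
      exact ⟨fun h3 => by exfalso; omega, fun h4 => by exfalso; omega,
        fun h7 => by exfalso; omega⟩
    · have ho := o2 w hw
      exact ⟨fun h3 => by exfalso; omega, fun h4 => by exfalso; omega,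
        fun h7 => by exfalso; omega⟩
    · have ho := o3 w hw
      exact ⟨fun _ => hw, fun h4 => by exfalso; omega, fun h7 => by exfalso; omega⟩
    · have ho := o4 w hw
      exact ⟨fun h3 => by exfalso; omega, fun _ => hw, fun h7 => by exfalso; omega⟩
    · have ho := o5 w hw
      exact ⟨fun h3 => by exfalso; omega, fun h4 => by exfalso; omega, fun _ => Or.inl hw⟩
    · have ho := o6 w hw
      exact ⟨fun h3 => by exfalso; omega, fun h4 => by exfalso; omega, fun _ => Or.inr hw⟩
  have s3 : ({g : G | orderOf g = 3} : Set G) = {g : G | IsConj y g} := by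
    ext w; exact ⟨fun hw => (hcls w).1 hw, fun hw => o3 w hw⟩
  have s4 : ({g : G | orderOf g = 4} : Set G) = {g : G | IsConj u g} := by
    ext w; exact ⟨fun hw => (hcls w).2.1 hw, fun hw => o4 w hw⟩
  have s7 : ({g : G | orderOf g = 7} : Set G) = {g : G | IsConj x g} ∪ {g : G | IsConj x⁻¹ g} := by
    ext w
    constructor
    · intro hw; exact (hcls w).2.2 hw
    · rintro (hw | hw)
      · exact o5 w hw
      · exact o6 w hw
  refine ⟨?_, ?_, ?_, ?_, ?_, ?_⟩
  · show ({g : G | orderOf g = 3} : Set G).ncard = 56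
    rw [s3, n3']
  · intro s t hs ht
    exact (IsConj.symm ((hcls s).1 hs)).trans ((hcls t).1 ht)
  · show ({g : G | orderOf g = 4} : Set G).ncard = 42
    rw [s4, n4]
  · intro s t hs ht
    exact (IsConj.symm ((hcls s).2.1 hs)).trans ((hcls t).2.1 ht)
  · show ({g : G | orderOf g = 7} : Set G).ncard = 48
    rw [s7, Set.ncard_union_eq d56, n5, n6]
  · intro x0 hx0
    refine ⟨?_, hnr x0 hx0⟩
    rw [Cfsg.Agent.Lib_helper3_CharBasic.card_isConj_eq_index]
    have := hidx x0 7 (hcardq 7 x0 hx0 (C7 x0 hx0))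
    omega

end Cfsg.Agent.S1006
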