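import Cfsg.Statements.S1009
import Mathlib

set_option autoImplicit false
open Cfsg

namespace Cfsg.Agent.S1009

open scoped Pointwise

lemma le_normalizer_of_comm {G : Type*} [Group G] (H D : Subgroup G) (hH : IsMulCommutative ↥H)
    (hD : D ≤ H) : H ≤ Subgroup.normalizer (D : Set G) := by
  intro x hx
  rw [Subgroup.mem_normalizer_iff]
  have comm : ∀ d ∈ H, x * d * x⁻¹ = d := by
    intro d hd
    have h1 := hH.is_comm.comm ⟨x, hx⟩ ⟨d, hd⟩
    have h2 : x * d = d * x := congrArg Subtype.val h1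
    rw [h2, mul_inv_cancel_right]
  intro d
  constructor
  · intro hd
    rw [comm d (hD hd)]
    exact hd
  · intro hd
    have hdH : d ∈ H := by
      have h3 := H.mul_mem (H.mul_mem (H.inv_mem hx) (hD hd)) hx
      have h4 : x⁻¹ * (x * d * x⁻¹) * x = d := by group
      rw [h4] at h3
      exact h3
    rw [comm d hdH] at hd
    exact hd

/-- Brodkey's Theorem: if a finite group has abelian Sylow p-subgroups, then there are two Sylow p-subgroups whose intersection equals the intersection of all Sylow p-subgroups. -/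
theorem result {G : Type*} [Group G] [Finite G] (p : ℕ) [Fact p.Prime] (hab : ∀ P : Sylow p G, IsMulCommutative ↥(P : Subgroup G)) : ∃ P Q : Sylow p G, (P : Subgroup G) ⊓ (Q : Subgroup G) = ⨅ R : Sylow p G, (R : Subgroup G) := by
  classical
  obtain ⟨⟨P, Q⟩, hmin⟩ := Finite.exists_min
    (fun x : Sylow p G × Sylow p G => Nat.card ↥((x.1 : Subgroup G) ⊓ (x.2 : Subgroup G)))
  refine ⟨P, Q, le_antisymm (le_iInf fun R => ?_) (le_inf (iInf_le _ P) (iInf_le _ Q))⟩
  have hPN : (P : Subgroup G) ≤ Subgroup.normalizer (((P : Subgroup G) ⊓ (Q : Subgroup G) : Subgroup G) : Set G) :=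
    le_normalizer_of_comm _ _ (hab P) inf_le_left
  have hQN : (Q : Subgroup G) ≤ Subgroup.normalizer (((P : Subgroup G) ⊓ (Q : Subgroup G) : Subgroup G) : Set G) :=
    le_normalizer_of_comm _ _ (hab Q) inf_le_right
  have hRN : IsPGroup p ↥(((R : Subgroup G)).subgroupOf
      (Subgroup.normalizer (((P : Subgroup G) ⊓ (Q : Subgroup G) : Subgroup G) : Set G))) :=
    R.isPGroup'.comap_subtype
  obtain ⟨T, hT⟩ := hRN.exists_le_sylow
  obtain ⟨n, hn⟩ := MulAction.exists_smul_eq
    (Subgroup.normalizer (((P : Subgroup G) ⊓ (Q : Subgroup G) : Subgroup G) : Set G)) T (P.subtype hPN)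
  have h1 : ∀ x, x ∈ (R : Subgroup G) →
      x ∈ Subgroup.normalizer (((P : Subgroup G) ⊓ (Q : Subgroup G) : Subgroup G) : Set G) →
      (n : G) * x * (n : G)⁻¹ ∈ (P : Subgroup G) := by
    intro x hxR hxN
    have hxT : (⟨x, hxN⟩ : Subgroup.normalizer (((P : Subgroup G) ⊓ (Q : Subgroup G) : Subgroup G) : Set G))
        ∈ (T : Subgroup _) := hT (Subgroup.mem_subgroupOf.mpr hxR)
    have h2 := Subgroup.smul_mem_pointwise_smul _ (MulAut.conj n) _ hxT
    rw [← Sylow.coe_subgroup_smul, hn] at h2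
    have h3 : ((MulAut.conj n • (⟨x, hxN⟩ : Subgroup.normalizer (((P : Subgroup G) ⊓ (Q : Subgroup G) : Subgroup G) : Set G)) : _) : G)
        ∈ (P : Subgroup G) := h2
    exact h3
  have hnD := Subgroup.mem_normalizer_iff.mp n.2
  have hle : ((((n : G) • R : Sylow p G)) : Subgroup G) ⊓ (Q : Subgroup G)
      ≤ (P : Subgroup G) ⊓ (Q : Subgroup G) := by
    rintro y ⟨hy1, hy2⟩
    have hy3 : (n : G)⁻¹ * y * (n : G) ∈ (R : Subgroup G) := by
      have hy1' : y ∈ ((((n : G) • R : Sylow p G)) : Subgroup G) := hy1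
      rw [Sylow.coe_subgroup_smul, Subgroup.mem_pointwise_smul_iff_inv_smul_mem] at hy1'
      have e : (MulAut.conj (n : G))⁻¹ • y = (n : G)⁻¹ * y * (n : G) := by
        simp [MulAut.smul_def]
      rw [e] at hy1'
      exact hy1'
    have hyN := hQN hy2
    have hy4 := Subgroup.mul_mem _ (Subgroup.mul_mem _ (Subgroup.inv_mem _ n.2) hyN) n.2
    have hy5 := h1 _ hy3 hy4
    have e2 : (n : G) * ((n : G)⁻¹ * y * (n : G)) * (n : G)⁻¹ = y := by group
    rw [e2] at hy5
    exact ⟨hy5, hy2⟩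
  have hcard := hmin ((n : G) • R, Q)
  have heq := Subgroup.eq_of_le_of_card_ge hle hcard
  intro d hd
  have hd' := heq.ge ((hnD d).mp hd)
  have hd2 : (n : G) * d * (n : G)⁻¹ ∈ ((((n : G) • R : Sylow p G)) : Subgroup G) := hd'.1
  rw [Sylow.coe_subgroup_smul, Subgroup.mem_pointwise_smul_iff_inv_smul_mem] at hd2
  have e : (MulAut.conj (n : G))⁻¹ • ((n : G) * d * (n : G)⁻¹) = d := by
    rw [inv_smul_eq_iff, MulAut.smul_def, MulAut.conj_apply]
  rw [e] at hd2
  exact hd2

end Cfsg.Agent.S1009
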