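import Cfsg.Statements.S1012
import Mathlib
import Cfsg.Agent.Lib_helper4_SmallSimple
import Cfsg.Agent.Lib_helper4_ConjCount
import Cfsg.Agent.S0995

set_option autoImplicit false
open Cfsg

namespace Cfsg.Agent.S1012

open Cfsg.Agent.Lib_helper4_SmallSimple Cfsg.Agent.Lib_helper4_ConjCount
open Cfsg.Agent.S0995 (orderOf_of_mem card_ne_one)


/-- A group of order 24 containing no element of order 6 is isomorphic to the symmetric group of degree 4. -/
theorem result {G : Type*} [Group G] [Finite G] (h : Nat.card G = 24) (h6 : ∀ g : G, orderOf g ≠ 6) : Nonempty (G ≃* Equiv.Perm (Fin 4)) := by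
  classical
  haveI : Fact (Nat.Prime 3) := ⟨by norm_num⟩
  haveI : Fact (Nat.Prime 2) := ⟨by norm_num⟩
  have hcard : Nat.card G = 3 ^ 1 * 8 := by rw [h]; norm_num
  have hm : ¬ 3 ∣ 8 := by norm_num
  have hno : ∀ a b : G, orderOf a = 3 → orderOf b = 2 → ¬ Commute a b := by
    intro a b ha hb hab
    have := hab.orderOf_mul_eq_mul_orderOf_of_coprime (by rw [ha, hb]; norm_num)
    rw [ha, hb] at this
    exact h6 _ this
  obtain ⟨P⟩ : Nonempty (Sylow 3 G) := inferInstance
  have hP : Nat.card (P : Subgroup G) = 3 := by rw [card_sylow_of_card hcard hm P, pow_one]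
  obtain ⟨g, hgP, hg1⟩ : ∃ g ∈ (P : Subgroup G), g ≠ 1 := by
    haveI : Nontrivial ↥(P : Subgroup G) := by
      rw [← Finite.one_lt_card_iff_nontrivial, hP]; norm_num
    obtain ⟨x, hx⟩ := exists_ne (1 : ↥(P : Subgroup G))
    exact ⟨x.1, x.2, fun h => hx (Subtype.ext h)⟩
  have hg3 : orderOf g = 3 := orderOf_of_mem (by norm_num) _ hP hgP hg1
  have hPg : Subgroup.zpowers g = (P : Subgroup G) :=
    Subgroup.eq_of_le_of_card_ge (by rw [Subgroup.zpowers_le]; exact hgP)
      (by rw [hP, Nat.card_zpowers, hg3])
  have h1 := card_sylow_dvd hcard hm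
  have h2 := card_sylow_modEq_one 3 G
  have key : ∀ n ≤ 8, n ∣ 8 → n % 3 = 1 % 3 → n = 1 ∨ n = 4 := by decide
  rcases key _ (Nat.le_of_dvd (by norm_num) h1) h1 h2 with hn | hn
  · exfalso
    haveI : Subsingleton (Sylow 3 G) := (Nat.card_eq_one_iff_unique.mp hn).1
    have hnorm : (P : Subgroup G).Normal := Sylow.normal_of_subsingleton P
    have hcls : Nat.card {x : G // IsConj g x} ≤ 2 := by
      have h3 : Nat.card {x : G // x ∈ (P : Subgroup G) ∧ x ≠ 1} = 3 - 1 := card_ne_one _ hP
      have hmem : ∀ x : {x : G // IsConj g x}, x.1 ∈ (P : Subgroup G) ∧ x.1 ≠ 1 := by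
        intro x
        obtain ⟨c, hc⟩ := isConj_iff.mp x.2
        rw [← hc]
        exact ⟨hnorm.conj_mem g hgP c, fun h => hg1 (conj_eq_one_iff.mp h)⟩
      have := Nat.card_le_card_of_injective
        (fun x : {x : G // IsConj g x} => (⟨x.1, hmem x⟩ : {x : G // x ∈ (P : Subgroup G) ∧ x ≠ 1}))
        (fun x y hxy => Subtype.ext (by
          have h' : x.1 = y.1 := congrArg (fun t : {x : G // x ∈ (P : Subgroup G) ∧ x ≠ 1} => t.1) hxy
          exact h'))
      omega
    have hcc := card_isConj_mul_card_centralizer g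
    rw [h] at hcc
    have hpos : 0 < Nat.card {x : G // IsConj g x} := Nat.card_pos_iff.mpr ⟨⟨⟨g, IsConj.refl g⟩⟩, inferInstance⟩
    have h2dvd : 2 ∣ Nat.card (Subgroup.centralizer ({g} : Set G)) := by
      generalize Nat.card {x : G // IsConj g x} = a at *
      generalize Nat.card (Subgroup.centralizer ({g} : Set G)) = b at *
      interval_cases a <;> omega
    obtain ⟨u, hu⟩ := exists_prime_orderOf_dvd_card' 2 h2dvd
    have hu' : orderOf (u : G) = 2 := by rw [Subgroup.orderOf_coe]; exact hu
    have hcomm := Subgroup.mem_centralizer_singleton_iff.mp u.2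
    exact hno g u.1 hg3 hu' hcomm.symm
  · have hidx : Nat.card (Sylow 3 G) = (Subgroup.normalizer ((P : Subgroup G) : Set G)).index :=
      Sylow.card_eq_index_normalizer P
    rw [hn] at hidx
    have hN := card_normalizer_sylow P
    rw [hn, h] at hN
    have hN6 : Nat.card (Subgroup.normalizer ((P : Subgroup G) : Set G)) = 6 := by omega
    -- elements of order 3 in the normalizer lie in P
    have hin : ∀ x : G, orderOf x = 3 → x ∈ Subgroup.normalizer ((P : Subgroup G) : Set G) →
        x ∈ (P : Subgroup G) := by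
      intro x hx hxN
      have hpg : IsPGroup 3 (Subgroup.zpowers x) :=
        IsPGroup.of_card (n := 1) (by rw [Nat.card_zpowers, hx, pow_one])
      have hle : Subgroup.zpowers x ≤ Subgroup.normalizer ((P : Subgroup G) : Set G) := by
        rw [Subgroup.zpowers_le]; exact hxN
      have := (IsPGroup.inf_normalizer_sylow hpg P).le ⟨Subgroup.mem_zpowers x, hle (Subgroup.mem_zpowers x)⟩
      exact this.2
    have hK3 : ∀ x ∈ (Subgroup.normalizer ((P : Subgroup G) : Set G)).normalCore, orderOf x ≠ 3 := by
      intro x hxK hx3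
      have hall : ∀ Q : Sylow 3 G, Q = P := by
        intro Q
        obtain ⟨c, hc⟩ := MulAction.exists_smul_eq G P Q
        have hxP : x ∈ (P : Subgroup G) := hin x hx3 (Subgroup.normalCore_le _ hxK)
        have hPx : Subgroup.zpowers x = (P : Subgroup G) :=
          Subgroup.eq_of_le_of_card_ge (by rw [Subgroup.zpowers_le]; exact hxP)
            (by rw [hP, Nat.card_zpowers, hx3])
        have hcx : c * x * c⁻¹ ∈ (P : Subgroup G) := by
          apply hin
          · rw [← hx3]
            exact (SemiconjBy.orderOf_eq c (by unfold SemiconjBy; group)).symm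
          · exact Subgroup.normalCore_le _ ((Subgroup.normalCore_normal _).conj_mem x hxK c)
        rw [← hc]
        apply Sylow.ext
        apply Subgroup.eq_of_le_of_card_ge
        · show (P : Subgroup G).map (MulAut.conj c).toMonoidHom ≤ (P : Subgroup G)
          rintro _ ⟨y, hy, rfl⟩
          rw [← hPx] at hy
          obtain ⟨k, rfl⟩ := Subgroup.mem_zpowers_iff.mp hy
          show c * x ^ k * c⁻¹ ∈ (P : Subgroup G)
          rw [← conj_zpow]
          exact Subgroup.zpow_mem _ hcx k
        · rw [hP, card_sylow_of_card hcard hm, pow_one]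
      haveI : Subsingleton (Sylow 3 G) := ⟨fun A B => (hall A).trans (hall B).symm⟩
      have := Nat.card_eq_one_iff_unique.mpr ⟨inferInstance, ⟨P⟩⟩
      omega
    have hKbot : (Subgroup.normalizer ((P : Subgroup G) : Set G)).normalCore = ⊥ := by
      apply Subgroup.eq_bot_of_card_eq
      have hd : Nat.card ↥(Subgroup.normalizer ((P : Subgroup G) : Set G)).normalCore ∣ 6 := by
        rw [← hN6]; exact Subgroup.card_dvd_of_le (Subgroup.normalCore_le _)
      have h3 : ¬ 3 ∣ Nat.card ↥(Subgroup.normalizer ((P : Subgroup G) : Set G)).normalCore := by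
        intro h3
        obtain ⟨u, hu⟩ := exists_prime_orderOf_dvd_card' 3 h3
        exact hK3 u.1 u.2 (by rw [Subgroup.orderOf_coe]; exact hu)
      have h2 : Nat.card ↥(Subgroup.normalizer ((P : Subgroup G) : Set G)).normalCore ≠ 2 := by
        intro hK2
        obtain ⟨u, hu, huniq⟩ := (Nat.card_eq_two_iff' (1 : ↥(Subgroup.normalizer ((P : Subgroup G) : Set G)).normalCore)).mp hK2
        have hu2 : orderOf (u : G) = 2 :=
          orderOf_of_mem (by norm_num) _ hK2 u.2 (fun h => hu (Subtype.ext h))
        have hcen : Commute g (u : G) := by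
          have hmem : g * u.1 * g⁻¹ ∈ (Subgroup.normalizer ((P : Subgroup G) : Set G)).normalCore :=
            (Subgroup.normalCore_normal _).conj_mem u.1 u.2 g
          have hne : (⟨g * u.1 * g⁻¹, hmem⟩ : ↥(Subgroup.normalizer ((P : Subgroup G) : Set G)).normalCore) ≠ 1 := by
            intro h'
            have h'' : g * u.1 * g⁻¹ = 1 := congrArg Subtype.val h'
            exact hu (Subtype.ext (conj_eq_one_iff.mp h''))
          have := congrArg Subtype.val (huniq _ hne)
          show g * u.1 = u.1 * g
          have h5 : g * u.1 * g⁻¹ = u.1 := this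
          calc g * u.1 = g * u.1 * g⁻¹ * g := by group
            _ = u.1 * g := by rw [h5]
        exact hno g u.1 hg3 hu2 hcen
      have hle := Nat.le_of_dvd (by norm_num) hd
      generalize Nat.card ↥(Subgroup.normalizer ((P : Subgroup G) : Set G)).normalCore = k at *
      interval_cases k <;> omega
    have hinj : Function.Injective (MulAction.toPermHom G (G ⧸ Subgroup.normalizer ((P : Subgroup G) : Set G))) := by
      rw [← MonoidHom.ker_eq_bot_iff, ← Subgroup.normalCore_eq_ker]
      exact hKbot
    haveI : Fintype (G ⧸ Subgroup.normalizer ((P : Subgroup G) : Set G)) := Fintype.ofFinite _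
    have hα : Fintype.card (G ⧸ Subgroup.normalizer ((P : Subgroup G) : Set G)) = 4 := by
      rw [← Nat.card_eq_fintype_card]
      exact hidx.symm
    have hbij : Function.Bijective (MulAction.toPermHom G (G ⧸ Subgroup.normalizer ((P : Subgroup G) : Set G))) := by
      rw [Nat.bijective_iff_injective_and_card]
      refine ⟨hinj, ?_⟩
      rw [h, Nat.card_eq_fintype_card, Fintype.card_perm, hα]
      rfl
    exact ⟨(MulEquiv.ofBijective _ hbij).trans
      (Fintype.equivFinOfCardEq hα).permCongrHom⟩

end Cfsg.Agent.S1012
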