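import Cfsg.Statements.S1013
import Cfsg.Agent.Lib_helper4_Perm

set_option autoImplicit false
open Cfsg

namespace Cfsg.Agent.S1013

open Cfsg.Agent.Lib_helper4_Perm in
lemma factorization_eq_one {p n : ℕ} (hp : p.Prime) (h1 : p ∣ n) (h2 : ¬ p ^ 2 ∣ n) (hn : n ≠ 0) :
    n.factorization p = 1 := by
  have ha : 1 ≤ n.factorization p := (hp.dvd_iff_one_le_factorization hn).mp h1
  have hb : ¬ 2 ≤ n.factorization p := fun h =>
    h2 ((hp.pow_dvd_iff_le_factorization hn).mpr h)
  omega

lemma sylow_card_eq {G : Type*} [Group G] [Finite G] {p : ℕ} [Fact p.Prime]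
    (h1 : p ∣ Nat.card G) (h2 : ¬ p ^ 2 ∣ Nat.card G) (P : Sylow p G) : Nat.card P = p := by
  rw [Sylow.card_eq_multiplicity, factorization_eq_one Fact.out h1 h2 Nat.card_pos.ne', pow_one]


/-- Let G be a transitive permutation group of prime degree p having more than one Sylow p-subgroup, and suppose a Sylow p-subgroup P has prime index in its normalizer. Then G is simple. -/
theorem result {α : Type*} [Fintype α] [DecidableEq α] {p : ℕ} [Fact p.Prime] (hα : Fintype.card α = p) (G : Subgroup (Equiv.Perm α)) [MulAction.IsPretransitive ↥G α] (P : Sylow p ↥G) (hn : 1 < Nat.card (Sylow p ↥G)) (ht : (((P : Subgroup ↥G).subgroupOf (Subgroup.normalizer ((P : Subgroup ↥G) : Set ↥G))).index).Prime) : IsSimpleGroup ↥G := by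
  have hp : p.Prime := Fact.out
  have hαp : (Nat.card α).Prime := by rw [Nat.card_eq_fintype_card, hα]; exact hp
  have hne : Nonempty α := by
    rw [← Fintype.card_pos_iff, hα]; exact hp.pos
  have hprim : MulAction.IsPreprimitive G α := MulAction.IsPreprimitive.of_prime_card hαp
  have hsq : ¬ p ^ 2 ∣ Nat.card G :=
    Cfsg.Agent.Lib_helper4_Perm.not_sq_dvd_card_of_prime_degree hp hα G
  have hpG : p ∣ Nat.card G := by
    have := Cfsg.Agent.Lib_helper4_Perm.card_dvd_of_isPretransitive (G := G) (α := α)
    rwa [Nat.card_eq_fintype_card, hα] at this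
  have hPcard : Nat.card P = p := sylow_card_eq hpG hsq P
  have hnt : Nontrivial G := by
    by_contra h
    rw [not_nontrivial_iff_subsingleton] at h
    have h1 : Subsingleton (Sylow p G) := ⟨fun P Q => Sylow.ext (Subsingleton.elim _ _)⟩
    have h2 := Finite.card_le_one_iff_subsingleton.mpr h1
    omega
  apply IsSimpleGroup.mk
  intro K hKn
  by_contra hcon
  rw [not_or] at hcon
  obtain ⟨hKbot, hKtop⟩ := hcon
  have hKt : MulAction.IsPretransitive K α :=
    Cfsg.Agent.Lib_helper4_Perm.isPretransitive_of_normal_ne_bot K hKbot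
  have hpK : p ∣ Nat.card K := by
    have := Cfsg.Agent.Lib_helper4_Perm.card_dvd_of_isPretransitive (G := K) (α := α)
    rwa [Nat.card_eq_fintype_card, hα] at this
  have hsqK : ¬ p ^ 2 ∣ Nat.card K := fun h => hsq (h.trans (Subgroup.card_subgroup_dvd_card K))
  -- P ≤ K
  have hPK : (P : Subgroup G) ≤ K := by
    obtain ⟨x, hx⟩ := exists_prime_orderOf_dvd_card' (G := K) p hpK
    have hpg : IsPGroup p (Subgroup.zpowers (x : G)) := by
      apply IsPGroup.of_card (n := 1)
      rw [Nat.card_zpowers, Subgroup.orderOf_coe, hx, pow_one]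
    obtain ⟨Q, hQ⟩ := hpg.exists_le_sylow
    have hQcard : Nat.card Q = p := sylow_card_eq hpG hsq Q
    have hQeq : (Q : Subgroup G) = Subgroup.zpowers (x : G) := by
      symm
      apply Subgroup.eq_of_le_of_card_ge hQ
      rw [Nat.card_zpowers, Subgroup.orderOf_coe, hx]
      exact hQcard.le
    have hQK : (Q : Subgroup G) ≤ K := by
      rw [hQeq]; exact Subgroup.zpowers_le.mpr x.2
    obtain ⟨g, hg⟩ := MulAction.exists_smul_eq G Q P
    intro y hy
    rw [← hg, Sylow.smul_def, Sylow.pointwise_smul_def, Subgroup.mem_pointwise_smul_iff_inv_smul_mem] at hy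
    have h1 : (MulAut.conj g)⁻¹ • y ∈ K := hQK hy
    have h2 := hKn.conj_mem _ h1 g
    have h3 : g * ((MulAut.conj g)⁻¹ • y) * g⁻¹ = y := by
      simp [MulAut.smul_def]; group
    rwa [h3] at h2
  -- Frattini
  have hFr := Sylow.normalizer_sup_eq_top' P hPK
  have hPN : (P : Subgroup G) ≤ Subgroup.normalizer ((P : Subgroup G) : Set G) :=
    Subgroup.le_normalizer
  have hmul := Subgroup.relIndex_mul_relIndex (P : Subgroup G)
    (K ⊓ Subgroup.normalizer ((P : Subgroup G) : Set G))
    (Subgroup.normalizer ((P : Subgroup G) : Set G)) (le_inf hPK hPN) inf_le_right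
  have ht' : ((P : Subgroup G).relIndex (Subgroup.normalizer ((P : Subgroup G) : Set G))).Prime := ht
  rw [← hmul] at ht'
  rcases Nat.prime_mul_iff.mp ht' with ⟨_, h1⟩ | ⟨_, h1⟩
  · -- normalizer ≤ K
    rw [Subgroup.relIndex_eq_one] at h1
    have h2 : Subgroup.normalizer ((P : Subgroup G) : Set G) ≤ K := fun x hx => (h1 hx).1
    apply hKtop
    rw [← hFr]
    exact (sup_eq_right.mpr h2).symm
  · rw [Subgroup.relIndex_eq_one] at h1
    -- K ⊓ N ≤ P
    have hcyc : IsCyclic (P : Subgroup G) := isCyclic_of_prime_card (p := p) hPcard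
    have hcomm : ∀ a b : G, a ∈ (P : Subgroup G) → b ∈ (P : Subgroup G) → a * b = b * a := by
      intro a b ha hb
      have := hcyc.isMulCommutative.is_comm.comm ⟨a, ha⟩ ⟨b, hb⟩
      exact congrArg Subtype.val this
    have hPKcoe : ((P.subtype hPK : Sylow p K) : Subgroup K) = (P : Subgroup G).subgroupOf K :=
      Sylow.coe_subtype P hPK
    have hNC : Subgroup.normalizer (((P.subtype hPK : Sylow p K) : Subgroup K) : Set K) ≤
        Subgroup.centralizer (((P.subtype hPK : Sylow p K) : Subgroup K) : Set K) := by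
      intro x hx
      have hxN : (x : G) ∈ Subgroup.normalizer ((P : Subgroup G) : Set G) := by
        rw [Subgroup.mem_normalizer_iff] at hx ⊢
        intro y
        constructor
        · intro hy
          have := (hx ⟨y, hPK hy⟩).mp (by rw [hPKcoe, Subgroup.mem_subgroupOf]; exact hy)
          rw [hPKcoe, Subgroup.mem_subgroupOf] at this
          simpa using this
        · intro hy
          have hyK : y ∈ K := by
            have := K.mul_mem (K.mul_mem (K.inv_mem x.2) (hPK hy)) x.2
            simpa [mul_assoc] using this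
          have := (hx ⟨y, hyK⟩).mpr (by rw [hPKcoe, Subgroup.mem_subgroupOf]; simpa using hy)
          rw [hPKcoe, Subgroup.mem_subgroupOf] at this
          exact this
      have hxP : (x : G) ∈ (P : Subgroup G) := h1 ⟨x.2, hxN⟩
      rw [Subgroup.mem_centralizer_iff]
      intro y hy
      rw [SetLike.mem_coe, hPKcoe, Subgroup.mem_subgroupOf] at hy
      exact Subtype.ext (hcomm _ _ hy hxP)
    have hcompl := MonoidHom.ker_transferSylow_isComplement' (P.subtype hPK) hNC
    have hcard := hcompl.card_mul_card
    have hPKcard : Nat.card (P.subtype hPK : Sylow p K) = p := sylow_card_eq hpK hsqK _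
    have hKprim : MulAction.IsPreprimitive K α := MulAction.IsPreprimitive.of_prime_card hαp
    have hMbot : (MonoidHom.transferSylow (P.subtype hPK) hNC).ker = ⊥ := by
      by_contra hM
      have hMt : MulAction.IsPretransitive (MonoidHom.transferSylow (P.subtype hPK) hNC).ker α :=
        Cfsg.Agent.Lib_helper4_Perm.isPretransitive_of_normal_ne_bot _ hM
      have hpM : p ∣ Nat.card (MonoidHom.transferSylow (P.subtype hPK) hNC).ker := by
        have := Cfsg.Agent.Lib_helper4_Perm.card_dvd_of_isPretransitive
          (G := (MonoidHom.transferSylow (P.subtype hPK) hNC).ker) (α := α)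
        rwa [Nat.card_eq_fintype_card, hα] at this
      apply hsqK
      rw [← hcard, pow_two]
      exact Nat.mul_dvd_mul hpM (dvd_of_eq hPKcard.symm)
    rw [hMbot, Subgroup.card_bot, one_mul] at hcard
    have hKcard : Nat.card K = p := by rw [← hcard]; exact hPKcard
    have hPeqK : (P : Subgroup G) = K := by
      apply Subgroup.eq_of_le_of_card_ge hPK
      rw [hKcard]; exact hPcard.ge
    have hPnormal : (P : Subgroup G).Normal := hPeqK ▸ hKn
    have hsub : Subsingleton (Sylow p G) := (Sylow.unique_of_normal P hPnormal).instSubsingleton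
    have h2 := Finite.card_le_one_iff_subsingleton.mpr hsub
    omega

end Cfsg.Agent.S1013
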