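import Cfsg.Statements.S1014
import Mathlib
import Cfsg.Agent.Lib_helper4_SmallSimple

set_option autoImplicit false
open Cfsg

namespace Cfsg.Agent.S1014

open Cfsg.Agent.Lib_helper4_SmallSimple


/-- No finite simple group has order 1104 = 2^4 * 3 * 23. -/
theorem result {G : Type*} [Group G] [Finite G] [IsSimpleGroup G] : Nat.card G ≠ 1104 := by
  classical
  intro hG
  haveI : Fact (Nat.Prime 23) := ⟨by norm_num⟩
  have hcard : Nat.card G = 23 ^ 1 * 48 := by rw [hG]; norm_num
  have hm : ¬ 23 ∣ 48 := by norm_num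
  have h1 := card_sylow_dvd hcard hm
  have h2 := card_sylow_modEq_one 23 G
  have h3 := card_sylow_ne_one hcard hm (by norm_num) (by norm_num)
  obtain ⟨P⟩ : Nonempty (Sylow 23 G) := inferInstance
  have h4 := card_normalizer_sylow P
  have hidx : Nat.card (Sylow 23 G) = (Subgroup.normalizer ((P : Subgroup G) : Set G)).index :=
    Sylow.card_eq_index_normalizer P
  have key : ∀ n ≤ 48, n ∣ 48 → n % 23 = 1 % 23 → n = 1 ∨ n = 24 := by decide
  have hn : Nat.card (Sylow 23 G) = 24 := by
    rcases key _ (Nat.le_of_dvd (by norm_num) h1) h1 h2 with h | h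
    · exact absurd h h3
    · exact h
  rw [hn, hG] at h4
  rw [hn] at hidx
  have hNtop : Subgroup.normalizer ((P : Subgroup G) : Set G) ≠ ⊤ := by
    intro h
    rw [h, Subgroup.index_top] at hidx
    omega
  have hinj := toPermHom_injective _ hNtop
  haveI : Fintype (G ⧸ Subgroup.normalizer ((P : Subgroup G) : Set G)) := Fintype.ofFinite _
  have hα : Fintype.card (G ⧸ Subgroup.normalizer ((P : Subgroup G) : Set G)) = 23 + 1 := by
    rw [← Nat.card_eq_fintype_card]
    exact hidx.symm
  have hP : Nat.card (P : Subgroup G) = 23 := by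
    rw [card_sylow_of_card hcard hm P, pow_one]
  have h5 := two_mul_card_normalizer_dvd (by norm_num) (Or.inr hα) _ hinj
    (fun g => sign_eq_one (by rw [hG]; norm_num) _ g) (P : Subgroup G) hP
  have h6 : Nat.card (Subgroup.normalizer ((P : Subgroup G) : Set G)) = 46 := by omega
  rw [h6] at h5
  omega

end Cfsg.Agent.S1014
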