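import Cfsg.Statements.S1015
import Mathlib
import Cfsg.Agent.Lib_helper4_SmallSimple
import Cfsg.Agent.S0985

set_option autoImplicit false
open Cfsg

namespace Cfsg.Agent.S1015

open Cfsg.Agent.Lib_helper4_SmallSimple


/-- No finite simple group has order 1200 = 2^4 * 3 * 5^2. -/
theorem result {G : Type*} [Group G] [Finite G] [IsSimpleGroup G] : Nat.card G ≠ 1200 := by
  classical
  intro hG
  haveI : Fact (Nat.Prime 5) := ⟨by norm_num⟩
  have hcard : Nat.card G = 5 ^ 2 * 48 := by rw [hG]; norm_num
  have hm : ¬ 5 ∣ 48 := by norm_num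
  have h1 := card_sylow_dvd hcard hm
  have h2 := card_sylow_modEq_one 5 G
  have h3 := card_sylow_ne_one hcard hm (by norm_num) (by norm_num)
  have key : ∀ n ≤ 48, n ∣ 48 → n % 5 = 1 % 5 → n = 1 ∨ n = 6 ∨ n = 16 := by decide
  have hfact : ∀ k ≤ 8, ¬ 1200 ∣ k.factorial := by decide
  rcases key _ (Nat.le_of_dvd (by norm_num) h1) h1 h2 with h | h | h
  · exact h3 h
  · obtain ⟨P⟩ : Nonempty (Sylow 5 G) := inferInstance
    have hidx : Nat.card (Sylow 5 G) = (Subgroup.normalizer ((P : Subgroup G) : Set G)).index :=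
      Sylow.card_eq_index_normalizer P
    rw [h] at hidx
    have hNtop : Subgroup.normalizer ((P : Subgroup G) : Set G) ≠ ⊤ := by
      intro h'
      rw [h', Subgroup.index_top] at hidx
      omega
    have := card_dvd_factorial_index _ hNtop
    rw [← hidx, hG] at this
    exact hfact 6 (by norm_num) this
  · have hmod : ¬ Nat.card (Sylow 5 G) ≡ 1 [MOD 5 ^ 2] := by rw [h]; decide
    obtain ⟨P, R, hPR, hidx⟩ := Cfsg.Agent.S0985.result 5 2 hmod
    have hP : Nat.card (P : Subgroup G) = 25 := by rw [card_sylow_of_card hcard hm P]; norm_num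
    have hR : Nat.card (R : Subgroup G) = 25 := by rw [card_sylow_of_card hcard hm R]; norm_num
    have hD1 := Subgroup.card_mul_index ((R : Subgroup G).subgroupOf (P : Subgroup G))
    rw [hP] at hD1
    have hDc : Nat.card ((R : Subgroup G).subgroupOf (P : Subgroup G))
        = Nat.card ((P : Subgroup G) ⊓ (R : Subgroup G) : Subgroup G) := by
      rw [← Subgroup.inf_subgroupOf_left]
      exact Nat.card_congr (Subgroup.subgroupOfEquivOfLe inf_le_left).toEquiv
    have hi1 : ((R : Subgroup G).subgroupOf (P : Subgroup G)).index ≠ 1 := by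
      intro h1'
      rw [Subgroup.index_eq_one, Subgroup.subgroupOf_eq_top] at h1'
      apply hPR
      exact Sylow.ext (Subgroup.eq_of_le_of_card_ge h1' (by rw [hP, hR]))
    obtain ⟨D, hDdef⟩ : ∃ D : Subgroup G, D = (P : Subgroup G) ⊓ (R : Subgroup G) := ⟨_, rfl⟩
    have hD : Nat.card D = 5 := by
      rw [hDdef, ← hDc]
      have hdv : ((R : Subgroup G).subgroupOf (P : Subgroup G)).index ∣ 25 := Dvd.intro_left _ hD1
      have hi5 : ((R : Subgroup G).subgroupOf (P : Subgroup G)).index ≤ 5 := by
        simpa using hidx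
      generalize ((R : Subgroup G).subgroupOf (P : Subgroup G)).index = i at *
      generalize Nat.card ((R : Subgroup G).subgroupOf (P : Subgroup G)) = c at *
      interval_cases i <;> omega
    have hnorm : ∀ Q : Sylow 5 G, Nat.card (Q : Subgroup G) = 25 → D ≤ (Q : Subgroup G) →
        (Q : Subgroup G) ≤ Subgroup.normalizer (D : Set G) := by
      intro Q hQ hDQ
      refine le_trans ?_ (Subgroup.centralizer_le_normalizer (D : Set G))
      intro x hx
      rw [Subgroup.mem_centralizer_iff]
      intro d hd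
      have hc := IsPGroup.commutative_of_card_eq_prime_sq (p := 5) (G := ↥(Q : Subgroup G)) (by rw [hQ]; norm_num)
      exact congrArg Subtype.val (hc ⟨d, hDQ hd⟩ ⟨x, hx⟩)
    have hPN := hnorm P hP (by rw [hDdef]; exact inf_le_left)
    have hRN := hnorm R hR (by rw [hDdef]; exact inf_le_right)
    obtain ⟨N, hNdef⟩ : ∃ N : Subgroup G, N = Subgroup.normalizer (D : Set G) := ⟨_, rfl⟩
    rw [← hNdef] at hPN hRN
    have hne : P.subtype hPN ≠ R.subtype hRN := fun h => hPR (Sylow.subtype_injective h)
    have hn1 : Nat.card (Sylow 5 ↥N) ≠ 1 := by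
      intro h1'
      haveI : Subsingleton (Sylow 5 ↥N) := (Nat.card_eq_one_iff_unique.mp h1').1
      exact hne (Subsingleton.elim _ _)
    have hn2 := card_sylow_modEq_one 5 ↥N
    have hn3 := Sylow.card_dvd_index (P.subtype hPN)
    have hn4 := Subgroup.card_mul_index ((P.subtype hPN : Sylow 5 ↥N) : Subgroup ↥N)
    have hn5 : Nat.card ((P.subtype hPN : Sylow 5 ↥N) : Subgroup ↥N) = 25 := by
      rw [Sylow.coe_subtype, Nat.card_congr (Subgroup.subgroupOfEquivOfLe hPN).toEquiv, hP]
    have hn6 := Subgroup.card_mul_index N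
    have hidx8 : N.index ≤ 8 := by
      have hn_ge : 6 ≤ Nat.card (Sylow 5 ↥N) := by
        unfold Nat.ModEq at hn2
        have : Nat.card (Sylow 5 ↥N) ≠ 0 := Nat.card_pos.ne'
        omega
      have hidx_ge : 6 ≤ ((P.subtype hPN : Sylow 5 ↥N) : Subgroup ↥N).index :=
        le_trans hn_ge (Nat.le_of_dvd (Nat.pos_of_ne_zero Subgroup.index_ne_zero_of_finite) hn3)
      rw [hn5] at hn4
      rw [hG] at hn6
      by_contra hcon
      push Not at hcon
      have : 150 ≤ Nat.card ↥N := by omega
      nlinarith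
    by_cases hNtop : N = ⊤
    · rw [hNdef] at hNtop
      have hDn : D.Normal := Subgroup.normalizer_eq_top_iff.mp hNtop
      rcases hDn.eq_bot_or_eq_top with h' | h'
      · rw [h', Subgroup.card_bot] at hD; omega
      · rw [h', Subgroup.card_top, hG] at hD; omega
    · have := card_dvd_factorial_index N hNtop
      rw [hG] at this
      exact hfact _ hidx8 this

end Cfsg.Agent.S1015
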