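import Cfsg.Statements.S1018
import Mathlib
import Cfsg.Agent.S0995

set_option autoImplicit false
open Cfsg

namespace Cfsg.Agent.S1018

open Cfsg.Agent.S0995 (orderOf_of_mem)

lemma gen {G : Type*} [Group G] [Finite G] {p : ℕ} (hp : p.Prime) (P : Subgroup G)
    (hP : Nat.card P = p) {u : G} (hu : u ∈ P) (hu1 : u ≠ 1) : Subgroup.zpowers u = P :=
  Subgroup.eq_of_le_of_card_ge (by rw [Subgroup.zpowers_le]; exact hu)
    (by rw [hP, Nat.card_zpowers, orderOf_of_mem hp P hP hu hu1])

lemma mem_normalizer_of_conj {G : Type*} [Group G] [Finite G] {p : ℕ} (hp : p.Prime)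
    (P : Subgroup G) (hP : Nat.card P = p) {u n : G} (hu : u ∈ P) (hu1 : u ≠ 1)
    (hn : n * u * n⁻¹ ∈ P) : n ∈ Subgroup.normalizer (P : Set G) := by
  have h1 := gen hp P hP hu hu1
  have h2 := gen hp P hP hn (fun h => hu1 (conj_eq_one_iff.mp h))
  rw [Subgroup.mem_normalizer_iff]
  intro x
  constructor
  · intro hx
    rw [← h1] at hx
    obtain ⟨k, rfl⟩ := Subgroup.mem_zpowers_iff.mp hx
    rw [← conj_zpow]
    exact Subgroup.zpow_mem _ hn k
  · intro hx
    rw [← h2] at hx
    obtain ⟨k, hk⟩ := Subgroup.mem_zpowers_iff.mp hx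
    rw [conj_zpow] at hk
    have : x = u ^ k := (mul_left_cancel (mul_right_cancel hk)).symm
    rw [this]; exact Subgroup.zpow_mem _ hu k


/-- Let P be a Sylow p-subgroup of order p of a finite group G, and consider the action of G on the left cosets of the normalizer N of P. Then every element of order p fixes exactly one coset, and an element of N that does not centralize P fixes at most as many cosets as there are orbits of P. -/
theorem result {G : Type*} [Group G] [Finite G] (p : ℕ) [Fact p.Prime] (P : Sylow p G) (hP : Nat.card ↥(P : Subgroup G) = p) : (∀ y : G, orderOf y = p → Nat.card (MulAction.fixedBy (G ⧸ Subgroup.normalizer ((P : Subgroup G) : Set G)) y) = 1) ∧ ∀ x : G, x ∈ Subgroup.normalizer ((P : Subgroup G) : Set G) → x ∉ Subgroup.centralizer ((P : Subgroup G) : Set G) → Nat.card (MulAction.fixedBy (G ⧸ Subgroup.normalizer ((P : Subgroup G) : Set G)) x) ≤ Nat.card (MulAction.orbitRel.Quotient ↥(P : Subgroup G) (G ⧸ Subgroup.normalizer ((P : Subgroup G) : Set G))) := by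
  classical
  have hp := (Fact.out : p.Prime)
  have hin : ∀ x : G, orderOf x = p → x ∈ Subgroup.normalizer ((P : Subgroup G) : Set G) →
      x ∈ (P : Subgroup G) := by
    intro x hx hxN
    have hpg : IsPGroup p (Subgroup.zpowers x) :=
      IsPGroup.of_card (n := 1) (by rw [Nat.card_zpowers, hx, pow_one])
    have hle : Subgroup.zpowers x ≤ Subgroup.normalizer ((P : Subgroup G) : Set G) := by
      rw [Subgroup.zpowers_le]; exact hxN
    exact ((IsPGroup.inf_normalizer_sylow hpg P).le
      ⟨Subgroup.mem_zpowers x, hle (Subgroup.mem_zpowers x)⟩).2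
  have hfix : ∀ (y g : G), y • (g : G ⧸ Subgroup.normalizer ((P : Subgroup G) : Set G)) = (g : G ⧸ Subgroup.normalizer ((P : Subgroup G) : Set G)) ↔
      g⁻¹ * y * g ∈ Subgroup.normalizer ((P : Subgroup G) : Set G) := by
    intro y g
    rw [MulAction.Quotient.smul_mk, QuotientGroup.eq, ← inv_mem_iff (x := g⁻¹ * y * g)]
    have : (g⁻¹ * y * g)⁻¹ = (y * g)⁻¹ * g := by group
    rw [this, smul_eq_mul]
  have huniq : ∀ y : G, orderOf y = p →
      ∀ q₁ q₂ : G ⧸ Subgroup.normalizer ((P : Subgroup G) : Set G), y • q₁ = q₁ → y • q₂ = q₂ → q₁ = q₂ := by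
    intro y hy q₁ q₂
    induction q₁ using QuotientGroup.induction_on with | H g₁ => ?_
    induction q₂ using QuotientGroup.induction_on with | H g₂ => ?_
    intro h1 h2
    rw [hfix] at h1 h2
    have ho : ∀ g : G, orderOf (g⁻¹ * y * g) = p := by
      intro g; rw [← hy]
      exact (SemiconjBy.orderOf_eq g⁻¹ (by unfold SemiconjBy; group)).symm
    have hu1 := hin _ (ho g₁) h1
    have hu2 := hin _ (ho g₂) h2
    have hne : g₁⁻¹ * y * g₁ ≠ 1 := by
      intro h
      have := ho g₁
      rw [h, orderOf_one] at this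
      exact hp.one_lt.ne this
    have hn : (g₂⁻¹ * g₁) * (g₁⁻¹ * y * g₁) * (g₂⁻¹ * g₁)⁻¹ ∈ (P : Subgroup G) := by
      have : (g₂⁻¹ * g₁) * (g₁⁻¹ * y * g₁) * (g₂⁻¹ * g₁)⁻¹ = g₂⁻¹ * y * g₂ := by group
      rw [this]; exact hu2
    have hmem := mem_normalizer_of_conj hp _ hP hu1 hne hn
    rw [QuotientGroup.eq]
    have h3 := inv_mem hmem
    have : (g₂⁻¹ * g₁)⁻¹ = g₁⁻¹ * g₂ := by group
    rwa [this] at h3
  have hbase : ∀ u : G, u ∈ (P : Subgroup G) →
      u • ((1 : G) : G ⧸ Subgroup.normalizer ((P : Subgroup G) : Set G)) = ((1 : G) : G ⧸ Subgroup.normalizer ((P : Subgroup G) : Set G)) := by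
    intro u hu
    rw [hfix]
    have : (1 : G)⁻¹ * u * 1 = u := by group
    rw [this]
    exact Subgroup.le_normalizer hu
  constructor
  · intro y hy
    rw [Nat.card_eq_one_iff_unique]
    constructor
    · exact ⟨fun a b => Subtype.ext (huniq y hy a.1 b.1 a.2 b.2)⟩
    · have hpg : IsPGroup p (Subgroup.zpowers y) :=
        IsPGroup.of_card (n := 1) (by rw [Nat.card_zpowers, hy, pow_one])
      obtain ⟨Q, hyQ⟩ := hpg.exists_le_sylow
      obtain ⟨g, hg⟩ := MulAction.exists_smul_eq G P Q
      have hy' : y ∈ (P : Subgroup G).map (MulAut.conj g).toMonoidHom := by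
        have : y ∈ (Q : Subgroup G) := hyQ (Subgroup.mem_zpowers y)
        rw [← hg] at this
        exact this
      obtain ⟨u, hu, hu'⟩ := hy'
      refine ⟨⟨(g : G ⧸ Subgroup.normalizer ((P : Subgroup G) : Set G)), ?_⟩⟩
      show y • (g : G ⧸ Subgroup.normalizer ((P : Subgroup G) : Set G)) = (g : G ⧸ Subgroup.normalizer ((P : Subgroup G) : Set G))
      rw [hfix]
      have : g⁻¹ * y * g = u := by
        rw [← hu']
        simp [MulAut.conj_apply]
        group
      rw [this]; exact Subgroup.le_normalizer hu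
  · intro x hxN hxC
    have hinj : Function.Injective (fun q : MulAction.fixedBy (G ⧸ Subgroup.normalizer ((P : Subgroup G) : Set G)) x =>
        (Quotient.mk'' q.1 : MulAction.orbitRel.Quotient ↥(P : Subgroup G) (G ⧸ Subgroup.normalizer ((P : Subgroup G) : Set G)))) := by
      intro q₁ q₂ h
      apply Subtype.ext
      have h' := Quotient.exact' h
      obtain ⟨u, hu⟩ := h'
      have hu' : (u : G) • q₂.1 = q₁.1 := hu
      by_cases hu1 : (u : G) = 1
      · rw [hu1, one_smul] at hu'
        exact hu'.symm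
      · have hx1 : x • q₁.1 = q₁.1 := q₁.2
        have hx2 : x • q₂.1 = q₂.1 := q₂.2
        have hxu : x * (u : G) * x⁻¹ ∈ (P : Subgroup G) := (Subgroup.mem_normalizer_iff.mp hxN u.1).mp u.2
        have hwP : (u : G)⁻¹ * (x * (u : G) * x⁻¹) ∈ (P : Subgroup G) :=
          Subgroup.mul_mem _ (Subgroup.inv_mem _ u.2) hxu
        have hwfix : ((u : G)⁻¹ * (x * (u : G) * x⁻¹)) • q₂.1 = q₂.1 := by
          have e1 : x⁻¹ • q₂.1 = q₂.1 := by rw [inv_smul_eq_iff, hx2]
          have e2 : (u : G)⁻¹ • q₁.1 = q₂.1 := by rw [inv_smul_eq_iff, hu']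
          rw [mul_smul, mul_smul, mul_smul, e1, hu', hx1, e2]
        by_cases hw1 : (u : G)⁻¹ * (x * (u : G) * x⁻¹) = 1
        · exfalso
          apply hxC
          have hcomm : x * (u : G) = (u : G) * x := by
            have h5 : x * (u : G) * x⁻¹ = (u : G) := by
              have := congrArg (fun t => (u : G) * t) hw1
              simpa using this
            calc x * (u : G) = x * (u : G) * x⁻¹ * x := by group
              _ = (u : G) * x := by rw [h5]
          rw [Subgroup.mem_centralizer_iff]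
          intro h hh
          have hh' : h ∈ (P : Subgroup G) := hh
          rw [← gen hp _ hP u.2 hu1] at hh'
          obtain ⟨k, rfl⟩ := Subgroup.mem_zpowers_iff.mp hh'
          exact ((Commute.zpow_right (show Commute x (u : G) from hcomm) k).eq).symm
        · have ho := orderOf_of_mem hp _ hP hwP hw1
          have hq2 : q₂.1 = ((1 : G) : G ⧸ Subgroup.normalizer ((P : Subgroup G) : Set G)) :=
            huniq _ ho _ _ hwfix (hbase _ hwP)
          rw [← hu', hq2, hbase _ u.2]
    exact Nat.card_le_card_of_injective _ hinj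

end Cfsg.Agent.S1018
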