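import Cfsg.Statements.S1019
import Mathlib

set_option autoImplicit false
open Cfsg

namespace Cfsg.Agent.S1019

/-- Let H be a subgroup of a finite group G and x an element of H. In the action of G on the left cosets of H, the number of cosets fixed by x, multiplied by the size of the conjugacy class of x, equals the index of H multiplied by the number of conjugates of x that lie in H. -/
theorem result {G : Type*} [Group G] [Finite G] (H : Subgroup G) (x : G) (hx : x ∈ H) : Nat.card (MulAction.fixedBy (G ⧸ H) x) * Nat.card {g : G // IsConj x g} = H.index * Nat.card {g : G // IsConj x g ∧ g ∈ H} := by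
  classical
  have hft1 : Fintype {g : G // IsConj x g} := Fintype.ofFinite _
  have hft2 : Fintype (G ⧸ H) := Fintype.ofFinite _
  have hA : ∀ y : {g : G // IsConj x g},
      Nat.card (MulAction.fixedBy (G ⧸ H) (y : G)) = Nat.card (MulAction.fixedBy (G ⧸ H) x) := by
    rintro ⟨y, hy⟩
    rw [isConj_iff] at hy
    obtain ⟨g, rfl⟩ := hy
    apply Nat.card_congr
    refine
      { toFun := fun c => ⟨g⁻¹ • c.1, ?_⟩
        invFun := fun d => ⟨g • d.1, ?_⟩
        left_inv := fun c => Subtype.ext (smul_inv_smul g c.1)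
        right_inv := fun d => Subtype.ext (inv_smul_smul g d.1) }
    · have hc := c.2
      rw [MulAction.mem_fixedBy] at hc ⊢
      have h1 : x • g⁻¹ • c.1 = g⁻¹ • ((g * x * g⁻¹) • c.1) := by
        simp [mul_smul]
      rw [h1, hc]
    · have hd := d.2
      rw [MulAction.mem_fixedBy] at hd ⊢
      rw [mul_smul, mul_smul, inv_smul_smul, hd]
  have hB : ∀ c : G ⧸ H,
      Nat.card {y : G // IsConj x y ∧ y • c = c} = Nat.card {g : G // IsConj x g ∧ g ∈ H} := by
    intro c
    obtain ⟨g, rfl⟩ := QuotientGroup.mk_surjective c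
    apply Nat.card_congr
    refine
      { toFun := fun y => ⟨g⁻¹ * y.1 * g, ?_, ?_⟩
        invFun := fun z => ⟨g * z.1 * g⁻¹, ?_, ?_⟩
        left_inv := fun y => Subtype.ext (by group)
        right_inv := fun z => Subtype.ext (by group) }
    · exact y.2.1.trans (isConj_iff.mpr ⟨g⁻¹, by group⟩)
    · have h1 := y.2.2
      rw [MulAction.Quotient.smul_mk, QuotientGroup.eq, smul_eq_mul] at h1
      have h2 := H.inv_mem h1
      have h3 : ((y.1 * g)⁻¹ * g)⁻¹ = g⁻¹ * y.1 * g := by group
      rw [h3] at h2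
      exact h2
    · exact z.2.1.trans (isConj_iff.mpr ⟨g, rfl⟩)
    · rw [MulAction.Quotient.smul_mk, QuotientGroup.eq, smul_eq_mul]
      have h3 : (g * z.1 * g⁻¹ * g)⁻¹ * g = z.1⁻¹ := by group
      rw [h3]
      exact H.inv_mem z.2.2
  have e : (Σ y : {g : G // IsConj x g}, MulAction.fixedBy (G ⧸ H) (y : G))
      ≃ (Σ c : G ⧸ H, {y : G // IsConj x y ∧ y • c = c}) :=
    { toFun := fun p => ⟨p.2.1, ⟨p.1.1, p.1.2, p.2.2⟩⟩
      invFun := fun p => ⟨⟨p.2.1, p.2.2.1⟩, ⟨p.1, p.2.2.2⟩⟩
      left_inv := fun p => rfl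
      right_inv := fun p => rfl }
  have h1 := Nat.card_congr e
  rw [Nat.card_sigma, Nat.card_sigma] at h1
  simp only [hA, hB, Finset.sum_const, Finset.card_univ, smul_eq_mul] at h1
  rw [Subgroup.index, Nat.card_eq_fintype_card (α := G ⧸ H),
    Nat.card_eq_fintype_card (α := {g : G // IsConj x g}), mul_comm]
  exact h1

end Cfsg.Agent.S1019
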