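import Cfsg.Statements.S1024
-- import your own Cfsg.Agent.* helpers here

set_option autoImplicit false
open Cfsg

namespace Cfsg.Agent.S1024

/-- `x_r(0) = 1`, and `x_r(t) = 1` forces `t = 0`: the map `t ↦ x_r(t)` is injective. -/
theorem result {F : Type*} [Field F] (D : Cfsg.Lie.ChevalleyDatum) (hD : D ∈ [Cfsg.Lie.chevG2, Cfsg.Lie.chevB2, Cfsg.Lie.chevD4, Cfsg.Lie.chevF4, Cfsg.Lie.chevE6, Cfsg.Lie.chevE7, Cfsg.Lie.chevE8]) (r : ℕ) (hr : r < D.nroots) (t : F) :
    D.x F r t = 1 ↔ t = 0 := by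
  have key : ∀ r < D.nroots, D.negIdx.getD r 0 < D.nroots ∧ D.negIdx.getD r 0 ≠ r := by
    simp only [List.mem_cons, List.mem_nil_iff, or_false] at hD
    set_option maxRecDepth 100000 in
    set_option maxHeartbeats 4000000 in
    rcases hD with rfl | rfl | rfl | rfl | rfl | rfl | rfl <;> decide
  obtain ⟨hs, hsr⟩ := key r hr
  have hx : D.x F r t = D.xMat F ⟨r, hr⟩ t := by
    unfold Cfsg.Lie.ChevalleyDatum.x
    rw [dif_pos hr]
  rw [hx]
  have hchain : ∀ (a b c : ℕ), ∀ km ∈ D.chainCoeff a b c, km.1 ≠ 0 := by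
    intro a b c km hkm
    simp only [Cfsg.Lie.ChevalleyDatum.chainCoeff, List.mem_flatMap, List.mem_map] at hkm
    obtain ⟨e, -, q, -, rfl⟩ := hkm
    simp
  constructor
  · intro h
    have h1 := congrFun (congrFun h (Sum.inr ⟨r, hr⟩)) (Sum.inr ⟨D.negIdx.getD r 0, hs⟩)
    have hne : (⟨D.negIdx.getD r 0, hs⟩ : Fin D.nroots) ≠ ⟨r, hr⟩ := by
      intro h'
      exact hsr (Fin.mk.inj h')
    simp only [Cfsg.Lie.ChevalleyDatum.xMat, Matrix.of_apply, if_neg hne, if_true, if_neg hne.symm,
      Matrix.one_apply, Sum.inr.injEq] at h1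
    simpa using h1
  · rintro rfl
    ext row col
    rcases col with i | s
    · rcases row with i' | u
      · simp [Cfsg.Lie.ChevalleyDatum.xMat, Matrix.one_apply]
      · simp [Cfsg.Lie.ChevalleyDatum.xMat, Matrix.one_apply]
    · by_cases hsr' : s = ⟨r, hr⟩
      · subst hsr'
        rcases row with i' | u
        · simp [Cfsg.Lie.ChevalleyDatum.xMat, Matrix.one_apply]
        · simp [Cfsg.Lie.ChevalleyDatum.xMat, Matrix.one_apply]
      · by_cases hsn : s.val = D.negIdx.getD r 0
        · rcases row with i' | u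
          · simp [Cfsg.Lie.ChevalleyDatum.xMat, Matrix.one_apply, hsr', hsn]
          · simp [Cfsg.Lie.ChevalleyDatum.xMat, Matrix.one_apply, hsr', hsn]
        · rcases row with i' | u
          · simp [Cfsg.Lie.ChevalleyDatum.xMat, Matrix.one_apply, hsr', hsn]
          · have hsum : ((D.chainCoeff r s.val u.val).map
                fun km => ((km.2 : ℤ) : F) * (0 : F) ^ km.1).sum = 0 := by
              apply List.sum_eq_zero
              intro x hx'
              rw [List.mem_map] at hx'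
              obtain ⟨km, hkm, rfl⟩ := hx'
              rw [zero_pow (hchain _ _ _ km hkm), mul_zero]
            simp [Cfsg.Lie.ChevalleyDatum.xMat, Matrix.one_apply, hsr', hsn, hsum]

end Cfsg.Agent.S1024
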