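import Cfsg.Statements.S1041
-- import your own Cfsg.Agent.* helpers here

set_option autoImplicit false
open Cfsg

namespace Cfsg.Agent.S1041

/-- `U` and `V` generate the whole Chevalley group. -/
theorem result {F : Type*} [Field F] (D : Cfsg.Lie.ChevalleyDatum) (hD : D ∈ [Cfsg.Lie.chevG2, Cfsg.Lie.chevB2, Cfsg.Lie.chevD4, Cfsg.Lie.chevF4, Cfsg.Lie.chevE6, Cfsg.Lie.chevE7, Cfsg.Lie.chevE8]) : D.posUnipotent F ⊔ D.negUnipotent F = D.group F := by
  have key : ∀ r < D.nroots, D.IsPosRoot r ∨ D.IsNegRoot r := by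
    simp only [List.mem_cons, List.mem_nil_iff, or_false] at hD
    set_option maxRecDepth 100000 in
    set_option maxHeartbeats 4000000 in
    rcases hD with rfl | rfl | rfl | rfl | rfl | rfl | rfl <;> decide
  unfold Cfsg.Lie.ChevalleyDatum.posUnipotent Cfsg.Lie.ChevalleyDatum.negUnipotent
    Cfsg.Lie.ChevalleyDatum.group
  rw [← Subgroup.closure_union]
  congr 1
  ext g
  simp only [Set.mem_union, Set.mem_ofPred_eq]
  constructor
  · rintro (⟨r, t, hr, hg⟩ | ⟨r, t, hr, hg⟩)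
    · refine ⟨⟨r, hr.1⟩, t, ?_⟩
      rw [hg]
      unfold Cfsg.Lie.ChevalleyDatum.x
      rw [dif_pos hr.1]
    · refine ⟨⟨r, hr.1⟩, t, ?_⟩
      rw [hg]
      unfold Cfsg.Lie.ChevalleyDatum.x
      rw [dif_pos hr.1]
  · rintro ⟨r, t, hg⟩
    have hx : D.x F r.1 t = D.xMat F r t := by
      unfold Cfsg.Lie.ChevalleyDatum.x
      rw [dif_pos r.2]
    rcases key r.1 r.2 with h | h
    · exact Or.inl ⟨r.1, t, h, by rw [hg, hx]⟩
    · exact Or.inr ⟨r.1, t, h, by rw [hg, hx]⟩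

end Cfsg.Agent.S1041
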