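import Cfsg.Statements.S1080
-- import your own Cfsg.Agent.* helpers here

set_option autoImplicit false
open Cfsg

namespace Cfsg.Agent.S1080

section Aux
open Matrix

variable {F : Type*} [Field F]

theorem xMat_map (D : Cfsg.Lie.ChevalleyDatum) (f : F ≃+* F) (r : Fin D.nroots) (t : F) :
    (D.xMat F r t).map f = D.xMat F r (f t) := by
  ext row col
  simp only [Matrix.map_apply, Cfsg.Lie.ChevalleyDatum.xMat, Matrix.of_apply]
  rcases col with i | s
  · rcases row with i' | u
    · simp only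
      split_ifs <;> simp
    · simp only
      split_ifs <;> simp
  · rcases row with i | u
    · simp only
      split_ifs <;> simp
    · simp only
      split_ifs <;>
        simp [map_list_sum, List.map_map, Function.comp_def]

theorem x_map (D : Cfsg.Lie.ChevalleyDatum) (f : F ≃+* F) (r : ℕ) (t : F) :
    (D.x F r t).map f = D.x F r (f t) := by
  unfold Cfsg.Lie.ChevalleyDatum.x
  split_ifs with h
  · exact xMat_map D f ⟨r, h⟩ t
  · simp

theorem main (D : Cfsg.Lie.ChevalleyDatum) (f : F ≃+* F) :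
    ∃ α : ↥(D.group F) ≃* ↥(D.group F), ∀ (g : ↥(D.group F)) (r : ℕ) (t : F), r < D.nroots →
      ((g : GL D.Idx F) : Matrix D.Idx D.Idx F) = D.x F r t →
        ((α g : GL D.Idx F) : Matrix D.Idx D.Idx F) = D.x F r (f t) := by
  classical
  let Φ : GL D.Idx F ≃* GL D.Idx F := Units.mapEquiv (RingEquiv.mapMatrix f).toMulEquiv
  have hΦ : ∀ g : GL D.Idx F, ((Φ g : GL D.Idx F) : Matrix D.Idx D.Idx F) =
      (g : Matrix D.Idx D.Idx F).map f := fun g => rfl
  have hΦs : ∀ g : GL D.Idx F, ((Φ.symm g : GL D.Idx F) : Matrix D.Idx D.Idx F) =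
      (g : Matrix D.Idx D.Idx F).map f.symm := fun g => rfl
  have hmap : (D.group F).map (Φ : GL D.Idx F →* GL D.Idx F) = D.group F := by
    apply le_antisymm
    · rw [Subgroup.map_le_iff_le_comap]
      unfold Cfsg.Lie.ChevalleyDatum.group
      rw [Subgroup.closure_le]
      rintro g ⟨r, t, hg⟩
      apply Subgroup.subset_closure
      refine ⟨r, f t, ?_⟩
      show ((Φ g : GL D.Idx F) : Matrix D.Idx D.Idx F) = _
      rw [hΦ, hg, xMat_map]
    · unfold Cfsg.Lie.ChevalleyDatum.group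
      rw [Subgroup.closure_le]
      rintro g ⟨r, t, hg⟩
      refine ⟨Φ.symm g, ?_, by simp⟩
      apply Subgroup.subset_closure
      refine ⟨r, f.symm t, ?_⟩
      show ((Φ.symm g : GL D.Idx F) : Matrix D.Idx D.Idx F) = _
      rw [hΦs, hg, xMat_map]
  refine ⟨(Φ.subgroupMap (D.group F)).trans (MulEquiv.subgroupCongr hmap), ?_⟩
  intro g r t hr hg
  show ((Φ g : GL D.Idx F) : Matrix D.Idx D.Idx F) = _
  rw [hΦ, hg, x_map]

end Aux

/-- Field automorphisms: for every field automorphism `f` there is a group automorphism sending each `x_r(t)` to `x_r(f t)`. -/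
theorem result {F : Type*} [Field F] (D : Cfsg.Lie.ChevalleyDatum) (hD : D ∈ [Cfsg.Lie.chevG2, Cfsg.Lie.chevB2, Cfsg.Lie.chevD4, Cfsg.Lie.chevF4, Cfsg.Lie.chevE6, Cfsg.Lie.chevE7, Cfsg.Lie.chevE8]) (f : F ≃+* F) :
    ∃ α : ↥(D.group F) ≃* ↥(D.group F), ∀ (g : ↥(D.group F)) (r : ℕ) (t : F), r < D.nroots →
      ((g : GL D.Idx F) : Matrix D.Idx D.Idx F) = D.x F r t → ((α g : GL D.Idx F) : Matrix D.Idx D.Idx F) = D.x F r (f t) := by
  exact main D f

end Cfsg.Agent.S1080
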