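import Cfsg.Statements.S1118
import Cfsg.Agent.Lib_helper8_RankOne

set_option autoImplicit false
open Cfsg

namespace Cfsg.Agent.S1118

/-- In the rank-one set-up (`G` finite and doubly transitive on `Ω`, `t` an involution moving `a`, `Q` normal in `G_a` with `G_a = Q D`, `Q ⊓ D = 1` for the two-point stabiliser `D = G_a ⊓ G_{t • a}`, `|Q|` even, `|D|` odd), the normaliser of a subset of `Q` containing a non-identity element lies in `G_a`; consequently `N_G(Q) = N_G(G_a) = G_a`. -/
theorem result {G Ω : Type*} [Group G] [Finite G] [MulAction G Ω] {a : Ω} {t : G} {Q : Subgroup G}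
    (hS : Cfsg.IsRankOneSetup G Ω a t Q) :
    (∀ X : Set G, X ⊆ (Q : Set G) → (∃ x ∈ X, x ≠ 1) → Subgroup.normalizer X ≤ MulAction.stabilizer G a) ∧
      Subgroup.normalizer (Q : Set G) = MulAction.stabilizer G a ∧
      Subgroup.normalizer (MulAction.stabilizer G a : Set G) = MulAction.stabilizer G a := by
  have part1 : ∀ X : Set G, X ⊆ (Q : Set G) → (∃ x ∈ X, x ≠ 1) →
      Subgroup.normalizer X ≤ MulAction.stabilizer G a := by
    rintro X hX ⟨x, hxX, hx1⟩ g hg
    rw [Subgroup.mem_set_normalizer_iff] at hg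
    have h1 : g * x * g⁻¹ ∈ X := (hg x).1 hxX
    have h2 : g * x * g⁻¹ ∈ Q := hX h1
    have hxa : x • a = a := MulAction.mem_stabilizer_iff.1 (hS.le (hX hxX))
    rw [MulAction.mem_stabilizer_iff]
    by_contra hne
    have h3 : g * x * g⁻¹ = 1 := Cfsg.Agent.Lib_helper8_RankOne.eq_one_of_fix hS h2 hne
      (by rw [mul_smul, mul_smul, inv_smul_smul, hxa])
    apply hx1
    have h4 : x = g⁻¹ * (g * x * g⁻¹) * g := by group
    rw [h4, h3]
    group
  obtain ⟨x, hxQ, hx1⟩ := Cfsg.Agent.Lib_helper8_RankOne.exists_ne_one hS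
  refine ⟨part1, ?_, ?_⟩
  · apply le_antisymm
    · exact part1 (Q : Set G) (fun y hy => hy) ⟨x, hxQ, hx1⟩
    · intro h hh
      rw [Subgroup.mem_set_normalizer_iff]
      intro n
      constructor
      · intro hn
        exact hS.conj_mem h hh n hn
      · intro hn
        have h1 := hS.conj_mem h⁻¹ (Subgroup.inv_mem _ hh) _ hn
        have h2 : h⁻¹ * (h * n * h⁻¹) * h⁻¹⁻¹ = n := by group
        rw [h2] at h1
        exact h1
  · apply le_antisymm
    · intro g hg
      rw [Subgroup.mem_set_normalizer_iff''] at hg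
      have h1 : g⁻¹ * x * g ∈ MulAction.stabilizer G a := (hg x).1 (hS.le hxQ)
      rw [MulAction.mem_stabilizer_iff, mul_smul, mul_smul] at h1
      rw [MulAction.mem_stabilizer_iff]
      by_contra hne
      apply hx1
      exact Cfsg.Agent.Lib_helper8_RankOne.eq_one_of_fix hS hxQ hne (inv_smul_eq_iff.1 h1)
    · exact Subgroup.le_normalizer

end Cfsg.Agent.S1118
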