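import Cfsg.Statements.S1120
import Cfsg.Agent.Lib_helper8_RankOne

set_option autoImplicit false
open Cfsg

namespace Cfsg.Agent.S1120

section Aux
open MulAction Cfsg.Agent.Lib_helper8_RankOne

variable {G Ω : Type*} [Group G] [Finite G] [MulAction G Ω] {a : Ω} {t : G} {Q : Subgroup G}

theorem pow_coset {H : Type*} [Group H] (N : Subgroup H) [hN : N.Normal] (z o : H) (ho : o ∈ N)
    (n : ℕ) : ∃ o' ∈ N, (z * o) ^ n = z ^ n * o' := by
  induction n with
  | zero => exact ⟨1, N.one_mem, by simp⟩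
  | succ n ih =>
    obtain ⟨o', ho', h⟩ := ih
    refine ⟨(z⁻¹ * o' * z⁻¹⁻¹) * o, N.mul_mem (hN.conj_mem o' ho' z⁻¹) ho, ?_⟩
    rw [pow_succ, h, pow_succ]
    group

theorem main (hS : Cfsg.IsRankOneSetup G Ω a t Q)
    (h2 : ∃ x y : G, x ≠ 1 ∧ y ≠ 1 ∧ x ≠ y ∧ x * x = 1 ∧ y * y = 1 ∧ x * y = y * x) :
    Cfsg.pPrimeCore 2 G = (stabilizer G a).normalCore := by
  classical
  apply le_antisymm
  · apply sSup_le
    rintro N ⟨hN, hco⟩
    haveI := hN
    rw [Subgroup.normal_le_normalCore]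
    obtain ⟨x₀, y₀, hx₀1, hy₀1, hxy₀, hx₀2, hy₀2, hcomm₀⟩ := h2
    obtain ⟨c, hc⟩ := exists_fix hS hx₀2
    have hyc : y₀ • c = c := by
      apply fix_unique hS hx₀1 hx₀2 _ hc
      rw [← mul_smul, hcomm₀, mul_smul, hc]
    obtain ⟨g₀, hg₀⟩ := exists_smul_eq_a hS c
    obtain ⟨x, hxdef⟩ : ∃ x, x = g₀ * x₀ * g₀⁻¹ := ⟨_, rfl⟩
    obtain ⟨y, hydef⟩ : ∃ y, y = g₀ * y₀ * g₀⁻¹ := ⟨_, rfl⟩
    have hxa : x ∈ stabilizer G a := by
      rw [hxdef, mem_stabilizer_iff, mul_smul, mul_smul, ← hg₀, inv_smul_smul, hc]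
    have hya : y ∈ stabilizer G a := by
      rw [hydef, mem_stabilizer_iff, mul_smul, mul_smul, ← hg₀, inv_smul_smul, hyc]
    have hx1 : x ≠ 1 := by
      intro h
      apply hx₀1
      have h0 : x₀ = g₀⁻¹ * (g₀ * x₀ * g₀⁻¹) * g₀ := by group
      rw [h0, ← hxdef, h]
      group
    have hy1 : y ≠ 1 := by
      intro h
      apply hy₀1
      have h0 : y₀ = g₀⁻¹ * (g₀ * y₀ * g₀⁻¹) * g₀ := by group
      rw [h0, ← hydef, h]
      group
    have hx2 : x * x = 1 := by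
      rw [hxdef]
      calc g₀ * x₀ * g₀⁻¹ * (g₀ * x₀ * g₀⁻¹) = g₀ * (x₀ * x₀) * g₀⁻¹ := by group
        _ = 1 := by rw [hx₀2]; group
    have hy2 : y * y = 1 := by
      rw [hydef]
      calc g₀ * y₀ * g₀⁻¹ * (g₀ * y₀ * g₀⁻¹) = g₀ * (y₀ * y₀) * g₀⁻¹ := by group
        _ = 1 := by rw [hy₀2]; group
    have hcomm : x * y = y * x := by
      rw [hxdef, hydef]
      calc g₀ * x₀ * g₀⁻¹ * (g₀ * y₀ * g₀⁻¹) = g₀ * (x₀ * y₀) * g₀⁻¹ := by group
        _ = g₀ * (y₀ * x₀) * g₀⁻¹ := by rw [hcomm₀]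
        _ = g₀ * y₀ * g₀⁻¹ * (g₀ * x₀ * g₀⁻¹) := by group
    have hxy : x ≠ y := by
      intro h
      apply hxy₀
      have h0 : x₀ = g₀⁻¹ * (g₀ * x₀ * g₀⁻¹) * g₀ := by group
      rw [h0, ← hxdef, h, hydef]
      group
    have hxinv : x⁻¹ = x := inv_eq_of_mul_eq_one_left hx2
    have hyinv : y⁻¹ = y := inv_eq_of_mul_eq_one_left hy2
    have hz1 : x * y ≠ 1 := by
      intro h
      apply hxy
      have h0 := eq_inv_of_mul_eq_one_left h
      rw [hyinv] at h0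
      exact h0
    have hz2 : (x * y) * (x * y) = 1 := by
      calc x * y * (x * y) = x * (y * x) * y := by group
        _ = x * (x * y) * y := by rw [hcomm]
        _ = (x * x) * (y * y) := by group
        _ = 1 := by rw [hx2, hy2, mul_one]
    intro g hg
    rw [mem_stabilizer_iff]
    by_contra hga
    have hw2 : (g * y * g⁻¹) * (g * y * g⁻¹) = 1 := by
      calc g * y * g⁻¹ * (g * y * g⁻¹) = g * (y * y) * g⁻¹ := by group
        _ = 1 := by rw [hy2]; group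
    have hw1 : g * y * g⁻¹ ≠ 1 := by
      intro h
      apply hy1
      have h0 : y = g⁻¹ * (g * y * g⁻¹) * g := by group
      rw [h0, h]
      group
    have hwn : g * y * g⁻¹ ∉ stabilizer G a := by
      intro h
      apply hga
      apply fix_eq_a hS h hw1 hw2
      rw [mul_smul, mul_smul, inv_smul_smul, mem_stabilizer_iff.1 hya]
    have hodd := odd_order hS hxa hx1 hx2 hwn hw2
    have ho : y⁻¹ * g * y⁻¹⁻¹ * g⁻¹ ∈ N := N.mul_mem (hN.conj_mem g hg y⁻¹) (N.inv_mem hg)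
    have hprod : x * (g * y * g⁻¹) = (x * y) * (y⁻¹ * g * y⁻¹⁻¹ * g⁻¹) := by group
    rw [hprod] at hodd
    obtain ⟨k, hk⟩ := hodd
    obtain ⟨o', ho', h⟩ := pow_coset N (x * y) _ ho (2 * k + 1)
    have hpow : (x * y) ^ (2 * k + 1) = x * y := by
      rw [pow_succ, pow_mul, pow_two, hz2, one_pow, one_mul]
    have hone : (x * y * (y⁻¹ * g * y⁻¹⁻¹ * g⁻¹)) ^ (2 * k + 1) = 1 := by
      rw [← hk]
      exact pow_orderOf_eq_one _
    rw [hpow, hone] at h
    have hzN : x * y ∈ N := by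
      have h0 : x * y = o'⁻¹ := eq_inv_of_mul_eq_one_left h.symm
      rw [h0]
      exact N.inv_mem ho'
    have hord : orderOf (x * y) = 2 := orderOf_eq_prime (by rw [pow_two]; exact hz2) hz1
    have hdvd : orderOf (x * y) ∣ Nat.card N := Subgroup.orderOf_dvd_natCard _ hzN
    rw [hord] at hdvd
    have h3 : (2 : ℕ) ∣ Nat.gcd (Nat.card N) 2 := Nat.dvd_gcd hdvd (dvd_refl 2)
    rw [Nat.Coprime.gcd_eq_one hco] at h3
    omega
  · apply le_sSup
    refine ⟨Subgroup.normalCore_normal _, ?_⟩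
    have hle : (stabilizer G a).normalCore ≤ stabilizer G a ⊓ stabilizer G (t • a) := by
      intro h hh
      refine Subgroup.mem_inf.2 ⟨Subgroup.normalCore_le _ hh, ?_⟩
      have h1 : t⁻¹ * h * t⁻¹⁻¹ ∈ (stabilizer G a).normalCore :=
        (Subgroup.normalCore_normal _).conj_mem h hh t⁻¹
      have h2 := Subgroup.normalCore_le _ h1
      rw [mem_stabilizer_iff, inv_inv, mul_smul, mul_smul] at h2
      rw [mem_stabilizer_iff]
      exact inv_smul_eq_iff.1 h2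
    have hdvd := Subgroup.card_dvd_of_le hle
    have hodd : Odd (Nat.card ↥(stabilizer G a).normalCore) := Odd.of_dvd_nat hS.odd_card hdvd
    exact Nat.coprime_two_right.2 hodd

end Aux

/-- In the rank-one set-up (`G` finite and doubly transitive on `Ω`, `t` an involution moving `a`, `Q` normal in `G_a` with `G_a = Q D`, `Q ⊓ D = 1` for the two-point stabiliser `D = G_a ⊓ G_{t • a}`, `|Q|` even, `|D|` odd), if `G` has 2-rank at least 2 then `O_{2'}(G)` equals the normal core of `G_a`. -/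
theorem result {G Ω : Type*} [Group G] [Finite G] [MulAction G Ω] {a : Ω} {t : G} {Q : Subgroup G}
    (hS : Cfsg.IsRankOneSetup G Ω a t Q)
    (h2 : ∃ x y : G, x ≠ 1 ∧ y ≠ 1 ∧ x ≠ y ∧ x * x = 1 ∧ y * y = 1 ∧ x * y = y * x) :
    Cfsg.pPrimeCore 2 G = (MulAction.stabilizer G a).normalCore := by
  exact main hS h2

end Cfsg.Agent.S1120
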