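import Cfsg.Statements.S1122
import Cfsg.Agent.Lib_helper8_RankOne

set_option autoImplicit false
open Cfsg

namespace Cfsg.Agent.S1122

/-- In the rank-one set-up (`G` finite and doubly transitive on `Ω`, `t` an involution moving `a`, `Q` normal in `G_a` with `G_a = Q D`, `Q ⊓ D = 1` for the two-point stabiliser `D = G_a ⊓ G_{t • a}`, `|Q|` even, `|D|` odd), with `K` the set of elements of `D` inverted by `t`: `|K|` is the number of involutions of `G_a`, and for each involution `s` of `G_a` the `K`-conjugates of `s` are all the involutions of `G_a`. -/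
theorem result {G Ω : Type*} [Group G] [Finite G] [MulAction G Ω] {a : Ω} {t : G} {Q : Subgroup G}
    (hS : Cfsg.IsRankOneSetup G Ω a t Q) :
    Nat.card (Cfsg.invertedBy (MulAction.stabilizer G a ⊓ MulAction.stabilizer G (t • a)) t) = Nat.card (Cfsg.involutionsIn (MulAction.stabilizer G a : Set G)) ∧
      ∀ s ∈ Cfsg.involutionsIn (MulAction.stabilizer G a : Set G), ∀ s' ∈ Cfsg.involutionsIn (MulAction.stabilizer G a : Set G),
        ∃ k ∈ Cfsg.invertedBy (MulAction.stabilizer G a ⊓ MulAction.stabilizer G (t • a)) t, k⁻¹ * s * k = s' := by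
  classical
  obtain ⟨s₀, hs₀Q, hs₀1, hs₀2⟩ := Cfsg.Agent.Lib_helper8_RankOne.exists_invol hS
  have hs₀ := hS.le hs₀Q
  refine ⟨?_, ?_⟩
  · have hmap : ∀ k : Cfsg.invertedBy (MulAction.stabilizer G a ⊓ MulAction.stabilizer G (t • a)) t,
        (k : G)⁻¹ * s₀ * (k : G) ∈ Cfsg.involutionsIn (MulAction.stabilizer G a : Set G) := by
      rintro ⟨k, hkD, hkt⟩
      have hkG := (Subgroup.mem_inf.1 hkD).1
      refine ⟨Subgroup.mul_mem _ (Subgroup.mul_mem _ (Subgroup.inv_mem _ hkG) hs₀) hkG, ?_, ?_⟩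
      · intro h
        apply hs₀1
        have h1 : s₀ = k * (k⁻¹ * s₀ * k) * k⁻¹ := by group
        rw [h1, h]
        group
      · calc k⁻¹ * s₀ * k * (k⁻¹ * s₀ * k) = k⁻¹ * (s₀ * s₀) * k := by group
          _ = 1 := by rw [hs₀2]; group
    have hbij : Function.Bijective
        (fun k : Cfsg.invertedBy (MulAction.stabilizer G a ⊓ MulAction.stabilizer G (t • a)) t =>
          (⟨_, hmap k⟩ : Cfsg.involutionsIn (MulAction.stabilizer G a : Set G))) := by
      constructor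
      · rintro ⟨k, hk⟩ ⟨k', hk'⟩ h
        exact Subtype.ext (Cfsg.Agent.Lib_helper8_RankOne.K_inj hS hs₀ hs₀1 hs₀2 hk hk'
          (congrArg Subtype.val h))
      · rintro ⟨s', hs'a, hs'1, hs'2⟩
        obtain ⟨k, hk, hks⟩ :=
          Cfsg.Agent.Lib_helper8_RankOne.K_trans hS hs₀ hs₀1 hs₀2 hs'a hs'1 hs'2
        exact ⟨⟨k, hk⟩, Subtype.ext hks⟩
    exact Nat.card_congr (Equiv.ofBijective _ hbij)
  · rintro s ⟨hs, hs1, hs2⟩ s' ⟨hs', hs'1, hs'2⟩
    exact Cfsg.Agent.Lib_helper8_RankOne.K_trans hS hs hs1 hs2 hs' hs'1 hs'2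

end Cfsg.Agent.S1122
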