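import Cfsg.Statements.S1123
import Cfsg.Agent.Lib_helper8_RankOne

set_option autoImplicit false
open Cfsg

namespace Cfsg.Agent.S1123

/-- In the rank-one set-up (`G` finite and doubly transitive on `Ω`, `t` an involution moving `a`, `Q` normal in `G_a` with `G_a = Q D`, `Q ⊓ D = 1` for the two-point stabiliser `D = G_a ⊓ G_{t • a}`, `|Q|` even, `|D|` odd), there is a unique pair `(s, r)` with `s` an involution of `G_a`, `r ∈ Q` and `t s t = r⁻¹ t r`. -/
theorem result {G Ω : Type*} [Group G] [Finite G] [MulAction G Ω] {a : Ω} {t : G} {Q : Subgroup G}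
    (hS : Cfsg.IsRankOneSetup G Ω a t Q) :
    ∃! p : G × G, p.1 ∈ Cfsg.involutionsIn (MulAction.stabilizer G a : Set G) ∧ p.2 ∈ Q ∧
      t * p.1 * t = p.2⁻¹ * t * p.2 := by
  have ht : t⁻¹ = t := Cfsg.Agent.Lib_helper8_RankOne.t_inv hS
  have htt : t * t = 1 := hS.mul_self
  have htt' : ∀ z : G, t * (t * z) = z := fun z => by rw [← mul_assoc, htt, one_mul]
  have hts : ∀ z : Ω, t • t • z = z := fun z => by rw [smul_smul, htt, one_smul]
  obtain ⟨c, hc⟩ := Cfsg.Agent.Lib_helper8_RankOne.exists_fix hS hS.mul_self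
  have hca : c ≠ a := by
    rintro rfl
    exact Cfsg.Agent.Lib_helper8_RankOne.ta_ne hS hc
  obtain ⟨r, hrQ, hr⟩ := Cfsg.Agent.Lib_helper8_RankOne.exists_Q_smul hS hca
  have hr2 : r⁻¹ • c = t • a := inv_smul_eq_iff.2 hr.symm
  have key : ∀ s' r' : G, s' ∈ Cfsg.involutionsIn (MulAction.stabilizer G a : Set G) → r' ∈ Q →
      t * s' * t = r'⁻¹ * t * r' → r' = r ∧ s' = t * r⁻¹ * t * r * t := by
    intro s' r' hs' hr'Q e
    obtain ⟨hs'a, hs'1, hs'2⟩ := hs'
    have h1 : (t * s' * t) • (r'⁻¹ • c) = r'⁻¹ • c := by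
      rw [e, mul_smul, mul_smul, smul_inv_smul, hc]
    rw [mul_smul, mul_smul] at h1
    have h2 : s' • t • r'⁻¹ • c = t • r'⁻¹ • c := by
      calc s' • t • r'⁻¹ • c = t • (t • s' • t • r'⁻¹ • c) := (hts _).symm
        _ = t • r'⁻¹ • c := by rw [h1]
    have h3 : t • r'⁻¹ • c = a :=
      Cfsg.Agent.Lib_helper8_RankOne.fix_eq_a hS (SetLike.mem_coe.1 hs'a) hs'1 hs'2 h2
    have h4 : r' • t • a = c := by rw [← h3, hts, smul_inv_smul]
    have h5 : r' = r := Cfsg.Agent.Lib_helper8_RankOne.eq_of_smul_eq hS hr'Q hrQ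
      (Cfsg.Agent.Lib_helper8_RankOne.ta_ne hS) (h4.trans hr.symm)
    refine ⟨h5, ?_⟩
    have h6 : s' = t * (t * s' * t) * t := by
      simp only [mul_assoc, htt, htt', mul_one]
    rw [h6, e, h5]
    simp only [mul_assoc]
  refine ⟨(t * r⁻¹ * t * r * t, r), ⟨⟨?_, ?_, ?_⟩, hrQ, ?_⟩, ?_⟩
  · rw [SetLike.mem_coe, MulAction.mem_stabilizer_iff, mul_smul, mul_smul, mul_smul, mul_smul,
      hr, hc, hr2, hts]
  · intro h0
    have h : t * r⁻¹ * t * r * t = 1 := h0
    apply hS.ne_one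
    have h1 : t = (r * t) * (t * r⁻¹ * t * r * t) * (t * r⁻¹) := by
      simp only [mul_assoc, mul_inv_rev, inv_inv, ht, htt, htt', mul_one, one_mul,
        inv_mul_cancel_left, mul_inv_cancel_left, inv_mul_cancel, mul_inv_cancel]
    rw [h1, h]
    simp only [mul_assoc, mul_inv_rev, inv_inv, ht, htt, htt', mul_one, one_mul,
      inv_mul_cancel_left, mul_inv_cancel_left, inv_mul_cancel, mul_inv_cancel]
  · simp only [mul_assoc, mul_inv_rev, inv_inv, ht, htt, htt', mul_one, one_mul,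
      inv_mul_cancel_left, mul_inv_cancel_left, inv_mul_cancel, mul_inv_cancel]
  · simp only [mul_assoc, mul_inv_rev, inv_inv, ht, htt, htt', mul_one, one_mul,
      inv_mul_cancel_left, mul_inv_cancel_left, inv_mul_cancel, mul_inv_cancel]
  · rintro ⟨s', r'⟩ ⟨hs', hr', e⟩
    obtain ⟨h1, h2⟩ := key s' r' hs' hr' e
    rw [h1, h2]

end Cfsg.Agent.S1123
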