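import Cfsg.Statements.S1124
-- import your own Cfsg.Agent.* helpers here

set_option autoImplicit false
open scoped Pointwise
open Cfsg

namespace Cfsg.Agent.S1124

section Aux
variable {M : Type*} [Group M] [Finite M]

theorem sq_root_unique {g : M} (hg : Odd (orderOf g)) :
    (g * g) ^ ((orderOf (g * g) + 1) / 2) = g := by
  have h1 : orderOf (g * g) = orderOf g := by
    rw [← pow_two]
    exact Nat.Coprime.orderOf_pow (Nat.Coprime.symm (Nat.coprime_two_left.mpr hg))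
  rw [h1, ← pow_two, ← pow_mul]
  obtain ⟨k, hk⟩ := hg
  have h2 : 2 * ((orderOf g + 1) / 2) = orderOf g + 1 := by omega
  rw [h2, pow_succ, pow_orderOf_eq_one, one_mul]

theorem odd_orderOf (X : Subgroup M) (hodd : Odd (Nat.card X)) {g : M} (hg : g ∈ X) :
    Odd (orderOf g) := by
  have h1 : orderOf (⟨g, hg⟩ : X) = orderOf g := Subgroup.orderOf_mk g hg
  rw [← h1]
  exact Odd.of_dvd_nat hodd (orderOf_dvd_natCard _)

theorem main (t : M) (ht : orderOf t = 2) (X : Subgroup M) (hodd : Odd (Nat.card X))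
    (hnorm : ∀ x ∈ X, t * x * t⁻¹ ∈ X) :
    (∀ x ∈ X, ∃! p : M × M, p.1 ∈ X ⊓ Subgroup.centralizer {t} ∧ p.2 ∈ Cfsg.invertedBy X t ∧
        x = p.1 * p.2) ∧
      Nat.card X = Nat.card ↥(X ⊓ Subgroup.centralizer {t}) * Nat.card (Cfsg.invertedBy X t) ∧
      ∀ x ∈ X, ∀ h ∈ Subgroup.closure (Cfsg.invertedBy X t),
        x * h * x⁻¹ ∈ Subgroup.closure (Cfsg.invertedBy X t) := by
  classical
  have htt : t * t = 1 := by
    rw [← pow_two, ← ht, pow_orderOf_eq_one]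
  have htinv : t⁻¹ = t := inv_eq_of_mul_eq_one_left htt
  have hcent : ∀ y : M, y ∈ Subgroup.centralizer {t} ↔ t * y * t⁻¹ = y := by
    intro y
    rw [Subgroup.mem_centralizer_iff]
    constructor
    · intro h
      rw [h t rfl, mul_assoc, mul_inv_cancel, mul_one]
    · intro h s hs
      rw [Set.mem_singleton_iff] at hs
      rw [hs]
      have h1 := congrArg (· * t) h
      simp only [inv_mul_cancel_right] at h1
      exact h1
  -- existence and uniqueness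
  have key : ∀ x ∈ X, ∃! p : M × M, p.1 ∈ X ⊓ Subgroup.centralizer {t} ∧
      p.2 ∈ Cfsg.invertedBy X t ∧ x = p.1 * p.2 := by
    intro x hx
    set u := (t * x * t⁻¹)⁻¹ * x with hu
    have huX : u ∈ X := X.mul_mem (X.inv_mem (hnorm x hx)) hx
    have hτu : t * u * t⁻¹ = u⁻¹ := by
      rw [hu]
      have e1 : t * ((t * x * t⁻¹)⁻¹ * x) * t⁻¹ = (t * t) * x⁻¹ * t⁻¹ * x * t⁻¹ := by group
      have e2 : ((t * x * t⁻¹)⁻¹ * x)⁻¹ = x⁻¹ * t * x * t⁻¹ := by group
      rw [e1, e2, htt, one_mul, htinv]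
    have huodd := odd_orderOf X hodd huX
    set z := u ^ ((orderOf u + 1) / 2) with hz
    have hzX : z ∈ X := X.pow_mem huX _
    have hzz : z * z = u := by
      rw [hz, ← pow_add]
      obtain ⟨k, hk⟩ := huodd
      have h2 : (orderOf u + 1) / 2 + (orderOf u + 1) / 2 = orderOf u + 1 := by omega
      rw [h2, pow_succ, pow_orderOf_eq_one, one_mul]
    have hτz : t * z * t⁻¹ = z⁻¹ := by
      rw [hz, ← conj_pow, hτu, inv_pow]
    have hzZ : z ∈ Cfsg.invertedBy X t := ⟨hzX, hτz⟩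
    have hy : t * (x * z⁻¹) * t⁻¹ = x * z⁻¹ := by
      have e1 : t * (x * z⁻¹) * t⁻¹ = (t * x * t⁻¹) * (t * z * t⁻¹)⁻¹ := by group
      rw [e1, hτz, inv_inv]
      have e2 : t * x * t⁻¹ = x * u⁻¹ := by
        rw [hu]
        group
      rw [e2, ← hzz]
      group
    refine ⟨(x * z⁻¹, z), ⟨⟨X.mul_mem hx (X.inv_mem hzX), (hcent _).mpr hy⟩, hzZ, by group⟩, ?_⟩
    rintro ⟨y', z'⟩ ⟨⟨hy'X, hy'C⟩, ⟨hz'X, hz'τ⟩, hxe⟩
    simp only at hy'X hy'C hz'X hz'τ hxe
    have hy'τ : t * y' * t⁻¹ = y' := (hcent y').mp hy'C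
    have hz'z' : z' * z' = u := by
      rw [hu, hxe]
      have e1 : t * (y' * z') * t⁻¹ = (t * y' * t⁻¹) * (t * z' * t⁻¹) := by group
      rw [e1, hy'τ, hz'τ]
      group
    have hz'eq : z' = z := by
      have h1 := sq_root_unique (odd_orderOf X hodd hz'X)
      rw [hz'z'] at h1
      exact h1.symm
    have hy'eq : y' = x * z⁻¹ := by
      rw [hxe, hz'eq]
      group
    rw [hy'eq, hz'eq]
  refine ⟨key, ?_, ?_⟩
  · let f : ↥(X ⊓ Subgroup.centralizer {t}) × ↥(Cfsg.invertedBy X t) → ↥X :=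
      fun p => ⟨p.1.1 * p.2.1, X.mul_mem p.1.2.1 p.2.2.1⟩
    have hf : Function.Bijective f := by
      constructor
      · rintro ⟨⟨y, hy⟩, ⟨z, hz⟩⟩ ⟨⟨y', hy'⟩, ⟨z', hz'⟩⟩ h
        have h1 : y * z = y' * z' := congrArg Subtype.val h
        obtain ⟨p, -, hp⟩ := key (y * z) (X.mul_mem hy.1 hz.1)
        have e1 := hp (y, z) ⟨hy, hz, rfl⟩
        have e2 := hp (y', z') ⟨hy', hz', h1⟩
        have e3 : (y, z) = (y', z') := e1.trans e2.symm
        have e4 : y = y' := congrArg Prod.fst e3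
        have e5 : z = z' := congrArg Prod.snd e3
        subst e4
        subst e5
        rfl
      · rintro ⟨x, hx⟩
        obtain ⟨⟨y, z⟩, ⟨hy, hz, hxe⟩, -⟩ := key x hx
        exact ⟨(⟨y, hy⟩, ⟨z, hz⟩), Subtype.ext hxe.symm⟩
    rw [← Nat.card_congr (Equiv.ofBijective f hf), Nat.card_prod]
  · have hYZ : ∀ y ∈ X ⊓ Subgroup.centralizer {t}, ∀ z ∈ Cfsg.invertedBy X t,
        y * z * y⁻¹ ∈ Cfsg.invertedBy X t := by
      rintro y ⟨hyX, hyC⟩ z ⟨hzX, hzτ⟩
      refine ⟨X.mul_mem (X.mul_mem hyX hzX) (X.inv_mem hyX), ?_⟩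
      have hyτ : t * y * t⁻¹ = y := (hcent y).mp hyC
      have e1 : t * (y * z * y⁻¹) * t⁻¹ = (t * y * t⁻¹) * (t * z * t⁻¹) * (t * y * t⁻¹)⁻¹ := by
        group
      rw [e1, hyτ, hzτ]
      group
    intro x hx h hh
    obtain ⟨⟨y, z₀⟩, ⟨hy, hz₀, hxe⟩, -⟩ := key x hx
    simp only at hy hz₀ hxe
    induction hh using Subgroup.closure_induction with
    | mem z hz =>
      have e1 : x * z * x⁻¹ = (y * z₀ * y⁻¹) * (y * z * y⁻¹) * (y * z₀ * y⁻¹)⁻¹ := by
        rw [hxe]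
        group
      rw [e1]
      exact Subgroup.mul_mem _ (Subgroup.mul_mem _ (Subgroup.subset_closure (hYZ y hy z₀ hz₀))
        (Subgroup.subset_closure (hYZ y hy z hz)))
        (Subgroup.inv_mem _ (Subgroup.subset_closure (hYZ y hy z₀ hz₀)))
    | one =>
      rw [mul_one, mul_inv_cancel]
      exact Subgroup.one_mem _
    | mul a b _ _ iha ihb =>
      have e1 : x * (a * b) * x⁻¹ = (x * a * x⁻¹) * (x * b * x⁻¹) := by group
      rw [e1]
      exact Subgroup.mul_mem _ iha ihb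
    | inv a _ iha =>
      have e1 : x * a⁻¹ * x⁻¹ = (x * a * x⁻¹)⁻¹ := by group
      rw [e1]
      exact Subgroup.inv_mem _ iha

end Aux

/-- Let `t` be an element of order 2 of a finite group normalising a subgroup `X` of odd order, `Y = C_X(t)` and `Z` the set of elements of `X` inverted by `t`. Then `(y, z) ↦ y z` is a bijection `Y × Z → X`, so `|X| = |Y| |Z|`, and the subgroup generated by `Z` is normal in `X`. -/
theorem result {M : Type*} [Group M] [Finite M]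
    (t : M) (ht : orderOf t = 2) (X : Subgroup M) (hodd : Odd (Nat.card X))
    (hnorm : ∀ x ∈ X, t * x * t⁻¹ ∈ X) :
    (∀ x ∈ X, ∃! p : M × M, p.1 ∈ X ⊓ Subgroup.centralizer {t} ∧ p.2 ∈ Cfsg.invertedBy X t ∧ x = p.1 * p.2) ∧
      Nat.card X = Nat.card ↥(X ⊓ Subgroup.centralizer {t}) * Nat.card (Cfsg.invertedBy X t) ∧
      ∀ x ∈ X, MulAut.conj x • Subgroup.closure (Cfsg.invertedBy X t) = Subgroup.closure (Cfsg.invertedBy X t) := by
  obtain ⟨h1, h2, h3⟩ := main t ht X hodd hnorm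
  refine ⟨h1, h2, ?_⟩
  intro x hx
  ext g
  rw [Subgroup.mem_pointwise_smul_iff_inv_smul_mem]
  have e1 : (MulAut.conj x)⁻¹ • g = x⁻¹ * g * (x⁻¹)⁻¹ := by
    rw [← map_inv, MulAut.smul_def, MulAut.conj_apply]
  rw [e1]
  constructor
  · intro hg
    have h4 := h3 x hx _ hg
    have e2 : x * (x⁻¹ * g * (x⁻¹)⁻¹) * x⁻¹ = g := by group
    rwa [e2] at h4
  · intro hg
    exact h3 x⁻¹ (X.inv_mem hx) g hg

end Cfsg.Agent.S1124
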