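import Cfsg.Statements.S1125
import Cfsg.Agent.Lib_helper8_RankOne

set_option autoImplicit false
open Cfsg

namespace Cfsg.Agent.S1125

section Aux
open MulAction Cfsg.Agent.Lib_helper8_RankOne

variable {G Ω : Type*} [Group G] [Finite G] [MulAction G Ω] {a : Ω} {t : G} {Q : Subgroup G}

theorem main (hS : Cfsg.IsRankOneSetup G Ω a t Q)
    (X : Set G) (hX : X ⊆ ((stabilizer G a ⊓ stabilizer G (t • a)) : Set G))
    (h3 : ∃ b c d : Ω, b ≠ c ∧ b ≠ d ∧ c ≠ d ∧ ∀ x ∈ X, x • b = b ∧ x • c = c ∧ x • d = d) :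
    (∀ b₁ b₂ c₁ c₂ : Ω, (∀ x ∈ X, x • b₁ = b₁ ∧ x • b₂ = b₂ ∧ x • c₁ = c₁ ∧ x • c₂ = c₂) →
        b₁ ≠ b₂ → c₁ ≠ c₂ → ∃ g ∈ Subgroup.centralizer X, g • b₁ = c₁ ∧ g • b₂ = c₂) ∧
      Even (Nat.card ↥(Subgroup.centralizer X ⊓ Q)) ∧
      (Subgroup.centralizer X ⊓ Q) ⊔
        (Subgroup.centralizer X ⊓ (stabilizer G a ⊓ stabilizer G (t • a))) =
          Subgroup.centralizer X ⊓ stabilizer G a := by
  classical
  have htt := hS.mul_self
  have htt' : ∀ z : G, t * (t * z) = z := fun z => by rw [← mul_assoc, htt, one_mul]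
  have hts : ∀ z : Ω, t • t • z = z := fun z => by rw [smul_smul, htt, one_smul]
  have htane := ta_ne hS
  have hXa : ∀ x ∈ X, x • a = a :=
    fun x hx => mem_stabilizer_iff.1 (Subgroup.mem_inf.1 (hX hx)).1
  have hXta : ∀ x ∈ X, x • (t • a) = t • a :=
    fun x hx => mem_stabilizer_iff.1 (Subgroup.mem_inf.1 (hX hx)).2
  have hXG : ∀ x ∈ X, x ∈ stabilizer G a := fun x hx => (Subgroup.mem_inf.1 (hX hx)).1
  have stepA : ∀ b c : Ω, b ≠ a → c ≠ a → (∀ x ∈ X, x • b = b) → (∀ x ∈ X, x • c = c) →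
      ∃ y ∈ Subgroup.centralizer X ⊓ Q, y • b = c := by
    intro b c hb hc hFb hFc
    obtain ⟨y, hy, hyb⟩ := exists_Q_smul' hS hb hc
    refine ⟨y, Subgroup.mem_inf.2 ⟨?_, hy⟩, hyb⟩
    rw [Subgroup.mem_centralizer_iff]
    intro x hx
    exact comm_of_fix hS (hXG x hx) hb (hFb x hx) (hFc x hx) hy hyb
  have stepB : ∀ b c : Ω, b ≠ t • a → c ≠ t • a → (∀ x ∈ X, x • b = b) →
      (∀ x ∈ X, x • c = c) → ∃ y ∈ Subgroup.centralizer X, y • b = c := by
    intro b c hb hc hFb hFc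
    have hb' : t • b ≠ a := fun h => hb (by rw [← h, hts])
    have hc' : t • c ≠ a := fun h => hc (by rw [← h, hts])
    obtain ⟨y, hy, hyb⟩ := exists_Q_smul' hS hb' hc'
    refine ⟨t * y * t, ?_, ?_⟩
    · rw [Subgroup.mem_centralizer_iff]
      intro x hx
      have hx' := t_conj_D hS (hX hx)
      have h1 : (t * x * t) * y = y * (t * x * t) := by
        apply comm_of_fix hS (Subgroup.mem_inf.1 hx').1 hb' _ _ hy hyb
        · rw [mul_smul, mul_smul, hts, hFb x hx]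
        · rw [mul_smul, mul_smul, hts, hFc x hx]
      calc x * (t * y * t) = t * ((t * x * t) * y) * t := by simp only [mul_assoc, htt']
        _ = t * (y * (t * x * t)) * t := by rw [h1]
        _ = t * y * t * x := by simp only [mul_assoc, htt', htt, mul_one]
    · rw [mul_smul, mul_smul, hyb, hts]
  have hCF : ∀ g ∈ Subgroup.centralizer X, ∀ e : Ω, (∀ x ∈ X, x • e = e) →
      ∀ x ∈ X, x • g • e = g • e := by
    intro g hg e he x hx
    rw [Subgroup.mem_centralizer_iff] at hg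
    rw [← mul_smul, hg x hx, mul_smul, he x hx]
  obtain ⟨d, hda, hdta, hFd⟩ : ∃ d : Ω, d ≠ a ∧ d ≠ t • a ∧ ∀ x ∈ X, x • d = d := by
    obtain ⟨b, c, d, hbc, hbd, hcd, hF⟩ := h3
    by_cases h1 : b ≠ a ∧ b ≠ t • a
    · exact ⟨b, h1.1, h1.2, fun x hx => (hF x hx).1⟩
    by_cases h2 : c ≠ a ∧ c ≠ t • a
    · exact ⟨c, h2.1, h2.2, fun x hx => (hF x hx).2.1⟩
    have hb : b = a ∨ b = t • a := by
      by_contra h
      push_neg at h
      exact h1 ⟨h.1, h.2⟩
    have hc : c = a ∨ c = t • a := by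
      by_contra h
      push_neg at h
      exact h2 ⟨h.1, h.2⟩
    refine ⟨d, ?_, ?_, fun x hx => (hF x hx).2.2⟩
    · intro hd
      rcases hb with hb | hb
      · exact hbd (hb.trans hd.symm)
      · rcases hc with hc | hc
        · exact hcd (hc.trans hd.symm)
        · exact hbc (hb.trans hc.symm)
    · intro hd
      rcases hb with hb | hb
      · rcases hc with hc | hc
        · exact hbc (hb.trans hc.symm)
        · exact hcd (hc.trans hd.symm)
      · exact hbd (hb.trans hd.symm)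
  have stepC1 : ∀ e : Ω, (∀ x ∈ X, x • e = e) → ∃ g ∈ Subgroup.centralizer X, g • e = a := by
    intro e he
    by_cases hea : e = a
    · exact ⟨1, Subgroup.one_mem _, by rw [one_smul, hea]⟩
    by_cases heta : e = t • a
    · obtain ⟨y, hy, hyb⟩ := stepA (t • a) d htane hda hXta hFd
      obtain ⟨y', hy', hyb'⟩ := stepB d a hdta htane.symm hFd hXa
      refine ⟨y' * y, Subgroup.mul_mem _ hy' (Subgroup.mem_inf.1 hy).1, ?_⟩
      rw [mul_smul, heta, hyb, hyb']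
    · exact stepB e a heta htane.symm he hXa
  have p1 : ∀ b₁ b₂ c₁ c₂ : Ω,
      (∀ x ∈ X, x • b₁ = b₁ ∧ x • b₂ = b₂ ∧ x • c₁ = c₁ ∧ x • c₂ = c₂) →
        b₁ ≠ b₂ → c₁ ≠ c₂ → ∃ g ∈ Subgroup.centralizer X, g • b₁ = c₁ ∧ g • b₂ = c₂ := by
    intro b₁ b₂ c₁ c₂ hF hb hc
    obtain ⟨g₁, hg₁, hg₁b⟩ := stepC1 b₁ (fun x hx => (hF x hx).1)
    obtain ⟨g₂, hg₂, hg₂c⟩ := stepC1 c₁ (fun x hx => (hF x hx).2.2.1)
    have h1 : g₁ • b₂ ≠ a := fun h => hb (MulAction.injective g₁ (hg₁b.trans h.symm))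
    have h2 : g₂ • c₂ ≠ a := fun h => hc (MulAction.injective g₂ (hg₂c.trans h.symm))
    obtain ⟨y, hy, hyb⟩ := stepA (g₁ • b₂) (g₂ • c₂) h1 h2
      (hCF g₁ hg₁ b₂ (fun x hx => (hF x hx).2.1)) (hCF g₂ hg₂ c₂ (fun x hx => (hF x hx).2.2.2))
    have hyQ := (Subgroup.mem_inf.1 hy).2
    have hya : y • a = a := mem_stabilizer_iff.1 (hS.le hyQ)
    refine ⟨g₂⁻¹ * y * g₁, Subgroup.mul_mem _ (Subgroup.mul_mem _ (Subgroup.inv_mem _ hg₂)
      (Subgroup.mem_inf.1 hy).1) hg₁, ?_, ?_⟩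
    · rw [mul_smul, mul_smul, hg₁b, hya, inv_smul_eq_iff, hg₂c]
    · rw [mul_smul, mul_smul, hyb, inv_smul_smul]
  refine ⟨p1, ?_, ?_⟩
  · obtain ⟨g, hg, hga, hgta⟩ := p1 a (t • a) (t • a) a
      (fun x hx => ⟨hXa x hx, hXta x hx, hXta x hx, hXa x hx⟩) htane.symm htane
    have hgg : g * g ∈ stabilizer G a := by rw [mem_stabilizer_iff, mul_smul, hga, hgta]
    have hgn : g ∉ stabilizer G a :=
      fun h => htane (hga.symm.trans (mem_stabilizer_iff.1 h))
    have heven : Even (orderOf g) := by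
      by_contra hodd
      rw [Nat.not_even_iff_odd] at hodd
      obtain ⟨n, hn⟩ := hodd
      apply hgn
      have h0 : g = (g * g) ^ (n + 1) := by
        rw [← pow_two, ← pow_mul]
        have h00 : 2 * (n + 1) = orderOf g + 1 := by omega
        rw [h00, pow_succ, pow_orderOf_eq_one, one_mul]
      rw [h0]
      exact Subgroup.pow_mem _ hgg _
    obtain ⟨m, hm⟩ := heven
    have hpos : 0 < orderOf g := orderOf_pos g
    have hu1' : g ^ m ≠ 1 := pow_ne_one_of_lt_orderOf (by omega) (by omega)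
    have hu2' : g ^ m * g ^ m = 1 := by rw [← pow_add, ← hm, pow_orderOf_eq_one]
    have huC' : g ^ m ∈ Subgroup.centralizer X := Subgroup.pow_mem _ hg _
    obtain ⟨u, hu⟩ : ∃ u, u = g ^ m := ⟨_, rfl⟩
    rw [← hu] at hu1' hu2' huC'
    obtain ⟨e, he⟩ := exists_fix hS hu2'
    have heF : ∀ x ∈ X, x • e = e := by
      intro x hx
      apply fix_unique hS hu1' hu2' _ he
      have huC'' := huC'
      rw [Subgroup.mem_centralizer_iff] at huC''
      rw [← mul_smul, ← huC'' x hx, mul_smul, he]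
    obtain ⟨g₁, hg₁, hg₁e⟩ := stepC1 e heF
    have hs : g₁ * u * g₁⁻¹ ∈ Q := conj_mem_Q hS hu2' he hg₁e
    have hsC : g₁ * u * g₁⁻¹ ∈ Subgroup.centralizer X :=
      Subgroup.mul_mem _ (Subgroup.mul_mem _ hg₁ huC') (Subgroup.inv_mem _ hg₁)
    have hs1 : g₁ * u * g₁⁻¹ ≠ 1 := by
      intro h
      apply hu1'
      have h0 : u = g₁⁻¹ * (g₁ * u * g₁⁻¹) * g₁ := by group
      rw [h0, h]
      group
    have hs2 : (g₁ * u * g₁⁻¹) * (g₁ * u * g₁⁻¹) = 1 := by
      calc (g₁ * u * g₁⁻¹) * (g₁ * u * g₁⁻¹) = g₁ * (u * u) * g₁⁻¹ := by group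
        _ = 1 := by rw [hu2']; group
    have hord : orderOf (⟨_, Subgroup.mem_inf.2 ⟨hsC, hs⟩⟩ :
        ↥(Subgroup.centralizer X ⊓ Q)) = 2 := by
      apply orderOf_eq_prime
      · apply Subtype.ext
        rw [Subgroup.coe_pow, Subgroup.coe_one, pow_two]
        exact hs2
      · intro h
        exact hs1 (congrArg Subtype.val h)
    have hdvd := orderOf_dvd_natCard (⟨_, Subgroup.mem_inf.2 ⟨hsC, hs⟩⟩ :
      ↥(Subgroup.centralizer X ⊓ Q))
    rw [hord] at hdvd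
    exact even_iff_two_dvd.2 hdvd
  · apply le_antisymm
    · apply sup_le
      · exact inf_le_inf_left _ hS.le
      · exact inf_le_inf_left _ inf_le_left
    · intro g hg
      obtain ⟨hgC, hga⟩ := Subgroup.mem_inf.1 hg
      rw [mem_stabilizer_iff] at hga
      have he : g • (t • a) ≠ a := fun h => htane (MulAction.injective g (h.trans hga.symm))
      obtain ⟨y, hy, hyb⟩ := stepA (t • a) (g • (t • a)) htane he hXta (hCF g hgC _ hXta)
      have hyC := (Subgroup.mem_inf.1 hy).1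
      have hyQ := (Subgroup.mem_inf.1 hy).2
      have hya : y • a = a := mem_stabilizer_iff.1 (hS.le hyQ)
      have h1 : y⁻¹ * g ∈ Subgroup.centralizer X ⊓ (stabilizer G a ⊓ stabilizer G (t • a)) := by
        refine Subgroup.mem_inf.2 ⟨Subgroup.mul_mem _ (Subgroup.inv_mem _ hyC) hgC,
          Subgroup.mem_inf.2 ⟨?_, ?_⟩⟩
        · rw [mem_stabilizer_iff, mul_smul, hga, inv_smul_eq_iff, hya]
        · rw [mem_stabilizer_iff, mul_smul, inv_smul_eq_iff, hyb]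
      have h2 : g = y * (y⁻¹ * g) := by group
      rw [h2]
      exact Subgroup.mul_mem_sup hy h1

end Aux

/-- In the rank-one set-up (`G` finite and doubly transitive on `Ω`, `t` an involution moving `a`, `Q` normal in `G_a` with `G_a = Q D`, `Q ⊓ D = 1` for the two-point stabiliser `D = G_a ⊓ G_{t • a}`, `|Q|` even, `|D|` odd), let `X ⊆ D` fix at least three points of `Ω`. Then `C_G(X)` is doubly transitive on the fixed-point set of `X`, `|C_Q(X)|` is even, and `C_{G_a}(X) = C_Q(X) C_D(X)`. -/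
theorem result {G Ω : Type*} [Group G] [Finite G] [MulAction G Ω] {a : Ω} {t : G} {Q : Subgroup G}
    (hS : Cfsg.IsRankOneSetup G Ω a t Q)
    (X : Set G) (hX : X ⊆ ((MulAction.stabilizer G a ⊓ MulAction.stabilizer G (t • a)) : Set G))
    (h3 : ∃ b c d : Ω, b ≠ c ∧ b ≠ d ∧ c ≠ d ∧ ∀ x ∈ X, x • b = b ∧ x • c = c ∧ x • d = d) :
    (∀ b₁ b₂ c₁ c₂ : Ω, (∀ x ∈ X, x • b₁ = b₁ ∧ x • b₂ = b₂ ∧ x • c₁ = c₁ ∧ x • c₂ = c₂) →
        b₁ ≠ b₂ → c₁ ≠ c₂ → ∃ g ∈ Subgroup.centralizer X, g • b₁ = c₁ ∧ g • b₂ = c₂) ∧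
      Even (Nat.card ↥(Subgroup.centralizer X ⊓ Q)) ∧
      (Subgroup.centralizer X ⊓ Q) ⊔ (Subgroup.centralizer X ⊓ (MulAction.stabilizer G a ⊓ MulAction.stabilizer G (t • a))) = Subgroup.centralizer X ⊓ MulAction.stabilizer G a := by
  exact main hS X hX h3

end Cfsg.Agent.S1125
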