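import Cfsg.Statements.S1126
import Cfsg.Agent.Lib_helper8_RankOne
import Cfsg.Agent.S1125

set_option autoImplicit false
open Cfsg

namespace Cfsg.Agent.S1126

section Aux
open MulAction Cfsg.Agent.Lib_helper8_RankOne

variable {G Ω : Type*} [Group G] [Finite G] [MulAction G Ω] {a : Ω} {t : G} {Q : Subgroup G}

theorem main (hS : Cfsg.IsRankOneSetup G Ω a t Q)
    (X : Set G) (hX : X ⊆ ((stabilizer G a ⊓ stabilizer G (t • a)) : Set G))
    (h3 : ∃ b c d : Ω, b ≠ c ∧ b ≠ d ∧ c ≠ d ∧ ∀ x ∈ X, x • b = b ∧ x • c = c ∧ x • d = d) :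
    ∃ k ∈ (stabilizer G a ⊓ stabilizer G (t • a)),
      ∀ x ∈ X, (k * x * k⁻¹) * t = t * (k * x * k⁻¹) := by
  classical
  have htt := hS.mul_self
  have htane := ta_ne hS
  have hXa : ∀ x ∈ X, x • a = a :=
    fun x hx => mem_stabilizer_iff.1 (Subgroup.mem_inf.1 (hX hx)).1
  have hXta : ∀ x ∈ X, x • (t • a) = t • a :=
    fun x hx => mem_stabilizer_iff.1 (Subgroup.mem_inf.1 (hX hx)).2
  obtain ⟨p1, -, -⟩ := Cfsg.Agent.S1125.main hS X hX h3
  obtain ⟨g, hg, hga, hgta⟩ := p1 a (t • a) (t • a) a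
    (fun x hx => ⟨hXa x hx, hXta x hx, hXta x hx, hXa x hx⟩) htane.symm htane
  have hggD : g * g ∈ stabilizer G a ⊓ stabilizer G (t • a) :=
    Subgroup.mem_inf.2 ⟨by rw [mem_stabilizer_iff, mul_smul, hga, hgta],
      by rw [mem_stabilizer_iff, mul_smul, hgta, hga]⟩
  have hodd_pow : ∀ j : ℕ, g ^ (2 * j + 1) • a = t • a ∧ g ^ (2 * j + 1) • (t • a) = a := by
    intro j
    have h1 : g ^ (2 * j + 1) = g * (g * g) ^ j := by rw [← pow_two, ← pow_mul, pow_succ']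
    have h2 := Subgroup.pow_mem _ hggD j
    obtain ⟨h3, h4⟩ := Subgroup.mem_inf.1 h2
    rw [mem_stabilizer_iff] at h3 h4
    rw [h1, mul_smul, mul_smul, h3, h4]
    exact ⟨hga, hgta⟩
  obtain ⟨e, m, hm, hn⟩ := Nat.exists_eq_two_pow_mul_odd (orderOf_pos g).ne'
  obtain ⟨j, hj⟩ := hm
  obtain ⟨v, hv⟩ : ∃ v, v = g ^ m := ⟨_, rfl⟩
  have hvC : v ∈ Subgroup.centralizer X := by
    rw [hv]
    exact Subgroup.pow_mem _ hg _
  have hva : v • a = t • a := by
    rw [hv, hj]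
    exact (hodd_pow j).1
  have hvta : v • (t • a) = a := by
    rw [hv, hj]
    exact (hodd_pow j).2
  have hv2e : v ^ (2 ^ e) = 1 := by
    rw [hv, ← pow_mul, mul_comm, ← hn, pow_orderOf_eq_one]
  have hvvD : v * v ∈ stabilizer G a ⊓ stabilizer G (t • a) :=
    Subgroup.mem_inf.2 ⟨by rw [mem_stabilizer_iff, mul_smul, hva, hvta],
      by rw [mem_stabilizer_iff, mul_smul, hvta, hva]⟩
  have hvv : v * v = 1 := by
    have h1 : orderOf (v * v) ∣ 2 ^ e := orderOf_dvd_of_pow_eq_one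
      (by rw [← pow_two, ← pow_mul, mul_comm, pow_mul, hv2e, one_pow])
    have h2 : orderOf (v * v) ∣ Nat.card ↥(stabilizer G a ⊓ stabilizer G (t • a)) :=
      Subgroup.orderOf_dvd_natCard _ hvvD
    have h3 : Nat.Coprime (2 ^ e) (Nat.card ↥(stabilizer G a ⊓ stabilizer G (t • a))) :=
      Nat.Coprime.pow_left _ (Nat.coprime_two_left.2 hS.odd_card)
    have h4 := Nat.dvd_gcd h1 h2
    rw [Nat.Coprime.gcd_eq_one h3] at h4
    exact orderOf_eq_one_iff.1 (Nat.dvd_one.1 h4)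
  have hk₀ := K_of_swap hS hvv hva
  obtain ⟨j', hj'K, hj'⟩ := sqrt_K hS hk₀
  have hj'v : j' * t * j'⁻¹ = v := by rw [hj', mul_assoc, htt, mul_one]
  refine ⟨j'⁻¹, Subgroup.inv_mem _ hj'K.1, ?_⟩
  intro x hx
  rw [inv_inv]
  rw [Subgroup.mem_centralizer_iff] at hvC
  have h1 := hvC x hx
  rw [← hj'v] at h1
  calc j'⁻¹ * x * j' * t = j'⁻¹ * (x * (j' * t * j'⁻¹)) * j' := by group
    _ = j'⁻¹ * (j' * t * j'⁻¹ * x) * j' := by rw [h1]
    _ = t * (j'⁻¹ * x * j') := by group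

end Aux

/-- In the rank-one set-up (`G` finite and doubly transitive on `Ω`, `t` an involution moving `a`, `Q` normal in `G_a` with `G_a = Q D`, `Q ⊓ D = 1` for the two-point stabiliser `D = G_a ⊓ G_{t • a}`, `|Q|` even, `|D|` odd), a subset `X ⊆ D` fixing at least three points of `Ω` is conjugate by an element of `D` into `V = C_D(t)`. -/
theorem result {G Ω : Type*} [Group G] [Finite G] [MulAction G Ω] {a : Ω} {t : G} {Q : Subgroup G}
    (hS : Cfsg.IsRankOneSetup G Ω a t Q)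
    (X : Set G) (hX : X ⊆ ((MulAction.stabilizer G a ⊓ MulAction.stabilizer G (t • a)) : Set G))
    (h3 : ∃ b c d : Ω, b ≠ c ∧ b ≠ d ∧ c ≠ d ∧ ∀ x ∈ X, x • b = b ∧ x • c = c ∧ x • d = d) :
    ∃ k ∈ (MulAction.stabilizer G a ⊓ MulAction.stabilizer G (t • a)), ∀ x ∈ X, (k * x * k⁻¹) * t = t * (k * x * k⁻¹) := by
  exact main hS X hX h3

end Cfsg.Agent.S1126
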