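import Cfsg.Statements.S1127
import Cfsg.Agent.Lib_helper8_RankOne

set_option autoImplicit false
open Cfsg

namespace Cfsg.Agent.S1127

section Aux
open MulAction Cfsg.Agent.Lib_helper8_RankOne

variable {G Ω : Type*} [Group G] [Finite G] [MulAction G Ω] {a : Ω} {t : G} {Q : Subgroup G}

theorem main (hS : Cfsg.IsRankOneSetup G Ω a t Q) :
    (∀ s r : G, s ∈ Cfsg.involutionsIn (stabilizer G a : Set G) → r ∈ Q →
        t * s * t = r⁻¹ * t * r →
        (stabilizer G a ⊓ stabilizer G (t • a)) ⊓ Subgroup.centralizer {t} =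
          (stabilizer G a ⊓ stabilizer G (t • a)) ⊓ Subgroup.centralizer {s}) ∧
      (stabilizer G a ⊓ stabilizer G (t • a)) ⊓ Subgroup.centralizer {t} ⊓
          Subgroup.centralizer (Cfsg.invertedBy (stabilizer G a ⊓ stabilizer G (t • a)) t) =
        (stabilizer G a ⊓ stabilizer G (t • a)) ⊓
          Subgroup.centralizer (Cfsg.involutionsIn (stabilizer G a : Set G)) := by
  classical
  constructor
  · rintro s r ⟨hs, hs1, hs2⟩ hr e
    ext d
    constructor
    · intro h
      obtain ⟨hd, hdt⟩ := Subgroup.mem_inf.1 h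
      rw [Subgroup.mem_centralizer_singleton_iff] at hdt
      exact Subgroup.mem_inf.2 ⟨hd, Subgroup.mem_centralizer_singleton_iff.2
        (comm_s_of_comm_t hS hs hs1 hs2 hr e hd hdt)⟩
    · intro h
      obtain ⟨hd, hds⟩ := Subgroup.mem_inf.1 h
      rw [Subgroup.mem_centralizer_singleton_iff] at hds
      exact Subgroup.mem_inf.2 ⟨hd, Subgroup.mem_centralizer_singleton_iff.2
        (comm_t_of_comm_s hS hs hs1 hs2 hr e hd hds)⟩
  · obtain ⟨s, r, hs, hs1, hs2, hr, e⟩ := struct_exists hS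
    ext d
    constructor
    · intro h
      obtain ⟨h', hdK⟩ := Subgroup.mem_inf.1 h
      obtain ⟨hd, hdt⟩ := Subgroup.mem_inf.1 h'
      rw [Subgroup.mem_centralizer_singleton_iff] at hdt
      rw [Subgroup.mem_centralizer_iff] at hdK
      refine Subgroup.mem_inf.2 ⟨hd, ?_⟩
      rw [Subgroup.mem_centralizer_iff]
      rintro s' ⟨hs', hs'1, hs'2⟩
      have hds := comm_s_of_comm_t hS hs hs1 hs2 hr e hd hdt
      obtain ⟨k, hk, hks⟩ := K_trans hS hs hs1 hs2 hs' hs'1 hs'2
      have hkd := hdK k hk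
      have hkd' : k⁻¹ * d = d * k⁻¹ := by
        calc k⁻¹ * d = k⁻¹ * (d * k) * k⁻¹ := by group
          _ = k⁻¹ * (k * d) * k⁻¹ := by rw [hkd]
          _ = d * k⁻¹ := by group
      rw [← hks]
      calc k⁻¹ * s * k * d = k⁻¹ * s * (k * d) := by group
        _ = k⁻¹ * s * (d * k) := by rw [hkd]
        _ = k⁻¹ * (s * d) * k := by group
        _ = k⁻¹ * (d * s) * k := by rw [hds]
        _ = (k⁻¹ * d) * s * k := by group
        _ = (d * k⁻¹) * s * k := by rw [hkd']
        _ = d * (k⁻¹ * s * k) := by group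
    · intro h
      obtain ⟨hd, hdI⟩ := Subgroup.mem_inf.1 h
      rw [Subgroup.mem_centralizer_iff] at hdI
      have hdG := (Subgroup.mem_inf.1 hd).1
      have hds : d * s = s * d := (hdI s ⟨hs, hs1, hs2⟩).symm
      have hdt := comm_t_of_comm_s hS hs hs1 hs2 hr e hd hds
      refine Subgroup.mem_inf.2 ⟨Subgroup.mem_inf.2 ⟨hd,
        Subgroup.mem_centralizer_singleton_iff.2 hdt⟩, ?_⟩
      rw [Subgroup.mem_centralizer_iff]
      rintro k ⟨hkD, hkt⟩
      have hkG := (Subgroup.mem_inf.1 hkD).1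
      have hdt' : d⁻¹ * t⁻¹ = t⁻¹ * d⁻¹ := by
        rw [← mul_inv_rev, ← mul_inv_rev, hdt]
      have hk' : d * k * d⁻¹ ∈ Cfsg.invertedBy (stabilizer G a ⊓ stabilizer G (t • a)) t := by
        refine ⟨Subgroup.mul_mem _ (Subgroup.mul_mem _ hd hkD) (Subgroup.inv_mem _ hd), ?_⟩
        calc t * (d * k * d⁻¹) * t⁻¹ = (t * d) * k * (d⁻¹ * t⁻¹) := by group
          _ = (d * t) * k * (t⁻¹ * d⁻¹) := by rw [hdt, hdt']
          _ = d * (t * k * t⁻¹) * d⁻¹ := by group
          _ = d * k⁻¹ * d⁻¹ := by rw [hkt]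
          _ = (d * k * d⁻¹)⁻¹ := by group
      have hs'' : k⁻¹ * s * k ∈ Cfsg.involutionsIn (stabilizer G a : Set G) := by
        refine ⟨Subgroup.mul_mem _ (Subgroup.mul_mem _ (Subgroup.inv_mem _ hkG) hs) hkG, ?_, ?_⟩
        · intro h
          apply hs1
          have h0 : s = k * (k⁻¹ * s * k) * k⁻¹ := by group
          rw [h0, h]
          group
        · calc k⁻¹ * s * k * (k⁻¹ * s * k) = k⁻¹ * (s * s) * k := by group
            _ = 1 := by rw [hs2]; group
      have h1 := hdI _ hs''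
      have h2 : (d * k * d⁻¹)⁻¹ * s * (d * k * d⁻¹) = k⁻¹ * s * k := by
        calc (d * k * d⁻¹)⁻¹ * s * (d * k * d⁻¹) = d * k⁻¹ * (d⁻¹ * (s * d)) * k * d⁻¹ := by group
          _ = d * k⁻¹ * (d⁻¹ * (d * s)) * k * d⁻¹ := by rw [hds]
          _ = d * (k⁻¹ * s * k) * d⁻¹ := by group
          _ = (k⁻¹ * s * k) * d * d⁻¹ := by rw [← h1]
          _ = k⁻¹ * s * k := by group
      have h3 := K_inj hS hs hs1 hs2 hk' ⟨hkD, hkt⟩ h2
      calc k * d = (d * k * d⁻¹) * d := by rw [h3]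
        _ = d * k := by group

end Aux

/-- In the rank-one set-up (`G` finite and doubly transitive on `Ω`, `t` an involution moving `a`, `Q` normal in `G_a` with `G_a = Q D`, `Q ⊓ D = 1` for the two-point stabiliser `D = G_a ⊓ G_{t • a}`, `|Q|` even, `|D|` odd): if `s` is an involution of `G_a` and `r ∈ Q` satisfy `t s t = r⁻¹ t r`, then `C_D(t) = C_D(s)`; moreover `C_D(t) ⊓ C_D(K) = C_D(I ∩ G_a)`, where `K` is the set of elements of `D` inverted by `t` and `I ∩ G_a` the set of involutions of `G_a`. -/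
theorem result {G Ω : Type*} [Group G] [Finite G] [MulAction G Ω] {a : Ω} {t : G} {Q : Subgroup G}
    (hS : Cfsg.IsRankOneSetup G Ω a t Q) :
    (∀ s r : G, s ∈ Cfsg.involutionsIn (MulAction.stabilizer G a : Set G) → r ∈ Q → t * s * t = r⁻¹ * t * r →
        (MulAction.stabilizer G a ⊓ MulAction.stabilizer G (t • a)) ⊓ Subgroup.centralizer {t} = (MulAction.stabilizer G a ⊓ MulAction.stabilizer G (t • a)) ⊓ Subgroup.centralizer {s}) ∧
      (MulAction.stabilizer G a ⊓ MulAction.stabilizer G (t • a)) ⊓ Subgroup.centralizer {t} ⊓ Subgroup.centralizer (Cfsg.invertedBy (MulAction.stabilizer G a ⊓ MulAction.stabilizer G (t • a)) t) =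
        (MulAction.stabilizer G a ⊓ MulAction.stabilizer G (t • a)) ⊓ Subgroup.centralizer (Cfsg.involutionsIn (MulAction.stabilizer G a : Set G)) := by
  exact main hS

end Cfsg.Agent.S1127
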