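import Cfsg.Statements.S1128
import Cfsg.Agent.Lib_helper8_RankOne
import Cfsg.Agent.S1125

set_option autoImplicit false
open Cfsg

namespace Cfsg.Agent.S1128

section Aux
open MulAction Cfsg.Agent.Lib_helper8_RankOne

variable {G Ω : Type*} [Group G] [Finite G] [MulAction G Ω] {a : Ω} {t : G} {Q : Subgroup G}

theorem main (hS : Cfsg.IsRankOneSetup G Ω a t Q) (x : G)
    (hx : x ∈ Cfsg.invertedBy (stabilizer G a ⊓ stabilizer G (t • a)) t) (hx1 : x ≠ 1) :
    Q ⊓ Subgroup.centralizer {x} = ⊥ := by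
  classical
  rw [eq_bot_iff]
  intro y hy
  obtain ⟨hyQ, hyx⟩ := Subgroup.mem_inf.1 hy
  rw [Subgroup.mem_centralizer_singleton_iff] at hyx
  rw [Subgroup.mem_bot]
  by_contra hy1
  obtain ⟨hxD, hxt⟩ := hx
  have hxa : x • a = a := mem_stabilizer_iff.1 (Subgroup.mem_inf.1 hxD).1
  have hxta : x • (t • a) = t • a := mem_stabilizer_iff.1 (Subgroup.mem_inf.1 hxD).2
  have htane := ta_ne hS
  have h3 : ∃ b c d : Ω, b ≠ c ∧ b ≠ d ∧ c ≠ d ∧
      ∀ x' ∈ ({x} : Set G), x' • b = b ∧ x' • c = c ∧ x' • d = d := by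
    refine ⟨a, t • a, y • (t • a), htane.symm, (Q_smul_ne hS hyQ htane).symm, ?_, ?_⟩
    · intro h
      exact hy1 (eq_one_of_fix hS hyQ htane h.symm)
    · intro x' hx'
      rw [Set.mem_singleton_iff] at hx'
      subst hx'
      refine ⟨hxa, hxta, ?_⟩
      rw [← mul_smul, ← hyx, mul_smul, hxta]
  have hX : ({x} : Set G) ⊆ ((stabilizer G a ⊓ stabilizer G (t • a)) : Set G) := by
    intro x' hx'
    rw [Set.mem_singleton_iff] at hx'
    subst hx'
    exact hxD
  obtain ⟨-, heven, -⟩ := Cfsg.Agent.S1125.main hS {x} hX h3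
  obtain ⟨s, hs⟩ := exists_prime_orderOf_dvd_card'
    (G := ↥(Subgroup.centralizer {x} ⊓ Q)) 2 heven.two_dvd
  have hsC := (Subgroup.mem_inf.1 s.2).1
  have hsQ := (Subgroup.mem_inf.1 s.2).2
  have hs1 : (s : G) ≠ 1 := by
    intro h
    have h0 : s = 1 := Subtype.ext h
    rw [h0, orderOf_one] at hs
    omega
  have hs2 : (s : G) * (s : G) = 1 := by
    have h1 := pow_orderOf_eq_one s
    rw [hs, pow_two] at h1
    exact congrArg Subtype.val h1
  rw [Subgroup.mem_centralizer_singleton_iff] at hsC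
  have h1K : (1 : G) ∈ Cfsg.invertedBy (stabilizer G a ⊓ stabilizer G (t • a)) t :=
    ⟨Subgroup.one_mem _, by simp⟩
  have h4 : x⁻¹ * (s : G) * x = 1⁻¹ * (s : G) * 1 := by
    calc x⁻¹ * (s : G) * x = x⁻¹ * ((s : G) * x) := by group
      _ = x⁻¹ * (x * (s : G)) := by rw [hsC]
      _ = 1⁻¹ * (s : G) * 1 := by group
  exact hx1 (K_inj hS (hS.le hsQ) hs1 hs2 ⟨hxD, hxt⟩ h1K h4)

end Aux

/-- In the rank-one set-up (`G` finite and doubly transitive on `Ω`, `t` an involution moving `a`, `Q` normal in `G_a` with `G_a = Q D`, `Q ⊓ D = 1` for the two-point stabiliser `D = G_a ⊓ G_{t • a}`, `|Q|` even, `|D|` odd), with the action faithful and `G` containing two distinct commuting involutions: every non-identity element of `D` inverted by `t` acts fixed-point-freely on `Q`. -/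
theorem result {G Ω : Type*} [Group G] [Finite G] [MulAction G Ω] [FaithfulSMul G Ω] {a : Ω} {t : G} {Q : Subgroup G}
    (hS : Cfsg.IsRankOneSetup G Ω a t Q)
    (h2 : ∃ x y : G, x ≠ 1 ∧ y ≠ 1 ∧ x ≠ y ∧ x * x = 1 ∧ y * y = 1 ∧ x * y = y * x)
    (x : G) (hx : x ∈ Cfsg.invertedBy (MulAction.stabilizer G a ⊓ MulAction.stabilizer G (t • a)) t) (hx1 : x ≠ 1) :
    Q ⊓ Subgroup.centralizer {x} = ⊥ := by
  exact main hS x hx hx1

end Cfsg.Agent.S1128
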