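import Cfsg.Statements.S1134
import Cfsg.Agent.Lib_helper8_RankOne
import Cfsg.Agent.S1125

set_option autoImplicit false
open Cfsg

namespace Cfsg.Agent.S1134

section Aux
open MulAction Cfsg.Agent.Lib_helper8_RankOne

variable {G Ω : Type*} [Group G] [Finite G] [MulAction G Ω] {a : Ω} {t : G} {Q : Subgroup G}

theorem main (hS : Cfsg.IsRankOneSetup G Ω a t Q)
    (X : Set G) (hX : X ⊆ (((stabilizer G a ⊓ stabilizer G (t • a)) ⊓
      Subgroup.centralizer {t} : Subgroup G) : Set G)) (g : G)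
    (hY : (fun x => g * x * g⁻¹) '' X ⊆ (((stabilizer G a ⊓ stabilizer G (t • a)) ⊓
      Subgroup.centralizer {t} : Subgroup G) : Set G)) :
    ∃ v ∈ (stabilizer G a ⊓ stabilizer G (t • a)) ⊓ Subgroup.centralizer {t},
      (fun x => v * x * v⁻¹) '' X = (fun x => g * x * g⁻¹) '' X := by
  classical
  have htt := hS.mul_self
  have hts : ∀ z : Ω, t • t • z = z := fun z => by rw [smul_smul, htt, one_smul]
  have htane := ta_ne hS
  have hXD : X ⊆ ((stabilizer G a ⊓ stabilizer G (t • a)) : Set G) :=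
    fun x hx => (Subgroup.mem_inf.1 (hX hx)).1
  have hXt : ∀ x ∈ X, x * t = t * x :=
    fun x hx => Subgroup.mem_centralizer_singleton_iff.1 (Subgroup.mem_inf.1 (hX hx)).2
  have hXa : ∀ x ∈ X, x • a = a :=
    fun x hx => mem_stabilizer_iff.1 (Subgroup.mem_inf.1 (hXD hx)).1
  have hXta : ∀ x ∈ X, x • (t • a) = t • a :=
    fun x hx => mem_stabilizer_iff.1 (Subgroup.mem_inf.1 (hXD hx)).2
  have hYD : ∀ x ∈ X, g * x * g⁻¹ ∈ stabilizer G a ⊓ stabilizer G (t • a) :=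
    fun x hx => (Subgroup.mem_inf.1 (hY ⟨x, hx, rfl⟩)).1
  have hYt : ∀ x ∈ X, (g * x * g⁻¹) * t = t * (g * x * g⁻¹) :=
    fun x hx => Subgroup.mem_centralizer_singleton_iff.1 (Subgroup.mem_inf.1 (hY ⟨x, hx, rfl⟩)).2
  obtain ⟨c₀, hc₀⟩ := exists_fix hS htt
  have hc₀a : c₀ ≠ a := by
    rintro rfl
    exact htane hc₀
  have hc₀ta : c₀ ≠ t • a := by
    intro h
    rw [h, hts] at hc₀
    exact htane hc₀.symm
  have hXc₀ : ∀ x ∈ X, x • c₀ = c₀ := by
    intro x hx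
    apply fix_unique hS hS.ne_one htt _ hc₀
    rw [← mul_smul, ← hXt x hx, mul_smul, hc₀]
  have h3 : ∃ b c d : Ω, b ≠ c ∧ b ≠ d ∧ c ≠ d ∧
      ∀ x ∈ X, x • b = b ∧ x • c = c ∧ x • d = d :=
    ⟨a, t • a, c₀, htane.symm, hc₀a.symm, hc₀ta.symm,
      fun x hx => ⟨hXa x hx, hXta x hx, hXc₀ x hx⟩⟩
  obtain ⟨p1, -, -⟩ := Cfsg.Agent.S1125.main hS X hXD h3
  have hF1 : ∀ x ∈ X, x • g⁻¹ • a = g⁻¹ • a := by
    intro x hx
    have h1 := mem_stabilizer_iff.1 (Subgroup.mem_inf.1 (hYD x hx)).1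
    rw [mul_smul, mul_smul] at h1
    exact (inv_smul_eq_iff.2 h1.symm).symm
  have hF2 : ∀ x ∈ X, x • g⁻¹ • (t • a) = g⁻¹ • (t • a) := by
    intro x hx
    have h1 := mem_stabilizer_iff.1 (Subgroup.mem_inf.1 (hYD x hx)).2
    rw [mul_smul, mul_smul] at h1
    exact (inv_smul_eq_iff.2 h1.symm).symm
  have hne : g⁻¹ • a ≠ g⁻¹ • (t • a) := fun h => htane (MulAction.injective g⁻¹ h).symm
  obtain ⟨h, hhC, hha, hhta⟩ := p1 a (t • a) (g⁻¹ • a) (g⁻¹ • (t • a))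
    (fun x hx => ⟨hXa x hx, hXta x hx, hF1 x hx, hF2 x hx⟩) htane.symm hne
  rw [Subgroup.mem_centralizer_iff] at hhC
  obtain ⟨d, hd⟩ : ∃ d, d = g * h := ⟨_, rfl⟩
  have hda : d • a = a := by rw [hd, mul_smul, hha, smul_inv_smul]
  have hdta : d • (t • a) = t • a := by rw [hd, mul_smul, hhta, smul_inv_smul]
  have hdD : d ∈ stabilizer G a ⊓ stabilizer G (t • a) :=
    Subgroup.mem_inf.2 ⟨mem_stabilizer_iff.2 hda, mem_stabilizer_iff.2 hdta⟩
  have hdx : ∀ x ∈ X, d * x * d⁻¹ = g * x * g⁻¹ := by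
    intro x hx
    rw [hd]
    calc g * h * x * (g * h)⁻¹ = g * (h * x) * h⁻¹ * g⁻¹ := by group
      _ = g * (x * h) * h⁻¹ * g⁻¹ := by rw [hhC x hx]
      _ = g * x * g⁻¹ := by group
  have ht'X : ∀ x ∈ X, x * (d⁻¹ * t * d) = (d⁻¹ * t * d) * x := by
    intro x hx
    have h1 := hYt x hx
    rw [← hdx x hx] at h1
    calc x * (d⁻¹ * t * d) = d⁻¹ * ((d * x * d⁻¹) * t) * d := by group
      _ = d⁻¹ * (t * (d * x * d⁻¹)) * d := by rw [h1]
      _ = (d⁻¹ * t * d) * x := by group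
  have ht'2 : (d⁻¹ * t * d) * (d⁻¹ * t * d) = 1 := by
    calc (d⁻¹ * t * d) * (d⁻¹ * t * d) = d⁻¹ * (t * t) * d := by group
      _ = 1 := by rw [htt]; group
  have ht'a : (d⁻¹ * t * d) • a = t • a := by
    rw [mul_smul, mul_smul, hda, inv_smul_eq_iff, hdta]
  have hk := K_of_swap hS ht'2 ht'a
  obtain ⟨n, hjK, hj⟩ := sqrt_K_pow hS hk
  have hj' : (d⁻¹ * t * d * t) ^ n * t * ((d⁻¹ * t * d * t) ^ n)⁻¹ = d⁻¹ * t * d := by
    rw [hj, mul_assoc, htt, mul_one]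
  have hkC : d⁻¹ * t * d * t ∈ Subgroup.centralizer X := by
    rw [Subgroup.mem_centralizer_iff]
    intro x hx
    calc x * (d⁻¹ * t * d * t) = (x * (d⁻¹ * t * d)) * t := by group
      _ = (d⁻¹ * t * d) * x * t := by rw [ht'X x hx]
      _ = (d⁻¹ * t * d) * (x * t) := by group
      _ = (d⁻¹ * t * d) * (t * x) := by rw [hXt x hx]
      _ = d⁻¹ * t * d * t * x := by group
  have hjC := Subgroup.pow_mem _ hkC n
  obtain ⟨j, hjdef⟩ : ∃ j, j = (d⁻¹ * t * d * t) ^ n := ⟨_, rfl⟩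
  rw [← hjdef] at hjK hj' hjC
  rw [Subgroup.mem_centralizer_iff] at hjC
  refine ⟨d * j, Subgroup.mem_inf.2 ⟨Subgroup.mul_mem _ hdD hjK.1, ?_⟩, ?_⟩
  · rw [Subgroup.mem_centralizer_singleton_iff]
    have h1 : d * j * t * (d * j)⁻¹ = t := by
      calc d * j * t * (d * j)⁻¹ = d * (j * t * j⁻¹) * d⁻¹ := by group
        _ = d * (d⁻¹ * t * d) * d⁻¹ := by rw [hj']
        _ = t := by group
    exact mul_inv_eq_iff_eq_mul.1 h1
  · apply Set.image_congr
    intro x hx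
    show d * j * x * (d * j)⁻¹ = g * x * g⁻¹
    rw [← hdx x hx]
    calc d * j * x * (d * j)⁻¹ = d * (j * x) * j⁻¹ * d⁻¹ := by group
      _ = d * (x * j) * j⁻¹ * d⁻¹ := by rw [hjC x hx]
      _ = d * x * d⁻¹ := by group

end Aux

/-- In the rank-one set-up (`G` finite and doubly transitive on `Ω`, `t` an involution moving `a`, `Q` normal in `G_a` with `G_a = Q D`, `Q ⊓ D = 1` for the two-point stabiliser `D = G_a ⊓ G_{t • a}`, `|Q|` even, `|D|` odd), with the action faithful and `G` containing two distinct commuting involutions, with `V = C_D(t)`: subsets of `V` conjugate in `G` are conjugate in `V`. -/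
theorem result {G Ω : Type*} [Group G] [Finite G] [MulAction G Ω] [FaithfulSMul G Ω] {a : Ω} {t : G} {Q : Subgroup G}
    (hS : Cfsg.IsRankOneSetup G Ω a t Q)
    (h2 : ∃ x y : G, x ≠ 1 ∧ y ≠ 1 ∧ x ≠ y ∧ x * x = 1 ∧ y * y = 1 ∧ x * y = y * x)
    (X : Set G) (hX : X ⊆ (((MulAction.stabilizer G a ⊓ MulAction.stabilizer G (t • a)) ⊓ Subgroup.centralizer {t} : Subgroup G) : Set G)) (g : G)
    (hY : (fun x => g * x * g⁻¹) '' X ⊆ (((MulAction.stabilizer G a ⊓ MulAction.stabilizer G (t • a)) ⊓ Subgroup.centralizer {t} : Subgroup G) : Set G)) :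
    ∃ v ∈ (MulAction.stabilizer G a ⊓ MulAction.stabilizer G (t • a)) ⊓ Subgroup.centralizer {t}, (fun x => v * x * v⁻¹) '' X = (fun x => g * x * g⁻¹) '' X := by
  exact main hS X hX g hY

end Cfsg.Agent.S1134
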