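import Cfsg.Statements.S1140
import Cfsg.Agent.Lib_helper8_FieldAut

set_option autoImplicit false
open Cfsg

namespace Cfsg.Agent.S1140

/-- For a finite field `F` of characteristic 2, the automorphisms of `F`, viewed as additive maps `F → F`, are linearly independent over `F` (acting on values) every additive endomorphism of `F` is an `F`-linear combination of them, and every biadditive map `F → F → F` is an `F`-combination of the maps `(x, y) ↦ σ(x) τ(y)`. -/
theorem result {F : Type*} [Field F] [Fintype F] [CharP F 2] :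
    LinearIndependent F (fun σ : F ≃+* F => ((σ : F →+* F) : F → F)) ∧
      (∀ f : F →+ F, ∃ (s : Finset (F ≃+* F)) (c : (F ≃+* F) → F), ∀ x : F, f x = ∑ σ ∈ s, c σ * σ x) ∧
      ∀ B : F →+ F →+ F, ∃ (s : Finset ((F ≃+* F) × (F ≃+* F))) (c : (F ≃+* F) × (F ≃+* F) → F),
        ∀ x y : F, B x y = ∑ p ∈ s, c p * (p.1 x * p.2 y) := by
  classical
  haveI : Fact (Nat.Prime 2) := ⟨Nat.prime_two⟩
  haveI : Finite (F ≃+* F) :=
    Finite.of_injective (fun τ : F ≃+* F => (τ : F → F)) DFunLike.coe_injective
  letI : Fintype (F ≃+* F) := Fintype.ofFinite _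
  have hli := Cfsg.Agent.Lib_helper8_FieldAut.aut_linearIndependent F
  refine ⟨hli, fun f => ?_, fun B => ?_⟩
  · obtain ⟨c, hc⟩ := Cfsg.Agent.Lib_helper8_FieldAut.exists_coeff 2 f
    exact ⟨Finset.univ, c, hc⟩
  · choose C hC using fun x => Cfsg.Agent.Lib_helper8_FieldAut.exists_coeff 2 (B x)
    have hadd : ∀ x x' : F, ∀ τ : F ≃+* F, C (x + x') τ = C x τ + C x' τ := by
      intro x x' τ
      have h0 : ∑ σ : F ≃+* F, (C (x + x') σ - C x σ - C x' σ) •
          (((σ : F →+* F) : F → F)) = 0 := by
        funext y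
        simp only [Finset.sum_apply, Pi.smul_apply, smul_eq_mul, Pi.zero_apply, sub_mul,
          Finset.sum_sub_distrib]
        have h1 := hC (x + x') y
        have h2 := hC x y
        have h3 := hC x' y
        rw [map_add, AddMonoidHom.add_apply] at h1
        have e1 : ∀ (c : (F ≃+* F) → F), ∑ σ : F ≃+* F, c σ * ((σ : F →+* F) : F → F) y
            = ∑ σ : F ≃+* F, c σ * σ y := fun c => rfl
        rw [e1, e1, e1, ← h1, ← h2, ← h3]
        ring
      have h4 := Fintype.linearIndependent_iff.1 hli _ h0 τ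
      linear_combination h4
    choose D hD using fun τ : F ≃+* F => Cfsg.Agent.Lib_helper8_FieldAut.exists_coeff 2
      (AddMonoidHom.mk' (fun x => C x τ) (fun x x' => hadd x x' τ))
    refine ⟨Finset.univ, fun p => D p.2 p.1, fun x y => ?_⟩
    rw [hC x y, Fintype.sum_prod_type, Finset.sum_comm]
    refine Finset.sum_congr rfl fun τ _ => ?_
    have h5 : C x τ = ∑ ρ : F ≃+* F, D τ ρ * ρ x := hD τ x
    rw [h5, Finset.sum_mul]
    refine Finset.sum_congr rfl fun ρ _ => ?_
    ring

end Cfsg.Agent.S1140
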