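import Cfsg.Statements.S1166
import Cfsg.Agent.Lib_helper8_RankOne

set_option autoImplicit false
open Cfsg

namespace Cfsg.Agent.S1166

/-- In the rank-one set-up (`G` finite and doubly transitive on `Ω`, `t` an involution moving `a`, `Q` normal in `G_a` with `G_a = Q D`, `Q ⊓ D = 1` for the two-point stabiliser `D = G_a ⊓ G_{t • a}`, `|Q|` even, `|D|` odd), with `t x t = g_x h_x t f_x` and `t y t = g_y h_y t f_y` (`g, f ∈ Q`, `h ∈ D`) for `x, y ∈ Q ∖ 1` with `x y ≠ 1`: then `z = f_x g_y ≠ 1`, and if `t z t = g_z h_z t f_z` and `t (x y) t = g' h' t f'` then `f' = (t h_y t)⁻¹ f_z (t h_y t) f_y` and `h' = h_x h_z h_y` (H6). -/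
theorem result {G Ω : Type*} [Group G] [Finite G] [MulAction G Ω] {a : Ω} {t : G} {Q : Subgroup G}
    (hS : Cfsg.IsRankOneSetup G Ω a t Q)
    (x y gx hx fx gy hy fy : G) (hxQ : x ∈ Q) (hx1 : x ≠ 1) (hyQ : y ∈ Q) (hy1 : y ≠ 1) (hxy : x * y ≠ 1)
    (hgx : gx ∈ Q) (hhx : hx ∈ (MulAction.stabilizer G a ⊓ MulAction.stabilizer G (t • a))) (hfx : fx ∈ Q) (ex : t * x * t = gx * hx * t * fx)
    (hgy : gy ∈ Q) (hhy : hy ∈ (MulAction.stabilizer G a ⊓ MulAction.stabilizer G (t • a))) (hfy : fy ∈ Q) (ey : t * y * t = gy * hy * t * fy) :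
    fx * gy ≠ 1 ∧
      ∀ gz hz fz g' h' f' : G, gz ∈ Q → hz ∈ (MulAction.stabilizer G a ⊓ MulAction.stabilizer G (t • a)) → fz ∈ Q → t * (fx * gy) * t = gz * hz * t * fz →
        g' ∈ Q → h' ∈ (MulAction.stabilizer G a ⊓ MulAction.stabilizer G (t • a)) → f' ∈ Q → t * (x * y) * t = g' * h' * t * f' →
          f' = (t * hy * t)⁻¹ * fz * (t * hy * t) * fy ∧ h' = hx * hz * hy := by
  have ht : t⁻¹ = t := Cfsg.Agent.Lib_helper8_RankOne.t_inv hS
  have htt : t * t = 1 := hS.mul_self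
  have htt' : ∀ z : G, t * (t * z) = z := fun z => by rw [← mul_assoc, htt, one_mul]
  have hhxG : hx ∈ MulAction.stabilizer G a := (Subgroup.mem_inf.1 hhx).1
  have hhyG : hy ∈ MulAction.stabilizer G a := (Subgroup.mem_inf.1 hhy).1
  have hd := Cfsg.Agent.Lib_helper8_RankOne.t_conj_D hS hhy
  have hdG : (t * hy * t)⁻¹ ∈ MulAction.stabilizer G a :=
    Subgroup.inv_mem _ (Subgroup.mem_inf.1 hd).1
  have exy : t * (x * y) * t = gx * hx * t * (fx * gy) * hy * t * fy := by
    have h1 : t * (x * y) * t = (t * x * t) * (t * y * t) := by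
      simp only [mul_assoc, htt']
    rw [h1, ex, ey]
    simp only [mul_assoc]
  constructor
  · intro h1
    rw [h1, mul_one] at exy
    have h2 : t * (x * y) * t ∈ MulAction.stabilizer G a := by
      rw [exy]
      have h3 : gx * hx * t * hy * t * fy = gx * hx * (t * hy * t) * fy := by
        simp only [mul_assoc]
      rw [h3]
      exact Subgroup.mul_mem _ (Subgroup.mul_mem _ (Subgroup.mul_mem _ (hS.le hgx) hhxG)
        (Subgroup.mem_inf.1 hd).1) (hS.le hfy)
    rw [MulAction.mem_stabilizer_iff, mul_smul, mul_smul] at h2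
    have h4 : (x * y) • t • a = t • a := by
      have h5 := congrArg (fun c => t • c) h2
      simp only [smul_smul, ← mul_assoc, htt, one_mul] at h5
      rw [mul_smul] at h5
      exact h5
    exact hxy (Cfsg.Agent.Lib_helper8_RankOne.eq_one_of_fix hS (Q.mul_mem hxQ hyQ)
      (Cfsg.Agent.Lib_helper8_RankOne.ta_ne hS) h4)
  · intro gz hz fz g' h' f' hgz hhz hfz ez hg' hh' hf' e'
    have hfg : fx * gy = t * (gz * hz * t * fz) * t := by
      rw [← ez]
      simp only [mul_assoc, mul_inv_rev, inv_inv, ht, htt, htt', mul_one, one_mul,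
        inv_mul_cancel_left, mul_inv_cancel_left, inv_mul_cancel, mul_inv_cancel]
    have e3 : t * (x * y) * t = (gx * (hx * gz * hx⁻¹)) * (hx * hz * hy) * t *
        ((t * hy * t)⁻¹ * fz * (t * hy * t)⁻¹⁻¹ * fy) := by
      rw [exy, hfg]
      simp only [mul_assoc, mul_inv_rev, inv_inv, ht, htt, htt', mul_one, one_mul,
        inv_mul_cancel_left, mul_inv_cancel_left, inv_mul_cancel, mul_inv_cancel]
    rw [e3] at e'
    obtain ⟨-, h2, h3⟩ := Cfsg.Agent.Lib_helper8_RankOne.canon_unique3 hS hg'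
      (Q.mul_mem hgx (hS.conj_mem hx hhxG gz hgz)) hh'
      (Subgroup.mul_mem _ (Subgroup.mul_mem _ hhx hhz) hhy) hf'
      (Q.mul_mem (hS.conj_mem _ hdG fz hfz) hfy) e'.symm
    refine ⟨?_, h2⟩
    rw [h3, inv_inv]

end Cfsg.Agent.S1166
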