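import Cfsg.Statements.S1168
import Cfsg.Agent.S1140

set_option autoImplicit false
open Cfsg

namespace Cfsg.Agent.S1168

section Aux

variable {F : Type*} [Field F] [Fintype F] [CharP F 2]

theorem main (q : F → F)
    (hq : ∀ x y z : F, q (x + y + z) + q (x + y) + q (x + z) + q (y + z) + q x + q y + q z = 0) :
    ∃ (s : Finset ((F ≃+* F) × (F ≃+* F))) (c : (F ≃+* F) × (F ≃+* F) → F),
      ∀ x : F, q x = ∑ p ∈ s, c p * (p.1 x * p.2 x) := by
  classical
  letI : Algebra (ZMod 2) F := ZMod.algebra F 2
  have h2 : (2 : F) = 0 := CharTwo.two_eq_zero
  have hc01 : ∀ c : ZMod 2, c = 0 ∨ c = 1 := by decide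
  have hq0 : q 0 = 0 := by
    have h := hq 0 0 0
    simp only [add_zero] at h
    linear_combination h - 3 * q 0 * h2
  have hβadd : ∀ x y z : F, q (x + y + z) + q (x + y) + q z =
      (q (x + z) + q x + q z) + (q (y + z) + q y + q z) := by
    intro x y z
    have h := hq x y z
    linear_combination h - (q (x + z) + q x + q (y + z) + q y + q z) * h2
  let βL : LinearMap.BilinMap (ZMod 2) F F :=
    LinearMap.mk₂ (ZMod 2) (fun x y => q (x + y) + q x + q y)
      (by
        intro x y z
        exact hβadd x y z)
      (by
        intro c x y
        rcases hc01 c with rfl | rfl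
        · simp only [zero_smul, zero_add, hq0, add_zero]
          linear_combination q y * h2
        · simp only [one_smul])
      (by
        intro x y z
        have h := hβadd y z x
        have e1 : x + (y + z) = y + z + x := by ring
        have e2 : x + y = y + x := by ring
        have e3 : x + z = z + x := by ring
        rw [e1, e2, e3]
        linear_combination h)
      (by
        intro c x y
        rcases hc01 c with rfl | rfl
        · simp only [zero_smul, add_zero, hq0]
          linear_combination q x * h2
        · simp only [one_smul])
  let Q : QuadraticMap (ZMod 2) F F :=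
    { toFun := q
      toFun_smul := by
        intro a x
        rcases hc01 a with rfl | rfl
        · simp only [zero_smul, hq0, mul_zero]
        · simp only [one_smul, mul_one]
      exists_companion' := ⟨βL, fun x y => by
        show q (x + y) = q x + q y + (q (x + y) + q x + q y)
        linear_combination (-(q x) - q y) * h2⟩ }
  let b := Module.finBasis (ZMod 2) F
  have hQ := QuadraticMap.toQuadraticMap_toBilin Q b
  have hB : ∀ x, (Q.toBilin b) x x = q x := by
    intro x
    have h := congrArg (fun Q' : QuadraticMap (ZMod 2) F F => Q' x) hQ
    exact h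
  let B'' : F →+ F →+ F :=
    { toFun := fun x => ((Q.toBilin b) x).toAddMonoidHom
      map_zero' := by
        ext y
        simp
      map_add' := by
        intro x x'
        ext y
        simp }
  obtain ⟨s, c, hc⟩ := (Cfsg.Agent.S1140.result (F := F)).2.2 B''
  refine ⟨s, c, fun x => ?_⟩
  rw [← hB x]
  exact hc x x

end Aux

/-- For a finite field `F` of characteristic 2: if `q : F → F` is quadratic over the prime field, i.e. `(x, y) ↦ q (x + y) + q x + q y` is additive in each variable, then `q x = Σ c_{σ,τ} σ(x) τ(x)` for some coefficients indexed by pairs of field automorphisms. -/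
theorem result {F : Type*} [Field F] [Fintype F] [CharP F 2]
    (q : F → F)
    (hq : ∀ x y z : F, q (x + y + z) + q (x + y) + q (x + z) + q (y + z) + q x + q y + q z = 0) :
    ∃ (s : Finset ((F ≃+* F) × (F ≃+* F))) (c : (F ≃+* F) × (F ≃+* F) → F),
      ∀ x : F, q x = ∑ p ∈ s, c p * (p.1 x * p.2 x) := by
  exact main q hq

end Cfsg.Agent.S1168
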