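import Cfsg.Statements.S1176


set_option autoImplicit false
open Cfsg

namespace Cfsg.Agent.S1176


open scoped commutatorElement

theorem sq_of_conj {G : Type*} [Group G] (x₀ x : G) (hx₀ : orderOf x₀ = 2) (hx : IsConj x₀ x) :
    x * x = 1 := by
  obtain ⟨g, hg⟩ := isConj_iff.mp hx
  have h1 : x₀ * x₀ = 1 := by
    have := pow_orderOf_eq_one x₀
    rw [hx₀, pow_two] at this
    exact this
  rw [← hg]
  calc g * x₀ * g⁻¹ * (g * x₀ * g⁻¹) = g * (x₀ * x₀) * g⁻¹ := by group
    _ = 1 := by rw [h1]; group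

theorem conj_pow_inv {G : Type*} [Group G] (x r : G) (h : x * r * x⁻¹ = r⁻¹) (j : ℕ) :
    x * r ^ j * x⁻¹ = (r ^ j)⁻¹ := by
  have : x * r ^ j * x⁻¹ = (x * r * x⁻¹) ^ j := by
    rw [conj_pow]
  rw [this, h, inv_pow]


/-- Let x₀ be an involution of the finite group G and D its conjugacy class. Assume (a) for each x ∈ D the subgroup W(x) generated by the members of D commuting with x is a 2-group of nilpotency class at most 2, and (b) the product of two distinct commuting members of D again lies in D. Then for all x, y ∈ D, if xy has even order greater than 2, its order is 4. -/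
theorem result {G : Type*} [Group G] [Finite G] (x₀ : G) (hx₀ : orderOf x₀ = 2) (ha : ∀ x : G, IsConj x₀ x → IsPGroup 2 ↥(Subgroup.closure {y : G | IsConj x₀ y ∧ Commute y x}) ∧ ⁅⁅Subgroup.closure {y : G | IsConj x₀ y ∧ Commute y x}, Subgroup.closure {y : G | IsConj x₀ y ∧ Commute y x}⁆, Subgroup.closure {y : G | IsConj x₀ y ∧ Commute y x}⁆ = ⊥) (hb : ∀ x y : G, IsConj x₀ x → IsConj x₀ y → x ≠ y → Commute x y → IsConj x₀ (x * y)) (x y : G) (hx : IsConj x₀ x) (hy : IsConj x₀ y) (heven : Even (orderOf (x * y))) (hgt : 2 < orderOf (x * y)) : orderOf (x * y) = 4 := by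
  have hxx := sq_of_conj x₀ x hx₀ hx
  have hyy := sq_of_conj x₀ y hx₀ hy
  have hxi : x⁻¹ = x := inv_eq_of_mul_eq_one_left hxx
  have hyi : y⁻¹ = y := inv_eq_of_mul_eq_one_left hyy
  set r := x * y with hr
  have hxr : x * r * x⁻¹ = r⁻¹ := by
    rw [hr, mul_inv_rev, hxi, hyi]
    calc x * (x * y) * x = (x * x) * y * x := by group
      _ = y * x := by rw [hxx, one_mul]
  have hyr : y * r * y⁻¹ = r⁻¹ := by
    rw [hr, mul_inv_rev, hxi, hyi]
    calc y * (x * y) * y = y * x * (y * y) := by group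
      _ = y * x := by rw [hyy, mul_one]
  obtain ⟨m, hm⟩ := heven
  set z := r ^ m with hz
  have hzz : z * z = 1 := by
    rw [hz, ← pow_add, ← hm, pow_orderOf_eq_one]
  have hzi : z⁻¹ = z := inv_eq_of_mul_eq_one_left hzz
  have hm2 : 2 ≤ m := by omega
  have hz1 : z ≠ 1 := by
    rw [hz]
    apply pow_ne_one_of_lt_orderOf (by omega) (by omega)
  have hxz : x * z = z * x := by
    have h1 := conj_pow_inv x r hxr m
    rw [← hz, hzi] at h1
    calc x * z = x * z * x⁻¹ * x := by group
      _ = z * x := by rw [h1]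
  have hyz : y * z = z * y := by
    have h1 := conj_pow_inv y r hyr m
    rw [← hz, hzi] at h1
    calc y * z = y * z * y⁻¹ * y := by group
      _ = z * y := by rw [h1]
  -- x * z is a conjugate of x or of y
  have hxzD : IsConj x₀ (x * z) := by
    rcases Nat.even_or_odd' m with ⟨j, hj | hj⟩
    · -- m = 2 j
      refine hx.trans (isConj_iff.mpr ⟨(r ^ j)⁻¹, ?_⟩)
      have h1 := conj_pow_inv x r hxr j
      have h2 : (r ^ j)⁻¹ * x = x * r ^ j := by
        rw [← h1]; group
      rw [inv_inv, h2, hz, hj, two_mul, pow_add, mul_assoc]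
    · -- m = 2 j + 1
      refine hy.trans (isConj_iff.mpr ⟨(r ^ j)⁻¹, ?_⟩)
      have h1 := conj_pow_inv y r hyr j
      have h2 : (r ^ j)⁻¹ * y = y * r ^ j := by
        rw [← h1]; group
      have h3 : x * r = y := by
        rw [hr, ← mul_assoc, hxx, one_mul]
      rw [inv_inv, h2, hz, hj, pow_succ', two_mul, pow_add, ← mul_assoc x, h3, mul_assoc]
  have hne : x ≠ x * z := by
    intro h
    apply hz1
    have : x * 1 = x * z := by rw [mul_one]; exact h
    exact (mul_left_cancel this).symm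
  have hcomm : Commute x (x * z) := by
    show x * (x * z) = x * z * x
    rw [mul_assoc, hxz]
  have hzD : IsConj x₀ z := by
    have := hb x (x * z) hx hxzD hne hcomm
    rwa [← mul_assoc, hxx, one_mul] at this
  have hW := (ha z hzD).2
  have hxW : x ∈ Subgroup.closure {y : G | IsConj x₀ y ∧ Commute y z} :=
    Subgroup.subset_closure ⟨hx, hxz⟩
  have hyW : y ∈ Subgroup.closure {y : G | IsConj x₀ y ∧ Commute y z} :=
    Subgroup.subset_closure ⟨hy, hyz⟩
  have h1 : ⁅⁅x, y⁆, y⁆ ∈ ⁅⁅Subgroup.closure {y : G | IsConj x₀ y ∧ Commute y z}, Subgroup.closure {y : G | IsConj x₀ y ∧ Commute y z}⁆, Subgroup.closure {y : G | IsConj x₀ y ∧ Commute y z}⁆ :=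
    Subgroup.commutator_mem_commutator (Subgroup.commutator_mem_commutator hxW hyW) hyW
  rw [hW, Subgroup.mem_bot] at h1
  have h2 : ⁅⁅x, y⁆, y⁆ = x * y * x⁻¹ * y * x * y⁻¹ * x⁻¹ * y⁻¹ := by
    rw [commutatorElement_def, commutatorElement_def]; group
  rw [hxi, hyi] at h2
  have h3 : r ^ 4 = 1 := by
    rw [← h1, h2, hr]
    simp [pow_succ, mul_assoc]
  have h4 : orderOf r ∣ 4 := orderOf_dvd_of_pow_eq_one h3
  have h5 : orderOf r ≤ 4 := Nat.le_of_dvd (by norm_num) h4
  have h6 : orderOf r ≠ 3 := by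
    intro h; rw [h] at h4; norm_num at h4
  omega

end Cfsg.Agent.S1176
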