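import Cfsg.Statements.S1177


set_option autoImplicit false
open Cfsg

namespace Cfsg.Agent.S1177



/-- Let A be a nontrivial elementary abelian 2-subgroup of a finite group G which is a T.I. set (each conjugate of A meets A trivially or equals A) and which does not commute elementwise with any conjugate of A other than A itself. Then for every a ∈ A, a ≠ 1, every conjugate of A contained in C_G(a) is equal to A (A is weakly closed in C_G(a)). -/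
theorem result {G : Type*} [Group G] [Finite G] (A : Subgroup G) (hA : Cfsg.IsElementaryAbelian 2 A) (hA1 : A ≠ ⊥) (hTI : ∀ g : G, A.map (MulAut.conj g).toMonoidHom ⊓ A = ⊥ ∨ A.map (MulAut.conj g).toMonoidHom = A) (hb : ∀ g : G, (∀ a ∈ A, ∀ b ∈ A.map (MulAut.conj g).toMonoidHom, a * b = b * a) → A.map (MulAut.conj g).toMonoidHom = A) (a : G) (ha : a ∈ A) (ha1 : a ≠ 1) (g : G) (hg : A.map (MulAut.conj g).toMonoidHom ≤ Subgroup.centralizer ({a} : Set G)) : A.map (MulAut.conj g).toMonoidHom = A := by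
  have hmem : ∀ (u y : G), y ∈ A.map (MulAut.conj u).toMonoidHom ↔ ∃ a₁ ∈ A, u * a₁ * u⁻¹ = y := by
    intro u y
    simp [Subgroup.mem_map, MulAut.conj_apply]
  have hAcomm : ∀ a₁ ∈ A, ∀ a₂ ∈ A, a₁ * a₂ = a₂ * a₁ := by
    intro a₁ h₁ a₂ h₂
    exact congrArg Subtype.val (hA.1.is_comm.comm ⟨a₁, h₁⟩ ⟨a₂, h₂⟩)
  have hAsq : ∀ a₁ ∈ A, a₁ * a₁ = 1 := by
    intro a₁ h₁
    have := hA.2 a₁ h₁
    rwa [pow_two] at this
  -- elementwise TI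
  have E1 : ∀ u : G, ∀ a₁ ∈ A, a₁ ≠ 1 → u * a₁ * u⁻¹ ∈ A → ∀ a₂ ∈ A, u * a₂ * u⁻¹ ∈ A := by
    intro u a₁ h₁ hne hin a₂ h₂
    rcases hTI u with h | h
    · exfalso
      have : u * a₁ * u⁻¹ ∈ A.map (MulAut.conj u).toMonoidHom ⊓ A :=
        ⟨(hmem u _).mpr ⟨a₁, h₁, rfl⟩, hin⟩
      rw [h, Subgroup.mem_bot] at this
      apply hne
      have h3 : a₁ = u⁻¹ * (u * a₁ * u⁻¹) * u := by group
      rw [h3, this]; group
    · rw [← h]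
      exact (hmem u _).mpr ⟨a₂, h₂, rfl⟩
  have E2 : ∀ u : G, (∀ a₁ ∈ A, ∀ a₂ ∈ A, a₁ * (u * a₂ * u⁻¹) = (u * a₂ * u⁻¹) * a₁) →
      ∀ a₂ ∈ A, u * a₂ * u⁻¹ ∈ A := by
    intro u hu a₂ h₂
    have := hb u (by
      intro a₁ h₁ b hb'
      obtain ⟨a₃, h₃, rfl⟩ := (hmem u b).mp hb'
      exact hu a₁ h₁ a₃ h₃)
    rw [← this]
    exact (hmem u _).mpr ⟨a₂, h₂, rfl⟩
  -- B = A^g, elementwise
  -- Step 1: B normalizes A
  have S1 : ∀ a₁ ∈ A, ∀ x ∈ A, (g * a₁ * g⁻¹) * x * (g * a₁ * g⁻¹)⁻¹ ∈ A := by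
    intro a₁ h₁ x hx
    have hbB : g * a₁ * g⁻¹ ∈ A.map (MulAut.conj g).toMonoidHom := (hmem g _).mpr ⟨a₁, h₁, rfl⟩
    have hc := Subgroup.mem_centralizer_iff.mp (hg hbB) a (Set.mem_singleton a)
    apply E1 (g * a₁ * g⁻¹) a ha ha1 _ x hx
    have : (g * a₁ * g⁻¹) * a * (g * a₁ * g⁻¹)⁻¹ = a := by
      rw [← hc]; group
    rw [this]; exact ha
  by_contra hne
  have hbot : A.map (MulAut.conj g).toMonoidHom ⊓ A = ⊥ := by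
    rcases hTI g with h | h
    · exact h
    · exact absurd h hne
  have hBA : ∀ a₁ ∈ A, g * a₁ * g⁻¹ ∈ A → g * a₁ * g⁻¹ = 1 := by
    intro a₁ h₁ h
    have : g * a₁ * g⁻¹ ∈ A.map (MulAut.conj g).toMonoidHom ⊓ A := ⟨(hmem g _).mpr ⟨a₁, h₁, rfl⟩, h⟩
    rwa [hbot, Subgroup.mem_bot] at this
  -- Step 3
  have S3 : ∀ x ∈ A, ∀ a₁ ∈ A, a₁ ≠ 1 → x * (g * a₁ * g⁻¹) = (g * a₁ * g⁻¹) * x →
      ∀ a₂ ∈ A, x * (g * a₂ * g⁻¹) = (g * a₂ * g⁻¹) * x := by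
    intro x hx a₁ h₁ hne1 hcomm a₂ h₂
    have h1 : (g⁻¹ * x * g) * a₁ * (g⁻¹ * x * g)⁻¹ = a₁ := by
      have : (g⁻¹ * x * g) * a₁ * (g⁻¹ * x * g)⁻¹ = g⁻¹ * (x * (g * a₁ * g⁻¹)) * x⁻¹ * g := by group
      rw [this, hcomm]; group
    have h2 := E1 (g⁻¹ * x * g) a₁ h₁ hne1 (by rw [h1]; exact h₁) a₂ h₂
    -- x b' x⁻¹ b'⁻¹ = g (u a₂ u⁻¹ a₂⁻¹) g⁻¹ ∈ B, and ∈ A
    have h3 : (g⁻¹ * x * g) * a₂ * (g⁻¹ * x * g)⁻¹ * a₂⁻¹ ∈ A := A.mul_mem h2 (A.inv_mem h₂)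
    have h4 : g * ((g⁻¹ * x * g) * a₂ * (g⁻¹ * x * g)⁻¹ * a₂⁻¹) * g⁻¹ ∈ A := by
      have h5 : g * ((g⁻¹ * x * g) * a₂ * (g⁻¹ * x * g)⁻¹ * a₂⁻¹) * g⁻¹
          = x * ((g * a₂ * g⁻¹) * x⁻¹ * (g * a₂ * g⁻¹)⁻¹) := by group
      rw [h5]
      exact A.mul_mem hx (S1 a₂ h₂ x⁻¹ (A.inv_mem hx))
    have h6 := hBA _ h3 h4
    have h7 : x * (g * a₂ * g⁻¹) * x⁻¹ * (g * a₂ * g⁻¹)⁻¹ = 1 := by
      rw [← h6]; group
    calc x * (g * a₂ * g⁻¹) = (x * (g * a₂ * g⁻¹) * x⁻¹ * (g * a₂ * g⁻¹)⁻¹) * (g * a₂ * g⁻¹) * x := by group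
      _ = (g * a₂ * g⁻¹) * x := by rw [h7, one_mul]
  -- Step 4
  have S4 : ∀ x ∈ A, ∀ a₁ ∈ A, ∀ a₂ ∈ A,
      (x * (g * a₁ * g⁻¹) * x⁻¹) * (g * a₂ * g⁻¹) = (g * a₂ * g⁻¹) * (x * (g * a₁ * g⁻¹) * x⁻¹) := by
    intro x hx a₁ h₁ a₂ h₂
    by_cases h1 : a₁ = 1
    · subst h1; group
    set b := g * a₁ * g⁻¹ with hbdef
    set b' := g * a₂ * g⁻¹ with hb'def
    have hbb : b * b = 1 := by
      rw [hbdef]
      calc g * a₁ * g⁻¹ * (g * a₁ * g⁻¹) = g * (a₁ * a₁) * g⁻¹ := by group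
        _ = 1 := by rw [hAsq a₁ h₁]; group
    have hbi : b⁻¹ = b := inv_eq_of_mul_eq_one_left hbb
    have hxi : x⁻¹ = x := inv_eq_of_mul_eq_one_left (hAsq x hx)
    have hbxb : b * x * b ∈ A := by
      have := S1 a₁ h₁ x hx
      rw [← hbdef, hbi] at this
      exact this
    -- c = x b x b = x * (b x b)
    have hcA : x * (b * x * b) ∈ A := A.mul_mem hx hbxb
    have hcb : (x * (b * x * b)) * b = b * (x * (b * x * b)) := by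
      have e1 : x * (b * x * b) = (b * x * b) * x := hAcomm x hx _ hbxb
      calc (x * (b * x * b)) * b = ((b * x * b) * x) * b := by rw [e1]
        _ = b * (x * (b * x * b)) := by group
    have hcb' := S3 (x * (b * x * b)) hcA a₁ h₁ h1 hcb a₂ h₂
    rw [← hb'def] at hcb'
    have hbb' : b * b' = b' * b := by
      rw [hbdef, hb'def]
      calc g * a₁ * g⁻¹ * (g * a₂ * g⁻¹) = g * (a₁ * a₂) * g⁻¹ := by group
        _ = g * (a₂ * a₁) * g⁻¹ := by rw [hAcomm a₁ h₁ a₂ h₂]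
        _ = g * a₂ * g⁻¹ * (g * a₁ * g⁻¹) := by group
    have e2 : x * b * x⁻¹ = (x * (b * x * b)) * b := by
      rw [hxi]
      calc x * b * x = x * b * x * (b * b) := by rw [hbb, mul_one]
        _ = (x * (b * x * b)) * b := by group
    rw [e2]
    calc (x * (b * x * b)) * b * b' = (x * (b * x * b)) * (b * b') := by group
      _ = (x * (b * x * b)) * (b' * b) := by rw [hbb']
      _ = ((x * (b * x * b)) * b') * b := by group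
      _ = (b' * (x * (b * x * b))) * b := by rw [hcb']
      _ = b' * ((x * (b * x * b)) * b) := by group
  -- Step 5: A normalizes B
  have S5 : ∀ x ∈ A, ∀ a₂ ∈ A, (g⁻¹ * x * g) * a₂ * (g⁻¹ * x * g)⁻¹ ∈ A := by
    intro x hx
    apply E2
    intro a₁ h₁ a₂ h₂
    have := S4 x hx a₂ h₂ a₁ h₁
    have e1 : a₁ * ((g⁻¹ * x * g) * a₂ * (g⁻¹ * x * g)⁻¹)
        = g⁻¹ * ((g * a₁ * g⁻¹) * (x * (g * a₂ * g⁻¹) * x⁻¹)) * g := by group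
    have e2 : ((g⁻¹ * x * g) * a₂ * (g⁻¹ * x * g)⁻¹) * a₁
        = g⁻¹ * ((x * (g * a₂ * g⁻¹) * x⁻¹) * (g * a₁ * g⁻¹)) * g := by group
    rw [e1, e2, this]
  -- Step 6
  apply hne
  apply hb g
  intro x hx b hbB
  obtain ⟨a₂, h₂, rfl⟩ := (hmem g b).mp hbB
  have h3 : (g⁻¹ * x * g) * a₂ * (g⁻¹ * x * g)⁻¹ * a₂⁻¹ ∈ A := A.mul_mem (S5 x hx a₂ h₂) (A.inv_mem h₂)
  have h4 : g * ((g⁻¹ * x * g) * a₂ * (g⁻¹ * x * g)⁻¹ * a₂⁻¹) * g⁻¹ ∈ A := by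
    have h5 : g * ((g⁻¹ * x * g) * a₂ * (g⁻¹ * x * g)⁻¹ * a₂⁻¹) * g⁻¹
        = x * ((g * a₂ * g⁻¹) * x⁻¹ * (g * a₂ * g⁻¹)⁻¹) := by group
    rw [h5]
    exact A.mul_mem hx (S1 a₂ h₂ x⁻¹ (A.inv_mem hx))
  have h6 := hBA _ h3 h4
  have h7 : x * (g * a₂ * g⁻¹) * x⁻¹ * (g * a₂ * g⁻¹)⁻¹ = 1 := by
    rw [← h6]; group
  calc x * (g * a₂ * g⁻¹) = (x * (g * a₂ * g⁻¹) * x⁻¹ * (g * a₂ * g⁻¹)⁻¹) * (g * a₂ * g⁻¹) * x := by group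
    _ = (g * a₂ * g⁻¹) * x := by rw [h7, one_mul]

end Cfsg.Agent.S1177
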