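import Cfsg.Statements.S1178
import Cfsg.Agent.Lib_helper2_Isolated
import Cfsg.Agent.Lib_helper2_Inv
import Cfsg.Agent.Lib_helper2_Dihedral

set_option autoImplicit false
open Cfsg

namespace Cfsg.Agent.S1178

open Cfsg.Agent.Lib_helper2_Isolated
open Cfsg.Agent.Lib_helper2_Inv
open Cfsg.Agent.Lib_helper2_Dihedral

/-- Let A be a subgroup of a Sylow 2-subgroup S of the finite group G which is weakly closed in S. If a conjugate g A g⁻¹ commutes elementwise with A, then g A g⁻¹ = A. -/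
theorem result {G : Type*} [Group G] [Finite G] (S : Sylow 2 G) (A : Subgroup G) (hW : Cfsg.IsWeaklyClosed A (S : Subgroup G)) (g : G) (hc : ∀ a ∈ A, ∀ b ∈ A.map (MulAut.conj g).toMonoidHom, a * b = b * a) : A.map (MulAut.conj g).toMonoidHom = A := by
  haveI : Fact (Nat.Prime 2) := ⟨Nat.prime_two⟩
  obtain ⟨hAS, hwc⟩ := hW
  have hA2 : IsPGroup 2 A := S.2.to_le hAS
  have hB2 : IsPGroup 2 (A.map (MulAut.conj g).toMonoidHom) := hA2.map _
  have hnorm : A ≤ Subgroup.normalizer ((A.map (MulAut.conj g).toMonoidHom : Subgroup G) : Set G) := by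
    intro a ha
    rw [Subgroup.mem_normalizer_iff]
    intro b
    constructor
    · intro hb
      have := hc a ha b hb
      have e : a * b * a⁻¹ = b := by rw [this]; group
      rw [e]; exact hb
    · intro hb
      have := hc a ha _ hb
      have e : b = a * b * a⁻¹ := by
        have h2 : a * (a * b * a⁻¹) = a * b := by rw [this]; group
        exact (mul_left_cancel h2).symm
      rw [e]; exact hb
  have hsup : IsPGroup 2 (A ⊔ A.map (MulAut.conj g).toMonoidHom : Subgroup G) :=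
    hA2.to_sup_of_normal_right' hB2 hnorm
  obtain ⟨Q, hQ⟩ := hsup.exists_le_sylow
  obtain ⟨h, hh⟩ := MulAction.exists_smul_eq G Q S
  -- A^h ≤ S and A^{hg} ≤ S
  have h1 : A.map (MulAut.conj h).toMonoidHom ≤ S := by
    rintro _ ⟨a, ha, rfl⟩
    exact conj_mem_of_smul_eq hh (hQ (Subgroup.mem_sup_left ha))
  have h2 : A.map (MulAut.conj (h * g)).toMonoidHom ≤ S := by
    rintro _ ⟨a, ha, rfl⟩
    have h3 : g * a * g⁻¹ ∈ A.map (MulAut.conj g).toMonoidHom := conj_mem_map_conj ha
    have h4 := conj_mem_of_smul_eq hh (hQ (Subgroup.mem_sup_right h3))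
    have e : (MulAut.conj (h * g)).toMonoidHom a = h * (g * a * g⁻¹) * h⁻¹ := by
      simp only [MulEquiv.toMonoidHom_eq_coe, MonoidHom.coe_coe, MulAut.conj_apply]; group
    rw [e]; exact h4
  have e1 := hwc h h1
  have e2 := hwc (h * g) h2
  -- conclude
  ext x
  rw [mem_map_conj]
  constructor
  · intro hx
    -- g⁻¹ x g ∈ A → (hg)(g⁻¹ x g)(hg)⁻¹ = h x h⁻¹ ∈ A → x ∈ A
    have h5 : (h * g) * (g⁻¹ * x * g) * (h * g)⁻¹ ∈ A.map (MulAut.conj (h * g)).toMonoidHom :=
      conj_mem_map_conj hx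
    rw [e2] at h5
    have e : (h * g) * (g⁻¹ * x * g) * (h * g)⁻¹ = h * x * h⁻¹ := by group
    rw [e, ← e1, mem_map_conj] at h5
    have e' : h⁻¹ * (h * x * h⁻¹) * h = x := by group
    rwa [e'] at h5
  · intro hx
    have h5 : h * x * h⁻¹ ∈ A.map (MulAut.conj h).toMonoidHom := conj_mem_map_conj hx
    rw [e1, ← e2, mem_map_conj] at h5
    have e : (h * g)⁻¹ * (h * x * h⁻¹) * (h * g) = g⁻¹ * x * g := by group
    rwa [e] at h5

end Cfsg.Agent.S1178
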