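import Cfsg.Statements.S1181
import Cfsg.Agent.Lib_helper2_Isolated
import Cfsg.Agent.Lib_helper2_Inv
import Cfsg.Agent.Lib_helper2_Dihedral

set_option autoImplicit false
open Cfsg

namespace Cfsg.Agent.S1181

open Cfsg.Agent.Lib_helper2_Isolated
open Cfsg.Agent.Lib_helper2_Inv
open Cfsg.Agent.Lib_helper2_Dihedral

/-- Let z be an isolated involution of the finite group G and N a normal subgroup with z ∉ N. Then the centralizer of zN in G/N is the image of C_G(z), and zN is an isolated involution of G/N. -/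
theorem result {G : Type*} [Group G] [Finite G] (z : G) (hz : Cfsg.IsIsolatedInvolution z) (N : Subgroup G) [N.Normal] (hzN : z ∉ N) : Subgroup.centralizer ({(QuotientGroup.mk z : G ⧸ N)} : Set (G ⧸ N)) = (Subgroup.centralizer ({z} : Set G)).map (QuotientGroup.mk' N) ∧ Cfsg.IsIsolatedInvolution (QuotientGroup.mk z : G ⧸ N) := by
  have hz2 := sq_eq_one_of_orderOf_two hz.1
  have hz' := inv_eq_self_of_orderOf_two hz.1
  have hmemC : ∀ g : G, g ∈ Subgroup.centralizer ({z} : Set G) ↔ z * g = g * z := by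
    intro g
    rw [Subgroup.mem_centralizer_iff]
    constructor
    · intro h; exact h z (Set.mem_singleton z)
    · intro h y hy; rw [Set.mem_singleton_iff] at hy; rw [hy]; exact h
  have hmemC' : ∀ q : G ⧸ N, q ∈ Subgroup.centralizer ({(QuotientGroup.mk z : G ⧸ N)} : Set (G ⧸ N)) ↔
      (QuotientGroup.mk z : G ⧸ N) * q = q * QuotientGroup.mk z := by
    intro g
    rw [Subgroup.mem_centralizer_iff]
    constructor
    · intro h; exact h _ (Set.mem_singleton _)
    · intro h y hy; rw [Set.mem_singleton_iff] at hy; rw [hy]; exact h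
  constructor
  · apply le_antisymm
    · intro q hq
      rw [hmemC'] at hq
      obtain ⟨g, rfl⟩ := QuotientGroup.mk_surjective q
      obtain ⟨j, _, _, hk⟩ := isolated_exists_K hz g
      -- a ∈ N
      have haN : g * z * g⁻¹ * z ∈ N := by
        rw [← QuotientGroup.eq_one_iff]
        have h1 : (QuotientGroup.mk (g * z * g⁻¹ * z) : G ⧸ N) =
            (QuotientGroup.mk g * QuotientGroup.mk z) * (QuotientGroup.mk g)⁻¹ * QuotientGroup.mk z := by
          simp [QuotientGroup.mk_mul, QuotientGroup.mk_inv]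
        rw [h1, ← hq]
        have h2 : (QuotientGroup.mk z : G ⧸ N) * QuotientGroup.mk z = 1 := by
          rw [← QuotientGroup.mk_mul, hz2]; rfl
        calc (QuotientGroup.mk z : G ⧸ N) * QuotientGroup.mk g * (QuotientGroup.mk g)⁻¹ * QuotientGroup.mk z
            = QuotientGroup.mk z * QuotientGroup.mk z := by group
          _ = 1 := h2
      set k := (g * z * g⁻¹ * z) ^ j with hkdef
      have hkN : k ∈ N := pow_mem haN j
      refine ⟨k⁻¹ * g, ?_, ?_⟩
      · rw [SetLike.mem_coe, hmemC]
        calc z * (k⁻¹ * g) = k⁻¹ * (k * z * k⁻¹) * g := by group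
          _ = k⁻¹ * (g * z * g⁻¹) * g := by rw [hk]
          _ = k⁻¹ * g * z := by group
      · show (QuotientGroup.mk (k⁻¹ * g) : G ⧸ N) = QuotientGroup.mk g
        rw [QuotientGroup.mk_mul, QuotientGroup.mk_inv, (QuotientGroup.eq_one_iff k).mpr hkN]
        simp
    · rintro _ ⟨c, hc, rfl⟩
      rw [SetLike.mem_coe, hmemC] at hc
      rw [hmemC']
      show (QuotientGroup.mk z : G ⧸ N) * QuotientGroup.mk c = QuotientGroup.mk c * QuotientGroup.mk z
      rw [← QuotientGroup.mk_mul, ← QuotientGroup.mk_mul, hc]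
  · have h2 : (QuotientGroup.mk z : G ⧸ N) * QuotientGroup.mk z = 1 := by
      rw [← QuotientGroup.mk_mul, hz2]; rfl
    have hzq : orderOf (QuotientGroup.mk z : G ⧸ N) = 2 := by
      rw [orderOf_eq_two_iff']
      refine ⟨?_, h2⟩
      intro h
      exact hzN ((QuotientGroup.eq_one_iff z).mp h)
    have hzq' := inv_eq_self_of_orderOf_two hzq
    refine ⟨hzq, ?_⟩
    intro q hq
    obtain ⟨g, rfl⟩ := QuotientGroup.mk_surjective q
    obtain ⟨hao, _⟩ := isolated_conj_decomp hz g
    -- image of a
    have h1 : (QuotientGroup.mk (g * z * g⁻¹ * z) : G ⧸ N) =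
        (QuotientGroup.mk g * QuotientGroup.mk z * (QuotientGroup.mk g)⁻¹) * QuotientGroup.mk z := by
      simp [QuotientGroup.mk_mul, QuotientGroup.mk_inv]
    set s := (QuotientGroup.mk g : G ⧸ N) * QuotientGroup.mk z * (QuotientGroup.mk g)⁻¹ with hs
    have hs2 : s * s = 1 := by
      rw [hs]
      calc (QuotientGroup.mk g : G ⧸ N) * QuotientGroup.mk z * (QuotientGroup.mk g)⁻¹ *
            (QuotientGroup.mk g * QuotientGroup.mk z * (QuotientGroup.mk g)⁻¹)
          = QuotientGroup.mk g * (QuotientGroup.mk z * QuotientGroup.mk z) * (QuotientGroup.mk g)⁻¹ := by group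
        _ = 1 := by rw [h2]; group
    have hsq : (s * QuotientGroup.mk z) ^ 2 = 1 := by
      rw [pow_two]
      calc s * QuotientGroup.mk z * (s * QuotientGroup.mk z)
          = s * (QuotientGroup.mk z * s) * QuotientGroup.mk z := by group
        _ = s * (s * QuotientGroup.mk z) * QuotientGroup.mk z := by rw [hq.eq]
        _ = (s * s) * (QuotientGroup.mk z * QuotientGroup.mk z) := by group
        _ = 1 := by rw [hs2, h2, one_mul]
    have hd1 : orderOf (s * QuotientGroup.mk z) ∣ 2 := orderOf_dvd_of_pow_eq_one hsq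
    have hd2 : orderOf (s * QuotientGroup.mk z) ∣ orderOf (g * z * g⁻¹ * z) := by
      rw [← h1]
      exact orderOf_map_dvd (QuotientGroup.mk' N) _
    have hd3 : orderOf (s * QuotientGroup.mk z) = 1 := by
      have hcop : Nat.Coprime 2 (orderOf (g * z * g⁻¹ * z)) := Nat.coprime_two_left.mpr hao
      exact Nat.eq_one_of_dvd_coprimes hcop hd1 hd2
    rw [orderOf_eq_one_iff] at hd3
    have : s = (QuotientGroup.mk z : G ⧸ N)⁻¹ := eq_inv_of_mul_eq_one_left hd3
    rw [this, hzq']

end Cfsg.Agent.S1181
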