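import Cfsg.Statements.S1182
import Cfsg.Agent.Lib_helper2_Isolated
import Cfsg.Agent.Lib_helper2_Inv
import Cfsg.Agent.Lib_helper2_Dihedral

set_option autoImplicit false
open Cfsg

namespace Cfsg.Agent.S1182

open Cfsg.Agent.Lib_helper2_Isolated
open Cfsg.Agent.Lib_helper2_Inv
open Cfsg.Agent.Lib_helper2_Dihedral

/-- Let z be an isolated involution of the finite group G and H a subgroup normalized by z. If x, y ∈ H both commute with z and y = h x h⁻¹ for some h ∈ H, then y = c x c⁻¹ for some c ∈ H commuting with z. -/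
theorem result {G : Type*} [Group G] [Finite G] (z : G) (hz : Cfsg.IsIsolatedInvolution z) (H : Subgroup G) (hzH : z ∈ Subgroup.normalizer (H : Set G)) (x y : G) (hx : x ∈ H) (hy : y ∈ H) (hxz : Commute x z) (hyz : Commute y z) (h : G) (hh : h ∈ H) (hconj : h * x * h⁻¹ = y) : ∃ c ∈ H, Commute c z ∧ c * x * c⁻¹ = y := by
  have hz2 := sq_eq_one_of_orderOf_two hz.1
  have hz' := inv_eq_self_of_orderOf_two hz.1
  obtain ⟨j, _, _, hk⟩ := isolated_exists_K hz h
  -- a = h z h⁻¹ z ∈ H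
  have haH : h * z * h⁻¹ * z ∈ H := by
    have h1 : z * h⁻¹ * z⁻¹ ∈ H := (Subgroup.mem_normalizer_iff.mp hzH h⁻¹).mp (inv_mem hh)
    rw [hz'] at h1
    have h2 := mul_mem hh h1
    have h3 : h * (z * h⁻¹ * z) = h * z * h⁻¹ * z := by group
    rwa [h3] at h2
  -- y commutes with a
  have hys : Commute y (h * z * h⁻¹) := by
    rw [← hconj]
    show h * x * h⁻¹ * (h * z * h⁻¹) = h * z * h⁻¹ * (h * x * h⁻¹)
    calc h * x * h⁻¹ * (h * z * h⁻¹) = h * (x * z) * h⁻¹ := by group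
      _ = h * (z * x) * h⁻¹ := by rw [hxz.eq]
      _ = h * z * h⁻¹ * (h * x * h⁻¹) := by group
  have hya : Commute y (h * z * h⁻¹ * z) := hys.mul_right hyz
  have hyk : Commute y ((h * z * h⁻¹ * z) ^ j) := hya.pow_right j
  set k := (h * z * h⁻¹ * z) ^ j with hkdef
  refine ⟨k⁻¹ * h, mul_mem (inv_mem (pow_mem haH j)) hh, ?_, ?_⟩
  · show k⁻¹ * h * z = z * (k⁻¹ * h)
    calc k⁻¹ * h * z = k⁻¹ * (h * z * h⁻¹) * h := by group
      _ = k⁻¹ * (k * z * k⁻¹) * h := by rw [hk]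
      _ = z * (k⁻¹ * h) := by group
  · calc k⁻¹ * h * x * (k⁻¹ * h)⁻¹ = k⁻¹ * (h * x * h⁻¹) * k := by group
      _ = k⁻¹ * (y * k) := by rw [hconj]; group
      _ = k⁻¹ * (k * y) := by rw [hyk.eq]
      _ = y := by group

end Cfsg.Agent.S1182
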