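import Cfsg.Statements.S1184
import Cfsg.Agent.Lib_helper2_Isolated
import Cfsg.Agent.Lib_helper2_Inv
import Cfsg.Agent.Lib_helper2_Dihedral

set_option autoImplicit false
open Cfsg

namespace Cfsg.Agent.S1184

open Cfsg.Agent.Lib_helper2_Isolated
open Cfsg.Agent.Lib_helper2_Inv
open Cfsg.Agent.Lib_helper2_Dihedral

/-- Let z be an isolated involution of the finite group G. If s and t are distinct conjugates of z, then st does not commute with z. -/
theorem result {G : Type*} [Group G] [Finite G] (z : G) (hz : Cfsg.IsIsolatedInvolution z) (g h : G) (hne : g * z * g⁻¹ ≠ h * z * h⁻¹) : ¬ Commute (g * z * g⁻¹ * (h * z * h⁻¹)) z := by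
  have hz2 := sq_eq_one_of_orderOf_two hz.1
  have hz' := inv_eq_self_of_orderOf_two hz.1
  obtain ⟨hao, hainv⟩ := isolated_conj_decomp hz g
  obtain ⟨hbo, hbinv⟩ := isolated_conj_decomp hz h
  intro hc
  apply hne
  set a := g * z * g⁻¹ * z with ha
  set b := h * z * h⁻¹ * z with hb
  have hs : g * z * g⁻¹ = a * z := by
    rw [ha]
    calc g * z * g⁻¹ = g * z * g⁻¹ * (z * z) := by rw [hz2, mul_one]
      _ = g * z * g⁻¹ * z * z := by group
  have ht : h * z * h⁻¹ = b * z := by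
    rw [hb]
    calc h * z * h⁻¹ = h * z * h⁻¹ * (z * z) := by rw [hz2, mul_one]
      _ = h * z * h⁻¹ * z * z := by group
  rw [hs, ht]
  congr 1
  apply eq_of_sq_eq_of_odd hao hbo
  -- s t = a b⁻¹
  have hst : g * z * g⁻¹ * (h * z * h⁻¹) = a * b⁻¹ := by
    rw [hs, ht]
    have : z * b * z = b⁻¹ := by rw [hz'] at hbinv; exact hbinv
    calc a * z * (b * z) = a * (z * b * z) := by group
      _ = a * b⁻¹ := by rw [this]
  rw [hst] at hc
  have h1 : z * (a * b⁻¹) * z⁻¹ = a⁻¹ * b := by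
    calc z * (a * b⁻¹) * z⁻¹ = (z * a * z⁻¹) * (z * b * z⁻¹)⁻¹ := by group
      _ = a⁻¹ * b := by rw [hainv, hbinv, inv_inv]
  have h2 : z * (a * b⁻¹) * z⁻¹ = a * b⁻¹ := by
    rw [← hc.eq]; group
  rw [h1] at h2
  calc a * a = a * (a * b⁻¹) * b := by group
    _ = a * (a⁻¹ * b) * b := by rw [h2]
    _ = b * b := by group

end Cfsg.Agent.S1184
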