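import Cfsg.Statements.S1185
import Cfsg.Agent.Lib_helper2_Isolated
import Cfsg.Agent.Lib_helper2_Inv
import Cfsg.Agent.Lib_helper2_Dihedral

set_option autoImplicit false
open Cfsg

namespace Cfsg.Agent.S1185

open Cfsg.Agent.Lib_helper2_Isolated
open Cfsg.Agent.Lib_helper2_Inv
open Cfsg.Agent.Lib_helper2_Dihedral

/-- Let z be an isolated involution of the finite group G with centralizer C. Then for every g ∈ G there is exactly one element k in the coset gC that has odd order and is inverted by z. -/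
theorem result {G : Type*} [Group G] [Finite G] (z : G) (hz : Cfsg.IsIsolatedInvolution z) (g : G) : ∃! k : G, (Odd (orderOf k) ∧ z * k * z⁻¹ = k⁻¹) ∧ g⁻¹ * k ∈ Subgroup.centralizer ({z} : Set G) := by
  obtain ⟨j, hko, hkinv, hk⟩ := isolated_exists_K hz g
  have hmem : ∀ k : G, g⁻¹ * k ∈ Subgroup.centralizer ({z} : Set G) ↔ k * z * k⁻¹ = g * z * g⁻¹ := by
    intro k
    rw [Subgroup.mem_centralizer_iff]
    constructor
    · intro h
      have h1 := h z (Set.mem_singleton z)
      calc k * z * k⁻¹ = g * (g⁻¹ * k * z) * k⁻¹ := by group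
        _ = g * (z * (g⁻¹ * k)) * k⁻¹ := by rw [h1]
        _ = g * z * g⁻¹ := by group
    · intro h y hy
      rw [Set.mem_singleton_iff] at hy
      subst hy
      calc y * (g⁻¹ * k) = g⁻¹ * (g * y * g⁻¹) * k := by group
        _ = g⁻¹ * (k * y * k⁻¹) * k := by rw [h]
        _ = g⁻¹ * k * y := by group
  refine ⟨(g * z * g⁻¹ * z) ^ j, ⟨⟨hko, hkinv⟩, (hmem _).mpr hk⟩, ?_⟩
  rintro k' ⟨⟨hko', hkinv'⟩, hk'⟩
  rw [hmem] at hk'
  apply eq_of_sq_eq_of_odd hko' hko
  have h1 := conj_of_inverted hkinv'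
  have h2 := conj_of_inverted hkinv
  rw [hk'] at h1
  rw [hk] at h2
  exact mul_right_cancel (h1.symm.trans h2)

end Cfsg.Agent.S1185
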