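import Cfsg.Statements.S1241
import Cfsg.Agent.Lib_helper2_Transfer

set_option autoImplicit false
open Cfsg

namespace Cfsg.Agent.S1241

open Cfsg.Agent.Lib_helper2_Transfer

/-- Let G be a finite group, p a prime, H a subgroup of index prime to p, K a subgroup of H normal in H with H/K commutative, and g ∈ H ∖ K an element of p-power order such that for all integers m and all a ∈ G with a g^m a⁻¹ ∈ H one has a g^m a⁻¹ ∈ g^m K. Then g ∉ G'. -/
theorem result {G : Type*} [Group G] [Finite G] {p : ℕ} [Fact p.Prime] (H K : Subgroup G) (hHK : K ≤ H) (hKn : (K.subgroupOf H).Normal) (hab : ∀ x ∈ H, ∀ y ∈ H, x * y * x⁻¹ * y⁻¹ ∈ K) (hidx : Nat.Coprime p H.index) (g : G) (hgH : g ∈ H) (hgK : g ∉ K) (hgp : ∃ k : ℕ, orderOf g = p ^ k) (hctrl : ∀ (m : ℤ) (a : G), a * g ^ m * a⁻¹ ∈ H → (a * g ^ m * a⁻¹) * (g ^ m)⁻¹ ∈ K) : g ∉ commutator G := by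
  classical
  haveI := hKn
  letI : CommGroup (H ⧸ K.subgroupOf H) :=
    { (inferInstance : Group (H ⧸ K.subgroupOf H)) with
      mul_comm := by
        intro a b
        induction a using QuotientGroup.induction_on with | _ x => ?_
        induction b using QuotientGroup.induction_on with | _ y => ?_
        rw [← QuotientGroup.mk_mul, ← QuotientGroup.mk_mul, QuotientGroup.eq]
        rw [Subgroup.mem_subgroupOf]
        have h0 := hab (y⁻¹ : H) (inv_mem y.2) (x⁻¹ : H) (inv_mem x.2)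
        have e : (((x * y)⁻¹ * (y * x) : H) : G) =
            ((y⁻¹ : H) : G) * ((x⁻¹ : H) : G) * ((y⁻¹ : H) : G)⁻¹ * ((x⁻¹ : H) : G)⁻¹ := by
          push_cast
          group
        rw [e]; exact h0 }
  intro hgc
  have hker : MonoidHom.transfer (QuotientGroup.mk' (K.subgroupOf H)) g = 1 :=
    (Abelianization.commutator_subset_ker
      (MonoidHom.transfer (QuotientGroup.mk' (K.subgroupOf H)))) hgc
  have key : ∀ (k : ℕ) (g₀ : G) (hk : g₀⁻¹ * g ^ k * g₀ ∈ H),
      (QuotientGroup.mk' (K.subgroupOf H)) ⟨g₀⁻¹ * g ^ k * g₀, hk⟩ =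
        (QuotientGroup.mk' (K.subgroupOf H)) ⟨g, hgH⟩ ^ k := by
    intro k g₀ hk
    have h1 := hctrl (k : ℤ) g₀⁻¹ (by rw [inv_inv, zpow_natCast]; exact hk)
    rw [inv_inv, zpow_natCast] at h1
    have h2 : (QuotientGroup.mk' (K.subgroupOf H))
        ((⟨g₀⁻¹ * g ^ k * g₀, hk⟩ : H) * (⟨g, hgH⟩ : H)⁻¹ ^ k) = 1 := by
      rw [QuotientGroup.mk'_apply, QuotientGroup.eq_one_iff, Subgroup.mem_subgroupOf]
      have e : (((⟨g₀⁻¹ * g ^ k * g₀, hk⟩ : H) * (⟨g, hgH⟩ : H)⁻¹ ^ k : H) : G) =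
          g₀⁻¹ * g ^ k * g₀ * (g ^ k)⁻¹ := by
        push_cast
        rw [inv_pow]
      rw [e]; exact h1
    rw [map_mul, map_pow, map_inv, inv_pow, mul_inv_eq_one] at h2
    exact h2
  have htr := Cfsg.Agent.Lib_helper2_Transfer.transfer_eq_pow_of_mod H
    (QuotientGroup.mk' (K.subgroupOf H)) g hgH key
  rw [hker] at htr
  obtain ⟨k, hk⟩ := hgp
  have hpk : (QuotientGroup.mk' (K.subgroupOf H)) ⟨g, hgH⟩ ^ (p ^ k) = 1 := by
    rw [← map_pow]
    have : (⟨g, hgH⟩ : H) ^ (p ^ k) = 1 := by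
      apply Subtype.ext
      push_cast
      rw [← hk]; exact pow_orderOf_eq_one g
    rw [this, map_one]
  have hd1 := orderOf_dvd_of_pow_eq_one hpk
  have hd2 := orderOf_dvd_of_pow_eq_one htr.symm
  have hcop : Nat.Coprime (p ^ k) H.index := Nat.Coprime.pow_left k hidx
  have hone := Nat.dvd_gcd hd1 hd2
  rw [hcop.gcd_eq_one, Nat.dvd_one, orderOf_eq_one_iff, QuotientGroup.mk'_apply,
    QuotientGroup.eq_one_iff, Subgroup.mem_subgroupOf] at hone
  exact hgK hone

end Cfsg.Agent.S1241
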