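import Cfsg.Statements.S1243
import Cfsg.Agent.Lib_helper2_Isolated
import Cfsg.Agent.Lib_helper2_Inv
import Cfsg.Agent.Lib_helper2_Dihedral

set_option autoImplicit false
open Cfsg

namespace Cfsg.Agent.S1243

open Cfsg.Agent.Lib_helper2_Isolated
open Cfsg.Agent.Lib_helper2_Inv
open Cfsg.Agent.Lib_helper2_Dihedral

/-- Let T be a Sylow p-subgroup of the finite group G and W ≤ T a subgroup weakly closed in T. If d and g d g⁻¹ both centralize W, then g d g⁻¹ = h d h⁻¹ for some h ∈ N_G(W). -/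
theorem result {G : Type*} [Group G] [Finite G] {p : ℕ} [Fact p.Prime] (T : Sylow p G) (W : Subgroup G) (hW : Cfsg.IsWeaklyClosed W (T : Subgroup G)) (d g : G) (hd : d ∈ Subgroup.centralizer (W : Set G)) (hgd : g * d * g⁻¹ ∈ Subgroup.centralizer (W : Set G)) : ∃ h ∈ Subgroup.normalizer (W : Set G), h * d * h⁻¹ = g * d * g⁻¹ := by
  obtain ⟨hWT, hwc⟩ := hW
  have hWp : IsPGroup p W := T.2.to_le hWT
  have hmemC : ∀ x : G, x ∈ Subgroup.centralizer ({d} : Set G) ↔ d * x = x * d := by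
    intro x
    rw [Subgroup.mem_centralizer_iff]
    constructor
    · intro h; exact h d (Set.mem_singleton d)
    · intro h y hy; rw [Set.mem_singleton_iff] at hy; rw [hy]; exact h
  rw [Subgroup.mem_centralizer_iff] at hd hgd
  -- W ≤ C(d)
  have hWC : W ≤ Subgroup.centralizer ({d} : Set G) := by
    intro w hw
    rw [hmemC]
    exact (hd w hw).symm
  -- W' = g⁻¹ W g ≤ C(d)
  have hW'C : W.map (MulAut.conj g⁻¹).toMonoidHom ≤ Subgroup.centralizer ({d} : Set G) := by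
    rintro _ ⟨w, hw, rfl⟩
    rw [hmemC]
    simp only [MulEquiv.toMonoidHom_eq_coe, MonoidHom.coe_coe, MulAut.conj_apply, inv_inv]
    have h1 := hgd w hw
    calc d * (g⁻¹ * w * g) = g⁻¹ * (g * d * g⁻¹ * w) * g := by group
      _ = g⁻¹ * (w * (g * d * g⁻¹)) * g := by rw [h1]
      _ = g⁻¹ * w * g * d := by group
  have hp1 : IsPGroup p (W.subgroupOf (Subgroup.centralizer ({d} : Set G))) := hWp.comap_subtype
  have hp2 : IsPGroup p ((W.map (MulAut.conj g⁻¹).toMonoidHom).subgroupOf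
      (Subgroup.centralizer ({d} : Set G))) := (hWp.map _).comap_subtype
  obtain ⟨R₁, hR₁⟩ := hp1.exists_le_sylow
  obtain ⟨R₂, hR₂⟩ := hp2.exists_le_sylow
  obtain ⟨c, hc⟩ := MulAction.exists_smul_eq (Subgroup.centralizer ({d} : Set G)) R₂ R₁
  have hR₁p : IsPGroup p ((R₁ : Subgroup (Subgroup.centralizer ({d} : Set G))).map
      (Subgroup.centralizer ({d} : Set G)).subtype) := R₁.2.map _
  obtain ⟨Q, hQ⟩ := hR₁p.exists_le_sylow
  obtain ⟨a, ha⟩ := MulAction.exists_smul_eq G Q T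
  -- W^a ≤ T
  have h1 : W.map (MulAut.conj a).toMonoidHom ≤ T := by
    rintro _ ⟨w, hw, rfl⟩
    have hwR : (⟨w, hWC hw⟩ : Subgroup.centralizer ({d} : Set G)) ∈ R₁ :=
      hR₁ (Subgroup.mem_subgroupOf.mpr hw)
    exact conj_mem_of_smul_eq ha (hQ ⟨⟨w, hWC hw⟩, hwR, rfl⟩)
  -- W^{a c g⁻¹} ≤ T
  have h2 : W.map (MulAut.conj (a * c.1 * g⁻¹)).toMonoidHom ≤ T := by
    rintro _ ⟨w, hw, rfl⟩
    have hw' : g⁻¹ * w * g ∈ W.map (MulAut.conj g⁻¹).toMonoidHom := by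
      have := conj_mem_map_conj (g := g⁻¹) hw
      rwa [inv_inv] at this
    have hwR : (⟨g⁻¹ * w * g, hW'C hw'⟩ : Subgroup.centralizer ({d} : Set G)) ∈ R₂ :=
      hR₂ (Subgroup.mem_subgroupOf.mpr hw')
    have h3 := conj_mem_of_smul_eq hc hwR
    have h4 := conj_mem_of_smul_eq ha (hQ ⟨_, h3, rfl⟩)
    have e : (MulAut.conj (a * c.1 * g⁻¹)).toMonoidHom w =
        a * (c.1 * (g⁻¹ * w * g) * c.1⁻¹) * a⁻¹ := by
      simp only [MulEquiv.toMonoidHom_eq_coe, MonoidHom.coe_coe, MulAut.conj_apply]; group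
    rw [e]; exact h4
  have n1 := mem_normalizer_of_map_conj_eq (hwc a h1)
  have n2 := mem_normalizer_of_map_conj_eq (hwc (a * c.1 * g⁻¹) h2)
  refine ⟨(a * c.1 * g⁻¹)⁻¹ * a, mul_mem (inv_mem n2) n1, ?_⟩
  have hcd : d * c.1 = c.1 * d := (hmemC c.1).mp c.2
  calc (a * c.1 * g⁻¹)⁻¹ * a * d * ((a * c.1 * g⁻¹)⁻¹ * a)⁻¹
      = g * c.1⁻¹ * (d * c.1) * g⁻¹ := by group
    _ = g * c.1⁻¹ * (c.1 * d) * g⁻¹ := by rw [hcd]
    _ = g * d * g⁻¹ := by group

end Cfsg.Agent.S1243
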