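import Cfsg.Statements.S1262
import Cfsg.Agent.Lib_helper2_Comp

set_option autoImplicit false
open Cfsg

namespace Cfsg.Agent.S1262

open Cfsg.Agent.Lib_helper2_Comp

/-- Let L be a component of the finite group G and H a solvable subgroup normalized by L. Then ⁅L, H⁆ = 1. -/
theorem result {G : Type*} [Group G] [Finite G] (L H : Subgroup G) (hL : Cfsg.IsComponent L) (hsolv : Group.IsSolvable ↥H) (hinv : L ≤ Subgroup.normalizer (H : Set G)) : ⁅L, H⁆ = ⊥ := by
  exact comm_bot_of_elementwise (comp_comm_solvable L H hL.1 hL.2 hsolv hinv)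

end Cfsg.Agent.S1262
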