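import Cfsg.Statements.S1282
import Cfsg.Agent.Lib_helper2_CGen
import Cfsg.Agent.Lib_helper2_SE
import Cfsg.Agent.Lib_helper1_Coprime
import Cfsg.Agent.Lib_helper5_Fitting

set_option autoImplicit false
open Cfsg

namespace Cfsg.Agent.S1282

open Cfsg.Agent.Lib_helper2_CGen
open Cfsg.Agent.Lib_helper2_SE
open Cfsg.Agent.Lib_helper1_Coprime
open Cfsg.Agent.Lib_helper5_Fitting
theorem exists_hyperplane_cent {G : Type*} [Group G] [Finite G] (p : ℕ) [Fact p.Prime] (A : Subgroup G)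
    (hA : Cfsg.IsElementaryAbelian p A) (q : ℕ) [Fact q.Prime] (hqp : q ≠ p) (Q D : Subgroup G)
    (hQ : IsPGroup q ↥Q) (hAQ : A ≤ Subgroup.normalizer (Q : Set G))
    (hAD : A ≤ Subgroup.normalizer (D : Set G)) (hDQ : D ≤ Q) (hne : D ≠ Q) :
    ∃ B : Subgroup G, B ≤ A ∧ B.relIndex A ≤ p ∧
      ¬ (Subgroup.normalizer (D : Set G) ⊓ Q ⊓ Subgroup.centralizer (B : Set G) ≤ D) := by
  by_contra hcon
  push Not at hcon
  have hAX : A ≤ Subgroup.normalizer ((Subgroup.normalizer (D : Set G) ⊓ Q : Subgroup G) : Set G) := by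
    rw [inf_comm]
    exact Lib_helper1_Coprime.le_normalizer_inf_normalizer A Q D hAQ hAD
  have hcop : (Nat.card (Subgroup.normalizer (D : Set G) ⊓ Q : Subgroup G)).Coprime p := by
    obtain ⟨n, hn⟩ := (IsPGroup.iff_card).mp hQ
    have h1 : Nat.card (Subgroup.normalizer (D : Set G) ⊓ Q : Subgroup G) ∣ q ^ n :=
      hn ▸ Subgroup.card_dvd_of_le inf_le_right
    exact Nat.Coprime.coprime_dvd_left h1
      (Nat.Coprime.pow_left n ((Nat.coprime_primes Fact.out Fact.out).mpr hqp))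
  have hle : Subgroup.normalizer (D : Set G) ⊓ Q ≤ D := by
    apply Lib_helper2_CGen.coprime_gen_aux p A hA _ (Subgroup.normalizer (D : Set G) ⊓ Q) ⊥ rfl
      bot_le hAX hcop
    · intro g _
      rw [Subgroup.mem_centralizer_iff]
      intro h hh
      have h1 : h = 1 := hh
      rw [h1, one_mul, mul_one]
    · intro B _ hB hrel
      exact hcon B hB hrel
  obtain ⟨r, hrQ, hrN, hrD⟩ := Lib_helper2_SE.exists_normalizing_not_mem hQ hDQ hne
  exact hrD (hle ⟨hrN, hrQ⟩)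


/-- Let A be an elementary abelian p-subgroup of rank at least 3 of the finite group G, q ≠ p a prime, and Q₁, Q₂ q-subgroups normalized by A with D = Q₁ ∩ Q₂ different from both. Then there is a non-identity a ∈ A such that, for i = 1 and i = 2, N_{Q_i}(D) ∩ C_G(a) is not contained in D. -/
theorem result {G : Type*} [Group G] [Finite G] (p : ℕ) [Fact p.Prime] (A : Subgroup G) (hA : Cfsg.IsElementaryAbelian p A) (hA3 : p ^ 3 ≤ Nat.card ↥A) (q : ℕ) [Fact q.Prime] (hqp : q ≠ p) (Q₁ Q₂ : Subgroup G) (h₁ : IsPGroup q ↥Q₁) (h₂ : IsPGroup q ↥Q₂) (hA₁ : A ≤ Subgroup.normalizer (Q₁ : Set G)) (hA₂ : A ≤ Subgroup.normalizer (Q₂ : Set G)) (hD₁ : Q₁ ⊓ Q₂ ≠ Q₁) (hD₂ : Q₁ ⊓ Q₂ ≠ Q₂) : ∃ a ∈ A, a ≠ 1 ∧ ¬ (Subgroup.normalizer ((Q₁ ⊓ Q₂ : Subgroup G) : Set G) ⊓ Q₁ ⊓ Subgroup.centralizer {a} ≤ Q₁ ⊓ Q₂) ∧ ¬ (Subgroup.normalizer ((Q₁ ⊓ Q₂ : Subgroup G) : Set G) ⊓ Q₂ ⊓ Subgroup.centralizer {a} ≤ Q₁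 ⊓ Q₂) := by
  have hAD : A ≤ Subgroup.normalizer ((Q₁ ⊓ Q₂ : Subgroup G) : Set G) := by
    intro a ha
    have h1 := (Subgroup.mem_normalizer_iff).mp (hA₁ ha)
    have h2 := (Subgroup.mem_normalizer_iff).mp (hA₂ ha)
    rw [Subgroup.mem_normalizer_iff]
    intro h
    exact ⟨fun hh => ⟨(h1 h).mp hh.1, (h2 h).mp hh.2⟩, fun hh => ⟨(h1 h).mpr hh.1, (h2 h).mpr hh.2⟩⟩
  obtain ⟨B₁, hB₁A, hB₁r, hB₁⟩ := exists_hyperplane_cent p A hA q hqp Q₁ (Q₁ ⊓ Q₂) h₁ hA₁ hAD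
    inf_le_left hD₁
  obtain ⟨B₂, hB₂A, hB₂r, hB₂⟩ := exists_hyperplane_cent p A hA q hqp Q₂ (Q₁ ⊓ Q₂) h₂ hA₂ hAD
    inf_le_right hD₂
  have hp := Fact.out (p := p.Prime)
  have hne : B₁ ⊓ B₂ ≠ ⊥ := by
    intro hbot
    have h1 : (B₁ ⊓ B₂).relIndex A ≤ p * p :=
      (Subgroup.relIndex_inf_le).trans (Nat.mul_le_mul hB₁r hB₂r)
    have h2 := Lib_helper5_Fitting.relIndex_mul_card' (inf_le_left.trans hB₁A : B₁ ⊓ B₂ ≤ A)
    rw [hbot, Subgroup.card_bot, mul_one] at h2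
    rw [hbot, h2] at h1
    have h3 : p ^ 3 ≤ p * p := hA3.trans h1
    have h4 : p * p < p ^ 3 := by
      have : p ^ 3 = p * p * p := by ring
      rw [this]
      exact lt_mul_of_one_lt_right (Nat.mul_pos hp.pos hp.pos) hp.one_lt
    omega
  obtain ⟨⟨a, ha⟩, ha1⟩ := (Subgroup.ne_bot_iff_exists_ne_one).mp hne
  refine ⟨a, hB₁A ha.1, fun h => ha1 (Subtype.ext h), ?_, ?_⟩
  · intro hle
    apply hB₁
    refine le_trans (inf_le_inf_left _ ?_) hle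
    apply Subgroup.centralizer_le
    intro x hx
    rw [Set.mem_singleton_iff] at hx
    rw [hx]
    exact ha.1
  · intro hle
    apply hB₂
    refine le_trans (inf_le_inf_left _ ?_) hle
    apply Subgroup.centralizer_le
    intro x hx
    rw [Set.mem_singleton_iff] at hx
    rw [hx]
    exact ha.2

end Cfsg.Agent.S1282
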