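import Cfsg.Statements.S1284
import Cfsg.Agent.Lib_helper2_Trans

set_option autoImplicit false
open Cfsg

namespace Cfsg.Agent.S1284

open Cfsg.Agent.Lib_helper2_Trans

/-- Let θ be a solvable A-signalizer functor on the finite group G, A elementary abelian of rank at least 3, q a prime dividing some |θ a|, and Q maximal among the q-subgroups in the family of θ. Then (a) for every member H of the family, some c in the intersection of the θ a (a ∈ A non-identity) makes c Q c⁻¹ ∩ H a Sylow q-subgroup of H; and (b) for every nontrivial subgroup B ≤ A, C_Q(B) is a Sylow q-subgroup of the intersection of the θ b over the non-identity b ∈ B. -/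
theorem result {G : Type*} [Group G] [Finite G] (p : ℕ) [Fact p.Prime] (A : Subgroup G) (hA : Cfsg.IsElementaryAbelian p A) (hA3 : p ^ 3 ≤ Nat.card ↥A) (θ : G → Subgroup G) (hθ : Cfsg.IsSolvableSignalizerFunctor p A θ) (q : ℕ) [Fact q.Prime] (hq : ∃ a ∈ A, a ≠ 1 ∧ q ∣ Nat.card ↥(θ a)) (Q : Subgroup G) (hQW : Q ∈ Cfsg.signalizerFamily p A θ) (hQq : IsPGroup q ↥Q) (hQmax : ∀ R ∈ Cfsg.signalizerFamily p A θ, IsPGroup q ↥R → Q ≤ R → R = Q) : (∀ H : Subgroup G, H ∈ Cfsg.signalizerFamily p A θ → ∃ c ∈ Cfsg.signalizerInf A θ, ∃ S : Sylow q ↥H, (S : Subgroup ↥H).map H.subtype = Q.map (MulAut.conj c).toMonoidHom ⊓ H) ∧ (∀ B : Subgroup G, B ≤ A → B ≠ ⊥ → ∃ S : Sylow q ↥(Cfsg.signalizerInf B θ), (S : Subgroup ↥(Cfsg.signalizerInf B θ)).map (Cfsg.signalizerInf B θ).subtype = Q ⊓ Subgroup.centralizer (B : Set G)) := by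
  have hp := Fact.out (p := p.Prime)
  have hsolvA : Group.IsSolvable A := Group.isSolvable_of_comm (fun x y => hA.1.is_comm.comm x y)
  have hnorm : ∀ U : Subgroup G, (∀ b ∈ A, ∀ u ∈ U, b * u * b⁻¹ ∈ U) →
      A ≤ Subgroup.normalizer (U : Set G) :=
    fun U hU b hb => Lib_helper1_Basic.mem_normalizer_of_conj_le U b (hU b hb)
  have hinv : ∀ U : Subgroup G, A ≤ Subgroup.normalizer (U : Set G) →
      (∀ b ∈ A, ∀ u ∈ U, b * u * b⁻¹ ∈ U) :=
    fun U hU b hb u hu => ((Subgroup.mem_normalizer_iff).mp (hU hb) u).mp hu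
  have partA : ∀ H : Subgroup G, H ∈ Cfsg.signalizerFamily p A θ →
      ∃ c ∈ Cfsg.signalizerInf A θ, ∃ S : Sylow q ↥H,
        (S : Subgroup ↥H).map H.subtype = Q.map (MulAut.conj c).toMonoidHom ⊓ H := by
    intro H hHW
    have hAH := hnorm H hHW.2.2.1
    have hcop : (Nat.card A).Coprime (Nat.card H) := by
      obtain ⟨k, hk⟩ := (IsPGroup.iff_card).mp (Lib_helper1_Thompson.ea_isPGroup hA)
      rw [hk]
      exact Nat.Coprime.pow_left k ((Nat.Prime.coprime_iff_not_dvd hp).mpr hHW.2.1)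
    obtain ⟨S, hS⟩ := Lib_helper1_Coprime.exists_invariant_sylow A H hAH hcop (Or.inl hsolvA) q
    have hS'W : (S : Subgroup ↥H).map H.subtype ∈ Cfsg.signalizerFamily p A θ :=
      family_of_le p A θ hHW (Subgroup.map_subtype_le _) (hinv _ hS)
    have hS'q : IsPGroup q ((S : Subgroup ↥H).map H.subtype) := S.isPGroup'.map _
    obtain ⟨M, ⟨hMW, hMq⟩, hSM, hMmax⟩ := exists_max_subgroup
      (fun R => R ∈ Cfsg.signalizerFamily p A θ ∧ IsPGroup q R) _ ⟨hS'W, hS'q⟩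
    obtain ⟨c, hc, hce⟩ := transitivity p A hA hA3 θ hθ q _ Q M rfl hQW hQq hQmax hMW hMq
      (fun R hR hRq hle => hMmax R ⟨hR, hRq⟩ hle)
    refine ⟨c, hc, S, ?_⟩
    rw [hce]
    apply le_antisymm (le_inf hSM (Subgroup.map_subtype_le _))
    have hmax := S.is_maximal' (Q := (M ⊓ H).subgroupOf H)
      ((hMq.to_le inf_le_left).comap_subtype) (by
        intro x hx
        rw [Subgroup.mem_subgroupOf]
        exact ⟨hSM ⟨x, hx, rfl⟩, x.2⟩)
    intro x hx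
    have hxm : (⟨x, hx.2⟩ : H) ∈ (M ⊓ H).subgroupOf H := Subgroup.mem_subgroupOf.mpr hx
    rw [hmax] at hxm
    exact ⟨⟨x, hx.2⟩, hxm, rfl⟩
  refine ⟨partA, ?_⟩
  intro B hBA hB1
  obtain ⟨⟨b₀, hb₀⟩, hb₀1⟩ := (Subgroup.ne_bot_iff_exists_ne_one).mp hB1
  have hb₀1' : b₀ ≠ 1 := fun h => hb₀1 (Subtype.ext h)
  have hmemH : ∀ x : G, x ∈ Cfsg.signalizerInf B θ ↔ ∀ b ∈ B, b ≠ 1 → x ∈ θ b := by
    intro x
    unfold Cfsg.signalizerInf
    rw [Subgroup.mem_iInf]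
    exact ⟨fun h b hb hb1 => h ⟨b, hb, hb1⟩, fun h b => h b.1 b.2.1 b.2.2⟩
  have hHW : Cfsg.signalizerInf B θ ∈ Cfsg.signalizerFamily p A θ := by
    apply family_of_le p A θ (theta_mem_family p A θ hθ (hBA hb₀) hb₀1')
    · intro x hx
      exact (hmemH x).mp hx b₀ hb₀ hb₀1'
    · intro b hb u hu
      rw [hmemH] at hu ⊢
      intro b' hb' hb'1
      exact hθ.1.2.2.1 b' (hBA hb') hb'1 b hb u (hu b' hb' hb'1)
  obtain ⟨c, hc, S, hS⟩ := partA _ hHW
  have hcH : c ∈ Cfsg.signalizerInf B θ :=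
    (hmemH c).mpr (fun b hb hb1 => mem_theta_of_mem_inf A θ hc (hBA hb) hb1)
  refine ⟨MulAut.conj (⟨c, hcH⟩ : ↥(Cfsg.signalizerInf B θ))⁻¹ • S, ?_⟩
  rw [Sylow.pointwise_smul_def, Lib_helper1_Hall.map_conj_smul,
    Lib_helper6_Conj.conj_smul_eq_conjMap, hS]
  have e1 : ((Cfsg.signalizerInf B θ).subtype (⟨c, hcH⟩ : ↥(Cfsg.signalizerInf B θ))⁻¹) = c⁻¹ :=
    rfl
  rw [e1, Subgroup.map_inf _ _ _ (MulAut.conj c⁻¹).injective,
    Lib_helper6_Conj.conjMap_inv_conjMap, Lib_helper6_Conj.conjMap_of_mem (Subgroup.inv_mem _ hcH)]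
  ext x
  constructor
  · rintro ⟨hxQ, hxH⟩
    refine ⟨hxQ, ?_⟩
    apply Subgroup.mem_centralizer_iff.mpr
    intro b hb
    by_cases hb1 : b = 1
    · rw [hb1, one_mul, mul_one]
    · have h1 := hθ.1.1 b (hBA hb) hb1 ((hmemH x).mp hxH b hb hb1)
      exact (Subgroup.mem_centralizer_iff.mp h1) b (Set.mem_singleton b)
  · rintro ⟨hxQ, hxB⟩
    refine ⟨hxQ, (hmemH x).mpr (fun b hb hb1 => ?_)⟩
    apply hQW.2.2.2 b (hBA hb) hb1
    exact ⟨hxQ, Subgroup.centralizer_le (Set.singleton_subset_iff.mpr hb) hxB⟩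

end Cfsg.Agent.S1284
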