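import Cfsg.Statements.S1285
import Cfsg.Agent.Lib_helper2_Trans

set_option autoImplicit false
open Cfsg

namespace Cfsg.Agent.S1285

open Cfsg.Agent.Lib_helper2_Trans

/-- Let θ be a solvable A-signalizer functor on the finite group G with A elementary abelian of rank at least 3, and suppose that for some prime q every θ a (a ∈ A non-identity) is a q-group. Then θ is complete. -/
theorem result {G : Type*} [Group G] [Finite G] (p : ℕ) [Fact p.Prime] (A : Subgroup G) (hA : Cfsg.IsElementaryAbelian p A) (hA3 : p ^ 3 ≤ Nat.card ↥A) (θ : G → Subgroup G) (hθ : Cfsg.IsSolvableSignalizerFunctor p A θ) (q : ℕ) [Fact q.Prime] (hq : ∀ a ∈ A, a ≠ 1 → IsPGroup q ↥(θ a)) : Cfsg.IsCompleteSignalizerFunctor p A θ := by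
  refine ⟨hθ.1, ?_⟩
  have hbotW : (⊥ : Subgroup G) ∈ Cfsg.signalizerFamily p A θ := by
    refine ⟨inferInstance, ?_, ?_, ?_⟩
    · rw [Subgroup.card_bot]
      exact (Fact.out (p := p.Prime)).not_dvd_one
    · intro b _ u hu
      rw [Subgroup.mem_bot] at hu ⊢
      rw [hu]; group
    · intro a _ _
      exact inf_le_left.trans bot_le
  obtain ⟨Q, ⟨hQW, hQq⟩, -, hQmax⟩ := exists_max_subgroup
    (fun R => R ∈ Cfsg.signalizerFamily p A θ ∧ IsPGroup q R) ⊥ ⟨hbotW, IsPGroup.of_bot⟩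
  refine ⟨Q, hQW.2.2.1, hQW.2.1, ?_⟩
  intro a ha ha1
  apply le_antisymm (hQW.2.2.2 a ha ha1)
  have hθW := theta_mem_family p A θ hθ ha ha1
  obtain ⟨M, ⟨hMW, hMq⟩, hθM, hMmax⟩ := exists_max_subgroup
    (fun R => R ∈ Cfsg.signalizerFamily p A θ ∧ IsPGroup q R) (θ a) ⟨hθW, hq a ha ha1⟩
  obtain ⟨c, hc, hce⟩ := transitivity p A hA hA3 θ hθ q _ M Q rfl hMW hMq
    (fun R hR hRq hle => hMmax R ⟨hR, hRq⟩ hle) hQW hQq
    (fun R hR hRq hle => hQmax R ⟨hR, hRq⟩ hle)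
  have hca : c ∈ θ a := mem_theta_of_mem_inf A θ hc ha ha1
  refine le_inf ?_ (hθ.1.1 a ha ha1)
  rw [← hce, ← Lib_helper6_Conj.conjMap_of_mem hca]
  exact Lib_helper6_Conj.conjMap_le_conjMap hθM c

end Cfsg.Agent.S1285
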