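import Cfsg.Statements.S1286


set_option autoImplicit false
open Cfsg

namespace Cfsg.Agent.S1286


abbrev pS : Equiv.Perm (Fin 5) := Equiv.swap 0 1
abbrev pT : Equiv.Perm (Fin 5) := Equiv.swap 2 3
abbrev pA : Equiv.Perm (Fin 5) := Equiv.swap 2 3 * Equiv.swap 3 4
abbrev pB : Equiv.Perm (Fin 5) := Equiv.swap 0 1 * Equiv.swap 1 4

def AA : Subgroup (Equiv.Perm (Fin 5)) where
  carrier := {x | x = 1 ∨ x = pS ∨ x = pT ∨ x = pS * pT}
  mul_mem' := by
    rintro x y (rfl | rfl | rfl | rfl) (rfl | rfl | rfl | rfl) <;>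
      simp only [Set.mem_ofPred_eq] <;> decide
  one_mem' := Or.inl rfl
  inv_mem' := by
    rintro x (rfl | rfl | rfl | rfl) <;> simp only [Set.mem_ofPred_eq] <;> decide

noncomputable def θθ (g : Equiv.Perm (Fin 5)) : Subgroup (Equiv.Perm (Fin 5)) :=
  if g = pS then Subgroup.zpowers pA else if g = pT then Subgroup.zpowers pB else ⊥

theorem θ_S : θθ pS = Subgroup.zpowers pA := if_pos rfl

theorem θ_T : θθ pT = Subgroup.zpowers pB := by
  unfold θθ; rw [if_neg (by decide), if_pos rfl]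

theorem θ_ST : θθ (pS * pT) = ⊥ := by
  unfold θθ; rw [if_neg (by decide), if_neg (by decide)]

theorem hA3 : pA ^ 3 = 1 := by decide

theorem hB3 : pB ^ 3 = 1 := by decide

theorem mem_zpowers_three {G : Type*} [Group G] {g x : G} (hg : g ^ 3 = 1)
    (hx : x ∈ Subgroup.zpowers g) : x = 1 ∨ x = g ∨ x = g⁻¹ := by
  obtain ⟨k, rfl⟩ := Subgroup.mem_zpowers_iff.mp hx
  have hg' : g ^ (3 : ℤ) = 1 := by
    have : g ^ ((3 : ℕ) : ℤ) = 1 := by rw [zpow_natCast]; exact hg
    exact this
  have h1 : g ^ k = g ^ (k % 3) := by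
    conv_lhs => rw [← Int.emod_add_mul_ediv k 3]
    rw [zpow_add, zpow_mul, hg', one_zpow, mul_one]
  rw [h1]
  have h2 : 0 ≤ k % 3 := Int.emod_nonneg k (by norm_num)
  have h3 : k % 3 < 3 := Int.emod_lt_of_pos k (by norm_num)
  obtain ⟨r, hr⟩ : ∃ r : ℤ, r = k % 3 := ⟨_, rfl⟩
  rw [← hr] at h2 h3 ⊢
  interval_cases r
  · left; simp
  · right; left; simp
  · right; right
    have h4 : g ^ (2 : ℤ) = g ^ 2 := by
      have : g ^ ((2 : ℕ) : ℤ) = g ^ 2 := zpow_natCast g 2
      exact this
    rw [h4]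
    exact eq_inv_of_mul_eq_one_left (by rw [← pow_succ]; exact hg)

theorem conj_zpowers {G : Type*} [Group G] (b g : G) (h : b * g * b⁻¹ ∈ Subgroup.zpowers g) :
    ∀ x ∈ Subgroup.zpowers g, b * x * b⁻¹ ∈ Subgroup.zpowers g := by
  intro x hx
  have h1 : (Subgroup.zpowers g).map (MulAut.conj b).toMonoidHom ≤ Subgroup.zpowers g := by
    rw [MonoidHom.map_zpowers, Subgroup.zpowers_le]; exact h
  exact h1 ⟨x, hx, rfl⟩

theorem inf_centralizer_eq_bot {G : Type*} [Group G] {g c : G} (hg : g ^ 3 = 1)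
    (h1 : g * c ≠ c * g) (h2 : g⁻¹ * c ≠ c * g⁻¹) :
    Subgroup.zpowers g ⊓ Subgroup.centralizer {c} = ⊥ := by
  rw [eq_bot_iff]
  rintro x ⟨hx, hxc⟩
  have hxc' : x * c = c * x := Subgroup.mem_centralizer_singleton_iff.mp hxc
  rcases mem_zpowers_three hg hx with rfl | rfl | rfl
  · exact Subgroup.mem_bot.mpr rfl
  · exact absurd hxc' h1
  · exact absurd hxc' h2

theorem zpowers_solvable {G : Type*} [Group G] (g : G) : Group.IsSolvable ↥(Subgroup.zpowers g) :=
  Group.isSolvable_of_comm (fun x y =>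
    (inferInstance : IsMulCommutative (Subgroup.zpowers g)).is_comm.comm x y)

theorem bot_solvable {G : Type*} [Group G] : Group.IsSolvable ↥(⊥ : Subgroup G) :=
  Group.isSolvable_of_comm (fun x y => by
    have hx := x.2
    have hy := y.2
    rw [Subgroup.mem_bot] at hx hy
    exact Subtype.ext (by rw [Subgroup.coe_mul, Subgroup.coe_mul, hx, hy]))

theorem card_AA : Nat.card ↥AA = 4 := by
  have h : (AA : Set (Equiv.Perm (Fin 5))) =
      (({1, pS, pT, pS * pT} : Finset (Equiv.Perm (Fin 5))) : Set (Equiv.Perm (Fin 5))) := by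
    ext x
    rw [Finset.coe_insert, Finset.coe_insert, Finset.coe_insert, Finset.coe_singleton]
    rfl
  show Nat.card (AA : Set (Equiv.Perm (Fin 5))) = 4
  rw [h, Nat.card_coe_set_eq, Set.ncard_coe_finset]
  decide


/-- There exist a finite group X, an elementary abelian subgroup A of order 4 and a solvable A-signalizer functor θ on X for the prime 2 which is not complete. -/
theorem result : ∃ (X : Type) (_ : Group X) (_ : Finite X) (A : Subgroup X) (θ : X → Subgroup X), Cfsg.IsElementaryAbelian 2 A ∧ Nat.card ↥A = 4 ∧ Cfsg.IsSolvableSignalizerFunctor 2 A θ ∧ ¬ Cfsg.IsCompleteSignalizerFunctor 2 A θ := by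
  haveI : Fact (Nat.Prime 2) := ⟨Nat.prime_two⟩
  haveI : Fact (Nat.Prime 3) := ⟨Nat.prime_three⟩
  refine ⟨Equiv.Perm (Fin 5), inferInstance, inferInstance, AA, θθ, ⟨?_, ?_⟩, card_AA,
    ⟨⟨?_, ?_, ?_, ?_⟩, ?_⟩, ?_⟩
  · exact ⟨⟨fun x y => by
      obtain ⟨x, hx⟩ := x
      obtain ⟨y, hy⟩ := y
      apply Subtype.ext
      show x * y = y * x
      rcases hx with rfl | rfl | rfl | rfl <;> rcases hy with rfl | rfl | rfl | rfl <;> decide⟩⟩
  · rintro a (rfl | rfl | rfl | rfl) <;> decide
  · intro a ha ha1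
    rcases ha with rfl | rfl | rfl | rfl
    · exact absurd rfl ha1
    · rw [θ_S, Subgroup.zpowers_le, Subgroup.mem_centralizer_singleton_iff]; decide
    · rw [θ_T, Subgroup.zpowers_le, Subgroup.mem_centralizer_singleton_iff]; decide
    · rw [θ_ST]; exact bot_le
  · intro a ha ha1
    rcases ha with rfl | rfl | rfl | rfl
    · exact absurd rfl ha1
    · rw [θ_S, Nat.card_zpowers, orderOf_eq_prime hA3 (by decide)]; decide
    · rw [θ_T, Nat.card_zpowers, orderOf_eq_prime hB3 (by decide)]; decide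
    · rw [θ_ST, Subgroup.card_bot]; decide
  · intro a ha ha1 b hb x hx
    rcases ha with rfl | rfl | rfl | rfl
    · exact absurd rfl ha1
    · rw [θ_S] at hx ⊢
      refine conj_zpowers b pA ?_ x hx
      rcases hb with rfl | rfl | rfl | rfl
      · have h : (1 : Equiv.Perm (Fin 5)) * pA * 1⁻¹ = pA := by decide
        rw [h]; exact Subgroup.mem_zpowers pA
      · have h : pS * pA * pS⁻¹ = pA := by decide
        rw [h]; exact Subgroup.mem_zpowers pA
      · have h : pT * pA * pT⁻¹ = pA⁻¹ := by decide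
        rw [h]; exact Subgroup.inv_mem _ (Subgroup.mem_zpowers pA)
      · have h : (pS * pT) * pA * (pS * pT)⁻¹ = pA⁻¹ := by decide
        rw [h]; exact Subgroup.inv_mem _ (Subgroup.mem_zpowers pA)
    · rw [θ_T] at hx ⊢
      refine conj_zpowers b pB ?_ x hx
      rcases hb with rfl | rfl | rfl | rfl
      · have h : (1 : Equiv.Perm (Fin 5)) * pB * 1⁻¹ = pB := by decide
        rw [h]; exact Subgroup.mem_zpowers pB
      · have h : pS * pB * pS⁻¹ = pB⁻¹ := by decide
        rw [h]; exact Subgroup.inv_mem _ (Subgroup.mem_zpowers pB)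
      · have h : pT * pB * pT⁻¹ = pB := by decide
        rw [h]; exact Subgroup.mem_zpowers pB
      · have h : (pS * pT) * pB * (pS * pT)⁻¹ = pB⁻¹ := by decide
        rw [h]; exact Subgroup.inv_mem _ (Subgroup.mem_zpowers pB)
    · rw [θ_ST] at hx ⊢
      rw [Subgroup.mem_bot] at hx ⊢
      rw [hx]; group
  · intro a ha ha1 b hb hb1
    rcases ha with rfl | rfl | rfl | rfl
    · exact absurd rfl ha1
    · rcases hb with rfl | rfl | rfl | rfl
      · exact absurd rfl hb1
      · exact inf_le_left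
      · rw [θ_S, inf_centralizer_eq_bot hA3 (by decide) (by decide)]; exact bot_le
      · rw [θ_S, inf_centralizer_eq_bot hA3 (by decide) (by decide)]; exact bot_le
    · rcases hb with rfl | rfl | rfl | rfl
      · exact absurd rfl hb1
      · rw [θ_T, inf_centralizer_eq_bot hB3 (by decide) (by decide)]; exact bot_le
      · exact inf_le_left
      · rw [θ_T, inf_centralizer_eq_bot hB3 (by decide) (by decide)]; exact bot_le
    · rw [θ_ST]; exact inf_le_left.trans bot_le
  · intro a ha ha1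
    rcases ha with rfl | rfl | rfl | rfl
    · exact absurd rfl ha1
    · rw [θ_S]; exact zpowers_solvable pA
    · rw [θ_T]; exact zpowers_solvable pB
    · rw [θ_ST]; exact bot_solvable
  · rintro ⟨-, W, -, hW2, hWθ⟩
    have h1 : pA ∈ W := by
      have h := hWθ pS (Or.inr (Or.inl rfl)) (by decide)
      rw [θ_S] at h
      have h' : pA ∈ W ⊓ Subgroup.centralizer {pS} := by rw [h]; exact Subgroup.mem_zpowers pA
      exact h'.1
    have h2 : pB ∈ W := by
      have h := hWθ pT (Or.inr (Or.inr (Or.inl rfl))) (by decide)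
      rw [θ_T] at h
      have h' : pB ∈ W ⊓ Subgroup.centralizer {pT} := by rw [h]; exact Subgroup.mem_zpowers pB
      exact h'.1
    apply hW2
    have h3 : pA * pB * pA * pB⁻¹ ∈ W :=
      W.mul_mem (W.mul_mem (W.mul_mem h1 h2) h1) (W.inv_mem h2)
    have h4 : orderOf (pA * pB * pA * pB⁻¹) = 2 := orderOf_eq_prime (by decide) (by decide)
    rw [← h4]
    exact Subgroup.orderOf_dvd_natCard W h3

end Cfsg.Agent.S1286
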