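import Cfsg.Statements.S1288
import Cfsg.Agent.Lib_helper2_QCore
import Cfsg.Agent.Lib_helper2_CGen
import Cfsg.Agent.Lib_helper2_PCons
import Cfsg.Agent.Lib_helper1_Coprime
import Cfsg.Agent.Lib_helper1_Thompson
import Cfsg.Agent.Lib_helper5_Fitting
import Cfsg.Agent.Lib_helper7_PPrime
import Cfsg.Agent.Lib_helper7_PPrimeP
import Cfsg.Agent.Lib_helper6_PCore

set_option autoImplicit false
open Cfsg

namespace Cfsg.Agent.S1288

open Cfsg.Agent.Lib_helper2_QCore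
open Cfsg.Agent.Lib_helper2_CGen
open Cfsg.Agent.Lib_helper2_PCons
open Cfsg.Agent.Lib_helper1_Coprime
open Cfsg.Agent.Lib_helper1_Thompson
open Cfsg.Agent.Lib_helper5_Fitting
open Cfsg.Agent.Lib_helper7_PPrime
open Cfsg.Agent.Lib_helper7_PPrimeP
open Cfsg.Agent.Lib_helper6_PCore

/-- Let A be a noncyclic elementary abelian p-subgroup of a finite group H normalizing a solvable subgroup K of order prime to p, q a prime dividing |K|, and U ≤ K a subgroup of order prime to q such that ⁅U, C_K(B)⁆ has order prime to q for every subgroup B of index p in A. Then U ≤ O_{q'}(K). -/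
theorem result {H : Type*} [Group H] [Finite H] (p : ℕ) [Fact p.Prime] (A K : Subgroup H) (hA : Cfsg.IsElementaryAbelian p A) (hA2 : p ^ 2 ≤ Nat.card ↥A) (hK : ¬ p ∣ Nat.card ↥K) (hKs : Group.IsSolvable ↥K) (hAK : A ≤ Subgroup.normalizer (K : Set H)) (q : ℕ) [Fact q.Prime] (hqK : q ∣ Nat.card ↥K) (U : Subgroup H) (hU : U ≤ K) (hUq : ¬ q ∣ Nat.card ↥U) (hcomm : ∀ B : Subgroup H, B ≤ A → B.relIndex A = p → ¬ q ∣ Nat.card ↥⁅U, K ⊓ Subgroup.centralizer (B : Set H)⁆) : U ≤ (Cfsg.pPrimeCore q ↥K).map K.subtype := by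
  classical
  have hp := Fact.out (p := p.Prime)
  have hq := Fact.out (p := q.Prime)
  haveI := hKs
  have hLK : (pPrimePCore q ↥K).map K.subtype ≤ K := Subgroup.map_subtype_le _
  have hAL : A ≤ Subgroup.normalizer
      (((pPrimePCore q ↥K).map K.subtype : Subgroup H) : Set H) :=
    hAK.trans (Lib_helper1_Coprime.normalizer_le_normalizer_map_characteristic K
      (pPrimePCore q ↥K))
  have hcopL : (Nat.card ((pPrimePCore q ↥K).map K.subtype : Subgroup H)).Coprime p := by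
    apply Nat.Coprime.symm
    rw [Nat.Prime.coprime_iff_not_dvd hp]
    exact fun h => hK (h.trans (Subgroup.card_dvd_of_le hLK))
  obtain ⟨k, hk⟩ := (IsPGroup.iff_card).mp (Lib_helper1_Thompson.ea_isPGroup hA)
  -- a hyperplane exists
  obtain ⟨B₀, hB₀A, hB₀⟩ : ∃ B₀ : Subgroup H, B₀ ≤ A ∧ B₀.relIndex A = p := by
    have hk1 : 1 ≤ k := by
      by_contra hlt
      push Not at hlt
      have hk0 : k = 0 := by omega
      rw [hk0, pow_zero] at hk
      have h1 : p ^ 2 ≤ 1 := hk ▸ hA2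
      have h2 : 1 < p ^ 2 := Nat.one_lt_pow (by norm_num) hp.one_lt
      omega
    obtain ⟨B', hB'⟩ := Sylow.exists_subgroup_card_pow_prime p (G := ↥A) (n := k - 1)
      (by rw [hk]; exact pow_dvd_pow p (Nat.sub_le k 1))
    refine ⟨B'.map A.subtype, Subgroup.map_subtype_le _, ?_⟩
    have h1 := Lib_helper5_Fitting.relIndex_mul_card' (Subgroup.map_subtype_le B')
    have h2 : Nat.card (B'.map A.subtype : Subgroup H) = p ^ (k - 1) := by
      rw [← hB']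
      exact (Nat.card_congr (B'.equivMapOfInjective _ A.subtype_injective).toEquiv).symm
    rw [h2, hk] at h1
    have h3 : p ^ k = p * p ^ (k - 1) := by
      rw [← pow_succ']
      congr 1
      omega
    rw [h3] at h1
    exact Nat.eq_of_mul_eq_mul_right (pow_pos hp.pos _) h1
  have hNK : ∀ k ∈ K, ∀ n ∈ (pPrimeCore q ↥K).map K.subtype,
      k * n * k⁻¹ ∈ (pPrimeCore q ↥K).map K.subtype := by
    rintro k hk _ ⟨n, hn, rfl⟩
    exact ⟨⟨k, hk⟩ * n * ⟨k, hk⟩⁻¹,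
      (inferInstance : (pPrimeCore q ↥K).Normal).conj_mem n hn _, rfl⟩
  have hLKn : ∀ k ∈ K, ∀ n ∈ (pPrimePCore q ↥K).map K.subtype,
      k * n * k⁻¹ ∈ (pPrimePCore q ↥K).map K.subtype := by
    rintro k hk _ ⟨n, hn, rfl⟩
    exact ⟨⟨k, hk⟩ * n * ⟨k, hk⟩⁻¹,
      (inferInstance : (pPrimePCore q ↥K).Normal).conj_mem n hn _, rfl⟩
  let S : Subgroup H :=
    { carrier := {g | g ∈ K ∧ ∀ u ∈ U, u * g * u⁻¹ * g⁻¹ ∈ (pPrimeCore q ↥K).map K.subtype}
      mul_mem' := by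
        rintro g₁ g₂ ⟨h1K, h1⟩ ⟨h2K, h2⟩
        refine ⟨K.mul_mem h1K h2K, fun u hu => ?_⟩
        have e : u * (g₁ * g₂) * u⁻¹ * (g₁ * g₂)⁻¹ =
            (u * g₁ * u⁻¹ * g₁⁻¹) * (g₁ * (u * g₂ * u⁻¹ * g₂⁻¹) * g₁⁻¹) := by group
        rw [e]
        exact Subgroup.mul_mem _ (h1 u hu) (hNK g₁ h1K _ (h2 u hu))
      one_mem' := ⟨K.one_mem, fun u hu => by
        have e : u * 1 * u⁻¹ * (1 : H)⁻¹ = 1 := by group
        rw [e]; exact Subgroup.one_mem _⟩
      inv_mem' := by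
        rintro g ⟨hgK, hg⟩
        refine ⟨K.inv_mem hgK, fun u hu => ?_⟩
        have e : u * g⁻¹ * u⁻¹ * g⁻¹⁻¹ = g⁻¹ * (u * g * u⁻¹ * g⁻¹)⁻¹ * g⁻¹⁻¹ := by group
        rw [e]
        exact hNK g⁻¹ (K.inv_mem hgK) _ (Subgroup.inv_mem _ (hg u hu)) }
  have hLS : (pPrimePCore q ↥K).map K.subtype ≤ S := by
    apply Lib_helper2_CGen.coprime_gen_aux p A hA _ ((pPrimePCore q ↥K).map K.subtype) ⊥ rfl
      bot_le hAL hcopL
    · intro g _
      rw [Subgroup.mem_centralizer_iff]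
      intro h hh
      have h1 : h = 1 := hh
      rw [h1, one_mul, mul_one]
    · intro B _ hBA hBrel
      obtain ⟨B', hB'A, hB'rel, hB'B⟩ : ∃ B' : Subgroup H, B' ≤ A ∧ B'.relIndex A = p ∧ B' ≤ B := by
        have hd : B.relIndex A ∣ p ^ k := hk ▸ Subgroup.relIndex_dvd_card B A
        obtain ⟨j, hjk, hj⟩ := (Nat.dvd_prime_pow hp).mp hd
        have hj1 : j ≤ 1 := by
          by_contra hlt
          push Not at hlt
          have : p ^ 2 ≤ p ^ j := Nat.pow_le_pow_right hp.pos hlt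
          have h2 : p < p ^ 2 := by
            have := Nat.pow_lt_pow_right hp.one_lt (show 1 < 2 by norm_num)
            rwa [pow_one] at this
          rw [hj] at hBrel
          omega
        rcases Nat.le_one_iff_eq_zero_or_eq_one.mp hj1 with h0 | h1
        · rw [h0, pow_zero] at hj
          exact ⟨B₀, hB₀A, hB₀, hB₀A.trans (Subgroup.relIndex_eq_one.mp hj)⟩
        · rw [h1, pow_one] at hj
          exact ⟨B, hBA, hj, le_rfl⟩
      intro x hx
      have hxC : x ∈ Subgroup.centralizer (B' : Set H) := Subgroup.centralizer_le hB'B hx.2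
      refine ⟨hLK hx.1, fun u hu => ?_⟩
      have hc1 : u * x * u⁻¹ * x⁻¹ ∈ ⁅U, K ⊓ Subgroup.centralizer (B' : Set H)⁆ :=
        Subgroup.commutator_mem_commutator hu ⟨hLK hx.1, hxC⟩
      have hc2 : u * x * u⁻¹ * x⁻¹ ∈ (pPrimePCore q ↥K).map K.subtype :=
        Subgroup.mul_mem _ (hLKn u (hU hu) x hx.1) (Subgroup.inv_mem _ hx.1)
      obtain ⟨c₀, hc₀, hc₀e⟩ := hc2
      have hord : (orderOf c₀).Coprime q := by
        have h1 : orderOf c₀ = orderOf (u * x * u⁻¹ * x⁻¹) := by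
          rw [← hc₀e]; exact (Subgroup.orderOf_coe c₀).symm
        rw [h1]
        exact Nat.Coprime.coprime_dvd_left (Subgroup.orderOf_dvd_natCard _ hc1)
          ((Nat.Prime.coprime_iff_not_dvd hq).mpr (hcomm B' hB'A hB'rel)).symm
      rw [← hc₀e]
      exact ⟨c₀, Lib_helper2_QCore.mem_pPrimeCore_of_coprime q hc₀ hord, rfl⟩
  intro u hu
  obtain ⟨P⟩ : Nonempty (Sylow q ↥(pPrimePCore q ↥K)) := inferInstance
  have hcons : IsPConstrained q ↥K :=
    (Lib_helper2_PCons.pConstrained_iff q).mpr (Lib_helper2_PCons.pLayer_eq_bot_of_solvable q)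
  have hcP := hcons P
  have hy : (QuotientGroup.mk' (pPrimeCore q ↥K)) ⟨u, hU hu⟩ ∈ Subgroup.centralizer
      ((((P : Subgroup ↥(pPrimePCore q ↥K)).map (pPrimePCore q ↥K).subtype).map
        (QuotientGroup.mk' (pPrimeCore q ↥K)) : Subgroup (↥K ⧸ pPrimeCore q ↥K)) :
        Set (↥K ⧸ pPrimeCore q ↥K)) := by
    apply Subgroup.mem_centralizer_iff.mpr
    rintro _ ⟨x, hx, rfl⟩
    rw [← map_mul, ← map_mul]
    apply (QuotientGroup.mk'_eq_mk' _).mpr
    have hxL : ((x⁻¹ : ↥K) : H) ∈ (pPrimePCore q ↥K).map K.subtype :=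
      ⟨x⁻¹, Subgroup.inv_mem _ (Subgroup.map_subtype_le _ hx), rfl⟩
    obtain ⟨z₀, hz₀, hz₀e⟩ := (hLS hxL).2 u⁻¹ (U.inv_mem hu)
    refine ⟨z₀, hz₀, ?_⟩
    apply Subtype.ext
    have hz₀e' : (z₀ : H) = u⁻¹ * ((x⁻¹ : ↥K) : H) * u⁻¹⁻¹ * ((x⁻¹ : ↥K) : H)⁻¹ := hz₀e
    simp only [Subgroup.coe_mul, Subgroup.coe_inv] at hz₀e' ⊢
    rw [hz₀e']
    group
  obtain ⟨w, hw, hwu⟩ := Lib_helper2_PCons.exists_mul_mem_centralizer q (pPrimeCore q ↥K)
    (Lib_helper7_PPrime.card_pPrimeCore_coprime q) _ (P.isPGroup'.map _) ⟨u, hU hu⟩ hy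
  have h2 : w * ⟨u, hU hu⟩ ∈ pPrimePCore q ↥K := hcP hwu
  have h3 : (⟨u, hU hu⟩ : ↥K) ∈ pPrimePCore q ↥K := by
    have := (pPrimePCore q ↥K).mul_mem ((pPrimePCore q ↥K).inv_mem
      (Lib_helper7_PPrimeP.pPrimeCore_le_pPrimePCore q hw)) h2
    rwa [inv_mul_cancel_left] at this
  have hord : (orderOf (⟨u, hU hu⟩ : ↥K)).Coprime q := by
    rw [Subgroup.orderOf_mk]
    exact Nat.Coprime.coprime_dvd_left (Subgroup.orderOf_dvd_natCard U hu)
      ((Nat.Prime.coprime_iff_not_dvd hq).mpr hUq).symm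
  exact ⟨⟨u, hU hu⟩, Lib_helper2_QCore.mem_pPrimeCore_of_coprime q h3 hord, rfl⟩

end Cfsg.Agent.S1288
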