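import Cfsg.Statements.S1300
import Cfsg.Agent.Lib_helper2_Dihedral

set_option autoImplicit false
open Cfsg

namespace Cfsg.Agent.S1300

open Cfsg.Agent.Lib_helper2_Dihedral

/-- For a finite group G, balance in the sense of commuting involutions is the same as 1-balance for the prime 2. -/
theorem result {G : Type*} [Group G] [Finite G] : Cfsg.IsBalanced G ↔ Cfsg.IsKBalanced 2 1 G := by
  have hle : ∀ z : G, Cfsg.centralizerPPrimeCore 2 z ≤ Subgroup.centralizer {z} := by
    intro z
    rintro _ ⟨c, _, rfl⟩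
    exact c.2
  constructor
  · intro hB A hA hcard b hb hcomm
    have hne : A ≠ ⊥ := by
      intro h; rw [h, Subgroup.card_bot] at hcard; norm_num at hcard
    obtain ⟨⟨a, haA⟩, ha1⟩ := (Subgroup.ne_bot_iff_exists_ne_one.mp hne)
    have ha1' : (a : G) ≠ 1 := fun h => ha1 (Subtype.ext h)
    have ha2 : orderOf (a : G) = 2 :=
      orderOf_eq_two_iff'.mpr ⟨ha1', by rw [← pow_two]; exact hA.2 a haA⟩
    have hab := hcomm a haA
    have h1 : Cfsg.signalizerDelta 2 A ≤ Cfsg.centralizerPPrimeCore 2 (a : G) :=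
      iInf_le (fun a : {a : G // a ∈ A ∧ a ≠ 1} => Cfsg.centralizerPPrimeCore 2 (a : G))
        ⟨a, haA, ha1'⟩
    have h2 := hB a b ha2 hb hab
    intro z hz
    have hz1 : z ∈ Cfsg.centralizerPPrimeCore 2 (a : G) ⊓ Subgroup.centralizer {b} :=
      ⟨h1 hz.1, hz.2⟩
    rw [h2] at hz1
    exact hz1.1
  · intro hK x y hx hy hxy
    have key : ∀ x y : G, orderOf x = 2 → orderOf y = 2 → x * y = y * x →
        Cfsg.centralizerPPrimeCore 2 x ⊓ Subgroup.centralizer {y} ≤
          Cfsg.centralizerPPrimeCore 2 y ⊓ Subgroup.centralizer {x} := by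
      intro x y hx hy hxy
      have hx2 : x ^ 2 = 1 := by rw [← hx]; exact pow_orderOf_eq_one x
      have hpow : ∀ a ∈ Subgroup.zpowers x, a = 1 ∨ a = x := by
        rintro a ⟨k, rfl⟩
        rcases Int.even_or_odd' k with ⟨i, rfl | rfl⟩
        · left
          show x ^ (2 * i) = 1
          rw [zpow_mul, zpow_ofNat, hx2, one_zpow]
        · right
          show x ^ (2 * i + 1) = x
          rw [zpow_add, zpow_mul, zpow_ofNat, hx2, one_zpow, one_mul, zpow_one]
      have hA : Cfsg.IsElementaryAbelian 2 (Subgroup.zpowers x) := by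
        refine ⟨inferInstance, ?_⟩
        intro a ha
        rcases hpow a ha with rfl | rfl
        · exact one_pow 2
        · exact hx2
      have hc : ∀ a ∈ Subgroup.zpowers x, a * y = y * a := by
        intro a ha
        rcases hpow a ha with rfl | rfl
        · simp
        · exact hxy
      have h := hK (Subgroup.zpowers x) hA (by rw [Nat.card_zpowers, hx, pow_one]) y hy hc
      intro z hz
      refine ⟨h ⟨?_, hz.2⟩, hle x hz.1⟩
      show z ∈ ⨅ a : {a : G // a ∈ Subgroup.zpowers x ∧ a ≠ 1},
        Cfsg.centralizerPPrimeCore 2 (a : G)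
      rw [Subgroup.mem_iInf]
      rintro ⟨a, haA, ha1⟩
      rcases hpow a haA with h1 | h1
      · exact absurd h1 ha1
      · show z ∈ Cfsg.centralizerPPrimeCore 2 a
        rw [h1]; exact hz.1
    exact le_antisymm (key x y hx hy hxy) (key y x hy hx hxy.symm)

end Cfsg.Agent.S1300
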