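import Cfsg.Statements.S1303
import Cfsg.Agent.Lib_helper2_PCons
import Cfsg.Agent.Lib_helper3_Burnside2
import Cfsg.Agent.Lib_helper4_PSL2

set_option autoImplicit false
open Cfsg

namespace Cfsg.Agent.S1303

open Cfsg.Agent.Lib_helper2_PCons
open Cfsg.Agent.Lib_helper3_Burnside2
open Cfsg.Agent.Lib_helper4_PSL2
set_option maxRecDepth 100000 in
theorem t24 : ∀ x : Matrix.SpecialLinearGroup (Fin 2) (ZMod 3), x ^ 24 = 1 := by decide +kernel

set_option maxRecDepth 100000 in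
theorem ta : ∀ x : Matrix.SpecialLinearGroup (Fin 2) (ZMod 3), x ^ 3 = 1 → x ≠ 1 →
    ∃ g : Matrix.SpecialLinearGroup (Fin 2) (ZMod 3),
      (x * (g * x * g⁻¹)) ^ 3 ≠ 1 ∧ ((x * (g * x * g⁻¹)) ^ 3) ^ 2 = 1 := by decide +kernel

set_option maxRecDepth 100000 in
theorem tb : ∀ t : Matrix.SpecialLinearGroup (Fin 2) (ZMod 3), t ^ 2 = 1 → t ≠ 1 →
    ∀ g : Matrix.SpecialLinearGroup (Fin 2) (ZMod 3), g * t = t * g := by decide +kernel

def g3 : Matrix.SpecialLinearGroup (Fin 2) (ZMod 3) := ⟨!![1, 1; 0, 1], by decide⟩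

theorem tc : g3 ^ 3 = 1 ∧ g3 ≠ 1 := by decide +kernel


/-- The group X = SL(2, 3): it is 2-constrained, O_{2'}(X) = 1, its centre A = Z(X) contains every involution of X = C_X(A), and X has a subgroup of order 3 (normalized by A) not contained in O_{2'}(X). -/
theorem result : Cfsg.IsPConstrained 2 (Matrix.SpecialLinearGroup (Fin 2) (ZMod 3)) ∧ Cfsg.pPrimeCore 2 (Matrix.SpecialLinearGroup (Fin 2) (ZMod 3)) = ⊥ ∧ (∀ t : Matrix.SpecialLinearGroup (Fin 2) (ZMod 3), orderOf t = 2 → t ∈ Subgroup.center (Matrix.SpecialLinearGroup (Fin 2) (ZMod 3))) ∧ ∃ Q : Subgroup (Matrix.SpecialLinearGroup (Fin 2) (ZMod 3)), Nat.card ↥Q = 3 ∧ ¬ (Q ≤ Cfsg.pPrimeCore 2 (Matrix.SpecialLinearGroup (Fin 2) (ZMod 3))) := by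
  haveI : Fact (Nat.Prime 2) := ⟨Nat.prime_two⟩
  haveI : Fact (Nat.Prime 3) := ⟨Nat.prime_three⟩
  have hcard : Nat.card (Matrix.SpecialLinearGroup (Fin 2) (ZMod 3)) = 24 := by
    have h := Cfsg.Agent.Lib_helper4_PSL2.card_SL2 (F := ZMod 3) (q := 3) (ZMod.card 3)
    have h3 : 2 * Nat.card (Matrix.SpecialLinearGroup (Fin 2) (ZMod 3)) = 48 := by
      norm_num at h
      rw [Nat.card_eq_fintype_card]
      exact h
    omega
  haveI hsolv : Group.IsSolvable (Matrix.SpecialLinearGroup (Fin 2) (ZMod 3)) :=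
    Cfsg.Agent.Lib_helper3_Burnside2.burnside_paqb 2 3 3 1 Nat.prime_two Nat.prime_three
      (by rw [hcard]; norm_num)
  have hO : Cfsg.pPrimeCore 2 (Matrix.SpecialLinearGroup (Fin 2) (ZMod 3)) = ⊥ := by
    rw [eq_bot_iff]
    apply sSup_le
    rintro N ⟨hNn, hNc⟩
    intro x hx
    rw [Subgroup.mem_bot]
    by_contra hx1
    have hord : orderOf x ∣ 3 := by
      have h1 : orderOf x ∣ 8 * 3 := orderOf_dvd_of_pow_eq_one (t24 x)
      have h2 : (orderOf x).Coprime 2 :=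
        Nat.Coprime.coprime_dvd_left (Subgroup.orderOf_dvd_natCard N hx) hNc
      have h3 : (orderOf x).Coprime 8 := Nat.Coprime.pow_right 3 h2
      exact Nat.Coprime.dvd_of_dvd_mul_left h3 h1
    have hx3 : x ^ 3 = 1 := orderOf_dvd_iff_pow_eq_one.mp hord
    obtain ⟨g, hg1, hg2⟩ := ta x hx3 hx1
    have hy : (x * (g * x * g⁻¹)) ^ 3 ∈ N := N.pow_mem (N.mul_mem hx (hNn.conj_mem x hx g)) 3
    have ho : orderOf ((x * (g * x * g⁻¹)) ^ 3) = 2 := orderOf_eq_prime hg2 hg1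
    have h2 : 2 ∣ Nat.card N :=
      Dvd.dvd.trans (dvd_of_eq ho.symm) (Subgroup.orderOf_dvd_natCard N hy)
    have h3 := Nat.Coprime.eq_one_of_dvd hNc.symm h2
    omega
  refine ⟨(pConstrained_iff 2).mpr (pLayer_eq_bot_of_solvable 2), hO, ?_, ?_⟩
  · intro t ht
    rw [Subgroup.mem_center_iff]
    have ht2 : t ^ 2 = 1 := by
      have h := pow_orderOf_eq_one t
      rw [ht] at h
      exact h
    exact tb t ht2 (by rintro rfl; rw [orderOf_one] at ht; omega)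
  · refine ⟨Subgroup.zpowers g3, ?_, ?_⟩
    · rw [Nat.card_zpowers]; exact orderOf_eq_prime tc.1 tc.2
    · rw [hO]
      intro h
      have h1 := h (Subgroup.mem_zpowers g3)
      rw [Subgroup.mem_bot] at h1
      exact tc.2 h1

end Cfsg.Agent.S1303
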