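import Cfsg.Statements.S1304
import Cfsg.Agent.Lib_helper2_Dihedral

set_option autoImplicit false
open Cfsg

namespace Cfsg.Agent.S1304

open Cfsg.Agent.Lib_helper2_Dihedral

/-- Let X be a perfect group and α an automorphism of X with α(x) x⁻¹ central for every x. Then α is the identity. -/
theorem result {X : Type*} [Group X] (hperf : commutator X = ⊤) (α : X ≃* X) (h : ∀ x : X, α x * x⁻¹ ∈ Subgroup.center X) : ∀ x : X, α x = x := by
  let φ : X →* X := MonoidHom.mk' (fun x => α x * x⁻¹) (by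
    intro a b
    show α (a * b) * (a * b)⁻¹ = (α a * a⁻¹) * (α b * b⁻¹)
    have hb := Subgroup.mem_center_iff.mp (h b)
    rw [map_mul, mul_inv_rev]
    calc α a * α b * (b⁻¹ * a⁻¹) = α a * (α b * b⁻¹) * a⁻¹ := by group
      _ = α a * (a⁻¹ * (α b * b⁻¹)) := by rw [mul_assoc, hb a⁻¹]
      _ = α a * a⁻¹ * (α b * b⁻¹) := by group)
  have hφ : ∀ x, φ x = α x * x⁻¹ := fun x => rfl
  have hker : φ.ker = ⊤ := by
    rw [eq_top_iff, ← hperf, commutator_def, Subgroup.commutator_le]
    intro a _ b _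
    rw [MonoidHom.mem_ker, commutatorElement_def, map_mul, map_mul, map_mul, map_inv, map_inv]
    have hc : φ a * φ b = φ b * φ a := by
      have := Subgroup.mem_center_iff.mp (h a) (φ b)
      rw [hφ a]; exact this.symm
    calc φ a * φ b * (φ a)⁻¹ * (φ b)⁻¹ = φ b * φ a * (φ a)⁻¹ * (φ b)⁻¹ := by rw [hc]
      _ = 1 := by group
  intro x
  have hx : x ∈ φ.ker := by rw [hker]; trivial
  rw [MonoidHom.mem_ker, hφ] at hx
  exact mul_inv_eq_one.mp hx

end Cfsg.Agent.S1304
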