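import Cfsg.Statements.S1314
import Cfsg.Agent.Lib_helper2_Dihedral

set_option autoImplicit false
open Cfsg

namespace Cfsg.Agent.S1314

open Cfsg.Agent.Lib_helper2_Dihedral
open scoped commutatorElement

theorem mem_sup_of_commute {G : Type*} [Group G] {A B : Subgroup G}
    (h : ∀ a ∈ A, ∀ b ∈ B, a * b = b * a) {g : G} (hg : g ∈ A ⊔ B) :
    ∃ a ∈ A, ∃ b ∈ B, g = a * b := by
  have hcm : ∀ (m : ↥A) (n : ↥B), Commute (A.subtype m) (B.subtype n) := fun a b => by
    show (a : G) * (b : G) = (b : G) * (a : G)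
    exact h a.1 a.2 b.1 b.2
  have hr := MonoidHom.noncommCoprod_range A.subtype B.subtype hcm
  rw [Subgroup.range_subtype, Subgroup.range_subtype] at hr
  rw [← hr] at hg
  obtain ⟨⟨a, b⟩, rfl⟩ := hg
  exact ⟨a.1, a.2, b.1, b.2, by simp [MonoidHom.noncommCoprod_apply]⟩

theorem comm_elt_mul_left {G : Type*} [Group G] {g h z : G} (hz : z * h = h * z) :
    ⁅g * z, h⁆ = ⁅g, h⁆ := by
  rw [commutatorElement_def, commutatorElement_def]
  calc g * z * h * (g * z)⁻¹ * h⁻¹ = g * (z * h) * z⁻¹ * g⁻¹ * h⁻¹ := by group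
    _ = g * (h * z) * z⁻¹ * g⁻¹ * h⁻¹ := by rw [hz]
    _ = g * h * g⁻¹ * h⁻¹ := by group

theorem comm_elt_mul_right {G : Type*} [Group G] {g h z : G} (hz : z * g = g * z) :
    ⁅g, h * z⁆ = ⁅g, h⁆ := by
  rw [commutatorElement_def, commutatorElement_def]
  have hz' : z * g⁻¹ = g⁻¹ * z := by
    calc z * g⁻¹ = g⁻¹ * (g * z) * g⁻¹ := by group
      _ = g⁻¹ * (z * g) * g⁻¹ := by rw [hz]
      _ = g⁻¹ * z := by group
  calc g * (h * z) * g⁻¹ * (h * z)⁻¹ = g * h * (z * g⁻¹) * z⁻¹ * h⁻¹ := by group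
    _ = g * h * (g⁻¹ * z) * z⁻¹ * h⁻¹ := by rw [hz']
    _ = g * h * g⁻¹ * h⁻¹ := by group


/-- Let x be an involution of a group G and L a perfect subgroup with ⁅L, x L x⁻¹⁆ = 1. Then l ↦ l (x l x⁻¹) is a group homomorphism π from L to G whose kernel is central in L and whose image lies in C_G(x); and the commutator subgroup of C_{L ⊔ xLx⁻¹}(x) equals the image of π. -/
theorem result {G : Type*} [Group G] [Finite G] (x : G) (hx : orderOf x = 2) (L : Subgroup G) (hperf : ⁅L, L⁆ = L) (hcomm : ⁅L, L.map (MulAut.conj x).toMonoidHom⁆ = ⊥) : ∃ π : ↥L →* G, (∀ l : ↥L, π l = (l : G) * (x * (l : G) * x⁻¹)) ∧ π.ker ≤ Subgroup.center ↥L ∧ π.range ≤ Subgroup.centralizer ({x} : Set G) ∧ ⁅(L ⊔ L.map (MulAut.conj x).toMonoidHom) ⊓ Subgroup.centralizer ({x} : Set G), (L ⊔ L.map (MulAut.conj x).toMonoidHom) ⊓ Subgroup.centralizer ({x} : Set G)⁆ = π.range := by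
  have hx2 : x * x = 1 := sq_eq_one_of_orderOf_two hx
  have hxinv : x⁻¹ = x := inv_eq_self_of_orderOf_two hx
  have hconj : ∀ g : G, x⁻¹ * g * x = x * g * x⁻¹ := fun g => by rw [hxinv]
  have hc : ∀ a ∈ L, ∀ b ∈ L, a * (x * b * x⁻¹) = (x * b * x⁻¹) * a := by
    intro a ha b hb
    have h1 := Subgroup.commutator_eq_bot_iff_le_centralizer.mp hcomm ha
    rw [Subgroup.mem_centralizer_iff] at h1
    exact (h1 (x * b * x⁻¹) ⟨b, hb, rfl⟩).symm
  have hmemLx : ∀ b : G, b ∈ L.map (MulAut.conj x).toMonoidHom ↔ ∃ m ∈ L, b = x * m * x⁻¹ := by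
    intro b
    constructor
    · rintro ⟨m, hm, rfl⟩; exact ⟨m, hm, rfl⟩
    · rintro ⟨m, hm, rfl⟩; exact ⟨m, hm, rfl⟩
  let π : ↥L →* G :=
    { toFun := fun l => (l : G) * (x * (l : G) * x⁻¹)
      map_one' := by simp
      map_mul' := by
        intro l m
        simp only [Subgroup.coe_mul]
        have h1 := hc m m.2 l l.2
        calc (l : G) * m * (x * (l * m) * x⁻¹)
            = l * (m * (x * l * x⁻¹)) * (x * m * x⁻¹) := by group
          _ = l * ((x * l * x⁻¹) * m) * (x * m * x⁻¹) := by rw [h1]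
          _ = l * (x * l * x⁻¹) * (m * (x * m * x⁻¹)) := by group }
  have hπ : ∀ l : ↥L, π l = (l : G) * (x * (l : G) * x⁻¹) := fun l => rfl
  have hrange : π.range ≤ Subgroup.centralizer ({x} : Set G) := by
    rintro _ ⟨l, rfl⟩
    rw [Subgroup.mem_centralizer_singleton_iff, hπ]
    have h1 := hc l l.2 l l.2
    calc (l : G) * (x * l * x⁻¹) * x = (x * l * x⁻¹) * l * x := by rw [h1]
      _ = x * l * (x⁻¹ * l * x) := by group
      _ = x * l * (x * l * x⁻¹) := by rw [hconj]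
      _ = x * ((l : G) * (x * l * x⁻¹)) := by group
  have hrangeLL : π.range ≤ L ⊔ L.map (MulAut.conj x).toMonoidHom := by
    rintro _ ⟨l, rfl⟩
    rw [hπ]
    exact mul_mem ((le_sup_left : L ≤ _) l.2)
      ((le_sup_right : L.map (MulAut.conj x).toMonoidHom ≤ _) ⟨l, l.2, rfl⟩)
  refine ⟨π, hπ, ?_, hrange, ?_⟩
  · intro l hl
    rw [MonoidHom.mem_ker] at hl
    have hl' : (l : G) * (x * (l : G) * x⁻¹) = 1 := hl
    rw [Subgroup.mem_center_iff]
    intro m
    apply Subtype.ext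
    simp only [Subgroup.coe_mul]
    have h1 : (l : G) = x * (l : G)⁻¹ * x⁻¹ := by
      have h3 := eq_inv_of_mul_eq_one_left hl'
      calc (l : G) = (x * (l : G) * x⁻¹)⁻¹ := h3
        _ = x * (l : G)⁻¹ * x⁻¹ := by group
    have h2 := hc m m.2 (l : G)⁻¹ (inv_mem l.2)
    rw [← h1] at h2
    exact h2
  · apply le_antisymm
    · rw [Subgroup.commutator_le]
      have decomp : ∀ c ∈ (L ⊔ L.map (MulAut.conj x).toMonoidHom) ⊓
          Subgroup.centralizer ({x} : Set G),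
          ∃ (a : ↥L) (z : G), z ∈ L ∧ (∀ p ∈ L, z * p = p * z) ∧
            (∀ p ∈ L, z * (x * p * x⁻¹) = (x * p * x⁻¹) * z) ∧ c = π a * z := by
        intro c hcmem
        obtain ⟨a, ha, b', hb', rfl⟩ := mem_sup_of_commute
          (fun a ha b hb => by
            obtain ⟨m, hm, rfl⟩ := (hmemLx b).mp hb
            exact hc a ha m hm) hcmem.1
        obtain ⟨b, hb, rfl⟩ := (hmemLx b').mp hb'
        have hcx := Subgroup.mem_centralizer_singleton_iff.mp hcmem.2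
        have hz1 : x * (a⁻¹ * b) * x⁻¹ = b * a⁻¹ := by
          have e1 : x * (a * (x * b * x⁻¹)) * x⁻¹ = a * (x * b * x⁻¹) := by
            rw [← hcx]; group
          have e2 : x * (a * (x * b * x⁻¹)) * x⁻¹ =
              (x * a * x⁻¹) * (x * (x * b * x⁻¹) * x⁻¹) := by
            group
          have e3 : x * (x * b * x⁻¹) * x⁻¹ = b := by
            calc x * (x * b * x⁻¹) * x⁻¹ = (x * x) * b * (x * x)⁻¹ := by group
              _ = b := by rw [hx2]; group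
          rw [e2, e3] at e1
          have e4 := hc b hb a ha
          have e5 : b * (x * a * x⁻¹) = a * (x * b * x⁻¹) := by rw [e4, e1]
          have e6 : a⁻¹ * b = (x * b * x⁻¹) * (x * a * x⁻¹)⁻¹ := by
            calc a⁻¹ * b = a⁻¹ * (b * (x * a * x⁻¹)) * (x * a * x⁻¹)⁻¹ := by group
              _ = a⁻¹ * (a * (x * b * x⁻¹)) * (x * a * x⁻¹)⁻¹ := by rw [e5]
              _ = (x * b * x⁻¹) * (x * a * x⁻¹)⁻¹ := by group
          calc x * (a⁻¹ * b) * x⁻¹ = x * ((x * b * x⁻¹) * (x * a * x⁻¹)⁻¹) * x⁻¹ := by rw [e6]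
            _ = (x * x) * (b * a⁻¹) * (x * x)⁻¹ := by group
            _ = b * a⁻¹ := by rw [hx2]; group
        have hzL : b * a⁻¹ ∈ L := mul_mem hb (inv_mem ha)
        have hzL' : a⁻¹ * b ∈ L := mul_mem (inv_mem ha) hb
        refine ⟨⟨a, ha⟩, x * (a⁻¹ * b) * x⁻¹, ?_, ?_, ?_, ?_⟩
        · rw [hz1]; exact hzL
        · intro p hp
          exact (hc p hp _ hzL').symm
        · intro p hp
          rw [hz1]; exact hc _ hzL p hp
        · rw [hπ]
          show a * (x * b * x⁻¹) = a * (x * a * x⁻¹) * (x * (a⁻¹ * b) * x⁻¹)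
          group
      have hzπ : ∀ z : G, (∀ p ∈ L, z * p = p * z) →
          (∀ p ∈ L, z * (x * p * x⁻¹) = (x * p * x⁻¹) * z) → ∀ l : ↥L, z * π l = π l * z := by
        intro z h1 h2 l
        rw [hπ]
        have c1 := h1 l l.2
        have c2 := h2 l l.2
        calc z * ((l : G) * (x * l * x⁻¹)) = (z * l) * (x * l * x⁻¹) := by group
          _ = (l : G) * (z * (x * l * x⁻¹)) := by rw [c1]; group
          _ = (l : G) * (x * l * x⁻¹) * z := by rw [c2]; group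
      intro c₁ hc₁ c₂ hc₂
      obtain ⟨a₁, z₁, hz₁L, hz₁a, hz₁b, rfl⟩ := decomp c₁ hc₁
      obtain ⟨a₂, z₂, hz₂L, hz₂a, hz₂b, rfl⟩ := decomp c₂ hc₂
      have hz₁' : z₁ * (π a₂ * z₂) = (π a₂ * z₂) * z₁ := by
        have h1 := hzπ z₁ hz₁a hz₁b a₂
        have h2 : z₁ * z₂ = z₂ * z₁ := hz₁a z₂ hz₂L
        calc z₁ * (π a₂ * z₂) = (z₁ * π a₂) * z₂ := by group
          _ = π a₂ * (z₁ * z₂) := by rw [h1]; group
          _ = π a₂ * z₂ * z₁ := by rw [h2]; group
      rw [comm_elt_mul_left hz₁', comm_elt_mul_right (hzπ z₂ hz₂a hz₂b a₁),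
        ← map_commutatorElement]
      exact ⟨_, rfl⟩
    · have hπC : ∀ l : ↥L, π l ∈ (L ⊔ L.map (MulAut.conj x).toMonoidHom) ⊓
          Subgroup.centralizer ({x} : Set G) :=
        fun l => ⟨hrangeLL ⟨l, rfl⟩, hrange ⟨l, rfl⟩⟩
      have hT : ⁅L, L⁆ ≤ ((⁅(L ⊔ L.map (MulAut.conj x).toMonoidHom) ⊓
          Subgroup.centralizer ({x} : Set G), (L ⊔ L.map (MulAut.conj x).toMonoidHom) ⊓
          Subgroup.centralizer ({x} : Set G)⁆).comap π).map L.subtype := by
        rw [Subgroup.commutator_le]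
        intro a ha b hb
        refine ⟨⁅(⟨a, ha⟩ : ↥L), ⟨b, hb⟩⁆, ?_, rfl⟩
        rw [SetLike.mem_coe, Subgroup.mem_comap, map_commutatorElement]
        exact Subgroup.commutator_mem_commutator (hπC _) (hπC _)
      rintro _ ⟨l, rfl⟩
      have hl : (l : G) ∈ ⁅L, L⁆ := by rw [hperf]; exact l.2
      obtain ⟨l', hl', hll'⟩ := hT hl
      have : l' = l := Subtype.ext hll'
      rw [← this]
      exact hl'

end Cfsg.Agent.S1314
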