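import Cfsg.Statements.S1331
import Cfsg.Agent.Lib_helper2_CGen

set_option autoImplicit false
open Cfsg

namespace Cfsg.Agent.S1331

open Cfsg.Agent.Lib_helper2_CGen

/-- Let θ be a solvable A-signalizer functor on the finite group G for the prime p, A elementary abelian of rank at least 3, X a member of the family of θ, and B ≤ A with |B| ≥ p². Then X is generated by the subgroups X ∩ ⋂_{d ∈ D, d ≠ 1} θ d, D ranging over the subgroups of index p in B. -/
theorem result {G : Type*} [Group G] [Finite G] (p : ℕ) [Fact p.Prime] (A : Subgroup G) (hA : Cfsg.IsElementaryAbelian p A) (hA3 : p ^ 3 ≤ Nat.card ↥A) (θ : G → Subgroup G) (hθ : Cfsg.IsSolvableSignalizerFunctor p A θ) (X : Subgroup G) (hX : X ∈ Cfsg.signalizerFamily p A θ) (B : Subgroup G) (hB : B ≤ A) (hB2 : p ^ 2 ≤ Nat.card ↥B) : X = ⨆ D : {D : Subgroup G // D ≤ B ∧ D.relIndex B = p}, X ⊓ Cfsg.signalizerInf (D : Subgroup G) θ := by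
  obtain ⟨hXs, hXp, hXA, hXθ⟩ := hX
  have hp : p.Prime := Fact.out
  have hcomm : ∀ a ∈ A, ∀ b ∈ A, a * b = b * a := fun a ha b hb =>
    congrArg Subtype.val (hA.1.is_comm.comm ⟨a, ha⟩ ⟨b, hb⟩)
  have hBel : Cfsg.IsElementaryAbelian p B :=
    ⟨⟨⟨fun x y => Subtype.ext (hcomm x.1 (hB x.2) y.1 (hB y.2))⟩⟩, fun b hb => hA.2 b (hB hb)⟩
  have hBp : IsPGroup p B := fun b =>
    ⟨1, by rw [pow_one]; exact Subtype.ext (by simpa using hA.2 b.1 (hB b.2))⟩
  have hBX : B ≤ Subgroup.normalizer (X : Set G) := fun b hb =>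
    Cfsg.Agent.Lib_helper1_Basic.mem_normalizer_of_conj_le X b (hXA b (hB hb))
  have hgen := coprime_gen p B X hBel hXp hBX
  have hkey : ∀ D : Subgroup G, D ≤ B →
      X ⊓ Subgroup.centralizer (D : Set G) ≤ X ⊓ Cfsg.signalizerInf D θ := by
    intro D hD
    apply le_inf inf_le_left
    apply le_iInf
    rintro ⟨d, hd, hd1⟩
    intro x hx
    apply hXθ d (hB (hD hd)) hd1
    refine ⟨hx.1, Subgroup.mem_centralizer_singleton_iff.mpr ?_⟩
    exact ((Subgroup.mem_centralizer_iff.mp hx.2) d hd).symm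
  obtain ⟨k, hk⟩ := IsPGroup.iff_card.mp hBp
  obtain ⟨D₀, hD₀B, hD₀⟩ : ∃ D₀ : Subgroup G, D₀ ≤ B ∧ D₀.relIndex B = p := by
    have hk1 : 1 ≤ k := by
      by_contra h
      have h0 : k = 0 := by omega
      rw [h0, pow_zero] at hk
      rw [hk] at hB2
      have := hp.one_lt
      nlinarith
    obtain ⟨K, hK⟩ := Sylow.exists_subgroup_card_pow_prime p (n := k - 1) (G := ↥B)
      (by rw [hk]; exact pow_dvd_pow p (by omega))
    refine ⟨K.map B.subtype, Subgroup.map_subtype_le K, ?_⟩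
    have h1 := Cfsg.Agent.Lib_helper5_Fitting.relIndex_mul_card' (Subgroup.map_subtype_le K)
    rw [Subgroup.card_map_of_injective (Subgroup.subtype_injective B), hK, hk] at h1
    have h2 : p ^ k = p * p ^ (k - 1) := by
      rw [← pow_succ']; congr 1; omega
    rw [h2] at h1
    exact Nat.eq_of_mul_eq_mul_right (pow_pos hp.pos _) h1
  apply le_antisymm
  · refine hgen.le.trans (iSup_le ?_)
    rintro ⟨D, hDB, hrel⟩
    have hdiv : D.relIndex B ∣ Nat.card B := Subgroup.relIndex_dvd_card D B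
    by_cases h1 : D.relIndex B = p
    · exact (hkey D hDB).trans (le_iSup (fun D : {D : Subgroup G // D ≤ B ∧ D.relIndex B = p} =>
        X ⊓ Cfsg.signalizerInf (D : Subgroup G) θ) ⟨D, hDB, h1⟩)
    · have h2 : D.relIndex B = 1 := by
        rw [hk] at hdiv
        obtain ⟨j, hj, hj'⟩ := (Nat.dvd_prime_pow hp).mp hdiv
        rcases Nat.lt_or_ge j 1 with h | h
        · have h0 : j = 0 := by omega
          rw [hj', h0, pow_zero]
        · exfalso
          rcases Nat.lt_or_ge 1 j with h' | h'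
          · have h3 : p ^ 2 ≤ p ^ j := Nat.pow_le_pow_right hp.pos h'
            have h4 : p < p ^ 2 := by nlinarith [hp.one_lt]
            rw [hj'] at hrel; omega
          · have h0 : j = 1 := by omega
            rw [h0, pow_one] at hj'
            exact h1 hj'
      have h3 : B ≤ D := Subgroup.relIndex_eq_one.mp h2
      have h4 : X ⊓ Subgroup.centralizer (D : Set G) ≤ X ⊓ Subgroup.centralizer (D₀ : Set G) :=
        inf_le_inf_left _ (Subgroup.centralizer_le (SetLike.coe_subset_coe.mpr (hD₀B.trans h3)))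
      exact h4.trans ((hkey D₀ hD₀B).trans
        (le_iSup (fun D : {D : Subgroup G // D ≤ B ∧ D.relIndex B = p} =>
          X ⊓ Cfsg.signalizerInf (D : Subgroup G) θ) ⟨D₀, hD₀B, hD₀⟩))
  · exact iSup_le (fun D => inf_le_left)

end Cfsg.Agent.S1331
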