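import Cfsg.Statements.S1335
import Cfsg.Agent.Lib_helper2_Rank
import Cfsg.Agent.Lib_helper2_SE

set_option autoImplicit false
open Cfsg

namespace Cfsg.Agent.S1335

open Cfsg.Agent.Lib_helper2_Rank
open Cfsg.Agent.Lib_helper2_SE

/-- Let H be a subgroup of the finite group G, p a prime, k ≥ 1, P a Sylow p-subgroup of H of p-rank at least k, and suppose N_G(X) ≤ H for every subgroup X ≤ P of p-rank at least k. Then P is a Sylow p-subgroup of G. -/
theorem result {G : Type*} [Group G] [Finite G] {p : ℕ} [Fact p.Prime] (k : ℕ) (hk : 1 ≤ k) (H : Subgroup G) (P : Sylow p ↥H) (hP : ¬ Cfsg.PRankLE p (k - 1) ↥(P : Subgroup ↥H)) (hΓ : (∀ X : Subgroup G, X ≤ (P : Subgroup ↥H).map H.subtype → ¬ Cfsg.PRankLE p (k - 1) ↥X → Subgroup.normalizer (X : Set G) ≤ H)) : ∃ Q : Sylow p G, (Q : Subgroup G) = (P : Subgroup ↥H).map H.subtype := by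
  have hP'p : IsPGroup p ((P : Subgroup ↥H).map H.subtype) := P.2.map _
  have hP'H : (P : Subgroup ↥H).map H.subtype ≤ H := by
    rintro _ ⟨y, _, rfl⟩; exact y.2
  obtain ⟨Q, hQ⟩ := hP'p.exists_le_sylow
  refine ⟨Q, ?_⟩
  by_contra hne
  obtain ⟨r, hrQ, hrN, hrP⟩ := exists_normalizing_not_mem Q.2 hQ (fun h => hne h.symm)
  have hrank : ¬ Cfsg.PRankLE p (k - 1) ↥((P : Subgroup ↥H).map H.subtype) := by
    rw [not_pRankLE_iff]
    obtain ⟨E, hEP, hEc, hEe, hEcard⟩ := (not_pRankLE_iff p (k - 1) (P : Subgroup ↥H)).mp hP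
    refine ⟨E.map H.subtype, Subgroup.map_mono hEP, ?_, ?_, ?_⟩
    · rintro _ ⟨a, ha, rfl⟩ _ ⟨b, hb, rfl⟩
      exact congrArg Subtype.val (hEc a ha b hb)
    · rintro _ ⟨a, ha, rfl⟩
      have h1 := hEe a ha
      have h2 : ((a ^ p : ↥H) : G) = 1 := by rw [h1]; rfl
      rw [Subgroup.coe_pow] at h2
      exact h2
    · rw [Subgroup.card_map_of_injective H.subtype_injective]; exact hEcard
  have hrH : r ∈ H := hΓ _ le_rfl hrank hrN
  have hsup : IsPGroup p ↥((P : Subgroup ↥H).map H.subtype ⊔ Subgroup.zpowers r) :=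
    Q.2.to_le (sup_le hQ (Subgroup.zpowers_le.mpr hrQ))
  have hsup' : IsPGroup p
      ↥(((P : Subgroup ↥H).map H.subtype ⊔ Subgroup.zpowers r).subgroupOf H) :=
    hsup.comap_subtype
  have hle : (P : Subgroup ↥H) ≤
      ((P : Subgroup ↥H).map H.subtype ⊔ Subgroup.zpowers r).subgroupOf H := by
    intro x hx
    rw [Subgroup.mem_subgroupOf]
    exact (le_sup_left : (P : Subgroup ↥H).map H.subtype ≤ _) ⟨x, hx, rfl⟩
  have heq := P.3 hsup' hle
  have hrmem : (⟨r, hrH⟩ : ↥H) ∈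
      ((P : Subgroup ↥H).map H.subtype ⊔ Subgroup.zpowers r).subgroupOf H := by
    rw [Subgroup.mem_subgroupOf]
    exact (le_sup_right : Subgroup.zpowers r ≤ _) (Subgroup.mem_zpowers r)
  rw [heq] at hrmem
  exact hrP ⟨⟨r, hrH⟩, hrmem, rfl⟩

end Cfsg.Agent.S1335
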