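import Cfsg.Statements.S1337
import Cfsg.Agent.Lib_helper1_Thompson
import Cfsg.Agent.Lib_helper1_SZConj
import Cfsg.Agent.Lib_helper2_Ep

set_option autoImplicit false
open Cfsg

namespace Cfsg.Agent.S1337

open Cfsg.Agent.Lib_helper1_Thompson
open Cfsg.Agent.Lib_helper1_SZConj
open Cfsg.Agent.Lib_helper2_Ep

/-- Let P be a finite p-group of p-rank greater than 2. Then P has a normal elementary abelian subgroup U of order p², and for every elementary abelian X ≤ P with |X| ≥ p²: X is joined to U by a chain of pairwise commuting elementary abelian subgroups of order ≥ p² if and only if C_P(X) has p-rank greater than 2. -/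
theorem result {P : Type*} [Group P] [Finite P] (p : ℕ) [Fact p.Prime] (hP : IsPGroup p P) (hrk : ¬ Cfsg.PRankLE p 2 P) : ∃ U : Subgroup P, U.Normal ∧ Cfsg.IsElementaryAbelian p U ∧ Nat.card ↥U = p ^ 2 ∧ ∀ X : Subgroup P, Cfsg.IsElementaryAbelian p X → p ^ 2 ≤ Nat.card ↥X → (Relation.ReflTransGen (fun A B : Subgroup P => Cfsg.IsElementaryAbelian p A ∧ p ^ 2 ≤ Nat.card ↥A ∧ Cfsg.IsElementaryAbelian p B ∧ p ^ 2 ≤ Nat.card ↥B ∧ ∀ a ∈ A, ∀ b ∈ B, a * b = b * a) X U ↔ ¬ Cfsg.PRankLE p 2 ↥(Subgroup.centralizer (X : Set P))) := by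
  have hp := (Fact.out : p.Prime)
  unfold Cfsg.PRankLE at hrk
  push Not at hrk
  obtain ⟨E, hEc, hEexp, hEcard⟩ := hrk
  have hE : Cfsg.IsElementaryAbelian p E := ⟨hEc, hEexp⟩
  obtain ⟨U, z, u, hU⟩ := exists_ep p hP E hE hEcard
  refine ⟨U, hU.normal, hU.ea, hU.card, ?_⟩
  have hbase := hU.base E hE hEcard
  have hfwd : ∀ A : Subgroup P, Relation.ReflTransGen (fun A B : Subgroup P =>
      Cfsg.IsElementaryAbelian p A ∧ p ^ 2 ≤ Nat.card ↥A ∧ Cfsg.IsElementaryAbelian p B ∧
      p ^ 2 ≤ Nat.card ↥B ∧ ∀ a ∈ A, ∀ b ∈ B, a * b = b * a) A U →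
      ¬ Cfsg.PRankLE p 2 ↥(Subgroup.centralizer (A : Set P)) := by
    intro A hA
    induction hA using Relation.ReflTransGen.head_induction_on with
    | refl => exact hbase
    | @head A B hAB hBU ih =>
      obtain ⟨hAea, hAc, hBea, hBc, hcomm⟩ := hAB
      by_cases hAB' : A = B
      · rw [hAB']; exact ih
      · have hBle : B ≤ Subgroup.centralizer (A : Set P) := by
          intro b hb
          apply Subgroup.mem_centralizer_iff.mpr
          intro a ha
          exact hcomm a ha b hb
        have hea := ea_sup hAea hBea hBle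
        have hcard : p ^ 2 < Nat.card ↥(A ⊔ B) := by
          by_cases hA' : A = A ⊔ B
          · have hBA : B < A :=
              lt_of_le_of_ne (by rw [hA']; exact le_sup_right) (fun h => hAB' h.symm)
            have h1 := card_lt_of_lt hBA
            rw [← hA']
            omega
          · have hlt : A < A ⊔ B := lt_of_le_of_ne le_sup_left hA'
            have h1 := card_lt_of_lt hlt
            omega
        exact not_prankLE_of hea (sup_le (ea_self_le_centralizer hAea) hBle) hcard
  intro X hX hXcard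
  constructor
  · exact hfwd X
  · intro hC
    unfold Cfsg.PRankLE at hC
    push Not at hC
    obtain ⟨F', hF'c, hF'exp, hF'card⟩ := hC
    obtain ⟨F, hF⟩ : ∃ F : Subgroup P,
        F = F'.map (Subgroup.centralizer (X : Set P)).subtype := ⟨_, rfl⟩
    have hFea : Cfsg.IsElementaryAbelian p F := by rw [hF]; exact ea_map ⟨hF'c, hF'exp⟩ _
    have hFcard : p ^ 2 < Nat.card F := by
      rw [hF, ← Nat.card_congr (F'.equivMapOfInjective _ (Subgroup.subtype_injective _)).toEquiv]
      exact hF'card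
    have hFX : F ≤ Subgroup.centralizer (X : Set P) := by
      rw [hF]; exact Subgroup.map_subtype_le _
    obtain ⟨F₀, hF₀⟩ : ∃ F₀ : Subgroup P, F₀ = F ⊓ Subgroup.centralizer (U : Set P) := ⟨_, rfl⟩
    have hF₀ea : Cfsg.IsElementaryAbelian p F₀ := by rw [hF₀]; exact ea_of_le hFea inf_le_left
    have hF₀card : p ^ 2 ≤ Nat.card F₀ := by
      have h1 := hU.card_le F
      rw [← hF₀] at h1
      obtain ⟨m, hm⟩ := IsPGroup.iff_card.mp (ea_isPGroup hF₀ea)
      rw [hm] at h1 ⊢
      apply Nat.pow_le_pow_right hp.pos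
      by_contra hlt
      have hm1 : m ≤ 1 := by omega
      have h5 : p ^ m ≤ p ^ 1 := Nat.pow_le_pow_right hp.pos hm1
      rw [pow_one] at h5
      have h6 : p * p ^ m ≤ p * p := Nat.mul_le_mul_left p h5
      rw [pow_two] at hFcard
      omega
    refine (Relation.ReflTransGen.single ⟨hX, hXcard, hF₀ea, hF₀card, ?_⟩).tail
      ⟨hF₀ea, hF₀card, hU.ea, by rw [hU.card], ?_⟩
    · intro a ha b hb
      rw [hF₀] at ha
      exact (Subgroup.mem_centralizer_iff.mp ha.2 b hb).symm
    · intro a ha b hb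
      rw [hF₀] at hb
      exact (Subgroup.mem_centralizer_iff.mp (hFX hb.1) a ha)

end Cfsg.Agent.S1337
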