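import Cfsg.Statements.S1386
import Cfsg.Agent.Lib_helper2_Cyc

set_option autoImplicit false
open Cfsg

namespace Cfsg.Agent.S1386

open Cfsg.Agent.Lib_helper2_Cyc

/-- Let G be a finite group, W₁, W₂ subgroups forming a self-normalizing cyclic pair, S a subgroup with W₂ ≤ S and W₁ a complement to S' in S, and (W₁, U, W₂') type-P data for S. Then W₂' = W₂ (that is, C_{S'}(W₁) = W₂). -/
theorem result {G : Type*} [Group G] [Finite G] (W₁ W₂ S U W₂' : Subgroup G) (hW : Cfsg.IsSelfNormalizingCyclic W₁ W₂)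
    (hSW : Cfsg.IsComplIn ⁅S, S⁆ W₁ S) (hW₂S : W₂ ≤ S) (hP : Cfsg.IsTypePWith S W₁ U W₂') :
    W₂' = W₂ := by
  obtain ⟨hW₁ne, hW₂ne, hdisj, hcomm, hcyc, hnorm⟩ := hW
  obtain ⟨-, hW₂'ne, hdisj', hcomm', hcyc', hnorm'⟩ := hP.selfNormalizing
  obtain ⟨hS'S, hW₁S, hS'W₁, hfact⟩ := hSW
  haveI := hP.W₁_cyclic
  haveI := hcyc'
  have hW₁c : ∀ a ∈ W₁, ∀ b ∈ W₁, a * b = b * a := fun a ha b hb => cyclic_comm' W₁ ha hb
  obtain ⟨x, hx, hx1⟩ : ∃ x ∈ W₁, x ≠ 1 := by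
    by_contra hcon
    push Not at hcon
    exact hW₁ne ((Subgroup.eq_bot_iff_forall _).mpr hcon)
  obtain ⟨b₀, hb₀, hb₀1⟩ : ∃ b ∈ W₂, b ≠ 1 := by
    by_contra hcon
    push Not at hcon
    exact hW₂ne ((Subgroup.eq_bot_iff_forall _).mpr hcon)
  have h1 : W₂ ≤ W₁ ⊔ W₂' := by
    intro b hb
    obtain ⟨s, hs, a, ha, hbsa⟩ := hfact b (hW₂S hb)
    have hsx : s ∈ ⁅S, S⁆ ⊓ Subgroup.centralizer ({x} : Set G) := by
      refine ⟨hs, ?_⟩
      apply Subgroup.mem_centralizer_iff.mpr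
      intro y hy
      rw [Set.mem_singleton_iff] at hy
      rw [hy]
      have hs' : s = b * a⁻¹ := by rw [hbsa, mul_inv_cancel_right]
      rw [hs']
      have e1 : x * b = b * x := hcomm x hx b hb
      have e2 : x * a⁻¹ = a⁻¹ * x := hW₁c x hx a⁻¹ (W₁.inv_mem ha)
      calc x * (b * a⁻¹) = (x * b) * a⁻¹ := (mul_assoc _ _ _).symm
        _ = b * (x * a⁻¹) := by rw [e1, mul_assoc]
        _ = b * a⁻¹ * x := by rw [e2, mul_assoc]
    rw [hP.W₂_centralizer x hx hx1] at hsx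
    rw [hbsa]
    exact Subgroup.mul_mem _ (Subgroup.mem_sup_right hsx) (Subgroup.mem_sup_left ha)
  have h2 : W₁ ⊔ W₂ ≤ W₁ ⊔ W₂' := sup_le le_sup_left h1
  have hab : x * b₀ ∈ (↑(W₁ ⊔ W₂) : Set G) \ (↑W₁ ∪ ↑W₂) := by
    refine ⟨Subgroup.mul_mem _ (Subgroup.mem_sup_left hx) (Subgroup.mem_sup_right hb₀), ?_⟩
    rintro (h | h)
    · have hb' : b₀ ∈ W₁ := by
        have h3 := W₁.mul_mem (W₁.inv_mem hx) h
        rwa [inv_mul_cancel_left] at h3
      have h4 : b₀ ∈ W₁ ⊓ W₂ := ⟨hb', hb₀⟩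
      rw [hdisj, Subgroup.mem_bot] at h4
      exact hb₀1 h4
    · have ha' : x ∈ W₂ := by
        have h3 := W₂.mul_mem h (W₂.inv_mem hb₀)
        rwa [mul_inv_cancel_right] at h3
      have h4 : x ∈ W₁ ⊓ W₂ := ⟨hx, ha'⟩
      rw [hdisj, Subgroup.mem_bot] at h4
      exact hx1 h4
  have hN := hnorm {x * b₀} (Set.singleton_subset_iff.mpr hab) (Set.singleton_nonempty _)
  have h3 : W₁ ⊔ W₂' ≤ W₁ ⊔ W₂ := by
    rw [← hN]
    intro w hw
    rw [Subgroup.mem_set_normalizer_iff]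
    intro n
    have hcw : w * (x * b₀) = (x * b₀) * w := cyclic_comm' (W₁ ⊔ W₂') hw
      (h2 (Subgroup.mul_mem _ (Subgroup.mem_sup_left hx) (Subgroup.mem_sup_right hb₀)))
    simp only [Set.mem_singleton_iff]
    constructor
    · intro hn; rw [hn, hcw, mul_inv_cancel_right]
    · intro hn
      have h5 : n = w⁻¹ * (x * b₀) * w := by rw [← hn]; group
      rw [h5, mul_assoc, ← hcw, inv_mul_cancel_left]
  have hWW : W₁ ⊔ W₂ = W₁ ⊔ W₂' := le_antisymm h2 h3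
  have hcard : Nat.card W₂ = Nat.card W₂' := by
    have hc1 := card_mul_of_comm W₁ W₂ hdisj hcomm
    have hc2 := card_mul_of_comm W₁ W₂' hdisj' hcomm'
    rw [hWW] at hc1
    have hpos : 0 < Nat.card W₁ := Nat.card_pos
    exact Nat.eq_of_mul_eq_mul_left hpos (hc1.trans hc2.symm)
  have hle : W₂ ≤ W₂' := by
    intro b hb
    apply cyclic_mem_of_pow_card' (W₁ ⊔ W₂') W₂' le_sup_right (h1 hb)
    rw [← hcard]
    have h6 := pow_card_eq_one' (G := W₂) (x := ⟨b, hb⟩)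
    have h7 : b ^ Nat.card W₂ = 1 := congrArg Subtype.val h6
    exact h7
  exact (Subgroup.eq_of_le_of_card_ge hle (le_of_eq hcard.symm)).symm

end Cfsg.Agent.S1386
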