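import Cfsg.Statements.S1441
import Cfsg.Agent.Lib_helper2_Stab

set_option autoImplicit false
open Cfsg

namespace Cfsg.Agent.S1441

open Cfsg.Agent.Lib_helper2_Stab
open scoped commutatorElement


/-- Let G be a finite group, H a solvable subgroup and A a subgroup normalizing H. Suppose there is a chain H = H₀ ≥ H₁ ≥ ⋯ ≥ H_n = 1 of subgroups normal in H and normalized by A such that A acts trivially on each factor H_{i-1}/H_i (that is, [H_{i-1}, A] ≤ H_i). Then every prime dividing the index of C_A(H) in A divides the order of H. -/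
theorem result {G : Type*} [Group G] [Finite G] (H A : Subgroup G) (hH : Group.IsSolvable H) (hA : (A ≤ Subgroup.normalizer (H : Set G)))
    (n : ℕ) (c : Fin (n + 1) → Subgroup G) (hc0 : c 0 = H) (hcn : c (Fin.last n) = ⊥) (hanti : Antitone c)
    (hcN : ∀ i, H ≤ Subgroup.normalizer ((c i : Subgroup G) : Set G)) (hcA : ∀ i, A ≤ Subgroup.normalizer ((c i : Subgroup G) : Set G))
    (htriv : ∀ i : Fin n, ⁅c i.castSucc, A⁆ ≤ c i.succ) :
    ∀ p : ℕ, p.Prime → p ∣ (A ⊓ Subgroup.centralizer (H : Set G)).relIndex A → p ∣ Nat.card H := by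
  intro p hp hdvd
  by_contra hnd
  haveI : Fact p.Prime := ⟨hp⟩
  -- every element of A of p-power order centralizes H
  have hcent : ∀ x ∈ A, (orderOf x).Coprime (Nat.card H) → x ∈ Subgroup.centralizer (H : Set G) := by
    intro x hx hcop
    rw [Subgroup.mem_centralizer_iff]
    intro h hh
    have hh0 : h ∈ c 0 := by rw [hc0]; exact hh
    have := centralizes_of_chain n c hcn hanti x ?_ (by rw [hc0]; exact hcop) h hh0
    · exact this.symm
    · intro i h hh
      have h1 : ⁅h⁻¹, x⁆ ∈ ⁅c i.castSucc, A⁆ :=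
        Subgroup.commutator_mem_commutator (inv_mem hh) hx
      have h2 : ⁅h⁻¹, x⁆ = h⁻¹ * (x * h * x⁻¹) := by
        rw [commutatorElement_def]; group
      rw [← h2]
      exact htriv i h1
  obtain P : Sylow p A := default
  have hPle : (P : Subgroup A) ≤ (A ⊓ Subgroup.centralizer (H : Set G)).subgroupOf A := by
    intro y hy
    rw [Subgroup.mem_subgroupOf]
    refine ⟨y.2, hcent y y.2 ?_⟩
    obtain ⟨k, hk⟩ := (IsPGroup.iff_orderOf.mp P.isPGroup') ⟨y, hy⟩
    have h3 : orderOf (y : G) = p ^ k := by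
      have : orderOf (⟨y, hy⟩ : (P : Subgroup A)) = orderOf y := Subgroup.orderOf_mk _ _
      rw [Subgroup.orderOf_coe, ← this, hk]
    rw [h3]
    exact Nat.Coprime.pow_left k ((Nat.Prime.coprime_iff_not_dvd hp).mpr hnd)
  have h4 : ((A ⊓ Subgroup.centralizer (H : Set G)).subgroupOf A).index ∣ (P : Subgroup A).index :=
    Subgroup.index_dvd_of_le hPle
  have h5 : ¬ p ∣ (P : Subgroup A).index := P.not_dvd_index
  exact h5 (dvd_trans hdvd h4)

end Cfsg.Agent.S1441
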