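import Cfsg.Statements.S1442
import Cfsg.Agent.Lib_helper2_Stab

set_option autoImplicit false
open Cfsg

namespace Cfsg.Agent.S1442

open Cfsg.Agent.Lib_helper2_Stab

/-- Let G be a finite group, H a nilpotent subgroup and A a subgroup normalizing H with the orders of A and H coprime. Put C = H ∩ C_G(A). If H ∩ C_G(C) ≤ C then A centralizes H. -/
theorem result {G : Type*} [Group G] [Finite G] (H A : Subgroup G) (hH : Group.IsNilpotent H) (hA : (A ≤ Subgroup.normalizer (H : Set G))) (hcop : (Nat.card A).Coprime (Nat.card H))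
    (hC : H ⊓ Subgroup.centralizer (((H ⊓ Subgroup.centralizer (A : Set G)) : Subgroup G) : Set G) ≤ (H ⊓ Subgroup.centralizer (A : Set G))) :
    A ≤ Subgroup.centralizer (H : Set G) := by
  haveI := hH
  have hnc : NormalizerCondition H := Group.normalizerCondition_of_isNilpotent
  rw [normalizerCondition_iff_only_full_group_self_normalizing] at hnc
  set C : Subgroup G := H ⊓ Subgroup.centralizer (A : Set G) with hCdef
  have hAH : ∀ a ∈ A, ∀ h ∈ H, a * h * a⁻¹ ∈ H := by
    intro a ha h hh
    exact ((Subgroup.mem_normalizer_iff.mp (hA ha)) h).mp hh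
  have hCcomm : ∀ c ∈ C, ∀ a ∈ A, a * c = c * a := by
    intro c hc a ha
    exact Subgroup.mem_centralizer_iff.mp hc.2 a ha
  have key : Subgroup.normalizer ((C.subgroupOf H : Subgroup H) : Set H) = C.subgroupOf H := by
    apply le_antisymm
    · intro n hn
      rw [Subgroup.mem_subgroupOf]
      refine ⟨n.2, ?_⟩
      show (n : G) ∈ Subgroup.centralizer (A : Set G)
      rw [Subgroup.mem_centralizer_iff]
      intro a ha
      -- k = n⁻¹ (a n a⁻¹)
      have hnC : ∀ c ∈ C, (n : G) * c * (n : G)⁻¹ ∈ C := by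
        intro c hc
        have h1 := (Subgroup.mem_normalizer_iff.mp hn ⟨c, hc.1⟩).mp (by
          rw [Subgroup.mem_subgroupOf]; exact hc)
        rw [Subgroup.mem_subgroupOf] at h1
        simpa using h1
      have hkH : (n : G)⁻¹ * (a * n * a⁻¹) ∈ H := H.mul_mem (H.inv_mem n.2) (hAH a ha n n.2)
      have hkC : (n : G)⁻¹ * (a * n * a⁻¹) ∈ C := by
        apply hC
        refine ⟨hkH, ?_⟩
        show (n : G)⁻¹ * (a * n * a⁻¹) ∈ Subgroup.centralizer (C : Set G)
        rw [Subgroup.mem_centralizer_iff]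
        intro c hc
        have e1 : a⁻¹ * c * a = c := by
          have := hCcomm c hc a ha
          calc a⁻¹ * c * a = a⁻¹ * (c * a) := by group
            _ = a⁻¹ * (a * c) := by rw [this]
            _ = c := by group
        have e2 : a * ((n : G) * c * (n : G)⁻¹) * a⁻¹ = (n : G) * c * (n : G)⁻¹ := by
          have := hCcomm _ (hnC c hc) a ha
          rw [this]; group
        -- k c k⁻¹ = c
        have e3 : ((n : G)⁻¹ * (a * n * a⁻¹)) * c * ((n : G)⁻¹ * (a * n * a⁻¹))⁻¹ = c := by
          calc ((n : G)⁻¹ * (a * n * a⁻¹)) * c * ((n : G)⁻¹ * (a * n * a⁻¹))⁻¹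
              = (n : G)⁻¹ * (a * ((n : G) * (a⁻¹ * c * a) * (n : G)⁻¹) * a⁻¹) * n := by group
            _ = (n : G)⁻¹ * (a * ((n : G) * c * (n : G)⁻¹) * a⁻¹) * n := by rw [e1]
            _ = (n : G)⁻¹ * ((n : G) * c * (n : G)⁻¹) * n := by rw [e2]
            _ = c := by group
        calc c * ((n : G)⁻¹ * (a * n * a⁻¹))
            = (((n : G)⁻¹ * (a * n * a⁻¹)) * c * ((n : G)⁻¹ * (a * n * a⁻¹))⁻¹) * ((n : G)⁻¹ * (a * n * a⁻¹)) := by rw [e3]
          _ = ((n : G)⁻¹ * (a * n * a⁻¹)) * c := by group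
      have hcop' : (orderOf a).Coprime (Nat.card H) := by
        have h1 : orderOf a ∣ Nat.card A := by
          have : orderOf (⟨a, ha⟩ : A) ∣ Nat.card A := orderOf_dvd_natCard _
          rwa [Subgroup.orderOf_mk] at this
        exact Nat.Coprime.coprime_dvd_left h1 hcop
      exact comm_of_coprime_step H a n _ hkH (by group) (hCcomm _ hkC a ha) hcop'
    · exact Subgroup.le_normalizer
  have htop := hnc _ key
  intro a ha
  rw [Subgroup.mem_centralizer_iff]
  intro h hh
  have h1 : (⟨h, hh⟩ : H) ∈ C.subgroupOf H := by rw [htop]; trivial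
  rw [Subgroup.mem_subgroupOf] at h1
  exact (hCcomm h h1 a ha).symm

end Cfsg.Agent.S1442
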