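import Cfsg.Statements.S1443
import Cfsg.Agent.S0028
import Cfsg.Agent.S0120
import Cfsg.Agent.Lib_helper1_Basic
import Cfsg.Agent.Lib_helper1_Coprime
import Cfsg.Agent.Lib_helper1_Thompson
import Cfsg.Agent.Lib_helper5_AutP2

set_option autoImplicit false
open Cfsg

namespace Cfsg.Agent.S1443

open Cfsg.Agent.Lib_helper1_Basic
open Cfsg.Agent.Lib_helper1_Coprime
open Cfsg.Agent.Lib_helper1_Thompson
open Cfsg.Agent.Lib_helper5_AutP2

/-- Let G be a finite group, p an odd prime, H a p-subgroup, E an elementary abelian subgroup of H, and A a subgroup of order coprime to p normalizing H. If A centralizes every element of order p in H ∩ C_G(E), then A centralizes H. -/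
theorem result {G : Type*} [Group G] [Finite G] (p : ℕ) [Fact p.Prime] (hp : p ≠ 2) (H E A : Subgroup G) (hH : IsPGroup p H) (hE : E ≤ H) (hEe : Cfsg.IsElementaryAbelian p E)
    (hA : (A ≤ Subgroup.normalizer (H : Set G))) (hcop : (Nat.card A).Coprime p)
    (hfix : ∀ x ∈ (H ⊓ Subgroup.centralizer (E : Set G)), orderOf x = p → A ≤ Subgroup.centralizer ({x} : Set G)) :
    A ≤ Subgroup.centralizer (H : Set G) := by
  have hpp := Fact.out (p := p.Prime)
  have hEcomm : ∀ a ∈ E, ∀ b ∈ E, a * b = b * a := fun a ha b hb =>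
    congrArg Subtype.val (hEe.1.is_comm.comm ⟨a, ha⟩ ⟨b, hb⟩)
  have hfix' : ∀ x ∈ H ⊓ Subgroup.centralizer (E : Set G), x ^ p = 1 →
      ∀ g ∈ A, g * x = x * g := by
    intro x hx hxp g hg
    by_cases hx1 : x = 1
    · rw [hx1, mul_one, one_mul]
    · have hord : orderOf x = p := orderOf_eq_prime hxp hx1
      have := hfix x hx hord hg
      exact ((Subgroup.mem_centralizer_iff.mp this) x (Set.mem_singleton x)).symm
  have hEC : E ≤ H ⊓ Subgroup.centralizer (E : Set G) := by
    intro e he
    refine ⟨hE he, ?_⟩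
    apply Subgroup.mem_centralizer_iff.mpr
    intro b hb
    exact hEcomm b hb e he
  have hAE : A ≤ Subgroup.centralizer (E : Set G) := by
    intro g hg
    apply Subgroup.mem_centralizer_iff.mpr
    intro e he
    exact (hfix' e (hEC he) (hEe.2 e he) g hg).symm
  have hAC : A ≤ Subgroup.normalizer
      ((H ⊓ Subgroup.centralizer (E : Set G) : Subgroup G) : Set G) := by
    intro g hg
    apply Lib_helper1_Basic.mem_normalizer_of_conj_le
    intro m hm
    refine ⟨((Subgroup.mem_normalizer_iff).mp (hA hg) m).mp hm.1, ?_⟩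
    apply Subgroup.mem_centralizer_iff.mpr
    intro e he
    have h1 : Commute e g := (Subgroup.mem_centralizer_iff.mp (hAE hg)) e he
    have h2 : Commute e m := (Subgroup.mem_centralizer_iff.mp hm.2) e he
    exact ((h1.mul_right h2).mul_right h1.inv_right).eq
  have hAcentC : H ⊓ Subgroup.centralizer (E : Set G) ≤ Subgroup.centralizer (A : Set G) := by
    intro x hx
    apply Subgroup.mem_centralizer_iff.mpr
    intro g hg
    have hgN := hAC hg
    have hdvd : orderOf (Lib_helper1_Coprime.conjNormalizer _ g hgN :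
        MulAut ↥(H ⊓ Subgroup.centralizer (E : Set G))) ∣ orderOf g := by
      apply orderOf_dvd_of_pow_eq_one
      ext y
      rw [Lib_helper5_AutP2.conjNormalizer_pow, pow_orderOf_eq_one]
      simp
    have haut := Cfsg.Agent.S0120.result (G := ↥(H ⊓ Subgroup.centralizer (E : Set G))) hp
      (hH.to_le inf_le_left) (Lib_helper1_Coprime.conjNormalizer _ g hgN)
      (Nat.Coprime.coprime_dvd_left (hdvd.trans (Subgroup.orderOf_dvd_natCard A hg)) hcop)
      (by
        intro y hy
        apply Subtype.ext
        rw [Lib_helper1_Coprime.conjNormalizer_coe]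
        have hy' : (y : G) ^ p = 1 := by
          have h4 := congrArg Subtype.val hy
          rw [SubmonoidClass.coe_pow, Subgroup.coe_one] at h4
          exact h4
        have := hfix' y y.2 hy' g hg
        rw [this]; group)
    have h1 : ((Lib_helper1_Coprime.conjNormalizer _ g hgN ⟨x, hx⟩ :
        ↥(H ⊓ Subgroup.centralizer (E : Set G))) : G) = x := by
      rw [haut]; rfl
    rw [Lib_helper1_Coprime.conjNormalizer_coe] at h1
    have h2 : g * x = (g * x * g⁻¹) * g := by group
    rw [h2, h1]
  apply Cfsg.Agent.S0028.result p E A H (Lib_helper1_Thompson.ea_isPGroup hEe) hcop hH ?_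
    (hE.trans Subgroup.le_normalizer) hA hAcentC
  intro e he
  apply Subgroup.mem_centralizer_iff.mpr
  intro g hg
  exact hfix' e (hEC he) (hEe.2 e he) g hg

end Cfsg.Agent.S1443
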