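import Cfsg.Statements.S1460
import Cfsg.Agent.Lib_helper2_Supp

set_option autoImplicit false
open Cfsg

namespace Cfsg.Agent.S1460

open Cfsg.Agent.Lib_helper2_Supp

/-- Let G be a finite solvable group, K a normal subgroup and U a subgroup with G = KU, and H ≤ U a subgroup whose order is coprime to that of K. Then H ∩ G' = H ∩ U'; N_G(H) is generated by K ∩ C_G(H) and U ∩ N_G(H); and if gHg⁻¹ ≤ U for some g ∈ G then g = u c with u ∈ U and c ∈ K ∩ C_G(H). -/
theorem result {G : Type*} [Group G] [Finite G] [Group.IsSolvable G] (K U H : Subgroup G) [K.Normal] (hKU : K ⊔ U = ⊤) (hH : H ≤ U) (hcop : (Nat.card H).Coprime (Nat.card K)) :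
    H ⊓ commutator G = H ⊓ ⁅U, U⁆ ∧
      Subgroup.normalizer (H : Set G) = (K ⊓ Subgroup.centralizer (H : Set G)) ⊔ (U ⊓ Subgroup.normalizer (H : Set G)) ∧
      ∀ g : G, H.map (MulAut.conj g).toMonoidHom ≤ U → ∃ u ∈ U, ∃ c ∈ K ⊓ Subgroup.centralizer (H : Set G), g = u * c := by
  refine ⟨?_, ?_, ?_⟩
  · apply le_antisymm
    · exact le_inf inf_le_left (inf_commutator_le K U H hKU hH hcop)
    · refine le_inf inf_le_left (inf_le_right.trans ?_)
      rw [commutator_def]
      exact Subgroup.commutator_mono le_top le_top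
  · apply le_antisymm
    · intro g hg
      obtain ⟨u, hu, c, hc, rfl⟩ := supp_conj K U H hKU hH hcop g
        (fun h hh => hH (((Subgroup.mem_normalizer_iff).mp hg h).mp hh))
      have hcN : c ∈ Subgroup.normalizer (H : Set G) := Subgroup.centralizer_le_normalizer _ hc.2
      have huN : u ∈ Subgroup.normalizer (H : Set G) := by
        have := (Subgroup.normalizer (H : Set G)).mul_mem hg
          ((Subgroup.normalizer (H : Set G)).inv_mem hcN)
        rwa [mul_inv_cancel_right] at this
      rw [sup_comm]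
      exact Subgroup.mul_mem_sup ⟨hu, huN⟩ hc
    · exact sup_le (inf_le_right.trans (Subgroup.centralizer_le_normalizer _)) inf_le_right
  · intro g hg
    apply supp_conj K U H hKU hH hcop g
    intro h hh
    apply hg
    exact ⟨h, hh, rfl⟩

end Cfsg.Agent.S1460
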