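import Cfsg.Statements.S1461
import Cfsg.Agent.Lib_helper2_Supp

set_option autoImplicit false
open Cfsg

namespace Cfsg.Agent.S1461

open Cfsg.Agent.Lib_helper2_Supp

/-- Let G be a finite solvable group, p a prime with G = O_{p',p,p'}(G), and S a Sylow p-subgroup. Then: if S ≤ G' then S ≤ [N_G(S), N_G(S)]; if Y ⊆ S and xYx⁻¹ ⊆ S then x = g c for some g ∈ N_G(S) and c centralizing Y; and for every p-subgroup Q there is x ∈ C_G(Q ∩ S) with xQx⁻¹ ≤ S. -/
theorem result {G : Type*} [Group G] [Finite G] [Group.IsSolvable G] (p : ℕ) [Fact p.Prime] (hpl : Cfsg.PLengthLE p 1 G) (S : Sylow p G) :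
    ((S : Subgroup G) ≤ commutator G → (S : Subgroup G) ≤ ⁅Subgroup.normalizer ((S : Subgroup G) : Set G), Subgroup.normalizer ((S : Subgroup G) : Set G)⁆) ∧
      (∀ (Y : Set G) (x : G), Y ⊆ (S : Subgroup G) → (fun y => x * y * x⁻¹) '' Y ⊆ (S : Subgroup G) →
        ∃ g ∈ Subgroup.normalizer ((S : Subgroup G) : Set G), ∃ c ∈ Subgroup.centralizer Y, g * c = x) ∧
      ∀ Q : Subgroup G, IsPGroup p Q → ∃ x ∈ Subgroup.centralizer ((Q ⊓ (S : Subgroup G) : Subgroup G) : Set G), Q.map (MulAut.conj x).toMonoidHom ≤ (S : Subgroup G) := by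
  obtain ⟨K, hKn, hKcop, hKU, hQle⟩ := plength_one_data p hpl S
  haveI := hKn
  have hSN : (S : Subgroup G) ≤ Subgroup.normalizer ((S : Subgroup G) : Set G) :=
    Subgroup.le_normalizer
  have hcopS : ∀ H : Subgroup G, H ≤ (S : Subgroup G) → (Nat.card H).Coprime (Nat.card K) := by
    intro H hH
    obtain ⟨n, hn⟩ := (IsPGroup.iff_card).mp S.isPGroup'
    have h1 : Nat.card H ∣ p ^ n := hn ▸ Subgroup.card_dvd_of_le hH
    exact Nat.Coprime.coprime_dvd_left h1 (Nat.Coprime.pow_left n hKcop.symm)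
  refine ⟨?_, ?_, ?_⟩
  · intro hS
    have := inf_commutator_le K (Subgroup.normalizer ((S : Subgroup G) : Set G)) (S : Subgroup G)
      hKU hSN (hcopS _ le_rfl)
    exact (le_inf le_rfl hS).trans this
  · intro Y x hY hYx
    have hcl : Subgroup.closure Y ≤ (S : Subgroup G) := (Subgroup.closure_le _).mpr hY
    have hconj : ∀ h ∈ Subgroup.closure Y, x * h * x⁻¹ ∈ (S : Subgroup G) := by
      have : Subgroup.closure Y ≤ (S : Subgroup G).comap (MulAut.conj x).toMonoidHom := by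
        rw [Subgroup.closure_le]
        intro y hy
        exact hYx ⟨y, hy, rfl⟩
      intro h hh
      exact this hh
    obtain ⟨u, hu, c, hc, hx⟩ := supp_conj K (Subgroup.normalizer ((S : Subgroup G) : Set G))
      (Subgroup.closure Y) hKU (hcl.trans hSN) (hcopS _ hcl) x (fun h hh => hSN (hconj h hh))
    refine ⟨u, hu, c, ?_, hx.symm⟩
    exact Subgroup.centralizer_le Subgroup.subset_closure hc.2
  · intro Q hQ
    obtain ⟨x, hxK, hxc, hxd⟩ := exists_conj_centralizing p S K hKcop Q hQ (hQle Q hQ)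
    refine ⟨x, hxc, ?_⟩
    rintro _ ⟨d, hd, rfl⟩
    exact hxd d hd

end Cfsg.Agent.S1461
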