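import Cfsg.Statements.S1462
import Cfsg.Agent.S1443
import Cfsg.Agent.Lib_helper2_Supp
import Cfsg.Agent.Lib_helper2_QCore
import Cfsg.Agent.Lib_helper2_PCons
import Cfsg.Agent.Lib_helper1_Thompson
import Cfsg.Agent.Lib_helper7_PPrime
import Cfsg.Agent.Lib_helper7_PPrimeP
import Cfsg.Agent.Lib_helper6_PCore

set_option autoImplicit false
open Cfsg

namespace Cfsg.Agent.S1462

open Cfsg.Agent.Lib_helper2_Supp
open Cfsg.Agent.Lib_helper2_QCore
open Cfsg.Agent.Lib_helper2_PCons
open Cfsg.Agent.Lib_helper1_Thompson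
open Cfsg.Agent.Lib_helper7_PPrime
open Cfsg.Agent.Lib_helper7_PPrimeP
open Cfsg.Agent.Lib_helper6_PCore

/-- Let G be a finite solvable group, p an odd prime with G = O_{p',p,p'}(G), E an elementary abelian p-subgroup contained in no larger elementary abelian p-subgroup of G, and L a subgroup of order coprime to p normalized by E. Then L ≤ O_{p'}(G). -/
theorem result {G : Type*} [Group G] [Finite G] [Group.IsSolvable G] (p : ℕ) [Fact p.Prime] (hp : p ≠ 2) (hpl : Cfsg.PLengthLE p 1 G) (E L : Subgroup G) (hE : Cfsg.IsElementaryAbelian p E)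
    (hEmax : ∀ B : Subgroup G, Cfsg.IsElementaryAbelian p B → E ≤ B → B = E) (hL : (Nat.card L).Coprime p) (hEL : E ≤ Subgroup.normalizer (L : Set G)) :
    L ≤ Cfsg.pPrimeCore p G := by
  have hpp := Fact.out (p := p.Prime)
  have hEp : IsPGroup p E := Lib_helper1_Thompson.ea_isPGroup hE
  obtain ⟨S, hES⟩ := IsPGroup.exists_le_sylow hEp
  obtain ⟨K, hKn, hKcop, hKU, hQle⟩ := Lib_helper2_Supp.plength_one_data p hpl S
  haveI := hKn
  have hKO : K ≤ pPrimeCore p G := Lib_helper7_PPrime.le_pPrimeCore p K hKcop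
  have hOcop : (Nat.card (pPrimeCore p G)).Coprime p :=
    Lib_helper7_PPrime.card_pPrimeCore_coprime p
  have hSO : ∀ x ∈ (S : Subgroup G), x ∈ pPrimeCore p G → x = 1 := fun x hxS hxO =>
    Lib_helper7_PPrimeP.eq_one_of_mem_of_mem hOcop S.isPGroup' hxO hxS
  have hSbar_conj : ∀ g : G, ∀ s ∈ (S : Subgroup G), ∃ s' ∈ (S : Subgroup G),
      (QuotientGroup.mk' (pPrimeCore p G)) (g * s * g⁻¹) =
        (QuotientGroup.mk' (pPrimeCore p G)) s' := by
    intro g s hs
    have hg : g ∈ (↑(K ⊔ Subgroup.normalizer ((S : Subgroup G) : Set G)) : Set G) := by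
      show g ∈ K ⊔ Subgroup.normalizer ((S : Subgroup G) : Set G)
      rw [hKU]; exact Subgroup.mem_top g
    rw [Subgroup.normal_mul] at hg
    obtain ⟨k, hk, n, hn, rfl⟩ := Set.mem_mul.mp hg
    refine ⟨n * s * n⁻¹, ((Subgroup.mem_normalizer_iff).mp hn s).mp hs, ?_⟩
    have hk1 : (QuotientGroup.mk' (pPrimeCore p G)) k = 1 :=
      (QuotientGroup.eq_one_iff k).mpr (hKO hk)
    simp only [map_mul, map_inv, hk1, one_mul, inv_one, mul_one]
  have hSbarN : ((S : Subgroup G).map (QuotientGroup.mk' (pPrimeCore p G))).Normal := by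
    constructor
    rintro _ ⟨s, hs, rfl⟩ gbar
    obtain ⟨g, rfl⟩ := QuotientGroup.mk'_surjective _ gbar
    obtain ⟨s', hs', he⟩ := hSbar_conj g s hs
    refine ⟨s', hs', ?_⟩
    rw [← he]; simp only [map_mul, map_inv]
  have hSle : (S : Subgroup G) ≤ pPrimePCore p G := by
    intro s hs
    show (QuotientGroup.mk' (pPrimeCore p G)) s ∈ pCore p (G ⧸ pPrimeCore p G)
    exact Lib_helper6_PCore.le_pCore hSbarN (S.isPGroup'.map _) ⟨s, hs, rfl⟩
  have hcons : IsPConstrained p G :=
    (Lib_helper2_PCons.pConstrained_iff p).mpr (Lib_helper2_PCons.pLayer_eq_bot_of_solvable p)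
  have hCS : Subgroup.centralizer ((S : Subgroup G) : Set G) ≤ pPrimePCore p G := by
    have h1 := hcons (S.subtype hSle)
    have h2 : ((S.subtype hSle : Sylow p ↥(pPrimePCore p G)) :
        Subgroup ↥(pPrimePCore p G)).map (pPrimePCore p G).subtype = (S : Subgroup G) := by
      rw [Sylow.coe_subtype]
      exact Subgroup.map_subgroupOf_eq_of_le hSle
    rwa [h2] at h1
  -- the image of `L` centralizes the image of `E`
  have hLE : ∀ l ∈ L, ∀ e ∈ E, (QuotientGroup.mk' (pPrimeCore p G)) e *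
      (QuotientGroup.mk' (pPrimeCore p G)) l = (QuotientGroup.mk' (pPrimeCore p G)) l *
      (QuotientGroup.mk' (pPrimeCore p G)) e := by
    intro l hl e he
    obtain ⟨s', hs', hse⟩ := hSbar_conj l e (hES he)
    have hcL : l * e * l⁻¹ * e⁻¹ ∈ L := by
      have h1 : e * l⁻¹ * e⁻¹ ∈ L :=
        ((Subgroup.mem_normalizer_iff).mp (hEL he) l⁻¹).mp (L.inv_mem hl)
      have e1 : l * e * l⁻¹ * e⁻¹ = l * (e * l⁻¹ * e⁻¹) := by group
      rw [e1]; exact L.mul_mem hl h1
    have hc1 : (QuotientGroup.mk' (pPrimeCore p G)) (l * e * l⁻¹ * e⁻¹) =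
        (QuotientGroup.mk' (pPrimeCore p G)) (s' * e⁻¹) := by
      rw [map_mul, hse, map_mul]
    have hs1 : s' * e⁻¹ ∈ (S : Subgroup G) :=
      Subgroup.mul_mem _ hs' (Subgroup.inv_mem _ (hES he))
    obtain ⟨k, hk⟩ := S.isPGroup' ⟨s' * e⁻¹, hs1⟩
    have hk' : (s' * e⁻¹) ^ p ^ k = 1 := by
      have h4 := congrArg Subtype.val hk
      rw [SubmonoidClass.coe_pow, Subgroup.coe_one] at h4
      exact h4
    have ho1 : orderOf ((QuotientGroup.mk' (pPrimeCore p G)) (l * e * l⁻¹ * e⁻¹)) ∣ p ^ k := by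
      apply orderOf_dvd_of_pow_eq_one
      rw [hc1, ← map_pow, hk', map_one]
    have ho2 : orderOf ((QuotientGroup.mk' (pPrimeCore p G)) (l * e * l⁻¹ * e⁻¹)) ∣
        Nat.card L :=
      (orderOf_map_dvd _ _).trans (Subgroup.orderOf_dvd_natCard L hcL)
    have ho3 : orderOf ((QuotientGroup.mk' (pPrimeCore p G)) (l * e * l⁻¹ * e⁻¹)) = 1 :=
      Nat.eq_one_of_dvd_coprimes (Nat.Coprime.pow_right k hL) ho2 ho1
    have ho4 := orderOf_eq_one_iff.mp ho3
    rw [map_mul, map_mul, map_mul, map_inv, map_inv] at ho4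
    calc (QuotientGroup.mk' (pPrimeCore p G)) e * (QuotientGroup.mk' (pPrimeCore p G)) l
        = ((QuotientGroup.mk' (pPrimeCore p G)) l * (QuotientGroup.mk' (pPrimeCore p G)) e *
          ((QuotientGroup.mk' (pPrimeCore p G)) l)⁻¹ *
          ((QuotientGroup.mk' (pPrimeCore p G)) e)⁻¹)⁻¹ *
          ((QuotientGroup.mk' (pPrimeCore p G)) l * (QuotientGroup.mk' (pPrimeCore p G)) e) := by
          group
      _ = (QuotientGroup.mk' (pPrimeCore p G)) l * (QuotientGroup.mk' (pPrimeCore p G)) e := by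
          rw [ho4, inv_one, one_mul]
  have hquot := Cfsg.Agent.S1443.result (G := G ⧸ pPrimeCore p G) p hp
    ((S : Subgroup G).map (QuotientGroup.mk' (pPrimeCore p G)))
    (E.map (QuotientGroup.mk' (pPrimeCore p G)))
    (L.map (QuotientGroup.mk' (pPrimeCore p G)))
    (S.isPGroup'.map _) (Subgroup.map_mono hES) (Lib_helper1_Thompson.ea_map hE _)
    (by rw [Subgroup.normalizer_eq_top]; exact le_top)
    (Nat.Coprime.coprime_dvd_left (Subgroup.card_dvd_of_surjective
      ((QuotientGroup.mk' (pPrimeCore p G)).subgroupMap L)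
      ((QuotientGroup.mk' (pPrimeCore p G)).subgroupMap_surjective L)) hL)
    (by
      intro xbar hx hord
      obtain ⟨⟨s, hs, rfl⟩, hxc⟩ := hx
      have hsp : s ^ p = 1 := by
        apply hSO _ (Subgroup.pow_mem _ hs p)
        apply (QuotientGroup.eq_one_iff _).mp
        show (QuotientGroup.mk' (pPrimeCore p G)) (s ^ p) = 1
        have hpo := pow_orderOf_eq_one ((QuotientGroup.mk' (pPrimeCore p G)) s)
        rw [hord] at hpo
        rw [map_pow]; exact hpo
      have hsE : ∀ e ∈ E, e * s = s * e := by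
        intro e he
        have h1 : (QuotientGroup.mk' (pPrimeCore p G)) e * (QuotientGroup.mk' (pPrimeCore p G)) s
            = (QuotientGroup.mk' (pPrimeCore p G)) s * (QuotientGroup.mk' (pPrimeCore p G)) e :=
          (Subgroup.mem_centralizer_iff.mp hxc) _ ⟨e, he, rfl⟩
        have h2 : e * s * e⁻¹ * s⁻¹ = 1 := by
          apply hSO _ (Subgroup.mul_mem _ (Subgroup.mul_mem _ (Subgroup.mul_mem _ (hES he) hs)
            (Subgroup.inv_mem _ (hES he))) (Subgroup.inv_mem _ hs))
          apply (QuotientGroup.eq_one_iff _).mp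
          show (QuotientGroup.mk' (pPrimeCore p G)) (e * s * e⁻¹ * s⁻¹) = 1
          rw [map_mul, map_mul, map_mul, map_inv, map_inv, h1]; group
        calc e * s = (e * s * e⁻¹ * s⁻¹) * (s * e) := by group
          _ = s * e := by rw [h2, one_mul]
      have hB : IsElementaryAbelian p (E ⊔ Subgroup.zpowers s) :=
        Lib_helper1_Thompson.ea_sup hE (Lib_helper1_Thompson.ea_zpowers s hsp)
          (Subgroup.zpowers_le.mpr (Subgroup.mem_centralizer_iff.mpr (fun e he => hsE e he)))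
      have hBE := hEmax _ hB le_sup_left
      have hsE' : s ∈ E := by
        rw [← hBE]; exact Subgroup.mem_sup_right (Subgroup.mem_zpowers s)
      rintro _ ⟨l, hl, rfl⟩
      apply Subgroup.mem_centralizer_iff.mpr
      intro y hy
      rw [Set.mem_singleton_iff] at hy
      rw [hy]
      exact hLE l hl s hsE')
  intro l hl
  obtain ⟨w, hw, hwl⟩ := Lib_helper2_PCons.exists_mul_mem_centralizer p (pPrimeCore p G) hOcop
    (S : Subgroup G) S.isPGroup' l (hquot ⟨l, hl, rfl⟩)
  have h2 : w * l ∈ pPrimePCore p G := hCS hwl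
  have h3 : l ∈ pPrimePCore p G := by
    have := (pPrimePCore p G).mul_mem ((pPrimePCore p G).inv_mem
      (Lib_helper7_PPrimeP.pPrimeCore_le_pPrimePCore p hw)) h2
    rwa [inv_mul_cancel_left] at this
  exact Lib_helper2_QCore.mem_pPrimeCore_of_coprime p h3
    (Nat.Coprime.coprime_dvd_left (Subgroup.orderOf_dvd_natCard L hl) hL)

end Cfsg.Agent.S1462
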