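import Cfsg.Statements.S1474
import Cfsg.Agent.Lib_helper2_CN
import Cfsg.Agent.Lib_helper2_CN2

set_option autoImplicit false
open Cfsg

namespace Cfsg.Agent.S1474

open Cfsg.Agent.Lib_helper2_CN
open Cfsg.Agent.Lib_helper2_CN2

/-- Let G be a finite group in which every non-identity element has nilpotent centralizer, not itself nilpotent, and having a nontrivial normal Sylow p-subgroup for some prime p. Let H be the largest normal nilpotent Hall subgroup of G. Then H is a nontrivial proper normal subgroup with a complement E that is a Frobenius complement in G (no non-identity element of E centralizes a non-identity element of H), and G/H is nilpotent. -/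
theorem result {G : Type*} [Group G] [Finite G] (hCN : Cfsg.IsCNGroup G) (hnn : ¬ Group.IsNilpotent G) (p : ℕ) [Fact p.Prime] (P : Sylow p G)
    (hP1 : (P : Subgroup G) ≠ ⊥) (hPn : (P : Subgroup G).Normal) :
    Cfsg.fittingHall G ≠ ⊥ ∧ Cfsg.fittingHall G ≠ ⊤ ∧
      (∃ E : Subgroup G, Subgroup.IsComplement' (Cfsg.fittingHall G) E ∧ Cfsg.IsFrobeniusComplement E ∧
        ∀ e ∈ E, e ≠ 1 → Cfsg.fittingHall G ⊓ Subgroup.centralizer ({e} : Set G) = ⊥) ∧
      Group.IsNilpotent (G ⧸ Cfsg.fittingHall G) := by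
  have hCN' : ∀ g : G, g ≠ 1 → Group.IsNilpotent (Subgroup.centralizer ({g} : Set G)) := hCN
  obtain ⟨z, hzP, hz1, hzc, hKz, hKnil, hKhall, hPK⟩ := cn_normal_sylow hCN' p P hP1 hPn
  set K := Cfsg.fittingHall G with hKdef
  have hKn : K.Normal := Cfsg.fittingHall_normal G
  have hp : p.Prime := Fact.out
  have hK1 : K ≠ ⊥ := fun h => hP1 (by rw [h] at hPK; exact le_bot_iff.mp hPK)
  have hKtop : K ≠ ⊤ := by
    intro h
    apply hnn
    rw [h] at hKnil
    haveI := hKnil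
    exact Group.nilpotent_of_mulEquiv (Subgroup.topEquiv (G := G))
  obtain ⟨E, hE⟩ := Subgroup.exists_right_complement'_of_coprime hKhall
  have hEcard : K.index = Nat.card E := hE.symm.index_eq_card
  have hKE : K ⊓ E = ⊥ := hE.disjoint.eq_bot
  have hdecomp : ∀ g : G, ∃ k ∈ K, ∃ e' ∈ E, g = k * e' := by
    intro g
    obtain ⟨⟨⟨k, hk⟩, ⟨e', he'⟩⟩, hke⟩ := hE.2 g
    exact ⟨k, hk, e', he', hke.symm⟩
  have hpK : p ∣ Nat.card K := by
    obtain ⟨a₀, ha₀P, ha₀1⟩ : ∃ a₀ ∈ (P : Subgroup G), a₀ ≠ 1 := ⟨z, hzP, hz1⟩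
    obtain ⟨j, hj⟩ := P.isPGroup' ⟨a₀, ha₀P⟩
    have hj' : a₀ ^ (p ^ j) = 1 := congrArg (fun w : (P : Subgroup G) => (w : G)) hj
    have h1 : orderOf a₀ ∣ p ^ j := orderOf_dvd_of_pow_eq_one hj'
    obtain ⟨i, hi, hi2⟩ := (Nat.dvd_prime_pow hp).mp h1
    have hi0 : i ≠ 0 := by
      intro h0
      rw [h0, pow_zero, orderOf_eq_one_iff] at hi2
      exact ha₀1 hi2
    have h2 : p ∣ orderOf a₀ := by rw [hi2]; exact dvd_pow_self p hi0
    exact h2.trans (Subgroup.orderOf_dvd_natCard K (hPK ha₀P))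
  have hEp : (Nat.card E).Coprime p := by
    rw [← hEcard]
    exact (Nat.Coprime.coprime_dvd_left hpK hKhall).symm
  have hfpf : ∀ e ∈ E, e ≠ 1 → ∀ x ∈ K, e * x = x * e → x = 1 := by
    intro e he he1 x hx hex
    by_contra hx1
    have hC := hCN' x hx1
    have heC : e ∈ Subgroup.centralizer ({x} : Set G) := mem_centralizer_singleton hex.symm
    have hzC : z ∈ Subgroup.centralizer ({x} : Set G) := by
      apply mem_centralizer_singleton
      have : x ∈ Subgroup.centralizer ({z} : Set G) := by rw [← hKz]; exact hx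
      exact (Subgroup.mem_centralizer_iff.mp this z rfl).symm
    have hcop : (orderOf e).Coprime (orderOf z) := by
      obtain ⟨j, hj⟩ := P.isPGroup' ⟨z, hzP⟩
      have hj' : z ^ (p ^ j) = 1 := congrArg (fun w : (P : Subgroup G) => (w : G)) hj
      exact Nat.Coprime.coprime_dvd_left (Subgroup.orderOf_dvd_natCard E he)
        (Nat.Coprime.coprime_dvd_right (orderOf_dvd_of_pow_eq_one hj') (Nat.Coprime.pow_right j hEp))
    have hez := nilpotent_coprime_comm' _ hC heC hzC hcop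
    have heK : e ∈ K := by rw [hKz]; exact mem_centralizer_singleton hez.symm
    have h1 : e ∈ K ⊓ E := Subgroup.mem_inf.mpr ⟨heK, he⟩
    rw [hKE, Subgroup.mem_bot] at h1
    exact he1 h1
  refine ⟨hK1, hKtop, ⟨E, hE, ⟨?_, ?_, ?_⟩, ?_⟩, ?_⟩
  · intro h
    apply hKtop
    rw [h, Subgroup.card_bot] at hEcard
    exact Subgroup.index_eq_one.mp hEcard
  · intro h
    apply hK1
    rw [h, inf_top_eq] at hKE
    exact hKE
  · intro g hg
    rw [eq_bot_iff]
    intro y hy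
    rw [Subgroup.mem_bot]
    obtain ⟨hyE, hyg⟩ := Subgroup.mem_inf.mp hy
    obtain ⟨y₀, hy₀, hy₀y⟩ := (Subgroup.mem_smul_pointwise_iff_exists _ _ _).mp hyg
    have hy₀y' : g * y₀ * g⁻¹ = y := hy₀y
    obtain ⟨k, hk, e', he', hge⟩ := hdecomp g
    by_contra hy1
    have hy'E : e' * y₀ * e'⁻¹ ∈ E := E.mul_mem (E.mul_mem he' hy₀) (E.inv_mem he')
    have hyy' : y = k * (e' * y₀ * e'⁻¹) * k⁻¹ := by rw [← hy₀y', hge]; group
    have h1 : (e' * y₀ * e'⁻¹)⁻¹ * y ∈ K := by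
      have h0 : (e' * y₀ * e'⁻¹)⁻¹ * y
          = ((e' * y₀ * e'⁻¹)⁻¹ * k * (e' * y₀ * e'⁻¹)⁻¹⁻¹) * k⁻¹ := by rw [hyy']; group
      rw [h0]
      exact K.mul_mem (hKn.conj_mem k hk _) (K.inv_mem hk)
    have h2 : (e' * y₀ * e'⁻¹)⁻¹ * y ∈ E := E.mul_mem (E.inv_mem hy'E) hyE
    have h3 : (e' * y₀ * e'⁻¹)⁻¹ * y ∈ K ⊓ E := Subgroup.mem_inf.mpr ⟨h1, h2⟩
    rw [hKE, Subgroup.mem_bot] at h3
    have h4 : e' * y₀ * e'⁻¹ = y := inv_mul_eq_one.mp h3
    rw [h4] at hyy'
    have h5 : y * k = k * y := by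
      have h6 : y * k = (k * y * k⁻¹) * k := by rw [← hyy']
      rw [h6]; group
    have hk1 : k = 1 := hfpf y hyE hy1 k hk h5
    apply hg
    rw [hge, hk1, one_mul]
    exact he'
  · intro e he he1
    rw [eq_bot_iff]
    intro x hx
    rw [Subgroup.mem_bot]
    obtain ⟨hxK, hxC⟩ := Subgroup.mem_inf.mp hx
    exact hfpf e he he1 x hxK (Subgroup.mem_centralizer_iff.mp hxC e rfl)
  · haveI : (P : Subgroup G).Normal := hPn
    have hEnil : Group.IsNilpotent E :=
      fpf_cn_nilpotent hCN' p (P : Subgroup G) P.isPGroup' hP1 (Nat.card E) E le_rfl hEp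
        (fun e he he1 x hx hex => hfpf e he he1 x (hPK hx) hex)
    haveI := hEnil
    apply Group.nilpotent_of_surjective ((QuotientGroup.mk' K).comp E.subtype)
    intro q
    obtain ⟨g, rfl⟩ := QuotientGroup.mk'_surjective K q
    obtain ⟨k, hk, e', he', hge⟩ := hdecomp g
    refine ⟨⟨e', he'⟩, ?_⟩
    show (QuotientGroup.mk' K) e' = (QuotientGroup.mk' K) g
    rw [hge]
    apply (QuotientGroup.mk'_eq_mk' K).mpr
    refine ⟨e'⁻¹ * k * e', ?_, by group⟩
    have := hKn.conj_mem k hk e'⁻¹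
    rwa [inv_inv] at this

end Cfsg.Agent.S1474
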