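import Cfsg.Statements.S1476
import Cfsg.Agent.Lib_helper2_CN4
import Cfsg.Agent.S1474
import Cfsg.Agent.S0040

set_option autoImplicit false
open Cfsg

namespace Cfsg.Agent.S1476

open Cfsg.Agent.Lib_helper2_CN4

/-- Let G be a finite solvable group in which every non-identity element has nilpotent centralizer. Then either G is nilpotent; or G has a normal subgroup K with a Frobenius complement E (K E = G, K ∩ E = 1, E meets its conjugates by outside elements trivially) such that E is cyclic or E is generated by two elementwise-commuting subgroups, one cyclic of odd order and one isomorphic to a generalized quaternion group; or G is a three-step group with respect to some prime p. -/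
theorem result {G : Type*} [Group G] [Finite G] [Group.IsSolvable G] (hCN : Cfsg.IsCNGroup G) :
    Group.IsNilpotent G ∨
      (∃ K E : Subgroup G, K.Normal ∧ Subgroup.IsComplement' K E ∧ Cfsg.IsFrobeniusComplement E ∧
        (IsCyclic E ∨ ∃ C Q : Subgroup G, C ⊔ Q = E ∧ (∀ a ∈ C, ∀ b ∈ Q, a * b = b * a) ∧ IsCyclic C ∧ Odd (Nat.card C) ∧
          ∃ n : ℕ, Nonempty (↥Q ≃* QuaternionGroup (2 ^ n)))) ∨
      ∃ p : ℕ, p.Prime ∧ Cfsg.IsThreeStepGroup p G := by
  by_cases hnil : Group.IsNilpotent G
  · exact Or.inl hnil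
  right
  haveI : Nontrivial G := by
    by_contra h
    rw [not_nontrivial_iff_subsingleton] at h
    exact hnil inferInstance
  obtain ⟨M₀, hM₀n, hM₀1, -, -, p, k, hp, hk, hM₀card⟩ :=
    Cfsg.Agent.Lib_helper1_Hall.exists_minimal_normal (G := G)
  haveI : Fact p.Prime := ⟨hp⟩
  have hV1 : Cfsg.pCore p G ≠ ⊥ := by
    intro h
    apply hM₀1
    have hle : M₀ ≤ Cfsg.pCore p G :=
      Cfsg.Agent.Lib_helper6_PCore.le_pCore hM₀n (IsPGroup.of_card hM₀card)
    rw [h] at hle
    exact le_bot_iff.mp hle
  obtain ⟨P⟩ : Nonempty (Sylow p G) := inferInstance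
  by_cases hPn : (P : Subgroup G).Normal
  · left
    have hP1 : (P : Subgroup G) ≠ ⊥ := by
      intro h
      apply hV1
      have := Cfsg.Agent.Lib_helper6_PCore.pCore_le_sylow P
      rw [h] at this
      exact le_bot_iff.mp this
    obtain ⟨hK1, hKtop, ⟨E, hE, hEfrob, hEfpf⟩, hquot⟩ :=
      Cfsg.Agent.S1474.result hCN hnil p P hP1 hPn
    refine ⟨Cfsg.fittingHall G, E, inferInstance, hE, hEfrob, ?_⟩
    have hEnil : Group.IsNilpotent E := by
      haveI := hquot
      refine Subgroup.isNilpotent_of_ker_le_center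
        ((QuotientGroup.mk' (Cfsg.fittingHall G)).comp E.subtype) ?_
      intro e he
      rw [MonoidHom.mem_ker, MonoidHom.comp_apply] at he
      have h1 : (e : G) ∈ Cfsg.fittingHall G := (QuotientGroup.eq_one_iff _).mp he
      have h2 : (e : G) ∈ Cfsg.fittingHall G ⊓ E := ⟨h1, e.2⟩
      rw [hE.disjoint.eq_bot, Subgroup.mem_bot] at h2
      have h3 : e = 1 := Subtype.ext h2
      rw [h3]; exact Subgroup.one_mem _
    exact nilpotent_cyc_or_quat E hEnil
      (fun r _ S => Cfsg.Agent.S0040.result (Cfsg.fittingHall G) E hE hK1 hEfpf r S)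
  · right
    exact ⟨p, hp, cn_three_step hCN p hV1 P hPn⟩

end Cfsg.Agent.S1476
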