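import Cfsg.Statements.S1477
import Cfsg.Agent.Lib_helper2_CN

set_option autoImplicit false
open Cfsg

namespace Cfsg.Agent.S1477

open Cfsg.Agent.Lib_helper2_CN

/-- Let G be a finite group in which every non-identity element has nilpotent centralizer, and H a nilpotent subgroup not properly contained in any nilpotent subgroup. Then the order of H is coprime to its index; if the order of H is not a prime power then H ∩ gHg⁻¹ = 1 whenever gHg⁻¹ ≠ H; and if H ∩ gHg⁻¹ = 1 whenever gHg⁻¹ ≠ H, then C_G(x) ≤ H for every non-identity x ∈ H. -/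
theorem result {G : Type*} [Group G] [Finite G] (hCN : Cfsg.IsCNGroup G) (H : Subgroup G) (hH : Group.IsNilpotent H)
    (hmax : ∀ L : Subgroup G, Group.IsNilpotent L → H ≤ L → L = H) :
    (Nat.card H).Coprime H.index ∧
      (¬ IsPrimePow (Nat.card H) → Nat.card H ≠ 1 → ∀ g : G, H.map (MulAut.conj g).toMonoidHom ≠ H → H ⊓ H.map (MulAut.conj g).toMonoidHom = ⊥) ∧
      ((∀ g : G, H.map (MulAut.conj g).toMonoidHom ≠ H → H ⊓ H.map (MulAut.conj g).toMonoidHom = ⊥) → ∀ x ∈ H, x ≠ 1 → Subgroup.centralizer ({x} : Set G) ≤ H) := by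
  have hCN' : ∀ g : G, g ≠ 1 → Group.IsNilpotent (Subgroup.centralizer ({g} : Set G)) := hCN
  refine ⟨cn_hall hCN' H hH hmax, ?_, ?_⟩
  · intro hnpp hH1 g hg
    by_contra hcon
    obtain ⟨x, hx, hx1⟩ : ∃ x ∈ H ⊓ H.map (MulAut.conj g).toMonoidHom, x ≠ 1 := by
      by_contra h
      push Not at h
      exact hcon ((Subgroup.eq_bot_iff_forall _).mpr h)
    have hK : Group.IsNilpotent (H.map (MulAut.conj g).toMonoidHom) := by
      haveI := hH
      exact Group.nilpotent_of_surjective ((MulAut.conj g).toMonoidHom.subgroupMap H)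
        (MonoidHom.subgroupMap_surjective _ _)
    have hKS : ∀ q : ℕ, ∀ _ : Fact q.Prime, q ∣ Nat.card H →
        ∃ S' : Sylow q G, (S' : Subgroup G) ≤ H.map (MulAut.conj g).toMonoidHom := by
      intro q hq hqH
      obtain ⟨S, hSH, -⟩ := cn_sylow hCN' H hH hmax q hqH
      refine ⟨g • S, ?_⟩
      rw [Sylow.coe_subgroup_smul]
      rintro y ⟨s, hs, rfl⟩
      exact ⟨s, hSH hs, rfl⟩
    have hle := cn_le_of_inter hCN' H hH hmax hnpp _ hK hKS hx.1 hx.2 hx1
    apply hg
    apply Subgroup.eq_of_le_of_card_ge hle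
    rw [Subgroup.card_map_of_injective (MulAut.conj g).injective]
  · intro hTI x hx hx1 g hg
    apply cn_cent_le hCN' H hH hmax hx hx1 hg
    have hxg : x ∈ H.map (MulAut.conj g).toMonoidHom := by
      refine ⟨x, hx, ?_⟩
      show g * x * g⁻¹ = x
      have := Subgroup.mem_centralizer_iff.mp hg x rfl
      rw [← this, mul_inv_cancel_right]
    have hmap : H.map (MulAut.conj g).toMonoidHom = H := by
      by_contra hne
      have := hTI g hne
      have hxm : x ∈ H ⊓ H.map (MulAut.conj g).toMonoidHom := ⟨hx, hxg⟩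
      rw [this, Subgroup.mem_bot] at hxm
      exact hx1 hxm
    rw [Subgroup.mem_normalizer_iff]
    intro h
    constructor
    · intro hh
      have h2 : g * h * g⁻¹ ∈ H.map (MulAut.conj g).toMonoidHom := ⟨h, hh, rfl⟩
      rwa [hmap] at h2
    · intro hh
      have h2 : g * h * g⁻¹ ∈ H.map (MulAut.conj g).toMonoidHom := by rw [hmap]; exact hh
      obtain ⟨h', hh', he⟩ := h2
      have : h' = h := by
        have he' : g * h' * g⁻¹ = g * h * g⁻¹ := he
        simpa using he'
      rw [← this]; exact hh'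

end Cfsg.Agent.S1477
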