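import Cfsg.Statements.S1483
import Cfsg.Agent.Lib_helper2_CN
import Cfsg.Agent.Lib_helper2_CN2
import Cfsg.Agent.Lib_helper2_CN3
import Cfsg.Agent.Lib_helper2_CN5
import Cfsg.Agent.Lib_helper2_Trans

set_option autoImplicit false
open Cfsg

namespace Cfsg.Agent.S1483

open Cfsg.Agent.Lib_helper2_CN
open Cfsg.Agent.Lib_helper2_CN2
open Cfsg.Agent.Lib_helper2_CN3
open Cfsg.Agent.Lib_helper2_CN5
open Cfsg.Agent.Lib_helper2_Trans

/-- Let G be a minimal simple group of odd order in which every non-identity element has nilpotent centralizer. Then any two nilpotent subgroups each contained in no larger nilpotent subgroup are either conjugate or of coprime orders; and for primes p, q, r: if some elements x, y ≠ 1 of p-power and q-power order commute, and some elements y', z ≠ 1 of q-power and r-power order commute, then some elements of p-power and r-power order, both ≠ 1, commute. -/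
theorem result {G : Type*} [Group G] [Finite G] (hG : Cfsg.IsMinSimpleOddOrder G) (hCN : Cfsg.IsCNGroup G) :
    (∀ H₁ H₂ : Subgroup G, (Group.IsNilpotent ↥H₁ ∧ ∀ L : Subgroup G, Group.IsNilpotent L → H₁ ≤ L → L = H₁) → (Group.IsNilpotent ↥H₂ ∧ ∀ L : Subgroup G, Group.IsNilpotent L → H₂ ≤ L → L = H₂) → (∃ g : G, H₂ = H₁.map (MulAut.conj g).toMonoidHom) ∨ (Nat.card H₁).Coprime (Nat.card H₂)) ∧
      ∀ (p q r : ℕ), p.Prime → q.Prime → r.Prime → ∀ (x y y' z : G), x ≠ 1 → y ≠ 1 → y' ≠ 1 → z ≠ 1 →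
        IsPGroup p (Subgroup.zpowers x) → IsPGroup q (Subgroup.zpowers y) → IsPGroup q (Subgroup.zpowers y') → IsPGroup r (Subgroup.zpowers z) →
        x * y = y * x → y' * z = z * y' →
        ∃ x' z' : G, x' ≠ 1 ∧ z' ≠ 1 ∧ IsPGroup p (Subgroup.zpowers x') ∧ IsPGroup r (Subgroup.zpowers z') ∧ x' * z' = z' * x' := by
  have key : ∀ H₁ H₂ : Subgroup G,
      (Group.IsNilpotent ↥H₁ ∧ ∀ L : Subgroup G, Group.IsNilpotent L → H₁ ≤ L → L = H₁) →
      (Group.IsNilpotent ↥H₂ ∧ ∀ L : Subgroup G, Group.IsNilpotent L → H₂ ≤ L → L = H₂) →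
      (∃ g : G, H₂ = H₁.map (MulAut.conj g).toMonoidHom) ∨
        (Nat.card H₁).Coprime (Nat.card H₂) := by
    rintro H₁ H₂ ⟨hH₁, hmax₁⟩ ⟨hH₂, hmax₂⟩
    exact cn_conj_or_coprime hCN H₁ H₂ hH₁ hmax₁ hH₂ hmax₂
  refine ⟨key, ?_⟩
  intro p q r hp hq hr x y y' z hx1 hy1 hy'1 hz1 hxp hyq hy'q hzr hxy hy'z
  by_cases hpr : p = r
  · subst hpr
    exact ⟨x, x, hx1, hx1, hxp, hxp, rfl⟩
  obtain ⟨H₁, hH₁nil, hCH₁, hH₁max⟩ := exists_max_subgroup
    (fun R : Subgroup G => Group.IsNilpotent R) (Subgroup.centralizer ({y} : Set G)) (hCN y hy1)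
  obtain ⟨H₂, hH₂nil, hCH₂, hH₂max⟩ := exists_max_subgroup
    (fun R : Subgroup G => Group.IsNilpotent R) (Subgroup.centralizer ({y'} : Set G)) (hCN y' hy'1)
  have hyH₁ : y ∈ H₁ := hCH₁ (mem_centralizer_singleton rfl)
  have hxH₁ : x ∈ H₁ := hCH₁ (mem_centralizer_singleton hxy.symm)
  have hy'H₂ : y' ∈ H₂ := hCH₂ (mem_centralizer_singleton rfl)
  have hzH₂ : z ∈ H₂ := hCH₂ (mem_centralizer_singleton hy'z)
  obtain ⟨-, hqy⟩ := dvd_orderOf_of_pelt hq hy1 hyq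
  obtain ⟨-, hqy'⟩ := dvd_orderOf_of_pelt hq hy'1 hy'q
  obtain ⟨⟨kx, hkx⟩, -⟩ := dvd_orderOf_of_pelt hp hx1 hxp
  obtain ⟨⟨kz, hkz⟩, -⟩ := dvd_orderOf_of_pelt hr hz1 hzr
  have hncop : ¬ (Nat.card H₁).Coprime (Nat.card H₂) :=
    Nat.Prime.not_coprime_iff_dvd.mpr ⟨q, hq, hqy.trans (Subgroup.orderOf_dvd_natCard H₁ hyH₁),
      hqy'.trans (Subgroup.orderOf_dvd_natCard H₂ hy'H₂)⟩
  obtain ⟨g, hg⟩ := (key H₁ H₂ ⟨hH₁nil, hH₁max⟩ ⟨hH₂nil, hH₂max⟩).resolve_right hncop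
  have hx'H₂ : g * x * g⁻¹ ∈ H₂ := by
    rw [hg]; exact ⟨x, hxH₁, rfl⟩
  have hx'pow : (g * x * g⁻¹) ^ (p ^ kx) = 1 := by
    rw [conj_pow, hkx, mul_one, mul_inv_cancel]
  have hx'1 : g * x * g⁻¹ ≠ 1 := by
    intro h
    apply hx1
    have e : x = g⁻¹ * (g * x * g⁻¹) * g := by group
    rw [e, h]; group
  have hcop : (orderOf (g * x * g⁻¹)).Coprime (orderOf z) :=
    Nat.Coprime.coprime_dvd_left (orderOf_dvd_of_pow_eq_one hx'pow)
      (Nat.Coprime.coprime_dvd_right (orderOf_dvd_of_pow_eq_one hkz)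
        (Nat.Coprime.pow _ _ ((Nat.coprime_primes hp hr).mpr hpr)))
  exact ⟨g * x * g⁻¹, z, hx'1, hz1, isPGroup_zpowers ⟨kx, hx'pow⟩, hzr,
    nilpotent_coprime_comm' H₂ hH₂nil hx'H₂ hzH₂ hcop⟩

end Cfsg.Agent.S1483
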