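import Cfsg.Statements.S1485
import Mathlib
import Cfsg.Agent.Lib_helper3_CharNormal

set_option autoImplicit false
open Cfsg

namespace Cfsg.Agent.S1485

/-- Let H be a normal subgroup of the finite group G and θ an irreducible character of H. On H, the function induced from θ equals r times the sum of the distinct G-conjugates of θ, where r is the number of elements of G fixing θ under conjugation divided by the order of H (the index of H in the inertia group). -/
theorem result {G : Type*} [Group G] [Fintype G] (H : Subgroup G) [hN : H.Normal] (θ : H → ℂ) (hθ : Cfsg.IsIrrCharacter H θ) : (fun h : H => Cfsg.indFun H θ h) = ((Nat.card {g : G // ∀ h : H, θ ⟨g * h * g⁻¹, hN.conj_mem h h.2 g⟩ = θ h} : ℂ) / (Nat.card H : ℂ)) • ∑ᶠ ψ ∈ {ψ : H → ℂ | ∃ g : G, ψ = fun h : H => θ ⟨g * h * g⁻¹, hN.conj_mem h h.2 g⟩}, ψ := by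
  classical
  have := Fintype.ofFinite H
  have hconj : ∀ g : G, (fun h : H => θ ⟨g * h * g⁻¹, hN.conj_mem h h.2 g⟩) =
      Cfsg.Agent.Lib_helper3_CharNormal.conjFun H g θ := fun g => rfl
  simp only [hconj]
  let c : G → (H → ℂ) := fun x => Cfsg.Agent.Lib_helper3_CharNormal.conjFun H x θ
  let F : Finset (H → ℂ) := Finset.univ.image c
  have hF : (F : Set (H → ℂ)) =
      {ψ : H → ℂ | ∃ g : G, ψ = Cfsg.Agent.Lib_helper3_CharNormal.conjFun H g θ} := by
    ext ψ
    simp only [F, c, Finset.coe_image, Finset.coe_univ, Set.image_univ, Set.mem_range,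
      Set.mem_ofPred_eq]
    exact ⟨fun ⟨g, hg⟩ => ⟨g, hg.symm⟩, fun ⟨g, hg⟩ => ⟨g, hg.symm⟩⟩
  rw [← hF, finsum_mem_coe_finset]
  have hset : Nat.card {g : G // ∀ h : H, Cfsg.Agent.Lib_helper3_CharNormal.conjFun H g θ h = θ h}
      = (Finset.univ.filter (fun x : G => c x = θ)).card := by
    rw [Nat.card_eq_fintype_card, Fintype.card_subtype]
    congr 1
    ext x
    simp only [Finset.mem_filter, Finset.mem_univ, true_and, c]
    exact ⟨fun h => funext h, fun h y => congrFun h y⟩
  have hfib : ∀ ψ ∈ F, (Finset.univ.filter (fun x : G => c x = ψ)).card =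
      (Finset.univ.filter (fun x : G => c x = θ)).card := by
    intro ψ hψ
    obtain ⟨g, _, rfl⟩ := Finset.mem_image.mp hψ
    apply Finset.card_bij (fun x _ => x * g⁻¹)
    · intro x hx
      simp only [Finset.mem_filter, Finset.mem_univ, true_and, c] at hx ⊢
      rw [← Cfsg.Agent.Lib_helper3_CharNormal.conjFun_conjFun, hx,
        Cfsg.Agent.Lib_helper3_CharNormal.conjFun_conjFun, mul_inv_cancel,
        Cfsg.Agent.Lib_helper3_CharNormal.conjFun_one]
    · intro a _ b _ hab
      exact mul_right_cancel hab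
    · intro b hb
      refine ⟨b * g, ?_, by group⟩
      simp only [Finset.mem_filter, Finset.mem_univ, true_and, c] at hb ⊢
      rw [← Cfsg.Agent.Lib_helper3_CharNormal.conjFun_conjFun, hb]
  rw [Cfsg.Agent.Lib_helper3_CharNormal.indFun_restrict_normal']
  have hsum : ∑ x : G, Cfsg.Agent.Lib_helper3_CharNormal.conjFun H x θ =
      ((Finset.univ.filter (fun x : G => c x = θ)).card : ℂ) • ∑ ψ ∈ F, ψ := by
    rw [← Finset.sum_fiberwise_of_maps_to (s := Finset.univ) (t := F) (g := c)
      (fun x _ => Finset.mem_image_of_mem c (Finset.mem_univ x))]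
    rw [Finset.smul_sum]
    apply Finset.sum_congr rfl
    intro ψ hψ
    have h1 : ∀ x ∈ Finset.univ.filter (fun x : G => c x = ψ),
        Cfsg.Agent.Lib_helper3_CharNormal.conjFun H x θ = ψ := by
      intro x hx
      simp only [Finset.mem_filter, Finset.mem_univ, true_and] at hx
      exact hx
    rw [Finset.sum_congr rfl h1, Finset.sum_const, hfib ψ hψ, Nat.cast_smul_eq_nsmul]
  have hset' : Nat.card {g : G // ∀ h : H, θ ⟨g * h * g⁻¹, hN.conj_mem h h.2 g⟩ = θ h}
      = (Finset.univ.filter (fun x : G => c x = θ)).card := hset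
  rw [hsum, hset', smul_smul]
  congr 1
  rw [div_eq_mul_inv, mul_comm]
end Cfsg.Agent.S1485
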