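import Cfsg.Statements.S1486
import Mathlib
import Cfsg.Agent.Lib_helper3_CharNormal

set_option autoImplicit false
open Cfsg

namespace Cfsg.Agent.S1486

/-- Let H be a normal subgroup of the finite group G and θ, φ irreducible characters of H. If φ is a G-conjugate of θ then the functions induced from θ and φ coincide; if φ is not a G-conjugate of θ then the induced functions are orthogonal. -/
theorem result {G : Type*} [Group G] [Fintype G] (H : Subgroup G) [hN : H.Normal] (θ φ : H → ℂ) (hθ : Cfsg.IsIrrCharacter H θ) (hφ : Cfsg.IsIrrCharacter H φ) : ((∃ g : G, φ = fun h : H => θ ⟨g * h * g⁻¹, hN.conj_mem h h.2 g⟩) → Cfsg.indFun H φ = Cfsg.indFun H θ) ∧ ((¬ ∃ g : G, φ = fun h : H => θ ⟨g * h * g⁻¹, hN.conj_mem h h.2 g⟩) → Cfsg.classInner (Cfsg.indFun H φ) (Cfsg.indFun H θ) = 0) := by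
  classical
  have := Fintype.ofFinite H
  constructor
  · rintro ⟨g, rfl⟩
    funext x
    rw [Cfsg.Agent.Lib_helper3_CharInd.indFun_apply, Cfsg.Agent.Lib_helper3_CharInd.indFun_apply]
    congr 1
    rw [← Equiv.sum_comp (Equiv.mulRight g⁻¹)
      (fun y => Cfsg.extendByZero H θ (y⁻¹ * x * y))]
    apply Finset.sum_congr rfl
    intro y _
    simp only [Equiv.coe_mulRight]
    by_cases hy : y⁻¹ * x * y ∈ H
    · have hy' : (y * g⁻¹)⁻¹ * x * (y * g⁻¹) ∈ H := by
        have := hN.conj_mem _ hy g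
        have e : (y * g⁻¹)⁻¹ * x * (y * g⁻¹) = g * (y⁻¹ * x * y) * g⁻¹ := by group
        rw [e]; exact this
      rw [Cfsg.Agent.Lib_helper3_CharInd.extendByZero_mem H _ hy,
        Cfsg.Agent.Lib_helper3_CharInd.extendByZero_mem H _ hy']
      congr 1
      apply Subtype.ext
      show g * (y⁻¹ * x * y) * g⁻¹ = (y * g⁻¹)⁻¹ * x * (y * g⁻¹)
      group
    · have hy' : (y * g⁻¹)⁻¹ * x * (y * g⁻¹) ∉ H := by
        intro h'
        apply hy
        have := hN.conj_mem _ h' g⁻¹
        have e : g⁻¹ * ((y * g⁻¹)⁻¹ * x * (y * g⁻¹)) * g⁻¹⁻¹ = y⁻¹ * x * y := by group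
        rw [e] at this; exact this
      rw [Cfsg.Agent.Lib_helper3_CharInd.extendByZero_not_mem H _ hy,
        Cfsg.Agent.Lib_helper3_CharInd.extendByZero_not_mem H _ hy']
  · intro hne
    rw [Cfsg.Agent.Lib_helper3_CharNormal.classInner_indFun_normal]
    have h0 : ∀ x : G, Cfsg.classInner φ (Cfsg.Agent.Lib_helper3_CharNormal.conjFun H x θ) = 0 := by
      intro x
      apply Cfsg.Agent.Lib_helper3_CharBasic.irr_inner_ne hφ
        (Cfsg.Agent.Lib_helper3_CharNormal.isIrrCharacter_conjFun H x hθ)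
      intro h
      exact hne ⟨x, h⟩
    simp only [h0, Finset.sum_const_zero, mul_zero]
end Cfsg.Agent.S1486
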