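import Cfsg.Statements.S1487
import Mathlib
import Cfsg.Agent.Lib_helper3_CharNormal
import Cfsg.Agent.Lib_helper3_CharDiag

set_option autoImplicit false
open Cfsg

namespace Cfsg.Agent.S1487

/-- Let A ≤ H be normal subgroups of the finite group G and θ an irreducible character of H. Then θ takes the value θ 1 on all of A if and only if the function induced from θ to G takes its value at 1 on all of A. -/
theorem result {G : Type*} [Group G] [Fintype G] (A H : Subgroup G) [A.Normal] [H.Normal] (hAH : A ≤ H) (θ : H → ℂ) (hθ : Cfsg.IsIrrCharacter H θ) : (∀ a : H, (a : G) ∈ A → θ a = θ 1) ↔ (∀ a : G, a ∈ A → Cfsg.indFun H θ a = Cfsg.indFun H θ 1) := by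
  classical
  have := Fintype.ofFinite H
  have hAn : A.Normal := inferInstance
  have hHn : H.Normal := inferInstance
  have hθc := Cfsg.Agent.Lib_helper3_CharBasic.isCharacter_of_irr hθ
  obtain ⟨n, hn⟩ := Cfsg.Agent.Lib_helper3_CharBasic.isCharacter_apply_one hθc
  have hH0 := Cfsg.Agent.Lib_helper3_CharInd.card_subgroup_ne_zero H
  -- formula for the induced function on A
  have hform : ∀ a : G, ∀ ha : a ∈ A, Cfsg.indFun H θ a = (Nat.card H : ℂ)⁻¹ *
      ∑ x : G, θ ⟨x * a * x⁻¹, hAH (hAn.conj_mem a ha x)⟩ := by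
    intro a ha
    have h1 := Cfsg.Agent.Lib_helper3_CharNormal.indFun_restrict_normal H θ ⟨a, hAH ha⟩
    rw [h1]
    rfl
  have hone : Cfsg.indFun H θ 1 = (Nat.card H : ℂ)⁻¹ * ∑ _x : G, θ 1 := by
    rw [hform 1 A.one_mem]
    congr 1
    apply Finset.sum_congr rfl
    intro x _
    congr 1
    apply Subtype.ext
    simp
  constructor
  · intro h a ha
    rw [hform a ha, hone]
    congr 1
    apply Finset.sum_congr rfl
    intro x _
    exact h _ (hAn.conj_mem a ha x)
  · intro h a ha
    have h1 := h (a : G) ha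
    rw [hform (a : G) ha, hone] at h1
    have h2 : ∑ x : G, θ ⟨x * (a : G) * x⁻¹, hAH (hAn.conj_mem (a : G) ha x)⟩ = ∑ _x : G, θ 1 :=
      mul_left_cancel₀ (inv_ne_zero hH0) h1
    -- all terms have norm ≤ n and the sum is card * n
    have hle : ∀ x : G, (θ ⟨x * (a : G) * x⁻¹, hAH (hAn.conj_mem (a : G) ha x)⟩).re ≤ (n : ℝ) := by
      intro x
      have h3 := Cfsg.Agent.Lib_helper3_CharDiag.isCharacter_norm_le hθc
        ⟨x * (a : G) * x⁻¹, hAH (hAn.conj_mem (a : G) ha x)⟩
      rw [hn, Complex.natCast_re] at h3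
      exact le_trans (Complex.re_le_norm _) h3
    have h4 : ∑ x : G, (θ ⟨x * (a : G) * x⁻¹, hAH (hAn.conj_mem (a : G) ha x)⟩).re =
        ∑ _x : G, (n : ℝ) := by
      have := congrArg Complex.re h2
      rw [Complex.re_sum, Complex.re_sum] at this
      rw [this]
      apply Finset.sum_congr rfl
      intro x _
      rw [hn, Complex.natCast_re]
    have h5 : ∀ x ∈ (Finset.univ : Finset G),
        (θ ⟨x * (a : G) * x⁻¹, hAH (hAn.conj_mem (a : G) ha x)⟩).re = (n : ℝ) :=
      (Finset.sum_eq_sum_iff_of_le (fun x _ => hle x)).mp h4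
    have h6 := h5 1 (Finset.mem_univ 1)
    have h7 : (⟨1 * (a : G) * 1⁻¹, hAH (hAn.conj_mem (a : G) ha 1)⟩ : H) = a := by
      apply Subtype.ext
      simp
    rw [h7] at h6
    have h8 := Cfsg.Agent.Lib_helper3_CharDiag.isCharacter_norm_le hθc a
    rw [hn, Complex.natCast_re] at h8
    -- re = n and norm ≤ n imply θ a = n
    rw [hn]
    apply Complex.ext
    · rw [h6, Complex.natCast_re]
    · rw [Complex.natCast_im]
      have h9 : ‖θ a‖ ^ 2 = (θ a).re ^ 2 + (θ a).im ^ 2 := by
        rw [Complex.sq_norm, Complex.normSq_apply]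
        ring
      have h10 : ‖θ a‖ ^ 2 ≤ (n : ℝ) ^ 2 := by
        apply pow_le_pow_left₀ (norm_nonneg _) h8
      rw [h9, h6] at h10
      have h11 : (θ a).im ^ 2 ≤ 0 := by linarith
      have h12 : (θ a).im ^ 2 = 0 := le_antisymm h11 (sq_nonneg _)
      exact pow_eq_zero_iff (two_ne_zero) |>.mp h12
end Cfsg.Agent.S1487
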