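import Cfsg.Statements.S1488
import Mathlib
import Cfsg.Agent.Lib_helper3_CharInd

set_option autoImplicit false
open Cfsg

namespace Cfsg.Agent.S1488

/-- Let A be a normal subgroup of the finite group G contained in the subgroup H, let θ be a function on H and θ₁ a function on the image of H in G ⧸ A whose composite with the projection is θ. Then the function induced from θ₁ to G ⧸ A, composed with the projection G → G ⧸ A, equals the function induced from θ to G. -/
theorem result {G : Type*} [Group G] [Fintype G] (A H : Subgroup G) [A.Normal] (hAH : A ≤ H) [Fintype (G ⧸ A)] [Fintype ↥(H.map (QuotientGroup.mk' A))] (θ : H → ℂ) (θ₁ : ↥(H.map (QuotientGroup.mk' A)) → ℂ) (hθ : ∀ x : H, θ₁ ⟨QuotientGroup.mk' A x, Subgroup.mem_map_of_mem _ x.2⟩ = θ x) (g : G) : Cfsg.indFun (H.map (QuotientGroup.mk' A)) θ₁ (QuotientGroup.mk' A g) = Cfsg.indFun H θ g := by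
  classical
  have := Fintype.ofFinite H
  have := Fintype.ofFinite A
  -- the fibre-sum lemma
  have sum_comp_mk : ∀ F : G ⧸ A → ℂ,
      ∑ x : G, F (x : G ⧸ A) = (Nat.card A : ℂ) * ∑ q : G ⧸ A, F q := by
    intro F
    have hout : ∀ (q : G ⧸ A) (a : A), ((Quotient.out q * (a : G) : G) : G ⧸ A) = q := by
      intro q a
      rw [QuotientGroup.mk_mul_of_mem _ a.2]
      exact Quotient.out_eq q
    let e : (G ⧸ A) × A ≃ G :=
      { toFun := fun p => Quotient.out p.1 * (p.2 : G)
        invFun := fun g => ((g : G ⧸ A), ⟨(Quotient.out (g : G ⧸ A))⁻¹ * g, by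
            rw [← QuotientGroup.eq]; exact Quotient.out_eq _⟩)
        left_inv := by
          rintro ⟨q, a⟩
          have h1 := hout q a
          apply Prod.ext
          · exact h1
          · apply Subtype.ext
            show (Quotient.out ((Quotient.out q * (a : G) : G) : G ⧸ A))⁻¹ * (Quotient.out q * (a : G)) = a
            rw [h1]
            group
        right_inv := by
          intro g
          show Quotient.out (g : G ⧸ A) * ((Quotient.out (g : G ⧸ A))⁻¹ * g) = g
          group }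
    rw [← Equiv.sum_comp e, Fintype.sum_prod_type]
    have h1 : ∀ (q : G ⧸ A) (a : A), F ((e (q, a) : G) : G ⧸ A) = F q := by
      intro q a
      congr 1
      exact hout q a
    simp only [h1, Finset.sum_const, Finset.card_univ, nsmul_eq_mul]
    rw [← Finset.mul_sum, Nat.card_eq_fintype_card]
  have hmem : ∀ y : G, (y : G ⧸ A) ∈ (H.map (QuotientGroup.mk' A)) ↔ y ∈ H := by
    intro y
    constructor
    · rintro ⟨h, hh, hhy⟩
      have h1 : h⁻¹ * y ∈ A := by
        rw [← QuotientGroup.eq]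
        exact hhy
      have h2 := H.mul_mem hh (hAH h1)
      simpa using h2
    · intro hy
      exact Subgroup.mem_map_of_mem _ hy
  have hext : ∀ y : G, Cfsg.extendByZero H θ y = Cfsg.extendByZero (H.map (QuotientGroup.mk' A)) θ₁ (y : G ⧸ A) := by
    intro y
    by_cases hy : y ∈ H
    · rw [Cfsg.Agent.Lib_helper3_CharInd.extendByZero_mem H θ hy,
        Cfsg.Agent.Lib_helper3_CharInd.extendByZero_mem (H.map (QuotientGroup.mk' A)) θ₁ ((hmem y).mpr hy)]
      exact (hθ ⟨y, hy⟩).symm
    · rw [Cfsg.Agent.Lib_helper3_CharInd.extendByZero_not_mem H θ hy,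
        Cfsg.Agent.Lib_helper3_CharInd.extendByZero_not_mem (H.map (QuotientGroup.mk' A)) θ₁ (fun h => hy ((hmem y).mp h))]
  have hcard : (Nat.card H : ℂ) = (Nat.card A : ℂ) * (Nat.card (H.map (QuotientGroup.mk' A)) : ℂ) := by
    have h1 := sum_comp_mk (fun q => if q ∈ (H.map (QuotientGroup.mk' A)) then (1 : ℂ) else 0)
    simp only [hmem] at h1
    rw [Finset.sum_boole, Finset.sum_boole] at h1
    have e1 : (Finset.univ.filter (fun x : G => x ∈ H)).card = Nat.card H := by
      rw [Nat.card_eq_fintype_card, Fintype.card_subtype]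
    have e2 : (Finset.univ.filter (fun q : G ⧸ A => q ∈ (H.map (QuotientGroup.mk' A)))).card = Nat.card (H.map (QuotientGroup.mk' A)) := by
      rw [Nat.card_eq_fintype_card, Fintype.card_subtype]
    rw [e1, e2] at h1
    exact h1
  rw [Cfsg.Agent.Lib_helper3_CharInd.indFun_apply, Cfsg.Agent.Lib_helper3_CharInd.indFun_apply]
  have h1 : ∀ x : G, Cfsg.extendByZero H θ (x⁻¹ * g * x) =
      (fun q : G ⧸ A => Cfsg.extendByZero (H.map (QuotientGroup.mk' A)) θ₁ (q⁻¹ * (g : G ⧸ A) * q)) (x : G ⧸ A) := by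
    intro x
    rw [hext]
    rfl
  rw [Finset.sum_congr rfl (fun x _ => h1 x),
    sum_comp_mk (fun q => Cfsg.extendByZero (H.map (QuotientGroup.mk' A)) θ₁ (q⁻¹ * (g : G ⧸ A) * q)), hcard]
  have hA0 : (Nat.card A : ℂ) ≠ 0 := Cfsg.Agent.Lib_helper3_CharInd.card_subgroup_ne_zero A
  have hHb0 : (Nat.card (H.map (QuotientGroup.mk' A)) : ℂ) ≠ 0 := by
    exact_mod_cast (Nat.card_pos (α := ↥(H.map (QuotientGroup.mk' A)))).ne'
  show (Nat.card (H.map (QuotientGroup.mk' A)) : ℂ)⁻¹ * ∑ q : G ⧸ A, Cfsg.extendByZero (H.map (QuotientGroup.mk' A)) θ₁ (q⁻¹ * (g : G ⧸ A) * q) = _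
  field_simp
end Cfsg.Agent.S1488
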