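import Cfsg.Statements.S1491
import Mathlib
import Cfsg.Agent.S0867
import Cfsg.Agent.Lib_helper3_AbInd2

set_option autoImplicit false
open Cfsg

namespace Cfsg.Agent.S1491

/-- Let H be a normal subgroup of the finite group G and θ an irreducible character of H with inertia group T, where T/H is abelian (commutators of T lie in H) and the index of H in T is coprime to the order of H. Then the function induced from θ is the sum of a set of exactly [T:H] irreducible characters of G, each of degree [G:T] * θ(1). -/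
theorem result {G : Type*} [Group G] [Fintype G] (H T : Subgroup G) [hN : H.Normal] (θ : H → ℂ) (hθ : Cfsg.IsIrrCharacter H θ) (hT : ∀ g : G, g ∈ T ↔ ∀ h : H, θ ⟨g * h * g⁻¹, hN.conj_mem h h.2 g⟩ = θ h) (hab : ∀ x ∈ T, ∀ y ∈ T, x * y * x⁻¹ * y⁻¹ ∈ H) (hcop : Nat.Coprime (Nat.card H) (H.relIndex T)) : ∃ C : Finset (G → ℂ), (∀ χ ∈ C, Cfsg.IsIrrCharacter G χ) ∧ C.card = H.relIndex T ∧ Cfsg.indFun H θ = ∑ χ ∈ C, χ ∧ ∀ χ ∈ C, χ 1 = (T.index : ℂ) * θ 1 := by
  classical
  have hT' : ∀ g : G, g ∈ T ↔ Cfsg.Agent.Lib_helper3_CharNormal.conjFun H g θ = θ := by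
    intro g
    rw [hT g]
    constructor
    · intro h
      funext x
      exact h x
    · intro h x
      exact congrFun h x
  have hHT : H ≤ T := fun x hx => (hT' x).2
    (Cfsg.Agent.Lib_helper3_CharNormal.conjFun_of_mem H
      (Cfsg.Agent.Lib_helper3_CharBasic.isClassFunction_of_irr hθ) hx)
  have := Fintype.ofFinite (H.subgroupOf T)
  have hNn : (H.subgroupOf T).Normal := inferInstance
  let eH : H.subgroupOf T ≃* H := Subgroup.subgroupOfEquivOfLe hHT
  have hcardN : Nat.card (H.subgroupOf T) = Nat.card H := Nat.card_congr eH.toEquiv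
  have hext : ∃ ψ₀ : T → ℂ, Cfsg.IsIrrCharacter T ψ₀ ∧ ∀ x : H.subgroupOf T,
      ψ₀ x = θ ⟨(x : T), Subgroup.mem_subgroupOf.mp x.2⟩ := by
    let ϑ : H.subgroupOf T → ℂ := fun x => θ ⟨(x : T), Subgroup.mem_subgroupOf.mp x.2⟩
    have hϑ : Cfsg.IsIrrCharacter (H.subgroupOf T) ϑ :=
      Cfsg.Agent.Lib_helper3_CliffCorr.isIrrCharacter_comp_mulEquiv' eH hθ
    obtain ⟨d, -, hd⟩ := Cfsg.Agent.Lib_helper3_CharMore.irr_apply_one_pos hϑ
    have hinv : ∀ (g : T) (n : H.subgroupOf T),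
        ϑ ⟨g * n * g⁻¹, hNn.conj_mem (n : T) n.2 g⟩ = ϑ n := by
      intro g n
      exact (hT g).1 g.2 (eH n)
    have hcop' : Nat.Coprime (H.subgroupOf T).index (Cfsg.detOrder ϑ * d) := by
      have h1 : Cfsg.detOrder ϑ ∣ Nat.card (H.subgroupOf T) :=
        Cfsg.Agent.Lib_helper3_AbInd2.detOrder_dvd_card
          (Cfsg.Agent.Lib_helper3_CharBasic.isCharacter_of_irr hϑ)
      have h2 : d ∣ Nat.card (H.subgroupOf T) :=
        Cfsg.Agent.Lib_helper3_AbInd2.degree_dvd_card hϑ d hd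
      have h3 : Nat.Coprime (H.subgroupOf T).index (Nat.card (H.subgroupOf T)) := by
        rw [hcardN]
        exact hcop.symm
      exact Nat.Coprime.mul_right (Nat.Coprime.coprime_dvd_right h1 h3)
        (Nat.Coprime.coprime_dvd_right h2 h3)
    obtain ⟨χ, ⟨hχ, hχres, -⟩, -⟩ := Cfsg.Agent.S0867.result (H.subgroupOf T) ϑ hϑ hinv d hd hcop'
    exact ⟨χ, hχ, fun x => hχres x⟩
  obtain ⟨C, hCirr, hcount, hdecomp, hdeg⟩ :=
    Cfsg.Agent.Lib_helper3_AbInd2.ind_abelian_inertia_ext H T θ hθ hT' hab hext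
  refine ⟨C, hCirr, ?_, hdecomp, hdeg⟩
  have h1 : (H.subgroupOf T).index * Nat.card (H.subgroupOf T) = Nat.card T :=
    Subgroup.index_mul_card _
  rw [hcardN] at h1
  have hpos : 0 < Nat.card H := Nat.card_pos
  exact Nat.eq_of_mul_eq_mul_right hpos (hcount.trans h1.symm)
end Cfsg.Agent.S1491
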