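import Cfsg.Statements.S1492
import Cfsg.Agent.Lib_helper3_CharNormal
import Cfsg.Agent.Lib_helper3_CharDiag
import Cfsg.Agent.Lib_helper3_CharComm

set_option autoImplicit false
open Cfsg

namespace Cfsg.Agent.S1492
open Cfsg
open Cfsg.Agent.Lib_helper3_CharBasic Cfsg.Agent.Lib_helper3_CharMore
open Cfsg.Agent.Lib_helper3_CharInd Cfsg.Agent.Lib_helper3_CharDiag
open Cfsg.Agent.Lib_helper3_CharComm
open scoped ComplexConjugate


/-- Let ψ be an irreducible character of the finite group G and B ≤ D ≤ C subgroups with B normal in C, every commutator of an element of D with an element of C lying in B (so D/B is central in C/B), and ψ constant equal to ψ 1 on B. Then ψ(1) ^ 2 * |C| * |D| ≤ |G| ^ 2. -/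
theorem result {G : Type*} [Group G] [Finite G] (ψ : G → ℂ) (hψ : Cfsg.IsIrrCharacter G ψ) (B C D : Subgroup G) (hBD : B ≤ D) (hDC : D ≤ C) (hBn : ∀ c ∈ C, ∀ b ∈ B, c * b * c⁻¹ ∈ B) (hcent : ∀ d ∈ D, ∀ c ∈ C, d * c * d⁻¹ * c⁻¹ ∈ B) (hker : ∀ b ∈ B, ψ b = ψ 1) : ‖ψ 1‖ ^ 2 * (Nat.card C : ℝ) * (Nat.card D : ℝ) ≤ (Nat.card G : ℝ) ^ 2 := by
  classical
  haveI : Fintype G := Fintype.ofFinite G
  haveI : Fintype C := Fintype.ofFinite C
  have hfinI := irr_finite (G := C)
  haveI := Fintype.ofFinite (IrrCharacter C)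
  have hfinG := irr_finite (G := G)
  haveI := Fintype.ofFinite (IrrCharacter G)
  have hψc := isCharacter_of_irr hψ
  have hψcf := isClassFunction_of_irr hψ
  obtain ⟨n, hn0, hn⟩ := irr_apply_one_pos hψ
  have hψC : IsCharacter C (fun c : C => ψ c) := isCharacter_restrict C hψc
  have hψC0 : (fun c : C => ψ c) ≠ 0 := by
    intro h0
    have h1 : ψ 1 = 0 := congrFun h0 1
    rw [hn] at h1
    exact hn0.ne' (by exact_mod_cast h1)
  obtain ⟨θ, hθ, hθ0⟩ := classInner_irr_of_ne_zero hψC hψC0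
  have hθc := isCharacter_of_irr hθ
  have hθθ := irr_inner_self hθ
  obtain ⟨k, hk0, hk⟩ := irr_apply_one_pos hθ
  have step2 : n ≤ C.index * k := by
    have hInd := isCharacter_indFun C hθc
    have hfr := frobenius_reciprocity C θ ψ hψcf
    have hne : classInner (indFun C θ) ψ ≠ 0 := by
      rw [hfr]
      intro h0
      apply hθ0
      rw [← classInner_conj_symm, h0, map_zero]
    have h1 := classFunction_eq_sum_apply (indFun C θ) (isClassFunction_indFun C θ) 1
    rw [indFun_apply_one, hk] at h1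
    have hm : ∀ χ : IrrCharacter G, ∃ m : ℕ, classInner (indFun C θ) (χ : G → ℂ) = m :=
      fun χ => classInner_nat hInd (isCharacter_of_irr χ.2)
    choose m hm using hm
    have hd : ∀ χ : IrrCharacter G, ∃ d : ℕ, (χ : G → ℂ) 1 = d :=
      fun χ => isCharacter_apply_one (isCharacter_of_irr χ.2)
    choose dg hdg using hd
    have h2 : C.index * k = ∑ χ : IrrCharacter G, m χ * dg χ := by
      have h2' : ((C.index * k : ℕ) : ℂ) = ((∑ χ : IrrCharacter G, m χ * dg χ : ℕ) : ℂ) := by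
        rw [Nat.cast_mul, h1, Nat.cast_sum]
        apply Finset.sum_congr rfl
        intro χ _
        rw [hm χ, hdg χ, Nat.cast_mul]
      exact_mod_cast h2'
    have h3 : m ⟨ψ, hψ⟩ * dg ⟨ψ, hψ⟩ ≤ ∑ χ : IrrCharacter G, m χ * dg χ :=
      Finset.single_le_sum (f := fun χ : IrrCharacter G => m χ * dg χ)
        (fun _ _ => Nat.zero_le _) (Finset.mem_univ _)
    have h4 : dg ⟨ψ, hψ⟩ = n := by
      have h5 : (ψ 1 : ℂ) = dg ⟨ψ, hψ⟩ := hdg ⟨ψ, hψ⟩
      rw [hn] at h5
      exact_mod_cast h5.symm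
    have h6 : m ⟨ψ, hψ⟩ ≠ 0 := by
      intro h0
      apply hne
      have h7 : classInner (indFun C θ) ψ = m ⟨ψ, hψ⟩ := hm ⟨ψ, hψ⟩
      rw [h7, h0, Nat.cast_zero]
    rw [h2]
    calc n = 1 * n := (one_mul n).symm
      _ ≤ m ⟨ψ, hψ⟩ * dg ⟨ψ, hψ⟩ := by
          rw [h4]
          exact Nat.mul_le_mul_right n (Nat.one_le_iff_ne_zero.mpr h6)
      _ ≤ _ := h3
  have hdecomp := classFunction_eq_sum_apply (fun c : C => ψ c)
    (isClassFunction_of_isCharacter hψC)
  have hmC : ∀ χ : IrrCharacter C, ∃ m : ℕ,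
      classInner (fun c : C => ψ c) (χ : C → ℂ) = m :=
    fun χ => classInner_nat hψC (isCharacter_of_irr χ.2)
  choose mC hmC using hmC
  have hmθ : mC ⟨θ, hθ⟩ ≠ 0 := by
    intro h0
    apply hθ0
    have h7 : classInner (fun c : C => ψ c) θ = mC ⟨θ, hθ⟩ := hmC ⟨θ, hθ⟩
    rw [h7, h0, Nat.cast_zero]
  have hkerθ : ∀ b : C, (b : G) ∈ B → θ b = θ 1 := by
    intro b hb
    have e1 := hdecomp b
    have e2 := hdecomp 1
    have e3 : ψ (b : G) = ψ ((1 : C) : G) := hker b hb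
    have e5 : (∑ χ : IrrCharacter C, classInner (fun c : C => ψ c) (χ : C → ℂ) *
        (χ : C → ℂ) 1).re - (∑ χ : IrrCharacter C, classInner (fun c : C => ψ c) (χ : C → ℂ) *
        (χ : C → ℂ) b).re = 0 := by
      rw [← e1, ← e2, e3]
      ring
    simp only [hmC, Complex.re_sum, Complex.mul_re, Complex.natCast_re, Complex.natCast_im,
      zero_mul, sub_zero] at e5
    have e4 : ∑ χ : IrrCharacter C, (mC χ : ℝ) *
        (((χ : C → ℂ) 1).re - ((χ : C → ℂ) b).re) = 0 := by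
      rw [← e5, ← Finset.sum_sub_distrib]
      apply Finset.sum_congr rfl
      intro χ _
      ring
    have e6 : ∀ χ ∈ (Finset.univ : Finset (IrrCharacter C)), 0 ≤ (mC χ : ℝ) *
        (((χ : C → ℂ) 1).re - ((χ : C → ℂ) b).re) := by
      intro χ _
      exact mul_nonneg (Nat.cast_nonneg _) (sub_nonneg.mpr (le_trans (Complex.re_le_norm _)
        (isCharacter_norm_le (isCharacter_of_irr χ.2) b)))
    have e7 := (Finset.sum_eq_zero_iff_of_nonneg e6).mp e4 ⟨θ, hθ⟩ (Finset.mem_univ _)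
    have e8 : (θ 1).re - (θ b).re = 0 := by
      rcases mul_eq_zero.mp e7 with h | h
      · exact absurd (by exact_mod_cast h) hmθ
      · exact h
    have hnorm : ‖θ b‖ ≤ (θ 1).re := isCharacter_norm_le hθc b
    have h9 : ‖θ b‖ ^ 2 = (θ b).re * (θ b).re + (θ b).im * (θ b).im := by
      rw [Complex.sq_norm, Complex.normSq_apply]
    have hre : (θ b).re = (θ 1).re := by linarith
    have h10 : (θ b).im = 0 := by
      have h11 : ‖θ b‖ ^ 2 ≤ (θ b).re ^ 2 := by
        rw [hre]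
        exact pow_le_pow_left₀ (norm_nonneg _) hnorm 2
      nlinarith [sq_nonneg (θ b).im]
    apply Complex.ext
    · exact hre
    · rw [h10, hk]
      simp
  obtain ⟨kk, ρ, hρirr, hρ⟩ := id hθ
  haveI := hρirr
  have hfr : Module.finrank ℂ (Fin kk → ℂ) = kk := by simp
  have hkk : k = kk := by
    have h1 : θ 1 = (kk : ℂ) := by rw [← hρ, Representation.char_one, hfr]
    rw [hk] at h1
    exact_mod_cast h1
  have hρB : ∀ b : C, (b : G) ∈ B → ρ b = LinearMap.id := by
    intro b hb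
    apply (char_eq_degree_iff ρ b).mp
    rw [hρ, hkerθ b hb, ← hρ, Representation.char_one]
  have hnormD : ∀ d : C, (d : G) ∈ D → ‖θ d‖ = (k : ℝ) := by
    intro d hd
    have hcomm : ∀ c : C, ρ d * ρ c = ρ c * ρ d := by
      intro c
      have hb : ((d * c * d⁻¹ * c⁻¹ : C) : G) ∈ B := hcent d hd c c.2
      have h1 := hρB (d * c * d⁻¹ * c⁻¹) hb
      have h2 : d * c = (d * c * d⁻¹ * c⁻¹) * (c * d) := by group
      rw [← map_mul, ← map_mul, h2, map_mul ρ (d * c * d⁻¹ * c⁻¹) (c * d), h1]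
      exact LinearMap.id_comp _
    have hs := schur_trace ρ (ρ d) hcomm
    have h3 : ‖ρ.character d‖ = (Module.finrank ℂ (Fin kk → ℂ) : ℝ) :=
      (norm_char_eq_iff ρ d).mpr ⟨_, hs⟩
    rw [hρ, hfr] at h3
    rw [h3, hkk]
  have step3 : k ^ 2 * Nat.card D ≤ Nat.card C := by
    have h1 := classInner_self_eq θ
    rw [hθθ] at h1
    have hC0 : (Nat.card C : ℂ) ≠ 0 := Nat.cast_ne_zero.mpr (Nat.card_pos (α := C)).ne'
    have h2 : ((∑ c : C, ‖θ c‖ ^ 2 : ℝ) : ℂ) = (Nat.card C : ℂ) := by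
      have h2a : (Nat.card C : ℂ) * 1 = (Nat.card C : ℂ) *
          ((Nat.card C : ℂ)⁻¹ * ((∑ c : C, ‖θ c‖ ^ 2 : ℝ) : ℂ)) := by rw [← h1]
      rw [← mul_assoc, mul_inv_cancel₀ hC0, one_mul, mul_one] at h2a
      exact h2a.symm
    have h2' : (∑ c : C, ‖θ c‖ ^ 2 : ℝ) = (Nat.card C : ℝ) := by exact_mod_cast h2
    have h3 : ∑ c : C, (if (c : G) ∈ D then (k : ℝ) ^ 2 else 0) ≤ ∑ c : C, ‖θ c‖ ^ 2 := by
      apply Finset.sum_le_sum
      intro c _
      by_cases hc : (c : G) ∈ D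
      · rw [if_pos hc, hnormD c hc]
      · rw [if_neg hc]
        positivity
    have h4 : ∑ c : C, (if (c : G) ∈ D then (k : ℝ) ^ 2 else 0) =
        (Nat.card D : ℝ) * (k : ℝ) ^ 2 := by
      rw [← Finset.sum_filter, Finset.sum_const, nsmul_eq_mul]
      congr 1
      have h4a : (Finset.univ.filter (fun c : C => (c : G) ∈ D)).card = Nat.card D := by
        rw [← Fintype.card_subtype, ← Nat.card_eq_fintype_card]
        exact Nat.card_congr (Subgroup.subgroupOfEquivOfLe hDC).toEquiv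
      exact_mod_cast h4a
    have h5 : (k : ℝ) ^ 2 * (Nat.card D : ℝ) ≤ (Nat.card C : ℝ) := by
      rw [← h2', mul_comm, ← h4]
      exact h3
    exact_mod_cast h5
  have hidx : C.index * Nat.card C = Nat.card G := C.index_mul_card
  have hnorm1 : ‖ψ 1‖ = (n : ℝ) := by
    rw [hn]
    simp
  rw [hnorm1]
  have hfinal : n ^ 2 * Nat.card C * Nat.card D ≤ Nat.card G ^ 2 := by
    calc n ^ 2 * Nat.card C * Nat.card D
        ≤ (C.index * k) ^ 2 * Nat.card C * Nat.card D := by gcongr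
      _ = C.index ^ 2 * Nat.card C * (k ^ 2 * Nat.card D) := by ring
      _ ≤ C.index ^ 2 * Nat.card C * Nat.card C := by gcongr
      _ = (C.index * Nat.card C) ^ 2 := by ring
      _ = Nat.card G ^ 2 := by rw [hidx]
  exact_mod_cast hfinal
end Cfsg.Agent.S1492
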