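import Cfsg.Statements.S1496
import Cfsg.Agent.Lib_helper5_PiElt

set_option autoImplicit false
open Cfsg

namespace Cfsg.Agent.S1496

open scoped Pointwise

theorem eq_one_of_mem_of_coprime {G : Type*} [Group G] [Finite G] (H : Subgroup G) (x : G)
    (hx : x ∈ H) (hc : (orderOf x).Coprime (Nat.card H)) : x = 1 := by
  have h1 : orderOf x ∣ Nat.card H := Subgroup.orderOf_dvd_natCard H hx
  have h2 : orderOf x ∣ Nat.gcd (orderOf x) (Nat.card H) := Nat.dvd_gcd dvd_rfl h1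
  rw [hc.gcd_eq_one] at h2
  exact orderOf_eq_one_iff.mp (Nat.dvd_one.mp h2)

theorem pow_mul_inv_mem {G : Type*} [Group G] (H : Subgroup G) (g : G)
    (hg : g ∈ Subgroup.normalizer (H : Set G)) (w : G) (hw : w ∈ H) (k : ℕ) :
    (w * g) ^ k * (g ^ k)⁻¹ ∈ H := by
  induction k with
  | zero => simp
  | succ k ih =>
    have hgk : g ^ k ∈ Subgroup.normalizer (H : Set G) := Subgroup.pow_mem _ hg k
    have h1 : g ^ k * w * (g ^ k)⁻¹ ∈ H := (Subgroup.mem_normalizer_iff.mp hgk w).mp hw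
    have e : (w * g) ^ (k + 1) * (g ^ (k + 1))⁻¹
        = ((w * g) ^ k * (g ^ k)⁻¹) * (g ^ k * w * (g ^ k)⁻¹) := by
      rw [pow_succ, pow_succ]
      generalize (w * g) ^ k = A
      generalize g ^ k = B
      group
    rw [e]; exact H.mul_mem ih h1


/-- Let H be a subgroup of the finite group G and g an element normalising H whose order is coprime to the order of H. Then for every h ∈ H there are x ∈ H and c ∈ H commuting with g such that x * (h * g) * x⁻¹ = c * g. -/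
theorem result {G : Type*} [Group G] [Finite G] (H : Subgroup G) (g : G) (hg : g ∈ Subgroup.normalizer (H : Set G)) (hcop : Nat.Coprime (orderOf g) (Nat.card H)) (h : G) (hh : h ∈ H) : ∃ x ∈ H, ∃ c ∈ H, c * g = g * c ∧ x * (h * g) * x⁻¹ = c * g := by
  classical
  have hπcop : ∀ a : ℕ, Cfsg.Agent.Lib_helper5_PiElt.IsPiNat {r | r ∣ Nat.card H} a →
      Nat.Coprime (orderOf g) a := by
    intro a ha
    apply Nat.coprime_of_dvd
    intro r hr h1 h2
    have h3 : r ∣ Nat.card H := ha r hr h2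
    have h4 := Nat.dvd_gcd h1 h3
    rw [hcop.gcd_eq_one] at h4
    exact hr.one_lt.ne' (Nat.dvd_one.mp h4)
  have hπ'cop : ∀ v : ℕ, Cfsg.Agent.Lib_helper5_PiElt.IsPiNat ({r | r ∣ Nat.card H} : Set ℕ)ᶜ v →
      Nat.Coprime v (Nat.card H) := by
    intro v hv
    apply Nat.coprime_of_dvd
    intro r hr h1 h2
    exact hv r hr h1 h2
  obtain ⟨j, v, hv', hv, hu⟩ :=
    Cfsg.Agent.Lib_helper5_PiElt.exists_pi_part {r | r ∣ Nat.card H} (h * g)
  have hgn : g ^ orderOf g = 1 := pow_orderOf_eq_one g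
  have hyn : (h * g) ^ orderOf g ∈ H := by
    have h1 := pow_mul_inv_mem H g hg h hh (orderOf g)
    rwa [hgn, inv_one, mul_one] at h1
  have hv'H : h * g * (h * g) ^ j ∈ H := by
    apply Cfsg.Agent.Lib_helper7_CoprimeGen.mem_of_pow_mem H _ (orderOf g) (hπcop _ hv')
    have e : (h * g * (h * g) ^ j) ^ orderOf g = ((h * g) ^ orderOf g) ^ (j + 1) := by
      rw [← pow_succ', ← pow_mul, ← pow_mul, Nat.mul_comm]
    rw [e]; exact H.pow_mem hyn _
  set v' := h * g * (h * g) ^ j with hv'def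
  set u := ((h * g) ^ j)⁻¹ with hudef
  have hy : v' * u = h * g := by rw [hv'def, hudef, mul_inv_cancel_right]
  have hy' : u * v' = h * g := by
    rw [hv'def, hudef, ← pow_mul_comm', inv_mul_cancel_left]
  have hwH : v'⁻¹ * h ∈ H := H.mul_mem (H.inv_mem hv'H) hh
  have huw : u = v'⁻¹ * h * g := by
    have h1 : u = v'⁻¹ * (v' * u) := by group
    rw [h1, hy]; group
  have huv : u ^ v = 1 := by rw [hudef, inv_pow, hu, inv_one]
  have hucop : ∀ k : ℕ, (orderOf (u ^ k)).Coprime (Nat.card H) := by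
    intro k
    have h1 : orderOf (u ^ k) ∣ v := (orderOf_pow_dvd k).trans (orderOf_dvd_of_pow_eq_one huv)
    exact Nat.Coprime.coprime_dvd_left h1 (hπ'cop v hv)
  have hun : u ^ orderOf g = 1 := by
    apply eq_one_of_mem_of_coprime H _ _ (hucop _)
    have h1 := pow_mul_inv_mem H g hg (v'⁻¹ * h) hwH (orderOf g)
    rwa [hgn, inv_one, mul_one, ← huw] at h1
  have hgcop : ∀ t ∈ Subgroup.zpowers g, t ∈ H → t = 1 := by
    intro t ht htH
    apply eq_one_of_mem_of_coprime H t htH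
    exact Nat.Coprime.coprime_dvd_left (orderOf_dvd_of_mem_zpowers ht) hcop
  have hord : orderOf u = orderOf g := by
    apply Nat.dvd_antisymm (orderOf_dvd_of_pow_eq_one hun)
    apply orderOf_dvd_of_pow_eq_one
    have h1 := pow_mul_inv_mem H g hg (v'⁻¹ * h) hwH (orderOf u)
    rw [← huw, pow_orderOf_eq_one, one_mul] at h1
    have h2 : g ^ orderOf u ∈ H := by
      have h3 := H.inv_mem h1
      rwa [inv_inv] at h3
    exact hgcop _ (Subgroup.pow_mem _ (Subgroup.mem_zpowers g) _) h2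
  have hzn : Subgroup.zpowers g ≤ Subgroup.normalizer (H : Set G) := by
    rw [Subgroup.zpowers_le]; exact hg
  have hcop' : (Nat.card (Subgroup.zpowers g)).Coprime (Nat.card H) := by
    rw [Nat.card_zpowers]; exact hcop
  obtain ⟨hnorm, hcard⟩ :=
    Cfsg.Agent.Lib_helper1_Coprime.card_sup_of_normalizes (Subgroup.zpowers g) H hzn hcop'
  haveI := hnorm
  have hgL : Subgroup.zpowers g ≤ H ⊔ Subgroup.zpowers g := le_sup_right
  have huL : Subgroup.zpowers u ≤ H ⊔ Subgroup.zpowers g := by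
    rw [Subgroup.zpowers_le, huw]
    exact Subgroup.mul_mem _ (Subgroup.mem_sup_left hwH)
      (Subgroup.mem_sup_right (Subgroup.mem_zpowers g))
  have hKH : Nat.card ((Subgroup.zpowers u).subgroupOf (H ⊔ Subgroup.zpowers g))
      = Nat.card ((Subgroup.zpowers g).subgroupOf (H ⊔ Subgroup.zpowers g)) := by
    rw [Cfsg.Agent.Lib_helper1_Hall.card_subgroupOf_of_le huL,
      Cfsg.Agent.Lib_helper1_Hall.card_subgroupOf_of_le hgL, Nat.card_zpowers, Nat.card_zpowers,
      hord]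
  have hcop'' : (Nat.card (H.subgroupOf (H ⊔ Subgroup.zpowers g))).Coprime
      (Nat.card ((Subgroup.zpowers g).subgroupOf (H ⊔ Subgroup.zpowers g))) := by
    rw [Cfsg.Agent.Lib_helper1_Hall.card_subgroupOf_of_le le_sup_left,
      Cfsg.Agent.Lib_helper1_Hall.card_subgroupOf_of_le hgL]
    exact hcop'.symm
  obtain ⟨a, haN, ha⟩ := Cfsg.Agent.Lib_helper1_SZConj.sz_conj_mem
    (H.subgroupOf (H ⊔ Subgroup.zpowers g))
    ((Subgroup.zpowers g).subgroupOf (H ⊔ Subgroup.zpowers g))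
    ((Subgroup.zpowers u).subgroupOf (H ⊔ Subgroup.zpowers g))
    hcard hKH hcop'' (Or.inr (Cfsg.Agent.Lib_helper1_Coprime.isSolvable_of_isMulCommutative _))
  have haH : (a : G) ∈ H := Subgroup.mem_subgroupOf.mp haN
  have huC : (⟨u, huL (Subgroup.mem_zpowers u)⟩ : ↥(H ⊔ Subgroup.zpowers g)) ∈
      MulAut.conj a • ((Subgroup.zpowers g).subgroupOf (H ⊔ Subgroup.zpowers g)) := by
    rw [ha]; exact Subgroup.mem_subgroupOf.mpr (Subgroup.mem_zpowers u)
  rw [Cfsg.Agent.Lib_helper1_Basic.mem_conj_smul, Subgroup.mem_subgroupOf] at huC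
  have huC' : (a : G)⁻¹ * u * (a : G) ∈ Subgroup.zpowers g := huC
  have hxu : (a : G)⁻¹ * u * (a : G) = g := by
    have h1 : (a : G)⁻¹ * u * (a : G) * g⁻¹ ∈ H := by
      have h2 : g * (a : G) * g⁻¹ ∈ H := (Subgroup.mem_normalizer_iff.mp hg _).mp haH
      have e : (a : G)⁻¹ * u * (a : G) * g⁻¹
          = (a : G)⁻¹ * (v'⁻¹ * h) * (g * (a : G) * g⁻¹) := by
        rw [huw]; group
      rw [e]; exact H.mul_mem (H.mul_mem (H.inv_mem haH) hwH) h2
    have h3 : (a : G)⁻¹ * u * (a : G) * g⁻¹ ∈ Subgroup.zpowers g :=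
      Subgroup.mul_mem _ huC' (Subgroup.inv_mem _ (Subgroup.mem_zpowers g))
    have h4 := hgcop _ h3 h1
    exact mul_inv_eq_one.mp h4
  have hc1 : (a : G)⁻¹ * v' * (a : G) * g = (a : G)⁻¹ * (h * g) * (a : G) := by
    calc (a : G)⁻¹ * v' * (a : G) * g
        = (a : G)⁻¹ * v' * (a : G) * ((a : G)⁻¹ * u * (a : G)) := by rw [hxu]
      _ = (a : G)⁻¹ * (v' * u) * (a : G) := by group
      _ = _ := by rw [hy]
  have hc2 : g * ((a : G)⁻¹ * v' * (a : G)) = (a : G)⁻¹ * (h * g) * (a : G) := by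
    calc g * ((a : G)⁻¹ * v' * (a : G))
        = ((a : G)⁻¹ * u * (a : G)) * ((a : G)⁻¹ * v' * (a : G)) := by rw [hxu]
      _ = (a : G)⁻¹ * (u * v') * (a : G) := by group
      _ = _ := by rw [hy']
  refine ⟨(a : G)⁻¹, H.inv_mem haH, (a : G)⁻¹ * v' * (a : G),
    H.mul_mem (H.mul_mem (H.inv_mem haH) hv'H) haH, hc1.trans hc2.symm, ?_⟩
  rw [inv_inv]; exact hc1.symm

end Cfsg.Agent.S1496
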