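import Cfsg.Statements.S1499
import Mathlib
import Cfsg.Agent.Lib_helper3_Dade

set_option autoImplicit false
open Cfsg

namespace Cfsg.Agent.S1499

/-- Under the Dade hypothesis for (A, L, H), let a, b ∈ A. If an element of the coset a·H(a) is conjugate in G to an element of b·H(b), then a and b are conjugate by an element of L. Moreover the set normaliser of the coset a·H(a) is the centraliser of a. -/
theorem result {G : Type*} [Group G] [Finite G] (A : Set G) (L : Subgroup G) (H : G → Subgroup G) (hD : Cfsg.DadeHypothesis A L H) (a b : G) (ha : a ∈ A) (hb : b ∈ A) : ((∃ u ∈ H a, ∃ v ∈ H b, ∃ g : G, g * (a * u) * g⁻¹ = b * v) → ∃ x ∈ L, x * a * x⁻¹ = b) ∧ Subgroup.normalizer ((fun u : G => a * u) '' (H a : Set G)) = Subgroup.centralizer ({a} : Set G) := by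
  constructor
  · rintro ⟨u, hu, v, hv, g, hg⟩
    obtain ⟨h1, -⟩ := Cfsg.Agent.Lib_helper3_Dade.conj_eq_of_conj_mul hD ha hb hu hv hg
    obtain ⟨x, hx, hxa⟩ := hD.fusion a ha g (by rw [h1]; exact hb)
    exact ⟨x, hx, by rw [hxa, h1]⟩
  · ext g
    rw [Subgroup.mem_set_normalizer_iff, Subgroup.mem_centralizer_iff]
    constructor
    · intro hg z hz
      rw [Set.mem_singleton_iff] at hz
      rw [hz]
      have h1 : a ∈ (fun u : G => a * u) '' (H a : Set G) := ⟨1, (H a).one_mem, mul_one a⟩
      obtain ⟨u, hu, hgu⟩ := (hg a).mp h1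
      have h2 : g * (a * 1) * g⁻¹ = a * u := by
        rw [mul_one]
        exact hgu.symm
      obtain ⟨h3, -⟩ := Cfsg.Agent.Lib_helper3_Dade.conj_eq_of_conj_mul hD ha ha
        (H a).one_mem hu h2
      calc a * g = g * a * g⁻¹ * g := by rw [h3]
        _ = g * a := by group
    · intro hg n
      have hga : g * a * g⁻¹ = a := by
        have h1 := hg a (Set.mem_singleton a)
        calc g * a * g⁻¹ = a * g * g⁻¹ := by rw [h1]
          _ = a := by group
      have hgc : g ∈ Subgroup.centralizer ({a} : Set G) := by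
        rw [Subgroup.mem_centralizer_iff]
        exact hg
      constructor
      · rintro ⟨u, hu, rfl⟩
        refine ⟨g * u * g⁻¹, hD.conj_mem_H a ha g hgc u hu, ?_⟩
        show a * (g * u * g⁻¹) = g * (a * u) * g⁻¹
        calc a * (g * u * g⁻¹) = (g * a * g⁻¹) * (g * u * g⁻¹) := by rw [hga]
          _ = g * (a * u) * g⁻¹ := by group
      · rintro ⟨u, hu, hgu⟩
        have hgu' : a * u = g * n * g⁻¹ := hgu
        refine ⟨g⁻¹ * u * g, ?_, ?_⟩
        · have h1 := hD.conj_mem_H a ha g⁻¹ ((Subgroup.centralizer _).inv_mem hgc) u hu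
          simpa using h1
        · show a * (g⁻¹ * u * g) = n
          have hga' : g⁻¹ * a * g = a := by
            calc g⁻¹ * a * g = g⁻¹ * (g * a * g⁻¹) * g := by rw [hga]
              _ = a := by group
          calc a * (g⁻¹ * u * g) = (g⁻¹ * a * g) * (g⁻¹ * u * g) := by rw [hga']
            _ = g⁻¹ * (a * u) * g := by group
            _ = g⁻¹ * (g * n * g⁻¹) * g := by rw [hgu']
            _ = n := by group
end Cfsg.Agent.S1499
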