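import Cfsg.Statements.S1500
import Mathlib
import Cfsg.Agent.Lib_helper3_Dade2

set_option autoImplicit false
open Cfsg

namespace Cfsg.Agent.S1500

/-- Under the Dade hypothesis for (A, L, H), let α be a class function of L vanishing outside A. Then (i) for every class function β of L vanishing outside A, the inner product over G of the Dade images of α and β equals the inner product of α and β over L; and (ii) for every class function χ of G and every function ψ on L whose value at each a ∈ A is the average of χ over the coset a·H(a), the inner product over G of the Dade image of α with χ equals the inner product over L of α with ψ. -/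
theorem result {G : Type*} [Group G] [Fintype G] (A : Set G) (L : Subgroup G) [Fintype L] (H : G → Subgroup G) (hD : Cfsg.DadeHypothesis A L H) (α : L → ℂ) (hα : Cfsg.IsClassFunction L α) (hαA : ∀ x : L, (x : G) ∉ A → α x = 0) : (∀ β : L → ℂ, Cfsg.IsClassFunction L β → (∀ x : L, (x : G) ∉ A → β x = 0) → Cfsg.classInner (Cfsg.dadeIsometry A L H α) (Cfsg.dadeIsometry A L H β) = Cfsg.classInner α β) ∧ (∀ (χ : G → ℂ) (ψ : L → ℂ), Cfsg.IsClassFunction G χ → (∀ a : L, (a : G) ∈ A → ψ a = (Nat.card (H a) : ℂ)⁻¹ * ∑ᶠ u ∈ (H a : Set G), χ (a * u)) → Cfsg.classInner (Cfsg.dadeIsometry A L H α) χ = Cfsg.classInner α ψ) := by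
  classical
  have hfin : ∀ (a : G) (F : G → ℂ), ∑ᶠ u ∈ (H a : Set G), F u = ∑ u : H a, F u := by
    intro a F
    rw [← finsum_set_coe_eq_finsum_mem]
    exact finsum_eq_sum_of_fintype _
  have part2 : ∀ (χ : G → ℂ) (ψ : L → ℂ), Cfsg.IsClassFunction G χ →
      (∀ a : L, (a : G) ∈ A → ψ a = (Nat.card (H a) : ℂ)⁻¹ *
        ∑ᶠ u ∈ (H a : Set G), χ (a * u)) →
      Cfsg.classInner (Cfsg.dadeIsometry A L H α) χ = Cfsg.classInner α ψ := by
    intro χ ψ hχ hψ
    apply Cfsg.Agent.Lib_helper3_Dade2.dade_inner hD α hα hαA χ ψ hχ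
    intro a ha
    rw [hψ a ha, hfin (a : G) (fun u => χ ((a : G) * u))]
  refine ⟨?_, part2⟩
  intro β hβ hβA
  have h1 := part2 (Cfsg.dadeIsometry A L H β)
    (fun a => (Nat.card (H a) : ℂ)⁻¹ *
      ∑ᶠ u ∈ (H a : Set G), Cfsg.dadeIsometry A L H β (a * u))
    (Cfsg.Agent.Lib_helper3_Dade2.isClassFunction_dade hD hβ) (fun a _ => rfl)
  rw [h1, Cfsg.Agent.Lib_helper3_CharBasic.classInner_def,
    Cfsg.Agent.Lib_helper3_CharBasic.classInner_def]
  congr 1
  apply Finset.sum_congr rfl
  intro a _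
  by_cases ha : (a : G) ∈ A
  · congr 2
    rw [hfin (a : G) (fun u => Cfsg.dadeIsometry A L H β ((a : G) * u))]
    have h2 : ∀ u : H (a : G), Cfsg.dadeIsometry A L H β ((a : G) * u) = β a := by
      intro u
      exact Cfsg.Agent.Lib_helper3_Dade2.dade_eq hD hβ _ a ha ⟨1, u, u.2, by simp⟩
    rw [Finset.sum_congr rfl (fun u _ => h2 u), Finset.sum_const, Finset.card_univ, nsmul_eq_mul,
      ← Nat.card_eq_fintype_card]
    have hH0 : (Nat.card (H (a : G)) : ℂ) ≠ 0 := by
      exact_mod_cast (Nat.card_pos (α := H (a : G))).ne'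
    field_simp
  · rw [hαA a ha, zero_mul, zero_mul]
end Cfsg.Agent.S1500
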