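import Cfsg.Statements.S1503
import Cfsg.Agent.Lib_helper3_CharNormal

set_option autoImplicit false
open Cfsg

namespace Cfsg.Agent.S1503
open Cfsg
open Cfsg.Agent.Lib_helper3_CharBasic Cfsg.Agent.Lib_helper3_CharMore
open scoped ComplexConjugate


/-- Let W₁, W₂ ≤ G with W = W₁ ⊔ W₂ and let χ an orthonormal family of irreducible characters of G up to sign, indexed by the linear characters ω of W, with χ_1 = 1, χ_ω = ω on W outside W₁ ∪ W₂, and the induction identity for (1 − φ)(1 − ψ). If θ is an irreducible character of G orthogonal to χ ω for every linear character ω of W, then θ vanishes at every element of W lying outside W₁ ∪ W₂. -/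
theorem result {G : Type*} [Group G] [Fintype G] (W₁ W₂ : Subgroup G) (hW : Cfsg.IsSelfNormalizingCyclic W₁ W₂) (χ : (↥(W₁ ⊔ W₂) →* ℂˣ) → (G → ℂ)) (hχ : Cfsg.IsCyclicTIFamily W₁ W₂ χ) (θ : G → ℂ) (hθ : Cfsg.IsIrrCharacter G θ) (horth : ∀ ω, Cfsg.classInner θ (χ ω) = 0) (w : ↥(W₁ ⊔ W₂)) (hw₁ : (w : G) ∉ W₁) (hw₂ : (w : G) ∉ W₂) : θ w = 0 := by
  classical
  obtain ⟨hW1, hW2, hinf, hcomm, hcyc, hnorm⟩ := hW
  haveI := hcyc
  have hfinG := irr_finite (G := G)
  haveI := Fintype.ofFinite (IrrCharacter G)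
  have hcardHom : Nat.card (↥(W₁ ⊔ W₂) →* ℂˣ) = Nat.card ↥(W₁ ⊔ W₂) := by
    letI : CommGroup ↥(W₁ ⊔ W₂) := IsCyclic.commGroup
    haveI : NeZero (Monoid.exponent ↥(W₁ ⊔ W₂)) := ⟨Monoid.exponent_ne_zero_of_finite⟩
    exact CommGroup.card_monoidHom_of_hasEnoughRootsOfUnity ↥(W₁ ⊔ W₂) ℂ
  haveI hfinHom : Finite (↥(W₁ ⊔ W₂) →* ℂˣ) := by
    apply Nat.finite_of_card_ne_zero
    rw [hcardHom]
    exact Nat.card_pos.ne'
  haveI := Fintype.ofFinite (↥(W₁ ⊔ W₂) →* ℂˣ)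
  have hNw : Subgroup.normalizer ({(w : G)} : Set G) = W₁ ⊔ W₂ :=
    hnorm {(w : G)} (Set.singleton_subset_iff.mpr ⟨w.2, fun h => h.elim hw₁ hw₂⟩)
      (Set.singleton_nonempty _)
  have hcentW : Subgroup.centralizer ({(w : G)} : Set G) = W₁ ⊔ W₂ := by
    apply le_antisymm
    · intro g hg
      rw [← hNw, Subgroup.mem_set_normalizer_iff]
      intro n
      simp only [Set.mem_singleton_iff]
      have hgw : (w : G) * g = g * w :=
        Subgroup.mem_centralizer_iff.mp hg w (Set.mem_singleton _)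
      have hconj : g * (w : G) * g⁻¹ = w := by
        rw [← hgw]
        group
      constructor
      · rintro rfl
        exact hconj
      · intro h'
        rw [← hconj] at h'
        simpa using h'
    · intro g hg
      rw [Subgroup.mem_centralizer_iff]
      intro y hy
      rw [Set.mem_singleton_iff] at hy
      rw [hy]
      have hc : (⟨g, hg⟩ : ↥(W₁ ⊔ W₂)) * w = w * ⟨g, hg⟩ := by
        letI : CommGroup ↥(W₁ ⊔ W₂) := IsCyclic.commGroup
        exact mul_comm _ _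
      have hc' := congrArg Subtype.val hc
      exact hc'.symm
  have h2 := second_orthogonality (G := G) (w : G) (w : G)
  rw [if_pos (IsConj.refl _), hcentW] at h2
  have h2r : ∑ ζ : IrrCharacter G, ‖(ζ : G → ℂ) w‖ ^ 2 = (Nat.card ↥(W₁ ⊔ W₂) : ℝ) := by
    have h3 : ((∑ ζ : IrrCharacter G, ‖(ζ : G → ℂ) w‖ ^ 2 : ℝ) : ℂ) =
        (Nat.card ↥(W₁ ⊔ W₂) : ℂ) := by
      rw [← h2, Complex.ofReal_sum]
      apply Finset.sum_congr rfl
      intro ζ _
      rw [Complex.mul_conj, Complex.normSq_eq_norm_sq]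
    exact_mod_cast h3
  have hζ : ∀ ω : ↥(W₁ ⊔ W₂) →* ℂˣ, ∃ ζ : IrrCharacter G,
      ((ζ : G → ℂ) = χ ω ∨ (ζ : G → ℂ) = -χ ω) := by
    intro ω
    rcases hχ.irr_or_neg ω with h | h
    · exact ⟨⟨χ ω, h⟩, Or.inl rfl⟩
    · exact ⟨⟨-χ ω, h⟩, Or.inr rfl⟩
  choose Z hZ using hζ
  have hZnorm : ∀ ω, ‖(Z ω : G → ℂ) w‖ ^ 2 = 1 := by
    intro ω
    have hval : χ ω w = (ω w : ℂ) := hχ.eq_on ω w hw₁ hw₂
    have hpow : (ω w : ℂ) ^ (Nat.card ↥(W₁ ⊔ W₂)) = 1 := by
      have h1 : (ω w) ^ (Nat.card ↥(W₁ ⊔ W₂)) = 1 := by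
        rw [← map_pow, pow_card_eq_one', map_one]
      have h2 := congrArg Units.val h1
      simpa using h2
    have hn1 : ‖(ω w : ℂ)‖ = 1 :=
      Complex.norm_eq_one_of_pow_eq_one hpow (Nat.card_pos).ne'
    rcases hZ ω with h | h
    · rw [h, hval, hn1]
      norm_num
    · rw [h]
      show ‖-χ ω w‖ ^ 2 = 1
      rw [norm_neg, hval, hn1]
      norm_num
  have hZinj : Function.Injective Z := by
    intro ω ω' hEq
    by_contra hne
    have h0 : classInner (χ ω) (χ ω') = 0 := by rw [hχ.orthonormal ω ω', if_neg hne]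
    have h1 : classInner (χ ω) (χ ω) = 1 := by rw [hχ.orthonormal ω ω, if_pos rfl]
    have h1' : classInner (χ ω') (χ ω') = 1 := by rw [hχ.orthonormal ω' ω', if_pos rfl]
    have hE : (Z ω : G → ℂ) = (Z ω' : G → ℂ) := congrArg Subtype.val hEq
    have hcase : χ ω = χ ω' ∨ χ ω = -χ ω' := by
      rcases hZ ω with a | a <;> rcases hZ ω' with b | b
      · left
        rw [← a, ← b, hE]
      · right
        rw [← a, hE, b]
      · right
        rw [← neg_neg (χ ω), ← a, hE, b]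
      · left
        rw [← neg_neg (χ ω), ← a, hE, b, neg_neg]
    rcases hcase with c | c
    · rw [← c, h1] at h0
      exact one_ne_zero h0
    · rw [c, classInner_neg_left, h1'] at h0
      norm_num at h0
  have hθZ : ∀ ω, (⟨θ, hθ⟩ : IrrCharacter G) ≠ Z ω := by
    intro ω hEq
    have hE : θ = (Z ω : G → ℂ) := congrArg Subtype.val hEq
    have h1 : classInner (χ ω) (χ ω) = 1 := by rw [hχ.orthonormal ω ω, if_pos rfl]
    have h0 := horth ω
    rcases hZ ω with a | a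
    · rw [hE, a, h1] at h0
      exact one_ne_zero h0
    · rw [hE, a, classInner_neg_left, h1] at h0
      norm_num at h0
  have hnotin : (⟨θ, hθ⟩ : IrrCharacter G) ∉ Finset.univ.image Z := by
    intro hmem
    obtain ⟨ω, _, hω⟩ := Finset.mem_image.mp hmem
    exact hθZ ω hω.symm
  have hle : ∑ ζ ∈ insert (⟨θ, hθ⟩ : IrrCharacter G) (Finset.univ.image Z),
      ‖(ζ : G → ℂ) w‖ ^ 2 ≤ ∑ ζ : IrrCharacter G, ‖(ζ : G → ℂ) w‖ ^ 2 :=
    Finset.sum_le_sum_of_subset_of_nonneg (Finset.subset_univ _) (fun _ _ _ => by positivity)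
  have hsumS : ∑ ζ ∈ insert (⟨θ, hθ⟩ : IrrCharacter G) (Finset.univ.image Z),
      ‖(ζ : G → ℂ) w‖ ^ 2 = ‖θ w‖ ^ 2 + (Nat.card ↥(W₁ ⊔ W₂) : ℝ) := by
    rw [Finset.sum_insert hnotin, Finset.sum_image (fun a _ b _ h => hZinj h)]
    congr 1
    rw [Finset.sum_congr rfl (fun ω _ => hZnorm ω), Finset.sum_const, Finset.card_univ,
      nsmul_eq_mul, mul_one, ← hcardHom, Nat.card_eq_fintype_card]
  rw [hsumS, h2r] at hle
  have hz : ‖θ w‖ ^ 2 ≤ 0 := by linarith
  have hz' : ‖θ w‖ ^ 2 = 0 := le_antisymm hz (sq_nonneg _)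
  exact norm_eq_zero.mp ((pow_eq_zero_iff (by norm_num : (2 : ℕ) ≠ 0)).mp hz')
end Cfsg.Agent.S1503
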