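import Cfsg.Statements.S1509
import Mathlib
import Cfsg.Agent.Lib_helper3_CharMore

set_option autoImplicit false
open Cfsg

namespace Cfsg.Agent.S1509

theorem aux {X : Type*} [Group X] [Fintype X] (εa εb εc εd : ℂ) (ha : εa * εa = 1)
    (hb : εb * εb = 1) (hc : εc * εc = 1) (hd : εd * εd = 1) (a b c d : X → ℂ)
    (hia : Cfsg.IsIrrCharacter X a) (hib : Cfsg.IsIrrCharacter X b)
    (hic : Cfsg.IsIrrCharacter X c) (hid : Cfsg.IsIrrCharacter X d) (u v : ℂ) (hu : u ≠ 0)
    (hv : v ≠ 0) (hab : a ≠ b) (hcd : c ≠ d)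
    (hmix : u * (εa * εc * Cfsg.classInner a c) - v * (εa * εd * Cfsg.classInner a d) -
      u * (εb * εc * Cfsg.classInner b c) + v * (εb * εd * Cfsg.classInner b d) = 0)
    (h1 : εa * a 1 = εb * b 1) (h2 : u * (εc * c 1) = v * (εd * d 1)) : a ≠ c := by
  intro hac
  subst hac
  rw [Cfsg.Agent.Lib_helper3_CharBasic.irr_inner_self hia,
    Cfsg.Agent.Lib_helper3_CharBasic.irr_inner_ne hia hid hcd,
    Cfsg.Agent.Lib_helper3_CharBasic.irr_inner_ne hib hia (Ne.symm hab)] at hmix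
  have hεac : εa * εc ≠ 0 := by
    intro h0
    have h3 : (εa * εc) * (εa * εc) = 1 := by linear_combination εc * εc * ha + hc
    rw [h0, mul_zero] at h3
    exact zero_ne_one h3
  have hεbd : εb * εd ≠ 0 := by
    intro h0
    have h3 : (εb * εd) * (εb * εd) = 1 := by linear_combination εd * εd * hb + hd
    rw [h0, mul_zero] at h3
    exact zero_ne_one h3
  by_cases hbd : b = d
  · subst hbd
    rw [Cfsg.Agent.Lib_helper3_CharBasic.irr_inner_self hib] at hmix
    have hb1 := Cfsg.Agent.Lib_helper3_CharMore.irr_apply_one_ne_zero hib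
    have e1 : a 1 = εa * εb * b 1 := by linear_combination εa * h1 - a 1 * ha
    have e2 : (u * εa * εb * εc - v * εd) * b 1 = 0 := by
      rw [e1] at h2
      linear_combination h2
    have e3 : u * εa * εb * εc = v * εd := by
      rcases mul_eq_zero.mp e2 with h | h
      · linear_combination h
      · exact absurd h hb1
    have e4 : u * εa * εc = v * εb * εd := by
      linear_combination εb * e3 - u * εa * εc * hb
    have e5 : v * (εb * εd) = 0 := by linear_combination (1 / 2 : ℂ) * hmix - (1 / 2 : ℂ) * e4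
    rcases mul_eq_zero.mp e5 with h | h
    · exact hv h
    · exact hεbd h
  · rw [Cfsg.Agent.Lib_helper3_CharBasic.irr_inner_ne hib hid hbd] at hmix
    have e5 : u * (εa * εc) = 0 := by linear_combination hmix
    rcases mul_eq_zero.mp e5 with h | h
    · exact hu h
    · exact hεac h

theorem signed {X : Type*} [Group X] (α : X → ℂ)
    (hα : Cfsg.IsIrrCharacter X α ∨ Cfsg.IsIrrCharacter X (-α)) :
    ∃ (ε : ℂ) (a : X → ℂ), ε * ε = 1 ∧ (starRingEnd ℂ) ε = ε ∧ Cfsg.IsIrrCharacter X a ∧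
      α = ε • a := by
  rcases hα with h | h
  · exact ⟨1, α, by simp, by simp, h, by simp⟩
  · exact ⟨-1, -α, by simp, by simp, h, by simp⟩

/-- Let α, β, γ, δ be functions on a finite group X each of which is an irreducible character or the negative of one, and u, v nonzero real numbers. Suppose ⟨α, β⟩ = ⟨γ, δ⟩ = 0, ⟨α − β, uγ − vδ⟩ = 0, α 1 = β 1 and u γ 1 = v δ 1. Then also ⟨α, γ⟩ = ⟨α, δ⟩ = ⟨β, γ⟩ = ⟨β, δ⟩ = 0. -/
theorem result {X : Type*} [Group X] [Fintype X] (α β γ δ : X → ℂ) (hα : Cfsg.IsIrrCharacter X α ∨ Cfsg.IsIrrCharacter X (-α)) (hβ : Cfsg.IsIrrCharacter X β ∨ Cfsg.IsIrrCharacter X (-β)) (hγ : Cfsg.IsIrrCharacter X γ ∨ Cfsg.IsIrrCharacter X (-γ)) (hδ : Cfsg.IsIrrCharacter X δ ∨ Cfsg.IsIrrCharacter X (-δ)) (u v : ℝ) (hu : u ≠ 0) (hv : v ≠ 0) (hab : Cfsg.classInner α β = 0) (hcd : Cfsg.classInner γ δ = 0) (hmix : Cfsg.classInner (α - β) ((u : ℂ) • γ - (v : ℂ) • δ) = 0) (h1 : α 1 = β 1) (h2 : (u : ℂ) * γ 1 = (v : ℂ) * δ 1) : Cfsg.classInner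 α γ = 0 ∧ Cfsg.classInner α δ = 0 ∧ Cfsg.classInner β γ = 0 ∧ Cfsg.classInner β δ = 0 := by
  obtain ⟨εa, a, ha, hca, hia, rfl⟩ := signed α hα
  obtain ⟨εb, b, hb, hcb, hib, rfl⟩ := signed β hβ
  obtain ⟨εc, c, hc, hcc, hic, rfl⟩ := signed γ hγ
  obtain ⟨εd, d, hd, hcd', hid, rfl⟩ := signed δ hδ
  have hne : ∀ ε : ℂ, ε * ε = 1 → ε ≠ 0 := by
    intro ε h h0
    rw [h0, mul_zero] at h
    exact zero_ne_one h
  have hinner : ∀ (ε η : ℂ) (x y : X → ℂ), (starRingEnd ℂ) η = η →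
      Cfsg.classInner (ε • x) (η • y) = ε * η * Cfsg.classInner x y := by
    intro ε η x y hη
    rw [Cfsg.Agent.Lib_helper3_CharBasic.classInner_smul_left,
      Cfsg.Agent.Lib_helper3_CharBasic.classInner_smul_right, hη]
    ring
  have hab' : a ≠ b := by
    intro h
    rw [hinner εa εb a b hcb, h, Cfsg.Agent.Lib_helper3_CharBasic.irr_inner_self hib,
      mul_one] at hab
    rcases mul_eq_zero.mp hab with h0 | h0
    · exact hne εa ha h0
    · exact hne εb hb h0
  have hcd2 : c ≠ d := by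
    intro h
    rw [hinner εc εd c d hcd', h, Cfsg.Agent.Lib_helper3_CharBasic.irr_inner_self hid,
      mul_one] at hcd
    rcases mul_eq_zero.mp hcd with h0 | h0
    · exact hne εc hc h0
    · exact hne εd hd h0
  have hu' : (u : ℂ) ≠ 0 := by exact_mod_cast hu
  have hv' : (v : ℂ) ≠ 0 := by exact_mod_cast hv
  have hmix' : (u : ℂ) * (εa * εc * Cfsg.classInner a c) -
      (v : ℂ) * (εa * εd * Cfsg.classInner a d) -
      (u : ℂ) * (εb * εc * Cfsg.classInner b c) +
      (v : ℂ) * (εb * εd * Cfsg.classInner b d) = 0 := by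
    have e1 : ∀ (w η : ℂ) (ε : ℂ) (x y : X → ℂ), (starRingEnd ℂ) η = η → (starRingEnd ℂ) w = w →
        Cfsg.classInner (ε • x) (w • η • y) = w * (ε * η * Cfsg.classInner x y) := by
      intro w η ε x y hη hw
      rw [Cfsg.Agent.Lib_helper3_CharBasic.classInner_smul_right, hw, hinner ε η x y hη]
    rw [Cfsg.Agent.Lib_helper3_CharBasic.classInner_sub_left,
      Cfsg.Agent.Lib_helper3_CharBasic.classInner_sub_right,
      Cfsg.Agent.Lib_helper3_CharBasic.classInner_sub_right,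
      e1 _ _ _ _ _ hcc (Complex.conj_ofReal u), e1 _ _ _ _ _ hcd' (Complex.conj_ofReal v),
      e1 _ _ _ _ _ hcc (Complex.conj_ofReal u), e1 _ _ _ _ _ hcd' (Complex.conj_ofReal v)] at hmix
    linear_combination hmix
  have h1' : εa * a 1 = εb * b 1 := by
    simpa [Pi.smul_apply, smul_eq_mul] using h1
  have h2' : (u : ℂ) * (εc * c 1) = (v : ℂ) * (εd * d 1) := by
    simpa [Pi.smul_apply, smul_eq_mul] using h2
  have hac : a ≠ c := aux εa εb εc εd ha hb hc hd a b c d hia hib hic hid u v hu' hv' hab' hcd2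
    hmix' h1' h2'
  have had : a ≠ d := aux εa εb εd εc ha hb hd hc a b d c hia hib hid hic v u hv' hu' hab'
    (Ne.symm hcd2) (by linear_combination -hmix') h1' h2'.symm
  have hbc : b ≠ c := aux εb εa εc εd hb ha hc hd b a c d hib hia hic hid u v hu' hv'
    (Ne.symm hab') hcd2 (by linear_combination -hmix') h1'.symm h2'
  have hbd : b ≠ d := aux εb εa εd εc hb ha hd hc b a d c hib hia hid hic v u hv' hu'
    (Ne.symm hab') (Ne.symm hcd2) (by linear_combination hmix') h1'.symm h2'.symm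
  refine ⟨?_, ?_, ?_, ?_⟩
  · rw [hinner εa εc a c hcc, Cfsg.Agent.Lib_helper3_CharBasic.irr_inner_ne hia hic hac, mul_zero]
  · rw [hinner εa εd a d hcd', Cfsg.Agent.Lib_helper3_CharBasic.irr_inner_ne hia hid had,
      mul_zero]
  · rw [hinner εb εc b c hcc, Cfsg.Agent.Lib_helper3_CharBasic.irr_inner_ne hib hic hbc, mul_zero]
  · rw [hinner εb εd b d hcd', Cfsg.Agent.Lib_helper3_CharBasic.irr_inner_ne hib hid hbd,
      mul_zero]
end Cfsg.Agent.S1509
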