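import Cfsg.Statements.S1528
import Cfsg.Agent.Lib_helper3_CharNormal

set_option autoImplicit false
open Cfsg

namespace Cfsg.Agent.S1528
open Cfsg
open Cfsg.Agent.Lib_helper3_CharBasic Cfsg.Agent.Lib_helper3_CharMore
open Cfsg.Agent.Lib_helper3_CharInd Cfsg.Agent.Lib_helper3_CharNormal
open scoped ComplexConjugate


/-- Let N be a normal subgroup of the finite group G such that every element of G commuting with a non-identity element of N lies in N. If χ is an irreducible character of G with χ n ≠ χ 1 for some n ∈ N, then χ is the function induced from some irreducible character of N. -/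
theorem result {G : Type*} [Group G] [Fintype G] (N : Subgroup G) [N.Normal] (hC : ∀ n ∈ N, n ≠ 1 → Subgroup.centralizer ({n} : Set G) ≤ N) (χ : G → ℂ) (hχ : Cfsg.IsIrrCharacter G χ) (hker : ∃ n ∈ N, χ n ≠ χ 1) : ∃ φ : N → ℂ, Cfsg.IsIrrCharacter N φ ∧ χ = Cfsg.indFun N φ := by
  classical
  haveI : Fintype N := Fintype.ofFinite N
  have hfinI := irr_finite (G := N)
  have := Fintype.ofFinite (IrrCharacter N)
  have hNn : N.Normal := inferInstance
  have hχcf := isClassFunction_of_irr hχ
  have hχNcf : IsClassFunction N (fun n : N => χ n) :=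
    isClassFunction_of_isCharacter (isCharacter_restrict N (isCharacter_of_irr hχ))
  have hex : ∃ φ : IrrCharacter N, classInner (fun n : N => χ n) (φ : N → ℂ) ≠ 0 ∧
      (φ : N → ℂ) ≠ (fun _ => 1) := by
    by_contra hcon
    push_neg at hcon
    obtain ⟨n, hn, hne⟩ := hker
    apply hne
    have h1 := classFunction_eq_sum_apply (fun n : N => χ n) hχNcf ⟨n, hn⟩
    have h2 := classFunction_eq_sum_apply (fun n : N => χ n) hχNcf 1
    have h3 : ∀ φ : IrrCharacter N,
        classInner (fun n : N => χ n) (φ : N → ℂ) * (φ : N → ℂ) ⟨n, hn⟩ =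
        classInner (fun n : N => χ n) (φ : N → ℂ) * (φ : N → ℂ) 1 := by
      intro φ
      by_cases h0 : classInner (fun n : N => χ n) (φ : N → ℂ) = 0
      · rw [h0, zero_mul, zero_mul]
      · have hh := hcon φ h0
        rw [hh]
    have h4 : χ ((⟨n, hn⟩ : N) : G) = χ ((1 : N) : G) := by
      rw [h1, h2]
      exact Finset.sum_congr rfl (fun φ _ => h3 φ)
    exact h4
  obtain ⟨φ, hφ0, hφ1⟩ := hex
  have hstab : ∀ x : G, Lib_helper3_CharNormal.conjFun N x (φ : N → ℂ) = (φ : N → ℂ) → x ∈ N := by
    intro x hx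
    by_contra hxN
    let c : N → N := fun n => ⟨x * n * x⁻¹, hNn.conj_mem n n.2 x⟩
    have hcf : ∀ (ψ : N → ℂ) (n : N), Lib_helper3_CharNormal.conjFun N x ψ n = ψ (c n) := fun _ _ => rfl
    have hc1 : c 1 = 1 := Subtype.ext (by simp [c])
    have hcard1 : Nat.card (Subgroup.centralizer ({(1 : N)} : Set N)) = Nat.card N := by
      have : Subgroup.centralizer ({(1 : N)} : Set N) = ⊤ := by
        ext y
        simp [Subgroup.mem_centralizer_iff]
      rw [this, Subgroup.card_top]
    have hterm : ∀ n : N, ∑ ψ : IrrCharacter N,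
        Lib_helper3_CharNormal.conjFun N x (ψ : N → ℂ) n * conj ((ψ : N → ℂ) n) =
        if n = 1 then (Nat.card N : ℂ) else 0 := by
      intro n
      have h2 := second_orthogonality (G := N) n (c n)
      simp only [hcf]
      rw [h2]
      by_cases hn1 : n = 1
      · have hA : IsConj n (c n) := by
          rw [hn1, hc1]
        rw [if_pos hA, if_pos hn1, hn1, hcard1]
      · have hA : ¬ IsConj n (c n) := by
          intro hconj
          obtain ⟨m, hm⟩ := isConj_iff.mp hconj
          have hm' : (m : G) * n * (m : G)⁻¹ = x * n * x⁻¹ := congrArg Subtype.val hm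
          have hn1' : (n : G) ≠ 1 := fun h => hn1 (Subtype.ext h)
          have hcen : (m : G)⁻¹ * x ∈ Subgroup.centralizer ({(n : G)} : Set G) := by
            rw [Subgroup.mem_centralizer_iff]
            intro y hy
            rw [Set.mem_singleton_iff] at hy
            rw [hy]
            have e1 : (m : G)⁻¹ * ((m : G) * n * (m : G)⁻¹) * x = (n : G) * ((m : G)⁻¹ * x) := by
              group
            have e2 : (m : G)⁻¹ * (x * n * x⁻¹) * x = (m : G)⁻¹ * x * n := by group
            rw [← e1, hm', e2]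
          have h6 := hC n n.2 hn1' hcen
          apply hxN
          have h5 : x = (m : G) * ((m : G)⁻¹ * x) := by group
          rw [h5]
          exact N.mul_mem m.2 h6
        rw [if_neg hA, if_neg hn1]
    have hsum : ∑ ψ : IrrCharacter N,
        classInner (Lib_helper3_CharNormal.conjFun N x (ψ : N → ℂ)) (ψ : N → ℂ) = 1 := by
      simp only [classInner_def]
      rw [← Finset.mul_sum, Finset.sum_comm]
      simp only [hterm, Finset.sum_ite_eq', Finset.mem_univ, if_true]
      exact inv_mul_cancel₀ (Nat.cast_ne_zero.mpr (Nat.card_pos (α := N)).ne')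
    have hterm2 : ∀ ψ : IrrCharacter N,
        classInner (Lib_helper3_CharNormal.conjFun N x (ψ : N → ℂ)) (ψ : N → ℂ) =
        if Lib_helper3_CharNormal.conjFun N x (ψ : N → ℂ) = (ψ : N → ℂ) then 1 else 0 := by
      intro ψ
      rw [irr_orthonormal (isIrrCharacter_conjFun N x ψ.2) ψ.2]
    simp only [hterm2] at hsum
    rw [← Finset.sum_filter, Finset.sum_const, nsmul_eq_mul, mul_one] at hsum
    have hcard : (Finset.univ.filter
        (fun ψ : IrrCharacter N => Lib_helper3_CharNormal.conjFun N x (ψ : N → ℂ) = (ψ : N → ℂ))).card = 1 := by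
      exact_mod_cast hsum
    have hone : (⟨fun _ => 1, isIrrCharacter_one⟩ : IrrCharacter N) ∈ Finset.univ.filter
        (fun ψ : IrrCharacter N => Lib_helper3_CharNormal.conjFun N x (ψ : N → ℂ) = (ψ : N → ℂ)) :=
      Finset.mem_filter.mpr ⟨Finset.mem_univ _, rfl⟩
    have hφm : φ ∈ Finset.univ.filter
        (fun ψ : IrrCharacter N => Lib_helper3_CharNormal.conjFun N x (ψ : N → ℂ) = (ψ : N → ℂ)) :=
      Finset.mem_filter.mpr ⟨Finset.mem_univ _, hx⟩
    obtain ⟨a, ha⟩ := Finset.card_eq_one.mp hcard
    rw [ha] at hone hφm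
    have e1 := Finset.mem_singleton.mp hone
    have e2 := Finset.mem_singleton.mp hφm
    apply hφ1
    rw [e2, ← e1]
  have hirr := isIrrCharacter_indFun_of_stab N (φ : N → ℂ) φ.2 hstab
  refine ⟨φ, φ.2, ?_⟩
  have hfr := frobenius_reciprocity N (φ : N → ℂ) χ hχcf
  have hne : classInner (indFun N (φ : N → ℂ)) χ ≠ 0 := by
    rw [hfr]
    intro h0
    apply hφ0
    rw [← classInner_conj_symm, h0, map_zero]
  by_contra hneq
  exact hne (irr_inner_ne hirr hχ (fun h => hneq h.symm))
end Cfsg.Agent.S1528
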