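import Cfsg.Statements.S1536
import Cfsg.Agent.Lib_helper3_CharNormal
import Cfsg.Agent.Lib_helper9_StabCl

set_option autoImplicit false
open Cfsg

namespace Cfsg.Agent.S1536
open Cfsg
open Cfsg.Agent.Lib_helper3_CharBasic Cfsg.Agent.Lib_helper3_CharMore
open Cfsg.Agent.Lib_helper3_CharInd Cfsg.Agent.Lib_helper3_CharNormal
open scoped ComplexConjugate


/-- Let H be a normal subgroup of the finite group M whose order is coprime to its index. For x ∈ M: some non-principal irreducible character of H is unchanged under h ↦ θ(x h x⁻¹) if and only if some non-identity element of H commutes with x. -/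
theorem result {M : Type*} [Group M] [Finite M] (H : Subgroup M) [hN : H.Normal] (hHall : Nat.Coprime (Nat.card H) H.index) (x : M) : (∃ θ : H → ℂ, Cfsg.IsIrrCharacter H θ ∧ θ ≠ (fun _ => 1) ∧ (fun h : H => θ ⟨x * h * x⁻¹, hN.conj_mem h h.2 x⟩) = θ) ↔ ∃ h ∈ H, h ≠ 1 ∧ x * h = h * x := by
  classical
  haveI : Fintype H := Fintype.ofFinite H
  have hfinI := irr_finite (G := H)
  have := Fintype.ofFinite (IrrCharacter H)
  let c : H → H := fun n => ⟨x * n * x⁻¹, hN.conj_mem n n.2 x⟩
  have hcf : ∀ (ψ : H → ℂ) (n : H), Lib_helper3_CharNormal.conjFun H x ψ n = ψ (c n) :=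
    fun _ _ => rfl
  have hc1 : c 1 = 1 := Subtype.ext (by simp [c])
  have hcard1 : Nat.card (Subgroup.centralizer ({(1 : H)} : Set H)) = Nat.card H := by
    have : Subgroup.centralizer ({(1 : H)} : Set H) = ⊤ := by
      ext y
      simp [Subgroup.mem_centralizer_iff]
    rw [this, Subgroup.card_top]
  have hsumF : ∃ F : Finset (IrrCharacter H),
      (∀ ψ : IrrCharacter H, ψ ∈ F ↔
        Lib_helper3_CharNormal.conjFun H x (ψ : H → ℂ) = (ψ : H → ℂ)) ∧
      Nat.card H * F.card = ∑ n : H,
        (if IsConj n (c n) then Nat.card (Subgroup.centralizer ({n} : Set H)) else 0) := by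
    refine ⟨Finset.univ.filter (fun ψ : IrrCharacter H =>
      Lib_helper3_CharNormal.conjFun H x (ψ : H → ℂ) = (ψ : H → ℂ)), fun ψ => by simp, ?_⟩
    have hterm : ∀ n : H, ∑ ψ : IrrCharacter H,
        Lib_helper3_CharNormal.conjFun H x (ψ : H → ℂ) n * conj ((ψ : H → ℂ) n) =
        ((if IsConj n (c n) then Nat.card (Subgroup.centralizer ({n} : Set H)) else 0 : ℕ) : ℂ) := by
      intro n
      have h2 := second_orthogonality (G := H) n (c n)
      simp only [hcf]
      rw [h2]
      by_cases hA : IsConj n (c n)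
      · rw [if_pos hA, if_pos hA]
      · rw [if_neg hA, if_neg hA, Nat.cast_zero]
    have hsum : ∑ ψ : IrrCharacter H,
        classInner (Lib_helper3_CharNormal.conjFun H x (ψ : H → ℂ)) (ψ : H → ℂ) =
        (Nat.card H : ℂ)⁻¹ * ((∑ n : H,
          (if IsConj n (c n) then Nat.card (Subgroup.centralizer ({n} : Set H)) else 0 : ℕ) : ℕ) : ℂ) := by
      simp only [classInner_def]
      rw [← Finset.mul_sum, Finset.sum_comm]
      simp only [hterm]
      rw [Nat.cast_sum]
    have hterm2 : ∀ ψ : IrrCharacter H,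
        classInner (Lib_helper3_CharNormal.conjFun H x (ψ : H → ℂ)) (ψ : H → ℂ) =
        if Lib_helper3_CharNormal.conjFun H x (ψ : H → ℂ) = (ψ : H → ℂ) then 1 else 0 := by
      intro ψ
      rw [irr_orthonormal (isIrrCharacter_conjFun H x ψ.2) ψ.2]
    simp only [hterm2] at hsum
    rw [← Finset.sum_filter, Finset.sum_const, nsmul_eq_mul, mul_one] at hsum
    have hH0 : (Nat.card H : ℂ) ≠ 0 := Nat.cast_ne_zero.mpr (Nat.card_pos (α := H)).ne'
    have h3 : ((Nat.card H * (Finset.univ.filter (fun ψ : IrrCharacter H =>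
        Lib_helper3_CharNormal.conjFun H x (ψ : H → ℂ) = (ψ : H → ℂ))).card : ℕ) : ℂ) =
        ((∑ n : H, (if IsConj n (c n) then Nat.card (Subgroup.centralizer ({n} : Set H)) else 0 : ℕ) : ℕ) : ℂ) := by
      rw [Nat.cast_mul, hsum, ← mul_assoc, mul_inv_cancel₀ hH0, one_mul]
    exact_mod_cast h3
  obtain ⟨F, hFmem, key⟩ := hsumF
  have hone : (⟨fun _ => 1, isIrrCharacter_one⟩ : IrrCharacter H) ∈ F :=
    (hFmem ⟨fun _ => 1, isIrrCharacter_one⟩).mpr rfl
  have hHpos : 0 < Nat.card H := Nat.card_pos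
  have hA1 : IsConj (1 : H) (c 1) := by rw [hc1]
  constructor
  · rintro ⟨θ, hθ, hθ1, hθx⟩
    by_contra hno
    push_neg at hno
    have hx0 : x ^ H.index = 1 := by
      by_contra h1
      exact hno _ (H.pow_index_mem x) h1 (by rw [← pow_succ', ← pow_succ])
    have hdvd : orderOf x ∣ H.index := orderOf_dvd_of_pow_eq_one hx0
    have hcop : Nat.Coprime (orderOf x) (Nat.card H) :=
      Nat.Coprime.coprime_dvd_left hdvd hHall.symm
    have hnc : ∀ n : H, n ≠ 1 → ¬ IsConj n (c n) := by
      intro n hn1 hconj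
      obtain ⟨m, hm⟩ := isConj_iff.mp hconj
      have hm' : (m : M) * n * (m : M)⁻¹ = x * n * x⁻¹ := congrArg Subtype.val hm
      obtain ⟨m', hm'H, hfix⟩ :=
        Lib_helper9_StabCl.stable_class H x hcop (n : M) (m : M) m.2 hm'.symm
      refine hno (m' * n * m'⁻¹) ?_ ?_ ?_
      · exact H.mul_mem (H.mul_mem hm'H n.2) (H.inv_mem hm'H)
      · intro h1
        apply hn1
        apply Subtype.ext
        have e : (n : M) = m'⁻¹ * (m' * n * m'⁻¹) * m' := by group
        rw [e, h1]
        simp
      · calc x * (m' * n * m'⁻¹) = (x * (m' * n * m'⁻¹) * x⁻¹) * x := by group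
          _ = (m' * n * m'⁻¹) * x := by rw [hfix]
    have hsum1 : ∑ n : H,
        (if IsConj n (c n) then Nat.card (Subgroup.centralizer ({n} : Set H)) else 0) =
        Nat.card H := by
      rw [Finset.sum_eq_single (1 : H)]
      · rw [if_pos hA1, hcard1]
      · intro n _ hn1
        rw [if_neg (hnc n hn1)]
      · intro h
        exact absurd (Finset.mem_univ _) h
    rw [hsum1] at key
    have hF1 : F.card = 1 := by
      have h5 : Nat.card H * F.card = Nat.card H * 1 := by rw [key, mul_one]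
      exact Nat.eq_of_mul_eq_mul_left hHpos h5
    have hθm : (⟨θ, hθ⟩ : IrrCharacter H) ∈ F := (hFmem ⟨θ, hθ⟩).mpr hθx
    obtain ⟨a, ha⟩ := Finset.card_eq_one.mp hF1
    rw [ha] at hone hθm
    have e1 := Finset.mem_singleton.mp hone
    have e2 := Finset.mem_singleton.mp hθm
    apply hθ1
    have e3 := congrArg Subtype.val (e2.trans e1.symm)
    exact e3
  · rintro ⟨h, hh, hh1, hcomm⟩
    by_contra hno
    push_neg at hno
    have hFle : F.card ≤ 1 := by
      apply Finset.card_le_one.mpr
      intro a ha b hb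
      have ha' := (hFmem a).mp ha
      have hb' := (hFmem b).mp hb
      have ha1 : (a : H → ℂ) = fun _ => 1 := by
        by_contra hne
        exact hno a.1 a.2 hne ha'
      have hb1 : (b : H → ℂ) = fun _ => 1 := by
        by_contra hne
        exact hno b.1 b.2 hne hb'
      exact Subtype.ext (ha1.trans hb1.symm)
    have hne : (1 : H) ≠ ⟨h, hh⟩ := by
      intro e
      apply hh1
      have e' := congrArg Subtype.val e
      exact e'.symm
    have hch : c ⟨h, hh⟩ = ⟨h, hh⟩ := by
      apply Subtype.ext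
      show x * h * x⁻¹ = h
      rw [hcomm]
      group
    have hAh : IsConj (⟨h, hh⟩ : H) (c ⟨h, hh⟩) := by rw [hch]
    have hge : Nat.card H + Nat.card (Subgroup.centralizer ({(⟨h, hh⟩ : H)} : Set H)) ≤
        ∑ n : H, (if IsConj n (c n) then Nat.card (Subgroup.centralizer ({n} : Set H)) else 0) := by
      have hsub : ({1, ⟨h, hh⟩} : Finset H) ⊆ Finset.univ := Finset.subset_univ _
      have h7 := Finset.sum_le_sum_of_subset (f := fun n : H =>
        if IsConj n (c n) then Nat.card (Subgroup.centralizer ({n} : Set H)) else 0) hsub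
      rw [Finset.sum_pair hne] at h7
      simp only [if_pos hA1, if_pos hAh, hcard1] at h7
      exact h7
    have hpos : 0 < Nat.card (Subgroup.centralizer ({(⟨h, hh⟩ : H)} : Set H)) := Nat.card_pos
    have h8 : Nat.card H * F.card ≤ Nat.card H * 1 := Nat.mul_le_mul_left _ hFle
    omega
end Cfsg.Agent.S1536
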