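import Cfsg.Statements.S1546


set_option autoImplicit false
open Cfsg

namespace Cfsg.Agent.S1546

theorem geom_modEq (p d : ℕ) (h : p ≡ 1 [MOD d]) (n : ℕ) :
    (∑ i ∈ Finset.range n, p ^ i) ≡ n [MOD d] := by
  induction n with
  | zero => simp only [Finset.range_zero, Finset.sum_empty]; rfl
  | succ n ih =>
    rw [Finset.sum_range_succ]
    have h1 : p ^ n ≡ 1 [MOD d] := by
      have h2 := h.pow n
      rwa [one_pow] at h2
    exact ih.add h1


/-- Let p and q be odd primes and N = (p ^ q − 1) / (p − 1) = 1 + p + ⋯ + p^(q−1). Then N is odd; if p ≡ 1 (mod q) then q ∣ N; and if p is not ≡ 1 (mod q) then N is coprime to p − 1 and every divisor of N is ≡ 1 (mod q). -/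
theorem result (p q : ℕ) (hp : p.Prime) (hq : q.Prime) (hp2 : p ≠ 2) (hq2 : q ≠ 2) : Odd ((p ^ q - 1) / (p - 1)) ∧ (p % q = 1 → q ∣ (p ^ q - 1) / (p - 1)) ∧ (p % q ≠ 1 → Nat.Coprime ((p ^ q - 1) / (p - 1)) (p - 1) ∧ ∀ x : ℕ, x ∣ (p ^ q - 1) / (p - 1) → x % q = 1) := by
  have hp2' : 2 ≤ p := hp.two_le
  have hp3 : 3 ≤ p := by omega
  have hq3 : 3 ≤ q := by have := hq.two_le; omega
  have hN : (p ^ q - 1) / (p - 1) = ∑ i ∈ Finset.range q, p ^ i := (Nat.geomSum_eq hp2' q).symm
  rw [hN]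
  have hpodd : p % 2 = 1 := (hp.eq_two_or_odd).resolve_left hp2
  have hqodd : q % 2 = 1 := (hq.eq_two_or_odd).resolve_left hq2
  have hodd : Odd (∑ i ∈ Finset.range q, p ^ i) := by
    rw [Nat.odd_iff]
    have h1 := geom_modEq p 2 (by show p % 2 = 1 % 2; rw [hpodd]) q
    have h2 : (∑ i ∈ Finset.range q, p ^ i) % 2 = q % 2 := h1
    rw [h2, hqodd]
  refine ⟨hodd, ?_, ?_⟩
  · intro h
    have h1 := geom_modEq p q (by show p % q = 1 % q; rw [h, Nat.mod_eq_of_lt (by omega)]) q
    have h2 : q ≡ 0 [MOD q] := by show q % q = 0 % q; simp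
    exact (Nat.modEq_zero_iff_dvd).mp (h1.trans h2)
  · intro h
    have hcop : Nat.Coprime (∑ i ∈ Finset.range q, p ^ i) (p - 1) := by
      apply Nat.coprime_of_dvd
      intro r hr h1 h2
      have hp1 : p ≡ 1 [MOD r] := ((Nat.modEq_iff_dvd' (by omega : 1 ≤ p)).mpr h2).symm
      have h3 := geom_modEq p r hp1 q
      have h4 : r ∣ q := by
        have h5 : (∑ i ∈ Finset.range q, p ^ i) ≡ 0 [MOD r] := (Nat.modEq_zero_iff_dvd).mpr h1
        exact (Nat.modEq_zero_iff_dvd).mp (h3.symm.trans h5)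
      have h6 : r = q := (Nat.prime_dvd_prime_iff_eq hr hq).mp h4
      subst h6
      apply h
      have h7 : p % r = 1 % r := hp1
      rw [h7, Nat.mod_eq_of_lt (by omega)]
    refine ⟨hcop, ?_⟩
    have hprime : ∀ r : ℕ, r.Prime → r ∣ ∑ i ∈ Finset.range q, p ^ i → r % q = 1 := by
      intro r hr hrN
      haveI : Fact r.Prime := ⟨hr⟩
      have hz : ((∑ i ∈ Finset.range q, p ^ i : ℕ) : ZMod r) = 0 :=
        (ZMod.natCast_eq_zero_iff _ r).mpr hrN
      push_cast at hz
      have hpow : (p : ZMod r) ^ q = 1 := by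
        have h1 := geom_sum_mul (p : ZMod r) q
        rw [hz, zero_mul] at h1
        exact sub_eq_zero.mp h1.symm
      have hord : orderOf (p : ZMod r) ∣ q := orderOf_dvd_of_pow_eq_one hpow
      rcases (Nat.dvd_prime hq).mp hord with h1 | h1
      · exfalso
        have h2 : (p : ZMod r) = 1 := orderOf_eq_one_iff.mp h1
        have h3 : r ∣ p - 1 := by
          have h4 : ((p - 1 : ℕ) : ZMod r) = 0 := by
            rw [Nat.cast_sub (by omega), h2]; simp
          exact (ZMod.natCast_eq_zero_iff _ r).mp h4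
        have h5 := Nat.dvd_gcd hrN h3
        rw [hcop.gcd_eq_one] at h5
        exact hr.one_lt.ne' (Nat.dvd_one.mp h5)
      · have hp0 : (p : ZMod r) ≠ 0 := by
          intro h0
          rw [h0, zero_pow (by omega)] at hpow
          exact zero_ne_one hpow
        have h2 : (p : ZMod r) ^ (r - 1) = 1 := ZMod.pow_card_sub_one_eq_one hp0
        have h3 : q ∣ r - 1 := by rw [← h1]; exact orderOf_dvd_of_pow_eq_one h2
        obtain ⟨k, hk⟩ := h3
        have hr1 : r = 1 + q * k := by have := hr.one_lt; omega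
        rw [hr1, Nat.add_mul_mod_self_left, Nat.mod_eq_of_lt (by omega)]
    have hN0 : (∑ i ∈ Finset.range q, p ^ i) ≠ 0 := by
      intro h0; rw [h0] at hodd; exact absurd hodd (by decide)
    intro x
    induction x using Nat.strong_induction_on with
    | _ x IH =>
    intro hx
    by_cases hx1 : x = 1
    · rw [hx1, Nat.mod_eq_of_lt (by omega)]
    · have hx0 : x ≠ 0 := by rintro rfl; exact hN0 (Nat.eq_zero_of_zero_dvd hx)
      obtain ⟨r, hr, hrx⟩ := Nat.exists_prime_and_dvd hx1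
      obtain ⟨y, rfl⟩ := hrx
      have hy0 : y ≠ 0 := by rintro rfl; exact hx0 (mul_zero r)
      have hylt : y < r * y := by
        have := hr.two_le
        nlinarith [Nat.pos_of_ne_zero hy0]
      have h1 := IH y hylt ((Dvd.intro_left r rfl).trans hx)
      have h2 := hprime r hr ((Dvd.intro y rfl).trans hx)
      rw [Nat.mul_mod, h1, h2, Nat.mod_eq_of_lt (by omega)]

end Cfsg.Agent.S1546
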