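import Cfsg.Statements.S1588
import Cfsg.Agent.Lib_lead_Frame

set_option autoImplicit false
open Matrix
open Cfsg

namespace Cfsg.Agent.S1588

open Cfsg.Agent.Lib_lead_Frame

/-- Second step of the characterisation: under the vector counts of the rank-24 lattice, the norm-8 vectors fall into congruence classes of exactly 48 modulo twice the lattice. -/
theorem result (B : Matrix (Fin 24) (Fin 24) ℤ) (hsymm : B.IsSymm) (hpos : ∀ x : Fin 24 → ℤ, x ≠ 0 → 0 < x ⬝ᵥ (B *ᵥ x)) (heven : ∀ x : Fin 24 → ℤ, (2 : ℤ) ∣ x ⬝ᵥ (B *ᵥ x)) (h2 : ∀ x : Fin 24 → ℤ, x ⬝ᵥ (B *ᵥ x) ≠ 2) (h4 : {x : Fin 24 → ℤ | x ⬝ᵥ (B *ᵥ x) = 4}.ncard = 196560) (h6 : {x : Fin 24 → ℤ | x ⬝ᵥ (B *ᵥ x) = 6}.ncard = 16773120) (h8 : {x : Fin 24 → ℤ | x ⬝ᵥ (B *ᵥ x) = 8}.ncard = 398034000) (x : Fin 24 → ℤ) (hx : x ⬝ᵥ (B *ᵥ x) = 8) : {y : Fin 24 → ℤ | y ⬝ᵥ (B *ᵥ y) = 8 ∧ ∀ i, (2 : ℤ) ∣ (x - y) i}.ncard = 48 := by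
  classical
  have hf4 : {x : Fin 24 → ℤ | x ⬝ᵥ (B *ᵥ x) = 4}.Finite :=
    Set.finite_of_ncard_ne_zero (by rw [h4]; norm_num)
  have hf6 : {x : Fin 24 → ℤ | x ⬝ᵥ (B *ᵥ x) = 6}.Finite :=
    Set.finite_of_ncard_ne_zero (by rw [h6]; norm_num)
  have hf8 : {x : Fin 24 → ℤ | x ⬝ᵥ (B *ᵥ x) = 8}.Finite :=
    Set.finite_of_ncard_ne_zero (by rw [h8]; norm_num)
  have c4 : hf4.toFinset.card = 196560 := by
    rw [← Set.ncard_eq_toFinset_card _ hf4]; exact h4
  have c6 : hf6.toFinset.card = 16773120 := by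
    rw [← Set.ncard_eq_toFinset_card _ hf6]; exact h6
  have c8 : hf8.toFinset.card = 398034000 := by
    rw [← Set.ncard_eq_toFinset_card _ hf8]; exact h8
  have m4 : ∀ y, y ∈ hf4.toFinset ↔ y ⬝ᵥ (B *ᵥ y) = 4 := fun y => by
    rw [Set.Finite.mem_toFinset]; rfl
  have m6 : ∀ y, y ∈ hf6.toFinset ↔ y ⬝ᵥ (B *ᵥ y) = 6 := fun y => by
    rw [Set.Finite.mem_toFinset]; rfl
  have m8 : ∀ y, y ∈ hf8.toFinset ↔ y ⬝ᵥ (B *ᵥ y) = 8 := fun y => by
    rw [Set.Finite.mem_toFinset]; rfl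
  have key := norm_sum B hsymm hpos heven h2
  have pair : ∀ (F : Finset (Fin 24 → ℤ)) (n : ℤ), 0 < n → n < 8 →
      (∀ y, y ∈ F ↔ y ⬝ᵥ (B *ᵥ y) = n) → F.card = 2 * (F.image cm).card := by
    intro F n hn0 hn8 hF
    rw [Finset.card_eq_sum_card_image cm F, Finset.sum_const_nat (m := 2), mul_comm]
    intro b hb
    obtain ⟨y, hy, rfl⟩ := Finset.mem_image.mp hb
    have hyn := (hF y).mp hy
    have hy0 : y ≠ -y := by
      intro h
      have h0 : y = 0 := by
        funext i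
        have := congrFun h i
        simp only [Pi.neg_apply] at this
        simp only [Pi.zero_apply]
        omega
      rw [h0, zero_dotProduct] at hyn
      omega
    have hfil : F.filter (fun a => cm a = cm y) = {y, -y} := by
      ext a
      simp only [Finset.mem_filter, Finset.mem_insert, Finset.mem_singleton, hF]
      constructor
      · rintro ⟨han, hac⟩
        by_contra hcon
        rw [not_or] at hcon
        have := key y a hac hcon.1 hcon.2
        omega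
      · rintro (rfl | rfl)
        · exact ⟨hyn, rfl⟩
        · exact ⟨by rw [form_neg]; exact hyn, cm_neg y⟩
    rw [hfil, Finset.card_pair hy0]
  have hI4 := pair hf4.toFinset 4 (by norm_num) (by norm_num) m4
  have hI6 := pair hf6.toFinset 6 (by norm_num) (by norm_num) m6
  have dis : ∀ (m n : ℤ) (a b : Fin 24 → ℤ), a ⬝ᵥ (B *ᵥ a) = m → b ⬝ᵥ (B *ᵥ b) = n → m ≠ n →
      m + n < 16 → cm a ≠ cm b := by
    intro m n a b ha hb hmn hlt h
    have h1 : a ≠ b := by
      rintro rfl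
      exact hmn (ha.symm.trans hb)
    have h2' : a ≠ -b := by
      rintro rfl
      rw [form_neg] at ha
      exact hmn (ha.symm.trans hb)
    have := key b a h h1 h2'
    omega
  have d1 : Disjoint ({cm 0} : Finset (Fin 24 → ZMod 2)) (hf4.toFinset.image cm) := by
    rw [Finset.disjoint_left]
    intro b hb hb'
    rw [Finset.mem_singleton] at hb
    obtain ⟨y, hy, rfl⟩ := Finset.mem_image.mp hb'
    exact dis 4 0 y 0 ((m4 y).mp hy) (form_zero B) (by norm_num) (by norm_num) hb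
  have d2 : Disjoint (({cm 0} : Finset (Fin 24 → ZMod 2)) ∪ hf4.toFinset.image cm)
      (hf6.toFinset.image cm) := by
    rw [Finset.disjoint_left]
    intro b hb hb'
    obtain ⟨y, hy, rfl⟩ := Finset.mem_image.mp hb'
    rw [Finset.mem_union, Finset.mem_singleton] at hb
    rcases hb with hb | hb
    · exact dis 6 0 y 0 ((m6 y).mp hy) (form_zero B) (by norm_num) (by norm_num) hb
    · obtain ⟨z, hz, hzy⟩ := Finset.mem_image.mp hb
      exact dis 4 6 z y ((m4 z).mp hz) ((m6 y).mp hy) (by norm_num) (by norm_num) hzy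
  have d3 : Disjoint (({cm 0} : Finset (Fin 24 → ZMod 2)) ∪ hf4.toFinset.image cm ∪
      hf6.toFinset.image cm) (hf8.toFinset.image cm) := by
    rw [Finset.disjoint_left]
    intro b hb hb'
    obtain ⟨y, hy, rfl⟩ := Finset.mem_image.mp hb'
    rw [Finset.mem_union, Finset.mem_union, Finset.mem_singleton] at hb
    rcases hb with (hb | hb) | hb
    · exact dis 8 0 y 0 ((m8 y).mp hy) (form_zero B) (by norm_num) (by norm_num) hb
    · obtain ⟨z, hz, hzy⟩ := Finset.mem_image.mp hb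
      exact dis 4 8 z y ((m4 z).mp hz) ((m8 y).mp hy) (by norm_num) (by norm_num) hzy
    · obtain ⟨z, hz, hzy⟩ := Finset.mem_image.mp hb
      exact dis 6 8 z y ((m6 z).mp hz) ((m8 y).mp hy) (by norm_num) (by norm_num) hzy
  have hcard : (({cm 0} : Finset (Fin 24 → ZMod 2)) ∪ hf4.toFinset.image cm ∪
      hf6.toFinset.image cm ∪ hf8.toFinset.image cm).card ≤ Fintype.card (Fin 24 → ZMod 2) :=
    Finset.card_le_univ _
  rw [Finset.card_union_of_disjoint d3, Finset.card_union_of_disjoint d2,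
    Finset.card_union_of_disjoint d1, Finset.card_singleton] at hcard
  have hcardZ : Fintype.card (Fin 24 → ZMod 2) = 16777216 := by
    rw [Fintype.card_fun, ZMod.card, Fintype.card_fin]
    norm_num
  have fib : ∀ b, (hf8.toFinset.filter (fun a => cm a = b)).card ≤ 48 := by
    intro b
    apply card_frame B
    · intro y hy
      exact (m8 y).mp (Finset.mem_filter.mp hy).1
    · intro y hy
      rw [Finset.mem_filter] at hy ⊢
      exact ⟨(m8 _).mpr (by rw [form_neg]; exact (m8 y).mp hy.1), by rw [cm_neg]; exact hy.2⟩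
    · intro y hy y' hy'
      rw [Finset.mem_filter] at hy hy'
      exact Cfsg.Agent.S1587.result B hsymm hpos heven h2 y y' ((m8 y).mp hy.1)
        ((m8 y').mp hy'.1) ((cm_eq_iff y y').mp (hy'.2.trans hy.2.symm))
  have hsum : hf8.toFinset.card = ∑ b ∈ hf8.toFinset.image cm,
      (hf8.toFinset.filter (fun a => cm a = b)).card := Finset.card_eq_sum_card_image cm _
  have hxF : x ∈ hf8.toFinset := (m8 x).mpr hx
  have hxI : cm x ∈ hf8.toFinset.image cm := Finset.mem_image_of_mem cm hxF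
  have hge : 48 ≤ (hf8.toFinset.filter (fun a => cm a = cm x)).card := by
    by_contra hlt
    rw [not_le] at hlt
    have hlt2 : ∑ b ∈ hf8.toFinset.image cm, (hf8.toFinset.filter (fun a => cm a = b)).card
        < ∑ b ∈ hf8.toFinset.image cm, 48 :=
      Finset.sum_lt_sum (fun b _ => fib b) ⟨cm x, hxI, hlt⟩
    rw [Finset.sum_const, smul_eq_mul, ← hsum, c8] at hlt2
    omega
  have hset : {y : Fin 24 → ℤ | y ⬝ᵥ (B *ᵥ y) = 8 ∧ ∀ i, (2 : ℤ) ∣ (x - y) i}
      = ↑(hf8.toFinset.filter (fun a => cm a = cm x)) := by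
    ext y
    rw [Finset.mem_coe, Finset.mem_filter, m8, cm_eq_iff]
    rfl
  rw [hset, Set.ncard_coe_finset]
  exact le_antisymm (fib _) hge

end Cfsg.Agent.S1588
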