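import Cfsg.Statements.S1595
import Cfsg.Agent.Lib_lead_Steiner

set_option autoImplicit false
open Cfsg

namespace Cfsg.Agent.S1595

open Finset in
/-- binomial moments of the intersection sizes with `T` of the blocks through `I` (`I`, `T` disjoint). -/
theorem inter_sum_through {α : Type*} [Fintype α] [DecidableEq α] {t k : ℕ} {B : Set (Finset α)}
    (hB : Cfsg.IsSteinerSystem t k B) (BF : Finset (Finset α)) (hBF : ∀ b, b ∈ BF ↔ b ∈ B)
    (I T : Finset α) (hd : Disjoint I T) (i : ℕ) (hi : I.card + i ≤ t) :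
    (∑ c ∈ BF.filter (fun c => I ⊆ c), (c ∩ T).card.choose i)
        * (k - (I.card + i)).choose (t - (I.card + i))
      = T.card.choose i * (Fintype.card α - (I.card + i)).choose (t - (I.card + i)) := by
  rw [Lib_lead_Steiner.inter_sum, Finset.sum_mul]
  rw [Finset.sum_congr rfl
    (g := fun _ => (Fintype.card α - (I.card + i)).choose (t - (I.card + i)))]
  · rw [Finset.sum_const, card_powersetCard, smul_eq_mul]
  · intro I' hI'
    rw [mem_powersetCard] at hI'
    have hdisj : Disjoint I I' := Finset.disjoint_of_subset_right hI'.1 hd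
    have hcard : (I ∪ I').card = I.card + i := by
      rw [Finset.card_union_of_disjoint hdisj, hI'.2]
    have := Lib_lead_Steiner.through_count hB BF hBF (I ∪ I') (by omega)
    rw [hcard] at this
    rw [← this]
    congr 2
    rw [Finset.filter_filter]
    apply Finset.filter_congr
    intro c _
    rw [Finset.union_subset_iff]

/-- the set of blocks meeting `b` exactly in `s`, as a finset. -/
theorem exact_set {α : Type*} [Fintype α] [DecidableEq α] {B : Set (Finset α)}
    (BF : Finset (Finset α)) (hBF : ∀ b, b ∈ BF ↔ b ∈ B) (b s : Finset α) (hs : s ⊆ b)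
    (hne : s ≠ b) :
    {c : Finset α | c ∈ B ∧ b ∩ c = s}
      = ((((BF.filter (fun c => s ⊆ c)).erase b).filter (fun c => (c ∩ (b \ s)).card = 0)
          : Finset (Finset α)) : Set (Finset α)) := by
  ext c
  simp only [Set.mem_setOf_eq, Finset.coe_filter, Finset.mem_erase, Finset.mem_filter,
    Finset.card_eq_zero]
  constructor
  · rintro ⟨hc, hbc⟩
    refine ⟨⟨?_, (hBF c).mpr hc, ?_⟩, ?_⟩
    · rintro rfl
      rw [Finset.inter_self] at hbc
      exact hne hbc.symm
    · rw [← hbc]; exact Finset.inter_subset_right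
    · rw [Finset.eq_empty_iff_forall_notMem]
      intro x hx
      rw [Finset.mem_inter, Finset.mem_sdiff] at hx
      apply hx.2.2
      rw [← hbc]
      exact Finset.mem_inter.mpr ⟨hx.2.1, hx.1⟩
  · rintro ⟨⟨-, hc, hsc⟩, h0⟩
    refine ⟨(hBF c).mp hc, ?_⟩
    apply Finset.Subset.antisymm
    · intro x hx
      rw [Finset.mem_inter] at hx
      by_contra hxs
      have : x ∈ c ∩ (b \ s) := Finset.mem_inter.mpr ⟨hx.2, Finset.mem_sdiff.mpr ⟨hx.1, hxs⟩⟩
      rw [h0] at this
      simp at this
    · exact Finset.subset_inter hs hsc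

/-- Leech triangle of S(5, 6, 12): blocks meet in 0, 2, 3 or 4 points, and a block is met exactly in a given 2-, 3- or 4-subset by 3, 2, 3 blocks respectively. -/
theorem result {α : Type*} [Fintype α] [DecidableEq α] (hα : Fintype.card α = 12) {B : Set (Finset α)} (hB : Cfsg.IsSteinerSystem 5 6 B) (b : Finset α) (hb : b ∈ B) : (∀ c ∈ B, c ≠ b → (b ∩ c).card = 0 ∨ (b ∩ c).card = 2 ∨ (b ∩ c).card = 3 ∨ (b ∩ c).card = 4) ∧ ∀ s ⊆ b, (s.card = 2 → {c : Finset α | c ∈ B ∧ b ∩ c = s}.ncard = 3) ∧ (s.card = 3 → {c : Finset α | c ∈ B ∧ b ∩ c = s}.ncard = 2) ∧ (s.card = 4 → {c : Finset α | c ∈ B ∧ b ∩ c = s}.ncard = 3) := by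
  obtain ⟨BF, hBF⟩ := Lib_lead_Steiner.exists_finset B
  have hb6 : b.card = 6 := hB.1 b hb
  have hbF : b ∈ BF := (hBF b).mpr hb
  have hle : ∀ c ∈ BF.erase b, (c ∩ b).card ≤ 4 := by
    intro c hc
    rw [Finset.mem_erase] at hc
    by_contra h
    exact hc.1 (Lib_lead_Steiner.eq_of_inter_ge hB ((hBF c).mp hc.2) hb (by omega))
  constructor
  · have m1 := Lib_lead_Steiner.inter_sum_steiner hB BF hBF b 1 (by norm_num)
    have m2 := Lib_lead_Steiner.inter_sum_steiner hB BF hBF b 2 (by norm_num)
    have m3 := Lib_lead_Steiner.inter_sum_steiner hB BF hBF b 3 (by norm_num)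
    have m4 := Lib_lead_Steiner.inter_sum_steiner hB BF hBF b 4 (by norm_num)
    rw [hα, hb6] at m1 m2 m3 m4
    have c1 : Nat.choose (6 - 1) (5 - 1) = 5 := by decide
    have c1' : Nat.choose (12 - 1) (5 - 1) = 330 := by decide
    have c2 : Nat.choose (6 - 2) (5 - 2) = 4 := by decide
    have c2' : Nat.choose (12 - 2) (5 - 2) = 120 := by decide
    have c3 : Nat.choose (6 - 3) (5 - 3) = 3 := by decide
    have c3' : Nat.choose (12 - 3) (5 - 3) = 36 := by decide
    have c4 : Nat.choose (6 - 4) (5 - 4) = 2 := by decide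
    have c4' : Nat.choose (12 - 4) (5 - 4) = 8 := by decide
    have d1 : Nat.choose 6 1 = 6 := by decide
    have d2 : Nat.choose 6 2 = 15 := by decide
    have d3 : Nat.choose 6 3 = 20 := by decide
    have d4 : Nat.choose 6 4 = 15 := by decide
    rw [c1, c1', d1] at m1
    rw [c2, c2', d2] at m2
    rw [c3, c3', d3] at m3
    rw [c4, c4', d4] at m4
    rw [← Finset.add_sum_erase BF _ hbF] at m1 m2 m3 m4
    simp only [Finset.inter_self, hb6] at m1 m2 m3 m4
    rw [d1] at m1
    rw [d2] at m2
    rw [d3] at m3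
    rw [d4] at m4
    have e1 : (∑ c ∈ BF.erase b, ((c ∩ b).card.choose 1 : ℤ)) = 390 := by
      have : ∑ c ∈ BF.erase b, (c ∩ b).card.choose 1 = 390 := by omega
      exact_mod_cast this
    have e2 : (∑ c ∈ BF.erase b, ((c ∩ b).card.choose 2 : ℤ)) = 435 := by
      have : ∑ c ∈ BF.erase b, (c ∩ b).card.choose 2 = 435 := by omega
      exact_mod_cast this
    have e3 : (∑ c ∈ BF.erase b, ((c ∩ b).card.choose 3 : ℤ)) = 220 := by
      have : ∑ c ∈ BF.erase b, (c ∩ b).card.choose 3 = 220 := by omega
      exact_mod_cast this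
    have e4 : (∑ c ∈ BF.erase b, ((c ∩ b).card.choose 4 : ℤ)) = 45 := by
      have : ∑ c ∈ BF.erase b, (c ∩ b).card.choose 4 = 45 := by omega
      exact_mod_cast this
    have key : ∑ c ∈ BF.erase b, (((c ∩ b).card.choose 1 : ℤ) - 2 * (c ∩ b).card.choose 2
        + 3 * (c ∩ b).card.choose 3 - 4 * (c ∩ b).card.choose 4) = 0 := by
      simp only [Finset.sum_sub_distrib, Finset.sum_add_distrib, ← Finset.mul_sum]
      rw [e1, e2, e3, e4]; norm_num
    have hnn : ∀ c ∈ BF.erase b, 0 ≤ (((c ∩ b).card.choose 1 : ℤ) - 2 * (c ∩ b).card.choose 2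
        + 3 * (c ∩ b).card.choose 3 - 4 * (c ∩ b).card.choose 4) := by
      intro c hc
      have := hle c hc
      generalize (c ∩ b).card = j at this ⊢
      interval_cases j <;> simp [Nat.choose]
    have hz := (Finset.sum_eq_zero_iff_of_nonneg hnn).mp key
    intro c hc hcb
    have hcE : c ∈ BF.erase b := Finset.mem_erase.mpr ⟨hcb, (hBF c).mpr hc⟩
    have h1 := hz c hcE
    have h2 := hle c hcE
    rw [Finset.inter_comm]
    generalize (c ∩ b).card = j at h1 h2 ⊢
    interval_cases j <;> simp [Nat.choose] at h1 ⊢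
  · intro s hs
    have hbFs : b ∈ BF.filter (fun c => s ⊆ c) := Finset.mem_filter.mpr ⟨hbF, hs⟩
    have hdisj : Disjoint s (b \ s) := Finset.disjoint_sdiff
    have hTcard : (b \ s).card = 6 - s.card := by
      rw [Finset.card_sdiff_of_subset hs, hb6]
    have hbT : b ∩ (b \ s) = b \ s := Finset.inter_eq_right.mpr Finset.sdiff_subset
    -- bound on j' for the other blocks
    have hle' : ∀ c ∈ (BF.filter (fun c => s ⊆ c)).erase b, (c ∩ (b \ s)).card + s.card ≤ 4 := by
      intro c hc
      rw [Finset.mem_erase, Finset.mem_filter] at hc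
      have h1 := hle c (Finset.mem_erase.mpr ⟨hc.1, hc.2.1⟩)
      have h2 : (c ∩ (b \ s)) ∪ s ⊆ c ∩ b := by
        apply Finset.union_subset
        · exact Finset.inter_subset_inter_left Finset.sdiff_subset
        · exact Finset.subset_inter hc.2.2 hs
      have h3 : Disjoint (c ∩ (b \ s)) s :=
        Finset.disjoint_of_subset_left Finset.inter_subset_right Finset.sdiff_disjoint
      have h4 := Finset.card_le_card h2
      rw [Finset.card_union_of_disjoint h3] at h4
      omega
    refine ⟨?_, ?_, ?_⟩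
    · intro hs2
      have hne : s ≠ b := by rintro rfl; omega
      rw [exact_set BF hBF b s hs hne, Set.ncard_coe_finset, Finset.card_filter]
      have m0 := inter_sum_through hB BF hBF s (b \ s) hdisj 0 (by omega)
      have m1 := inter_sum_through hB BF hBF s (b \ s) hdisj 1 (by omega)
      have m2 := inter_sum_through hB BF hBF s (b \ s) hdisj 2 (by omega)
      rw [← Finset.add_sum_erase _ _ hbFs, hbT, hα, hTcard, hs2] at m0 m1 m2
      norm_num [Nat.choose] at m0 m1 m2
      have e0 : (((BF.filter (fun c => s ⊆ c)).erase b).card : ℤ) = 29 := by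
        have : ((BF.filter (fun c => s ⊆ c)).erase b).card = 29 := by omega
        exact_mod_cast this
      have e1 : (∑ c ∈ (BF.filter (fun c => s ⊆ c)).erase b, ((c ∩ (b \ s)).card : ℤ)) = 44 := by
        have : ∑ c ∈ (BF.filter (fun c => s ⊆ c)).erase b, (c ∩ (b \ s)).card = 44 := by omega
        exact_mod_cast this
      have e2 : (∑ c ∈ (BF.filter (fun c => s ⊆ c)).erase b, ((c ∩ (b \ s)).card.choose 2 : ℤ)) = 18 := by
        have : ∑ c ∈ (BF.filter (fun c => s ⊆ c)).erase b, (c ∩ (b \ s)).card.choose 2 = 18 := by omega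
        exact_mod_cast this
      have key : ∀ c ∈ (BF.filter (fun c => s ⊆ c)).erase b,
          ((if (c ∩ (b \ s)).card = 0 then 1 else 0 : ℕ) : ℤ)
          = (1 : ℤ) - ((c ∩ (b \ s)).card : ℤ) + (c ∩ (b \ s)).card.choose 2 := by
        intro c hc
        have := hle' c hc
        rw [hs2] at this
        have hj : (c ∩ (b \ s)).card ≤ 2 := by omega
        generalize (c ∩ (b \ s)).card = j at hj ⊢
        interval_cases j <;> simp [Nat.choose]
      have : ((∑ c ∈ (BF.filter (fun c => s ⊆ c)).erase b,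
          (if (c ∩ (b \ s)).card = 0 then 1 else 0 : ℕ) : ℕ) : ℤ) = 3 := by
        rw [Nat.cast_sum, Finset.sum_congr rfl key]
        simp only [Finset.sum_sub_distrib, Finset.sum_add_distrib, Finset.sum_const, e1, e2,
          nsmul_eq_mul, mul_one]
        rw [e0]; norm_num
      exact_mod_cast this
    · intro hs3
      have hne : s ≠ b := by rintro rfl; omega
      rw [exact_set BF hBF b s hs hne, Set.ncard_coe_finset, Finset.card_filter]
      have m0 := inter_sum_through hB BF hBF s (b \ s) hdisj 0 (by omega)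
      have m1 := inter_sum_through hB BF hBF s (b \ s) hdisj 1 (by omega)
      rw [← Finset.add_sum_erase _ _ hbFs, hbT, hα, hTcard, hs3] at m0 m1
      norm_num [Nat.choose] at m0 m1
      have e0 : (((BF.filter (fun c => s ⊆ c)).erase b).card : ℤ) = 11 := by
        have : ((BF.filter (fun c => s ⊆ c)).erase b).card = 11 := by omega
        exact_mod_cast this
      have e1 : (∑ c ∈ (BF.filter (fun c => s ⊆ c)).erase b, ((c ∩ (b \ s)).card : ℤ)) = 9 := by
        have : ∑ c ∈ (BF.filter (fun c => s ⊆ c)).erase b, (c ∩ (b \ s)).card = 9 := by omega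
        exact_mod_cast this
      have key : ∀ c ∈ (BF.filter (fun c => s ⊆ c)).erase b,
          ((if (c ∩ (b \ s)).card = 0 then 1 else 0 : ℕ) : ℤ)
          = (1 : ℤ) - ((c ∩ (b \ s)).card : ℤ) := by
        intro c hc
        have := hle' c hc
        rw [hs3] at this
        have hj : (c ∩ (b \ s)).card ≤ 1 := by omega
        generalize (c ∩ (b \ s)).card = j at hj ⊢
        interval_cases j <;> simp
      have : ((∑ c ∈ (BF.filter (fun c => s ⊆ c)).erase b,
          (if (c ∩ (b \ s)).card = 0 then 1 else 0 : ℕ) : ℕ) : ℤ) = 2 := by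
        rw [Nat.cast_sum, Finset.sum_congr rfl key]
        simp only [Finset.sum_sub_distrib, Finset.sum_const, e1, nsmul_eq_mul, mul_one]
        rw [e0]; norm_num
      exact_mod_cast this
    · intro hs4
      have hne : s ≠ b := by rintro rfl; omega
      rw [exact_set BF hBF b s hs hne, Set.ncard_coe_finset, Finset.card_filter]
      have m0 := inter_sum_through hB BF hBF s (b \ s) hdisj 0 (by omega)
      rw [← Finset.add_sum_erase _ _ hbFs, hbT, hα, hTcard, hs4] at m0
      norm_num [Nat.choose] at m0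
      have key : ∀ c ∈ (BF.filter (fun c => s ⊆ c)).erase b,
          (if (c ∩ (b \ s)).card = 0 then 1 else 0 : ℕ) = 1 := by
        intro c hc
        have := hle' c hc
        rw [hs4] at this
        rw [if_pos (by omega)]
      rw [Finset.sum_congr rfl key]
      simp only [Finset.sum_const, smul_eq_mul, mul_one]
      omega

end Cfsg.Agent.S1595
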