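import Cfsg.Statements.S1610
import Mathlib
import Cfsg.Agent.S0827

set_option autoImplicit false
open Cfsg

namespace Cfsg.Agent.S1610

/-- The concrete field with four elements. -/
abbrev K : Type := Cfsg.Agent.S0827.K4

/-- The combination of the three generators over `K`. -/
def comb (u : K) (t : K × K × K) : Fin 6 → K :=
  fun i => t.1 * (![u, u ^ 2, u ^ 2, u, u ^ 2, u] : Fin 6 → K) i
    + t.2.1 * (![u ^ 2, u, u, u ^ 2, u ^ 2, u] : Fin 6 → K) i
    + t.2.2 * (![u ^ 2, u, u ^ 2, u, u, u ^ 2] : Fin 6 → K) i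

/-- The weight over `K`. -/
def wt (y : Fin 6 → K) : ℕ := (Finset.univ.filter fun i => y i ≠ 0).card

theorem c1 : ∀ u : K, u ^ 2 + u + 1 = 0 → ∀ t : K × K × K, wt (comb u t) = 0 → t = 0 := by
  decide +kernel

theorem c2 : ∀ u : K, u ^ 2 + u + 1 = 0 → ∀ t : K × K × K,
    wt (comb u t) = 0 ∨ wt (comb u t) = 4 ∨ wt (comb u t) = 6 := by
  decide +kernel

theorem c3 : ∀ u : K, u ^ 2 + u + 1 = 0 →
    (Finset.univ.filter (fun t : K × K × K => wt (comb u t) = 4)).card = 45 := by
  decide +kernel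

theorem c4 : ∀ u : K, u ^ 2 + u + 1 = 0 →
    (Finset.univ.filter (fun t : K × K × K => wt (comb u t) = 6)).card = 18 := by
  decide +kernel

theorem comb_sub (u : K) (t t' : K × K × K) : comb u (t - t') = comb u t - comb u t' := by
  funext i
  simp only [comb, Prod.fst_sub, Prod.snd_sub, Pi.sub_apply]
  ring

theorem comb_zero (u : K) : comb u 0 = 0 := by
  funext i
  simp [comb]

theorem wt_zero : wt (0 : Fin 6 → K) = 0 := by
  simp [wt]

theorem comb_inj (u : K) (hu : u ^ 2 + u + 1 = 0) : Function.Injective (comb u) := by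
  intro t t' h
  have h0 : comb u (t - t') = 0 := by rw [comb_sub, h, sub_self]
  have h1 := c1 u hu (t - t') (by rw [h0]; exact wt_zero)
  exact sub_eq_zero.mp h1

section Transport
variable {F : Type*} [Field F]

/-- Transport of vectors. -/
def E (e : K →+* F) (y : Fin 6 → K) : Fin 6 → F := fun i => e (y i)

theorem E_inj (e : K →+* F) : Function.Injective (E e) := by
  intro y z h
  funext i
  exact e.injective (congrFun h i)

theorem wt_E [DecidableEq F] (e : K →+* F) (y : Fin 6 → K) :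
    (Finset.univ.filter fun i => E e y i ≠ 0).card = wt y := by
  unfold wt
  congr 1
  ext i
  simp [E]

theorem E_comb (e : K →+* F) (u a0 b0 c0 : K) :
    E e (comb u (a0, b0, c0)) = e a0 • ![e u, e u ^ 2, e u ^ 2, e u, e u ^ 2, e u]
      + e b0 • ![e u ^ 2, e u, e u, e u ^ 2, e u ^ 2, e u]
      + e c0 • ![e u ^ 2, e u, e u ^ 2, e u, e u, e u ^ 2] := by
  funext i
  fin_cases i <;> simp [E, comb, map_add, map_mul, map_pow]

theorem hex_iff (e : K →+* F) (he : Function.Surjective e) (u : K) (x : Fin 6 → F) :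
    x ∈ Cfsg.hexacode F (e u) ↔ ∃ t : K × K × K, E e (comb u t) = x := by
  unfold Cfsg.hexacode
  rw [Submodule.mem_span_triple]
  constructor
  · rintro ⟨a, b, c, rfl⟩
    obtain ⟨a0, rfl⟩ := he a
    obtain ⟨b0, rfl⟩ := he b
    obtain ⟨c0, rfl⟩ := he c
    exact ⟨(a0, b0, c0), E_comb e u a0 b0 c0⟩
  · rintro ⟨⟨a0, b0, c0⟩, rfl⟩
    exact ⟨e a0, e b0, e c0, (E_comb e u a0 b0 c0).symm⟩

theorem count_eq [DecidableEq F] (e : K →+* F) (he : Function.Surjective e) (u : K) (k : ℕ) :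
    {x : Fin 6 → F | x ∈ Cfsg.hexacode F (e u) ∧ (Finset.univ.filter fun i => x i ≠ 0).card = k}
      = (fun t => E e (comb u t)) ''
        ((Finset.univ.filter (fun t : K × K × K => wt (comb u t) = k) : Finset (K × K × K)) :
          Set (K × K × K)) := by
  ext x
  constructor
  · rintro ⟨hx, hw⟩
    obtain ⟨t, rfl⟩ := (hex_iff e he u x).mp hx
    refine ⟨t, ?_, rfl⟩
    rw [Finset.mem_coe, Finset.mem_filter]
    refine ⟨Finset.mem_univ _, ?_⟩
    rw [← wt_E e]
    exact hw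
  · rintro ⟨t, ht, rfl⟩
    rw [Finset.mem_coe, Finset.mem_filter] at ht
    refine ⟨(hex_iff e he u _).mpr ⟨t, rfl⟩, ?_⟩
    rw [wt_E]
    exact ht.2

end Transport

theorem main (F : Type*) [Field F] [Fintype F] [DecidableEq F] (hF : Fintype.card F = 4) (ω : F)
    (hω : ω ^ 2 + ω + 1 = 0) :
    Nat.card ↥(Cfsg.hexacode F ω) = 64 ∧ (∀ x ∈ Cfsg.hexacode F ω, x ≠ 0 →
      (Finset.univ.filter fun i => x i ≠ 0).card = 4 ∨ (Finset.univ.filter fun i => x i ≠ 0).card = 6) ∧
      {x : Fin 6 → F | x ∈ Cfsg.hexacode F ω ∧ (Finset.univ.filter fun i => x i ≠ 0).card = 4}.ncard = 45 ∧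
      {x : Fin 6 → F | x ∈ Cfsg.hexacode F ω ∧ (Finset.univ.filter fun i => x i ≠ 0).card = 6}.ncard = 18 := by
  obtain ⟨e0⟩ : Nonempty (K ≃+* F) :=
    ⟨FiniteField.ringEquivOfCardEq (by rw [hF]; rfl)⟩
  obtain ⟨e, hinj, hsurj⟩ : ∃ e : K →+* F, Function.Injective e ∧ Function.Surjective e :=
    ⟨e0.toRingHom, e0.injective, e0.surjective⟩
  obtain ⟨u, rfl⟩ := hsurj ω
  have hroot : u ^ 2 + u + 1 = 0 := by
    apply hinj
    rw [map_add, map_add, map_pow, map_one, map_zero, hω]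
  have hΦ : Function.Injective (fun t => E e (comb u t)) :=
    (E_inj e).comp (comb_inj u hroot)
  refine ⟨?_, ?_, ?_, ?_⟩
  · have hset : ((Cfsg.hexacode F (e u) : Submodule F (Fin 6 → F)) : Set (Fin 6 → F))
        = Set.range (fun t => E e (comb u t)) := by
      ext x
      exact hex_iff e hsurj u x
    change Nat.card (↥((Cfsg.hexacode F (e u) : Submodule F (Fin 6 → F)) : Set (Fin 6 → F))) = 64
    rw [Nat.card_coe_set_eq, hset, Set.ncard_range_of_injective hΦ]
    rw [Nat.card_eq_fintype_card]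
    rfl
  · intro x hx hx0
    obtain ⟨t, rfl⟩ := (hex_iff e hsurj u x).mp hx
    rw [wt_E]
    rcases c2 u hroot t with h | h | h
    · exfalso
      apply hx0
      rw [c1 u hroot t h, comb_zero]
      funext i
      simp [E]
    · exact Or.inl h
    · exact Or.inr h
  · rw [count_eq e hsurj u 4, Set.ncard_image_of_injective _ hΦ, Set.ncard_coe_finset]
    exact c3 u hroot
  · rw [count_eq e hsurj u 6, Set.ncard_image_of_injective _ hΦ, Set.ncard_coe_finset]
    exact c4 u hroot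


/-- The hexacode has 64 words, minimum weight 4, and weight distribution 0^1 4^45 6^18. -/
theorem result (F : Type*) [Field F] [Fintype F] [DecidableEq F] (hF : Fintype.card F = 4) (ω : F) (hω : ω ^ 2 + ω + 1 = 0) : Nat.card ↥(Cfsg.hexacode F ω) = 64 ∧ (∀ x ∈ Cfsg.hexacode F ω, x ≠ 0 → (Finset.univ.filter fun i => x i ≠ 0).card = 4 ∨ (Finset.univ.filter fun i => x i ≠ 0).card = 6) ∧ {x : Fin 6 → F | x ∈ Cfsg.hexacode F ω ∧ (Finset.univ.filter fun i => x i ≠ 0).card = 4}.ncard = 45 ∧ {x : Fin 6 → F | x ∈ Cfsg.hexacode F ω ∧ (Finset.univ.filter fun i => x i ≠ 0).card = 6}.ncard = 18 := by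
  exact main F hF ω hω

end Cfsg.Agent.S1610
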