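import Cfsg.Statements.S1691
-- import your own Cfsg.Agent.* helpers here

set_option autoImplicit false
open Cfsg

namespace Cfsg.Agent.S1691

/-- The commutator subgroup of the presented group Fi₂₄ has index 2 (the presented group is Fi₂₄′:2 with Fi₂₄′ its derived subgroup). -/
theorem result : (commutator Cfsg.Spor.Fi24).index = 2 := by
  classical
  -- the homomorphism onto the group of order two
  have ht2 : (Multiplicative.ofAdd (1 : ZMod 2)) * (Multiplicative.ofAdd (1 : ZMod 2)) = 1 := by
    decide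
  have hlift : ∀ r ∈ (Cfsg.Spor.coxRelators Cfsg.Spor.Fi24.edges ∪ {r | r ∈ Cfsg.Spor.Fi24.extra} :
      Set (FreeGroup Cfsg.Spor.Fi24.Gen)),
      FreeGroup.lift (fun _ : Cfsg.Spor.Fi24.Gen => Multiplicative.ofAdd (1 : ZMod 2)) r = 1 := by
    intro r hr
    rcases hr with hr | hr
    · obtain ⟨x, -, y, -, rfl⟩ := hr
      rw [map_pow, map_mul, FreeGroup.lift_apply_of, FreeGroup.lift_apply_of, ht2, one_pow]
    · simp only [Cfsg.Spor.Fi24.extra, List.mem_cons, List.not_mem_nil, or_false,
        Set.mem_setOf_eq] at hr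
      rcases hr with rfl | rfl
      · simp only [map_mul, map_inv, map_pow, FreeGroup.lift_apply_of]
        decide
      · simp only [map_mul, map_pow, FreeGroup.lift_apply_of]
        decide
  have hall2 : ∀ y : Multiplicative (ZMod 2), y = 1 ∨ y = Multiplicative.ofAdd (1 : ZMod 2) := by
    decide
  have hsurj : Function.Surjective (PresentedGroup.toGroup hlift) := by
    intro y
    rcases hall2 y with rfl | rfl
    · exact ⟨1, map_one _⟩
    · exact ⟨PresentedGroup.of Cfsg.Spor.Fi24.Gen.a, PresentedGroup.toGroup.of hlift⟩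
  have hker : commutator Cfsg.Spor.Fi24 ≤ (PresentedGroup.toGroup hlift).ker :=
    Abelianization.commutator_subset_ker _
  have hidx : (PresentedGroup.toGroup hlift).ker.index = 2 := by
    rw [Subgroup.index_ker, MonoidHom.range_eq_top.mpr hsurj, Subgroup.card_top]
    rw [Nat.card_eq_fintype_card]
    rfl
  have h2 : 2 ∣ (commutator Cfsg.Spor.Fi24).index := by
    rw [← hidx]
    exact Subgroup.index_dvd_of_le hker
  -- the abelianization is generated by one element of order at most two
  have hnode : ∀ x : Cfsg.Spor.Fi24.Gen, x ∈ Cfsg.Spor.coxNodes Cfsg.Spor.Fi24.edges := by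
    intro x
    cases x <;> decide
  have hrel : ∀ x y : Cfsg.Spor.Fi24.Gen,
      ((PresentedGroup.of x : Cfsg.Spor.Fi24) * PresentedGroup.of y) ^
        Cfsg.Spor.coxLabel Cfsg.Spor.Fi24.edges x y = 1 := by
    intro x y
    have hmem : (FreeGroup.of x * FreeGroup.of y) ^ Cfsg.Spor.coxLabel Cfsg.Spor.Fi24.edges x y ∈
        (Cfsg.Spor.coxRelators Cfsg.Spor.Fi24.edges ∪ {r | r ∈ Cfsg.Spor.Fi24.extra} :
          Set (FreeGroup Cfsg.Spor.Fi24.Gen)) := Or.inl ⟨x, hnode x, y, hnode y, rfl⟩
    have h1 := PresentedGroup.one_of_mem hmem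
    rw [map_pow, map_mul] at h1
    exact h1
  have hsq : ∀ x : Cfsg.Spor.Fi24.Gen,
      Abelianization.of (PresentedGroup.of x : Cfsg.Spor.Fi24) *
        Abelianization.of (PresentedGroup.of x : Cfsg.Spor.Fi24) = 1 := by
    intro x
    have h1 := hrel x x
    have hl : Cfsg.Spor.coxLabel Cfsg.Spor.Fi24.edges x x = 1 := by
      unfold Cfsg.Spor.coxLabel
      rw [if_pos rfl]
    rw [hl, pow_one] at h1
    rw [← map_mul, h1, map_one]
  have hedge : ∀ x y : Cfsg.Spor.Fi24.Gen, Cfsg.Spor.coxLabel Cfsg.Spor.Fi24.edges x y = 3 →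
      Abelianization.of (PresentedGroup.of x : Cfsg.Spor.Fi24) =
        Abelianization.of (PresentedGroup.of y : Cfsg.Spor.Fi24) := by
    intro x y hl
    have h1 := hrel x y
    rw [hl] at h1
    have h3 := congrArg (Abelianization.of (G := Cfsg.Spor.Fi24)) h1
    rw [map_pow, map_mul, map_one, mul_pow] at h3
    have hx3 : Abelianization.of (PresentedGroup.of x : Cfsg.Spor.Fi24) ^ 3 =
        Abelianization.of (PresentedGroup.of x : Cfsg.Spor.Fi24) := by
      rw [pow_succ, pow_two, hsq x, one_mul]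
    have hy3 : Abelianization.of (PresentedGroup.of y : Cfsg.Spor.Fi24) ^ 3 =
        Abelianization.of (PresentedGroup.of y : Cfsg.Spor.Fi24) := by
      rw [pow_succ, pow_two, hsq y, one_mul]
    rw [hx3, hy3, ← hsq y] at h3
    exact mul_right_cancel h3
  have e1 := hedge .l .k (by decide)
  have e2 := hedge .k .a (by decide)
  have e3 := hedge .a .b (by decide)
  have e4 := hedge .b .c (by decide)
  have e5 := hedge .c .d (by decide)
  have e6 := hedge .d .e (by decide)
  have e7 := hedge .d .h (by decide)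
  have e8 := hedge .e .f (by decide)
  have e9 := hedge .f .g (by decide)
  have e10 := hedge .g .j (by decide)
  have e11 := hedge .h .i (by decide)
  have hall : ∀ x : Cfsg.Spor.Fi24.Gen,
      Abelianization.of (PresentedGroup.of x : Cfsg.Spor.Fi24) =
        Abelianization.of (PresentedGroup.of Cfsg.Spor.Fi24.Gen.a : Cfsg.Spor.Fi24) := by
    intro x
    cases x
    · rw [e1, e2]
    · rw [e2]
    · rfl
    · rw [← e3]
    · rw [← e4, ← e3]
    · rw [← e5, ← e4, ← e3]
    · rw [← e6, ← e5, ← e4, ← e3]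
    · rw [← e8, ← e6, ← e5, ← e4, ← e3]
    · rw [← e9, ← e8, ← e6, ← e5, ← e4, ← e3]
    · rw [← e10, ← e9, ← e8, ← e6, ← e5, ← e4, ← e3]
    · rw [← e7, ← e5, ← e4, ← e3]
    · rw [← e11, ← e7, ← e5, ← e4, ← e3]
  have htop : ∀ w : Cfsg.Spor.Fi24, w ∈ (Subgroup.zpowers
      (Abelianization.of (PresentedGroup.of Cfsg.Spor.Fi24.Gen.a : Cfsg.Spor.Fi24))).comap
        Abelianization.of := by
    apply PresentedGroup.generated_by
    intro x
    rw [Subgroup.mem_comap, hall x]
    exact Subgroup.mem_zpowers _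
  have hzp : Subgroup.zpowers
      (Abelianization.of (PresentedGroup.of Cfsg.Spor.Fi24.Gen.a : Cfsg.Spor.Fi24)) = ⊤ := by
    rw [eq_top_iff]
    intro v _
    obtain ⟨w, rfl⟩ := QuotientGroup.mk_surjective v
    exact htop w
  have hcard : (commutator Cfsg.Spor.Fi24).index = orderOf
      (Abelianization.of (PresentedGroup.of Cfsg.Spor.Fi24.Gen.a : Cfsg.Spor.Fi24)) := by
    rw [← Nat.card_zpowers, hzp, Subgroup.card_top]
    rfl
  have hdvd : orderOf (Abelianization.of (PresentedGroup.of Cfsg.Spor.Fi24.Gen.a : Cfsg.Spor.Fi24))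
      ∣ 2 := by
    apply orderOf_dvd_of_pow_eq_one
    rw [pow_two]
    exact hsq _
  rw [hcard] at h2 ⊢
  exact Nat.dvd_antisymm hdvd h2

end Cfsg.Agent.S1691
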