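import Cfsg.Statements.S1757
import Mathlib

set_option autoImplicit false
open Cfsg

namespace Cfsg.Agent.S1757

/-- Let p be a prime and A, B p-subgroups of the finite group G, each of which meets every conjugate of itself other than itself trivially. Suppose the order of A is at most that of B, A and B intersect trivially, and B normalizes A. Then A and B commute elementwise. -/
theorem result {G : Type*} [Group G] [Finite G] (p : ℕ) [Fact p.Prime] (A B : Subgroup G)
    (hA : IsPGroup p ↥A) (hB : IsPGroup p ↥B)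
    (hAti : ∀ g : G, A.map (MulAut.conj g).toMonoidHom = A ∨ A.map (MulAut.conj g).toMonoidHom ⊓ A = ⊥)
    (hBti : ∀ g : G, B.map (MulAut.conj g).toMonoidHom = B ∨ B.map (MulAut.conj g).toMonoidHom ⊓ B = ⊥)
    (hle : Nat.card ↥A ≤ Nat.card ↥B) (hAB : A ⊓ B = ⊥) (hN : B ≤ Subgroup.normalizer (A : Set G)) : ⁅A, B⁆ = ⊥ := by
  classical
  rw [Subgroup.commutator_eq_bot_iff_le_centralizer]
  set P : Subgroup G := A ⊔ B with hP
  have hPp : IsPGroup p P := IsPGroup.to_sup_of_normal_left' hA hB hN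
  haveI : Group.IsNilpotent P := hPp.isNilpotent
  obtain ⟨n, hn⟩ := Group.IsNilpotent.nilpotent P
  have hnormA : ∀ b ∈ B, ∀ a ∈ A, b * a * b⁻¹ ∈ A := by
    intro b hb a ha
    exact ((Subgroup.mem_normalizer_iff.mp (hN hb)) a).mp ha
  have key : ∀ i : ℕ, ∀ x : P, x ∈ Subgroup.upperCentralSeries P i → (x : G) ∈ A →
      ∀ b ∈ B, (x : G) * b = b * (x : G) := by
    intro i
    induction i with
    | zero =>
      intro x hx _ b _
      rw [Subgroup.upperCentralSeries_zero, Subgroup.mem_bot] at hx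
      rw [hx]; simp
    | succ i ih =>
      intro x hx hxA
      rw [Subgroup.mem_upperCentralSeries_succ_iff] at hx
      set a : G := (x : G) with ha
      have hc : ∀ b ∈ B, a * b * a⁻¹ * b⁻¹ ∈ A ∧
          ∀ b' ∈ B, (a * b * a⁻¹ * b⁻¹) * b' = b' * (a * b * a⁻¹ * b⁻¹) := by
        intro b hb
        have hmemA : a * b * a⁻¹ * b⁻¹ ∈ A := by
          have h1 := hnormA b hb a⁻¹ (A.inv_mem hxA)
          have h0 : a * b * a⁻¹ * b⁻¹ = a * (b * a⁻¹ * b⁻¹) := by group
          rw [h0]; exact A.mul_mem hxA h1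
        refine ⟨hmemA, ?_⟩
        have h2 := hx ⟨b, Subgroup.mem_sup_right hb⟩
        exact ih _ h2 hmemA
      rcases hBti a with hB1 | hB1
      · intro b hb
        have h3 : a * b * a⁻¹ ∈ B := by
          rw [← hB1]; exact Subgroup.mem_map.mpr ⟨b, hb, by simp [MulAut.conj_apply]⟩
        have h4 : a * b * a⁻¹ * b⁻¹ ∈ A ⊓ B := ⟨(hc b hb).1, B.mul_mem h3 (B.inv_mem hb)⟩
        rw [hAB, Subgroup.mem_bot] at h4
        have h5 := mul_inv_eq_one.mp h4
        exact mul_inv_eq_iff_eq_mul.mp h5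
      · let φ : B → A := fun b => ⟨a * b * a⁻¹ * (b : G)⁻¹, (hc b b.2).1⟩
        have hφ : Function.Injective φ := by
          intro b b' hbb
          have h5 : a * b * a⁻¹ * (b : G)⁻¹ = a * b' * a⁻¹ * (b' : G)⁻¹ := congrArg Subtype.val hbb
          have h6 : a * ((b' : G)⁻¹ * b) * a⁻¹ = (b' : G)⁻¹ * b := by
            have h7 : (b : G) * a⁻¹ * (b : G)⁻¹ = b' * a⁻¹ * (b' : G)⁻¹ := by
              have := congrArg (fun t => a⁻¹ * t) h5
              simpa [mul_assoc] using this
            have h8 : (b' : G)⁻¹ * b * a⁻¹ = a⁻¹ * ((b' : G)⁻¹ * b) := by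
              have := congrArg (fun t => (b' : G)⁻¹ * t * b) h7
              simpa [mul_assoc] using this
            calc a * ((b' : G)⁻¹ * b) * a⁻¹ = a * ((b' : G)⁻¹ * b * a⁻¹) := by group
              _ = a * (a⁻¹ * ((b' : G)⁻¹ * b)) := by rw [h8]
              _ = (b' : G)⁻¹ * b := by group
          have h9 : (b' : G)⁻¹ * b ∈ B.map (MulAut.conj a).toMonoidHom ⊓ B := by
            refine ⟨?_, B.mul_mem (B.inv_mem b'.2) b.2⟩
            exact Subgroup.mem_map.mpr ⟨(b' : G)⁻¹ * b, B.mul_mem (B.inv_mem b'.2) b.2,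
              by simpa [MulAut.conj_apply] using h6⟩
          rw [hB1, Subgroup.mem_bot] at h9
          exact Subtype.ext (inv_mul_eq_one.mp h9).symm
        have hbij := hφ.bijective_of_nat_card_le hle
        obtain ⟨b₀, hb₀⟩ := hbij.2 ⟨a, hxA⟩
        intro b hb
        have h11 := (hc b₀ b₀.2).2 b hb
        have h10 : a * b₀ * a⁻¹ * (b₀ : G)⁻¹ = a := congrArg Subtype.val hb₀
        rw [h10] at h11
        exact h11
  intro a ha
  rw [Subgroup.mem_centralizer_iff]
  intro b hb
  have h12 := key n ⟨a, Subgroup.mem_sup_left ha⟩ (by rw [hn]; trivial) ha b hb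
  exact h12.symm

end Cfsg.Agent.S1757
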