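import Cfsg.Statements.S1780
-- import your own Cfsg.Agent.* helpers here

set_option autoImplicit false
open Cfsg

namespace Cfsg.Agent.S1780

/-- Let A be a finite abelian 2-group and t an automorphism of A whose order is a power of 2. If every element of A fixed by t² is fixed by t, then t fixes every element of A. -/
theorem result {A : Type*} [CommGroup A] [Finite A]
    (hA : IsPGroup 2 A) (t : MulAut A) (ht : ∃ k : ℕ, orderOf t = 2 ^ k) (hC : ∀ a : A, t (t a) = a → t a = a) :
    ∀ a : A, t a = a := by
  obtain ⟨k, hk⟩ := ht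
  have htk : t ^ (2 ^ k) = 1 := by rw [← hk]; exact pow_orderOf_eq_one t
  -- the operator `D s v = s v * v`
  have sqD : ∀ (s : MulAut A) (v : A), v * v = 1 → (s v * v) * (s v * v) = 1 := by
    intro s v hv
    calc (s v * v) * (s v * v) = s (v * v) * (v * v) := by rw [map_mul]; exact mul_mul_mul_comm _ _ _ _
      _ = 1 := by rw [hv, map_one, mul_one]
  have iterSq : ∀ (m : ℕ) (v : A), v * v = 1 →
      ((fun w => t w * w)^[m] v) * ((fun w => t w * w)^[m] v) = 1 := by
    intro m
    induction m with
    | zero => intro v hv; simpa using hv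
    | succ m ih =>
      intro v hv
      rw [Function.iterate_succ_apply']
      exact sqD t _ (ih v hv)
  have step1a : ∀ (j : ℕ) (v : A), v * v = 1 →
      (fun w => t w * w)^[2 ^ j] v = (t ^ (2 ^ j)) v * v := by
    intro j
    induction j with
    | zero => intro v hv; simp
    | succ j ih =>
      intro v hv
      have e : 2 ^ (j + 1) = 2 ^ j + 2 ^ j := by ring
      rw [e, Function.iterate_add_apply, ih v hv, ih _ (sqD _ v hv)]
      have h1 : (t ^ (2 ^ j)) v * (t ^ (2 ^ j)) v = 1 := by
        rw [← map_mul, hv, map_one]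
      have h2 : (t ^ (2 ^ j + 2 ^ j)) v = (t ^ (2 ^ j)) ((t ^ (2 ^ j)) v) := by
        rw [pow_add]; rfl
      rw [h2, map_mul]
      calc (t ^ 2 ^ j) ((t ^ 2 ^ j) v) * (t ^ 2 ^ j) v * ((t ^ 2 ^ j) v * v)
          = (t ^ 2 ^ j) ((t ^ 2 ^ j) v) * ((t ^ 2 ^ j) v * (t ^ 2 ^ j) v) * v := by
            simp only [mul_assoc]
        _ = (t ^ 2 ^ j) ((t ^ 2 ^ j) v) * v := by rw [h1, mul_one]
  have step1b : ∀ (m : ℕ) (v : A), v * v = 1 → (fun w => t w * w)^[m + 1] v = 1 → t v * v = 1 := by
    intro m
    induction m with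
    | zero => intro v hv h; simpa using h
    | succ m ih =>
      intro v hv h
      rw [Function.iterate_succ_apply] at h
      have h1 := ih (t v * v) (sqD t v hv) h
      -- h1 : t (t v * v) * (t v * v) = 1
      have h2 : t v * t v = 1 := by rw [← map_mul, hv, map_one]
      have h3 : t (t v) * v = 1 := by
        calc t (t v) * v = t (t v) * (t v * t v) * v := by rw [h2, mul_one]
          _ = t (t v * v) * (t v * v) := by rw [map_mul]; simp only [mul_assoc]
          _ = 1 := h1
      have h4 : t (t v) = v := by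
        calc t (t v) = t (t v) * (v * v) := by rw [hv, mul_one]
          _ = t (t v) * v * v := by rw [mul_assoc]
          _ = v := by rw [h3, one_mul]
      rw [hC v h4]; exact hv
  have step1 : ∀ v : A, v * v = 1 → t v = v := by
    intro v hv
    have h1 : (fun w => t w * w)^[2 ^ k] v = 1 := by
      rw [step1a k v hv, htk]; simpa using hv
    obtain ⟨m, hm⟩ : ∃ m, 2 ^ k = m + 1 := ⟨2 ^ k - 1, by have := Nat.one_le_two_pow (n := k); omega⟩
    rw [hm] at h1
    have h2 := step1b m v hv h1
    calc t v = t v * (v * v) := by rw [hv, mul_one]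
      _ = t v * v * v := by rw [mul_assoc]
      _ = v := by rw [h2, one_mul]
  have step2 : ∀ (r : ℕ) (a : A), a ^ (2 ^ r) = 1 → t a = a := by
    intro r
    induction r with
    | zero => intro a ha; simp at ha; rw [ha, map_one]
    | succ r ih =>
      intro a ha
      have h1 : (a * a) ^ (2 ^ r) = 1 := by
        rw [← pow_two, ← pow_mul, ← pow_succ']; exact ha
      have h2 : t (a * a) = a * a := ih _ h1
      have hb : (t a * a⁻¹) * (t a * a⁻¹) = 1 := by
        calc (t a * a⁻¹) * (t a * a⁻¹) = (t a * t a) * (a * a)⁻¹ := by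
              rw [mul_inv]; exact mul_mul_mul_comm _ _ _ _
          _ = 1 := by rw [← map_mul, h2, mul_inv_cancel]
      have h3 : t (t a * a⁻¹) = t a * a⁻¹ := step1 _ hb
      have h4 : t (t a) = a := by
        have e : t a = (t a * a⁻¹) * a := by rw [inv_mul_cancel_right]
        calc t (t a) = t ((t a * a⁻¹) * a) := by rw [← e]
          _ = t (t a * a⁻¹) * t a := by rw [map_mul]
          _ = (t a * a⁻¹) * ((t a * a⁻¹) * a) := by rw [h3, ← e]
          _ = ((t a * a⁻¹) * (t a * a⁻¹)) * a := (mul_assoc _ _ _).symm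
          _ = a := by rw [hb, one_mul]
      exact hC a h4
  intro a
  obtain ⟨r, hr⟩ := hA a
  exact step2 r a hr

end Cfsg.Agent.S1780
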