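import Cfsg.Statements.S1958
import Cfsg.Agent.Lib_helper2_PCons
import Cfsg.Agent.Lib_helper1_Fitting
import Cfsg.Agent.Lib_helper6_PCore

set_option autoImplicit false
open Cfsg

namespace Cfsg.Agent.S1958

open scoped Pointwise
universe u

/-- `O_{p'}(C)` viewed in `G`: basic properties -/
theorem core_props {G : Type*} [Group G] [Finite G] (p : ℕ) (C : Subgroup G) :
    (Cfsg.pPrimeCore p ↥C).map C.subtype ≤ C ∧
    (Nat.card ↥((Cfsg.pPrimeCore p ↥C).map C.subtype)).Coprime p ∧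
    (∀ c ∈ C, ∀ d ∈ (Cfsg.pPrimeCore p ↥C).map C.subtype,
      c * d * c⁻¹ ∈ (Cfsg.pPrimeCore p ↥C).map C.subtype) ∧
    (∀ B : Subgroup G, B ≤ C → (∀ c ∈ C, ∀ b ∈ B, c * b * c⁻¹ ∈ B) → (Nat.card ↥B).Coprime p →
      B ≤ (Cfsg.pPrimeCore p ↥C).map C.subtype) := by
  refine ⟨Subgroup.map_subtype_le _, ?_, ?_, ?_⟩
  · rw [Subgroup.card_map_of_injective C.subtype_injective]
    exact Cfsg.Agent.Lib_helper1_Fitting.pPrimeCore_coprime p
  · rintro c hc _ ⟨d', hd', rfl⟩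
    have hn : (Cfsg.pPrimeCore p ↥C).Normal := Cfsg.Agent.Lib_helper6_PCore.pPrimeCore_normal p
    exact ⟨⟨c, hc⟩ * d' * ⟨c, hc⟩⁻¹, hn.conj_mem d' hd' ⟨c, hc⟩, rfl⟩
  · intro B hBC hBn hBc
    have hn : (B.subgroupOf C).Normal := by
      refine ⟨fun b hb c => ?_⟩
      rw [Subgroup.mem_subgroupOf] at hb ⊢
      exact hBn c c.2 b hb
    have hc : (Nat.card ↥(B.subgroupOf C)).Coprime p := by
      rw [Nat.card_congr (Subgroup.subgroupOfEquivOfLe hBC).toEquiv]; exact hBc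
    have hle := Cfsg.Agent.Lib_helper1_Fitting.le_pPrimeCore p (B.subgroupOf C) hn hc
    intro b hb
    exact ⟨⟨b, hBC hb⟩, hle (Subgroup.mem_subgroupOf.mpr hb), rfl⟩

theorem conj_core_le {G : Type*} [Group G] [Finite G] (p : ℕ) (C : Subgroup G) (n : G)
    (h1 : ∀ c ∈ C, n * c * n⁻¹ ∈ C) (h2 : ∀ c ∈ C, n⁻¹ * c * n ∈ C) :
    ∀ d ∈ (Cfsg.pPrimeCore p ↥C).map C.subtype,
      n * d * n⁻¹ ∈ (Cfsg.pPrimeCore p ↥C).map C.subtype := by
  obtain ⟨hOC, hOc, hOn, hOu⟩ := core_props p C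
  obtain ⟨O, hO⟩ : ∃ O : Subgroup G, O = (Cfsg.pPrimeCore p ↥C).map C.subtype := ⟨_, rfl⟩
  rw [← hO] at hOC hOc hOn hOu ⊢
  have hle : O.map (MulAut.conj n).toMonoidHom ≤ O := by
    apply hOu
    · rintro _ ⟨d, hd, rfl⟩
      exact h1 d (hOC hd)
    · rintro c hc _ ⟨d, hd, rfl⟩
      refine ⟨(n⁻¹ * c * n) * d * (n⁻¹ * c * n)⁻¹, hOn _ (h2 c hc) d hd, ?_⟩
      show n * ((n⁻¹ * c * n) * d * (n⁻¹ * c * n)⁻¹) * n⁻¹ = c * (n * d * n⁻¹) * c⁻¹
      group
    · rw [Subgroup.card_map_of_injective (MulAut.conj n).injective]; exact hOc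
  intro d hd
  exact hle ⟨d, hd, rfl⟩

theorem half {G : Type*} [Group G] [Finite G] (p : ℕ) [Fact p.Prime] (x y : G)
    (hx : orderOf x = p) (hxy : x * y = y * x)
    (hCy : Group.IsSolvable ↥(Subgroup.centralizer ({y} : Set G))) :
    Cfsg.centralizerPPrimeCore p x ⊓ Subgroup.centralizer {y} ≤
      Cfsg.centralizerPPrimeCore p y := by
  have hp : p.Prime := Fact.out
  unfold Cfsg.centralizerPPrimeCore
  obtain ⟨H, hH⟩ : ∃ H : Subgroup G, H = Subgroup.centralizer ({y} : Set G) := ⟨_, rfl⟩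
  obtain ⟨C, hC⟩ : ∃ C : Subgroup G, C = Subgroup.centralizer ({x} : Set G) := ⟨_, rfl⟩
  rw [← hH, ← hC]
  rw [← hH] at hCy
  haveI := hCy
  have hmemC : ∀ c : G, c ∈ C ↔ x * c = c * x := by
    intro c; rw [hC, Subgroup.mem_centralizer_singleton_iff]; exact eq_comm
  have hxH : x ∈ H := by rw [hH, Subgroup.mem_centralizer_singleton_iff]; exact hxy
  obtain ⟨hOC, hOc, hOn, hOu⟩ := core_props p C
  obtain ⟨O, hO⟩ : ∃ O : Subgroup G, O = (Cfsg.pPrimeCore p ↥C).map C.subtype := ⟨_, rfl⟩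
  have hconj := conj_core_le p C
  rw [← hO] at hOC hOc hOn hOu hconj ⊢
  -- the p-subgroup generated by x inside H
  obtain ⟨P, hP⟩ : ∃ P : Subgroup ↥H, P = Subgroup.zpowers (⟨x, hxH⟩ : ↥H) := ⟨_, rfl⟩
  have hPp : IsPGroup p ↥P := by
    apply IsPGroup.of_card (n := 1)
    rw [hP, Nat.card_zpowers, pow_one, Subgroup.orderOf_mk]; exact hx
  have hL : Cfsg.pLayer p ↥H = ⊥ := Cfsg.Agent.Lib_helper2_PCons.pLayer_eq_bot_of_solvable p
  have hN := (Cfsg.Agent.Lib_helper2_PCons.pLayer_normalizer p hL P hPp).2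
  obtain ⟨N, hNdef⟩ : ∃ N : Subgroup ↥H, N = Subgroup.normalizer (P : Set ↥H) := ⟨_, rfl⟩
  rw [← hNdef] at hN
  -- elements of N normalize C
  have hNC : ∀ n : ↥H, n ∈ N → (∀ c ∈ C, (n : G) * c * (n : G)⁻¹ ∈ C) ∧
      (∀ c ∈ C, (n : G)⁻¹ * c * (n : G) ∈ C) := by
    intro n hn
    rw [hNdef, Subgroup.mem_normalizer_iff] at hn
    have hxP : (⟨x, hxH⟩ : ↥H) ∈ P := by rw [hP]; exact Subgroup.mem_zpowers _
    have h1 : n * ⟨x, hxH⟩ * n⁻¹ ∈ P := (hn _).mp hxP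
    have h2 : n⁻¹ * ⟨x, hxH⟩ * n ∈ P := by
      rw [hn]
      have : n * (n⁻¹ * ⟨x, hxH⟩ * n) * n⁻¹ = ⟨x, hxH⟩ := by group
      rw [this]; exact hxP
    rw [hP] at h1 h2
    obtain ⟨i, hi⟩ := h1
    obtain ⟨k, hk⟩ := h2
    have hi' : x ^ i = (n : G) * x * (n : G)⁻¹ := by
      have := congrArg Subtype.val hi
      simpa using this
    have hk' : x ^ k = (n : G)⁻¹ * x * (n : G) := by
      have := congrArg Subtype.val hk
      simpa using this
    constructor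
    · intro c hc
      rw [hmemC] at hc ⊢
      -- x = (n x n⁻¹)^k
      have hxk : x = ((n : G) * x * (n : G)⁻¹) ^ k := by
        rw [conj_zpow, hk']; group
      have hcomm : Commute ((n : G) * x * (n : G)⁻¹) ((n : G) * c * (n : G)⁻¹) := by
        show (n : G) * x * (n : G)⁻¹ * ((n : G) * c * (n : G)⁻¹) =
          (n : G) * c * (n : G)⁻¹ * ((n : G) * x * (n : G)⁻¹)
        calc (n : G) * x * (n : G)⁻¹ * ((n : G) * c * (n : G)⁻¹)
            = (n : G) * (x * c) * (n : G)⁻¹ := by group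
          _ = (n : G) * (c * x) * (n : G)⁻¹ := by rw [hc]
          _ = (n : G) * c * (n : G)⁻¹ * ((n : G) * x * (n : G)⁻¹) := by group
      have := (hcomm.zpow_left k).eq
      rw [← hxk] at this
      exact this
    · intro c hc
      rw [hmemC] at hc ⊢
      have hxi : x = ((n : G)⁻¹ * x * (n : G)) ^ i := by
        have h3 : ((n : G)⁻¹ * x * (n : G)) ^ i = (n : G)⁻¹ * x ^ i * (n : G) := by
          have := conj_zpow (a := (n : G)⁻¹) (b := x) (i := i)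
          rw [inv_inv] at this
          exact this
        rw [h3, hi']; group
      have hcomm : Commute ((n : G)⁻¹ * x * (n : G)) ((n : G)⁻¹ * c * (n : G)) := by
        show (n : G)⁻¹ * x * (n : G) * ((n : G)⁻¹ * c * (n : G)) =
          (n : G)⁻¹ * c * (n : G) * ((n : G)⁻¹ * x * (n : G))
        calc (n : G)⁻¹ * x * (n : G) * ((n : G)⁻¹ * c * (n : G))
            = (n : G)⁻¹ * (x * c) * (n : G) := by group
          _ = (n : G)⁻¹ * (c * x) * (n : G) := by rw [hc]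
          _ = (n : G)⁻¹ * c * (n : G) * ((n : G)⁻¹ * x * (n : G)) := by group
      have := (hcomm.zpow_left i).eq
      rw [← hxi] at this
      exact this
  -- the subgroup D of H
  obtain ⟨D, hD⟩ : ∃ D : Subgroup ↥H, D = (O ⊓ H).subgroupOf H := ⟨_, rfl⟩
  have hDmem : ∀ d : ↥H, d ∈ D ↔ (d : G) ∈ O := by
    intro d
    rw [hD, Subgroup.mem_subgroupOf, Subgroup.mem_inf]
    exact ⟨fun h => h.1, fun h => ⟨h, d.2⟩⟩
  have hDN : D ≤ N := by
    intro d hd
    rw [hNdef, Subgroup.mem_normalizer_iff]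
    have hdC : x * (d : G) = (d : G) * x := (hmemC _).mp (hOC ((hDmem d).mp hd))
    have hdx : d * ⟨x, hxH⟩ = ⟨x, hxH⟩ * d := Subtype.ext hdC.symm
    have hcomm : ∀ h ∈ P, d * h * d⁻¹ = h := by
      intro h hh
      rw [hP] at hh
      obtain ⟨j, rfl⟩ := hh
      have : Commute d (⟨x, hxH⟩ : ↥H) := hdx
      rw [(this.zpow_right j).eq, mul_inv_cancel_right]
    intro h
    constructor
    · intro hh; rw [hcomm h hh]; exact hh
    · intro hh
      have h3 := hcomm _ hh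
      have h4 : d * h * d⁻¹ = h := by
        have : d * (d * h * d⁻¹) * d⁻¹ = d * h * d⁻¹ := h3
        have h5 := mul_left_cancel (mul_right_cancel this)
        exact h5
      rw [← h4]; exact hh
  have hD2n : (D.subgroupOf N).Normal := by
    refine ⟨fun d hd n => ?_⟩
    rw [Subgroup.mem_subgroupOf] at hd ⊢
    rw [hDmem] at hd ⊢
    obtain ⟨h1, h2⟩ := hNC n.1 n.2
    exact hconj (n.1 : G) h1 h2 _ hd
  have hD2c : (Nat.card ↥(D.subgroupOf N)).Coprime p := by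
    rw [Nat.card_congr (Subgroup.subgroupOfEquivOfLe hDN).toEquiv, hD,
      Nat.card_congr (Subgroup.subgroupOfEquivOfLe (inf_le_right : O ⊓ H ≤ H)).toEquiv]
    exact Nat.Coprime.coprime_dvd_left (Subgroup.card_dvd_of_le inf_le_left) hOc
  have hle := Cfsg.Agent.Lib_helper1_Fitting.le_pPrimeCore p (D.subgroupOf N) hD2n hD2c
  intro d hd
  obtain ⟨hdO, hdH⟩ := Subgroup.mem_inf.mp hd
  have hdD : (⟨d, hdH⟩ : ↥H) ∈ D := (hDmem _).mpr hdO
  have h1 : (⟨⟨d, hdH⟩, hDN hdD⟩ : ↥N) ∈ Cfsg.pPrimeCore p ↥N :=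
    hle (Subgroup.mem_subgroupOf.mpr hdD)
  have h2 : (⟨d, hdH⟩ : ↥H) ∈ Cfsg.pPrimeCore p ↥H := hN ⟨_, h1, rfl⟩
  exact ⟨⟨d, hdH⟩, h2, rfl⟩


/-- Let `G` be a finite group, `p` a prime, and `x, y` commuting elements of order `p` whose centralizers `C_G(x)` and `C_G(y)` are both solvable. Then `O_{p'}(C_G(x)) ∩ C_G(y) = O_{p'}(C_G(y)) ∩ C_G(x)` (balance). -/
theorem result {G : Type*} [Group G] [Finite G]
    (p : ℕ) [Fact p.Prime] (x y : G) (hx : orderOf x = p) (hy : orderOf y = p) (hxy : x * y = y * x)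
    (hCx : Group.IsSolvable ↥(Subgroup.centralizer ({x} : Set G))) (hCy : Group.IsSolvable ↥(Subgroup.centralizer ({y} : Set G))) :
    Cfsg.centralizerPPrimeCore p x ⊓ Subgroup.centralizer {y} = Cfsg.centralizerPPrimeCore p y ⊓ Subgroup.centralizer {x} := by
  apply le_antisymm
  · apply le_inf
    · exact half p x y hx hxy hCy
    · exact inf_le_left.trans (Subgroup.map_subtype_le _)
  · apply le_inf
    · exact half p y x hy hxy.symm hCx
    · exact inf_le_left.trans (Subgroup.map_subtype_le _)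

end Cfsg.Agent.S1958
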