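import Cfsg.Statements.S1966
import Cfsg.Agent.Lib_helper7_Stab

set_option autoImplicit false
open Cfsg

namespace Cfsg.Agent.S1966

/-- Let p be a prime, G a finite group with Sylow p-subgroup S and 𝓕 a conjugation family for S in G. Then the members of 𝓕 containing O_p(G) still form a conjugation family for S in G. -/
theorem result {G : Type*} [Group G] [Finite G] {p : ℕ} [Fact p.Prime] (S : Sylow p G) (𝓕 : Set (Subgroup G)) (h : Cfsg.IsConjugationFamily 𝓕 (S : Subgroup G)) : Cfsg.IsConjugationFamily {T : Subgroup G | T ∈ 𝓕 ∧ Cfsg.pCore p G ≤ T} (S : Subgroup G) := by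
  refine ⟨fun T hT => h.1 T hT.1, ?_⟩
  intro A g hne hAS hAg
  have hcn : (Cfsg.pCore p G).Normal := inferInstance
  have hcS : Cfsg.pCore p G ≤ (S : Subgroup G) := Cfsg.Agent.Lib_helper7_Stab.pCore_le_sylow S
  obtain ⟨n, T, x, hprod, hT, hx, h0, hstep⟩ := h.2 (A ∪ (Cfsg.pCore p G : Set G)) g
    (hne.mono Set.subset_union_left) (Set.union_subset hAS hcS)
    (by
      rintro _ ⟨a, ha | ha, rfl⟩
      · exact hAg ⟨a, ha, rfl⟩
      · apply hcS
        have := hcn.conj_mem a ha g⁻¹
        simpa using this)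
  refine ⟨n, T, x, hprod, ?_, hx, fun h => Set.subset_union_left.trans (h0 h),
    fun i h => (Set.image_mono Set.subset_union_left).trans (hstep i h)⟩
  intro i
  refine ⟨hT i, ?_⟩
  rcases i with ⟨i, hi⟩
  cases i with
  | zero => exact fun y hy => h0 hi (Or.inr hy)
  | succ j =>
    intro y hy
    have hj : j < n := by omega
    have h1 := hstep ⟨j, hj⟩ hi
    apply h1
    refine ⟨((List.ofFn x).take (j + 1)).prod * y * (((List.ofFn x).take (j + 1)).prod)⁻¹,
      Or.inr (hcn.conj_mem y hy _), ?_⟩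
    show (((List.ofFn x).take (j + 1)).prod)⁻¹ *
      (((List.ofFn x).take (j + 1)).prod * y * (((List.ofFn x).take (j + 1)).prod)⁻¹) *
      ((List.ofFn x).take (j + 1)).prod = y
    group

end Cfsg.Agent.S1966
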