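import Cfsg.Statements.S1967
import Cfsg.Agent.Lib_helper7_Sylow

set_option autoImplicit false
open Cfsg

namespace Cfsg.Agent.S1967

/-- Let p be a prime, G a finite group with Sylow p-subgroup S and W a conjugacy functor for p on G. Then W controls strong fusion in G if and only if, whenever T ≤ S and g ∈ G satisfy gTg⁻¹ ≤ S, one can write g = n c with n ∈ N_G(W(S)) and c ∈ C_G(T). -/
theorem result {G : Type*} [Group G] [Finite G] {p : ℕ} [Fact p.Prime] (S : Sylow p G) (W : Subgroup G → Subgroup G) (hW : Cfsg.IsConjugacyFunctor p W) : Cfsg.ControlsStrongFusionIn p W ⊤ ↔ ∀ (T : Subgroup G) (g : G), T ≤ (S : Subgroup G) → T.map (MulAut.conj g).toMonoidHom ≤ (S : Subgroup G) → ∃ n ∈ Subgroup.normalizer ((W (S : Subgroup G) : Subgroup G) : Set G), ∃ c ∈ Subgroup.centralizer (T : Set G), g = n * c := by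
  constructor
  · rintro ⟨T₀, -, hT₀p, hT₀i, hctrl⟩ T g hTS hTg
    have hidx : ¬ p ∣ T₀.index := by
      rwa [Subgroup.relIndex_top_right] at hT₀i
    obtain ⟨k, hk⟩ := MulAction.exists_smul_eq G (hT₀p.toSylow hidx) S
    have hS : ∀ y : G, y ∈ (S : Subgroup G) ↔ k⁻¹ * y * k ∈ T₀ := by
      intro y
      rw [← hk, Sylow.coe_subgroup_smul, Subgroup.mem_pointwise_smul_iff_inv_smul_mem]
      simp [MulAut.smul_def, MulAut.conj_apply, mul_assoc]
    have hSeq : (S : Subgroup G) = T₀.map (MulAut.conj k).toMonoidHom := by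
      ext y
      rw [hS, Cfsg.Agent.Lib_helper7_Sylow.mem_map_conj]
    obtain ⟨x, hx, hxA⟩ := hctrl ((fun t => k⁻¹ * t * k) '' (T : Set G)) (k⁻¹ * g * k) (Subgroup.mem_top _)
      (by
        rintro _ ⟨t, ht, rfl⟩
        exact (hS t).mp (hTS ht))
      (by
        rintro _ ⟨_, ⟨t, ht, rfl⟩, rfl⟩
        have h1 : g * t * g⁻¹ ∈ (S : Subgroup G) := hTg ⟨t, ht, by simp⟩
        have h2 := (hS _).mp h1
        have e : k⁻¹ * g * k * (k⁻¹ * t * k) * (k⁻¹ * g * k)⁻¹ = k⁻¹ * (g * t * g⁻¹) * k := by group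
        show k⁻¹ * g * k * (k⁻¹ * t * k) * (k⁻¹ * g * k)⁻¹ ∈ T₀
        rw [e]
        exact h2)
    have hxN : x ∈ Subgroup.normalizer ((W T₀ : Subgroup G) : Set G) := (Subgroup.mem_inf.mp hx).2
    refine ⟨k * x * k⁻¹, ?_, (k * x * k⁻¹)⁻¹ * g, ?_, by group⟩
    · rw [hSeq, (hW T₀ hT₀p).2.2 k, Subgroup.mem_normalizer_iff]
      intro y
      rw [Cfsg.Agent.Lib_helper7_Sylow.mem_map_conj, Cfsg.Agent.Lib_helper7_Sylow.mem_map_conj]
      have h1 := Subgroup.mem_normalizer_iff.mp hxN (k⁻¹ * y * k)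
      rw [h1]
      have e : k⁻¹ * (k * x * k⁻¹ * y * (k * x * k⁻¹)⁻¹) * k = x * (k⁻¹ * y * k) * x⁻¹ := by group
      rw [e]
    · rw [Subgroup.mem_centralizer_iff]
      intro t ht
      have h1 := hxA (k⁻¹ * t * k) ⟨t, ht, rfl⟩
      have h2 : (k * x * k⁻¹)⁻¹ * g * t * ((k * x * k⁻¹)⁻¹ * g)⁻¹ = t := by
        calc (k * x * k⁻¹)⁻¹ * g * t * ((k * x * k⁻¹)⁻¹ * g)⁻¹
            = k * x⁻¹ * (k⁻¹ * g * k * (k⁻¹ * t * k) * (k⁻¹ * g * k)⁻¹) * x * k⁻¹ := by group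
          _ = k * x⁻¹ * (x * (k⁻¹ * t * k) * x⁻¹) * x * k⁻¹ := by rw [h1]
          _ = t := by group
      calc t * ((k * x * k⁻¹)⁻¹ * g)
          = ((k * x * k⁻¹)⁻¹ * g * t * ((k * x * k⁻¹)⁻¹ * g)⁻¹) * ((k * x * k⁻¹)⁻¹ * g) := by rw [h2]
        _ = (k * x * k⁻¹)⁻¹ * g * t := by group
  · intro hfac
    refine ⟨(S : Subgroup G), le_top, S.isPGroup', ?_, ?_⟩
    · rw [Subgroup.relIndex_top_right]
      exact S.not_dvd_index
    · intro A h _ hAS hAh
      have h1 : Subgroup.closure A ≤ (S : Subgroup G) := (Subgroup.closure_le _).mpr hAS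
      have h2 : (Subgroup.closure A).map (MulAut.conj h).toMonoidHom ≤ (S : Subgroup G) := by
        rw [MonoidHom.map_closure, Subgroup.closure_le]
        rintro _ ⟨a, ha, rfl⟩
        exact hAh ⟨a, ha, by simp⟩
      obtain ⟨n, hn, c, hc, hnc⟩ := hfac (Subgroup.closure A) h h1 h2
      refine ⟨n, Subgroup.mem_inf.mpr ⟨Subgroup.mem_top n, hn⟩, fun a ha => ?_⟩
      rw [Subgroup.mem_centralizer_iff] at hc
      have h3 := hc a (Subgroup.subset_closure ha)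
      rw [hnc]
      calc n * a * n⁻¹ = n * (a * c) * c⁻¹ * n⁻¹ := by group
        _ = n * (c * a) * c⁻¹ * n⁻¹ := by rw [h3]
        _ = n * c * a * (n * c)⁻¹ := by group

end Cfsg.Agent.S1967
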