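import Cfsg.Statements.S1976
import Cfsg.Agent.Lib_helper7_KSeq

set_option autoImplicit false
open Cfsg

namespace Cfsg.Agent.S1976

/-- Let P be a finite p-group. The K-sequence of P is eventually constant on each parity: from some index on, every even-indexed term equals the lower K-infinity subgroup and every odd-indexed term equals the upper K-infinity subgroup. -/
theorem result {P : Type*} [Group P] [Finite P] {p : ℕ} [Fact p.Prime] (hP : IsPGroup p P) : ∃ n : ℕ, ∀ m : ℕ, n ≤ m → Cfsg.kSeqEven P m = Cfsg.kInfLower P ∧ Cfsg.kSeqOdd P m = Cfsg.kInfUpper P := by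
  obtain ⟨n₁, hn₁⟩ := WellFoundedGT.monotone_chain_condition
    (⟨Cfsg.kSeqEven P, Cfsg.Agent.Lib_helper7_KSeq.kSeqEven_monotone⟩ : ℕ →o Subgroup P)
  obtain ⟨n₂, hn₂⟩ := WellFoundedLT.antitone_chain_condition (Cfsg.Agent.Lib_helper7_KSeq.kSeqOdd_antitone (P := P))
  have hn₁' : ∀ m, n₁ ≤ m → Cfsg.kSeqEven P n₁ = Cfsg.kSeqEven P m := hn₁
  have hlow : Cfsg.kInfLower P = Cfsg.kSeqEven P n₁ := by
    apply le_antisymm
    · apply iSup_le
      intro k
      rcases le_total k n₁ with h | h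
      · exact Cfsg.Agent.Lib_helper7_KSeq.kSeqEven_monotone h
      · exact (hn₁' k h).ge
    · exact le_iSup (Cfsg.kSeqEven P) n₁
  have hup : Cfsg.kInfUpper P = Cfsg.kSeqOdd P n₂ := by
    apply le_antisymm
    · exact iInf_le (Cfsg.kSeqOdd P) n₂
    · apply le_iInf
      intro k
      rcases le_total k n₂ with h | h
      · exact Cfsg.Agent.Lib_helper7_KSeq.kSeqOdd_antitone h
      · exact (hn₂ k h).le
  refine ⟨max n₁ n₂, fun m hm => ⟨?_, ?_⟩⟩
  · rw [hlow]
    exact (hn₁' m ((le_max_left _ _).trans hm)).symm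
  · rw [hup]
    exact (hn₂ m ((le_max_right _ _).trans hm)).symm

end Cfsg.Agent.S1976
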