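import Cfsg.Statements.S1981
import Cfsg.Agent.Lib_helper7_KSeq

set_option autoImplicit false
open Cfsg

namespace Cfsg.Agent.S1981

/-- Let P be a finite p-group generated by its abelian normal subgroups. Then both K-infinity subgroups of P equal P. -/
theorem result {P : Type*} [Group P] [Finite P] {p : ℕ} [Fact p.Prime] (hP : IsPGroup p P) (hgen : ⨆ A ∈ {A : Subgroup P | A.Normal ∧ IsMulCommutative ↥A}, A = ⊤) : Cfsg.kInfLower P = ⊤ ∧ Cfsg.kInfUpper P = ⊤ := by
  have h1 : ∀ n : ℕ, Cfsg.kSeqEven P n = ⊤ := by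
    intro n
    rw [eq_top_iff, ← hgen]
    apply iSup₂_le
    rintro A ⟨hAn, hAc⟩
    exact Cfsg.Agent.Lib_helper7_KSeq.abelian_normal_le_even A hAc n
  have h2 : ∀ n : ℕ, Cfsg.kSeqOdd P n = ⊤ := by
    intro n
    rw [eq_top_iff, ← hgen]
    apply iSup₂_le
    rintro A ⟨hAn, hAc⟩
    exact Cfsg.Agent.Lib_helper7_KSeq.abelian_normal_le_odd A hAc n
  constructor
  · unfold Cfsg.kInfLower
    rw [eq_top_iff]
    exact le_iSup_of_le 0 (h1 0).ge
  · unfold Cfsg.kInfUpper
    rw [eq_top_iff]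
    exact le_iInf (fun n => (h2 n).ge)

end Cfsg.Agent.S1981
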