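import Cfsg.Statements.S2298
import Mathlib
import Cfsg.Agent.Lib_helper8_GL2Irr

set_option autoImplicit false
open Cfsg

namespace Cfsg.Agent.S2298

/-- Over a finite field F with q elements, every irreducible complex character of GL₂ has degree 1, q − 1, q or q + 1; and when q ≥ 3 (so that these four numbers are distinct) there are exactly q − 1 irreducible characters of degree 1, exactly q − 1 of degree q, exactly (q − 1)(q − 2)/2 of degree q + 1 and exactly q(q − 1)/2 of degree q − 1. -/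
theorem result {F : Type*} [Field F] [Fintype F] :
    (∀ χ : Matrix.GeneralLinearGroup (Fin 2) F → ℂ, Cfsg.IsIrrCharacter (Matrix.GeneralLinearGroup (Fin 2) F) χ →
      χ 1 = 1 ∨ χ 1 = (Fintype.card F : ℂ) - 1 ∨ χ 1 = (Fintype.card F : ℂ) ∨ χ 1 = (Fintype.card F : ℂ) + 1) ∧
    (3 ≤ Fintype.card F →
      Nat.card {χ : Cfsg.IrrCharacter (Matrix.GeneralLinearGroup (Fin 2) F) // (χ : Matrix.GeneralLinearGroup (Fin 2) F → ℂ) 1 = 1} = Fintype.card F - 1 ∧
      Nat.card {χ : Cfsg.IrrCharacter (Matrix.GeneralLinearGroup (Fin 2) F) // (χ : Matrix.GeneralLinearGroup (Fin 2) F → ℂ) 1 = (Fintype.card F : ℂ)} = Fintype.card F - 1 ∧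
      Nat.card {χ : Cfsg.IrrCharacter (Matrix.GeneralLinearGroup (Fin 2) F) // (χ : Matrix.GeneralLinearGroup (Fin 2) F → ℂ) 1 = (Fintype.card F : ℂ) + 1} = (Fintype.card F - 1) * (Fintype.card F - 2) / 2 ∧
      Nat.card {χ : Cfsg.IrrCharacter (Matrix.GeneralLinearGroup (Fin 2) F) // (χ : Matrix.GeneralLinearGroup (Fin 2) F → ℂ) 1 = (Fintype.card F : ℂ) - 1} = Fintype.card F * (Fintype.card F - 1) / 2) := by
  classical
  haveI : Fintype (Matrix.GeneralLinearGroup (Fin 2) F) := Fintype.ofFinite _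
  haveI : Fintype (MulChar F ℂ) := Fintype.ofFinite _
  haveI : Finite (Cfsg.IrrCharacter (Matrix.GeneralLinearGroup (Fin 2) F)) :=
    Cfsg.Agent.Lib_helper3_CharBasic.irr_finite
  haveI : Fintype (Cfsg.IrrCharacter (Matrix.GeneralLinearGroup (Fin 2) F)) := Fintype.ofFinite _
  constructor
  · intro χ hχ
    rcases Cfsg.Agent.Lib_helper8_GL2Irr.type_vals' hχ with ⟨h1, -⟩ | ⟨h1, -⟩ | ⟨h1, -⟩ | ⟨h1, -⟩
    · exact Or.inl h1
    · exact Or.inr (Or.inr (Or.inl h1))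
    · exact Or.inr (Or.inr (Or.inr h1))
    · exact Or.inr (Or.inl h1)
  · intro hq
    obtain ⟨D1, D2, D3, D4, D5, D6⟩ := Cfsg.Agent.Lib_helper8_GL2Irr.deg_distinct hq
    have key : ∀ χ : Cfsg.IrrCharacter (Matrix.GeneralLinearGroup (Fin 2) F),
        Cfsg.Agent.Lib_helper8_GL2Irr.m0 (χ : Matrix.GeneralLinearGroup (Fin 2) F → ℂ) ^ 2 = (if (χ : Matrix.GeneralLinearGroup (Fin 2) F → ℂ) 1 = 1 then (1 : ℂ) else 0) +
          (if (χ : Matrix.GeneralLinearGroup (Fin 2) F → ℂ) 1 = (Fintype.card F : ℂ) then (1 : ℂ) else 0) +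
          4 * (if (χ : Matrix.GeneralLinearGroup (Fin 2) F → ℂ) 1 = (Fintype.card F : ℂ) + 1 then (1 : ℂ) else 0) ∧
        Cfsg.Agent.Lib_helper8_GL2Irr.m0 (χ : Matrix.GeneralLinearGroup (Fin 2) F → ℂ) * Cfsg.Agent.Lib_helper8_GL2Irr.m1 (χ : Matrix.GeneralLinearGroup (Fin 2) F → ℂ) = (if (χ : Matrix.GeneralLinearGroup (Fin 2) F → ℂ) 1 = (Fintype.card F : ℂ) then (1 : ℂ) else 0) +
          2 * (if (χ : Matrix.GeneralLinearGroup (Fin 2) F → ℂ) 1 = (Fintype.card F : ℂ) + 1 then (1 : ℂ) else 0) ∧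
        Cfsg.Agent.Lib_helper8_GL2Irr.m1 (χ : Matrix.GeneralLinearGroup (Fin 2) F → ℂ) ^ 2 = (if (χ : Matrix.GeneralLinearGroup (Fin 2) F → ℂ) 1 = (Fintype.card F : ℂ) then (1 : ℂ) else 0) +
          (if (χ : Matrix.GeneralLinearGroup (Fin 2) F → ℂ) 1 = (Fintype.card F : ℂ) + 1 then (1 : ℂ) else 0) +
          (if (χ : Matrix.GeneralLinearGroup (Fin 2) F → ℂ) 1 = (Fintype.card F : ℂ) - 1 then (1 : ℂ) else 0) ∧
        (1 : ℂ) = (if (χ : Matrix.GeneralLinearGroup (Fin 2) F → ℂ) 1 = 1 then (1 : ℂ) else 0) +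
          (if (χ : Matrix.GeneralLinearGroup (Fin 2) F → ℂ) 1 = (Fintype.card F : ℂ) then (1 : ℂ) else 0) +
          (if (χ : Matrix.GeneralLinearGroup (Fin 2) F → ℂ) 1 = (Fintype.card F : ℂ) + 1 then (1 : ℂ) else 0) +
          (if (χ : Matrix.GeneralLinearGroup (Fin 2) F → ℂ) 1 = (Fintype.card F : ℂ) - 1 then (1 : ℂ) else 0) := by
      intro χ
      rcases Cfsg.Agent.Lib_helper8_GL2Irr.type_vals χ.2 with ⟨h1, h0, hm⟩ | ⟨h1, h0, hm⟩ | ⟨h1, h0, hm⟩ | ⟨h1, h0, hm⟩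
      · rw [h1, h0, hm, if_pos rfl, if_neg D1, if_neg D2, if_neg D3]
        norm_num
      · rw [h1, h0, hm, if_neg (Ne.symm D1), if_pos rfl, if_neg D4, if_neg D5]
        norm_num
      · rw [h1, h0, hm, if_neg (Ne.symm D2), if_neg (Ne.symm D4), if_pos rfl, if_neg D6]
        norm_num
      · rw [h1, h0, hm, if_neg (Ne.symm D3), if_neg (Ne.symm D5), if_neg (Ne.symm D6), if_pos rfl]
        norm_num
    have hA := Cfsg.Agent.Lib_helper8_GL2Irr.sumA (F := F)
    obtain ⟨hB, hC⟩ := Cfsg.Agent.Lib_helper8_GL2Irr.sumBC (F := F)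
    have hN : (∑ _χ : Cfsg.IrrCharacter (Matrix.GeneralLinearGroup (Fin 2) F), (1 : ℂ)) = (Fintype.card F : ℂ) ^ 2 - 1 := by
      rw [Finset.sum_const, Finset.card_univ, Cfsg.Agent.Lib_helper8_GL2Irr.card_irr, nsmul_eq_mul, mul_one,
        Nat.cast_sub (Nat.one_le_pow _ _ (by omega))]
      push_cast
      ring
    obtain ⟨n1, hn1⟩ : ∃ n : ℕ, n = (Finset.univ.filter (fun χ : Cfsg.IrrCharacter (Matrix.GeneralLinearGroup (Fin 2) F) => (χ : Matrix.GeneralLinearGroup (Fin 2) F → ℂ) 1 = 1)).card :=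
      ⟨_, rfl⟩
    obtain ⟨nq, hnq⟩ : ∃ n : ℕ, n = (Finset.univ.filter (fun χ : Cfsg.IrrCharacter (Matrix.GeneralLinearGroup (Fin 2) F) => (χ : Matrix.GeneralLinearGroup (Fin 2) F → ℂ) 1 = (Fintype.card F : ℂ))).card :=
      ⟨_, rfl⟩
    obtain ⟨nq1, hnq1⟩ : ∃ n : ℕ, n = (Finset.univ.filter (fun χ : Cfsg.IrrCharacter (Matrix.GeneralLinearGroup (Fin 2) F) => (χ : Matrix.GeneralLinearGroup (Fin 2) F → ℂ) 1 = (Fintype.card F : ℂ) + 1)).card :=
      ⟨_, rfl⟩
    obtain ⟨nqm, hnqm⟩ : ∃ n : ℕ, n = (Finset.univ.filter (fun χ : Cfsg.IrrCharacter (Matrix.GeneralLinearGroup (Fin 2) F) => (χ : Matrix.GeneralLinearGroup (Fin 2) F → ℂ) 1 = (Fintype.card F : ℂ) - 1)).card :=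
      ⟨_, rfl⟩
    have s1 : ∑ χ : Cfsg.IrrCharacter (Matrix.GeneralLinearGroup (Fin 2) F), (if (χ : Matrix.GeneralLinearGroup (Fin 2) F → ℂ) 1 = 1 then (1 : ℂ) else 0) = n1 := by
      rw [Finset.sum_boole, hn1]
    have s2 : ∑ χ : Cfsg.IrrCharacter (Matrix.GeneralLinearGroup (Fin 2) F), (if (χ : Matrix.GeneralLinearGroup (Fin 2) F → ℂ) 1 = (Fintype.card F : ℂ) then (1 : ℂ) else 0) = nq := by
      rw [Finset.sum_boole, hnq]
    have s3 : ∑ χ : Cfsg.IrrCharacter (Matrix.GeneralLinearGroup (Fin 2) F), (if (χ : Matrix.GeneralLinearGroup (Fin 2) F → ℂ) 1 = (Fintype.card F : ℂ) + 1 then (1 : ℂ) else 0) = nq1 := by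
      rw [Finset.sum_boole, hnq1]
    have s4 : ∑ χ : Cfsg.IrrCharacter (Matrix.GeneralLinearGroup (Fin 2) F), (if (χ : Matrix.GeneralLinearGroup (Fin 2) F → ℂ) 1 = (Fintype.card F : ℂ) - 1 then (1 : ℂ) else 0) = nqm := by
      rw [Finset.sum_boole, hnqm]
    have hA' : (n1 : ℂ) + nq + 4 * nq1 = 2 * ((Fintype.card F : ℂ) - 1) ^ 2 := by
      rw [← hA, ← s1, ← s2, ← s3, Finset.mul_sum, ← Finset.sum_add_distrib,
        ← Finset.sum_add_distrib]
      exact Finset.sum_congr rfl (fun χ _ => (key χ).1.symm)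
    have hB' : (nq : ℂ) + 2 * nq1 = ((Fintype.card F : ℂ) - 1) ^ 2 := by
      rw [← hB, ← s2, ← s3, Finset.mul_sum, ← Finset.sum_add_distrib]
      exact Finset.sum_congr rfl (fun χ _ => (key χ).2.1.symm)
    have hC' : (nq : ℂ) + nq1 + nqm = (Fintype.card F : ℂ) * ((Fintype.card F : ℂ) - 1) := by
      rw [← hC, ← s2, ← s3, ← s4, ← Finset.sum_add_distrib, ← Finset.sum_add_distrib]
      exact Finset.sum_congr rfl (fun χ _ => (key χ).2.2.1.symm)
    have hN' : (n1 : ℂ) + nq + nq1 + nqm = (Fintype.card F : ℂ) ^ 2 - 1 := by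
      rw [← hN, ← s1, ← s2, ← s3, ← s4, ← Finset.sum_add_distrib, ← Finset.sum_add_distrib,
        ← Finset.sum_add_distrib]
      exact Finset.sum_congr rfl (fun χ _ => (key χ).2.2.2.symm)
    have e1 : (n1 : ℂ) = (Fintype.card F : ℂ) - 1 := by linear_combination hN' - hC'
    have e2 : (nq : ℂ) = (Fintype.card F : ℂ) - 1 := by linear_combination hN' - hC' - hA' + 2 * hB'
    have e3 : 2 * (nq1 : ℂ) = ((Fintype.card F : ℂ) - 1) * ((Fintype.card F : ℂ) - 2) := by linear_combination hB' - e2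
    have e4 : 2 * (nqm : ℂ) = (Fintype.card F : ℂ) * ((Fintype.card F : ℂ) - 1) := by
      linear_combination 2 * hC' - 2 * e2 - e3
    refine ⟨?_, ?_, ?_, ?_⟩
    · rw [Nat.card_eq_fintype_card, Fintype.card_subtype, ← hn1]
      have h5 : ((n1 + 1 : ℕ) : ℂ) = ((Fintype.card F : ℕ) : ℂ) := by
        push_cast
        linear_combination e1
      have h6 := Nat.cast_injective h5
      omega
    · rw [Nat.card_eq_fintype_card, Fintype.card_subtype, ← hnq]
      have h5 : ((nq + 1 : ℕ) : ℂ) = ((Fintype.card F : ℕ) : ℂ) := by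
        push_cast
        linear_combination e2
      have h6 := Nat.cast_injective h5
      omega
    · rw [Nat.card_eq_fintype_card, Fintype.card_subtype, ← hnq1]
      have h5 : ((2 * nq1 : ℕ) : ℂ) =
          (((Fintype.card F - 1) * (Fintype.card F - 2) : ℕ) : ℂ) := by
        rw [Nat.cast_mul, Nat.cast_mul, Nat.cast_sub (by omega), Nat.cast_sub (by omega)]
        push_cast
        linear_combination e3
      have h6 := Nat.cast_injective h5
      rw [← h6, Nat.mul_div_cancel_left _ (by norm_num)]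
    · rw [Nat.card_eq_fintype_card, Fintype.card_subtype, ← hnqm]
      have h5 : ((2 * nqm : ℕ) : ℂ) =
          ((Fintype.card F * (Fintype.card F - 1) : ℕ) : ℂ) := by
        rw [Nat.cast_mul, Nat.cast_mul, Nat.cast_sub (by omega)]
        push_cast
        linear_combination e4
      have h6 := Nat.cast_injective h5
      rw [← h6, Nat.mul_div_cancel_left _ (by norm_num)]

end Cfsg.Agent.S2298
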