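import Cfsg.Statements.S2331
import Mathlib
import Cfsg.Agent.Lib_helper8_GL2
import Cfsg.Agent.Lib_helper8_SSCount

set_option autoImplicit false
open Cfsg

namespace Cfsg.Agent.S2331

section Aux
open Matrix Cfsg.Agent.Lib_helper8_GL2 Cfsg.Agent.Lib_helper8_SSCount

variable {F : Type*} [Field F]

local notation "S2" => Matrix.SpecialLinearGroup (Fin 2) F
local notation "M2" => Matrix (Fin 2) (Fin 2) F

open Classical in
/-- The complete conjugacy invariant of `SL_2` in characteristic two. -/
noncomputable def invS (g : S2) : Option F :=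
  if Lib_helper8_GL2.NonScalar (g : M2) then some (g : M2).trace else none

theorem invS_isConj (g h : S2) (hc : IsConj g h) : invS g = invS h := by
  obtain ⟨c, hc⟩ := isConj_iff.mp hc
  have key : ∀ (x y : S2) (c : S2), c * x * c⁻¹ = y → Lib_helper8_GL2.NonScalar (y : M2) →
      Lib_helper8_GL2.NonScalar (x : M2) := by
    intro x y c hxy hy
    rw [nonScalar_iff] at hy ⊢
    rintro ⟨a, ha⟩
    apply hy
    refine ⟨a, ?_⟩
    rw [← hxy]
    simp only [Matrix.SpecialLinearGroup.coe_mul]
    rw [ha, Matrix.mul_smul, Matrix.mul_one, Matrix.smul_mul, ← Matrix.SpecialLinearGroup.coe_mul,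
      mul_inv_cancel, Matrix.SpecialLinearGroup.coe_one]
  have ht : (h : M2).trace = (g : M2).trace := by
    rw [← hc]
    simp only [Matrix.SpecialLinearGroup.coe_mul]
    rw [Matrix.trace_mul_comm, ← Matrix.mul_assoc, ← Matrix.SpecialLinearGroup.coe_mul,
      inv_mul_cancel, Matrix.SpecialLinearGroup.coe_one, Matrix.one_mul]
  unfold invS
  by_cases hg : Lib_helper8_GL2.NonScalar (g : M2)
  · have hh : Lib_helper8_GL2.NonScalar (h : M2) := key h g c⁻¹ (by rw [← hc]; group) hg
    rw [if_pos hg, if_pos hh, ht]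
  · have hh : ¬ Lib_helper8_GL2.NonScalar (h : M2) := fun hh => hg (key g h c hc hh)
    rw [if_neg hg, if_neg hh]

theorem scal_one [CharP F 2] (g : S2) (hg : ¬ Lib_helper8_GL2.NonScalar (g : M2)) : g = 1 := by
  unfold Lib_helper8_GL2.NonScalar at hg
  push Not at hg
  have hd : (g : M2).det = 1 := g.det_coe
  rw [Matrix.det_fin_two, hg.1, hg.2.1, ← hg.2.2] at hd
  have h2 : (2 : F) = 0 := CharTwo.two_eq_zero
  have h00 : (g : M2) 0 0 = 1 := by
    have : ((g : M2) 0 0 - 1) ^ 2 = 0 := by linear_combination hd - (g : M2) 0 0 * h2 + h2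
    exact sub_eq_zero.mp (pow_eq_zero_iff (two_ne_zero)|>.mp this)
  apply Subtype.ext
  ext i j
  fin_cases i <;> fin_cases j
  · show (g : M2) 0 0 = (1 : M2) 0 0
    rw [h00]; simp
  · show (g : M2) 0 1 = (1 : M2) 0 1
    rw [hg.2.1]; simp
  · show (g : M2) 1 0 = (1 : M2) 1 0
    rw [hg.1]; simp
  · show (g : M2) 1 1 = (1 : M2) 1 1
    rw [← hg.2.2, h00]; simp

theorem invS_inj [Fintype F] [CharP F 2] (g h : S2) (e : invS g = invS h) : IsConj g h := by
  unfold invS at e
  by_cases hg : Lib_helper8_GL2.NonScalar (g : M2)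
  · by_cases hh : Lib_helper8_GL2.NonScalar (h : M2)
    · rw [if_pos hg, if_pos hh] at e
      have ht := Option.some.inj e
      obtain ⟨R, hR, hRg⟩ := exists_semiconj _ _ hg hh ht (by rw [g.det_coe, h.det_coe])
      obtain ⟨s, hs⟩ := FiniteField.isSquare_of_char_two (ringChar.eq F 2) (R.det)⁻¹
      have hdet : (s • R).det = 1 := by
        rw [Matrix.det_smul, Fintype.card_fin, pow_two, ← hs, inv_mul_cancel₀ hR]
      rw [isConj_iff]
      obtain ⟨c, hc⟩ : ∃ c : S2, (c : M2) = s • R := ⟨⟨s • R, hdet⟩, rfl⟩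
      refine ⟨c, ?_⟩
      rw [mul_inv_eq_iff_eq_mul]
      apply Subtype.ext
      simp only [Matrix.SpecialLinearGroup.coe_mul]
      rw [hc, Matrix.smul_mul, Matrix.mul_smul, hRg]
    · rw [if_pos hg, if_neg hh] at e
      exact absurd e (by simp)
  · by_cases hh : Lib_helper8_GL2.NonScalar (h : M2)
    · rw [if_neg hg, if_pos hh] at e
      exact absurd e (by simp)
    · rw [scal_one g hg, scal_one h hh]

theorem invS_surj (a : Option F) : ∃ g : S2, invS g = a := by
  cases a with
  | none =>
    refine ⟨1, ?_⟩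
    unfold invS
    rw [if_neg]
    unfold Lib_helper8_GL2.NonScalar
    simp
  | some t =>
    have hA : (!![0, -1; 1, t] : M2).det = 1 := by simp [Matrix.det_fin_two_of]
    refine ⟨(⟨!![0, -1; 1, t], hA⟩ : S2), ?_⟩
    unfold invS
    have hns : Lib_helper8_GL2.NonScalar ((⟨!![0, -1; 1, t], hA⟩ : S2) : M2) := by
      unfold Lib_helper8_GL2.NonScalar
      left
      show (!![0, -1; 1, t] : M2) 1 0 ≠ 0
      simp
    rw [if_pos hns]
    show some (!![0, -1; 1, t] : M2).trace = some t
    rw [Matrix.trace_fin_two_of, zero_add]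

theorem mainS [Fintype F] [CharP F 2] : Nat.card (ConjClasses S2) = Fintype.card F + 1 := by
  classical
  have key := card_classes (G := S2) (fun _ => True) (fun _ : Option F => True) invS
    (fun _ _ => trivial) (fun g h _ _ e => invS_inj g h e) (fun a _ => by
      obtain ⟨g, hg⟩ := invS_surj a; exact ⟨g, trivial, hg⟩) invS_isConj
  have e1 : Nat.card {c : ConjClasses S2 // ∃ g : S2, ConjClasses.mk g = c ∧ True} =
      Nat.card (ConjClasses S2) := by
    apply Nat.card_congr
    apply Equiv.subtypeUnivEquiv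
    intro c
    obtain ⟨g, hg⟩ := ConjClasses.mk_surjective c
    exact ⟨g, hg, trivial⟩
  have e2 : Nat.card {a : Option F // True} = Nat.card (Option F) :=
    Nat.card_congr (Equiv.subtypeUnivEquiv (fun _ => trivial))
  rw [← e1, key, e2, Nat.card_eq_fintype_card, Fintype.card_option]

end Aux

/-- Over a finite field with q elements, q even, the special linear group SL₂ has exactly q + 1 conjugacy classes. -/
theorem result {F : Type*} [Field F] [Fintype F] [CharP F 2] :
    Nat.card (ConjClasses (Matrix.SpecialLinearGroup (Fin 2) F)) = Fintype.card F + 1 := by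
  exact mainS

end Cfsg.Agent.S2331
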