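import Cfsg.Statements.S2300
import Mathlib
import Cfsg.Agent.Lib_helper8_SL2Types
import Cfsg.Agent.S2331

set_option autoImplicit false
open Cfsg

namespace Cfsg.Agent.S2300

/-- Over a finite field F with q elements, q even, every irreducible complex character of SL₂ has degree 1, q − 1, q or q + 1; and when q ≥ 4 (so that these four numbers are distinct) there are exactly one irreducible character of degree 1, one of degree q, (q − 2)/2 of degree q + 1 and q/2 of degree q − 1. -/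
theorem result {F : Type*} [Field F] [Fintype F] [CharP F 2] :
    (∀ χ : Matrix.SpecialLinearGroup (Fin 2) F → ℂ, Cfsg.IsIrrCharacter (Matrix.SpecialLinearGroup (Fin 2) F) χ →
      χ 1 = 1 ∨ χ 1 = (Fintype.card F : ℂ) - 1 ∨ χ 1 = (Fintype.card F : ℂ) ∨ χ 1 = (Fintype.card F : ℂ) + 1) ∧
    (4 ≤ Fintype.card F →
      Nat.card {χ : Cfsg.IrrCharacter (Matrix.SpecialLinearGroup (Fin 2) F) // (χ : Matrix.SpecialLinearGroup (Fin 2) F → ℂ) 1 = 1} = 1 ∧
      Nat.card {χ : Cfsg.IrrCharacter (Matrix.SpecialLinearGroup (Fin 2) F) // (χ : Matrix.SpecialLinearGroup (Fin 2) F → ℂ) 1 = (Fintype.card F : ℂ)} = 1 ∧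
      Nat.card {χ : Cfsg.IrrCharacter (Matrix.SpecialLinearGroup (Fin 2) F) // (χ : Matrix.SpecialLinearGroup (Fin 2) F → ℂ) 1 = (Fintype.card F : ℂ) + 1} = (Fintype.card F - 2) / 2 ∧
      Nat.card {χ : Cfsg.IrrCharacter (Matrix.SpecialLinearGroup (Fin 2) F) // (χ : Matrix.SpecialLinearGroup (Fin 2) F → ℂ) 1 = (Fintype.card F : ℂ) - 1} = Fintype.card F / 2) := by
  classical
  haveI : Fintype (Matrix.GeneralLinearGroup (Fin 2) F) := Fintype.ofFinite _
  haveI : Fintype (Matrix.SpecialLinearGroup (Fin 2) F) := Fintype.ofFinite _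
  haveI : Fintype (MulChar F ℂ) := Fintype.ofFinite _
  haveI : Finite (Cfsg.IrrCharacter (Matrix.GeneralLinearGroup (Fin 2) F)) :=
    Cfsg.Agent.Lib_helper3_CharBasic.irr_finite
  haveI : Fintype (Cfsg.IrrCharacter (Matrix.GeneralLinearGroup (Fin 2) F)) := Fintype.ofFinite _
  haveI : Finite (Cfsg.IrrCharacter (Matrix.SpecialLinearGroup (Fin 2) F)) :=
    Cfsg.Agent.Lib_helper3_CharBasic.irr_finite
  haveI : Fintype (Cfsg.IrrCharacter (Matrix.SpecialLinearGroup (Fin 2) F)) := Fintype.ofFinite _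
  have h2 : (2 : F) = 0 := CharTwo.two_eq_zero
  have hcls : ∀ χ : Matrix.SpecialLinearGroup (Fin 2) F → ℂ,
      Cfsg.IsIrrCharacter (Matrix.SpecialLinearGroup (Fin 2) F) χ →
      ((χ = fun _ => 1) ∧ χ 1 = 1) ∨
      ((χ = fun s => Cfsg.Agent.Lib_helper8_GL2Irr.stC 1 (Matrix.SpecialLinearGroup.toGL s)) ∧
        χ 1 = (Fintype.card F : ℂ)) ∨
      (∃ γ : MulChar F ℂ, γ ≠ 1 ∧
        (χ = fun s => Cfsg.Agent.Lib_helper8_GL2Irr.psR γ 1 (Matrix.SpecialLinearGroup.toGL s)) ∧
        χ 1 = (Fintype.card F : ℂ) + 1) ∨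
      (χ 1 = (Fintype.card F : ℂ) - 1) := by
    intro χ hχ
    obtain ⟨θ, hθ, hne⟩ := Cfsg.Agent.Lib_helper8_SL2Cliff.sl_exists_const hχ
    have hres := Cfsg.Agent.Lib_helper8_SL2Norm.sl_cliff_even h2 hθ hχ hne
    have hχeq : χ = fun s => θ (Matrix.SpecialLinearGroup.toGL s) :=
      funext (fun s => (hres s).symm)
    have hχ1 : χ 1 = θ 1 := by rw [← hres 1, map_one]
    rcases Cfsg.Agent.Lib_helper8_GL2Irr.classify hθ with
      ⟨α, rfl⟩ | ⟨α, rfl⟩ | ⟨α, β, hab, rfl⟩ | ⟨-, h1, -⟩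
    · left
      refine ⟨?_, hχ1.trans (Cfsg.Agent.Lib_helper8_GL2Irr.linL_one α)⟩
      rw [hχeq]
      funext s
      exact Cfsg.Agent.Lib_helper8_SL2Types.linL_res α s
    · right; left
      refine ⟨?_, hχ1.trans (Cfsg.Agent.Lib_helper8_GL2Irr.stC_one α)⟩
      rw [hχeq]
      funext s
      exact Cfsg.Agent.Lib_helper8_SL2Types.stC_res α s
    · right; right; left
      refine ⟨α * β⁻¹, ?_, ?_, hχ1.trans (Cfsg.Agent.Lib_helper8_GL2Irr.psR_one α β)⟩
      · intro h
        exact hab (mul_inv_eq_one.mp h)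
      · rw [hχeq]
        funext s
        exact Cfsg.Agent.Lib_helper8_SL2Types.psR_res α β s
    · right; right; right
      exact hχ1.trans h1
  have hSt1 : Cfsg.Agent.Lib_helper8_GL2Irr.stC (1 : MulChar F ℂ)
      (Matrix.SpecialLinearGroup.toGL (1 : Matrix.SpecialLinearGroup (Fin 2) F)) =
      (Fintype.card F : ℂ) := by
    rw [map_one]
    exact Cfsg.Agent.Lib_helper8_GL2Irr.stC_one 1
  have hR1 : ∀ γ : MulChar F ℂ, Cfsg.Agent.Lib_helper8_GL2Irr.psR γ 1
      (Matrix.SpecialLinearGroup.toGL (1 : Matrix.SpecialLinearGroup (Fin 2) F)) =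
      (Fintype.card F : ℂ) + 1 := by
    intro γ
    rw [map_one]
    exact Cfsg.Agent.Lib_helper8_GL2Irr.psR_one γ 1
  refine ⟨?_, ?_⟩
  · intro χ hχ
    rcases hcls χ hχ with ⟨-, h⟩ | ⟨-, h⟩ | ⟨γ, -, -, h⟩ | h
    · exact Or.inl h
    · exact Or.inr (Or.inr (Or.inl h))
    · exact Or.inr (Or.inr (Or.inr h))
    · exact Or.inr (Or.inl h)
  · intro hq
    obtain ⟨D1, D2, D3, D4, D5, D6⟩ :=
      Cfsg.Agent.Lib_helper8_GL2Irr.deg_distinct (F := F) (by omega)
    have hStirr := Cfsg.Agent.Lib_helper8_SL2Norm.res_irr_even h2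
      (Cfsg.Agent.Lib_helper8_GL2Irr.stC_irr (1 : MulChar F ℂ))
    have hRirr : ∀ γ : MulChar F ℂ, γ ≠ 1 →
        Cfsg.IsIrrCharacter (Matrix.SpecialLinearGroup (Fin 2) F)
          (fun s => Cfsg.Agent.Lib_helper8_GL2Irr.psR γ 1 (Matrix.SpecialLinearGroup.toGL s)) :=
      fun γ hγ => Cfsg.Agent.Lib_helper8_SL2Norm.res_irr_even h2
        (Cfsg.Agent.Lib_helper8_GL2Irr.psR_irr hγ)
    -- the four counts as filters
    have hcard : ∀ c : ℂ, Nat.card {χ : Cfsg.IrrCharacter (Matrix.SpecialLinearGroup (Fin 2) F) //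
        (χ : Matrix.SpecialLinearGroup (Fin 2) F → ℂ) 1 = c} =
        (Finset.univ.filter (fun χ : Cfsg.IrrCharacter (Matrix.SpecialLinearGroup (Fin 2) F) =>
          (χ : Matrix.SpecialLinearGroup (Fin 2) F → ℂ) 1 = c)).card := by
      intro c
      rw [Nat.card_eq_fintype_card, Fintype.card_subtype]
    rw [hcard, hcard, hcard, hcard]
    -- degree one
    have hA1 : (Finset.univ.filter (fun χ : Cfsg.IrrCharacter (Matrix.SpecialLinearGroup (Fin 2) F) =>
        (χ : Matrix.SpecialLinearGroup (Fin 2) F → ℂ) 1 = 1)).card = 1 := by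
      rw [Finset.card_eq_one]
      refine ⟨⟨fun _ => 1, Cfsg.Agent.Lib_helper3_CharMore.isIrrCharacter_one⟩, ?_⟩
      ext χ
      rw [Finset.mem_filter, Finset.mem_singleton]
      constructor
      · rintro ⟨-, h⟩
        apply Subtype.ext
        rcases hcls χ.1 χ.2 with ⟨h', hd⟩ | ⟨h', hd⟩ | ⟨γ, -, h', hd⟩ | hd
        · exact h'
        · exfalso
          rw [hd] at h
          exact D1 h.symm
        · exfalso
          rw [hd] at h
          exact D2 h.symm
        · exfalso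
          rw [hd] at h
          exact D3 h.symm
      · rintro rfl
        exact ⟨Finset.mem_univ _, rfl⟩
    have hAq : (Finset.univ.filter (fun χ : Cfsg.IrrCharacter (Matrix.SpecialLinearGroup (Fin 2) F) =>
        (χ : Matrix.SpecialLinearGroup (Fin 2) F → ℂ) 1 = (Fintype.card F : ℂ))).card = 1 := by
      rw [Finset.card_eq_one]
      refine ⟨⟨_, hStirr⟩, ?_⟩
      ext χ
      rw [Finset.mem_filter, Finset.mem_singleton]
      constructor
      · rintro ⟨-, h⟩
        apply Subtype.ext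
        rcases hcls χ.1 χ.2 with ⟨h', hd⟩ | ⟨h', hd⟩ | ⟨γ, -, h', hd⟩ | hd
        · exfalso
          rw [hd] at h
          exact D1 h
        · exact h'
        · exfalso
          rw [hd] at h
          exact D4 h.symm
        · exfalso
          rw [hd] at h
          exact D5 h.symm
      · rintro rfl
        exact ⟨Finset.mem_univ _, hSt1⟩
    -- degree q + 1
    have hq1 : Fintype.card F - 1 = Nat.card (MulChar F ℂ) :=
      (Cfsg.Agent.Lib_helper8_GL2Irr.card_mulChar (F := F)).symm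
    have hodd_card : ∀ γ : MulChar F ℂ, γ ≠ 1 → γ⁻¹ ≠ γ := by
      intro γ hγ h
      apply hγ
      have hsq : γ ^ 2 = 1 := by
        rw [sq]
        nth_rewrite 1 [← h]
        exact inv_mul_cancel γ
      have h5 : orderOf γ ∣ 2 := orderOf_dvd_of_pow_eq_one hsq
      have h6 : orderOf γ ∣ Nat.card (MulChar F ℂ) := orderOf_dvd_natCard γ
      rw [← hq1] at h6
      obtain ⟨n, -, hn⟩ := FiniteField.card F 2
      have h7 : orderOf γ ∣ Nat.gcd 2 (Fintype.card F - 1) := Nat.dvd_gcd h5 h6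
      have h8 : Nat.gcd 2 (Fintype.card F - 1) = 1 := by
        have hodd : ¬ 2 ∣ Fintype.card F - 1 := by
          have h9 : 2 ∣ Fintype.card F := by
            rw [hn]
            exact dvd_pow_self 2 n.ne_zero
          omega
        exact (Nat.Prime.coprime_iff_not_dvd Nat.prime_two).mpr hodd
      rw [h8] at h7
      exact orderOf_eq_one_iff.mp (Nat.dvd_one.mp h7)
    obtain ⟨φ, hφ⟩ : ∃ φ : MulChar F ℂ → (Matrix.SpecialLinearGroup (Fin 2) F → ℂ),
        φ = fun γ => fun s => Cfsg.Agent.Lib_helper8_GL2Irr.psR γ 1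
          (Matrix.SpecialLinearGroup.toGL s) := ⟨_, rfl⟩
    have hD := Cfsg.Agent.Lib_helper8_SL2Types.two_to_one
      ((Finset.univ : Finset (MulChar F ℂ)).erase 1) φ (fun γ => γ⁻¹)
      (fun γ hγ => hodd_card γ (Finset.ne_of_mem_erase hγ))
      (by
        intro γ hγ γ'
        have hγ1 : γ ≠ 1 := Finset.ne_of_mem_erase hγ
        constructor
        · rintro ⟨hγ', he⟩
          have hγ'1 : γ' ≠ 1 := Finset.ne_of_mem_erase hγ'
          rw [hφ] at he
          exact (Cfsg.Agent.Lib_helper8_SL2Types.res_eq_iff (hRirr γ hγ1) (hRirr γ' hγ'1)).mp he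
        · intro h
          have hγ'1 : γ' ≠ 1 := by
            rcases h with rfl | rfl
            · exact hγ1
            · exact fun h' => hγ1 (inv_eq_one.mp h')
          refine ⟨Finset.mem_erase.mpr ⟨hγ'1, Finset.mem_univ _⟩, ?_⟩
          rw [hφ]
          exact (Cfsg.Agent.Lib_helper8_SL2Types.res_eq_iff (hRirr γ hγ1) (hRirr γ' hγ'1)).mpr h)
    rw [Finset.card_erase_of_mem (Finset.mem_univ _), Finset.card_univ,
      ← Nat.card_eq_fintype_card, ← hq1] at hD
    have himg : (Finset.univ.filter (fun χ : Cfsg.IrrCharacter (Matrix.SpecialLinearGroup (Fin 2) F) =>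
        (χ : Matrix.SpecialLinearGroup (Fin 2) F → ℂ) 1 = (Fintype.card F : ℂ) + 1)).image
          Subtype.val = ((Finset.univ : Finset (MulChar F ℂ)).erase 1).image φ := by
      ext χ
      rw [Finset.mem_image, Finset.mem_image]
      constructor
      · rintro ⟨χ', hχ', rfl⟩
        rw [Finset.mem_filter] at hχ'
        have h := hχ'.2
        rcases hcls χ'.1 χ'.2 with ⟨h', hd⟩ | ⟨h', hd⟩ | ⟨γ, hγ, h', hd⟩ | hd
        · exfalso
          rw [hd] at h
          exact D2 h
        · exfalso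
          rw [hd] at h
          exact D4 h
        · refine ⟨γ, Finset.mem_erase.mpr ⟨hγ, Finset.mem_univ _⟩, ?_⟩
          rw [hφ, h']
        · exfalso
          rw [hd] at h
          exact D6 h.symm
      · rintro ⟨γ, hγ, rfl⟩
        have hγ1 : γ ≠ 1 := Finset.ne_of_mem_erase hγ
        refine ⟨⟨φ γ, by rw [hφ]; exact hRirr γ hγ1⟩, ?_, rfl⟩
        rw [Finset.mem_filter]
        refine ⟨Finset.mem_univ _, ?_⟩
        show φ γ 1 = _
        rw [hφ]
        exact hR1 γ
    have hAp : (Finset.univ.filter (fun χ : Cfsg.IrrCharacter (Matrix.SpecialLinearGroup (Fin 2) F) =>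
        (χ : Matrix.SpecialLinearGroup (Fin 2) F → ℂ) 1 = (Fintype.card F : ℂ) + 1)).card =
        (Fintype.card F - 2) / 2 := by
      rw [← Finset.card_image_of_injective _ Subtype.val_injective, himg]
      omega
    -- total
    have htot : Fintype.card (Cfsg.IrrCharacter (Matrix.SpecialLinearGroup (Fin 2) F)) =
        Fintype.card F + 1 := by
      rw [← Nat.card_eq_fintype_card,
        Cfsg.Agent.Lib_helper3_CharCount.card_irr_eq_card_conjClasses]
      exact Cfsg.Agent.S2331.result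
    have hpart : ∀ χ : Cfsg.IrrCharacter (Matrix.SpecialLinearGroup (Fin 2) F),
        (if (χ : Matrix.SpecialLinearGroup (Fin 2) F → ℂ) 1 = 1 then 1 else 0) +
        (if (χ : Matrix.SpecialLinearGroup (Fin 2) F → ℂ) 1 = (Fintype.card F : ℂ) then 1 else 0) +
        (if (χ : Matrix.SpecialLinearGroup (Fin 2) F → ℂ) 1 = (Fintype.card F : ℂ) + 1 then 1 else 0) +
        (if (χ : Matrix.SpecialLinearGroup (Fin 2) F → ℂ) 1 = (Fintype.card F : ℂ) - 1 then 1 else 0)
          = (1 : ℕ) := by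
      intro χ
      rcases hcls χ.1 χ.2 with ⟨-, h⟩ | ⟨-, h⟩ | ⟨γ, hγ, -, h⟩ | h
      · rw [h, if_pos rfl, if_neg D1, if_neg D2, if_neg D3]
      · rw [h, if_neg (Ne.symm D1), if_pos rfl, if_neg D4, if_neg D5]
      · rw [h, if_neg (Ne.symm D2), if_neg (Ne.symm D4), if_pos rfl, if_neg D6]
      · rw [h, if_neg (Ne.symm D3), if_neg (Ne.symm D5), if_neg (Ne.symm D6), if_pos rfl]
    have hsum : (Finset.univ.filter (fun χ : Cfsg.IrrCharacter (Matrix.SpecialLinearGroup (Fin 2) F) =>
        (χ : Matrix.SpecialLinearGroup (Fin 2) F → ℂ) 1 = 1)).card +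
        (Finset.univ.filter (fun χ : Cfsg.IrrCharacter (Matrix.SpecialLinearGroup (Fin 2) F) =>
        (χ : Matrix.SpecialLinearGroup (Fin 2) F → ℂ) 1 = (Fintype.card F : ℂ))).card +
        (Finset.univ.filter (fun χ : Cfsg.IrrCharacter (Matrix.SpecialLinearGroup (Fin 2) F) =>
        (χ : Matrix.SpecialLinearGroup (Fin 2) F → ℂ) 1 = (Fintype.card F : ℂ) + 1)).card +
        (Finset.univ.filter (fun χ : Cfsg.IrrCharacter (Matrix.SpecialLinearGroup (Fin 2) F) =>
        (χ : Matrix.SpecialLinearGroup (Fin 2) F → ℂ) 1 = (Fintype.card F : ℂ) - 1)).card =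
        Fintype.card F + 1 := by
      rw [← htot, Finset.card_filter, Finset.card_filter, Finset.card_filter, Finset.card_filter,
        ← Finset.sum_add_distrib, ← Finset.sum_add_distrib, ← Finset.sum_add_distrib,
        Finset.sum_congr rfl (fun χ _ => hpart χ), Finset.sum_const, Finset.card_univ, smul_eq_mul,
        mul_one]
    obtain ⟨n, -, hn⟩ := FiniteField.card F 2
    have heven : 2 ∣ Fintype.card F := by
      rw [hn]
      exact dvd_pow_self 2 n.ne_zero
    refine ⟨hA1, hAq, hAp, ?_⟩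
    rw [hA1, hAq, hAp] at hsum
    omega

end Cfsg.Agent.S2300
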