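import Cfsg.Statements.S2302
import Cfsg.Agent.Lib_helper5_Class
import Cfsg.Agent.Lib_helper4_PSL2

set_option autoImplicit false
open Cfsg

namespace Cfsg.Agent.S2302

section Aux
open Matrix

variable {F : Type*} [Field F] [Fintype F] [CharP F 2]

theorem conj_u (u g : SpecialLinearGroup (Fin 2) F)
    (hu : (u : Matrix (Fin 2) (Fin 2) F) = !![1, 1; 0, 1]) (hg : orderOf g = 2) : IsConj u g := by
  classical
  obtain ⟨M, hM⟩ : ∃ M : Matrix (Fin 2) (Fin 2) F, M = (g : Matrix (Fin 2) (Fin 2) F) := ⟨_, rfl⟩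
  have hM2 : M * M = 1 := by
    have h1 := pow_orderOf_eq_one g
    rw [hg] at h1
    have h2 := congrArg (fun y : SpecialLinearGroup (Fin 2) F => (y : Matrix (Fin 2) (Fin 2) F)) h1
    have h2' : (g : Matrix (Fin 2) (Fin 2) F) ^ 2 = 1 := h2
    rw [hM, ← pow_two]; exact h2'
  have hM1 : M ≠ 1 := by
    intro h
    have h1 : g = 1 := by
      apply Subtype.ext
      rw [← hM, h]; rfl
    rw [h1, orderOf_one] at hg
    omega
  have h2 : (2 : F) = 0 := CharTwo.two_eq_zero
  obtain ⟨N, hN⟩ : ∃ N : Matrix (Fin 2) (Fin 2) F, N = M - 1 := ⟨_, rfl⟩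
  have hN0 : N ≠ 0 := by rw [hN]; exact sub_ne_zero.2 hM1
  have hNN : N * N = 0 := by
    rw [hN, sub_mul, mul_sub, hM2, mul_one, one_mul]
    have h3 : (1 : Matrix (Fin 2) (Fin 2) F) - M - (M - 1) = (2 : F) • (1 - M) := by
      rw [two_smul]; abel
    rw [h3, h2, zero_smul]
  obtain ⟨w, hw⟩ : ∃ w : Fin 2 → F, N *ᵥ w ≠ 0 := by
    by_contra hcon
    push_neg at hcon
    apply hN0
    ext i j
    have h3 := congrFun (hcon (Pi.single j 1)) i
    rw [Matrix.mulVec_single_one] at h3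
    simpa using h3
  obtain ⟨v, hv⟩ : ∃ v : Fin 2 → F, v = N *ᵥ w := ⟨_, rfl⟩
  rw [← hv] at hw
  have hNv : N *ᵥ v = 0 := by rw [hv, Matrix.mulVec_mulVec, hNN, Matrix.zero_mulVec]
  have hMN : M = N + 1 := by rw [hN]; abel
  have hMv : M *ᵥ v = v := by
    rw [hMN, Matrix.add_mulVec, hNv, Matrix.one_mulVec, zero_add]
  have hMw : M *ᵥ w = v + w := by
    rw [hMN, Matrix.add_mulVec, Matrix.one_mulVec, ← hv]
  obtain ⟨P₀, hP₀⟩ : ∃ P₀ : Matrix (Fin 2) (Fin 2) F, ∀ i, P₀ i 0 = v i ∧ P₀ i 1 = w i :=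
    ⟨Matrix.of (fun i j => if j = 0 then v i else w i), fun i => ⟨rfl, rfl⟩⟩
  have hd : P₀.det ≠ 0 := by
    intro h0
    obtain ⟨z, hz, hz0⟩ := Matrix.exists_mulVec_eq_zero_iff.2 h0
    have h3 : z 0 • v + z 1 • w = 0 := by
      rw [← hz0]
      ext i
      simp only [Matrix.mulVec, dotProduct, Fin.sum_univ_two, Pi.add_apply, Pi.smul_apply,
        smul_eq_mul, (hP₀ i).1, (hP₀ i).2]
      ring
    have h4 : z 1 • v = 0 := by
      have h5 := congrArg (fun x => N *ᵥ x) h3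
      simp only [Matrix.mulVec_add, Matrix.mulVec_smul, hNv, smul_zero, zero_add,
        Matrix.mulVec_zero] at h5
      rw [← hv] at h5
      exact h5
    have hz1 : z 1 = 0 := by
      rcases smul_eq_zero.1 h4 with h | h
      · exact h
      · exact absurd h hw
    rw [hz1, zero_smul, add_zero] at h3
    have hz0' : z 0 = 0 := by
      rcases smul_eq_zero.1 h3 with h | h
      · exact h
      · exact absurd h hw
    apply hz
    ext i
    fin_cases i
    · exact hz0'
    · exact hz1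
  obtain ⟨s, hs⟩ : ∃ s : F, s ^ 2 = (P₀.det)⁻¹ := by
    have hsurj : Function.Surjective (frobenius F 2) :=
      Finite.injective_iff_surjective.1 (frobenius_inj F 2)
    obtain ⟨s, hs⟩ := hsurj (P₀.det)⁻¹
    exact ⟨s, by rw [← hs, frobenius_def]⟩
  have hdetP : (s • P₀).det = 1 := by
    rw [Matrix.det_smul, Fintype.card_fin, hs, inv_mul_cancel₀ hd]
  have hcolv : ∀ i, ∑ k, M i k * v k = v i := by
    intro i
    have h3 := congrFun hMv i
    simpa only [Matrix.mulVec, dotProduct] using h3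
  have hcolw : ∀ i, ∑ k, M i k * w k = v i + w i := by
    intro i
    have h3 := congrFun hMw i
    simpa only [Matrix.mulVec, dotProduct, Pi.add_apply] using h3
  have hMP : M * (s • P₀) = (s • P₀) * (!![1, 1; 0, 1] : Matrix (Fin 2) (Fin 2) F) := by
    ext i j
    fin_cases j
    · have h3 : (M * (s • P₀)) i 0 = s * ∑ k, M i k * v k := by
        rw [Matrix.mul_apply, Finset.mul_sum]
        refine Finset.sum_congr rfl fun k _ => ?_
        rw [Matrix.smul_apply, (hP₀ k).1, smul_eq_mul]; ring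
      show (M * (s • P₀)) i 0 = ((s • P₀) * (!![1, 1; 0, 1] : Matrix (Fin 2) (Fin 2) F)) i 0
      rw [h3, hcolv]
      simp [Matrix.mul_apply, Fin.sum_univ_two, (hP₀ i).1]
    · have h3 : (M * (s • P₀)) i 1 = s * ∑ k, M i k * w k := by
        rw [Matrix.mul_apply, Finset.mul_sum]
        refine Finset.sum_congr rfl fun k _ => ?_
        rw [Matrix.smul_apply, (hP₀ k).2, smul_eq_mul]; ring
      show (M * (s • P₀)) i 1 = ((s • P₀) * (!![1, 1; 0, 1] : Matrix (Fin 2) (Fin 2) F)) i 1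
      rw [h3, hcolw]
      simp [Matrix.mul_apply, Fin.sum_univ_two, (hP₀ i).1, (hP₀ i).2]
      ring
  rw [isConj_iff]
  refine ⟨⟨s • P₀, hdetP⟩, ?_⟩
  apply mul_inv_eq_of_eq_mul
  apply Subtype.ext
  show (s • P₀) * (u : Matrix (Fin 2) (Fin 2) F) = (g : Matrix (Fin 2) (Fin 2) F) * (s • P₀)
  rw [hu, ← hM, hMP]

theorem card_cent (u : SpecialLinearGroup (Fin 2) F)
    (hu : (u : Matrix (Fin 2) (Fin 2) F) = !![1, 1; 0, 1]) :
    Nat.card (Subgroup.centralizer ({u} : Set (SpecialLinearGroup (Fin 2) F)))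
      = Fintype.card F := by
  classical
  have h2 : (2 : F) = 0 := CharTwo.two_eq_zero
  have hCmem : ∀ x : SpecialLinearGroup (Fin 2) F,
      x ∈ Subgroup.centralizer ({u} : Set (SpecialLinearGroup (Fin 2) F)) ↔
        (x : Matrix (Fin 2) (Fin 2) F) 1 0 = 0 ∧ (x : Matrix (Fin 2) (Fin 2) F) 0 0 = 1 ∧
          (x : Matrix (Fin 2) (Fin 2) F) 1 1 = 1 := by
    intro x
    rw [Subgroup.mem_centralizer_iff]
    constructor
    · intro hx
      have h1 := hx u rfl
      have h3 : (u : Matrix (Fin 2) (Fin 2) F) * (x : Matrix (Fin 2) (Fin 2) F)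
          = (x : Matrix (Fin 2) (Fin 2) F) * (u : Matrix (Fin 2) (Fin 2) F) :=
        congrArg (fun y : SpecialLinearGroup (Fin 2) F => (y : Matrix (Fin 2) (Fin 2) F)) h1
      rw [hu] at h3
      have h4 := congrFun (congrFun h3 0) 0
      have h5 := congrFun (congrFun h3 0) 1
      simp [Matrix.mul_apply, Fin.sum_univ_two] at h4 h5
      have hdet : (x : Matrix (Fin 2) (Fin 2) F).det = 1 := x.2
      rw [Matrix.det_fin_two, h4, mul_zero, sub_zero] at hdet
      have h6 : (x : Matrix (Fin 2) (Fin 2) F) 0 0 = (x : Matrix (Fin 2) (Fin 2) F) 1 1 := by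
        linear_combination (-1 : F) * h5
      rw [← h6] at hdet
      have h7 : ((x : Matrix (Fin 2) (Fin 2) F) 0 0 - 1) ^ 2 = 0 := by
        linear_combination hdet - (x : Matrix (Fin 2) (Fin 2) F) 0 0 * h2 + h2
      have h8 : (x : Matrix (Fin 2) (Fin 2) F) 0 0 = 1 :=
        sub_eq_zero.1 (pow_eq_zero_iff (n := 2) (by norm_num) |>.1 h7)
      exact ⟨h4, h8, by rw [← h6, h8]⟩
    · rintro ⟨hx1, hx2, hx3⟩ y hy
      rw [Set.mem_singleton_iff.1 hy]
      apply Subtype.ext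
      show (u : Matrix (Fin 2) (Fin 2) F) * (x : Matrix (Fin 2) (Fin 2) F)
          = (x : Matrix (Fin 2) (Fin 2) F) * (u : Matrix (Fin 2) (Fin 2) F)
      rw [hu]
      ext i j
      fin_cases i <;> fin_cases j <;>
        simp [Matrix.mul_apply, Fin.sum_univ_two, hx1, hx2, hx3, add_comm]
  have hex : ∀ b : F, ∃ x : SpecialLinearGroup (Fin 2) F,
      (x : Matrix (Fin 2) (Fin 2) F) = !![1, b; 0, 1] := fun b =>
    ⟨⟨!![1, b; 0, 1], by simp [Matrix.det_fin_two]⟩, rfl⟩
  choose f hf using hex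
  have hmk : ∀ b : F, f b ∈
        Subgroup.centralizer ({u} : Set (SpecialLinearGroup (Fin 2) F)) := by
    intro b
    rw [hCmem, hf]
    refine ⟨?_, ?_, ?_⟩ <;> simp
  have hbij : Function.Bijective (fun b : F =>
      (⟨f b, hmk b⟩ : ↥(Subgroup.centralizer ({u} : Set (SpecialLinearGroup (Fin 2) F))))) := by
    constructor
    · intro a b hab
      have h1 : f a = f b := congrArg Subtype.val hab
      have h3 : (f a : Matrix (Fin 2) (Fin 2) F) 0 1 = (f b : Matrix (Fin 2) (Fin 2) F) 0 1 := by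
        rw [h1]
      rw [hf, hf] at h3
      simpa using h3
    · rintro ⟨x, hx⟩
      obtain ⟨hx1, hx2, hx3⟩ := (hCmem x).1 hx
      refine ⟨(x : Matrix (Fin 2) (Fin 2) F) 0 1, ?_⟩
      apply Subtype.ext
      apply Subtype.ext
      show (f ((x : Matrix (Fin 2) (Fin 2) F) 0 1) : Matrix (Fin 2) (Fin 2) F)
        = (x : Matrix (Fin 2) (Fin 2) F)
      rw [hf]
      ext i j
      fin_cases i <;> fin_cases j <;> simp [hx1, hx2, hx3]
  rw [← Nat.card_eq_of_bijective _ hbij, Nat.card_eq_fintype_card]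

theorem main (g h : SpecialLinearGroup (Fin 2) F) (hg : orderOf g = 2) (hh : orderOf h = 2) :
    IsConj g h ∧ Nat.card (ConjClasses.mk g).carrier = Fintype.card F ^ 2 - 1 := by
  classical
  obtain ⟨u, hu⟩ : ∃ u : SpecialLinearGroup (Fin 2) F,
      (u : Matrix (Fin 2) (Fin 2) F) = !![1, 1; 0, 1] :=
    ⟨⟨!![1, 1; 0, 1], by simp [Matrix.det_fin_two]⟩, rfl⟩
  have hug := conj_u u g hu hg
  have huh := conj_u u h hu hh
  refine ⟨hug.symm.trans huh, ?_⟩
  have h1 : ConjClasses.mk g = ConjClasses.mk u := ConjClasses.mk_eq_mk_iff_isConj.2 hug.symm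
  rw [h1, Nat.card_coe_set_eq, Cfsg.Agent.Lib_helper5_Class.carrier_ncard]
  have h2 := (Subgroup.centralizer ({u} : Set (SpecialLinearGroup (Fin 2) F))).card_mul_index
  rw [card_cent u hu] at h2
  have h3 := Cfsg.Agent.Lib_helper4_PSL2.card_SL2 (F := F) (q := Fintype.card F) rfl
  rw [← h2] at h3
  have hq2 : 2 ≤ Fintype.card F := Fintype.one_lt_card
  obtain ⟨q, hq⟩ : ∃ q : ℕ, q = Fintype.card F := ⟨_, rfl⟩
  rw [← hq] at h3 hq2 ⊢
  obtain ⟨s, rfl⟩ : ∃ s, q = s + 1 := ⟨q - 1, by omega⟩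
  have h4 : (s + 1) ^ 2 - (s + 1) = (s + 1) * s := by
    apply Nat.sub_eq_of_eq_add; ring
  rw [h4, Nat.add_sub_cancel] at h3
  have h5 : s * ((s + 1) * (Subgroup.centralizer ({u} : Set (SpecialLinearGroup (Fin 2) F))).index)
      = s * ((s + 1) * ((s + 1) ^ 2 - 1)) := by
    rw [h3]; ring
  have h6 := Nat.eq_of_mul_eq_mul_left (by omega : 0 < s) h5
  exact Nat.eq_of_mul_eq_mul_left (by omega : 0 < s + 1) h6

end Aux

/-- Over a finite field with q elements of characteristic 2, the involutions of SL₂ (the non-identity unipotent elements) form a single conjugacy class, of size q² − 1. -/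
theorem result {F : Type*} [Field F] [Fintype F] [CharP F 2] (g h : Matrix.SpecialLinearGroup (Fin 2) F) (hg : orderOf g = 2) (hh : orderOf h = 2) :
    IsConj g h ∧ Nat.card (ConjClasses.mk g).carrier = Fintype.card F ^ 2 - 1 := by
  exact main g h hg hh

end Cfsg.Agent.S2302
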