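import Cfsg.Statements.S2303
import Cfsg.Agent.Lib_helper8_Irr

set_option autoImplicit false
open Cfsg

namespace Cfsg.Agent.S2303

section Aux
open Matrix

variable {F : Type*} [Field F] [Fintype F]

theorem part2 (g : GL (Fin 2) F)
    (h : ∀ (c : F) (v : Fin 2 → F), v ≠ 0 → (g : Matrix (Fin 2) (Fin 2) F).mulVec v ≠ c • v) :
    Nat.card (Subgroup.centralizer ({g} : Set (GL (Fin 2) F))) = Fintype.card F ^ 2 - 1 := by
  classical
  refine (Cfsg.Agent.Lib_helper8_Irr.cent_of_irr rfl (by norm_num) g ?_).2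
  intro W hW hne
  by_contra htop
  have hlt : Module.finrank F W < 2 := by
    have h1 := Submodule.finrank_lt htop
    rwa [Module.finrank_fin_fun] at h1
  have hpos : 0 < Module.finrank F W := by
    rw [Nat.pos_iff_ne_zero]
    intro h0
    exact hne (Submodule.finrank_eq_zero.1 h0)
  have h1 : Module.finrank F W = 1 := by omega
  obtain ⟨v₀, hv₀, hspan⟩ := finrank_eq_one_iff'.1 h1
  obtain ⟨c, hc⟩ := hspan ⟨(g : Matrix (Fin 2) (Fin 2) F) *ᵥ (v₀ : Fin 2 → F), hW _ v₀.2⟩
  have h2 := congrArg Subtype.val hc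
  simp only [Submodule.coe_smul] at h2
  refine h c (v₀ : Fin 2 → F) ?_ h2.symm
  intro h0
  exact hv₀ (Subtype.ext h0)

theorem part1 (g : GL (Fin 2) F) (h01 : (g : Matrix (Fin 2) (Fin 2) F) 0 1 = 0)
    (h10 : (g : Matrix (Fin 2) (Fin 2) F) 1 0 = 0)
    (hne : (g : Matrix (Fin 2) (Fin 2) F) 0 0 ≠ (g : Matrix (Fin 2) (Fin 2) F) 1 1) :
    Nat.card (Subgroup.centralizer ({g} : Set (GL (Fin 2) F))) = (Fintype.card F - 1) ^ 2 := by
  classical
  obtain ⟨M, hM⟩ : ∃ M : Matrix (Fin 2) (Fin 2) F, M = (g : Matrix (Fin 2) (Fin 2) F) := ⟨_, rfl⟩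
  rw [← hM] at h01 h10 hne
  have hMd : M = Matrix.diagonal ![M 0 0, M 1 1] := by
    ext i j
    fin_cases i <;> fin_cases j <;> simp [h01, h10]
  have hCmem : ∀ x : GL (Fin 2) F, x ∈ Subgroup.centralizer ({g} : Set (GL (Fin 2) F)) ↔
      (x : Matrix (Fin 2) (Fin 2) F) 0 1 = 0 ∧ (x : Matrix (Fin 2) (Fin 2) F) 1 0 = 0 := by
    intro x
    rw [Subgroup.mem_centralizer_iff]
    constructor
    · intro hx
      have h1 := hx g rfl
      have h2 := congrArg (fun y : GL (Fin 2) F => (y : Matrix (Fin 2) (Fin 2) F)) h1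
      simp only [Units.val_mul] at h2
      rw [← hM, hMd] at h2
      have h3 := congrFun (congrFun h2 0) 1
      have h4 := congrFun (congrFun h2 1) 0
      simp [Matrix.mul_apply, Fin.sum_univ_two, Matrix.diagonal_apply] at h3 h4
      constructor
      · have h5 : (M 0 0 - M 1 1) * (x : Matrix (Fin 2) (Fin 2) F) 0 1 = 0 := by
          linear_combination h3
        rcases mul_eq_zero.1 h5 with h6 | h6
        · exact absurd (sub_eq_zero.1 h6) hne
        · exact h6
      · have h5 : (M 0 0 - M 1 1) * (x : Matrix (Fin 2) (Fin 2) F) 1 0 = 0 := by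
          linear_combination (-1 : F) * h4
        rcases mul_eq_zero.1 h5 with h6 | h6
        · exact absurd (sub_eq_zero.1 h6) hne
        · exact h6
    · rintro ⟨hx1, hx2⟩ y hy
      rw [Set.mem_singleton_iff.1 hy]
      apply Units.ext
      simp only [Units.val_mul]
      rw [← hM, hMd]
      ext i j
      fin_cases i <;> fin_cases j <;>
        simp [Matrix.mul_apply, Fin.sum_univ_two, Matrix.diagonal_apply, hx1, hx2, mul_comm]
  have hdet : ∀ u v : Fˣ, (Matrix.diagonal ![(u : F), (v : F)]).det ≠ 0 := by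
    intro u v
    rw [Matrix.det_diagonal, Fin.prod_univ_two]
    simp
  have hmk : ∀ uv : Fˣ × Fˣ,
      Matrix.GeneralLinearGroup.mkOfDetNeZero (Matrix.diagonal ![(uv.1 : F), (uv.2 : F)])
        (hdet uv.1 uv.2) ∈ Subgroup.centralizer ({g} : Set (GL (Fin 2) F)) := by
    intro uv
    rw [hCmem]
    constructor
    · show (Matrix.diagonal ![(uv.1 : F), (uv.2 : F)]) 0 1 = 0
      simp
    · show (Matrix.diagonal ![(uv.1 : F), (uv.2 : F)]) 1 0 = 0
      simp
  have hbij : Function.Bijective (fun uv : Fˣ × Fˣ =>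
      (⟨_, hmk uv⟩ : ↥(Subgroup.centralizer ({g} : Set (GL (Fin 2) F))))) := by
    constructor
    · intro a b hab
      have h1 := congrArg (fun y : ↥(Subgroup.centralizer ({g} : Set (GL (Fin 2) F))) =>
        ((y : GL (Fin 2) F) : Matrix (Fin 2) (Fin 2) F)) hab
      have h2 : Matrix.diagonal ![(a.1 : F), (a.2 : F)] = Matrix.diagonal ![(b.1 : F), (b.2 : F)] :=
        h1
      have h3 := congrFun (congrFun h2 0) 0
      have h4 := congrFun (congrFun h2 1) 1
      simp at h3 h4
      exact Prod.ext (Units.ext h3) (Units.ext h4)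
    · rintro ⟨x, hx⟩
      obtain ⟨hx1, hx2⟩ := (hCmem x).1 hx
      have hxd : (x : Matrix (Fin 2) (Fin 2) F).det ≠ 0 :=
        ((Matrix.isUnit_iff_isUnit_det _).1 x.isUnit).ne_zero
      rw [Matrix.det_fin_two, hx1, hx2, mul_zero, sub_zero] at hxd
      have ha : (x : Matrix (Fin 2) (Fin 2) F) 0 0 ≠ 0 := left_ne_zero_of_mul hxd
      have hb : (x : Matrix (Fin 2) (Fin 2) F) 1 1 ≠ 0 := right_ne_zero_of_mul hxd
      refine ⟨(Units.mk0 _ ha, Units.mk0 _ hb), ?_⟩
      apply Subtype.ext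
      apply Units.ext
      show Matrix.diagonal ![(x : Matrix (Fin 2) (Fin 2) F) 0 0, (x : Matrix (Fin 2) (Fin 2) F) 1 1]
        = (x : Matrix (Fin 2) (Fin 2) F)
      ext i j
      fin_cases i <;> fin_cases j <;> simp [hx1, hx2]
  rw [← Nat.card_eq_of_bijective _ hbij, Nat.card_prod, Nat.card_units, Nat.card_eq_fintype_card,
    sq]

end Aux

/-- Over a finite field with q elements: a diagonal element of GL₂ with two distinct diagonal entries has centralizer of order (q − 1)² (so q(q + 1) conjugates), and an element of GL₂ with no eigenvector in F² has centralizer of order q² − 1 (so q(q − 1) conjugates). -/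
theorem result {F : Type*} [Field F] [Fintype F] (g : Matrix.GeneralLinearGroup (Fin 2) F) :
    ((g : Matrix (Fin 2) (Fin 2) F) 0 1 = 0 → (g : Matrix (Fin 2) (Fin 2) F) 1 0 = 0 → (g : Matrix (Fin 2) (Fin 2) F) 0 0 ≠ (g : Matrix (Fin 2) (Fin 2) F) 1 1 →
      Nat.card (Subgroup.centralizer ({g} : Set (Matrix.GeneralLinearGroup (Fin 2) F))) = (Fintype.card F - 1) ^ 2) ∧
    ((∀ (c : F) (v : Fin 2 → F), v ≠ 0 → (g : Matrix (Fin 2) (Fin 2) F).mulVec v ≠ c • v) →
      Nat.card (Subgroup.centralizer ({g} : Set (Matrix.GeneralLinearGroup (Fin 2) F))) = Fintype.card F ^ 2 - 1) := by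
  exact ⟨part1 g, part2 g⟩

end Cfsg.Agent.S2303
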