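import Cfsg.Statements.S2306
import Mathlib
import Cfsg.Agent.Lib_helper8_IndB
import Cfsg.Agent.Lib_helper3_CharMore

set_option autoImplicit false
open Cfsg

namespace Cfsg.Agent.S2306

/-- Over a finite field F, for a multiplicative character α of F, the function induced to SL₂ from the linear character b ↦ α(b₁₁) of the upper triangular subgroup is an irreducible character if and only if α² ≠ 1. -/
theorem result {F : Type*} [Field F] [Fintype F] [DecidableEq F] (α : MulChar F ℂ) :
    Cfsg.IsIrrCharacter (Matrix.SpecialLinearGroup (Fin 2) F) (Cfsg.indFun ((Cfsg.upperTriangularGL 2 F).comap Matrix.SpecialLinearGroup.toGL) (fun b => α (((b : Matrix.SpecialLinearGroup (Fin 2) F) : Matrix (Fin 2) (Fin 2) F) 0 0))) ↔ α ^ 2 ≠ 1 := by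
  classical
  have hin := Cfsg.Agent.Lib_helper8_IndB.inner_RS α α
  rw [if_pos rfl] at hin
  constructor
  · intro h
    have h1 := Cfsg.Agent.Lib_helper3_CharBasic.irr_inner_self h
    rw [hin] at h1
    intro h2
    have h3 : α = α⁻¹ := by
      rw [eq_inv_iff_mul_eq_one, ← sq]
      exact h2
    rw [if_pos h3] at h1
    norm_num at h1
  · intro h
    apply Cfsg.Agent.Lib_helper3_CharMore.isIrrCharacter_of_inner_self_eq_one
    · exact Cfsg.Agent.Lib_helper3_CharInd.isCharacter_indFun _
        (Cfsg.Agent.Lib_helper8_IndB.theta_char α)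
    · rw [hin, if_neg, add_zero]
      intro h3
      apply h
      rw [sq]
      exact eq_inv_iff_mul_eq_one.mp h3

end Cfsg.Agent.S2306
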