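import Cfsg.Statements.S2307
import Mathlib
import Cfsg.Agent.Lib_helper8_SL2Cliff

set_option autoImplicit false
open Cfsg

namespace Cfsg.Agent.S2307

/-- Over a finite field F with q elements, q odd, let α be the multiplicative character of F of order 2. The character of SL₂ induced from the linear character b ↦ α(b₁₁) of the upper triangular subgroup is the sum of two distinct irreducible characters, each of degree (q + 1)/2, which are conjugate under GL₂: some fixed element of GL₂ conjugates the one into the other. -/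
theorem result {F : Type*} [Field F] [Fintype F] [DecidableEq F] (hodd : Odd (Fintype.card F)) (α : MulChar F ℂ)
    (hα : α ^ 2 = 1) (hα1 : α ≠ 1) :
    ∃ χ₁ χ₂ : Matrix.SpecialLinearGroup (Fin 2) F → ℂ, Cfsg.IsIrrCharacter (Matrix.SpecialLinearGroup (Fin 2) F) χ₁ ∧ Cfsg.IsIrrCharacter (Matrix.SpecialLinearGroup (Fin 2) F) χ₂ ∧ χ₁ ≠ χ₂ ∧
      Cfsg.indFun ((Cfsg.upperTriangularGL 2 F).comap Matrix.SpecialLinearGroup.toGL) (fun b => α (((b : Matrix.SpecialLinearGroup (Fin 2) F) : Matrix (Fin 2) (Fin 2) F) 0 0)) = χ₁ + χ₂ ∧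
      χ₁ 1 = (((Fintype.card F + 1) / 2 : ℕ) : ℂ) ∧ χ₂ 1 = (((Fintype.card F + 1) / 2 : ℕ) : ℂ) ∧
      ∃ x : Matrix.GeneralLinearGroup (Fin 2) F, ∀ g h : Matrix.SpecialLinearGroup (Fin 2) F,
        Matrix.SpecialLinearGroup.toGL h = x * Matrix.SpecialLinearGroup.toGL g * x⁻¹ → χ₂ h = χ₁ g := by
  classical
  haveI : Fintype (Matrix.GeneralLinearGroup (Fin 2) F) := Fintype.ofFinite _
  haveI : Fintype (MulChar F ℂ) := Fintype.ofFinite _
  haveI : Finite (Cfsg.IrrCharacter (Matrix.GeneralLinearGroup (Fin 2) F)) :=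
    Cfsg.Agent.Lib_helper3_CharBasic.irr_finite
  haveI : Fintype (Cfsg.IrrCharacter (Matrix.GeneralLinearGroup (Fin 2) F)) := Fintype.ofFinite _
  have hθ : Cfsg.IsIrrCharacter (Matrix.GeneralLinearGroup (Fin 2) F)
      (Cfsg.Agent.Lib_helper8_GL2Irr.psR α 1) := Cfsg.Agent.Lib_helper8_GL2Irr.psR_irr hα1
  obtain ⟨RS, hRS⟩ : ∃ RS : Matrix.SpecialLinearGroup (Fin 2) F → ℂ, RS =
      Cfsg.indFun ((Cfsg.upperTriangularGL 2 F).comap Matrix.SpecialLinearGroup.toGL)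
        (fun b => α (((b : Matrix.SpecialLinearGroup (Fin 2) F) : Matrix (Fin 2) (Fin 2) F) 0 0)) :=
    ⟨_, rfl⟩
  rw [← hRS]
  have hres : ∀ s : Matrix.SpecialLinearGroup (Fin 2) F,
      Cfsg.Agent.Lib_helper8_GL2Irr.psR α 1 (Matrix.SpecialLinearGroup.toGL s) = RS s := by
    intro s
    rw [Cfsg.Agent.Lib_helper8_SL2Cliff.psR_toGL α 1 s, hRS, inv_one, mul_one]
  have hαinv : α = α⁻¹ := by
    rw [eq_inv_iff_mul_eq_one, ← sq]
    exact hα
  have hnorm : Cfsg.classInner RS RS = 2 := by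
    have h5 := Cfsg.Agent.Lib_helper8_IndB.inner_RS α α
    rw [if_pos rfl, if_pos hαinv] at h5
    rw [hRS, h5]
    norm_num
  have hRSchar : Cfsg.IsCharacter (Matrix.SpecialLinearGroup (Fin 2) F) RS := by
    rw [hRS]
    exact Cfsg.Agent.Lib_helper3_CharInd.isCharacter_indFun _
      (Cfsg.Agent.Lib_helper8_IndB.theta_char α)
  have hRSne : RS ≠ 0 := by
    intro h
    rw [h] at hnorm
    rw [Cfsg.Agent.Lib_helper3_CharBasic.classInner_def] at hnorm
    simp at hnorm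
  obtain ⟨χ₁, hχ₁, hne⟩ := Cfsg.Agent.Lib_helper3_CharMore.classInner_irr_of_ne_zero hRSchar hRSne
  have hfun : (fun s : Matrix.SpecialLinearGroup (Fin 2) F =>
      Cfsg.Agent.Lib_helper8_GL2Irr.psR α 1 (Matrix.SpecialLinearGroup.toGL s)) = RS := funext hres
  obtain ⟨c, T, hc0, hmem, hT, hval, hn⟩ :=
    Cfsg.Agent.Lib_helper8_SL2Cliff.sl_clifford_of hθ hχ₁ (by rw [hfun]; exact hne)
  rw [hfun, hnorm] at hn
  have hn' : c ^ 2 * T.card = 2 := by exact_mod_cast hn.symm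
  have hc1 : c = 1 := by
    rcases Nat.lt_or_ge c 2 with h | h
    · omega
    · have h4 : 4 ≤ c ^ 2 := by nlinarith
      have hT0 : T.card ≠ 0 := by
        intro h0
        rw [h0] at hn'
        omega
      nlinarith [Nat.pos_of_ne_zero hT0]
  subst hc1
  have hT2 : T.card = 2 := by simpa using hn'
  obtain ⟨a, b, hab, rfl⟩ := Finset.card_eq_two.mp hT2
  have hex : ∃ χ₂ : Matrix.SpecialLinearGroup (Fin 2) F → ℂ, χ₁ ≠ χ₂ ∧
      χ₂ ∈ ({a, b} : Finset (Matrix.SpecialLinearGroup (Fin 2) F → ℂ)) ∧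
      ∀ s, ∑ ψ ∈ ({a, b} : Finset (Matrix.SpecialLinearGroup (Fin 2) F → ℂ)), ψ s =
        χ₁ s + χ₂ s := by
    rw [Finset.mem_insert, Finset.mem_singleton] at hmem
    rcases hmem with rfl | rfl
    · exact ⟨b, hab, by simp, fun s => by rw [Finset.sum_pair hab]⟩
    · exact ⟨a, hab.symm, by simp, fun s => by rw [Finset.sum_pair hab, add_comm]⟩
  obtain ⟨χ₂, hne12, hχ₂mem, hsum⟩ := hex
  obtain ⟨hχ₂, y, hy⟩ := hT χ₂ hχ₂mem
  have hRSsum : RS = χ₁ + χ₂ := by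
    funext s
    rw [← hres s, hval s, hsum s]
    simp
  have hdeg : χ₂ 1 = χ₁ 1 := hy 1 1 (by simp)
  have hRS1 : RS 1 = (Fintype.card F : ℂ) + 1 := by
    rw [← hres 1, map_one]
    exact Cfsg.Agent.Lib_helper8_GL2Irr.psR_one α 1
  have h2 : 2 * χ₁ 1 = (Fintype.card F : ℂ) + 1 := by
    have h5 := congrFun hRSsum 1
    rw [hRS1, Pi.add_apply, hdeg] at h5
    linear_combination -h5
  obtain ⟨m, hm⟩ := hodd
  have hhalf : (((Fintype.card F + 1) / 2 : ℕ) : ℂ) = ((Fintype.card F : ℂ) + 1) / 2 := by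
    rw [hm]
    have h6 : (2 * m + 1 + 1) / 2 = m + 1 := by omega
    rw [h6]
    push_cast
    ring
  have hχ₁1 : χ₁ 1 = (((Fintype.card F + 1) / 2 : ℕ) : ℂ) := by
    rw [hhalf]
    linear_combination h2 / 2
  refine ⟨χ₁, χ₂, hχ₁, hχ₂, hne12, hRSsum, hχ₁1, by rw [hdeg]; exact hχ₁1, y⁻¹, ?_⟩
  intro g h hgh
  apply hy h g
  rw [hgh]
  group

end Cfsg.Agent.S2307
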