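import Cfsg.Statements.S2308
import Mathlib
import Cfsg.Agent.Lib_helper8_IndBGL

set_option autoImplicit false
open Cfsg

namespace Cfsg.Agent.S2308

section Aux
open Matrix Cfsg.Agent.Lib_helper8_IndBGL

theorem fixed_card {G : Type*} [Group G] (H : Subgroup G) {ι : Type*} (r : ι → G)
    (hr : Function.Bijective (fun p : ι × H => r p.1 * (p.2 : G))) (g : G) :
    Nat.card (MulAction.fixedBy (G ⧸ H) g) = Nat.card {i : ι // (r i)⁻¹ * g * r i ∈ H} := by
  have key : ∀ i : ι, g • (r i : G ⧸ H) = (r i : G ⧸ H) ↔ (r i)⁻¹ * g * r i ∈ H := by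
    intro i
    rw [MulAction.Quotient.smul_coe, QuotientGroup.eq, smul_eq_mul]
    rw [← inv_mem_iff]
    have : ((g * r i)⁻¹ * r i)⁻¹ = (r i)⁻¹ * g * r i := by group
    rw [this]
  apply Nat.card_congr
  symm
  refine Equiv.ofBijective (fun i => ⟨(r i.1 : G ⧸ H), (key i.1).mpr i.2⟩) ⟨?_, ?_⟩
  · intro i j hij
    have h1 : (r i.1 : G ⧸ H) = (r j.1 : G ⧸ H) := congrArg Subtype.val hij
    rw [QuotientGroup.eq] at h1
    have h2 : (fun p : ι × H => r p.1 * (p.2 : G)) (i.1, ⟨_, h1⟩) =
        (fun p : ι × H => r p.1 * (p.2 : G)) (j.1, 1) := by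
      show r i.1 * ((r i.1)⁻¹ * r j.1) = r j.1 * ((1 : H) : G)
      rw [Subgroup.coe_one]; group
    have h3 := hr.1 h2
    exact Subtype.ext (congrArg Prod.fst h3)
  · rintro ⟨x, hx⟩
    induction x using QuotientGroup.induction_on with
    | H y =>
      obtain ⟨⟨i, h⟩, hy⟩ := hr.2 y
      have e : (y : G ⧸ H) = (r i : G ⧸ H) := by
        rw [QuotientGroup.eq, ← hy]
        have : (r i * (h : G))⁻¹ * r i = ((h : G))⁻¹ := by group
        rw [this]
        exact inv_mem h.2
      have hx' : g • (r i : G ⧸ H) = (r i : G ⧸ H) := by rw [← e]; exact hx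
      exact ⟨⟨i, (key i).mp hx'⟩, Subtype.ext e.symm⟩

theorem fpc {F : Type*} [Field F] [Fintype F] [DecidableEq F]
    (g : Matrix.GeneralLinearGroup (Fin 2) F) :
    Cfsg.fixedPointCharacter (Cfsg.upperTriangularGL 2 F) g =
      (((if (g : Matrix (Fin 2) (Fin 2) F) 1 0 = 0 then 1 else 0) +
        ∑ t : F, (if (g : Matrix (Fin 2) (Fin 2) F) 1 0 * t ^ 2 +
          ((g : Matrix (Fin 2) (Fin 2) F) 1 1 - (g : Matrix (Fin 2) (Fin 2) F) 0 0) * t -
          (g : Matrix (Fin 2) (Fin 2) F) 0 1 = 0 then 1 else 0) : ℕ) : ℂ) := by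
  classical
  unfold Cfsg.fixedPointCharacter
  rw [fixed_card _ rG rG_bij g]
  congr 1
  rw [Nat.card_eq_fintype_card, Fintype.card_subtype, Finset.card_filter, Fintype.sum_option]
  congr 1
  · have h0 : (rG (none : Option F))⁻¹ * g * rG none = g := by simp [rG]
    rw [h0]
    simp only [mem_BG_iff]
  · apply Finset.sum_congr rfl
    intro t _
    have h1 : (rG (some t))⁻¹ * g * rG (some t) = (nG t)⁻¹ * g * nG t := rfl
    rw [h1]
    simp only [mem_BG_iff]
    rw [(cjG_entries g t).2.1]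

end Aux

/-- Values of the permutation character of GL₂ over a finite field F with q elements on the cosets of its upper triangular subgroup (equivalently, the number of lines of F² that an element maps to themselves): q + 1 at a scalar matrix, 2 at a diagonal matrix with two different diagonal entries, 0 at an element with no eigenvector in F², and 1 at an upper triangular matrix with equal diagonal entries and non-zero upper right entry. -/
theorem result {F : Type*} [Field F] [Fintype F] (g : Matrix.GeneralLinearGroup (Fin 2) F) :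
    ((∃ a : F, (g : Matrix (Fin 2) (Fin 2) F) = a • (1 : Matrix (Fin 2) (Fin 2) F)) → Cfsg.fixedPointCharacter (Cfsg.upperTriangularGL 2 F) g = Fintype.card F + 1) ∧
    ((g : Matrix (Fin 2) (Fin 2) F) 0 1 = 0 → (g : Matrix (Fin 2) (Fin 2) F) 1 0 = 0 → (g : Matrix (Fin 2) (Fin 2) F) 0 0 ≠ (g : Matrix (Fin 2) (Fin 2) F) 1 1 →
      Cfsg.fixedPointCharacter (Cfsg.upperTriangularGL 2 F) g = 2) ∧
    ((∀ (c : F) (v : Fin 2 → F), v ≠ 0 → (g : Matrix (Fin 2) (Fin 2) F).mulVec v ≠ c • v) → Cfsg.fixedPointCharacter (Cfsg.upperTriangularGL 2 F) g = 0) ∧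
    ((g : Matrix (Fin 2) (Fin 2) F) 1 0 = 0 → (g : Matrix (Fin 2) (Fin 2) F) 0 0 = (g : Matrix (Fin 2) (Fin 2) F) 1 1 → (g : Matrix (Fin 2) (Fin 2) F) 0 1 ≠ 0 →
      Cfsg.fixedPointCharacter (Cfsg.upperTriangularGL 2 F) g = 1) := by
  classical
  have H := fpc g
  refine ⟨?_, ?_, ?_, ?_⟩
  · rintro ⟨a, ha⟩
    have e10 : (g : Matrix (Fin 2) (Fin 2) F) 1 0 = 0 := by rw [ha]; simp
    have e01 : (g : Matrix (Fin 2) (Fin 2) F) 0 1 = 0 := by rw [ha]; simp
    have e00 : (g : Matrix (Fin 2) (Fin 2) F) 0 0 = a := by rw [ha]; simp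
    have e11 : (g : Matrix (Fin 2) (Fin 2) F) 1 1 = a := by rw [ha]; simp
    rw [H, e10, e01, e00, e11]
    have h : ∀ t : F, (0 : F) * t ^ 2 + (a - a) * t - 0 = 0 := fun t => by ring
    simp only [h, if_true, Finset.sum_const, Finset.card_univ, smul_eq_mul, mul_one]
    push_cast; ring
  · intro e01 e10 hne
    rw [H, e10, e01]
    have h : ∀ t : F, ((0 : F) * t ^ 2 + ((g : Matrix (Fin 2) (Fin 2) F) 1 1 -
        (g : Matrix (Fin 2) (Fin 2) F) 0 0) * t - 0 = 0) ↔ t = 0 := by
      intro t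
      constructor
      · intro ht
        have h2 : ((g : Matrix (Fin 2) (Fin 2) F) 1 1 - (g : Matrix (Fin 2) (Fin 2) F) 0 0) * t = 0 := by
          linear_combination ht
        rcases mul_eq_zero.mp h2 with h3 | h3
        · exact absurd (sub_eq_zero.mp h3).symm hne
        · exact h3
      · intro ht
        rw [ht]; ring
    simp only [h, if_true, Finset.sum_ite_eq', Finset.mem_univ]
    norm_num
  · intro hno
    have e10 : (g : Matrix (Fin 2) (Fin 2) F) 1 0 ≠ 0 := by
      intro h0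
      apply hno ((g : Matrix (Fin 2) (Fin 2) F) 0 0) ![1, 0] (by
        intro h; have := congrFun h 0; simp at this)
      funext i
      fin_cases i
      · simp [Matrix.mulVec, dotProduct, Fin.sum_univ_two]
      · simp [Matrix.mulVec, dotProduct, Fin.sum_univ_two, h0]
    have h : ∀ t : F, ¬ ((g : Matrix (Fin 2) (Fin 2) F) 1 0 * t ^ 2 +
        ((g : Matrix (Fin 2) (Fin 2) F) 1 1 - (g : Matrix (Fin 2) (Fin 2) F) 0 0) * t -
        (g : Matrix (Fin 2) (Fin 2) F) 0 1 = 0) := by
      intro t ht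
      apply hno ((g : Matrix (Fin 2) (Fin 2) F) 1 0 * t + (g : Matrix (Fin 2) (Fin 2) F) 1 1) ![t, 1] (by
        intro h; have := congrFun h 1; simp at this)
      funext i
      fin_cases i
      · simp [Matrix.mulVec, dotProduct, Fin.sum_univ_two]
        linear_combination -ht
      · simp [Matrix.mulVec, dotProduct, Fin.sum_univ_two]
    rw [H, if_neg e10]
    simp only [h, if_false, Finset.sum_const_zero]
    norm_num
  · intro e10 e00 e01
    rw [H, e10, e00]
    have h : ∀ t : F, ¬ ((0 : F) * t ^ 2 + ((g : Matrix (Fin 2) (Fin 2) F) 1 1 -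
        (g : Matrix (Fin 2) (Fin 2) F) 1 1) * t - (g : Matrix (Fin 2) (Fin 2) F) 0 1 = 0) := by
      intro t ht
      apply e01
      linear_combination -ht
    simp only [h, if_false, Finset.sum_const_zero]
    norm_num

end Cfsg.Agent.S2308
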