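import Cfsg.Statements.S2309
import Mathlib
import Cfsg.Agent.Lib_helper8_GL2Irr

set_option autoImplicit false
open Cfsg

namespace Cfsg.Agent.S2309

/-- Over a finite field F with q elements: every irreducible complex character of GL₂ of degree q − 1 vanishes at every diagonal matrix with two distinct entries, and every irreducible complex character of degree q + 1 vanishes at every element with no eigenvector in F². -/
theorem result {F : Type*} [Field F] [Fintype F] (χ : Matrix.GeneralLinearGroup (Fin 2) F → ℂ) (hχ : Cfsg.IsIrrCharacter (Matrix.GeneralLinearGroup (Fin 2) F) χ) (g : Matrix.GeneralLinearGroup (Fin 2) F) :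
    (χ 1 = (Fintype.card F : ℂ) - 1 → (g : Matrix (Fin 2) (Fin 2) F) 0 1 = 0 → (g : Matrix (Fin 2) (Fin 2) F) 1 0 = 0 → (g : Matrix (Fin 2) (Fin 2) F) 0 0 ≠ (g : Matrix (Fin 2) (Fin 2) F) 1 1 → χ g = 0) ∧
    (χ 1 = (Fintype.card F : ℂ) + 1 → (∀ (c : F) (v : Fin 2 → F), v ≠ 0 → (g : Matrix (Fin 2) (Fin 2) F).mulVec v ≠ c • v) → χ g = 0) := by
  classical
  haveI : Fintype (Matrix.GeneralLinearGroup (Fin 2) F) := Fintype.ofFinite _
  haveI : Fintype (MulChar F ℂ) := Fintype.ofFinite _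
  haveI : Finite (Cfsg.IrrCharacter (Matrix.GeneralLinearGroup (Fin 2) F)) :=
    Cfsg.Agent.Lib_helper3_CharBasic.irr_finite
  haveI : Fintype (Cfsg.IrrCharacter (Matrix.GeneralLinearGroup (Fin 2) F)) := Fintype.ofFinite _
  obtain ⟨hq1, hq0⟩ := Cfsg.Agent.Lib_helper8_IndB.card_ne (F := F)
  have hcf := Cfsg.Agent.Lib_helper3_CharBasic.isClassFunction_of_irr hχ
  constructor
  · intro hd h01 h10 hne
    obtain ⟨a, b, ha, hb, hg⟩ := Cfsg.Agent.Lib_helper8_GL2Irr.split_form g h01 h10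
    have hab : a ≠ b := by
      intro h
      apply hne
      rw [← ha, ← hb, h]
    rcases Cfsg.Agent.Lib_helper8_GL2Irr.classify hχ with ⟨α, rfl⟩ | ⟨α, rfl⟩ | ⟨α, β, hne', rfl⟩ | ⟨h0, -, -⟩
    · exfalso
      rw [Cfsg.Agent.Lib_helper8_GL2Irr.linL_one] at hd
      have h2 : ((Fintype.card F : ℕ) : ℂ) = ((2 : ℕ) : ℂ) := by
        push_cast
        linear_combination -hd
      have h3 : Fintype.card F = 2 := Nat.cast_injective h2
      have h4 : Fintype.card Fˣ = 1 := by rw [Fintype.card_units, h3]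
      exact hab ((Fintype.card_le_one_iff.mp h4.le) a b)
    · exfalso
      rw [Cfsg.Agent.Lib_helper8_GL2Irr.stC_one] at hd
      have h5 : (0 : ℂ) = 1 := by linear_combination -hd
      norm_num at h5
    · exfalso
      rw [Cfsg.Agent.Lib_helper8_GL2Irr.psR_one] at hd
      have h5 : (0 : ℂ) = 2 := by linear_combination -hd
      norm_num at h5
    · rw [hg]
      exact Cfsg.Agent.Lib_helper8_GL2Irr.cusp_split hcf h0 a b hab
  · intro hd hno
    obtain ⟨h10, hnt⟩ := Cfsg.Agent.Lib_helper8_GL2Irr.ell_cond g hno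
    rcases Cfsg.Agent.Lib_helper8_GL2Irr.classify hχ with ⟨α, rfl⟩ | ⟨α, rfl⟩ | ⟨α, β, hne', rfl⟩ | ⟨h0, h1, -⟩
    · exfalso
      rw [Cfsg.Agent.Lib_helper8_GL2Irr.linL_one] at hd
      apply hq0
      linear_combination -hd
    · exfalso
      rw [Cfsg.Agent.Lib_helper8_GL2Irr.stC_one] at hd
      have h5 : (0 : ℂ) = 1 := by linear_combination hd
      norm_num at h5
    · exact Cfsg.Agent.Lib_helper8_GL2Irr.psR_ell α β g h10 hnt
    · exfalso
      rw [h1] at hd
      have h5 : (0 : ℂ) = 2 := by linear_combination hd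
      norm_num at h5

end Cfsg.Agent.S2309
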