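import Cfsg.Statements.S2310
import Mathlib
import Cfsg.Agent.Lib_helper8_GL2Irr

set_option autoImplicit false
open Cfsg

namespace Cfsg.Agent.S2310

/-- Over a finite field F with q ≥ 3 elements, let u be the upper unitriangular matrix of GL₂ with off-diagonal entry 1. An irreducible complex character χ of GL₂ takes at u the value 1 if χ has degree 1 or q + 1, the value −1 if χ has degree q − 1, and the value 0 if χ has degree q. -/
theorem result {F : Type*} [Field F] [Fintype F] (hq : 3 ≤ Fintype.card F) (χ : Matrix.GeneralLinearGroup (Fin 2) F → ℂ) (hχ : Cfsg.IsIrrCharacter (Matrix.GeneralLinearGroup (Fin 2) F) χ)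
    (u : Matrix.GeneralLinearGroup (Fin 2) F) (hu : (u : Matrix (Fin 2) (Fin 2) F) = !![1, 1; 0, 1]) :
    (χ 1 = 1 → χ u = 1) ∧ (χ 1 = (Fintype.card F : ℂ) + 1 → χ u = 1) ∧
    (χ 1 = (Fintype.card F : ℂ) - 1 → χ u = -1) ∧ (χ 1 = (Fintype.card F : ℂ) → χ u = 0) := by
  classical
  haveI : Fintype (Matrix.GeneralLinearGroup (Fin 2) F) := Fintype.ofFinite _
  haveI : Fintype (MulChar F ℂ) := Fintype.ofFinite _
  haveI : Finite (Cfsg.IrrCharacter (Matrix.GeneralLinearGroup (Fin 2) F)) :=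
    Cfsg.Agent.Lib_helper3_CharBasic.irr_finite
  haveI : Fintype (Cfsg.IrrCharacter (Matrix.GeneralLinearGroup (Fin 2) F)) := Fintype.ofFinite _
  have hu' : u = Cfsg.Agent.Lib_helper8_GL2Irr.uG := Units.ext (hu.trans Cfsg.Agent.Lib_helper8_GL2Irr.uG_val.symm)
  rw [hu']
  obtain ⟨D1, D2, D3, D4, D5, D6⟩ := Cfsg.Agent.Lib_helper8_GL2Irr.deg_distinct hq
  rcases Cfsg.Agent.Lib_helper8_GL2Irr.type_vals' hχ with ⟨h1, hv⟩ | ⟨h1, hv⟩ | ⟨h1, hv⟩ | ⟨h1, hv⟩
  · refine ⟨fun _ => hv, fun _ => hv, fun hd => ?_, fun hd => ?_⟩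
    · rw [h1] at hd; exact absurd hd D3
    · rw [h1] at hd; exact absurd hd D1
  · refine ⟨fun hd => ?_, fun hd => ?_, fun hd => ?_, fun _ => hv⟩
    · rw [h1] at hd; exact absurd hd.symm D1
    · rw [h1] at hd; exact absurd hd D4
    · rw [h1] at hd; exact absurd hd D5
  · refine ⟨fun _ => hv, fun _ => hv, fun hd => ?_, fun hd => ?_⟩
    · rw [h1] at hd; exact absurd hd D6
    · rw [h1] at hd; exact absurd hd.symm D4
  · refine ⟨fun hd => ?_, fun hd => ?_, fun _ => hv, fun hd => ?_⟩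
    · rw [h1] at hd; exact absurd hd.symm D3
    · rw [h1] at hd; exact absurd hd.symm D6
    · rw [h1] at hd; exact absurd hd.symm D5

end Cfsg.Agent.S2310
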