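import Cfsg.Statements.S2320
import Mathlib
import Cfsg.Agent.Lib_helper8_GL2Irr

set_option autoImplicit false
open Cfsg

namespace Cfsg.Agent.S2320

/-- Over a finite field F with q elements, every irreducible complex character of GL₂ of degree q takes a value of absolute value 1 at every diagonal matrix with two different diagonal entries and at every element with no eigenvector in F². -/
theorem result {F : Type*} [Field F] [Fintype F] (χ : Matrix.GeneralLinearGroup (Fin 2) F → ℂ) (hχ : Cfsg.IsIrrCharacter (Matrix.GeneralLinearGroup (Fin 2) F) χ) (hdeg : χ 1 = (Fintype.card F : ℂ)) (g : Matrix.GeneralLinearGroup (Fin 2) F) :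
    ((g : Matrix (Fin 2) (Fin 2) F) 0 1 = 0 → (g : Matrix (Fin 2) (Fin 2) F) 1 0 = 0 → (g : Matrix (Fin 2) (Fin 2) F) 0 0 ≠ (g : Matrix (Fin 2) (Fin 2) F) 1 1 → ‖χ g‖ = 1) ∧
    ((∀ (c : F) (v : Fin 2 → F), v ≠ 0 → (g : Matrix (Fin 2) (Fin 2) F).mulVec v ≠ c • v) → ‖χ g‖ = 1) := by
  classical
  haveI : Fintype (Matrix.GeneralLinearGroup (Fin 2) F) := Fintype.ofFinite _
  haveI : Fintype (MulChar F ℂ) := Fintype.ofFinite _
  haveI : Finite (Cfsg.IrrCharacter (Matrix.GeneralLinearGroup (Fin 2) F)) :=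
    Cfsg.Agent.Lib_helper3_CharBasic.irr_finite
  haveI : Fintype (Cfsg.IrrCharacter (Matrix.GeneralLinearGroup (Fin 2) F)) := Fintype.ofFinite _
  have hq2 : 2 ≤ Fintype.card F := Fintype.one_lt_card
  have hst : ∃ α : MulChar F ℂ, χ = Cfsg.Agent.Lib_helper8_GL2Irr.stC α := by
    rcases Cfsg.Agent.Lib_helper8_GL2Irr.classify hχ with ⟨α, rfl⟩ | ⟨α, h⟩ | ⟨α, β, hne', rfl⟩ | ⟨h0, h1, -⟩
    · exfalso
      rw [Cfsg.Agent.Lib_helper8_GL2Irr.linL_one] at hdeg
      have h2 : ((Fintype.card F : ℕ) : ℂ) = ((1 : ℕ) : ℂ) := by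
        push_cast
        exact hdeg.symm
      have h3 := Nat.cast_injective h2
      omega
    · exact ⟨α, h⟩
    · exfalso
      rw [Cfsg.Agent.Lib_helper8_GL2Irr.psR_one] at hdeg
      have h5 : (0 : ℂ) = 1 := by linear_combination -hdeg
      norm_num at h5
    · exfalso
      rw [h1] at hdeg
      have h5 : (0 : ℂ) = 1 := by linear_combination hdeg
      norm_num at h5
  obtain ⟨α, rfl⟩ := hst
  have hdet := Cfsg.Agent.Lib_helper8_IndBGL.detG g
  constructor
  · intro h01 h10 hne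
    have e : Cfsg.Agent.Lib_helper8_GL2Irr.stC α g = α ((g : Matrix (Fin 2) (Fin 2) F) 0 0) *
        α ((g : Matrix (Fin 2) (Fin 2) F) 1 1) := by
      show Cfsg.Agent.Lib_helper8_GL2Irr.psR α α g - Cfsg.Agent.Lib_helper8_GL2Irr.linL α g = _
      rw [Cfsg.Agent.Lib_helper8_GL2Irr.psR_split α α g h01 h10 hne]
      show _ - α ((g : Matrix (Fin 2) (Fin 2) F).det) = _
      rw [Matrix.det_fin_two, h01, zero_mul, sub_zero, map_mul]
      ring
    rw [h01, zero_mul, sub_zero] at hdet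
    rw [e, norm_mul, Cfsg.Agent.Lib_helper8_GL2Irr.mulChar_norm α (left_ne_zero_of_mul hdet),
      Cfsg.Agent.Lib_helper8_GL2Irr.mulChar_norm α (right_ne_zero_of_mul hdet), mul_one]
  · intro hno
    obtain ⟨h10, hnt⟩ := Cfsg.Agent.Lib_helper8_GL2Irr.ell_cond g hno
    have e : Cfsg.Agent.Lib_helper8_GL2Irr.stC α g = - α ((g : Matrix (Fin 2) (Fin 2) F).det) := by
      show Cfsg.Agent.Lib_helper8_GL2Irr.psR α α g - Cfsg.Agent.Lib_helper8_GL2Irr.linL α g = _
      rw [Cfsg.Agent.Lib_helper8_GL2Irr.psR_ell α α g h10 hnt, zero_sub]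
      rfl
    have hd' : (g : Matrix (Fin 2) (Fin 2) F).det ≠ 0 := by
      rw [Matrix.det_fin_two]
      exact hdet
    rw [e, norm_neg, Cfsg.Agent.Lib_helper8_GL2Irr.mulChar_norm α hd']

end Cfsg.Agent.S2320
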