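import Cfsg.Statements.S2321
import Mathlib
import Cfsg.Agent.Lib_helper8_SL2Res

set_option autoImplicit false
open Cfsg

namespace Cfsg.Agent.S2321

/-- Over a finite field F with q elements, an irreducible complex character of SL₂ of degree q (the Steinberg character) takes the value 1 at every diagonal matrix whose diagonal entry a has a² ≠ 1, the value −1 at every element with no eigenvector in F², and the value 0 at every upper triangular matrix with equal diagonal entries and non-zero upper right entry. -/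
theorem result {F : Type*} [Field F] [Fintype F] (χ : Matrix.SpecialLinearGroup (Fin 2) F → ℂ) (hχ : Cfsg.IsIrrCharacter (Matrix.SpecialLinearGroup (Fin 2) F) χ) (hdeg : χ 1 = (Fintype.card F : ℂ)) (g : Matrix.SpecialLinearGroup (Fin 2) F) :
    ((g : Matrix (Fin 2) (Fin 2) F) 0 1 = 0 → (g : Matrix (Fin 2) (Fin 2) F) 1 0 = 0 → (g : Matrix (Fin 2) (Fin 2) F) 0 0 ^ 2 ≠ 1 → χ g = 1) ∧
    ((∀ (c : F) (v : Fin 2 → F), v ≠ 0 → (g : Matrix (Fin 2) (Fin 2) F).mulVec v ≠ c • v) → χ g = -1) ∧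
    ((g : Matrix (Fin 2) (Fin 2) F) 1 0 = 0 → (g : Matrix (Fin 2) (Fin 2) F) 0 0 = (g : Matrix (Fin 2) (Fin 2) F) 1 1 → (g : Matrix (Fin 2) (Fin 2) F) 0 1 ≠ 0 → χ g = 0) := by
  classical
  haveI : Fintype (Matrix.GeneralLinearGroup (Fin 2) F) := Fintype.ofFinite _
  haveI : Fintype (MulChar F ℂ) := Fintype.ofFinite _
  haveI : Finite (Cfsg.IrrCharacter (Matrix.GeneralLinearGroup (Fin 2) F)) :=
    Cfsg.Agent.Lib_helper3_CharBasic.irr_finite
  haveI : Fintype (Cfsg.IrrCharacter (Matrix.GeneralLinearGroup (Fin 2) F)) := Fintype.ofFinite _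
  have hq2 : 2 ≤ Fintype.card F := Fintype.one_lt_card
  obtain ⟨θ, hθ, hval⟩ := Cfsg.Agent.Lib_helper8_SL2Res.sl_over_eq hχ (Fintype.card F) hdeg (by omega)
  have hθ1 : θ 1 = (Fintype.card F : ℂ) := by
    have h5 := hval 1
    rw [map_one] at h5
    rw [h5, hdeg]
  have hst : ∃ α : MulChar F ℂ, θ = Cfsg.Agent.Lib_helper8_GL2Irr.stC α := by
    rcases Cfsg.Agent.Lib_helper8_GL2Irr.classify hθ with ⟨α, rfl⟩ | ⟨α, h⟩ | ⟨α, β, hne', rfl⟩ | ⟨h0, h1, -⟩
    · exfalso
      rw [Cfsg.Agent.Lib_helper8_GL2Irr.linL_one] at hθ1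
      have h2 : ((Fintype.card F : ℕ) : ℂ) = ((1 : ℕ) : ℂ) := by
        push_cast
        exact hθ1.symm
      have h3 := Nat.cast_injective h2
      omega
    · exact ⟨α, h⟩
    · exfalso
      rw [Cfsg.Agent.Lib_helper8_GL2Irr.psR_one] at hθ1
      have h5 : (0 : ℂ) = 1 := by linear_combination -hθ1
      norm_num at h5
    · exfalso
      rw [h1] at hθ1
      have h5 : (0 : ℂ) = 1 := by linear_combination hθ1
      norm_num at h5
  obtain ⟨α, rfl⟩ := hst
  have hg : (((Matrix.SpecialLinearGroup.toGL g : Matrix.GeneralLinearGroup (Fin 2) F) : Matrix (Fin 2) (Fin 2) F)) = (g : Matrix (Fin 2) (Fin 2) F) := rfl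
  have hdet : (g : Matrix (Fin 2) (Fin 2) F) 0 0 * (g : Matrix (Fin 2) (Fin 2) F) 1 1 - (g : Matrix (Fin 2) (Fin 2) F) 0 1 * (g : Matrix (Fin 2) (Fin 2) F) 1 0 = 1 := by
    have h5 := g.det_coe
    rw [Matrix.det_fin_two] at h5
    exact h5
  have hL : Cfsg.Agent.Lib_helper8_GL2Irr.linL α (Matrix.SpecialLinearGroup.toGL g) = 1 := by
    show α (((Matrix.SpecialLinearGroup.toGL g : Matrix.GeneralLinearGroup (Fin 2) F) : Matrix (Fin 2) (Fin 2) F).det) = 1
    rw [hg, g.det_coe, map_one]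
  refine ⟨?_, ?_, ?_⟩
  · intro h01 h10 hsq
    have hprod : (g : Matrix (Fin 2) (Fin 2) F) 0 0 * (g : Matrix (Fin 2) (Fin 2) F) 1 1 = 1 := by
      linear_combination hdet + (g : Matrix (Fin 2) (Fin 2) F) 1 0 * h01
    have hne : (g : Matrix (Fin 2) (Fin 2) F) 0 0 ≠ (g : Matrix (Fin 2) (Fin 2) F) 1 1 := by
      intro h
      apply hsq
      rw [← h] at hprod
      rw [pow_two]
      exact hprod
    have h5 : α ((g : Matrix (Fin 2) (Fin 2) F) 0 0) * α ((g : Matrix (Fin 2) (Fin 2) F) 1 1) = 1 := by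
      rw [← map_mul, hprod, map_one]
    rw [← hval g]
    show Cfsg.Agent.Lib_helper8_GL2Irr.psR α α (Matrix.SpecialLinearGroup.toGL g) - Cfsg.Agent.Lib_helper8_GL2Irr.linL α (Matrix.SpecialLinearGroup.toGL g) = 1
    rw [Cfsg.Agent.Lib_helper8_GL2Irr.psR_split α α (Matrix.SpecialLinearGroup.toGL g) h01 h10 hne, hL, hg]
    linear_combination 2 * h5
  · intro hno
    obtain ⟨h10, hnt⟩ := Cfsg.Agent.Lib_helper8_GL2Irr.ell_cond (Matrix.SpecialLinearGroup.toGL g) hno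
    rw [← hval g]
    show Cfsg.Agent.Lib_helper8_GL2Irr.psR α α (Matrix.SpecialLinearGroup.toGL g) - Cfsg.Agent.Lib_helper8_GL2Irr.linL α (Matrix.SpecialLinearGroup.toGL g) = -1
    rw [Cfsg.Agent.Lib_helper8_GL2Irr.psR_ell α α (Matrix.SpecialLinearGroup.toGL g) h10 hnt, hL]
    ring
  · intro h10 heq h01
    have hprod : (g : Matrix (Fin 2) (Fin 2) F) 0 0 * (g : Matrix (Fin 2) (Fin 2) F) 1 1 = 1 := by
      linear_combination hdet + (g : Matrix (Fin 2) (Fin 2) F) 0 1 * h10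
    have h5 : α ((g : Matrix (Fin 2) (Fin 2) F) 0 0) * α ((g : Matrix (Fin 2) (Fin 2) F) 1 1) = 1 := by
      rw [← map_mul, hprod, map_one]
    rw [← hval g]
    show Cfsg.Agent.Lib_helper8_GL2Irr.psR α α (Matrix.SpecialLinearGroup.toGL g) - Cfsg.Agent.Lib_helper8_GL2Irr.linL α (Matrix.SpecialLinearGroup.toGL g) = 0
    rw [Cfsg.Agent.Lib_helper8_SL2Res.psR_par α α (Matrix.SpecialLinearGroup.toGL g) h10 heq h01, hL, hg]
    linear_combination h5

end Cfsg.Agent.S2321
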