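import Cfsg.Statements.S2323
import Mathlib
import Cfsg.Agent.Lib_helper8_SL2Res

set_option autoImplicit false
open Cfsg

namespace Cfsg.Agent.S2323

/-- Over a finite field F with q ≥ 4 elements, let u be the upper unitriangular matrix of SL₂ with off-diagonal entry 1. An irreducible complex character of SL₂ takes at u the value 1 if its degree is q + 1 and the value −1 if its degree is q − 1. -/
theorem result {F : Type*} [Field F] [Fintype F] (hq : 4 ≤ Fintype.card F) (χ : Matrix.SpecialLinearGroup (Fin 2) F → ℂ) (hχ : Cfsg.IsIrrCharacter (Matrix.SpecialLinearGroup (Fin 2) F) χ)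
    (u : Matrix.SpecialLinearGroup (Fin 2) F) (hu : (u : Matrix (Fin 2) (Fin 2) F) = !![1, 1; 0, 1]) :
    (χ 1 = (Fintype.card F : ℂ) + 1 → χ u = 1) ∧ (χ 1 = (Fintype.card F : ℂ) - 1 → χ u = -1) := by
  classical
  haveI : Fintype (Matrix.GeneralLinearGroup (Fin 2) F) := Fintype.ofFinite _
  haveI : Fintype (MulChar F ℂ) := Fintype.ofFinite _
  haveI : Finite (Cfsg.IrrCharacter (Matrix.GeneralLinearGroup (Fin 2) F)) :=
    Cfsg.Agent.Lib_helper3_CharBasic.irr_finite
  haveI : Fintype (Cfsg.IrrCharacter (Matrix.GeneralLinearGroup (Fin 2) F)) := Fintype.ofFinite _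
  have hu' : Matrix.SpecialLinearGroup.toGL u = Cfsg.Agent.Lib_helper8_GL2Irr.uG := Units.ext (hu.trans Cfsg.Agent.Lib_helper8_GL2Irr.uG_val.symm)
  obtain ⟨D1, D2, D3, D4, D5, D6⟩ := Cfsg.Agent.Lib_helper8_GL2Irr.deg_distinct (by omega : 3 ≤ Fintype.card F)
  constructor
  · intro hd
    have hd' : χ 1 = ((Fintype.card F + 1 : ℕ) : ℂ) := by rw [hd]; push_cast; ring
    obtain ⟨θ, hθ, hval⟩ := Cfsg.Agent.Lib_helper8_SL2Res.sl_over_eq hχ (Fintype.card F + 1) hd' (by omega)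
    have hθ1 : θ 1 = (Fintype.card F : ℂ) + 1 := by
      have h5 := hval 1
      rw [map_one] at h5
      rw [h5, hd]
    rw [← hval u, hu']
    rcases Cfsg.Agent.Lib_helper8_GL2Irr.type_vals' hθ with ⟨h3, hv⟩ | ⟨h3, hv⟩ | ⟨h3, hv⟩ | ⟨h3, hv⟩
    · exact hv
    · exact absurd (h3.symm.trans hθ1) D4
    · exact hv
    · exact absurd (hθ1.symm.trans h3) D6
  · intro hd
    have hd' : χ 1 = ((Fintype.card F - 1 : ℕ) : ℂ) := by
      rw [hd, Nat.cast_sub (by omega)]
      simp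
    obtain ⟨θ, hθ, hval⟩ := Cfsg.Agent.Lib_helper8_SL2Res.sl_over_eq hχ (Fintype.card F - 1) hd' (by omega)
    have hθ1 : θ 1 = (Fintype.card F : ℂ) - 1 := by
      have h5 := hval 1
      rw [map_one] at h5
      rw [h5, hd]
    rw [← hval u, hu']
    rcases Cfsg.Agent.Lib_helper8_GL2Irr.type_vals' hθ with ⟨h3, hv⟩ | ⟨h3, hv⟩ | ⟨h3, hv⟩ | ⟨h3, hv⟩
    · exact absurd (h3.symm.trans hθ1) D3
    · exact absurd (h3.symm.trans hθ1) D5
    · exact absurd (h3.symm.trans hθ1) D6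
    · exact hv

end Cfsg.Agent.S2323
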