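import Cfsg.Statements.S2329
import Cfsg.Agent.Lib_helper8_Unipotent

set_option autoImplicit false
open Cfsg

namespace Cfsg.Agent.S2329

/-- The standard unipotent Jordan block. -/
noncomputable def jBlock (F : Type*) [Field F] : Matrix.GeneralLinearGroup (Fin 2) F :=
  Matrix.GeneralLinearGroup.mkOfDetNeZero !![1, 1; 0, 1] (by simp [Matrix.det_fin_two])

theorem conj_jBlock {F : Type*} [Field F] (g : Matrix.GeneralLinearGroup (Fin 2) F)
    (hN : ((g : Matrix (Fin 2) (Fin 2) F) - 1) ^ 2 = 0) (hne : g ≠ 1) :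
    IsConj g (jBlock F) := by
  have hg : (g : Matrix (Fin 2) (Fin 2) F) = !![(g : Matrix (Fin 2) (Fin 2) F) 0 0, (g : Matrix (Fin 2) (Fin 2) F) 0 1; (g : Matrix (Fin 2) (Fin 2) F) 1 0, (g : Matrix (Fin 2) (Fin 2) F) 1 1] :=
    Matrix.eta_fin_two _
  set a := (g : Matrix (Fin 2) (Fin 2) F) 0 0 with ha
  set b := (g : Matrix (Fin 2) (Fin 2) F) 0 1 with hb
  set c := (g : Matrix (Fin 2) (Fin 2) F) 1 0 with hc
  set d := (g : Matrix (Fin 2) (Fin 2) F) 1 1 with hd
  have h00 := congrFun (congrFun hN 0) 0
  have h01 := congrFun (congrFun hN 0) 1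
  have h10 := congrFun (congrFun hN 1) 0
  have h11 := congrFun (congrFun hN 1) 1
  simp only [pow_two, Matrix.mul_apply, Fin.sum_univ_two, Matrix.sub_apply, Matrix.one_apply_eq,
    Matrix.zero_apply, ← ha, ← hb, ← hc, ← hd] at h00 h01 h10 h11
  simp at h00 h01 h10 h11
  suffices h : ∃ P : Matrix.GeneralLinearGroup (Fin 2) F, g * P = P * jBlock F by
    obtain ⟨P, hP⟩ := h
    rw [isConj_iff]
    refine ⟨P⁻¹, ?_⟩
    rw [mul_assoc, inv_inv, hP, inv_mul_cancel_left]
  by_cases hb0 : b = 0
  · have hx : a - 1 = 0 := by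
      have : (a - 1) * (a - 1) = 0 := by rw [hb0] at h00; simpa using h00
      exact mul_self_eq_zero.mp this
    have hy : d - 1 = 0 := by
      have : (d - 1) * (d - 1) = 0 := by rw [hb0] at h11; simpa using h11
      exact mul_self_eq_zero.mp this
    have hc0 : c ≠ 0 := by
      intro hc0
      apply hne
      apply Units.ext
      rw [hg, hb0, hc0, sub_eq_zero.mp hx, sub_eq_zero.mp hy]
      simp [Matrix.one_fin_two]
    refine ⟨Matrix.GeneralLinearGroup.mkOfDetNeZero !![0, 1; c, 0] (by simp [Matrix.det_fin_two, hc0]), ?_⟩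
    apply Units.ext
    simp only [Units.val_mul, jBlock, Matrix.GeneralLinearGroup.val_mkOfDetNeZero]
    rw [hg, hb0, sub_eq_zero.mp hx, sub_eq_zero.mp hy]
    simp [Matrix.mul_fin_two]
  · have hxy : (a - 1) + (d - 1) = 0 := by
      have : b * ((a - 1) + (d - 1)) = 0 := by linear_combination h01
      rcases mul_eq_zero.mp this with h | h
      · exact absurd h hb0
      · exact h
    refine ⟨Matrix.GeneralLinearGroup.mkOfDetNeZero !![b, 0; -(a - 1), 1] (by simp [Matrix.det_fin_two, hb0]), ?_⟩
    apply Units.ext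
    simp only [Units.val_mul, jBlock, Matrix.GeneralLinearGroup.val_mkOfDetNeZero]
    rw [hg]
    simp only [Matrix.mul_fin_two]
    have hd' : d = 2 - a := by linear_combination hxy
    rw [hd']
    ext i j
    fin_cases i <;> fin_cases j <;> simp
    · ring
    · linear_combination h00
    · ring

/-- Over a finite field of characteristic p, any two elements of order p of GL₂ are conjugate: there is a single conjugacy class of non-identity unipotent elements. -/
theorem result {F : Type*} [Field F] [Fintype F] (p : ℕ) [Fact p.Prime] [CharP F p] (g h : Matrix.GeneralLinearGroup (Fin 2) F)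
    (hg : orderOf g = p) (hh : orderOf h = p) : IsConj g h := by
  have hp : p.Prime := Fact.out
  have key : ∀ u : Matrix.GeneralLinearGroup (Fin 2) F, orderOf u = p → IsConj u (jBlock F) := by
    intro u hu
    apply conj_jBlock
    · have hnil := Lib_helper8_Unipotent.nilp_of_orderOf_pow p u 1 (by rw [pow_one]; exact hu)
      exact Lib_helper8_Unipotent.nilp_pow_card _ hnil
    · intro h1
      rw [h1, orderOf_one] at hu
      exact hp.one_lt.ne hu
  exact (key g hg).trans (key h hh).symm

end Cfsg.Agent.S2329
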