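import Cfsg.Statements.S2367
import Mathlib

set_option autoImplicit false
open Cfsg

namespace Cfsg.Agent.S2367

section Aux

theorem prime_dvd_prod (p : ℕ) (hp : p.Prime) : ∀ (L : List (ℕ × ℕ)), (∀ x ∈ L, x.1.Prime) →
    p ∣ (L.map (fun x => x.1 ^ x.2)).prod → p ∈ L.map Prod.fst
  | [], _, h => by
      simp only [List.map_nil, List.prod_nil, Nat.dvd_one] at h
      exact absurd h hp.one_lt.ne'
  | x :: L, hL, h => by
      rw [List.map_cons, List.prod_cons] at h
      rw [List.map_cons, List.mem_cons]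
      rcases hp.dvd_mul.mp h with h1 | h1
      · left
        exact (Nat.prime_dvd_prime_iff_eq hp (hL x List.mem_cons_self)).mp
          (hp.dvd_of_dvd_pow h1)
      · right
        exact prime_dvd_prod p hp L (fun y hy => hL y (List.mem_cons_of_mem _ hy)) h1

theorem spor_main (L : List (ℕ × ℕ)) (N a : ℕ)
    (hN : N = (L.map (fun x => x.1 ^ x.2)).prod) (hpr : ∀ x ∈ L, x.1.Prime)
    (h2 : 2 ^ a ∣ N)
    (hchk : ∀ q ∈ L.map Prod.fst, q = 2 ∨ q ^ 3 < 2 ^ a ∨ ¬ q ^ 3 ∣ N ∨ q ^ 4 ∣ N)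
    (p : ℕ) (hp : p.Prime) (hodd : p ≠ 2) (h3 : N.factorization p = 3) :
    p ^ 3 < 2 ^ (N.factorization 2) := by
  have hN0 : N ≠ 0 := by
    rintro rfl
    simp at h3
  have ha : a ≤ N.factorization 2 := (Nat.prime_two.pow_dvd_iff_le_factorization hN0).mp h2
  have hp3 : p ^ 3 ∣ N := (hp.pow_dvd_iff_le_factorization hN0).mpr (le_of_eq h3.symm)
  have hpN : p ∣ N := dvd_trans (dvd_pow_self p (by norm_num)) hp3
  have hmem : p ∈ L.map Prod.fst := prime_dvd_prod p hp L hpr (hN ▸ hpN)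
  rcases hchk p hmem with h | h | h | h
  · exact absurd h hodd
  · exact lt_of_lt_of_le h (Nat.pow_le_pow_right (by norm_num) ha)
  · exact absurd hp3 h
  · have := (hp.pow_dvd_iff_le_factorization hN0).mp h
    omega

theorem cube_lt (j : ℕ) (hj : 2 ≤ j) : (2 * j + 1) ^ 3 < 16 ^ j := by
  induction j, hj using Nat.le_induction with
  | base => norm_num
  | succ j hj ih =>
    calc (2 * (j + 1) + 1) ^ 3 ≤ (2 * (2 * j + 1)) ^ 3 := Nat.pow_le_pow_left (by omega) 3
      _ = 8 * (2 * j + 1) ^ 3 := by ring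
      _ < 8 * 16 ^ j := by omega
      _ ≤ 16 ^ (j + 1) := by rw [pow_succ]; omega

theorem alt_main (n : ℕ) (hn : 5 ≤ n) (N : ℕ) (hN : 2 * N = n.factorial) (p : ℕ) (hp : p.Prime)
    (hodd : p ≠ 2) (h3 : N.factorization p = 3) : p ^ 3 < 2 ^ (N.factorization 2) := by
  have hN0 : N ≠ 0 := by
    rintro rfl
    simp at h3
  haveI := Fact.mk hp
  haveI := Fact.mk Nat.prime_two
  have h2p : (2 : ℕ).factorization p = 0 :=
    Nat.factorization_eq_zero_of_not_dvd
      (fun h => hodd ((Nat.prime_dvd_prime_iff_eq hp Nat.prime_two).mp h))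
  have hfp : (n.factorial).factorization p = 3 := by
    rw [← hN, Nat.factorization_mul (by norm_num) hN0, Finsupp.add_apply, h3, h2p]
  have hf2 : (n.factorial).factorization 2 = N.factorization 2 + 1 := by
    rw [← hN, Nat.factorization_mul (by norm_num) hN0, Finsupp.add_apply,
      Nat.prime_two.factorization, Finsupp.single_eq_same, add_comm]
  have hlog : ∀ q : ℕ, 1 < q → Nat.log q n < n + 2 := by
    intro q hq
    apply Nat.log_lt_of_lt_pow (by omega)
    exact lt_of_lt_of_le (Nat.lt_pow_self hq) (Nat.pow_le_pow_right (by omega) (by omega))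
  have hLp : n / p ^ 1 + ∑ i ∈ Finset.Ico 2 (n + 2), n / p ^ i = 3 := by
    have h := padicValNat_factorial (p := p) (hlog p hp.one_lt)
    rw [← Nat.factorization_def _ hp, hfp, Finset.sum_eq_sum_Ico_succ_bot (by omega)] at h
    exact h.symm
  rw [pow_one] at hLp
  have hn4 : n < 4 * p := by
    have : n / p < 4 := by omega
    exact (Nat.div_lt_iff_lt_mul hp.pos).mp this
  have hp3 : p ≠ 3 := by
    rintro rfl
    have hl : Nat.log 3 n < 3 := Nat.log_lt_of_lt_pow (by omega) (by omega)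
    have h := padicValNat_factorial (p := 3) hl
    rw [← Nat.factorization_def _ hp, hfp] at h
    have h9 : Finset.Ico 1 3 = {1, 2} := by decide
    rw [h9, Finset.sum_pair (by norm_num)] at h
    norm_num at h
    omega
  have hp5 : 5 ≤ p := by
    have h2 := hp.two_le
    have h4 : p ≠ 4 := by
      rintro rfl
      norm_num at hp
    omega
  have hsum0 : ∑ i ∈ Finset.Ico 2 (n + 2), n / p ^ i = 0 := by
    apply Finset.sum_eq_zero
    intro i hi
    rw [Finset.mem_Ico] at hi
    apply Nat.div_eq_of_lt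
    calc n < 4 * p := hn4
      _ ≤ p * p := Nat.mul_le_mul_right p (by omega)
      _ = p ^ 2 := (pow_two p).symm
      _ ≤ p ^ i := Nat.pow_le_pow_right hp.pos hi.1
  rw [hsum0, add_zero] at hLp
  have hn3 : 3 * p ≤ n := by
    have := Nat.div_mul_le_self n p
    rw [hLp] at this
    exact this
  obtain ⟨j, hj⟩ : ∃ j, p = 2 * j + 1 := by
    rcases hp.eq_two_or_odd' with h | h
    · exact absurd h hodd
    · exact h
  have hj2 : 2 ≤ j := by omega
  have hL2 : n / 2 ^ 1 + n / 2 ^ 2 ≤ (n.factorial).factorization 2 := by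
    rw [Nat.factorization_def _ Nat.prime_two, padicValNat_factorial (hlog 2 (by norm_num))]
    have h9 : Finset.Ico 1 3 = {1, 2} := by decide
    have hsub : Finset.Ico 1 3 ⊆ Finset.Ico 1 (n + 2) := by
      intro i hi
      rw [Finset.mem_Ico] at hi ⊢
      omega
    have := Finset.sum_le_sum_of_subset (f := fun i => n / 2 ^ i) hsub
    rw [h9, Finset.sum_pair (by norm_num)] at this
    exact this
  norm_num at hL2
  have h4j : 4 * j ≤ N.factorization 2 := by omega
  calc p ^ 3 = (2 * j + 1) ^ 3 := by rw [hj]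
    _ < 16 ^ j := cube_lt j hj2
    _ = 2 ^ (4 * j) := by rw [pow_mul]; norm_num
    _ ≤ 2 ^ (N.factorization 2) := Nat.pow_le_pow_right (by norm_num) h4j

theorem spor_M11 (p : ℕ) (hp : p.Prime) (hodd : p ≠ 2)
    (h3 : (7920 : ℕ).factorization p = 3) : p ^ 3 < 2 ^ ((7920 : ℕ).factorization 2) :=
  spor_main [(2, 4), (3, 2), (5, 1), (11, 1)] 7920 4 (by norm_num)
    (by intro x hx; fin_cases hx <;> norm_num) (by norm_num) (by decide) p hp hodd h3

theorem spor_M12 (p : ℕ) (hp : p.Prime) (hodd : p ≠ 2)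
    (h3 : (95040 : ℕ).factorization p = 3) : p ^ 3 < 2 ^ ((95040 : ℕ).factorization 2) :=
  spor_main [(2, 6), (3, 3), (5, 1), (11, 1)] 95040 6 (by norm_num)
    (by intro x hx; fin_cases hx <;> norm_num) (by norm_num) (by decide) p hp hodd h3

theorem spor_M22 (p : ℕ) (hp : p.Prime) (hodd : p ≠ 2)
    (h3 : (443520 : ℕ).factorization p = 3) : p ^ 3 < 2 ^ ((443520 : ℕ).factorization 2) :=
  spor_main [(2, 7), (3, 2), (5, 1), (7, 1), (11, 1)] 443520 7 (by norm_num)
    (by intro x hx; fin_cases hx <;> norm_num) (by norm_num) (by decide) p hp hodd h3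

theorem spor_M23 (p : ℕ) (hp : p.Prime) (hodd : p ≠ 2)
    (h3 : (10200960 : ℕ).factorization p = 3) : p ^ 3 < 2 ^ ((10200960 : ℕ).factorization 2) :=
  spor_main [(2, 7), (3, 2), (5, 1), (7, 1), (11, 1), (23, 1)] 10200960 7 (by norm_num)
    (by intro x hx; fin_cases hx <;> norm_num) (by norm_num) (by decide) p hp hodd h3

theorem spor_M24 (p : ℕ) (hp : p.Prime) (hodd : p ≠ 2)
    (h3 : (244823040 : ℕ).factorization p = 3) : p ^ 3 < 2 ^ ((244823040 : ℕ).factorization 2) :=
  spor_main [(2, 10), (3, 3), (5, 1), (7, 1), (11, 1), (23, 1)] 244823040 10 (by norm_num)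
    (by intro x hx; fin_cases hx <;> norm_num) (by norm_num) (by decide) p hp hodd h3

theorem spor_J1 (p : ℕ) (hp : p.Prime) (hodd : p ≠ 2)
    (h3 : (175560 : ℕ).factorization p = 3) : p ^ 3 < 2 ^ ((175560 : ℕ).factorization 2) :=
  spor_main [(2, 3), (3, 1), (5, 1), (7, 1), (11, 1), (19, 1)] 175560 3 (by norm_num)
    (by intro x hx; fin_cases hx <;> norm_num) (by norm_num) (by decide) p hp hodd h3

theorem spor_J2 (p : ℕ) (hp : p.Prime) (hodd : p ≠ 2)
    (h3 : (604800 : ℕ).factorization p = 3) : p ^ 3 < 2 ^ ((604800 : ℕ).factorization 2) :=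
  spor_main [(2, 7), (3, 3), (5, 2), (7, 1)] 604800 7 (by norm_num)
    (by intro x hx; fin_cases hx <;> norm_num) (by norm_num) (by decide) p hp hodd h3

theorem spor_J3 (p : ℕ) (hp : p.Prime) (hodd : p ≠ 2)
    (h3 : (50232960 : ℕ).factorization p = 3) : p ^ 3 < 2 ^ ((50232960 : ℕ).factorization 2) :=
  spor_main [(2, 7), (3, 5), (5, 1), (17, 1), (19, 1)] 50232960 7 (by norm_num)
    (by intro x hx; fin_cases hx <;> norm_num) (by norm_num) (by decide) p hp hodd h3

theorem spor_J4 (p : ℕ) (hp : p.Prime) (hodd : p ≠ 2)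
    (h3 : (86775571046077562880 : ℕ).factorization p = 3) : p ^ 3 < 2 ^ ((86775571046077562880 : ℕ).factorization 2) :=
  spor_main [(2, 21), (3, 3), (5, 1), (7, 1), (11, 3), (23, 1), (29, 1), (31, 1), (37, 1), (43, 1)] 86775571046077562880 21 (by norm_num)
    (by intro x hx; fin_cases hx <;> norm_num) (by norm_num) (by decide) p hp hodd h3

theorem spor_Co1 (p : ℕ) (hp : p.Prime) (hodd : p ≠ 2)
    (h3 : (4157776806543360000 : ℕ).factorization p = 3) : p ^ 3 < 2 ^ ((4157776806543360000 : ℕ).factorization 2) :=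
  spor_main [(2, 21), (3, 9), (5, 4), (7, 2), (11, 1), (13, 1), (23, 1)] 4157776806543360000 21 (by norm_num)
    (by intro x hx; fin_cases hx <;> norm_num) (by norm_num) (by decide) p hp hodd h3

theorem spor_Co2 (p : ℕ) (hp : p.Prime) (hodd : p ≠ 2)
    (h3 : (42305421312000 : ℕ).factorization p = 3) : p ^ 3 < 2 ^ ((42305421312000 : ℕ).factorization 2) :=
  spor_main [(2, 18), (3, 6), (5, 3), (7, 1), (11, 1), (23, 1)] 42305421312000 18 (by norm_num)
    (by intro x hx; fin_cases hx <;> norm_num) (by norm_num) (by decide) p hp hodd h3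

theorem spor_Co3 (p : ℕ) (hp : p.Prime) (hodd : p ≠ 2)
    (h3 : (495766656000 : ℕ).factorization p = 3) : p ^ 3 < 2 ^ ((495766656000 : ℕ).factorization 2) :=
  spor_main [(2, 10), (3, 7), (5, 3), (7, 1), (11, 1), (23, 1)] 495766656000 10 (by norm_num)
    (by intro x hx; fin_cases hx <;> norm_num) (by norm_num) (by decide) p hp hodd h3

theorem spor_Fi22 (p : ℕ) (hp : p.Prime) (hodd : p ≠ 2)
    (h3 : (64561751654400 : ℕ).factorization p = 3) : p ^ 3 < 2 ^ ((64561751654400 : ℕ).factorization 2) :=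
  spor_main [(2, 17), (3, 9), (5, 2), (7, 1), (11, 1), (13, 1)] 64561751654400 17 (by norm_num)
    (by intro x hx; fin_cases hx <;> norm_num) (by norm_num) (by decide) p hp hodd h3

theorem spor_Fi23 (p : ℕ) (hp : p.Prime) (hodd : p ≠ 2)
    (h3 : (4089470473293004800 : ℕ).factorization p = 3) : p ^ 3 < 2 ^ ((4089470473293004800 : ℕ).factorization 2) :=
  spor_main [(2, 18), (3, 13), (5, 2), (7, 1), (11, 1), (13, 1), (17, 1), (23, 1)] 4089470473293004800 18 (by norm_num)
    (by intro x hx; fin_cases hx <;> norm_num) (by norm_num) (by decide) p hp hodd h3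

theorem spor_Fi24p (p : ℕ) (hp : p.Prime) (hodd : p ≠ 2)
    (h3 : (1255205709190661721292800 : ℕ).factorization p = 3) : p ^ 3 < 2 ^ ((1255205709190661721292800 : ℕ).factorization 2) :=
  spor_main [(2, 21), (3, 16), (5, 2), (7, 3), (11, 1), (13, 1), (17, 1), (23, 1), (29, 1)] 1255205709190661721292800 21 (by norm_num)
    (by intro x hx; fin_cases hx <;> norm_num) (by norm_num) (by decide) p hp hodd h3

theorem spor_HS (p : ℕ) (hp : p.Prime) (hodd : p ≠ 2)
    (h3 : (44352000 : ℕ).factorization p = 3) : p ^ 3 < 2 ^ ((44352000 : ℕ).factorization 2) :=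
  spor_main [(2, 9), (3, 2), (5, 3), (7, 1), (11, 1)] 44352000 9 (by norm_num)
    (by intro x hx; fin_cases hx <;> norm_num) (by norm_num) (by decide) p hp hodd h3

theorem spor_McL (p : ℕ) (hp : p.Prime) (hodd : p ≠ 2)
    (h3 : (898128000 : ℕ).factorization p = 3) : p ^ 3 < 2 ^ ((898128000 : ℕ).factorization 2) :=
  spor_main [(2, 7), (3, 6), (5, 3), (7, 1), (11, 1)] 898128000 7 (by norm_num)
    (by intro x hx; fin_cases hx <;> norm_num) (by norm_num) (by decide) p hp hodd h3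

theorem spor_He (p : ℕ) (hp : p.Prime) (hodd : p ≠ 2)
    (h3 : (4030387200 : ℕ).factorization p = 3) : p ^ 3 < 2 ^ ((4030387200 : ℕ).factorization 2) :=
  spor_main [(2, 10), (3, 3), (5, 2), (7, 3), (17, 1)] 4030387200 10 (by norm_num)
    (by intro x hx; fin_cases hx <;> norm_num) (by norm_num) (by decide) p hp hodd h3

theorem spor_Ru (p : ℕ) (hp : p.Prime) (hodd : p ≠ 2)
    (h3 : (145926144000 : ℕ).factorization p = 3) : p ^ 3 < 2 ^ ((145926144000 : ℕ).factorization 2) :=
  spor_main [(2, 14), (3, 3), (5, 3), (7, 1), (13, 1), (29, 1)] 145926144000 14 (by norm_num)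
    (by intro x hx; fin_cases hx <;> norm_num) (by norm_num) (by decide) p hp hodd h3

theorem spor_Suz (p : ℕ) (hp : p.Prime) (hodd : p ≠ 2)
    (h3 : (448345497600 : ℕ).factorization p = 3) : p ^ 3 < 2 ^ ((448345497600 : ℕ).factorization 2) :=
  spor_main [(2, 13), (3, 7), (5, 2), (7, 1), (11, 1), (13, 1)] 448345497600 13 (by norm_num)
    (by intro x hx; fin_cases hx <;> norm_num) (by norm_num) (by decide) p hp hodd h3

theorem spor_ON (p : ℕ) (hp : p.Prime) (hodd : p ≠ 2)
    (h3 : (460815505920 : ℕ).factorization p = 3) : p ^ 3 < 2 ^ ((460815505920 : ℕ).factorization 2) :=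
  spor_main [(2, 9), (3, 4), (5, 1), (7, 3), (11, 1), (19, 1), (31, 1)] 460815505920 9 (by norm_num)
    (by intro x hx; fin_cases hx <;> norm_num) (by norm_num) (by decide) p hp hodd h3

theorem spor_HN (p : ℕ) (hp : p.Prime) (hodd : p ≠ 2)
    (h3 : (273030912000000 : ℕ).factorization p = 3) : p ^ 3 < 2 ^ ((273030912000000 : ℕ).factorization 2) :=
  spor_main [(2, 14), (3, 6), (5, 6), (7, 1), (11, 1), (19, 1)] 273030912000000 14 (by norm_num)
    (by intro x hx; fin_cases hx <;> norm_num) (by norm_num) (by decide) p hp hodd h3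

theorem spor_Ly (p : ℕ) (hp : p.Prime) (hodd : p ≠ 2)
    (h3 : (51765179004000000 : ℕ).factorization p = 3) : p ^ 3 < 2 ^ ((51765179004000000 : ℕ).factorization 2) :=
  spor_main [(2, 8), (3, 7), (5, 6), (7, 1), (11, 1), (31, 1), (37, 1), (67, 1)] 51765179004000000 8 (by norm_num)
    (by intro x hx; fin_cases hx <;> norm_num) (by norm_num) (by decide) p hp hodd h3

theorem spor_Th (p : ℕ) (hp : p.Prime) (hodd : p ≠ 2)
    (h3 : (90745943887872000 : ℕ).factorization p = 3) : p ^ 3 < 2 ^ ((90745943887872000 : ℕ).factorization 2) :=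
  spor_main [(2, 15), (3, 10), (5, 3), (7, 2), (13, 1), (19, 1), (31, 1)] 90745943887872000 15 (by norm_num)
    (by intro x hx; fin_cases hx <;> norm_num) (by norm_num) (by decide) p hp hodd h3

theorem spor_B (p : ℕ) (hp : p.Prime) (hodd : p ≠ 2)
    (h3 : (4154781481226426191177580544000000 : ℕ).factorization p = 3) : p ^ 3 < 2 ^ ((4154781481226426191177580544000000 : ℕ).factorization 2) :=
  spor_main [(2, 41), (3, 13), (5, 6), (7, 2), (11, 1), (13, 1), (17, 1), (19, 1), (23, 1), (31, 1), (47, 1)] 4154781481226426191177580544000000 41 (by norm_num)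
    (by intro x hx; fin_cases hx <;> norm_num) (by norm_num) (by decide) p hp hodd h3

theorem spor_M (p : ℕ) (hp : p.Prime) (hodd : p ≠ 2)
    (h3 : (808017424794512875886459904961710757005754368000000000 : ℕ).factorization p = 3) : p ^ 3 < 2 ^ ((808017424794512875886459904961710757005754368000000000 : ℕ).factorization 2) :=
  spor_main [(2, 46), (3, 20), (5, 9), (7, 6), (11, 2), (13, 3), (17, 1), (19, 1), (23, 1), (29, 1), (31, 1), (41, 1), (47, 1), (59, 1), (71, 1)] 808017424794512875886459904961710757005754368000000000 46 (by norm_num)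
    (by intro x hx; fin_cases hx <;> norm_num) (by norm_num) (by decide) p hp hodd h3

end Aux

/-- Let G be an alternating group of degree at least 5 or a simple group with the order of one of the 26 sporadic groups, and let p be an odd prime such that p³ is the exact power of p dividing the order of G. Then p³ is less than the 2-part of the order of G. -/
theorem result {G : Type*} [Group G] [Finite G] (hG : Cfsg.IsAlternating G ∨ Cfsg.IsSporadic G)
    (p : ℕ) (hp : p.Prime) (hodd : p ≠ 2) (h3 : (Nat.card G).factorization p = 3) :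
    p ^ 3 < 2 ^ (Nat.card G).factorization 2 := by
  rcases hG with ⟨n, hn, ⟨e⟩⟩ | hS
  · haveI : Nontrivial (Fin n) := Fin.nontrivial_iff_two_le.mpr (by omega)
    have hcard : 2 * Nat.card G = n.factorial := by
      rw [Nat.card_congr e.toEquiv, two_mul_nat_card_alternatingGroup, Nat.card_eq_fintype_card,
        Fintype.card_perm, Fintype.card_fin]
    exact alt_main n hn _ hcard p hp hodd h3
  · unfold Cfsg.IsSporadic at hS
    rcases hS with ⟨-, h⟩ | ⟨-, h⟩ | ⟨-, h⟩ | ⟨-, h⟩ | ⟨-, h⟩ | ⟨-, h⟩ | ⟨-, h⟩ | ⟨-, h⟩ | ⟨-, h⟩ | ⟨-, h⟩ | ⟨-, h⟩ | ⟨-, h⟩ | ⟨-, h⟩ | ⟨-, h⟩ | ⟨-, h⟩ | ⟨-, h⟩ | ⟨-, h⟩ | ⟨-, h⟩ | ⟨-, h⟩ | ⟨-, h⟩ | ⟨-, h⟩ | ⟨-, h⟩ | ⟨-, h⟩ | ⟨-, h⟩ | ⟨-, h⟩ | ⟨-, h⟩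
    · rw [h] at h3 ⊢; exact spor_M11 p hp hodd h3
    · rw [h] at h3 ⊢; exact spor_M12 p hp hodd h3
    · rw [h] at h3 ⊢; exact spor_M22 p hp hodd h3
    · rw [h] at h3 ⊢; exact spor_M23 p hp hodd h3
    · rw [h] at h3 ⊢; exact spor_M24 p hp hodd h3
    · rw [h] at h3 ⊢; exact spor_J1 p hp hodd h3
    · rw [h] at h3 ⊢; exact spor_J2 p hp hodd h3
    · rw [h] at h3 ⊢; exact spor_J3 p hp hodd h3
    · rw [h] at h3 ⊢; exact spor_J4 p hp hodd h3
    · rw [h] at h3 ⊢; exact spor_Co1 p hp hodd h3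
    · rw [h] at h3 ⊢; exact spor_Co2 p hp hodd h3
    · rw [h] at h3 ⊢; exact spor_Co3 p hp hodd h3
    · rw [h] at h3 ⊢; exact spor_Fi22 p hp hodd h3
    · rw [h] at h3 ⊢; exact spor_Fi23 p hp hodd h3
    · rw [h] at h3 ⊢; exact spor_Fi24p p hp hodd h3
    · rw [h] at h3 ⊢; exact spor_HS p hp hodd h3
    · rw [h] at h3 ⊢; exact spor_McL p hp hodd h3
    · rw [h] at h3 ⊢; exact spor_He p hp hodd h3
    · rw [h] at h3 ⊢; exact spor_Ru p hp hodd h3
    · rw [h] at h3 ⊢; exact spor_Suz p hp hodd h3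
    · rw [h] at h3 ⊢; exact spor_ON p hp hodd h3
    · rw [h] at h3 ⊢; exact spor_HN p hp hodd h3
    · rw [h] at h3 ⊢; exact spor_Ly p hp hodd h3
    · rw [h] at h3 ⊢; exact spor_Th p hp hodd h3
    · rw [h] at h3 ⊢; exact spor_B p hp hodd h3
    · rw [h] at h3 ⊢; exact spor_M p hp hodd h3

end Cfsg.Agent.S2367
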