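import Cfsg.Statements.S2368
import Cfsg.Agent.Lib_helper8_Unipotent

set_option autoImplicit false
open Cfsg

namespace Cfsg.Agent.S2368

/-- Let F be a finite field of characteristic p and m ≥ 1. Every element of GL(m, F) of p-power order has order less than p·m, and GL(m, F) has an element of p-power order at least m; so the largest order of a p-element of GL(m, F) is the least power of p that is at least m. -/
theorem result {F : Type*} [Field F] [Fintype F] (p : ℕ) [Fact p.Prime] [CharP F p] (m : ℕ) (hm : 1 ≤ m) :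
    (∀ g : Matrix.GeneralLinearGroup (Fin m) F, (∃ j : ℕ, orderOf g = p ^ j) → orderOf g < p * m) ∧
      ∃ g : Matrix.GeneralLinearGroup (Fin m) F, (∃ j : ℕ, orderOf g = p ^ j) ∧ m ≤ orderOf g := by
  have hp : p.Prime := Fact.out
  constructor
  · rintro g ⟨j, hj⟩
    have hnil := Cfsg.Agent.Lib_helper8_Unipotent.nilp_of_orderOf_pow p g j hj
    have hdvd := Cfsg.Agent.Lib_helper8_Unipotent.unip_orderOf_dvd p g hnil
    have hle : orderOf g ≤ p ^ Nat.clog p m := Nat.le_of_dvd (pow_pos hp.pos _) hdvd
    have hlt : p ^ Nat.clog p m < p * m := by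
      rcases Nat.lt_or_ge 1 m with h1 | h1
      · have h2 := Nat.pow_pred_clog_lt_self hp.one_lt h1
        have h3 : 0 < Nat.clog p m := Nat.clog_pos hp.one_lt h1
        have h4 : p ^ Nat.clog p m = p * p ^ (Nat.clog p m).pred := by
          conv_lhs => rw [← Nat.succ_pred_eq_of_pos h3, pow_succ']
        rw [h4]
        exact Nat.mul_lt_mul_of_pos_left h2 hp.pos
      · have hm1 : m = 1 := le_antisymm h1 hm
        subst hm1
        simp [hp.one_lt]
    exact lt_of_le_of_lt hle hlt
  · refine ⟨Cfsg.Agent.Lib_helper8_Unipotent.jordanUnit m F, ⟨Nat.clog p m, ?_⟩, ?_⟩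
    · exact Cfsg.Agent.Lib_helper8_Unipotent.jordanUnit_orderOf p m hm
    · rw [Cfsg.Agent.Lib_helper8_Unipotent.jordanUnit_orderOf p m hm]
      exact Nat.le_pow_clog hp.one_lt m

end Cfsg.Agent.S2368
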