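import Cfsg.Statements.S2569
import Mathlib

set_option autoImplicit false
open Cfsg

namespace Cfsg.Agent.S2569

section Aux
open Polynomial Module

theorem det_surj {F : Type*} [Field F] [Finite F] {V : Type*} [AddCommGroup V] [Module F V]
    [FiniteDimensional F V] [Nontrivial V] (φ : Module.End F V) (hss : φ.IsSemisimple) (c : F) :
    ∃ z : Module.End F V, z * φ = φ * z ∧ LinearMap.det z = c := by
  classical
  haveI : IsSemisimpleModule F[X] (AEval' φ) := hss
  haveI : Nontrivial (AEval' φ) := (AEval'.of φ).symm.toEquiv.nontrivial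
  obtain ⟨W, hW⟩ := IsSemisimpleModule.exists_simple_submodule F[X] (AEval' φ)
  obtain ⟨W', hc⟩ := exists_isCompl W
  obtain ⟨I, hI, ⟨Ψ⟩⟩ := isSimpleModule_iff_quot_maximal.mp hW
  letI : Field (F[X] ⧸ I) := Ideal.Quotient.field I
  haveI : Finite V := Module.finite_of_finite F
  haveI : Finite (AEval' φ) := Finite.of_equiv V (AEval'.of φ).toEquiv
  haveI : Finite (F[X] ⧸ I) := Finite.of_equiv W Ψ.toEquiv
  obtain ⟨a, ha⟩ := FiniteField.norm_surjective F (F[X] ⧸ I) c
  obtain ⟨u, rfl⟩ := Ideal.Quotient.mk_surjective a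
  let e : (W × W') ≃ₗ[F[X]] AEval' φ := Submodule.prodEquivOfIsCompl W W' hc
  let zW : W →ₗ[F[X]] W := LinearMap.lsmul F[X] W u
  let zM : AEval' φ →ₗ[F[X]] AEval' φ := e.conj (zW.prodMap LinearMap.id)
  let z : V →ₗ[F] V := (AEval'.of φ).symm.toLinearMap ∘ₗ (zM.restrictScalars F) ∘ₗ
    (AEval'.of φ).toLinearMap
  refine ⟨z, ?_, ?_⟩
  · ext v
    show (AEval'.of φ).symm (zM (AEval'.of φ (φ v))) = φ ((AEval'.of φ).symm (zM (AEval'.of φ v)))
    rw [← AEval'.X_smul_of, map_smul, AEval'.of_symm_X_smul]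
  · have h1 : LinearMap.det z = LinearMap.det (zM.restrictScalars F) :=
      LinearMap.det_conj (zM.restrictScalars F) (AEval'.of φ).symm
    have h2 : LinearMap.det (zM.restrictScalars F) =
        LinearMap.det ((zW.restrictScalars F).prodMap (LinearMap.id : W' →ₗ[F] W')) := by
      have : zM.restrictScalars F = (e.restrictScalars F).toLinearMap ∘ₗ
          ((zW.restrictScalars F).prodMap (LinearMap.id : W' →ₗ[F] W')) ∘ₗ
          (e.restrictScalars F).symm.toLinearMap := by
        ext m
        rfl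
      rw [this, LinearMap.det_conj]
    have h3 : LinearMap.det (zW.restrictScalars F) = Algebra.norm F (Ideal.Quotient.mk I u) := by
      rw [Algebra.norm_apply]
      have : zW.restrictScalars F = (Ψ.restrictScalars F).symm.toLinearMap ∘ₗ
          (Algebra.lmul F (F[X] ⧸ I) (Ideal.Quotient.mk I u)) ∘ₗ
          (Ψ.restrictScalars F).toLinearMap := by
        ext w
        show ((u • w : W) : AEval' φ) = ((Ψ.symm (Ideal.Quotient.mk I u * Ψ w) : W) : AEval' φ)
        congr 1
        apply Ψ.injective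
        rw [LinearEquiv.apply_symm_apply, map_smul]
        obtain ⟨v, hv⟩ := Ideal.Quotient.mk_surjective (Ψ w)
        rw [← hv]
        rfl
      rw [this]
      exact LinearMap.det_conj _ (Ψ.restrictScalars F).symm
    haveI : Module.Finite F W := Module.Finite.of_finite
    haveI : Module.Finite F W' := Module.Finite.of_finite
    rw [h1, h2, LinearMap.det_prodMap, h3, LinearMap.det_id, mul_one, ha]

theorem main {F : Type*} [Field F] [Fintype F] {p : ℕ} [Fact p.Prime] [CharP F p] {n : ℕ}
    (x g : GL (Fin n) F) (hx : (orderOf x).Coprime p) :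
    ∃ h : GL (Fin n) F, (h : Matrix (Fin n) (Fin n) F).det = 1 ∧ h * x * h⁻¹ = g * x * g⁻¹ := by
  classical
  rcases Nat.eq_zero_or_pos n with rfl | hn
  · exact ⟨g, Matrix.det_isEmpty, rfl⟩
  haveI : Nonempty (Fin n) := ⟨⟨0, hn⟩⟩
  set φ : Module.End F (Fin n → F) := Matrix.toLinAlgEquiv' (x : Matrix (Fin n) (Fin n) F) with hφ
  have hm0 : ((orderOf x : ℕ) : F) ≠ 0 := by
    intro h0
    rw [CharP.cast_eq_zero_iff F p] at h0
    have := Nat.Coprime.eq_one_of_dvd hx.symm h0
    exact (Fact.out : p.Prime).one_lt.ne' this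
  have hpow : φ ^ orderOf x = 1 := by
    rw [hφ, ← map_pow, ← Units.val_pow_eq_pow_val, pow_orderOf_eq_one, Units.val_one, map_one]
  have hss : φ.IsSemisimple := by
    apply Module.End.isSemisimple_of_squarefree_aeval_eq_zero
      (separable_X_pow_sub_C (1 : F) hm0 one_ne_zero).squarefree
    rw [map_sub, map_pow, aeval_X, aeval_C, hpow, map_one, sub_self]
  obtain ⟨z, hz, hdet⟩ := det_surj φ hss (g : Matrix (Fin n) (Fin n) F).det
  set Z : Matrix (Fin n) (Fin n) F := LinearMap.toMatrixAlgEquiv' z with hZ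
  have hZdet : Z.det = (g : Matrix (Fin n) (Fin n) F).det := by
    rw [← hdet, hZ]
    exact LinearMap.det_toMatrix' z
  have hZx : Z * (x : Matrix (Fin n) (Fin n) F) = (x : Matrix (Fin n) (Fin n) F) * Z := by
    have h1 := congrArg LinearMap.toMatrixAlgEquiv' hz
    rw [map_mul, map_mul, hφ] at h1
    simpa using h1
  have hdetg : (g : Matrix (Fin n) (Fin n) F).det ≠ 0 := by
    have := (Matrix.isUnit_iff_isUnit_det _).mp g.isUnit
    exact this.ne_zero
  let Zu : GL (Fin n) F := Matrix.GeneralLinearGroup.mkOfDetNeZero Z (by rw [hZdet]; exact hdetg)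
  have hZu : (Zu : Matrix (Fin n) (Fin n) F) = Z := rfl
  refine ⟨g * Zu⁻¹, ?_, ?_⟩
  · rw [Units.val_mul, Matrix.det_mul, ← hZdet, ← hZu, ← Matrix.det_mul, ← Units.val_mul,
      mul_inv_cancel, Units.val_one, Matrix.det_one]
  · have hc : Zu * x = x * Zu := Units.ext hZx
    calc g * Zu⁻¹ * x * (g * Zu⁻¹)⁻¹ = g * (Zu⁻¹ * (x * Zu)) * g⁻¹ := by group
      _ = g * (Zu⁻¹ * (Zu * x)) * g⁻¹ := by rw [hc]
      _ = g * x * g⁻¹ := by group

end Aux

/-- In GL_n over a finite field of characteristic p, the conjugacy class of a semisimple element (an element of order prime to p) under the special linear group is its whole GL-conjugacy class: for every such x and every invertible g there is h of determinant one with h x h⁻¹ = g x g⁻¹. -/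
theorem result {F : Type*} [Field F] [Fintype F] {p : ℕ} [Fact p.Prime] [CharP F p] {n : ℕ} (x g : GL (Fin n) F) (hx : (orderOf x).Coprime p) : ∃ h : GL (Fin n) F, (h : Matrix (Fin n) (Fin n) F).det = 1 ∧ h * x * h⁻¹ = g * x * g⁻¹ := by
  exact main x g hx

end Cfsg.Agent.S2569
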