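import Cfsg.Statements.S2388
import Mathlib
import Cfsg.Agent.Lib_helper8_SSConj
import Cfsg.Agent.S2569

set_option autoImplicit false
open Cfsg

namespace Cfsg.Agent.S2388

section Aux
open Polynomial Module

theorem ss_of_pow {F : Type*} [Field F] {n : ℕ} (A : Matrix (Fin n) (Fin n) F) (m : ℕ)
    (hm : (m : F) ≠ 0) (hA : A ^ m = 1) : Module.End.IsSemisimple (Matrix.toLin' A) := by
  have hpow : (Matrix.toLin' A) ^ m = 1 := by
    have h1 : Matrix.toLin' A = Matrix.toLinAlgEquiv' A := rfl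
    rw [h1, ← map_pow, hA, map_one]
  apply Module.End.isSemisimple_of_squarefree_aeval_eq_zero
    (separable_X_pow_sub_C (1 : F) hm one_ne_zero).squarefree
  rw [map_sub, map_pow, aeval_X, aeval_C, hpow, map_one, sub_self]

theorem main {F : Type*} [Field F] [Fintype F] (p : ℕ) [Fact p.Prime] [CharP F p] (n : ℕ)
    (g h : Matrix.SpecialLinearGroup (Fin n) F) (hg : (orderOf g).Coprime p)
    (hh : (orderOf h).Coprime p)
    (hc : (g : Matrix (Fin n) (Fin n) F).charpoly = (h : Matrix (Fin n) (Fin n) F).charpoly) :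
    IsConj g h := by
  classical
  rcases Nat.eq_zero_or_pos n with rfl | hn
  · have : g = h := Subtype.ext (Subsingleton.elim _ _)
    rw [this]
  haveI : Nonempty (Fin n) := ⟨⟨0, hn⟩⟩
  have hcop : ∀ x : Matrix.SpecialLinearGroup (Fin n) F, (orderOf x).Coprime p →
      ((orderOf x : ℕ) : F) ≠ 0 := by
    intro x hx h0
    rw [CharP.cast_eq_zero_iff F p] at h0
    have := Nat.Coprime.eq_one_of_dvd hx.symm h0
    exact (Fact.out : p.Prime).one_lt.ne' this
  have hpow : ∀ x : Matrix.SpecialLinearGroup (Fin n) F,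
      (x : Matrix (Fin n) (Fin n) F) ^ orderOf x = 1 := by
    intro x
    have := congrArg Subtype.val (pow_orderOf_eq_one x)
    rw [Matrix.SpecialLinearGroup.coe_pow] at this
    exact this
  have hssg := ss_of_pow (g : Matrix (Fin n) (Fin n) F) _ (hcop g hg) (hpow g)
  have hssh := ss_of_pow (h : Matrix (Fin n) (Fin n) F) _ (hcop h hh) (hpow h)
  obtain ⟨P, hP⟩ := Cfsg.Agent.Lib_helper8_SSConj.exists_conj_of_charpoly_eq _ _ hssg hssh hc
  obtain ⟨z, hz, hdet⟩ := Cfsg.Agent.S2569.det_surj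
    (Matrix.toLin' (g : Matrix (Fin n) (Fin n) F)) hssg (P : Matrix (Fin n) (Fin n) F).det
  set Z : Matrix (Fin n) (Fin n) F := LinearMap.toMatrix' z with hZ
  have hZdet : Z.det = (P : Matrix (Fin n) (Fin n) F).det := by
    rw [← hdet, hZ]
    exact LinearMap.det_toMatrix' z
  have hZg : Z * (g : Matrix (Fin n) (Fin n) F) = (g : Matrix (Fin n) (Fin n) F) * Z := by
    have h1 := congrArg LinearMap.toMatrix' hz
    rw [Module.End.mul_eq_comp, Module.End.mul_eq_comp, LinearMap.toMatrix'_comp,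
      LinearMap.toMatrix'_comp, LinearMap.toMatrix'_toLin'] at h1
    exact h1
  have hdetP : (P : Matrix (Fin n) (Fin n) F).det ≠ 0 := by
    have := (Matrix.isUnit_iff_isUnit_det _).mp P.isUnit
    exact this.ne_zero
  let Zu : GL (Fin n) F := Matrix.GeneralLinearGroup.mkOfDetNeZero Z (by rw [hZdet]; exact hdetP)
  have hZu : (Zu : Matrix (Fin n) (Fin n) F) = Z := rfl
  -- the inverse of `Zu` commutes with `g`
  have hinv1 : ((Zu⁻¹ : GL (Fin n) F) : Matrix (Fin n) (Fin n) F) * Z = 1 := by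
    rw [← hZu, ← Units.val_mul, inv_mul_cancel, Units.val_one]
  have hinv2 : Z * ((Zu⁻¹ : GL (Fin n) F) : Matrix (Fin n) (Fin n) F) = 1 := by
    rw [← hZu, ← Units.val_mul, mul_inv_cancel, Units.val_one]
  set Zi : Matrix (Fin n) (Fin n) F := ((Zu⁻¹ : GL (Fin n) F) : Matrix (Fin n) (Fin n) F) with hZi
  have hZig : Zi * (g : Matrix (Fin n) (Fin n) F) = (g : Matrix (Fin n) (Fin n) F) * Zi := by
    calc Zi * (g : Matrix (Fin n) (Fin n) F)
        = Zi * ((g : Matrix (Fin n) (Fin n) F) * (Z * Zi)) := by rw [hinv2, mul_one]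
      _ = Zi * ((g : Matrix (Fin n) (Fin n) F) * Z) * Zi := by simp only [Matrix.mul_assoc]
      _ = Zi * (Z * (g : Matrix (Fin n) (Fin n) F)) * Zi := by rw [hZg]
      _ = (Zi * Z) * (g : Matrix (Fin n) (Fin n) F) * Zi := by simp only [Matrix.mul_assoc]
      _ = (g : Matrix (Fin n) (Fin n) F) * Zi := by rw [hinv1, one_mul]
  have hdetc : ((P : Matrix (Fin n) (Fin n) F) * Zi).det = 1 := by
    rw [Matrix.det_mul, ← hZdet, ← Matrix.det_mul, hinv2, Matrix.det_one]
  let c : Matrix.SpecialLinearGroup (Fin n) F := ⟨(P : Matrix (Fin n) (Fin n) F) * Zi, hdetc⟩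
  rw [isConj_iff]
  refine ⟨c, ?_⟩
  rw [mul_inv_eq_iff_eq_mul]
  apply Subtype.ext
  show (P : Matrix (Fin n) (Fin n) F) * Zi * (g : Matrix (Fin n) (Fin n) F) =
    (h : Matrix (Fin n) (Fin n) F) * ((P : Matrix (Fin n) (Fin n) F) * Zi)
  rw [Matrix.mul_assoc, hZig, ← Matrix.mul_assoc, hP, Matrix.mul_assoc]

end Aux

/-- In `SL_n(q)`, `q` a power of the prime `p`, two elements of order prime to `p` with the same characteristic polynomial are conjugate in `SL_n(q)` (not merely in `GL_n`). -/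
theorem result {F : Type*} [Field F] [Fintype F] (p : ℕ) [Fact p.Prime] [CharP F p] (n : ℕ)
    (g h : Matrix.SpecialLinearGroup (Fin n) F) (hg : (orderOf g).Coprime p) (hh : (orderOf h).Coprime p)
    (hc : (g : Matrix (Fin n) (Fin n) F).charpoly = (h : Matrix (Fin n) (Fin n) F).charpoly) : IsConj g h := by
  exact main p n g h hg hh hc

end Cfsg.Agent.S2388
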