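import Cfsg.Statements.S2384
import Mathlib
import Cfsg.Agent.Lib_helper8_SSCount
import Cfsg.Agent.S2388

set_option autoImplicit false
open Cfsg

namespace Cfsg.Agent.S2384

section Aux
open Polynomial Module Cfsg.Agent.Lib_helper8_SSCount

theorem main {F : Type*} [Field F] [Fintype F] {q : ℕ} (hq : Fintype.card F = q) (p : ℕ)
    [Fact p.Prime] [CharP F p] (n : ℕ) (hn : 1 ≤ n) :
    Nat.card {c : ConjClasses (Matrix.SpecialLinearGroup (Fin n) F) //
      ∃ g : Matrix.SpecialLinearGroup (Fin n) F, ConjClasses.mk g = c ∧ (orderOf g).Coprime p} =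
      q ^ (n - 1) := by
  classical
  haveI : NeZero n := ⟨by omega⟩
  have hdetsign : ∀ A : Matrix (Fin n) (Fin n) F, A.det = (-1) ^ n * A.charpoly.coeff 0 := by
    intro A
    have := Matrix.det_eq_sign_charpoly_coeff A
    rwa [Fintype.card_fin] at this
  have hsq : ((-1 : F) ^ n) * ((-1 : F) ^ n) = 1 := by
    rw [← mul_pow, neg_one_mul, neg_neg, one_pow]
  have hpow : ∀ x : Matrix.SpecialLinearGroup (Fin n) F,
      (x : Matrix (Fin n) (Fin n) F) ^ orderOf x = 1 := by
    intro x
    have := congrArg Subtype.val (pow_orderOf_eq_one x)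
    rw [Matrix.SpecialLinearGroup.coe_pow] at this
    exact this
  rw [card_classes (fun g : Matrix.SpecialLinearGroup (Fin n) F => (orderOf g).Coprime p)
    (fun f : F[X] => (f.Monic ∧ f.natDegree = n) ∧ f.coeff 0 = (-1) ^ n)
    (fun g => (g : Matrix (Fin n) (Fin n) F).charpoly)]
  · rw [card_monic_coeff hn (fun x => x = (-1) ^ n), hq]
    have : Nat.card {x : F // x = (-1) ^ n} = 1 := by
      rw [Nat.card_eq_fintype_card, Fintype.card_subtype_eq]
    rw [this, one_mul]
  · intro g _
    refine ⟨⟨Matrix.charpoly_monic _, ?_⟩, ?_⟩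
    · rw [Matrix.charpoly_natDegree_eq_dim, Fintype.card_fin]
    · have h1 := hdetsign (g : Matrix (Fin n) (Fin n) F)
      rw [g.2] at h1
      calc (g : Matrix (Fin n) (Fin n) F).charpoly.coeff 0
          = ((-1 : F) ^ n * (-1 : F) ^ n) * (g : Matrix (Fin n) (Fin n) F).charpoly.coeff 0 := by
            rw [hsq, one_mul]
        _ = (-1 : F) ^ n * ((-1 : F) ^ n * (g : Matrix (Fin n) (Fin n) F).charpoly.coeff 0) := by
            ring
        _ = (-1) ^ n := by rw [← h1, mul_one]
  · intro g h hg hh hc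
    exact Cfsg.Agent.S2388.main p n g h hg hh hc
  · rintro f ⟨⟨hf, hfn⟩, hf0⟩
    obtain ⟨A, hss, hA⟩ := exists_ss_matrix f hf hfn
    have hdet : A.det = 1 := by
      rw [hdetsign, hA, hf0, hsq]
    let g : Matrix.SpecialLinearGroup (Fin n) F := ⟨A, hdet⟩
    have hg : (g : Matrix (Fin n) (Fin n) F) = A := rfl
    refine ⟨g, ?_, by show (g : Matrix (Fin n) (Fin n) F).charpoly = f; rw [hg, hA]⟩
    show (orderOf g).Coprime p
    apply coprime_of_ss A hss (orderOf g) (orderOf_pos g)
    · rw [← hg]; exact hpow g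
    · intro k hk hko hk1
      apply pow_ne_one_of_lt_orderOf hk.ne' hko
      apply Subtype.ext
      rw [Matrix.SpecialLinearGroup.coe_pow, hg, hk1]
      rfl
  · intro g h hgh
    obtain ⟨c, hc⟩ := isConj_iff.mp hgh
    show (g : Matrix (Fin n) (Fin n) F).charpoly = (h : Matrix (Fin n) (Fin n) F).charpoly
    have h1 : (h : Matrix (Fin n) (Fin n) F) =
        (c : Matrix (Fin n) (Fin n) F) * (g : Matrix (Fin n) (Fin n) F) *
          ((c⁻¹ : Matrix.SpecialLinearGroup (Fin n) F) : Matrix (Fin n) (Fin n) F) := by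
      rw [← hc]; rfl
    have h2 : ((c⁻¹ : Matrix.SpecialLinearGroup (Fin n) F) : Matrix (Fin n) (Fin n) F) *
        (c : Matrix (Fin n) (Fin n) F) = 1 := by
      have := congrArg Subtype.val (inv_mul_cancel c)
      exact this
    rw [h1, Matrix.charpoly_mul_comm, ← Matrix.mul_assoc, h2, one_mul]

end Aux

/-- In `SL_n(q)`, `q` a power of the prime `p`, the number of conjugacy classes of elements of order prime to `p` (the semisimple classes) is `q^(n-1)`. -/
theorem result {F : Type*} [Field F] [Fintype F] {q : ℕ} (hq : Fintype.card F = q) (p : ℕ) [Fact p.Prime] [CharP F p] (n : ℕ) (hn : 1 ≤ n) :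
    Nat.card {c : ConjClasses (Matrix.SpecialLinearGroup (Fin n) F) //
      ∃ g : Matrix.SpecialLinearGroup (Fin n) F, ConjClasses.mk g = c ∧ (orderOf g).Coprime p} = q ^ (n - 1) := by
  exact main hq p n hn

end Cfsg.Agent.S2384
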