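import Cfsg.Statements.S2387
import Mathlib
import Cfsg.Agent.Lib_helper8_SSCount
import Cfsg.Agent.S2388

set_option autoImplicit false
open scoped MatrixGroups
open Cfsg

namespace Cfsg.Agent.S2387

section Aux
open Polynomial Module Cfsg.Agent.Lib_helper8_SSCount

theorem main {F : Type*} [Field F] [Fintype F] {q : ℕ} (hq : Fintype.card F = q) (p : ℕ)
    [Fact p.Prime] [CharP F p] (n : ℕ) (hn : 1 ≤ n) :
    Nat.card {c : ConjClasses (GL (Fin n) F) // ∃ g : GL (Fin n) F, ConjClasses.mk g = c ∧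
      (orderOf g).Coprime p} = (q - 1) * q ^ (n - 1) := by
  classical
  haveI : NeZero n := ⟨by omega⟩
  have hdetsign : ∀ A : Matrix (Fin n) (Fin n) F, A.det = (-1) ^ n * A.charpoly.coeff 0 := by
    intro A
    have := Matrix.det_eq_sign_charpoly_coeff A
    rwa [Fintype.card_fin] at this
  have hcop : ∀ x : GL (Fin n) F, (orderOf x).Coprime p → ((orderOf x : ℕ) : F) ≠ 0 := by
    intro x hx h0
    rw [CharP.cast_eq_zero_iff F p] at h0
    have := Nat.Coprime.eq_one_of_dvd hx.symm h0
    exact (Fact.out : p.Prime).one_lt.ne' this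
  have hpow : ∀ x : GL (Fin n) F, (x : Matrix (Fin n) (Fin n) F) ^ orderOf x = 1 := by
    intro x
    rw [← Units.val_pow_eq_pow_val, pow_orderOf_eq_one, Units.val_one]
  rw [card_classes (fun g : GL (Fin n) F => (orderOf g).Coprime p)
    (fun f : F[X] => (f.Monic ∧ f.natDegree = n) ∧ f.coeff 0 ≠ 0)
    (fun g => (g : Matrix (Fin n) (Fin n) F).charpoly)]
  · rw [card_monic_coeff hn (fun x => x ≠ 0), hq]
    congr 1
    rw [Nat.card_eq_fintype_card, Fintype.card_subtype_compl, Fintype.card_subtype_eq, hq]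
  · intro g _
    refine ⟨⟨Matrix.charpoly_monic _, ?_⟩, ?_⟩
    · rw [Matrix.charpoly_natDegree_eq_dim, Fintype.card_fin]
    · intro h0
      have h1 := hdetsign (g : Matrix (Fin n) (Fin n) F)
      rw [h0, mul_zero] at h1
      have := (Matrix.isUnit_iff_isUnit_det _).mp g.isUnit
      exact this.ne_zero h1
  · intro g h hg hh hc
    have hssg := Cfsg.Agent.S2388.ss_of_pow (g : Matrix (Fin n) (Fin n) F) _ (hcop g hg) (hpow g)
    have hssh := Cfsg.Agent.S2388.ss_of_pow (h : Matrix (Fin n) (Fin n) F) _ (hcop h hh) (hpow h)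
    obtain ⟨P, hP⟩ := Cfsg.Agent.Lib_helper8_SSConj.exists_conj_of_charpoly_eq _ _ hssg hssh hc
    rw [isConj_iff]
    refine ⟨P, ?_⟩
    rw [mul_inv_eq_iff_eq_mul]
    exact Units.ext hP
  · rintro f ⟨⟨hf, hfn⟩, hf0⟩
    obtain ⟨A, hss, hA⟩ := exists_ss_matrix f hf hfn
    have hdet : A.det ≠ 0 := by
      rw [hdetsign, hA]
      exact mul_ne_zero (pow_ne_zero _ (neg_ne_zero.mpr one_ne_zero)) hf0
    let g : GL (Fin n) F := Matrix.GeneralLinearGroup.mkOfDetNeZero A hdet
    have hg : (g : Matrix (Fin n) (Fin n) F) = A := rfl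
    refine ⟨g, ?_, by show (g : Matrix (Fin n) (Fin n) F).charpoly = f; rw [hg, hA]⟩
    show (orderOf g).Coprime p
    apply coprime_of_ss A hss (orderOf g) (orderOf_pos g)
    · rw [← hg]; exact hpow g
    · intro k hk hko hk1
      apply pow_ne_one_of_lt_orderOf hk.ne' hko
      apply Units.ext
      rw [Units.val_pow_eq_pow_val, hg, hk1, Units.val_one]
  · intro g h hgh
    obtain ⟨c, hc⟩ := isConj_iff.mp hgh
    show (g : Matrix (Fin n) (Fin n) F).charpoly = (h : Matrix (Fin n) (Fin n) F).charpoly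
    rw [← hc, Units.val_mul, Units.val_mul, Matrix.charpoly_mul_comm, ← Matrix.mul_assoc,
      ← Units.val_mul, inv_mul_cancel, Units.val_one, one_mul]

end Aux

/-- In `GL_n(q)` with `n ≥ 1`, `q` a power of the prime `p`, the number of conjugacy classes of elements of order prime to `p` (diagonalisable over the algebraic closure; determined by the characteristic polynomial) is `(q - 1) q^(n-1)`. -/
theorem result {F : Type*} [Field F] [Fintype F] {q : ℕ} (hq : Fintype.card F = q) (p : ℕ) [Fact p.Prime] [CharP F p] (n : ℕ) (hn : 1 ≤ n) :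
    Nat.card {c : ConjClasses (GL (Fin n) F) // ∃ g : GL (Fin n) F, ConjClasses.mk g = c ∧ (orderOf g).Coprime p} = (q - 1) * q ^ (n - 1) := by
  exact main hq p n hn

end Cfsg.Agent.S2387
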