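import Cfsg.Statements.S2391
import Cfsg.Agent.Lib_helper8_FixQuot

set_option autoImplicit false
open Cfsg

namespace Cfsg.Agent.S2391

section Aux
variable {F : Type*} [Field F] {n : ℕ}

noncomputable def chain (U : Subgroup (Matrix.SpecialLinearGroup (Fin n) F)) :
    ℕ → Submodule F (Fin n → F)
  | 0 => ⊥
  | (i + 1) => ⨅ u : U, (chain U i).comap
      (Matrix.mulVecLin ((u : Matrix.SpecialLinearGroup (Fin n) F) : Matrix (Fin n) (Fin n) F)
        - LinearMap.id)

theorem mem_chain_succ (U : Subgroup (Matrix.SpecialLinearGroup (Fin n) F)) (i : ℕ)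
    (v : Fin n → F) :
    v ∈ chain U (i + 1) ↔
      ∀ u ∈ U, (u : Matrix (Fin n) (Fin n) F).mulVec v - v ∈ chain U i := by
  show v ∈ (⨅ u : U, (chain U i).comap
      (Matrix.mulVecLin ((u : Matrix.SpecialLinearGroup (Fin n) F) : Matrix (Fin n) (Fin n) F)
        - LinearMap.id)) ↔ _
  rw [Submodule.mem_iInf]
  constructor
  · intro h u hu
    exact h ⟨u, hu⟩
  · intro h u
    exact h u.1 u.2

theorem chain_inv (U : Subgroup (Matrix.SpecialLinearGroup (Fin n) F))
    (g : Matrix.SpecialLinearGroup (Fin n) F)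
    (hg : g ∈ Subgroup.normalizer (U : Set (Matrix.SpecialLinearGroup (Fin n) F))) (i : ℕ) :
    ∀ v ∈ chain U i, (g : Matrix (Fin n) (Fin n) F).mulVec v ∈ chain U i := by
  induction i with
  | zero =>
    intro v hv
    have hv0 : v = 0 := (Submodule.mem_bot F).1 hv
    rw [hv0, Matrix.mulVec_zero]
    exact Submodule.zero_mem _
  | succ i ih =>
    intro v hv
    rw [mem_chain_succ] at hv ⊢
    intro u hu
    have hu' : g⁻¹ * u * g ∈ U := (Subgroup.mem_set_normalizer_iff''.1 hg u).1 hu
    have h := ih _ (hv _ hu')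
    have e : (g : Matrix (Fin n) (Fin n) F).mulVec
        ((↑(g⁻¹ * u * g) : Matrix (Fin n) (Fin n) F).mulVec v - v) =
        (u : Matrix (Fin n) (Fin n) F).mulVec ((g : Matrix (Fin n) (Fin n) F).mulVec v) -
          (g : Matrix (Fin n) (Fin n) F).mulVec v := by
      rw [Matrix.mulVec_sub, Matrix.mulVec_mulVec, Matrix.mulVec_mulVec,
        ← Matrix.SpecialLinearGroup.coe_mul, ← Matrix.SpecialLinearGroup.coe_mul]
      have : g * (g⁻¹ * u * g) = u * g := by group
      rw [this]
    rw [← e]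
    exact h

theorem chain_mono (U : Subgroup (Matrix.SpecialLinearGroup (Fin n) F)) (i : ℕ) :
    chain U i ≤ chain U (i + 1) := by
  intro v hv
  rw [mem_chain_succ]
  intro u hu
  exact Submodule.sub_mem _ (chain_inv U u (Subgroup.le_normalizer hu) i v hv) hv

theorem chain_mono' (U : Subgroup (Matrix.SpecialLinearGroup (Fin n) F)) {i j : ℕ} (h : i ≤ j) :
    chain U i ≤ chain U j := by
  induction h with
  | refl => exact le_rfl
  | step _ ih => exact ih.trans (chain_mono U _)

theorem chain_strict [Fintype F] (p : ℕ) [Fact p.Prime] [CharP F p]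
    (U : Subgroup (Matrix.SpecialLinearGroup (Fin n) F)) (hU : IsPGroup p ↥U) (i : ℕ)
    (h : chain U i ≠ ⊤) : chain U i < chain U (i + 1) := by
  obtain ⟨v, hv, hfix⟩ := Cfsg.Agent.Lib_helper8_FixQuot.fix_quot p hU
    (fun u : U => Matrix.mulVecLin
      ((u : Matrix.SpecialLinearGroup (Fin n) F) : Matrix (Fin n) (Fin n) F))
    (by
      show Matrix.mulVecLin ((1 : Matrix.SpecialLinearGroup (Fin n) F) :
        Matrix (Fin n) (Fin n) F) = LinearMap.id
      rw [Matrix.SpecialLinearGroup.coe_one, Matrix.mulVecLin_one])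
    (by
      intro a b
      show Matrix.mulVecLin ((((a : Matrix.SpecialLinearGroup (Fin n) F) * b :
        Matrix.SpecialLinearGroup (Fin n) F)) : Matrix (Fin n) (Fin n) F) = _
      rw [Matrix.SpecialLinearGroup.coe_mul, Matrix.mulVecLin_mul])
    (chain U i) h
    (fun u w hw => chain_inv U u (Subgroup.le_normalizer u.2) i w hw)
  refine lt_of_le_of_ne (chain_mono U i) ?_
  intro heq
  apply hv
  rw [heq, mem_chain_succ]
  intro u hu
  exact hfix ⟨u, hu⟩

theorem chain_one_ne_top (U : Subgroup (Matrix.SpecialLinearGroup (Fin n) F)) (hne : U ≠ ⊥) :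
    chain U 1 ≠ ⊤ := by
  intro h
  apply hne
  rw [eq_bot_iff]
  intro u hu
  rw [Subgroup.mem_bot]
  apply Subtype.ext
  apply Matrix.mulVec_injective
  funext v
  have hv : v ∈ chain U (0 + 1) := by
    rw [Nat.zero_add, h]
    exact Submodule.mem_top
  have h0 := (mem_chain_succ U 0 v).1 hv u hu
  have h0' : (u : Matrix (Fin n) (Fin n) F).mulVec v - v = 0 := (Submodule.mem_bot F).1 h0
  rw [Matrix.SpecialLinearGroup.coe_one, Matrix.one_mulVec]
  exact sub_eq_zero.1 h0'

theorem main [Fintype F] (p : ℕ) [Fact p.Prime] [CharP F p]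
    (U : Subgroup (Matrix.SpecialLinearGroup (Fin n) F)) (hU : IsPGroup p ↥U) (hne : U ≠ ⊥) :
    ∃ (k : ℕ) (V : Fin (k + 2) → Submodule F (Fin n → F)), 1 ≤ k ∧ StrictMono V ∧ V 0 = ⊥ ∧ V (Fin.last (k + 1)) = ⊤ ∧
      (∀ g ∈ Subgroup.normalizer (U : Set (Matrix.SpecialLinearGroup (Fin n) F)), ∀ i, (V i).map (Matrix.mulVecLin (g : Matrix (Fin n) (Fin n) F)) = V i) ∧
      (∀ u ∈ U, ∀ i : Fin (k + 1), ∀ v ∈ V i.succ, (u : Matrix (Fin n) (Fin n) F).mulVec v - v ∈ V (Fin.castSucc i)) := by
  classical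
  have hex : ∃ N, chain U N = ⊤ := by
    by_contra hcon
    push Not at hcon
    have hlt : ∀ i, chain U i < chain U (i + 1) := fun i => chain_strict p U hU i (hcon i)
    have hrank : ∀ i, i ≤ Module.finrank F (chain U i) := by
      intro i
      induction i with
      | zero => exact Nat.zero_le _
      | succ i ih =>
        have := Submodule.finrank_lt_finrank_of_lt (hlt i)
        omega
    have h1 := hrank (n + 1)
    have h2 := Submodule.finrank_le (chain U (n + 1))
    rw [Module.finrank_fin_fun] at h2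
    omega
  have hK : chain U (Nat.find hex) = ⊤ := Nat.find_spec hex
  have hmin : ∀ i < Nat.find hex, chain U i ≠ ⊤ := fun i hi => Nat.find_min hex hi
  have h1 : chain U 1 ≠ ⊤ := chain_one_ne_top U hne
  have h0 : chain U 0 ≠ ⊤ := fun h => h1 (top_le_iff.1 (h ▸ chain_mono U 0))
  have hK2 : 2 ≤ Nat.find hex := by
    by_contra hlt
    have : Nat.find hex = 0 ∨ Nat.find hex = 1 := by omega
    rcases this with h | h
    · exact h0 (h ▸ hK)
    · exact h1 (h ▸ hK)
  obtain ⟨k, hk⟩ : ∃ k, Nat.find hex = k + 1 := ⟨Nat.find hex - 1, by omega⟩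
  refine ⟨k, fun i => chain U i.val, by omega, ?_, rfl, ?_, ?_, ?_⟩
  · rw [Fin.strictMono_iff_lt_succ]
    intro i
    show chain U i.val < chain U (i.val + 1)
    exact chain_strict p U hU i.val (hmin _ (by have := i.2; omega))
  · show chain U (k + 1) = ⊤
    rw [← hk]
    exact hK
  · intro g hg i
    apply le_antisymm
    · rw [Submodule.map_le_iff_le_comap]
      intro v hv
      exact chain_inv U g hg _ v hv
    · intro v hv
      refine ⟨(↑g⁻¹ : Matrix (Fin n) (Fin n) F).mulVec v, chain_inv U g⁻¹ (inv_mem hg) _ v hv, ?_⟩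
      show (g : Matrix (Fin n) (Fin n) F).mulVec ((↑g⁻¹ : Matrix (Fin n) (Fin n) F).mulVec v) = v
      rw [Matrix.mulVec_mulVec, ← Matrix.SpecialLinearGroup.coe_mul, mul_inv_cancel,
        Matrix.SpecialLinearGroup.coe_one, Matrix.one_mulVec]
  · intro u hu i v hv
    exact (mem_chain_succ U i.val v).1 hv u hu

end Aux

/-- The Borel–Tits property of `SL_n(q)` in flag form: for a field `F` of characteristic `p` with finitely many elements and a non-trivial `p`-subgroup `U` of `SL_n(F)`, there is a flag `0 = V₀ < V₁ < ⋯ < V_{k+1} = F^n` with at least one proper non-zero member such that every element of the normaliser of `U` maps each `V_i` onto itself and every element of `U` acts trivially on each quotient `V_{i+1}/V_i` (so the normaliser lies in the parabolic subgroup of the flag and `U` in its unipotent radical). -/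
theorem result {F : Type*} [Field F] [Fintype F] (p : ℕ) [Fact p.Prime] [CharP F p] (n : ℕ)
    (U : Subgroup (Matrix.SpecialLinearGroup (Fin n) F)) (hU : IsPGroup p ↥U) (hne : U ≠ ⊥) :
    ∃ (k : ℕ) (V : Fin (k + 2) → Submodule F (Fin n → F)), 1 ≤ k ∧ StrictMono V ∧ V 0 = ⊥ ∧ V (Fin.last (k + 1)) = ⊤ ∧
      (∀ g ∈ Subgroup.normalizer (U : Set (Matrix.SpecialLinearGroup (Fin n) F)), ∀ i, (V i).map (Matrix.mulVecLin (g : Matrix (Fin n) (Fin n) F)) = V i) ∧
      (∀ u ∈ U, ∀ i : Fin (k + 1), ∀ v ∈ V i.succ, (u : Matrix (Fin n) (Fin n) F).mulVec v - v ∈ V (Fin.castSucc i)) := by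
  exact main p U hU hne

end Cfsg.Agent.S2391
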