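import Cfsg.Statements.S2419
import Cfsg.Agent.Lib_helper8_Coxeter

set_option autoImplicit false
open Cfsg

namespace Cfsg.Agent.S2419

section Aux
open Cfsg.Agent.Lib_helper8_Coxeter

theorem top_of_simple {n : ℕ} (M : CoxeterMatrix (Fin n)) (S : Set M.Group)
    (h : ∀ i, M.simple i ∈ Subgroup.closure S) : Subgroup.closure S = ⊤ := by
  rw [eq_top_iff, ← M.toCoxeterSystem.subgroup_closure_range_simple, Subgroup.closure_le]
  rintro _ ⟨i, rfl⟩
  exact h i

theorem rank2 (M : CoxeterMatrix (Fin 2)) :
    ∃ T : Finset M.Group, T.card = 1 ∧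
      (∀ t ∈ T, ∃ (g : M.Group) (i : Fin 2), t = g * M.simple i * g⁻¹) ∧
      Subgroup.closure (({((List.finRange 2).map M.simple).prod} : Set M.Group) ∪ ↑T) = ⊤ := by
  refine ⟨{M.simple 0}, Finset.card_singleton _, ?_, ?_⟩
  · intro t ht
    rw [Finset.mem_singleton] at ht
    exact ⟨1, 0, by rw [ht, one_mul, inv_one, mul_one]⟩
  · apply top_of_simple
    have hc : ((List.finRange 2).map M.simple).prod = M.simple 0 * M.simple 1 := by
      have : List.finRange 2 = [0, 1] := rfl
      rw [this]
      simp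
    have h0 : M.simple 0 ∈ Subgroup.closure
        (({((List.finRange 2).map M.simple).prod} : Set M.Group) ∪
          ↑({M.simple 0} : Finset M.Group)) := by
      apply Subgroup.subset_closure
      right
      simp
    have hcm : ((List.finRange 2).map M.simple).prod ∈ Subgroup.closure
        (({((List.finRange 2).map M.simple).prod} : Set M.Group) ∪
          ↑({M.simple 0} : Finset M.Group)) := by
      apply Subgroup.subset_closure
      left
      rfl
    intro i
    fin_cases i
    · exact h0
    · have e : M.simple 1 = (M.simple 0)⁻¹ * ((List.finRange 2).map M.simple).prod := by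
        rw [hc, inv_mul_cancel_left]
      show M.simple 1 ∈ _
      rw [e]
      exact mul_mem (inv_mem h0) hcm

/-- Rank four, node `0` a leaf attached to node `1` by a simple bond: `T = {s₀, s₂}`. -/
theorem rank4 (M : CoxeterMatrix (Fin 4)) (h01 : M 0 1 = 3) (h20 : M 2 0 = 2) (h30 : M 3 0 = 2)
    (hne : M.simple 0 ≠ M.simple 2) :
    ∃ T : Finset M.Group, T.card = 2 ∧
      (∀ t ∈ T, ∃ (g : M.Group) (i : Fin 4), t = g * M.simple i * g⁻¹) ∧
      Subgroup.closure (({((List.finRange 4).map M.simple).prod} : Set M.Group) ∪ ↑T) = ⊤ := by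
  classical
  obtain ⟨cs, hcs⟩ : ∃ cs : CoxeterSystem M M.Group, cs = M.toCoxeterSystem := ⟨_, rfl⟩
  have hsimple : ∀ i, M.simple i = cs.simple i := fun i => by rw [hcs]; rfl
  refine ⟨{M.simple 0, M.simple 2}, Finset.card_pair hne, ?_, ?_⟩
  · intro t ht
    rw [Finset.mem_insert, Finset.mem_singleton] at ht
    rcases ht with ht | ht
    · exact ⟨1, 0, by rw [ht, one_mul, inv_one, mul_one]⟩
    · exact ⟨1, 2, by rw [ht, one_mul, inv_one, mul_one]⟩
  · apply top_of_simple
    have hcm : cs.wordProd [0, 1, 2, 3] ∈ Subgroup.closure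
        (({((List.finRange 4).map M.simple).prod} : Set M.Group) ∪
          ↑({M.simple 0, M.simple 2} : Finset M.Group)) := by
      apply Subgroup.subset_closure
      left
      rw [hcs]
      rfl
    have h0 : cs.simple 0 ∈ Subgroup.closure
        (({((List.finRange 4).map M.simple).prod} : Set M.Group) ∪
          ↑({M.simple 0, M.simple 2} : Finset M.Group)) := by
      apply Subgroup.subset_closure
      right
      rw [hsimple]
      simp
    have h2 : cs.simple 2 ∈ Subgroup.closure
        (({((List.finRange 4).map M.simple).prod} : Set M.Group) ∪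
          ↑({M.simple 0, M.simple 2} : Finset M.Group)) := by
      apply Subgroup.subset_closure
      right
      rw [hsimple, hsimple]
      simp
    have h1 : cs.simple 1 ∈ Subgroup.closure
        (({((List.finRange 4).map M.simple).prod} : Set M.Group) ∪
          ↑({M.simple 0, M.simple 2} : Finset M.Group)) := by
      have e := peel_left cs ([2, 3] : List (Fin 4)) 0 1
        (by
          intro k hk
          rw [List.mem_cons, List.mem_singleton] at hk
          rcases hk with rfl | rfl
          · exact h20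
          · exact h30) h01
      rw [← e]
      exact mul_mem (mul_mem hcm h0) (inv_mem hcm)
    have h3 : cs.simple 3 ∈ Subgroup.closure
        (({((List.finRange 4).map M.simple).prod} : Set M.Group) ∪
          ↑({M.simple 0, M.simple 2} : Finset M.Group)) := by
      have e : cs.simple 3 = cs.simple 2 * (cs.simple 1 * (cs.simple 0 * cs.wordProd [0, 1, 2, 3])) := by
        simp only [CoxeterSystem.wordProd_cons, CoxeterSystem.wordProd_nil, mul_one,
          CoxeterSystem.simple_mul_simple_cancel_left]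
      rw [e]
      exact mul_mem h2 (mul_mem h1 (mul_mem h0 hcm))
    have key : ∀ i, cs.simple i ∈ Subgroup.closure
        (({((List.finRange 4).map M.simple).prod} : Set M.Group) ∪
          ↑({M.simple 0, M.simple 2} : Finset M.Group)) := by
      intro i
      fin_cases i
      · exact h0
      · exact h1
      · exact h2
      · exact h3
    intro i
    have hk := key i
    rwa [← hsimple] at hk

theorem neD4 : (Cfsg.Lie.coxeterD4).simple 0 ≠ (Cfsg.Lie.coxeterD4).simple 2 := by
  have hl : (Cfsg.Lie.coxeterD4).IsLiftable (![Equiv.swap 0 1, Equiv.swap 1 2, Equiv.swap 2 3,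
      Equiv.swap 2 3] : Fin 4 → Equiv.Perm (Fin 4)) := by
    intro i i'
    fin_cases i <;> fin_cases i' <;> decide
  intro h
  have h' := congrArg ((Cfsg.Lie.coxeterD4).toCoxeterSystem.lift ⟨_, hl⟩) h
  have e0 := (Cfsg.Lie.coxeterD4).toCoxeterSystem.lift_apply_simple hl 0
  have e2 := (Cfsg.Lie.coxeterD4).toCoxeterSystem.lift_apply_simple hl 2
  rw [CoxeterMatrix.toCoxeterSystem_simple] at e0 e2
  rw [e0, e2] at h'
  revert h'
  decide

theorem neF4 : (CoxeterMatrix.F₄).simple 0 ≠ (CoxeterMatrix.F₄).simple 2 := by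
  have hl : (CoxeterMatrix.F₄).IsLiftable (![-1, -1, 1, 1] : Fin 4 → ℤˣ) := by
    intro i i'
    fin_cases i <;> fin_cases i' <;> decide
  intro h
  have h' := congrArg ((CoxeterMatrix.F₄).toCoxeterSystem.lift ⟨_, hl⟩) h
  have e0 := (CoxeterMatrix.F₄).toCoxeterSystem.lift_apply_simple hl 0
  have e2 := (CoxeterMatrix.F₄).toCoxeterSystem.lift_apply_simple hl 2
  rw [CoxeterMatrix.toCoxeterSystem_simple] at e0 e2
  rw [e0, e2] at h'
  revert h'
  decide

theorem case6 :
    ∃ T : Finset (CoxeterMatrix.E₆).Group, T.card = 1 ∧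
      (∀ t ∈ T, ∃ (g : (CoxeterMatrix.E₆).Group) (i : Fin 6), t = g * (CoxeterMatrix.E₆).simple i * g⁻¹) ∧
      Subgroup.closure (({((List.finRange 6).map (CoxeterMatrix.E₆).simple).prod} : Set (CoxeterMatrix.E₆).Group) ∪ ↑T) = ⊤ := by
  obtain ⟨cs, hcs⟩ : ∃ cs : CoxeterSystem (CoxeterMatrix.E₆) (CoxeterMatrix.E₆).Group, cs = (CoxeterMatrix.E₆).toCoxeterSystem := ⟨_, rfl⟩
  have hsimple : ∀ i, (CoxeterMatrix.E₆).simple i = cs.simple i := fun i => by rw [hcs]; rfl
  refine ⟨{(CoxeterMatrix.E₆).simple 5}, Finset.card_singleton _, ?_, ?_⟩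
  · intro t ht
    rw [Finset.mem_singleton] at ht
    exact ⟨1, 5, by rw [ht, one_mul, inv_one, mul_one]⟩
  · apply top_of_simple
    have hcm : cs.wordProd [0, 1, 2, 3, 4, 5] ∈ Subgroup.closure
        (({((List.finRange 6).map (CoxeterMatrix.E₆).simple).prod} : Set (CoxeterMatrix.E₆).Group) ∪
          ↑({(CoxeterMatrix.E₆).simple 5} : Finset (CoxeterMatrix.E₆).Group)) := by
      apply Subgroup.subset_closure
      left
      rw [hcs]
      rfl
    have h5 : cs.simple 5 ∈ Subgroup.closure
        (({((List.finRange 6).map (CoxeterMatrix.E₆).simple).prod} : Set (CoxeterMatrix.E₆).Group) ∪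
          ↑({(CoxeterMatrix.E₆).simple 5} : Finset (CoxeterMatrix.E₆).Group)) := by
      apply Subgroup.subset_closure
      right
      rw [hsimple]
      simp
    have h4 : cs.simple 4 ∈ Subgroup.closure
        (({((List.finRange 6).map (CoxeterMatrix.E₆).simple).prod} : Set (CoxeterMatrix.E₆).Group) ∪
          ↑({(CoxeterMatrix.E₆).simple 5} : Finset (CoxeterMatrix.E₆).Group)) := by
      have e := peel cs ([0, 1, 2, 3] : List (Fin 6)) ([] : List (Fin 6)) 4 5 (by decide) (by decide) (by decide)
      rw [← e]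
      exact mul_mem (mul_mem (inv_mem hcm) h5) hcm
    have h3 : cs.simple 3 ∈ Subgroup.closure
        (({((List.finRange 6).map (CoxeterMatrix.E₆).simple).prod} : Set (CoxeterMatrix.E₆).Group) ∪
          ↑({(CoxeterMatrix.E₆).simple 5} : Finset (CoxeterMatrix.E₆).Group)) := by
      have e := peel cs ([0, 1, 2] : List (Fin 6)) ([5] : List (Fin 6)) 3 4 (by decide) (by decide) (by decide)
      rw [← e]
      exact mul_mem (mul_mem (inv_mem hcm) h4) hcm
    have hu : cs.wordProd ([4, 5] : List (Fin 6)) ∈ Subgroup.closure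
        (({((List.finRange 6).map (CoxeterMatrix.E₆).simple).prod} : Set (CoxeterMatrix.E₆).Group) ∪
          ↑({(CoxeterMatrix.E₆).simple 5} : Finset (CoxeterMatrix.E₆).Group)) := by
      simp only [CoxeterSystem.wordProd_cons, CoxeterSystem.wordProd_nil, mul_one]
      exact mul_mem h4 (h5)
    have hsplit : cs.wordProd [0, 1, 2, 3, 4, 5] =
        cs.simple 0 * cs.simple 1 * cs.simple 2 * cs.simple 3 * cs.wordProd ([4, 5] : List (Fin 6)) := by
      have : ([0, 1, 2, 3, 4, 5] : List (Fin 6)) = [0, 1, 2, 3] ++ [4, 5] := rfl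
      rw [this, cs.wordProd_append]
      simp only [CoxeterSystem.wordProd_cons, CoxeterSystem.wordProd_nil, mul_one, mul_assoc]
    rw [hsplit] at hcm
    have hE := E_core _ (cs.simple 0) (cs.simple 1) (cs.simple 2) (cs.simple 3)
      (cs.wordProd ([4, 5] : List (Fin 6)))
      (cs.simple_mul_simple_self 0) (cs.simple_mul_simple_self 1) (cs.simple_mul_simple_self 2)
      (cs.simple_mul_simple_self 3)
      (comm_of_two cs (by decide)) (comm_of_two cs (by decide)) (comm_of_two cs (by decide))
      (braid_of_three cs (by decide)) (braid_of_three cs (by decide)) (braid_of_three cs (by decide))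
      hcm h3 hu
    have key : ∀ i, cs.simple i ∈ Subgroup.closure
        (({((List.finRange 6).map (CoxeterMatrix.E₆).simple).prod} : Set (CoxeterMatrix.E₆).Group) ∪
          ↑({(CoxeterMatrix.E₆).simple 5} : Finset (CoxeterMatrix.E₆).Group)) := by
      intro i
      fin_cases i
      · exact hE.1
      · exact hE.2.1
      · exact hE.2.2
      · exact h3
      · exact h4
      · exact h5
    intro i
    have hk := key i
    rwa [← hsimple] at hk

theorem case7 :
    ∃ T : Finset (CoxeterMatrix.E₇).Group, T.card = 1 ∧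
      (∀ t ∈ T, ∃ (g : (CoxeterMatrix.E₇).Group) (i : Fin 7), t = g * (CoxeterMatrix.E₇).simple i * g⁻¹) ∧
      Subgroup.closure (({((List.finRange 7).map (CoxeterMatrix.E₇).simple).prod} : Set (CoxeterMatrix.E₇).Group) ∪ ↑T) = ⊤ := by
  obtain ⟨cs, hcs⟩ : ∃ cs : CoxeterSystem (CoxeterMatrix.E₇) (CoxeterMatrix.E₇).Group, cs = (CoxeterMatrix.E₇).toCoxeterSystem := ⟨_, rfl⟩
  have hsimple : ∀ i, (CoxeterMatrix.E₇).simple i = cs.simple i := fun i => by rw [hcs]; rfl
  refine ⟨{(CoxeterMatrix.E₇).simple 6}, Finset.card_singleton _, ?_, ?_⟩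
  · intro t ht
    rw [Finset.mem_singleton] at ht
    exact ⟨1, 6, by rw [ht, one_mul, inv_one, mul_one]⟩
  · apply top_of_simple
    have hcm : cs.wordProd [0, 1, 2, 3, 4, 5, 6] ∈ Subgroup.closure
        (({((List.finRange 7).map (CoxeterMatrix.E₇).simple).prod} : Set (CoxeterMatrix.E₇).Group) ∪
          ↑({(CoxeterMatrix.E₇).simple 6} : Finset (CoxeterMatrix.E₇).Group)) := by
      apply Subgroup.subset_closure
      left
      rw [hcs]
      rfl
    have h6 : cs.simple 6 ∈ Subgroup.closure
        (({((List.finRange 7).map (CoxeterMatrix.E₇).simple).prod} : Set (CoxeterMatrix.E₇).Group) ∪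
          ↑({(CoxeterMatrix.E₇).simple 6} : Finset (CoxeterMatrix.E₇).Group)) := by
      apply Subgroup.subset_closure
      right
      rw [hsimple]
      simp
    have h5 : cs.simple 5 ∈ Subgroup.closure
        (({((List.finRange 7).map (CoxeterMatrix.E₇).simple).prod} : Set (CoxeterMatrix.E₇).Group) ∪
          ↑({(CoxeterMatrix.E₇).simple 6} : Finset (CoxeterMatrix.E₇).Group)) := by
      have e := peel cs ([0, 1, 2, 3, 4] : List (Fin 7)) ([] : List (Fin 7)) 5 6 (by decide) (by decide) (by decide)
      rw [← e]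
      exact mul_mem (mul_mem (inv_mem hcm) h6) hcm
    have h4 : cs.simple 4 ∈ Subgroup.closure
        (({((List.finRange 7).map (CoxeterMatrix.E₇).simple).prod} : Set (CoxeterMatrix.E₇).Group) ∪
          ↑({(CoxeterMatrix.E₇).simple 6} : Finset (CoxeterMatrix.E₇).Group)) := by
      have e := peel cs ([0, 1, 2, 3] : List (Fin 7)) ([6] : List (Fin 7)) 4 5 (by decide) (by decide) (by decide)
      rw [← e]
      exact mul_mem (mul_mem (inv_mem hcm) h5) hcm
    have h3 : cs.simple 3 ∈ Subgroup.closure
        (({((List.finRange 7).map (CoxeterMatrix.E₇).simple).prod} : Set (CoxeterMatrix.E₇).Group) ∪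
          ↑({(CoxeterMatrix.E₇).simple 6} : Finset (CoxeterMatrix.E₇).Group)) := by
      have e := peel cs ([0, 1, 2] : List (Fin 7)) ([5, 6] : List (Fin 7)) 3 4 (by decide) (by decide) (by decide)
      rw [← e]
      exact mul_mem (mul_mem (inv_mem hcm) h4) hcm
    have hu : cs.wordProd ([4, 5, 6] : List (Fin 7)) ∈ Subgroup.closure
        (({((List.finRange 7).map (CoxeterMatrix.E₇).simple).prod} : Set (CoxeterMatrix.E₇).Group) ∪
          ↑({(CoxeterMatrix.E₇).simple 6} : Finset (CoxeterMatrix.E₇).Group)) := by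
      simp only [CoxeterSystem.wordProd_cons, CoxeterSystem.wordProd_nil, mul_one]
      exact mul_mem h4 (mul_mem h5 (h6))
    have hsplit : cs.wordProd [0, 1, 2, 3, 4, 5, 6] =
        cs.simple 0 * cs.simple 1 * cs.simple 2 * cs.simple 3 * cs.wordProd ([4, 5, 6] : List (Fin 7)) := by
      have : ([0, 1, 2, 3, 4, 5, 6] : List (Fin 7)) = [0, 1, 2, 3] ++ [4, 5, 6] := rfl
      rw [this, cs.wordProd_append]
      simp only [CoxeterSystem.wordProd_cons, CoxeterSystem.wordProd_nil, mul_one, mul_assoc]
    rw [hsplit] at hcm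
    have hE := E_core _ (cs.simple 0) (cs.simple 1) (cs.simple 2) (cs.simple 3)
      (cs.wordProd ([4, 5, 6] : List (Fin 7)))
      (cs.simple_mul_simple_self 0) (cs.simple_mul_simple_self 1) (cs.simple_mul_simple_self 2)
      (cs.simple_mul_simple_self 3)
      (comm_of_two cs (by decide)) (comm_of_two cs (by decide)) (comm_of_two cs (by decide))
      (braid_of_three cs (by decide)) (braid_of_three cs (by decide)) (braid_of_three cs (by decide))
      hcm h3 hu
    have key : ∀ i, cs.simple i ∈ Subgroup.closure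
        (({((List.finRange 7).map (CoxeterMatrix.E₇).simple).prod} : Set (CoxeterMatrix.E₇).Group) ∪
          ↑({(CoxeterMatrix.E₇).simple 6} : Finset (CoxeterMatrix.E₇).Group)) := by
      intro i
      fin_cases i
      · exact hE.1
      · exact hE.2.1
      · exact hE.2.2
      · exact h3
      · exact h4
      · exact h5
      · exact h6
    intro i
    have hk := key i
    rwa [← hsimple] at hk

theorem case8 :
    ∃ T : Finset (CoxeterMatrix.E₈).Group, T.card = 1 ∧
      (∀ t ∈ T, ∃ (g : (CoxeterMatrix.E₈).Group) (i : Fin 8), t = g * (CoxeterMatrix.E₈).simple i * g⁻¹) ∧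
      Subgroup.closure (({((List.finRange 8).map (CoxeterMatrix.E₈).simple).prod} : Set (CoxeterMatrix.E₈).Group) ∪ ↑T) = ⊤ := by
  obtain ⟨cs, hcs⟩ : ∃ cs : CoxeterSystem (CoxeterMatrix.E₈) (CoxeterMatrix.E₈).Group, cs = (CoxeterMatrix.E₈).toCoxeterSystem := ⟨_, rfl⟩
  have hsimple : ∀ i, (CoxeterMatrix.E₈).simple i = cs.simple i := fun i => by rw [hcs]; rfl
  refine ⟨{(CoxeterMatrix.E₈).simple 7}, Finset.card_singleton _, ?_, ?_⟩
  · intro t ht
    rw [Finset.mem_singleton] at ht
    exact ⟨1, 7, by rw [ht, one_mul, inv_one, mul_one]⟩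
  · apply top_of_simple
    have hcm : cs.wordProd [0, 1, 2, 3, 4, 5, 6, 7] ∈ Subgroup.closure
        (({((List.finRange 8).map (CoxeterMatrix.E₈).simple).prod} : Set (CoxeterMatrix.E₈).Group) ∪
          ↑({(CoxeterMatrix.E₈).simple 7} : Finset (CoxeterMatrix.E₈).Group)) := by
      apply Subgroup.subset_closure
      left
      rw [hcs]
      rfl
    have h7 : cs.simple 7 ∈ Subgroup.closure
        (({((List.finRange 8).map (CoxeterMatrix.E₈).simple).prod} : Set (CoxeterMatrix.E₈).Group) ∪
          ↑({(CoxeterMatrix.E₈).simple 7} : Finset (CoxeterMatrix.E₈).Group)) := by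
      apply Subgroup.subset_closure
      right
      rw [hsimple]
      simp
    have h6 : cs.simple 6 ∈ Subgroup.closure
        (({((List.finRange 8).map (CoxeterMatrix.E₈).simple).prod} : Set (CoxeterMatrix.E₈).Group) ∪
          ↑({(CoxeterMatrix.E₈).simple 7} : Finset (CoxeterMatrix.E₈).Group)) := by
      have e := peel cs ([0, 1, 2, 3, 4, 5] : List (Fin 8)) ([] : List (Fin 8)) 6 7 (by decide) (by decide) (by decide)
      rw [← e]
      exact mul_mem (mul_mem (inv_mem hcm) h7) hcm
    have h5 : cs.simple 5 ∈ Subgroup.closure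
        (({((List.finRange 8).map (CoxeterMatrix.E₈).simple).prod} : Set (CoxeterMatrix.E₈).Group) ∪
          ↑({(CoxeterMatrix.E₈).simple 7} : Finset (CoxeterMatrix.E₈).Group)) := by
      have e := peel cs ([0, 1, 2, 3, 4] : List (Fin 8)) ([7] : List (Fin 8)) 5 6 (by decide) (by decide) (by decide)
      rw [← e]
      exact mul_mem (mul_mem (inv_mem hcm) h6) hcm
    have h4 : cs.simple 4 ∈ Subgroup.closure
        (({((List.finRange 8).map (CoxeterMatrix.E₈).simple).prod} : Set (CoxeterMatrix.E₈).Group) ∪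
          ↑({(CoxeterMatrix.E₈).simple 7} : Finset (CoxeterMatrix.E₈).Group)) := by
      have e := peel cs ([0, 1, 2, 3] : List (Fin 8)) ([6, 7] : List (Fin 8)) 4 5 (by decide) (by decide) (by decide)
      rw [← e]
      exact mul_mem (mul_mem (inv_mem hcm) h5) hcm
    have h3 : cs.simple 3 ∈ Subgroup.closure
        (({((List.finRange 8).map (CoxeterMatrix.E₈).simple).prod} : Set (CoxeterMatrix.E₈).Group) ∪
          ↑({(CoxeterMatrix.E₈).simple 7} : Finset (CoxeterMatrix.E₈).Group)) := by
      have e := peel cs ([0, 1, 2] : List (Fin 8)) ([5, 6, 7] : List (Fin 8)) 3 4 (by decide) (by decide) (by decide)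
      rw [← e]
      exact mul_mem (mul_mem (inv_mem hcm) h4) hcm
    have hu : cs.wordProd ([4, 5, 6, 7] : List (Fin 8)) ∈ Subgroup.closure
        (({((List.finRange 8).map (CoxeterMatrix.E₈).simple).prod} : Set (CoxeterMatrix.E₈).Group) ∪
          ↑({(CoxeterMatrix.E₈).simple 7} : Finset (CoxeterMatrix.E₈).Group)) := by
      simp only [CoxeterSystem.wordProd_cons, CoxeterSystem.wordProd_nil, mul_one]
      exact mul_mem h4 (mul_mem h5 (mul_mem h6 (h7)))
    have hsplit : cs.wordProd [0, 1, 2, 3, 4, 5, 6, 7] =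
        cs.simple 0 * cs.simple 1 * cs.simple 2 * cs.simple 3 * cs.wordProd ([4, 5, 6, 7] : List (Fin 8)) := by
      have : ([0, 1, 2, 3, 4, 5, 6, 7] : List (Fin 8)) = [0, 1, 2, 3] ++ [4, 5, 6, 7] := rfl
      rw [this, cs.wordProd_append]
      simp only [CoxeterSystem.wordProd_cons, CoxeterSystem.wordProd_nil, mul_one, mul_assoc]
    rw [hsplit] at hcm
    have hE := E_core _ (cs.simple 0) (cs.simple 1) (cs.simple 2) (cs.simple 3)
      (cs.wordProd ([4, 5, 6, 7] : List (Fin 8)))
      (cs.simple_mul_simple_self 0) (cs.simple_mul_simple_self 1) (cs.simple_mul_simple_self 2)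
      (cs.simple_mul_simple_self 3)
      (comm_of_two cs (by decide)) (comm_of_two cs (by decide)) (comm_of_two cs (by decide))
      (braid_of_three cs (by decide)) (braid_of_three cs (by decide)) (braid_of_three cs (by decide))
      hcm h3 hu
    have key : ∀ i, cs.simple i ∈ Subgroup.closure
        (({((List.finRange 8).map (CoxeterMatrix.E₈).simple).prod} : Set (CoxeterMatrix.E₈).Group) ∪
          ↑({(CoxeterMatrix.E₈).simple 7} : Finset (CoxeterMatrix.E₈).Group)) := by
      intro i
      fin_cases i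
      · exact hE.1
      · exact hE.2.1
      · exact hE.2.2
      · exact h3
      · exact h4
      · exact h5
      · exact h6
      · exact h7
    intro i
    have hk := key i
    rwa [← hsimple] at hk

end Aux

/-- The Coxeter groups of types B₂, G₂, E₆, E₇, E₈ are generated by the Coxeter element `s₁ s₂ ⋯ s_l` together with one suitable reflection (a conjugate of a simple reflection); for types D₄ and F₄ the Coxeter element together with two suitable reflections suffices. -/
theorem result (c : (Σ n : ℕ, CoxeterMatrix (Fin n)) × ℕ)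
    (hc : c ∈ [(⟨2, CoxeterMatrix.B 2⟩, 1), (⟨2, CoxeterMatrix.G₂⟩, 1), (⟨4, Cfsg.Lie.coxeterD4⟩, 2), (⟨4, CoxeterMatrix.F₄⟩, 2),
      (⟨6, CoxeterMatrix.E₆⟩, 1), (⟨7, CoxeterMatrix.E₇⟩, 1), (⟨8, CoxeterMatrix.E₈⟩, 1)]) :
    ∃ T : Finset c.1.2.Group, T.card = c.2 ∧ (∀ t ∈ T, ∃ (g : c.1.2.Group) (i : Fin c.1.1), t = g * c.1.2.simple i * g⁻¹) ∧
      Subgroup.closure (({((List.finRange c.1.1).map c.1.2.simple).prod} : Set c.1.2.Group) ∪ ↑T) = ⊤ := by
  simp only [List.mem_cons, List.not_mem_nil, or_false] at hc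
  rcases hc with rfl | rfl | rfl | rfl | rfl | rfl | rfl
  · exact rank2 _
  · exact rank2 _
  · exact rank4 _ (by decide) (by decide) (by decide) neD4
  · exact rank4 _ (by decide) (by decide) (by decide) neF4
  · exact case6
  · exact case7
  · exact case8

end Cfsg.Agent.S2419
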