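import Cfsg.Statements.S2427
import Mathlib
import Cfsg.Agent.S0257

set_option autoImplicit false
open Cfsg

namespace Cfsg.Agent.S2427

open Matrix

abbrev G := Matrix.SpecialLinearGroup (Fin 2) (ZMod 3)
def tt : G := ⟨!![1,1;0,1], by decide⟩
def ss : G := ⟨!![0,2;1,0], by decide⟩
def zz : G := ⟨!![2,0;0,2], by decide⟩

set_option maxHeartbeats 4000000 in
lemma d0 : Fintype.card G = 24 := by decide +kernel
set_option maxHeartbeats 4000000 in
lemma d1 : ∀ g : G, g ^ 2 = 1 → g = 1 ∨ g = zz := by decide +kernel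
set_option maxHeartbeats 4000000 in
lemma d2 : ∀ g : G, g * zz = zz * g := by decide +kernel
set_option maxHeartbeats 4000000 in
lemma d3 : ∀ g : G, g ^ 8 = 1 → g ^ 4 = 1 := by decide +kernel
set_option maxHeartbeats 4000000 in
lemma d4 : ∀ g : G, g ^ 4 ≠ 1 → (g * ss * g⁻¹ * ss⁻¹) ^ 2 ≠ 1 := by decide +kernel
set_option maxHeartbeats 4000000 in
lemma d5 : ∀ g : G, g ^ 4 = 1 → g ^ 2 ≠ 1 → (tt * g * tt⁻¹ * g⁻¹) ^ 2 ≠ 1 := by decide +kernel
set_option maxHeartbeats 4000000 in
lemma d6 : ∀ h : G, h ^ 4 = 1 → h ^ 2 ≠ 1 → ∀ i j : Fin 5,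
    (![1, h, h ^ 2, h ^ 3, tt * h * tt⁻¹] : Fin 5 → G) i
      = (![1, h, h ^ 2, h ^ 3, tt * h * tt⁻¹] : Fin 5 → G) j → i = j := by decide +kernel
set_option maxHeartbeats 4000000 in
lemma d7 : ss ^ 4 = 1 ∧ ss ^ 2 ≠ 1 := by decide +kernel

lemma five_le (M : Subgroup G) (hM : M.Normal) (h : G) (hh : h ∈ M) (h4 : h ^ 4 = 1)
    (h2 : h ^ 2 ≠ 1) : 5 ≤ Nat.card M := by
  have hmem : ∀ i : Fin 5, (![1, h, h ^ 2, h ^ 3, tt * h * tt⁻¹] : Fin 5 → G) i ∈ M := by
    intro i
    fin_cases i
    · exact M.one_mem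
    · exact hh
    · exact M.pow_mem hh 2
    · exact M.pow_mem hh 3
    · exact hM.conj_mem h hh tt
  have hinj : Function.Injective (fun i : Fin 5 =>
      (⟨(![1, h, h ^ 2, h ^ 3, tt * h * tt⁻¹] : Fin 5 → G) i, hmem i⟩ : M)) := by
    intro i j hij
    exact d6 h h4 h2 i j (congrArg Subtype.val hij)
  have := Nat.card_le_card_of_injective _ hinj
  simpa using this

lemma eight_of (d : ℕ) (h1 : d ∣ 8) (h2 : 5 ≤ d) : d = 8 := by
  have : d ≤ 8 := Nat.le_of_dvd (by norm_num) h1
  interval_cases d <;> first | rfl | (exfalso; revert h1; decide)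

/-- The group SL₂ over the field with 3 elements has order 24 and centre of order 2; its commutator subgroup has order 8, is isomorphic to the quaternion group of order 8 and is complemented by every Sylow 3-subgroup (so the group is a semidirect product of a quaternion group of order 8 by a cyclic group of order 3); and its only normal subgroups besides the trivial subgroup and the whole group are the centre and the commutator subgroup. -/
theorem result :
    Nat.card (Matrix.SpecialLinearGroup (Fin 2) (ZMod 3)) = 24 ∧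
    Nat.card (Subgroup.center (Matrix.SpecialLinearGroup (Fin 2) (ZMod 3))) = 2 ∧
    Nat.card (commutator (Matrix.SpecialLinearGroup (Fin 2) (ZMod 3))) = 8 ∧
    Nonempty (commutator (Matrix.SpecialLinearGroup (Fin 2) (ZMod 3)) ≃* QuaternionGroup 2) ∧
    (∀ P : Sylow 3 (Matrix.SpecialLinearGroup (Fin 2) (ZMod 3)),
      Subgroup.IsComplement' (commutator (Matrix.SpecialLinearGroup (Fin 2) (ZMod 3)))
        (P : Subgroup (Matrix.SpecialLinearGroup (Fin 2) (ZMod 3)))) ∧
    ∀ N : Subgroup (Matrix.SpecialLinearGroup (Fin 2) (ZMod 3)), N.Normal →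
      N = ⊥ ∨ N = ⊤ ∨ N = Subgroup.center (Matrix.SpecialLinearGroup (Fin 2) (ZMod 3)) ∨
        N = commutator (Matrix.SpecialLinearGroup (Fin 2) (ZMod 3)) := by
  classical
  obtain ⟨⟨Q, hQn, hQi, ⟨e⟩⟩, hZ⟩ := Cfsg.Agent.S0257.result (F := ZMod 3) (ZMod.card 3)
  have hQc : Nat.card Q = 8 := by
    rw [Nat.card_congr e.toEquiv, Nat.card_eq_fintype_card, QuaternionGroup.card]
  have hG : Nat.card G = 24 := by rw [Nat.card_eq_fintype_card]; exact d0
  have hcomm : ∀ a b : G, a * b * a⁻¹ * b⁻¹ ∈ commutator G := by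
    intro a b
    rw [commutator_def]
    exact Subgroup.commutator_mem_commutator (Subgroup.mem_top a) (Subgroup.mem_top b)
  have hle : commutator G ≤ Q := by
    haveI := hQn
    have h3 : Nat.card (G ⧸ Q) = 3 := hQi
    haveI : Fact (Nat.Prime 3) := ⟨by norm_num⟩
    haveI : IsCyclic (G ⧸ Q) := isCyclic_of_prime_card h3
    letI : CommGroup (G ⧸ Q) := IsCyclic.commGroup
    have := Abelianization.commutator_subset_ker (QuotientGroup.mk' Q)
    rwa [QuotientGroup.ker_mk'] at this
  have hpow : ∀ x ∈ commutator G, x ^ 4 = 1 := by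
    intro x hx
    apply d3
    have h1 : (⟨x, hle hx⟩ : Q) ^ Nat.card Q = 1 := pow_card_eq_one'
    rw [hQc] at h1
    exact congrArg Subtype.val h1
  have hcn : (commutator G).Normal := inferInstance
  have hC : Nat.card (commutator G) = 8 := by
    apply eight_of
    · rw [← hQc]; exact Subgroup.card_dvd_of_le hle
    · exact five_le _ hcn _ (hcomm tt ss) (hpow _ (hcomm tt ss)) (d5 ss d7.1 d7.2)
  have hCQ : commutator G = Q := Subgroup.eq_of_le_of_card_ge hle (by rw [hQc, hC])
  refine ⟨hG, hZ, hC, ⟨(MulEquiv.subgroupCongr hCQ).trans e⟩, ?_, ?_⟩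
  · intro P
    haveI : Fact (Nat.Prime 3) := ⟨by norm_num⟩
    have hP : Nat.card (P : Subgroup G) = 3 := by
      have h1 := Sylow.card_eq_multiplicity P
      rw [hG] at h1
      rw [h1]
      decide +kernel
    apply Subgroup.isComplement'_of_coprime
    · rw [hC, hP, hG]
    · rw [hC, hP]; decide
  · intro N hN
    by_cases h1 : ∀ g ∈ N, g ^ 2 = 1
    · by_cases hb : N = ⊥
      · exact Or.inl hb
      · right; right; left
        apply Subgroup.eq_of_le_of_card_ge
        · intro g hg
          rcases d1 g (h1 g hg) with rfl | rfl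
          · exact Subgroup.one_mem _
          · rw [Subgroup.mem_center_iff]; exact d2
        · rw [hZ]
          exact (Subgroup.one_lt_card_iff_ne_bot N).mpr hb
    · push Not at h1
      obtain ⟨g, hg, hg2⟩ := h1
      have key : ∃ h ∈ N ⊓ commutator G, h ^ 2 ≠ 1 := by
        by_cases h4 : g ^ 4 = 1
        · refine ⟨tt * g * tt⁻¹ * g⁻¹, ⟨?_, hcomm tt g⟩, d5 g h4 hg2⟩
          exact N.mul_mem (hN.conj_mem g hg tt) (N.inv_mem hg)
        · refine ⟨g * ss * g⁻¹ * ss⁻¹, ⟨?_, hcomm g ss⟩, d4 g h4⟩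
          have : g * ss * g⁻¹ * ss⁻¹ = g * (ss * g⁻¹ * ss⁻¹) := by simp only [mul_assoc]
          rw [this]
          exact N.mul_mem hg (hN.conj_mem g⁻¹ (N.inv_mem hg) ss)
      obtain ⟨h, hh, hh2⟩ := key
      have hMn : (N ⊓ commutator G).Normal := Subgroup.normal_inf_normal N (commutator G)
      have h5 := five_le _ hMn h hh (hpow h hh.2) hh2
      have h8 : Nat.card (N ⊓ commutator G : Subgroup G) = 8 := by
        apply eight_of _ _ h5
        rw [← hC]; exact Subgroup.card_dvd_of_le inf_le_right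
      have hM : N ⊓ commutator G = commutator G :=
        Subgroup.eq_of_le_of_card_ge inf_le_right (by rw [h8, hC])
      have hCN : commutator G ≤ N := by rw [← hM]; exact inf_le_left
      have hd1 : 8 ∣ Nat.card N := by rw [← hC]; exact Subgroup.card_dvd_of_le hCN
      have hd2 : Nat.card N ∣ 24 := by rw [← hG]; exact Subgroup.card_subgroup_dvd_card N
      have hN' : Nat.card N = 8 ∨ Nat.card N = 24 := by
        obtain ⟨k, hk⟩ := hd1
        rw [hk] at hd2 ⊢
        have hk3 : k ∣ 3 := by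
          have : 8 * k ∣ 8 * 3 := hd2
          exact (Nat.mul_dvd_mul_iff_left (by norm_num)).mp this
        rcases (Nat.dvd_prime (by norm_num : Nat.Prime 3)).mp hk3 with rfl | rfl
        · left; rfl
        · right; rfl
      rcases hN' with h | h
      · right; right; right
        exact (Subgroup.eq_of_le_of_card_ge hCN (by rw [h, hC])).symm
      · right; left
        rw [← Subgroup.card_eq_iff_eq_top, h, hG]

end Cfsg.Agent.S2427
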