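import Cfsg.Statements.S2433
import Mathlib
import Cfsg.Agent.Lib_helper8_IndB

set_option autoImplicit false
open Cfsg

namespace Cfsg.Agent.S2433

section Aux
open Matrix

variable {F : Type*} [Field F] [Fintype F] [DecidableEq F]

local notation "SL2" => SpecialLinearGroup (Fin 2) F
local notation "M2" => Matrix (Fin 2) (Fin 2) F

theorem main (α : MulChar F ℂ) (g : SL2) :
    ((g : M2) 0 1 = 0 → (g : M2) 1 0 = 0 → (g : M2) 0 0 ^ 2 ≠ 1 →
      (Cfsg.indFun ((Cfsg.upperTriangularGL 2 F).comap Matrix.SpecialLinearGroup.toGL)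
        (fun b => α (((b : SL2) : M2) 0 0))) g = α ((g : M2) 0 0) + α ((g : M2) 1 1)) ∧
    ((∀ (c : F) (v : Fin 2 → F), v ≠ 0 → (g : M2).mulVec v ≠ c • v) →
      (Cfsg.indFun ((Cfsg.upperTriangularGL 2 F).comap Matrix.SpecialLinearGroup.toGL)
        (fun b => α (((b : SL2) : M2) 0 0))) g = 0) ∧
    ((g : M2) 1 0 = 0 → (g : M2) 0 0 = (g : M2) 1 1 → (g : M2) 0 1 ≠ 0 →
      (Cfsg.indFun ((Cfsg.upperTriangularGL 2 F).comap Matrix.SpecialLinearGroup.toGL)
        (fun b => α (((b : SL2) : M2) 0 0))) g = α ((g : M2) 0 0)) ∧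
    ((g : M2) 0 1 = 0 → (g : M2) 1 0 = 0 → (g : M2) 0 0 = (g : M2) 1 1 →
      (Cfsg.indFun ((Cfsg.upperTriangularGL 2 F).comap Matrix.SpecialLinearGroup.toGL)
        (fun b => α (((b : SL2) : M2) 0 0))) g = ((Fintype.card F : ℂ) + 1) * α ((g : M2) 0 0)) := by
  have hm : Cfsg.indFun ((Cfsg.upperTriangularGL 2 F).comap Matrix.SpecialLinearGroup.toGL)
        (fun b => α (((b : SL2) : M2) 0 0)) g =
      (if (g : M2) 1 0 = 0 then α ((g : M2) 0 0) else 0) +
      ∑ t : F, (if (g : M2) 1 0 * t ^ 2 + ((g : M2) 1 1 - (g : M2) 0 0) * t - (g : M2) 0 1 = 0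
        then α ((g : M2) 1 0 * t + (g : M2) 1 1) else 0) :=
    Cfsg.Agent.Lib_helper8_IndB.ind_SL2_psi (fun u => α u) g
  have hd := Cfsg.Agent.Lib_helper4_SL2Quat.det_eq g
  refine ⟨?_, ?_, ?_, ?_⟩
  · intro h01 h10 hsq
    rw [hm, if_pos h10]
    congr 1
    rw [Finset.sum_eq_single 0]
    · rw [if_pos (by rw [h10, h01]; ring), h10, zero_mul, zero_add]
    · intro t _ ht
      rw [if_neg]
      rw [h10, h01]
      intro h
      have h' : ((g : M2) 1 1 - (g : M2) 0 0) * t = 0 := by linear_combination h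
      rcases mul_eq_zero.mp h' with h1 | h1
      · apply hsq
        rw [h10] at hd
        have h2 : (g : M2) 1 1 = (g : M2) 0 0 := by linear_combination h1
        rw [h2] at hd
        linear_combination hd
      · exact ht h1
    · intro h
      exact absurd (Finset.mem_univ _) h
  · intro hne
    rw [hm]
    have h10 : (g : M2) 1 0 ≠ 0 := by
      intro h
      apply hne ((g : M2) 0 0) ![1, 0]
      · intro h0
        have := congrFun h0 0
        simp at this
      · funext i
        fin_cases i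
        · simp [Matrix.mulVec, dotProduct, Fin.sum_univ_two]
        · simp [Matrix.mulVec, dotProduct, Fin.sum_univ_two, h]
    rw [if_neg h10, zero_add]
    apply Finset.sum_eq_zero
    intro t _
    rw [if_neg]
    intro h
    apply hne ((g : M2) 1 0 * t + (g : M2) 1 1) ![t, 1]
    · intro h0
      have := congrFun h0 1
      simp at this
    · funext i
      fin_cases i
      · simp [Matrix.mulVec, dotProduct, Fin.sum_univ_two]
        linear_combination -h
      · simp [Matrix.mulVec, dotProduct, Fin.sum_univ_two]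
  · intro h10 h0011 h01
    rw [hm, if_pos h10]
    have hs : ∑ t : F, (if (g : M2) 1 0 * t ^ 2 + ((g : M2) 1 1 - (g : M2) 0 0) * t - (g : M2) 0 1 = 0
        then α ((g : M2) 1 0 * t + (g : M2) 1 1) else 0) = 0 := by
      apply Finset.sum_eq_zero
      intro t _
      rw [if_neg]
      rw [h10, h0011]
      intro h
      apply h01
      linear_combination -h
    rw [hs, add_zero]
  · intro h01 h10 h0011
    rw [hm, if_pos h10]
    have ht : ∀ t : F, (if (g : M2) 1 0 * t ^ 2 + ((g : M2) 1 1 - (g : M2) 0 0) * t - (g : M2) 0 1 = 0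
        then α ((g : M2) 1 0 * t + (g : M2) 1 1) else 0) = α ((g : M2) 0 0) := by
      intro t
      rw [if_pos (by rw [h10, h01, h0011]; ring), h10, zero_mul, zero_add, h0011]
    rw [Finset.sum_congr rfl (fun t _ => ht t), Finset.sum_const, Finset.card_univ, nsmul_eq_mul]
    ring

end Aux

/-- Let F be a finite field with q elements, q odd, α a multiplicative character of F, and R(α) the function on SL₂ induced from the linear character b ↦ α(b₁₁) of the upper triangular subgroup. Then R(α) takes the value α(a) + α(a⁻¹) at a diagonal element with entries a, a⁻¹, a² ≠ 1; the value 0 at every element with no eigenvector in F²; the value α(ε) at an upper triangular element with both diagonal entries ε and non-zero upper right entry; and the value (q + 1)α(ε) at the scalar element ε (ε = ±1). -/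
theorem result {F : Type*} [Field F] [Fintype F] [DecidableEq F] (hodd : Odd (Fintype.card F)) (α : MulChar F ℂ) (g : Matrix.SpecialLinearGroup (Fin 2) F) :
    ((g : Matrix (Fin 2) (Fin 2) F) 0 1 = 0 → (g : Matrix (Fin 2) (Fin 2) F) 1 0 = 0 → (g : Matrix (Fin 2) (Fin 2) F) 0 0 ^ 2 ≠ 1 →
      (Cfsg.indFun ((Cfsg.upperTriangularGL 2 F).comap Matrix.SpecialLinearGroup.toGL) (fun b => α (((b : Matrix.SpecialLinearGroup (Fin 2) F) : Matrix (Fin 2) (Fin 2) F) 0 0))) g = α ((g : Matrix (Fin 2) (Fin 2) F) 0 0) + α ((g : Matrix (Fin 2) (Fin 2) F) 1 1)) ∧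
    ((∀ (c : F) (v : Fin 2 → F), v ≠ 0 → (g : Matrix (Fin 2) (Fin 2) F).mulVec v ≠ c • v) → (Cfsg.indFun ((Cfsg.upperTriangularGL 2 F).comap Matrix.SpecialLinearGroup.toGL) (fun b => α (((b : Matrix.SpecialLinearGroup (Fin 2) F) : Matrix (Fin 2) (Fin 2) F) 0 0))) g = 0) ∧
    ((g : Matrix (Fin 2) (Fin 2) F) 1 0 = 0 → (g : Matrix (Fin 2) (Fin 2) F) 0 0 = (g : Matrix (Fin 2) (Fin 2) F) 1 1 → (g : Matrix (Fin 2) (Fin 2) F) 0 1 ≠ 0 →
      (Cfsg.indFun ((Cfsg.upperTriangularGL 2 F).comap Matrix.SpecialLinearGroup.toGL) (fun b => α (((b : Matrix.SpecialLinearGroup (Fin 2) F) : Matrix (Fin 2) (Fin 2) F) 0 0))) g = α ((g : Matrix (Fin 2) (Fin 2) F) 0 0)) ∧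
    ((g : Matrix (Fin 2) (Fin 2) F) 0 1 = 0 → (g : Matrix (Fin 2) (Fin 2) F) 1 0 = 0 → (g : Matrix (Fin 2) (Fin 2) F) 0 0 = (g : Matrix (Fin 2) (Fin 2) F) 1 1 →
      (Cfsg.indFun ((Cfsg.upperTriangularGL 2 F).comap Matrix.SpecialLinearGroup.toGL) (fun b => α (((b : Matrix.SpecialLinearGroup (Fin 2) F) : Matrix (Fin 2) (Fin 2) F) 0 0))) g = ((Fintype.card F : ℂ) + 1) * α ((g : Matrix (Fin 2) (Fin 2) F) 0 0)) := by
  exact main α g

end Cfsg.Agent.S2433
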