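import Cfsg.Statements.S2437
import Mathlib
import Cfsg.Agent.Lib_helper8_SL2Conj
import Cfsg.Agent.Lib_helper8_SSCount

set_option autoImplicit false
open Cfsg

namespace Cfsg.Agent.S2437

section Aux
open Matrix Cfsg.Agent.Lib_helper8_IndB Cfsg.Agent.Lib_helper8_SL2Conj
open Cfsg.Agent.Lib_helper8_SSCount Cfsg.Agent.Lib_helper4_SL2Quat

variable {F : Type*} [Field F]

local notation "S2" => Matrix.SpecialLinearGroup (Fin 2) F
local notation "M2" => Matrix (Fin 2) (Fin 2) F
local notation "BS" => (Subgroup.comap Matrix.SpecialLinearGroup.toGL (Cfsg.upperTriangularGL 2 F))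

open Classical in
/-- The complete conjugacy invariant of the Borel subgroup of `SL_2`. -/
noncomputable def Jb (g : BS) : F × Bool × Bool :=
  if ((g : S2) : M2) 0 0 ^ 2 = 1 then
    (((g : S2) : M2) 0 0, decide (((g : S2) : M2) 0 1 = 0), decide (IsSquare (((g : S2) : M2) 0 1)))
  else (((g : S2) : M2) 0 0, false, false)

/-- The range of the invariant. -/
def Qb (a : F × Bool × Bool) : Prop :=
  a.1 ≠ 0 ∧ ((a.1 ^ 2 ≠ 1 ∧ a.2.1 = false ∧ a.2.2 = false) ∨
    (a.1 ^ 2 = 1 ∧ ¬ (a.2.1 = true ∧ a.2.2 = false)))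

theorem bs_mul_entries (g h : BS) (i j : Fin 2) :
    (((g * h : BS) : S2) : M2) i j = ((g : S2) : M2) i 0 * ((h : S2) : M2) 0 j +
      ((g : S2) : M2) i 1 * ((h : S2) : M2) 1 j := by
  rw [Subgroup.coe_mul, mul_entries]

theorem bs_ext (g h : BS) (h00 : ((g : S2) : M2) 0 0 = ((h : S2) : M2) 0 0)
    (h01 : ((g : S2) : M2) 0 1 = ((h : S2) : M2) 0 1) : g = h := by
  apply Subtype.ext
  have d1 := BS_det g
  have d2 := BS_det h
  apply ext2
  · exact h00
  · exact h01
  · rw [BS_entry g, BS_entry h]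
  · have h0 := BS_00_ne g
    apply mul_left_cancel₀ h0
    rw [d1, h00, d2]

theorem bs_11_of_sq (g : BS) (h : ((g : S2) : M2) 0 0 ^ 2 = 1) :
    ((g : S2) : M2) 1 1 = ((g : S2) : M2) 0 0 := by
  have d1 := BS_det g
  have h0 := BS_00_ne g
  apply mul_left_cancel₀ h0
  rw [d1, ← pow_two, h]

theorem Jb_fst (g : BS) : (Jb g).1 = ((g : S2) : M2) 0 0 := by
  unfold Jb
  split_ifs <;> rfl

theorem Jb_isConj (g h : BS) (hc : IsConj g h) : Jb g = Jb h := by
  classical
  obtain ⟨R, hR⟩ := isConj_iff.mp hc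
  rw [mul_inv_eq_iff_eq_mul] at hR
  have k00 := congrArg (fun x : BS => ((x : S2) : M2) 0 0) hR
  have k01 := congrArg (fun x : BS => ((x : S2) : M2) 0 1) hR
  simp only [bs_mul_entries, BS_entry] at k00 k01
  have r0 := BS_00_ne R
  have rd := BS_det R
  have e00 : ((g : S2) : M2) 0 0 = ((h : S2) : M2) 0 0 := by
    apply mul_left_cancel₀ r0
    linear_combination k00
  unfold Jb
  by_cases h1 : ((g : S2) : M2) 0 0 ^ 2 = 1
  · have h1' : ((h : S2) : M2) 0 0 ^ 2 = 1 := e00 ▸ h1
    rw [if_pos h1, if_pos h1']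
    have g11 := bs_11_of_sq g h1
    have h11 := bs_11_of_sq h h1'
    rw [g11] at k01
    have key : ((h : S2) : M2) 0 1 = ((R : S2) : M2) 0 0 ^ 2 * ((g : S2) : M2) 0 1 := by
      linear_combination (-((R : S2) : M2) 0 0) * k01 - ((h : S2) : M2) 0 1 * rd +
        ((R : S2) : M2) 0 0 * ((R : S2) : M2) 0 1 * e00
    have key' : ((g : S2) : M2) 0 1 = ((R : S2) : M2) 1 1 ^ 2 * ((h : S2) : M2) 0 1 := by
      rw [key]
      linear_combination (-(((R : S2) : M2) 0 0 * ((R : S2) : M2) 1 1 + 1) *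
        ((g : S2) : M2) 0 1) * rd
    refine Prod.ext e00 (Prod.ext ?_ ?_)
    · apply decide_eq_decide.mpr
      constructor
      · intro hz
        rw [key, hz, mul_zero]
      · intro hz
        rw [key', hz, mul_zero]
    · apply decide_eq_decide.mpr
      constructor
      · rintro ⟨s, hs⟩
        exact ⟨((R : S2) : M2) 0 0 * s, by rw [key, hs]; ring⟩
      · rintro ⟨s, hs⟩
        exact ⟨((R : S2) : M2) 1 1 * s, by rw [key', hs]; ring⟩
  · have h1' : ¬ ((h : S2) : M2) 0 0 ^ 2 = 1 := e00 ▸ h1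
    rw [if_neg h1, if_neg h1']
    exact Prod.ext e00 rfl

theorem Jb_inj [Fintype F] [DecidableEq F] (g h : BS) (e : Jb g = Jb h) : IsConj g h := by
  classical
  have e00 : ((g : S2) : M2) 0 0 = ((h : S2) : M2) 0 0 := by
    rw [← Jb_fst g, ← Jb_fst h, e]
  have dg := BS_det g
  have dh := BS_det h
  have g0 := BS_00_ne g
  have e11 : ((g : S2) : M2) 1 1 = ((h : S2) : M2) 1 1 := by
    apply mul_left_cancel₀ g0
    rw [dg, e00, dh]
  by_cases h1 : ((g : S2) : M2) 0 0 ^ 2 = 1
  · have h1' : ((h : S2) : M2) 0 0 ^ 2 = 1 := e00 ▸ h1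
    unfold Jb at e
    rw [if_pos h1, if_pos h1'] at e
    have e1' : ((g : S2) : M2) 0 1 = 0 ↔ ((h : S2) : M2) 0 1 = 0 := by
      have e1 := congrArg (fun a => a.2.1) e
      exact decide_eq_decide.mp e1
    have e2' : IsSquare (((g : S2) : M2) 0 1) ↔ IsSquare (((h : S2) : M2) 0 1) := by
      have e2 := congrArg (fun a => a.2.2) e
      exact decide_eq_decide.mp e2
    by_cases hz : ((g : S2) : M2) 0 1 = 0
    · have hz' := e1'.mp hz
      have : g = h := bs_ext g h e00 (by rw [hz, hz'])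
      rw [this]
    · have hz' : ((h : S2) : M2) 0 1 ≠ 0 := fun hh => hz (e1'.mpr hh)
      have hsq : IsSquare (((g : S2) : M2) 0 1 * ((h : S2) : M2) 0 1) := by
        by_cases hs : IsSquare (((g : S2) : M2) 0 1)
        · exact hs.mul (e2'.mp hs)
        · exact isSquare_mul_of_not hs (fun hh => hs (e2'.mpr hh))
      obtain ⟨s, hs⟩ := hsq
      have hs0 : s ≠ 0 := by
        rintro rfl
        rw [mul_zero] at hs
        exact mul_ne_zero hz hz' hs
      have ht0 : s / ((g : S2) : M2) 0 1 ≠ 0 := div_ne_zero hs0 hz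
      rw [isConj_iff]
      refine ⟨eBS (Units.mk0 _ ht0, 0), ?_⟩
      rw [mul_inv_eq_iff_eq_mul]
      have r00 : (((eBS (Units.mk0 _ ht0, (0 : F)) : BS) : S2) : M2) 0 0 =
          s / ((g : S2) : M2) 0 1 := rfl
      have r01 : (((eBS (Units.mk0 _ ht0, (0 : F)) : BS) : S2) : M2) 0 1 = 0 := rfl
      have r10 : (((eBS (Units.mk0 _ ht0, (0 : F)) : BS) : S2) : M2) 1 0 = 0 := rfl
      apply bs_ext
      · rw [bs_mul_entries, bs_mul_entries, r00, r01, r10, BS_entry g, e00]
        ring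
      · rw [bs_mul_entries, bs_mul_entries, r00, r01]
        have r11 : (((eBS (Units.mk0 _ ht0, (0 : F)) : BS) : S2) : M2) 1 1 =
            (s / ((g : S2) : M2) 0 1)⁻¹ := by
          show (((Units.mk0 _ ht0)⁻¹ : Fˣ) : F) = _
          rw [Units.val_inv_eq_inv_val, Units.val_mk0]
        rw [r11]
        field_simp
        linear_combination -hs
  · have h1' : ¬ ((h : S2) : M2) 0 0 ^ 2 = 1 := e00 ▸ h1
    have hne : ((g : S2) : M2) 1 1 - ((g : S2) : M2) 0 0 ≠ 0 := by
      intro hh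
      apply h1
      have : ((g : S2) : M2) 1 1 = ((g : S2) : M2) 0 0 := sub_eq_zero.mp hh
      rw [this] at dg
      rw [pow_two]
      exact dg
    rw [isConj_iff]
    refine ⟨eBS (1, (((h : S2) : M2) 0 1 - ((g : S2) : M2) 0 1) /
      (((g : S2) : M2) 1 1 - ((g : S2) : M2) 0 0)), ?_⟩
    rw [mul_inv_eq_iff_eq_mul]
    have r00 : (((eBS ((1 : Fˣ), (((h : S2) : M2) 0 1 - ((g : S2) : M2) 0 1) /
      (((g : S2) : M2) 1 1 - ((g : S2) : M2) 0 0)) : BS) : S2) : M2) 0 0 = 1 := rfl
    have r01 : (((eBS ((1 : Fˣ), (((h : S2) : M2) 0 1 - ((g : S2) : M2) 0 1) /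
      (((g : S2) : M2) 1 1 - ((g : S2) : M2) 0 0)) : BS) : S2) : M2) 0 1 =
        (((h : S2) : M2) 0 1 - ((g : S2) : M2) 0 1) /
      (((g : S2) : M2) 1 1 - ((g : S2) : M2) 0 0) := rfl
    have r11 : (((eBS ((1 : Fˣ), (((h : S2) : M2) 0 1 - ((g : S2) : M2) 0 1) /
      (((g : S2) : M2) 1 1 - ((g : S2) : M2) 0 0)) : BS) : S2) : M2) 1 1 = 1 := by
      show (((1 : Fˣ)⁻¹ : Fˣ) : F) = 1
      simp
    have r10 : (((eBS ((1 : Fˣ), (((h : S2) : M2) 0 1 - ((g : S2) : M2) 0 1) /
      (((g : S2) : M2) 1 1 - ((g : S2) : M2) 0 0)) : BS) : S2) : M2) 1 0 = 0 := rfl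
    apply bs_ext
    · rw [bs_mul_entries, bs_mul_entries, r00, r01, r10, BS_entry g, e00]
      ring
    · rw [bs_mul_entries, bs_mul_entries, r00, r01, r11, ← e00]
      field_simp
      ring

theorem Jb_eBS (u : Fˣ) (b : F) [Decidable ((u : F) ^ 2 = 1)] [Decidable (b = 0)]
    [Decidable (IsSquare b)] :
    Jb (eBS (u, b)) = if (u : F) ^ 2 = 1 then ((u : F), decide (b = 0), decide (IsSquare b))
      else ((u : F), false, false) := by
  unfold Jb
  have r00 : (((eBS (u, b) : BS) : S2) : M2) 0 0 = u := rfl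
  have r01 : (((eBS (u, b) : BS) : S2) : M2) 0 1 = b := rfl
  rw [r00, r01]
  by_cases h : (u : F) ^ 2 = 1
  · rw [if_pos h, if_pos h]
    refine Prod.ext rfl (Prod.ext ?_ ?_)
    · exact decide_eq_decide.mpr Iff.rfl
    · exact decide_eq_decide.mpr Iff.rfl
  · rw [if_neg h, if_neg h]

theorem Jb_surj [Fintype F] [DecidableEq F] (h2 : (2 : F) ≠ 0) (a : F × Bool × Bool)
    (ha : Qb a) : ∃ g : BS, Jb g = a := by
  classical
  obtain ⟨t, b1, b2⟩ := a
  obtain ⟨h0, hq⟩ := ha
  simp only at h0 hq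
  rcases hq with ⟨h1, rfl, rfl⟩ | ⟨h1, h3⟩
  · refine ⟨eBS (Units.mk0 t h0, 0), ?_⟩
    rw [Jb_eBS, Units.val_mk0, if_neg h1]
  · have hch : ringChar F ≠ 2 := by
      intro h
      have h3 := ringChar.Nat.cast_ringChar (R := F)
      rw [h] at h3
      exact h2 (by exact_mod_cast h3)
    obtain ⟨n, hn⟩ := FiniteField.exists_nonsquare (F := F) hch
    have hn0 : n ≠ 0 := by
      rintro rfl
      exact hn IsSquare.zero
    cases b1 <;> cases b2
    · refine ⟨eBS (Units.mk0 t h0, n), ?_⟩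
      rw [Jb_eBS, Units.val_mk0, if_pos h1]
      simp [hn0, hn]
    · refine ⟨eBS (Units.mk0 t h0, 1), ?_⟩
      rw [Jb_eBS, Units.val_mk0, if_pos h1]
      simp
    · exact absurd ⟨rfl, rfl⟩ h3
    · refine ⟨eBS (Units.mk0 t h0, 0), ?_⟩
      rw [Jb_eBS, Units.val_mk0, if_pos h1]
      simp

theorem card_sq_one [Fintype F] [DecidableEq F] (h2 : (2 : F) ≠ 0) :
    (Finset.univ.filter (fun t : F => t ^ 2 = 1)).card = 2 := by
  have h : Finset.univ.filter (fun t : F => t ^ 2 = 1) = {1, -1} := by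
    ext t
    rw [Finset.mem_filter, Finset.mem_insert, Finset.mem_singleton]
    constructor
    · rintro ⟨-, h⟩
      have h5 : (t - 1) * (t + 1) = 0 := by linear_combination h
      rcases mul_eq_zero.mp h5 with h6 | h6
      · left; exact sub_eq_zero.mp h6
      · right; linear_combination h6
    · rintro (rfl | rfl)
      · exact ⟨Finset.mem_univ _, by norm_num⟩
      · exact ⟨Finset.mem_univ _, by norm_num⟩
  rw [h, Finset.card_pair]
  intro h5
  have h6 : (2 : F) = 0 := by linear_combination h5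
  exact h2 h6

theorem card_Qb [Fintype F] [DecidableEq F] (h2 : (2 : F) ≠ 0) :
    Nat.card {a : F × Bool × Bool // Qb a} = Fintype.card F + 3 := by
  classical
  rw [Nat.card_eq_fintype_card, Fintype.card_subtype, Finset.card_filter, Fintype.sum_prod_type]
  have h1 : ∀ t : F, (∑ y : Bool × Bool, if Qb (t, y) then 1 else 0) =
      (if t = 0 then 0 else 1) + if t ^ 2 = 1 then 2 else 0 := by
    intro t
    rw [Fintype.sum_prod_type, Fintype.sum_bool, Fintype.sum_bool, Fintype.sum_bool]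
    by_cases h0 : t = 0
    · subst h0
      simp [Qb]
    · by_cases h4 : t ^ 2 = 1
      · simp [Qb, h4, h0]
      · simp [Qb, h4, h0]
  rw [Finset.sum_congr rfl (fun t _ => h1 t), Finset.sum_add_distrib, ← Finset.sum_filter,
    Finset.sum_const, card_sq_one h2]
  have h3 : (∑ t : F, if t = 0 then 0 else 1) = Fintype.card F - 1 := by
    have h4 : ∀ t : F, (if t = 0 then 0 else 1) = 1 - (if t = 0 then 1 else 0) := by
      intro t
      by_cases h0 : t = 0 <;> simp [h0]
    rw [Finset.sum_congr rfl (fun t _ => h4 t)]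
    have h5 : (∑ t : F, (1 - if t = 0 then 1 else 0)) + (∑ t : F, if t = 0 then 1 else 0) =
        Fintype.card F := by
      rw [← Finset.sum_add_distrib]
      have h6 : ∀ t : F, (1 - if t = 0 then 1 else 0) + (if t = 0 then 1 else 0) = 1 := by
        intro t
        by_cases h0 : t = 0 <;> simp [h0]
      rw [Finset.sum_congr rfl (fun t _ => h6 t), Finset.sum_const, Finset.card_univ, smul_eq_mul,
        mul_one]
    rw [Finset.sum_ite_eq' Finset.univ (0 : F) (fun _ => 1), if_pos (Finset.mem_univ _)] at h5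
    omega
  rw [h3]
  have hpos : 0 < Fintype.card F := Fintype.card_pos
  simp only [smul_eq_mul]
  omega

theorem main [Fintype F] (hodd : Odd (Fintype.card F)) :
    Nat.card (ConjClasses BS) = Fintype.card F + 3 := by
  classical
  have h2 : (2 : F) ≠ 0 := by
    have hchar : ringChar F ≠ 2 := by
      intro h
      have h1 := FiniteField.even_card_iff_char_two.mp h
      obtain ⟨m, hm⟩ := hodd
      omega
    exact Ring.two_ne_zero hchar
  have key := card_classes (G := BS) (fun _ => True) (Qb (F := F)) Jb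
    (fun g _ => by
      refine ⟨by rw [Jb_fst]; exact BS_00_ne g, ?_⟩
      unfold Jb
      by_cases h4 : ((g : S2) : M2) 0 0 ^ 2 = 1
      · rw [if_pos h4]
        right
        refine ⟨h4, ?_⟩
        rintro ⟨h5, h6⟩
        simp only [decide_eq_true_eq, decide_eq_false_iff_not] at h5 h6
        exact h6 (h5 ▸ IsSquare.zero)
      · rw [if_neg h4]
        left
        exact ⟨h4, rfl, rfl⟩)
    (fun g h _ _ e => Jb_inj g h e) (fun a ha => by
      obtain ⟨g, hg⟩ := Jb_surj h2 a ha; exact ⟨g, trivial, hg⟩) Jb_isConj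
  have e1 : Nat.card {c : ConjClasses BS // ∃ g : BS, ConjClasses.mk g = c ∧ True} =
      Nat.card (ConjClasses BS) := by
    apply Nat.card_congr
    apply Equiv.subtypeUnivEquiv
    intro c
    obtain ⟨g, hg⟩ := ConjClasses.mk_surjective c
    exact ⟨g, hg, trivial⟩
  rw [← e1, key, card_Qb h2]

end Aux

/-- Over a finite field F with q elements, q odd, the upper triangular subgroup of SL₂ (a Borel subgroup, of order q(q − 1)) has exactly q + 3 conjugacy classes. -/
theorem result {F : Type*} [Field F] [Fintype F] (hodd : Odd (Fintype.card F)) :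
    Nat.card (ConjClasses ((Cfsg.upperTriangularGL 2 F).comap Matrix.SpecialLinearGroup.toGL)) = Fintype.card F + 3 := by
  exact main hodd

end Cfsg.Agent.S2437
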