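import Cfsg.Statements.S2438
import Mathlib
import Cfsg.Agent.Lib_helper8_SL2Cliff

set_option autoImplicit false
open Cfsg

namespace Cfsg.Agent.S2438

/-- Let F be a finite field with q elements, q odd, q ≥ 5, U the upper unitriangular subgroup of SL₂ over F, and χ an irreducible complex character. The sum of the values of χ over U equals 2q, q, 0, q, 0 according as the degree of χ is q + 1, q, q − 1, (q + 1)/2, (q − 1)/2; so among these five degrees the sum vanishes exactly for the degrees q − 1 and (q − 1)/2, i.e. the irreducible characters of those two degrees are the ones whose restriction to U does not contain the trivial character (the cuspidal characters), while those of degree q + 1, q and (q + 1)/2 are not cuspidal. -/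
theorem result {F : Type*} [Field F] [Fintype F] [DecidableEq F] (hodd : Odd (Fintype.card F)) (hq : 5 ≤ Fintype.card F)
    (χ : Matrix.SpecialLinearGroup (Fin 2) F → ℂ) (hχ : Cfsg.IsIrrCharacter (Matrix.SpecialLinearGroup (Fin 2) F) χ) :
    (χ 1 = (Fintype.card F : ℂ) + 1 →
      (∑ g : Matrix.SpecialLinearGroup (Fin 2) F, if (g : Matrix (Fin 2) (Fin 2) F) 1 0 = 0 ∧ (g : Matrix (Fin 2) (Fin 2) F) 0 0 = 1 ∧ (g : Matrix (Fin 2) (Fin 2) F) 1 1 = 1 then χ g else 0) = 2 * (Fintype.card F : ℂ)) ∧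
    (χ 1 = (Fintype.card F : ℂ) →
      (∑ g : Matrix.SpecialLinearGroup (Fin 2) F, if (g : Matrix (Fin 2) (Fin 2) F) 1 0 = 0 ∧ (g : Matrix (Fin 2) (Fin 2) F) 0 0 = 1 ∧ (g : Matrix (Fin 2) (Fin 2) F) 1 1 = 1 then χ g else 0) = (Fintype.card F : ℂ)) ∧
    (χ 1 = (Fintype.card F : ℂ) - 1 →
      (∑ g : Matrix.SpecialLinearGroup (Fin 2) F, if (g : Matrix (Fin 2) (Fin 2) F) 1 0 = 0 ∧ (g : Matrix (Fin 2) (Fin 2) F) 0 0 = 1 ∧ (g : Matrix (Fin 2) (Fin 2) F) 1 1 = 1 then χ g else 0) = 0) ∧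
    (χ 1 = (((Fintype.card F + 1) / 2 : ℕ) : ℂ) →
      (∑ g : Matrix.SpecialLinearGroup (Fin 2) F, if (g : Matrix (Fin 2) (Fin 2) F) 1 0 = 0 ∧ (g : Matrix (Fin 2) (Fin 2) F) 0 0 = 1 ∧ (g : Matrix (Fin 2) (Fin 2) F) 1 1 = 1 then χ g else 0) = (Fintype.card F : ℂ)) ∧
    (χ 1 = (((Fintype.card F - 1) / 2 : ℕ) : ℂ) →
      (∑ g : Matrix.SpecialLinearGroup (Fin 2) F, if (g : Matrix (Fin 2) (Fin 2) F) 1 0 = 0 ∧ (g : Matrix (Fin 2) (Fin 2) F) 0 0 = 1 ∧ (g : Matrix (Fin 2) (Fin 2) F) 1 1 = 1 then χ g else 0) = 0) := by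
  classical
  haveI : Fintype (Matrix.GeneralLinearGroup (Fin 2) F) := Fintype.ofFinite _
  haveI : Fintype (MulChar F ℂ) := Fintype.ofFinite _
  haveI : Finite (Cfsg.IrrCharacter (Matrix.GeneralLinearGroup (Fin 2) F)) :=
    Cfsg.Agent.Lib_helper3_CharBasic.irr_finite
  haveI : Fintype (Cfsg.IrrCharacter (Matrix.GeneralLinearGroup (Fin 2) F)) := Fintype.ofFinite _
  simp only [Cfsg.Agent.Lib_helper8_SL2Cliff.usum_eq]
  obtain ⟨m, hm⟩ := hodd
  have hm2 : 2 ≤ m := by omega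
  have e1 : (Fintype.card F + 1) / 2 = m + 1 := by omega
  have e2 : (Fintype.card F - 1) / 2 = m := by omega
  rw [e1, e2]
  have hq0 : (Fintype.card F : ℂ) = ((2 * m + 1 : ℕ) : ℂ) := by rw [hm]
  have hq1 : (Fintype.card F : ℂ) + 1 = ((2 * m + 2 : ℕ) : ℂ) := by
    rw [hm]
    push_cast
    ring
  have hq2 : (Fintype.card F : ℂ) - 1 = ((2 * m : ℕ) : ℂ) := by
    rw [hm]
    push_cast
    ring
  obtain ⟨U, hU⟩ : ∃ U : ℂ, U = ∑ t : F, χ (Cfsg.Agent.Lib_helper8_SL2Cliff.uS t) := ⟨_, rfl⟩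
  rw [← hU]
  have hUθ : ∀ θ : Matrix.GeneralLinearGroup (Fin 2) F → ℂ,
      Cfsg.IsIrrCharacter (Matrix.GeneralLinearGroup (Fin 2) F) θ →
      (θ 1 = ((1 : ℕ) : ℂ) ∧ ∑ t : F, θ (Matrix.SpecialLinearGroup.toGL
          (Cfsg.Agent.Lib_helper8_SL2Cliff.uS t)) = (Fintype.card F : ℂ)) ∨
      (θ 1 = ((2 * m + 1 : ℕ) : ℂ) ∧ ∑ t : F, θ (Matrix.SpecialLinearGroup.toGL
          (Cfsg.Agent.Lib_helper8_SL2Cliff.uS t)) = (Fintype.card F : ℂ)) ∨
      (θ 1 = ((2 * m + 2 : ℕ) : ℂ) ∧ ∑ t : F, θ (Matrix.SpecialLinearGroup.toGL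
          (Cfsg.Agent.Lib_helper8_SL2Cliff.uS t)) = 2 * (Fintype.card F : ℂ)) ∨
      (θ 1 = ((2 * m : ℕ) : ℂ) ∧ ∑ t : F, θ (Matrix.SpecialLinearGroup.toGL
          (Cfsg.Agent.Lib_helper8_SL2Cliff.uS t)) = 0) := by
    intro θ hθ
    rw [Cfsg.Agent.Lib_helper8_SL2Cliff.usum_theta θ
      (Cfsg.Agent.Lib_helper3_CharBasic.isClassFunction_of_irr hθ)]
    rcases Cfsg.Agent.Lib_helper8_GL2Irr.type_vals' hθ with ⟨h1, hu⟩ | ⟨h1, hu⟩ | ⟨h1, hu⟩ | ⟨h1, hu⟩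
    · left
      exact ⟨by rw [h1]; simp, by rw [h1, hu]; ring⟩
    · right; left
      exact ⟨by rw [h1, hq0], by rw [h1, hu]; ring⟩
    · right; right; left
      exact ⟨by rw [h1, hq1], by rw [h1, hu]; ring⟩
    · right; right; right
      exact ⟨by rw [h1, hq2], by rw [h1, hu]; ring⟩
  have hbig : ∀ d : ℕ, χ 1 = (d : ℂ) → 2 * m + 2 < 2 * d →
      (d = 1 ∧ U = (Fintype.card F : ℂ)) ∨ (d = 2 * m + 1 ∧ U = (Fintype.card F : ℂ)) ∨
      (d = 2 * m + 2 ∧ U = 2 * (Fintype.card F : ℂ)) ∨ (d = 2 * m ∧ U = 0) := by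
    intro d hd hlt
    obtain ⟨θ, hθ, hres⟩ := Cfsg.Agent.Lib_helper8_SL2Res.sl_over_eq hχ d hd (by omega)
    have h5 := hUθ θ hθ
    have h1 : θ 1 = (d : ℂ) := by rw [← hd, ← hres 1, map_one]
    simp only [hres] at h5
    rw [h1, ← hU] at h5
    rcases h5 with ⟨h6, h7⟩ | ⟨h6, h7⟩ | ⟨h6, h7⟩ | ⟨h6, h7⟩
    · exact Or.inl ⟨Nat.cast_injective h6, h7⟩
    · exact Or.inr (Or.inl ⟨Nat.cast_injective h6, h7⟩)
    · exact Or.inr (Or.inr (Or.inl ⟨Nat.cast_injective h6, h7⟩))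
    · exact Or.inr (Or.inr (Or.inr ⟨Nat.cast_injective h6, h7⟩))
  have hsmall : ∀ d : ℕ, χ 1 = (d : ℂ) → ∃ k : ℕ, k ≠ 0 ∧
      ((k * d = 1 ∧ (k : ℂ) * U = (Fintype.card F : ℂ)) ∨
       (k * d = 2 * m + 1 ∧ (k : ℂ) * U = (Fintype.card F : ℂ)) ∨
       (k * d = 2 * m + 2 ∧ (k : ℂ) * U = 2 * (Fintype.card F : ℂ)) ∨
       (k * d = 2 * m ∧ (k : ℂ) * U = 0)) := by
    intro d hd
    obtain ⟨θ, hθ, hne⟩ := Cfsg.Agent.Lib_helper8_SL2Cliff.sl_exists_const hχ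
    obtain ⟨c, T, hc0, hmem, hT, hval, -⟩ :=
      Cfsg.Agent.Lib_helper8_SL2Cliff.sl_clifford_of hθ hχ hne
    have hψ1 : ∀ ψ ∈ T, ψ 1 = χ 1 := by
      intro ψ hψ
      obtain ⟨-, y, hy⟩ := hT ψ hψ
      exact hy 1 1 (by simp)
    have hψU : ∀ ψ ∈ T, ∑ t : F, ψ (Cfsg.Agent.Lib_helper8_SL2Cliff.uS t) = U := by
      intro ψ hψ
      obtain ⟨-, y, hy⟩ := hT ψ hψ
      rw [hU]
      exact Cfsg.Agent.Lib_helper8_SL2Cliff.usum_conj
        (Cfsg.Agent.Lib_helper3_CharBasic.isClassFunction_of_irr hχ) y hy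
    have hθ1 : θ 1 = ((c * T.card * d : ℕ) : ℂ) := by
      have h5 := hval 1
      rw [map_one] at h5
      rw [h5, Finset.sum_congr rfl hψ1, Finset.sum_const, nsmul_eq_mul, hd]
      push_cast
      ring
    have hθU : ∑ t : F, θ (Matrix.SpecialLinearGroup.toGL
        (Cfsg.Agent.Lib_helper8_SL2Cliff.uS t)) = ((c * T.card : ℕ) : ℂ) * U := by
      simp only [hval]
      rw [← Finset.mul_sum, Finset.sum_comm, Finset.sum_congr rfl hψU, Finset.sum_const,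
        nsmul_eq_mul]
      push_cast
      ring
    have hT0 : T.card ≠ 0 := Finset.card_ne_zero_of_mem hmem
    refine ⟨c * T.card, Nat.mul_ne_zero hc0 hT0, ?_⟩
    have h5 := hUθ θ hθ
    rw [hθ1, hθU] at h5
    rcases h5 with ⟨h6, h7⟩ | ⟨h6, h7⟩ | ⟨h6, h7⟩ | ⟨h6, h7⟩
    · exact Or.inl ⟨Nat.cast_injective h6, h7⟩
    · exact Or.inr (Or.inl ⟨Nat.cast_injective h6, h7⟩)
    · exact Or.inr (Or.inr (Or.inl ⟨Nat.cast_injective h6, h7⟩))
    · exact Or.inr (Or.inr (Or.inr ⟨Nat.cast_injective h6, h7⟩))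
  have hUint : IsIntegral ℤ U := by
    rw [hU]
    apply IsIntegral.sum
    intro t _
    exact Cfsg.Agent.Lib_helper3_CharDiag.isCharacter_isIntegral
      (Cfsg.Agent.Lib_helper3_CharBasic.isCharacter_of_irr hχ) _
  refine ⟨?_, ?_, ?_, ?_, ?_⟩
  · intro h
    rcases hbig (2 * m + 2) (h.trans hq1) (by omega) with ⟨h6, h7⟩ | ⟨h6, h7⟩ | ⟨h6, h7⟩ | ⟨h6, h7⟩
    · omega
    · omega
    · exact h7
    · omega
  · intro h
    rcases hbig (2 * m + 1) (h.trans hq0) (by omega) with ⟨h6, h7⟩ | ⟨h6, h7⟩ | ⟨h6, h7⟩ | ⟨h6, h7⟩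
    · omega
    · exact h7
    · omega
    · omega
  · intro h
    rcases hbig (2 * m) (h.trans hq2) (by omega) with ⟨h6, h7⟩ | ⟨h6, h7⟩ | ⟨h6, h7⟩ | ⟨h6, h7⟩
    · omega
    · omega
    · omega
    · exact h7
  · intro h
    obtain ⟨k, hk0, hk⟩ := hsmall (m + 1) h
    have hk2 : k = 2 ∧ (k : ℂ) * U = 2 * (Fintype.card F : ℂ) := by
      rcases Nat.lt_or_ge k 3 with h3 | h3
      · have hk12 : k = 1 ∨ k = 2 := by omega
        rcases hk12 with rfl | rfl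
        · rcases hk with ⟨h6, h7⟩ | ⟨h6, h7⟩ | ⟨h6, h7⟩ | ⟨h6, h7⟩ <;> omega
        · rcases hk with ⟨h6, h7⟩ | ⟨h6, h7⟩ | ⟨h6, h7⟩ | ⟨h6, h7⟩
          · omega
          · omega
          · exact ⟨rfl, h7⟩
          · omega
      · have h8 : 3 * (m + 1) ≤ k * (m + 1) := Nat.mul_le_mul_right (m + 1) h3
        rcases hk with ⟨h6, h7⟩ | ⟨h6, h7⟩ | ⟨h6, h7⟩ | ⟨h6, h7⟩ <;> omega
    obtain ⟨rfl, h7⟩ := hk2
    have h9 : ((2 : ℕ) : ℂ) = 2 := by norm_num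
    rw [h9] at h7
    linear_combination h7 / 2
  · intro h
    obtain ⟨k, hk0, hk⟩ := hsmall m h
    rcases Nat.lt_or_ge k 3 with h3 | h3
    · have hk12 : k = 1 ∨ k = 2 := by omega
      rcases hk12 with rfl | rfl
      · rcases hk with ⟨h6, h7⟩ | ⟨h6, h7⟩ | ⟨h6, h7⟩ | ⟨h6, h7⟩ <;> omega
      · rcases hk with ⟨h6, h7⟩ | ⟨h6, h7⟩ | ⟨h6, h7⟩ | ⟨h6, h7⟩
        · omega
        · omega
        · omega
        · have h9 : ((2 : ℕ) : ℂ) = 2 := by norm_num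
          rw [h9] at h7
          linear_combination h7 / 2
    · have h8 : 3 * m ≤ k * m := Nat.mul_le_mul_right m h3
      rcases hk with ⟨h6, h7⟩ | ⟨h6, h7⟩ | ⟨h6, h7⟩ | ⟨h6, h7⟩
      · omega
      · omega
      · exfalso
        have hm2' : m = 2 := by omega
        subst hm2'
        have hk3 : k = 3 := by omega
        subst hk3
        have hq5 : (Fintype.card F : ℂ) = 5 := by
          rw [hq0]
          norm_num
        rw [hq5] at h7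
        have hUr : U = ((10 / 3 : ℚ) : ℂ) := by
          push_cast
          linear_combination h7 / 3
        obtain ⟨z, hz⟩ := Cfsg.Agent.Lib_helper8_GL2Irr.int_of_rat_integral U _ hUr hUint
        rw [hz] at h7
        have h10 : (3 : ℤ) * z = 10 := by
          have h11 : (((3 * z : ℤ)) : ℂ) = ((10 : ℤ) : ℂ) := by
            push_cast
            linear_combination h7
          exact_mod_cast h11
        omega
      · omega

end Cfsg.Agent.S2438
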