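import Cfsg.Statements.S2532
import Mathlib

set_option autoImplicit false
open Cfsg

namespace Cfsg.Agent.S2532

section Aux

theorem sign_triv {r : ℕ} (ψ : Equiv.Perm (Fin r) →* ℤˣ) (σ : Equiv.Perm (Fin r))
    (hσ : σ ∈ alternatingGroup (Fin r)) : ψ σ = 1 := by
  rw [← Equiv.Perm.closure_three_cycles_eq_alternating] at hσ
  induction hσ using Subgroup.closure_induction with
  | mem c hc =>
    have h3 : c ^ 3 = 1 := by
      have := hc.orderOf
      rw [← this]; exact pow_orderOf_eq_one c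
    have h4 : ψ c ^ 3 = 1 := by rw [← map_pow, h3, map_one]
    have h5 : ψ c ^ 2 = 1 := Int.units_sq _
    calc ψ c = ψ c ^ 3 * (ψ c ^ 2)⁻¹ := by group
      _ = 1 := by rw [h4, h5]; simp
  | one => exact map_one ψ
  | mul a b _ _ ha hb => rw [map_mul, ha, hb, one_mul]
  | inv a _ ha => rw [map_inv, ha, inv_one]

theorem points {m r : ℕ} (L : Subgroup (Equiv.Perm (Fin m)))
    (hm : Nat.card L * 2 ^ Nat.card L * r < m) :
    ∃ x : Fin r → Fin m, (∀ i j, ∀ g ∈ L, g (x i) = x j → i = j) ∧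
      (∀ i j, ∀ g ∈ L, g (x i) = x i → g (x j) = x j) := by
  classical
  haveI : Fintype L := Fintype.ofFinite L
  let Ω := MulAction.orbitRel.Quotient L (Fin m)
  haveI : Fintype Ω := Fintype.ofFinite _
  let rep : Ω → Fin m := fun ω => Quotient.out ω
  have hrep : ∀ ω : Ω, (Quotient.mk'' (rep ω) : Ω) = ω := fun ω => Quotient.out_eq' ω
  let stab : Ω → Set L := fun ω => {g | (g : Equiv.Perm (Fin m)) (rep ω) = rep ω}
  have horb : ∀ (g : L) (y : Fin m), (Quotient.mk'' ((g : Equiv.Perm (Fin m)) y) : Ω) = Quotient.mk'' y := by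
    intro g y
    apply Quotient.sound'
    change MulAction.orbitRel L (Fin m) _ _
    rw [MulAction.orbitRel_apply]
    exact ⟨g, rfl⟩
  have hcard : m ≤ Nat.card L * Fintype.card Ω := by
    have h1 := Finset.card_le_mul_card_image (f := fun y : Fin m => (Quotient.mk'' y : Ω))
      (Finset.univ : Finset (Fin m)) (Nat.card L) ?_
    · simp only [Finset.card_univ, Fintype.card_fin] at h1
      exact h1.trans (Nat.mul_le_mul_left _ (Finset.card_le_univ _))
    · intro ω _
      have hsub : (Finset.univ.filter fun y : Fin m => (Quotient.mk'' y : Ω) = ω) ⊆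
          Finset.univ.image (fun g : L => (g : Equiv.Perm (Fin m)) (rep ω)) := by
        intro y hy
        rw [Finset.mem_filter] at hy
        have h2 : (Quotient.mk'' y : Ω) = Quotient.mk'' (rep ω) := by rw [hrep]; exact hy.2
        have h3 := Quotient.exact' h2
        change MulAction.orbitRel L (Fin m) _ _ at h3
        rw [MulAction.orbitRel_apply] at h3
        obtain ⟨g, hg⟩ := h3
        exact Finset.mem_image.mpr ⟨g, Finset.mem_univ _, hg⟩
      calc _ ≤ (Finset.univ.image (fun g : L => (g : Equiv.Perm (Fin m)) (rep ω))).card :=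
            Finset.card_le_card hsub
        _ ≤ (Finset.univ : Finset L).card := Finset.card_image_le
        _ = Nat.card L := by rw [Finset.card_univ, Nat.card_eq_fintype_card]
  have hn : 0 < Nat.card L := Nat.card_pos
  have hpig : Fintype.card (Set L) * r < Fintype.card Ω := by
    rw [Fintype.card_set, ← Nat.card_eq_fintype_card (α := L)]
    have h1 : Nat.card L * (2 ^ Nat.card L * r) < Nat.card L * Fintype.card Ω := by
      rw [← mul_assoc]; exact lt_of_lt_of_le hm hcard
    exact Nat.lt_of_mul_lt_mul_left h1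
  obtain ⟨S, hS⟩ := Fintype.exists_lt_card_fiber_of_mul_lt_card stab hpig
  have hemb : Nonempty (Fin r ↪ {ω : Ω // stab ω = S}) := by
    apply Function.Embedding.nonempty_of_card_le
    rw [Fintype.card_fin, Fintype.card_subtype]
    exact hS.le
  obtain ⟨e⟩ := hemb
  refine ⟨fun i => rep (e i).1, ?_, ?_⟩
  · intro i j g hg h
    have h1 : (Quotient.mk'' ((g : Equiv.Perm (Fin m)) (rep (e i).1)) : Ω) = Quotient.mk'' (rep (e i).1) :=
      horb ⟨g, hg⟩ _
    rw [h, hrep, hrep] at h1
    exact e.injective (Subtype.ext h1.symm)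
  · intro i j g hg h
    have h1 : (⟨g, hg⟩ : L) ∈ stab (e i).1 := h
    rw [(e i).2, ← (e j).2] at h1
    exact h1

theorem core {m r : ℕ} (L : Subgroup (Equiv.Perm (Fin m)))
    (hm : Nat.card L * 2 ^ Nat.card L * r < m) :
    ∃ φ : Equiv.Perm (Fin r) →* Equiv.Perm (Fin m), Function.Injective φ ∧
      ∀ σ, ∀ g ∈ L, g * φ σ = φ σ * g := by
  classical
  obtain ⟨x, hx1, hx2⟩ := points L hm
  let f : Equiv.Perm (Fin r) → Fin m → Fin m := fun σ y =>
    if h : ∃ p : Equiv.Perm (Fin m) × Fin r, p.1 ∈ L ∧ p.1 (x p.2) = y then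
      (Classical.choose h).1 (x (σ (Classical.choose h).2)) else y
  have P1 : ∀ (σ : Equiv.Perm (Fin r)) (g : Equiv.Perm (Fin m)) (i : Fin r), g ∈ L →
      f σ (g (x i)) = g (x (σ i)) := by
    intro σ g i hg
    have h : ∃ p : Equiv.Perm (Fin m) × Fin r, p.1 ∈ L ∧ p.1 (x p.2) = g (x i) := ⟨(g, i), hg, rfl⟩
    have hf : f σ (g (x i)) = (Classical.choose h).1 (x (σ (Classical.choose h).2)) := dif_pos h
    obtain ⟨hc1, hc2⟩ := Classical.choose_spec h
    rw [hf]
    set g' := (Classical.choose h).1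
    set i' := (Classical.choose h).2
    have h1 : (g⁻¹ * g') (x i') = x i := by
      rw [Equiv.Perm.mul_apply, hc2]; simp
    have hi : i' = i := hx1 i' i _ (L.mul_mem (L.inv_mem hg) hc1) h1
    rw [hi] at h1 ⊢
    have h2 := hx2 i (σ i) _ (L.mul_mem (L.inv_mem hg) hc1) h1
    rw [Equiv.Perm.mul_apply] at h2
    have h3 := congrArg g h2
    simpa using h3
  have P2 : ∀ (σ : Equiv.Perm (Fin r)) (y : Fin m),
      (¬ ∃ p : Equiv.Perm (Fin m) × Fin r, p.1 ∈ L ∧ p.1 (x p.2) = y) → f σ y = y := by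
    intro σ y h
    exact dif_neg h
  have P3 : ∀ (σ τ : Equiv.Perm (Fin r)) (y : Fin m), f σ (f τ y) = f (σ * τ) y := by
    intro σ τ y
    by_cases h : ∃ p : Equiv.Perm (Fin m) × Fin r, p.1 ∈ L ∧ p.1 (x p.2) = y
    · obtain ⟨⟨g, i⟩, hg, rfl⟩ := h
      rw [P1 τ g i hg, P1 σ g _ hg, P1 (σ * τ) g i hg]
      rfl
    · rw [P2 τ y h, P2 σ y h, P2 (σ * τ) y h]
  have P4 : ∀ y : Fin m, f 1 y = y := by
    intro y
    by_cases h : ∃ p : Equiv.Perm (Fin m) × Fin r, p.1 ∈ L ∧ p.1 (x p.2) = y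
    · obtain ⟨⟨g, i⟩, hg, rfl⟩ := h
      rw [P1 1 g i hg]
      rfl
    · exact P2 1 y h
  let π : Equiv.Perm (Fin r) → Equiv.Perm (Fin m) := fun σ =>
    { toFun := f σ
      invFun := f σ⁻¹
      left_inv := fun y => by rw [P3, inv_mul_cancel, P4]
      right_inv := fun y => by rw [P3, mul_inv_cancel, P4] }
  have hπ : ∀ σ y, π σ y = f σ y := fun σ y => rfl
  let φ : Equiv.Perm (Fin r) →* Equiv.Perm (Fin m) :=
    { toFun := π
      map_one' := by
        refine Equiv.ext fun y => ?_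
        rw [hπ, P4]; rfl
      map_mul' := by
        intro σ τ
        refine Equiv.ext fun y => ?_
        rw [Equiv.Perm.mul_apply, hπ, hπ, hπ, P3] }
  have hφ : ∀ σ y, φ σ y = f σ y := fun σ y => rfl
  refine ⟨φ, ?_, ?_⟩
  · intro σ τ hστ
    refine Equiv.ext fun i => ?_
    have h1 : φ σ (x i) = φ τ (x i) := by rw [hστ]
    rw [hφ, hφ] at h1
    have h2 := P1 σ 1 i L.one_mem
    have h3 := P1 τ 1 i L.one_mem
    simp only [Equiv.Perm.coe_one, id_eq] at h2 h3
    rw [h2, h3] at h1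
    have := hx1 (σ i) (τ i) 1 L.one_mem h1
    rw [this]
  · intro σ g hg
    refine Equiv.ext fun y => ?_
    rw [Equiv.Perm.mul_apply, Equiv.Perm.mul_apply, hφ, hφ]
    by_cases h : ∃ p : Equiv.Perm (Fin m) × Fin r, p.1 ∈ L ∧ p.1 (x p.2) = y
    · obtain ⟨⟨g', i⟩, hg', rfl⟩ := h
      change g (f σ (g' (x i))) = f σ (g (g' (x i)))
      rw [P1 σ g' i hg']
      have := P1 σ (g * g') i (L.mul_mem hg hg')
      rw [Equiv.Perm.mul_apply, Equiv.Perm.mul_apply] at this
      rw [this]
    · have h' : ¬ ∃ p : Equiv.Perm (Fin m) × Fin r, p.1 ∈ L ∧ p.1 (x p.2) = g y := by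
        rintro ⟨⟨g', i⟩, hg', hy⟩
        apply h
        refine ⟨(g⁻¹ * g', i), L.mul_mem (L.inv_mem hg) hg', ?_⟩
        change (g⁻¹ * g') (x i) = y
        rw [Equiv.Perm.mul_apply]
        change g' (x i) = g y at hy
        rw [hy]; simp
      rw [P2 σ y h, P2 σ (g y) h']

theorem main :
    ∃ f : ℕ → ℕ → ℕ, ∀ (m r : ℕ) (H : Subgroup ↥(alternatingGroup (Fin m))), f (Nat.card H) r ≤ m →
      ∃ K : Subgroup ↥(alternatingGroup (Fin m)), Nonempty (↥K ≃* ↥(alternatingGroup (Fin r))) ∧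
        K ≤ Subgroup.centralizer (H : Set ↥(alternatingGroup (Fin m))) := by
  refine ⟨fun n r => n * 2 ^ n * r + 1, ?_⟩
  intro m r H hm
  classical
  let L : Subgroup (Equiv.Perm (Fin m)) := H.map (alternatingGroup (Fin m)).subtype
  have hL : Nat.card L = Nat.card H :=
    Nat.card_congr (H.equivMapOfInjective _ (Subgroup.subtype_injective _)).symm.toEquiv
  obtain ⟨φ, hφ, hcomm⟩ := core (r := r) L (by rw [hL]; exact hm)
  have hmem : ∀ σ : alternatingGroup (Fin r), φ σ ∈ alternatingGroup (Fin m) := by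
    intro σ
    rw [Equiv.Perm.mem_alternatingGroup]
    exact sign_triv (Equiv.Perm.sign.comp φ) σ σ.2
  let ψ : alternatingGroup (Fin r) →* alternatingGroup (Fin m) :=
    (φ.comp (alternatingGroup (Fin r)).subtype).codRestrict _ hmem
  have hψ : Function.Injective ψ := by
    intro a b hab
    have h1 : φ a = φ b := congrArg Subtype.val hab
    exact Subtype.ext (hφ h1)
  refine ⟨ψ.range, ⟨(MonoidHom.ofInjective hψ).symm⟩, ?_⟩
  rintro _ ⟨σ, rfl⟩
  rw [Subgroup.mem_centralizer_iff]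
  intro h hh
  apply Subtype.ext
  have h1 := hcomm σ (h : Equiv.Perm (Fin m)) ⟨h, hh, rfl⟩
  exact h1

end Aux

/-- There is a function `f` of two natural-number arguments such that, whenever `m ≥ f(n, r)`, every subgroup of order `n` of the alternating group of degree `m` centralizes some subgroup of that alternating group isomorphic to the alternating group of degree `r`. -/
theorem result :
    ∃ f : ℕ → ℕ → ℕ, ∀ (m r : ℕ) (H : Subgroup ↥(alternatingGroup (Fin m))), f (Nat.card H) r ≤ m →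
      ∃ K : Subgroup ↥(alternatingGroup (Fin m)), Nonempty (↥K ≃* ↥(alternatingGroup (Fin r))) ∧
        K ≤ Subgroup.centralizer (H : Set ↥(alternatingGroup (Fin m))) := by
  exact main

end Cfsg.Agent.S2532
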