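import Cfsg.Statements.S2540
import Cfsg.Agent.Lib_helper8_NormalSL

set_option autoImplicit false
open Cfsg

namespace Cfsg.Agent.S2540

/-- Let F be a finite field and n ≥ 1, excluding the case n = 2 with #F ≤ 3. A subgroup of GL_n(F) that is normalized by every element of SL_n(F) either consists of scalar matrices or contains SL_n(F). -/
theorem result {F : Type*} [Field F] [Fintype F] (n : ℕ) (hn : 1 ≤ n) (hex : ¬ (n = 2 ∧ Fintype.card F ≤ 3)) (G : Subgroup (Matrix.GeneralLinearGroup (Fin n) F)) (hG : ∀ s : Matrix.SpecialLinearGroup (Fin n) F, ∀ g ∈ G, (Matrix.SpecialLinearGroup.toGL s) * g * (Matrix.SpecialLinearGroup.toGL s)⁻¹ ∈ G) : (∀ g ∈ G, ∃ c : F, (g : Matrix (Fin n) (Fin n) F) = c • (1 : Matrix (Fin n) (Fin n) F)) ∨ (Matrix.SpecialLinearGroup.toGL : Matrix.SpecialLinearGroup (Fin n) F →* _).range ≤ G := by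
  classical
  rcases Nat.lt_or_ge n 2 with h1 | h2
  · have hn1 : n = 1 := by omega
    subst hn1
    left
    intro g _
    refine ⟨(g : Matrix (Fin 1) (Fin 1) F) 0 0, ?_⟩
    ext i j
    fin_cases i; fin_cases j; simp
  · have hfield : n = 2 → ∃ a : F, a ≠ 0 ∧ a ^ 2 ≠ 1 := by
      intro hn2
      have hcard : 4 ≤ Fintype.card F := by
        by_contra h
        exact hex ⟨hn2, by omega⟩
      obtain ⟨x, hx⟩ := (isCyclic_iff_exists_orderOf_eq_natCard (α := Fˣ)).mp inferInstance
      have hcu : Nat.card Fˣ = Fintype.card F - 1 := by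
        rw [Nat.card_units, Nat.card_eq_fintype_card]
      refine ⟨(x : F), Units.ne_zero x, fun h => ?_⟩
      have hx2 : x ^ 2 = 1 := Units.ext (by simpa using h)
      have := orderOf_le_of_pow_eq_one (by norm_num) hx2
      omega
    have hperf : commutator (Matrix.SpecialLinearGroup (Fin n) F) = ⊤ := by
      rcases Nat.lt_or_ge n 3 with h3 | h3
      · have hn2 : n = 2 := by omega
        obtain ⟨a, ha, hasq⟩ := hfield hn2
        subst hn2
        exact Matrix.SL2.commutator_eq_top ha hasq
      · exact Lib_helper4_SL.commutator_eq_top (by simpa using h3)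
    have hsimple : IsSimpleGroup (Matrix.SpecialLinearGroup (Fin n) F ⧸ Subgroup.center (Matrix.SpecialLinearGroup (Fin n) F)) := by
      rcases Nat.lt_or_ge n 3 with h3 | h3
      · have hn2 : n = 2 := by omega
        have hcard : 4 ≤ Fintype.card F := by
          by_contra h
          exact hex ⟨hn2, by omega⟩
        subst hn2
        exact Matrix.ProjectiveSpecialLinearGroup.rank_two_simple (by rw [Nat.card_eq_fintype_card]; exact hcard)
      · exact Lib_helper4_PSL.psl_isSimpleGroup (by simpa using h3)
    have hcen : ∀ z ∈ Subgroup.center (Matrix.SpecialLinearGroup (Fin n) F),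
        Matrix.SpecialLinearGroup.toGL z ∈ Subgroup.center (Matrix.GeneralLinearGroup (Fin n) F) := by
      intro z hz
      obtain ⟨r, -, hr⟩ := Matrix.SpecialLinearGroup.mem_center_iff.mp hz
      rw [Matrix.GeneralLinearGroup.mem_center_iff_val_mem_range_scalar]
      exact ⟨r, hr⟩
    have hD : ∀ (s : Matrix.SpecialLinearGroup (Fin n) F) (g : Matrix.GeneralLinearGroup (Fin n) F),
        Matrix.SpecialLinearGroup.toGL s * g * (Matrix.SpecialLinearGroup.toGL s)⁻¹ * g⁻¹
          ∈ (Matrix.SpecialLinearGroup.toGL : Matrix.SpecialLinearGroup (Fin n) F →* _).range := by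
      intro s g
      have hdet : Matrix.GeneralLinearGroup.det
          (Matrix.SpecialLinearGroup.toGL s * g * (Matrix.SpecialLinearGroup.toGL s)⁻¹ * g⁻¹) = 1 := by
        rw [map_mul, map_mul, map_mul, map_inv, map_inv, mul_right_comm _ _ (_)⁻¹,
          mul_inv_cancel_right, mul_inv_cancel]
      have hdet' : ((Matrix.SpecialLinearGroup.toGL s * g * (Matrix.SpecialLinearGroup.toGL s)⁻¹ * g⁻¹ :
          Matrix.GeneralLinearGroup (Fin n) F) : Matrix (Fin n) (Fin n) F).det = 1 := by
        have := congrArg Units.val hdet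
        rw [Matrix.GeneralLinearGroup.val_det_apply, Units.val_one] at this
        exact this
      exact ⟨⟨_, hdet'⟩, Units.ext rfl⟩
    rcases Lib_helper8_NormalSL.centralizes_or_range_le Matrix.SpecialLinearGroup.toGL hperf hsimple
      hcen hD G hG with h | h
    · left
      intro g hg
      have hscal : (g : Matrix (Fin n) (Fin n) F) ∈ Set.range (Matrix.scalar (Fin n)) := by
        apply Matrix.mem_range_scalar_of_commute_transvectionStruct
        intro t
        have h3 := h g hg ⟨t.toMatrix, t.det⟩
        have h4 := congrArg Units.val h3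
        exact h4
      obtain ⟨c, hc⟩ := hscal
      refine ⟨c, ?_⟩
      rw [← hc, Matrix.smul_one_eq_diagonal]
      rfl
    · right
      exact h

end Cfsg.Agent.S2540
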