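import Cfsg.Statements.S2541
-- import your own Cfsg.Agent.* helpers here

set_option autoImplicit false
open Cfsg

namespace Cfsg.Agent.S2541

/-- Let F be a field with 9 elements. The symmetric group S_6 is not isomorphic to PGL_2(F) (although both have index-2 subgroups isomorphic to A_6). -/
theorem result {F : Type*} [Field F] [Fintype F] (hF : Fintype.card F = 9) : ¬ Nonempty (Equiv.Perm (Fin 6) ≃* Matrix.ProjGenLinGroup (Fin 2) F) := by
  classical
  rintro ⟨e⟩
  have h60 : ∀ σ : Equiv.Perm (Fin 6), σ ^ 60 = 1 := by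
    intro σ
    apply orderOf_dvd_iff_pow_eq_one.mp
    rw [← Equiv.Perm.lcm_cycleType]
    apply Multiset.lcm_dvd.mpr
    intro c hc
    have h1 := Equiv.Perm.two_le_of_mem_cycleType hc
    have h2 := Equiv.Perm.le_card_support_of_mem_cycleType hc
    have h3 : σ.support.card ≤ 6 := by
      have := Finset.card_le_univ σ.support
      simpa using this
    have h4 : c ≤ 6 := le_trans h2 h3
    interval_cases c <;> norm_num
  have hP : ∀ x : Matrix.ProjGenLinGroup (Fin 2) F, x ^ 60 = 1 := by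
    intro x
    have h1 := congrArg e (h60 (e.symm x))
    rwa [map_pow, e.apply_symm_apply, map_one] at h1
  obtain ⟨ω, hω⟩ := (isCyclic_iff_exists_orderOf_eq_natCard (α := Fˣ)).mp inferInstance
  have hcard : Nat.card Fˣ = 8 := by
    rw [Nat.card_units, Nat.card_eq_fintype_card, hF]
  rw [hcard] at hω
  obtain ⟨g, hg⟩ : ∃ g : GL (Fin 2) F,
      (g : Matrix (Fin 2) (Fin 2) F) = Matrix.diagonal ![(ω : F), 1] :=
    ⟨Matrix.GeneralLinearGroup.mkOfDetNeZero (Matrix.diagonal ![(ω : F), 1])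
      (by simp [Matrix.det_diagonal, Fin.prod_univ_two]), rfl⟩
  obtain ⟨u, hu⟩ : ∃ u : GL (Fin 2) F, (u : Matrix (Fin 2) (Fin 2) F) = !![1, 1; 0, 1] :=
    ⟨Matrix.GeneralLinearGroup.mkOfDetNeZero !![1, 1; 0, 1] (by simp [Matrix.det_fin_two]), rfl⟩
  have h1 := hP (Matrix.ProjGenLinGroup.mk g)
  rw [← map_pow, Matrix.ProjGenLinGroup.mk_eq_one, Subgroup.mem_center_iff] at h1
  have h2 := congrArg Units.val (h1 u)
  rw [Units.val_mul, Units.val_mul, Units.val_pow_eq_pow_val, hg, hu, Matrix.diagonal_pow] at h2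
  have h3 := congrFun (congrFun h2 0) 1
  simp [Matrix.mul_apply, Fin.sum_univ_two, Matrix.diagonal] at h3
  have h4 : ω ^ 60 = 1 := by
    apply Units.ext
    rw [Units.val_pow_eq_pow_val, Units.val_one]
    exact h3.symm
  have h5 := orderOf_dvd_of_pow_eq_one h4
  rw [hω] at h5
  omega

end Cfsg.Agent.S2541
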