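import Cfsg.Statements.S2550
import Cfsg.Agent.Lib_helper8_Transv
import Cfsg.Agent.Lib_helper4_Card

set_option autoImplicit false
open Cfsg

namespace Cfsg.Agent.S2550

/-- Let F be a field with 2 elements and K a field with 4 elements. PSL_4(F) and PSL_3(K) have the same order (20160) but are not isomorphic. -/
theorem result {F K : Type*} [Field F] [Fintype F] [Field K] [Fintype K] (hF : Fintype.card F = 2) (hK : Fintype.card K = 4) : Nat.card (Matrix.ProjectiveSpecialLinearGroup (Fin 4) F) = Nat.card (Matrix.ProjectiveSpecialLinearGroup (Fin 3) K) ∧ ¬ Nonempty (Matrix.ProjectiveSpecialLinearGroup (Fin 4) F ≃* Matrix.ProjectiveSpecialLinearGroup (Fin 3) K) := by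
  constructor
  · have h1 := Cfsg.Agent.Lib_helper4_Card.card_PSL hF 4 (by norm_num)
    have h2 := Cfsg.Agent.Lib_helper4_Card.card_PSL hK 3 (by norm_num)
    rw [Fin.prod_univ_four] at h1
    rw [Fin.prod_univ_three] at h2
    norm_num at h1 h2
    omega
  · classical
    rintro ⟨e⟩
    -- Claim A: all involutions of PSL₃(4) are conjugate
    have h2K : (2 : K) = 0 := by
      have h4 : ((Fintype.card K : ℕ) : K) = 0 := FiniteField.cast_card_eq_zero K
      rw [hK] at h4
      have : (2 : K) * 2 = 0 := by
        have e4 : (2 : K) * 2 = ((4 : ℕ) : K) := by norm_num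
        rw [e4, h4]
      exact mul_self_eq_zero.mp this
    have hsqK : ∀ M : Matrix (Fin 3) (Fin 3) K, M * M = 1 → (M - 1) * (M - 1) = 0 := by
      intro M hM
      have h1 : (M - 1) * (M - 1) = M * M - (2 : K) • M + 1 := by
        rw [Matrix.sub_mul, Matrix.mul_sub, Matrix.mul_sub, Matrix.mul_one, Matrix.one_mul,
          Matrix.mul_one, two_smul]
        abel
      rw [h1, hM, h2K, zero_smul, sub_zero]
      have h2 : (1 : Matrix (Fin 3) (Fin 3) K) + 1 = (2 : K) • (1 : Matrix (Fin 3) (Fin 3) K) := by
        rw [two_smul]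
      rw [h2, h2K, zero_smul]
    have key : ∀ x : Matrix.ProjectiveSpecialLinearGroup (Fin 3) K, orderOf x = 2 →
        ∃ u : Matrix.SpecialLinearGroup (Fin 3) K,
          (QuotientGroup.mk u : Matrix.ProjectiveSpecialLinearGroup (Fin 3) K) = x ∧
          Cfsg.IsTransvection (u : Matrix (Fin 3) (Fin 3) K) := by
      intro x hx
      obtain ⟨u, rfl⟩ := QuotientGroup.mk_surjective x
      have hx2 : (QuotientGroup.mk u : Matrix.ProjectiveSpecialLinearGroup (Fin 3) K) ^ 2 = 1 := by
        rw [← hx]; exact pow_orderOf_eq_one _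
      have hx1 : (QuotientGroup.mk u : Matrix.ProjectiveSpecialLinearGroup (Fin 3) K) ≠ 1 := by
        intro h
        rw [h, orderOf_one] at hx
        omega
      rw [← QuotientGroup.mk_pow, QuotientGroup.eq_one_iff] at hx2
      obtain ⟨r, hr, hru⟩ := Matrix.SpecialLinearGroup.mem_center_iff.mp hx2
      have hz3 : (u ^ 2) ^ 3 = 1 := by
        apply Subtype.ext
        rw [Matrix.SpecialLinearGroup.coe_pow, ← hru, ← map_pow]
        simp only [Fintype.card_fin] at hr
        rw [hr, map_one, Matrix.SpecialLinearGroup.coe_one]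
      have hc : u * u ^ 2 = u ^ 2 * u := Subgroup.mem_center_iff.mp hx2 u
      refine ⟨u ^ 2 * u, ?_, ?_⟩
      · rw [QuotientGroup.mk_mul, (QuotientGroup.eq_one_iff (u ^ 2)).mpr hx2, one_mul]
      · apply Cfsg.Agent.Lib_helper8_Transv.isTransvection_of_sq_zero (by simp)
        · intro h1
          apply hx1
          have h2 : u ^ 2 * u = 1 := Subtype.ext h1
          rw [QuotientGroup.eq_one_iff]
          have hu : u = (u ^ 2)⁻¹ := eq_inv_of_mul_eq_one_right h2
          rw [hu]
          exact Subgroup.inv_mem _ hx2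
        · apply hsqK
          rw [← Matrix.SpecialLinearGroup.coe_mul]
          have : u ^ 2 * u * (u ^ 2 * u) = (u ^ 2) ^ 3 := by group
          rw [this, hz3, Matrix.SpecialLinearGroup.coe_one]
    have hA : ∀ x y : Matrix.ProjectiveSpecialLinearGroup (Fin 3) K, orderOf x = 2 → orderOf y = 2 →
        IsConj x y := by
      intro x y hx hy
      obtain ⟨u, rfl, hu⟩ := key x hx
      obtain ⟨v, rfl, hv⟩ := key y hy
      exact (QuotientGroup.mk' (Subgroup.center (Matrix.SpecialLinearGroup (Fin 3) K))).map_isConj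
        (Cfsg.Agent.Lib_helper8_Transv.transvection_isConj (by simp) u v hu hv)
    -- Claim B: PSL₄(2) has two non-conjugate involutions
    have h1F : ∀ r : F, r ≠ 0 → r = 1 := by
      intro r hr
      have hcard : Fintype.card Fˣ = 1 := by rw [Fintype.card_units, hF]
      have hsub : Subsingleton Fˣ := Fintype.card_le_one_iff_subsingleton.mp (le_of_eq hcard)
      have := Subsingleton.elim (Units.mk0 r hr) 1
      exact congrArg Units.val this
    have h2F : (2 : F) = 0 := by
      have h := FiniteField.cast_card_eq_zero F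
      rw [hF] at h
      exact_mod_cast h
    have hcen : Subgroup.center (Matrix.SpecialLinearGroup (Fin 4) F) = ⊥ := by
      rw [eq_bot_iff]
      intro A hA'
      obtain ⟨r, hr, hrA⟩ := Matrix.SpecialLinearGroup.mem_center_iff.mp hA'
      have hr0 : r ≠ 0 := by
        rintro rfl
        simp at hr
      rw [h1F r hr0] at hrA
      rw [Subgroup.mem_bot]
      apply Subtype.ext
      rw [← hrA]
      simp
    set A : Matrix (Fin 4) (Fin 4) F := Matrix.vecMulVec (Pi.single 0 1) (Pi.single 3 1) with hAdef
    set B : Matrix (Fin 4) (Fin 4) F := Matrix.vecMulVec (Pi.single 0 1) (Pi.single 2 1) with hBdef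
    set C : Matrix (Fin 4) (Fin 4) F := Matrix.vecMulVec (Pi.single 1 1) (Pi.single 3 1) with hCdef
    have hAA : A * A = 0 := by
      rw [hAdef, Matrix.vecMulVec_mul_vecMulVec]; ext i j; simp [Matrix.vecMulVec_apply]
    have hBB : B * B = 0 := by
      rw [hBdef, Matrix.vecMulVec_mul_vecMulVec]; ext i j; simp [Matrix.vecMulVec_apply]
    have hCC : C * C = 0 := by
      rw [hCdef, Matrix.vecMulVec_mul_vecMulVec]; ext i j; simp [Matrix.vecMulVec_apply]
    have hBC : B * C = 0 := by
      rw [hBdef, hCdef, Matrix.vecMulVec_mul_vecMulVec]; ext i j; simp [Matrix.vecMulVec_apply]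
    have hCB : C * B = 0 := by
      rw [hBdef, hCdef, Matrix.vecMulVec_mul_vecMulVec]; ext i j; simp [Matrix.vecMulVec_apply]
    have hdetA : (1 + A).det = 1 := by
      rw [hAdef, Cfsg.Agent.Lib_helper8_Transv.det_one_add_vmv]; simp
    have hBCm : 1 + B + C = (1 + B) * (1 + C) := by
      simp only [Matrix.add_mul, Matrix.mul_add, Matrix.one_mul, Matrix.mul_one, hBC]
      abel
    have hdetBC : (1 + B + C).det = 1 := by
      rw [hBCm, Matrix.det_mul, hBdef, hCdef, Cfsg.Agent.Lib_helper8_Transv.det_one_add_vmv,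
        Cfsg.Agent.Lib_helper8_Transv.det_one_add_vmv]
      simp
    have hA2 : (1 + A) * (1 + A) = 1 := by
      have : (1 + A) * (1 + A) = 1 + (2 : F) • A + A * A := by
        simp only [Matrix.add_mul, Matrix.mul_add, Matrix.one_mul, Matrix.mul_one, two_smul]
        abel
      rw [this, hAA, h2F, zero_smul, add_zero, add_zero]
    have hBC2 : (1 + B + C) * (1 + B + C) = 1 := by
      have : (1 + B + C) * (1 + B + C) = 1 + (2 : F) • B + (2 : F) • C + (B * B + B * C + C * B + C * C) := by
        simp only [Matrix.add_mul, Matrix.mul_add, Matrix.one_mul, Matrix.mul_one, two_smul]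
        abel
      rw [this, hBB, hBC, hCB, hCC, h2F, zero_smul, zero_smul]
      simp
    let a : Matrix.SpecialLinearGroup (Fin 4) F := ⟨1 + A, hdetA⟩
    let b : Matrix.SpecialLinearGroup (Fin 4) F := ⟨1 + B + C, hdetBC⟩
    have ha2 : a ^ 2 = 1 := by
      apply Subtype.ext
      rw [Matrix.SpecialLinearGroup.coe_pow, pow_two]
      exact hA2
    have hb2 : b ^ 2 = 1 := by
      apply Subtype.ext
      rw [Matrix.SpecialLinearGroup.coe_pow, pow_two]
      exact hBC2
    have ha1 : a ≠ 1 := by
      intro h
      have h1 : (1 + A) = (1 : Matrix (Fin 4) (Fin 4) F) := congrArg Subtype.val h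
      have h2 := congrFun (congrFun h1 0) 3
      simp [hAdef, Matrix.vecMulVec_apply] at h2
    have hb1 : b ≠ 1 := by
      intro h
      have h1 : (1 + B + C) = (1 : Matrix (Fin 4) (Fin 4) F) := congrArg Subtype.val h
      have h2 := congrFun (congrFun h1 0) 2
      simp [hBdef, hCdef, Matrix.vecMulVec_apply] at h2
    have hmk1 : ∀ g : Matrix.SpecialLinearGroup (Fin 4) F,
        (QuotientGroup.mk g : Matrix.ProjectiveSpecialLinearGroup (Fin 4) F) = 1 → g = 1 := by
      intro g hg
      rw [QuotientGroup.eq_one_iff, hcen, Subgroup.mem_bot] at hg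
      exact hg
    have hord : ∀ g : Matrix.SpecialLinearGroup (Fin 4) F, g ^ 2 = 1 → g ≠ 1 →
        orderOf (QuotientGroup.mk g : Matrix.ProjectiveSpecialLinearGroup (Fin 4) F) = 2 := by
      intro g hg2 hg1
      have : Fact (Nat.Prime 2) := ⟨Nat.prime_two⟩
      apply orderOf_eq_prime
      · rw [← QuotientGroup.mk_pow, hg2]; rfl
      · intro h
        exact hg1 (hmk1 g h)
    have haT : Cfsg.IsTransvection (a : Matrix (Fin 4) (Fin 4) F) := by
      apply Cfsg.Agent.Lib_helper8_Transv.isTransvection_one_add_vmv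
      · intro h; have := congrFun h 0; simp at this
      · intro h; have := congrFun h 3; simp at this
      · simp
    have hB : ¬ IsConj (QuotientGroup.mk a : Matrix.ProjectiveSpecialLinearGroup (Fin 4) F)
        (QuotientGroup.mk b) := by
      intro h
      obtain ⟨c, hc⟩ := isConj_iff.mp h
      obtain ⟨g, rfl⟩ := QuotientGroup.mk_surjective c
      rw [← QuotientGroup.mk_inv, ← QuotientGroup.mk_mul, ← QuotientGroup.mk_mul, QuotientGroup.eq,
        hcen, Subgroup.mem_bot, inv_mul_eq_one] at hc
      have hbT : Cfsg.IsTransvection (b : Matrix (Fin 4) (Fin 4) F) := by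
        rw [← hc]
        exact Cfsg.Agent.Lib_helper8_Transv.isTransvection_conj g _ haT
      obtain ⟨x, φ, -, -, -, hxφ⟩ := Cfsg.Agent.Lib_helper8_Transv.exists_eq_one_add_vmv _ hbT
      have hxφ' : 1 + B + C = 1 + Matrix.vecMulVec x φ := hxφ
      have e1 := congrFun (congrFun hxφ' 0) 2
      have e2 := congrFun (congrFun hxφ' 1) 3
      have e3 := congrFun (congrFun hxφ' 0) 3
      simp [hBdef, hCdef, Matrix.vecMulVec_apply] at e1 e2 e3
      rcases e3 with h | h
      · rw [h, zero_mul] at e1
        exact one_ne_zero e1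
      · rw [h, mul_zero] at e2
        exact one_ne_zero e2
    apply hB
    have h3 := hA (e (QuotientGroup.mk a)) (e (QuotientGroup.mk b))
      (by rw [MulEquiv.orderOf_eq]; exact hord a ha2 ha1)
      (by rw [MulEquiv.orderOf_eq]; exact hord b hb2 hb1)
    have h4 := e.symm.toMonoidHom.map_isConj h3
    simpa using h4

end Cfsg.Agent.S2550
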