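import Cfsg.Statements.S2552
import Cfsg.Agent.Lib_helper8_Transv

set_option autoImplicit false
open Cfsg

namespace Cfsg.Agent.S2552

section Aux
open Matrix

theorem main {F : Type*} [Field F] [Fintype F] (n : ℕ) (U₁ U₂ : Submodule F (Fin n → F))
    (h : Module.finrank F U₁ = Module.finrank F U₂) :
    ∃ g : Matrix.SpecialLinearGroup (Fin n) F,
      U₁.map ((Matrix.SpecialLinearGroup.toLin' g : (Fin n → F) ≃ₗ[F] (Fin n → F)) :
        (Fin n → F) →ₗ[F] (Fin n → F)) = U₂ := by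
  classical
  by_cases htop : U₂ = ⊤
  · have h1 : U₁ = ⊤ := by
      apply Submodule.eq_top_of_finrank_eq
      rw [h, htop, finrank_top]
    refine ⟨1, ?_⟩
    rw [h1, htop]
    apply Submodule.eq_top_of_finrank_eq
    rw [LinearEquiv.finrank_map_eq, finrank_top]
  · obtain ⟨W₁, hW₁⟩ := Submodule.exists_isCompl U₁
    obtain ⟨W₂, hW₂⟩ := Submodule.exists_isCompl U₂
    have hdimW : Module.finrank F W₁ = Module.finrank F W₂ := by
      have e1 := Submodule.finrank_add_eq_of_isCompl hW₁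
      have e2 := Submodule.finrank_add_eq_of_isCompl hW₂
      omega
    let eU : U₁ ≃ₗ[F] U₂ := LinearEquiv.ofFinrankEq _ _ h
    let eW : W₁ ≃ₗ[F] W₂ := LinearEquiv.ofFinrankEq _ _ hdimW
    let g₀ : (Fin n → F) ≃ₗ[F] (Fin n → F) :=
      (Submodule.prodEquivOfIsCompl U₁ W₁ hW₁).symm ≪≫ₗ (eU.prodCongr eW) ≪≫ₗ
        (Submodule.prodEquivOfIsCompl U₂ W₂ hW₂)
    have hg₀ : ∀ u ∈ U₁, g₀ u ∈ U₂ := by
      intro u hu
      have e1 : (Submodule.prodEquivOfIsCompl U₁ W₁ hW₁).symm u = ((⟨u, hu⟩ : U₁), 0) :=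
        Submodule.prodEquivOfIsCompl_symm_apply_left U₁ W₁ hW₁ (⟨u, hu⟩ : U₁)
      have e2 : g₀ u = (eU ⟨u, hu⟩ : Fin n → F) := by
        simp only [g₀, LinearEquiv.trans_apply, e1, LinearEquiv.prodCongr_apply, map_zero,
          Submodule.coe_prodEquivOfIsCompl', Submodule.coe_zero, add_zero]
      rw [e2]
      exact (eU ⟨u, hu⟩).2
    set G₀ : Matrix (Fin n) (Fin n) F :=
      LinearMap.toMatrix' (g₀ : (Fin n → F) →ₗ[F] (Fin n → F)) with hG₀
    have hdet : G₀.det ≠ 0 := by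
      rw [hG₀, LinearMap.det_toMatrix']
      exact (LinearEquiv.isUnit_det' g₀).ne_zero
    obtain ⟨w, hw⟩ : ∃ w, w ∉ U₂ := by
      by_contra hall
      push Not at hall
      exact htop (Submodule.eq_top_iff'.mpr hall)
    obtain ⟨φ, hφw, hφU⟩ := Submodule.exists_dual_map_eq_bot_of_notMem hw inferInstance
    set φ' : Fin n → F := (dotProductEquiv F (Fin n)).symm φ with hφ'
    have hφv : ∀ v, φ' ⬝ᵥ v = φ v := by
      intro v
      rw [← dotProductEquiv_apply_apply, hφ', LinearEquiv.apply_symm_apply]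
    have hφU' : ∀ u ∈ U₂, φ' ⬝ᵥ u = 0 := by
      intro u hu
      rw [hφv]
      have h5 : φ u ∈ U₂.map φ := ⟨u, hu, rfl⟩
      have h6 : φ u ∈ (⊥ : Submodule F F) := hφU ▸ h5
      exact (Submodule.mem_bot F).mp h6
    set c : F := (G₀.det⁻¹ - 1) / φ w with hc
    set T : Matrix (Fin n) (Fin n) F := 1 + Matrix.vecMulVec (c • w) φ' with hT
    have hTdet : T.det = G₀.det⁻¹ := by
      rw [hT, Cfsg.Agent.Lib_helper8_Transv.det_one_add_vmv, dotProduct_smul, hφv, hc]
      simp only [smul_eq_mul]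
      field_simp
      ring
    have hTu : ∀ u ∈ U₂, T *ᵥ u = u := by
      intro u hu
      rw [hT, Matrix.add_mulVec, Matrix.one_mulVec, Matrix.vecMulVec_mulVec, hφU' u hu]
      simp
    refine ⟨⟨T * G₀, by rw [Matrix.det_mul, hTdet, inv_mul_cancel₀ hdet]⟩, ?_⟩
    apply Submodule.eq_of_le_of_finrank_eq
    · rintro _ ⟨u, hu, rfl⟩
      have e2 : G₀ *ᵥ u = g₀ u := by
        rw [hG₀, ← Matrix.toLin'_apply, Matrix.toLin'_toMatrix']
        rfl
      change (T * G₀) *ᵥ u ∈ U₂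
      rw [← Matrix.mulVec_mulVec, e2, hTu _ (hg₀ u hu)]
      exact hg₀ u hu
    · rw [LinearEquiv.finrank_map_eq, h]

end Aux

/-- Let F be a finite field and n ≥ 1. For every k, the special linear group SL_n(F) acts transitively on the set of k-dimensional subspaces of F^n: any two subspaces of the same dimension are carried onto each other by some matrix of determinant 1. -/
theorem result {F : Type*} [Field F] [Fintype F] (n : ℕ) (hn : 1 ≤ n) (U₁ U₂ : Submodule F (Fin n → F)) (h : Module.finrank F U₁ = Module.finrank F U₂) : ∃ g : Matrix.SpecialLinearGroup (Fin n) F, U₁.map ((Matrix.SpecialLinearGroup.toLin' g : (Fin n → F) ≃ₗ[F] (Fin n → F)) : (Fin n → F) →ₗ[F] (Fin n → F)) = U₂ := by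
  exact main n U₁ U₂ h

end Cfsg.Agent.S2552
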