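import Cfsg.Statements.S2562
-- import your own Cfsg.Agent.* helpers here

set_option autoImplicit false
open Cfsg

namespace Cfsg.Agent.S2562

open Matrix in
theorem finrank_add_le_of_dot {F : Type*} [Field F] {m : ℕ} (X Y : Submodule F (Fin m → F))
    (h : ∀ x ∈ X, ∀ y ∈ Y, x ⬝ᵥ y = 0) : Module.finrank F X + Module.finrank F Y ≤ m := by
  have h1 := Subspace.finrank_add_finrank_dualAnnihilator_eq X
  have h2 : Y.map (dotProductEquiv F (Fin m)).toLinearMap ≤ X.dualAnnihilator := by
    rintro _ ⟨y, hy, rfl⟩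
    rw [Submodule.mem_dualAnnihilator]
    intro x hx
    simp only [LinearEquiv.coe_coe, dotProductEquiv_apply_apply]
    rw [dotProduct_comm]; exact h x hx y hy
  have h3 := Submodule.finrank_mono h2
  have h4 : Module.finrank F (Y.map (dotProductEquiv F (Fin m)).toLinearMap) = Module.finrank F Y :=
    LinearEquiv.finrank_map_eq _ _
  rw [Module.finrank_fin_fun] at h1
  omega

open Matrix in
theorem ts_bound {F V : Type*} [Field F] [AddCommGroup V] [Module F V] [FiniteDimensional F V] {m : ℕ}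
    (px py : V →ₗ[F] (Fin m → F)) (U : Submodule F V)
    (ha : ∀ u ∈ U, px u = 0 → ∀ v ∈ U, px v ⬝ᵥ py u = 0)
    (hb : ∀ u ∈ U, px u = 0 → py u = 0 → u = 0) : Module.finrank F U ≤ m := by
  set π : U →ₗ[F] (Fin m → F) := px.domRestrict U with hπ
  have h1 := LinearMap.finrank_range_add_finrank_ker π
  set ρ : LinearMap.ker π →ₗ[F] (Fin m → F) := (py.domRestrict U).domRestrict (LinearMap.ker π) with hρdef
  have hρ : Function.Injective ρ := by
    rw [← LinearMap.ker_eq_bot, LinearMap.ker_eq_bot']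
    rintro ⟨⟨u, hu⟩, hk⟩ h0
    have h5 : px u = 0 := hk
    have h6 := hb u hu h5 h0
    ext
    exact h6
  have h2 : Module.finrank F (LinearMap.range ρ) = Module.finrank F (LinearMap.ker π) :=
    LinearMap.finrank_range_of_inj hρ
  have h3 := finrank_add_le_of_dot (LinearMap.range π) (LinearMap.range ρ) (by
    rintro _ ⟨⟨v, hv⟩, rfl⟩ _ ⟨⟨⟨u, hu⟩, hk⟩, rfl⟩
    exact ha u hu hk v hv)
  omega

/-- Witt indices over the field of two elements, m ≥ 1: for the plus-type form Σ xᵢyᵢ in dimension 2m some m-dimensional subspace is totally singular and no totally singular subspace has larger dimension; for the minus-type form Σ xᵢyᵢ + (z₁² + z₁z₂ + z₂²) in dimension 2m the maximal dimension of a totally singular subspace is m − 1. -/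
theorem result (m : ℕ) (hm : 1 ≤ m) :
    (∃ U : Submodule (ZMod 2) (Fin m ⊕ Fin m → ZMod 2), (∀ u ∈ U, Cfsg.quadFormPlus m (ZMod 2) u = 0) ∧ Module.finrank (ZMod 2) ↥U = m) ∧
    (∀ U : Submodule (ZMod 2) (Fin m ⊕ Fin m → ZMod 2), (∀ u ∈ U, Cfsg.quadFormPlus m (ZMod 2) u = 0) → Module.finrank (ZMod 2) ↥U ≤ m) ∧
    (∃ U : Submodule (ZMod 2) ((Fin (m - 1) ⊕ Fin (m - 1)) ⊕ Fin 2 → ZMod 2), (∀ u ∈ U, Cfsg.quadFormMinus (m - 1) (ZMod 2) 1 1 u = 0) ∧ Module.finrank (ZMod 2) ↥U = m - 1) ∧
    (∀ U : Submodule (ZMod 2) ((Fin (m - 1) ⊕ Fin (m - 1)) ⊕ Fin 2 → ZMod 2), (∀ u ∈ U, Cfsg.quadFormMinus (m - 1) (ZMod 2) 1 1 u = 0) → Module.finrank (ZMod 2) ↥U ≤ m - 1) := by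
  refine ⟨?_, ?_, ?_, ?_⟩
  · let φ : (Fin m → ZMod 2) →ₗ[ZMod 2] (Fin m ⊕ Fin m → ZMod 2) :=
      { toFun := fun y => Sum.elim 0 y
        map_add' := by intro a b; ext (i|i) <;> simp
        map_smul' := by intro c a; ext (i|i) <;> simp }
    refine ⟨LinearMap.range φ, ?_, ?_⟩
    · rintro _ ⟨y, rfl⟩
      simp [Cfsg.quadFormPlus, φ]
    · have hinj : Function.Injective φ := by
        intro a b hab
        ext i
        have := congrFun hab (Sum.inr i)
        simpa [φ] using this
      rw [LinearMap.finrank_range_of_inj hinj, Module.finrank_fin_fun]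
  · intro U hU
    refine ts_bound (LinearMap.funLeft (ZMod 2) (ZMod 2) Sum.inl)
      (LinearMap.funLeft (ZMod 2) (ZMod 2) Sum.inr) U ?_ ?_
    · intro u hu hx v hv
      have h1 := hU (u + v) (U.add_mem hu hv)
      have h3 := hU v hv
      have hx' : ∀ i, u (Sum.inl i) = 0 := fun i => congrFun hx i
      simp only [Cfsg.quadFormPlus, Pi.add_apply, hx', zero_add] at h1 h3
      simp only [mul_add, Finset.sum_add_distrib, h3, add_zero] at h1
      simpa [dotProduct, LinearMap.funLeft] using h1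
    · intro u hu hx hy
      ext (i|i)
      · exact congrFun hx i
      · exact congrFun hy i
  · let φ : (Fin (m - 1) → ZMod 2) →ₗ[ZMod 2] ((Fin (m - 1) ⊕ Fin (m - 1)) ⊕ Fin 2 → ZMod 2) :=
      { toFun := fun y => Sum.elim (Sum.elim 0 y) 0
        map_add' := by intro a b; ext ((i|i)|i) <;> simp
        map_smul' := by intro c a; ext ((i|i)|i) <;> simp }
    refine ⟨LinearMap.range φ, ?_, ?_⟩
    · rintro _ ⟨y, rfl⟩
      simp [Cfsg.quadFormMinus, φ]
    · have hinj : Function.Injective φ := by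
        intro a b hab
        ext i
        have := congrFun hab (Sum.inl (Sum.inr i))
        simpa [φ] using this
      rw [LinearMap.finrank_range_of_inj hinj, Module.finrank_fin_fun]
  · intro U hU
    have hz : ∀ u ∈ U, (∀ i, u (Sum.inl (Sum.inl i)) = 0) →
        u (Sum.inr 0) = 0 ∧ u (Sum.inr 1) = 0 := by
      intro u hu hx
      have h2 := hU u hu
      simp only [Cfsg.quadFormMinus, hx, zero_mul, Finset.sum_const_zero, zero_add] at h2
      generalize u (Sum.inr 0) = a at h2 ⊢
      generalize u (Sum.inr 1) = b at h2 ⊢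
      revert a b
      decide
    refine ts_bound (LinearMap.funLeft (ZMod 2) (ZMod 2) (Sum.inl ∘ Sum.inl))
      (LinearMap.funLeft (ZMod 2) (ZMod 2) (Sum.inl ∘ Sum.inr)) U ?_ ?_
    · intro u hu hx v hv
      have h1 := hU (u + v) (U.add_mem hu hv)
      have h3 := hU v hv
      have hx' : ∀ i, u (Sum.inl (Sum.inl i)) = 0 := fun i => congrFun hx i
      obtain ⟨hz0, hz1⟩ := hz u hu hx'
      simp only [Cfsg.quadFormMinus, Pi.add_apply, hx', hz0, hz1, zero_add] at h1 h3
      simp only [mul_add, Finset.sum_add_distrib] at h1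
      have h4 : ∑ i : Fin (m - 1), v (Sum.inl (Sum.inl i)) * u (Sum.inl (Sum.inr i)) = 0 := by
        linear_combination h1 - h3
      simpa [dotProduct, LinearMap.funLeft] using h4
    · intro u hu hx hy
      have hx' : ∀ i, u (Sum.inl (Sum.inl i)) = 0 := fun i => congrFun hx i
      obtain ⟨hz0, hz1⟩ := hz u hu hx'
      ext ((i|i)|i)
      · exact congrFun hx i
      · exact congrFun hy i
      · fin_cases i
        · exact hz0
        · exact hz1

end Cfsg.Agent.S2562
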