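import Cfsg.Statements.S2564
-- import your own Cfsg.Agent.* helpers here

set_option autoImplicit false
open Cfsg

namespace Cfsg.Agent.S2564

/-- The sign character of `ZMod 2`. -/
def chi (x : ZMod 2) : ℤ := if x = 0 then 1 else -1

theorem chi_add : ∀ x y : ZMod 2, chi (x + y) = chi x * chi y := by decide

theorem chi_add_one : ∀ x : ZMod 2, chi (x + 1) = - chi x := by decide

theorem chi_zero : chi 0 = 1 := by decide

/-- The polar form of the plus-type form. -/
def pf (m : ℕ) (u v : Fin m ⊕ Fin m → ZMod 2) : ZMod 2 :=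
  Cfsg.quadFormPlus m (ZMod 2) (u + v) - Cfsg.quadFormPlus m (ZMod 2) u - Cfsg.quadFormPlus m (ZMod 2) v

theorem pf_eq (m : ℕ) (u v : Fin m ⊕ Fin m → ZMod 2) :
    pf m u v = ∑ i : Fin m, (u (Sum.inl i) * v (Sum.inr i) + v (Sum.inl i) * u (Sum.inr i)) := by
  simp only [pf, Cfsg.quadFormPlus, Pi.add_apply]
  rw [← Finset.sum_sub_distrib, ← Finset.sum_sub_distrib]
  refine Finset.sum_congr rfl fun i _ => ?_
  ring

theorem pf_add_left (m : ℕ) (u v w : Fin m ⊕ Fin m → ZMod 2) :
    pf m (u + v) w = pf m u w + pf m v w := by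
  simp only [pf_eq, Pi.add_apply, ← Finset.sum_add_distrib]
  refine Finset.sum_congr rfl fun i _ => ?_
  ring

theorem pf_add_right (m : ℕ) (u v w : Fin m ⊕ Fin m → ZMod 2) :
    pf m u (v + w) = pf m u v + pf m u w := by
  simp only [pf_eq, Pi.add_apply, ← Finset.sum_add_distrib]
  refine Finset.sum_congr rfl fun i _ => ?_
  ring

theorem pf_self (m : ℕ) (u : Fin m ⊕ Fin m → ZMod 2) : pf m u u = 0 := by
  simp only [pf_eq]
  apply Finset.sum_eq_zero
  intro i _
  have : ∀ a b : ZMod 2, a * b + a * b = 0 := by decide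
  exact this _ _

theorem pf_smul_left (m : ℕ) (c : ZMod 2) (u w : Fin m ⊕ Fin m → ZMod 2) :
    pf m (c • u) w = c * pf m u w := by
  simp only [pf_eq, Pi.smul_apply, smul_eq_mul, Finset.mul_sum]
  refine Finset.sum_congr rfl fun i _ => ?_
  ring

theorem pf_nondeg (m : ℕ) (t : Fin m ⊕ Fin m → ZMod 2) (ht : t ≠ 0) :
    ∃ v₀, pf m t v₀ = 1 := by
  have : ∃ j, t j ≠ 0 := by
    by_contra h
    apply ht
    ext j
    by_contra hj
    exact h ⟨j, hj⟩
  obtain ⟨j, hj⟩ := this
  have h1 : t j = 1 := by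
    have : ∀ a : ZMod 2, a ≠ 0 → a = 1 := by decide
    exact this _ hj
  rcases j with i | i
  · refine ⟨Pi.single (Sum.inr i) 1, ?_⟩
    rw [pf_eq]
    simp [Pi.single_apply, h1]
  · refine ⟨Pi.single (Sum.inl i) 1, ?_⟩
    rw [pf_eq]
    simp [Pi.single_apply, h1]

theorem sum_chi_pf (m : ℕ) (t : Fin m ⊕ Fin m → ZMod 2) (ht : t ≠ 0) :
    ∑ v : Fin m ⊕ Fin m → ZMod 2, chi (pf m t v) = 0 := by
  obtain ⟨v₀, hv₀⟩ := pf_nondeg m t ht
  have h1 : ∑ v : Fin m ⊕ Fin m → ZMod 2, chi (pf m t v)
      = ∑ v : Fin m ⊕ Fin m → ZMod 2, chi (pf m t (v + v₀)) :=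
    (Equiv.sum_comp (Equiv.addRight v₀) (fun v => chi (pf m t v))).symm
  have h2 : ∑ v : Fin m ⊕ Fin m → ZMod 2, chi (pf m t (v + v₀))
      = - ∑ v : Fin m ⊕ Fin m → ZMod 2, chi (pf m t v) := by
    rw [← Finset.sum_neg_distrib]
    refine Finset.sum_congr rfl fun v _ => ?_
    rw [pf_add_right, hv₀, chi_add_one]
  linarith

/-- The square of the character sum of a quadratic form polarising to `pf`. -/
theorem sum_sq (m : ℕ) (q : (Fin m ⊕ Fin m → ZMod 2) → ZMod 2)
    (hq : ∀ u v, q (u + v) = q u + q v + pf m u v) :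
    (∑ v : Fin m ⊕ Fin m → ZMod 2, chi (q v)) * (∑ v : Fin m ⊕ Fin m → ZMod 2, chi (q v))
      = (Fintype.card (Fin m ⊕ Fin m → ZMod 2) : ℤ) := by
  have hq0 : q 0 = 0 := by
    have := hq 0 0
    simp only [add_zero, pf_self] at this
    have h2 : ∀ a : ZMod 2, a = a + a → a = 0 := by decide
    exact h2 _ this
  have hneg : ∀ v : Fin m ⊕ Fin m → ZMod 2, v + v = 0 := by
    intro v; ext j
    have : ∀ a : ZMod 2, a + a = 0 := by decide
    exact this _
  rw [Finset.sum_mul_sum]
  -- swap and substitute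
  have h1 : ∀ v : Fin m ⊕ Fin m → ZMod 2,
      ∑ u : Fin m ⊕ Fin m → ZMod 2, chi (q u) * chi (q v)
        = ∑ t : Fin m ⊕ Fin m → ZMod 2, chi (q t) * chi (pf m t v) := by
    intro v
    rw [← Equiv.sum_comp (Equiv.addRight v) (fun u => chi (q u) * chi (q v))]
    refine Finset.sum_congr rfl fun t _ => ?_
    simp only [Equiv.coe_addRight]
    have e1 : q t = q (t + v) + q v + pf m (t + v) v := by
      have := hq (t + v) v
      rw [add_assoc, hneg, add_zero] at this
      exact this
    have e2 : pf m (t + v) v = pf m t v := by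
      rw [pf_add_left, pf_self, add_zero]
    rw [e1, e2, chi_add, chi_add]
    have : chi (q v) * chi (q v) = 1 := by
      have h3 : ∀ a : ZMod 2, chi a * chi a = 1 := by decide
      exact h3 _
    calc chi (q (t + v)) * chi (q v) = chi (q (t + v)) * chi (q v) * 1 := by ring
      _ = chi (q (t + v)) * chi (q v) * (chi (pf m t v) * chi (pf m t v)) := by
        have h3 : ∀ a : ZMod 2, chi a * chi a = 1 := by decide
        rw [h3]
      _ = chi (q (t + v)) * chi (q v) * chi (pf m t v) * chi (pf m t v) := by ring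
  rw [Finset.sum_comm]
  simp only [h1]
  rw [Finset.sum_comm]
  simp only [← Finset.mul_sum]
  rw [Finset.sum_eq_single (0 : Fin m ⊕ Fin m → ZMod 2)]
  · rw [hq0, chi_zero, one_mul]
    have : ∀ v : Fin m ⊕ Fin m → ZMod 2, pf m 0 v = 0 := by
      intro v
      have := pf_add_left m 0 0 v
      rw [add_zero] at this
      have h2 : ∀ a : ZMod 2, a = a + a → a = 0 := by decide
      exact h2 _ this
    simp only [this, chi_zero]
    simp
  · intro t _ ht
    rw [sum_chi_pf m t ht, mul_zero]
  · intro h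
    exact absurd (Finset.mem_univ _) h

/-- On the 2m-dimensional space over the field of two elements (m ≥ 1) let f be the alternating form obtained by polarizing the plus-type form Σ xᵢyᵢ, and let q be any quadratic form polarizing to f. For a vector w, the function q + f(·, w) again polarizes to f, and it is equivalent to q under an invertible linear map (that is, has the same type) if and only if q(w) = 0. -/
theorem result (m : ℕ) (hm : 1 ≤ m) (q : (Fin m ⊕ Fin m → ZMod 2) → ZMod 2) (hq : (∀ u v : (Fin m ⊕ Fin m → ZMod 2), q (u + v) = q u + q v + (Cfsg.quadFormPlus m (ZMod 2) (u + v) - Cfsg.quadFormPlus m (ZMod 2) u - Cfsg.quadFormPlus m (ZMod 2) v))) (w : (Fin m ⊕ Fin m → ZMod 2)) :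
    (∀ u v : (Fin m ⊕ Fin m → ZMod 2), (q (u + v) + (Cfsg.quadFormPlus m (ZMod 2) (u + v + w) - Cfsg.quadFormPlus m (ZMod 2) (u + v) - Cfsg.quadFormPlus m (ZMod 2) w)) =
        (q u + (Cfsg.quadFormPlus m (ZMod 2) (u + w) - Cfsg.quadFormPlus m (ZMod 2) u - Cfsg.quadFormPlus m (ZMod 2) w)) + (q v + (Cfsg.quadFormPlus m (ZMod 2) (v + w) - Cfsg.quadFormPlus m (ZMod 2) v - Cfsg.quadFormPlus m (ZMod 2) w)) +
        (Cfsg.quadFormPlus m (ZMod 2) (u + v) - Cfsg.quadFormPlus m (ZMod 2) u - Cfsg.quadFormPlus m (ZMod 2) v)) ∧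
    ((∃ g : (Fin m ⊕ Fin m → ZMod 2) ≃ₗ[ZMod 2] (Fin m ⊕ Fin m → ZMod 2), ∀ v, q v + (Cfsg.quadFormPlus m (ZMod 2) (v + w) - Cfsg.quadFormPlus m (ZMod 2) v - Cfsg.quadFormPlus m (ZMod 2) w) = q (g v)) ↔ q w = 0) := by
  have hq' : ∀ u v, q (u + v) = q u + q v + pf m u v := hq
  have hneg : ∀ v : Fin m ⊕ Fin m → ZMod 2, v + v = 0 := by
    intro v; ext j
    have : ∀ a : ZMod 2, a + a = 0 := by decide
    exact this _
  constructor
  · intro u v
    have h1 := pf_add_left m u v w
    simp only [pf] at h1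
    rw [hq u v]
    linear_combination h1
  · constructor
    · rintro ⟨g, hg⟩
      by_contra hw
      have hw1 : q w = 1 := by
        have : ∀ a : ZMod 2, a ≠ 0 → a = 1 := by decide
        exact this _ hw
      -- the character sum vanishes
      have hS : ∑ v : Fin m ⊕ Fin m → ZMod 2, chi (q v) = - ∑ v : Fin m ⊕ Fin m → ZMod 2, chi (q v) := by
        calc ∑ v : Fin m ⊕ Fin m → ZMod 2, chi (q v)
            = ∑ v : Fin m ⊕ Fin m → ZMod 2, chi (q (g v)) :=
              (Equiv.sum_comp g.toEquiv (fun v => chi (q v))).symm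
          _ = ∑ v : Fin m ⊕ Fin m → ZMod 2, - chi (q (v + w)) := by
              refine Finset.sum_congr rfl fun v _ => ?_
              rw [← hg v]
              have h1 := hq' v w
              have e : q v + (Cfsg.quadFormPlus m (ZMod 2) (v + w) - Cfsg.quadFormPlus m (ZMod 2) v - Cfsg.quadFormPlus m (ZMod 2) w) = q (v + w) + 1 := by
                rw [h1, hw1]
                simp only [pf]
                have h2 : ∀ a b : ZMod 2, a + b = a + 1 + b + 1 := by decide
                exact h2 _ _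
              rw [e, chi_add_one]
          _ = - ∑ v : Fin m ⊕ Fin m → ZMod 2, chi (q (v + w)) := Finset.sum_neg_distrib _
          _ = - ∑ v : Fin m ⊕ Fin m → ZMod 2, chi (q v) := by
              congr 1
              exact Equiv.sum_comp (Equiv.addRight w) (fun v => chi (q v))
      have hS0 : ∑ v : Fin m ⊕ Fin m → ZMod 2, chi (q v) = 0 := by linarith
      have hsq := sum_sq m q hq'
      rw [hS0, mul_zero] at hsq
      have hpos : (0 : ℤ) < (Fintype.card (Fin m ⊕ Fin m → ZMod 2) : ℤ) := by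
        exact_mod_cast Fintype.card_pos
      omega
    · intro hw
      -- the transvection v ↦ v + pf(v,w) w
      let T : (Fin m ⊕ Fin m → ZMod 2) →ₗ[ZMod 2] (Fin m ⊕ Fin m → ZMod 2) :=
        { toFun := fun v => v + pf m v w • w
          map_add' := fun u v => by
            rw [pf_add_left, add_smul]; abel
          map_smul' := fun c v => by
            rw [pf_smul_left, RingHom.id_apply, smul_add, smul_smul] }
      have hT : ∀ v, T v = v + pf m v w • w := fun v => rfl
      have hinv : Function.Involutive T := by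
        intro v
        rw [hT, hT, pf_add_left, pf_smul_left, pf_self, mul_zero, add_zero, add_assoc, ← add_smul]
        have : ∀ a : ZMod 2, a + a = 0 := by decide
        rw [this, zero_smul, add_zero]
      refine ⟨LinearEquiv.ofInvolutive T hinv, ?_⟩
      intro v
      show q v + (Cfsg.quadFormPlus m (ZMod 2) (v + w) - Cfsg.quadFormPlus m (ZMod 2) v - Cfsg.quadFormPlus m (ZMod 2) w) = q (T v)
      rw [hT]
      have hc : pf m v w = 0 ∨ pf m v w = 1 := by
        have : ∀ a : ZMod 2, a = 0 ∨ a = 1 := by decide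
        exact this _
      have hpf : (Cfsg.quadFormPlus m (ZMod 2) (v + w) - Cfsg.quadFormPlus m (ZMod 2) v - Cfsg.quadFormPlus m (ZMod 2) w) = pf m v w := rfl
      rw [hpf]
      rcases hc with h | h
      · rw [h, zero_smul, add_zero, add_zero]
      · rw [h, one_smul, hq' v w, hw, h, add_zero]

end Cfsg.Agent.S2564
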