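import Cfsg.Statements.S2565
import Mathlib
import Cfsg.Agent.S0825

set_option autoImplicit false
open Cfsg

namespace Cfsg.Agent.S2565

/-- The commutator subgroup of the full orthogonal group of the plus-type form Σ xᵢyᵢ in dimension 6 over the field of two elements (the group Ω⁺₆(2), of index 2) is isomorphic to the alternating group of degree 8. -/
theorem result :
    (Cfsg.Omega (ZMod 2) (Cfsg.quadFormPlus 3 (ZMod 2))).index = 2 ∧
    Nonempty (↥(Cfsg.Omega (ZMod 2) (Cfsg.quadFormPlus 3 (ZMod 2))) ≃* alternatingGroup (Fin 8)) := by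
  obtain ⟨e⟩ := Cfsg.Agent.S0825.result (F := ZMod 2) (ZMod.card 2)
  have hmap : (Cfsg.Omega (ZMod 2) (Cfsg.quadFormPlus 3 (ZMod 2))).map e.toMonoidHom
      = alternatingGroup (Fin 8) := by
    rw [← alternatingGroup.commutator_perm_eq (by simp)]
    show (commutator _).map e.toMonoidHom = _
    rw [map_commutator_eq, commutator_def]
    have hr : e.toMonoidHom.range = ⊤ := MonoidHom.range_eq_top.mpr e.surjective
    rw [hr]
  refine ⟨?_, ?_⟩
  · have h := Subgroup.index_map_equiv (Cfsg.Omega (ZMod 2) (Cfsg.quadFormPlus 3 (ZMod 2))) e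
    have h2 : (Subgroup.map (e : _ →* Equiv.Perm (Fin 8))
        (Cfsg.Omega (ZMod 2) (Cfsg.quadFormPlus 3 (ZMod 2)))).index = 2 := by
      have h3 : (Subgroup.map (e : _ →* Equiv.Perm (Fin 8))
          (Cfsg.Omega (ZMod 2) (Cfsg.quadFormPlus 3 (ZMod 2)))) = alternatingGroup (Fin 8) := hmap
      rw [h3]
      exact alternatingGroup.index_eq_two
    rw [← h]
    exact h2
  · exact ⟨(e.subgroupMap _).trans (MulEquiv.subgroupCongr hmap)⟩

end Cfsg.Agent.S2565
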