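import Cfsg.Statements.S2566
import Mathlib
import Cfsg.Agent.Lib_helper4_OPlus
import Cfsg.Agent.S0250

set_option autoImplicit false
open Cfsg

namespace Cfsg.Agent.S2566

open Matrix

/-- Left multiplication on 2 x 2 matrices, in coordinates. -/
def LA (a b c d : ZMod 2) : Matrix (Fin 2 ⊕ Fin 2) (Fin 2 ⊕ Fin 2) (ZMod 2) :=
  Matrix.fromBlocks !![a, 0; 0, a] !![0, b; b, 0] !![0, c; c, 0] !![d, 0; 0, d]

/-- Right multiplication by the transpose, in coordinates. -/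
def RB (a b c d : ZMod 2) : Matrix (Fin 2 ⊕ Fin 2) (Fin 2 ⊕ Fin 2) (ZMod 2) :=
  Matrix.fromBlocks !![a, b; c, d] 0 0 !![d, c; b, a]

/-- Transposition, in coordinates. -/
def TT : Matrix (Fin 2 ⊕ Fin 2) (Fin 2 ⊕ Fin 2) (ZMod 2) :=
  Matrix.fromBlocks !![1, 0; 0, 0] !![0, 0; 0, 1] !![0, 0; 0, 1] !![1, 0; 0, 0]

theorem all4 (P : (Fin 2 ⊕ Fin 2 → ZMod 2) → Prop)
    (h : ∀ x y z w : ZMod 2, P (Sum.elim ![x, y] ![z, w])) : ∀ v, P v := by
  intro v
  have hv : v = Sum.elim ![v (Sum.inl 0), v (Sum.inl 1)] ![v (Sum.inr 0), v (Sum.inr 1)] := by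
    funext i
    rcases i with i | i <;> fin_cases i <;> rfl
  rw [hv]
  exact h _ _ _ _

theorem LA_mul : ∀ a b c d a' b' c' d' : ZMod 2, LA a b c d * LA a' b' c' d'
    = LA (a * a' + b * c') (a * b' + b * d') (c * a' + d * c') (c * b' + d * d') := by
  decide +kernel

theorem RB_mul : ∀ a b c d a' b' c' d' : ZMod 2, RB a b c d * RB a' b' c' d'
    = RB (a * a' + b * c') (a * b' + b * d') (c * a' + d * c') (c * b' + d * d') := by
  decide +kernel

theorem LA_one : LA 1 0 0 1 = 1 := by decide +kernel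

theorem RB_one : RB 1 0 0 1 = 1 := by decide +kernel

theorem LA_iso : ∀ a b c d : ZMod 2, a * d - b * c = 1 → ∀ v : Fin 2 ⊕ Fin 2 → ZMod 2,
    Cfsg.quadFormPlus 2 (ZMod 2) (LA a b c d *ᵥ v) = Cfsg.quadFormPlus 2 (ZMod 2) v := by
  intro a b c d h
  revert a b c d
  have : ∀ a b c d : ZMod 2, a * d - b * c = 1 → ∀ x y z w : ZMod 2,
      Cfsg.quadFormPlus 2 (ZMod 2) (LA a b c d *ᵥ (Sum.elim ![x, y] ![z, w]))
        = Cfsg.quadFormPlus 2 (ZMod 2) (Sum.elim ![x, y] ![z, w]) := by decide +kernel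
  intro a b c d h
  exact all4 _ (this a b c d h)

theorem RB_iso : ∀ a b c d : ZMod 2, a * d - b * c = 1 → ∀ v : Fin 2 ⊕ Fin 2 → ZMod 2,
    Cfsg.quadFormPlus 2 (ZMod 2) (RB a b c d *ᵥ v) = Cfsg.quadFormPlus 2 (ZMod 2) v := by
  have : ∀ a b c d : ZMod 2, a * d - b * c = 1 → ∀ x y z w : ZMod 2,
      Cfsg.quadFormPlus 2 (ZMod 2) (RB a b c d *ᵥ (Sum.elim ![x, y] ![z, w]))
        = Cfsg.quadFormPlus 2 (ZMod 2) (Sum.elim ![x, y] ![z, w]) := by decide +kernel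
  intro a b c d h
  exact all4 _ (this a b c d h)

theorem TT_iso : ∀ v : Fin 2 ⊕ Fin 2 → ZMod 2,
    Cfsg.quadFormPlus 2 (ZMod 2) (TT *ᵥ v) = Cfsg.quadFormPlus 2 (ZMod 2) v :=
  all4 _ (by decide +kernel)

theorem TT_sq : TT * TT = 1 := by decide +kernel

theorem LA_RB_comm : ∀ a b c d a' b' c' d' : ZMod 2,
    LA a b c d * RB a' b' c' d' = RB a' b' c' d' * LA a b c d := by decide +kernel

theorem LA_inj : ∀ a b c d : ZMod 2, LA a b c d = 1 → a = 1 ∧ b = 0 ∧ c = 0 ∧ d = 1 := by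
  decide +kernel

theorem RB_inj : ∀ a b c d : ZMod 2, RB a b c d = 1 → a = 1 ∧ b = 0 ∧ c = 0 ∧ d = 1 := by
  decide +kernel

theorem LA_RB_disj : ∀ a b c d a' b' c' d' : ZMod 2,
    LA a b c d = RB a' b' c' d' → b = 0 ∧ c = 0 ∧ a = d := by decide +kernel

theorem sq_one : ∀ a : ZMod 2, a * a - 0 * 0 = 1 → a = 1 := by decide

theorem TT_conj : ∀ a b c d : ZMod 2, TT * LA a b c d = RB a b c d * TT := by decide +kernel

/-- `LA` on a matrix. -/
def LAm (g : Matrix (Fin 2) (Fin 2) (ZMod 2)) : Matrix (Fin 2 ⊕ Fin 2) (Fin 2 ⊕ Fin 2) (ZMod 2) :=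
  LA (g 0 0) (g 0 1) (g 1 0) (g 1 1)

/-- `RB` on a matrix. -/
def RBm (g : Matrix (Fin 2) (Fin 2) (ZMod 2)) : Matrix (Fin 2 ⊕ Fin 2) (Fin 2 ⊕ Fin 2) (ZMod 2) :=
  RB (g 0 0) (g 0 1) (g 1 0) (g 1 1)

theorem LAm_mul (g h : Matrix (Fin 2) (Fin 2) (ZMod 2)) : LAm (g * h) = LAm g * LAm h := by
  unfold LAm
  rw [LA_mul]
  simp only [Matrix.mul_apply, Fin.sum_univ_two]

theorem RBm_mul (g h : Matrix (Fin 2) (Fin 2) (ZMod 2)) : RBm (g * h) = RBm g * RBm h := by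
  unfold RBm
  rw [RB_mul]
  simp only [Matrix.mul_apply, Fin.sum_univ_two]

theorem LAm_one : LAm 1 = 1 := by
  unfold LAm
  simp only [Matrix.one_apply_eq, ne_eq, zero_ne_one, one_ne_zero, not_false_eq_true,
    Matrix.one_apply_ne]
  exact LA_one

theorem RBm_one : RBm 1 = 1 := by
  unfold RBm
  simp only [Matrix.one_apply_eq, ne_eq, zero_ne_one, one_ne_zero, not_false_eq_true,
    Matrix.one_apply_ne]
  exact RB_one

theorem det_eq (g : Matrix.SpecialLinearGroup (Fin 2) (ZMod 2)) :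
    g.val 0 0 * g.val 1 1 - g.val 0 1 * g.val 1 0 = 1 := by
  rw [← Matrix.det_fin_two]
  exact g.2

theorem eq_one_of (g : Matrix.SpecialLinearGroup (Fin 2) (ZMod 2))
    (h : g.val 0 0 = 1 ∧ g.val 0 1 = 0 ∧ g.val 1 0 = 0 ∧ g.val 1 1 = 1) : g = 1 := by
  apply Subtype.ext
  ext i j
  fin_cases i <;> fin_cases j
  · exact h.1
  · exact h.2.1
  · exact h.2.2.1
  · exact h.2.2.2

/-- A homomorphism into the orthogonal group from a multiplicative matrix-valued map. -/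
def mkHom (M : Matrix (Fin 2) (Fin 2) (ZMod 2) → Matrix (Fin 2 ⊕ Fin 2) (Fin 2 ⊕ Fin 2) (ZMod 2))
    (hmul : ∀ g h, M (g * h) = M g * M h) (hone : M 1 = 1)
    (hiso : ∀ g : Matrix.SpecialLinearGroup (Fin 2) (ZMod 2), ∀ v,
      Cfsg.quadFormPlus 2 (ZMod 2) (M g.val *ᵥ v) = Cfsg.quadFormPlus 2 (ZMod 2) v) :
    Matrix.SpecialLinearGroup (Fin 2) (ZMod 2) →*
      Cfsg.isometryGroup (ZMod 2) (Cfsg.quadFormPlus 2 (ZMod 2)) where
  toFun g := ⟨⟨M g.val, M (g⁻¹).val,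
    by rw [← hmul, ← Matrix.SpecialLinearGroup.coe_mul, mul_inv_cancel,
      Matrix.SpecialLinearGroup.coe_one, hone],
    by rw [← hmul, ← Matrix.SpecialLinearGroup.coe_mul, inv_mul_cancel,
      Matrix.SpecialLinearGroup.coe_one, hone]⟩, fun u _ => hiso g u⟩
  map_one' := by
    apply Subtype.ext
    apply Units.ext
    show M (1 : Matrix.SpecialLinearGroup (Fin 2) (ZMod 2)).val = 1
    rw [Matrix.SpecialLinearGroup.coe_one, hone]
  map_mul' a b := by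
    apply Subtype.ext
    apply Units.ext
    show M (a * b).val = M a.val * M b.val
    rw [Matrix.SpecialLinearGroup.coe_mul, hmul]

theorem mkHom_val (M : Matrix (Fin 2) (Fin 2) (ZMod 2) → Matrix (Fin 2 ⊕ Fin 2) (Fin 2 ⊕ Fin 2) (ZMod 2))
    (hmul : ∀ g h, M (g * h) = M g * M h) (hone : M 1 = 1)
    (hiso : ∀ g : Matrix.SpecialLinearGroup (Fin 2) (ZMod 2), ∀ v,
      Cfsg.quadFormPlus 2 (ZMod 2) (M g.val *ᵥ v) = Cfsg.quadFormPlus 2 (ZMod 2) v)
    (g : Matrix.SpecialLinearGroup (Fin 2) (ZMod 2)) :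
    (mkHom M hmul hone hiso g).1.val = M g.val := rfl

/-- The left factor. -/
def alpha : Matrix.SpecialLinearGroup (Fin 2) (ZMod 2) →*
    Cfsg.isometryGroup (ZMod 2) (Cfsg.quadFormPlus 2 (ZMod 2)) :=
  mkHom LAm LAm_mul LAm_one (fun g v => LA_iso _ _ _ _ (det_eq g) v)

/-- The right factor. -/
def beta : Matrix.SpecialLinearGroup (Fin 2) (ZMod 2) →*
    Cfsg.isometryGroup (ZMod 2) (Cfsg.quadFormPlus 2 (ZMod 2)) :=
  mkHom RBm RBm_mul RBm_one (fun g v => RB_iso _ _ _ _ (det_eq g) v)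

theorem alpha_val (g : Matrix.SpecialLinearGroup (Fin 2) (ZMod 2)) :
    (alpha g).1.val = LAm g.val := rfl

theorem beta_val (g : Matrix.SpecialLinearGroup (Fin 2) (ZMod 2)) :
    (beta g).1.val = RBm g.val := rfl

theorem val_inj (x y : Cfsg.isometryGroup (ZMod 2) (Cfsg.quadFormPlus 2 (ZMod 2)))
    (h : x.1.val = y.1.val) : x = y := by
  apply Subtype.ext
  apply Units.ext
  exact h

theorem alpha_inj : Function.Injective alpha := by
  rw [injective_iff_map_eq_one]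
  intro g hg
  have h : LAm g.val = 1 := by
    rw [← alpha_val, hg]
    rfl
  exact eq_one_of g (LA_inj _ _ _ _ h)

theorem beta_inj : Function.Injective beta := by
  rw [injective_iff_map_eq_one]
  intro g hg
  have h : RBm g.val = 1 := by
    rw [← beta_val, hg]
    rfl
  exact eq_one_of g (RB_inj _ _ _ _ h)

theorem comm_ab (g h : Matrix.SpecialLinearGroup (Fin 2) (ZMod 2)) :
    Commute (alpha g) (beta h) := by
  apply val_inj
  show (alpha g).1.val * (beta h).1.val = (beta h).1.val * (alpha g).1.val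
  rw [alpha_val, beta_val]
  exact LA_RB_comm _ _ _ _ _ _ _ _

theorem disj_ab : Disjoint alpha.range beta.range := by
  rw [disjoint_iff_inf_le]
  rintro x ⟨⟨g, rfl⟩, ⟨h, hh⟩⟩
  have h1 : LAm g.val = RBm h.val := by
    rw [← alpha_val, ← beta_val, hh]
  obtain ⟨hb, hc, had⟩ := LA_RB_disj _ _ _ _ _ _ _ _ h1
  have hdet := det_eq g
  rw [hb, hc, ← had] at hdet
  have ha := sq_one _ hdet
  have hg : g = 1 := eq_one_of g ⟨ha, hb, hc, by rw [← had]; exact ha⟩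
  rw [hg, map_one]
  exact Subgroup.mem_bot.mpr rfl

/-- The transposition as an isometry. -/
def Tel : Cfsg.isometryGroup (ZMod 2) (Cfsg.quadFormPlus 2 (ZMod 2)) :=
  ⟨⟨TT, TT, TT_sq, TT_sq⟩, fun u _ => TT_iso u⟩

theorem Tel_conj (g : Matrix.SpecialLinearGroup (Fin 2) (ZMod 2)) :
    Tel * alpha g * Tel⁻¹ = beta g := by
  rw [mul_inv_eq_iff_eq_mul]
  apply val_inj
  show TT * (alpha g).1.val = (beta g).1.val * TT
  rw [alpha_val, beta_val]
  exact TT_conj _ _ _ _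

theorem main :
    Nat.card ↥(Cfsg.isometryGroup (ZMod 2) (Cfsg.quadFormPlus 2 (ZMod 2))) = 72 ∧
    ∃ (A B : Subgroup ↥(Cfsg.isometryGroup (ZMod 2) (Cfsg.quadFormPlus 2 (ZMod 2)))),
      Nonempty (↥A ≃* Equiv.Perm (Fin 3)) ∧ Nonempty (↥B ≃* Equiv.Perm (Fin 3)) ∧ A ⊓ B = ⊥ ∧ (∀ a ∈ A, ∀ b ∈ B, a * b = b * a) ∧
      (A ⊔ B).index = 2 ∧ ∃ g : ↥(Cfsg.isometryGroup (ZMod 2) (Cfsg.quadFormPlus 2 (ZMod 2))), A.map (MulAut.conj g).toMonoidHom = B := by
  have hcard : Nat.card ↥(Cfsg.isometryGroup (ZMod 2) (Cfsg.quadFormPlus 2 (ZMod 2))) = 72 := by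
    rw [Cfsg.Agent.Lib_helper4_OPlus.card_OPlus (ZMod.card 2) 2 (by norm_num)]
    norm_num [Finset.prod_range_succ]
  obtain ⟨e⟩ := Cfsg.Agent.S0250.result (F := ZMod 2) (ZMod.card 2)
  have h6 : Nat.card (Matrix.SpecialLinearGroup (Fin 2) (ZMod 2)) = 6 := by
    rw [Nat.card_congr e.toEquiv, Nat.card_eq_fintype_card, Fintype.card_perm, Fintype.card_fin]
    rfl
  refine ⟨hcard, alpha.range, beta.range,
    ⟨(MonoidHom.ofInjective alpha_inj).symm.trans e⟩,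
    ⟨(MonoidHom.ofInjective beta_inj).symm.trans e⟩, ?_, ?_, ?_, Tel, ?_⟩
  · exact disjoint_iff.mp disj_ab
  · rintro a ⟨g, rfl⟩ b ⟨h, rfl⟩
    exact comm_ab g h
  · have hinj : Function.Injective (MonoidHom.noncommCoprod alpha beta comm_ab) :=
      (MonoidHom.noncommCoprod_injective alpha beta comm_ab).mpr ⟨alpha_inj, beta_inj, disj_ab⟩
    have hr : Nat.card (MonoidHom.noncommCoprod alpha beta comm_ab).range = 36 := by
      rw [← Nat.card_congr (MonoidHom.ofInjective hinj).toEquiv, Nat.card_prod, h6]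
    rw [MonoidHom.noncommCoprod_range] at hr
    have h := Subgroup.index_mul_card (alpha.range ⊔ beta.range)
    rw [hr, hcard] at h
    omega
  · ext x
    constructor
    · rintro ⟨y, ⟨g, rfl⟩, rfl⟩
      exact ⟨g, (Tel_conj g).symm⟩
    · rintro ⟨g, rfl⟩
      exact ⟨alpha g, ⟨g, rfl⟩, Tel_conj g⟩

/-- The full orthogonal group of the plus-type form x₁y₁ + x₂y₂ in dimension 4 over the field of two elements has order 72 and is isomorphic to the wreath product of the symmetric group of degree 3 by a group of order 2: it has a normal subgroup isomorphic to the direct product of two symmetric groups of degree 3, of index 2, whose two direct factors are interchanged by conjugation by some element. -/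
theorem result :
    Nat.card ↥(Cfsg.isometryGroup (ZMod 2) (Cfsg.quadFormPlus 2 (ZMod 2))) = 72 ∧
    ∃ (A B : Subgroup ↥(Cfsg.isometryGroup (ZMod 2) (Cfsg.quadFormPlus 2 (ZMod 2)))),
      Nonempty (↥A ≃* Equiv.Perm (Fin 3)) ∧ Nonempty (↥B ≃* Equiv.Perm (Fin 3)) ∧ A ⊓ B = ⊥ ∧ (∀ a ∈ A, ∀ b ∈ B, a * b = b * a) ∧
      (A ⊔ B).index = 2 ∧ ∃ g : ↥(Cfsg.isometryGroup (ZMod 2) (Cfsg.quadFormPlus 2 (ZMod 2))), A.map (MulAut.conj g).toMonoidHom = B := by
  exact main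

end Cfsg.Agent.S2566
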