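import Cfsg.Statements.S2567
-- import your own Cfsg.Agent.* helpers here

set_option autoImplicit false
open Cfsg

namespace Cfsg.Agent.S2567

theorem unique_lift {G : Type*} [Group G] (Z : Subgroup G) [Z.Normal]
    (hZ : Z ≤ Subgroup.center G) (r k : ℕ) (hr : r.Prime) (hk : ∀ z ∈ Z, z ^ k = 1)
    (hcop : Nat.Coprime r k) (x : G ⧸ Z) (hx : orderOf x = r) :
    ∃! g : G, (QuotientGroup.mk g : G ⧸ Z) = x ∧ orderOf g = r := by
  obtain ⟨g₀, rfl⟩ := QuotientGroup.mk_surjective x
  have h1 : g₀ ^ r ∈ Z := by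
    rw [← QuotientGroup.eq_one_iff, QuotientGroup.mk_pow, ← hx, pow_orderOf_eq_one]
  obtain ⟨a, b, hab⟩ := (Nat.isCoprime_iff_coprime.mpr hcop)
  set z := g₀ ^ r with hz
  have hzk : z ^ k = 1 := hk z h1
  have hza : z = (z ^ a) ^ r := by
    have : z ^ (a * (r : ℤ) + (k : ℤ) * b) = z := by
      have : a * (r : ℤ) + (k : ℤ) * b = 1 := by rw [← hab]; ring
      rw [this, zpow_one]
    rw [zpow_add, zpow_mul, zpow_mul, zpow_natCast, zpow_natCast z k, hzk, one_zpow, mul_one] at this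
    exact this.symm
  have hzaZ : z ^ a ∈ Z := Subgroup.zpow_mem Z h1 a
  have hcomm : Commute g₀ (z ^ a)⁻¹ := by
    have := Subgroup.mem_center_iff.mp (hZ (Subgroup.inv_mem Z hzaZ)) g₀
    exact this
  have hgr : (g₀ * (z ^ a)⁻¹) ^ r = 1 := by
    rw [hcomm.mul_pow, inv_pow, ← hza, hz, mul_inv_cancel]
  have hmk : (QuotientGroup.mk (g₀ * (z ^ a)⁻¹) : G ⧸ Z) = QuotientGroup.mk g₀ := by
    rw [QuotientGroup.mk_mul, (QuotientGroup.eq_one_iff _).mpr (Subgroup.inv_mem Z hzaZ), mul_one]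
  refine ⟨g₀ * (z ^ a)⁻¹, ⟨hmk, ?_⟩, ?_⟩
  · have hdvd := orderOf_dvd_of_pow_eq_one hgr
    rcases (Nat.dvd_prime hr).mp hdvd with h | h
    · exfalso
      rw [orderOf_eq_one_iff] at h
      rw [h, QuotientGroup.mk_one] at hmk
      rw [← hmk, orderOf_one] at hx
      exact hr.one_lt.ne hx
    · exact h
  · rintro g' ⟨hg'1, hg'2⟩
    have hw : (g₀ * (z ^ a)⁻¹)⁻¹ * g' ∈ Z := by
      rw [← QuotientGroup.eq_one_iff, QuotientGroup.mk_mul, QuotientGroup.mk_inv, hmk, hg'1,
        inv_mul_cancel]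
    set g := g₀ * (z ^ a)⁻¹ with hg
    set w := g⁻¹ * g' with hwdef
    have hg' : g' = g * w := by rw [hwdef, mul_inv_cancel_left]
    have hcw : Commute g w := by
      have := Subgroup.mem_center_iff.mp (hZ hw) g
      exact this
    have hwr : w ^ r = 1 := by
      have h2 : g' ^ r = 1 := by rw [← hg'2, pow_orderOf_eq_one]
      rw [hg', hcw.mul_pow, hgr, one_mul] at h2
      exact h2
    have hwk : w ^ k = 1 := hk w hw
    have h3 : orderOf w ∣ Nat.gcd r k :=
      Nat.dvd_gcd (orderOf_dvd_of_pow_eq_one hwr) (orderOf_dvd_of_pow_eq_one hwk)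
    rw [hcop.gcd_eq_one, Nat.dvd_one, orderOf_eq_one_iff] at h3
    rw [hg', h3, mul_one]

/-- Lifting elements of prime order from PGL to GL: let F be a finite field with q elements, r a prime not dividing q − 1, and x an element of order r in GL_n(F) modulo its centre (the scalar matrices). Then x has exactly one preimage in GL_n(F) of order r. -/
theorem result {F : Type*} [Field F] [Fintype F] {q n r : ℕ} (hF : Fintype.card F = q) (hr : r.Prime) (hdiv : ¬ r ∣ q - 1) (x : GL (Fin n) F ⧸ Subgroup.center (GL (Fin n) F)) (hx : orderOf x = r) : ∃! g : GL (Fin n) F, (QuotientGroup.mk g : GL (Fin n) F ⧸ Subgroup.center (GL (Fin n) F)) = x ∧ orderOf g = r := by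
  classical
  have hq1 : Fintype.card F - 1 = q - 1 := by rw [hF]
  apply unique_lift (Subgroup.center (GL (Fin n) F)) le_rfl r (q - 1) hr _
    ((Nat.Prime.coprime_iff_not_dvd hr).mpr hdiv) x hx
  intro z hz
  obtain ⟨a, ha⟩ := Matrix.GeneralLinearGroup.mem_center_iff_val_mem_range_scalar.mp hz
  apply Units.ext
  rw [Units.val_pow_eq_pow_val, ← ha, ← map_pow, Units.val_one]
  by_cases ha0 : a = 0
  · have h0 : (1 : Matrix (Fin n) (Fin n) F) = 0 := by
      have := z.mul_inv
      rw [← ha, ha0, map_zero, zero_mul] at this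
      exact this.symm
    have hall : ∀ M : Matrix (Fin n) (Fin n) F, M = 0 := by
      intro M
      rw [← mul_one M, h0, mul_zero]
    rw [hall (Matrix.scalar (Fin n) (a ^ (q - 1))), h0]
  · rw [← hq1, FiniteField.pow_card_sub_one_eq_one a ha0, map_one]

end Cfsg.Agent.S2567
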