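import Cfsg.Statements.S2571
import Cfsg.Agent.Lib_helper8_KerPow

set_option autoImplicit false
open Cfsg

namespace Cfsg.Agent.S2571

/-- Centraliser of a regular unipotent element in GL_n(q): if u is an invertible n × n matrix over the field with q elements, n ≥ 1, with (u − 1)^n = 0 and rank(u − 1) = n − 1 (a single unipotent Jordan block), then its centraliser in GL_n(q) has order (q − 1) q^(n−1). -/
theorem result {F : Type*} [Field F] [Fintype F] {q n : ℕ} (hF : Fintype.card F = q) (hn : 1 ≤ n) (u : GL (Fin n) F) (hnil : ((u : Matrix (Fin n) (Fin n) F) - 1) ^ n = 0) (hreg : ((u : Matrix (Fin n) (Fin n) F) - 1).rank = n - 1) : Nat.card ↥(Subgroup.centralizer ({u} : Set (GL (Fin n) F))) = (q - 1) * q ^ (n - 1) := by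
  classical
  obtain ⟨k, rfl⟩ : ∃ k, n = k + 1 := ⟨n - 1, by omega⟩
  set N : Matrix (Fin (k + 1)) (Fin (k + 1)) F := (u : Matrix (Fin (k + 1)) (Fin (k + 1)) F) - 1 with hN
  have hpow : ∀ j, (N ^ j).mulVecLin = (N.mulVecLin) ^ j := by
    intro j
    induction j with
    | zero => rw [pow_zero, pow_zero, Matrix.mulVecLin_one, Module.End.one_eq_id]
    | succ j ih => rw [pow_succ, Matrix.mulVecLin_mul, ih, pow_succ, Module.End.mul_eq_comp]
  have hTn : (N.mulVecLin) ^ (k + 1) = 0 := by rw [← hpow, hnil, Matrix.mulVecLin_zero]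
  have hker1 : Module.finrank F (LinearMap.ker N.mulVecLin) ≤ 1 := by
    have h1 := LinearMap.finrank_range_add_finrank_ker N.mulVecLin
    have h2 : Module.finrank F (LinearMap.range N.mulVecLin) = k + 1 - 1 := hreg
    rw [Module.finrank_fin_fun] at h1
    omega
  have hex : ∃ v, (N.mulVecLin ^ k) v ≠ 0 := by
    by_contra hcon
    have h1 : LinearMap.ker (N.mulVecLin ^ k) = ⊤ := by
      ext x
      simp only [LinearMap.mem_ker, Submodule.mem_top, iff_true]
      by_contra hx
      exact hcon ⟨x, hx⟩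
    have h2 := Lib_helper8_KerPow.finrank_ker_pow_le N.mulVecLin k
    rw [h1, finrank_top, Module.finrank_fin_fun] at h2
    have h3 : k * Module.finrank F (LinearMap.ker N.mulVecLin) ≤ k := by
      calc k * Module.finrank F (LinearMap.ker N.mulVecLin) ≤ k * 1 := Nat.mul_le_mul_left _ hker1
        _ = k := mul_one _
    omega
  obtain ⟨v, hv⟩ := hex
  have hli := Lib_helper8_KerPow.cyclic_indep N.mulVecLin (k + 1) hTn v (by simpa using hv)
  let b := basisOfLinearIndependentOfCardEqFinrank hli (by simp)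
  have hb : ∀ i : Fin (k + 1), b i = Matrix.mulVec (N ^ (i : ℕ)) v := by
    intro i
    simp only [b, coe_basisOfLinearIndependentOfCardEqFinrank]
    rw [← hpow]; rfl
  have hcent : ∀ g : GL (Fin (k + 1)) F, g ∈ Subgroup.centralizer ({u} : Set (GL (Fin (k + 1)) F)) ↔
      (g : Matrix (Fin (k + 1)) (Fin (k + 1)) F) * N = N * (g : Matrix (Fin (k + 1)) (Fin (k + 1)) F) := by
    intro g
    rw [Subgroup.mem_centralizer_iff]
    simp only [Set.mem_singleton_iff, forall_eq]
    have hu : (u : Matrix (Fin (k + 1)) (Fin (k + 1)) F) = N + 1 := by rw [hN]; abel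
    constructor
    · intro h
      have h' := congrArg Units.val h
      simp only [Units.val_mul] at h'
      rw [hN, mul_sub, sub_mul, mul_one, one_mul, h']
    · intro h
      apply Units.ext
      simp only [Units.val_mul]
      rw [hu, add_mul, mul_add, h, one_mul, mul_one]
  have hcpow : ∀ (g : GL (Fin (k + 1)) F), g ∈ Subgroup.centralizer ({u} : Set (GL (Fin (k + 1)) F)) →
      ∀ (j : ℕ) (w : Fin (k + 1) → F), Matrix.mulVec (g : Matrix (Fin (k + 1)) (Fin (k + 1)) F) (Matrix.mulVec (N ^ j) w)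
        = Matrix.mulVec (N ^ j) (Matrix.mulVec (g : Matrix (Fin (k + 1)) (Fin (k + 1)) F) w) := by
    intro g hg j w
    have h1 : Commute (g : Matrix (Fin (k + 1)) (Fin (k + 1)) F) N := (hcent g).mp hg
    rw [Matrix.mulVec_mulVec, Matrix.mulVec_mulVec, (h1.pow_right j).eq]
  have hginj : ∀ (g : GL (Fin (k + 1)) F) (w : Fin (k + 1) → F),
      Matrix.mulVec (g : Matrix (Fin (k + 1)) (Fin (k + 1)) F) w = 0 → w = 0 := by
    intro g w hw
    have h1 : Matrix.mulVec ((g⁻¹ : GL (Fin (k + 1)) F) : Matrix (Fin (k + 1)) (Fin (k + 1)) F)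
        (Matrix.mulVec (g : Matrix (Fin (k + 1)) (Fin (k + 1)) F) w) = w := by
      rw [Matrix.mulVec_mulVec, ← Units.val_mul, inv_mul_cancel, Units.val_one, Matrix.one_mulVec]
    rw [hw, Matrix.mulVec_zero] at h1
    exact h1.symm
  -- the coordinate map
  have hne0 : ∀ g : Subgroup.centralizer ({u} : Set (GL (Fin (k + 1)) F)),
      b.repr (Matrix.mulVec ((g : GL (Fin (k + 1)) F) : Matrix (Fin (k + 1)) (Fin (k + 1)) F) v) 0 ≠ 0 := by
    intro g h0
    apply hv
    have hk : (N.mulVecLin ^ k) v = Matrix.mulVec (N ^ k) v := by rw [← hpow]; rfl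
    rw [hk]
    apply hginj (g : GL (Fin (k + 1)) F)
    rw [hcpow _ g.2]
    have hsum := b.sum_repr (Matrix.mulVec ((g : GL (Fin (k + 1)) F) : Matrix (Fin (k + 1)) (Fin (k + 1)) F) v)
    rw [← hsum, Matrix.mulVec_sum]
    apply Finset.sum_eq_zero
    intro i _
    rw [Matrix.mulVec_smul, hb, Matrix.mulVec_mulVec, ← pow_add]
    rcases Nat.eq_zero_or_pos i.val with hi | hi
    · have : i = 0 := Fin.ext hi
      rw [this, h0, zero_smul]
    · have h2 : k + i.val = (i.val - 1) + (k + 1) := by omega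
      rw [h2, pow_add, hnil, mul_zero, Matrix.zero_mulVec, smul_zero]
  let Φ : Subgroup.centralizer ({u} : Set (GL (Fin (k + 1)) F)) → {c : Fin (k + 1) → F // c 0 ≠ 0} :=
    fun g => ⟨fun i => b.repr (Matrix.mulVec ((g : GL (Fin (k + 1)) F) : Matrix (Fin (k + 1)) (Fin (k + 1)) F) v) i, hne0 g⟩
  have hΦinj : Function.Injective Φ := by
    intro g g' hgg'
    have h1 : Matrix.mulVec ((g : GL (Fin (k + 1)) F) : Matrix (Fin (k + 1)) (Fin (k + 1)) F) v
        = Matrix.mulVec ((g' : GL (Fin (k + 1)) F) : Matrix (Fin (k + 1)) (Fin (k + 1)) F) v := by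
      apply b.repr.injective
      ext i
      exact congrFun (congrArg Subtype.val hgg') i
    have h2 : ((g : GL (Fin (k + 1)) F) : Matrix (Fin (k + 1)) (Fin (k + 1)) F).mulVecLin
        = ((g' : GL (Fin (k + 1)) F) : Matrix (Fin (k + 1)) (Fin (k + 1)) F).mulVecLin := by
      apply b.ext
      intro i
      rw [hb, Matrix.mulVecLin_apply, Matrix.mulVecLin_apply, hcpow _ g.2, hcpow _ g'.2, h1]
    have h3 : ((g : GL (Fin (k + 1)) F) : Matrix (Fin (k + 1)) (Fin (k + 1)) F)
        = ((g' : GL (Fin (k + 1)) F) : Matrix (Fin (k + 1)) (Fin (k + 1)) F) := by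
      apply Matrix.mulVec_injective
      funext w
      exact congrFun (congrArg DFunLike.coe h2) w
    exact Subtype.ext (Units.ext h3)
  have hΦsurj : Function.Surjective Φ := by
    rintro ⟨c, hc0⟩
    set R' : Matrix (Fin (k + 1)) (Fin (k + 1)) F := ∑ i : Fin k, c i.succ • N ^ (i : ℕ) with hR'
    have hcommR : Commute N R' := by
      rw [hR']
      apply Commute.sum_right
      intro i _
      exact ((Commute.refl N).pow_right _).smul_right _
    have hNnil : IsNilpotent N := ⟨k + 1, hnil⟩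
    have hnilR : IsNilpotent (N * R') := hcommR.isNilpotent_mul_right hNnil
    have hunit0 : IsUnit (c 0 • (1 : Matrix (Fin (k + 1)) (Fin (k + 1)) F)) := by
      rw [Matrix.isUnit_iff_isUnit_det, Matrix.det_smul, Matrix.det_one, mul_one]
      exact (isUnit_iff_ne_zero.mpr hc0).pow _
    have hcomm0 : Commute (N * R') (c 0 • (1 : Matrix (Fin (k + 1)) (Fin (k + 1)) F)) := by
      exact (Commute.one_right _).smul_right _
    have hM : IsUnit (c 0 • (1 : Matrix (Fin (k + 1)) (Fin (k + 1)) F) + N * R') :=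
      hnilR.isUnit_add_left_of_commute hunit0 hcomm0
    have hMN : (c 0 • (1 : Matrix (Fin (k + 1)) (Fin (k + 1)) F) + N * R') * N
        = N * (c 0 • (1 : Matrix (Fin (k + 1)) (Fin (k + 1)) F) + N * R') := by
      rw [add_mul, mul_add, Matrix.smul_mul, Matrix.mul_smul, one_mul, mul_one, mul_assoc, hcommR.eq]
    have hmem : hM.unit ∈ Subgroup.centralizer ({u} : Set (GL (Fin (k + 1)) F)) := by
      rw [hcent]
      exact hMN
    refine ⟨⟨hM.unit, hmem⟩, ?_⟩
    apply Subtype.ext
    show (fun i => b.repr (Matrix.mulVec ((hM.unit : GL (Fin (k + 1)) F) : Matrix (Fin (k + 1)) (Fin (k + 1)) F) v) i) = c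
    have h1 : Matrix.mulVec ((hM.unit : GL (Fin (k + 1)) F) : Matrix (Fin (k + 1)) (Fin (k + 1)) F) v
        = ∑ i : Fin (k + 1), c i • b i := by
      rw [IsUnit.unit_spec, Fin.sum_univ_succ, Matrix.add_mulVec, Matrix.smul_mulVec, Matrix.one_mulVec,
        hb, Fin.val_zero, pow_zero, Matrix.one_mulVec]
      congr 1
      rw [← Matrix.mulVec_mulVec, hR', Matrix.sum_mulVec, Matrix.mulVec_sum]
      refine Finset.sum_congr rfl fun i _ => ?_
      rw [hb, Matrix.smul_mulVec, Matrix.mulVec_smul, Matrix.mulVec_mulVec, Fin.val_succ, pow_succ']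
    rw [h1, b.repr_sum_self]
  have hcard : Nat.card {c : Fin (k + 1) → F // c 0 ≠ 0} = (q - 1) * q ^ k := by
    have e : {c : Fin (k + 1) → F // c 0 ≠ 0} ≃ {a : F // a ≠ 0} × (Fin k → F) :=
      { toFun := fun c => (⟨c.1 0, c.2⟩, Fin.tail c.1)
        invFun := fun p => ⟨Fin.cons p.1.1 p.2, by simpa using p.1.2⟩
        left_inv := by
          intro c
          apply Subtype.ext
          simp
        right_inv := by
          intro p
          ext <;> simp }
    rw [Nat.card_congr e, Nat.card_prod, Nat.card_congr (unitsEquivNeZero (G₀ := F)).symm, Nat.card_units,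
      Nat.card_eq_fintype_card, hF, Nat.card_eq_fintype_card, Fintype.card_fun, Fintype.card_fin, hF]
  rw [Nat.card_congr (Equiv.ofBijective Φ ⟨hΦinj, hΦsurj⟩), hcard]
  simp

end Cfsg.Agent.S2571
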