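import Cfsg.Statements.S2572
import Cfsg.Agent.Lib_helper8_Transv

set_option autoImplicit false
open Cfsg

namespace Cfsg.Agent.S2572

open Matrix

/-- Pairs (vector, covector). -/
structure Pr (n : ℕ) (F : Type*) where
  x : Fin n → F
  φ : Fin n → F

variable {F : Type*} [Field F] {n : ℕ}

instance : MulAction (GL (Fin n) F) (Pr n F) where
  smul g p := ⟨(g : Matrix (Fin n) (Fin n) F) *ᵥ p.x,
    p.φ ᵥ* ((g⁻¹ : GL (Fin n) F) : Matrix (Fin n) (Fin n) F)⟩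
  one_smul p := by
    change (⟨_, _⟩ : Pr n F) = p
    simp
  mul_smul g h p := by
    change (⟨_, _⟩ : Pr n F) = ⟨_, _⟩
    congr 1
    · change ((g * h : GL (Fin n) F) : Matrix (Fin n) (Fin n) F) *ᵥ p.x =
        (g : Matrix (Fin n) (Fin n) F) *ᵥ ((h : Matrix (Fin n) (Fin n) F) *ᵥ p.x)
      rw [Units.val_mul, Matrix.mulVec_mulVec]
    · change p.φ ᵥ* (((g * h)⁻¹ : GL (Fin n) F) : Matrix (Fin n) (Fin n) F) =
        (p.φ ᵥ* ((h⁻¹ : GL (Fin n) F) : Matrix (Fin n) (Fin n) F)) ᵥ*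
          ((g⁻¹ : GL (Fin n) F) : Matrix (Fin n) (Fin n) F)
      rw [_root_.mul_inv_rev, Units.val_mul, Matrix.vecMul_vecMul]

theorem exists_fix_move (x φ₁ φ' : Fin n → F) (hφ₁ : φ₁ ≠ 0) (hφ' : φ' ≠ 0)
    (h1 : φ₁ ⬝ᵥ x = 0) (h' : φ' ⬝ᵥ x = 0) :
    ∃ M : Matrix (Fin n) (Fin n) F, M.det ≠ 0 ∧ M *ᵥ x = x ∧ φ' ᵥ* M = φ₁ := by
  by_cases h : ∀ c : F, φ₁ ≠ c • φ'
  · obtain ⟨y, e1, e2⟩ := Lib_helper8_Transv.exists_dot_eq_one φ₁ φ' hφ' h
    refine ⟨1 + vecMulVec y (φ₁ - φ'), ?_, ?_, ?_⟩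
    · rw [Lib_helper8_Transv.det_one_add_vmv, sub_dotProduct, e1, e2]
      simp
    · rw [Matrix.add_mulVec, Matrix.one_mulVec, Matrix.vecMulVec_mulVec, sub_dotProduct, h1, h']
      simp
    · rw [Matrix.vecMul_add, Matrix.vecMul_one, Matrix.vecMul_vecMulVec, e2]
      simp
  · push Not at h
    obtain ⟨c, rfl⟩ := h
    have hc : c ≠ 0 := by
      rintro rfl
      exact hφ₁ (zero_smul _ _)
    obtain ⟨j, hj⟩ := Function.ne_iff.mp hφ'
    simp only [Pi.zero_apply] at hj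
    have e2 : φ' ⬝ᵥ (Pi.single j (φ' j)⁻¹) = 1 := by
      rw [dotProduct_single]
      exact mul_inv_cancel₀ hj
    refine ⟨1 + vecMulVec (Pi.single j (φ' j)⁻¹) ((c - 1) • φ'), ?_, ?_, ?_⟩
    · rw [Lib_helper8_Transv.det_one_add_vmv, smul_dotProduct, e2]
      simpa using hc
    · rw [Matrix.add_mulVec, Matrix.one_mulVec, Matrix.vecMulVec_mulVec, smul_dotProduct, h']
      simp
    · rw [Matrix.vecMul_add, Matrix.vecMul_one, Matrix.vecMul_vecMulVec, e2, one_smul]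
      ext k
      simp only [Pi.add_apply, Pi.smul_apply, smul_eq_mul]
      ring

theorem exists_gl_move (hn : 2 ≤ n) (x φ x' φ' : Fin n → F) (hx : x ≠ 0) (hφ : φ ≠ 0)
    (h0 : φ ⬝ᵥ x = 0) (hx' : x' ≠ 0) (hφ' : φ' ≠ 0) (h0' : φ' ⬝ᵥ x' = 0) :
    ∃ g : GL (Fin n) F, (g : Matrix (Fin n) (Fin n) F) *ᵥ x = x' ∧
      φ ᵥ* ((g⁻¹ : GL (Fin n) F) : Matrix (Fin n) (Fin n) F) = φ' := by
  obtain ⟨s, hs⟩ := Lib_helper8_Transv.exists_sl_mulVec (by simpa using hn) x x' hx hx'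
  obtain ⟨g₁, hg₁⟩ : ∃ g : GL (Fin n) F, (g : Matrix (Fin n) (Fin n) F) = s :=
    ⟨Matrix.SpecialLinearGroup.toGL s, rfl⟩
  have hg₁x : (g₁ : Matrix (Fin n) (Fin n) F) *ᵥ x = x' := by rw [hg₁]; exact hs
  set φ₁ := φ ᵥ* ((g₁⁻¹ : GL (Fin n) F) : Matrix (Fin n) (Fin n) F) with hφ₁def
  have hφ₁g : φ₁ ᵥ* (g₁ : Matrix (Fin n) (Fin n) F) = φ := by
    rw [hφ₁def, Matrix.vecMul_vecMul, ← Units.val_mul, inv_mul_cancel, Units.val_one,
      Matrix.vecMul_one]
  have hφ₁ : φ₁ ≠ 0 := by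
    intro h
    rw [h, Matrix.zero_vecMul] at hφ₁g
    exact hφ hφ₁g.symm
  have h1 : φ₁ ⬝ᵥ x' = 0 := by
    rw [← hg₁x, Matrix.dotProduct_mulVec, hφ₁g, h0]
  obtain ⟨M, hM, hMx, hMφ⟩ := exists_fix_move x' φ₁ φ' hφ₁ hφ' h1 h0'
  obtain ⟨g₂, hg₂⟩ : ∃ g : GL (Fin n) F, (g : Matrix (Fin n) (Fin n) F) = M :=
    ⟨Matrix.GeneralLinearGroup.mkOfDetNeZero M hM, rfl⟩
  refine ⟨g₂ * g₁, ?_, ?_⟩
  · rw [Units.val_mul, ← Matrix.mulVec_mulVec, hg₁x, hg₂, hMx]
  · rw [_root_.mul_inv_rev, Units.val_mul, ← Matrix.vecMul_vecMul, ← hφ₁def, ← hMφ, ← hg₂,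
      Matrix.vecMul_vecMul, ← Units.val_mul, mul_inv_cancel, Units.val_one, Matrix.vecMul_one]

theorem card_fiber [Fintype F] (x : Fin n → F) (hx : x ≠ 0) :
    Nat.card {φ : Fin n → F // φ ≠ 0 ∧ φ ⬝ᵥ x = 0} = Fintype.card F ^ (n - 1) - 1 := by
  set L : Module.Dual F (Fin n → F) := dotProductEquiv F (Fin n) x with hL
  have hL0 : L ≠ 0 := by
    intro h
    apply hx
    exact (dotProductEquiv F (Fin n)).injective (by rw [← hL, h, map_zero])
  have h1 := Module.Dual.finrank_ker_add_one_of_ne_zero hL0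
  rw [Module.finrank_fin_fun] at h1
  have h2 : Nat.card (LinearMap.ker L) = Fintype.card F ^ (n - 1) := by
    rw [Module.natCard_eq_pow_finrank (K := F), Nat.card_eq_fintype_card]
    congr 1
    omega
  have h3 : {φ : Fin n → F | φ ≠ 0 ∧ φ ⬝ᵥ x = 0} = (LinearMap.ker L : Set (Fin n → F)) \ {0} := by
    ext φ
    simp only [Set.mem_ofPred_eq, Set.mem_sdiff, SetLike.mem_coe, LinearMap.mem_ker,
      Set.mem_singleton_iff, hL, dotProductEquiv_apply_apply]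
    rw [dotProduct_comm]
    tauto
  change Nat.card ↥{φ : Fin n → F | φ ≠ 0 ∧ φ ⬝ᵥ x = 0} = _
  rw [Nat.card_coe_set_eq, h3, Set.ncard_sdiff_singleton_of_mem (zero_mem _), ← Nat.card_coe_set_eq]
  exact congrArg (· - 1) h2

theorem card_S [Fintype F] :
    Nat.card {p : Pr n F // p.x ≠ 0 ∧ p.φ ≠ 0 ∧ p.φ ⬝ᵥ p.x = 0}
      = (Fintype.card F ^ n - 1) * (Fintype.card F ^ (n - 1) - 1) := by
  classical
  have e : {p : Pr n F // p.x ≠ 0 ∧ p.φ ≠ 0 ∧ p.φ ⬝ᵥ p.x = 0} ≃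
      Σ x : {x : Fin n → F // x ≠ 0}, {φ : Fin n → F // φ ≠ 0 ∧ φ ⬝ᵥ x.1 = 0} :=
    { toFun := fun p => ⟨⟨p.1.x, p.2.1⟩, ⟨p.1.φ, p.2.2.1, p.2.2.2⟩⟩
      invFun := fun s => ⟨⟨s.1.1, s.2.1⟩, s.1.2, s.2.2.1, s.2.2.2⟩
      left_inv := fun p => rfl
      right_inv := fun s => rfl }
  rw [Nat.card_congr e, Nat.card_sigma]
  rw [Finset.sum_congr rfl (fun x _ => card_fiber x.1 x.2)]
  rw [Finset.sum_const, Finset.card_univ, smul_eq_mul]
  congr 1
  rw [Fintype.card_subtype_compl, Fintype.card_subtype_eq, Fintype.card_fun, Fintype.card_fin]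

theorem prod_step (q k : ℕ) : ∏ i : Fin (k + 1), (q ^ (k + 1) - q ^ (i : ℕ))
    = (q ^ (k + 1) - 1) * (q ^ k * ∏ i : Fin k, (q ^ k - q ^ (i : ℕ))) := by
  rw [Fin.prod_univ_succ]
  simp only [Fin.val_zero, pow_zero, Fin.val_succ]
  congr 1
  have : ∀ i : Fin k, q ^ (k + 1) - q ^ ((i : ℕ) + 1) = q * (q ^ k - q ^ (i : ℕ)) := by
    intro i
    rw [Nat.mul_sub, ← pow_succ', ← pow_succ']
  simp only [this]
  rw [Finset.prod_mul_distrib, Finset.prod_const, Finset.card_univ, Fintype.card_fin]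

theorem orbit_eq (hn : 2 ≤ n) (p : Pr n F) (hp : p.x ≠ 0 ∧ p.φ ≠ 0 ∧ p.φ ⬝ᵥ p.x = 0) :
    MulAction.orbit (GL (Fin n) F) p
      = {p' : Pr n F | p'.x ≠ 0 ∧ p'.φ ≠ 0 ∧ p'.φ ⬝ᵥ p'.x = 0} := by
  ext p'
  constructor
  · rintro ⟨g, rfl⟩
    refine ⟨?_, ?_, ?_⟩
    · change (g : Matrix (Fin n) (Fin n) F) *ᵥ p.x ≠ 0
      intro h
      apply hp.1
      have h2 := congrArg (fun v => ((g⁻¹ : GL (Fin n) F) : Matrix (Fin n) (Fin n) F) *ᵥ v) h
      simp only [Matrix.mulVec_mulVec, ← Units.val_mul, inv_mul_cancel, Units.val_one,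
        Matrix.one_mulVec, Matrix.mulVec_zero] at h2
      exact h2
    · change p.φ ᵥ* ((g⁻¹ : GL (Fin n) F) : Matrix (Fin n) (Fin n) F) ≠ 0
      intro h
      apply hp.2.1
      have h2 := congrArg (fun v => v ᵥ* (g : Matrix (Fin n) (Fin n) F)) h
      simp only [Matrix.vecMul_vecMul, ← Units.val_mul, inv_mul_cancel, Units.val_one,
        Matrix.vecMul_one, Matrix.zero_vecMul] at h2
      exact h2
    · change (p.φ ᵥ* ((g⁻¹ : GL (Fin n) F) : Matrix (Fin n) (Fin n) F)) ⬝ᵥ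
        ((g : Matrix (Fin n) (Fin n) F) *ᵥ p.x) = 0
      rw [Matrix.dotProduct_mulVec, Matrix.vecMul_vecMul, ← Units.val_mul, inv_mul_cancel,
        Units.val_one, Matrix.vecMul_one]
      exact hp.2.2
  · rintro ⟨h1, h2, h3⟩
    obtain ⟨g, hg1, hg2⟩ := exists_gl_move hn p.x p.φ p'.x p'.φ hp.1 hp.2.1 hp.2.2 h1 h2 h3
    refine ⟨g, ?_⟩
    change (⟨_, _⟩ : Pr n F) = p'
    rw [hg1, hg2]

theorem scalar_mulVec (c : F) (x : Fin n → F) : Matrix.scalar (Fin n) c *ᵥ x = c • x := by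
  ext k
  rw [Matrix.scalar_apply, Matrix.mulVec_diagonal]
  rfl

theorem vecMul_scalar (c : F) (x : Fin n → F) : x ᵥ* Matrix.scalar (Fin n) c = c • x := by
  ext k
  rw [Matrix.scalar_apply, Matrix.vecMul_diagonal, mul_comm]
  rfl

theorem mem_stab (x φ : Fin n → F) (g : GL (Fin n) F) :
    g ∈ MulAction.stabilizer (GL (Fin n) F) (⟨x, φ⟩ : Pr n F) ↔
      (g : Matrix (Fin n) (Fin n) F) *ᵥ x = x ∧ φ ᵥ* (g : Matrix (Fin n) (Fin n) F) = φ := by
  rw [MulAction.mem_stabilizer_iff]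
  constructor
  · intro h
    have h1 : (g : Matrix (Fin n) (Fin n) F) *ᵥ x = x := congrArg Pr.x h
    have h2 : φ ᵥ* ((g⁻¹ : GL (Fin n) F) : Matrix (Fin n) (Fin n) F) = φ := congrArg Pr.φ h
    refine ⟨h1, ?_⟩
    conv_lhs => rw [← h2]
    rw [Matrix.vecMul_vecMul, ← Units.val_mul, inv_mul_cancel, Units.val_one, Matrix.vecMul_one]
  · rintro ⟨h1, h2⟩
    change (⟨(g : Matrix (Fin n) (Fin n) F) *ᵥ x,
      φ ᵥ* ((g⁻¹ : GL (Fin n) F) : Matrix (Fin n) (Fin n) F)⟩ : Pr n F) = _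
    rw [h1]
    congr 1
    conv_lhs => rw [← h2]
    rw [Matrix.vecMul_vecMul, ← Units.val_mul, mul_inv_cancel, Units.val_one, Matrix.vecMul_one]

theorem card_centralizer [Fintype F] (x φ : Fin n → F) (hx : x ≠ 0) (hφ : φ ≠ 0)
    (t : GL (Fin n) F) (ht : (t : Matrix (Fin n) (Fin n) F) = 1 + vecMulVec x φ) :
    Nat.card (Subgroup.centralizer ({t} : Set (GL (Fin n) F))) =
      Nat.card (MulAction.stabilizer (GL (Fin n) F) (⟨x, φ⟩ : Pr n F)) * (Fintype.card F - 1) := by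
  classical
  let f : MulAction.stabilizer (GL (Fin n) F) (⟨x, φ⟩ : Pr n F) × Fˣ → GL (Fin n) F :=
    fun a => Matrix.GeneralLinearGroup.scalar (Fin n) a.2 * a.1.1
  obtain ⟨j, hj⟩ := Function.ne_iff.mp hφ
  obtain ⟨i, hi⟩ := Function.ne_iff.mp hx
  simp only [Pi.zero_apply] at hi hj
  have hf : Function.Injective f := by
    rintro ⟨⟨g, hg⟩, c⟩ ⟨⟨g', hg'⟩, c'⟩ h
    simp only [f] at h
    have h1 := congrArg (fun M : GL (Fin n) F => (M : Matrix (Fin n) (Fin n) F) *ᵥ x) h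
    simp only [Units.val_mul, Matrix.GeneralLinearGroup.coe_scalar, ← Matrix.mulVec_mulVec,
      ((mem_stab x φ g).mp hg).1, ((mem_stab x φ g').mp hg').1, scalar_mulVec] at h1
    have hc : c = c' := by
      have h2 := congrFun h1 i
      simp only [Pi.smul_apply, smul_eq_mul] at h2
      exact Units.ext (mul_right_cancel₀ hi h2)
    subst hc
    have hgg : g = g' := mul_left_cancel h
    subst hgg
    rfl
  have hrange : Set.range f
      = (Subgroup.centralizer ({t} : Set (GL (Fin n) F)) : Set (GL (Fin n) F)) := by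
    ext h
    constructor
    · rintro ⟨⟨⟨g, hg⟩, c⟩, rfl⟩
      simp only [f, SetLike.mem_coe, Subgroup.mem_centralizer_iff, Set.mem_singleton_iff]
      intro y hy
      rw [hy]
      obtain ⟨h1, h2⟩ := (mem_stab x φ g).mp hg
      have hgt : t * g = g * t := by
        apply Units.ext
        rw [Units.val_mul, Units.val_mul, ht, Matrix.add_mul, Matrix.mul_add, Matrix.one_mul,
          Matrix.mul_one, Matrix.vecMulVec_mul, Matrix.mul_vecMulVec, h1, h2]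
      rw [← mul_assoc, ← Matrix.GeneralLinearGroup.scalar_commute, mul_assoc, hgt, mul_assoc]
    · intro hh
      rw [SetLike.mem_coe, Subgroup.mem_centralizer_iff] at hh
      have hcomm := hh t rfl
      have hM : vecMulVec ((h : Matrix (Fin n) (Fin n) F) *ᵥ x) φ
          = vecMulVec x (φ ᵥ* (h : Matrix (Fin n) (Fin n) F)) := by
        have h5 := congrArg Units.val hcomm
        rw [Units.val_mul, Units.val_mul, ht, Matrix.add_mul, Matrix.mul_add, Matrix.one_mul,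
          Matrix.mul_one, Matrix.vecMulVec_mul, Matrix.mul_vecMulVec] at h5
        exact (add_left_cancel h5).symm
      set c := (φ ᵥ* (h : Matrix (Fin n) (Fin n) F)) j / φ j with hc
      have h1 : (h : Matrix (Fin n) (Fin n) F) *ᵥ x = c • x := by
        ext k
        have h5 := congrFun (congrFun hM k) j
        simp only [vecMulVec_apply] at h5
        simp only [Pi.smul_apply, smul_eq_mul, hc]
        field_simp
        linear_combination h5
      have h2 : φ ᵥ* (h : Matrix (Fin n) (Fin n) F) = c • φ := by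
        ext k
        have h5 := congrFun (congrFun hM i) k
        simp only [vecMulVec_apply] at h5
        rw [h1] at h5
        simp only [Pi.smul_apply, smul_eq_mul] at h5 ⊢
        apply mul_left_cancel₀ hi
        linear_combination -h5
      have hc0 : c ≠ 0 := by
        intro h0'
        rw [h0', zero_smul] at h1
        apply hx
        have h5 := congrArg (fun v => ((h⁻¹ : GL (Fin n) F) : Matrix (Fin n) (Fin n) F) *ᵥ v) h1
        simp only [Matrix.mulVec_mulVec, ← Units.val_mul, inv_mul_cancel, Units.val_one,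
          Matrix.one_mulVec, Matrix.mulVec_zero] at h5
        exact h5
      have hg : Matrix.GeneralLinearGroup.scalar (Fin n) (Units.mk0 c hc0)⁻¹ * h
          ∈ MulAction.stabilizer (GL (Fin n) F) (⟨x, φ⟩ : Pr n F) := by
        rw [mem_stab]
        constructor
        · rw [Units.val_mul, ← Matrix.mulVec_mulVec, h1, Matrix.GeneralLinearGroup.coe_scalar,
            scalar_mulVec, smul_smul]
          simp [hc0]
        · rw [Units.val_mul, ← Matrix.vecMul_vecMul, Matrix.GeneralLinearGroup.coe_scalar,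
            vecMul_scalar, Matrix.smul_vecMul, h2, smul_smul]
          simp [hc0]
      refine ⟨⟨⟨_, hg⟩, Units.mk0 c hc0⟩, ?_⟩
      simp only [f]
      rw [← mul_assoc, ← map_mul, mul_inv_cancel, map_one, one_mul]
  change Nat.card ((Subgroup.centralizer ({t} : Set (GL (Fin n) F)) : Set (GL (Fin n) F))) = _
  rw [← hrange, Nat.card_range_of_injective hf, Nat.card_prod, Nat.card_units,
    Nat.card_eq_fintype_card (α := F)]

/-- Centraliser of a transvection in GL_n(q), n ≥ 2: if t − 1 has rank one and square zero, the centraliser of t in GL_n(q) has order q^(2n−3) (q − 1) |GL_(n−2)(q)| (a group of order q^(2n−3) extended by GL_1(q) × GL_(n−2)(q)). -/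
theorem result {F : Type*} [Field F] [Fintype F] {q n : ℕ} (hF : Fintype.card F = q) (hn : 2 ≤ n) (t : GL (Fin n) F) (ht : Cfsg.IsTransvection (t : Matrix (Fin n) (Fin n) F)) : Nat.card ↥(Subgroup.centralizer ({t} : Set (GL (Fin n) F))) = q ^ (2 * n - 3) * (q - 1) * ∏ i : Fin (n - 2), (q ^ (n - 2) - q ^ (i : ℕ)) := by
  classical
  subst hF
  obtain ⟨x, φ, hx, hφ, hφx, htE⟩ := Lib_helper8_Transv.exists_eq_one_add_vmv _ ht
  rw [card_centralizer x φ hx hφ t htE]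
  have h1 := MulAction.index_stabilizer (GL (Fin n) F) (⟨x, φ⟩ : Pr n F)
  rw [orbit_eq hn _ ⟨hx, hφ, hφx⟩, ← Nat.card_coe_set_eq] at h1
  have h1' : (MulAction.stabilizer (GL (Fin n) F) (⟨x, φ⟩ : Pr n F)).index
      = (Fintype.card F ^ n - 1) * (Fintype.card F ^ (n - 1) - 1) := h1.trans card_S
  have h2 := Subgroup.card_mul_index (MulAction.stabilizer (GL (Fin n) F) (⟨x, φ⟩ : Pr n F))
  rw [h1', Matrix.card_GL_field] at h2
  obtain ⟨k, rfl⟩ : ∃ k, n = k + 2 := ⟨n - 2, by omega⟩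
  have hq : 2 ≤ Fintype.card F := Fintype.one_lt_card
  generalize Fintype.card F = q at *
  change _ = q ^ (2 * (k + 2) - 3) * (q - 1) * ∏ i : Fin k, (q ^ k - q ^ (i : ℕ))
  rw [prod_step, prod_step] at h2
  have e1 : k + 2 - 1 = k + 1 := rfl
  rw [e1] at h2
  have hpos : 0 < (q ^ (k + 1 + 1) - 1) * (q ^ (k + 1) - 1) := by
    have h3 : 2 ≤ q ^ (k + 1 + 1) := le_trans hq (Nat.le_self_pow (by omega) q)
    have h4 : 2 ≤ q ^ (k + 1) := le_trans hq (Nat.le_self_pow (by omega) q)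
    exact Nat.mul_pos (by omega) (by omega)
  have h5 : Nat.card (MulAction.stabilizer (GL (Fin (k + 2)) F) (⟨x, φ⟩ : Pr (k + 2) F))
      = q ^ (2 * (k + 2) - 3) * ∏ i : Fin k, (q ^ k - q ^ (i : ℕ)) := by
    apply Nat.eq_of_mul_eq_mul_right hpos
    rw [h2]
    have e2 : 2 * (k + 2) - 3 = (k + 1) + k := by omega
    rw [e2, pow_add]
    ring
  rw [h5]
  ring

end Cfsg.Agent.S2572
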