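import Cfsg.Statements.S2573
import Cfsg.Agent.Lib_helper8_KerPow

set_option autoImplicit false
open Cfsg

namespace Cfsg.Agent.S2573

/-- The invariant subspaces of a regular unipotent matrix form a chain: over a finite field, if u is an n × n matrix with (u − 1)^n = 0 and rank(u − 1) = n − 1, then every subspace W of F^n with u W ⊆ W is the kernel of (u − 1)^(dim W); so u has at most one invariant subspace of each dimension. -/
theorem result {F : Type*} [Field F] [Finite F] {n : ℕ} (u : Matrix (Fin n) (Fin n) F) (hnil : (u - 1) ^ n = 0) (hreg : (u - 1).rank = n - 1) (W : Submodule F (Fin n → F)) (hW : ∀ v ∈ W, u.mulVec v ∈ W) : W = LinearMap.ker (Matrix.mulVecLin ((u - 1) ^ Module.finrank F W)) := by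
  classical
  set N := u - 1 with hN
  have hpow : ∀ k, (N ^ k).mulVecLin = (N.mulVecLin) ^ k := by
    intro k
    induction k with
    | zero => rw [pow_zero, pow_zero, Matrix.mulVecLin_one, Module.End.one_eq_id]
    | succ k ih => rw [pow_succ, Matrix.mulVecLin_mul, ih, pow_succ, Module.End.mul_eq_comp]
  rw [hpow]
  have hTn : (N.mulVecLin) ^ n = 0 := by rw [← hpow, hnil, Matrix.mulVecLin_zero]
  have hker1 : Module.finrank F (LinearMap.ker N.mulVecLin) ≤ 1 := by
    have h1 := LinearMap.finrank_range_add_finrank_ker N.mulVecLin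
    have h2 : Module.finrank F (LinearMap.range N.mulVecLin) = n - 1 := hreg
    rw [Module.finrank_fin_fun] at h1
    omega
  have hWT : ∀ x ∈ W, N.mulVecLin x ∈ W := by
    intro x hx
    have : N.mulVecLin x = u.mulVec x - x := by
      simp [hN, Matrix.sub_mulVec]
    rw [this]
    exact W.sub_mem (hW x hx) hx
  have hle := Lib_helper8_KerPow.le_ker_pow_finrank N.mulVecLin n hTn W hWT
  apply Submodule.eq_of_le_of_finrank_le hle
  calc Module.finrank F (LinearMap.ker (N.mulVecLin ^ Module.finrank F W))
      ≤ Module.finrank F W * Module.finrank F (LinearMap.ker N.mulVecLin) :=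
        Lib_helper8_KerPow.finrank_ker_pow_le N.mulVecLin (Module.finrank F W)
    _ ≤ Module.finrank F W * 1 := Nat.mul_le_mul_left _ hker1
    _ = Module.finrank F W := mul_one _

end Cfsg.Agent.S2573
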