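import Cfsg.Statements.S2574
import Cfsg.Agent.Lib_helper8_KerPow

set_option autoImplicit false
open Cfsg

namespace Cfsg.Agent.S2574

/-- A regular unipotent element of the symplectic group has totally isotropic small invariant subspaces: over a finite field, if u ∈ Sp_2m(F) satisfies (u − 1)^(2m) = 0 and rank(u − 1) = 2m − 1, and W is a u-invariant subspace with 2 dim W ≤ 2m, then the alternating form vanishes identically on W. -/
theorem result {F : Type*} [Field F] [Finite F] {m : ℕ} (u : Matrix.symplecticGroup (Fin m) F) (hnil : ((u : Matrix (Fin m ⊕ Fin m) (Fin m ⊕ Fin m) F) - 1) ^ (2 * m) = 0) (hreg : ((u : Matrix (Fin m ⊕ Fin m) (Fin m ⊕ Fin m) F) - 1).rank = 2 * m - 1) (W : Submodule F (Fin m ⊕ Fin m → F)) (hW : ∀ v ∈ W, (u : Matrix (Fin m ⊕ Fin m) (Fin m ⊕ Fin m) F).mulVec v ∈ W) (hdim : 2 * Module.finrank F W ≤ 2 * m) : ∀ v ∈ W, ∀ w ∈ W, Cfsg.sympForm m F v w = 0 := by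
  classical
  set U : Matrix (Fin m ⊕ Fin m) (Fin m ⊕ Fin m) F := (u : Matrix (Fin m ⊕ Fin m) (Fin m ⊕ Fin m) F) with hU
  set N := U - 1 with hN
  have hpow : ∀ k, (N ^ k).mulVecLin = (N.mulVecLin) ^ k := by
    intro k
    induction k with
    | zero => rw [pow_zero, pow_zero, Matrix.mulVecLin_one, Module.End.one_eq_id]
    | succ k ih => rw [pow_succ, Matrix.mulVecLin_mul, ih, pow_succ, Module.End.mul_eq_comp]
  have hTn : (N.mulVecLin) ^ (2 * m) = 0 := by rw [← hpow, hnil, Matrix.mulVecLin_zero]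
  have hfin : Module.finrank F (Fin m ⊕ Fin m → F) = 2 * m := by
    rw [Module.finrank_fintype_fun_eq_card, Fintype.card_sum, Fintype.card_fin]; ring
  have hker1 : Module.finrank F (LinearMap.ker N.mulVecLin) ≤ 1 := by
    have h1 := LinearMap.finrank_range_add_finrank_ker N.mulVecLin
    have h2 : Module.finrank F (LinearMap.range N.mulVecLin) = 2 * m - 1 := hreg
    rw [hfin] at h1
    omega
  have hWT : ∀ x ∈ W, N.mulVecLin x ∈ W := by
    intro x hx
    have : N.mulVecLin x = U.mulVec x - x := by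
      simp [hN, Matrix.sub_mulVec]
    rw [this]
    exact W.sub_mem (hW x hx) hx
  have hle := Lib_helper8_KerPow.le_ker_pow_finrank N.mulVecLin (2 * m) hTn W hWT
  set d := Module.finrank F W with hd
  have hdm : d ≤ m := by omega
  set k := 2 * m - d with hk
  have hkd : d ≤ k := by omega
  -- kernel of T^d is inside the kernel of T^k
  have hker_le : LinearMap.ker (N.mulVecLin ^ d) ≤ LinearMap.ker (N.mulVecLin ^ k) := by
    intro x hx
    rw [LinearMap.mem_ker] at hx ⊢
    have : N.mulVecLin ^ k = N.mulVecLin ^ (k - d) * N.mulVecLin ^ d := by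
      rw [← pow_add]; congr 1; omega
    rw [this, Module.End.mul_apply, hx, map_zero]
  -- the range of T^k equals the kernel of T^d
  have hrange : LinearMap.range (N.mulVecLin ^ k) = LinearMap.ker (N.mulVecLin ^ d) := by
    apply Submodule.eq_of_le_of_finrank_le
    · rintro _ ⟨x, rfl⟩
      rw [LinearMap.mem_ker, ← Module.End.mul_apply, ← pow_add]
      have : d + k = 2 * m := by omega
      rw [this, hTn]; rfl
    · have h1 := LinearMap.finrank_range_add_finrank_ker (N.mulVecLin ^ k)
      rw [hfin] at h1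
      have h2 := Lib_helper8_KerPow.finrank_ker_pow_le N.mulVecLin k
      have h3 := Lib_helper8_KerPow.finrank_ker_pow_le N.mulVecLin d
      have h4 : k * Module.finrank F (LinearMap.ker N.mulVecLin) ≤ k := by
        calc k * Module.finrank F (LinearMap.ker N.mulVecLin) ≤ k * 1 := Nat.mul_le_mul_left _ hker1
          _ = k := mul_one _
      have h5 : d * Module.finrank F (LinearMap.ker N.mulVecLin) ≤ d := by
        calc d * Module.finrank F (LinearMap.ker N.mulVecLin) ≤ d * 1 := Nat.mul_le_mul_left _ hker1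
          _ = d := mul_one _
      omega
  -- identities for the form
  have hdm' : ∀ (M : Matrix (Fin m ⊕ Fin m) (Fin m ⊕ Fin m) F) (a w : Fin m ⊕ Fin m → F),
      dotProduct (Matrix.mulVec M a) w = dotProduct a (Matrix.mulVec M.transpose w) := by
    intro M a w
    rw [Matrix.dotProduct_mulVec, Matrix.vecMul_transpose]
  have hI1 : ∀ a b, Cfsg.sympForm m F (Matrix.mulVec U a) (Matrix.mulVec U b) = Cfsg.sympForm m F a b := by
    intro a b
    have hA : U.transpose * Matrix.J (Fin m) F * U = Matrix.J (Fin m) F :=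
      SymplecticGroup.mem_iff'.mp u.2
    simp only [Cfsg.sympForm]
    rw [hdm', Matrix.mulVec_mulVec, Matrix.mulVec_mulVec, hA]
  have hI2 : ∀ a b, Cfsg.sympForm m F (Matrix.mulVec U a) (Matrix.mulVec N b)
      = - Cfsg.sympForm m F (Matrix.mulVec N a) b := by
    intro a b
    have h1 := hI1 a b
    simp only [Cfsg.sympForm, hN, Matrix.sub_mulVec, Matrix.one_mulVec, Matrix.mulVec_sub,
      dotProduct_sub, sub_dotProduct] at h1 ⊢
    linear_combination h1
  have hcomm : ∀ j, N * U ^ j = U ^ j * N := by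
    intro j
    have h1 : Commute N U := by
      rw [hN]
      exact (Commute.refl U).sub_left (Commute.one_left U)
    exact (h1.pow_right j).eq
  have hI3 : ∀ (j : ℕ) (a b : Fin m ⊕ Fin m → F),
      Cfsg.sympForm m F (Matrix.mulVec (U ^ j) a) (Matrix.mulVec (N ^ j) b)
        = (-1) ^ j * Cfsg.sympForm m F (Matrix.mulVec (N ^ j) a) b := by
    intro j
    induction j with
    | zero => intro a b; simp
    | succ j ih =>
      intro a b
      have e1 : Matrix.mulVec (U ^ (j + 1)) a = Matrix.mulVec U (Matrix.mulVec (U ^ j) a) := by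
        rw [pow_succ', Matrix.mulVec_mulVec]
      have e2 : Matrix.mulVec (N ^ (j + 1)) b = Matrix.mulVec N (Matrix.mulVec (N ^ j) b) := by
        rw [pow_succ', Matrix.mulVec_mulVec]
      have e3 : Matrix.mulVec N (Matrix.mulVec (U ^ j) a) = Matrix.mulVec (U ^ j) (Matrix.mulVec N a) := by
        rw [Matrix.mulVec_mulVec, Matrix.mulVec_mulVec, hcomm]
      have e4 : Matrix.mulVec (N ^ j) (Matrix.mulVec N a) = Matrix.mulVec (N ^ (j + 1)) a := by
        rw [Matrix.mulVec_mulVec, ← pow_succ]
      rw [e1, e2, hI2, e3, ih, e4, pow_succ]; ring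
  have hI4 : ∀ (j : ℕ) (a b : Fin m ⊕ Fin m → F),
      Cfsg.sympForm m F (Matrix.mulVec (U ^ j) a) (Matrix.mulVec (U ^ j) b) = Cfsg.sympForm m F a b := by
    intro j
    induction j with
    | zero => intro a b; simp
    | succ j ih =>
      intro a b
      rw [pow_succ', ← Matrix.mulVec_mulVec, ← Matrix.mulVec_mulVec, hI1, ih]
  have hWpow : ∀ (j : ℕ) (w : Fin m ⊕ Fin m → F), w ∈ W → Matrix.mulVec (U ^ j) w ∈ W := by
    intro j
    induction j with
    | zero => intro w hw; simpa using hw
    | succ j ih =>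
      intro w hw
      rw [pow_succ', ← Matrix.mulVec_mulVec]
      exact hW _ (ih w hw)
  intro v hv w hw
  have hw' : Matrix.mulVec (U ^ k) w ∈ LinearMap.range (N.mulVecLin ^ k) := by
    rw [hrange]; exact hle (hWpow k w hw)
  obtain ⟨w'', hw''⟩ := hw'
  rw [← hpow] at hw''
  have hv0 : Matrix.mulVec (N ^ k) v = 0 := by
    have := hker_le (hle hv)
    rw [LinearMap.mem_ker, ← hpow] at this
    exact this
  rw [← hI4 k v w, ← hw'']
  show Cfsg.sympForm m F (Matrix.mulVec (U ^ k) v) (Matrix.mulVec (N ^ k) w'') = 0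
  rw [hI3, hv0]
  simp [Cfsg.sympForm]

end Cfsg.Agent.S2574
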