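import Cfsg.Statements.S2575
import Cfsg.Agent.Lib_helper8_FinField

set_option autoImplicit false
open Cfsg

namespace Cfsg.Agent.S2575

/-- Which diagonal involutions of PGL_n(q) lie in PSL_n(q), q odd: for the diagonal matrix t with i entries −1 and n − i entries 1, some non-zero scalar multiple of t has determinant one if and only if i is even or the 2-part of q − 1 exceeds the 2-part of n (that is, −1 is an n-th power in the field exactly in the latter case). -/
theorem result {F : Type*} [Field F] [Fintype F] {q : ℕ} (hF : Fintype.card F = q) (hq : Odd q) {n : ℕ} (hn : 1 ≤ n) (i : ℕ) (hi : i ≤ n) : (∃ c : F, c ≠ 0 ∧ (c • Matrix.diagonal (fun j : Fin n => if (j : ℕ) < i then (-1 : F) else 1)).det = 1) ↔ (Even i ∨ padicValNat 2 n < padicValNat 2 (q - 1)) := by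
  have hdet : ∀ c : F, (c • Matrix.diagonal (fun j : Fin n => if (j : ℕ) < i then (-1 : F) else 1)).det
      = c ^ n * (-1) ^ i := by
    intro c
    rw [Matrix.det_smul, Matrix.det_diagonal, Fintype.card_fin]
    congr 1
    rw [Fin.prod_univ_eq_prod_range (fun j => if j < i then (-1 : F) else 1) n, Finset.prod_ite,
      Finset.prod_const_one, mul_one, Finset.prod_const]
    congr 1
    have : (Finset.range n).filter (· < i) = Finset.range i := by
      ext j; simp only [Finset.mem_filter, Finset.mem_range]; omega
    rw [this, Finset.card_range]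
  simp only [hdet]
  have hneg : (-1 : F) ≠ 1 := Lib_helper8_FinField.neg_one_ne_one_of_odd_card hF hq
  have hn0 : n ≠ 0 := by omega
  constructor
  · rintro ⟨c, hc, h⟩
    by_contra hcon
    rw [not_or, Nat.not_even_iff_odd, not_lt] at hcon
    obtain ⟨hi_odd, hle⟩ := hcon
    rw [hi_odd.neg_one_pow] at h
    have hcn : c ^ n = -1 := by linear_combination -h
    have hq1 : q - 1 ≠ 0 := by
      obtain ⟨k, hk⟩ := hq
      intro h0
      have hk0 : k = 0 := by omega
      subst hk0
      have := Fintype.one_lt_card (α := F)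
      omega
    obtain ⟨t, ht_odd, ht⟩ := Lib_helper8_FinField.eq_two_pow_mul_odd hq1
    have hdvd : 2 ^ padicValNat 2 (q - 1) ∣ n := (padicValNat_dvd_iff_le hn0).mpr hle
    obtain ⟨r, hr⟩ := hdvd
    have h1 : c ^ (n * t) = 1 := by
      have : n * t = (q - 1) * r := by
        calc n * t = 2 ^ padicValNat 2 (q - 1) * r * t := by rw [← hr]
          _ = 2 ^ padicValNat 2 (q - 1) * t * r := by ring
          _ = (q - 1) * r := by rw [← ht]
      rw [this, pow_mul, ← hF, FiniteField.pow_card_sub_one_eq_one c hc, one_pow]
    have h2 : c ^ (n * t) = -1 := by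
      rw [pow_mul, hcn, ht_odd.neg_one_pow]
    exact hneg (h2.symm.trans h1)
  · rintro (hi | hlt)
    · exact ⟨1, one_ne_zero, by simp [hi.neg_one_pow]⟩
    · rcases Nat.even_or_odd i with hi | hi
      · exact ⟨1, one_ne_zero, by simp [hi.neg_one_pow]⟩
      · obtain ⟨u, hu⟩ := Lib_helper8_FinField.exists_pow_two_pow_eq_neg_one hF hq hlt
        obtain ⟨t, ht_odd, ht⟩ := Lib_helper8_FinField.eq_two_pow_mul_odd hn0
        refine ⟨u, ?_, ?_⟩
        · rintro rfl
          rw [zero_pow (by positivity)] at hu
          exact neg_ne_zero.mpr one_ne_zero hu.symm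
        · have : u ^ n = -1 := by
            conv_lhs => rw [ht]
            rw [pow_mul, hu, ht_odd.neg_one_pow]
          rw [this, hi.neg_one_pow]; ring

end Cfsg.Agent.S2575
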