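import Cfsg.Statements.S2576
import Cfsg.Agent.Lib_helper8_FinField

set_option autoImplicit false
open Cfsg

namespace Cfsg.Agent.S2576

/-- Which involutions of PGL_2m(q) coming from a scalar of the quadratic extension field lie in PSL_2m(q), q odd: let μ generate the Sylow 2-subgroup of the multiplicative group of the field with q elements (μ has order the 2-part of q − 1) and let t be the block-diagonal matrix with m diagonal blocks [[0, 1], [μ, 0]] (so t² is the scalar μ and t is an involution modulo scalars). Then some non-zero scalar multiple of t has determinant one if and only if q ≡ 3 (mod 4) or the 2-part of q − 1 is less than the 2-part of 2m. -/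
theorem result {F : Type*} [Field F] [Fintype F] {q : ℕ} (hF : Fintype.card F = q) (hq : Odd q) {m : ℕ} (hm : 1 ≤ m) (μ : F) (hμ : orderOf μ = 2 ^ padicValNat 2 (q - 1)) : (∃ c : F, c ≠ 0 ∧ (c • Matrix.blockDiagonal (fun _ : Fin m => !![(0 : F), 1; μ, 0])).det = 1) ↔ (q % 4 = 3 ∨ padicValNat 2 (q - 1) < padicValNat 2 (2 * m)) := by
  have hdet : ∀ c : F, (c • Matrix.blockDiagonal (fun _ : Fin m => !![(0 : F), 1; μ, 0])).det
      = c ^ (2 * m) * (-μ) ^ m := by
    intro c
    rw [Matrix.det_smul, Matrix.det_blockDiagonal, Fintype.card_prod, Fintype.card_fin,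
      Fintype.card_fin]
    simp [Matrix.det_fin_two_of]
  simp only [hdet]
  have hneg : (-1 : F) ≠ 1 := Lib_helper8_FinField.neg_one_ne_one_of_odd_card hF hq
  have hm0 : m ≠ 0 := by omega
  have hq1 : q - 1 ≠ 0 := by
    obtain ⟨k, hk⟩ := hq
    intro h0
    have hk0 : k = 0 := by omega
    subst hk0
    have := Fintype.one_lt_card (α := F)
    omega
  have hs1 : 1 ≤ padicValNat 2 (q - 1) := by
    rw [← padicValNat_dvd_iff_le hq1]
    obtain ⟨k, hk⟩ := hq
    exact ⟨k, by omega⟩
  have hv : padicValNat 2 (2 * m) = padicValNat 2 m + 1 := by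
    rw [padicValNat.mul (by norm_num) hm0, padicValNat_self]; ring
  rw [hv, Nat.lt_succ_iff]
  set s := padicValNat 2 (q - 1) with hs
  -- the element μ^(2^(s-1)) equals -1
  have hμ1 : μ ^ (2 ^ (s - 1)) = -1 := by
    have h1 : (μ ^ (2 ^ (s - 1))) ^ 2 = 1 := by
      rw [← pow_mul, ← pow_succ, Nat.sub_add_cancel hs1, ← hμ, pow_orderOf_eq_one]
    have h2 : μ ^ (2 ^ (s - 1)) ≠ 1 := by
      intro h
      have h3 := orderOf_dvd_of_pow_eq_one h
      rw [hμ] at h3
      have h4 := Nat.le_of_dvd (by positivity) h3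
      have h5 : 2 ^ s = 2 ^ (s - 1) * 2 := by rw [← pow_succ, Nat.sub_add_cancel hs1]
      have : 0 < 2 ^ (s - 1) := by positivity
      omega
    rcases sq_eq_one_iff.mp h1 with h | h
    · exact absurd h h2
    · exact h
  constructor
  · rintro ⟨c, hc, h⟩
    by_contra hcon
    rw [not_or, not_le] at hcon
    obtain ⟨hq4, hlt⟩ := hcon
    have hs2 : 2 ≤ s := by
      rw [hs, ← padicValNat_dvd_iff_le hq1]
      obtain ⟨k, hk⟩ := hq
      exact ⟨k / 2, by omega⟩
    obtain ⟨t, ht_odd, ht⟩ := Lib_helper8_FinField.eq_two_pow_mul_odd hq1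
    obtain ⟨m', hm'_odd, hm'⟩ := Lib_helper8_FinField.eq_two_pow_mul_odd hm0
    rw [← hs] at ht
    set a := padicValNat 2 m with ha
    have hw : (-μ * c ^ 2) ^ m = 1 := by
      rw [mul_pow, ← pow_mul, mul_comm ((-μ) ^ m)]; exact h
    have e1 : (-μ * c ^ 2) ^ (2 ^ (s - 1) * t * m') = 1 := by
      have : 2 ^ (s - 1) * t * m' = m * (2 ^ (s - 1 - a) * t) := by
        conv_rhs => rw [hm']
        have : 2 ^ (s - 1) = 2 ^ a * 2 ^ (s - 1 - a) := by
          rw [← pow_add]; congr 1; omega
        rw [this]; ring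
      rw [this, pow_mul, hw, one_pow]
    have e2 : (-μ * c ^ 2) ^ (2 ^ (s - 1) * t) = -1 := by
      have hev : Even (2 ^ (s - 1) * t) := by
        apply Even.mul_right
        exact (Nat.even_pow' (by omega)).mpr even_two
      have hc1 : (c ^ 2) ^ (2 ^ (s - 1) * t) = 1 := by
        rw [← pow_mul]
        have : 2 * (2 ^ (s - 1) * t) = q - 1 := by
          rw [ht]
          have : 2 ^ s = 2 * 2 ^ (s - 1) := by rw [← pow_succ', Nat.sub_add_cancel hs1]
          rw [this]; ring
        rw [this, ← hF, FiniteField.pow_card_sub_one_eq_one c hc]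
      rw [mul_pow, hc1, mul_one, neg_pow, hev.neg_one_pow, one_mul, pow_mul, hμ1,
        ht_odd.neg_one_pow]
    rw [pow_mul, e2, hm'_odd.neg_one_pow] at e1
    exact hneg e1
  · rintro (hq4 | hle)
    · have hs_eq : s = 1 := by
        apply le_antisymm _ hs1
        by_contra hgt
        rw [not_le] at hgt
        have : 2 ^ 2 ∣ q - 1 := (padicValNat_dvd_iff_le hq1).mpr hgt
        obtain ⟨k, hk⟩ := this
        omega
      rw [hs_eq] at hμ1
      simp only [Nat.sub_self, pow_zero, pow_one] at hμ1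
      exact ⟨1, one_ne_zero, by rw [hμ1]; simp⟩
    · have hdvd : 2 ^ s ∣ m := (padicValNat_dvd_iff_le hm0).mpr hle
      have hev : Even m := by
        have : 2 ∣ m := dvd_trans (dvd_pow_self 2 (by omega)) hdvd
        exact even_iff_two_dvd.mpr this
      have hμm : μ ^ m = 1 := by
        rw [← hμ] at hdvd
        exact orderOf_dvd_iff_pow_eq_one.mp hdvd
      exact ⟨1, one_ne_zero, by rw [neg_pow, hev.neg_one_pow, hμm]; simp⟩

end Cfsg.Agent.S2576
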