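import Cfsg.Statements.S2578
import Mathlib
import Cfsg.Agent.Lib_helper8_SSCount

set_option autoImplicit false
open Cfsg

namespace Cfsg.Agent.S2578

section Aux
open Module Cfsg.Agent.Lib_helper8_SSCount

variable {F : Type*} [Field F]

/-- the nilpotent Jordan block: ones on the superdiagonal -/
def N0 (F : Type*) [Field F] (n : ℕ) : Matrix (Fin n) (Fin n) F :=
  Matrix.of fun i j => if j.val = i.val + 1 then 1 else 0

theorem N0_apply (n : ℕ) (i j : Fin n) :
    N0 F n i j = if j.val = i.val + 1 then 1 else 0 := rfl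

theorem mul_N0_apply {n : ℕ} (z : Matrix (Fin n) (Fin n) F) (i j : Fin n) :
    (z * N0 F n) i j = if h : 0 < j.val then z i ⟨j.val - 1, by omega⟩ else 0 := by
  rw [Matrix.mul_apply]
  split_ifs with h
  · rw [Finset.sum_eq_single ⟨j.val - 1, by omega⟩]
    · rw [N0_apply, if_pos (by show j.val = j.val - 1 + 1; omega), mul_one]
    · intro k _ hk
      rw [N0_apply, if_neg, mul_zero]
      intro h2
      apply hk
      apply Fin.ext
      show k.val = j.val - 1
      omega
    · intro h2; exact absurd (Finset.mem_univ _) h2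
  · apply Finset.sum_eq_zero
    intro k _
    rw [N0_apply, if_neg (by omega), mul_zero]

theorem N0_mul_apply {n : ℕ} (z : Matrix (Fin n) (Fin n) F) (i j : Fin n) :
    (N0 F n * z) i j = if h : i.val + 1 < n then z ⟨i.val + 1, h⟩ j else 0 := by
  rw [Matrix.mul_apply]
  split_ifs with h
  · rw [Finset.sum_eq_single ⟨i.val + 1, h⟩]
    · rw [N0_apply, if_pos rfl, one_mul]
    · intro k _ hk
      rw [N0_apply, if_neg, zero_mul]
      intro h2
      apply hk
      apply Fin.ext
      exact h2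
    · intro h2; exact absurd (Finset.mem_univ _) h2
  · apply Finset.sum_eq_zero
    intro k _
    rw [N0_apply, if_neg (by omega), zero_mul]

theorem N0_pow_apply (n k : ℕ) (i j : Fin n) :
    (N0 F n ^ k) i j = if j.val = i.val + k then 1 else 0 := by
  induction k generalizing i j with
  | zero =>
    rw [pow_zero, Matrix.one_apply]
    simp [Fin.ext_iff, eq_comm]
  | succ k ih =>
    rw [pow_succ, mul_N0_apply]
    split_ifs with h h2 h2
    · rw [ih, if_pos (by show j.val - 1 = i.val + k; omega)]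
    · rw [ih, if_neg (by show ¬ (j.val - 1 = i.val + k); omega)]
    · omega
    · rfl

theorem N0_pow_self (n : ℕ) : N0 F n ^ n = 0 := by
  ext i j
  rw [N0_pow_apply, if_neg (by omega)]
  rfl

/-- a matrix commuting with the Jordan block is upper triangular with constant diagonal -/
theorem det_of_comm_N0 {n : ℕ} (hn : 0 < n) (z : Matrix (Fin n) (Fin n) F)
    (hz : z * N0 F n = N0 F n * z) : z.det = (z ⟨0, hn⟩ ⟨0, hn⟩) ^ n := by
  have key : ∀ (i j : Fin n) (h1 : i.val + 1 < n) (h2 : 0 < j.val),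
      z i ⟨j.val - 1, by omega⟩ = z ⟨i.val + 1, h1⟩ j := by
    intro i j h1 h2
    have := congrFun (congrFun hz i) j
    rwa [mul_N0_apply, N0_mul_apply, dif_pos h1, dif_pos h2] at this
  have key0 : ∀ (i j : Fin n) (h1 : i.val + 1 < n), j.val = 0 → z ⟨i.val + 1, h1⟩ j = 0 := by
    intro i j h1 h2
    have := congrFun (congrFun hz i) j
    rw [mul_N0_apply, N0_mul_apply, dif_pos h1, dif_neg (by omega)] at this
    exact this.symm
  have hU : ∀ (d : ℕ) (i j : Fin n), j.val = d → j.val < i.val → z i j = 0 := by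
    intro d
    induction d with
    | zero =>
      intro i j hj hij
      have := key0 ⟨i.val - 1, by omega⟩ j (by show i.val - 1 + 1 < n; omega) hj
      have e : (⟨(⟨i.val - 1, by omega⟩ : Fin n).val + 1, by show i.val - 1 + 1 < n; omega⟩ : Fin n)
          = i := Fin.ext (by show i.val - 1 + 1 = i.val; omega)
      rwa [e] at this
    | succ d ih =>
      intro i j hj hij
      have h1 := key ⟨i.val - 1, by omega⟩ j (by show i.val - 1 + 1 < n; omega) (by omega)
      have e : (⟨(⟨i.val - 1, by omega⟩ : Fin n).val + 1, by show i.val - 1 + 1 < n; omega⟩ : Fin n)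
          = i := Fin.ext (by show i.val - 1 + 1 = i.val; omega)
      rw [e] at h1
      rw [← h1]
      exact ih ⟨i.val - 1, by omega⟩ ⟨j.val - 1, by omega⟩ (by show j.val - 1 = d; omega)
        (by show j.val - 1 < i.val - 1; omega)
  have hD : ∀ (d : ℕ) (i : Fin n), i.val = d → z i i = z ⟨0, hn⟩ ⟨0, hn⟩ := by
    intro d
    induction d with
    | zero =>
      intro i hi
      have : i = ⟨0, hn⟩ := Fin.ext hi
      rw [this]
    | succ d ih =>
      intro i hi
      have h1 := key ⟨i.val - 1, by omega⟩ i (by show i.val - 1 + 1 < n; omega) (by omega)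
      have e : (⟨(⟨i.val - 1, by omega⟩ : Fin n).val + 1, by show i.val - 1 + 1 < n; omega⟩ : Fin n)
          = i := Fin.ext (by show i.val - 1 + 1 = i.val; omega)
      rw [e] at h1
      rw [← h1]
      exact ih ⟨i.val - 1, by omega⟩ (by show i.val - 1 = d; omega)
  have hUT : z.IsUpperTriangular := by
    intro i j hij
    exact hU j.val i j rfl hij
  rw [Matrix.det_of_isUpperTriangular hUT, Finset.prod_congr rfl (fun i _ => hD i.val i rfl),
    Finset.prod_const, Finset.card_univ, Fintype.card_fin]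

theorem N0_mulVec {n : ℕ} (v : Fin n → F) (i : Fin n) :
    (N0 F n).mulVec v i = if h : i.val + 1 < n then v ⟨i.val + 1, h⟩ else 0 := by
  rw [Matrix.mulVec, dotProduct]
  split_ifs with h
  · rw [Finset.sum_eq_single ⟨i.val + 1, h⟩]
    · rw [N0_apply, if_pos rfl, one_mul]
    · intro k _ hk
      rw [N0_apply, if_neg, zero_mul]
      intro h2
      apply hk
      apply Fin.ext
      exact h2
    · intro h2; exact absurd (Finset.mem_univ _) h2
  · apply Finset.sum_eq_zero
    intro k _
    rw [N0_apply, if_neg (by omega), zero_mul]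

theorem rank_N0 {n : ℕ} (hn : 0 < n) : (N0 F n).rank = n - 1 := by
  classical
  have h1 := LinearMap.finrank_range_add_finrank_ker (N0 F n).mulVecLin
  rw [Module.finrank_fin_fun] at h1
  have h2 : LinearMap.ker (N0 F n).mulVecLin =
      Submodule.span F {Pi.single (⟨0, hn⟩ : Fin n) (1 : F)} := by
    ext v
    rw [LinearMap.mem_ker, Submodule.mem_span_singleton]
    constructor
    · intro hv
      refine ⟨v ⟨0, hn⟩, ?_⟩
      funext i
      by_cases hi : i.val = 0
      · have : i = ⟨0, hn⟩ := Fin.ext hi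
        subst this
        simp
      · have h3 := congrFun hv ⟨i.val - 1, by omega⟩
        rw [Matrix.mulVecLin_apply, N0_mulVec, dif_pos (by show i.val - 1 + 1 < n; omega)] at h3
        have e : (⟨(⟨i.val - 1, by omega⟩ : Fin n).val + 1, by show i.val - 1 + 1 < n; omega⟩ :
            Fin n) = i := Fin.ext (by show i.val - 1 + 1 = i.val; omega)
        rw [e] at h3
        have hne : i ≠ ⟨0, hn⟩ := fun h => hi (congrArg Fin.val h)
        rw [Pi.smul_apply, Pi.single_eq_of_ne hne, smul_zero]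
        exact h3.symm
    · rintro ⟨c, rfl⟩
      funext i
      rw [Matrix.mulVecLin_apply, N0_mulVec]
      split_ifs with h
      · have hne : (⟨i.val + 1, h⟩ : Fin n) ≠ ⟨0, hn⟩ := fun h2 => by
          have := congrArg Fin.val h2
          simp at this
        rw [Pi.smul_apply, Pi.single_eq_of_ne hne, smul_zero]
        rfl
      · rfl
  have h3 : finrank F (LinearMap.ker (N0 F n).mulVecLin) = 1 := by
    rw [h2]
    apply finrank_span_singleton
    intro h0
    have := congrFun h0 ⟨0, hn⟩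
    simp at this
  show finrank F (LinearMap.range (N0 F n).mulVecLin) = n - 1
  omega

theorem finrank_ker_comp_le {V : Type*} [AddCommGroup V] [Module F V] [FiniteDimensional F V]
    (f g : V →ₗ[F] V) :
    finrank F (LinearMap.ker (f ∘ₗ g)) ≤
      finrank F (LinearMap.ker f) + finrank F (LinearMap.ker g) := by
  let h : LinearMap.ker (f ∘ₗ g) →ₗ[F] LinearMap.ker f :=
    g.restrict (fun x hx => by
      rw [LinearMap.mem_ker] at hx ⊢
      exact hx)
  have h1 := LinearMap.finrank_range_add_finrank_ker h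
  have h2 : finrank F (LinearMap.range h) ≤ finrank F (LinearMap.ker f) := Submodule.finrank_le _
  have h3 : finrank F (LinearMap.ker h) ≤ finrank F (LinearMap.ker g) := by
    let ι : LinearMap.ker h →ₗ[F] LinearMap.ker g :=
      { toFun := fun x => ⟨x.1.1, by
          have := x.2
          rw [LinearMap.mem_ker] at this ⊢
          exact congrArg Subtype.val this⟩
        map_add' := fun _ _ => rfl
        map_smul' := fun _ _ => rfl }
    apply LinearMap.finrank_le_finrank_of_injective (f := ι)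
    intro x y hxy
    apply Subtype.ext
    apply Subtype.ext
    have h5 : ((ι x : LinearMap.ker g) : V) = ((ι y : LinearMap.ker g) : V) := by rw [hxy]
    exact h5
  omega

theorem finrank_ker_pow_le {V : Type*} [AddCommGroup V] [Module F V] [FiniteDimensional F V]
    (f : V →ₗ[F] V) (hf : finrank F (LinearMap.ker f) ≤ 1) (k : ℕ) :
    finrank F (LinearMap.ker (f ^ k)) ≤ k := by
  induction k with
  | zero =>
    have : LinearMap.ker (f ^ 0) = ⊥ := by
      rw [pow_zero]; exact LinearMap.ker_id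
    rw [this, finrank_bot]
  | succ k ih =>
    rw [pow_succ, Module.End.mul_eq_comp]
    have := finrank_ker_comp_le (f ^ k) f
    omega

theorem mulVecLin_pow {n : ℕ} (M : Matrix (Fin n) (Fin n) F) (k : ℕ) :
    (M ^ k).mulVecLin = M.mulVecLin ^ k := by
  induction k with
  | zero => rw [pow_zero, pow_zero, Matrix.mulVecLin_one]; rfl
  | succ k ih => rw [pow_succ, pow_succ, Matrix.mulVecLin_mul, ih, Module.End.mul_eq_comp]

theorem exists_conj_J {n : ℕ} (hn : 0 < n) (A : Matrix (Fin n) (Fin n) F)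
    (h1 : (A - 1) ^ n = 0) (h2 : (A - 1).rank = n - 1) :
    ∃ P : GL (Fin n) F, A * (P : Matrix (Fin n) (Fin n) F) =
      (P : Matrix (Fin n) (Fin n) F) * (1 + N0 F n) := by
  classical
  set N := A - 1 with hN
  have hker : finrank F (LinearMap.ker N.mulVecLin) ≤ 1 := by
    have := LinearMap.finrank_range_add_finrank_ker N.mulVecLin
    rw [Module.finrank_fin_fun] at this
    have h2' : finrank F (LinearMap.range N.mulVecLin) = n - 1 := h2
    omega
  have hNn1 : N ^ (n - 1) ≠ 0 := by
    intro h0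
    have h3 := finrank_ker_pow_le N.mulVecLin hker (n - 1)
    have h4 : N.mulVecLin ^ (n - 1) = 0 := by
      rw [← mulVecLin_pow, h0, Matrix.mulVecLin_zero]
    rw [h4, LinearMap.ker_zero, finrank_top, Module.finrank_fin_fun] at h3
    omega
  obtain ⟨v, hv⟩ : ∃ v : Fin n → F, (N ^ (n - 1)).mulVec v ≠ 0 := by
    by_contra hcon
    push Not at hcon
    apply hNn1
    ext i j
    have := congrFun (hcon (Pi.single j 1)) i
    rwa [Matrix.mulVec_single_one] at this
  have hli : LinearIndependent F (fun i : Fin n => (N ^ (i : ℕ)).mulVec v) := by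
    rw [Fintype.linearIndependent_iff]
    intro g hg
    have key : ∀ e : ℕ, ∀ i : Fin n, i.val = e → g i = 0 := by
      intro e
      induction e using Nat.strong_induction_on with
      | _ e ih =>
        intro i hi
        have h3 := congrArg (fun w => (N ^ (n - 1 - e)).mulVec w) hg
        simp only [Matrix.mulVec_sum, Matrix.mulVec_smul, Matrix.mulVec_mulVec, Matrix.mulVec_zero,
          ← pow_add] at h3
        rw [Finset.sum_eq_single i] at h3
        · have e1 : n - 1 - e + i.val = n - 1 := by omega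
          rw [e1] at h3
          exact (smul_eq_zero.mp h3).resolve_right hv
        · intro j _ hji
          rcases lt_or_gt_of_ne (fun h => hji (Fin.ext h) : j.val ≠ i.val) with hlt | hgt
          · rw [ih j.val (by omega) j rfl, zero_smul]
          · have : N ^ (n - 1 - e + j.val) = 0 := by
              have e2 : n - 1 - e + j.val = n + (j.val - e - 1) := by omega
              rw [e2, pow_add, h1, zero_mul]
            rw [this, Matrix.zero_mulVec, smul_zero]
        · intro h; exact absurd (Finset.mem_univ i) h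
    intro i
    exact key i.val i rfl
  let bb : Fin n → (Fin n → F) := fun j => (N ^ (n - 1 - j.val)).mulVec v
  have hli' : LinearIndependent F bb := by
    have : bb = (fun i : Fin n => (N ^ (i : ℕ)).mulVec v) ∘ Fin.rev := by
      funext j
      show (N ^ (n - 1 - j.val)).mulVec v = (N ^ ((Fin.rev j : Fin n) : ℕ)).mulVec v
      rw [Fin.val_rev]
      congr 2
      omega
    rw [this]
    exact hli.comp _ Fin.rev_injective
  haveI : Nonempty (Fin n) := ⟨⟨0, hn⟩⟩
  let b : Module.Basis (Fin n) F (Fin n → F) :=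
    basisOfLinearIndependentOfCardEqFinrank hli' (by rw [Fintype.card_fin, Module.finrank_fin_fun])
  have hb : ∀ j, b j = bb j := fun j => by
    show (basisOfLinearIndependentOfCardEqFinrank hli' _) j = bb j
    rw [coe_basisOfLinearIndependentOfCardEqFinrank]
  let B := Pi.basisFun F (Fin n)
  let P : GL (Fin n) F := ⟨B.toMatrix b, b.toMatrix B, B.toMatrix_mul_toMatrix_flip b,
    b.toMatrix_mul_toMatrix_flip B⟩
  have hP : ∀ i j, (P : Matrix (Fin n) (Fin n) F) i j = bb j i := by
    intro i j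
    show B.toMatrix b i j = bb j i
    rw [Module.Basis.toMatrix_apply, hb]
    simp [B]
  refine ⟨P, ?_⟩
  have hNP : N * (P : Matrix (Fin n) (Fin n) F) = (P : Matrix (Fin n) (Fin n) F) * N0 F n := by
    ext i j
    rw [mul_N0_apply, Matrix.mul_apply]
    have h3 : ∑ k, N i k * (P : Matrix (Fin n) (Fin n) F) k j = (N.mulVec (bb j)) i := by
      rw [Matrix.mulVec, dotProduct]
      exact Finset.sum_congr rfl fun k _ => by rw [hP]
    rw [h3]
    show (N.mulVec ((N ^ (n - 1 - j.val)).mulVec v)) i = _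
    rw [Matrix.mulVec_mulVec, ← pow_succ']
    split_ifs with h
    · rw [hP]
      show _ = ((N ^ (n - 1 - (j.val - 1))).mulVec v) i
      congr 3
      omega
    · have : n - 1 - j.val + 1 = n := by omega
      rw [this, h1, Matrix.zero_mulVec]
      rfl
  calc A * (P : Matrix (Fin n) (Fin n) F) = (1 + N) * P := by rw [hN, add_sub_cancel]
    _ = P + N * P := by rw [add_mul, one_mul]
    _ = P + P * N0 F n := by rw [hNP]
    _ = P * (1 + N0 F n) := by rw [mul_add, mul_one]

theorem conj_pow_mat {n : ℕ} (C Ci X : Matrix (Fin n) (Fin n) F) (h : Ci * C = 1) (k : ℕ) :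
    (C * X * Ci) ^ k = C * X ^ k * Ci ∨ k = 0 := by
  induction k with
  | zero => right; rfl
  | succ k ih =>
    left
    rcases ih with ih | rfl
    · rw [pow_succ, ih, pow_succ]
      calc C * X ^ k * Ci * (C * X * Ci) = C * X ^ k * (Ci * C) * X * Ci := by
            simp only [Matrix.mul_assoc]
        _ = C * (X ^ k * X) * Ci := by rw [h, Matrix.mul_one, Matrix.mul_assoc C]
    · rw [zero_add, pow_one, pow_one]

/-- regular unipotent matrices -/
def Reg {n : ℕ} (A : Matrix (Fin n) (Fin n) F) : Prop :=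
  (A - 1) ^ n = 0 ∧ (A - 1).rank = n - 1

theorem reg_J {n : ℕ} (hn : 0 < n) : Reg (1 + N0 F n) := by
  unfold Reg
  rw [add_sub_cancel_left]
  exact ⟨N0_pow_self n, rank_N0 hn⟩

theorem reg_conj {n : ℕ} (hn : 0 < n) (C : GL (Fin n) F) (A : Matrix (Fin n) (Fin n) F)
    (hA : Reg A) : Reg ((C : Matrix (Fin n) (Fin n) F) * A *
      ((C⁻¹ : GL (Fin n) F) : Matrix (Fin n) (Fin n) F)) := by
  have h1 : ((C⁻¹ : GL (Fin n) F) : Matrix (Fin n) (Fin n) F) * (C : Matrix (Fin n) (Fin n) F) = 1 := by
    rw [← Units.val_mul, inv_mul_cancel, Units.val_one]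
  have h2 : (C : Matrix (Fin n) (Fin n) F) * ((C⁻¹ : GL (Fin n) F) : Matrix (Fin n) (Fin n) F) = 1 := by
    rw [← Units.val_mul, mul_inv_cancel, Units.val_one]
  have h3 : (C : Matrix (Fin n) (Fin n) F) * A * ((C⁻¹ : GL (Fin n) F) : Matrix (Fin n) (Fin n) F) - 1
      = (C : Matrix (Fin n) (Fin n) F) * (A - 1) *
        ((C⁻¹ : GL (Fin n) F) : Matrix (Fin n) (Fin n) F) := by
    rw [mul_sub, sub_mul, mul_one, h2]
  have hdC : IsUnit (C : Matrix (Fin n) (Fin n) F).det :=
    (Matrix.isUnit_iff_isUnit_det _).mp C.isUnit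
  have hdCi : IsUnit ((C⁻¹ : GL (Fin n) F) : Matrix (Fin n) (Fin n) F).det :=
    (Matrix.isUnit_iff_isUnit_det _).mp (C⁻¹).isUnit
  unfold Reg
  rw [h3]
  constructor
  · rcases conj_pow_mat (C : Matrix (Fin n) (Fin n) F) _ (A - 1) h1 n with h | h
    · rw [h, hA.1, mul_zero, zero_mul]
    · omega
  · rw [Matrix.rank_mul_eq_left_of_isUnit_det _ _ hdCi, Matrix.rank_mul_eq_right_of_isUnit_det _ _ hdC]
    exact hA.2

theorem inv_conj {n : ℕ} (A : Matrix (Fin n) (Fin n) F) (P : GL (Fin n) F)
    (hP : A * (P : Matrix (Fin n) (Fin n) F) = (P : Matrix (Fin n) (Fin n) F) * (1 + N0 F n)) :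
    ((P⁻¹ : GL (Fin n) F) : Matrix (Fin n) (Fin n) F) * A =
      (1 + N0 F n) * ((P⁻¹ : GL (Fin n) F) : Matrix (Fin n) (Fin n) F) := by
  have h1 : ((P⁻¹ : GL (Fin n) F) : Matrix (Fin n) (Fin n) F) * (P : Matrix (Fin n) (Fin n) F) = 1 := by
    rw [← Units.val_mul, inv_mul_cancel, Units.val_one]
  have h2 : (P : Matrix (Fin n) (Fin n) F) * ((P⁻¹ : GL (Fin n) F) : Matrix (Fin n) (Fin n) F) = 1 := by
    rw [← Units.val_mul, mul_inv_cancel, Units.val_one]
  calc ((P⁻¹ : GL (Fin n) F) : Matrix (Fin n) (Fin n) F) * A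
      = ((P⁻¹ : GL (Fin n) F) : Matrix (Fin n) (Fin n) F) * A *
          ((P : Matrix (Fin n) (Fin n) F) * ((P⁻¹ : GL (Fin n) F) : Matrix (Fin n) (Fin n) F)) := by
        rw [h2, mul_one]
    _ = ((P⁻¹ : GL (Fin n) F) : Matrix (Fin n) (Fin n) F) * (A * (P : Matrix (Fin n) (Fin n) F)) *
          ((P⁻¹ : GL (Fin n) F) : Matrix (Fin n) (Fin n) F) := by simp only [Matrix.mul_assoc]
    _ = (((P⁻¹ : GL (Fin n) F) : Matrix (Fin n) (Fin n) F) * (P : Matrix (Fin n) (Fin n) F)) *
          (1 + N0 F n) * ((P⁻¹ : GL (Fin n) F) : Matrix (Fin n) (Fin n) F) := by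
        rw [hP]; simp only [Matrix.mul_assoc]
    _ = (1 + N0 F n) * ((P⁻¹ : GL (Fin n) F) : Matrix (Fin n) (Fin n) F) := by rw [h1, one_mul]

/-- two conjugators to the Jordan block differ by an `n`-th power in determinant -/
theorem det_quot {n : ℕ} (hn : 0 < n) (A : Matrix (Fin n) (Fin n) F) (P P' : GL (Fin n) F)
    (hP : A * (P : Matrix (Fin n) (Fin n) F) = (P : Matrix (Fin n) (Fin n) F) * (1 + N0 F n))
    (hP' : A * (P' : Matrix (Fin n) (Fin n) F) = (P' : Matrix (Fin n) (Fin n) F) * (1 + N0 F n)) :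
    (QuotientGroup.mk (Matrix.GeneralLinearGroup.det P) :
      Fˣ ⧸ (powMonoidHom n : Fˣ →* Fˣ).range) =
      QuotientGroup.mk (Matrix.GeneralLinearGroup.det P') := by
  rw [QuotientGroup.eq]
  set Z : GL (Fin n) F := P⁻¹ * P' with hZ
  have hZv : (Z : Matrix (Fin n) (Fin n) F) =
      ((P⁻¹ : GL (Fin n) F) : Matrix (Fin n) (Fin n) F) * (P' : Matrix (Fin n) (Fin n) F) := rfl
  have hJ : (Z : Matrix (Fin n) (Fin n) F) * (1 + N0 F n) = (1 + N0 F n) * Z := by
    rw [hZv, Matrix.mul_assoc, ← hP', ← Matrix.mul_assoc, inv_conj A P hP, Matrix.mul_assoc]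
  have hcomm : (Z : Matrix (Fin n) (Fin n) F) * N0 F n = N0 F n * Z := by
    rw [mul_add, add_mul, mul_one, one_mul] at hJ
    exact add_left_cancel hJ
  have hdet := det_of_comm_N0 hn _ hcomm
  have hz0 : (Z : Matrix (Fin n) (Fin n) F) ⟨0, hn⟩ ⟨0, hn⟩ ≠ 0 := by
    intro h0
    rw [h0, zero_pow (by omega)] at hdet
    exact (Matrix.GeneralLinearGroup.det Z).ne_zero hdet
  refine ⟨Units.mk0 _ hz0, ?_⟩
  rw [← map_inv, ← map_mul]
  apply Units.ext
  show ((Z : Matrix (Fin n) (Fin n) F) ⟨0, hn⟩ ⟨0, hn⟩) ^ n = (Z : Matrix (Fin n) (Fin n) F).det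
  exact hdet.symm

theorem main {F : Type*} [Field F] [Fintype F] {q : ℕ} (hF : Fintype.card F = q) {n : ℕ}
    (hn : 2 ≤ n) :
    Nat.card {C : ConjClasses (Matrix.SpecialLinearGroup (Fin n) F) //
      ∃ u : Matrix.SpecialLinearGroup (Fin n) F, ConjClasses.mk u = C ∧
        ((u : Matrix (Fin n) (Fin n) F) - 1) ^ n = 0 ∧
        ((u : Matrix (Fin n) (Fin n) F) - 1).rank = n - 1} = Nat.gcd n (q - 1) := by
  classical
  have hn0 : 0 < n := by omega
  let S : Matrix.SpecialLinearGroup (Fin n) F → Prop := fun u =>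
    ((u : Matrix (Fin n) (Fin n) F) - 1) ^ n = 0 ∧ ((u : Matrix (Fin n) (Fin n) F) - 1).rank = n - 1
  let χ : Matrix.SpecialLinearGroup (Fin n) F → Fˣ ⧸ (powMonoidHom n : Fˣ →* Fˣ).range := fun u =>
    if h : S u then QuotientGroup.mk
      (Matrix.GeneralLinearGroup.det (exists_conj_J hn0 u.1 h.1 h.2).choose) else 1
  have hχ : ∀ (u : Matrix.SpecialLinearGroup (Fin n) F) (hS : S u) (P : GL (Fin n) F),
      (u : Matrix (Fin n) (Fin n) F) * (P : Matrix (Fin n) (Fin n) F) =
        (P : Matrix (Fin n) (Fin n) F) * (1 + N0 F n) →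
      χ u = QuotientGroup.mk (Matrix.GeneralLinearGroup.det P) := by
    intro u hS P hP
    show (if h : S u then _ else _) = _
    rw [dif_pos hS]
    exact det_quot hn0 u.1 _ P (exists_conj_J hn0 u.1 hS.1 hS.2).choose_spec hP
  -- the GL element of an SL element
  let toG : Matrix.SpecialLinearGroup (Fin n) F → GL (Fin n) F := fun c =>
    ⟨c.1, (c⁻¹ : Matrix.SpecialLinearGroup (Fin n) F).1,
      congrArg Subtype.val (mul_inv_cancel c), congrArg Subtype.val (inv_mul_cancel c)⟩
  have htoGdet : ∀ c, Matrix.GeneralLinearGroup.det (toG c) = 1 := by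
    intro c
    apply Units.ext
    show (c : Matrix (Fin n) (Fin n) F).det = 1
    exact c.2
  have hSconj : ∀ (c u : Matrix.SpecialLinearGroup (Fin n) F), S u → S (c * u * c⁻¹) := by
    intro c u hu
    exact reg_conj hn0 (toG c) u.1 hu
  have hconjP : ∀ (c u u' : Matrix.SpecialLinearGroup (Fin n) F) (P : GL (Fin n) F),
      c * u * c⁻¹ = u' →
      (u : Matrix (Fin n) (Fin n) F) * (P : Matrix (Fin n) (Fin n) F) =
        (P : Matrix (Fin n) (Fin n) F) * (1 + N0 F n) →
      (u' : Matrix (Fin n) (Fin n) F) * ((toG c * P : GL (Fin n) F) : Matrix (Fin n) (Fin n) F) =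
        ((toG c * P : GL (Fin n) F) : Matrix (Fin n) (Fin n) F) * (1 + N0 F n) := by
    intro c u u' P hc hP
    have h1 : u' * c = c * u := by rw [← hc]; group
    have h2 : (u' : Matrix (Fin n) (Fin n) F) * (c : Matrix (Fin n) (Fin n) F) =
        (c : Matrix (Fin n) (Fin n) F) * (u : Matrix (Fin n) (Fin n) F) :=
      congrArg Subtype.val h1
    show (u' : Matrix (Fin n) (Fin n) F) * ((c : Matrix (Fin n) (Fin n) F) *
      (P : Matrix (Fin n) (Fin n) F)) = (c : Matrix (Fin n) (Fin n) F) *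
      (P : Matrix (Fin n) (Fin n) F) * (1 + N0 F n)
    rw [← Matrix.mul_assoc, h2, Matrix.mul_assoc, hP, Matrix.mul_assoc]
  rw [card_classes S (fun _ : Fˣ ⧸ (powMonoidHom n : Fˣ →* Fˣ).range => True) χ
    (fun _ _ => trivial)]
  · rw [Nat.card_congr (Equiv.subtypeUnivEquiv (fun _ => trivial))]
    show (powMonoidHom n : Fˣ →* Fˣ).range.index = _
    rw [IsCyclic.index_powMonoidHom_range, Nat.card_units, Nat.card_eq_fintype_card, hF,
      Nat.gcd_comm]
  · -- same invariant ⇒ conjugate
    intro u u' hu hu' hχe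
    obtain ⟨P, hP⟩ := exists_conj_J hn0 u.1 hu.1 hu.2
    obtain ⟨P', hP'⟩ := exists_conj_J hn0 u'.1 hu'.1 hu'.2
    rw [hχ u hu P hP, hχ u' hu' P' hP', QuotientGroup.eq] at hχe
    obtain ⟨a, ha⟩ := hχe
    have ha' : a ^ n = (Matrix.GeneralLinearGroup.det P)⁻¹ * Matrix.GeneralLinearGroup.det P' := ha
    set Pi : Matrix (Fin n) (Fin n) F := ((P⁻¹ : GL (Fin n) F) : Matrix (Fin n) (Fin n) F) with hPi
    have hdetc : (((a⁻¹ : Fˣ) : F) • ((P' : Matrix (Fin n) (Fin n) F) * Pi)).det = 1 := by
      rw [Matrix.det_smul, Fintype.card_fin, Matrix.det_mul]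
      have h1 : ((a⁻¹ : Fˣ) ^ n * (Matrix.GeneralLinearGroup.det P' *
          (Matrix.GeneralLinearGroup.det P)⁻¹) : Fˣ) = 1 := by
        rw [inv_pow, ha', mul_comm (Matrix.GeneralLinearGroup.det P') _]
        exact inv_mul_cancel _
      have h2 := congrArg Units.val h1
      rw [← map_inv] at h2
      exact h2
    let c : Matrix.SpecialLinearGroup (Fin n) F :=
      ⟨((a⁻¹ : Fˣ) : F) • ((P' : Matrix (Fin n) (Fin n) F) * Pi), hdetc⟩
    rw [isConj_iff]
    refine ⟨c, ?_⟩
    rw [mul_inv_eq_iff_eq_mul]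
    apply Subtype.ext
    show ((a⁻¹ : Fˣ) : F) • ((P' : Matrix (Fin n) (Fin n) F) * Pi) * (u : Matrix (Fin n) (Fin n) F)
      = (u' : Matrix (Fin n) (Fin n) F) * (((a⁻¹ : Fˣ) : F) • ((P' : Matrix (Fin n) (Fin n) F) * Pi))
    rw [Matrix.smul_mul, Matrix.mul_smul, Matrix.mul_assoc, hPi, inv_conj u.1 P hP,
      ← Matrix.mul_assoc, ← hP', Matrix.mul_assoc]
  · -- every value is attained
    intro a _
    obtain ⟨d, rfl⟩ := QuotientGroup.mk_surjective a
    set Dm : Matrix (Fin n) (Fin n) F :=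
      Matrix.diagonal (fun i : Fin n => if i = ⟨0, hn0⟩ then (d : F) else 1) with hDm
    have hdetD : Dm.det = d := by
      rw [hDm, Matrix.det_diagonal, Finset.prod_ite_eq' Finset.univ (⟨0, hn0⟩ : Fin n)
        (fun _ => (d : F))]
      simp
    let D : GL (Fin n) F := Matrix.GeneralLinearGroup.mkOfDetNeZero Dm (by
      rw [hdetD]; exact d.ne_zero)
    have hD : (D : Matrix (Fin n) (Fin n) F) = Dm := rfl
    have hDdet : Matrix.GeneralLinearGroup.det D = d := Units.ext hdetD
    have hreg := reg_conj hn0 D (1 + N0 F n) (reg_J hn0)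
    have h1 : ((D⁻¹ : GL (Fin n) F) : Matrix (Fin n) (Fin n) F) * (D : Matrix (Fin n) (Fin n) F) = 1 := by
      rw [← Units.val_mul, inv_mul_cancel, Units.val_one]
    have hJdet : (1 + N0 F n : Matrix (Fin n) (Fin n) F).det = 1 := by
      have h2 := det_of_comm_N0 hn0 (1 + N0 F n : Matrix (Fin n) (Fin n) F)
        (by rw [add_mul, mul_add, one_mul, mul_one])
      rw [h2, Matrix.add_apply, Matrix.one_apply_eq, N0_apply, if_neg (by simp), add_zero, one_pow]
    have hudet : ((D : Matrix (Fin n) (Fin n) F) * (1 + N0 F n) *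
        ((D⁻¹ : GL (Fin n) F) : Matrix (Fin n) (Fin n) F)).det = 1 := by
      rw [Matrix.det_mul, Matrix.det_mul, hJdet, mul_one, ← Matrix.det_mul, ← Units.val_mul,
        mul_inv_cancel, Units.val_one, Matrix.det_one]
    let u : Matrix.SpecialLinearGroup (Fin n) F := ⟨_, hudet⟩
    refine ⟨u, hreg, ?_⟩
    rw [hχ u hreg D ?_, hDdet]
    show (D : Matrix (Fin n) (Fin n) F) * (1 + N0 F n) *
        ((D⁻¹ : GL (Fin n) F) : Matrix (Fin n) (Fin n) F) * (D : Matrix (Fin n) (Fin n) F) =
      (D : Matrix (Fin n) (Fin n) F) * (1 + N0 F n)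
    rw [Matrix.mul_assoc, h1, mul_one]
  · -- class invariance
    intro u u' huu'
    obtain ⟨c, hc⟩ := isConj_iff.mp huu'
    by_cases hu : S u
    · have hu' : S u' := by rw [← hc]; exact hSconj c u hu
      obtain ⟨P, hP⟩ := exists_conj_J hn0 u.1 hu.1 hu.2
      rw [hχ u hu P hP, hχ u' hu' (toG c * P) (hconjP c u u' P hc hP), map_mul, htoGdet, one_mul]
    · have hu' : ¬ S u' := by
        intro h
        apply hu
        have h2 : c⁻¹ * u' * c⁻¹⁻¹ = u := by rw [← hc]; group
        rw [← h2]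
        exact hSconj c⁻¹ u' h
      show (if h : S u then _ else _) = (if h : S u' then _ else _)
      rw [dif_neg hu, dif_neg hu']

end Aux

/-- Regular unipotent classes of SL_n(q): for n ≥ 2 over the field with q elements, the matrices u of determinant one with (u − 1)^n = 0 and rank(u − 1) = n − 1 form a single GL_n(q)-class which splits into exactly gcd(n, q − 1) conjugacy classes of SL_n(q). -/
theorem result {F : Type*} [Field F] [Fintype F] {q : ℕ} (hF : Fintype.card F = q) {n : ℕ} (hn : 2 ≤ n) : Nat.card {C : ConjClasses (Matrix.SpecialLinearGroup (Fin n) F) // ∃ u : Matrix.SpecialLinearGroup (Fin n) F, ConjClasses.mk u = C ∧ ((u : Matrix (Fin n) (Fin n) F) - 1) ^ n = 0 ∧ ((u : Matrix (Fin n) (Fin n) F) - 1).rank = n - 1} = Nat.gcd n (q - 1) := by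
  exact main hF hn

end Cfsg.Agent.S2578
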