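import Cfsg.Statements.S2585
import Cfsg.Agent.Lib_helper8_Duality

set_option autoImplicit false
open Cfsg

namespace Cfsg.Agent.S2585

/-- Over a finite field of characteristic two every element of the symplectic group is orthogonal for a suitable quadratic form: for each A in Sp_2m(F) there is a quadratic form Q on F^(2m) whose polar form is the alternating form defining Sp_2m(F) (so Q is non-degenerate) and which A preserves. Equivalently, for m ≥ 1, Sp_2m(F) is the union of the conjugates of its two orthogonal subgroups O⁺_2m(F) and O⁻_2m(F). -/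
theorem result {F : Type*} [Field F] [Fintype F] [CharP F 2] {m : ℕ} (A : Matrix.symplecticGroup (Fin m) F) : ∃ Q : QuadraticForm F (Fin m ⊕ Fin m → F), (∀ u v : Fin m ⊕ Fin m → F, QuadraticMap.polar ⇑Q u v = Cfsg.sympForm m F u v) ∧ ∀ v : Fin m ⊕ Fin m → F, Q ((A : Matrix (Fin m ⊕ Fin m) (Fin m ⊕ Fin m) F).mulVec v) = Q v := by
  classical
  set M : Matrix (Fin m ⊕ Fin m) (Fin m ⊕ Fin m) F := (A : Matrix (Fin m ⊕ Fin m) (Fin m ⊕ Fin m) F) with hM
  have h2 : (2 : F) = 0 := CharTwo.two_eq_zero
  let U : Matrix (Fin m ⊕ Fin m) (Fin m ⊕ Fin m) F := Matrix.fromBlocks 0 0 1 0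
  let Q₀ : QuadraticForm F (Fin m ⊕ Fin m → F) := LinearMap.BilinMap.toQuadraticMap (Matrix.toBilin' U)
  have hQ₀ : ∀ v, Q₀ v = dotProduct v (Matrix.mulVec U v) := fun v => by
    simp [Q₀, Matrix.toBilin'_apply']
  have hUJ : U + U.transpose = Matrix.J (Fin m) F := by
    have h1 : (1 : Matrix (Fin m) (Fin m) F) = -1 := by
      ext i j
      rw [Matrix.neg_apply, CharTwo.neg_eq]
    simp only [U, Matrix.J, Matrix.fromBlocks_transpose, Matrix.fromBlocks_add]
    simp [← h1]
  have hdm : ∀ (N : Matrix (Fin m ⊕ Fin m) (Fin m ⊕ Fin m) F) (u w : Fin m ⊕ Fin m → F),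
      dotProduct (Matrix.mulVec N u) w = dotProduct u (Matrix.mulVec N.transpose w) := by
    intro N u w
    rw [Matrix.dotProduct_mulVec, Matrix.vecMul_transpose]
  have hpol₀ : ∀ u v, QuadraticMap.polar ⇑Q₀ u v = Cfsg.sympForm m F u v := by
    intro u v
    have h1 : QuadraticMap.polar ⇑Q₀ u v = Matrix.toBilin' U u v + Matrix.toBilin' U v u :=
      LinearMap.BilinMap.polar_toQuadraticMap (B := Matrix.toBilin' U) u v
    rw [h1]
    simp only [Matrix.toBilin'_apply', Cfsg.sympForm, ← hUJ, Matrix.add_mulVec, dotProduct_add]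
    congr 1
    rw [← hdm, dotProduct_comm]
  have hfA : ∀ u v, Cfsg.sympForm m F (Matrix.mulVec M u) (Matrix.mulVec M v) = Cfsg.sympForm m F u v := by
    intro u v
    have hA : M.transpose * Matrix.J (Fin m) F * M = Matrix.J (Fin m) F :=
      SymplecticGroup.mem_iff'.mp A.2
    simp only [Cfsg.sympForm]
    rw [hdm, Matrix.mulVec_mulVec, Matrix.mulVec_mulVec, hA]
  let D : (Fin m ⊕ Fin m → F) → F := fun v => Q₀ (Matrix.mulVec M v) - Q₀ v
  have hD_add : ∀ u v, D (u + v) = D u + D v := by
    intro u v
    have h1 := hpol₀ (Matrix.mulVec M u) (Matrix.mulVec M v)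
    have h3 := hpol₀ u v
    rw [hfA, ← h3] at h1
    simp only [QuadraticMap.polar, ← Matrix.mulVec_add] at h1
    simp only [D]
    linear_combination h1
  have hD_smul : ∀ (c : F) v, D (c • v) = c * c * D v := by
    intro c v
    simp only [D, Matrix.mulVec_smul, QuadraticMap.map_smul, smul_eq_mul]
    ring
  have hD0 : D 0 = 0 := by simp [D]
  let Dhom : (Fin m ⊕ Fin m → F) →+ F :=
    { toFun := D
      map_zero' := hD0
      map_add' := hD_add }
  have hsq : ∀ i : Fin m ⊕ Fin m, ∃ r : F, D (fun j => if i = j then 1 else 0) = r * r := fun i =>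
    FiniteField.isSquare_of_char_two (ringChar.eq F 2) _
  choose s hs using hsq
  have hDs : ∀ v, D v = dotProduct s v * dotProduct s v := by
    intro v
    have h1 : D v = Dhom (∑ i, v i • fun j => if i = j then (1 : F) else 0) := by
      rw [← pi_eq_sum_univ v]; rfl
    rw [h1, map_sum]
    have h3 : ∀ i, Dhom (v i • fun j => if i = j then (1 : F) else 0) = (s i * v i) ^ 2 := by
      intro i
      show D (v i • fun j => if i = j then (1 : F) else 0) = (s i * v i) ^ 2
      rw [hD_smul, hs]; ring
    simp only [h3]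
    rw [← sum_pow_char 2, pow_two]
    rfl
  have hker : ∀ v, Matrix.mulVec (M - 1) v = 0 → dotProduct s v = 0 := by
    intro v hv
    have hMv : Matrix.mulVec M v = v := by
      rw [Matrix.sub_mulVec, Matrix.one_mulVec, sub_eq_zero] at hv
      exact hv
    have h1 := hDs v
    simp only [D, hMv, sub_self] at h1
    exact mul_self_eq_zero.mp h1.symm
  obtain ⟨t, ht⟩ := Lib_helper8_Duality.exists_transpose_mulVec (M - 1) s hker
  have hMt : Matrix.mulVec M.transpose t = s + t := by
    rw [Matrix.transpose_sub, Matrix.transpose_one, Matrix.sub_mulVec, Matrix.one_mulVec] at ht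
    rw [← ht]; abel
  refine ⟨Q₀ + QuadraticMap.linMulLin (Lib_helper8_Duality.dotLin t) (Lib_helper8_Duality.dotLin t), ?_, ?_⟩
  · intro u v
    have h1 := hpol₀ u v
    simp only [QuadraticMap.polar] at h1
    simp only [QuadraticMap.polar, add_apply, QuadraticMap.linMulLin_apply, map_add]
    linear_combination h1 + Lib_helper8_Duality.dotLin t u * Lib_helper8_Duality.dotLin t v * h2
  · intro v
    simp only [add_apply, QuadraticMap.linMulLin_apply, Lib_helper8_Duality.dotLin_apply]
    have h1 : Q₀ (Matrix.mulVec M v) = Q₀ v + dotProduct s v * dotProduct s v := by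
      have := hDs v
      simp only [D] at this
      linear_combination this
    have h3 : dotProduct t (Matrix.mulVec M v) = dotProduct s v + dotProduct t v := by
      have h4 := hdm M.transpose t v
      rw [Matrix.transpose_transpose] at h4
      rw [← h4, hMt, add_dotProduct]
    rw [h1, h3]
    linear_combination dotProduct s v * (dotProduct s v + dotProduct t v) * h2

end Cfsg.Agent.S2585
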