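import Cfsg.Statements.S2594
import Mathlib
import Cfsg.Agent.Lib_helper4_Sp
import Cfsg.Agent.Lib_helper4_SpCard2

set_option autoImplicit false
open Cfsg

namespace Cfsg.Agent.S2594

section Aux
open Matrix Cfsg.Agent.Lib_helper4_Sp

variable {F : Type*} [Field F] {m : ℕ}

/-- The action of `Sp` on vectors. -/
@[reducible] def vecAction (m : ℕ) (F : Type*) [Field F] :
    MulAction (symplecticGroup (Fin m) F) (Fin m ⊕ Fin m → F) where
  smul A p := (A : Matrix (Fin m ⊕ Fin m) (Fin m ⊕ Fin m) F) *ᵥ p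
  one_smul p := by
    show ((1 : Matrix (Fin m ⊕ Fin m) (Fin m ⊕ Fin m) F)) *ᵥ p = p
    rw [one_mulVec]
  mul_smul A B p := by
    show ((A * B : symplecticGroup (Fin m) F) : Matrix (Fin m ⊕ Fin m) (Fin m ⊕ Fin m) F) *ᵥ p
      = (A : Matrix (Fin m ⊕ Fin m) (Fin m ⊕ Fin m) F) *ᵥ
          ((B : Matrix (Fin m ⊕ Fin m) (Fin m ⊕ Fin m) F) *ᵥ p)
    rw [Submonoid.coe_mul, mulVec_mulVec]

attribute [local instance] vecAction

theorem exists_tv (t : symplecticGroup (Fin m) F)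
    (ht : ((t : Matrix (Fin m ⊕ Fin m) (Fin m ⊕ Fin m) F) - 1).rank = 1) :
    ∃ (w : Fin m ⊕ Fin m → F) (c : F), w ≠ 0 ∧ c ≠ 0 ∧
      (t : Matrix (Fin m ⊕ Fin m) (Fin m ⊕ Fin m) F) = Cfsg.sympTransvection m w c := by
  set T : Matrix (Fin m ⊕ Fin m) (Fin m ⊕ Fin m) F := t.1 with hT
  have hr' : Module.finrank F (LinearMap.range (T - 1).mulVecLin) = 1 := ht
  obtain ⟨⟨x, hxr⟩, hx0, hxs⟩ := finrank_eq_one_iff'.mp hr'
  have hx : x ≠ 0 := by
    rintro rfl
    exact hx0 rfl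
  have hcol : ∀ y : Fin m ⊕ Fin m → F, ∃ c : F, c • x = (T - 1) *ᵥ y := by
    intro y
    obtain ⟨c, hc⟩ := hxs ⟨(T - 1) *ᵥ y, ⟨y, rfl⟩⟩
    exact ⟨c, congrArg Subtype.val hc⟩
  choose φ hφ using hcol
  have hTy : ∀ y, T *ᵥ y = y + φ y • x := by
    intro y
    rw [hφ y, sub_mulVec, one_mulVec]; abel
  have hN0 : T - 1 ≠ 0 := by
    intro h0
    rw [h0, Matrix.rank_zero] at ht
    exact zero_ne_one ht
  obtain ⟨y0, hy0⟩ : ∃ y0, φ y0 ≠ 0 := by
    by_contra hne
    push Not at hne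
    apply hN0
    apply matrix_ext_mulVec
    intro y
    rw [← hφ y, hne y, zero_smul, zero_mulVec]
  have hsym : ∀ y z, Cfsg.sympForm m F (T *ᵥ y) (T *ᵥ z) = Cfsg.sympForm m F y z :=
    form_mulVec_of_mem t.2
  have hrel : ∀ y z, φ z * Cfsg.sympForm m F y x = φ y * Cfsg.sympForm m F z x := by
    intro y z
    have h := hsym y z
    rw [hTy, hTy] at h
    simp only [form_add_left, form_add_right, form_smul_left, form_smul_right, form_self] at h
    rw [form_swap x z] at h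
    linear_combination h
  set d := Cfsg.sympForm m F y0 x / φ y0 with hd
  have hfx : ∀ y, Cfsg.sympForm m F y x = d * φ y := by
    intro y
    have := hrel y y0
    rw [hd]; field_simp; linear_combination this
  obtain ⟨z, hz⟩ := exists_form_ne_zero x hx
  have hd0 : d ≠ 0 := by
    intro h0
    apply hz
    rw [form_swap, hfx, h0, zero_mul, neg_zero]
  refine ⟨x, d⁻¹, hx, inv_ne_zero hd0, ?_⟩
  apply matrix_ext_mulVec
  intro y
  rw [hTy, tv_mulVec, hfx]
  congr 2
  rw [← mul_assoc, inv_mul_cancel₀ hd0, one_mul]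

theorem exists_tv_one [Fintype F] [CharP F 2] (t : symplecticGroup (Fin m) F)
    (ht : ((t : Matrix (Fin m ⊕ Fin m) (Fin m ⊕ Fin m) F) - 1).rank = 1) :
    ∃ (v : Fin m ⊕ Fin m → F), v ≠ 0 ∧
      (t : Matrix (Fin m ⊕ Fin m) (Fin m ⊕ Fin m) F) = Cfsg.sympTransvection m v 1 := by
  obtain ⟨w, c, hw, hc, h⟩ := exists_tv t ht
  obtain ⟨e, he⟩ := FiniteField.isSquare_of_char_two (ringChar.eq F 2) c
  refine ⟨e • w, ?_, ?_⟩
  · have he0 : e ≠ 0 := by
      rintro rfl
      apply hc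
      rw [he, mul_zero]
    exact smul_ne_zero he0 hw
  · rw [h]
    apply matrix_ext_mulVec
    intro y
    rw [tv_mulVec, tv_mulVec, form_smul_right, smul_smul, he]
    congr 2
    ring

theorem comm_iff [CharP F 2] (v : Fin m ⊕ Fin m → F) (hv : v ≠ 0) (g : symplecticGroup (Fin m) F) :
    (g : Matrix (Fin m ⊕ Fin m) (Fin m ⊕ Fin m) F) * Cfsg.sympTransvection m v 1 =
      Cfsg.sympTransvection m v 1 * (g : Matrix (Fin m ⊕ Fin m) (Fin m ⊕ Fin m) F) ↔
    (g : Matrix (Fin m ⊕ Fin m) (Fin m ⊕ Fin m) F) *ᵥ v = v := by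
  constructor
  · intro h
    have h1 : ∀ x, Cfsg.sympForm m F x v • (g.1 *ᵥ v) = Cfsg.sympForm m F (g.1 *ᵥ x) v • v := by
      intro x
      have := congrArg (fun M => M *ᵥ x) h
      simp only [← mulVec_mulVec, tv_mulVec, one_mul, mulVec_add, mulVec_smul] at this
      exact add_left_cancel this
    obtain ⟨z, hz⟩ := exists_form_ne_zero v hv
    have hz' : Cfsg.sympForm m F z v ≠ 0 := by rw [form_swap]; exact neg_ne_zero.mpr hz
    set c := Cfsg.sympForm m F (g.1 *ᵥ z) v / Cfsg.sympForm m F z v with hc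
    have hgv : g.1 *ᵥ v = c • v := by
      have := h1 z
      rw [hc, div_eq_inv_mul, ← smul_smul, ← this, smul_smul, inv_mul_cancel₀ hz', one_smul]
    have h2 : c * Cfsg.sympForm m F (g.1 *ᵥ z) v = Cfsg.sympForm m F z v := by
      rw [← form_smul_right, ← hgv, form_mulVec_of_mem g.2]
    have h3 : Cfsg.sympForm m F (g.1 *ᵥ z) v = c * Cfsg.sympForm m F z v := by
      rw [hc]; field_simp
    have h4 : c * c = 1 := by
      rw [h3, ← mul_assoc] at h2
      exact mul_right_cancel₀ hz' (by rw [h2, one_mul])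
    have h5 : c = 1 := by
      have h2' : (2 : F) = 0 := by exact_mod_cast CharP.cast_eq_zero F 2
      have : (c - 1) * (c - 1) = 0 := by
        linear_combination h4 - (c - 1) * h2'
      have := mul_self_eq_zero.mp this
      exact sub_eq_zero.mp this
    rw [hgv, h5, one_smul]
  · intro h
    apply matrix_ext_mulVec
    intro x
    rw [← mulVec_mulVec, ← mulVec_mulVec, tv_mulVec, tv_mulVec, mulVec_add, mulVec_smul, h,
      one_mul, one_mul]
    congr 2
    conv_rhs => rw [← h]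
    rw [form_mulVec_of_mem g.2]

theorem main [Fintype F] [CharP F 2] {q : ℕ} (hF : Fintype.card F = q) (hm : 1 ≤ m)
    (t : symplecticGroup (Fin m) F)
    (ht : ((t : Matrix (Fin m ⊕ Fin m) (Fin m ⊕ Fin m) F) - 1).rank = 1) :
    Nat.card ↥(Subgroup.centralizer ({t} : Set (symplecticGroup (Fin m) F))) =
      q ^ (2 * m - 1) * (q ^ ((m - 1) ^ 2) * ∏ i : Fin (m - 1), (q ^ (2 * ((i : ℕ) + 1)) - 1)) := by
  classical
  obtain ⟨v, hv, htv⟩ := exists_tv_one t ht
  have hcent : Subgroup.centralizer ({t} : Set (symplecticGroup (Fin m) F)) =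
      MulAction.stabilizer (symplecticGroup (Fin m) F) v := by
    ext g
    rw [Subgroup.mem_centralizer_singleton_iff, MulAction.mem_stabilizer_iff]
    show _ ↔ (g : Matrix (Fin m ⊕ Fin m) (Fin m ⊕ Fin m) F) *ᵥ v = v
    rw [← comm_iff v hv g, ← htv]
    constructor
    · intro h; exact congrArg Subtype.val h
    · intro h; exact Subtype.ext h
  have horb : MulAction.orbit (symplecticGroup (Fin m) F) v = {w | w ≠ 0} := by
    ext w
    constructor
    · rintro ⟨A, rfl⟩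
      show A • v ≠ 0
      intro h0
      have h := inv_smul_smul A v
      rw [h0] at h
      exact hv (h.symm.trans (mulVec_zero _))
    · intro hw
      obtain ⟨A, -, hA⟩ := exists_closure_map (k := m) v w (supp_top v) (supp_top w) hv hw
      exact ⟨A, hA⟩
  have h1 := Subgroup.card_mul_index (MulAction.stabilizer (symplecticGroup (Fin m) F) v)
  rw [MulAction.index_stabilizer, horb, ← hcent,
    Cfsg.Agent.Lib_helper4_SpCard2.card_symplecticGroup hF m] at h1
  have h2 : Nat.card ({w | w ≠ 0} : Set (Fin m ⊕ Fin m → F)) = q ^ (2 * m) - 1 := by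
    rw [Set.coe_setOf, Nat.card_eq_fintype_card, Fintype.card_subtype_compl (fun w => w = 0),
      Fintype.card_subtype_eq, Fintype.card_fun, hF, Fintype.card_sum, Fintype.card_fin, two_mul]
  rw [← Nat.card_coe_set_eq, h2] at h1
  obtain ⟨k, rfl⟩ : ∃ k, m = k + 1 := ⟨m - 1, by omega⟩
  have hq : 2 ≤ q := by rw [← hF]; exact Fintype.one_lt_card
  have hpos : 0 < q ^ (2 * (k + 1)) - 1 := by
    have h3 : 2 ^ (2 * (k + 1)) ≤ q ^ (2 * (k + 1)) := Nat.pow_le_pow_left hq _
    have h4 : 2 ^ 1 ≤ 2 ^ (2 * (k + 1)) := Nat.pow_le_pow_right (by norm_num) (by omega)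
    omega
  rw [Finset.prod_range_succ] at h1
  have h3 : ∏ i : Fin (k + 1 - 1), (q ^ (2 * ((i : ℕ) + 1)) - 1) =
      ∏ i ∈ Finset.range k, (q ^ (2 * (i + 1)) - 1) := by
    rw [show k + 1 - 1 = k from rfl, Finset.prod_range]
  rw [h3]
  apply Nat.eq_of_mul_eq_mul_right hpos
  rw [h1]
  simp only [Nat.add_sub_cancel]
  rw [show 2 * (k + 1) - 1 = 2 * k + 1 by omega, show (k + 1) ^ 2 = 2 * k + 1 + k ^ 2 by ring,
    pow_add]
  ring

end Aux

/-- Over a finite field with q elements, q even, an element t of Sp_2m(F) with rank(t − 1) = 1 (a symplectic transvection) has centraliser in Sp_2m(F) of order q^(2m−1) · |Sp_(2m−2)(q)| = q^(2m−1) · q^((m−1)²) · Π_(i=1)^(m−1) (q^(2i) − 1). -/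
theorem result {F : Type*} [Field F] [Fintype F] [CharP F 2] {q : ℕ} (hF : Fintype.card F = q) {m : ℕ} (hm : 1 ≤ m) (t : Matrix.symplecticGroup (Fin m) F) (ht : ((t : Matrix (Fin m ⊕ Fin m) (Fin m ⊕ Fin m) F) - 1).rank = 1) : Nat.card ↥(Subgroup.centralizer ({t} : Set ↥(Matrix.symplecticGroup (Fin m) F))) = q ^ (2 * m - 1) * (q ^ ((m - 1) ^ 2) * ∏ i : Fin (m - 1), (q ^ (2 * ((i : ℕ) + 1)) - 1)) := by
  exact main hF hm t ht

end Cfsg.Agent.S2594
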