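import Cfsg.Statements.S2599
-- import your own Cfsg.Agent.* helpers here

set_option autoImplicit false
open Cfsg

namespace Cfsg.Agent.S2599

section Aux
open Matrix

theorem main {F : Type*} [Field F] [Fintype F] {p : ℕ} [Fact p.Prime] [CharP F p] {n : ℕ}
    (Q : QuadraticForm F (Fin n → F)) (X : Matrix (Fin n) (Fin n) F) (Xi : Matrix (Fin n) (Fin n) F)
    (hXi : Xi * X = 1) (hQx : ∀ u, Q (X *ᵥ u) = Q u)
    (U : Submodule F (Fin n → F)) (hU0 : U ≠ ⊥) (hUx : ∀ u ∈ U, X *ᵥ u ∈ U)
    (hirr : ∀ W : Submodule F (Fin n → F), W ≤ U → (∀ w ∈ W, X *ᵥ w ∈ W) → W = ⊥ ∨ W = U) :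
    U ⊓ LinearMap.BilinForm.orthogonal (QuadraticMap.polarBilin Q) U = ⊥ ∨ (∀ u ∈ U, Q u = 0) ∨
      (p = 2 ∧ Module.finrank F U = 1 ∧ (∃ u ∈ U, Q u ≠ 0) ∧ ∀ u ∈ U, X *ᵥ u = u) := by
  classical
  have hBx : ∀ a b, QuadraticMap.polarBilin Q (X *ᵥ a) (X *ᵥ b) = QuadraticMap.polarBilin Q a b := by
    intro a b
    simp only [QuadraticMap.polarBilin_apply_apply, QuadraticMap.polar]
    rw [← Matrix.mulVec_add, hQx, hQx, hQx]
  have hsurj : ∀ u ∈ U, ∃ u' ∈ U, X *ᵥ u' = u := by
    have hUx' : ∀ u ∈ U, Matrix.toLin' X u ∈ U := by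
      intro u hu
      rw [Matrix.toLin'_apply]
      exact hUx u hu
    let L : U →ₗ[F] U := (Matrix.toLin' X).restrict hUx'
    have hinj : Function.Injective L := by
      intro a b hab
      have h1 : X *ᵥ (a : Fin n → F) = X *ᵥ (b : Fin n → F) := by
        have h2 := congrArg Subtype.val hab
        simpa [L, LinearMap.restrict_apply, Matrix.toLin'_apply] using h2
      have h3 := congrArg (fun v => Xi *ᵥ v) h1
      simp only [Matrix.mulVec_mulVec, hXi, Matrix.one_mulVec] at h3
      exact Subtype.ext h3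
    have hs : Function.Surjective L := LinearMap.surjective_of_injective hinj
    intro u hu
    obtain ⟨⟨u', hu'⟩, h⟩ := hs ⟨u, hu⟩
    refine ⟨u', hu', ?_⟩
    have h2 := congrArg Subtype.val h
    simpa [L, LinearMap.restrict_apply, Matrix.toLin'_apply] using h2
  rcases hirr (U ⊓ LinearMap.BilinForm.orthogonal (QuadraticMap.polarBilin Q) U) inf_le_left (by
    rintro w ⟨hw1, hw2⟩
    refine ⟨hUx w hw1, ?_⟩
    rw [SetLike.mem_coe, LinearMap.BilinForm.mem_orthogonal_iff] at hw2 ⊢
    intro u hu
    obtain ⟨u', hu', rfl⟩ := hsurj u hu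
    rw [hBx]
    exact hw2 u' hu') with h | h
  · exact Or.inl h
  · right
    have hUU : ∀ u ∈ U, ∀ v ∈ U, QuadraticMap.polarBilin Q u v = 0 := by
      intro u hu v hv
      have hv' : v ∈ U ⊓ LinearMap.BilinForm.orthogonal (QuadraticMap.polarBilin Q) U := by
        rw [h]
        exact hv
      exact (LinearMap.BilinForm.mem_orthogonal_iff.mp hv'.2) u hu
    have hadd : ∀ u ∈ U, ∀ v ∈ U, Q (u + v) = Q u + Q v := by
      intro u hu v hv
      have h1 := hUU u hu v hv
      rw [QuadraticMap.polarBilin_apply_apply, QuadraticMap.polar] at h1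
      linear_combination h1
    let U₀ : Submodule F (Fin n → F) :=
      { carrier := {u | u ∈ U ∧ Q u = 0}
        add_mem' := by
          rintro a b ⟨ha, ha0⟩ ⟨hb, hb0⟩
          exact ⟨U.add_mem ha hb, by rw [hadd a ha b hb, ha0, hb0, add_zero]⟩
        zero_mem' := ⟨U.zero_mem, QuadraticMap.map_zero Q⟩
        smul_mem' := by
          rintro c a ⟨ha, ha0⟩
          exact ⟨U.smul_mem c ha, by rw [QuadraticMap.map_smul, ha0, smul_zero]⟩ }
    rcases hirr U₀ (fun u hu => hu.1) (fun w hw => ⟨hUx w hw.1, by rw [hQx]; exact hw.2⟩)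
      with h0 | h0
    · right
      have hne : ∀ u ∈ U, Q u = 0 → u = 0 := by
        intro u hu hq
        have h1 : u ∈ U₀ := ⟨hu, hq⟩
        rw [h0] at h1
        exact (Submodule.mem_bot F).mp h1
      obtain ⟨u₀, hu₀, hu₀0⟩ := (Submodule.ne_bot_iff U).mp hU0
      have hQu₀ : Q u₀ ≠ 0 := fun hq => hu₀0 (hne u₀ hu₀ hq)
      have h2 : (2 : F) = 0 := by
        have h1 := hUU u₀ hu₀ u₀ hu₀
        rw [QuadraticMap.polarBilin_apply_apply, QuadraticMap.polar_self] at h1
        have h3 : (2 : F) * Q u₀ = 0 := by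
          rw [← h1]
          simp [two_mul, two_smul]
        rcases mul_eq_zero.mp h3 with h4 | h4
        · exact h4
        · exact absurd h4 hQu₀
      have hp2 : p = 2 := by
        have h1 : ((2 : ℕ) : F) = 0 := by exact_mod_cast h2
        have h3 := (CharP.cast_eq_zero_iff F p 2).mp h1
        exact (Nat.prime_dvd_prime_iff_eq (Fact.out) Nat.prime_two).mp h3
      have hchar : ringChar F = 2 := by
        haveI : CharP F 2 := CharTwo.of_one_ne_zero_of_two_eq_zero one_ne_zero h2
        exact ringChar.eq F 2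
      have hspan : ∀ v ∈ U, ∃ c : F, v = c • u₀ := by
        intro v hv
        obtain ⟨c, hc⟩ := FiniteField.isSquare_of_char_two hchar (Q v / Q u₀)
        refine ⟨c, ?_⟩
        have h1 : Q (v + c • u₀) = 0 := by
          rw [hadd v hv _ (U.smul_mem c hu₀), QuadraticMap.map_smul, smul_eq_mul, ← hc]
          field_simp
          linear_combination Q v * h2
        have h3 := hne _ (U.add_mem hv (U.smul_mem c hu₀)) h1
        have h4 : v = -(c • u₀) := eq_neg_of_add_eq_zero_left h3
        rw [h4]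
        have h5 : (-(c • u₀) : Fin n → F) = (-c) • u₀ := by rw [neg_smul]
        rw [h5]
        congr 1
        linear_combination -c * h2
      have hUspan : U = Submodule.span F {u₀} := by
        apply le_antisymm
        · intro v hv
          obtain ⟨c, rfl⟩ := hspan v hv
          exact Submodule.smul_mem _ c (Submodule.mem_span_singleton_self u₀)
        · rw [Submodule.span_singleton_le_iff_mem]
          exact hu₀
      refine ⟨hp2, ?_, ⟨u₀, hu₀, hQu₀⟩, ?_⟩
      · rw [hUspan]
        exact finrank_span_singleton hu₀0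
      · have hx0 : X *ᵥ u₀ = u₀ := by
          obtain ⟨c, hc⟩ := hspan _ (hUx u₀ hu₀)
          have h1 : Q (X *ᵥ u₀) = Q u₀ := hQx u₀
          rw [hc, QuadraticMap.map_smul, smul_eq_mul] at h1
          have h3 : (c - 1) * (c - 1) = 0 := by
            have h4 : (c * c - 1) * Q u₀ = 0 := by linear_combination h1
            rcases mul_eq_zero.mp h4 with h5 | h5
            · linear_combination h5 - (c - 1) * h2
            · exact absurd h5 hQu₀
          have h4 : c = 1 := by
            rcases mul_eq_zero.mp h3 with h5 | h5 <;> exact sub_eq_zero.mp h5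
          rw [hc, h4, one_smul]
        intro u hu
        obtain ⟨c, rfl⟩ := hspan u hu
        rw [Matrix.mulVec_smul, hx0]
    · left
      intro u hu
      have h1 : u ∈ U₀ := by
        rw [h0]
        exact hu
      exact h1.2

end Aux

/-- An irreducible invariant subspace of a semisimple isometry is non-degenerate or totally singular: let Q be a quadratic form on F^n (F finite of characteristic p) with non-degenerate polar form f, x an isometry of Q of order prime to p, and U a non-zero x-invariant subspace containing no x-invariant subspace other than 0 and U. Then U meets its f-orthogonal trivially, or Q vanishes on U, or p = 2, U is a line spanned by a non-singular vector and x fixes U pointwise. -/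
theorem result {F : Type*} [Field F] [Fintype F] {p : ℕ} [Fact p.Prime] [CharP F p] {n : ℕ} (Q : QuadraticForm F (Fin n → F)) (hQ : (QuadraticMap.polarBilin Q).Nondegenerate) (x : ↥(Cfsg.isometryGroup F ⇑Q)) (hx : (orderOf x).Coprime p) (U : Submodule F (Fin n → F)) (hU0 : U ≠ ⊥) (hUx : ∀ u ∈ U, ((x : Matrix.GeneralLinearGroup (Fin n) F) : Matrix (Fin n) (Fin n) F).mulVec u ∈ U) (hirr : ∀ W : Submodule F (Fin n → F), W ≤ U → (∀ w ∈ W, ((x : Matrix.GeneralLinearGroup (Fin n) F) : Matrix (Fin n) (Fin n) F).mulVec w ∈ W) → W = ⊥ ∨ W = U) : U ⊓ LinearMap.BilinForm.orthogonal (QuadraticMap.polarBilin Q) U = ⊥ ∨ (∀ u ∈ U, Q u = 0) ∨ (p = 2 ∧ Module.finrank F U = 1 ∧ (∃ u ∈ U, Q u ≠ 0) ∧ ∀ u ∈ U, ((x : Matrix.GeneralLinearGroup (Fin n) F) : Matrix (Fin n) (Fin n) F).mulVec u = u) := by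
  refine main Q ((x : Matrix.GeneralLinearGroup (Fin n) F) : Matrix (Fin n) (Fin n) F)
    (((x : Matrix.GeneralLinearGroup (Fin n) F)⁻¹ : Matrix.GeneralLinearGroup (Fin n) F) :
      Matrix (Fin n) (Fin n) F) ?_ (fun u => x.2 u u) U hU0 hUx hirr
  rw [← Units.val_mul, inv_mul_cancel, Units.val_one]

end Cfsg.Agent.S2599
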