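import Cfsg.Statements.S2617
import Cfsg.Agent.S2562

set_option autoImplicit false
open Cfsg

namespace Cfsg.Agent.S2617

/-- The two standard quadratic forms of even dimension 2m over a finite field are not isometric: there is no linear isomorphism carrying the elliptic form Σ_(i<m−1) x_i y_i + z₁² + z₁z₂ + ζ z₂² (t² + t + ζ without roots) to the hyperbolic form Σ_(i<m) x_i y_i (they have different Witt index). -/
theorem result {F : Type*} [Field F] [Finite F] {m : ℕ} (hm : 1 ≤ m) (ζ : F) (hζ : ∀ t : F, t ^ 2 + t + ζ ≠ 0) (g : (Fin m ⊕ Fin m → F) ≃ₗ[F] ((Fin (m - 1) ⊕ Fin (m - 1)) ⊕ Fin 2 → F)) : ¬ (∀ v : Fin m ⊕ Fin m → F, Cfsg.quadFormMinus (m - 1) F 1 ζ (g v) = Cfsg.quadFormPlus m F v) := by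
  classical
  intro h
  let φ : (Fin m → F) →ₗ[F] (Fin m ⊕ Fin m → F) :=
    { toFun := fun y => Sum.elim 0 y
      map_add' := by intro a b; ext (i|i) <;> simp
      map_smul' := by intro c a; ext (i|i) <;> simp }
  have hinj : Function.Injective φ := by
    intro a b hab
    ext i
    have := congrFun hab (Sum.inr i)
    simpa [φ] using this
  set U := (LinearMap.range φ).map
    (g : (Fin m ⊕ Fin m → F) →ₗ[F] ((Fin (m - 1) ⊕ Fin (m - 1)) ⊕ Fin 2 → F)) with hU
  have hdim : Module.finrank F U = m := by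
    rw [hU, LinearEquiv.finrank_map_eq, LinearMap.finrank_range_of_inj hinj, Module.finrank_fin_fun]
  have hts : ∀ u ∈ U, Cfsg.quadFormMinus (m - 1) F 1 ζ u = 0 := by
    rintro _ ⟨_, ⟨y, rfl⟩, rfl⟩
    rw [LinearEquiv.coe_coe, h]
    simp [Cfsg.quadFormPlus, φ]
  have hz : ∀ u ∈ U, (∀ i, u (Sum.inl (Sum.inl i)) = 0) →
      u (Sum.inr 0) = 0 ∧ u (Sum.inr 1) = 0 := by
    intro u hu hx
    have h2 := hts u hu
    simp only [Cfsg.quadFormMinus, hx, zero_mul, Finset.sum_const_zero, zero_add, one_mul] at h2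
    by_cases h1 : u (Sum.inr 1) = 0
    · rw [h1] at h2
      simp at h2
      exact ⟨h2, h1⟩
    · exfalso
      apply hζ (u (Sum.inr 0) / u (Sum.inr 1))
      field_simp
      linear_combination h2
  have hb := Cfsg.Agent.S2562.ts_bound (LinearMap.funLeft F F (Sum.inl ∘ Sum.inl))
    (LinearMap.funLeft F F (Sum.inl ∘ Sum.inr)) U ?_ ?_
  · omega
  · intro u hu hx v hv
    have h1 := hts (u + v) (U.add_mem hu hv)
    have h3 := hts v hv
    have hx' : ∀ i, u (Sum.inl (Sum.inl i)) = 0 := fun i => congrFun hx i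
    obtain ⟨hz0, hz1⟩ := hz u hu hx'
    simp only [Cfsg.quadFormMinus, Pi.add_apply, hx', hz0, hz1, zero_add] at h1 h3
    simp only [mul_add, Finset.sum_add_distrib] at h1
    have h4 : ∑ i : Fin (m - 1), v (Sum.inl (Sum.inl i)) * u (Sum.inl (Sum.inr i)) = 0 := by
      linear_combination h1 - h3
    simpa [dotProduct, LinearMap.funLeft] using h4
  · intro u hu hx hy
    have hx' : ∀ i, u (Sum.inl (Sum.inl i)) = 0 := fun i => congrFun hx i
    obtain ⟨hz0, hz1⟩ := hz u hu hx'
    ext ((i|i)|i)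
    · exact congrFun hx i
    · exact congrFun hy i
    · fin_cases i
      · exact hz0
      · exact hz1

end Cfsg.Agent.S2617
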