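import Cfsg.Statements.S2619
-- import your own Cfsg.Agent.* helpers here

set_option autoImplicit false
open Cfsg

namespace Cfsg.Agent.S2619

/-- Over a finite field of characteristic two, given an alternating bilinear form B on a finite-dimensional space, a basis (v_i) and scalars (λ_i), there is exactly one quadratic form whose polar form is B and whose value at each v_i is λ_i. -/
theorem result {F V ι : Type*} [Field F] [Finite F] [CharP F 2] [AddCommGroup V] [Module F V] [Fintype ι] (b : Module.Basis ι F V) (B : LinearMap.BilinForm F V) (hB : B.IsAlt) (c : ι → F) : ∃! Q : QuadraticForm F V, QuadraticMap.polarBilin Q = B ∧ ∀ i, Q (b i) = c i := by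
  classical
  letI : LinearOrder ι := LinearOrder.lift' (Fintype.equivFin ι) (Fintype.equivFin ι).injective
  let coef : ι → ι → F := fun i j => if i < j then B (b i) (b j) else if i = j then c i else 0
  let A : LinearMap.BilinForm F V := b.constr F (fun i => b.constr F (fun j => coef i j))
  have hA : ∀ i j, A (b i) (b j) = coef i j := by
    intro i j
    simp only [A, Module.Basis.constr_basis]
  have hsymm : ∀ x y, B y x = B x y := by
    intro x y
    rw [← hB.neg_eq x y, CharTwo.neg_eq]
  refine ⟨LinearMap.BilinMap.toQuadraticMap A, ⟨?_, ?_⟩, ?_⟩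
  · rw [LinearMap.BilinMap.polarBilin_toQuadraticMap]
    refine LinearMap.BilinForm.ext_basis b fun i j => ?_
    simp only [LinearMap.add_apply, LinearMap.flip_apply, hA, coef]
    rcases lt_trichotomy i j with h | h | h
    · simp [h, not_lt_of_gt h, h.ne']
    · subst h
      simp [hB.self_eq_zero, CharTwo.add_self_eq_zero]
    · simp [h, not_lt_of_gt h, h.ne', hsymm]
  · intro i
    simp [LinearMap.BilinMap.toQuadraticMap_apply, hA, coef]
  · rintro Q' ⟨hQ'1, hQ'2⟩
    have hQ1 : QuadraticMap.polarBilin (LinearMap.BilinMap.toQuadraticMap A) = B := by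
      rw [LinearMap.BilinMap.polarBilin_toQuadraticMap]
      refine LinearMap.BilinForm.ext_basis b fun i j => ?_
      simp only [LinearMap.add_apply, LinearMap.flip_apply, hA, coef]
      rcases lt_trichotomy i j with h | h | h
      · simp [h, not_lt_of_gt h, h.ne']
      · subst h
        simp [hB.self_eq_zero, CharTwo.add_self_eq_zero]
      · simp [h, not_lt_of_gt h, h.ne', hsymm]
    have hQ2 : ∀ i, LinearMap.BilinMap.toQuadraticMap A (b i) = c i := by
      intro i
      simp [LinearMap.BilinMap.toQuadraticMap_apply, hA, coef]
    set Q := LinearMap.BilinMap.toQuadraticMap A with hQdef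
    have hadd : ∀ v w, (Q' v - Q v) + (Q' w - Q w) = Q' (v + w) - Q (v + w) := by
      intro v w
      have h1 : QuadraticMap.polar Q' v w = QuadraticMap.polar Q v w := by
        rw [← QuadraticMap.polarBilin_apply_apply, ← QuadraticMap.polarBilin_apply_apply, hQ'1, hQ1]
      simp only [QuadraticMap.polar] at h1
      linear_combination (-1 : F) * h1
    let f : V →+ F :=
      { toFun := fun v => Q' v - Q v
        map_zero' := by simp
        map_add' := fun v w => (hadd v w).symm }
    ext v
    have hv : f v = 0 := by
      rw [← b.sum_repr v, map_sum]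
      refine Finset.sum_eq_zero fun i _ => ?_
      show Q' (b.repr v i • b i) - Q (b.repr v i • b i) = 0
      rw [QuadraticMap.map_smul, QuadraticMap.map_smul, hQ'2, hQ2, sub_self]
    exact sub_eq_zero.mp hv

end Cfsg.Agent.S2619
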