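import Cfsg.Statements.S2620
import Cfsg.Agent.Lib_helper8_Gram

set_option autoImplicit false
open Cfsg

namespace Cfsg.Agent.S2620

/-- Discriminant of the hyperbolic quadratic form Σ_(i<m) x_i y_i over a field with q elements, q odd, m ≥ 1: the determinant of the Gram matrix of its polar form in any basis is a square if and only if m(q − 1)/2 is even (equivalently q^m ≡ 1 (mod 4)). -/
theorem result {F : Type*} [Field F] [Fintype F] {q : ℕ} (hF : Fintype.card F = q) (hq : Odd q) {m : ℕ} (hm : 1 ≤ m) {ι : Type*} [Fintype ι] [DecidableEq ι] (b : Module.Basis ι F (Fin m ⊕ Fin m → F)) : IsSquare (Matrix.of (fun i j : ι => QuadraticMap.polar (Cfsg.quadFormPlus m F) (b i) (b j))).det ↔ Even (m * (q - 1) / 2) := by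
  classical
  have hpol : ∀ v w : Fin m ⊕ Fin m → F, QuadraticMap.polar (Cfsg.quadFormPlus m F) v w
      = dotProduct v (Matrix.mulVec (Matrix.fromBlocks 0 1 1 0 : Matrix (Fin m ⊕ Fin m) (Fin m ⊕ Fin m) F) w) := by
    intro v w
    simp only [QuadraticMap.polar, Cfsg.quadFormPlus, dotProduct, Matrix.mulVec,
      Fintype.sum_sum_type, Matrix.fromBlocks_apply₁₁, Matrix.fromBlocks_apply₁₂,
      Matrix.fromBlocks_apply₂₁, Matrix.fromBlocks_apply₂₂, Matrix.zero_apply, Matrix.one_apply,
      Pi.add_apply, zero_mul, Finset.sum_const_zero, zero_add, add_zero, ite_mul, one_mul,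
      Finset.sum_ite_eq, Finset.mem_univ, if_true]
    rw [← Finset.sum_sub_distrib, ← Finset.sum_sub_distrib, ← Finset.sum_add_distrib]
    refine Finset.sum_congr rfl fun i _ => ?_
    ring
  obtain ⟨d, hd, hdet⟩ := Lib_helper8_Gram.gram_det (Cfsg.quadFormPlus m F) _ hpol b
  rw [hdet, Lib_helper8_Gram.det_antidiag, Lib_helper8_Gram.isSquare_sq_mul hd,
    Lib_helper8_Gram.isSquare_neg_one_pow hF hq m]

end Cfsg.Agent.S2620
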