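import Cfsg.Statements.S2621
import Cfsg.Agent.Lib_helper8_Gram

set_option autoImplicit false
open Cfsg

namespace Cfsg.Agent.S2621

/-- Discriminant of an elliptic quadratic form Σ_(i<m−1) x_i y_i + z₁² + a z₁z₂ + c z₂² (binary part anisotropic) in dimension 2m over a field with q elements, q odd, m ≥ 1: the determinant of the Gram matrix of its polar form in any basis is a square if and only if m(q − 1)/2 is odd (equivalently q^m ≡ 3 (mod 4)). -/
theorem result {F : Type*} [Field F] [Fintype F] {q : ℕ} (hF : Fintype.card F = q) (hq : Odd q) {m : ℕ} (hm : 1 ≤ m) (a c : F) (hac : ∀ z₁ z₂ : F, z₁ ^ 2 + a * z₁ * z₂ + c * z₂ ^ 2 = 0 → z₁ = 0 ∧ z₂ = 0) {ι : Type*} [Fintype ι] [DecidableEq ι] (b : Module.Basis ι F ((Fin (m - 1) ⊕ Fin (m - 1)) ⊕ Fin 2 → F)) : IsSquare (Matrix.of (fun i j : ι => QuadraticMap.polar (Cfsg.quadFormMinus (m - 1) F a c) (b i) (b j))).det ↔ ¬ Even (m * (q - 1) / 2) := by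
  classical
  have hpol : ∀ v w : (Fin (m - 1) ⊕ Fin (m - 1)) ⊕ Fin 2 → F,
      QuadraticMap.polar (Cfsg.quadFormMinus (m - 1) F a c) v w
      = dotProduct v (Matrix.mulVec (Matrix.fromBlocks
          (Matrix.fromBlocks 0 1 1 0 : Matrix (Fin (m - 1) ⊕ Fin (m - 1)) (Fin (m - 1) ⊕ Fin (m - 1)) F)
          0 0 !![2, a; a, 2 * c]) w) := by
    intro v w
    simp only [QuadraticMap.polar, Cfsg.quadFormMinus, dotProduct, Matrix.mulVec,
      Fintype.sum_sum_type, Matrix.fromBlocks_apply₁₁, Matrix.fromBlocks_apply₁₂,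
      Matrix.fromBlocks_apply₂₁, Matrix.fromBlocks_apply₂₂, Matrix.zero_apply, Matrix.one_apply,
      Pi.add_apply, zero_mul, Finset.sum_const_zero, zero_add, add_zero, ite_mul, one_mul,
      Finset.sum_ite_eq, Finset.mem_univ, if_true, Fin.sum_univ_two, Matrix.of_apply,
      Matrix.cons_val', Matrix.cons_val_zero, Matrix.cons_val_one, Matrix.empty_val',
      Matrix.cons_val_fin_one]
    have h1 : ∀ (f g h : Fin (m - 1) → F) (x y z : F),
        (∑ i, f i + x) - (∑ i, g i + y) - (∑ i, h i + z)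
          = ∑ i, (f i - g i - h i) + (x - y - z) := by
      intro f g h x y z
      rw [Finset.sum_sub_distrib, Finset.sum_sub_distrib]; ring
    rw [h1, ← Finset.sum_add_distrib]
    congr 1
    · refine Finset.sum_congr rfl fun i _ => ?_
      ring
    · ring
  obtain ⟨d, hd, hdet⟩ := Lib_helper8_Gram.gram_det (Cfsg.quadFormMinus (m - 1) F a c) _ hpol b
  have h2 : (2 : F) ≠ 0 := by
    apply Ring.two_ne_zero
    intro h
    rw [FiniteField.even_card_iff_char_two, hF] at h
    obtain ⟨k, hk⟩ := hq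
    omega
  have hns : ¬ IsSquare (a * a - 4 * c) := by
    rintro ⟨r, hr⟩
    have := (hac (r - a) 2 (by linear_combination hr.symm)).2
    exact h2 this
  have hm1 : (-1 : F) ^ (m - 1) * (2 * (2 * c) - a * a) = (-1) ^ m * (a * a - 4 * c) := by
    obtain ⟨k, rfl⟩ : ∃ k, m = k + 1 := ⟨m - 1, by omega⟩
    simp only [Nat.add_sub_cancel, pow_succ]; ring
  rw [hdet, Lib_helper8_Gram.isSquare_sq_mul hd, Matrix.det_fromBlocks_zero₂₁,
    Lib_helper8_Gram.det_antidiag, Matrix.det_fin_two_of, hm1,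
    Lib_helper8_Gram.isSquare_mul_nonsquare (pow_ne_zero _ (by simp)) hns,
    Lib_helper8_Gram.isSquare_neg_one_pow hF hq m]

end Cfsg.Agent.S2621
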