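import Cfsg.Statements.S2622
-- import your own Cfsg.Agent.* helpers here

set_option autoImplicit false
open Cfsg

namespace Cfsg.Agent.S2622

open Module LinearMap LinearMap.BilinForm in
theorem orthonormal_aux {F : Type*} [Field F] [Finite F] [CharP F 2] :
    ∀ (n : ℕ) {V : Type*} [AddCommGroup V] [Module F V] [FiniteDimensional F V],
      Module.finrank F V = n → ∀ (B : LinearMap.BilinForm F V), B.IsSymm → B.Nondegenerate →
      (n ≠ 0 → ∃ v : V, B v v ≠ 0) →
      ∃ b : Module.Basis (Fin n) F V, ∀ i j, B (b i) (b j) = if i = j then 1 else 0 := by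
  intro n
  induction n with
  | zero =>
    intro V _ _ _ hV B _ _ _
    exact ⟨basisOfFinrankZero hV, fun i => i.elim0⟩
  | succ n ih =>
    intro V _ _ _ hV B hS hB hna
    obtain ⟨v₀, hv₀⟩ := hna (Nat.succ_ne_zero n)
    obtain ⟨c, hc⟩ := FiniteField.isSquare_of_char_two (ringChar.eq F 2) (B v₀ v₀)⁻¹
    have hv : B (c • v₀) (c • v₀) = 1 := by
      simp only [map_smul, LinearMap.smul_apply, smul_eq_mul]
      rw [← mul_assoc, ← hc, inv_mul_cancel₀ hv₀]
    have key : ∃ v₁, B v₁ v₁ = 1 ∧
        (n ≠ 0 → ∃ w ∈ B.orthogonal (F ∙ v₁), B w w ≠ 0) := by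
      by_cases hn : n = 0
      · exact ⟨c • v₀, hv, fun h => absurd hn h⟩
      by_cases h : ∃ w ∈ B.orthogonal (F ∙ (c • v₀)), B w w ≠ 0
      · exact ⟨c • v₀, hv, fun _ => h⟩
      · set v := c • v₀ with hvdef
        have halt : ∀ w ∈ B.orthogonal (F ∙ v), B w w = 0 := by
          intro w hw
          by_contra hww
          exact h ⟨w, hw, hww⟩
        have hx : B v v ≠ 0 := by rw [hv]; exact one_ne_zero
        have hfin : Module.finrank F (B.orthogonal (F ∙ v)) = n := by
          have h1 := Submodule.finrank_add_eq_of_isCompl (LinearMap.BilinForm.isCompl_span_singleton_orthogonal hx).symm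
          rw [hV, finrank_span_singleton (ne_zero_of_map hx)] at h1
          omega
        have hnt : Nontrivial (B.orthogonal (F ∙ v)) := by
          apply Module.nontrivial_of_finrank_pos (R := F)
          omega
        obtain ⟨w, hw0⟩ := exists_ne (0 : B.orthogonal (F ∙ v))
        have hnd := B.restrict_nondegenerate_orthogonal_spanSingleton hB hS.isRefl hx
        have hex : ∃ w' : B.orthogonal (F ∙ v), B (w : V) (w' : V) ≠ 0 := by
          by_contra hcon
          apply hw0
          apply hnd.1 w
          intro y
          by_contra hy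
          exact hcon ⟨y, hy⟩
        obtain ⟨w', hw'⟩ := hex
        have hvw : B v (w : V) = 0 := w.2 v (Submodule.mem_span_singleton_self v)
        have hvw' : B v (w' : V) = 0 := w'.2 v (Submodule.mem_span_singleton_self v)
        have hwv : B (w : V) v = 0 := by rw [hS.eq]; exact hvw
        have hw'v : B (w' : V) v = 0 := by rw [hS.eq]; exact hvw'
        have hww : B (w : V) (w : V) = 0 := halt w w.2
        have hw'w' : B (w' : V) (w' : V) = 0 := halt w' w'.2
        set a := (B (w : V) (w' : V))⁻¹ with ha
        have h2 : (1 : F) + 1 = 0 := CharTwo.add_self_eq_zero 1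
        refine ⟨v + (w : V), ?_, fun _ => ⟨v + a • (w' : V), ?_, ?_⟩⟩
        · simp only [map_add, LinearMap.add_apply, hv, hvw, hwv, hww, add_zero]
        · intro y hy
          obtain ⟨k, rfl⟩ := Submodule.mem_span_singleton.mp hy
          have h3 : B (v + (w : V)) (v + a • (w' : V)) = 0 := by
            simp only [map_add, map_smul, LinearMap.add_apply, smul_eq_mul, hv,
              hvw', hwv, mul_zero, add_zero, zero_add, ha, inv_mul_cancel₀ hw', h2]
          rw [map_smul, LinearMap.smul_apply, h3, smul_zero]
        · simp only [map_add, map_smul, LinearMap.add_apply, LinearMap.smul_apply, smul_eq_mul, hv,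
            hvw', hw'v, hw'w', mul_zero, add_zero]
          exact one_ne_zero
    obtain ⟨x, hx1, hW⟩ := key
    have hx : B x x ≠ 0 := by rw [hx1]; exact one_ne_zero
    have hfin : Module.finrank F (B.orthogonal (F ∙ x)) = n := by
      have h1 := Submodule.finrank_add_eq_of_isCompl (LinearMap.BilinForm.isCompl_span_singleton_orthogonal hx).symm
      rw [hV, finrank_span_singleton (ne_zero_of_map hx)] at h1
      omega
    obtain ⟨v', hv₁⟩ := ih hfin (B.restrict (B.orthogonal (F ∙ x))) (hS.restrict _)
      (B.restrict_nondegenerate_orthogonal_spanSingleton hB hS.isRefl hx)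
      (fun hn => by
        obtain ⟨w, hw, hww⟩ := hW hn
        exact ⟨⟨w, hw⟩, hww⟩)
    let b :=
      Basis.mkFinCons x v'
        (by
          rintro c y hy hc
          rw [add_eq_zero_iff_neg_eq] at hc
          rw [← hc, Submodule.neg_mem_iff] at hy
          have := (LinearMap.BilinForm.isCompl_span_singleton_orthogonal hx).disjoint
          rw [Submodule.disjoint_def] at this
          have := this (c • x) (Submodule.smul_mem _ _ <| Submodule.mem_span_singleton_self _) hy
          exact (smul_eq_zero.1 this).resolve_right fun h => hx <| h.symm ▸ map_zero _)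
        (by
          intro y
          refine ⟨-B x y / B x x, fun z hz => ?_⟩
          obtain ⟨c, rfl⟩ := Submodule.mem_span_singleton.1 hz
          rw [map_smul, LinearMap.smul_apply, map_add, map_smul, smul_eq_mul, smul_eq_mul,
            div_mul_cancel₀ _ hx, add_neg_cancel, mul_zero])
    refine ⟨b, ?_⟩
    rw [Basis.coe_mkFinCons]
    intro i j
    refine Fin.cases ?_ (fun i => ?_) i <;> refine Fin.cases ?_ (fun j => ?_) j <;>
      simp only [Fin.cons_zero, Fin.cons_succ, Function.comp_apply]
    · simp [hx1]
    · rw [if_neg (Fin.succ_ne_zero j).symm]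
      exact (v' j).prop _ (Submodule.mem_span_singleton_self x)
    · rw [if_neg (Fin.succ_ne_zero i), hS.eq]
      exact (v' i).prop _ (Submodule.mem_span_singleton_self x)
    · have h := hv₁ i j
      rw [show (if i.succ = j.succ then (1 : F) else 0) = if i = j then 1 else 0 by
        simp [Fin.succ_inj]]
      exact h

/-- Over a finite field of characteristic two, a non-degenerate symmetric bilinear form that is not alternating (some vector v has B(v, v) ≠ 0) admits an orthonormal basis. -/
theorem result {F V : Type*} [Field F] [Finite F] [CharP F 2] [AddCommGroup V] [Module F V] [FiniteDimensional F V] {n : ℕ} (hV : Module.finrank F V = n) (B : LinearMap.BilinForm F V) (hS : B.IsSymm) (hB : B.Nondegenerate) (hna : ∃ v : V, B v v ≠ 0) : ∃ b : Module.Basis (Fin n) F V, ∀ i j, B (b i) (b j) = if i = j then 1 else 0 := by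
  exact orthonormal_aux n hV B hS hB (fun _ => hna)

end Cfsg.Agent.S2622
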