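import Cfsg.Statements.S2623
import Cfsg.Agent.Lib_helper8_QuadForm
import Cfsg.Agent.Lib_helper8_Gram

set_option autoImplicit false
open Cfsg

namespace Cfsg.Agent.S2623

/-- Over a finite field of odd order, two quadratic forms on F^n with non-degenerate polar forms are isometric (related by an invertible linear change of variables) if and only if their discriminants (determinants of the Gram matrices of their polar forms) lie in the same square class. -/
theorem result {F : Type*} [Field F] [Fintype F] (h2 : (2 : F) ≠ 0) {n : ℕ} (Q₁ Q₂ : QuadraticForm F (Fin n → F)) (h₁ : (QuadraticMap.polarBilin Q₁).Nondegenerate) (h₂ : (QuadraticMap.polarBilin Q₂).Nondegenerate) : (∃ g : (Fin n → F) ≃ₗ[F] (Fin n → F), ∀ v, Q₂ (g v) = Q₁ v) ↔ IsSquare ((Matrix.of (fun i j : Fin n => QuadraticMap.polar ⇑Q₁ (Pi.single i 1) (Pi.single j 1))).det * (Matrix.of (fun i j : Fin n => QuadraticMap.polar ⇑Q₂ (Pi.single i 1) (Pi.single j 1))).det) := by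
  classical
  have hpol : ∀ Q : QuadraticForm F (Fin n → F), ∀ v w, QuadraticMap.polar (⇑Q) v w
      = dotProduct v (Matrix.mulVec (Matrix.of (fun i j : Fin n =>
          QuadraticMap.polar ⇑Q (Pi.single i 1) (Pi.single j 1))) w) := by
    intro Q v w
    have e1 : Matrix.of (fun i j : Fin n => QuadraticMap.polar ⇑Q (Pi.single i 1) (Pi.single j 1))
        = LinearMap.BilinForm.toMatrix' (QuadraticMap.polarBilin Q) := by
      ext i j
      rw [LinearMap.BilinForm.toMatrix'_apply]
      rfl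
    rw [e1, ← Matrix.toBilin'_apply', Matrix.toBilin'_toMatrix']
    rfl
  constructor
  · rintro ⟨g, hg⟩
    let b : Module.Basis (Fin n) F (Fin n → F) := (Pi.basisFun F (Fin n)).map g
    obtain ⟨d, hd, hdet⟩ := Lib_helper8_Gram.gram_det (⇑Q₂) _ (hpol Q₂) b
    have hG : (Matrix.of fun i j => QuadraticMap.polar (⇑Q₂) (b i) (b j))
        = Matrix.of (fun i j : Fin n => QuadraticMap.polar ⇑Q₁ (Pi.single i 1) (Pi.single j 1)) := by
      ext i j
      simp only [Matrix.of_apply, b, Module.Basis.map_apply, Pi.basisFun_apply]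
      simp only [QuadraticMap.polar, ← map_add, hg]
    rw [hG] at hdet
    rw [hdet]
    exact ⟨d * (Matrix.of (fun i j : Fin n =>
      QuadraticMap.polar ⇑Q₂ (Pi.single i 1) (Pi.single j 1))).det, by ring⟩
  · intro hsq
    rcases Nat.eq_zero_or_pos n with rfl | hn
    · refine ⟨LinearEquiv.refl F _, fun v => ?_⟩
      have hv : v = 0 := Subsingleton.elim _ _
      have h0 : ∀ Q : QuadraticForm F (Fin 0 → F), Q v = 0 := fun Q => by
        rw [hv]; exact QuadraticMap.map_zero Q
      rw [LinearEquiv.refl_apply, h0, h0]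
    obtain ⟨k, rfl⟩ : ∃ k, n = k + 1 := ⟨n - 1, by omega⟩
    have hfr : Module.finrank F (Fin (k + 1) → F) = k + 1 := Module.finrank_fin_fun F
    obtain ⟨b₁, ho₁, hq₁⟩ := Lib_helper8_QuadForm.diag_normal_form h2 k hfr Q₁ h₁
    obtain ⟨b₂, ho₂, hq₂⟩ := Lib_helper8_QuadForm.diag_normal_form h2 k hfr Q₂ h₂
    have hgram : ∀ (Q : QuadraticForm F (Fin (k + 1) → F))
        (b : Module.Basis (Fin (k + 1)) F (Fin (k + 1) → F)),
        (∀ i j, i ≠ j → QuadraticMap.polar (⇑Q) (b i) (b j) = 0) →
        (∀ i, i ≠ Fin.last k → Q (b i) = 1) →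
        (Matrix.of fun i j => QuadraticMap.polar (⇑Q) (b i) (b j)).det
          = 2 ^ (k + 1) * Q (b (Fin.last k)) := by
      intro Q b ho hq
      have e1 : (Matrix.of fun i j => QuadraticMap.polar (⇑Q) (b i) (b j))
          = Matrix.diagonal (fun i => 2 * Q (b i)) := by
        ext i j
        by_cases hij : i = j
        · subst hij
          simp [QuadraticMap.polar_self]
        · simp [Matrix.diagonal_apply_ne _ hij, ho i j hij]
      rw [e1, Matrix.det_diagonal, Fin.prod_univ_castSucc]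
      have e2 : ∀ i : Fin k, 2 * Q (b (Fin.castSucc i)) = 2 := fun i => by
        rw [hq _ (Fin.castSucc_lt_last i).ne]; ring
      simp only [e2, Finset.prod_const, Finset.card_univ, Fintype.card_fin]
      ring
    have hne : ∀ (Q : QuadraticForm F (Fin (k + 1) → F))
        (b : Module.Basis (Fin (k + 1)) F (Fin (k + 1) → F)),
        (QuadraticMap.polarBilin Q).Nondegenerate →
        (∀ i j, i ≠ j → QuadraticMap.polar (⇑Q) (b i) (b j) = 0) → Q (b (Fin.last k)) ≠ 0 := by
      intro Q b hQ ho h0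
      apply b.ne_zero (Fin.last k)
      apply hQ.1
      intro y
      have e1 : QuadraticMap.polarBilin Q (b (Fin.last k)) = 0 := by
        apply b.ext
        intro j
        rw [QuadraticMap.polarBilin_apply_apply, LinearMap.zero_apply]
        by_cases hj : Fin.last k = j
        · rw [← hj, QuadraticMap.polar_self, h0, smul_zero]
        · exact ho _ _ hj
      rw [e1, LinearMap.zero_apply]
    obtain ⟨s₁, hs₁, hdet₁⟩ := Lib_helper8_Gram.gram_det (⇑Q₁) _ (hpol Q₁) b₁
    obtain ⟨s₂, hs₂, hdet₂⟩ := Lib_helper8_Gram.gram_det (⇑Q₂) _ (hpol Q₂) b₂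
    rw [hgram Q₁ b₁ ho₁ hq₁] at hdet₁
    rw [hgram Q₂ b₂ ho₂ hq₂] at hdet₂
    have hd₁ := hne Q₁ b₁ h₁ ho₁
    have hd₂ := hne Q₂ b₂ h₂ ho₂
    obtain ⟨r, hr⟩ := hsq
    have h2k : (2 : F) ^ (k + 1) ≠ 0 := pow_ne_zero _ h2
    obtain ⟨t, ht⟩ : ∃ t : F, Q₁ (b₁ (Fin.last k)) * Q₂ (b₂ (Fin.last k)) = t ^ 2 := by
      refine ⟨s₁ * s₂ * r / 2 ^ (k + 1), ?_⟩
      field_simp
      linear_combination (2 ^ (k + 1) * Q₂ (b₂ (Fin.last k))) * hdet₁
        + (s₁ * s₁ * (Matrix.of (fun i j : Fin (k + 1) =>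
            QuadraticMap.polar ⇑Q₁ (Pi.single i 1) (Pi.single j 1))).det) * hdet₂
        + (s₁ * s₁ * s₂ * s₂) * hr
    have ht0 : t ≠ 0 := by
      intro h0
      rw [h0] at ht
      have : Q₁ (b₁ (Fin.last k)) * Q₂ (b₂ (Fin.last k)) = 0 := by rw [ht]; ring
      rcases mul_eq_zero.mp this with h | h
      · exact hd₁ h
      · exact hd₂ h
    -- rescale the last vector of `b₂`
    set ρ : F := Q₁ (b₁ (Fin.last k)) / t with hρ
    have hρ2 : ρ * ρ * Q₂ (b₂ (Fin.last k)) = Q₁ (b₁ (Fin.last k)) := by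
      rw [hρ]
      field_simp
      first
        | linear_combination ht
        | linear_combination Q₁ (b₁ (Fin.last k)) * ht
    have key := Lib_helper8_QuadForm.exists_similarity_of_basis b₁ Q₁ Q₂ h₁ 1 one_ne_zero
      (fun s => (if s = Fin.last k then ρ else 1) • b₂ s) ?_ ?_
    · obtain ⟨g, hg⟩ := key
      exact ⟨g, fun v => by rw [hg v, one_mul]⟩
    · intro s
      rw [QuadraticMap.map_smul, one_mul, smul_eq_mul]
      by_cases hs : s = Fin.last k
      · rw [if_pos hs, hs]
        exact hρ2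
      · rw [if_neg hs, hq₁ s hs, hq₂ s hs]
        ring
    · intro s s'
      rw [QuadraticMap.polar_smul_left, QuadraticMap.polar_smul_right, one_mul, smul_eq_mul, smul_eq_mul]
      by_cases hss : s = s'
      · subst hss
        rw [QuadraticMap.polar_self, QuadraticMap.polar_self]
        simp only [nsmul_eq_mul, Nat.cast_ofNat]
        by_cases hs : s = Fin.last k
        · rw [if_pos hs, hs]
          linear_combination 2 * hρ2
        · rw [if_neg hs, hq₁ s hs, hq₂ s hs]
          ring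
      · rw [ho₁ s s' hss, ho₂ s s' hss]
        ring

end Cfsg.Agent.S2623
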