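import Cfsg.Statements.S2624
import Cfsg.Agent.Lib_helper8_QuadForm

set_option autoImplicit false
open Cfsg

namespace Cfsg.Agent.S2624

/-- For a quadratic form Q on F^n with non-degenerate polar form, F finite and n ≥ 2 even, every non-zero scalar c is the multiplier of some similarity: there is an invertible linear map g with Q(g v) = c·Q(v) for all v. -/
theorem result {F : Type*} [Field F] [Fintype F] {n : ℕ} (hn : 2 ≤ n) (he : Even n) (Q : QuadraticForm F (Fin n → F)) (hQ : (QuadraticMap.polarBilin Q).Nondegenerate) (c : F) (hc : c ≠ 0) : ∃ g : (Fin n → F) ≃ₗ[F] (Fin n → F), ∀ v, Q (g v) = c * Q v := by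
  classical
  obtain ⟨m, hm⟩ := he
  have hV : Module.finrank F (Fin n → F) = 2 * m := by rw [Module.finrank_fin_fun]; omega
  have hm1 : 1 ≤ m := by omega
  rcases Cfsg.Agent.Lib_helper8_QuadForm.even_normal_form hm1 hV Q hQ with
    ⟨b, h1, h2, h3⟩ | ⟨b, ζ, hζ, h1, h2, h3, h4, hQx, hxy, hQy⟩
  · apply Cfsg.Agent.Lib_helper8_QuadForm.exists_similarity_of_basis b Q Q hQ c hc
      (fun s => Sum.elim (fun i => c • b (Sum.inl i)) (fun i => b (Sum.inr i)) s)
    · rintro (i | i)
      · simp [QuadraticMap.map_smul, (h1 i).1]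
      · simp [(h1 i).2]
    · rintro (i | i) (j | j)
      · simp [QuadraticMap.polar_smul_left, QuadraticMap.polar_smul_right, (h3 i j).1]
      · simp [QuadraticMap.polar_smul_left]
      · simp [QuadraticMap.polar_smul_right]
      · simp [(h3 i j).2]
  · -- the anisotropic plane represents `c`
    obtain ⟨a, β, hab⟩ : ∃ a β : F, a ^ 2 + a * β + ζ * β ^ 2 = c := by
      let L : (Fin 2 → F) →ₗ[F] (Fin n → F) :=
        Fintype.linearCombination F ![b (Sum.inr 0), b (Sum.inr 1)]
      have hL : ∀ v : Fin 2 → F, Q (L v) = v 0 ^ 2 + v 0 * v 1 + ζ * v 1 ^ 2 := by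
        intro v
        have e1 : L v = v 0 • b (Sum.inr 0) + v 1 • b (Sum.inr 1) := by
          simp [L, Fintype.linearCombination_apply, Fin.sum_univ_two]
        rw [e1, QuadraticMap.map_add Q, QuadraticMap.map_smul, QuadraticMap.map_smul,
          QuadraticMap.polar_smul_left, QuadraticMap.polar_smul_right, hQx, hQy, hxy]
        simp only [smul_eq_mul]
        ring
      have han : ∀ u ∈ (⊤ : Submodule F (Fin 2 → F)), (Q.comp L) u = 0 → u = 0 := by
        intro u _ hu
        rw [QuadraticMap.comp_apply, hL] at hu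
        have hu1 : u 1 = 0 := by
          by_contra h1'
          apply hζ (u 0 / u 1)
          field_simp
          linear_combination hu
        rw [hu1] at hu
        have hu0 : u 0 = 0 := by
          have : u 0 ^ 2 = 0 := by linear_combination hu
          exact pow_eq_zero_iff (two_ne_zero) |>.mp this
        ext i
        fin_cases i
        · exact hu0
        · exact hu1
      have hfr : Module.finrank F (⊤ : Submodule F (Fin 2 → F)) = 2 := by
        rw [finrank_top, Module.finrank_fin_fun]
      obtain ⟨v, -, hv⟩ := Cfsg.Agent.Lib_helper8_QuadForm.exists_eq_of_anisotropic (Q.comp L) ⊤ hfr han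
        c hc
      rw [QuadraticMap.comp_apply, hL] at hv
      exact ⟨v 0, v 1, hv⟩
    have hee : ∀ i j, QuadraticMap.polar (⇑Q) (b (Sum.inl (Sum.inl i))) (b (Sum.inl (Sum.inl j))) = 0 :=
      fun i j => (h3 i j).1
    have hff : ∀ i j, QuadraticMap.polar (⇑Q) (b (Sum.inl (Sum.inr i))) (b (Sum.inl (Sum.inr j))) = 0 :=
      fun i j => (h3 i j).2
    have hex : ∀ i, QuadraticMap.polar (⇑Q) (b (Sum.inl (Sum.inl i))) (b (Sum.inr 0)) = 0 :=
      fun i => (h4 i 0).1
    have hey : ∀ i, QuadraticMap.polar (⇑Q) (b (Sum.inl (Sum.inl i))) (b (Sum.inr 1)) = 0 :=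
      fun i => (h4 i 1).1
    have hfx : ∀ i, QuadraticMap.polar (⇑Q) (b (Sum.inl (Sum.inr i))) (b (Sum.inr 0)) = 0 :=
      fun i => (h4 i 0).2
    have hfy : ∀ i, QuadraticMap.polar (⇑Q) (b (Sum.inl (Sum.inr i))) (b (Sum.inr 1)) = 0 :=
      fun i => (h4 i 1).2
    have hxe : ∀ i, QuadraticMap.polar (⇑Q) (b (Sum.inr 0)) (b (Sum.inl (Sum.inl i))) = 0 :=
      fun i => by rw [QuadraticMap.polar_comm]; exact hex i
    have hye : ∀ i, QuadraticMap.polar (⇑Q) (b (Sum.inr 1)) (b (Sum.inl (Sum.inl i))) = 0 :=
      fun i => by rw [QuadraticMap.polar_comm]; exact hey i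
    have hxf : ∀ i, QuadraticMap.polar (⇑Q) (b (Sum.inr 0)) (b (Sum.inl (Sum.inr i))) = 0 :=
      fun i => by rw [QuadraticMap.polar_comm]; exact hfx i
    have hyf : ∀ i, QuadraticMap.polar (⇑Q) (b (Sum.inr 1)) (b (Sum.inl (Sum.inr i))) = 0 :=
      fun i => by rw [QuadraticMap.polar_comm]; exact hfy i
    have hxx : QuadraticMap.polar (⇑Q) (b (Sum.inr 0)) (b (Sum.inr 0)) = 2 := by
      rw [QuadraticMap.polar_self, hQx]; simp
    have hyy : QuadraticMap.polar (⇑Q) (b (Sum.inr 1)) (b (Sum.inr 1)) = 2 * ζ := by
      rw [QuadraticMap.polar_self, hQy]; simp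
    have hyx : QuadraticMap.polar (⇑Q) (b (Sum.inr 1)) (b (Sum.inr 0)) = 1 := by
      rw [QuadraticMap.polar_comm]; exact hxy
    apply Cfsg.Agent.Lib_helper8_QuadForm.exists_similarity_of_basis b Q Q hQ c hc
      (fun s => Sum.elim (fun s' => Sum.elim (fun i => c • b (Sum.inl (Sum.inl i)))
        (fun i => b (Sum.inl (Sum.inr i))) s')
        ![a • b (Sum.inr 0) + β • b (Sum.inr 1), (-(ζ * β)) • b (Sum.inr 0) + (a + β) • b (Sum.inr 1)] s)
    · rintro ((i | i) | k)
      · simp [QuadraticMap.map_smul, (h1 i).1]
      · simp [(h1 i).2]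
      · fin_cases k
        · simp only [Fin.zero_eta, Sum.elim_inr, Matrix.cons_val_zero]
          rw [QuadraticMap.map_add Q, QuadraticMap.map_smul, QuadraticMap.map_smul,
            QuadraticMap.polar_smul_left, QuadraticMap.polar_smul_right, hQx, hQy, hxy]
          simp only [smul_eq_mul]
          linear_combination hab
        · simp only [Fin.mk_one, Sum.elim_inr, Matrix.cons_val_one, Matrix.cons_val_zero]
          rw [QuadraticMap.map_add Q, QuadraticMap.map_smul, QuadraticMap.map_smul,
            QuadraticMap.polar_smul_left, QuadraticMap.polar_smul_right, hQx, hQy, hxy]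
          simp only [smul_eq_mul]
          linear_combination ζ * hab
    · rintro ((i | i) | k) ((j | j) | k')
      · simp [QuadraticMap.polar_smul_left, QuadraticMap.polar_smul_right, hee]
      · simp [QuadraticMap.polar_smul_left]
      · fin_cases k' <;>
          simp [QuadraticMap.polar_smul_left, QuadraticMap.polar_smul_right,
            QuadraticMap.polar_add_right, hex, hey]
      · simp [QuadraticMap.polar_smul_right]
      · simp [hff]
      · fin_cases k' <;>
          simp [QuadraticMap.polar_smul_left, QuadraticMap.polar_smul_right,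
            QuadraticMap.polar_add_right, hfx, hfy]
      · fin_cases k <;>
          simp [QuadraticMap.polar_smul_left, QuadraticMap.polar_smul_right,
            QuadraticMap.polar_add_left, hxe, hye]
      · fin_cases k <;>
          simp [QuadraticMap.polar_smul_left, QuadraticMap.polar_smul_right,
            QuadraticMap.polar_add_left, hxf, hyf]
      · fin_cases k <;> fin_cases k' <;>
          simp only [Fin.zero_eta, Fin.mk_one, Sum.elim_inr, Matrix.cons_val_one, Matrix.cons_val_zero,
            QuadraticMap.polar_smul_left, QuadraticMap.polar_smul_right,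
            QuadraticMap.polar_add_left, QuadraticMap.polar_add_right, hxx, hyy, hxy, hyx, smul_eq_mul]
        · linear_combination 2 * hab
        · linear_combination hab
        · linear_combination hab
        · linear_combination (2 * ζ) * hab

end Cfsg.Agent.S2624
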