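import Cfsg.Statements.S2625
-- import your own Cfsg.Agent.* helpers here

set_option autoImplicit false
open Cfsg

namespace Cfsg.Agent.S2625

/-- For a quadratic form Q on F^n with non-degenerate polar form, F finite and n odd (so |F| is odd), the multiplier of any similarity is a square: if g is an invertible linear map with Q(g v) = c·Q(v) for all v then c is a square. -/
theorem result {F : Type*} [Field F] [Fintype F] {n : ℕ} (hn : Odd n) (Q : QuadraticForm F (Fin n → F)) (hQ : (QuadraticMap.polarBilin Q).Nondegenerate) (g : (Fin n → F) ≃ₗ[F] (Fin n → F)) (c : F) (hg : ∀ v, Q (g v) = c * Q v) : IsSquare c := by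
  classical
  by_cases h2 : ringChar F = 2
  · exact FiniteField.isSquare_of_char_two h2 c
  · by_cases hc : c = 0
    · subst hc; exact ⟨0, by simp⟩
    set B := QuadraticMap.polarBilin Q with hBdef
    have hcomp : LinearMap.BilinForm.comp B g.toLinearMap g.toLinearMap = c • B := by
      refine LinearMap.ext₂ fun v w => ?_
      simp only [hBdef, LinearMap.BilinForm.comp_apply, LinearEquiv.coe_coe,
        QuadraticMap.polarBilin_apply_apply, LinearMap.smul_apply, smul_eq_mul, QuadraticMap.polar]
      rw [← map_add, hg, hg, hg]; ring
    have hdet := congrArg (fun M => Matrix.det (LinearMap.BilinForm.toMatrix' M)) hcomp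
    simp only [LinearMap.BilinForm.toMatrix'_comp, Matrix.det_mul, Matrix.det_transpose,
      map_smul, Matrix.det_smul, Fintype.card_fin] at hdet
    have hne : (LinearMap.BilinForm.toMatrix' B).det ≠ 0 := by
      rw [← Matrix.nondegenerate_iff_det_ne_zero]
      exact LinearMap.BilinForm.Nondegenerate.toMatrix' hQ
    obtain ⟨k, hk⟩ := hn
    set d := (LinearMap.toMatrix' (g : (Fin n → F) →ₗ[F] (Fin n → F))).det with hd
    have h1 : d * d = c ^ n := by
      have : (d * d) * (LinearMap.BilinForm.toMatrix' B).det = c ^ n * (LinearMap.BilinForm.toMatrix' B).det := by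
        rw [← hdet]; ring
      exact mul_right_cancel₀ hne this
    refine ⟨d / c ^ k, ?_⟩
    have hck : c ^ k ≠ 0 := pow_ne_zero _ hc
    field_simp
    rw [hk] at h1
    rw [pow_two d, h1]; ring

end Cfsg.Agent.S2625
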