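import Cfsg.Statements.S2626
-- import your own Cfsg.Agent.* helpers here

set_option autoImplicit false
open Cfsg

namespace Cfsg.Agent.S2626

section Aux
open Matrix

theorem map_mem_commutator {G H : Type*} [Group G] [Group H] (f : G →* H) {g : G}
    (hg : g ∈ commutator G) : f g ∈ commutator H := by
  have h1 : (commutator G).map f ≤ commutator H := by
    rw [commutator_def, Subgroup.map_commutator, commutator_def]
    exact Subgroup.commutator_mono le_top le_top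
  exact h1 ⟨g, hg, rfl⟩

/-- Block-diagonal embedding `GL_k × GL_l → GL_{k+l}`. -/
def blockGL (k l : ℕ) (F : Type*) [Field F] :
    GL (Fin k) F × GL (Fin l) F →* GL (Fin k ⊕ Fin l) F where
  toFun p := ⟨Matrix.fromBlocks (p.1 : Matrix (Fin k) (Fin k) F) 0 0 (p.2 : Matrix (Fin l) (Fin l) F),
    Matrix.fromBlocks ((p.1⁻¹ : GL (Fin k) F) : Matrix (Fin k) (Fin k) F) 0 0
      ((p.2⁻¹ : GL (Fin l) F) : Matrix (Fin l) (Fin l) F),
    by
      rw [Matrix.fromBlocks_multiply]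
      simp only [Matrix.mul_zero, Matrix.zero_mul, add_zero, zero_add]
      rw [← Units.val_mul, ← Units.val_mul, mul_inv_cancel, mul_inv_cancel, Units.val_one,
        Units.val_one, Matrix.fromBlocks_one],
    by
      rw [Matrix.fromBlocks_multiply]
      simp only [Matrix.mul_zero, Matrix.zero_mul, add_zero, zero_add]
      rw [← Units.val_mul, ← Units.val_mul, inv_mul_cancel, inv_mul_cancel, Units.val_one,
        Units.val_one, Matrix.fromBlocks_one]⟩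
  map_one' := by
    apply Units.ext
    change Matrix.fromBlocks ((1 : GL (Fin k) F) : Matrix (Fin k) (Fin k) F) 0 0
      ((1 : GL (Fin l) F) : Matrix (Fin l) (Fin l) F) = 1
    rw [Units.val_one, Units.val_one, Matrix.fromBlocks_one]
  map_mul' p q := by
    apply Units.ext
    change Matrix.fromBlocks ((p.1 * q.1 : GL (Fin k) F) : Matrix (Fin k) (Fin k) F) 0 0
        ((p.2 * q.2 : GL (Fin l) F) : Matrix (Fin l) (Fin l) F)
      = Matrix.fromBlocks (p.1 : Matrix (Fin k) (Fin k) F) 0 0 (p.2 : Matrix (Fin l) (Fin l) F)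
        * Matrix.fromBlocks (q.1 : Matrix (Fin k) (Fin k) F) 0 0 (q.2 : Matrix (Fin l) (Fin l) F)
    rw [Matrix.fromBlocks_multiply]
    simp only [Matrix.mul_zero, Matrix.zero_mul, add_zero, zero_add, Units.val_mul]

theorem block_mulVec_inl {k l : ℕ} {F : Type*} [Field F] (A : Matrix (Fin k) (Fin k) F)
    (D : Matrix (Fin l) (Fin l) F) (u : Fin k ⊕ Fin l → F) :
    (Matrix.fromBlocks A 0 0 D *ᵥ u) ∘ Sum.inl = A *ᵥ (u ∘ Sum.inl) := by
  ext i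
  simp [Matrix.mulVec, dotProduct, Fintype.sum_sum_type]

theorem block_mulVec_inr {k l : ℕ} {F : Type*} [Field F] (A : Matrix (Fin k) (Fin k) F)
    (D : Matrix (Fin l) (Fin l) F) (u : Fin k ⊕ Fin l → F) :
    (Matrix.fromBlocks A 0 0 D *ᵥ u) ∘ Sum.inr = D *ᵥ (u ∘ Sum.inr) := by
  ext i
  simp [Matrix.mulVec, dotProduct, Fintype.sum_sum_type]

theorem main {F : Type*} [Field F] {k l : ℕ} (Q₁ : (Fin k → F) → F) (Q₂ : (Fin l → F) → F)
    (g₁ : ↥(Cfsg.isometryGroup F Q₁)) (g₂ : ↥(Cfsg.isometryGroup F Q₂))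
    (hg₁ : g₁ ∈ Cfsg.Omega F Q₁) (hg₂ : g₂ ∈ Cfsg.Omega F Q₂) :
    ∃ g : ↥(Cfsg.isometryGroup F
        (fun v : Fin k ⊕ Fin l → F => Q₁ (v ∘ Sum.inl) + Q₂ (v ∘ Sum.inr))),
      g ∈ Cfsg.Omega F (fun v : Fin k ⊕ Fin l → F => Q₁ (v ∘ Sum.inl) + Q₂ (v ∘ Sum.inr)) ∧
      ((g : Matrix.GeneralLinearGroup (Fin k ⊕ Fin l) F) : Matrix (Fin k ⊕ Fin l) (Fin k ⊕ Fin l) F)
        = Matrix.fromBlocks ((g₁ : Matrix.GeneralLinearGroup (Fin k) F) : Matrix (Fin k) (Fin k) F)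
            0 0 ((g₂ : Matrix.GeneralLinearGroup (Fin l) F) : Matrix (Fin l) (Fin l) F) := by
  classical
  have hmem : ∀ p : ↥(Cfsg.isometryGroup F Q₁) × ↥(Cfsg.isometryGroup F Q₂),
      ((blockGL k l F).comp (MonoidHom.prodMap (Subgroup.subtype _) (Subgroup.subtype _))) p
        ∈ Cfsg.isometryGroup F
          (fun v : Fin k ⊕ Fin l → F => Q₁ (v ∘ Sum.inl) + Q₂ (v ∘ Sum.inr)) := by
    rintro ⟨⟨a, ha⟩, ⟨b, hb⟩⟩
    intro u _
    change Q₁ ((Matrix.fromBlocks (a : Matrix (Fin k) (Fin k) F) 0 0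
        (b : Matrix (Fin l) (Fin l) F) *ᵥ u) ∘ Sum.inl)
      + Q₂ ((Matrix.fromBlocks (a : Matrix (Fin k) (Fin k) F) 0 0
        (b : Matrix (Fin l) (Fin l) F) *ᵥ u) ∘ Sum.inr)
      = Q₁ (u ∘ Sum.inl) + Q₂ (u ∘ Sum.inr)
    rw [block_mulVec_inl, block_mulVec_inr]
    have h1 := ha (u ∘ Sum.inl) (u ∘ Sum.inl)
    have h2 := hb (u ∘ Sum.inr) (u ∘ Sum.inr)
    exact congrArg₂ (· + ·) h1 h2
  let ι := MonoidHom.codRestrict
    ((blockGL k l F).comp (MonoidHom.prodMap (Subgroup.subtype _) (Subgroup.subtype _))) _ hmem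
  refine ⟨ι (g₁, g₂), ?_, rfl⟩
  have h3 : ((g₁, g₂) : ↥(Cfsg.isometryGroup F Q₁) × ↥(Cfsg.isometryGroup F Q₂))
      = MonoidHom.inl _ _ g₁ * MonoidHom.inr _ _ g₂ := by
    simp
  rw [h3, map_mul]
  apply Subgroup.mul_mem
  · exact map_mem_commutator (ι.comp (MonoidHom.inl _ _)) hg₁
  · exact map_mem_commutator (ι.comp (MonoidHom.inr _ _)) hg₂

end Aux

/-- Ω of an orthogonal direct sum contains the product of the Ω's: for quadratic forms Q₁ on F^k and Q₂ on F^l with non-degenerate polar forms (F finite) and Q = Q₁ ⊕ Q₂ on F^(k+l), if g₁ lies in Ω(Q₁) and g₂ in Ω(Q₂) (commutator subgroups of the orthogonal groups) then the block-diagonal isometry diag(g₁, g₂) lies in Ω(Q). -/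
theorem result {F : Type*} [Field F] [Fintype F] {k l : ℕ} (Q₁ : QuadraticForm F (Fin k → F)) (Q₂ : QuadraticForm F (Fin l → F)) (h₁ : (QuadraticMap.polarBilin Q₁).Nondegenerate) (h₂ : (QuadraticMap.polarBilin Q₂).Nondegenerate) (g₁ : ↥(Cfsg.isometryGroup F ⇑Q₁)) (g₂ : ↥(Cfsg.isometryGroup F ⇑Q₂)) (hg₁ : g₁ ∈ Cfsg.Omega F ⇑Q₁) (hg₂ : g₂ ∈ Cfsg.Omega F ⇑Q₂) : ∃ g : ↥(Cfsg.isometryGroup F (fun v : Fin k ⊕ Fin l → F => Q₁ (v ∘ Sum.inl) + Q₂ (v ∘ Sum.inr))), g ∈ Cfsg.Omega F (fun v : Fin k ⊕ Fin l → F => Q₁ (v ∘ Sum.inl) + Q₂ (v ∘ Sum.inr)) ∧ ((g : Matrix.GeneralLinearGroup (Fin k ⊕ Fin l) F) : Matrix (Fin k ⊕ Fin l) (Fin k ⊕ Fin l) F) = Matrix.fromBlocks ((g₁ : Matrix.GeneralLinearGroup (Fin k) F) : Matrix (Fin k) (Fin k) F) 0 0 ((g₂ : Matrix.GeneralLinearGroup (Fin l) F) : Matrix (Fin l) (Fin l) F) := by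
  exact main (⇑Q₁) (⇑Q₂) g₁ g₂ hg₁ hg₂

end Cfsg.Agent.S2626
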