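import Cfsg.Statements.S2636
-- import your own Cfsg.Agent.* helpers here

set_option autoImplicit false
open Cfsg

namespace Cfsg.Agent.S2636

section Aux
open Matrix

variable {F : Type*} [Field F] [Fintype F]

theorem main {q₀ r n : ℕ} (hr : r.Prime) (hn : 1 ≤ n) (hF : Fintype.card F = q₀ ^ r)
    (σ : F ≃+* F) (hσ : orderOf σ = r) :
    Nat.card {g : GL (Fin n) F // ∃ c : F, c ≠ 0 ∧
        (g : Matrix (Fin n) (Fin n) F).map σ = c • (g : Matrix (Fin n) (Fin n) F)}
      = (q₀ ^ r - 1) / (q₀ - 1) * ∏ i : Fin n, (q₀ ^ n - q₀ ^ (i : ℕ)) := by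
  classical
  let G : Subgroup (RingAut F) := Subgroup.zpowers (σ : RingAut F)
  haveI : Finite (RingAut F) :=
    Finite.of_injective (fun τ : RingAut F => (τ : F → F)) DFunLike.coe_injective
  haveI : Fintype G := Fintype.ofFinite G
  have hcardG : Fintype.card G = r := by
    rw [← Nat.card_eq_fintype_card, Nat.card_zpowers, hσ]
  let F₀ : Subfield F := FixedPoints.subfield G F
  have hmem : ∀ a : F, a ∈ F₀ ↔ σ a = a := by
    intro a
    constructor
    · intro h; exact h ⟨σ, Subgroup.mem_zpowers σ⟩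
    · intro h g
      have h1 : Subgroup.zpowers (σ : RingAut F) ≤ MulAction.stabilizer (RingAut F) a :=
        (Subgroup.zpowers_le).2 (by rw [MulAction.mem_stabilizer_iff]; exact h)
      have h2 := h1 g.2
      rw [MulAction.mem_stabilizer_iff] at h2
      exact h2
  haveI : Fintype F₀ := Fintype.ofFinite F₀
  have hq₀ : Fintype.card F₀ = q₀ := by
    have h1 := Module.natCard_eq_pow_finrank (K := F₀) (V := F)
    rw [FixedPoints.finrank_eq_card G F, hcardG, Nat.card_eq_fintype_card,
      Nat.card_eq_fintype_card, hF] at h1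
    exact (Nat.pow_left_injective hr.ne_zero h1).symm
  let ι : F₀ →+* F := F₀.subtype
  have hιinj : Function.Injective ι := Subtype.val_injective
  have hι : ∀ a : F, σ a = a → ∃ b : F₀, ι b = a := fun a h => ⟨⟨a, (hmem a).2 h⟩, rfl⟩
  have hσι : ∀ b : F₀, σ (ι b) = ι b := fun b => (hmem _).1 b.2
  let Ψ : Fˣ × GL (Fin n) F₀ →* GL (Fin n) F :=
    { toFun := fun ah => Matrix.GeneralLinearGroup.scalar (Fin n) ah.1 *
        Matrix.GeneralLinearGroup.map ι ah.2
      map_one' := by simp
      map_mul' := by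
        intro x y
        have hc := GeneralLinearGroup.scalar_commute (n := Fin n) y.1
          (GeneralLinearGroup.map ι x.2)
        simp only [Prod.fst_mul, Prod.snd_mul, map_mul]
        rw [mul_assoc, mul_assoc, ← mul_assoc (GeneralLinearGroup.scalar (Fin n) y.1), hc,
          mul_assoc] }
  have hΨ : ∀ (a : Fˣ) (h : GL (Fin n) F₀),
      ((Ψ (a, h) : GL (Fin n) F) : Matrix (Fin n) (Fin n) F)
        = (a : F) • (h : Matrix (Fin n) (Fin n) F₀).map ι := by
    intro a h
    show (Matrix.scalar (Fin n) (a : F)) * _ = _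
    rw [Matrix.scalar_apply, ← Matrix.smul_eq_diagonal_mul]
    rfl
  have hrange : ∀ g : GL (Fin n) F, g ∈ Ψ.range ↔ ∃ c : F, c ≠ 0 ∧
      (g : Matrix (Fin n) (Fin n) F).map σ = c • (g : Matrix (Fin n) (Fin n) F) := by
    intro g
    constructor
    · rintro ⟨⟨a, h⟩, rfl⟩
      refine ⟨σ a * (a : F)⁻¹,
        mul_ne_zero ((map_ne_zero σ).2 a.ne_zero) (inv_ne_zero a.ne_zero), ?_⟩
      rw [hΨ]
      ext i j
      simp only [Matrix.map_apply, Matrix.smul_apply, smul_eq_mul, map_mul, hσι]
      have := a.ne_zero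
      field_simp
    · rintro ⟨c, hc, hg⟩
      have hg0 : (g : Matrix (Fin n) (Fin n) F) ≠ 0 := by
        intro h0
        have h2 : IsUnit (g : Matrix (Fin n) (Fin n) F) := g.isUnit
        rw [h0] at h2
        haveI : Nonempty (Fin n) := ⟨⟨0, hn⟩⟩
        exact not_isUnit_zero h2
      obtain ⟨i₀, j₀, hij⟩ : ∃ i j, (g : Matrix (Fin n) (Fin n) F) i j ≠ 0 := by
        by_contra hcon; push_neg at hcon
        exact hg0 (by ext i j; exact hcon i j)
      obtain ⟨a, ha⟩ : ∃ a : F, a = (g : Matrix (Fin n) (Fin n) F) i₀ j₀ := ⟨_, rfl⟩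
      rw [← ha] at hij
      have hσa : σ a = c * a := by
        have h1 := congrFun (congrFun hg i₀) j₀
        simp only [Matrix.map_apply, Matrix.smul_apply, smul_eq_mul] at h1
        rw [ha]; exact h1
      have hfix : ∀ i j, σ (a⁻¹ * (g : Matrix (Fin n) (Fin n) F) i j)
          = a⁻¹ * (g : Matrix (Fin n) (Fin n) F) i j := by
        intro i j
        have h1 := congrFun (congrFun hg i) j
        simp only [Matrix.map_apply, Matrix.smul_apply, smul_eq_mul] at h1
        rw [map_mul, map_inv₀, hσa, h1]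
        field_simp
      choose hm hhm using fun i j => hι _ (hfix i j)
      obtain ⟨H, hHdef⟩ : ∃ H : Matrix (Fin n) (Fin n) F₀, ∀ i j, H i j = hm i j :=
        ⟨Matrix.of hm, fun i j => rfl⟩
      have hH : H.map ι = a⁻¹ • (g : Matrix (Fin n) (Fin n) F) := by
        ext i j
        rw [Matrix.map_apply, hHdef, hhm, Matrix.smul_apply, smul_eq_mul]
      have hdet : H.det ≠ 0 := by
        intro h0
        have h1 : (H.map ι).det = 0 := by
          rw [← RingHom.mapMatrix_apply, ← RingHom.map_det, h0, map_zero]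
        rw [hH, Matrix.det_smul] at h1
        have h2 : (g : Matrix (Fin n) (Fin n) F).det ≠ 0 :=
          ((Matrix.isUnit_iff_isUnit_det _).1 g.isUnit).ne_zero
        exact mul_ne_zero (pow_ne_zero _ (inv_ne_zero hij)) h2 h1
      obtain ⟨hG, hhG⟩ : ∃ hG : GL (Fin n) F₀, (hG : Matrix (Fin n) (Fin n) F₀) = H :=
        ⟨Matrix.GeneralLinearGroup.mkOfDetNeZero H hdet, rfl⟩
      refine ⟨(Units.mk0 a hij, hG), ?_⟩
      apply Units.ext
      rw [hΨ, hhG, hH, Units.val_mk0, smul_smul, mul_inv_cancel₀ hij, one_smul]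
  have hker : Nat.card Ψ.ker = q₀ - 1 := by
    have hmk : ∀ b : F₀ˣ, (Units.map (ι : F₀ →* F) b⁻¹,
        Matrix.GeneralLinearGroup.scalar (Fin n) b) ∈ Ψ.ker := by
      intro b
      rw [MonoidHom.mem_ker]; apply Units.ext; rw [hΨ]
      ext i j
      simp only [Matrix.smul_apply, Matrix.map_apply, smul_eq_mul, GeneralLinearGroup.coe_scalar,
        Matrix.scalar_apply, Matrix.diagonal_apply, Units.coe_map, MonoidHom.coe_coe,
        Units.val_one, Matrix.one_apply]
      by_cases hij : i = j
      · rw [if_pos hij, if_pos hij, ← map_mul, Units.inv_mul, map_one]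
      · rw [if_neg hij, if_neg hij, map_zero, mul_zero]
    have hbij : Function.Bijective (fun b : F₀ˣ => (⟨_, hmk b⟩ : Ψ.ker)) := by
      constructor
      · intro b b' hbb
        have h1 := congrArg (fun k : Ψ.ker => (k.1.1 : Fˣ)) hbb
        simp only at h1
        have h2 := Units.map_injective (f := (ι : F₀ →* F)) hιinj h1
        exact inv_injective h2
      · rintro ⟨⟨a, h⟩, hk⟩
        rw [MonoidHom.mem_ker] at hk
        have h1 := congrArg (fun g : GL (Fin n) F => (g : Matrix (Fin n) (Fin n) F)) hk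
        simp only [hΨ] at h1
        have hent : ∀ i j, (a : F) * ι ((h : Matrix (Fin n) (Fin n) F₀) i j)
            = if i = j then 1 else 0 := by
          intro i j
          have h2 := congrFun (congrFun h1 i) j
          simpa [Matrix.one_apply] using h2
        obtain ⟨b, hb⟩ : ∃ b : F₀, b = (h : Matrix (Fin n) (Fin n) F₀) ⟨0, hn⟩ ⟨0, hn⟩ :=
          ⟨_, rfl⟩
        have hab : (a : F) * ι b = 1 := by
          rw [hb]; simpa using hent ⟨0, hn⟩ ⟨0, hn⟩
        have hb0 : b ≠ 0 := by
          intro h0; rw [h0, map_zero, mul_zero] at hab; exact zero_ne_one hab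
        refine ⟨Units.mk0 b hb0, ?_⟩
        apply Subtype.ext
        apply Prod.ext
        · apply Units.ext
          show ι ((Units.mk0 b hb0)⁻¹ : F₀ˣ) = (a : F)
          rw [Units.val_inv_eq_inv_val, Units.val_mk0, map_inv₀]
          exact (eq_inv_of_mul_eq_one_left hab).symm
        · apply Units.ext
          ext i j
          show ι ((Matrix.scalar (Fin n) b) i j) = ι ((h : Matrix (Fin n) (Fin n) F₀) i j)
          have h3 := hent i j
          rw [Matrix.scalar_apply, Matrix.diagonal_apply]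
          have ha0 : (a : F) ≠ 0 := a.ne_zero
          apply mul_left_cancel₀ ha0
          rw [h3]
          by_cases hij : i = j
          · rw [if_pos hij, if_pos hij, hab]
          · rw [if_neg hij, if_neg hij, map_zero, mul_zero]
    rw [← Nat.card_eq_of_bijective _ hbij, Nat.card_units, Nat.card_eq_fintype_card, hq₀]
  have h1 := Ψ.ker.card_mul_index
  rw [Subgroup.index_ker, hker, Nat.card_prod, Nat.card_units,
    Nat.card_eq_fintype_card (α := F), hF, Matrix.card_GL_field, hq₀] at h1
  rw [Nat.card_congr (Equiv.subtypeEquivRight hrange).symm]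
  have hq2 : 2 ≤ q₀ := by
    rw [← hq₀]; exact Fintype.one_lt_card
  have hdvd : q₀ - 1 ∣ q₀ ^ r - 1 := by
    have := Nat.sub_dvd_pow_sub_pow q₀ 1 r
    rwa [one_pow] at this
  obtain ⟨m, hm⟩ := hdvd
  rw [hm, Nat.mul_div_cancel_left m (by omega)]
  rw [hm, mul_assoc] at h1
  exact Nat.eq_of_mul_eq_mul_left (by omega) h1

end Aux

/-- Centraliser of a field automorphism in PGL_n: let F be the field with q = q₀^r elements, σ a field automorphism of F of prime order r (so its fixed field has q₀ elements) and n ≥ 1. The invertible matrices g whose entrywise image under σ is a scalar multiple of g — those whose coset modulo scalars is fixed by σ — number (q − 1)/(q₀ − 1) · |GL_n(q₀)|; equivalently the centraliser in PGL_n(q) of the induced automorphism has the order of PGL_n(q₀). -/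
theorem result {F : Type*} [Field F] [Fintype F] {q₀ r n : ℕ} (hr : r.Prime) (hn : 1 ≤ n) (hF : Fintype.card F = q₀ ^ r) (σ : F ≃+* F) (hσ : orderOf σ = r) : Nat.card {g : GL (Fin n) F // ∃ c : F, c ≠ 0 ∧ (g : Matrix (Fin n) (Fin n) F).map σ = c • (g : Matrix (Fin n) (Fin n) F)} = (q₀ ^ r - 1) / (q₀ - 1) * ∏ i : Fin n, (q₀ ^ n - q₀ ^ (i : ℕ)) := by
  exact main hr hn hF σ hσ

end Cfsg.Agent.S2636
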