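import Cfsg.Statements.S2638
-- import your own Cfsg.Agent.* helpers here

set_option autoImplicit false
open Cfsg

namespace Cfsg.Agent.S2638

section Aux
open Matrix Polynomial

theorem card_fix {α : Type*} [Finite α] (f : α → α) {r : ℕ} (hr : r.Prime)
    (hf : ∀ a, f^[r] a = a) :
    Nat.card α ≡ Nat.card {a : α // f a = a} [MOD r] := by
  classical
  haveI := Fintype.ofFinite α
  haveI : Fact r.Prime := ⟨hr⟩
  let g : Function.End α := f
  have h1 : g ^ r ^ 1 = 1 := by
    rw [pow_one]
    have h0 := hom_coe_pow (fun g : Function.End α ↦ (g : α → α)) rfl (fun g h ↦ rfl)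
      g r
    funext a
    have h2 := congrFun h0 a
    exact h2.trans (hf a)
  have h := Equiv.Perm.card_fixedPoints_modEq (f := g) (p := r) (n := 1) h1
  rw [Nat.card_eq_fintype_card]
  have h3 : Nat.card {a : α // f a = a}
      = Fintype.card ↥(Function.fixedPoints g) := by
    rw [← Nat.card_eq_fintype_card]; rfl
  rw [h3]; exact h

variable {F : Type*} [Field F] [Fintype F]

theorem key {n r : ℕ} (hr : r.Prime) (M : Matrix (Fin n) (Fin n) F) (hM : M ^ r = 1)
    (W : Submodule F (Fin n → F)) (hW : ∀ w ∈ W, M *ᵥ w ∈ W) :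
    ((Fintype.card F : ℕ) : ZMod r) ^ Module.finrank F W
      = ((Fintype.card F : ℕ) : ZMod r) ^
          Module.finrank F ↥(W ⊓ LinearMap.ker (M.mulVecLin - 1)) := by
  classical
  let f : W → W := fun w => ⟨M *ᵥ w.1, hW w.1 w.2⟩
  have hit : ∀ (k : ℕ) (w : W), ((f^[k] w : W) : Fin n → F) = (M ^ k) *ᵥ (w : Fin n → F) := by
    intro k
    induction k with
    | zero => intro w; simp
    | succ k ih =>
      intro w
      rw [Function.iterate_succ_apply, ih, pow_succ, ← Matrix.mulVec_mulVec]
  have h := card_fix f hr (fun w => Subtype.ext (by rw [hit, hM, Matrix.one_mulVec]))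
  have e : {a : W // f a = a} ≃ ↥(W ⊓ LinearMap.ker (M.mulVecLin - 1)) :=
    { toFun := fun a => ⟨a.1.1, Submodule.mem_inf.2 ⟨a.1.2, by
          have h1 := congrArg Subtype.val a.2
          rw [LinearMap.mem_ker]
          simpa [f, sub_eq_zero] using h1⟩⟩
      invFun := fun u => ⟨⟨u.1, (Submodule.mem_inf.1 u.2).1⟩, Subtype.ext (by
          have h1 := (Submodule.mem_inf.1 u.2).2
          rw [LinearMap.mem_ker] at h1
          simpa [f, sub_eq_zero] using h1)⟩
      left_inv := fun a => rfl
      right_inv := fun u => rfl }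
  rw [Nat.card_congr e, Module.natCard_eq_pow_finrank (K := F),
    Module.natCard_eq_pow_finrank (K := F) (V := ↥(W ⊓ LinearMap.ker (M.mulVecLin - 1))),
    Nat.card_eq_fintype_card] at h
  have h2 := (ZMod.natCast_eq_natCast_iff _ _ _).2 h
  push_cast at h2
  exact_mod_cast h2

theorem main {p q : ℕ} [Fact p.Prime] [CharP F p] (hF : Fintype.card F = q) {n r : ℕ}
    (hn : 1 ≤ n) (hr : r.Prime) (hi : orderOf (q : ZMod r) = n) (x : GL (Fin n) F)
    (hx : orderOf x = r) :
    IsCyclic ↥(Subgroup.centralizer ({x} : Set (GL (Fin n) F))) ∧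
      Nat.card ↥(Subgroup.centralizer ({x} : Set (GL (Fin n) F))) = q ^ n - 1 := by
  classical
  obtain ⟨M, hMdef⟩ : ∃ M : Matrix (Fin n) (Fin n) F, M = (x : Matrix (Fin n) (Fin n) F) :=
    ⟨_, rfl⟩
  have hMr : M ^ r = 1 := by
    have h1 := pow_orderOf_eq_one x
    rw [hx] at h1
    have h2 := congrArg (fun g : GL (Fin n) F => (g : Matrix (Fin n) (Fin n) F)) h1
    rw [hMdef]
    simpa using h2
  have hM1 : M ≠ 1 := by
    intro h
    have h1 : x = 1 := by
      apply Units.ext
      rw [← hMdef, h]; rfl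
    rw [h1, orderOf_one] at hx
    exact hr.one_lt.ne hx
  haveI : Fact r.Prime := ⟨hr⟩
  have hqn : (q : ZMod r) ^ n = 1 := by rw [← hi]; exact pow_orderOf_eq_one _
  have hqu : IsUnit (q : ZMod r) := IsUnit.of_pow_eq_one hqn (by omega)
  have hmv : ∀ v : Fin n → F, (M.mulVecLin - 1) v = M *ᵥ v - v := by
    intro v; simp
  -- (i) no fixed points
  have hfix : ∀ v : Fin n → F, M *ᵥ v = v → v = 0 := by
    have h := key hr M hMr ⊤ (fun _ _ => Submodule.mem_top)
    rw [hF, top_inf_eq, finrank_top, Module.finrank_fin_fun] at h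
    obtain ⟨U, hU⟩ : ∃ U : Submodule F (Fin n → F), U = LinearMap.ker (M.mulVecLin - 1) :=
      ⟨_, rfl⟩
    rw [← hU] at h
    obtain ⟨u, hu⟩ : ∃ u : ℕ, u = Module.finrank F U := ⟨_, rfl⟩
    rw [← hu] at h
    have hun : u ≤ n := by
      have := Submodule.finrank_le U; rwa [Module.finrank_fin_fun, ← hu] at this
    have h2 : (q : ZMod r) ^ (n - u) = 1 := by
      have h3 : (q : ZMod r) ^ u * (q : ZMod r) ^ (n - u) = (q : ZMod r) ^ u * 1 := by
        rw [← pow_add, Nat.add_sub_cancel' hun, mul_one]; exact h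
      exact (hqu.pow u).mul_left_cancel h3
    have h3 : n ∣ n - u := by
      have h3' : orderOf (q : ZMod r) ∣ n - u := orderOf_dvd_of_pow_eq_one h2
      rw [hi] at h3'; exact h3' 
    have h4 : u = 0 ∨ u = n := by
      rcases Nat.eq_zero_or_pos (n - u) with h0 | hpos
      · right; omega
      · left; have := Nat.le_of_dvd hpos h3; omega
    rcases h4 with h0 | hnn
    · intro v hv
      have hvU : v ∈ U := by rw [hU, LinearMap.mem_ker, hmv, hv, sub_self]
      have hbot : U = ⊥ := Submodule.finrank_eq_zero.1 (by rw [← hu, h0])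
      rw [hbot] at hvU; exact (Submodule.mem_bot F).1 hvU
    · exfalso
      have hUtop : U = ⊤ :=
        Submodule.eq_top_of_finrank_eq (by rw [← hu, hnn, Module.finrank_fin_fun])
      apply hM1
      have hall : ∀ v, M *ᵥ v = v := by
        intro v
        have hv : v ∈ U := by rw [hUtop]; trivial
        rw [hU, LinearMap.mem_ker, hmv, sub_eq_zero] at hv
        exact hv
      ext i j
      have h5 := congrFun (hall (Pi.single j 1)) i
      rw [Matrix.mulVec_single_one] at h5
      rw [Matrix.one_apply]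
      simpa [Pi.single_apply, eq_comm] using h5
  -- (ii) irreducibility
  have hirr : ∀ W : Submodule F (Fin n → F), (∀ w ∈ W, M *ᵥ w ∈ W) → W ≠ ⊥ → W = ⊤ := by
    intro W hW hne
    have h := key hr M hMr W hW
    rw [hF] at h
    have hbot : W ⊓ LinearMap.ker (M.mulVecLin - 1) = ⊥ := by
      rw [eq_bot_iff]; intro v hv
      have h1 := (Submodule.mem_inf.1 hv).2
      rw [LinearMap.mem_ker, hmv, sub_eq_zero] at h1
      exact (Submodule.mem_bot F).2 (hfix v h1)
    rw [hbot, finrank_bot, pow_zero] at h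
    have h3 : n ∣ Module.finrank F W := by
      have h3' : orderOf (q : ZMod r) ∣ Module.finrank F W := orderOf_dvd_of_pow_eq_one h
      rw [hi] at h3'; exact h3' 
    have hpos : 0 < Module.finrank F W := by
      rw [Nat.pos_iff_ne_zero]
      intro h0
      exact hne (Submodule.finrank_eq_zero.1 h0)
    have hle : Module.finrank F W ≤ n := by
      have := Submodule.finrank_le W; rwa [Module.finrank_fin_fun] at this
    have := Nat.le_of_dvd hpos h3
    exact Submodule.eq_top_of_finrank_eq (by rw [Module.finrank_fin_fun]; omega)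
  -- Step A
  have hA : ∀ c : Matrix (Fin n) (Fin n) F, c * M = M * c → ∀ v : Fin n → F, v ≠ 0 →
      c *ᵥ v = 0 → c = 0 := by
    intro c hc v hv hcv
    have h1 := hirr (LinearMap.ker c.mulVecLin) (by
      intro w hw
      rw [LinearMap.mem_ker, Matrix.mulVecLin_apply] at hw ⊢
      rw [Matrix.mulVec_mulVec, hc, ← Matrix.mulVec_mulVec, hw, Matrix.mulVec_zero]) (by
      intro h
      have h2 : v ∈ LinearMap.ker c.mulVecLin := by
        rw [LinearMap.mem_ker, Matrix.mulVecLin_apply]; exact hcv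
      rw [h] at h2
      exact hv ((Submodule.mem_bot F).1 h2))
    have h2 : c.mulVecLin = 0 := LinearMap.ker_eq_top.1 h1
    ext i j
    have h3 := congrFun (congrArg (fun f => f (Pi.single j 1)) h2) i
    simp only [Matrix.mulVecLin_apply, Matrix.mulVec_single_one] at h3
    simpa using h3
  -- aeval commutes
  have hcomm : ∀ P : F[X], aeval M P * M = M * aeval M P := by
    intro P
    have h1 : aeval M (P * X) = aeval M (X * P) := by rw [mul_comm]
    simpa [map_mul, aeval_X] using h1
  -- Step B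
  have hB : ∀ v : Fin n → F, v ≠ 0 → ∀ u : Fin n → F, ∃ P : F[X], (aeval M P) *ᵥ v = u := by
    intro v hv u
    let L : F[X] →ₗ[F] (Fin n → F) :=
      { toFun := fun P => (aeval M P) *ᵥ v
        map_add' := fun P Q => by simp [Matrix.add_mulVec]
        map_smul' := fun a P => by simp [Matrix.smul_mulVec] }
    have hL : ∀ P, L P = (aeval M P) *ᵥ v := fun P => rfl
    have h1 := hirr (LinearMap.range L) (by
      rintro w ⟨P, rfl⟩
      refine ⟨X * P, ?_⟩
      rw [hL, hL, map_mul, aeval_X, Matrix.mulVec_mulVec]) (by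
      intro h
      have h2 : v ∈ LinearMap.range L := ⟨1, by rw [hL, map_one, Matrix.one_mulVec]⟩
      rw [h] at h2
      exact hv ((Submodule.mem_bot F).1 h2))
    have h2 : u ∈ LinearMap.range L := by rw [h1]; trivial
    obtain ⟨P, hP⟩ := h2
    exact ⟨P, hP⟩
  -- a nonzero vector
  obtain ⟨v₀, hv₀⟩ : ∃ v₀ : Fin n → F, v₀ ≠ 0 := by
    refine ⟨fun _ => 1, fun h => ?_⟩
    have := congrFun h ⟨0, hn⟩
    simp at this
  -- Step C
  have hC : ∀ c : Matrix (Fin n) (Fin n) F, c * M = M * c → ∃ P : F[X], c = aeval M P := by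
    intro c hc
    obtain ⟨P, hP⟩ := hB v₀ hv₀ (c *ᵥ v₀)
    refine ⟨P, ?_⟩
    have h1 : c - aeval M P = 0 := by
      apply hA _ _ v₀ hv₀
      · rw [Matrix.sub_mulVec, hP, sub_self]
      · rw [sub_mul, mul_sub, hc, hcomm]
    exact sub_eq_zero.1 h1
  -- Step D
  have hD : ∀ c c' : Matrix (Fin n) (Fin n) F, c * M = M * c → c' * M = M * c' →
      c * c' = c' * c := by
    intro c c' hc hc'
    obtain ⟨P, rfl⟩ := hC c hc
    obtain ⟨P', rfl⟩ := hC c' hc'
    rw [← map_mul, ← map_mul, mul_comm]
  obtain ⟨S, hS⟩ : ∃ S : Subalgebra F (Matrix (Fin n) (Fin n) F),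
      S = Subalgebra.centralizer F ({M} : Set (Matrix (Fin n) (Fin n) F)) := ⟨_, rfl⟩
  have hSmem : ∀ c : Matrix (Fin n) (Fin n) F, c ∈ S ↔ c * M = M * c := by
    intro c
    rw [hS, Subalgebra.mem_centralizer_iff]
    constructor
    · intro h; exact (h M rfl).symm
    · intro h g hg; rw [Set.mem_singleton_iff.1 hg]; exact h.symm
  letI : CommRing ↥S :=
    { (inferInstance : Ring ↥S) with
      mul_comm := fun a b => Subtype.ext (hD a.1 b.1 ((hSmem _).1 a.2) ((hSmem _).1 b.2)) }
  haveI : Nontrivial (Matrix (Fin n) (Fin n) F) := by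
    haveI : Nonempty (Fin n) := ⟨⟨0, hn⟩⟩
    infer_instance
  haveI : Nontrivial ↥S := ⟨⟨0, 1, fun h => by
    have h1 := congrArg Subtype.val h
    exact zero_ne_one h1⟩⟩
  haveI : NoZeroDivisors ↥S := ⟨by
    intro a b hab
    by_contra hcon
    push_neg at hcon
    have hb : b.1 *ᵥ v₀ ≠ 0 := by
      intro h
      exact hcon.2 (Subtype.ext (hA b.1 ((hSmem _).1 b.2) v₀ hv₀ h))
    have ha : a.1 *ᵥ (b.1 *ᵥ v₀) = 0 := by
      have h1 := congrArg Subtype.val hab
      rw [Matrix.mulVec_mulVec]
      have h2 : a.1 * b.1 = 0 := h1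
      rw [h2, Matrix.zero_mulVec]
    exact hcon.1 (Subtype.ext (hA a.1 ((hSmem _).1 a.2) _ hb ha))⟩
  haveI : IsDomain ↥S := NoZeroDivisors.to_isDomain _
  -- the hom
  have hCmem : ∀ g : GL (Fin n) F, g ∈ Subgroup.centralizer ({x} : Set (GL (Fin n) F)) ↔
      (g : Matrix (Fin n) (Fin n) F) * M = M * (g : Matrix (Fin n) (Fin n) F) := by
    intro g
    rw [Subgroup.mem_centralizer_iff]
    constructor
    · intro h
      have h1 := h x rfl
      have h2 := congrArg (fun g : GL (Fin n) F => (g : Matrix (Fin n) (Fin n) F)) h1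
      rw [hMdef]
      simpa using h2.symm
    · intro h y hy
      rw [Set.mem_singleton_iff.1 hy]
      apply Units.ext
      rw [hMdef] at h
      simpa using h.symm
  let φ : ↥(Subgroup.centralizer ({x} : Set (GL (Fin n) F))) →* ↥S :=
    { toFun := fun g => ⟨(g.1 : Matrix (Fin n) (Fin n) F), (hSmem _).2 ((hCmem g.1).1 g.2)⟩
      map_one' := rfl
      map_mul' := fun a b => rfl }
  have hφ : ∀ g, ((φ g : ↥S) : Matrix (Fin n) (Fin n) F) = (g.1 : Matrix (Fin n) (Fin n) F) :=
    fun g => rfl
  have hinj : Function.Injective φ := by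
    intro a b hab
    have h1 := congrArg Subtype.val hab
    rw [hφ, hφ] at h1
    exact Subtype.ext (Units.ext h1)
  refine ⟨isCyclic_of_subgroup_isDomain φ hinj, ?_⟩
  -- cardinality
  have hcardS : Nat.card ↥S = q ^ n := by
    have hbij : Function.Bijective (fun c : ↥S => c.1 *ᵥ v₀) := by
      constructor
      · intro a b hab
        have h1 : (a.1 - b.1) = 0 := by
          apply hA _ _ v₀ hv₀
          · rw [Matrix.sub_mulVec]; exact sub_eq_zero.2 hab
          · rw [sub_mul, mul_sub, (hSmem _).1 a.2, (hSmem _).1 b.2]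
        exact Subtype.ext (sub_eq_zero.1 h1)
      · intro u
        obtain ⟨P, hP⟩ := hB v₀ hv₀ u
        exact ⟨⟨aeval M P, (hSmem _).2 (hcomm P)⟩, hP⟩
    rw [Nat.card_eq_of_bijective _ hbij, Nat.card_eq_fintype_card, Fintype.card_fun,
      Fintype.card_fin, hF]
  have hbij2 : Function.Bijective
      (fun g : ↥(Subgroup.centralizer ({x} : Set (GL (Fin n) F))) =>
        (⟨φ g, fun h => by
          have h1 := congrArg Subtype.val h
          rw [hφ] at h1
          have h2 : IsUnit (g.1 : Matrix (Fin n) (Fin n) F) := g.1.isUnit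
          rw [h1] at h2
          exact not_isUnit_zero h2⟩ : {s : ↥S // s ≠ 0})) := by
    constructor
    · intro a b hab
      exact hinj (congrArg Subtype.val hab)
    · rintro ⟨s, hs⟩
      have hdet : s.1.det ≠ 0 := by
        intro h0
        obtain ⟨v, hv, hv2⟩ := Matrix.exists_mulVec_eq_zero_iff.2 h0
        exact hs (Subtype.ext (hA s.1 ((hSmem _).1 s.2) v hv hv2))
      obtain ⟨g, hg⟩ : ∃ g : GL (Fin n) F, (g : Matrix (Fin n) (Fin n) F) = s.1 :=
        ⟨Matrix.GeneralLinearGroup.mkOfDetNeZero s.1 hdet, rfl⟩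
      have hgC : g ∈ Subgroup.centralizer ({x} : Set (GL (Fin n) F)) := by
        rw [hCmem, hg]; exact (hSmem _).1 s.2
      refine ⟨⟨g, hgC⟩, ?_⟩
      apply Subtype.ext
      apply Subtype.ext
      exact hg
  rw [Nat.card_eq_of_bijective _ hbij2, ← hcardS]
  have h1 : Nat.card {s : ↥S // s ≠ 0} = Nat.card ↥S - 1 := by
    haveI : Finite ↥S := Finite.of_injective (fun c : ↥S => c.1) Subtype.val_injective
    haveI := Fintype.ofFinite ↥S
    rw [Nat.card_eq_fintype_card, Nat.card_eq_fintype_card]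
    exact Fintype.card_subtype_compl (fun s : ↥S => s = 0) |>.trans (by simp)
  exact h1

end Aux

/-- If an element x of GL_n(q), n ≥ 1, has prime order r and the multiplicative order of q modulo r is n (r is a primitive prime divisor of q^n − 1, so x acts irreducibly), then the centraliser of x in GL_n(q) is cyclic of order q^n − 1 (the multiplicative group of the field with q^n elements, a Singer cycle). -/
theorem result {F : Type*} [Field F] [Fintype F] {p q : ℕ} [Fact p.Prime] [CharP F p] (hF : Fintype.card F = q) {n r : ℕ} (hn : 1 ≤ n) (hr : r.Prime) (hrp : r ≠ p) (hi : orderOf (q : ZMod r) = n) (x : GL (Fin n) F) (hx : orderOf x = r) : IsCyclic ↥(Subgroup.centralizer ({x} : Set (GL (Fin n) F))) ∧ Nat.card ↥(Subgroup.centralizer ({x} : Set (GL (Fin n) F))) = q ^ n - 1 := by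
  exact main hF hn hr hi x hx

end Cfsg.Agent.S2638
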