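import Cfsg.Statements.S2639
import Cfsg.Agent.Lib_helper8_ResScal

set_option autoImplicit false
open Cfsg

namespace Cfsg.Agent.S2639

section Aux
open Matrix Cfsg.Agent.Lib_helper8_ResScal

theorem main {K F : Type*} [Field K] [Fintype K] [Field F] [Fintype F]
    (hK : Fintype.card K = Fintype.card F ^ 2) (m : ℕ) :
    ∃ φ : ↥(Cfsg.GU m K (Fintype.card F)) →* ↥(Matrix.symplecticGroup (Fin m) F),
      Function.Injective φ := by
  classical
  obtain ⟨f⟩ := Cfsg.Agent.S2679.exists_ringHom hK
  obtain ⟨θ, θ', a, c, hQ⟩ := exists_isQuad hK f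
  obtain ⟨C⟩ := nonempty_coords hK f hQ.2.2.2
  let T : (Fin m → K) → (Fin m ⊕ Fin m → F) :=
    fun u => Sum.elim (fun i => C.c₁ (u i)) (fun i => C.c₂ (u i))
  have hinj : Function.Injective T := by
    intro u v huv
    ext i
    rw [C.ext_iff']
    exact ⟨congrFun huv (Sum.inl i), congrFun huv (Sum.inr i)⟩
  have hbij : Function.Bijective T := by
    rw [Fintype.bijective_iff_injective_and_card]
    refine ⟨hinj, ?_⟩
    simp only [Fintype.card_pi, Finset.prod_const, Finset.card_univ, Fintype.card_sum,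
      Fintype.card_fin, hK]
    rw [← pow_mul]
    congr 1
    omega
  have hadd : ∀ u v, T (u + v) = T u + T v := by
    intro u v
    ext (i|i) <;> simp [T]
  have hsmul : ∀ (r : F) (u : Fin m → K), T (f r • u) = r • T u := by
    intro r u
    ext (i|i) <;> simp [T, C.c₁_smul, C.c₂_smul]
  obtain ⟨ρ, hρinj, hρ⟩ := exists_resHom f T hbij hadd hsmul
  have hform : ∀ u v : Fin m → K, T u ⬝ᵥ Matrix.J (Fin m) F *ᵥ T v
      = C.c₂ (Cfsg.hermForm m K (Fintype.card F) u v) := by
    intro u v
    rw [J_form, Cfsg.hermForm, map_sum]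
    apply Finset.sum_congr rfl
    intro i _
    rw [C.herm₂ hQ]
    simp [T]
  have hmem : ∀ g : ↥(Cfsg.GU m K (Fintype.card F)),
      (ρ.comp ((Units.coeHom _).comp (Subgroup.subtype _))) g
        ∈ Matrix.symplecticGroup (Fin m) F := by
    rintro ⟨g, hg⟩
    apply mem_symplectic_of_forall
    intro x y
    obtain ⟨u, rfl⟩ := hbij.2 x
    obtain ⟨v, rfl⟩ := hbij.2 y
    change (ρ (g : Matrix (Fin m) (Fin m) K) *ᵥ T u) ⬝ᵥ Matrix.J (Fin m) F *ᵥ
      (ρ (g : Matrix (Fin m) (Fin m) K) *ᵥ T v) = _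
    rw [hρ, hρ, hform, hform]
    exact congrArg C.c₂ (hg u v)
  refine ⟨MonoidHom.codRestrict (ρ.comp ((Units.coeHom _).comp (Subgroup.subtype _))) _ hmem, ?_⟩
  intro g g' hgg
  have h1 := congrArg Subtype.val hgg
  have h2 : ((g : GL (Fin m) K) : Matrix (Fin m) (Fin m) K)
      = ((g' : GL (Fin m) K) : Matrix (Fin m) (Fin m) K) := hρinj h1
  exact Subtype.ext (Units.ext h2)

end Aux

/-- The unitary group embeds in the symplectic group of twice the dimension over the subfield: for a field K with q² elements and a field F with q elements (isomorphic to the subfield of K of order q), there is an injective homomorphism GU_m(q) → Sp_2m(F). -/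
theorem result {K F : Type*} [Field K] [Fintype K] [Field F] [Fintype F] {q : ℕ} (hK : Fintype.card K = q ^ 2) (hF : Fintype.card F = q) (m : ℕ) : ∃ φ : ↥(Cfsg.GU m K q) →* ↥(Matrix.symplecticGroup (Fin m) F), Function.Injective φ := by
  subst hF
  exact main hK m

end Cfsg.Agent.S2639
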