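import Cfsg.Statements.S2640
import Cfsg.Agent.Lib_helper8_ResScal

set_option autoImplicit false
open Cfsg

namespace Cfsg.Agent.S2640

section Aux
open Matrix Cfsg.Agent.Lib_helper8_ResScal

theorem main {K F : Type*} [Field K] [Fintype K] [Field F] [Fintype F]
    (hK : Fintype.card K = Fintype.card F ^ 2) (k : ℕ) :
    ∃ φ : ↥(Cfsg.GU (k * 2) K (Fintype.card F)) →*
        ↥(Cfsg.isometryGroup F (Cfsg.quadFormPlus (k * 2) F)),
      Function.Injective φ := by
  classical
  obtain ⟨f⟩ := Cfsg.Agent.S2679.exists_ringHom hK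
  obtain ⟨θ, θ', a, c, hQ⟩ := exists_isQuad hK f
  obtain ⟨C⟩ := nonempty_coords hK f hQ.2.2.2
  obtain ⟨μ, hμ⟩ := exists_norm_neg_one (F := F) hK
  let e : Fin k × Fin 2 ≃ Fin (k * 2) := finProdFinEquiv
  let T : (Fin (k * 2) → K) → (Fin (k * 2) ⊕ Fin (k * 2) → F) := fun u =>
    Sum.elim
      (fun i => pairX C μ (e.symm i).2 (u (e ((e.symm i).1, 0))) (u (e ((e.symm i).1, 1))))
      (fun i => pairY C a c μ (e.symm i).2 (u (e ((e.symm i).1, 0))) (u (e ((e.symm i).1, 1))))
  have hTl : ∀ u j p, T u (Sum.inl (e (j, p))) = pairX C μ p (u (e (j, 0))) (u (e (j, 1))) := by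
    intro u j p
    simp only [T, Sum.elim_inl, Equiv.symm_apply_apply]
  have hTr : ∀ u j p,
      T u (Sum.inr (e (j, p))) = pairY C a c μ p (u (e (j, 0))) (u (e (j, 1))) := by
    intro u j p
    simp only [T, Sum.elim_inr, Equiv.symm_apply_apply]
  have hadd : ∀ u v, T (u + v) = T u + T v := by
    intro u v
    ext (i|i)
    · simp only [T, Sum.elim_inl, Pi.add_apply, pairX_add]
    · simp only [T, Sum.elim_inr, Pi.add_apply, pairY_add]
  have hsmul : ∀ (r : F) (u : Fin (k * 2) → K), T (f r • u) = r • T u := by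
    intro r u
    ext (i|i)
    · simp only [T, Sum.elim_inl, Pi.smul_apply, smul_eq_mul, pairX_smul]
    · simp only [T, Sum.elim_inr, Pi.smul_apply, smul_eq_mul, pairY_smul]
  have hker : ∀ u, T u = 0 → u = 0 := by
    intro u hu
    have h1 : ∀ j, u (e (j, 0)) = 0 ∧ u (e (j, 1)) = 0 := by
      intro j
      apply pair_inj C hQ hμ
      · intro p
        rw [← hTl, hu]
        rfl
      · intro p
        rw [← hTr, hu]
        rfl
    ext i
    obtain ⟨⟨j, p⟩, rfl⟩ := e.surjective i
    fin_cases p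
    · exact (h1 j).1
    · exact (h1 j).2
  have hinj : Function.Injective T := by
    intro u v huv
    have h1 : T (u - v) = 0 := by
      have h2 := hadd (u - v) v
      rw [sub_add_cancel, huv] at h2
      exact add_eq_right.mp h2.symm
    exact sub_eq_zero.mp (hker _ h1)
  have hbij : Function.Bijective T := by
    rw [Fintype.bijective_iff_injective_and_card]
    refine ⟨hinj, ?_⟩
    simp only [Fintype.card_pi, Finset.prod_const, Finset.card_univ, Fintype.card_sum,
      Fintype.card_fin, hK]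
    rw [← pow_mul]
    congr 1
    omega
  obtain ⟨ρ, hρinj, hρ⟩ := exists_resHom f T hbij hadd hsmul
  have hform : ∀ u : Fin (k * 2) → K, Cfsg.quadFormPlus (k * 2) F (T u)
      = C.c₁ (Cfsg.hermForm (k * 2) K (Fintype.card F) u u) := by
    intro u
    rw [Cfsg.quadFormPlus, Cfsg.hermForm, map_sum]
    have e1 : ∑ i, T u (Sum.inl i) * T u (Sum.inr i)
        = ∑ x : Fin k × Fin 2, T u (Sum.inl (e x)) * T u (Sum.inr (e x)) :=
      (Equiv.sum_comp e (fun i => T u (Sum.inl i) * T u (Sum.inr i))).symm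
    have e2 : ∑ i, C.c₁ (u i * u i ^ Fintype.card F)
        = ∑ x : Fin k × Fin 2, C.c₁ (u (e x) * u (e x) ^ Fintype.card F) :=
      (Equiv.sum_comp e (fun i => C.c₁ (u i * u i ^ Fintype.card F))).symm
    rw [e1, e2, Fintype.sum_prod_type, Fintype.sum_prod_type]
    apply Finset.sum_congr rfl
    intro j _
    simp only [hTl, hTr]
    rw [pair_form C hQ hμ, Fin.sum_univ_two]
  have hmem : ∀ g : ↥(Cfsg.GU (k * 2) K (Fintype.card F)),
      ((Units.map ρ).comp (Subgroup.subtype _)) g
        ∈ Cfsg.isometryGroup F (Cfsg.quadFormPlus (k * 2) F) := by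
    rintro ⟨g, hg⟩
    intro x _
    obtain ⟨u, rfl⟩ := hbij.2 x
    change Cfsg.quadFormPlus (k * 2) F (ρ (g : Matrix (Fin (k * 2)) (Fin (k * 2)) K) *ᵥ T u)
      = Cfsg.quadFormPlus (k * 2) F (T u)
    rw [hρ, hform, hform]
    exact congrArg C.c₁ (hg u u)
  refine ⟨MonoidHom.codRestrict ((Units.map ρ).comp (Subgroup.subtype _)) _ hmem, ?_⟩
  intro g g' hgg
  have h1 := congrArg Subtype.val hgg
  have h2 : ρ ((g : GL (Fin (k * 2)) K) : Matrix (Fin (k * 2)) (Fin (k * 2)) K)
      = ρ ((g' : GL (Fin (k * 2)) K) : Matrix (Fin (k * 2)) (Fin (k * 2)) K) :=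
    congrArg Units.val h1
  exact Subtype.ext (Units.ext (hρinj h2))

end Aux

/-- For m even, the unitary group GU_m(q) (over the field with q² elements) embeds in the orthogonal group O⁺_2m(q) of the hyperbolic form Σ x_i y_i over the field with q elements (there is an injective homomorphism). -/
theorem result {K F : Type*} [Field K] [Fintype K] [Field F] [Fintype F] {q : ℕ} (hK : Fintype.card K = q ^ 2) (hF : Fintype.card F = q) (m : ℕ) (hm : Even m) : ∃ φ : ↥(Cfsg.GU m K q) →* ↥(Cfsg.isometryGroup F (Cfsg.quadFormPlus m F)), Function.Injective φ := by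
  subst hF
  obtain ⟨k, rfl⟩ : ∃ k, m = k * 2 := by
    obtain ⟨k, hk⟩ := hm
    exact ⟨k, by omega⟩
  exact main hK k

end Cfsg.Agent.S2640
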