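import Cfsg.Statements.S2665
import Mathlib

set_option autoImplicit false
open scoped MatrixGroups
open Cfsg

namespace Cfsg.Agent.S2665

section Aux
open Polynomial

variable {K : Type*} [Field K]

/-- The polynomial sequence `A₀ = c₀ X^q`, `A_{i+1} = A_i^q + c_{i+1} X^q`. -/
noncomputable def A (q : ℕ) (c : ℕ → K) : ℕ → K[X]
  | 0 => C (c 0) * X ^ q
  | (i + 1) => (A q c i) ^ q + C (c (i + 1)) * X ^ q

theorem A_zero (q : ℕ) (c : ℕ → K) : A q c 0 = C (c 0) * X ^ q := by rw [A]

theorem A_succ (q : ℕ) (c : ℕ → K) (i : ℕ) :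
    A q c (i + 1) = (A q c i) ^ q + C (c (i + 1)) * X ^ q := by rw [A]

theorem A_natDegree (q : ℕ) (hq : 2 ≤ q) (c : ℕ → K) (h0 : c 0 ≠ 0) (i : ℕ) :
    (A q c i).natDegree = q ^ (i + 1) := by
  induction i with
  | zero => rw [A_zero, natDegree_C_mul_X_pow _ _ h0, zero_add, pow_one]
  | succ i ih =>
    rw [A_succ]
    have h1 : ((A q c i) ^ q).natDegree = q ^ (i + 1 + 1) := by
      rw [natDegree_pow, ih, pow_succ (n := i + 1)]; ring
    have h2 : (C (c (i + 1)) * X ^ q).natDegree < ((A q c i) ^ q).natDegree := by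
      rw [h1]
      calc (C (c (i + 1)) * X ^ q).natDegree ≤ q := natDegree_C_mul_X_pow_le _ _
        _ = q ^ 1 := (pow_one q).symm
        _ < q ^ (i + 1 + 1) := Nat.pow_lt_pow_right (by omega) (by omega)
    rw [natDegree_add_eq_left_of_natDegree_lt h2, h1]

theorem A_dvd (q : ℕ) (hq : 2 ≤ q) (c : ℕ → K) (i : ℕ) : X ^ q ∣ A q c i := by
  induction i with
  | zero => rw [A_zero]; exact Dvd.intro_left _ rfl
  | succ i ih =>
    rw [A_succ]
    exact dvd_add (ih.trans (dvd_pow_self _ (by omega))) (Dvd.intro_left _ rfl)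

theorem exists_root_A [IsAlgClosed K] (q : ℕ) (hq : 2 ≤ q) (c : ℕ → K) (h0 : c 0 ≠ 0) (i : ℕ) :
    ∃ t : K, t ≠ 0 ∧ (A q c i).eval t = t := by
  obtain ⟨B, hB⟩ := A_dvd q hq c i
  have hA0 : A q c i ≠ 0 := by
    intro h
    have := A_natDegree q hq c h0 i
    rw [h, natDegree_zero] at this
    have : 0 < q ^ (i + 1) := Nat.pow_pos (by omega)
    omega
  have hB0 : B ≠ 0 := by
    rintro rfl
    exact hA0 (by rw [hB, mul_zero])
  have hnd : (X ^ (q - 1) * B - 1 : K[X]).natDegree = q - 1 + B.natDegree := by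
    have h1 : (X ^ (q - 1) * B : K[X]).natDegree = q - 1 + B.natDegree := by
      rw [natDegree_mul (pow_ne_zero _ X_ne_zero) hB0, natDegree_X_pow]
    rw [natDegree_sub_eq_left_of_natDegree_lt, h1]
    rw [h1, natDegree_one]; omega
  have hdeg : (X ^ (q - 1) * B - 1 : K[X]).degree ≠ 0 := by
    have : 0 < (X ^ (q - 1) * B - 1 : K[X]).natDegree := by rw [hnd]; omega
    exact (natDegree_pos_iff_degree_pos.mp this).ne'
  obtain ⟨t, ht⟩ := IsAlgClosed.exists_root (X ^ (q - 1) * B - 1) hdeg
  have ht' : t ^ (q - 1) * B.eval t = 1 := by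
    have : (X ^ (q - 1) * B - 1 : K[X]).eval t = 0 := ht
    rw [eval_sub, eval_mul, eval_pow, eval_X, eval_one, sub_eq_zero] at this
    exact this
  refine ⟨t, ?_, ?_⟩
  · rintro rfl
    rw [zero_pow (by omega), zero_mul] at ht'
    exact zero_ne_one ht'
  · rw [hB, eval_mul, eval_pow, eval_X]
    have e : q = (q - 1) + 1 := by omega
    calc t ^ q * B.eval t = t * (t ^ (q - 1) * B.eval t) := by
          conv_lhs => rw [e, pow_succ]
          ring
      _ = t := by rw [ht', mul_one]

variable {V : Type*} [AddCommGroup V] [Module K V]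

theorem exists_fixed [IsAlgClosed K] (q : ℕ) (hq : 2 ≤ q) (φ : K →+* K) (hφ : ∀ c, φ c = c ^ q)
    [FiniteDimensional K V] [Nontrivial V] (T : V →ₛₗ[φ] V)
    (hinj : Function.Injective T) : ∃ v : V, v ≠ 0 ∧ T v = v := by
  classical
  have hsurj : ∀ c : K, ∃ r : K, r ^ q = c := fun c => IsAlgClosed.exists_pow_nat_eq c (by omega)
  obtain ⟨v, hv⟩ := exists_ne (0 : V)
  let s : ℕ → V := fun i => T^[i] v
  have hs : ∀ i, T (s i) = s (i + 1) := fun i => (Function.iterate_succ_apply' T i v).symm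
  have hex : ∃ m, ∃ c : ℕ → K, s m = ∑ i ∈ Finset.range m, c i • s i := by
    let S : ℕ →o Submodule K V :=
      ⟨fun m => Submodule.span K (Set.range fun i : Fin m => s i), by
        intro a b hab
        apply Submodule.span_mono
        rintro _ ⟨i, rfl⟩
        exact ⟨⟨i, lt_of_lt_of_le i.2 hab⟩, rfl⟩⟩
    obtain ⟨n, hn⟩ := monotone_stabilizes_iff_noetherian.mpr
      (inferInstance : IsNoetherian K V) S
    refine ⟨n, ?_⟩
    have h1 : s n ∈ S (n + 1) := Submodule.subset_span ⟨⟨n, Nat.lt_succ_self n⟩, rfl⟩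
    rw [← hn (n + 1) (by omega)] at h1
    obtain ⟨c, hc⟩ := (Submodule.mem_span_range_iff_exists_fun K).mp h1
    refine ⟨fun i => if h : i < n then c ⟨i, h⟩ else 0, ?_⟩
    rw [← hc, Finset.sum_range]
    apply Finset.sum_congr rfl
    intro i _
    simp [i.2]
  have hmin : ∀ j, j < Nat.find hex → ∀ c : ℕ → K, s j ≠ ∑ i ∈ Finset.range j, c i • s i := by
    intro j hj c hc
    exact Nat.find_min hex hj ⟨c, hc⟩
  obtain ⟨c, hc⟩ := Nat.find_spec hex
  have hm0 : Nat.find hex ≠ 0 := by
    intro h0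
    rw [h0] at hc
    simp only [Finset.range_zero, Finset.sum_empty] at hc
    exact hv hc
  obtain ⟨m', hm'⟩ : ∃ m', Nat.find hex = m' + 1 := ⟨Nat.find hex - 1, by omega⟩
  rw [hm'] at hc hmin
  -- c 0 ≠ 0
  have hc0 : c 0 ≠ 0 := by
    intro h0
    choose r hr using fun i => hsurj (c (i + 1))
    have h1 : T (∑ i ∈ Finset.range m', r i • s i) = T (s m') := by
      rw [hs, hc, Finset.sum_range_succ', h0, zero_smul, add_zero, map_sum]
      apply Finset.sum_congr rfl
      intro i _
      rw [map_smulₛₗ, hφ, hr, hs]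
    exact hmin m' (by omega) r (hinj h1).symm
  obtain ⟨t, ht0, ht⟩ := exists_root_A q hq c hc0 m'
  let a : ℕ → K := fun i => (A q c i).eval t
  have ha0 : a 0 = c 0 * t ^ q := by
    show (A q c 0).eval t = _
    rw [A_zero, eval_mul, eval_C, eval_pow, eval_X]
  have has : ∀ i, a (i + 1) = (a i) ^ q + c (i + 1) * t ^ q := by
    intro i
    show (A q c (i + 1)).eval t = _
    rw [A_succ, eval_add, eval_pow, eval_mul, eval_C, eval_pow, eval_X]
  have ham : a m' = t := ht
  refine ⟨∑ i ∈ Finset.range (m' + 1), a i • s i, ?_, ?_⟩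
  · intro hw
    rw [Finset.sum_range_succ, ham] at hw
    apply hmin m' (by omega) (fun i => -t⁻¹ * a i)
    have h2 : t • s m' = -∑ i ∈ Finset.range m', a i • s i := eq_neg_of_add_eq_zero_right hw
    have h3 : s m' = t⁻¹ • (t • s m') := by rw [smul_smul, inv_mul_cancel₀ ht0, one_smul]
    rw [h3, h2, smul_neg, Finset.smul_sum, ← Finset.sum_neg_distrib]
    apply Finset.sum_congr rfl
    intro i _
    rw [smul_smul, neg_mul, neg_smul]
  · rw [map_sum]
    have e1 : ∑ i ∈ Finset.range (m' + 1), T (a i • s i) =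
        ∑ i ∈ Finset.range m', (a i) ^ q • s (i + 1) + t ^ q • s (m' + 1) := by
      rw [Finset.sum_range_succ, map_smulₛₗ, hφ, hs, ham]
      congr 1
      apply Finset.sum_congr rfl
      intro i _
      rw [map_smulₛₗ, hφ, hs]
    have e2 : ∑ i ∈ Finset.range (m' + 1), a i • s i =
        ∑ i ∈ Finset.range m', ((a i) ^ q • s (i + 1) + (t ^ q * c (i + 1)) • s (i + 1))
          + (t ^ q * c 0) • s 0 := by
      rw [Finset.sum_range_succ', ha0, mul_comm (c 0)]
      congr 1
      apply Finset.sum_congr rfl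
      intro i _
      rw [has, add_smul, mul_comm (c (i + 1))]
    rw [e1, e2, hc, Finset.sum_range_succ', Finset.sum_add_distrib, smul_add, Finset.smul_sum,
      smul_smul, add_assoc]
    congr 2
    apply Finset.sum_congr rfl
    intro i _
    rw [smul_smul]

theorem span_fixed [IsAlgClosed K] (q : ℕ) (hq : 2 ≤ q) (φ : K →+* K) (hφ : ∀ c, φ c = c ^ q)
    [FiniteDimensional K V] (T : V →ₛₗ[φ] V) (hinj : Function.Injective T) :
    Submodule.span K {v : V | T v = v} = ⊤ := by
  by_contra hW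
  have hsurj : ∀ c : K, ∃ r : K, r ^ q = c := fun c => IsAlgClosed.exists_pow_nat_eq c (by omega)
  have hAS : ∀ c : K, ∃ a : K, a ^ q - a = c := by
    intro c
    have hnd : (X ^ q - (X + C c) : K[X]).natDegree = q := by
      rw [natDegree_sub_eq_left_of_natDegree_lt, natDegree_X_pow]
      rw [natDegree_X_pow, natDegree_X_add_C]; omega
    have hdeg : (X ^ q - (X + C c) : K[X]).degree ≠ 0 := by
      have : 0 < (X ^ q - (X + C c) : K[X]).natDegree := by rw [hnd]; omega
      exact (natDegree_pos_iff_degree_pos.mp this).ne'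
    obtain ⟨a, ha⟩ := IsAlgClosed.exists_root _ hdeg
    refine ⟨a, ?_⟩
    have : (X ^ q - (X + C c) : K[X]).eval a = 0 := ha
    rw [eval_sub, eval_pow, eval_X, eval_add, eval_X, eval_C, sub_eq_zero] at this
    rw [this]; ring
  set W := Submodule.span K {v : V | T v = v} with hWdef
  have hTW : ∀ w ∈ W, T w ∈ W := by
    intro w hw
    induction hw using Submodule.span_induction with
    | mem x hx => rw [show T x = x from hx]; exact Submodule.subset_span hx
    | zero => rw [map_zero]; exact zero_mem _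
    | add x y _ _ hx hy => rw [map_add]; exact add_mem hx hy
    | smul c x _ hx => rw [map_smulₛₗ]; exact Submodule.smul_mem _ _ hx
  have hpre : ∀ w ∈ W, ∃ w' ∈ W, T w' = w := by
    intro w hw
    induction hw using Submodule.span_induction with
    | mem x hx => exact ⟨x, Submodule.subset_span hx, hx⟩
    | zero => exact ⟨0, zero_mem _, map_zero _⟩
    | add x y _ _ hx hy =>
      obtain ⟨x', hx', rfl⟩ := hx
      obtain ⟨y', hy', rfl⟩ := hy
      exact ⟨x' + y', add_mem hx' hy', map_add _ _ _⟩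
    | smul c x _ hx =>
      obtain ⟨x', hx', rfl⟩ := hx
      obtain ⟨r, rfl⟩ := hsurj c
      exact ⟨r • x', Submodule.smul_mem _ _ hx', by rw [map_smulₛₗ, hφ]⟩
  have hinvW : ∀ u, T u ∈ W → u ∈ W := by
    intro u hu
    obtain ⟨w', hw', h⟩ := hpre _ hu
    rwa [← hinj h]
  have hsolve : ∀ d ∈ W, ∃ w ∈ W, T w - w = d := by
    intro d hd
    induction hd using Submodule.closure_induction with
    | zero => exact ⟨0, zero_mem _, by rw [map_zero, sub_zero]⟩
    | add x y _ _ hx hy =>
      obtain ⟨x', hx', rfl⟩ := hx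
      obtain ⟨y', hy', rfl⟩ := hy
      exact ⟨x' + y', add_mem hx' hy', by rw [map_add]; abel⟩
    | smul_mem c x hx =>
      obtain ⟨a, rfl⟩ := hAS c
      refine ⟨a • x, Submodule.smul_mem _ _ (Submodule.subset_span hx), ?_⟩
      rw [map_smulₛₗ, hφ, show T x = x from hx, sub_smul]
  let Tq : (V ⧸ W) →ₛₗ[φ] (V ⧸ W) := W.mapQ W T (fun w hw => hTW w hw)
  have hTq : ∀ u : V, Tq (Submodule.Quotient.mk u) = Submodule.Quotient.mk (T u) := fun u => rfl
  have hTqinj : Function.Injective Tq := by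
    rw [injective_iff_map_eq_zero]
    intro x hx
    obtain ⟨u, rfl⟩ := Submodule.Quotient.mk_surjective W x
    rw [hTq, Submodule.Quotient.mk_eq_zero] at hx
    rw [Submodule.Quotient.mk_eq_zero]
    exact hinvW u hx
  haveI : Nontrivial (V ⧸ W) := Submodule.Quotient.nontrivial_iff.mpr hW
  obtain ⟨x, hx0, hx⟩ := exists_fixed q hq φ hφ Tq hTqinj
  obtain ⟨u, rfl⟩ := Submodule.Quotient.mk_surjective W x
  have hu : u ∉ W := fun h => hx0 ((Submodule.Quotient.mk_eq_zero W).mpr h)
  have hd : T u - u ∈ W := by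
    rw [hTq] at hx
    exact (Submodule.Quotient.eq W).mp hx
  obtain ⟨w, hw, hwd⟩ := hsolve _ hd
  have hfix : T (u - w) = u - w := by
    rw [map_sub]
    have : T u - T w - (u - w) = (T u - u) - (T w - w) := by abel
    rw [← sub_eq_zero, this, hwd, sub_self]
  apply hu
  have h1 : u - w ∈ W := Submodule.subset_span hfix
  have h2 := add_mem h1 hw
  rwa [sub_add_cancel] at h2

theorem main {K : Type*} [Field K] [IsAlgClosed K] (p : ℕ) [Fact p.Prime] [CharP K p]
    (f : ℕ) (hf : 1 ≤ f) (n : ℕ) (g : GL (Fin n) K) :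
    ∃ x : GL (Fin n) K, g = x * (Matrix.GeneralLinearGroup.map (iterateFrobenius K p f) x)⁻¹ := by
  classical
  set φ : K →+* K := iterateFrobenius K p f with hφdef
  have hφ : ∀ c, φ c = c ^ (p ^ f) := fun c => rfl
  have hp := (Fact.out : p.Prime).two_le
  have hq : 2 ≤ p ^ f := by
    calc 2 ≤ p ^ 1 := by rw [pow_one]; exact hp
      _ ≤ p ^ f := Nat.pow_le_pow_right (by omega) hf
  let T : (Fin n → K) →ₛₗ[φ] (Fin n → K) :=
    { toFun := fun v => (g : Matrix (Fin n) (Fin n) K).mulVec (fun i => φ (v i))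
      map_add' := fun v w => by
        rw [← Matrix.mulVec_add]; congr 1; ext i; simp
      map_smul' := fun c v => by
        rw [← Matrix.mulVec_smul]; congr 1; ext i; simp }
  have hT : ∀ v, T v = (g : Matrix (Fin n) (Fin n) K).mulVec (fun i => φ (v i)) := fun v => rfl
  have hinj : Function.Injective T := by
    intro v w h
    rw [hT, hT] at h
    have h1 : (fun i => φ (v i)) = (fun i => φ (w i)) := by
      have := congrArg (((g⁻¹ : GL (Fin n) K) : Matrix (Fin n) (Fin n) K).mulVec) h
      rw [Matrix.mulVec_mulVec, Matrix.mulVec_mulVec, ← Units.val_mul, inv_mul_cancel] at this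
      simpa using this
    ext i
    exact φ.injective (congrFun h1 i)
  have hspan := span_fixed (p ^ f) hq φ hφ T hinj
  obtain ⟨bs, hbs, hbspan, hli⟩ := exists_linearIndependent K {v : Fin n → K | T v = v}
  let b0 : Module.Basis bs K (Fin n → K) := Module.Basis.mk hli (by
    rw [Subtype.range_coe, hbspan, hspan])
  let e : bs ≃ Fin n := b0.indexEquiv (Pi.basisFun K (Fin n))
  let b : Module.Basis (Fin n) K (Fin n → K) := b0.reindex e
  have hb : ∀ j, T (b j) = b j := by
    intro j
    have h1 : b j = ((e.symm j : bs) : Fin n → K) := by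
      show (b0.reindex e) j = _
      rw [Module.Basis.reindex_apply, Module.Basis.mk_apply]
    rw [h1]
    exact hbs (e.symm j).2
  let B := Pi.basisFun K (Fin n)
  let x : GL (Fin n) K := ⟨B.toMatrix b, b.toMatrix B, B.toMatrix_mul_toMatrix_flip b,
    b.toMatrix_mul_toMatrix_flip B⟩
  refine ⟨x, ?_⟩
  rw [eq_mul_inv_iff_mul_eq]
  apply Units.ext
  ext i j
  have h1 := congrFun (hb j) i
  rw [hT] at h1
  rw [Units.val_mul, Matrix.mul_apply]
  have hx : ∀ k l, (x : Matrix (Fin n) (Fin n) K) k l = b l k := by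
    intro k l
    show B.toMatrix b k l = b l k
    rw [Module.Basis.toMatrix_apply]
    simp [B]
  rw [hx]
  rw [← h1, Matrix.mulVec, dotProduct]
  apply Finset.sum_congr rfl
  intro k _
  congr 1

end Aux

/-- The Lang–Steinberg Theorem for the general linear group. Let `K` be an algebraically closed field of prime characteristic `p`, let `q = p^f` with `f ≥ 1`, and let `σ` be the endomorphism of GL_n(K) raising every matrix entry to the `q`-th power. Then every element `g` of GL_n(K) can be written `g = x · σ(x)⁻¹` for some `x` in GL_n(K): the map `x ↦ x σ(x)⁻¹` is surjective. -/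
theorem result {K : Type*} [Field K] [IsAlgClosed K] (p : ℕ) [Fact p.Prime] [CharP K p]
    (f : ℕ) (hf : 1 ≤ f) (n : ℕ) (g : GL (Fin n) K) :
    ∃ x : GL (Fin n) K, g = x * (Matrix.GeneralLinearGroup.map (iterateFrobenius K p f) x)⁻¹ := by
  exact main p f hf n g

end Cfsg.Agent.S2665
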