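import Cfsg.Statements.S2666
import Cfsg.Agent.Lib_helper8_Shintani

set_option autoImplicit false
open Cfsg

namespace Cfsg.Agent.S2666

open Cfsg.Agent.Lib_helper8_Shintani

/-- Shintani descent, in an abstract form. Let `σ` be an automorphism of a group `X` such that the maps `a ↦ a·σ(a)⁻¹` and `a ↦ a·σᵉ(a)⁻¹` are surjective on `X` (the Lang–Steinberg property, which holds when `X` is a connected algebraic group and `σ` a Steinberg endomorphism), where `e ≥ 1`. Write `G` for the subgroup of fixed points of `σᵉ` and `H` for the subgroup of fixed points of `σ`. The `G`-conjugacy classes in the coset `G σ` of the semidirect product of `G` by `σ` correspond to the orbits of `G` on itself under twisted conjugation `g ↦ k g σ(k)⁻¹`, and the `e`-th power of `g σ` has `G`-part the norm `g σ(g) ⋯ σ^(e-1)(g)`. For `g` in `G` and any `a` with `g = a σ(a)⁻¹`, put `x = σᵉ(a)⁻¹ a`. Then: (1) `x` lies in `H`, and `a⁻¹ · (g σ(g) ⋯ σ^(e-1)(g))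 · a = x`; (2) for `g, g'` in `G` with such elements `a, b` and `x, x'`, the elements `g, g'` are twisted-conjugate under `G` if and only if `x, x'` are conjugate in `H`; (3) every element of `H` arises as such an `x`. So `g ↦ x` induces a well-defined bijection from the twisted `G`-classes of `G` onto the conjugacy classes of `H` (the Shintani map). -/
theorem result {X : Type*} [Group X] (σ : MulAut X) (e : ℕ) (he : 1 ≤ e)
    (hL : ∀ g : X, ∃ a : X, g = a * (σ a)⁻¹) (hLe : ∀ g : X, ∃ a : X, g = a * ((σ ^ e) a)⁻¹) :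
    (∀ g ∈ (MulEquiv.toMonoidHom (σ ^ e)).eqLocus (MonoidHom.id X), ∀ a : X, g = a * (σ a)⁻¹ →
        ((σ ^ e) a)⁻¹ * a ∈ (MulEquiv.toMonoidHom σ).eqLocus (MonoidHom.id X) ∧
          a⁻¹ * ((List.range e).map (fun i => (σ ^ i) g)).prod * a = ((σ ^ e) a)⁻¹ * a) ∧
    (∀ g ∈ (MulEquiv.toMonoidHom (σ ^ e)).eqLocus (MonoidHom.id X), ∀ g' ∈ (MulEquiv.toMonoidHom (σ ^ e)).eqLocus (MonoidHom.id X), ∀ a b : X,
        g = a * (σ a)⁻¹ → g' = b * (σ b)⁻¹ →
          ((∃ k ∈ (MulEquiv.toMonoidHom (σ ^ e)).eqLocus (MonoidHom.id X), g' = k * g * (σ k)⁻¹) ↔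
            (∃ h ∈ (MulEquiv.toMonoidHom σ).eqLocus (MonoidHom.id X), ((σ ^ e) b)⁻¹ * b = h * (((σ ^ e) a)⁻¹ * a) * h⁻¹))) ∧
    (∀ x ∈ (MulEquiv.toMonoidHom σ).eqLocus (MonoidHom.id X), ∃ g ∈ (MulEquiv.toMonoidHom (σ ^ e)).eqLocus (MonoidHom.id X), ∃ a : X,
        g = a * (σ a)⁻¹ ∧ ((σ ^ e) a)⁻¹ * a = x) := by
  refine ⟨?_, ?_, ?_⟩
  · intro g hg a ha
    rw [mem_fix_iff] at hg ⊢
    refine ⟨x_fixed σ e hg ha, ?_⟩
    rw [norm_eq σ e ha]; group
  · intro g hg g' hg' a b ha hb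
    rw [mem_fix_iff] at hg hg'
    constructor
    · rintro ⟨k, hk, hgk⟩
      rw [mem_fix_iff] at hk
      -- h' = (k a)⁻¹ b is fixed by σ
      have hsb : σ b = g'⁻¹ * b := sigma_a_eq σ hb
      have hsa : σ a = g⁻¹ * a := sigma_a_eq σ ha
      have hfix : σ ((k * a)⁻¹ * b) = (k * a)⁻¹ * b := by
        rw [map_mul, map_inv, map_mul, hsb, hsa, hgk]; group
      have hfixT : (σ ^ e) ((k * a)⁻¹ * b) = (k * a)⁻¹ * b := pow_fix σ e hfix
      refine ⟨((k * a)⁻¹ * b)⁻¹, ?_, ?_⟩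
      · rw [mem_fix_iff, map_inv, hfix]
      · have hTb : (σ ^ e) b = k * (σ ^ e) a * ((k * a)⁻¹ * b) := by
          have : (σ ^ e) b = (σ ^ e) (k * a * ((k * a)⁻¹ * b)) := by
            congr 1; group
          rw [this, map_mul, map_mul, hfixT, hk]
        rw [hTb]; group
    · rintro ⟨h, hh, hx⟩
      rw [mem_fix_iff] at hh
      have hhT : (σ ^ e) h = h := pow_fix σ e hh
      refine ⟨b * h * a⁻¹, ?_, ?_⟩
      · rw [mem_fix_iff, map_mul, map_mul, map_inv, hhT]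
        -- from hx : (T b)⁻¹ * b = h * ((T a)⁻¹ * a) * h⁻¹
        have hTb : (σ ^ e) b = b * (h * (((σ ^ e) a)⁻¹ * a) * h⁻¹)⁻¹ := by
          rw [← hx]; group
        rw [hTb]; group
      · rw [map_mul, map_mul, map_inv, hh, ha, hb]; group
  · intro x hx
    rw [mem_fix_iff] at hx
    obtain ⟨c, hc⟩ := hLe x⁻¹
    have hxc : x = (σ ^ e) c * c⁻¹ := by
      have := congrArg (fun z => z⁻¹) hc
      simpa using this
    have hTa : (σ ^ e) c⁻¹ = c⁻¹ * x⁻¹ := by
      rw [map_inv, hxc]; group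
    generalize c⁻¹ = a at hTa
    refine ⟨a * (σ a)⁻¹, ?_, a, rfl, ?_⟩
    · rw [mem_fix_iff, map_mul, map_inv, ← pow_comm_apply, hTa, map_mul, map_inv, hx]
      group
    · rw [hTa]; group

end Cfsg.Agent.S2666
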