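import Cfsg.Statements.S2668
import Cfsg.Agent.Lib_helper8_Shintani

set_option autoImplicit false
open Cfsg

namespace Cfsg.Agent.S2668

open Cfsg.Agent.Lib_helper8_Shintani

/-- Shintani descent and powers (abstract form). Let `σ` be an automorphism of a group `X`, `e ≥ 1` and `d ≥ 1`, let `g` be fixed by `σᵉ` and let `a` satisfy `g = a σ(a)⁻¹`, so that the Shintani map of `(X, σ, e)` sends the class of `g σ` to the class of `x = σᵉ(a)⁻¹ a`. Put `h = g σ(g) ⋯ σ^(d-1)(g)`, the part in `X` of the `d`-th power `(g σ)^d = h σ^d`. Then `h = a σ^d(a)⁻¹` (so `a` also serves for `h` with respect to `σ^d`), `h` is fixed by `(σ^d)ᵉ`, and `(σ^d)ᵉ(a)⁻¹ a = x^d`: the Shintani map of `(X, σ^d, e)` sends the class of `(g σ)^d` to the class of `x^d`. (When `d` divides `e`, the Shintani map of `(X, σ^d, e/d)` sends it to the class of `x` itself, since `(σ^d)^(e/d) = σᵉ`.) -/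
theorem result {X : Type*} [Group X] (σ : MulAut X) (e d : ℕ) (he : 1 ≤ e) (hd : 1 ≤ d)
    (g : X) (hg : g ∈ (MulEquiv.toMonoidHom (σ ^ e)).eqLocus (MonoidHom.id X)) (a : X) (ha : g = a * (σ a)⁻¹) :
    ((List.range d).map (fun i => (σ ^ i) g)).prod = a * ((σ ^ d) a)⁻¹ ∧
      ((List.range d).map (fun i => (σ ^ i) g)).prod ∈ (MulEquiv.toMonoidHom ((σ ^ d) ^ e)).eqLocus (MonoidHom.id X) ∧
      (((σ ^ d) ^ e) a)⁻¹ * a = (((σ ^ e) a)⁻¹ * a) ^ d := by
  have hgfix : (σ ^ e) g = g := hg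
  have hN := norm_eq σ d ha
  have hpow : (σ ^ d) ^ e = (σ ^ e) ^ d := by rw [← pow_mul, mul_comm, pow_mul]
  refine ⟨hN, ?_, ?_⟩
  · rw [mem_fix_iff, hpow]
    apply pow_fix
    have hmem : ((List.range d).map (fun i => (σ ^ i) g)).prod ∈
        (MulEquiv.toMonoidHom (σ ^ e)).eqLocus (MonoidHom.id X) := by
      apply Subgroup.list_prod_mem
      intro x hx
      rw [List.mem_map] at hx
      obtain ⟨i, -, rfl⟩ := hx
      rw [mem_fix_iff, pow_pow_comm_apply, hgfix]
    exact hmem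
  · rw [hpow]
    have hx : σ (((σ ^ e) a)⁻¹ * a) = ((σ ^ e) a)⁻¹ * a := x_fixed σ e hgfix ha
    have hxT : (σ ^ e) (((σ ^ e) a)⁻¹ * a) = ((σ ^ e) a)⁻¹ * a := pow_fix σ e hx
    have hTa : (σ ^ e) a = a * (((σ ^ e) a)⁻¹ * a)⁻¹ := by group
    generalize hxdef : ((σ ^ e) a)⁻¹ * a = x at hxT hTa
    clear hN
    induction d with
    | zero => simp
    | succ n ih =>
      have hd' : 1 ≤ n ∨ n = 0 := by omega
      rcases Nat.eq_zero_or_pos n with h0 | hpos
      · subst h0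
        rw [zero_add, pow_one, pow_one, hxdef]
      · rw [pow_succ_apply, hTa, map_mul, map_inv, pow_fix (σ ^ e) n hxT, pow_succ', ← ih hpos]
        group

end Cfsg.Agent.S2668
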