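import Cfsg.Statements.S2669
import Cfsg.Agent.Lib_helper8_Shintani

set_option autoImplicit false
open Cfsg

namespace Cfsg.Agent.S2669

open Cfsg.Agent.Lib_helper8_Shintani

section aux
variable {X : Type*} [Group X]

theorem auxF3 (τ : MulAut X) {y y' : X} (h : y * (τ y)⁻¹ = y' * (τ y')⁻¹) :
    τ (y'⁻¹ * y) = y'⁻¹ * y := by
  have hy : τ y = (y' * (τ y')⁻¹)⁻¹ * y := by rw [← h]; group
  rw [map_mul, map_inv, hy]; group

theorem auxF4 (τ : MulAut X) {y' t : X} (ht : τ t = t) :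
    (y' * t) * (τ (y' * t))⁻¹ = y' * (τ y')⁻¹ := by
  rw [map_mul, ht]; group

theorem auxF1 (σ : MulAut X) {a k y : X} (h : σ (a⁻¹ * k * y) = a⁻¹ * k * y) :
    k⁻¹ * (a * (σ a)⁻¹) * σ k = y * (σ y)⁻¹ := by
  rw [map_mul, map_mul, map_inv] at h
  have hk : σ k = σ a * (a⁻¹ * k * y) * (σ y)⁻¹ := by rw [← h]; group
  rw [hk]; group

theorem auxF2 (σ : MulAut X) {a k y : X} (h : k⁻¹ * (a * (σ a)⁻¹) * σ k = y * (σ y)⁻¹) :
    σ (a⁻¹ * k * y) = a⁻¹ * k * y := by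
  have hk : σ k = (k⁻¹ * (a * (σ a)⁻¹))⁻¹ * (y * (σ y)⁻¹) := by rw [← h]; group
  rw [map_mul, map_mul, map_inv, hk]; group

theorem auxG1 (T : MulAut X) {a h c : X} (hh : T h = h) (hq : T (a * h * c) = a * h * c) :
    h⁻¹ * ((T a)⁻¹ * a) * h = T c * c⁻¹ := by
  rw [map_mul, map_mul, hh] at hq
  have hTa : T a = a * h * c * (T c)⁻¹ * h⁻¹ := by rw [← hq]; group
  rw [hTa]; group

theorem auxG2 (T : MulAut X) {a h c : X} (hh : T h = h)
    (hq : (h⁻¹ * ((T a)⁻¹ * a) * h)⁻¹ = c * (T c)⁻¹) : T (a * h * c) = a * h * c := by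
  have hTa : T a = a * h * (c * (T c)⁻¹) * h⁻¹ := by rw [← hq]; group
  rw [map_mul, map_mul, hh, hTa]; group

theorem pow_mem_of_stable (σ : MulAut X) (Y : Subgroup X) (hY : ∀ y ∈ Y, σ y ∈ Y) (n : ℕ) :
    ∀ y ∈ Y, (σ ^ n) y ∈ Y := by
  induction n with
  | zero => intro y hy; simpa using hy
  | succ n ih => intro y hy; rw [pow_succ_apply]; exact ih _ (hY y hy)

end aux

/-- Shintani descent preserves numbers of fixed points on coset spaces (abstract form). Let `σ` be an automorphism of a group `X` and `e ≥ 1`; write `G` for the fixed points of `σᵉ` and `H` for the fixed points of `σ`, and assume `G` is finite. Let `Y` be a `σ`-stable subgroup of `X` on which the maps `a ↦ a σ(a)⁻¹` and `a ↦ a σᵉ(a)⁻¹` are surjective (as for a closed connected `σ`-stable subgroup of an algebraic group). Let `g ∈ G`, let `a ∈ X` satisfy `g = a σ(a)⁻¹` and put `x = σᵉ(a)⁻¹ a` (the Shintani image,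 an element of `H`). The element `g σ` of the semidirect product acts on the cosets of `Y ∩ G` in `G` by `k (Y ∩ G) ↦ g σ(k) (Y ∩ G)`, fixing that coset exactly when `k⁻¹ g σ(k) ∈ Y`; and `x` fixes the coset `h (Y ∩ H)` of `H` exactly when `h⁻¹ x h ∈ Y`. Then the two numbers of fixed cosets agree; in cross-multiplied form, `#{k ∈ G : k⁻¹ g σ(k) ∈ Y} · |Y ∩ H| = #{h ∈ H : h⁻¹ x h ∈ Y} · |Y ∩ G|`. -/
theorem result {X : Type*} [Group X] (σ : MulAut X) (e : ℕ) (he : 1 ≤ e)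
    [Finite ↥((MulEquiv.toMonoidHom (σ ^ e)).eqLocus (MonoidHom.id X))]
    (Y : Subgroup X) (hY : ∀ y : X, y ∈ Y ↔ σ y ∈ Y)
    (hYL : ∀ y ∈ Y, ∃ a ∈ Y, y = a * (σ a)⁻¹) (hYLe : ∀ y ∈ Y, ∃ a ∈ Y, y = a * ((σ ^ e) a)⁻¹)
    (g : X) (hg : g ∈ (MulEquiv.toMonoidHom (σ ^ e)).eqLocus (MonoidHom.id X)) (a : X) (ha : g = a * (σ a)⁻¹) :
    Nat.card {k : ↥((MulEquiv.toMonoidHom (σ ^ e)).eqLocus (MonoidHom.id X)) // (k : X)⁻¹ * g * σ k ∈ Y} *
        Nat.card ↥(Y ⊓ (MulEquiv.toMonoidHom σ).eqLocus (MonoidHom.id X)) =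
      Nat.card {h : ↥((MulEquiv.toMonoidHom σ).eqLocus (MonoidHom.id X)) // (h : X)⁻¹ * (((σ ^ e) a)⁻¹ * a) * h ∈ Y} *
        Nat.card ↥(Y ⊓ (MulEquiv.toMonoidHom (σ ^ e)).eqLocus (MonoidHom.id X)) := by
  classical
  have hYσ : ∀ y ∈ Y, σ y ∈ Y := fun y hy => (hY y).1 hy
  have hYT : ∀ y ∈ Y, (σ ^ e) y ∈ Y := pow_mem_of_stable σ Y hYσ e
  subst ha
  -- the two intermediate sets of pairs
  let P := {p : X × X // (σ ^ e) p.1 = p.1 ∧ p.2 ∈ Y ∧ σ (a⁻¹ * p.1 * p.2) = a⁻¹ * p.1 * p.2}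
  let Q := {p : X × X // σ p.1 = p.1 ∧ p.2 ∈ Y ∧ (σ ^ e) (a * p.1 * p.2) = a * p.1 * p.2}
  have ePQ : P ≃ Q :=
    { toFun := fun p => ⟨(a⁻¹ * p.1.1 * p.1.2, p.1.2⁻¹), p.2.2.2, Y.inv_mem p.2.2.1, by
        have h1 : a * (a⁻¹ * p.1.1 * p.1.2) * (p.1.2)⁻¹ = p.1.1 := by group
        rw [h1]; exact p.2.1⟩
      invFun := fun q => ⟨(a * q.1.1 * q.1.2, q.1.2⁻¹), q.2.2.2, Y.inv_mem q.2.2.1, by
        have h1 : a⁻¹ * (a * q.1.1 * q.1.2) * (q.1.2)⁻¹ = q.1.1 := by group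
        rw [h1]; exact q.2.1⟩
      left_inv := by
        rintro ⟨⟨k, y⟩, hp⟩
        apply Subtype.ext
        apply Prod.ext
        · show a * (a⁻¹ * k * y) * y⁻¹ = k
          group
        · show y⁻¹⁻¹ = y
          group
      right_inv := by
        rintro ⟨⟨h, c⟩, hq⟩
        apply Subtype.ext
        apply Prod.ext
        · show a⁻¹ * (a * h * c) * c⁻¹ = h
          group
        · show c⁻¹⁻¹ = c
          group }
  -- choice of base points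
  choose! yc hyc using (fun (k : X) (hk : k⁻¹ * (a * (σ a)⁻¹) * σ k ∈ Y) => hYL _ hk)
  choose! cc hcc using (fun (h : X) (hh : h⁻¹ * (((σ ^ e) a)⁻¹ * a) * h ∈ Y) => hYLe _ (Y.inv_mem hh))
  have eA : P ≃ {k : ↥((MulEquiv.toMonoidHom (σ ^ e)).eqLocus (MonoidHom.id X)) //
      (k : X)⁻¹ * (a * (σ a)⁻¹) * σ k ∈ Y} × ↥(Y ⊓ (MulEquiv.toMonoidHom σ).eqLocus (MonoidHom.id X)) :=
    { toFun := fun p =>
        have hmem : (p.1.1)⁻¹ * (a * (σ a)⁻¹) * σ p.1.1 ∈ Y := by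
          rw [auxF1 σ p.2.2.2]; exact Y.mul_mem p.2.2.1 (Y.inv_mem (hYσ _ p.2.2.1))
        (⟨⟨p.1.1, p.2.1⟩, hmem⟩,
          ⟨(yc p.1.1)⁻¹ * p.1.2, Subgroup.mem_inf.mpr ⟨Y.mul_mem (Y.inv_mem (hyc _ hmem).1) p.2.2.1,
            (mem_fix_iff _ _).mpr (by
              apply auxF3
              rw [← auxF1 σ p.2.2.2]; exact (hyc _ hmem).2)⟩⟩)
      invFun := fun kt => ⟨(kt.1.1.1, yc kt.1.1.1 * kt.2.1), kt.1.1.2,
        Y.mul_mem (hyc _ kt.1.2).1 (Subgroup.mem_inf.mp kt.2.2).1, by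
          apply auxF2
          rw [auxF4 σ ((mem_fix_iff _ _).mp (Subgroup.mem_inf.mp kt.2.2).2)]; exact (hyc _ kt.1.2).2⟩
      left_inv := by
        rintro ⟨⟨k, y⟩, hp⟩
        apply Subtype.ext
        apply Prod.ext
        · rfl
        · show yc k * ((yc k)⁻¹ * y) = y
          group
      right_inv := by
        rintro ⟨⟨⟨k, hk⟩, hkA⟩, ⟨t, ht⟩⟩
        apply Prod.ext
        · rfl
        · apply Subtype.ext
          show (yc k)⁻¹ * (yc k * t) = t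
          group }
  have eB : Q ≃ {h : ↥((MulEquiv.toMonoidHom σ).eqLocus (MonoidHom.id X)) //
      (h : X)⁻¹ * (((σ ^ e) a)⁻¹ * a) * h ∈ Y} × ↥(Y ⊓ (MulEquiv.toMonoidHom (σ ^ e)).eqLocus (MonoidHom.id X)) :=
    { toFun := fun q =>
        have hhT : (σ ^ e) q.1.1 = q.1.1 := pow_fix σ e q.2.1
        have hmem : (q.1.1)⁻¹ * (((σ ^ e) a)⁻¹ * a) * q.1.1 ∈ Y := by
          rw [auxG1 (σ ^ e) hhT q.2.2.2]; exact Y.mul_mem (hYT _ q.2.2.1) (Y.inv_mem q.2.2.1)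
        (⟨⟨q.1.1, q.2.1⟩, hmem⟩,
          ⟨(cc q.1.1)⁻¹ * q.1.2, Subgroup.mem_inf.mpr ⟨Y.mul_mem (Y.inv_mem (hcc _ hmem).1) q.2.2.1,
            (mem_fix_iff _ _).mpr (by
              apply auxF3
              rw [← (hcc _ hmem).2, auxG1 (σ ^ e) hhT q.2.2.2]; group)⟩⟩)
      invFun := fun ht => ⟨(ht.1.1.1, cc ht.1.1.1 * ht.2.1), ht.1.1.2,
        Y.mul_mem (hcc _ ht.1.2).1 (Subgroup.mem_inf.mp ht.2.2).1, by
          apply auxG2 (σ ^ e) (pow_fix σ e ht.1.1.2)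
          rw [auxF4 (σ ^ e) ((mem_fix_iff _ _).mp (Subgroup.mem_inf.mp ht.2.2).2)]; exact (hcc _ ht.1.2).2⟩
      left_inv := by
        rintro ⟨⟨h, c⟩, hq⟩
        apply Subtype.ext
        apply Prod.ext
        · rfl
        · show cc h * ((cc h)⁻¹ * c) = c
          group
      right_inv := by
        rintro ⟨⟨⟨h, hh⟩, hhB⟩, ⟨t, ht⟩⟩
        apply Prod.ext
        · rfl
        · apply Subtype.ext
          show (cc h)⁻¹ * (cc h * t) = t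
          group }
  rw [← Nat.card_prod, ← Nat.card_prod]
  exact Nat.card_congr (eA.symm.trans (ePQ.trans eB))

end Cfsg.Agent.S2669
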