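import Cfsg.Statements.S2678
import Cfsg.Agent.Lib_helper8_ResScal

set_option autoImplicit false
open Cfsg

namespace Cfsg.Agent.S2678

section Aux
open Matrix Cfsg.Agent.Lib_helper8_ResScal

theorem main {K F : Type*} [Field K] [Fintype K] [Field F] [Fintype F]
    (hK : Fintype.card K = Fintype.card F ^ 2) (a : ℕ) :
    ∃ φ : ↥(Matrix.symplecticGroup (Fin a) K) →* ↥(Matrix.symplecticGroup (Fin (2 * a)) F),
      Function.Injective φ := by
  classical
  obtain ⟨f⟩ := Cfsg.Agent.S2679.exists_ringHom hK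
  obtain ⟨θ, θ', α, γ, hQ⟩ := exists_isQuad hK f
  obtain ⟨C⟩ := nonempty_coords hK f hQ.2.2.2
  let s : Fin a ⊕ Fin a ≃ Fin (2 * a) := finSumFinEquiv.trans (finCongr (two_mul a).symm)
  let X : ((Fin a ⊕ Fin a) → K) → (Fin a ⊕ Fin a → F) :=
    fun u => Sum.elim (fun i => C.c₁ (u (Sum.inl i))) (fun i => C.c₂ (u (Sum.inl i)))
  let Y : ((Fin a ⊕ Fin a) → K) → (Fin a ⊕ Fin a → F) :=
    fun u => Sum.elim (fun i => C.c₂ (u (Sum.inr i)))
      (fun i => C.c₁ (u (Sum.inr i)) + α * C.c₂ (u (Sum.inr i)))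
  let T : ((Fin a ⊕ Fin a) → K) → (Fin (2 * a) ⊕ Fin (2 * a) → F) :=
    fun u => Sum.elim (fun j => X u (s.symm j)) (fun j => Y u (s.symm j))
  have hTl : ∀ u k, T u (Sum.inl (s k)) = X u k := by
    intro u k
    simp only [T, Sum.elim_inl, Equiv.symm_apply_apply]
  have hTr : ∀ u k, T u (Sum.inr (s k)) = Y u k := by
    intro u k
    simp only [T, Sum.elim_inr, Equiv.symm_apply_apply]
  have hinj : Function.Injective T := by
    intro u v huv
    have hX : ∀ k, X u k = X v k := fun k => by rw [← hTl, ← hTl, huv]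
    have hY : ∀ k, Y u k = Y v k := fun k => by rw [← hTr, ← hTr, huv]
    ext (i|i)
    · rw [C.ext_iff']
      exact ⟨hX (Sum.inl i), hX (Sum.inr i)⟩
    · rw [C.ext_iff']
      have h1 : C.c₂ (u (Sum.inr i)) = C.c₂ (v (Sum.inr i)) := hY (Sum.inl i)
      have h2 : C.c₁ (u (Sum.inr i)) + α * C.c₂ (u (Sum.inr i))
          = C.c₁ (v (Sum.inr i)) + α * C.c₂ (v (Sum.inr i)) := hY (Sum.inr i)
      refine ⟨?_, h1⟩
      rw [h1] at h2
      exact add_right_cancel h2
  have hbij : Function.Bijective T := by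
    rw [Fintype.bijective_iff_injective_and_card]
    refine ⟨hinj, ?_⟩
    simp only [Fintype.card_pi, Finset.prod_const, Finset.card_univ, Fintype.card_sum,
      Fintype.card_fin, hK]
    rw [← pow_mul]
    congr 1
    omega
  have hadd : ∀ u v, T (u + v) = T u + T v := by
    intro u v
    ext (j|j)
    · simp only [T, Sum.elim_inl, Pi.add_apply]
      rcases s.symm j with i|i <;> simp [X]
    · simp only [T, Sum.elim_inr, Pi.add_apply]
      rcases s.symm j with i|i <;> simp [Y]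
      ring
  have hsmul : ∀ (r : F) (u : (Fin a ⊕ Fin a) → K), T (f r • u) = r • T u := by
    intro r u
    ext (j|j)
    · simp only [T, Sum.elim_inl, Pi.smul_apply]
      rcases s.symm j with i|i <;> simp [X, C.c₁_smul, C.c₂_smul]
    · simp only [T, Sum.elim_inr, Pi.smul_apply]
      rcases s.symm j with i|i <;> simp [Y, C.c₁_smul, C.c₂_smul]
      ring
  obtain ⟨ρ, hρinj, hρ⟩ := exists_resHom f T hbij hadd hsmul
  have hform : ∀ u v : (Fin a ⊕ Fin a) → K, T u ⬝ᵥ Matrix.J (Fin (2 * a)) F *ᵥ T v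
      = C.c₂ (u ⬝ᵥ Matrix.J (Fin a) K *ᵥ v) := by
    intro u v
    rw [J_form, J_form, map_sum, ← Equiv.sum_comp s]
    simp only [hTl, hTr]
    rw [Fintype.sum_sum_type, ← Finset.sum_add_distrib]
    apply Finset.sum_congr rfl
    intro i _
    rw [map_sub, C.c₂_mul hQ, C.c₂_mul hQ]
    simp only [X, Y, Sum.elim_inl, Sum.elim_inr]
    ring
  have hmem : ∀ g : ↥(Matrix.symplecticGroup (Fin a) K),
      (ρ.comp (Submonoid.subtype _)) g ∈ Matrix.symplecticGroup (Fin (2 * a)) F := by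
    rintro ⟨g, hg⟩
    apply mem_symplectic_of_forall
    intro x y
    obtain ⟨u, rfl⟩ := hbij.2 x
    obtain ⟨v, rfl⟩ := hbij.2 y
    change (ρ g *ᵥ T u) ⬝ᵥ Matrix.J (Fin (2 * a)) F *ᵥ (ρ g *ᵥ T v) = _
    rw [hρ, hρ, hform, hform, forall_of_mem_symplectic g hg]
  refine ⟨MonoidHom.codRestrict (ρ.comp (Submonoid.subtype _)) _ hmem, ?_⟩
  intro g g' hgg
  have h1 := congrArg Subtype.val hgg
  exact Subtype.ext (hρinj h1)

end Aux

/-- Field-extension embedding of symplectic groups: for a field K with q² elements and a field F with q elements there is an injective homomorphism Sp_2a(K) → Sp_4a(F). -/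
theorem result {K F : Type*} [Field K] [Fintype K] [Field F] [Fintype F] {q : ℕ} (hK : Fintype.card K = q ^ 2) (hF : Fintype.card F = q) (a : ℕ) : ∃ φ : ↥(Matrix.symplecticGroup (Fin a) K) →* ↥(Matrix.symplecticGroup (Fin (2 * a)) F), Function.Injective φ := by
  subst hF
  exact main hK a

end Cfsg.Agent.S2678
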