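import Cfsg.Statements.S2738
import Cfsg.Agent.Lib_helper8_NormalSL
import Cfsg.Agent.Lib_helper4_Card

set_option autoImplicit false
open Cfsg

namespace Cfsg.Agent.S2738

/-- The special linear group SL(3, 4) has centre of order 3 and does not split over it: no subgroup is a complement to the centre (so SL(3, 4) is a non-split central extension of PSL(3, 4) by a group of order 3). -/
theorem result (F : Type*) [Field F] [Fintype F] (hF : Fintype.card F = 4) : Nat.card ↥(Subgroup.center (Matrix.SpecialLinearGroup (Fin 3) F)) = 3 ∧ ¬ ∃ K : Subgroup (Matrix.SpecialLinearGroup (Fin 3) F), Subgroup.IsComplement' (Subgroup.center (Matrix.SpecialLinearGroup (Fin 3) F)) K := by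
  have h1 : Nat.card ↥(Subgroup.center (Matrix.SpecialLinearGroup (Fin 3) F)) = 3 := by
    rw [Lib_helper4_Card.card_center_SL hF 3 (by norm_num)]
    decide
  refine ⟨h1, ?_⟩
  rintro ⟨K, hK⟩
  have hsup : K ⊔ Subgroup.center (Matrix.SpecialLinearGroup (Fin 3) F) = ⊤ := by
    rw [sup_comm]; exact hK.sup_eq_top
  have hcomm := Lib_helper8_NormalSL.commutator_le_of_sup_center_eq_top K hsup
  rw [Lib_helper4_SL.commutator_eq_top (by simp)] at hcomm
  have hKtop : K = ⊤ := top_le_iff.mp hcomm
  have hdisj := hK.disjoint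
  rw [hKtop, disjoint_top] at hdisj
  rw [hdisj] at h1
  simp at h1

end Cfsg.Agent.S2738
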