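import Cfsg.Statements.S2739
import Mathlib

set_option autoImplicit false
open scoped Pointwise
open Cfsg

namespace Cfsg.Agent.S2739

section Aux
open Matrix

theorem ch3 {R : Type*} [CommRing R] (A : Matrix (Fin 3) (Fin 3) R) :
    A * A * A - (A 0 0 + A 1 1 + A 2 2) • (A * A)
      + (A 0 0 * A 1 1 - A 0 1 * A 1 0 + A 0 0 * A 2 2 - A 0 2 * A 2 0 + A 1 1 * A 2 2
          - A 1 2 * A 2 1) • A - A.det • (1 : Matrix (Fin 3) (Fin 3) R) = 0 := by
  ext i j
  fin_cases i <;> fin_cases j <;>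
    simp [Matrix.mul_apply, Fin.sum_univ_three, Matrix.det_fin_three] <;> ring

theorem det_sub3 {R : Type*} [CommRing R] (A : Matrix (Fin 3) (Fin 3) R) (a : R) :
    (A - a • (1 : Matrix (Fin 3) (Fin 3) R)).det = A.det
      - a * (A 0 0 * A 1 1 - A 0 1 * A 1 0 + A 0 0 * A 2 2 - A 0 2 * A 2 0 + A 1 1 * A 2 2
          - A 1 2 * A 2 1) + a ^ 2 * (A 0 0 + A 1 1 + A 2 2) - a ^ 3 := by
  rw [Matrix.det_fin_three, Matrix.det_fin_three]
  simp [Matrix.sub_apply, Matrix.smul_apply, Matrix.one_apply]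
  ring

variable {F : Type*} [Field F] [Fintype F]

theorem cube_one (hF : Fintype.card F = 4) (a : F) (ha : a ≠ 0) : a ^ 3 = 1 := by
  have := FiniteField.pow_card_sub_one_eq_one a ha
  rwa [hF] at this

theorem two_zero (hF : Fintype.card F = 4) : (2 : F) = 0 := by
  have h1 : ringChar F = 2 := FiniteField.even_card_iff_char_two.mpr (by rw [hF])
  haveI : CharP F 2 := ringChar.eq_iff.mp h1
  have := CharP.cast_eq_zero F 2
  exact_mod_cast this

theorem exists_omega (hF : Fintype.card F = 4) : ∃ ω : F, ω ≠ 0 ∧ ω ≠ 1 := by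
  classical
  by_contra h
  push Not at h
  have hsub : (Finset.univ : Finset F) ⊆ {0, 1} := by
    intro x _
    by_cases hx : x = 0
    · simp [hx]
    · simp [h x hx]
  have := Finset.card_le_card hsub
  rw [Finset.card_univ, hF] at this
  have h2 := Finset.card_le_two (a := (0 : F)) (b := 1)
  omega

theorem omega_rel (hF : Fintype.card F = 4) (ω : F) (hω0 : ω ≠ 0) (hω1 : ω ≠ 1) :
    ω ^ 2 + ω + 1 = 0 := by
  have h3 := cube_one hF ω hω0
  have h4 : (ω - 1) * (ω ^ 2 + ω + 1) = 0 := by linear_combination h3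
  exact (mul_eq_zero.mp h4).resolve_left (sub_ne_zero.mpr hω1)

theorem smul_one_inj {c d : F} (h : c • (1 : Matrix (Fin 3) (Fin 3) F) = d • 1) : c = d := by
  have := congrFun (congrFun h 0) 0
  simpa using this

theorem charpoly_data (hF : Fintype.card F = 4)
    (A : Matrix (Fin 3) (Fin 3) F) (hdet : A.det = 1) (c : F) (hA3 : A * A * A = c • 1)
    (hns : ∀ d : F, A ≠ d • 1) :
    A 0 0 + A 1 1 + A 2 2 = 0 ∧
    A 0 0 * A 1 1 - A 0 1 * A 1 0 + A 0 0 * A 2 2 - A 0 2 * A 2 0 + A 1 1 * A 2 2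
          - A 1 2 * A 2 1 = 0 := by
  have h2 := two_zero hF
  have hch := ch3 A
  set t := A 0 0 + A 1 1 + A 2 2 with ht
  set e := A 0 0 * A 1 1 - A 0 1 * A 1 0 + A 0 0 * A 2 2 - A 0 2 * A 2 0 + A 1 1 * A 2 2
          - A 1 2 * A 2 1 with he
  rw [hA3, hdet] at hch
  have hinv : A * A.adjugate = 1 := by rw [Matrix.mul_adjugate, hdet, one_smul]
  have hc0 : c ≠ 0 := by
    rintro rfl
    have h5 : (A * A * A).det = 0 := by rw [hA3, zero_smul, Matrix.det_zero]
    rw [Matrix.det_mul, Matrix.det_mul, hdet] at h5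
    norm_num at h5
  -- key relation: t • (A * A) = e • A + (c - 1) • 1
  have hrel : t • (A * A) = e • A + (c - 1) • (1 : Matrix (Fin 3) (Fin 3) F) := by
    have h5 : t • (A * A) - (e • A + (c - 1) • (1 : Matrix (Fin 3) (Fin 3) F))
        = -(c • (1 : Matrix (Fin 3) (Fin 3) F) - t • (A * A) + e • A
          - (1 : F) • (1 : Matrix (Fin 3) (Fin 3) F)) := by module
    rw [hch, neg_zero] at h5
    exact sub_eq_zero.mp h5
  have hc1 : c = 1 := by
    by_contra hc1
    by_cases ht0 : t = 0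
    · rw [ht0, zero_smul] at hrel
      by_cases he0 : e = 0
      · rw [he0, zero_smul, zero_add] at hrel
        have := smul_one_inj (hrel.symm.trans (zero_smul F (1 : Matrix (Fin 3) (Fin 3) F)).symm)
        exact hc1 (sub_eq_zero.mp this)
      · apply hns (e⁻¹ * (1 - c))
        have h6 : e • A = (1 - c) • (1 : Matrix (Fin 3) (Fin 3) F) := by
          have h5 : e • A - (1 - c) • (1 : Matrix (Fin 3) (Fin 3) F)
              = e • A + (c - 1) • (1 : Matrix (Fin 3) (Fin 3) F) := by module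
          rw [← hrel] at h5
          exact sub_eq_zero.mp h5
        rw [mul_smul, ← h6, smul_smul, inv_mul_cancel₀ he0, one_smul]
    · have hAA : A * A = (t⁻¹ * e) • A + (t⁻¹ * (c - 1)) • (1 : Matrix (Fin 3) (Fin 3) F) := by
        rw [mul_smul, mul_smul, ← smul_add, ← hrel, smul_smul, inv_mul_cancel₀ ht0, one_smul]
      set α := t⁻¹ * e with hα
      set β := t⁻¹ * (c - 1) with hβ
      have hA3' : A * A * A = (α ^ 2 + β) • A + (α * β) • (1 : Matrix (Fin 3) (Fin 3) F) := by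
        rw [hAA, Matrix.add_mul, Matrix.smul_mul, Matrix.smul_mul, Matrix.one_mul, hAA]
        module
      rw [hA3] at hA3'
      have h7 : α ^ 2 + β = 0 := by
        by_contra h7
        apply hns ((α ^ 2 + β)⁻¹ * (c - α * β))
        have h8 : (α ^ 2 + β) • A = (c - α * β) • (1 : Matrix (Fin 3) (Fin 3) F) := by
          have h5 : (α ^ 2 + β) • A - (c - α * β) • (1 : Matrix (Fin 3) (Fin 3) F)
              = ((α ^ 2 + β) • A + (α * β) • (1 : Matrix (Fin 3) (Fin 3) F))
                - c • (1 : Matrix (Fin 3) (Fin 3) F) := by module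
          rw [← hA3', sub_self] at h5
          exact sub_eq_zero.mp h5
        rw [mul_smul, ← h8, smul_smul, inv_mul_cancel₀ h7, one_smul]
      rw [h7, zero_smul, zero_add] at hA3'
      have h9 : c = α * β := smul_one_inj hA3'
      have hα0 : α ≠ 0 := by
        rintro h0
        rw [h0, zero_mul] at h9
        exact hc0 h9
      have hα3 := cube_one hF α hα0
      apply hc1
      linear_combination h9 + α * h7 - hα3 - h2
  rw [hc1, sub_self, zero_smul, add_zero] at hrel
  have ht0 : t = 0 := by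
    by_contra ht0
    apply hns (t⁻¹ * e)
    have hAA : A * A = (t⁻¹ * e) • A := by
      rw [mul_smul, ← hrel, smul_smul, inv_mul_cancel₀ ht0, one_smul]
    have h5 : A * A * A.adjugate = ((t⁻¹ * e) • A) * A.adjugate := by rw [hAA]
    rw [Matrix.mul_assoc, hinv, Matrix.mul_one, Matrix.smul_mul, hinv] at h5
    exact h5
  refine ⟨ht0, ?_⟩
  rw [ht0, zero_smul] at hrel
  by_contra he0
  have hA0 : A = 0 := by
    have := congrArg (fun M => e⁻¹ • M) hrel
    simp only [smul_zero, smul_smul, inv_mul_cancel₀ he0, one_smul] at this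
    exact this.symm
  rw [hA0, Matrix.det_zero] at hdet
  exact zero_ne_one hdet

theorem exists_eigvec (hF : Fintype.card F = 4)
    (A : Matrix (Fin 3) (Fin 3) F) (hdet : A.det = 1) (c : F) (hA3 : A * A * A = c • 1)
    (hns : ∀ d : F, A ≠ d • 1) (a : F) (ha : a ≠ 0) :
    ∃ v : Fin 3 → F, v ≠ 0 ∧ A *ᵥ v = a • v := by
  obtain ⟨ht, he⟩ := charpoly_data hF A hdet c hA3 hns
  have hd : (A - a • (1 : Matrix (Fin 3) (Fin 3) F)).det = 0 := by
    rw [det_sub3, ht, he, hdet, cube_one hF a ha]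
    ring
  obtain ⟨v, hv0, hv⟩ := Matrix.exists_mulVec_eq_zero_iff.mpr hd
  refine ⟨v, hv0, ?_⟩
  rw [Matrix.sub_mulVec, Matrix.smul_mulVec, Matrix.one_mulVec] at hv
  exact sub_eq_zero.mp hv

theorem diag_form (hF : Fintype.card F = 4) (ω : F) (hω0 : ω ≠ 0) (hω1 : ω ≠ 1)
    (A : Matrix (Fin 3) (Fin 3) F) (hdet : A.det = 1) (c : F) (hA3 : A * A * A = c • 1)
    (hns : ∀ d : F, A ≠ d • 1) :
    ∃ P : Matrix (Fin 3) (Fin 3) F, P.det = 1 ∧ A * P = P * Matrix.diagonal ![1, ω, ω ^ 2] := by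
  classical
  have h2 := two_zero hF
  have hrel := omega_rel hF ω hω0 hω1
  have hμ0 : ∀ i : Fin 3, (![1, ω, ω ^ 2] : Fin 3 → F) i ≠ 0 := by
    intro i
    fin_cases i
    · exact one_ne_zero
    · exact hω0
    · exact pow_ne_zero 2 hω0
  have hinj : Function.Injective (![1, ω, ω ^ 2] : Fin 3 → F) := by
    have h1 : ω ^ 2 ≠ 1 := by
      intro h
      apply hω0
      linear_combination hrel - h - h2
    have h3 : ω ^ 2 ≠ ω := by
      intro h
      apply one_ne_zero (α := F)
      linear_combination hrel - h - ω * h2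
    intro i j hij
    fin_cases i <;> fin_cases j
    · rfl
    · exact absurd hij.symm hω1
    · exact absurd hij.symm h1
    · exact absurd hij hω1
    · rfl
    · exact absurd hij.symm h3
    · exact absurd hij h1
    · exact absurd hij h3
    · rfl
  choose v hv0 hv using fun i : Fin 3 =>
    exists_eigvec hF A hdet c hA3 hns ((![1, ω, ω ^ 2] : Fin 3 → F) i) (hμ0 i)
  have hli : LinearIndependent F v := by
    apply Module.End.eigenvectors_linearIndependent' (Matrix.toLin' A) (![1, ω, ω ^ 2]) hinj v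
    intro i
    exact ⟨Module.End.mem_eigenspace_iff.mpr (by rw [Matrix.toLin'_apply]; exact hv i), hv0 i⟩
  set P₀ : Matrix (Fin 3) (Fin 3) F := Matrix.of (fun i j => v j i) with hP₀
  have hP₀det : P₀.det ≠ 0 := by
    intro h0
    obtain ⟨x, hx0, hx⟩ := Matrix.exists_mulVec_eq_zero_iff.mpr h0
    apply hx0
    have h5 : ∑ j, x j • v j = 0 := by
      ext i
      have := congrFun hx i
      simp only [Matrix.mulVec, dotProduct, hP₀, Matrix.of_apply, Pi.zero_apply] at this
      simp only [Finset.sum_apply, Pi.smul_apply, smul_eq_mul, Pi.zero_apply]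
      rw [← this]
      exact Finset.sum_congr rfl (fun j _ => mul_comm _ _)
    funext j
    exact Fintype.linearIndependent_iff.mp hli x h5 j
  have hAP₀ : A * P₀ = P₀ * Matrix.diagonal ![1, ω, ω ^ 2] := by
    ext i j
    rw [Matrix.mul_diagonal]
    have := congrFun (hv j) i
    simp only [Matrix.mulVec, dotProduct, Pi.smul_apply, smul_eq_mul] at this
    simp only [Matrix.mul_apply, hP₀, Matrix.of_apply]
    rw [this, mul_comm]
  refine ⟨P₀ * Matrix.diagonal ![(P₀.det)⁻¹, 1, 1], ?_, ?_⟩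
  · rw [Matrix.det_mul, Matrix.det_diagonal, Fin.prod_univ_three]
    simp [mul_inv_cancel₀ hP₀det]
  · rw [← Matrix.mul_assoc, hAP₀, Matrix.mul_assoc, Matrix.mul_assoc, Matrix.diagonal_mul_diagonal,
      Matrix.diagonal_mul_diagonal]
    congr 2
    funext i
    exact mul_comm _ _

theorem sub_eq_zpowers {G : Type*} [Group G] (X : Subgroup G) (hX : Nat.card X = 3) (x : G)
    (hx : x ∈ X) (hx1 : x ≠ 1) : X = Subgroup.zpowers x ∧ orderOf x = 3 := by
  haveI : Finite X := Nat.finite_of_card_ne_zero (by omega)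
  have hle : Subgroup.zpowers x ≤ X := (Subgroup.zpowers_le).mpr hx
  have hord : orderOf x ∣ 3 := by
    have := orderOf_dvd_natCard (⟨x, hx⟩ : X)
    rw [hX] at this
    rwa [Subgroup.orderOf_mk x hx] at this
  have h3 : orderOf x = 3 := by
    rcases (Nat.dvd_prime Nat.prime_three).mp hord with h | h
    · exact absurd (orderOf_eq_one_iff.mp h) hx1
    · exact h
  refine ⟨?_, h3⟩
  symm
  apply Subgroup.eq_of_le_of_card_ge hle
  rw [Nat.card_zpowers, h3, hX]

theorem exists_ne_one_mem {G : Type*} [Group G] (X : Subgroup G) (hX : Nat.card X = 3) :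
    ∃ x ∈ X, x ≠ 1 := by
  haveI : Finite X := Nat.finite_of_card_ne_zero (by omega)
  haveI : Nontrivial X := Finite.one_lt_card_iff_nontrivial.mp (by rw [hX]; norm_num)
  obtain ⟨x, hx⟩ := exists_ne (1 : X)
  refine ⟨x.1, x.2, ?_⟩
  intro h
  exact hx (Subtype.ext h)

theorem key (hF : Fintype.card F = 4) (ω : F) (hω0 : ω ≠ 0) (hω1 : ω ≠ 1)
    (D : Matrix.SpecialLinearGroup (Fin 3) F)
    (hD : (D : Matrix (Fin 3) (Fin 3) F) = Matrix.diagonal ![1, ω, ω ^ 2])
    (x : Matrix.ProjectiveSpecialLinearGroup (Fin 3) F) (hx : orderOf x = 3) :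
    ∃ P : Matrix.SpecialLinearGroup (Fin 3) F,
      x = (QuotientGroup.mk (P * D * P⁻¹) : Matrix.ProjectiveSpecialLinearGroup (Fin 3) F) := by
  obtain ⟨A, rfl⟩ := QuotientGroup.mk_surjective x
  have hx3 : (QuotientGroup.mk A : Matrix.ProjectiveSpecialLinearGroup (Fin 3) F) ^ 3 = 1 := by
    have := pow_orderOf_eq_one (QuotientGroup.mk A : Matrix.ProjectiveSpecialLinearGroup (Fin 3) F)
    rwa [hx] at this
  have hmem : A ^ 3 ∈ Subgroup.center (Matrix.SpecialLinearGroup (Fin 3) F) := by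
    rw [← QuotientGroup.mk_pow] at hx3
    exact (QuotientGroup.eq_one_iff _).mp hx3
  obtain ⟨r, -, hr⟩ := Matrix.SpecialLinearGroup.mem_center_iff.mp hmem
  have hA3 : (A : Matrix (Fin 3) (Fin 3) F) * (A : Matrix (Fin 3) (Fin 3) F)
      * (A : Matrix (Fin 3) (Fin 3) F) = r • 1 := by
    have h1 : ((A ^ 3 : Matrix.SpecialLinearGroup (Fin 3) F) : Matrix (Fin 3) (Fin 3) F)
        = (A : Matrix (Fin 3) (Fin 3) F) * (A : Matrix (Fin 3) (Fin 3) F)
          * (A : Matrix (Fin 3) (Fin 3) F) := by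
      rw [pow_succ, pow_two]
      rfl
    rw [← h1, ← hr, Matrix.smul_one_eq_diagonal]
    rfl
  have hns : ∀ d : F, (A : Matrix (Fin 3) (Fin 3) F) ≠ d • 1 := by
    intro d hd
    have hAc : A ∈ Subgroup.center (Matrix.SpecialLinearGroup (Fin 3) F) := by
      rw [Matrix.SpecialLinearGroup.mem_center_iff]
      refine ⟨d, ?_, ?_⟩
      · have h5 := A.2
        rw [hd, Matrix.det_smul, Matrix.det_one, mul_one] at h5
        exact h5
      · rw [hd, Matrix.smul_one_eq_diagonal]
        rfl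
    have h1 : (QuotientGroup.mk A : Matrix.ProjectiveSpecialLinearGroup (Fin 3) F) = 1 :=
      (QuotientGroup.eq_one_iff _).mpr hAc
    rw [h1, orderOf_one] at hx
    omega
  obtain ⟨P₀, hP₀, hAP⟩ := diag_form hF ω hω0 hω1 _ A.2 r hA3 hns
  let P : Matrix.SpecialLinearGroup (Fin 3) F := ⟨P₀, hP₀⟩
  refine ⟨P, ?_⟩
  congr 1
  apply eq_mul_inv_of_mul_eq
  apply Subtype.ext
  show (A : Matrix (Fin 3) (Fin 3) F) * P₀ = P₀ * (D : Matrix (Fin 3) (Fin 3) F)
  rw [hD, hAP]

theorem main (hF : Fintype.card F = 4)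
    (X Y : Subgroup (Matrix.ProjectiveSpecialLinearGroup (Fin 3) F)) (hX : Nat.card ↥X = 3)
    (hY : Nat.card ↥Y = 3) :
    ∃ g : Matrix.ProjectiveSpecialLinearGroup (Fin 3) F, MulAut.conj g • X = Y := by
  obtain ⟨ω, hω0, hω1⟩ := exists_omega hF
  have hdetD : (Matrix.diagonal ![1, ω, ω ^ 2] : Matrix (Fin 3) (Fin 3) F).det = 1 := by
    rw [Matrix.det_diagonal, Fin.prod_univ_three]
    simp only [Matrix.cons_val_zero, Matrix.cons_val_one, Matrix.cons_val_two, Matrix.head_cons,
      Matrix.tail_cons]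
    have := cube_one hF ω hω0
    linear_combination this
  set D : Matrix.SpecialLinearGroup (Fin 3) F := ⟨_, hdetD⟩ with hDdef
  obtain ⟨x, hxX, hx1⟩ := exists_ne_one_mem X hX
  obtain ⟨y, hyY, hy1⟩ := exists_ne_one_mem Y hY
  obtain ⟨hXz, hxo⟩ := sub_eq_zpowers X hX x hxX hx1
  obtain ⟨hYz, hyo⟩ := sub_eq_zpowers Y hY y hyY hy1
  obtain ⟨P, hP⟩ := key hF ω hω0 hω1 D rfl x hxo
  obtain ⟨Q, hQ⟩ := key hF ω hω0 hω1 D rfl y hyo
  refine ⟨(QuotientGroup.mk (Q * P⁻¹) : Matrix.ProjectiveSpecialLinearGroup (Fin 3) F), ?_⟩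
  have hconj : ∀ g z : Matrix.ProjectiveSpecialLinearGroup (Fin 3) F,
      MulAut.conj g • Subgroup.zpowers z = Subgroup.zpowers (g * z * g⁻¹) := by
    intro g z
    rw [Subgroup.pointwise_smul_def]
    exact MonoidHom.map_zpowers (MulDistribMulAction.toMonoidEnd
      (MulAut (Matrix.ProjectiveSpecialLinearGroup (Fin 3) F))
      (Matrix.ProjectiveSpecialLinearGroup (Fin 3) F) (MulAut.conj g)) z
  rw [hXz, hYz, hconj]
  congr 1
  rw [hP, hQ, ← QuotientGroup.mk_inv, ← QuotientGroup.mk_mul, ← QuotientGroup.mk_mul]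
  congr 1
  group

end Aux

/-- In the projective special linear group PSL(3, 4) all subgroups of order 3 are conjugate. -/
theorem result (F : Type*) [Field F] [Fintype F] (hF : Fintype.card F = 4) (X Y : Subgroup (Matrix.ProjectiveSpecialLinearGroup (Fin 3) F)) (hX : Nat.card ↥X = 3) (hY : Nat.card ↥Y = 3) : ∃ g : Matrix.ProjectiveSpecialLinearGroup (Fin 3) F, MulAut.conj g • X = Y := by
  exact main hF X Y hX hY

end Cfsg.Agent.S2739
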