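import Cfsg.Statements.S2758
import Cfsg.Agent.Lib_helper2_Dihedral

set_option autoImplicit false
open Cfsg

namespace Cfsg.Agent.S2758

open scoped Pointwise
universe u

theorem dih_equiv {Q : Type*} [Group Q] (x ρ : Q) (hx : x * x = 1) (hinv : x * ρ * x⁻¹ = ρ⁻¹)
    (hnot : x ∉ Subgroup.zpowers ρ) (hgen : Subgroup.closure {x, ρ} = ⊤) :
    Nonempty (Q ≃* DihedralGroup (orderOf ρ)) := by
  have hinj := Cfsg.Agent.Lib_helper2_Dihedral.dihHom_injective x ρ hx hinv hnot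
  have hsurj : Function.Surjective (Cfsg.Agent.Lib_helper2_Dihedral.dihHom x ρ hx hinv) := by
    rw [← MonoidHom.range_eq_top, Cfsg.Agent.Lib_helper2_Dihedral.dihHom_range, hgen]
  exact ⟨(MulEquiv.ofBijective _ ⟨hinj, hsurj⟩).symm⟩

theorem qpart {K : Type*} [Group K] [Finite K] (q : ℕ) (hq : q.Prime) (g : K) :
    ∃ m : ℕ, m % q = 1 ∧ ∃ k : ℕ, orderOf (g ^ m) = q ^ k := by
  have ho : orderOf g ≠ 0 := (orderOf_pos g).ne'
  obtain ⟨a, c, hc, hac⟩ := Nat.exists_eq_pow_mul_and_not_dvd ho q hq.ne_one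
  have hcop : Nat.Coprime c q := ((Nat.Prime.coprime_iff_not_dvd hq).mpr hc).symm
  obtain ⟨c', -, hc'⟩ := Nat.exists_mul_mod_eq_one_of_coprime hcop hq.one_lt
  refine ⟨c * c', hc', ?_⟩
  have h1 : (g ^ (c * c')) ^ (q ^ a) = 1 := by
    rw [← pow_mul]
    have : c * c' * q ^ a = orderOf g * c' := by rw [hac]; ring
    rw [this, pow_mul, pow_orderOf_eq_one, one_pow]
  obtain ⟨k, -, hk⟩ := (Nat.dvd_prime_pow hq).mp (orderOf_dvd_of_pow_eq_one h1)
  exact ⟨k, hk⟩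

theorem abs_one_to_two {K : Type*} [Group K] [Finite K] {p : ℕ} [Fact p.Prime] (hp : p ≠ 2)
    (π : K →* DihedralGroup p) (hπ : Function.Surjective π) :
    ∃ (x : K) (P : Subgroup K), (∃ k : ℕ, orderOf x = 2 ^ k) ∧ IsPGroup p ↥P ∧
      x ∈ Subgroup.normalizer (P : Set K) ∧ x ∉ Subgroup.centralizer (P : Set K) := by
  classical
  have hpp : p.Prime := Fact.out
  haveI : NeZero p := ⟨hpp.ne_zero⟩
  obtain ⟨A, hA⟩ : ∃ A : Subgroup (DihedralGroup p),
      A = Subgroup.zpowers (DihedralGroup.r 1) := ⟨_, rfl⟩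
  have hrA : ∀ i : ZMod p, DihedralGroup.r i ∈ A := by
    intro i
    rw [hA]
    have : DihedralGroup.r i = (DihedralGroup.r 1 : DihedralGroup p) ^ (i.val) := by
      rw [DihedralGroup.r_one_pow, ZMod.natCast_zmod_val]
    rw [this]; exact Subgroup.pow_mem _ (Subgroup.mem_zpowers _) _
  have hAcard : Nat.card A = p := by rw [hA, Nat.card_zpowers, DihedralGroup.orderOf_r_one]
  have hAidx : A.index = 2 := by
    have h := Subgroup.card_mul_index A
    rw [hAcard, DihedralGroup.nat_card, mul_comm] at h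
    exact Nat.eq_of_mul_eq_mul_right hpp.pos h
  haveI hAn : A.Normal := Subgroup.normal_of_index_eq_two hAidx
  have hsrA : ∀ i : ZMod p, DihedralGroup.sr i ∉ A := by
    intro i hi
    have htop : A = ⊤ := by
      rw [eq_top_iff]
      intro d _
      cases d with
      | r j => exact hrA j
      | sr j =>
        have : DihedralGroup.sr j = DihedralGroup.sr i * DihedralGroup.r (j - i) := by
          rw [DihedralGroup.sr_mul_r]; congr 1; ring
        rw [this]; exact A.mul_mem hi (hrA _)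
    rw [htop, Subgroup.index_top] at hAidx
    exact absurd hAidx (by norm_num)
  obtain ⟨L, hL⟩ : ∃ L : Subgroup K, L = A.comap π := ⟨_, rfl⟩
  haveI hLn : L.Normal := by rw [hL]; infer_instance
  obtain ⟨u, hu⟩ := hπ (DihedralGroup.r 1)
  obtain ⟨m, hm, ku, hku⟩ := qpart p hpp u
  have hπu : π (u ^ m) = DihedralGroup.r 1 := by
    rw [map_pow, hu, DihedralGroup.r_one_pow]
    congr 1
    rw [← ZMod.natCast_mod, hm, Nat.cast_one]
  have huL : u ^ m ∈ L := by rw [hL, Subgroup.mem_comap, hπu]; exact hrA 1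
  have hzp : IsPGroup p (Subgroup.zpowers (⟨u ^ m, huL⟩ : L)) := by
    apply IsPGroup.of_card (n := ku)
    rw [Nat.card_zpowers, ← hku]
    exact Subgroup.orderOf_mk _ _
  obtain ⟨S, hS⟩ := hzp.exists_le_sylow
  obtain ⟨P₀, hP₀⟩ : ∃ P₀ : Subgroup K, P₀ = (S : Subgroup L).map L.subtype := ⟨_, rfl⟩
  have huP₀ : u ^ m ∈ P₀ := by
    rw [hP₀]
    exact ⟨⟨u ^ m, huL⟩, hS (Subgroup.mem_zpowers _), rfl⟩
  have hP₀p : IsPGroup p P₀ := by rw [hP₀]; exact S.2.map _
  have hfr : Subgroup.normalizer (P₀ : Set K) ⊔ L = ⊤ := by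
    rw [hP₀]; exact Sylow.normalizer_sup_eq_top S
  obtain ⟨k₀, hk₀⟩ := hπ (DihedralGroup.sr 0)
  have hk₀mem : k₀ ∈ Subgroup.normalizer (P₀ : Set K) ⊔ L := by
    rw [hfr]; exact Subgroup.mem_top _
  rw [← SetLike.mem_coe, Subgroup.mul_normal] at hk₀mem
  obtain ⟨n, hn, l, hl, hnl⟩ := Set.mem_mul.mp hk₀mem
  have hπn : π n ∉ A := by
    intro h
    have h2 : π k₀ ∈ A := by
      rw [← hnl, map_mul]
      exact A.mul_mem h (by rw [hL] at hl; exact hl)
    rw [hk₀] at h2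
    exact hsrA 0 h2
  obtain ⟨m₂, hm₂, kx, hkx⟩ := qpart 2 Nat.prime_two n
  refine ⟨n ^ m₂, P₀, ⟨kx, hkx⟩, hP₀p, Subgroup.pow_mem _ hn _, ?_⟩
  intro hcen
  have hcomm : u ^ m * n ^ m₂ = n ^ m₂ * u ^ m :=
    (Subgroup.mem_centralizer_iff.mp hcen) _ huP₀
  have hπcomm := congrArg π hcomm
  rw [map_mul, map_mul, hπu, map_pow] at hπcomm
  cases hd : π n with
  | r j => exact hπn (by rw [hd]; exact hrA j)
  | sr c =>
    rw [hd] at hπcomm
    have hpow : (DihedralGroup.sr c : DihedralGroup p) ^ m₂ = DihedralGroup.sr c := by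
      have : m₂ = 2 * (m₂ / 2) + 1 := by omega
      rw [this, pow_succ, pow_mul, pow_two, DihedralGroup.sr_mul_self, one_pow, one_mul]
    rw [hpow, DihedralGroup.r_mul_sr, DihedralGroup.sr_mul_r] at hπcomm
    have h3 : c - 1 = c + 1 := DihedralGroup.sr.inj hπcomm
    have h4 : ((2 : ℕ) : ZMod p) = 0 := by
      have : (2 : ZMod p) = (c + 1) - (c - 1) := by ring
      push_cast
      rw [this, h3]; ring
    have h5 : p ∣ 2 := (ZMod.natCast_eq_zero_iff 2 p).mp h4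
    exact hp ((Nat.prime_dvd_prime_iff_eq hpp Nat.prime_two).mp h5)

theorem one_to_two {G : Type*} [Group G] [Finite G] {p : ℕ} [Fact p.Prime] (hp : p ≠ 2)
    (h : Cfsg.Involves (DihedralGroup p) G) :
    ∃ (x : G) (P : Subgroup G), (∃ k : ℕ, orderOf x = 2 ^ k) ∧ IsPGroup p ↥P ∧
      x ∈ Subgroup.normalizer (P : Set G) ∧ x ∉ Subgroup.centralizer (P : Set G) := by
  obtain ⟨K, R, hRn, ⟨e⟩⟩ := h
  haveI := hRn
  obtain ⟨x, P, ⟨k, hk⟩, hP, hN, hC⟩ := abs_one_to_two hp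
    (e.toMonoidHom.comp (QuotientGroup.mk' (R.subgroupOf K)))
    (fun d => by
      obtain ⟨q, hq⟩ := e.surjective d
      obtain ⟨k, hk⟩ := QuotientGroup.mk'_surjective (R.subgroupOf K) q
      exact ⟨k, by rw [MonoidHom.comp_apply, hk]; exact hq⟩)
  refine ⟨(x : G), P.map K.subtype, ⟨k, by rw [Subgroup.orderOf_coe, hk]⟩, hP.map _, ?_, ?_⟩
  · rw [Subgroup.mem_normalizer_iff]
    intro h
    constructor
    · rintro ⟨h', hh', rfl⟩
      exact ⟨x * h' * x⁻¹, (Subgroup.mem_normalizer_iff.mp hN h').mp hh', rfl⟩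
    · rintro ⟨q, hq, hqe⟩
      have hxinv : x⁻¹ ∈ Subgroup.normalizer (P : Set K) := Subgroup.inv_mem _ hN
      have h1 : x⁻¹ * q * x⁻¹⁻¹ ∈ P := (Subgroup.mem_normalizer_iff.mp hxinv q).mp hq
      refine ⟨x⁻¹ * q * x⁻¹⁻¹, h1, ?_⟩
      have hq' : (q : G) = (x : G) * h * (x : G)⁻¹ := hqe
      show (x : G)⁻¹ * (q : G) * ((x : G)⁻¹)⁻¹ = h
      rw [hq']; group
  · intro hcen
    apply hC
    rw [Subgroup.mem_centralizer_iff]
    intro h' hh'
    have := (Subgroup.mem_centralizer_iff.mp hcen) (h' : G) ⟨h', hh', rfl⟩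
    exact Subtype.ext this

theorem two_to_three {G : Type*} [Group G] [Finite G] {p : ℕ} [Fact p.Prime]
    (t : G) (P : Subgroup G) (ht : ∃ k : ℕ, orderOf t = 2 ^ k) (hP : IsPGroup p P)
    (hN : t ∈ Subgroup.normalizer (P : Set G)) (hC : t ∉ Subgroup.centralizer (P : Set G)) :
    ∃ x y : G, (∃ k : ℕ, orderOf x = 2 ^ k) ∧ (∃ k : ℕ, orderOf y = p ^ k) ∧ y ≠ 1 ∧
      x * y * x⁻¹ = y⁻¹ := by
  classical
  have hpp : p.Prime := Fact.out
  obtain ⟨k, hk⟩ := ht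
  have hex : ∃ j, t ^ (2 ^ j) ∈ Subgroup.centralizer (P : Set G) :=
    ⟨k, by rw [← hk, pow_orderOf_eq_one]; exact one_mem _⟩
  obtain ⟨j, hj, hjmin⟩ : ∃ j, t ^ (2 ^ j) ∈ Subgroup.centralizer (P : Set G) ∧
      ∀ i < j, t ^ (2 ^ i) ∉ Subgroup.centralizer (P : Set G) :=
    ⟨Nat.find hex, Nat.find_spec hex, fun i hi => Nat.find_min hex hi⟩
  have hj0 : j ≠ 0 := by
    intro h0
    rw [h0, pow_zero, pow_one] at hj; exact hC hj
  obtain ⟨i, hi⟩ := Nat.exists_eq_succ_of_ne_zero hj0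
  have hsC : t ^ (2 ^ i) ∉ Subgroup.centralizer (P : Set G) := hjmin i (by omega)
  obtain ⟨s, hsdef⟩ : ∃ s : G, s = t ^ (2 ^ i) := ⟨_, rfl⟩
  rw [← hsdef] at hsC
  have hs2 : s * s ∈ Subgroup.centralizer (P : Set G) := by
    have : s * s = t ^ (2 ^ j) := by
      rw [hsdef, hi, ← pow_add]; congr 1; rw [pow_succ]; omega
    rw [this]; exact hj
  have hsN : s ∈ Subgroup.normalizer (P : Set G) := by
    rw [hsdef]; exact Subgroup.pow_mem _ hN _
  have hso : ∃ k' : ℕ, orderOf s = 2 ^ k' := by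
    have h1 : orderOf s ∣ 2 ^ k := by rw [hsdef, ← hk]; exact orderOf_pow_dvd _
    obtain ⟨k', -, hk'⟩ := (Nat.dvd_prime_pow Nat.prime_two).mp h1
    exact ⟨k', hk'⟩
  rw [Subgroup.mem_centralizer_iff] at hsC
  push Not at hsC
  obtain ⟨y₀, hy₀, hne⟩ := hsC
  have hconj : s * y₀ * s⁻¹ ∈ P := (Subgroup.mem_normalizer_iff.mp hsN y₀).mp hy₀
  have hyP : y₀⁻¹ * (s * y₀ * s⁻¹) ∈ P := P.mul_mem (P.inv_mem hy₀) hconj
  refine ⟨s, y₀⁻¹ * (s * y₀ * s⁻¹), hso, ?_, ?_, ?_⟩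
  · obtain ⟨n, hn⟩ := hP ⟨_, hyP⟩
    have h3 : (y₀⁻¹ * (s * y₀ * s⁻¹)) ^ (p ^ n) = 1 := by
      have := congrArg Subtype.val hn; simpa using this
    obtain ⟨k', -, hk'⟩ := (Nat.dvd_prime_pow hpp).mp (orderOf_dvd_of_pow_eq_one h3)
    exact ⟨k', hk'⟩
  · intro h1
    apply hne
    have h2 : s * y₀ * s⁻¹ = y₀ := by
      have : s * y₀ * s⁻¹ = y₀ * (y₀⁻¹ * (s * y₀ * s⁻¹)) := by group
      rw [this, h1, mul_one]
    calc y₀ * s = (s * y₀ * s⁻¹) * s := by rw [h2]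
      _ = s * y₀ := by group
  · have hc : y₀ * (s * s) = (s * s) * y₀ := (Subgroup.mem_centralizer_iff.mp hs2) y₀ hy₀
    calc s * (y₀⁻¹ * (s * y₀ * s⁻¹)) * s⁻¹
        = (s * y₀ * s⁻¹)⁻¹ * ((s * s) * y₀ * (s * s)⁻¹) := by group
      _ = (s * y₀ * s⁻¹)⁻¹ * (y₀ * (s * s) * (s * s)⁻¹) := by rw [hc]
      _ = (y₀⁻¹ * (s * y₀ * s⁻¹))⁻¹ := by group

theorem three_to_one {G : Type*} [Group G] [Finite G] {p : ℕ} [Fact p.Prime] (hp : p ≠ 2)
    (x y : G) (hx : ∃ k : ℕ, orderOf x = 2 ^ k) (hy : ∃ k : ℕ, orderOf y = p ^ k) (hy1 : y ≠ 1)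
    (hinv : x * y * x⁻¹ = y⁻¹) : Cfsg.Involves (DihedralGroup p) G := by
  classical
  have hpp : p.Prime := Fact.out
  obtain ⟨k, hk⟩ := hx
  obtain ⟨m, hm⟩ := hy
  have hm0 : m ≠ 0 := by
    rintro rfl
    rw [pow_zero] at hm
    exact hy1 (orderOf_eq_one_iff.mp hm)
  obtain ⟨y', hy'def⟩ : ∃ y' : G, y' = y ^ (p ^ (m - 1)) := ⟨_, rfl⟩
  have hy'o : orderOf y' = p := by
    rw [hy'def]
    have h1 : orderOf y / p = p ^ (m - 1) := by
      rw [hm]
      obtain ⟨m', rfl⟩ := Nat.exists_eq_succ_of_ne_zero hm0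
      rw [Nat.succ_sub_one, pow_succ, Nat.mul_div_cancel _ hpp.pos]
    rw [← h1]
    exact orderOf_pow_orderOf_div (by rw [hm]; exact pow_ne_zero _ hpp.ne_zero)
      (by rw [hm]; exact dvd_pow_self p hm0)
  have hinv' : x * y' * x⁻¹ = y'⁻¹ := by
    rw [hy'def, ← conj_pow, hinv, inv_pow]
  have hc1 : (x * x) * y' = y' * (x * x) := by
    have h1 : x * y' = y'⁻¹ * x := by
      calc x * y' = (x * y' * x⁻¹) * x := by group
        _ = y'⁻¹ * x := by rw [hinv']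
    have h2 : x * y'⁻¹ = y' * x := by
      calc x * y'⁻¹ = (x * y' * x⁻¹)⁻¹ * x := by group
        _ = y' * x := by rw [hinv', inv_inv]
    calc x * x * y' = x * (x * y') := by group
      _ = x * (y'⁻¹ * x) := by rw [h1]
      _ = (x * y'⁻¹) * x := by group
      _ = y' * x * x := by rw [h2]
      _ = y' * (x * x) := by group
  obtain ⟨R, hR⟩ : ∃ R : Subgroup G, R = Subgroup.zpowers (x * x) := ⟨_, rfl⟩
  have hxK : x ∈ Subgroup.closure ({x, y'} : Set G) := Subgroup.subset_closure (by simp)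
  have hy'K : y' ∈ Subgroup.closure ({x, y'} : Set G) := Subgroup.subset_closure (by simp)
  have hKc : Subgroup.closure ({x, y'} : Set G) ≤ Subgroup.centralizer ({x * x} : Set G) := by
    rw [Subgroup.closure_le]
    intro g hg
    rcases hg with h | h
    · rw [h]; exact Subgroup.mem_centralizer_singleton_iff.mpr (by group)
    · rw [Set.mem_singleton_iff] at h
      rw [h]; exact Subgroup.mem_centralizer_singleton_iff.mpr hc1.symm
  have hRn : (R.subgroupOf (Subgroup.closure ({x, y'} : Set G))).Normal := by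
    constructor
    intro n hn g
    rw [Subgroup.mem_subgroupOf] at hn ⊢
    have hcomm : (g : G) * (n : G) = (n : G) * (g : G) := by
      rw [hR] at hn
      obtain ⟨j, hj⟩ := Subgroup.mem_zpowers_iff.mp hn
      have hg := Subgroup.mem_centralizer_singleton_iff.mp (hKc g.2)
      rw [← hj]
      exact (Commute.zpow_right (show Commute (g : G) (x * x) from hg) j).eq
    have h1 : ((g * n * g⁻¹ : Subgroup.closure ({x, y'} : Set G)) : G) = (n : G) := by
      show (g : G) * (n : G) * (g : G)⁻¹ = (n : G)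
      rw [hcomm]; group
    rw [h1]; exact hn
  haveI := hRn
  refine ⟨Subgroup.closure ({x, y'} : Set G), R, hRn, ?_⟩
  obtain ⟨π, hπdef⟩ : ∃ π : Subgroup.closure ({x, y'} : Set G) →*
      Subgroup.closure ({x, y'} : Set G) ⧸ R.subgroupOf (Subgroup.closure ({x, y'} : Set G)),
      π = QuotientGroup.mk' _ := ⟨_, rfl⟩
  have hπker : ∀ a, π a = 1 ↔ (a : G) ∈ R := by
    intro a
    rw [← MonoidHom.mem_ker, hπdef, QuotientGroup.ker_mk', Subgroup.mem_subgroupOf]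
  have hπsurj : Function.Surjective π := by rw [hπdef]; exact QuotientGroup.mk'_surjective _
  obtain ⟨xb, hxb⟩ : ∃ xb, xb = π ⟨x, hxK⟩ := ⟨_, rfl⟩
  obtain ⟨yb, hyb⟩ : ∃ yb, yb = π ⟨y', hy'K⟩ := ⟨_, rfl⟩
  have hxx : xb * xb = 1 := by
    rw [hxb, ← map_mul, hπker]
    show x * x ∈ R
    rw [hR]; exact Subgroup.mem_zpowers _
  have hinvb : xb * yb * xb⁻¹ = yb⁻¹ := by
    have h1 := congrArg π (show (⟨x, hxK⟩ : Subgroup.closure ({x, y'} : Set G)) * ⟨y', hy'K⟩ *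
      (⟨x, hxK⟩ : Subgroup.closure ({x, y'} : Set G))⁻¹ =
      (⟨y', hy'K⟩ : Subgroup.closure ({x, y'} : Set G))⁻¹ from Subtype.ext hinv')
    rw [map_mul, map_mul, map_inv, map_inv] at h1
    rw [hxb, hyb]; exact h1
  have hybo : orderOf yb = p := by
    have h1 : yb ^ p = 1 := by
      rw [hyb, ← map_pow, hπker]
      show y' ^ p ∈ R
      rw [← hy'o, pow_orderOf_eq_one]; exact one_mem _
    have h2 : yb ≠ 1 := by
      rw [hyb]
      intro h
      rw [hπker] at h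
      have h3 : y' ∈ R := h
      rw [hR] at h3
      have h4 : orderOf y' ∣ orderOf x := by
        apply orderOf_dvd_of_mem_zpowers
        exact (Subgroup.zpowers_le.mpr
          (Subgroup.mul_mem _ (Subgroup.mem_zpowers x) (Subgroup.mem_zpowers x))) h3
      rw [hy'o, hk] at h4
      exact hp ((Nat.prime_dvd_prime_iff_eq hpp Nat.prime_two).mp (hpp.dvd_of_dvd_pow h4))
    exact orderOf_eq_prime h1 h2
  have hnot : xb ∉ Subgroup.zpowers yb := by
    intro h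
    obtain ⟨j, hj⟩ := Subgroup.mem_zpowers_iff.mp h
    have h1 : xb * yb * xb⁻¹ = yb := by
      rw [← hj]
      have : yb ^ j * yb = yb * yb ^ j := (Commute.zpow_self yb j).eq
      rw [this]; group
    rw [hinvb] at h1
    have h2 : yb ^ 2 = 1 := by
      rw [pow_two]
      nth_rewrite 1 [← h1]
      exact inv_mul_cancel yb
    have h3 : p ∣ 2 := by rw [← hybo]; exact orderOf_dvd_of_pow_eq_one h2
    exact hp ((Nat.prime_dvd_prime_iff_eq hpp Nat.prime_two).mp h3)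
  have hgen : Subgroup.closure ({xb, yb} : Set _) = ⊤ := by
    rw [eq_top_iff]
    have h1 : Subgroup.closure (((↑) : Subgroup.closure ({x, y'} : Set G) → G) ⁻¹'
        ({x, y'} : Set G)) = ⊤ := Subgroup.closure_closure_coe_preimage
    have h2 : (Subgroup.closure (((↑) : Subgroup.closure ({x, y'} : Set G) → G) ⁻¹'
        ({x, y'} : Set G))).map π = ⊤ := by
      rw [h1, ← MonoidHom.range_eq_map, MonoidHom.range_eq_top]
      exact hπsurj
    rw [← h2, MonoidHom.map_closure]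
    apply Subgroup.closure_mono
    rintro _ ⟨k', hk', rfl⟩
    rcases hk' with h | h
    · left
      rw [hxb]; congr 1; exact Subtype.ext h
    · right
      rw [Set.mem_singleton_iff] at h
      rw [Set.mem_singleton_iff, hyb]; congr 1; exact Subtype.ext h
  have he := dih_equiv xb yb hxx hinvb hnot hgen
  rw [hybo] at he
  exact he


/-- For an odd prime p and a finite group G the following are equivalent: the dihedral group of order 2p is involved in G; some element of 2-power order normalizes but does not centralize some p-subgroup of G; some element of 2-power order inverts some nonidentity element of p-power order. -/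
theorem result {G : Type*} [Group G] [Finite G] {p : ℕ} [Fact p.Prime] (hp : p ≠ 2) : (Cfsg.Involves (DihedralGroup p) G ↔ ∃ (x : G) (P : Subgroup G), (∃ k : ℕ, orderOf x = 2 ^ k) ∧ IsPGroup p ↥P ∧ x ∈ Subgroup.normalizer (P : Set G) ∧ x ∉ Subgroup.centralizer (P : Set G)) ∧ (Cfsg.Involves (DihedralGroup p) G ↔ ∃ x y : G, (∃ k : ℕ, orderOf x = 2 ^ k) ∧ (∃ k : ℕ, orderOf y = p ^ k) ∧ y ≠ 1 ∧ x * y * x⁻¹ = y⁻¹) := by
  have h12 := one_to_two (G := G) hp
  have h23 : (∃ (x : G) (P : Subgroup G), (∃ k : ℕ, orderOf x = 2 ^ k) ∧ IsPGroup p ↥P ∧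
      x ∈ Subgroup.normalizer (P : Set G) ∧ x ∉ Subgroup.centralizer (P : Set G)) →
      (∃ x y : G, (∃ k : ℕ, orderOf x = 2 ^ k) ∧ (∃ k : ℕ, orderOf y = p ^ k) ∧ y ≠ 1 ∧
        x * y * x⁻¹ = y⁻¹) := by
    rintro ⟨t, P, ht, hP, hN, hC⟩
    exact two_to_three t P ht hP hN hC
  have h31 : (∃ x y : G, (∃ k : ℕ, orderOf x = 2 ^ k) ∧ (∃ k : ℕ, orderOf y = p ^ k) ∧ y ≠ 1 ∧
      x * y * x⁻¹ = y⁻¹) → Cfsg.Involves (DihedralGroup p) G := by
    rintro ⟨x, y, hx, hy, hy1, hinv⟩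
    exact three_to_one hp x y hx hy hy1 hinv
  exact ⟨⟨h12, fun h => h31 (h23 h)⟩, ⟨fun h => h23 (h12 h), h31⟩⟩

end Cfsg.Agent.S2758
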