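import Cfsg.Statements.S2760
import Cfsg.Agent.Lib_helper7_Stab

set_option autoImplicit false
open Cfsg

namespace Cfsg.Agent.S2760

/-- Let G be a finite group with C_G(O₂(G)) ≤ O₂(G) and H a subgroup of G such that H is normal in G, or the subgroup O²(H) generated by the elements of H of odd order is normal in G. Then C_H(O₂(H)) ≤ O₂(H). -/
theorem result {G : Type*} [Group G] [Finite G] (hchar : Subgroup.centralizer (Cfsg.pCore 2 G : Set G) ≤ Cfsg.pCore 2 G) (H : Subgroup G) (hH : H.Normal ∨ ((Cfsg.pResidual 2 ↥H).map H.subtype).Normal) : Subgroup.centralizer (Cfsg.pCore 2 ↥H : Set ↥H) ≤ Cfsg.pCore 2 ↥H := by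
  have : Fact (Nat.Prime 2) := ⟨Nat.prime_two⟩
  rw [Cfsg.Agent.Lib_helper7_Stab.charP_iff]
  have hnormR : ∀ K : Subgroup G, K ≤ Subgroup.normalizer ((Cfsg.pCore 2 G : Subgroup G) : Set G) := by
    intro K k _
    have hn : (Cfsg.pCore 2 G).Normal := inferInstance
    rw [Subgroup.normalizer_eq_top_iff.mpr hn]
    exact Subgroup.mem_top k
  rcases hH with hH | hH
  · apply Cfsg.Agent.Lib_helper7_Stab.charP_of_normalized H (Cfsg.pCore 2 G) Cfsg.Agent.Lib_helper7_Stab.isPGroup_pCore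
    · rw [Subgroup.normalizer_eq_top_iff.mpr hH]; exact le_top
    · exact hnormR H
    · exact inf_le_right.trans hchar
  · have hKH : (Cfsg.pResidual 2 ↥H).map H.subtype ≤ H := by
      rintro _ ⟨x, _, rfl⟩
      exact x.2
    have hKchar : (Cfsg.pResidual 2 ↥H).map H.subtype ⊓
        Subgroup.centralizer (Cfsg.Agent.Lib_helper7_Stab.pCoreIn 2 ((Cfsg.pResidual 2 ↥H).map H.subtype) : Set G) ≤
          Cfsg.Agent.Lib_helper7_Stab.pCoreIn 2 ((Cfsg.pResidual 2 ↥H).map H.subtype) := by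
      apply Cfsg.Agent.Lib_helper7_Stab.charP_of_normalized _ (Cfsg.pCore 2 G) Cfsg.Agent.Lib_helper7_Stab.isPGroup_pCore
      · rw [Subgroup.normalizer_eq_top_iff.mpr hH]; exact le_top
      · exact hnormR _
      · exact inf_le_right.trans hchar
    apply Cfsg.Agent.Lib_helper7_Stab.charP_of_coprime_trivial
    intro y hy hyo
    obtain ⟨hyH, hyC⟩ := Subgroup.mem_inf.mp hy
    have hyK : y ∈ (Cfsg.pResidual 2 ↥H).map H.subtype := by
      refine ⟨⟨y, hyH⟩, ?_, rfl⟩
      apply Subgroup.subset_closure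
      show Nat.Coprime (orderOf (⟨y, hyH⟩ : H)) 2
      rw [← Subgroup.orderOf_coe]
      exact hyo
    have hle : Cfsg.Agent.Lib_helper7_Stab.pCoreIn 2 ((Cfsg.pResidual 2 ↥H).map H.subtype) ≤ Cfsg.Agent.Lib_helper7_Stab.pCoreIn 2 H := by
      apply Cfsg.Agent.Lib_helper7_Stab.le_pCoreIn _ _ ((Cfsg.Agent.Lib_helper7_Stab.pCoreIn_le _).trans hKH) (Cfsg.Agent.Lib_helper7_Stab.isPGroup_pCoreIn _)
      have h1 : H ≤ Subgroup.normalizer (((Cfsg.pResidual 2 ↥H).map H.subtype : Subgroup G) : Set G) := by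
        rw [Subgroup.normalizer_eq_top_iff.mpr hH]; exact le_top
      exact h1.trans (Cfsg.Agent.Lib_helper7_Stab.normalizer_le_normalizer_pCoreIn _)
    have hyC' : y ∈ Subgroup.centralizer (Cfsg.Agent.Lib_helper7_Stab.pCoreIn 2 ((Cfsg.pResidual 2 ↥H).map H.subtype) : Set G) :=
      Subgroup.centralizer_le hle hyC
    have hy2 := hKchar (Subgroup.mem_inf.mpr ⟨hyK, hyC'⟩)
    obtain ⟨k, hk⟩ := Cfsg.Agent.Lib_helper7_Stab.isPGroup_pCoreIn (p := 2) _ ⟨y, hy2⟩
    exact Cfsg.Agent.Lib_helper7_Stab.eq_one_of_isPGroup_of_coprime k (by simpa using congrArg Subtype.val hk) hyo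

end Cfsg.Agent.S2760
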