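import Cfsg.Statements.S2761
import Mathlib

set_option autoImplicit false
open Cfsg

namespace Cfsg.Agent.S2761

open Matrix

abbrev G3 := Matrix.SpecialLinearGroup (Fin 3) (ZMod 2)

set_option maxHeartbeats 4000000 in
lemma inv_aux : ∀ M : G3, (M.1 2 0 = 0 ∧ M.1 2 1 = 0 ∧ M.1 2 2 = 1) →
    (M⁻¹.1 2 0 = 0 ∧ M⁻¹.1 2 1 = 0 ∧ M⁻¹.1 2 2 = 1) := by decide +kernel

/-- The affine subgroup, as an explicit subgroup. -/
def T : Subgroup G3 where
  carrier := {M | M.1 2 0 = 0 ∧ M.1 2 1 = 0 ∧ M.1 2 2 = 1}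
  mul_mem' := by
    rintro M N ⟨h1, h2, h3⟩ ⟨h4, h5, h6⟩
    refine ⟨?_, ?_, ?_⟩ <;>
    simp [Matrix.SpecialLinearGroup.coe_mul, Matrix.mul_apply, Fin.sum_univ_three, h1, h2, h3,
      h4, h5, h6]
  one_mem' := by decide
  inv_mem' := fun {M} h => inv_aux M h

instance instDecT : DecidablePred (· ∈ T) := fun M =>
  inferInstanceAs (Decidable (M.1 2 0 = 0 ∧ M.1 2 1 = 0 ∧ M.1 2 2 = 1))

set_option maxHeartbeats 4000000 in
lemma card_T : Fintype.card T = 24 := by decide +kernel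

set_option maxHeartbeats 4000000 in
lemma fix_aux : ∀ M : G3, M ∈ T → (∀ a b : ZMod 2, M.1 *ᵥ ![a, b, 1] = ![a, b, 1]) → M = 1 := by
  decide +kernel

lemma qd_eq : Cfsg.qd 2 = T := Subgroup.closure_eq T

abbrev X := {v : Fin 3 → ZMod 2 // v 2 = 1}

lemma card_X : Fintype.card X = 4 := by decide +kernel

lemma pres (M : G3) (hM : M ∈ T) (v : Fin 3 → ZMod 2) (hv : v 2 = 1) : (M.1 *ᵥ v) 2 = 1 := by
  obtain ⟨h1, h2, h3⟩ := hM
  simp [Matrix.mulVec, dotProduct, Fin.sum_univ_three, h1, h2, h3, hv]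

instance instActT : MulAction T X where
  smul M v := ⟨M.1.1 *ᵥ v.1, pres M.1 M.2 v.1 v.2⟩
  one_smul v := Subtype.ext (Matrix.one_mulVec v.1)
  mul_smul M N v := Subtype.ext (by
    show (M.1 * N.1).1 *ᵥ v.1 = M.1.1 *ᵥ (N.1.1 *ᵥ v.1)
    rw [Matrix.SpecialLinearGroup.coe_mul, Matrix.mulVec_mulVec])

def phi : T →* Equiv.Perm X := MulAction.toPermHom T X

lemma phi_inj : Function.Injective phi := by
  rw [injective_iff_map_eq_one]
  intro M hM
  apply Subtype.ext
  apply fix_aux M.1 M.2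
  intro a b
  have := congrArg (fun σ : Equiv.Perm X => (σ ⟨![a, b, 1], rfl⟩ : X).1) hM
  exact this

/-- The group Qd(2), the natural semidirect product of an elementary abelian group of order 4 by SL₂(2) (realised as the affine subgroup of SL₃(2)), is isomorphic to the symmetric group of degree 4. -/
theorem result : Nonempty (↥(Cfsg.qd 2) ≃* Equiv.Perm (Fin 4)) := by
  have hbij : Function.Bijective phi := by
    rw [Fintype.bijective_iff_injective_and_card]
    refine ⟨phi_inj, ?_⟩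
    rw [card_T, Fintype.card_perm, card_X]
    rfl
  exact ⟨(MulEquiv.subgroupCongr qd_eq).trans ((MulEquiv.ofBijective phi hbij).trans
    (Equiv.permCongrHom (Fintype.equivFinOfCardEq card_X)))⟩

end Cfsg.Agent.S2761
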