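import Cfsg.Statements.S2781
import Cfsg.Agent.Lib_helper7_Norm2

set_option autoImplicit false
open Cfsg

namespace Cfsg.Agent.S2781

/-- Let H act faithfully by conjugation on the elementary abelian p-subgroup V of a finite group, let O^p(H) be the subgroup of H generated by its elements of order prime to p, and T a Sylow p-subgroup of O^p(H). If V is generated by the H-conjugates of C_V(T) (V is the smallest H-invariant subgroup containing C_V(T)), then V = [V, O^p(H)]·C_V(O^p(H)). -/
theorem result {G : Type*} [Group G] [Finite G] {p : ℕ} [Fact p.Prime] (V H : Subgroup G) (hV : Cfsg.IsElementaryAbelian p V) (hHV : H ≤ Subgroup.normalizer (V : Set G)) (hf : H ⊓ Subgroup.centralizer (V : Set G) = ⊥) (R : Subgroup G) (hR : R = (Cfsg.pResidual p ↥H).map H.subtype) (S : Sylow p ↥R) (T : Subgroup G) (hT : T = ((S : Subgroup ↥R).map R.subtype)) (hgen : ∀ W : Subgroup G, H ≤ Subgroup.normalizer (W : Set G) → (V ⊓ Subgroup.centralizer ((T : Subgroup G) : Set G)) ≤ W → V ≤ W) : ⁅V, R⁆ ⊔ (V ⊓ Subgroup.centralizer ((R : Subgroup G) : Set G))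 = V := by
  haveI : IsMulCommutative ↥V := hV.1
  have hRH : R ≤ H := by rw [hR]; exact Subgroup.map_subtype_le _
  have hRV : R ≤ Subgroup.normalizer (V : Set G) := hRH.trans hHV
  have hHR : H ≤ Subgroup.normalizer (R : Set G) := by
    rw [hR]; exact Cfsg.Agent.Lib_helper7_Norm2.pResidualOf_le_normalizer H
  have hidx : ¬ p ∣ T.relIndex R := by
    have e : T.subgroupOf R = (S : Subgroup ↥R) := by
      rw [hT]; exact Subgroup.comap_map_eq_self_of_injective R.subtype_injective _
    rw [Subgroup.relIndex, e]; exact S.not_dvd_index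
  apply le_antisymm
  · exact sup_le (Cfsg.Agent.Lib_helper7_CommSup.commutator_le_left_of_le_normalizer V R hRV)
      inf_le_left
  · apply hgen
    · intro h hh
      apply Cfsg.Agent.Lib_helper7_Sylow.mem_normalizer_of_conj_le
      rw [Subgroup.map_sup]
      apply sup_le_sup
      · rw [Subgroup.map_commutator,
          Cfsg.Agent.Lib_helper7_WellPlaced.map_conj_of_mem_normalizer _ h (hHV hh),
          Cfsg.Agent.Lib_helper7_WellPlaced.map_conj_of_mem_normalizer _ h (hHR hh)]
      · rw [Cfsg.Agent.Lib_helper7_WC.map_conj_le_iff]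
        rintro a ⟨haV, haC⟩
        refine ⟨(Subgroup.mem_normalizer_iff.mp (hHV hh) a).mp haV, ?_⟩
        have hN := Cfsg.Agent.Lib_helper7_Large.normalizer_le_normalizer_centralizer R (hHR hh)
        exact (Subgroup.mem_normalizer_iff.mp hN a).mp haC
    · intro z hz
      have := Cfsg.Agent.Lib_helper7_Norm2.mem_sup_of_fixed (p := p) V R T hRV hidx z hz.1
        (hV.2 z hz.1) hz.2
      rw [sup_comm] at this
      exact this

end Cfsg.Agent.S2781
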