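import Cfsg.Statements.S3383
import Cfsg.Agent.Lib_helper9_Frob

set_option autoImplicit false
open Cfsg

namespace Cfsg.Agent.S3383

/-- Let H be a Frobenius complement in a finite group L and K the Frobenius kernel (as a subgroup). Then K is characteristic in L, and every normal subgroup of L either contains K or is contained in K. -/
theorem result {L : Type*} [Group L] [Finite L]
    (H : Subgroup L) (hH : Cfsg.IsFrobeniusComplement H)
    (K : Subgroup L) (hK : (K : Set L) = Cfsg.frobeniusKernel H) :
    K.Characteristic ∧ ∀ N : Subgroup L, N.Normal → K ≤ N ∨ N ≤ K := by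
  exact ⟨Cfsg.Agent.Lib_helper9_Frob.kernel_characteristic hH hK,
    fun N hN => Cfsg.Agent.Lib_helper9_Frob.kernel_comparable hH hK N hN⟩

end Cfsg.Agent.S3383
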