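import Cfsg.Statements.S3733


set_option autoImplicit false
open Cfsg

namespace Cfsg.Agent.S3733

theorem partition_norm {A V ι : Type*} [Group A] [Fintype A] [DecidableEq A] [CommGroup V]
    (φ : A →* MulAut V) (𝒜 : Finset ι) (S : ι → Subgroup A) (hne : 𝒜.Nonempty)
    (hpart : ∀ a : A, a ≠ 1 → ∃! i, i ∈ 𝒜 ∧ a ∈ S i)
    (hfix : ∀ i ∈ 𝒜, ∀ w : V, (∀ b ∈ S i, φ b w = w) → w = 1) (v : V) :
    v ^ (𝒜.card - 1) = 1 := by
  classical
  have hfixed : ∀ (H : Subgroup A) (b : A), b ∈ H →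
      φ b (∏ a ∈ Finset.univ.filter (· ∈ H), φ a v) =
        ∏ a ∈ Finset.univ.filter (· ∈ H), φ a v := by
    intro H b hb
    rw [map_prod]
    apply Finset.prod_bij (fun a _ => b * a)
    · intro a ha
      rw [Finset.mem_filter] at ha ⊢
      exact ⟨Finset.mem_univ _, H.mul_mem hb ha.2⟩
    · intro a₁ _ a₂ _ h
      exact mul_left_cancel h
    · intro c hc
      rw [Finset.mem_filter] at hc
      refine ⟨b⁻¹ * c, ?_, by group⟩
      rw [Finset.mem_filter]
      exact ⟨Finset.mem_univ _, H.mul_mem (H.inv_mem hb) hc.2⟩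
    · intro a _
      rw [map_mul, MulAut.mul_apply]
  have hN : ∀ i ∈ 𝒜, ∏ a ∈ Finset.univ.filter (· ∈ S i), φ a v = 1 := fun i hi =>
    hfix i hi _ (fun b hb => hfixed (S i) b hb)
  obtain ⟨i₀, hi₀⟩ := hne
  have hNtop : ∏ a ∈ (Finset.univ : Finset A), φ a v = 1 := by
    have h1 := hfix i₀ hi₀ (∏ a ∈ Finset.univ.filter (· ∈ (⊤ : Subgroup A)), φ a v)
      (fun b _ => hfixed ⊤ b (Subgroup.mem_top b))
    rwa [Finset.filter_true_of_mem (fun a _ => Subgroup.mem_top a)] at h1
  have hprod : ∏ i ∈ 𝒜, ∏ a ∈ Finset.univ.filter (· ∈ S i), φ a v =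
      v ^ 𝒜.card * ∏ a ∈ (Finset.univ : Finset A).erase 1, φ a v := by
    have h1 : ∀ i ∈ 𝒜, ∏ a ∈ Finset.univ.filter (· ∈ S i), φ a v =
        ∏ a : A, if a ∈ S i then φ a v else 1 := fun i _ => Finset.prod_filter _ _
    rw [Finset.prod_congr rfl h1, Finset.prod_comm]
    have h2 : ∀ a : A, ∏ i ∈ 𝒜, (if a ∈ S i then φ a v else 1) =
        (φ a v) ^ (𝒜.filter (fun i => a ∈ S i)).card := by
      intro a
      rw [← Finset.prod_filter, Finset.prod_const]
    rw [Finset.prod_congr rfl (fun a _ => h2 a),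
      ← Finset.mul_prod_erase _ _ (Finset.mem_univ (1 : A))]
    congr 1
    · rw [map_one, MulAut.one_apply]
      congr 1
      rw [Finset.filter_true_of_mem (fun i _ => (S i).one_mem)]
    · apply Finset.prod_congr rfl
      intro a ha
      rw [Finset.mem_erase] at ha
      obtain ⟨i, ⟨hi, hai⟩, huniq⟩ := hpart a ha.1
      have h3 : 𝒜.filter (fun i => a ∈ S i) = {i} := by
        ext j
        rw [Finset.mem_filter, Finset.mem_singleton]
        exact ⟨fun h => huniq j h, fun h => h ▸ ⟨hi, hai⟩⟩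
      rw [h3, Finset.card_singleton, pow_one]
  rw [Finset.prod_congr rfl hN, Finset.prod_const_one] at hprod
  rw [← Finset.mul_prod_erase _ _ (Finset.mem_univ (1 : A)), map_one, MulAut.one_apply] at hNtop
  have hW : ∏ a ∈ (Finset.univ : Finset A).erase 1, φ a v = v⁻¹ :=
    eq_inv_of_mul_eq_one_right hNtop
  rw [hW] at hprod
  have hpos : 0 < 𝒜.card := Finset.card_pos.mpr ⟨i₀, hi₀⟩
  obtain ⟨m, hm⟩ : ∃ m, 𝒜.card = m + 1 := ⟨𝒜.card - 1, by omega⟩
  rw [hm] at hprod ⊢
  rw [pow_succ, mul_inv_cancel_right] at hprod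
  simpa using hprod.symm

/-- conjugation action of `A` on the subgroup `V` it normalizes -/
def conjAct {G : Type*} [Group G] (A V : Subgroup G)
    (hAV : A ≤ Subgroup.normalizer (V : Set G)) : ↥A →* MulAut ↥V where
  toFun a :=
    { toFun := fun v => ⟨(a : G) * v * (a : G)⁻¹,
        (Subgroup.mem_normalizer_iff.mp (hAV a.2) v).mp v.2⟩
      invFun := fun v => ⟨(a : G)⁻¹ * v * (a : G), by
        have := (Subgroup.mem_normalizer_iff.mp (Subgroup.inv_mem _ (hAV a.2)) v).mp v.2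
        simpa using this⟩
      left_inv := fun v => by
        apply Subtype.ext
        show (a : G)⁻¹ * ((a : G) * v * (a : G)⁻¹) * (a : G) = v
        group
      right_inv := fun v => by
        apply Subtype.ext
        show (a : G) * ((a : G)⁻¹ * v * (a : G)) * (a : G)⁻¹ = v
        group
      map_mul' := fun x y => by
        apply Subtype.ext
        show (a : G) * ((x : G) * (y : G)) * (a : G)⁻¹ =
          ((a : G) * x * (a : G)⁻¹) * ((a : G) * y * (a : G)⁻¹)
        group }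
  map_one' := by
    apply MulEquiv.ext
    intro v
    apply Subtype.ext
    show ((1 : ↥A) : G) * v * ((1 : ↥A) : G)⁻¹ = v
    simp
  map_mul' := by
    intro a b
    apply MulEquiv.ext
    intro v
    apply Subtype.ext
    show ((a * b : ↥A) : G) * v * ((a * b : ↥A) : G)⁻¹ =
      (a : G) * ((b : G) * v * (b : G)⁻¹) * (a : G)⁻¹
    rw [Subgroup.coe_mul]
    group

open scoped IsMulCommutative in
theorem main_aux {G : Type*} [Group G] [Finite G] (A V : Subgroup G) [IsMulCommutative V]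
    (hAV : A ≤ Subgroup.normalizer (V : Set G)) (𝒜 : Finset (Subgroup G)) (hne : 𝒜.Nonempty)
    (hprop : ∀ B ∈ 𝒜, B < A) (hpart : ∀ a ∈ A, a ≠ 1 → ∃! B, B ∈ 𝒜 ∧ a ∈ B)
    (hall : ∀ B ∈ 𝒜, V ⊓ Subgroup.centralizer (B : Set G) = ⊥) (v : ↥V) :
    v ^ (𝒜.card - 1) = 1 := by
  classical
  haveI := Fintype.ofFinite ↥A
  refine partition_norm (conjAct A V hAV) 𝒜 (fun B => B.subgroupOf A) hne ?_ ?_ v
  · intro a ha
    have h1 := hpart a.1 a.2 (fun h => ha (Subtype.ext h))
    obtain ⟨B, ⟨hB, haB⟩, huniq⟩ := h1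
    exact ⟨B, ⟨hB, Subgroup.mem_subgroupOf.mpr haB⟩,
      fun B' hB' => huniq B' ⟨hB'.1, Subgroup.mem_subgroupOf.mp hB'.2⟩⟩
  · intro B hB w hw
    have h1 : (w : G) ∈ V ⊓ Subgroup.centralizer (B : Set G) := by
      refine ⟨w.2, ?_⟩
      show (w : G) ∈ Subgroup.centralizer (B : Set G)
      rw [Subgroup.mem_centralizer_iff]
      intro g hg
      have hgA : g ∈ A := (hprop B hB).le hg
      have h2 := hw ⟨g, hgA⟩ (Subgroup.mem_subgroupOf.mpr hg)
      have h3 : g * (w : G) * g⁻¹ = w := congrArg Subtype.val h2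
      calc g * (w : G) = (g * (w : G) * g⁻¹) * g := by group
        _ = w * g := by rw [h3]
    rw [hall B hB, Subgroup.mem_bot] at h1
    exact Subtype.ext h1


/-- Let A and V be subgroups of a finite group with V abelian and nontrivial and A normalizing V. Suppose a nonempty finite family of proper subgroups of A partitions A: every non-identity element of A lies in exactly one member. If the number of members minus one is coprime to the order of V, then some member B of the family has a non-identity fixed point on V, that is V ∩ C(B) ≠ 1. -/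
theorem result {G : Type*} [Group G] [Finite G] (A V : Subgroup G) (hVab : IsMulCommutative V) (hV : V ≠ ⊥) (hAV : A ≤ Subgroup.normalizer (V : Set G)) (𝒜 : Finset (Subgroup G)) (hne : 𝒜.Nonempty) (hprop : ∀ B ∈ 𝒜, B < A) (hpart : ∀ a ∈ A, a ≠ 1 → ∃! B, B ∈ 𝒜 ∧ a ∈ B) (hk : (𝒜.card - 1).Coprime (Nat.card V)) : ∃ B ∈ 𝒜, V ⊓ Subgroup.centralizer (B : Set G) ≠ ⊥ := by
  by_contra hcon
  push Not at hcon
  haveI := hVab
  apply hV
  rw [Subgroup.eq_bot_iff_forall]
  intro x hx
  have h1 := main_aux A V hAV 𝒜 hne hprop hpart hcon ⟨x, hx⟩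
  have h2 : orderOf (⟨x, hx⟩ : ↥V) ∣ 𝒜.card - 1 := orderOf_dvd_of_pow_eq_one h1
  have h3 : orderOf (⟨x, hx⟩ : ↥V) ∣ Nat.card ↥V := orderOf_dvd_natCard _
  have h4 : orderOf (⟨x, hx⟩ : ↥V) = 1 := (hk.coprime_dvd_left h2).eq_one_of_dvd h3
  exact congrArg Subtype.val (orderOf_eq_one_iff.mp h4)

end Cfsg.Agent.S3733
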