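import Cfsg.Statements.S3735


set_option autoImplicit false
open Cfsg

namespace Cfsg.Agent.S3735


/-- `B` normalizes `U`, elementwise. -/
def Inv {G : Type*} [Group G] (B U : Subgroup G) : Prop := ∀ b ∈ B, ∀ n ∈ U, b * n * b⁻¹ ∈ U

theorem inv_iff {G : Type*} [Group G] [Finite G] (B U : Subgroup G) :
    B ≤ Subgroup.normalizer (U : Set G) ↔ Inv B U := by
  constructor
  · intro h b hb n hn
    exact (Subgroup.mem_normalizer_iff.mp (h hb) n).mp hn
  · intro h b hb
    exact Subgroup.mem_normalizer_fintype (fun n hn => h b hb n hn)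

theorem inv_sup {G : Type*} [Group G] (B U W : Subgroup G) (hU : Inv B U) (hW : Inv B W) :
    Inv B (U ⊔ W) := by
  intro b hb n hn
  have hle : U ⊔ W ≤ (U ⊔ W).comap (MulAut.conj b).toMonoidHom := by
    apply sup_le
    · intro x hx
      exact Subgroup.mem_comap.mpr ((le_sup_left : U ≤ U ⊔ W) (hU b hb x hx))
    · intro x hx
      exact Subgroup.mem_comap.mpr ((le_sup_right : W ≤ U ⊔ W) (hW b hb x hx))
  exact hle hn

theorem inv_inf {G : Type*} [Group G] (B U W : Subgroup G) (hU : Inv B U) (hW : Inv B W) :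
    Inv B (U ⊓ W) := fun b hb n hn => ⟨hU b hb n hn.1, hW b hb n hn.2⟩

theorem mem_sup_comm {G : Type*} [Group G] (W S : Subgroup G)
    (hc : ∀ w ∈ W, ∀ s ∈ S, w * s = s * w) (x : G) (hx : x ∈ W ⊔ S) :
    ∃ w ∈ W, ∃ s ∈ S, x = w * s := by
  let P : Subgroup G :=
    { carrier := {x | ∃ w ∈ W, ∃ s ∈ S, x = w * s}
      one_mem' := ⟨1, W.one_mem, 1, S.one_mem, by simp⟩
      mul_mem' := by
        rintro _ _ ⟨w, hw, s, hs, rfl⟩ ⟨w', hw', s', hs', rfl⟩
        refine ⟨w * w', W.mul_mem hw hw', s * s', S.mul_mem hs hs', ?_⟩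
        calc w * s * (w' * s') = w * (s * w') * s' := by group
          _ = w * (w' * s) * s' := by rw [hc w' hw' s hs]
          _ = w * w' * (s * s') := by group
      inv_mem' := by
        rintro _ ⟨w, hw, s, hs, rfl⟩
        refine ⟨w⁻¹, W.inv_mem hw, s⁻¹, S.inv_mem hs, ?_⟩
        rw [mul_inv_rev]
        exact (hc w⁻¹ (W.inv_mem hw) s⁻¹ (S.inv_mem hs)).symm }
  have hle : W ⊔ S ≤ P := by
    apply sup_le
    · intro w hw
      exact ⟨w, hw, 1, S.one_mem, by simp⟩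
    · intro s hs
      exact ⟨1, W.one_mem, s, hs, by simp⟩
  exact hle hx

theorem exists_min {G : Type*} [Group G] [Finite G] (A : Subgroup G) :
    ∀ n : ℕ, ∀ T : Subgroup G, Nat.card T = n → T ≠ ⊥ → Inv A T →
      ∃ S : Subgroup G, S ≤ T ∧ S ≠ ⊥ ∧ Inv A S ∧
        ∀ S' : Subgroup G, S' ≤ S → Inv A S' → S' = ⊥ ∨ S' = S := by
  intro n
  induction n using Nat.strong_induction_on with
  | _ n ih =>
    intro T hT hne hinv
    by_cases hmin : ∀ S' : Subgroup G, S' ≤ T → Inv A S' → S' = ⊥ ∨ S' = T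
    · exact ⟨T, le_refl T, hne, hinv, hmin⟩
    · push Not at hmin
      obtain ⟨S', hS'T, hS'inv, hS'ne, hS'neT⟩ := hmin
      have hlt : Nat.card S' < n := by
        rw [← hT]
        by_contra hge
        push Not at hge
        exact hS'neT (Subgroup.eq_of_le_of_card_ge hS'T hge)
      obtain ⟨S, hS, h2, h3, h4⟩ := ih _ hlt S' rfl hS'ne hS'inv
      exact ⟨S, hS.trans hS'T, h2, h3, h4⟩



/-- Clifford's Theorem for actions on finite abelian groups, first part. Let H and V be subgroups of a finite group with V abelian and H normalizing V, and let A be a normal subgroup of H. If every H-invariant subgroup of V has an H-invariant complement in V, then every A-invariant subgroup of V has an A-invariant complement in V. -/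
theorem result {G : Type*} [Group G] [Finite G] (H A V : Subgroup G) (hVab : IsMulCommutative V) (hHV : H ≤ Subgroup.normalizer (V : Set G)) (hAH : A ≤ H) (hAn : H ≤ Subgroup.normalizer (A : Set G)) (hss : ∀ U : Subgroup G, U ≤ V → H ≤ Subgroup.normalizer (U : Set G) → ∃ W : Subgroup G, W ≤ V ∧ H ≤ Subgroup.normalizer (W : Set G) ∧ U ⊓ W = ⊥ ∧ U ⊔ W = V) (U : Subgroup G) (hUV : U ≤ V) (hAU : A ≤ Subgroup.normalizer (U : Set G)) : ∃ W : Subgroup G, W ≤ V ∧ A ≤ Subgroup.normalizer (W : Set G) ∧ U ⊓ W = ⊥ ∧ U ⊔ W = V := by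
  classical
  have hcomm : ∀ x ∈ V, ∀ y ∈ V, x * y = y * x := by
    intro x hx y hy
    have h1 := isMulCommutative_iff.mp hVab (⟨x, hx⟩ : V) ⟨y, hy⟩
    exact congrArg Subtype.val h1
  have hHV' : Inv H V := (inv_iff H V).mp hHV
  have hAA : Inv H A := (inv_iff H A).mp hAn
  have hUinv : Inv A U := (inv_iff A U).mp hAU
  let 𝒮 : Set (Subgroup G) := {S | S ≤ V ∧ S ≠ ⊥ ∧ Inv A S ∧
    ∀ S' : Subgroup G, S' ≤ S → Inv A S' → S' = ⊥ ∨ S' = S}
  have hperm : ∀ h ∈ H, ∀ S ∈ 𝒮, S.map (MulAut.conj h).toMonoidHom ∈ 𝒮 := by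
    intro h hh S hS
    obtain ⟨hSV, hSne, hSinv, hSmin⟩ := hS
    have hcinj : Function.Injective (MulAut.conj h).toMonoidHom := (MulAut.conj h).injective
    refine ⟨?_, ?_, ?_, ?_⟩
    · rintro _ ⟨x, hx, rfl⟩
      exact hHV' h hh x (hSV hx)
    · intro hbot
      exact hSne ((Subgroup.map_eq_bot_iff_of_injective S hcinj).mp hbot)
    · rintro a ha _ ⟨x, hx, rfl⟩
      have ha' : h⁻¹ * a * h ∈ A := by
        have h0 := hAA h⁻¹ (H.inv_mem hh) a ha
        simpa using h0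
      refine ⟨(h⁻¹ * a * h) * x * (h⁻¹ * a * h)⁻¹, hSinv _ ha' x hx, ?_⟩
      show h * ((h⁻¹ * a * h) * x * (h⁻¹ * a * h)⁻¹) * h⁻¹ = a * (h * x * h⁻¹) * a⁻¹
      group
    · intro S' hS'le hS'inv
      have hS''le : S'.comap (MulAut.conj h).toMonoidHom ≤ S := by
        intro x hx
        obtain ⟨x₀, hx₀, hx₀e⟩ := hS'le (Subgroup.mem_comap.mp hx)
        rw [← hcinj hx₀e]
        exact hx₀
      have hS''inv : Inv A (S'.comap (MulAut.conj h).toMonoidHom) := by
        intro a ha x hx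
        rw [Subgroup.mem_comap] at hx ⊢
        have ha' : h * a * h⁻¹ ∈ A := hAA h hh a ha
        have h0 := hS'inv _ ha' _ hx
        have e : (MulAut.conj h).toMonoidHom (a * x * a⁻¹) =
            (h * a * h⁻¹) * (MulAut.conj h).toMonoidHom x * (h * a * h⁻¹)⁻¹ := by
          show h * (a * x * a⁻¹) * h⁻¹ = (h * a * h⁻¹) * (h * x * h⁻¹) * (h * a * h⁻¹)⁻¹
          group
        rw [e]
        exact h0
      rcases hSmin _ hS''le hS''inv with h0 | h0
      · left
        rw [eq_bot_iff]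
        intro y hy
        obtain ⟨x, hx, rfl⟩ := hS'le hy
        have hx' : x ∈ S'.comap (MulAut.conj h).toMonoidHom := Subgroup.mem_comap.mpr hy
        rw [h0, Subgroup.mem_bot] at hx'
        rw [hx', map_one]
        exact Subgroup.mem_bot.mpr rfl
      · right
        apply le_antisymm hS'le
        rintro _ ⟨x, hx, rfl⟩
        rw [← h0] at hx
        exact Subgroup.mem_comap.mp hx
  have hSocV : sSup 𝒮 ≤ V := sSup_le (fun S hS => hS.1)
  have hSocH : H ≤ Subgroup.normalizer ((sSup 𝒮 : Subgroup G) : Set G) := by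
    rw [inv_iff]
    intro h hh n hn
    have hle : sSup 𝒮 ≤ (sSup 𝒮).comap (MulAut.conj h).toMonoidHom := by
      apply sSup_le
      intro S hS x hx
      exact Subgroup.mem_comap.mpr (le_sSup (hperm h hh S hS) (Subgroup.mem_map_of_mem _ hx))
    exact hle hn
  obtain ⟨T, hTV, hTH, hdisj, hsup⟩ := hss (sSup 𝒮) hSocV hSocH
  have hTbot : T = ⊥ := by
    by_contra hTne
    have hTinv : Inv A T := (inv_iff A T).mp (hAH.trans hTH)
    obtain ⟨S, hST, h2, h3, h4⟩ := exists_min A _ T rfl hTne hTinv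
    have hS𝒮 : S ∈ 𝒮 := ⟨hST.trans hTV, h2, h3, h4⟩
    have h5 : S ≤ sSup 𝒮 ⊓ T := le_inf (le_sSup hS𝒮) hST
    rw [hdisj] at h5
    exact h2 (le_bot_iff.mp h5)
  have hSoc : sSup 𝒮 = V := by
    rw [hTbot, sup_bot_eq] at hsup
    exact hsup
  let 𝒲 : Set (Subgroup G) := {W | W ≤ V ∧ Inv A W ∧ U ⊓ W = ⊥}
  have h𝒲ne : 𝒲.Nonempty := by
    refine ⟨⊥, bot_le, ?_, inf_bot_eq _⟩
    intro a _ n hn
    rw [Subgroup.mem_bot] at hn ⊢
    rw [hn]
    group
  obtain ⟨W, hWmax⟩ := (Set.toFinite 𝒲).exists_maximal h𝒲ne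
  obtain ⟨⟨hWV, hWinv, hUW⟩, hmax⟩ := hWmax
  refine ⟨W, hWV, (inv_iff A W).mpr hWinv, hUW, ?_⟩
  apply le_antisymm (sup_le hUV hWV)
  rw [← hSoc]
  apply sSup_le
  intro S hS
  obtain ⟨hSV, hSne, hSinv, hSmin⟩ := hS
  by_contra hnot
  have hUWinv : Inv A (U ⊔ W) := inv_sup A U W hUinv hWinv
  have hint : S ⊓ (U ⊔ W) = ⊥ := by
    rcases hSmin _ inf_le_left (inv_inf A S (U ⊔ W) hSinv hUWinv) with h0 | h0
    · exact h0
    · exact absurd (inf_eq_left.mp h0) hnot
  have hW' : W ⊔ S ∈ 𝒲 := by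
    refine ⟨sup_le hWV hSV, inv_sup A W S hWinv hSinv, ?_⟩
    rw [eq_bot_iff]
    intro x hx
    obtain ⟨w, hw, s, hs, rfl⟩ :=
      mem_sup_comm W S (fun w hw s hs => hcomm w (hWV hw) s (hSV hs)) x hx.2
    have hxU : w * s ∈ U := hx.1
    have hs' : s ∈ S ⊓ (U ⊔ W) := by
      refine ⟨hs, ?_⟩
      have e : s = w⁻¹ * (w * s) := by group
      rw [e]
      exact Subgroup.mul_mem _ ((le_sup_right : W ≤ U ⊔ W) (W.inv_mem hw))
        ((le_sup_left : U ≤ U ⊔ W) hxU)
    rw [hint, Subgroup.mem_bot] at hs'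
    subst hs'
    rw [mul_one] at hxU ⊢
    have h6 : w ∈ U ⊓ W := ⟨hxU, hw⟩
    rw [hUW] at h6
    exact h6
  have hle := hmax hW' le_sup_left
  exact hnot (((le_sup_right : S ≤ W ⊔ S).trans hle).trans le_sup_right)

end Cfsg.Agent.S3735
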