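import Cfsg.Statements.S3742
import Mathlib
import Cfsg.Agent.S1012

set_option autoImplicit false
open Cfsg

namespace Cfsg.Agent.S3742

open QuaternionGroup

abbrev Q := QuaternionGroup 2

/-- the endomorphism determined by the images `u`, `v` of the generators -/
def F (u v : Q) : Q → Q
  | .a i => u ^ i.val
  | .xa i => v * u ^ i.val

def valid (u v : Q) : Prop := u ^ 2 ≠ 1 ∧ v ^ 2 ≠ 1 ∧ v ≠ u ∧ v ≠ u⁻¹

instance instDecValid (u v : Q) : Decidable (valid u v) := by unfold valid; infer_instance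

set_option maxHeartbeats 4000000 in
lemma V1 : ∀ u v : Q, valid u v → ∀ s t : Q, F u v (s * t) = F u v s * F u v t := by
  decide +kernel

set_option maxHeartbeats 4000000 in
lemma V2 : ∀ u v : Q, valid u v → ∀ s t : Q, F u v s = F u v t → s = t := by decide +kernel

set_option maxHeartbeats 4000000 in
lemma V3 : Fintype.card {p : Q × Q // valid p.1 p.2} = 24 := by decide +kernel

set_option maxHeartbeats 4000000 in
lemma V4 : ∀ u v : Q, valid u v →
    F u v (F u v (F u v (F u v (F u v (F u v (a 1)))))) = a 1 →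
    F u v (F u v (F u v (F u v (F u v (F u v (xa 0)))))) = xa 0 →
    (F u v (F u v (a 1)) = a 1 ∧ F u v (F u v (xa 0)) = xa 0) ∨
    (F u v (F u v (F u v (a 1))) = a 1 ∧ F u v (F u v (F u v (xa 0))) = xa 0) := by
  decide +kernel

lemma F_a1 : ∀ u v : Q, F u v (a 1) = u := by decide +kernel

lemma F_xa0 : ∀ u v : Q, F u v (xa 0) = v := by decide +kernel

lemma gen_eq (f : MulAut Q) (w : Q) : f w = F (f (a 1)) (f (xa 0)) w := by
  rcases w with i | i
  · show f (a i) = f (a 1) ^ i.val
    rw [← map_pow, a_one_pow, ZMod.natCast_zmod_val]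
  · show f (xa i) = f (xa 0) * f (a 1) ^ i.val
    rw [← map_pow, a_one_pow, ZMod.natCast_zmod_val, ← map_mul, xa_mul_a, zero_add]

lemma valid_of (f : MulAut Q) : valid (f (a 1)) (f (xa 0)) := by
  refine ⟨?_, ?_, ?_, ?_⟩
  · rw [← map_pow]
    intro h
    exact absurd ((map_eq_one_iff f f.injective).mp h) (by decide)
  · rw [← map_pow]
    intro h
    exact absurd ((map_eq_one_iff f f.injective).mp h) (by decide)
  · intro h
    exact absurd (f.injective h) (by decide)
  · rw [← map_inv]
    intro h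
    exact absurd (f.injective h) (by decide)

lemma ext_gen (f g : MulAut Q) (h1 : f (a 1) = g (a 1)) (h2 : f (xa 0) = g (xa 0)) : f = g := by
  apply MulEquiv.ext
  intro w
  rw [gen_eq f, gen_eq g, h1, h2]

noncomputable def mk (u v : Q) (h : valid u v) : MulAut Q :=
  MulEquiv.ofBijective (MonoidHom.mk' (F u v) (V1 u v h))
    ⟨V2 u v h, Finite.injective_iff_surjective.mp (V2 u v h)⟩

lemma mk_apply (u v : Q) (h : valid u v) (w : Q) : mk u v h w = F u v w := rfl

noncomputable def equivP : MulAut Q ≃ {p : Q × Q // valid p.1 p.2} where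
  toFun f := ⟨(f (a 1), f (xa 0)), valid_of f⟩
  invFun p := mk p.1.1 p.1.2 p.2
  left_inv f := by
    apply ext_gen
    · rw [mk_apply]; exact F_a1 _ _
    · rw [mk_apply]; exact F_xa0 _ _
  right_inv p := by
    apply Subtype.ext
    apply Prod.ext
    · show mk p.1.1 p.1.2 p.2 (a 1) = p.1.1
      rw [mk_apply]; exact F_a1 _ _
    · show mk p.1.1 p.1.2 p.2 (xa 0) = p.1.2
      rw [mk_apply]; exact F_xa0 _ _

lemma no6 (f : MulAut Q) (h6 : f ^ 6 = 1) : f ^ 2 = 1 ∨ f ^ 3 = 1 := by
  have e1 := gen_eq f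
  have hv := valid_of f
  have hA : f (f (f (f (f (f (a 1)))))) = a 1 := by
    have h0 : (f ^ 6) (a 1) = a 1 := by rw [h6]; rfl
    exact h0
  have hX : f (f (f (f (f (f (xa 0)))))) = xa 0 := by
    have h0 : (f ^ 6) (xa 0) = xa 0 := by rw [h6]; rfl
    exact h0
  have hA2 : (f ^ 2) (a 1) = f (f (a 1)) := rfl
  have hX2 : (f ^ 2) (xa 0) = f (f (xa 0)) := rfl
  have hA3 : (f ^ 3) (a 1) = f (f (f (a 1))) := rfl
  have hX3 : (f ^ 3) (xa 0) = f (f (f (xa 0))) := rfl
  generalize f (a 1) = u at e1 hv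
  generalize f (xa 0) = v at e1 hv
  simp only [e1] at hA hX hA2 hX2 hA3 hX3
  rcases V4 u v hv hA hX with ⟨h1, h2⟩ | ⟨h1, h2⟩
  · left
    apply ext_gen
    · rw [hA2, h1]; rfl
    · rw [hX2, h2]; rfl
  · right
    apply ext_gen
    · rw [hA3, h1]; rfl
    · rw [hX3, h2]; rfl

/-- The automorphism group of the quaternion group of order 8 is isomorphic to the symmetric group of degree 4. -/
theorem result : Nonempty (MulAut (QuaternionGroup 2) ≃* Equiv.Perm (Fin 4)) := by
  have hcard : Nat.card (MulAut Q) = 24 := by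
    rw [Nat.card_congr equivP, Nat.card_eq_fintype_card]
    exact V3
  apply Cfsg.Agent.S1012.result hcard
  intro f hf
  have h6 : f ^ 6 = 1 := by rw [← hf]; exact pow_orderOf_eq_one f
  rcases no6 f h6 with h | h
  · have h1 := orderOf_dvd_of_pow_eq_one h
    rw [hf] at h1
    exact absurd h1 (by decide)
  · have h1 := orderOf_dvd_of_pow_eq_one h
    rw [hf] at h1
    exact absurd h1 (by decide)

end Cfsg.Agent.S3742
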