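import Cfsg.Statements.S3744
import Cfsg.Agent.Lib_helper5_PSolv

set_option autoImplicit false
open Cfsg

namespace Cfsg.Agent.S3744

/-- A finite p-soluble group has a p-complement, all its p-complements are conjugate, and every subgroup of order prime to p lies in one of them. Here a p-complement is a subgroup of order prime to p whose index is a power of p. -/
theorem result {G : Type*} [Group G] [Finite G] {p : ℕ} [Fact p.Prime] (hG : Cfsg.IsPSolvable p G) : (∃ H : Subgroup G, (Nat.card H).Coprime p ∧ ∃ n : ℕ, H.index = p ^ n) ∧ (∀ H₁ H₂ : Subgroup G, (Nat.card H₁).Coprime p → (∃ n : ℕ, H₁.index = p ^ n) → (Nat.card H₂).Coprime p → (∃ n : ℕ, H₂.index = p ^ n) → ∃ g : G, H₂ = H₁.map (MulAut.conj g).toMonoidHom) ∧ (∀ U : Subgroup G, (Nat.card U).Coprime p → ∃ H : Subgroup G, (Nat.card H).Coprime p ∧ (∃ n : ℕ, H.index = p ^ n) ∧ ∃ g : G, U.map (MulAut.conj g).toMonoidHom ≤ H) := by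
  obtain ⟨m, a, hcard, hm⟩ := Cfsg.Agent.Lib_helper5_PSolv.card_decomp G p
  refine ⟨?_, ?_, ?_⟩
  · obtain ⟨H, hH⟩ := Cfsg.Agent.Lib_helper5_PSolv.exists_pcomp hG m a hcard hm
    exact ⟨H, hH ▸ hm, a, Cfsg.Agent.Lib_helper5_PSolv.index_pcomp H m a hcard hH⟩
  · rintro H₁ H₂ h1 ⟨k1, hk1⟩ h2 ⟨k2, hk2⟩
    have c1 := Cfsg.Agent.Lib_helper5_PSolv.card_pcomp H₁ h1 k1 hk1 m a hcard hm
    have c2 := Cfsg.Agent.Lib_helper5_PSolv.card_pcomp H₂ h2 k2 hk2 m a hcard hm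
    obtain ⟨g, hg⟩ := Cfsg.Agent.Lib_helper5_PSolv.pcomp_conj hG m a hcard hm H₁ H₂ c1 c2
    exact ⟨g, by rw [← hg, Cfsg.Agent.Lib_helper1_SZ.conj_smul_eq_map]⟩
  · intro U hU
    obtain ⟨H, hH, hUH⟩ := Cfsg.Agent.Lib_helper5_PSolv.pcomp_dominance hG m a hcard hm U hU
    refine ⟨H, hH ▸ hm, ⟨a, Cfsg.Agent.Lib_helper5_PSolv.index_pcomp H m a hcard hH⟩, 1, ?_⟩
    have e : U.map (MulAut.conj (1 : G)).toMonoidHom = U := by
      rw [← Cfsg.Agent.Lib_helper1_SZ.conj_smul_eq_map, map_one, one_smul]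
    rw [e]; exact hUH

end Cfsg.Agent.S3744
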