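import Cfsg.Statements.S3745
import Cfsg.Agent.Lib_helper5_PiHall2

set_option autoImplicit false
open Cfsg

namespace Cfsg.Agent.S3745

/-- Coprime action on a solvable group and Hall subgroups. Let A and G be subgroups of a finite group with A normalizing G, the orders of A and G coprime, and G solvable, and let π be a set of primes. Then (a) G has an A-invariant Hall π-subgroup; (b) any two A-invariant Hall π-subgroups of G are conjugate by an element of C_G(A); (c) every A-invariant π-subgroup of G lies in an A-invariant Hall π-subgroup of G. -/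
theorem result {X : Type*} [Group X] [Finite X] (A G : Subgroup X) (hAG : A ≤ Subgroup.normalizer (G : Set X)) (hcop : (Nat.card A).Coprime (Nat.card G)) (hsolv : Group.IsSolvable G) (π : Set ℕ) : (∃ H : Subgroup X, Cfsg.IsPiHallOf π H G ∧ A ≤ Subgroup.normalizer (H : Set X)) ∧ (∀ H₁ H₂ : Subgroup X, Cfsg.IsPiHallOf π H₁ G → A ≤ Subgroup.normalizer (H₁ : Set X) → Cfsg.IsPiHallOf π H₂ G → A ≤ Subgroup.normalizer (H₂ : Set X) → ∃ c ∈ G ⊓ Subgroup.centralizer (A : Set X), H₂ = H₁.map (MulAut.conj c).toMonoidHom) ∧ (∀ U : Subgroup X, U ≤ G → A ≤ Subgroup.normalizer (U : Set X) → (∀ p : ℕ, p.Prime → p ∣ Nat.card U → p ∈ π) → ∃ H : Subgroup X, Cfsg.IsPiHallOf π H G ∧ A ≤ Subgroup.normalizer (H : Set X) ∧ U ≤ H) := by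
  obtain ⟨m, n, hcard, hmn, hm, hn⟩ :=
    Cfsg.Agent.Lib_helper5_PiHall.exists_pi_decomp π (Nat.card G) Nat.card_pos.ne'
  have hiff := fun H => Cfsg.Agent.Lib_helper5_PiHall.isPiHallOf_iff_card π H G m n hcard hm hn
  refine ⟨?_, ?_, ?_⟩
  · obtain ⟨H, hHG, hHc, hHA⟩ :=
      Cfsg.Agent.Lib_helper5_PiHall.exists_invariant_hall A G hAG hcop hsolv m n hcard hmn
    exact ⟨H, (hiff H).mpr ⟨hHG, hHc⟩, hHA⟩
  · intro H₁ H₂ h1 hA1 h2 hA2
    obtain ⟨h1G, h1c⟩ := (hiff H₁).mp h1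
    obtain ⟨h2G, h2c⟩ := (hiff H₂).mp h2
    obtain ⟨c, hc, hcH⟩ := Cfsg.Agent.Lib_helper5_PiHall.invariant_hall_conj A G hAG hcop hsolv
      m n hcard hmn H₁ H₂ h1G h2G h1c h2c hA1 hA2
    exact ⟨c, hc, by rw [← hcH, Cfsg.Agent.Lib_helper1_SZ.conj_smul_eq_map]⟩
  · intro U hUG hAU hUπ
    have hUn : (Nat.card U).Coprime n :=
      Nat.coprime_of_dvd (fun k hk hkU hkn => hn k hk hkn (hUπ k hk hkU))
    obtain ⟨H, hHG, hHc, hHA, hUH⟩ := Cfsg.Agent.Lib_helper5_PiHall2.invariant_hall_dominance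
      A G U hAG hcop hsolv hUG hAU m n hcard hmn hUn
    exact ⟨H, (hiff H).mpr ⟨hHG, hHc⟩, hHA, hUH⟩

end Cfsg.Agent.S3745
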