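import Cfsg.Statements.S3746
import Cfsg.Agent.Lib_helper2_Comp

set_option autoImplicit false
open Cfsg

namespace Cfsg.Agent.S3746


open scoped commutatorElement
theorem aux1 {G : Type*} [Group G] (e x : G) :
    e * x * ((e * x)⁻¹ * (x * e)) * (e * x)⁻¹ = x * e * x⁻¹ * e⁻¹ := by group

theorem comm_central0 {G : Type*} [Group G] (a b za zb : G)
    (hza : ∀ g, g * za = za * g) (hzb : ∀ g, g * zb = zb * g) :
    (za * a) * (zb * b) * (za * a)⁻¹ * (zb * b)⁻¹ = a * b * a⁻¹ * b⁻¹ := by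
  have h1 : a * zb = zb * a := hzb a
  have h2 : b⁻¹ * zb⁻¹ = zb⁻¹ * b⁻¹ := by
    have := hzb b
    calc b⁻¹ * zb⁻¹ = (zb * b)⁻¹ := by group
      _ = (b * zb)⁻¹ := by rw [this]
      _ = zb⁻¹ * b⁻¹ := by group
  have h3 : a⁻¹ * zb⁻¹ = zb⁻¹ * a⁻¹ := by
    have := hzb a
    calc a⁻¹ * zb⁻¹ = (zb * a)⁻¹ := by group
      _ = (a * zb)⁻¹ := by rw [this]
      _ = zb⁻¹ * a⁻¹ := by group
  have h4 : a * b * a⁻¹ * za⁻¹ = za⁻¹ * (a * b * a⁻¹) := by
    have := hza (a * b * a⁻¹)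
    calc a * b * a⁻¹ * za⁻¹ = za⁻¹ * (za * (a * b * a⁻¹)) * za⁻¹ := by group
      _ = za⁻¹ * ((a * b * a⁻¹) * za) * za⁻¹ := by rw [this]
      _ = za⁻¹ * (a * b * a⁻¹) := by group
  calc (za * a) * (zb * b) * (za * a)⁻¹ * (zb * b)⁻¹
      = za * (a * zb) * b * a⁻¹ * za⁻¹ * (b⁻¹ * zb⁻¹) := by group
    _ = za * (zb * a) * b * a⁻¹ * za⁻¹ * (zb⁻¹ * b⁻¹) := by rw [h1, h2]
    _ = za * zb * (a * b * a⁻¹ * za⁻¹) * zb⁻¹ * b⁻¹ := by group
    _ = za * zb * (za⁻¹ * (a * b * a⁻¹)) * zb⁻¹ * b⁻¹ := by rw [h4]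
    _ = za * (zb * za⁻¹) * a * b * (a⁻¹ * zb⁻¹) * b⁻¹ := by group
    _ = za * (za⁻¹ * zb) * a * b * (zb⁻¹ * a⁻¹) * b⁻¹ := by rw [h3, hzb za⁻¹]
    _ = (zb * a) * b * zb⁻¹ * a⁻¹ * b⁻¹ := by group
    _ = (a * zb) * b * zb⁻¹ * a⁻¹ * b⁻¹ := by rw [h1]
    _ = a * (zb * b) * zb⁻¹ * a⁻¹ * b⁻¹ := by group
    _ = a * (b * zb) * zb⁻¹ * a⁻¹ * b⁻¹ := by rw [hzb b]
    _ = a * b * a⁻¹ * b⁻¹ := by group

theorem comm_central {G : Type*} [Group G] (x a b : G)
    (hza : ∀ g, g * (x * a * x⁻¹ * a⁻¹) = (x * a * x⁻¹ * a⁻¹) * g)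
    (hzb : ∀ g, g * (x * b * x⁻¹ * b⁻¹) = (x * b * x⁻¹ * b⁻¹) * g) :
    x * ⁅a, b⁆ = ⁅a, b⁆ * x := by
  have h := comm_central0 a b _ _ hza hzb
  rw [commutatorElement_def]
  calc x * (a * b * a⁻¹ * b⁻¹)
      = ((x * a * x⁻¹ * a⁻¹) * a) * ((x * b * x⁻¹ * b⁻¹) * b) * ((x * a * x⁻¹ * a⁻¹) * a)⁻¹ *
        ((x * b * x⁻¹ * b⁻¹) * b)⁻¹ * x := by group
    _ = a * b * a⁻¹ * b⁻¹ * x := by rw [h]

theorem central_of_comm_mod {G : Type*} [Group G] (Z E : Subgroup G)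
    (hZ : Z ≤ Subgroup.center G) (hEle : E ≤ ⁅E, E⁆ ⊔ Z) (x : G)
    (hxZ : ∀ e ∈ E, x * e * x⁻¹ * e⁻¹ ∈ Z) : ∀ e ∈ E, e * x = x * e := by
  have h1 : ⁅E, E⁆ ≤ Subgroup.centralizer {x} := by
    rw [Subgroup.commutator_le]
    intro a ha b hb
    rw [Subgroup.mem_centralizer_iff]
    intro h hh
    rw [Set.mem_singleton_iff] at hh
    subst hh
    exact comm_central h a b (fun g => Subgroup.mem_center_iff.mp (hZ (hxZ a ha)) g)
      (fun g => Subgroup.mem_center_iff.mp (hZ (hxZ b hb)) g)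
  have h2 : Z ≤ Subgroup.centralizer {x} := hZ.trans (Subgroup.center_le_centralizer _)
  intro e he
  have h3 := (sup_le h1 h2) (hEle he)
  rw [Subgroup.mem_centralizer_iff] at h3
  exact (h3 x rfl).symm

theorem ker_center {G : Type*} [Group G] [Finite G] (Z : Subgroup G)
    (hZ : Z ≤ Subgroup.center G) [Z.Normal] (E : Subgroup G)
    (hEle : E ≤ ⁅E, E⁆ ⊔ Z) :
    ((QuotientGroup.mk' (Subgroup.center ↥(E.map (QuotientGroup.mk' Z)))).comp
      ((QuotientGroup.mk' Z).subgroupMap E)).ker = Subgroup.center ↥E := by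
  have hπs : Function.Surjective ((QuotientGroup.mk' Z).subgroupMap E) :=
    (QuotientGroup.mk' Z).subgroupMap_surjective E
  ext x
  rw [MonoidHom.mem_ker, MonoidHom.comp_apply, QuotientGroup.mk'_apply, QuotientGroup.eq_one_iff,
    Subgroup.mem_center_iff, Subgroup.mem_center_iff]
  constructor
  · intro h e
    have hxZ : ∀ e ∈ E, (x : G) * e * (x : G)⁻¹ * (e : G)⁻¹ ∈ Z := by
      intro e he
      have h1 := h ((QuotientGroup.mk' Z).subgroupMap E ⟨e, he⟩)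
      have h2 := congrArg Subtype.val h1
      have h3 : ((e : G) : G ⧸ Z) * ((x : G) : G ⧸ Z) =
          ((x : G) : G ⧸ Z) * ((e : G) : G ⧸ Z) := h2
      rw [← QuotientGroup.mk_mul, ← QuotientGroup.mk_mul, QuotientGroup.eq] at h3
      have h4 := (inferInstance : Z.Normal).conj_mem _ h3 ((e : G) * (x : G))
      rw [aux1] at h4
      exact h4
    apply Subtype.ext
    exact central_of_comm_mod Z E hZ hEle (x : G) hxZ (e : G) e.2
  · intro h g
    obtain ⟨e, rfl⟩ := hπs g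
    rw [← map_mul, ← map_mul, h e]



/-- Let Z ≤ Z(G) be a central subgroup of a finite group G and E a subgroup of G containing Z whose image E/Z is a component of G/Z (subnormal and quasisimple). Then the derived subgroup [E, E] is a component of G. -/
theorem result {G : Type*} [Group G] [Finite G] (Z : Subgroup G) (hZ : Z ≤ Subgroup.center G) [Z.Normal] (E : Subgroup G) (hZE : Z ≤ E) (hE : Cfsg.IsComponent (E.map (QuotientGroup.mk' Z))) : Cfsg.IsComponent ⁅E, E⁆ := by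
  classical
  obtain ⟨hEs, hEq⟩ := hE
  have hker : (QuotientGroup.mk' Z).ker ≤ E := by
    rw [QuotientGroup.ker_mk']
    exact hZE
  have hEsub : E.IsSubnormal := by
    have h := hEs.comap (QuotientGroup.mk' Z)
    rwa [Subgroup.comap_map_eq_self hker] at h
  have hcomm_map : (commutator ↥E).map E.subtype = ⁅E, E⁆ := Subgroup.map_subtype_commutator E
  have hDle : ⁅E, E⁆ ≤ E := Cfsg.Agent.Lib_helper2_Comp.comm_le_self E
  have hDn : (⁅E, E⁆.subgroupOf E).Normal := by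
    have e : ⁅E, E⁆.subgroupOf E = commutator ↥E := by
      rw [← hcomm_map]
      exact Subgroup.comap_map_eq_self_of_injective E.subtype_injective _
    rw [e]
    infer_instance
  have hDsub : (⁅E, E⁆).IsSubnormal := Subgroup.IsSubnormal.step _ E hDle hEsub hDn
  have hperf : ⁅E.map (QuotientGroup.mk' Z), E.map (QuotientGroup.mk' Z)⁆ =
      E.map (QuotientGroup.mk' Z) := Cfsg.Agent.Lib_helper2_Comp.qs_comm_self hEq
  have hEle : E ≤ ⁅E, E⁆ ⊔ Z := by
    have h1 : (⁅E, E⁆).map (QuotientGroup.mk' Z) = E.map (QuotientGroup.mk' Z) := by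
      rw [Subgroup.map_commutator]
      exact hperf
    have h2 : E ≤ (E.map (QuotientGroup.mk' Z)).comap (QuotientGroup.mk' Z) :=
      Subgroup.le_comap_map _ _
    rw [← h1, Subgroup.comap_map_eq, QuotientGroup.ker_mk'] at h2
    exact h2
  have hφs : Function.Surjective ((QuotientGroup.mk' (Subgroup.center
      ↥(E.map (QuotientGroup.mk' Z)))).comp ((QuotientGroup.mk' Z).subgroupMap E)) :=
    (QuotientGroup.mk'_surjective _).comp ((QuotientGroup.mk' Z).subgroupMap_surjective E)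
  have hφker := ker_center Z hZ E hEle
  have hiso : ↥E ⧸ Subgroup.center ↥E ≃* ↥(E.map (QuotientGroup.mk' Z)) ⧸
      Subgroup.center ↥(E.map (QuotientGroup.mk' Z)) :=
    (QuotientGroup.quotientMulEquivOfEq hφker.symm).trans
      (QuotientGroup.quotientKerEquivOfSurjective _ hφs)
  haveI := hEq.2
  have hs : IsSimpleGroup (↥E ⧸ Subgroup.center ↥E) := hiso.isSimpleGroup
  have hna : ¬ IsMulCommutative (↥E ⧸ Subgroup.center ↥E) := by
    intro hc
    haveI := hEq.1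
    haveI : Group.IsPerfect (↥(E.map (QuotientGroup.mk' Z)) ⧸
        Subgroup.center ↥(E.map (QuotientGroup.mk' Z))) :=
      Group.IsPerfect.ofSurjective (f := QuotientGroup.mk' _) (QuotientGroup.mk'_surjective _)
    apply Group.IsPerfect.not_isSolvable (↥(E.map (QuotientGroup.mk' Z)) ⧸
        Subgroup.center ↥(E.map (QuotientGroup.mk' Z)))
    apply Group.isSolvable_of_comm
    intro a b
    obtain ⟨a', rfl⟩ := hiso.surjective a
    obtain ⟨b', rfl⟩ := hiso.surjective b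
    rw [← map_mul, ← map_mul, (isMulCommutative_iff.mp hc) a' b']
  obtain ⟨-, hq⟩ := Cfsg.Agent.Lib_helper2_Comp.qs_commutator hs hna
  have hq2 : Cfsg.IsQuasisimple ↥((commutator ↥E).map E.subtype) :=
    Cfsg.Agent.Lib_helper2_Comp.qs_of_mulEquiv
      ((commutator ↥E).equivMapOfInjective E.subtype E.subtype_injective) hq
  rw [hcomm_map] at hq2
  exact ⟨hDsub, hq2⟩

end Cfsg.Agent.S3746
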