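import Cfsg.Statements.S3747
import Cfsg.Agent.Lib_helper2_Comp
import Cfsg.Agent.S3735

set_option autoImplicit false
open Cfsg

namespace Cfsg.Agent.S3747


theorem conj_comm {G : Type*} [Group G] (g k z : G)
    (h : k * (g⁻¹ * z * g) = (g⁻¹ * z * g) * k) : z * (g * k * g⁻¹) = (g * k * g⁻¹) * z := by
  calc z * (g * k * g⁻¹) = g * ((g⁻¹ * z * g) * k) * g⁻¹ := by group
    _ = g * (k * (g⁻¹ * z * g)) * g⁻¹ := by rw [h]
    _ = (g * k * g⁻¹) * z := by group

theorem center_free_sup {G : Type*} [Group G] [DecidableEq (Subgroup G)]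
    (S : Finset (Subgroup G)) :
    (∀ A ∈ S, ∀ B ∈ S, A ≠ B → ∀ a ∈ A, ∀ b ∈ B, a * b = b * a) →
    (∀ A ∈ S, ∀ x ∈ A, (∀ y ∈ A, x * y = y * x) → x = 1) →
    ∀ z : G, z ∈ S.sup id → (∀ A ∈ S, ∀ y ∈ A, z * y = y * z) → z = 1 := by
  induction S using Finset.induction_on with
  | empty =>
    intro _ _ z hz _
    rw [Finset.sup_empty] at hz
    exact Subgroup.mem_bot.mp hz
  | insert L S' hL ih =>
    intro hcomm hcf z hz hzc
    rw [Finset.sup_insert] at hz
    have hLS : ∀ w ∈ L, ∀ s ∈ S'.sup id, w * s = s * w := by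
      intro w hw s hs
      have hle : S'.sup id ≤ Subgroup.centralizer {w} := by
        apply Finset.sup_le
        intro B hB b hb
        rw [Subgroup.mem_centralizer_iff]
        intro h hh
        rw [Set.mem_singleton_iff] at hh
        subst hh
        have hne : L ≠ B := fun e => hL (e ▸ hB)
        exact hcomm L (Finset.mem_insert_self _ _) B (Finset.mem_insert_of_mem hB) hne h hw b hb
      exact Subgroup.mem_centralizer_iff.mp (hle hs) w rfl
    obtain ⟨w, hw, s, hs, rfl⟩ := Cfsg.Agent.S3735.mem_sup_comm L (S'.sup id) hLS z hz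
    have hw1 : w = 1 := by
      apply hcf L (Finset.mem_insert_self _ _) w hw
      intro y hy
      have h1 := hzc L (Finset.mem_insert_self _ _) y hy
      have h2 := hLS y hy s hs
      calc w * y = w * (y * s) * s⁻¹ := by group
        _ = w * (s * y) * s⁻¹ := by rw [h2]
        _ = (w * s * y) * s⁻¹ := by group
        _ = y * (w * s) * s⁻¹ := by rw [h1]
        _ = y * w := by group
    subst hw1
    rw [one_mul] at hzc ⊢
    exact ih (fun A hA B hB => hcomm A (Finset.mem_insert_of_mem hA) B (Finset.mem_insert_of_mem hB))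
      (fun A hA => hcf A (Finset.mem_insert_of_mem hA)) s hs
      (fun A hA => hzc A (Finset.mem_insert_of_mem hA))

theorem partA {G : Type*} [Group G] [Finite G] (K : Subgroup G) (hK : Cfsg.IsComponent K)
    (hZ : Subgroup.center ↥K = ⊥) :
    Subgroup.normalClosure (K : Set G) ≠ ⊥ ∧ ∀ N : Subgroup G, N.Normal →
      N ≤ Subgroup.normalClosure (K : Set G) → N = ⊥ ∨ N = Subgroup.normalClosure (K : Set G) := by
  classical
  haveI : Fintype G := Fintype.ofFinite G
  constructor
  · intro h
    apply Cfsg.Agent.Lib_helper2_Comp.qs_ne_bot hK.2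
    rw [eq_bot_iff, ← h]
    exact Subgroup.le_normalClosure
  · intro N hN hNM
    rcases Cfsg.Agent.Lib_helper2_Comp.comp_le_or_comm K N hK.1 hK.2 hN.isSubnormal with h | h
    · right
      exact le_antisymm hNM (Subgroup.normalClosure_le_normal h)
    · left
      rw [eq_bot_iff]
      intro z hz
      rw [Subgroup.mem_bot]
      let S : Finset (Subgroup G) :=
        Finset.univ.image (fun g : G => K.map (MulAut.conj g).toMonoidHom)
      have hS : ∀ A ∈ S, ∃ g : G, A = K.map (MulAut.conj g).toMonoidHom := by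
        intro A hA
        obtain ⟨g, -, rfl⟩ := Finset.mem_image.mp hA
        exact ⟨g, rfl⟩
      have hMS : Subgroup.normalClosure (K : Set G) ≤ S.sup id := by
        show Subgroup.closure (Group.conjugatesOfSet (K : Set G)) ≤ _
        apply (Subgroup.closure_le _).mpr
        intro x hx
        obtain ⟨k, hk, hkx⟩ := Group.mem_conjugatesOfSet_iff.mp hx
        obtain ⟨c, rfl⟩ := isConj_iff.mp hkx
        have h1 : K.map (MulAut.conj c).toMonoidHom ≤ S.sup id :=
          Finset.le_sup (f := id) (Finset.mem_image_of_mem _ (Finset.mem_univ c))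
        exact h1 ⟨k, hk, rfl⟩
      apply center_free_sup S ?_ ?_ z (hMS (hNM hz)) ?_
      · intro A hA B hB hne
        obtain ⟨g, rfl⟩ := hS A hA
        obtain ⟨g', rfl⟩ := hS B hB
        rcases Cfsg.Agent.Lib_helper2_Comp.comp_eq_or_comm
          (Cfsg.Agent.Lib_helper2_Comp.comp_map_equiv hK (MulAut.conj g))
          (Cfsg.Agent.Lib_helper2_Comp.comp_map_equiv hK (MulAut.conj g')) with h1 | h1
        · exact absurd h1 hne
        · exact h1
      · intro A hA x hx hxc
        obtain ⟨g, rfl⟩ := hS A hA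
        obtain ⟨k, hk, rfl⟩ := hx
        have hk1 : (⟨k, hk⟩ : ↥K) ∈ Subgroup.center ↥K := by
          rw [Subgroup.mem_center_iff]
          intro y
          apply Subtype.ext
          have h2 := hxc _ ⟨y, y.2, rfl⟩
          have h3 : (MulAut.conj g) (k * y) = (MulAut.conj g) (y * k) := by
            rw [map_mul, map_mul]; exact h2
          exact ((MulAut.conj g).injective h3).symm
        rw [hZ, Subgroup.mem_bot] at hk1
        have hk2 : k = 1 := congrArg Subtype.val hk1
        rw [hk2]
        exact map_one _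
      · intro A hA y hy
        obtain ⟨g, rfl⟩ := hS A hA
        obtain ⟨k, hk, rfl⟩ := hy
        have h0 : g⁻¹ * z * g ∈ N := by
          have := hN.conj_mem z hz g⁻¹
          rwa [inv_inv] at this
        exact conj_comm g k z (h k hk (g⁻¹ * z * g) h0)



/-- Let G be a finite group. (a) If K is a component of G with trivial centre, then the normal closure of K in G is a minimal normal subgroup of G. (b) If the Fitting subgroup of G is trivial, then the layer E(G) is generated by the minimal normal subgroups of G. -/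
theorem result {G : Type*} [Group G] [Finite G] : (∀ K : Subgroup G, Cfsg.IsComponent K → Subgroup.center ↥K = ⊥ → (Subgroup.normalClosure (K : Set G) ≠ ⊥ ∧ ∀ N : Subgroup G, N.Normal → N ≤ Subgroup.normalClosure (K : Set G) → N = ⊥ ∨ N = Subgroup.normalClosure (K : Set G))) ∧ (Cfsg.fittingSubgroup G = ⊥ → sSup {N : Subgroup G | N ≠ ⊥ ∧ N.Normal ∧ ∀ N' : Subgroup G, N'.Normal → N' ≤ N → N' = ⊥ ∨ N' = N} = Cfsg.layer G) := by
  refine ⟨fun K hK hZ => partA K hK hZ, ?_⟩
  intro hF
  have hgf : Cfsg.generalizedFittingSubgroup G = Cfsg.layer G := by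
    unfold Cfsg.generalizedFittingSubgroup
    rw [hF, sup_bot_eq]
  apply le_antisymm
  · apply sSup_le
    rintro N ⟨hN0, hNn, hNmin⟩
    have hLn : (Cfsg.layer G).Normal := inferInstance
    rcases hNmin (N ⊓ Cfsg.layer G) (Subgroup.normal_inf_normal N (Cfsg.layer G)) inf_le_left
      with h | h
    · exfalso
      apply hN0
      have hdis : Disjoint N (Cfsg.layer G) := disjoint_iff.mpr h
      have hNc : N ≤ Subgroup.centralizer (Cfsg.layer G : Set G) := by
        intro n hn
        rw [Subgroup.mem_centralizer_iff]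
        intro l hl
        exact (Subgroup.commute_of_normal_of_disjoint N (Cfsg.layer G) hNn hLn hdis n l hn hl).eq.symm
      have h2 := Cfsg.Agent.Lib_helper2_Comp.centralizer_gfit_le (G := G)
      rw [hgf] at h2
      rw [eq_bot_iff, ← h]
      exact le_inf le_rfl (hNc.trans h2)
    · rw [← h]
      exact inf_le_right
  · apply sSup_le
    intro K hK
    have hZ : Subgroup.center ↥K = ⊥ := by
      have h1 := Cfsg.Agent.Lib_helper2_Comp.center_comp_le hK
      rw [Cfsg.Agent.Lib_helper2_Comp.center_layer, hF, bot_inf_eq] at h1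
      exact (Subgroup.map_eq_bot_iff_of_injective _ K.subtype_injective).mp (le_bot_iff.mp h1)
    obtain ⟨h1, h2⟩ := partA K hK hZ
    exact Subgroup.le_normalClosure.trans (le_sSup ⟨h1, Subgroup.normalClosure_normal, h2⟩)

end Cfsg.Agent.S3747
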