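import Cfsg.Statements.S3748
import Cfsg.Agent.Lib_helper5_MinNormal

set_option autoImplicit false
open Cfsg Cfsg.Agent.Lib_helper6_Conj

namespace Cfsg.Agent.S3748

theorem mem_normalizer_of_conjMap_le {G : Type*} [Group G] [Finite G] {X : Subgroup G} {g : G}
    (h : X.map (MulAut.conj g).toMonoidHom ≤ X) : g ∈ Subgroup.normalizer (X : Set G) := by
  rw [mem_normalizer_iff_conjMap]
  exact Subgroup.eq_of_le_of_card_ge h (by rw [card_conjMap])

/-- Call a proper subgroup M of G primitive when M = N_G(N) for every non-trivial normal subgroup N of M. If M is a primitive subgroup of the finite group G, then no non-trivial subnormal subgroup of G is contained in M; in particular M ∩ F(G) = 1. -/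
theorem result {G : Type*} [Group G] [Finite G] (M : Subgroup G) (hM : M ≠ ⊤) (hprim : ∀ N : Subgroup G, N ≤ M → M ≤ Subgroup.normalizer (N : Set G) → N ≠ ⊥ → Subgroup.normalizer (N : Set G) = M) : (∀ L : Subgroup G, L.IsSubnormal → L ≤ M → L = ⊥) ∧ M ⊓ Cfsg.fittingSubgroup G = ⊥ := by
  have part1 : ∀ L : Subgroup G, L.IsSubnormal → L ≤ M → L = ⊥ := by
    intro L hL hLM
    by_contra hne
    -- a minimal normal subgroup
    let S : Set (Subgroup G) := {T | T ≠ ⊥ ∧ T.Normal}
    have hSne : S.Nonempty := ⟨⊤, by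
      intro h
      apply hne
      rw [eq_bot_iff, ← h]; exact le_top, Subgroup.normal_top⟩
    obtain ⟨N₀, hN₀, hN₀min⟩ := Set.exists_min_image S (fun T : Subgroup G => Nat.card T)
      (Set.toFinite S) hSne
    have hmin : ∀ K : Subgroup G, K.Normal → K ≤ N₀ → K = ⊥ ∨ K = N₀ := by
      intro K hK hle
      by_cases hb : K = ⊥
      · exact Or.inl hb
      · exact Or.inr (Subgroup.eq_of_le_of_card_ge hle (hN₀min K ⟨hb, hK⟩))
    set X : Subgroup G := ⨆ m : M, L.map (MulAut.conj (m : G)).toMonoidHom with hX
    have hXne : X ≠ ⊥ := by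
      intro h
      apply hne
      rw [eq_bot_iff, ← h, hX]
      have h0 := le_iSup (fun m : M => L.map (MulAut.conj (m : G)).toMonoidHom) 1
      have h00 : L.map (MulAut.conj ((1 : M) : G)).toMonoidHom = L := by
        rw [Subgroup.coe_one, conjMap_one]
      rw [h00] at h0
      exact h0
    have hXM : X ≤ M := by
      rw [hX]
      apply iSup_le
      intro m y hy
      rw [mem_conjMap] at hy
      have h1 := M.mul_mem (M.mul_mem m.2 (hLM hy)) (M.inv_mem m.2)
      have h2 : (m : G) * ((m : G)⁻¹ * y * (m : G)) * (m : G)⁻¹ = y := by group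
      rwa [h2] at h1
    have hMX : M ≤ Subgroup.normalizer (X : Set G) := by
      intro g hg
      apply mem_normalizer_of_conjMap_le
      rw [hX, Subgroup.map_iSup]
      apply iSup_le
      intro m
      rw [← conjMap_mul]
      exact le_iSup (fun m : M => L.map (MulAut.conj (m : G)).toMonoidHom) ⟨g * m, M.mul_mem hg m.2⟩
    have hNX : N₀ ≤ Subgroup.normalizer (X : Set G) := by
      intro g hg
      apply mem_normalizer_of_conjMap_le
      rw [hX, Subgroup.map_iSup]
      apply iSup_le
      intro m
      have hsn : (L.map (MulAut.conj (m : G)).toMonoidHom).IsSubnormal :=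
        hL.map (MulAut.conj (m : G)).surjective
      have h1 := Cfsg.Agent.Lib_helper5_MinNormal.minNormal_le_normalizer G _ N₀ hsn hN₀.2 hmin hg
      rw [mem_normalizer_iff_conjMap] at h1
      rw [h1]
      exact le_iSup (fun m : M => L.map (MulAut.conj (m : G)).toMonoidHom) m
    have h1 := hprim X hXM hMX hXne
    have hNM : N₀ ≤ M := by rw [← h1]; exact hNX
    have h2 := hprim N₀ hNM (by
      rw [Subgroup.normalizer_eq_top_iff.mpr hN₀.2]; exact le_top) hN₀.1
    rw [Subgroup.normalizer_eq_top_iff.mpr hN₀.2] at h2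
    exact hM h2.symm
  refine ⟨part1, ?_⟩
  apply part1 _ _ inf_le_left
  haveI := Cfsg.Agent.Lib_helper5_Fitting.fitting_isNilpotent (G := G)
  exact Subgroup.IsSubnormal.trans inf_le_right
    (Cfsg.Agent.Lib_helper5_Fitting.isSubnormal_of_isNilpotent _)
    (Cfsg.Agent.Lib_helper6_PCore.fittingSubgroup_normal).isSubnormal

end Cfsg.Agent.S3748
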