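import Cfsg.Statements.S3749
import Cfsg.Agent.Lib_helper1_Coprime
import Cfsg.Agent.Lib_helper6_PCore

set_option autoImplicit false
open Cfsg

namespace Cfsg.Agent.S3749


theorem mem_sup_of_normalizes {G : Type*} [Group G] (M Q : Subgroup G)
    (h : M ≤ Subgroup.normalizer (Q : Set G)) (x : G) (hx : x ∈ M ⊔ Q) :
    ∃ m ∈ M, ∃ y ∈ Q, x = m * y := by
  let P : Subgroup G :=
    { carrier := {x | ∃ m ∈ M, ∃ y ∈ Q, x = m * y}
      one_mem' := ⟨1, M.one_mem, 1, Q.one_mem, by simp⟩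
      mul_mem' := by
        rintro _ _ ⟨m, hm, y, hy, rfl⟩ ⟨m', hm', y', hy', rfl⟩
        have h1 : m'⁻¹ * y * m' ∈ Q := by
          have h0 := (Subgroup.mem_normalizer_iff.mp (h (M.inv_mem hm')) y).mp hy
          simpa using h0
        exact ⟨m * m', M.mul_mem hm hm', (m'⁻¹ * y * m') * y', Q.mul_mem h1 hy', by group⟩
      inv_mem' := by
        rintro _ ⟨m, hm, y, hy, rfl⟩
        have h1 : m * y⁻¹ * m⁻¹ ∈ Q :=
          (Subgroup.mem_normalizer_iff.mp (h hm) y⁻¹).mp (Q.inv_mem hy)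
        exact ⟨m⁻¹, M.inv_mem hm, m * y⁻¹ * m⁻¹, h1, by group⟩ }
  have hle : M ⊔ Q ≤ P :=
    sup_le (fun m hm => ⟨m, hm, 1, Q.one_mem, by simp⟩) (fun y hy => ⟨1, M.one_mem, y, hy, by simp⟩)
  exact hle hx



/-- Call a proper subgroup M of G primitive when M = N_G(N) for every non-trivial normal subgroup N of M. Let M be a primitive subgroup of the finite group G, p a prime with O_p(M) ≠ 1, and N a normal subgroup of G with M ∩ N = 1. Then p does not divide the order of N; for every prime q there is exactly one Sylow q-subgroup of N normalized by M; and if the order of N has at least two prime divisors then M is not a maximal subgroup of G. -/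
theorem result {G : Type*} [Group G] [Finite G] (M : Subgroup G) (hM : M ≠ ⊤) (hprim : ∀ N : Subgroup G, N ≤ M → M ≤ Subgroup.normalizer (N : Set G) → N ≠ ⊥ → Subgroup.normalizer (N : Set G) = M) {p : ℕ} [Fact p.Prime] (hOp : Cfsg.pCore p ↥M ≠ ⊥) (N : Subgroup G) [N.Normal] (hMN : M ⊓ N = ⊥) : ¬ p ∣ Nat.card N ∧ (∀ q : ℕ, [Fact q.Prime] → ∃! Q : Sylow q ↥N, M ≤ Subgroup.normalizer ((Q : Subgroup ↥N).map N.subtype : Set G)) ∧ ((∃ q r : ℕ, q.Prime ∧ r.Prime ∧ q ≠ r ∧ q ∣ Nat.card N ∧ r ∣ Nat.card N) → ¬ IsCoatom M) := by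
  classical
  have hp := (Fact.out : p.Prime)
  have hP_le : (Cfsg.pCore p ↥M).map M.subtype ≤ M := Subgroup.map_subtype_le _
  have hP_ne : (Cfsg.pCore p ↥M).map M.subtype ≠ ⊥ := by
    intro h
    exact hOp ((Subgroup.map_eq_bot_iff_of_injective _ M.subtype_injective).mp h)
  have hP_pg : IsPGroup p ↥((Cfsg.pCore p ↥M).map M.subtype) :=
    (Cfsg.Agent.Lib_helper6_PCore.pCore_isPGroup p).map M.subtype
  have hMP : M ≤ Subgroup.normalizer (((Cfsg.pCore p ↥M).map M.subtype : Subgroup G) : Set G) := by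
    intro m hm
    apply Subgroup.mem_normalizer_fintype
    rintro _ ⟨c, hc, rfl⟩
    exact ⟨(⟨m, hm⟩ : M) * c * (⟨m, hm⟩ : M)⁻¹,
      (Cfsg.pCore_normal p ↥M).conj_mem c hc ⟨m, hm⟩, rfl⟩
  have hNP : Subgroup.normalizer (((Cfsg.pCore p ↥M).map M.subtype : Subgroup G) : Set G) = M :=
    hprim _ hP_le hMP hP_ne
  generalize (Cfsg.pCore p ↥M).map M.subtype = P at hP_le hP_ne hP_pg hMP hNP
  have hcent : ∀ n ∈ N, n ∈ Subgroup.centralizer (P : Set G) → n = 1 := by
    intro n hn hc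
    have h1 : n ∈ Subgroup.normalizer (P : Set G) := Subgroup.centralizer_le_normalizer _ hc
    rw [hNP] at h1
    have h2 : n ∈ M ⊓ N := ⟨h1, hn⟩
    rw [hMN] at h2
    exact h2
  have ha : ¬ p ∣ Nat.card N := by
    letI : MulAction ↥P ↥N :=
      MulAction.compHom ↥N ((MulAut.conjNormal (H := N)).comp P.subtype)
    have hsmul : ∀ (u : P) (n : N), ((u • n : N) : G) = (u : G) * n * (u : G)⁻¹ := fun u n => rfl
    have h1 := IsPGroup.card_modEq_card_fixedPoints (p := p) (G := ↥P) hP_pg (α := ↥N)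
    have hfix1 : ∀ a : ↥N, a ∈ MulAction.fixedPoints ↥P ↥N → a = 1 := by
      intro a ha
      apply Subtype.ext
      apply hcent a.1 a.2
      apply Subgroup.mem_centralizer_iff.mpr
      intro u hu
      have h0 := ha ⟨u, hu⟩
      have h3 := congrArg Subtype.val h0
      rw [hsmul] at h3
      calc u * a.1 = u * a.1 * u⁻¹ * u := by group
        _ = a.1 * u := by rw [h3]
    have h2 : Nat.card (MulAction.fixedPoints ↥P ↥N) = 1 := by
      rw [Nat.card_eq_one_iff_unique]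
      refine ⟨⟨?_⟩, ⟨⟨1, fun u => ?_⟩⟩⟩
      · rintro ⟨a, ha⟩ ⟨b, hb⟩
        exact Subtype.ext ((hfix1 a ha).trans (hfix1 b hb).symm)
      · apply Subtype.ext
        rw [hsmul]
        simp
    rw [h2] at h1
    intro hdvd
    have h3 : Nat.card N % p = 1 % p := h1
    rw [Nat.mod_eq_zero_of_dvd hdvd] at h3
    have h4 : 1 % p = 1 := Nat.mod_eq_of_lt hp.one_lt
    omega
  have hAK : P ≤ Subgroup.normalizer (N : Set G) := by
    rw [Subgroup.normalizer_eq_top]
    exact le_top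
  obtain ⟨k, hk⟩ := IsPGroup.iff_card.mp hP_pg
  have hcop : (Nat.card P).Coprime (Nat.card N) := by
    rw [hk]
    exact Nat.Coprime.pow_left k ((Nat.Prime.coprime_iff_not_dvd hp).mpr ha)
  haveI : Group.IsNilpotent ↥P := hP_pg.isNilpotent
  have hsolv : Group.IsSolvable ↥P := inferInstance
  have hb : ∀ q : ℕ, [Fact q.Prime] → ∃ Q : Sylow q ↥N,
      M ≤ Subgroup.normalizer ((Q : Subgroup ↥N).map N.subtype : Set G) ∧
      ∀ Q' : Sylow q ↥N,
        P ≤ Subgroup.normalizer ((Q' : Subgroup ↥N).map N.subtype : Set G) → Q' = Q := by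
    intro q hqf
    obtain ⟨Q, hQ⟩ := Cfsg.Agent.Lib_helper1_Coprime.exists_invariant_sylow P N hAK hcop
      (Or.inl hsolv) q
    have huniq : ∀ Q' : Sylow q ↥N,
        P ≤ Subgroup.normalizer ((Q' : Subgroup ↥N).map N.subtype : Set G) → Q' = Q := by
      intro Q' hQ'
      obtain ⟨c, hc, hcQ⟩ := Cfsg.Agent.Lib_helper1_Coprime.invariant_sylow_conj P N hAK hcop
        (Or.inl hsolv) q Q' Q hQ' hQ
      have hc1 : c = 1 := Subtype.ext (hcent c.1 c.2 hc)
      rw [hc1, map_one, one_smul] at hcQ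
      exact hcQ
    refine ⟨Q, ?_, huniq⟩
    intro m hm
    have hUN : ((Q : Subgroup ↥N).map N.subtype).map (MulAut.conj m).toMonoidHom ≤ N := by
      rintro _ ⟨_, ⟨x, hx, rfl⟩, rfl⟩
      exact (inferInstance : N.Normal).conj_mem x.1 x.2 m
    have hU : IsPGroup q ↥(((Q : Subgroup ↥N).map N.subtype).map (MulAut.conj m).toMonoidHom) :=
      (Q.2.map N.subtype).map _
    have hUP : P ≤ Subgroup.normalizer
        ((((Q : Subgroup ↥N).map N.subtype).map (MulAut.conj m).toMonoidHom : Subgroup G) :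
          Set G) := by
      intro u hu
      apply Subgroup.mem_normalizer_fintype
      rintro _ ⟨x, hx, rfl⟩
      have hu' : m⁻¹ * u * m ∈ P := by
        have h0 := (Subgroup.mem_normalizer_iff.mp (hMP (M.inv_mem hm)) u).mp hu
        simpa using h0
      have hx' : (m⁻¹ * u * m) * x * (m⁻¹ * u * m)⁻¹ ∈ (Q : Subgroup ↥N).map N.subtype :=
        (Subgroup.mem_normalizer_iff.mp (hQ hu') x).mp hx
      refine ⟨_, hx', ?_⟩
      show m * ((m⁻¹ * u * m) * x * (m⁻¹ * u * m)⁻¹) * m⁻¹ = u * (m * x * m⁻¹) * u⁻¹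
      group
    obtain ⟨Q', hUQ', hPQ'⟩ := Cfsg.Agent.Lib_helper1_Coprime.invariant_pgroup_le_sylow P N hAK
      hcop (Or.inl hsolv) q _ hUN hU hUP
    rw [huniq Q' hPQ'] at hUQ'
    apply Subgroup.mem_normalizer_fintype
    intro x hx
    exact hUQ' ⟨x, hx, rfl⟩
  refine ⟨ha, ?_, ?_⟩
  · intro q hqf
    obtain ⟨Q, hMQ, huniq⟩ := hb q
    exact ⟨Q, hMQ, fun Q' hQ' => huniq Q' (hP_le.trans hQ')⟩
  · rintro ⟨q, r, hq, hr, hqr, hqN, hrN⟩ hco
    haveI : Fact q.Prime := ⟨hq⟩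
    obtain ⟨Q, hMQ, -⟩ := hb q
    have hQne : (Q : Subgroup ↥N) ≠ ⊥ := Q.ne_bot_of_dvd_card hqN
    have hQ1N : (Q : Subgroup ↥N).map N.subtype ≤ N := Subgroup.map_subtype_le _
    have hlt : M < M ⊔ (Q : Subgroup ↥N).map N.subtype := by
      refine lt_of_le_of_ne le_sup_left ?_
      intro heq
      have h1 : (Q : Subgroup ↥N).map N.subtype ≤ M := by
        rw [heq]
        exact le_sup_right
      have h2 : (Q : Subgroup ↥N).map N.subtype ≤ M ⊓ N := le_inf h1 hQ1N
      rw [hMN] at h2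
      exact hQne ((Subgroup.map_eq_bot_iff_of_injective _ N.subtype_injective).mp
        (le_bot_iff.mp h2))
    have htop := hco.2 _ hlt
    have hNQ : N ≤ (Q : Subgroup ↥N).map N.subtype := by
      intro n hn
      obtain ⟨m, hm, y, hy, rfl⟩ := mem_sup_of_normalizes M _ hMQ n
        (by rw [htop]; exact Subgroup.mem_top n)
      have h1 : m ∈ M ⊓ N := by
        refine ⟨hm, ?_⟩
        have e : m = (m * y) * y⁻¹ := by group
        rw [e]
        exact N.mul_mem hn (N.inv_mem (hQ1N hy))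
      rw [hMN, Subgroup.mem_bot] at h1
      rw [h1, one_mul]
      exact hy
    have h1 : Nat.card N ∣ Nat.card ↥((Q : Subgroup ↥N).map N.subtype) :=
      Subgroup.card_dvd_of_le hNQ
    have h2 : Nat.card ↥((Q : Subgroup ↥N).map N.subtype) = Nat.card (Q : Subgroup ↥N) :=
      Subgroup.card_map_of_injective N.subtype_injective
    obtain ⟨j, hj⟩ := IsPGroup.iff_card.mp Q.2
    rw [h2, hj] at h1
    have h3 : r ∣ q ^ j := hrN.trans h1
    have h4 : r ∣ q := hr.dvd_of_dvd_pow h3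
    exact hqr ((Nat.prime_dvd_prime_iff_eq hr hq).mp h4).symm

end Cfsg.Agent.S3749
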