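import Cfsg.Statements.S3750
import Cfsg.Agent.Lib_helper2_Comp2
import Cfsg.Agent.Lib_helper5_Fitting
import Cfsg.Agent.Lib_helper1_Socle

set_option autoImplicit false
open Cfsg

namespace Cfsg.Agent.S3750



/-- Call a proper subgroup M of G primitive when M = N_G(N) for every non-trivial normal subgroup N of M. Let M be a primitive subgroup of the finite group G and N a normal subgroup of G with M ∩ F*(N) ≠ 1. Then F(G) = 1 and F*(N) = F*(G) = E(G); in particular every minimal normal subgroup of G is contained in N. -/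
theorem result {G : Type*} [Group G] [Finite G] (M : Subgroup G) (hM : M ≠ ⊤) (hprim : ∀ N : Subgroup G, N ≤ M → M ≤ Subgroup.normalizer (N : Set G) → N ≠ ⊥ → Subgroup.normalizer (N : Set G) = M) (N : Subgroup G) [N.Normal] (hMF : M ⊓ (Cfsg.generalizedFittingSubgroup ↥N).map N.subtype ≠ ⊥) : Cfsg.fittingSubgroup G = ⊥ ∧ (Cfsg.generalizedFittingSubgroup ↥N).map N.subtype = Cfsg.generalizedFittingSubgroup G ∧ Cfsg.generalizedFittingSubgroup G = Cfsg.layer G ∧ ∀ K : Subgroup G, K.Normal → K ≠ ⊥ → (∀ K' : Subgroup G, K'.Normal → K' ≤ K → K' = ⊥ ∨ K' = K) → K ≤ N := by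
  classical
  have hNsub : N.IsSubnormal := Subgroup.Normal.isSubnormal inferInstance
  have hE1 : (Cfsg.layer ↥N).map N.subtype ≤ Cfsg.layer G := by
    rw [Subgroup.map_le_iff_le_comap]
    apply sSup_le
    intro K hK
    rw [← Subgroup.map_le_iff_le_comap]
    exact Cfsg.Agent.Lib_helper2_Comp.comp_le_layer
      ((Cfsg.Agent.Lib_helper2_Comp.comp_iff_map N hNsub K).mp hK)
  have hF1n : ((Cfsg.fittingSubgroup ↥N).map N.subtype).Normal :=
    ConjAct.normal_of_characteristic_of_normal
  have hF1 : (Cfsg.fittingSubgroup ↥N).map N.subtype ≤ Cfsg.fittingSubgroup G := by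
    apply Cfsg.Agent.Lib_helper5_Fitting.le_fitting hF1n
    haveI : Group.IsNilpotent ↥(Cfsg.fittingSubgroup ↥N) :=
      Cfsg.Agent.Lib_helper5_Fitting.fitting_isNilpotent
    exact Group.nilpotent_of_mulEquiv
      ((Cfsg.fittingSubgroup ↥N).equivMapOfInjective N.subtype N.subtype_injective)
  have hX : (Cfsg.generalizedFittingSubgroup ↥N).map N.subtype =
      (Cfsg.layer ↥N).map N.subtype ⊔ (Cfsg.fittingSubgroup ↥N).map N.subtype := by
    unfold Cfsg.generalizedFittingSubgroup
    rw [Subgroup.map_sup]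
  have hXN : (Cfsg.generalizedFittingSubgroup ↥N).map N.subtype ≤ N := Subgroup.map_subtype_le _
  have hXconj : ∀ g : G, ∀ x ∈ (Cfsg.generalizedFittingSubgroup ↥N).map N.subtype,
      g * x * g⁻¹ ∈ (Cfsg.generalizedFittingSubgroup ↥N).map N.subtype := by
    rintro g _ ⟨d', hd', rfl⟩
    refine ⟨(MulAut.conjNormal g : MulAut ↥N) d', ?_, rfl⟩
    exact Cfsg.Agent.Lib_helper2_Comp2.gfit_map_le (MulAut.conjNormal g : MulAut ↥N)
      (Subgroup.mem_map_of_mem _ hd')
  have hMD : M ≤ Subgroup.normalizer
      ((M ⊓ (Cfsg.generalizedFittingSubgroup ↥N).map N.subtype : Subgroup G) : Set G) := by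
    intro m hm
    apply Subgroup.mem_normalizer_fintype
    intro d hd
    exact ⟨M.mul_mem (M.mul_mem hm hd.1) (M.inv_mem hm), hXconj m d hd.2⟩
  have hND := hprim _ inf_le_left hMD hMF
  have hCD : Subgroup.centralizer
      ((M ⊓ (Cfsg.generalizedFittingSubgroup ↥N).map N.subtype : Subgroup G) : Set G) ≤ M := by
    intro c hc
    have h1 := Subgroup.centralizer_le_normalizer _ hc
    rw [hND] at h1
    exact h1
  have hCN : Subgroup.centralizer (N : Set G) ≤ M := by
    refine le_trans (Subgroup.centralizer_le ?_) hCD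
    intro d hd
    exact hXN hd.2
  have hcore : ∀ K : Subgroup G, K.Normal → K ≤ M → K = ⊥ := by
    intro K hKn hKM
    by_contra hne
    haveI := hKn
    have h1 := hprim K hKM (by rw [Subgroup.normalizer_eq_top]; exact le_top) hne
    rw [Subgroup.normalizer_eq_top] at h1
    exact hM h1.symm
  have hFit : Cfsg.fittingSubgroup G = ⊥ := by
    by_contra hW
    haveI : Group.IsNilpotent ↥(Cfsg.fittingSubgroup G) :=
      Cfsg.Agent.Lib_helper5_Fitting.fitting_isNilpotent
    haveI : Nontrivial ↥(Cfsg.fittingSubgroup G) := (Subgroup.nontrivial_iff_ne_bot _).mpr hW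
    have hc := Cfsg.Agent.Lib_helper1_Socle.normal_inf_center_ne_bot
      (⊤ : Subgroup ↥(Cfsg.fittingSubgroup G)) top_ne_bot
    rw [top_inf_eq] at hc
    have hZn : ((Subgroup.center ↥(Cfsg.fittingSubgroup G)).map
        (Cfsg.fittingSubgroup G).subtype).Normal := ConjAct.normal_of_characteristic_of_normal
    have hZne : (Subgroup.center ↥(Cfsg.fittingSubgroup G)).map
        (Cfsg.fittingSubgroup G).subtype ≠ ⊥ := by
      intro h
      exact hc ((Subgroup.map_eq_bot_iff_of_injective _
        (Cfsg.fittingSubgroup G).subtype_injective).mp h)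
    have hXZ : (Cfsg.generalizedFittingSubgroup ↥N).map N.subtype ≤ Subgroup.centralizer
        (((Subgroup.center ↥(Cfsg.fittingSubgroup G)).map
          (Cfsg.fittingSubgroup G).subtype : Subgroup G) : Set G) := by
      rw [hX]
      apply sup_le
      · intro e he
        apply Subgroup.mem_centralizer_iff.mpr
        rintro _ ⟨z, hz, rfl⟩
        exact (Cfsg.Agent.Lib_helper2_Comp.layer_comm_fitting e (hE1 he) z.1 z.2).symm
      · intro f hf
        apply Subgroup.mem_centralizer_iff.mpr
        rintro _ ⟨z, hz, rfl⟩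
        have h1 := Subgroup.mem_center_iff.mp hz ⟨f, hF1 hf⟩
        exact (congrArg Subtype.val h1).symm
    have hZC : (Subgroup.center ↥(Cfsg.fittingSubgroup G)).map (Cfsg.fittingSubgroup G).subtype ≤
        Subgroup.centralizer
          ((M ⊓ (Cfsg.generalizedFittingSubgroup ↥N).map N.subtype : Subgroup G) : Set G) := by
      intro z hz
      apply Subgroup.mem_centralizer_iff.mpr
      intro d hd
      exact (Subgroup.mem_centralizer_iff.mp (hXZ hd.2) z hz).symm
    exact hZne (hcore _ hZn (hZC.trans hCD))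
  have hgf : Cfsg.generalizedFittingSubgroup G = Cfsg.layer G := by
    unfold Cfsg.generalizedFittingSubgroup
    rw [hFit, sup_bot_eq]
  have hcompN : ∀ K : Subgroup G, Cfsg.IsComponent K → K ≤ N := by
    intro K hK
    rcases Cfsg.Agent.Lib_helper2_Comp.comp_le_or_comm K N hK.1 hK.2 hNsub with h | h
    · exact h
    · exfalso
      have hKC : K ≤ Subgroup.centralizer (N : Set G) := by
        intro k hk
        apply Subgroup.mem_centralizer_iff.mpr
        intro n hn
        exact (h k hk n hn).symm
      have hCbot := hcore (Subgroup.centralizer (N : Set G)) inferInstance hCN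
      rw [hCbot] at hKC
      exact Cfsg.Agent.Lib_helper2_Comp.qs_ne_bot hK.2 (le_bot_iff.mp hKC)
  refine ⟨hFit, ?_, hgf, ?_⟩
  · rw [hgf, hX]
    have hF1bot : (Cfsg.fittingSubgroup ↥N).map N.subtype = ⊥ := by
      rw [hFit] at hF1
      exact le_bot_iff.mp hF1
    rw [hF1bot, sup_bot_eq]
    apply le_antisymm hE1
    apply sSup_le
    intro K hK
    have hKN : K ≤ N := hcompN K hK
    have hK' : Cfsg.IsComponent (K.subgroupOf N) := by
      rw [Cfsg.Agent.Lib_helper2_Comp.comp_iff_map N hNsub, Subgroup.map_subgroupOf_eq_of_le hKN]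
      exact hK
    have h1 : K.subgroupOf N ≤ Cfsg.layer ↥N := Cfsg.Agent.Lib_helper2_Comp.comp_le_layer hK'
    have h2 := Subgroup.map_mono (f := N.subtype) h1
    rw [Subgroup.map_subgroupOf_eq_of_le hKN] at h2
    exact h2
  · intro K hKn hKne hKmin
    haveI := hKn
    rcases hKmin (K ⊓ N) inferInstance inf_le_left with h | h
    · exfalso
      have hKC : K ≤ Subgroup.centralizer (N : Set G) := by
        intro k hk
        apply Subgroup.mem_centralizer_iff.mpr
        intro n hn
        exact ((Subgroup.commute_of_normal_of_disjoint K N hKn inferInstance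
          (disjoint_iff.mpr h) k n hk hn).eq).symm
      exact hKne (hcore K hKn (hKC.trans hCN))
    · exact inf_eq_left.mp h

end Cfsg.Agent.S3750
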