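import Cfsg.Statements.S3760
import Mathlib

set_option autoImplicit false
open Cfsg

namespace Cfsg.Agent.S3760

theorem mem_map_conj {G : Type*} [Group G] (K : Subgroup G) (g y : G) :
    y ∈ K.map (MulAut.conj g).toMonoidHom ↔ ∃ k ∈ K, g * k * g⁻¹ = y := by
  simp [Subgroup.mem_map]

/-- Let the group G act transitively on a set X, let x ∈ X with stabilizer H = G_x, and let K ≤ H. Then N_G(K) acts transitively on the set of fixed points of K if and only if every G-conjugate of K contained in H is already an H-conjugate of K. -/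
theorem result {G : Type*} [Group G] {X : Type*} [MulAction G X] (htrans : ∀ a b : X, ∃ g : G, g • a = b) (x : X) (K : Subgroup G) (hK : K ≤ MulAction.stabilizer G x) : (∀ a b : X, (∀ k ∈ K, k • a = a) → (∀ k ∈ K, k • b = b) → ∃ g ∈ Subgroup.normalizer (K : Set G), g • a = b) ↔ ∀ g : G, K.map (MulAut.conj g).toMonoidHom ≤ MulAction.stabilizer G x → ∃ h ∈ MulAction.stabilizer G x, K.map (MulAut.conj g).toMonoidHom = K.map (MulAut.conj h).toMonoidHom := by
  constructor
  · intro H g hg
    have hfix1 : ∀ k ∈ K, k • (g⁻¹ • x) = g⁻¹ • x := by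
      intro k hk
      have h1 : (g * k * g⁻¹) • x = x :=
        MulAction.mem_stabilizer_iff.mp (hg ((mem_map_conj K g _).mpr ⟨k, hk, rfl⟩))
      calc k • (g⁻¹ • x) = g⁻¹ • ((g * k * g⁻¹) • x) := by
            rw [smul_smul, smul_smul]; congr 1; group
        _ = g⁻¹ • x := by rw [h1]
    have hfix2 : ∀ k ∈ K, k • x = x := fun k hk => MulAction.mem_stabilizer_iff.mp (hK hk)
    obtain ⟨n, hn, hnx⟩ := H (g⁻¹ • x) x hfix1 hfix2
    rw [Subgroup.mem_normalizer_iff] at hn
    refine ⟨g * n⁻¹, ?_, ?_⟩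
    · rw [MulAction.mem_stabilizer_iff]
      have : n⁻¹ • x = g⁻¹ • x := by
        nth_rewrite 1 [← hnx]
        rw [smul_smul, smul_smul]; congr 1; group
      rw [mul_smul, this, smul_smul]; simp
    · ext y
      rw [mem_map_conj, mem_map_conj]
      constructor
      · rintro ⟨k, hk, rfl⟩
        refine ⟨n * k * n⁻¹, (hn k).mp hk, by group⟩
      · rintro ⟨k, hk, rfl⟩
        refine ⟨n⁻¹ * k * n, ?_, by group⟩
        rw [hn]
        have : n * (n⁻¹ * k * n) * n⁻¹ = k := by group
        rw [this]; exact hk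
  · intro H' a b ha hb
    have helper : ∀ a : X, (∀ k ∈ K, k • a = a) → ∃ m ∈ Subgroup.normalizer (K : Set G), m • x = a := by
      intro a ha
      obtain ⟨u, hu⟩ := htrans x a
      have hsub : K.map (MulAut.conj u⁻¹).toMonoidHom ≤ MulAction.stabilizer G x := by
        intro y hy
        obtain ⟨k, hk, rfl⟩ := (mem_map_conj K _ _).mp hy
        rw [MulAction.mem_stabilizer_iff, mul_smul, mul_smul, inv_inv, hu, ha k hk, ← hu, smul_smul]
        simp
      obtain ⟨h, hh, heq⟩ := H' u⁻¹ hsub
      refine ⟨u * h, ?_, ?_⟩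
      · rw [Subgroup.mem_normalizer_iff]
        intro y
        constructor
        · intro hy
          have h1 : h * y * h⁻¹ ∈ K.map (MulAut.conj h).toMonoidHom := (mem_map_conj K h _).mpr ⟨y, hy, rfl⟩
          rw [← heq] at h1
          obtain ⟨k, hk, hk'⟩ := (mem_map_conj K _ _).mp h1
          have : u * h * y * (u * h)⁻¹ = k := by
            calc u * h * y * (u * h)⁻¹ = u * (h * y * h⁻¹) * u⁻¹ := by group
              _ = u * (u⁻¹ * k * u⁻¹⁻¹) * u⁻¹ := by rw [hk']
              _ = k := by group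
          rw [this]; exact hk
        · intro hy
          have h1 : u⁻¹ * (u * h * y * (u * h)⁻¹) * u⁻¹⁻¹ ∈ K.map (MulAut.conj u⁻¹).toMonoidHom :=
            (mem_map_conj K _ _).mpr ⟨_, hy, rfl⟩
          rw [heq] at h1
          obtain ⟨k, hk, hk'⟩ := (mem_map_conj K _ _).mp h1
          have : y = k := by
            have e : u⁻¹ * (u * h * y * (u * h)⁻¹) * u⁻¹⁻¹ = h * y * h⁻¹ := by group
            rw [e] at hk'
            calc y = h⁻¹ * (h * y * h⁻¹) * h := by group
              _ = h⁻¹ * (h * k * h⁻¹) * h := by rw [hk']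
              _ = k := by group
          rw [this]; exact hk
      · rw [mul_smul, MulAction.mem_stabilizer_iff.mp hh, hu]
    obtain ⟨m₁, hm₁, h1⟩ := helper a ha
    obtain ⟨m₂, hm₂, h2⟩ := helper b hb
    refine ⟨m₂ * m₁⁻¹, Subgroup.mul_mem _ hm₂ (Subgroup.inv_mem _ hm₁), ?_⟩
    rw [← h1, smul_smul]
    have e : m₂ * m₁⁻¹ * m₁ = m₂ := by group
    rw [e]; exact h2

end Cfsg.Agent.S3760
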