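import Cfsg.Statements.S3766
import Cfsg.Agent.Lib_helper5_Fitting
import Cfsg.Agent.Lib_helper1_Basic

set_option autoImplicit false
open Cfsg

namespace Cfsg.Agent.S3766

/-- chief factor predicate -/
def IsChief {G : Type*} [Group G] (U V : Subgroup G) : Prop :=
  U.Normal ∧ V.Normal ∧ V < U ∧ ∀ W : Subgroup G, W.Normal → V ≤ W → W ≤ U → W = V ∨ W = U

/-- iterated commutators with `K` -/
def cser {G : Type*} [Group G] (U K : Subgroup G) : ℕ → Subgroup G
  | 0 => U
  | n + 1 => ⁅cser U K n, K⁆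

/-- derived series of a subgroup, inside the ambient group -/
def dser {G : Type*} [Group G] (D : Subgroup G) : ℕ → Subgroup G
  | 0 => D
  | n + 1 => ⁅dser D n, dser D n⁆

theorem cser_normal {G : Type*} [Group G] (U K : Subgroup G) [hU : U.Normal] [K.Normal] (i : ℕ) :
    (cser U K i).Normal := by
  induction i with
  | zero => exact hU
  | succ i ih =>
    haveI := ih
    exact Subgroup.commutator_normal (cser U K i) K

theorem dser_normal {G : Type*} [Group G] (D : Subgroup G) [hD : D.Normal] (i : ℕ) :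
    (dser D i).Normal := by
  induction i with
  | zero => exact hD
  | succ i ih =>
    haveI := ih
    exact Subgroup.commutator_normal (dser D i) (dser D i)

theorem comm_sup_mem {G : Type*} [Group G] (V M K : Subgroup G) [hV : V.Normal]
    (h : ∀ m ∈ M, ∀ k ∈ K, m * k * m⁻¹ * k⁻¹ ∈ V) :
    ∀ u ∈ V ⊔ M, ∀ k ∈ K, u * k * u⁻¹ * k⁻¹ ∈ V := by
  intro u hu k hk
  have hu' : u ∈ ((V ⊔ M : Subgroup G) : Set G) := hu
  rw [Subgroup.normal_mul] at hu'
  obtain ⟨v, hv, m, hm, rfl⟩ := Set.mem_mul.mp hu'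
  have e : (v * m) * k * (v * m)⁻¹ * k⁻¹ =
      v * (m * k * m⁻¹ * k⁻¹) * v⁻¹ * (v * (k * v⁻¹ * k⁻¹)) := by group
  rw [e]
  exact V.mul_mem (hV.conj_mem _ (h m hm k hk) v)
    (V.mul_mem hv (hV.conj_mem _ (V.inv_mem hv) k))

/-- a nilpotent normal subgroup centralizes every chief factor -/
theorem nilp_cent {G : Type*} [Group G] (K : Subgroup G) [hKn : K.Normal]
    (hK : Group.IsNilpotent K) (U V : Subgroup G) (h : IsChief U V) :
    ∀ u ∈ U, ∀ k ∈ K, u * k * u⁻¹ * k⁻¹ ∈ V := by
  obtain ⟨hUn, hVn, hVU, hmin⟩ := h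
  haveI := hUn
  haveI := hVn
  obtain ⟨n, hn⟩ := (Subgroup.isNilpotent_iff_lowerCentralSeries K).mp hK
  have hM0 : cser U K 0 = U := rfl
  have hMs : ∀ i, cser U K (i + 1) = ⁅cser U K i, K⁆ := fun i => rfl
  have hMn : ∀ i, (cser U K i).Normal := fun i => cser_normal U K i
  have hMU : ∀ i, cser U K i ≤ U := by
    intro i
    induction i with
    | zero => exact le_rfl
    | succ i ih =>
      haveI := hMn i
      rw [hMs]
      exact (Subgroup.commutator_le_left (cser U K i) K).trans ih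
  have hMle : ∀ i, cser U K (i + 1) ≤ K.lowerCentralSeries i := by
    intro i
    induction i with
    | zero =>
      rw [hMs, hM0]
      exact Subgroup.commutator_le_right U K
    | succ i ih =>
      rw [hMs (i + 1), Subgroup.lowerCentralSeries_succ]
      exact Subgroup.commutator_mono ih le_rfl
  by_contra hcon
  have hall : ∀ i, V ⊔ cser U K i = U := by
    intro i
    induction i with
    | zero => rw [hM0]; exact sup_eq_right.mpr hVU.le
    | succ i ih =>
      haveI := hMn (i + 1)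
      rcases hmin (V ⊔ cser U K (i + 1)) inferInstance le_sup_left (sup_le hVU.le (hMU (i + 1))) with h1 | h1
      · exfalso
        apply hcon
        have h2 : cser U K (i + 1) ≤ V := by rw [← h1]; exact le_sup_right
        have h3 : ∀ m ∈ cser U K i, ∀ k ∈ K, m * k * m⁻¹ * k⁻¹ ∈ V := by
          intro m hm k hk
          apply h2
          rw [hMs]
          exact Subgroup.commutator_mem_commutator hm hk
        have h4 := comm_sup_mem V (cser U K i) K h3
        rw [ih] at h4
        exact h4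
      · exact h1
  have h1 := hall (n + 1)
  have h2 : cser U K (n + 1) = ⊥ := by
    rw [eq_bot_iff, ← hn]
    exact hMle n
  rw [h2, sup_bot_eq] at h1
  exact hVU.ne h1

/-- a normal subgroup with derived subgroup in `F₀` that centralizes the chief factors
below `F₀` is nilpotent -/
theorem nilp_of_cent {G : Type*} [Group G] [Finite G] (E F₀ : Subgroup G) [hEn : E.Normal]
    (hEF : ⁅E, E⁆ ≤ F₀)
    (h : ∀ U V : Subgroup G, IsChief U V → U ≤ F₀ → ∀ u ∈ U, ∀ e ∈ E, u * e * u⁻¹ * e⁻¹ ∈ V) :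
    Group.IsNilpotent E := by
  have hLF : ∀ i, E.lowerCentralSeries (i + 1) ≤ F₀ := by
    intro i
    exact (E.lowerCentralSeries_antitone (by omega : 1 ≤ i + 1)).trans hEF
  have hstep : ∀ i, E.lowerCentralSeries (i + 1) ≠ ⊥ →
      Nat.card (E.lowerCentralSeries (i + 2)) < Nat.card (E.lowerCentralSeries (i + 1)) := by
    intro i hne
    obtain ⟨V, ⟨hVn, hVU⟩, hVmax⟩ := Cfsg.Agent.Lib_helper1_Basic.exists_maximal_subgroup
      (fun W : Subgroup G => W.Normal ∧ W < E.lowerCentralSeries (i + 1))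
      ⟨⊥, inferInstance, bot_lt_iff_ne_bot.mpr hne⟩
    have hchief : IsChief (E.lowerCentralSeries (i + 1)) V := by
      refine ⟨inferInstance, hVn, hVU, ?_⟩
      intro W hWn hVW hWU
      by_cases hW : W = E.lowerCentralSeries (i + 1)
      · exact Or.inr hW
      · exact Or.inl (hVmax W ⟨hWn, lt_of_le_of_ne hWU hW⟩ hVW)
    have h1 : E.lowerCentralSeries (i + 2) ≤ V := by
      rw [Subgroup.lowerCentralSeries_succ, Subgroup.commutator_le]
      intro u hu e he
      exact h _ V hchief (hLF i) u hu e he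
    have h2 : E.lowerCentralSeries (i + 2) < E.lowerCentralSeries (i + 1) :=
      lt_of_le_of_lt h1 hVU
    by_contra hc
    push Not at hc
    exact h2.ne (Subgroup.eq_of_le_of_card_ge h2.le hc)
  by_contra hnil
  have hne : ∀ i, E.lowerCentralSeries i ≠ ⊥ := fun i hi =>
    hnil (Subgroup.isNilpotent_of_lowerCentralSeries_eq_bot hi)
  have hbound : ∀ i, Nat.card (E.lowerCentralSeries (i + 1)) + i ≤
      Nat.card (E.lowerCentralSeries 1) := by
    intro i
    induction i with
    | zero => simp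
    | succ i ih =>
      have h3 := hstep i (hne _)
      show Nat.card (E.lowerCentralSeries (i + 2)) + (i + 1) ≤ _
      omega
  have h1 := hbound (Nat.card (E.lowerCentralSeries 1))
  have h2 : 0 < Nat.card (E.lowerCentralSeries (Nat.card (E.lowerCentralSeries 1) + 1)) :=
    Nat.card_pos
  omega

/-- the elements of `N` centralizing all chief factors below `F₀` -/
def cent {G : Type*} [Group G] (N F₀ : Subgroup G) : Subgroup G where
  carrier := {g | g ∈ N ∧ ∀ U V : Subgroup G, IsChief U V → U ≤ F₀ →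
    ∀ u ∈ U, u * g * u⁻¹ * g⁻¹ ∈ V}
  one_mem' := ⟨N.one_mem, fun U V _ _ u _ => by simp⟩
  mul_mem' := by
    rintro a b ⟨haN, ha⟩ ⟨hbN, hb⟩
    refine ⟨N.mul_mem haN hbN, fun U V h hU u hu => ?_⟩
    have e : u * (a * b) * u⁻¹ * (a * b)⁻¹ =
        (u * a * u⁻¹ * a⁻¹) * (a * (u * b * u⁻¹ * b⁻¹) * a⁻¹) := by group
    rw [e]
    exact V.mul_mem (ha U V h hU u hu) (h.2.1.conj_mem _ (hb U V h hU u hu) a)
  inv_mem' := by
    rintro a ⟨haN, ha⟩
    refine ⟨N.inv_mem haN, fun U V h hU u hu => ?_⟩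
    have e : u * a⁻¹ * u⁻¹ * a⁻¹⁻¹ = a⁻¹ * (u * a * u⁻¹ * a⁻¹)⁻¹ * a⁻¹⁻¹ := by group
    rw [e]
    exact h.2.1.conj_mem _ (V.inv_mem (ha U V h hU u hu)) a⁻¹

theorem mem_cent {G : Type*} [Group G] (N F₀ : Subgroup G) (g : G) :
    g ∈ cent N F₀ ↔ g ∈ N ∧ ∀ U V : Subgroup G, IsChief U V → U ≤ F₀ →
      ∀ u ∈ U, u * g * u⁻¹ * g⁻¹ ∈ V := Iff.rfl

instance cent_normal {G : Type*} [Group G] (N F₀ : Subgroup G) [hN : N.Normal] :
    (cent N F₀).Normal := by
  constructor
  intro g hg x
  rw [mem_cent] at hg ⊢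
  refine ⟨hN.conj_mem _ hg.1 x, fun U V h hU u hu => ?_⟩
  have e : u * (x * g * x⁻¹) * u⁻¹ * (x * g * x⁻¹)⁻¹ =
      x * ((x⁻¹ * u * x⁻¹⁻¹) * g * (x⁻¹ * u * x⁻¹⁻¹)⁻¹ * g⁻¹) * x⁻¹ := by group
  rw [e]
  exact h.2.1.conj_mem _ (hg.2 U V h hU _ (h.1.conj_mem _ hu x⁻¹)) x

theorem fit_normal {G : Type*} [Group G] (N : Subgroup G) [N.Normal] :
    ((Cfsg.fittingSubgroup ↥N).map N.subtype).Normal :=
  ConjAct.normal_of_characteristic_of_normal

theorem fit_nilp {G : Type*} [Group G] [Finite G] (N : Subgroup G) :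
    Group.IsNilpotent ((Cfsg.fittingSubgroup ↥N).map N.subtype) := by
  haveI : Group.IsNilpotent (Cfsg.fittingSubgroup ↥N) :=
    Cfsg.Agent.Lib_helper5_Fitting.fitting_isNilpotent
  exact Group.nilpotent_of_mulEquiv
    ((Cfsg.fittingSubgroup ↥N).equivMapOfInjective N.subtype N.subtype_injective)

theorem mem_fit_of_cent {G : Type*} [Group G] [Finite G] (hG : Group.IsSolvable G)
    (N : Subgroup G) [hN : N.Normal] (g : G) (hgN : g ∈ N)
    (hg : ∀ U V : Subgroup G, IsChief U V → U ≤ (Cfsg.fittingSubgroup ↥N).map N.subtype →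
      ∀ u ∈ U, u * g * u⁻¹ * g⁻¹ ∈ V) :
    g ∈ (Cfsg.fittingSubgroup ↥N).map N.subtype := by
  have hgD : g ∈ cent N ((Cfsg.fittingSubgroup ↥N).map N.subtype) := ⟨hgN, hg⟩
  have hDN : cent N ((Cfsg.fittingSubgroup ↥N).map N.subtype) ≤ N := fun x hx => hx.1
  have hD0 : dser (cent N ((Cfsg.fittingSubgroup ↥N).map N.subtype)) 0 =
    cent N ((Cfsg.fittingSubgroup ↥N).map N.subtype) := rfl
  have hDs : ∀ i, dser (cent N ((Cfsg.fittingSubgroup ↥N).map N.subtype)) (i + 1) =
      ⁅dser (cent N ((Cfsg.fittingSubgroup ↥N).map N.subtype)) i,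
        dser (cent N ((Cfsg.fittingSubgroup ↥N).map N.subtype)) i⁆ := fun i => rfl
  have hDn : ∀ i, (dser (cent N ((Cfsg.fittingSubgroup ↥N).map N.subtype)) i).Normal :=
    fun i => dser_normal _ i
  have hDle : ∀ i, dser (cent N ((Cfsg.fittingSubgroup ↥N).map N.subtype)) (i + 1) ≤ dser (cent N ((Cfsg.fittingSubgroup ↥N).map N.subtype)) i := by
    intro i
    haveI := hDn i
    rw [hDs]
    exact Subgroup.commutator_le_left (dser (cent N ((Cfsg.fittingSubgroup ↥N).map N.subtype)) i) (dser (cent N ((Cfsg.fittingSubgroup ↥N).map N.subtype)) i)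
  have hDD : ∀ i, dser (cent N ((Cfsg.fittingSubgroup ↥N).map N.subtype)) i ≤ cent N ((Cfsg.fittingSubgroup ↥N).map N.subtype) := by
    intro i
    induction i with
    | zero => exact le_rfl
    | succ i ih => exact (hDle i).trans ih
  have hDder : ∀ i, dser (cent N ((Cfsg.fittingSubgroup ↥N).map N.subtype)) i ≤ derivedSeries G i := by
    intro i
    induction i with
    | zero => rw [derivedSeries_zero]; exact le_top
    | succ i ih =>
      rw [hDs, derivedSeries_succ]
      exact Subgroup.commutator_mono ih ih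
  obtain ⟨k, hk⟩ := hG.solvable
  have hDk : dser (cent N ((Cfsg.fittingSubgroup ↥N).map N.subtype)) k = ⊥ := by
    rw [eq_bot_iff, ← hk]
    exact hDder k
  -- every term of the series lies in F
  have hall : ∀ j i, i + j = k → dser (cent N ((Cfsg.fittingSubgroup ↥N).map N.subtype)) i ≤ (Cfsg.fittingSubgroup ↥N).map N.subtype := by
    intro j
    induction j with
    | zero =>
      intro i hi
      have : i = k := by omega
      rw [this, hDk]
      exact bot_le
    | succ j ih =>
      intro i hi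
      have h1 : dser (cent N ((Cfsg.fittingSubgroup ↥N).map N.subtype)) (i + 1) ≤ (Cfsg.fittingSubgroup ↥N).map N.subtype := ih (i + 1) (by omega)
      haveI := hDn i
      have hnil : Group.IsNilpotent ↥(dser (cent N ((Cfsg.fittingSubgroup ↥N).map N.subtype)) i) := by
        apply nilp_of_cent (dser (cent N ((Cfsg.fittingSubgroup ↥N).map N.subtype)) i) ((Cfsg.fittingSubgroup ↥N).map N.subtype)
        · rw [← hDs]; exact h1
        · intro U V hUV hU u hu e he
          exact (hDD i he).2 U V hUV hU u hu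
      -- dser (cent N ((Cfsg.fittingSubgroup ↥N).map N.subtype)) i is a nilpotent normal subgroup of G inside N
      have h2 : (dser (cent N ((Cfsg.fittingSubgroup ↥N).map N.subtype)) i).subgroupOf N ≤ Cfsg.fittingSubgroup ↥N := by
        apply Cfsg.Agent.Lib_helper5_Fitting.le_fitting
        · infer_instance
        · exact Group.nilpotent_of_mulEquiv
            (Subgroup.subgroupOfEquivOfLe ((hDD i).trans hDN)).symm
      intro x hx
      exact ⟨⟨x, hDN (hDD i hx)⟩, h2 (Subgroup.mem_subgroupOf.mpr hx), rfl⟩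
  exact hall k 0 (by omega) (by rw [hD0]; exact hgD)



/-- Let G be a finite solvable group and N a normal subgroup of G. Call a pair V < U of normal subgroups of G a chief factor of G when no normal subgroup of G lies strictly between them; an element g centralizes the chief factor U/V when u g u⁻¹ g⁻¹ ∈ V for all u ∈ U. Then an element of G lies in the Fitting subgroup F(N) if and only if it lies in N and centralizes every chief factor of G; and also if and only if it lies in N and centralizes every chief factor U/V of G with U ≤ F(N). -/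
theorem result {G : Type*} [Group G] [Finite G] (hG : Group.IsSolvable G) (N : Subgroup G) [N.Normal] (g : G) : (g ∈ (Cfsg.fittingSubgroup ↥N).map N.subtype ↔ g ∈ N ∧ ∀ U V : Subgroup G, (U.Normal ∧ V.Normal ∧ V < U ∧ ∀ W : Subgroup G, W.Normal → V ≤ W → W ≤ U → W = V ∨ W = U) → ∀ u ∈ U, u * g * u⁻¹ * g⁻¹ ∈ V) ∧ (g ∈ (Cfsg.fittingSubgroup ↥N).map N.subtype ↔ g ∈ N ∧ ∀ U V : Subgroup G, (U.Normal ∧ V.Normal ∧ V < U ∧ ∀ W : Subgroup G, W.Normal → V ≤ W → W ≤ U → W = V ∨ W = U) → U ≤ (Cfsg.fittingSubgroup ↥N).map N.subtype → ∀ u ∈ U, u * g * u⁻¹ * g⁻¹ ∈ V) := by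
  haveI := fit_normal N
  have hFnil := fit_nilp N
  have hFN : (Cfsg.fittingSubgroup ↥N).map N.subtype ≤ N := Subgroup.map_subtype_le _
  refine ⟨⟨fun hg => ⟨hFN hg, fun U V h u hu => ?_⟩, fun h => ?_⟩,
    ⟨fun hg => ⟨hFN hg, fun U V h _ u hu => ?_⟩, fun h => ?_⟩⟩
  · exact nilp_cent _ hFnil U V h u hu g hg
  · exact mem_fit_of_cent hG N g h.1 (fun U V hc _ => h.2 U V hc)
  · exact nilp_cent _ hFnil U V h u hu g hg
  · exact mem_fit_of_cent hG N g h.1 (fun U V hc hU => h.2 U V hc hU)

end Cfsg.Agent.S3766
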