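import Cfsg.Statements.S3771
import Cfsg.Agent.Lib_helper2_Ep

set_option autoImplicit false
open Cfsg

namespace Cfsg.Agent.S3771



/-- Let p be a prime and R a finite p-group of p-rank at most 2 (no elementary abelian subgroup of order p³) in which every element has order dividing p. Then R has order at most p³. -/
theorem result {R : Type*} [Group R] [Finite R] {p : ℕ} [Fact p.Prime] (hR : IsPGroup p R) (hrank : Cfsg.PRankLE p 2 R) (hexp : ∀ x : R, x ^ p = 1) : Nat.card R ≤ p ^ 3 := by
  have hp := (Fact.out : p.Prime)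
  by_contra hlt
  push Not at hlt
  have hcard : p < Nat.card (⊤ : Subgroup R) := by
    rw [Subgroup.card_top]
    have h1 : p ^ 1 < p ^ 3 := Nat.pow_lt_pow_right hp.one_lt (by norm_num)
    rw [pow_one] at h1
    omega
  obtain ⟨U, z, u, hU⟩ := Cfsg.Agent.Lib_helper2_Ep.ep_of_normal p hR ⊤ (fun x _ => hexp x) hcard
  have h1 := hU.card_le ⊤
  rw [Subgroup.card_top, top_inf_eq] at h1
  have hUC : U ≤ Subgroup.centralizer (U : Set R) :=
    Cfsg.Agent.Lib_helper2_Ep.ea_self_le_centralizer hU.ea
  have h2 : p ^ 2 < Nat.card ↥(Subgroup.centralizer (U : Set R)) := by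
    by_contra hle
    push Not at hle
    have h3 : p * Nat.card ↥(Subgroup.centralizer (U : Set R)) ≤ p * p ^ 2 :=
      Nat.mul_le_mul_left p hle
    have h4 : p * p ^ 2 = p ^ 3 := by ring
    omega
  obtain ⟨x, hxC, hxU⟩ : ∃ x ∈ Subgroup.centralizer (U : Set R), x ∉ U := by
    by_contra hno
    push Not at hno
    have h3 : Subgroup.centralizer (U : Set R) ≤ U := fun x hx => hno x hx
    have h4 := Subgroup.card_le_of_le h3
    rw [hU.card] at h4
    omega
  have hxc : ∀ y ∈ U, y * x = x * y := fun y hy => Subgroup.mem_centralizer_iff.mp hxC y hy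
  have hWle : ∀ w ∈ U ⊔ Subgroup.zpowers x, (∀ y ∈ U, y * w = w * y) ∧ x * w = w * x := by
    have hle : U ⊔ Subgroup.zpowers x ≤
        Subgroup.centralizer (U : Set R) ⊓ Subgroup.centralizer ({x} : Set R) := by
      apply sup_le
      · refine le_inf hUC ?_
        intro y hy
        apply Subgroup.mem_centralizer_iff.mpr
        intro t ht
        rw [Set.mem_singleton_iff] at ht
        subst ht
        exact (hxc y hy).symm
      · rw [Subgroup.zpowers_le]
        refine Subgroup.mem_inf.mpr ⟨hxC, ?_⟩
        apply Subgroup.mem_centralizer_iff.mpr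
        intro t ht
        rw [Set.mem_singleton_iff] at ht
        subst ht
        rfl
    intro w hw
    have h3 := hle hw
    have h4 : w ∈ Subgroup.centralizer (U : Set R) := h3.1
    have h5 : w ∈ Subgroup.centralizer ({x} : Set R) := h3.2
    exact ⟨fun y hy => Subgroup.mem_centralizer_iff.mp h4 y hy,
      Subgroup.mem_centralizer_iff.mp h5 x rfl⟩
  have hWcomm : ∀ w ∈ U ⊔ Subgroup.zpowers x, ∀ w' ∈ U ⊔ Subgroup.zpowers x, w * w' = w' * w := by
    intro w hw w' hw'
    have hle : U ⊔ Subgroup.zpowers x ≤ Subgroup.centralizer ({w'} : Set R) := by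
      apply sup_le
      · intro y hy
        apply Subgroup.mem_centralizer_iff.mpr
        intro t ht
        rw [Set.mem_singleton_iff] at ht
        subst ht
        exact ((hWle t hw').1 y hy).symm
      · rw [Subgroup.zpowers_le]
        apply Subgroup.mem_centralizer_iff.mpr
        intro t ht
        rw [Set.mem_singleton_iff] at ht
        subst ht
        exact ((hWle t hw').2).symm
    have h3 := Subgroup.mem_centralizer_iff.mp (hle hw) w' rfl
    exact h3.symm
  have hWc : IsMulCommutative ↥(U ⊔ Subgroup.zpowers x) := by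
    rw [isMulCommutative_iff]
    intro a b
    apply Subtype.ext
    exact hWcomm a.1 a.2 b.1 b.2
  have h3 := hrank (U ⊔ Subgroup.zpowers x) hWc (fun a _ => hexp a)
  have heq : U = U ⊔ Subgroup.zpowers x := by
    apply Subgroup.eq_of_le_of_card_ge le_sup_left
    rw [hU.card]
    exact h3
  apply hxU
  rw [heq]
  exact (le_sup_right : Subgroup.zpowers x ≤ U ⊔ Subgroup.zpowers x) (Subgroup.mem_zpowers x)

end Cfsg.Agent.S3771
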