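import Cfsg.Statements.S3774
import Mathlib

set_option autoImplicit false
open Cfsg

namespace Cfsg.Agent.S3774

theorem central_of_sq {G : Type*} [Group G] [Finite G] [Nontrivial G] (hG : IsPGroup 2 G)
    (htrans : ∀ x y : G, x ≠ 1 → x ^ 2 = 1 → y ≠ 1 → y ^ 2 = 1 → ∃ a : MulAut G, a x = y) :
    ∀ x : G, x ^ 2 = 1 → x ∈ Subgroup.center G := by
  intro x hx
  by_cases hx1 : x = 1
  · rw [hx1]; exact Subgroup.one_mem _
  haveI : Fact (Nat.Prime 2) := ⟨Nat.prime_two⟩
  haveI := hG.center_nontrivial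
  have h2 : 2 ∣ Nat.card (Subgroup.center G) := by
    obtain ⟨n, hn⟩ := (IsPGroup.iff_card).mp (hG.to_subgroup (Subgroup.center G))
    have h1 : 1 < Nat.card (Subgroup.center G) := Finite.one_lt_card
    have hn0 : n ≠ 0 := by
      rintro rfl
      rw [pow_zero] at hn
      omega
    rw [hn]
    exact dvd_pow_self 2 hn0
  obtain ⟨z, hz⟩ := exists_prime_orderOf_dvd_card' 2 h2
  have hz1 : (z : G) ≠ 1 := by
    intro h
    have h3 : z = 1 := Subtype.ext h
    rw [h3, orderOf_one] at hz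
    omega
  have hz2 : (z : G) ^ 2 = 1 := by
    have h3 : z ^ 2 = 1 := by rw [← hz, pow_orderOf_eq_one]
    exact_mod_cast congrArg Subtype.val h3
  obtain ⟨a, ha⟩ := htrans z x hz1 hz2 hx1 hx
  have hzc : ∀ g : G, g * (z : G) = (z : G) * g := Subgroup.mem_center_iff.mp z.2
  rw [Subgroup.mem_center_iff]
  intro g
  rw [← ha]
  calc g * a z = a (a.symm g * z) := by rw [map_mul, MulEquiv.apply_symm_apply]
    _ = a ((z : G) * a.symm g) := by rw [hzc]
    _ = a z * g := by rw [map_mul, MulEquiv.apply_symm_apply]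

theorem card_pow {G : Type*} [Group G] [Finite G] [Nontrivial G] (hG : IsPGroup 2 G)
    (htrans : ∀ x y : G, x ≠ 1 → x ^ 2 = 1 → y ≠ 1 → y ^ 2 = 1 → ∃ a : MulAut G, a x = y)
    (hcent : ∀ x : G, x ^ 2 = 1 → x ∈ Subgroup.center G) :
    ∃ m : ℕ, Nat.card G = Nat.card {z : G // z ^ 2 = 1} ^ m := by
  classical
  haveI : Fact (Nat.Prime 2) := ⟨Nat.prime_two⟩
  haveI := Fintype.ofFinite G
  let Ω : Subgroup G :=
    { carrier := {z | z ^ 2 = 1}
      mul_mem' := by
        intro a b ha hb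
        have ha' : a ^ 2 = 1 := ha
        have hb' : b ^ 2 = 1 := hb
        have hc : Commute a b := (Subgroup.mem_center_iff.mp (hcent a ha) b).symm
        show (a * b) ^ 2 = 1
        rw [hc.mul_pow, ha', hb', one_mul]
      one_mem' := by show (1 : G) ^ 2 = 1; exact one_pow 2
      inv_mem' := by
        intro a ha
        have ha' : a ^ 2 = 1 := ha
        show a⁻¹ ^ 2 = 1
        rw [inv_pow, ha', inv_one] }
  have hΩcard : Nat.card Ω = Nat.card {z : G // z ^ 2 = 1} :=
    Nat.card_congr (Equiv.subtypeEquivRight (fun z => Iff.rfl))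
  obtain ⟨n, hn⟩ := (IsPGroup.iff_card).mp (hG.to_subgroup Ω)
  obtain ⟨N, hN⟩ := (IsPGroup.iff_card).mp hG
  rw [hΩcard] at hn
  obtain ⟨f, hfdef⟩ : ∃ f : G → G, f = fun x => x ^ (orderOf x / 2) := ⟨_, rfl⟩
  have hf : ∀ x : G, x ≠ 1 → f x ≠ 1 ∧ f x ^ 2 = 1 := by
    intro x hx
    obtain ⟨k, hk⟩ := (IsPGroup.iff_orderOf.mp hG) x
    have hk0 : k ≠ 0 := by
      rintro rfl
      rw [pow_zero, orderOf_eq_one_iff] at hk
      exact hx hk
    have hdiv : orderOf x / 2 * 2 = orderOf x := Nat.div_mul_cancel (hk ▸ dvd_pow_self 2 hk0)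
    have hpos := orderOf_pos x
    rw [hfdef]
    constructor
    · intro h
      have h1 := orderOf_dvd_of_pow_eq_one h
      have h2 := Nat.le_of_dvd (by omega) h1
      omega
    · show (x ^ (orderOf x / 2)) ^ 2 = 1
      rw [← pow_mul, hdiv, pow_orderOf_eq_one]
  have hfa : ∀ (a : MulAut G) (x : G), f (a x) = a (f x) := by
    intro a x
    rw [hfdef]
    show (a x) ^ (orderOf (a x) / 2) = a (x ^ (orderOf x / 2))
    rw [MulEquiv.orderOf_eq, map_pow]
  obtain ⟨s, hs⟩ : ∃ s : Finset G, s = Finset.univ.filter (fun x : G => x ≠ 1) := ⟨_, rfl⟩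
  obtain ⟨t, ht⟩ : ∃ t : Finset G, t = Finset.univ.filter (fun z : G => z ≠ 1 ∧ z ^ 2 = 1) :=
    ⟨_, rfl⟩
  have hmaps : (s : Set G).MapsTo f t := by
    intro x hx
    rw [hs] at hx
    rw [ht]
    simp only [Finset.coe_filter, Finset.mem_univ, true_and, Set.mem_ofPred_eq] at hx ⊢
    exact hf x hx
  have hfib := Finset.card_eq_sum_card_fiberwise hmaps
  have hle : ∀ b ∈ t, ∀ b' ∈ t, (s.filter (fun x => f x = b)).card ≤
      (s.filter (fun x => f x = b')).card := by
    intro b hb b' hb'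
    rw [ht, Finset.mem_filter] at hb hb'
    obtain ⟨a, ha⟩ := htrans b b' hb.2.1 hb.2.2 hb'.2.1 hb'.2.2
    apply Finset.card_le_card_of_injOn (fun x => a x)
    · intro x hx
      simp only [Finset.coe_filter, Set.mem_ofPred_eq, hs, Finset.mem_filter, Finset.mem_univ,
        true_and] at hx ⊢
      refine ⟨?_, ?_⟩
      · intro h
        exact hx.1 ((MulEquiv.map_eq_one_iff a).mp h)
      · rw [hfa, hx.2, ha]
    · exact a.injective.injOn
  obtain ⟨x0, hx0⟩ := exists_ne (1 : G)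
  have hz0 : f x0 ∈ t := by
    rw [ht, Finset.mem_filter]
    exact ⟨Finset.mem_univ _, hf x0 hx0⟩
  have hconst : ∀ b ∈ t, (s.filter (fun x => f x = b)).card =
      (s.filter (fun x => f x = f x0)).card :=
    fun b hb => le_antisymm (hle b hb _ hz0) (hle _ hz0 b hb)
  rw [Finset.sum_congr rfl hconst, Finset.sum_const, smul_eq_mul] at hfib
  have hscard : s.card = 2 ^ N - 1 := by
    rw [hs, Finset.filter_ne', Finset.card_erase_of_mem (Finset.mem_univ _), Finset.card_univ,
      ← Nat.card_eq_fintype_card, hN]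
  have htcard : t.card = 2 ^ n - 1 := by
    have h1 : t = (Finset.univ.filter (fun z : G => z ^ 2 = 1)).erase 1 := by
      rw [ht]
      ext z
      simp only [Finset.mem_filter, Finset.mem_univ, true_and, Finset.mem_erase]
    rw [h1, Finset.card_erase_of_mem (by simp), ← Fintype.card_subtype,
      ← Nat.card_eq_fintype_card, hn]
  rw [hscard, htcard] at hfib
  have hdvd : 2 ^ n - 1 ∣ 2 ^ N - 1 := ⟨_, hfib⟩
  have hgcd := Nat.pow_sub_one_gcd_pow_sub_one 2 n N
  rw [Nat.gcd_eq_left hdvd] at hgcd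
  have h1 : 2 ^ n = 2 ^ Nat.gcd n N := by
    have := Nat.one_le_two_pow (n := n)
    have := Nat.one_le_two_pow (n := Nat.gcd n N)
    omega
  have h2 : n = Nat.gcd n N := Nat.pow_right_injective (le_refl 2) h1
  have h3 : n ∣ N := h2 ▸ Nat.gcd_dvd_right n N
  obtain ⟨m, hm⟩ := h3
  refine ⟨m, ?_⟩
  rw [hN, hn, hm, pow_mul]

/-- Let G be a nontrivial finite 2-group whose automorphism group permutes the involutions of G transitively. Then every involution of G is central, so that the involutions together with 1 form the subgroup Ω₁(Z(G)), and if this subgroup has order q then |G| is a power of q. -/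
theorem result {G : Type*} [Group G] [Finite G] [Nontrivial G] (hG : IsPGroup 2 G) (htrans : ∀ x y : G, x ≠ 1 → x ^ 2 = 1 → y ≠ 1 → y ^ 2 = 1 → ∃ a : MulAut G, a x = y) : (∀ x : G, x ^ 2 = 1 → x ∈ Subgroup.center G) ∧ ∃ m : ℕ, Nat.card G = Nat.card {z : G // z ^ 2 = 1} ^ m := by
  exact ⟨central_of_sq hG htrans, card_pow hG htrans (central_of_sq hG htrans)⟩

end Cfsg.Agent.S3774
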