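import Cfsg.Statements.S3784
import Mathlib

set_option autoImplicit false
open Cfsg

namespace Cfsg.Agent.S3784

/-- `2 ^ a = q ^ b + 1` with `q` an odd prime forces `b = 1`. -/
theorem case_p2 (q a b : ℕ) (hq : q.Prime) (hqo : Odd q) (ha : 1 ≤ a) (hb : 1 ≤ b)
    (h : 2 ^ a = q ^ b + 1) : b = 1 := by
  by_contra hb1
  have hb2 : 2 ≤ b := by omega
  have hq2 := hq.two_le
  rcases Nat.even_or_odd b with ⟨c, hc⟩ | hbo
  · -- b even
    have hx : Odd (q ^ c) := hqo.pow
    obtain ⟨k, hk⟩ := hx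
    have e1 : q ^ b = 4 * (k * k + k) + 1 := by
      rw [hc, pow_add, hk]; ring
    have ha1 : a = 1 := by
      by_contra ha1
      obtain ⟨d, rfl⟩ : ∃ d, a = d + 2 := ⟨a - 2, by omega⟩
      rw [pow_add, e1] at h
      omega
    subst ha1
    have : 1 < q ^ b := Nat.one_lt_pow (by omega) (by omega)
    omega
  · -- b odd
    have hdiv : q + 1 ∣ q ^ b + 1 := by
      have := Odd.nat_add_dvd_pow_add_pow q 1 hbo
      simpa using this
    rw [← h] at hdiv
    obtain ⟨i, hia, hi⟩ := (Nat.dvd_prime_pow Nat.prime_two).mp hdiv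
    have hlt : i < a := by
      rcases Nat.lt_or_ge i a with hlt | hge
      · exact hlt
      · exfalso
        have hia' : i = a := le_antisymm hia hge
        subst hia'
        have : q ^ 1 = q ^ b := by rw [pow_one]; omega
        have := Nat.pow_right_injective hq2 this
        omega
    have hM : 2 * (q + 1) ∣ q ^ b + 1 := by
      rw [← h, hi, ← pow_succ']
      exact pow_dvd_pow 2 hlt
    obtain ⟨c, hc⟩ := hbo
    obtain ⟨k, hk⟩ := hqo
    have h1 : (2 * ((q : ℤ) + 1)) ∣ (q : ℤ) ^ 2 - 1 := ⟨k, by rw [hk]; push_cast; ring⟩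
    have h2 : (q : ℤ) ^ 2 - 1 ∣ ((q : ℤ) ^ 2) ^ c - 1 := by
      simpa using sub_dvd_pow_sub_pow ((q : ℤ) ^ 2) 1 c
    have h3 : (2 * ((q : ℤ) + 1)) ∣ (q : ℤ) ^ b - q := by
      have : (q : ℤ) ^ b - q = q * (((q : ℤ) ^ 2) ^ c - 1) := by rw [hc]; ring
      rw [this]
      exact Dvd.dvd.mul_left (h1.trans h2) _
    have h4 : (2 * ((q : ℤ) + 1)) ∣ (q : ℤ) ^ b + 1 := by exact_mod_cast hM
    have h5 : (2 * ((q : ℤ) + 1)) ∣ (q : ℤ) + 1 := by
      have := dvd_sub h4 h3
      have e : (q : ℤ) ^ b + 1 - ((q : ℤ) ^ b - q) = q + 1 := by ring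
      rwa [e] at this
    have h6 := Int.le_of_dvd (by positivity) h5
    omega

/-- `p ^ a = 2 ^ b + 1` with `p` an odd prime and `a ≠ 1` forces `p ^ a = 9`. -/
theorem case_q2 (p a b : ℕ) (hp : p.Prime) (hpo : Odd p) (ha : 1 ≤ a) (ha1 : a ≠ 1)
    (h : p ^ a = 2 ^ b + 1) : p ^ a = 9 := by
  have hp2 := hp.two_le
  rcases Nat.even_or_odd a with ⟨c, hc⟩ | hao
  · -- a even
    have hxo : Odd (p ^ c) := hpo.pow
    have hx1 : 1 ≤ p ^ c := Nat.one_le_pow _ _ (by omega)
    obtain ⟨y, hy⟩ : ∃ y, p ^ c = y + 1 := ⟨p ^ c - 1, by omega⟩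
    have e1 : y * (y + 2) = 2 ^ b := by
      have : p ^ a = (y + 1) * (y + 1) := by rw [hc, pow_add, hy]
      rw [this] at h
      have : (y + 1) * (y + 1) = y * (y + 2) + 1 := by ring
      omega
    have hd1 : y ∣ 2 ^ b := Dvd.intro _ e1
    have hd2 : y + 2 ∣ 2 ^ b := Dvd.intro_left _ e1
    obtain ⟨i, _, hi⟩ := (Nat.dvd_prime_pow Nat.prime_two).mp hd1
    obtain ⟨j, _, hj⟩ := (Nat.dvd_prime_pow Nat.prime_two).mp hd2
    have hij : i < j := by
      have : 2 ^ i < 2 ^ j := by omega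
      exact (Nat.pow_lt_pow_iff_right (by norm_num)).mp this
    have hdvd : 2 ^ i ∣ 2 := by
      have h1 : 2 ^ i ∣ 2 ^ j := pow_dvd_pow 2 hij.le
      have h2 : 2 ^ i ∣ y + 2 := hj ▸ h1
      have h3 : 2 ^ i ∣ y := hi ▸ dvd_refl _
      exact (Nat.dvd_add_right h3).mp h2
    have hi1 : i ≤ 1 := by
      by_contra hi1
      have : 2 ^ 2 ≤ 2 ^ i := Nat.pow_le_pow_right (by norm_num) (by omega)
      have := Nat.le_of_dvd (by norm_num) hdvd
      omega
    interval_cases i
    · -- y = 1, p^c = 2 even: contradiction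
      exfalso
      simp at hi
      rw [hy, hi] at hxo
      exact absurd hxo (by decide)
    · simp at hi
      rw [hc, pow_add, hy, hi]; norm_num
  · -- a odd
    exfalso
    have hgs := geom_sum_mul_add (p - 1) a
    rw [Nat.sub_add_cancel (by omega : 1 ≤ p)] at hgs
    set S := ∑ i ∈ Finset.range a, p ^ i with hS
    have hSdvd : S ∣ 2 ^ b := by
      have : S * (p - 1) = 2 ^ b := by omega
      exact Dvd.intro _ this
    have hSodd : Odd S := by
      rw [hS, Finset.odd_sum_iff_odd_card_odd]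
      have : (Finset.range a).filter (fun x => Odd (p ^ x)) = Finset.range a := by
        apply Finset.filter_true_of_mem
        intro x _
        exact hpo.pow
      rw [this, Finset.card_range]
      exact hao
    obtain ⟨k, _, hk⟩ := (Nat.dvd_prime_pow Nat.prime_two).mp hSdvd
    have hk0 : k = 0 := by
      by_contra hk0
      have : Even S := by rw [hk]; exact (Nat.even_pow' hk0).mpr even_two
      exact (Nat.not_even_iff_odd.mpr hSodd) this
    rw [hk0, pow_zero] at hk
    rw [hk, one_mul] at hgs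
    have : p ^ 1 = p ^ a := by rw [pow_one]; omega
    have := Nat.pow_right_injective hp2 this
    omega

/-- Let p, q be primes and a, b positive integers with p^a = q^b + 1. Then either p = 2, b = 1, a is prime and q = 2^a − 1; or q = 2, a = 1, b is a power of 2 and p = 2^b + 1; or p^a = 9 and q^b = 8. -/
theorem result (p q a b : ℕ) (hp : p.Prime) (hq : q.Prime) (ha : 1 ≤ a) (hb : 1 ≤ b) (h : p ^ a = q ^ b + 1) : (p = 2 ∧ b = 1 ∧ a.Prime ∧ q + 1 = 2 ^ a) ∨ (q = 2 ∧ a = 1 ∧ (∃ m : ℕ, b = 2 ^ m) ∧ p = 2 ^ b + 1) ∨ (p ^ a = 9 ∧ q ^ b = 8) := by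
  rcases hp.eq_two_or_odd' with rfl | hpo
  · rcases hq.eq_two_or_odd' with rfl | hqo
    · exfalso
      have h1 : Even (2 ^ a) := (Nat.even_pow' (by omega)).mpr even_two
      have h2 : Even (2 ^ b) := (Nat.even_pow' (by omega)).mpr even_two
      rw [h] at h1
      exact (Nat.even_add_one.mp h1) h2
    · left
      have hb1 : b = 1 := case_p2 q a b hq hqo ha hb h
      subst hb1
      rw [pow_one] at h
      refine ⟨rfl, rfl, ?_, h.symm⟩
      have hq' : (2 ^ a - 1).Prime := by
        have : 2 ^ a - 1 = q := by omega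
        rw [this]; exact hq
      have ha1 : a ≠ 1 := by
        rintro rfl
        have : q = 1 := by omega
        exact Nat.not_prime_one (this ▸ hq)
      exact (Nat.prime_of_pow_sub_one_prime ha1 hq').2
  · rcases hq.eq_two_or_odd' with rfl | hqo
    · right
      by_cases ha1 : a = 1
      · left
        subst ha1
        rw [pow_one] at h
        refine ⟨rfl, rfl, ?_, h⟩
        exact Nat.pow_of_pow_add_prime (by norm_num) (by omega) (h ▸ hp)
      · right
        have h9 := case_q2 p a b hp hpo ha ha1 h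
        refine ⟨h9, ?_⟩
        omega
    · exfalso
      have h1 : Odd (p ^ a) := hpo.pow
      have h2 : Odd (q ^ b) := hqo.pow
      rw [h] at h1
      exact (Nat.not_even_iff_odd.mpr h1) h2.add_one

end Cfsg.Agent.S3784
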