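import Cfsg.Statements.S3785
import Cfsg.Agent.Lib_helper5_Omega
import Cfsg.Agent.Lib_helper5_Baer
import Cfsg.Agent.Lib_helper5_PParts
import Cfsg.Agent.Lib_helper7_PPrime
import Cfsg.Agent.S3766

set_option autoImplicit false
open Cfsg

namespace Cfsg.Agent.S3785

open Cfsg.Agent.Lib_helper5_Baer in
theorem eng_add {G : Type*} [Group G] (g x : G) (n m : ℕ) :
    eng g x (n + m) = eng g (eng g x n) m := by
  induction m with
  | zero => rfl
  | succ m ih =>
    show eng g x (n + m + 1) = _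
    rw [eng_succ, eng_succ, ih]

/-- the elements commuting with all elements of prime order of `F(G)` -/
def omegaCent (G : Type*) [Group G] : Subgroup G where
  carrier := {g | ∀ x ∈ Cfsg.fittingSubgroup G, (orderOf x).Prime → g * x = x * g}
  one_mem' := fun x _ _ => by simp
  mul_mem' := by
    intro a b ha hb x hx hp
    calc a * b * x = a * (b * x) := by group
      _ = a * (x * b) := by rw [hb x hx hp]
      _ = (a * x) * b := by group
      _ = x * a * b := by rw [ha x hx hp]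
      _ = x * (a * b) := by group
  inv_mem' := by
    intro a ha x hx hp
    have := ha x hx hp
    calc a⁻¹ * x = a⁻¹ * (x * a) * a⁻¹ := by group
      _ = a⁻¹ * (a * x) * a⁻¹ := by rw [this]
      _ = x * a⁻¹ := by group

theorem mem_omegaCent {G : Type*} [Group G] (g : G) :
    g ∈ omegaCent G ↔ ∀ x ∈ Cfsg.fittingSubgroup G, (orderOf x).Prime → g * x = x * g := Iff.rfl

instance omegaCent_normal {G : Type*} [Group G] : (omegaCent G).Normal := by
  haveI hFn : (Cfsg.fittingSubgroup G).Normal :=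
    Cfsg.Agent.Lib_helper6_PCore.fittingSubgroup_normal
  constructor
  intro a ha t
  rw [mem_omegaCent] at ha ⊢
  intro x hx hp
  have h1 : t⁻¹ * x * t⁻¹⁻¹ ∈ Cfsg.fittingSubgroup G := hFn.conj_mem x hx t⁻¹
  have h2 : (orderOf (t⁻¹ * x * t⁻¹⁻¹)).Prime := by
    have e := orderOf_injective (MulAut.conj t⁻¹).toMonoidHom (MulAut.conj t⁻¹).injective x
    have e' : (MulAut.conj t⁻¹).toMonoidHom x = t⁻¹ * x * t⁻¹⁻¹ := rfl
    rw [e'] at e
    rw [e]; exact hp
  have h3 := ha _ h1 h2
  calc t * a * t⁻¹ * x = t * (a * (t⁻¹ * x * t⁻¹⁻¹)) * t⁻¹ := by group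
    _ = t * ((t⁻¹ * x * t⁻¹⁻¹) * a) * t⁻¹ := by rw [h3]
    _ = x * (t * a * t⁻¹) := by group

theorem pCore_le_fitting {G : Type*} [Group G] [Finite G] (p : ℕ) (hp : p.Prime) :
    Cfsg.pCore p G ≤ Cfsg.fittingSubgroup G := by
  rw [Cfsg.Agent.Lib_helper5_Fitting.fitting_eq_iSup_pCore]
  exact le_iSup (fun p : Nat.Primes => Cfsg.pCore (p : ℕ) G) ⟨p, hp⟩

theorem cent_pCore {G : Type*} [Group G] [Finite G]
    (hodd : Odd (Nat.card (Cfsg.fittingSubgroup G)))
    (a : G) (ha : a ∈ omegaCent G) (q b : ℕ) (hq : q.Prime) (hqb : orderOf a = q ^ b)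
    (p : ℕ) (hp : p.Prime) (hpq : p ≠ q) : ∀ u ∈ Cfsg.pCore p G, a * u = u * a := by
  haveI : Fact p.Prime := ⟨hp⟩
  have hPF := pCore_le_fitting (G := G) p hp
  by_cases hp2 : p = 2
  · subst hp2
    have h1 : Nat.card (Cfsg.pCore 2 G) ∣ Nat.card (Cfsg.fittingSubgroup G) :=
      Subgroup.card_dvd_of_le hPF
    obtain ⟨k, hk⟩ := IsPGroup.iff_card.mp (Cfsg.Agent.Lib_helper6_PCore.pCore_isPGroup (G := G) 2)
    have h2 : k = 0 := by
      by_contra hk0
      have h3 : 2 ∣ Nat.card (Cfsg.pCore 2 G) := by rw [hk]; exact dvd_pow_self 2 hk0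
      exact (Nat.not_even_iff_odd.mpr hodd) (even_iff_two_dvd.mpr (h3.trans h1))
    intro u hu
    have h4 : Nat.card (Cfsg.pCore 2 G) = 1 := by rw [hk, h2, pow_zero]
    have hbot : Cfsg.pCore 2 G = ⊥ := Subgroup.card_eq_one.mp h4
    rw [hbot, Subgroup.mem_bot] at hu
    rw [hu]; simp
  · have hcop : (orderOf a).Coprime p := by
      rw [hqb]; exact Nat.Coprime.pow_left b ((Nat.coprime_primes hq hp).mpr (Ne.symm hpq))
    haveI hPn : (Cfsg.pCore p G).Normal := Cfsg.Agent.Lib_helper6_PCore.pCore_normal p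
    have hc := Cfsg.Agent.Lib_helper5_Omega.omega_cent p hp2 a hcop _ (Cfsg.pCore p G) rfl
      (Cfsg.Agent.Lib_helper6_PCore.pCore_isPGroup p)
      (by rw [Subgroup.normalizer_eq_top]; trivial)
      (by
        intro y hy hyp
        by_cases hy1 : y = 1
        · rw [hy1]; simp
        · exact ha y (hPF hy) (by rw [orderOf_eq_prime hyp hy1]; exact hp))
    rw [Subgroup.mem_centralizer_iff] at hc
    intro u hu
    exact (hc u hu).symm

theorem le_of_derived {G : Type*} [Group G] [Finite G] (hG : Group.IsSolvable G)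
    (X F : Subgroup G) [hX : X.Normal]
    (h : ∀ E : Subgroup G, E.Normal → E ≤ X → ⁅E, E⁆ ≤ F → E ≤ F) : X ≤ F := by
  have hDn : ∀ i, (Cfsg.Agent.S3766.dser X i).Normal :=
    fun i => Cfsg.Agent.S3766.dser_normal _ i
  have hDs : ∀ i, Cfsg.Agent.S3766.dser X (i + 1) =
      ⁅Cfsg.Agent.S3766.dser X i, Cfsg.Agent.S3766.dser X i⁆ := fun i => rfl
  have hDle : ∀ i, Cfsg.Agent.S3766.dser X (i + 1) ≤ Cfsg.Agent.S3766.dser X i := by
    intro i
    haveI := hDn i
    rw [hDs]
    exact Subgroup.commutator_le_left _ _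
  have hDD : ∀ i, Cfsg.Agent.S3766.dser X i ≤ X := by
    intro i
    induction i with
    | zero => exact le_rfl
    | succ i ih => exact (hDle i).trans ih
  have hDder : ∀ i, Cfsg.Agent.S3766.dser X i ≤ derivedSeries G i := by
    intro i
    induction i with
    | zero => rw [derivedSeries_zero]; exact le_top
    | succ i ih =>
      rw [hDs, derivedSeries_succ]
      exact Subgroup.commutator_mono ih ih
  obtain ⟨k, hk⟩ := hG.solvable
  have hDk : Cfsg.Agent.S3766.dser X k = ⊥ := by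
    rw [eq_bot_iff, ← hk]
    exact hDder k
  have hall : ∀ j i, i + j = k → Cfsg.Agent.S3766.dser X i ≤ F := by
    intro j
    induction j with
    | zero =>
      intro i hi
      have : i = k := by omega
      rw [this, hDk]
      exact bot_le
    | succ j ih =>
      intro i hi
      exact h _ (hDn i) (hDD i) (by rw [← hDs]; exact ih (i + 1) (by omega))
  exact hall k 0 (by omega)

open Cfsg.Agent.Lib_helper5_Baer in
theorem key {G : Type*} [Group G] [Finite G]
    (hodd : Odd (Nat.card (Cfsg.fittingSubgroup G)))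
    (E : Subgroup G) (hEn : E.Normal) (hEX : E ≤ omegaCent G)
    (hEE : ⁅E, E⁆ ≤ Cfsg.fittingSubgroup G) (a : G) (haE : a ∈ E)
    (q b : ℕ) (hq : q.Prime) (hqb : orderOf a = q ^ b) : a ∈ Cfsg.fittingSubgroup G := by
  haveI : Fact q.Prime := ⟨hq⟩
  haveI hPn : (Cfsg.pCore q G).Normal := Cfsg.Agent.Lib_helper6_PCore.pCore_normal q
  have hGfin : ∀ x : G, ∃ n : ℕ, eng a x n = 1 := by
    intro x
    have hFle : Cfsg.fittingSubgroup G ≤ Cfsg.pCore q G ⊔ Subgroup.centralizer {a} := by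
      rw [Cfsg.Agent.Lib_helper5_Fitting.fitting_eq_iSup_pCore]
      apply iSup_le
      intro p
      by_cases hpq : (p : ℕ) = q
      · rw [hpq]; exact le_sup_left
      · refine le_trans ?_ le_sup_right
        intro u hu
        rw [Subgroup.mem_centralizer_iff]
        intro h hh
        rw [Set.mem_singleton_iff] at hh
        subst hh
        exact cent_pCore hodd h (hEX haE) q b hq hqb p p.2 hpq u hu
    have hx1 : eng a x 1 ∈ E := by
      have e1 : eng a x 1 = x * a * x⁻¹ * a⁻¹ := eng_succ a x 0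
      rw [e1]
      exact E.mul_mem (hEn.conj_mem a haE x) (E.inv_mem haE)
    have hx2 : eng a x 2 ∈ Cfsg.fittingSubgroup G := by
      apply hEE
      have e2 : eng a x 2 = eng a x 1 * a * (eng a x 1)⁻¹ * a⁻¹ := eng_succ a x 1
      rw [e2]
      exact Subgroup.commutator_mem_commutator hx1 haE
    have hx2' : eng a x 2 ∈ ((Cfsg.pCore q G ⊔ Subgroup.centralizer {a} : Subgroup G) : Set G) :=
      hFle hx2
    rw [Subgroup.normal_mul] at hx2'
    obtain ⟨u, hu, v, hv, huv⟩ := Set.mem_mul.mp hx2'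
    have hva : a * v = v * a := Subgroup.mem_centralizer_iff.mp hv a rfl
    have hx3 : eng a x 3 ∈ Cfsg.pCore q G := by
      have e3 : eng a x 3 = eng a x 2 * a * (eng a x 2)⁻¹ * a⁻¹ := eng_succ a x 2
      rw [e3, ← huv]
      have e : u * v * a * (u * v)⁻¹ * a⁻¹ = u * (v * a) * v⁻¹ * u⁻¹ * a⁻¹ := by group
      rw [e, ← hva]
      have e' : u * (a * v) * v⁻¹ * u⁻¹ * a⁻¹ = u * (a * u⁻¹ * a⁻¹) := by group
      rw [e']
      exact (Cfsg.pCore q G).mul_mem hu (hPn.conj_mem _ ((Cfsg.pCore q G).inv_mem hu) a)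
    have hT : IsPGroup q ↥(Cfsg.pCore q G ⊔ Subgroup.zpowers a) := by
      obtain ⟨n, hn⟩ := IsPGroup.iff_card.mp (Cfsg.Agent.Lib_helper6_PCore.pCore_isPGroup (G := G) q)
      have h1 := Cfsg.Agent.Lib_helper7_PPrime.card_sup_dvd (Subgroup.zpowers a) (Cfsg.pCore q G)
      rw [Nat.card_zpowers, hqb, hn, ← pow_add, sup_comm] at h1
      obtain ⟨j, -, hj⟩ := (Nat.dvd_prime_pow hq).mp h1
      exact IsPGroup.of_card hj
    haveI hTnil : Group.IsNilpotent ↥(Cfsg.pCore q G ⊔ Subgroup.zpowers a) := hT.isNilpotent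
    have haT : a ∈ Cfsg.pCore q G ⊔ Subgroup.zpowers a :=
      (le_sup_right : Subgroup.zpowers a ≤ _) (Subgroup.mem_zpowers a)
    have hx3T : eng a x 3 ∈ Cfsg.pCore q G ⊔ Subgroup.zpowers a :=
      (le_sup_left : Cfsg.pCore q G ≤ _) hx3
    have hfit : (⟨a, haT⟩ : ↥(Cfsg.pCore q G ⊔ Subgroup.zpowers a)) ∈
        Cfsg.fittingSubgroup ↥(Cfsg.pCore q G ⊔ Subgroup.zpowers a) := by
      apply Cfsg.Agent.Lib_helper5_Fitting.le_fitting (K := ⊤) inferInstance
        (Group.nilpotent_of_mulEquiv Subgroup.topEquiv.symm)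
      trivial
    obtain ⟨m, hm⟩ := eng_of_mem_fitting _ hfit ⟨eng a x 3, hx3T⟩
    have hm' := congrArg (Subgroup.subtype _) hm
    rw [map_eng] at hm'
    refine ⟨3 + m, ?_⟩
    rw [eng_add]
    exact hm'
  exact (mem_fitting_iff_eng a).mpr hGfin


/-- Let G be a finite solvable group whose Fitting subgroup F(G) has odd order. If an element g of G commutes with every element of prime order of F(G), then g ∈ F(G). -/
theorem result {G : Type*} [Group G] [Finite G] (hG : Group.IsSolvable G) (hodd : Odd (Nat.card (Cfsg.fittingSubgroup G))) (g : G) (hg : ∀ x ∈ Cfsg.fittingSubgroup G, (orderOf x).Prime → g * x = x * g) : g ∈ Cfsg.fittingSubgroup G := by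
  have hX : omegaCent G ≤ Cfsg.fittingSubgroup G := by
    apply le_of_derived hG
    intro E hEn hEX hEE
    obtain ⟨p₀, hp₀, hp₀p⟩ := Nat.exists_infinite_primes (Nat.card G + 1)
    intro y hy
    have h1 := Cfsg.Agent.Lib_helper5_PParts.mem_of_prime_power_parts (G := ↥E) p₀
      ((Cfsg.fittingSubgroup G).subgroupOf E) (by
        rintro ⟨a, ha⟩ ⟨q, b, hq, -, hqb⟩
        rw [Subgroup.mem_subgroupOf]
        apply key hodd E hEn hEX hEE a ha q b hq
        rw [← hqb]
        exact Subgroup.orderOf_coe (⟨a, ha⟩ : ↥E)) ⟨y, hy⟩ (by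
        apply Nat.Coprime.symm
        rw [Nat.Prime.coprime_iff_not_dvd hp₀p]
        intro hdvd
        have h2 : orderOf (⟨y, hy⟩ : ↥E) ≤ Nat.card ↥E :=
          Nat.le_of_dvd Nat.card_pos (orderOf_dvd_natCard _)
        have h3 : Nat.card ↥E ≤ Nat.card G := Subgroup.card_le_card_group E
        have h4 := Nat.le_of_dvd (orderOf_pos _) hdvd
        omega)
    exact Subgroup.mem_subgroupOf.mp h1
  exact hX hg

end Cfsg.Agent.S3785
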