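import Cfsg.Statements.S3800
import Cfsg.Agent.Lib_helper2_PCons

set_option autoImplicit false
open Cfsg

namespace Cfsg.Agent.S3800

/-- Let G be a finite group, N a normal subgroup of G whose order is prime to p, and P a p-subgroup of G. Then in G/N the normalizer of the image of P is the image of N_G(P), and the centralizer of the image of P is the image of C_G(P). -/
theorem result {G : Type*} [Group G] [Finite G] {p : ℕ} [Fact p.Prime] (N : Subgroup G) [N.Normal] (hN : (Nat.card N).Coprime p) (P : Subgroup G) (hP : IsPGroup p P) : Subgroup.normalizer ((P.map (QuotientGroup.mk' N)) : Set (G ⧸ N)) = (Subgroup.normalizer (P : Set G)).map (QuotientGroup.mk' N) ∧ Subgroup.centralizer ((P.map (QuotientGroup.mk' N)) : Set (G ⧸ N)) = (Subgroup.centralizer (P : Set G)).map (QuotientGroup.mk' N) := by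
  constructor
  · apply le_antisymm
    · intro xbar hx
      obtain ⟨x, rfl⟩ := QuotientGroup.mk'_surjective N xbar
      have hy : ∀ u ∈ P, x * u * x⁻¹ ∈ P ⊔ N := by
        intro u hu
        have h1 : (QuotientGroup.mk' N) (x * u * x⁻¹) ∈ P.map (QuotientGroup.mk' N) := by
          rw [map_mul, map_mul, map_inv]
          exact (Subgroup.mem_normalizer_iff.mp hx _).mp (Subgroup.mem_map_of_mem _ hu)
        obtain ⟨v, hv, hveq⟩ := Subgroup.mem_map.mp h1
        have h2 : v⁻¹ * (x * u * x⁻¹) ∈ N := by
          have h3 : ((v : G) : G ⧸ N) = ((x * u * x⁻¹ : G) : G ⧸ N) := hveq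
          exact QuotientGroup.eq.mp h3
        have h4 : x * u * x⁻¹ = v * (v⁻¹ * (x * u * x⁻¹)) := by group
        rw [h4]
        exact Subgroup.mul_mem _ (Subgroup.mem_sup_left hv) (Subgroup.mem_sup_right h2)
      obtain ⟨w, hw, hwx⟩ :=
        Cfsg.Agent.Lib_helper2_PCons.exists_mul_mem_normalizer_of_sup p N hN P hP x hy
      refine Subgroup.mem_map.mpr ⟨w * x, hwx, ?_⟩
      rw [map_mul]
      have h5 : (QuotientGroup.mk' N) w = 1 := (QuotientGroup.eq_one_iff w).mpr hw
      rw [h5, one_mul]
    · exact Subgroup.le_normalizer_map _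
  · apply le_antisymm
    · intro xbar hx
      obtain ⟨x, rfl⟩ := QuotientGroup.mk'_surjective N xbar
      obtain ⟨w, hw, hwx⟩ :=
        Cfsg.Agent.Lib_helper2_PCons.exists_mul_mem_centralizer p N hN P hP x hx
      refine Subgroup.mem_map.mpr ⟨w * x, hwx, ?_⟩
      rw [map_mul]
      have h5 : (QuotientGroup.mk' N) w = 1 := (QuotientGroup.eq_one_iff w).mpr hw
      rw [h5, one_mul]
    · rintro _ ⟨x, hx, rfl⟩
      rw [Subgroup.mem_centralizer_iff]
      rintro _ ⟨u, hu, rfl⟩
      rw [← map_mul, ← map_mul, (Subgroup.mem_centralizer_iff.mp hx) u hu]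

end Cfsg.Agent.S3800
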