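import Cfsg.Statements.S3950
import Cfsg.Agent.Lib_helper5_Ext
import Cfsg.Agent.Lib_helper5_Schur

set_option autoImplicit false
open Cfsg

namespace Cfsg.Agent.S3950

/-- bimultiplicative map on a product of cyclic groups: `(g, h) ↦ g_i * h_j mod d` -/
def bil {ι : Type} (n : ι → ℕ) (i j : ι) (d : ℕ) (hi : d ∣ n i) (hj : d ∣ n j) :
    ((k : ι) → Multiplicative (ZMod (n k))) →*
      (((k : ι) → Multiplicative (ZMod (n k))) →* Multiplicative (ZMod d)) :=
  MonoidHom.mk' (fun g =>
    MonoidHom.mk' (fun h => Multiplicative.ofAdd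
      (ZMod.castHom hi (ZMod d) (Multiplicative.toAdd (g i)) *
        ZMod.castHom hj (ZMod d) (Multiplicative.toAdd (h j))))
      (by
        intro h h'
        show Multiplicative.ofAdd (_ * ZMod.castHom hj (ZMod d)
          (Multiplicative.toAdd (h j) + Multiplicative.toAdd (h' j))) = _
        rw [map_add, mul_add]; rfl))
    (by
      intro g g'
      ext h
      show Multiplicative.ofAdd (ZMod.castHom hi (ZMod d)
        (Multiplicative.toAdd (g i) + Multiplicative.toAdd (g' i)) * _) = _
      rw [map_add, add_mul]; rfl)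

theorem bil_apply {ι : Type} (n : ι → ℕ) (i j : ι) (d : ℕ) (hi : d ∣ n i) (hj : d ∣ n j)
    (g h : (k : ι) → Multiplicative (ZMod (n k))) :
    bil n i j d hi hj g h = Multiplicative.ofAdd
      (ZMod.castHom hi (ZMod d) (Multiplicative.toAdd (g i)) *
        ZMod.castHom hj (ZMod d) (Multiplicative.toAdd (h j))) := rfl

/-- pulled back along an isomorphism -/
def bilG {G : Type*} [CommGroup G] {ι : Type} (n : ι → ℕ) (i j : ι) (d : ℕ) (hi : d ∣ n i)
    (hj : d ∣ n j) (e : G ≃* ((k : ι) → Multiplicative (ZMod (n k)))) :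
    G →* (G →* Multiplicative (ZMod d)) :=
  MonoidHom.mk' (fun g => (bil n i j d hi hj (e g)).comp e.toMonoidHom) (by
    intro g g'
    ext h
    simp [map_mul])

theorem bilG_apply {G : Type*} [CommGroup G] {ι : Type} (n : ι → ℕ) (i j : ι) (d : ℕ)
    (hi : d ∣ n i) (hj : d ∣ n j) (e : G ≃* ((k : ι) → Multiplicative (ZMod (n k)))) (g h : G) :
    bilG n i j d hi hj e g h = Multiplicative.ofAdd
      (ZMod.castHom hi (ZMod d) (Multiplicative.toAdd (e g i)) *
        ZMod.castHom hj (ZMod d) (Multiplicative.toAdd (e h j))) := rfl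

open scoped Function in
theorem cyclic_of_coprime {G : Type*} [CommGroup G] {ι : Type} [Fintype ι] (n : ι → ℕ)
    (e : G ≃* ((k : ι) → Multiplicative (ZMod (n k))))
    (hcop : Pairwise (Nat.Coprime on n)) : IsCyclic G := by
  let ψ : Multiplicative (ZMod (∏ i, n i)) →* G :=
    MonoidHom.mk' (fun x => e.symm (fun i => Multiplicative.ofAdd
      ((ZMod.prodEquivPi n hcop) (Multiplicative.toAdd x) i))) (by
      intro x y
      rw [← map_mul]
      congr 1
      funext i
      show Multiplicative.ofAdd ((ZMod.prodEquivPi n hcop)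
        (Multiplicative.toAdd x + Multiplicative.toAdd y) i) = _
      rw [map_add]
      rfl)
  have hψ : Function.Surjective ψ := by
    intro g
    refine ⟨Multiplicative.ofAdd ((ZMod.prodEquivPi n hcop).symm
      (fun i => Multiplicative.toAdd (e g i))), ?_⟩
    show e.symm (fun i => Multiplicative.ofAdd ((ZMod.prodEquivPi n hcop)
      ((ZMod.prodEquivPi n hcop).symm (fun i => Multiplicative.toAdd (e g i))) i)) = g
    rw [RingEquiv.apply_symm_apply]
    exact e.symm_apply_apply g
  exact isCyclic_of_surjective ψ hψ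

open Cfsg.Agent.Lib_helper5_Ext Cfsg.Agent.Lib_helper5_Schur in
/-- A finite abelian group has trivial Schur multiplier if and only if it is cyclic. -/
theorem result {G : Type*} [CommGroup G] [Finite G] : Cfsg.HasCyclicSchurMultiplier G 1 ↔ IsCyclic G := by
  constructor
  · intro hG
    obtain ⟨ι, _, n, hn, ⟨e⟩⟩ := CommGroup.equiv_prod_multiplicative_zmod_of_finite G
    by_contra hnc
    have hncop : ¬ Pairwise (Function.onFun Nat.Coprime n) := fun h => hnc (cyclic_of_coprime n e h)
    rw [Pairwise] at hncop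
    simp only [not_forall] at hncop
    obtain ⟨i, j, hij, hc⟩ := hncop
    set d := Nat.gcd (n i) (n j) with hd
    have hd1 : d ≠ 1 := hc
    have hi : d ∣ n i := Nat.gcd_dvd_left _ _
    have hj : d ∣ n j := Nat.gcd_dvd_right _ _
    have hd0 : d ≠ 0 := by
      intro h0
      rw [h0] at hi
      have := hn i
      rw [Nat.zero_dvd] at hi
      omega
    haveI : NeZero d := ⟨hd0⟩
    haveI : Fact (1 < d) := ⟨by omega⟩
    classical
    obtain ⟨Γ, _, _, σ, hσ, ⟨k⟩⟩ := exists_stem (bilG n i j d hi hj e)
      (e.symm (Pi.mulSingle i (Multiplicative.ofAdd 1)))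
      (e.symm (Pi.mulSingle j (Multiplicative.ofAdd 1))) (by
        intro c
        refine ⟨(Multiplicative.toAdd c).val, ?_⟩
        rw [bilG_apply, bilG_apply]
        simp only [MulEquiv.apply_symm_apply, Pi.mulSingle_eq_same, toAdd_ofAdd, map_one, mul_one,
          Pi.mulSingle_eq_of_ne hij, Pi.mulSingle_eq_of_ne (Ne.symm hij), toAdd_one, map_zero,
          mul_zero, ofAdd_zero, inv_one]
        rw [← ofAdd_nsmul, nsmul_one, ZMod.natCast_zmod_val]
        rfl)
    obtain ⟨π, hπ⟩ := hG.2 Γ σ hσ
    have hsub : Subsingleton σ.ker := by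
      constructor
      intro a b
      obtain ⟨x, rfl⟩ := hπ a
      obtain ⟨y, rfl⟩ := hπ b
      rw [Subsingleton.elim x y]
    have : Subsingleton (Multiplicative (ZMod d)) := k.symm.injective.subsingleton
    have h01 : (Multiplicative.ofAdd (1 : ZMod d)) = Multiplicative.ofAdd (0 : ZMod d) :=
      Subsingleton.elim _ _
    exact one_ne_zero (Multiplicative.ofAdd.injective h01)
  · intro hcyc
    apply hasCyclic_one_of
    intro Γ _ _ σ hσ
    obtain ⟨hsurj, hcen, hcomm⟩ := hσ
    have hc : IsMulCommutative Γ := σ.isMulCommutative_of_isCyclic_of_ker_le_center hcen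
    have hbot : commutator Γ = ⊥ := by
      rw [commutator_def, Subgroup.commutator_eq_bot_iff_le_centralizer]
      intro a _ b _
      exact (hc.is_comm.comm b a)
    rw [eq_bot_iff, ← hbot]; exact hcomm

end Cfsg.Agent.S3950
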