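import Cfsg.Statements.S3951
import Cfsg.Agent.Lib_helper5_Ext

set_option autoImplicit false
open Cfsg

namespace Cfsg.Agent.S3951

/-- the bimultiplicative map `((a,b),(a',b')) ↦ a * b'` -/
def bil (m n : ℕ) (hnm : n ∣ m) :
    Multiplicative (ZMod m × ZMod n) →* (Multiplicative (ZMod m × ZMod n) →* Multiplicative (ZMod n)) :=
  MonoidHom.mk' (fun g =>
    MonoidHom.mk' (fun h => Multiplicative.ofAdd
      (ZMod.castHom hnm (ZMod n) (Multiplicative.toAdd g).1 * (Multiplicative.toAdd h).2))
      (by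
        intro h h'
        show Multiplicative.ofAdd (_ * ((Multiplicative.toAdd h).2 + (Multiplicative.toAdd h').2)) = _
        rw [mul_add]; rfl))
    (by
      intro g g'
      ext h
      show Multiplicative.ofAdd (ZMod.castHom hnm (ZMod n)
        ((Multiplicative.toAdd g).1 + (Multiplicative.toAdd g').1) * (Multiplicative.toAdd h).2) = _
      rw [map_add, add_mul]; rfl)

theorem bil_apply (m n : ℕ) (hnm : n ∣ m) (g h : Multiplicative (ZMod m × ZMod n)) :
    bil m n hnm g h = Multiplicative.ofAdd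
      (ZMod.castHom hnm (ZMod n) (Multiplicative.toAdd g).1 * (Multiplicative.toAdd h).2) := rfl

open Cfsg.Agent.Lib_helper5_Ext in
/-- For `n` dividing `m`, the Schur multiplier of `Z/m × Z/n` is cyclic of order `n`. -/
theorem result (m n : ℕ) [NeZero m] [NeZero n] (hnm : n ∣ m) : Cfsg.HasCyclicSchurMultiplier (Multiplicative (ZMod m × ZMod n)) n := by
  refine ⟨?_, ?_⟩
  · apply exists_stem (bil m n hnm) (Multiplicative.ofAdd (1, 0)) (Multiplicative.ofAdd (0, 1))
    intro c
    refine ⟨(Multiplicative.toAdd c).val, ?_⟩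
    rw [bil_apply, bil_apply]
    simp only [toAdd_ofAdd, map_one, mul_one, map_zero, mul_zero, ofAdd_zero, inv_one]
    rw [← ofAdd_nsmul, nsmul_one, ZMod.natCast_zmod_val]
    rfl
  · intro Γ _ _ σ hσ
    obtain ⟨α, hα⟩ := hσ.1 (Multiplicative.ofAdd (1, 0))
    obtain ⟨β, hβ⟩ := hσ.1 (Multiplicative.ofAdd (0, 1))
    have hgen : Subgroup.closure {σ α, σ β} = ⊤ := by
      rw [hα, hβ, eq_top_iff]
      intro g _
      have hg : g = (Multiplicative.ofAdd ((1 : ZMod m), (0 : ZMod n))) ^ (Multiplicative.toAdd g).1.val *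
          (Multiplicative.ofAdd ((0 : ZMod m), (1 : ZMod n))) ^ (Multiplicative.toAdd g).2.val := by
        rw [← ofAdd_nsmul, ← ofAdd_nsmul, ← ofAdd_add]
        simp only [Prod.smul_mk, nsmul_one, smul_zero, Prod.mk_add_mk, add_zero, zero_add,
          ZMod.natCast_zmod_val]
        rfl
      rw [hg]
      exact Subgroup.mul_mem _ (Subgroup.pow_mem _ (Subgroup.subset_closure (by simp)) _)
        (Subgroup.pow_mem _ (Subgroup.subset_closure (by simp)) _)
    have hn : (σ β) ^ n = 1 := by
      rw [hβ, ← ofAdd_nsmul]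
      simp only [Prod.smul_mk, smul_zero, nsmul_one, ZMod.natCast_self]
      rfl
    obtain ⟨c, hc, hcn, hall⟩ := stem_two_gen σ hσ α β hgen n hn
    apply surj_of_cyclic n (⟨c, hc⟩ : σ.ker)
    · ext; simpa using hcn
    · intro z
      obtain ⟨k, hk⟩ := hall z z.2
      exact ⟨k, by ext; simpa using hk⟩

end Cfsg.Agent.S3951
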