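import Cfsg.Statements.S3962
import Mathlib

set_option autoImplicit false
open Cfsg

namespace Cfsg.Agent.S3962

/-- Let `G` be a perfect group and `π : G →* Q` a surjective homomorphism whose kernel is central. Then `π` maps the centre of `G` onto the centre of `Q`. Taking `π` to be the map to `G ⧸ Z(G)` shows that the central quotient of a perfect group has trivial centre. -/
theorem result {G Q : Type*} [Group G] [Group Q] (hG : Group.IsPerfect G) (π : G →* Q) (hπ : Function.Surjective π) (hker : π.ker ≤ Subgroup.center G) : (Subgroup.center G).map π = Subgroup.center Q := by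
  apply le_antisymm
  · rintro _ ⟨z, hz, rfl⟩
    rw [Subgroup.mem_center_iff]
    intro q
    obtain ⟨g, rfl⟩ := hπ q
    rw [← map_mul, ← map_mul, (Subgroup.mem_center_iff.mp hz) g]
  · intro c hc
    obtain ⟨g, rfl⟩ := hπ c
    refine ⟨g, ?_, rfl⟩
    -- z a := g a g⁻¹ a⁻¹ is central
    have hz : ∀ a : G, g * a * g⁻¹ * a⁻¹ ∈ Subgroup.center G := by
      intro a
      apply hker
      rw [MonoidHom.mem_ker]
      have := (Subgroup.mem_center_iff.mp hc) (π a)
      simp only [map_mul, map_inv]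
      rw [← this]
      group
    have hcomm : commutator G ≤ Subgroup.centralizer {g} := by
      rw [commutator_def, Subgroup.commutator_le]
      intro a _ b _
      rw [Subgroup.mem_centralizer_iff]
      intro x hx
      rw [Set.mem_singleton_iff] at hx
      subst hx
      have ha := hz a
      have hb := hz b
      have hai := (Subgroup.center G).inv_mem ha
      have hbi := (Subgroup.center G).inv_mem hb
      rw [Subgroup.mem_center_iff] at ha hb hai hbi
      set za := x * a * x⁻¹ * a⁻¹ with hza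
      set zb := x * b * x⁻¹ * b⁻¹ with hzb
      have e1 : x * a = za * a * x := by rw [hza]; group
      have e2 : x * b = zb * b * x := by rw [hzb]; group
      have e3 : x * a⁻¹ = za⁻¹ * a⁻¹ * x := by
        rw [← hai a⁻¹, hza]; group
      have e4 : x * b⁻¹ = zb⁻¹ * b⁻¹ * x := by
        rw [← hbi b⁻¹, hzb]; group
      rw [commutatorElement_def]
      symm
      calc a * b * a⁻¹ * b⁻¹ * x = a * zb * (zb⁻¹ * (b * a⁻¹)) * b⁻¹ * x := by group
        _ = a * zb * (b * a⁻¹ * zb⁻¹) * b⁻¹ * x := by rw [hbi (b * a⁻¹)]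
        _ = za * (za⁻¹ * a) * zb * b * a⁻¹ * zb⁻¹ * b⁻¹ * x := by group
        _ = za * (a * za⁻¹) * zb * b * a⁻¹ * zb⁻¹ * b⁻¹ * x := by rw [hai a]
        _ = za * a * (za⁻¹ * zb) * b * a⁻¹ * zb⁻¹ * b⁻¹ * x := by group
        _ = za * a * (zb * za⁻¹) * b * a⁻¹ * zb⁻¹ * b⁻¹ * x := by rw [hai zb]
        _ = za * a * zb * (za⁻¹ * b) * a⁻¹ * zb⁻¹ * b⁻¹ * x := by group
        _ = za * a * zb * (b * za⁻¹) * a⁻¹ * zb⁻¹ * b⁻¹ * x := by rw [hai b]
        _ = za * a * zb * b * za⁻¹ * a⁻¹ * (zb⁻¹ * b⁻¹ * x) := by group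
        _ = za * a * zb * b * za⁻¹ * a⁻¹ * (x * b⁻¹) := by rw [e4]
        _ = za * a * zb * b * (za⁻¹ * a⁻¹ * x) * b⁻¹ := by group
        _ = za * a * zb * b * (x * a⁻¹) * b⁻¹ := by rw [e3]
        _ = za * a * (zb * b * x) * a⁻¹ * b⁻¹ := by group
        _ = za * a * (x * b) * a⁻¹ * b⁻¹ := by rw [e2]
        _ = (za * a * x) * b * a⁻¹ * b⁻¹ := by group
        _ = (x * a) * b * a⁻¹ * b⁻¹ := by rw [e1]
        _ = x * (a * b * a⁻¹ * b⁻¹) := by group
    rw [hG.commutator_eq_top] at hcomm
    show g ∈ Subgroup.center G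
    rw [Subgroup.mem_center_iff]
    intro h
    have := hcomm (Subgroup.mem_top h)
    rw [Subgroup.mem_centralizer_iff] at this
    exact (this g rfl).symm

end Cfsg.Agent.S3962
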