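import Cfsg.Statements.S3963
import Cfsg.Agent.Lib_helper5_Schur

set_option autoImplicit false
open Cfsg

namespace Cfsg.Agent.S3963

open Cfsg.Agent.Lib_helper5_Schur in
/-- For every `n ≥ 1` the dicyclic (generalized quaternion) group of order `4 n` has trivial Schur multiplier. -/
theorem result (n : ℕ) [NeZero n] : Cfsg.HasCyclicSchurMultiplier (QuaternionGroup n) 1 := by
  apply hasCyclic_one_of
  intro Γ _ _ σ hσ
  obtain ⟨α, hα⟩ := hσ.1 (QuaternionGroup.a 1)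
  obtain ⟨ξ, hξ⟩ := hσ.1 (QuaternionGroup.xa 0)
  have hgen : Subgroup.closure {σ α, σ ξ} = ⊤ := by rw [hα, hξ]; exact quaternion_gen n
  have h2n : ((2 * n : ℕ) : ZMod (2 * n)) = 0 := ZMod.natCast_self _
  have hnn : (n : ZMod (2 * n)) + n = 0 := by
    rw [← h2n]; push_cast; ring
  have hrel : σ ξ * σ α * (σ ξ)⁻¹ = (σ α)⁻¹ := by
    rw [hα, hξ]
    have h1 : (QuaternionGroup.xa 0 : QuaternionGroup n)⁻¹ = QuaternionGroup.xa (n : ZMod (2 * n)) := by
      apply inv_eq_of_mul_eq_one_right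
      rw [QuaternionGroup.xa_mul_xa, QuaternionGroup.one_def]
      congr 1
      rw [sub_zero]; exact hnn
    have h2 : (QuaternionGroup.a 1 : QuaternionGroup n)⁻¹ = QuaternionGroup.a (-1) := by
      apply inv_eq_of_mul_eq_one_right
      rw [QuaternionGroup.a_mul_a, QuaternionGroup.one_def]
      congr 1
      ring
    rw [h1, h2, QuaternionGroup.xa_mul_a, QuaternionGroup.xa_mul_xa]
    congr 1
    rw [zero_add]
    linear_combination hnn
  have hcomm : Commute (α ^ n) ξ := by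
    -- α ^ n = ξ ^ 2 * w with w central
    have hw : (ξ ^ 2)⁻¹ * α ^ n ∈ σ.ker := by
      rw [MonoidHom.mem_ker, map_mul, map_inv, map_pow, map_pow, hα, hξ,
        QuaternionGroup.xa_sq, QuaternionGroup.a_one_pow]
      simp
    have hwc := Subgroup.mem_center_iff.mp (hσ.2.1 hw) ξ
    show α ^ n * ξ = ξ * α ^ n
    have e : α ^ n = ξ ^ 2 * ((ξ ^ 2)⁻¹ * α ^ n) := by group
    calc α ^ n * ξ = ξ ^ 2 * (((ξ ^ 2)⁻¹ * α ^ n) * ξ) := by group
      _ = ξ ^ 2 * (ξ * ((ξ ^ 2)⁻¹ * α ^ n)) := by rw [hwc]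
      _ = ξ * α ^ n := by group
  obtain ⟨c, hcn, hc⟩ := stem_dihedral_like σ hσ α ξ hgen hrel n hcomm
  rw [eq_bot_iff]
  intro z hz
  obtain ⟨k, rfl, hk⟩ := hc z hz
  rw [hα] at hk
  have hdvd : ((2 * n : ℕ) : ℤ) ∣ 2 * k := by
    have := orderOf_dvd_iff_zpow_eq_one.mpr hk
    rwa [QuaternionGroup.orderOf_a_one] at this
  have hdvd' : (n : ℤ) ∣ k := by
    push_cast at hdvd
    exact (mul_dvd_mul_iff_left (by norm_num : (2 : ℤ) ≠ 0)).mp hdvd
  obtain ⟨j, rfl⟩ := hdvd'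
  rw [Subgroup.mem_bot, zpow_mul, zpow_natCast, hcn, one_zpow]

end Cfsg.Agent.S3963
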