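import Cfsg.Statements.S3964
import Cfsg.Agent.Lib_helper5_Schur

set_option autoImplicit false
open Cfsg

namespace Cfsg.Agent.S3964

open Cfsg.Agent.Lib_helper5_Schur in
/-- For odd `n` the dihedral group of order `2 n` has trivial Schur multiplier. -/
theorem result (n : ℕ) (hn : Odd n) : Cfsg.HasCyclicSchurMultiplier (DihedralGroup n) 1 := by
  have hn0 : NeZero n := ⟨fun h => by subst h; simp at hn⟩
  apply hasCyclic_one_of
  intro Γ _ _ σ hσ
  obtain ⟨α, hα⟩ := hσ.1 (DihedralGroup.r 1)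
  obtain ⟨ξ, hξ⟩ := hσ.1 (DihedralGroup.sr 0)
  have hgen : Subgroup.closure {σ α, σ ξ} = ⊤ := by rw [hα, hξ]; exact dihedral_gen n
  have hrel : σ ξ * σ α * (σ ξ)⁻¹ = (σ α)⁻¹ := by rw [hα, hξ]; simp
  have hcomm : Commute (α ^ n) ξ := by
    have : α ^ n ∈ σ.ker := by rw [MonoidHom.mem_ker, map_pow, hα, DihedralGroup.r_one_pow_n]
    exact (Subgroup.mem_center_iff.mp (hσ.2.1 this) ξ).symm
  obtain ⟨c, hcn, hc⟩ := stem_dihedral_like σ hσ α ξ hgen hrel n hcomm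
  rw [eq_bot_iff]
  intro z hz
  obtain ⟨k, rfl, hk⟩ := hc z hz
  rw [hα] at hk
  have hdvd : (n : ℤ) ∣ 2 * k := by
    have := orderOf_dvd_iff_zpow_eq_one.mpr hk
    rwa [DihedralGroup.orderOf_r_one] at this
  have hdvd' : (n : ℤ) ∣ k := by
    have hcop : IsCoprime (n : ℤ) 2 := by
      obtain ⟨m, rfl⟩ := hn
      exact ⟨1, -m, by push_cast; ring⟩
    exact hcop.dvd_of_dvd_mul_left hdvd
  obtain ⟨j, rfl⟩ := hdvd'
  rw [Subgroup.mem_bot, zpow_mul, zpow_natCast, hcn, one_zpow]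

end Cfsg.Agent.S3964
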