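import Cfsg.Statements.S3966
import Mathlib

set_option autoImplicit false
open Cfsg

namespace Cfsg.Agent.S3966

open scoped commutatorElement

/-- the underlying function of the covering map -/
def covFun (n : ℕ) : QuaternionGroup n → DihedralGroup n
  | QuaternionGroup.a i => DihedralGroup.r (ZMod.castHom (Dvd.intro_left 2 rfl : n ∣ 2 * n) (ZMod n) i)
  | QuaternionGroup.xa i => DihedralGroup.sr (ZMod.castHom (Dvd.intro_left 2 rfl : n ∣ 2 * n) (ZMod n) i)

theorem cast_n (n : ℕ) :
    ZMod.castHom (Dvd.intro_left 2 rfl : n ∣ 2 * n) (ZMod n) (n : ZMod (2 * n)) = 0 := by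
  rw [map_natCast]; exact ZMod.natCast_self n

/-- the covering map -/
def cov (n : ℕ) : QuaternionGroup n →* DihedralGroup n :=
  MonoidHom.mk' (covFun n) (by
    intro x y
    cases x with
    | a i =>
      cases y with
      | a j => simp only [QuaternionGroup.a_mul_a, covFun, DihedralGroup.r_mul_r, map_add]
      | xa j => simp only [QuaternionGroup.a_mul_xa, covFun, DihedralGroup.r_mul_sr, map_sub]
    | xa i =>
      cases y with
      | a j => simp only [QuaternionGroup.xa_mul_a, covFun, DihedralGroup.sr_mul_r, map_add]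
      | xa j =>
        simp only [QuaternionGroup.xa_mul_xa, covFun, DihedralGroup.sr_mul_sr, map_add, map_sub,
          cast_n, zero_add])

theorem cov_a (n : ℕ) (i : ZMod (2 * n)) :
    cov n (QuaternionGroup.a i) =
      DihedralGroup.r (ZMod.castHom (Dvd.intro_left 2 rfl : n ∣ 2 * n) (ZMod n) i) := rfl

theorem cov_xa (n : ℕ) (i : ZMod (2 * n)) :
    cov n (QuaternionGroup.xa i) =
      DihedralGroup.sr (ZMod.castHom (Dvd.intro_left 2 rfl : n ∣ 2 * n) (ZMod n) i) := rfl

theorem cov_surj (n : ℕ) [NeZero n] : Function.Surjective (cov n) := by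
  intro g
  cases g with
  | r k =>
    refine ⟨QuaternionGroup.a ((k.val : ℕ) : ZMod (2 * n)), ?_⟩
    rw [cov_a, map_natCast, ZMod.natCast_zmod_val]
  | sr k =>
    refine ⟨QuaternionGroup.xa ((k.val : ℕ) : ZMod (2 * n)), ?_⟩
    rw [cov_xa, map_natCast, ZMod.natCast_zmod_val]

theorem nn (n : ℕ) : (n : ZMod (2 * n)) + n = 0 := by
  have h2n : ((2 * n : ℕ) : ZMod (2 * n)) = 0 := ZMod.natCast_self _
  rw [← h2n]; push_cast; ring

theorem mem_ker (n : ℕ) [NeZero n] (g : QuaternionGroup n) (hg : g ∈ (cov n).ker) :
    g = 1 ∨ g = QuaternionGroup.a (n : ZMod (2 * n)) := by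
  rw [MonoidHom.mem_ker] at hg
  have : NeZero (2 * n) := ⟨by have := NeZero.ne n; omega⟩
  cases g with
  | a i =>
    rw [cov_a, DihedralGroup.one_def] at hg
    have h0 : ZMod.castHom (Dvd.intro_left 2 rfl : n ∣ 2 * n) (ZMod n) i = 0 := DihedralGroup.r.inj hg
    have hi : i = ((i.val : ℕ) : ZMod (2 * n)) := (ZMod.natCast_zmod_val i).symm
    rw [hi, map_natCast, ZMod.natCast_eq_zero_iff] at h0
    have hlt : i.val < 2 * n := ZMod.val_lt i
    obtain ⟨q, hq⟩ := h0
    have hq2 : q < 2 := by
      by_contra hge
      have : n * q ≥ n * 2 := Nat.mul_le_mul_left n (by omega)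
      omega
    interval_cases q
    · left
      rw [hi, hq, QuaternionGroup.one_def]; simp
    · right
      rw [hi, hq]; simp
  | xa i =>
    rw [cov_xa, DihedralGroup.one_def] at hg
    cases hg

theorem an_central (n : ℕ) :
    QuaternionGroup.a (n : ZMod (2 * n)) ∈ Subgroup.center (QuaternionGroup n) := by
  rw [Subgroup.mem_center_iff]
  intro g
  cases g with
  | a j => rw [QuaternionGroup.a_mul_a, QuaternionGroup.a_mul_a, add_comm]
  | xa j =>
    rw [QuaternionGroup.xa_mul_a, QuaternionGroup.a_mul_xa]
    congr 1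
    linear_combination nn n

theorem an_comm (n : ℕ) (hn : Even n) :
    QuaternionGroup.a (n : ZMod (2 * n)) ∈ commutator (QuaternionGroup n) := by
  obtain ⟨m, hm⟩ := hn
  have h1 : (QuaternionGroup.a 1 : QuaternionGroup n) ^ 2 ∈ commutator (QuaternionGroup n) := by
    have h2 : ⁅(QuaternionGroup.a 1 : QuaternionGroup n), (QuaternionGroup.xa 0 : QuaternionGroup n)⁆ = QuaternionGroup.a 1 ^ 2 := by
      have hx : (QuaternionGroup.xa 0 : QuaternionGroup n)⁻¹ = QuaternionGroup.xa (n : ZMod (2 * n)) := by
        apply inv_eq_of_mul_eq_one_right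
        rw [QuaternionGroup.xa_mul_xa, QuaternionGroup.one_def]
        congr 1
        rw [sub_zero]; exact nn n
      have ha : (QuaternionGroup.a 1 : QuaternionGroup n)⁻¹ = QuaternionGroup.a (-1) := by
        apply inv_eq_of_mul_eq_one_right
        rw [QuaternionGroup.a_mul_a, QuaternionGroup.one_def]
        congr 1
        ring
      rw [commutatorElement_def, hx, ha, QuaternionGroup.a_mul_xa, QuaternionGroup.xa_mul_a,
        QuaternionGroup.xa_mul_xa, QuaternionGroup.a_one_pow]
      congr 1
      push_cast
      linear_combination nn n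
    rw [← h2, commutator_def]
    exact Subgroup.commutator_mem_commutator (Subgroup.mem_top _) (Subgroup.mem_top _)
  have h3 : QuaternionGroup.a (n : ZMod (2 * n)) = ((QuaternionGroup.a 1 : QuaternionGroup n) ^ 2) ^ m := by
    rw [← pow_mul, QuaternionGroup.a_one_pow]
    congr 2
    omega
  rw [h3]
  exact Subgroup.pow_mem _ h1 m

/-- For even `n ≥ 2` the dicyclic group of order `4 n` is a stem extension of the dihedral group of order `2 n` with kernel of order `2`: there is a surjective homomorphism `QuaternionGroup n →* DihedralGroup n` whose kernel is central, lies in the commutator subgroup and has two elements. Together with the order of the multiplier this exhibits the dicyclic group as a Schur covering group of the dihedral group. -/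
theorem result (n : ℕ) [NeZero n] (hn : Even n) : ∃ σ : QuaternionGroup n →* DihedralGroup n, Cfsg.IsStemExtension σ ∧ Nat.card σ.ker = 2 := by
  refine ⟨cov n, ⟨cov_surj n, ?_, ?_⟩, ?_⟩
  · intro g hg
    rcases mem_ker n g hg with rfl | rfl
    · exact Subgroup.one_mem _
    · exact an_central n
  · intro g hg
    rcases mem_ker n g hg with rfl | rfl
    · exact Subgroup.one_mem _
    · exact an_comm n hn
  · have h1 := Subgroup.card_mul_index (cov n).ker
    rw [Subgroup.index_ker, MonoidHom.range_eq_top_of_surjective _ (cov_surj n), Subgroup.card_top,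
      DihedralGroup.nat_card, Nat.card_eq_fintype_card (α := QuaternionGroup n), QuaternionGroup.card] at h1
    have hn0 : 0 < n := Nat.pos_of_ne_zero (NeZero.ne n)
    have : Nat.card (cov n).ker * (2 * n) = 2 * (2 * n) := by rw [h1]; ring
    exact Nat.eq_of_mul_eq_mul_right (by omega) this

end Cfsg.Agent.S3966
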