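import Cfsg.Statements.S3965
import Cfsg.Agent.Lib_helper5_Schur
import Cfsg.Agent.S3966

set_option autoImplicit false
open Cfsg

namespace Cfsg.Agent.S3965

open Cfsg.Agent.Lib_helper5_Schur in
/-- For even `n ≥ 2` the dihedral group of order `2 n` has Schur multiplier cyclic of order `2`. -/
theorem result (n : ℕ) [NeZero n] (hn : Even n) : Cfsg.HasCyclicSchurMultiplier (DihedralGroup n) 2 := by
  refine ⟨?_, ?_⟩
  · obtain ⟨σ, hσ, hcard⟩ := Cfsg.Agent.S3966.result n hn
    refine ⟨QuaternionGroup n, inferInstance, inferInstance, σ, hσ, ?_⟩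
    have hp : Fact (Nat.Prime 2) := ⟨Nat.prime_two⟩
    have hc : IsCyclic σ.ker := isCyclic_of_prime_card hcard
    have e : Nonempty (Multiplicative (ZMod (Nat.card σ.ker)) ≃* σ.ker) := ⟨zmodCyclicMulEquiv hc⟩
    rw [hcard] at e
    obtain ⟨e⟩ := e
    exact ⟨e.symm⟩
  · intro Γ _ _ σ hσ
    obtain ⟨α, hα⟩ := hσ.1 (DihedralGroup.r 1)
    obtain ⟨ξ, hξ⟩ := hσ.1 (DihedralGroup.sr 0)
    have hgen : Subgroup.closure {σ α, σ ξ} = ⊤ := by rw [hα, hξ]; exact dihedral_gen n
    have hrel : σ ξ * σ α * (σ ξ)⁻¹ = (σ α)⁻¹ := by rw [hα, hξ]; simp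
    have hcomm : Commute (α ^ n) ξ := by
      have : α ^ n ∈ σ.ker := by rw [MonoidHom.mem_ker, map_pow, hα, DihedralGroup.r_one_pow_n]
      exact (Subgroup.mem_center_iff.mp (hσ.2.1 this) ξ).symm
    obtain ⟨c, hcn, hc⟩ := stem_dihedral_like σ hσ α ξ hgen hrel n hcomm
    obtain ⟨m, hm⟩ := hn
    have hm0 : m ≠ 0 := by
      intro h; subst h
      exact NeZero.ne n (by omega)
    set e := c ^ m with he
    have he2 : e ^ 2 = 1 := by
      rw [he, ← pow_mul, ← hcn]; congr 1; omega
    have hall : ∀ z ∈ σ.ker, z = 1 ∨ z = e := by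
      intro z hz
      obtain ⟨k, rfl, hk⟩ := hc z hz
      rw [hα] at hk
      have hdvd : (n : ℤ) ∣ 2 * k := by
        have := orderOf_dvd_iff_zpow_eq_one.mpr hk
        rwa [DihedralGroup.orderOf_r_one] at this
      have hdvd' : (m : ℤ) ∣ k := by
        rw [hm] at hdvd
        have h2 : (2 : ℤ) * m ∣ 2 * k := by
          have : ((m + m : ℕ) : ℤ) = 2 * m := by push_cast; ring
          rwa [this] at hdvd
        exact (mul_dvd_mul_iff_left (by norm_num : (2 : ℤ) ≠ 0)).mp h2
      obtain ⟨j, rfl⟩ := hdvd'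
      rw [zpow_mul, zpow_natCast, ← he]
      rcases Int.even_or_odd j with ⟨t, ht⟩ | ⟨t, ht⟩
      · left
        rw [ht, ← two_mul, zpow_mul, zpow_ofNat, he2, one_zpow]
      · right
        rw [ht, zpow_add, zpow_mul, zpow_ofNat, he2, one_zpow, one_mul, zpow_one]
    by_cases hek : e ∈ σ.ker
    · apply surj_of_two (⟨e, hek⟩ : σ.ker)
      · ext; simpa using he2
      · intro z
        rcases hall z z.2 with h | h
        · left; ext; simpa using h
        · right; ext; simpa using h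
    · apply surj_of_two (1 : σ.ker) (by simp)
      intro z
      left
      rcases hall z z.2 with h | h
      · ext; simpa using h
      · exact absurd (h ▸ z.2) hek

end Cfsg.Agent.S3965
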