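import Cfsg.Statements.S3969
import Cfsg.Agent.Lib_helper5_AutP
import Cfsg.Agent.Lib_helper1_Coprime

set_option autoImplicit false
open Cfsg

namespace Cfsg.Agent.S3969

/-- Let `P` be an abelian Sylow `p`-subgroup of the finite group `G`, generated by `d` elements (`d` its minimal number of generators). If the order of `G` is coprime to `(p - 1)(p ^ 2 - 1) ⋯ (p ^ d - 1)`, then `G` has a normal `p`-complement. (The classical statement needs only the largest number of cyclic factors of `P` of equal order in place of `d`; the form here follows from it.) -/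
theorem result {G : Type*} [Group G] [Finite G] (p : ℕ) [Fact p.Prime] (P : Sylow p G) (hab : IsMulCommutative (P : Subgroup G)) (hcop : Nat.Coprime (Nat.card G) (∏ i ∈ Finset.Icc 1 (Group.rank (P : Subgroup G)), (p ^ i - 1))) : Cfsg.HasNormalPComplement p G := by
  have hp := Fact.out (p := p.Prime)
  have hPC : (P : Subgroup G) ≤ Subgroup.centralizer ((P : Subgroup G) : Set G) := by
    intro x hx
    rw [Subgroup.mem_centralizer_iff]
    intro y hy
    have := hab.is_comm.comm (⟨y, hy⟩ : (P : Subgroup G)) ⟨x, hx⟩
    exact congrArg Subtype.val this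
  have hNC : Subgroup.normalizer ((P : Subgroup G) : Set G)
      ≤ Subgroup.centralizer ((P : Subgroup G) : Set G) := by
    by_contra hcon
    let S : Set G := {g | g ∈ Subgroup.normalizer ((P : Subgroup G) : Set G) ∧
      g ∉ Subgroup.centralizer ((P : Subgroup G) : Set G)}
    have hSne : S.Nonempty := by
      rw [SetLike.not_le_iff_exists] at hcon
      obtain ⟨g, hg1, hg2⟩ := hcon
      exact ⟨g, hg1, hg2⟩
    obtain ⟨g, ⟨hgN, hgC⟩, hmin⟩ := Set.exists_min_image S orderOf (Set.toFinite S) hSne
    have hnotp : ∃ r : ℕ, r.Prime ∧ r ∣ orderOf g ∧ r ≠ p := by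
      by_contra hall
      push Not at hall
      have h1 : orderOf g = p ^ (orderOf g).primeFactorsList.length :=
        Nat.eq_prime_pow_of_unique_prime_dvd (orderOf_pos g).ne' (fun {d} hd hdvd => hall d hd hdvd)
      have hz : IsPGroup p (Subgroup.zpowers g) := by
        apply IsPGroup.of_card (n := (orderOf g).primeFactorsList.length)
        rw [Nat.card_zpowers]; exact h1
      have h2 := hz.inf_normalizer_sylow P
      have h3 : g ∈ Subgroup.zpowers g ⊓ Subgroup.normalizer ((P : Subgroup G) : Set G) :=
        ⟨Subgroup.mem_zpowers g, hgN⟩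
      have h4 : g ∈ Subgroup.zpowers g ⊓ (P : Subgroup G) := h2.le h3
      exact hgC (hPC h4.2)
    obtain ⟨r, hr, hrdvd, hrp⟩ := hnotp
    have hgr : g ^ r ∈ Subgroup.centralizer ((P : Subgroup G) : Set G) := by
      by_contra hnot
      have h1 : g ^ r ∈ S := ⟨Subgroup.pow_mem _ hgN r, hnot⟩
      have h2 := hmin _ h1
      have h3 : orderOf (g ^ r) = orderOf g / r := by
        rw [orderOf_pow, Nat.gcd_eq_right hrdvd]
      rw [h3] at h2
      have h4 : orderOf g / r < orderOf g := Nat.div_lt_self (orderOf_pos g) hr.one_lt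
      omega
    let α : MulAut (P : Subgroup G) :=
      Cfsg.Agent.Lib_helper1_Coprime.conjNormalizer (P : Subgroup G) g hgN
    have hα : ∀ x : (P : Subgroup G), ((α x : (P : Subgroup G)) : G) = g * x * g⁻¹ := fun x => rfl
    have hαpow : ∀ (j : ℕ) (x : (P : Subgroup G)),
        (((α ^ j) x : (P : Subgroup G)) : G) = g ^ j * x * (g ^ j)⁻¹ := by
      intro j
      induction j with
      | zero => intro x; simp
      | succ j ih =>
        intro x
        rw [pow_succ', MulAut.mul_apply, hα, ih, pow_succ']
        group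
    obtain ⟨i, hi1, hi2, hi3⟩ := Cfsg.Agent.Lib_helper5_AutP.aut_prime_dvd hr hrp P.2 α (by
        rw [Subgroup.mem_centralizer_iff] at hgC
        push Not at hgC
        obtain ⟨x, hx, hne⟩ := hgC
        refine ⟨⟨x, hx⟩, fun h => hne ?_⟩
        have h1 := congrArg Subtype.val h
        rw [hα] at h1
        have h2 : g * x = x * g := by
          have := congrArg (· * g) h1
          simpa [mul_assoc] using this
        exact h2.symm) (by
        intro x
        apply Subtype.ext
        rw [hαpow]
        rw [Subgroup.mem_centralizer_iff] at hgr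
        have := hgr x x.2
        rw [← this]; group)
    have h1 : r ∣ ∏ i ∈ Finset.Icc 1 (Group.rank (P : Subgroup G)), (p ^ i - 1) :=
      dvd_trans hi3 (Finset.dvd_prod_of_mem _ (Finset.mem_Icc.mpr ⟨hi1, hi2⟩))
    have h2 : r ∣ Nat.card G := dvd_trans hrdvd (orderOf_dvd_natCard g)
    have h3 := Nat.dvd_gcd h2 h1
    rw [hcop.gcd_eq_one, Nat.dvd_one] at h3
    exact hr.one_lt.ne' h3
  exact ⟨P, (MonoidHom.transferSylow P hNC).ker, MonoidHom.normal_ker _,
    MonoidHom.ker_transferSylow_isComplement' P hNC⟩

end Cfsg.Agent.S3969
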