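import Cfsg.Statements.S3971
import Cfsg.Agent.Lib_helper1_Frobenius
import Cfsg.Agent.Lib_helper5_PiHall
import Cfsg.Agent.Lib_helper5_Irr
import Cfsg.Agent.Lib_helper1_Basic

set_option autoImplicit false
open Cfsg

namespace Cfsg.Agent.S3971

theorem conj_pow_eq {G : Type*} [Group G] (a x y : G) (hy : a * x * a⁻¹ = y * x)
    (hc : a * y = y * a) : ∀ k : ℕ, a ^ k * x * (a ^ k)⁻¹ = y ^ k * x := by
  intro k
  induction k with
  | zero => simp
  | succ k ih =>
    have e : a ^ (k + 1) * x * (a ^ (k + 1))⁻¹ = a * (a ^ k * x * (a ^ k)⁻¹) * a⁻¹ := by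
      rw [pow_succ']; group
    have hc' : a * y ^ k = y ^ k * a := (Commute.pow_right (show Commute a y from hc) k).eq
    rw [e, ih, pow_succ]
    calc a * (y ^ k * x) * a⁻¹ = (a * y ^ k) * x * a⁻¹ := by group
      _ = y ^ k * (a * x * a⁻¹) := by rw [hc']; group
      _ = y ^ k * y * x := by rw [hy]; group

theorem mul_mem_iff_rel {G : Type*} [Group G] (Q M : Subgroup G) (h2 : M.relIndex Q = 2)
    {x y : G} (hx : x ∈ Q) (hy : y ∈ Q) : x * y ∈ M ↔ (x ∈ M ↔ y ∈ M) := by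
  have h := Subgroup.mul_mem_iff_of_index_two (H := M.subgroupOf Q) h2 (a := ⟨x, hx⟩)
    (b := ⟨y, hy⟩)
  simpa [Subgroup.mem_subgroupOf] using h

/-- index-two subgroups of a two-generated group are determined by the generators they
contain -/
theorem eq_of_type {G : Type*} [Group G] (Q M M' : Subgroup G) (hM : M ≤ Q) (hM' : M' ≤ Q)
    (h2 : M.relIndex Q = 2) (h2' : M'.relIndex Q = 2) (c b : G)
    (hgen : Q ≤ Subgroup.closure {c, b}) (hc : c ∈ Q) (hb : b ∈ Q)
    (h1 : c ∈ M ↔ c ∈ M') (h3 : b ∈ M ↔ b ∈ M') : M = M' := by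
  have key : ∀ y ∈ Subgroup.closure ({c, b} : Set G), y ∈ Q ∧ (y ∈ M ↔ y ∈ M') := by
    intro y hy
    induction hy using Subgroup.closure_induction with
    | mem x hx =>
      rcases hx with hx | hx
      · rw [hx]; exact ⟨hc, h1⟩
      · rw [Set.mem_singleton_iff] at hx
        rw [hx]; exact ⟨hb, h3⟩
    | one => exact ⟨Q.one_mem, by simp [M.one_mem, M'.one_mem]⟩
    | mul x y _ _ hx hy =>
      refine ⟨Q.mul_mem hx.1 hy.1, ?_⟩
      rw [mul_mem_iff_rel Q M h2 hx.1 hy.1, mul_mem_iff_rel Q M' h2' hx.1 hy.1, hx.2, hy.2]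
    | inv x _ hx =>
      refine ⟨Q.inv_mem hx.1, ?_⟩
      rw [M.inv_mem_iff, M'.inv_mem_iff]
      exact hx.2
  ext y
  constructor
  · intro hy
    exact (key y (hgen (hM hy))).2.mp hy
  · intro hy
    exact (key y (hgen (hM' hy))).2.mpr hy

theorem conj_shift {G : Type*} [Group G] (g c : G) (i d : ℕ)
    (h : Subgroup.zpowers (g ^ i * c * (g ^ i)⁻¹) =
      Subgroup.zpowers (g ^ (i + d) * c * (g ^ (i + d))⁻¹)) :
    g ^ d * c * (g ^ d)⁻¹ ∈ Subgroup.zpowers c := by
  have h1 : g ^ (i + d) * c * (g ^ (i + d))⁻¹ ∈ Subgroup.zpowers (g ^ i * c * (g ^ i)⁻¹) := by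
    rw [h]; exact Subgroup.mem_zpowers _
  obtain ⟨e, he⟩ := Subgroup.mem_zpowers_iff.mp h1
  rw [conj_zpow] at he
  rw [Subgroup.mem_zpowers_iff]
  refine ⟨e, ?_⟩
  have h2 : c ^ e = (g ^ i)⁻¹ * (g ^ i * c ^ e * (g ^ i)⁻¹) * g ^ i := by group
  rw [h2, he, pow_add]
  group

theorem cent_of_cyclic_index_two {G : Type*} [Group G] [Finite G] (Q : Subgroup G)
    (hQ : IsPGroup 2 Q) (c : G) (hc : c ∈ Q) (hcard : Nat.card Q ≤ 2 * orderOf c) (g : G)
    (hg : g ∈ Subgroup.normalizer (Q : Set G)) (hodd : Odd (orderOf g))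
    (h3 : ¬ 3 ∣ orderOf g) : g ∈ Subgroup.centralizer (Q : Set G) := by
  classical
  have h2el : ∀ y ∈ Q, ∃ j : ℕ, orderOf y = 2 ^ j := by
    intro y hy
    obtain ⟨k, hk⟩ := hQ ⟨y, hy⟩
    have h1 : y ^ 2 ^ k = 1 := congrArg Subtype.val hk
    obtain ⟨j, -, hj⟩ := (Nat.dvd_prime_pow Nat.prime_two).mp (orderOf_dvd_of_pow_eq_one h1)
    exact ⟨j, hj⟩
  obtain ⟨k, hck⟩ := h2el c hc
  have hle : Subgroup.zpowers c ≤ Q := Subgroup.zpowers_le.mpr hc
  have hgpow : ∀ i : ℕ, ∀ y ∈ Q, g ^ i * y * (g ^ i)⁻¹ ∈ Q := by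
    intro i y hy
    exact (Subgroup.mem_normalizer_iff.mp (Subgroup.pow_mem _ hg i) y).mp hy
  have hopos : 0 < orderOf c := orderOf_pos c
  have hdvd : orderOf c ∣ Nat.card Q := Subgroup.orderOf_dvd_natCard Q hc
  -- two cases
  have hcases : Subgroup.zpowers c = Q ∨ (Subgroup.zpowers c).relIndex Q = 2 := by
    obtain ⟨t, ht⟩ := hdvd
    have hrel := Cfsg.Agent.Lib_helper5_PiHall.card_mul_relIndex_of_le hle
    rw [Nat.card_zpowers, ht] at hrel
    have hrt : (Subgroup.zpowers c).relIndex Q = t := Nat.eq_of_mul_eq_mul_left hopos hrel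
    have ht2 : t ≤ 2 := by
      rw [ht] at hcard
      have : orderOf c * t ≤ orderOf c * 2 := by omega
      exact Nat.le_of_mul_le_mul_left this hopos
    have ht0 : t ≠ 0 := by
      rintro rfl
      rw [mul_zero] at ht
      exact (Nat.card_pos (α := Q)).ne' ht
    have ht' : t = 1 ∨ t = 2 := by omega
    rcases ht' with h1 | h1
    · left
      apply Subgroup.eq_of_le_of_card_ge hle
      rw [Nat.card_zpowers, ht, h1, mul_one]
    · right
      rw [hrt, h1]
  -- g normalizes ⟨c⟩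
  have hgN : g ∈ Subgroup.normalizer ((Subgroup.zpowers c : Subgroup G) : Set G) := by
    rcases hcases with h1 | h1
    · rw [h1]; exact hg
    · have hci : ∀ i : ℕ, g ^ i * c * (g ^ i)⁻¹ ∈ Q := fun i => hgpow i c hc
      have hoi : ∀ i : ℕ, orderOf (g ^ i * c * (g ^ i)⁻¹) = orderOf c := by
        intro i
        exact orderOf_injective (MulAut.conj (g ^ i)).toMonoidHom (MulAut.conj (g ^ i)).injective c
      have hcardQ : Nat.card Q = orderOf c * 2 := by
        have hrel := Cfsg.Agent.Lib_helper5_PiHall.card_mul_relIndex_of_le hle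
        rw [Nat.card_zpowers, h1] at hrel
        exact hrel.symm
      have hMle : ∀ i : ℕ, Subgroup.zpowers (g ^ i * c * (g ^ i)⁻¹) ≤ Q :=
        fun i => Subgroup.zpowers_le.mpr (hci i)
      have hMrel : ∀ i : ℕ, (Subgroup.zpowers (g ^ i * c * (g ^ i)⁻¹)).relIndex Q = 2 := by
        intro i
        have hrel := Cfsg.Agent.Lib_helper5_PiHall.card_mul_relIndex_of_le (hMle i)
        rw [Nat.card_zpowers, hoi, hcardQ] at hrel
        exact Nat.eq_of_mul_eq_mul_left hopos hrel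
      obtain ⟨b, hbQ, hbc⟩ : ∃ b ∈ Q, b ∉ Subgroup.zpowers c := by
        by_contra hcon
        push Not at hcon
        have h4 : Q ≤ Subgroup.zpowers c := hcon
        have h5 := Subgroup.card_le_of_le h4
        rw [Nat.card_zpowers, hcardQ] at h5
        omega
      have hgen : Q ≤ Subgroup.closure {c, b} := by
        intro y hy
        by_cases hyc : y ∈ Subgroup.zpowers c
        · exact (Subgroup.zpowers_le.mpr (Subgroup.subset_closure (Set.mem_insert c {b}))) hyc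
        · have h4 : y * b ∈ Subgroup.zpowers c := by
            rw [mul_mem_iff_rel Q _ h1 hy hbQ]
            exact ⟨fun h => absurd h hyc, fun h => absurd h hbc⟩
          have h5 : y = (y * b) * b⁻¹ := by group
          rw [h5]
          exact Subgroup.mul_mem _
            ((Subgroup.zpowers_le.mpr (Subgroup.subset_closure (Set.mem_insert c {b}))) h4)
            (Subgroup.inv_mem _ (Subgroup.subset_closure
              (Set.mem_insert_of_mem c (Set.mem_singleton b))))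
      have hnot : ∀ i : ℕ, ¬ (c ∈ Subgroup.zpowers (g ^ i * c * (g ^ i)⁻¹) ∧
          b ∈ Subgroup.zpowers (g ^ i * c * (g ^ i)⁻¹)) := by
        rintro i ⟨h4, h5⟩
        have h6 : Q ≤ Subgroup.zpowers (g ^ i * c * (g ^ i)⁻¹) := by
          apply hgen.trans
          rw [Subgroup.closure_le]
          intro y hy
          rcases hy with hy | hy
          · rw [hy]; exact h4
          · rw [Set.mem_singleton_iff] at hy
            rw [hy]; exact h5
        have h7 := Subgroup.relIndex_eq_one.mpr h6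
        rw [hMrel i] at h7
        norm_num at h7
      let f : Fin 4 → Fin 3 := fun i =>
        if c ∈ Subgroup.zpowers (g ^ (i : ℕ) * c * (g ^ (i : ℕ))⁻¹) then 0
        else if b ∈ Subgroup.zpowers (g ^ (i : ℕ) * c * (g ^ (i : ℕ))⁻¹) then 1 else 2
      obtain ⟨i, j, hij, hf⟩ := Fintype.exists_ne_map_eq_of_card_lt f (by simp)
      have hcb : ∀ i j : Fin 4, f i = f j →
          Subgroup.zpowers (g ^ (i : ℕ) * c * (g ^ (i : ℕ))⁻¹) =
            Subgroup.zpowers (g ^ (j : ℕ) * c * (g ^ (j : ℕ))⁻¹) := by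
        intro i j hf
        have hi := hnot i
        have hj := hnot j
        have h45 : (c ∈ Subgroup.zpowers (g ^ (i : ℕ) * c * (g ^ (i : ℕ))⁻¹) ↔
            c ∈ Subgroup.zpowers (g ^ (j : ℕ) * c * (g ^ (j : ℕ))⁻¹)) ∧
            (b ∈ Subgroup.zpowers (g ^ (i : ℕ) * c * (g ^ (i : ℕ))⁻¹) ↔
            b ∈ Subgroup.zpowers (g ^ (j : ℕ) * c * (g ^ (j : ℕ))⁻¹)) := by
          simp only [f] at hf
          split_ifs at hf with h4 h5 h6 h7 h8 h9 <;>
            first
            | exact absurd hf (by decide)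
            | tauto
        exact eq_of_type Q _ _ (hMle i) (hMle j) (hMrel i) (hMrel j) c b hgen hc hbQ h45.1 h45.2
      have hmain : ∃ d : ℕ, 1 ≤ d ∧ d ≤ 3 ∧ g ^ d * c * (g ^ d)⁻¹ ∈ Subgroup.zpowers c := by
        have hij' : (i : ℕ) ≠ (j : ℕ) := fun h => hij (Fin.ext h)
        rcases Nat.lt_or_gt_of_ne hij' with hlt | hlt
        · refine ⟨(j : ℕ) - (i : ℕ), by omega, by omega, ?_⟩
          apply conj_shift g c (i : ℕ)
          have : (i : ℕ) + ((j : ℕ) - (i : ℕ)) = (j : ℕ) := by omega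
          rw [this]
          exact hcb i j hf
        · refine ⟨(i : ℕ) - (j : ℕ), by omega, by omega, ?_⟩
          apply conj_shift g c (j : ℕ)
          have : (j : ℕ) + ((i : ℕ) - (j : ℕ)) = (i : ℕ) := by omega
          rw [this]
          exact hcb j i hf.symm
      obtain ⟨d, hd1, hd3, hd⟩ := hmain
      have hdN : g ^ d ∈ Subgroup.normalizer ((Subgroup.zpowers c : Subgroup G) : Set G) :=
        (Cfsg.Agent.Lib_helper5_Irr.mem_normalizer_zpowers_iff c (g ^ d)).mpr hd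
      have hcop : d.Coprime (orderOf g) := by
        interval_cases d
        · exact Nat.coprime_one_left _
        · exact Nat.coprime_two_left.mpr hodd
        · exact (Nat.Prime.coprime_iff_not_dvd Nat.prime_three).mpr h3
      obtain ⟨m, hm⟩ := exists_pow_eq_self_of_coprime hcop
      rw [← hm]
      exact Subgroup.pow_mem _ hdN m
  have hgc : g * c * g⁻¹ = c :=
    Cfsg.Agent.Lib_helper5_Irr.odd_centralizes_cyclic_two c g k hck hgN hodd
  have hgz : ∀ z ∈ Subgroup.zpowers c, g * z * g⁻¹ = z := by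
    intro z hz
    obtain ⟨e, rfl⟩ := Subgroup.mem_zpowers_iff.mp hz
    rw [← conj_zpow, hgc]
  have hz : ∀ y ∈ Q, g * y * g⁻¹ * y⁻¹ ∈ Subgroup.zpowers c := by
    intro y hy
    have hgy : g * y * g⁻¹ ∈ Q := (Subgroup.mem_normalizer_iff.mp hg y).mp hy
    rcases hcases with h1 | h1
    · rw [h1]
      exact Q.mul_mem hgy (Q.inv_mem hy)
    · by_cases hyc : y ∈ Subgroup.zpowers c
      · rw [hgz y hyc, mul_inv_cancel]
        exact Subgroup.one_mem _
      · rw [mul_mem_iff_rel Q _ h1 hgy (Q.inv_mem hy)]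
        constructor
        · intro h4
          exfalso
          apply hyc
          have h5 := hgz _ h4
          have h6 : g * y * g⁻¹ = y := by
            calc g * y * g⁻¹ = g⁻¹ * (g * (g * y * g⁻¹) * g⁻¹) * g := by group
              _ = g⁻¹ * (g * y * g⁻¹) * g := by rw [h5]
              _ = y := by group
          rw [← h6]; exact h4
        · intro h4
          exact absurd ((Subgroup.inv_mem_iff _).mp h4) hyc
  rw [Subgroup.mem_centralizer_iff]
  intro y hy
  have hzy := hz y hy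
  have hyx : g * y * g⁻¹ = (g * y * g⁻¹ * y⁻¹) * y := by group
  have hcz : g * (g * y * g⁻¹ * y⁻¹) = (g * y * g⁻¹ * y⁻¹) * g :=
    mul_inv_eq_iff_eq_mul.mp (hgz _ hzy)
  have h4 := conj_pow_eq g y _ hyx hcz (orderOf g)
  rw [pow_orderOf_eq_one] at h4
  simp only [one_mul, inv_one, mul_one] at h4
  have h5 : (g * y * g⁻¹ * y⁻¹) ^ orderOf g = 1 := by
    have : (g * y * g⁻¹ * y⁻¹) ^ orderOf g * y = 1 * y := by rw [one_mul]; exact h4.symm
    exact mul_right_cancel this
  obtain ⟨j, hj⟩ := h2el _ (hle hzy)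
  have h6 : (g * y * g⁻¹ * y⁻¹) ^ 2 ^ j = 1 := by rw [← hj]; exact pow_orderOf_eq_one _
  have h7 := pow_gcd_eq_one.mpr ⟨h5, h6⟩
  rw [Nat.Coprime.gcd_eq_one (Nat.Coprime.pow_right j
    (Nat.coprime_two_left.mpr hodd).symm), pow_one] at h7
  have h8 : g * y * g⁻¹ = y := by
    rw [hyx, h7, one_mul]
  calc y * g = (g * y * g⁻¹) * g := by rw [h8]
    _ = g * y := by group

theorem exists_cyclic {G : Type*} [Group G] [Finite G] (a n : ℕ) (hG : Nat.card G = 2 ^ a * n)
    (hn : Odd n) (hx : ∃ x : G, orderOf x = 2 ^ (a - 1)) (Q : Subgroup G) (hQ : IsPGroup 2 Q) :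
    ∃ c ∈ Q, Nat.card Q ≤ 2 * orderOf c := by
  haveI : Fact (Nat.Prime 2) := ⟨Nat.prime_two⟩
  obtain ⟨x, hxo⟩ := hx
  have hzp : IsPGroup 2 (Subgroup.zpowers x) :=
    IsPGroup.of_card (n := a - 1) (by rw [Nat.card_zpowers, hxo])
  obtain ⟨P₀, hP₀⟩ := hzp.exists_le_sylow
  obtain ⟨P₁, hP₁⟩ := hQ.exists_le_sylow
  obtain ⟨h, hh⟩ := MulAction.exists_smul_eq G P₀ P₁
  have hx'P : h * x * h⁻¹ ∈ (P₁ : Subgroup G) := by
    rw [← hh, Cfsg.Agent.Lib_helper1_Basic.mem_sylow_smul]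
    have : h⁻¹ * (h * x * h⁻¹) * h = x := by group
    rw [this]
    exact hP₀ (Subgroup.mem_zpowers x)
  have hx'o : orderOf (h * x * h⁻¹) = 2 ^ (a - 1) := by
    rw [← hxo]
    exact orderOf_injective (MulAut.conj h).toMonoidHom (MulAut.conj h).injective x
  have hcardP : Nat.card (P₁ : Subgroup G) = 2 ^ a := by
    obtain ⟨j, hj⟩ := IsPGroup.iff_card.mp P₁.2
    have h1 : 2 ^ j ∣ 2 ^ a * n := by
      rw [← hj, ← hG]; exact Subgroup.card_subgroup_dvd_card _
    have h2 : 2 ^ j ∣ 2 ^ a :=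
      Nat.Coprime.dvd_of_dvd_mul_right (Nat.Coprime.pow_left j (Nat.coprime_two_left.mpr hn)) h1
    have h3 : 2 ^ a ∣ Nat.card (P₁ : Subgroup G) :=
      P₁.pow_dvd_card_of_pow_dvd_card (by rw [hG]; exact Dvd.intro _ rfl)
    rw [hj] at h3 ⊢
    exact Nat.dvd_antisymm h2 h3
  have hZle : Subgroup.zpowers (h * x * h⁻¹) ≤ (P₁ : Subgroup G) := Subgroup.zpowers_le.mpr hx'P
  have hrelP : (Subgroup.zpowers (h * x * h⁻¹)).relIndex (P₁ : Subgroup G) ≤ 2 := by
    have h1 := Cfsg.Agent.Lib_helper5_PiHall.card_mul_relIndex_of_le hZle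
    rw [Nat.card_zpowers, hx'o, hcardP] at h1
    rcases Nat.eq_zero_or_pos a with ha | ha
    · subst ha
      have h2 : (2 : ℕ) ^ (0 - 1) = 1 := by norm_num
      rw [h2, one_mul] at h1
      omega
    · have h2 : 2 ^ a = 2 ^ (a - 1) * 2 := by
        rw [← pow_succ]; congr 1; omega
      rw [h2] at h1
      have := Nat.eq_of_mul_eq_mul_left (pow_pos (by norm_num) (a - 1)) h1
      omega
  have hrelP0 : (Subgroup.zpowers (h * x * h⁻¹)).relIndex (P₁ : Subgroup G) ≠ 0 := by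
    intro h0
    have h1 := Cfsg.Agent.Lib_helper5_PiHall.card_mul_relIndex_of_le hZle
    rw [h0, mul_zero] at h1
    exact (Nat.card_pos (α := (P₁ : Subgroup G))).ne' h1.symm
  have hrelQ : (Q ⊓ Subgroup.zpowers (h * x * h⁻¹)).relIndex Q ≤ 2 := by
    rw [Subgroup.inf_relIndex_left]
    exact (Subgroup.relIndex_le_of_le_right hP₁ hrelP0).trans hrelP
  have hcardQ := Cfsg.Agent.Lib_helper5_PiHall.card_mul_relIndex_of_le
    (inf_le_left : Q ⊓ Subgroup.zpowers (h * x * h⁻¹) ≤ Q)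
  haveI : IsCyclic ↥(Q ⊓ Subgroup.zpowers (h * x * h⁻¹)) :=
    Subgroup.isCyclic_of_le (inf_le_right : Q ⊓ Subgroup.zpowers (h * x * h⁻¹) ≤ _)
  obtain ⟨c, hc⟩ := IsCyclic.exists_ofOrder_eq_natCard
    (α := ↥(Q ⊓ Subgroup.zpowers (h * x * h⁻¹)))
  refine ⟨(c : G), c.2.1, ?_⟩
  rw [Subgroup.orderOf_coe, hc, ← hcardQ]
  have := Nat.mul_le_mul_left (Nat.card ↥(Q ⊓ Subgroup.zpowers (h * x * h⁻¹))) hrelQ
  omega



/-- Let `G` be a finite group of order `2 ^ a * n` with `n` odd and not divisible by `3`, and suppose `G` has an element of order `2 ^ (a - 1)` (so a Sylow `2`-subgroup has a cyclic subgroup of index at most `2`). Then `G` has a normal subgroup of order `n`. -/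
theorem result {G : Type*} [Group G] [Finite G] (a n : ℕ) (hG : Nat.card G = 2 ^ a * n) (hn : Odd n) (h3 : ¬ 3 ∣ n) (hx : ∃ x : G, orderOf x = 2 ^ (a - 1)) : ∃ N : Subgroup G, N.Normal ∧ Nat.card N = n := by
  haveI : Fact (Nat.Prime 2) := ⟨Nat.prime_two⟩
  have hfrob : Cfsg.Agent.Lib_helper1_Frobenius.FrobHyp 2 G := by
    intro Q hQ g hg hgo
    have hodd : Odd (orderOf g) := Nat.coprime_two_left.mp hgo.symm
    have h3' : ¬ 3 ∣ orderOf g := by
      intro h
      have h1 : orderOf g ∣ 2 ^ a * n := hG ▸ orderOf_dvd_natCard g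
      have h2 : orderOf g ∣ n :=
        Nat.Coprime.dvd_of_dvd_mul_left (Nat.Coprime.pow_right a hgo) h1
      exact h3 (h.trans h2)
    obtain ⟨c, hc, hcard⟩ := exists_cyclic a n hG hn hx Q hQ
    exact cent_of_cyclic_index_two Q hQ c hc hcard g hg hodd h3'
  obtain ⟨N, hN, hcop, k, hk⟩ := Cfsg.Agent.Lib_helper1_Frobenius.frobenius hfrob
  refine ⟨N, hN, ?_⟩
  have h1 := Subgroup.card_mul_index N
  rw [hk, hG] at h1
  have hn2 : Nat.Coprime n 2 := (Nat.coprime_two_left.mpr hn).symm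
  apply Nat.dvd_antisymm
  · have h2 : Nat.card N ∣ 2 ^ a * n := by rw [← h1]; exact Dvd.intro _ rfl
    exact Nat.Coprime.dvd_of_dvd_mul_left (Nat.Coprime.pow_right a hcop) h2
  · have h2 : n ∣ Nat.card N * 2 ^ k := by rw [h1]; exact Dvd.intro_left _ rfl
    exact Nat.Coprime.dvd_of_dvd_mul_right (Nat.Coprime.pow_right k hn2) h2

end Cfsg.Agent.S3971
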