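import Cfsg.Statements.S3976
import Cfsg.Agent.Lib_helper5_Frob

set_option autoImplicit false
open Cfsg Pointwise MulAction

namespace Cfsg.Agent.S3976

/-- the conjugation action on the subgroups of a given order -/
def subAct (G : Type*) [Group G] (q : ℕ) : SubMulAction (ConjAct G) (Subgroup G) where
  carrier := {H | Nat.card H = q}
  smul_mem' := by
    intro g H hH
    show Nat.card (g • H : Subgroup G) = q
    rw [← Nat.card_congr (Subgroup.equivSMul g H).toEquiv]
    exact hH

/-- the fixed points are the normal subgroups -/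
def fixEquiv (G : Type*) [Group G] (q : ℕ) :
    fixedPoints (ConjAct G) (subAct G q) ≃ {H : Subgroup G // H.Normal ∧ Nat.card H = q} where
  toFun x := ⟨x.1.1, by
    refine ⟨⟨?_⟩, x.1.2⟩
    intro n hn g
    have hx := x.2 (ConjAct.toConjAct g)
    have h1 : ((ConjAct.toConjAct g) • x.1 : subAct G q).1 = x.1.1 := congrArg Subtype.val hx
    have h2 : (ConjAct.toConjAct g) • n ∈ ((ConjAct.toConjAct g) • (x.1.1 : Subgroup G) : Subgroup G) :=
      Subgroup.smul_mem_pointwise_smul _ _ _ hn
    have h3 : ((ConjAct.toConjAct g) • x.1 : subAct G q).1 = (ConjAct.toConjAct g) • (x.1.1 : Subgroup G) := rfl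
    rw [← h3, h1] at h2
    rw [ConjAct.smul_def] at h2
    simpa using h2⟩
  invFun H := ⟨⟨H.1, H.2.2⟩, by
    intro g
    apply Subtype.ext
    show g • (H.1 : Subgroup G) = H.1
    exact H.2.1.conjAct g⟩
  left_inv x := by
    apply Subtype.ext
    apply Subtype.ext
    rfl
  right_inv H := by
    apply Subtype.ext
    rfl

/-- Let `p` be a prime and `G` a group of order `p ^ m`. For every `s ≤ m` the number of normal subgroups of `G` of order `p ^ s` is congruent to `1` modulo `p`. -/
theorem result {G : Type*} [Group G] [Finite G] (p m s : ℕ) (hp : p.Prime) (hG : Nat.card G = p ^ m) (hs : s ≤ m) : Nat.card {H : Subgroup G // H.Normal ∧ Nat.card H = p ^ s} ≡ 1 [MOD p] := by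
  haveI : Fact p.Prime := ⟨hp⟩
  have hP : IsPGroup p (ConjAct G) := IsPGroup.of_card (n := m) hG
  have hfin : Finite (subAct G (p ^ s)) :=
    Finite.of_injective (fun x : subAct G (p ^ s) => (x.1 : Subgroup G)) Subtype.val_injective
  have h1 := hP.card_modEq_card_fixedPoints (α := subAct G (p ^ s))
  rw [Nat.card_congr (fixEquiv G (p ^ s))] at h1
  have h2 : Nat.card (subAct G (p ^ s)) ≡ 1 [MOD p] :=
    Cfsg.Agent.Lib_helper5_Frob.card_subgroups_modEq_one (G := G) p s hp
      (by rw [hG]; exact pow_dvd_pow p hs)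
  exact h1.symm.trans h2

end Cfsg.Agent.S3976
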