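import Cfsg.Statements.S3979
import Mathlib

set_option autoImplicit false
open Cfsg

namespace Cfsg.Agent.S3979

/-- A finite cyclic group has trivial Schur multiplier: every finite stem extension of it is an isomorphism, said through `HasCyclicSchurMultiplier G 1`. -/
theorem result {G : Type*} [Group G] [Finite G] [IsCyclic G] : Cfsg.HasCyclicSchurMultiplier G 1 := by
  refine ⟨⟨G, inferInstance, inferInstance, MonoidHom.id G, ⟨Function.surjective_id, ?_, ?_⟩, ⟨?_⟩⟩, ?_⟩
  · simp [MonoidHom.ker_id]
  · simp [MonoidHom.ker_id]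
  · have h1 : ∀ x : (MonoidHom.id G).ker, x = 1 := by
      intro x
      have hx : (x : G) ∈ (MonoidHom.id G).ker := x.2
      rw [MonoidHom.mem_ker] at hx
      exact Subtype.ext hx
    have h2 : ∀ y : Multiplicative (ZMod 1), y = 1 := fun y => Subsingleton.elim _ _
    exact
      { toFun := fun _ => 1
        invFun := fun _ => 1
        left_inv := fun x => (h1 x).symm
        right_inv := fun y => (h2 y).symm
        map_mul' := fun _ _ => by simp }
  · intro Γ _ _ σ hσ
    obtain ⟨hsurj, hcen, hcomm⟩ := hσ
    have hc : IsMulCommutative Γ := σ.isMulCommutative_of_isCyclic_of_ker_le_center hcen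
    have hbot : commutator Γ = ⊥ := by
      rw [commutator_def, Subgroup.commutator_eq_bot_iff_le_centralizer]
      intro a _ b _
      exact (hc.is_comm.comm b a)
    have hker : σ.ker = ⊥ := by
      rw [eq_bot_iff, ← hbot]; exact hcomm
    refine ⟨1, ?_⟩
    intro x
    refine ⟨1, ?_⟩
    have : (x : Γ) ∈ (⊥ : Subgroup Γ) := hker ▸ x.2
    ext
    simpa using (Subgroup.mem_bot.mp this).symm

end Cfsg.Agent.S3979
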