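import Cfsg.Statements.S3997
import Mathlib

set_option autoImplicit false
open Cfsg

namespace Cfsg.Agent.S3997

theorem orderOf_conj' {G : Type*} [Group G] (x g : G) : orderOf (x * g * x⁻¹) = orderOf g := by
  have := MulEquiv.orderOf_eq (MulAut.conj x) g
  rwa [MulAut.conj_apply] at this

theorem sylow_subset {X : Type*} [Group X] [Finite X] (p : ℕ) [Fact p.Prime] (P : Sylow p X) :
    ((P : Subgroup X) : Set X) ⊆ {x : X | ∃ k, orderOf x = p ^ k} := by
  intro x hx
  obtain ⟨k, hk⟩ := P.isPGroup' ⟨x, hx⟩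
  have : x ^ p ^ k = 1 := by simpa using congrArg Subtype.val hk
  obtain ⟨j, _, hj⟩ := (Nat.dvd_prime_pow Fact.out).mp (orderOf_dvd_of_pow_eq_one this)
  exact ⟨j, hj⟩

theorem subset_sylow_of_normal {X : Type*} [Group X] [Finite X] (p : ℕ) [Fact p.Prime] (P : Sylow p X)
    (hP : (P : Subgroup X).Normal) :
    {x : X | ∃ k, orderOf x = p ^ k} ⊆ ((P : Subgroup X) : Set X) := by
  rintro x ⟨k, hk⟩
  have hpg : IsPGroup p (Subgroup.zpowers x) := IsPGroup.of_card (by rw [Nat.card_zpowers, hk])
  obtain ⟨Q, hQ⟩ := hpg.exists_le_sylow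
  have := Sylow.unique_of_normal P hP
  have hQP : Q = P := Subsingleton.elim _ _
  rw [← hQP]; exact hQ (Subgroup.mem_zpowers x)

/-- Let G and H be finite groups with the same order type: for every m they have the same number of elements of order m. If G is nilpotent then so is H. -/
theorem result {G H : Type*} [Group G] [Finite G] [Group H] [Finite H] (hT : (∀ m : ℕ, Nat.card {g : G // orderOf g = m} = Nat.card {h : H // orderOf h = m})) (hG : Group.IsNilpotent G) :
    Group.IsNilpotent H := by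
  have heq : ∀ m : ℕ, Nonempty ({g : G // orderOf g = m} ≃ {h : H // orderOf h = m}) :=
    fun m => Finite.card_eq.mp (hT m)
  let e : G ≃ H := (Equiv.sigmaFiberEquiv (orderOf : G → ℕ)).symm.trans
    ((Equiv.sigmaCongrRight fun m => Classical.choice (heq m)).trans
      (Equiv.sigmaFiberEquiv (orderOf : H → ℕ)))
  have he : ∀ g : G, orderOf (e g) = orderOf g := by
    intro g
    exact (Classical.choice (heq (orderOf g)) ⟨g, rfl⟩).2
  have hcard : Nat.card G = Nat.card H := Nat.card_congr e
  apply (Group.isNilpotent_of_finite_tfae.out 0 3 rfl rfl).mpr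
  intro p hp P
  obtain ⟨PG⟩ : Nonempty (Sylow p G) := inferInstance
  have hPGn : (PG : Subgroup G).Normal := inferInstance
  have hAG : {x : G | ∃ k, orderOf x = p ^ k} = ((PG : Subgroup G) : Set G) :=
    Set.Subset.antisymm (subset_sylow_of_normal p PG hPGn) (sylow_subset p PG)
  have hAcard : Nat.card {x : G // ∃ k, orderOf x = p ^ k} = Nat.card {x : H // ∃ k, orderOf x = p ^ k} :=
    Nat.card_congr (e.subtypeEquiv (fun g => by rw [he]))
  have h1 : ({x : H | ∃ k, orderOf x = p ^ k}).ncard = ((P : Subgroup H) : Set H).ncard := by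
    rw [← Nat.card_coe_set_eq, ← Nat.card_coe_set_eq]
    show Nat.card {x : H // ∃ k, orderOf x = p ^ k} = Nat.card (P : Subgroup H)
    rw [← hAcard, P.card_eq_multiplicity, ← hcard, ← PG.card_eq_multiplicity]
    show Nat.card ↥{x : G | ∃ k, orderOf x = p ^ k} = _
    rw [hAG]; rfl
  have hAH : ((P : Subgroup H) : Set H) = {x : H | ∃ k, orderOf x = p ^ k} :=
    Set.eq_of_subset_of_ncard_le (sylow_subset p P) h1.le (Set.toFinite _)
  constructor
  intro n hn g
  have hn' : n ∈ ((P : Subgroup H) : Set H) := hn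
  rw [hAH] at hn'
  obtain ⟨k, hk⟩ := hn'
  have : g * n * g⁻¹ ∈ ((P : Subgroup H) : Set H) := by
    rw [hAH]; exact ⟨k, by rw [orderOf_conj', hk]⟩
  exact this

end Cfsg.Agent.S3997
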