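import Cfsg.Statements.S4005
import Cfsg.Agent.Lib_helper5_Fitting
import Cfsg.Agent.Lib_helper1_Fitting
import Cfsg.Agent.Lib_helper3_Burnside2
import Cfsg.Agent.Lib_helper6_Sylow
import Cfsg.Agent.Lib_helper6_PCore
import Cfsg.Agent.Lib_helper7_PPrime

set_option autoImplicit false
open Cfsg

namespace Cfsg.Agent.S4005

theorem commute_of_nilpotent {N : Type*} [Group N] [Finite N] [Group.IsNilpotent N] {p q : ℕ}
    [Fact p.Prime] [Fact q.Prime] (hpq : p ≠ q) (u w : N) (hu : ∃ k : ℕ, orderOf u = p ^ k)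
    (hw : ∃ k : ℕ, orderOf w = q ^ k) : Commute u w := by
  obtain ⟨P, hP⟩ := Cfsg.Agent.Lib_helper6_Sylow.pElem_mem_sylow hu
  obtain ⟨Q, hQ⟩ := Cfsg.Agent.Lib_helper6_Sylow.pElem_mem_sylow hw
  exact Subgroup.commute_of_normal_of_disjoint _ _ inferInstance inferInstance
    (IsPGroup.disjoint_of_ne p q hpq _ _ P.2 Q.2) u w hP hQ

/-- a fixed-point-free involution inverts -/
theorem inv_of_fpf {G : Type*} [Group G] (F : Subgroup G) [Finite F] (t : G) (ht2 : t * t = 1)
    (htR : ∀ x ∈ F, t * x * t⁻¹ ∈ F) (hfpf : ∀ w ∈ F, t * w * t⁻¹ = w → w = 1) :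
    ∀ u ∈ F, t * u * t⁻¹ = u⁻¹ := by
  have hti : t⁻¹ = t := inv_eq_of_mul_eq_one_left ht2
  intro u huR
  let φ : F → F := fun x => ⟨(x : G)⁻¹ * (t * x * t⁻¹), F.mul_mem (F.inv_mem x.2) (htR x x.2)⟩
  have hφ : Function.Injective φ := by
    intro x y hxy
    have h1 : (x : G)⁻¹ * (t * x * t⁻¹) = (y : G)⁻¹ * (t * y * t⁻¹) := congrArg Subtype.val hxy
    have h2 : t * ((y : G) * (x : G)⁻¹) * t⁻¹ = (y : G) * (x : G)⁻¹ := by
      have e1 : t * ((y : G) * (x : G)⁻¹) * t⁻¹ = (t * y * t⁻¹) * (t * x * t⁻¹)⁻¹ := by group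
      have e2 : t * (y : G) * t⁻¹ = y * ((x : G)⁻¹ * (t * x * t⁻¹)) := by
        rw [h1]; group
      rw [e1, e2]; group
    have h3 := hfpf _ (F.mul_mem y.2 (F.inv_mem x.2)) h2
    apply Subtype.ext
    exact (mul_inv_eq_one.mp h3).symm
  obtain ⟨x, hx⟩ := (Finite.surjective_of_injective hφ) ⟨u, huR⟩
  have hx' : (x : G)⁻¹ * (t * x * t⁻¹) = u := congrArg Subtype.val hx
  rw [← hx']
  have e1 : t * ((x : G)⁻¹ * (t * x * t⁻¹)) * t⁻¹ = t * (x : G)⁻¹ * t * x * (t⁻¹ * t⁻¹) := by
    group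
  have e2 : ((x : G)⁻¹ * (t * x * t⁻¹))⁻¹ = t * (x : G)⁻¹ * t⁻¹ * x := by group
  rw [e1, e2, hti, ht2, mul_one]

theorem comm_of_inv {G : Type*} [Group G] (F : Subgroup G) (t : G)
    (hinv : ∀ u ∈ F, t * u * t⁻¹ = u⁻¹) : ∀ x ∈ F, ∀ y ∈ F, x * y = y * x := by
  intro x hx y hy
  have h1 := hinv (y * x) (F.mul_mem hy hx)
  have h2 : t * (y * x) * t⁻¹ = (t * y * t⁻¹) * (t * x * t⁻¹) := by group
  rw [h2, hinv x hx, hinv y hy] at h1
  have h3 : (y⁻¹ * x⁻¹)⁻¹ = ((y * x)⁻¹)⁻¹ := by rw [h1]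
  rw [mul_inv_rev, inv_inv, inv_inv, inv_inv] at h3
  exact h3

theorem comm_of_sq {G : Type*} [Group G] (F : Subgroup G) (h : ∀ x ∈ F, x ^ 2 = 1) :
    ∀ x ∈ F, ∀ y ∈ F, x * y = y * x := by
  intro x hx y hy
  have h1 := h x hx
  have h2 := h y hy
  have h3 := h (x * y) (F.mul_mem hx hy)
  rw [pow_two] at h1 h2 h3
  calc x * y = (y * y) * (x * y) * (x * x) := by rw [h1, h2]; group
    _ = y * (y * x) * (y * x) * x := by group
    _ = y * ((y * x) * (y * x)) * x := by group
    _ = y * x := by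
      have h4 : (y * x) * (y * x) = 1 := by
        have : (y * x) * (y * x) = x⁻¹ * ((x * y) * (x * y)) * x := by group
        rw [this, h3]; group
      rw [h4]; group

/-- a subgroup generated by a normal `p`-subgroup and an element of order `p` is a `p`-group -/
theorem isPGroup_sup_zpowers {G : Type*} [Group G] [Finite G] {p : ℕ} [Fact p.Prime]
    (F : Subgroup G) [F.Normal] (hF : IsPGroup p F) (g : G) (hg : orderOf g = p) :
    IsPGroup p ↥(F ⊔ Subgroup.zpowers g) := by
  have hp : p.Prime := Fact.out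
  obtain ⟨n, hn⟩ := IsPGroup.iff_card.mp hF
  have h1 := Cfsg.Agent.Lib_helper7_PPrime.card_sup_dvd (Subgroup.zpowers g) F
  rw [Nat.card_zpowers, hg, hn, ← pow_succ', sup_comm] at h1
  obtain ⟨j, -, hj⟩ := (Nat.dvd_prime_pow hp).mp h1
  exact IsPGroup.of_card hj



/-- A finite group whose set of element orders is exactly {1, 2, 3} has either a normal elementary abelian 3-subgroup of index 2 or a normal elementary abelian 2-subgroup of index 3. -/
theorem result {G : Type*} [Group G] [Finite G] (h : Set.range (orderOf : G → ℕ) = {k : ℕ | 1 ≤ k ∧ k ≤ 3}) :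
    (∃ N : Subgroup G, N.Normal ∧ Cfsg.IsElementaryAbelian 3 N ∧ N.index = 2) ∨
      (∃ N : Subgroup G, N.Normal ∧ Cfsg.IsElementaryAbelian 2 N ∧ N.index = 3) := by
  have hord : ∀ g : G, orderOf g = 1 ∨ orderOf g = 2 ∨ orderOf g = 3 := by
    intro g
    have h1 : orderOf g ∈ Set.range (orderOf : G → ℕ) := ⟨g, rfl⟩
    rw [h] at h1
    obtain ⟨h2, h3⟩ := h1
    interval_cases (orderOf g) <;> simp
  obtain ⟨t, ht⟩ : ∃ t : G, orderOf t = 2 := by
    have : (2 : ℕ) ∈ Set.range (orderOf : G → ℕ) := by rw [h]; exact ⟨by norm_num, by norm_num⟩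
    exact this
  obtain ⟨c, hc⟩ : ∃ c : G, orderOf c = 3 := by
    have : (3 : ℕ) ∈ Set.range (orderOf : G → ℕ) := by rw [h]; exact ⟨by norm_num, by norm_num⟩
    exact this
  -- no commuting elements of orders 2 and 3
  have hno6 : ∀ u w : G, orderOf u = 2 → orderOf w = 3 → u * w ≠ w * u := by
    intro u w hu hw hcomm
    have h1 := Commute.orderOf_mul_eq_mul_orderOf_of_coprime (show Commute u w from hcomm)
      (by rw [hu, hw]; norm_num)
    rw [hu, hw] at h1
    rcases hord (u * w) with h2 | h2 | h2 <;> omega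
  have hsq_of : ∀ g : G, orderOf g ≠ 3 → g ^ 2 = 1 := by
    intro g hg
    rcases hord g with h1 | h1 | h1
    · rw [orderOf_eq_one_iff] at h1; rw [h1, one_pow]
    · rw [← h1]; exact pow_orderOf_eq_one g
    · exact absurd h1 hg
  have hcube_of : ∀ g : G, orderOf g ≠ 2 → g ^ 3 = 1 := by
    intro g hg
    rcases hord g with h1 | h1 | h1
    · rw [orderOf_eq_one_iff] at h1; rw [h1, one_pow]
    · exact absurd h1 hg
    · rw [← h1]; exact pow_orderOf_eq_one g
  have ho2 : ∀ g : G, g ^ 2 = 1 → g ≠ 1 → orderOf g = 2 := by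
    intro g hg hg1
    exact orderOf_eq_prime hg hg1
  have ho3 : ∀ g : G, g ^ 3 = 1 → g ≠ 1 → orderOf g = 3 := by
    intro g hg hg1
    haveI : Fact (Nat.Prime 3) := ⟨Nat.prime_three⟩
    exact orderOf_eq_prime hg hg1
  -- the order of G
  have hcard : ∃ a b : ℕ, Nat.card G = 2 ^ a * 3 ^ b := by
    obtain ⟨a, m, hm, hGm⟩ := Nat.exists_eq_pow_mul_and_not_dvd (Nat.card_pos (α := G)).ne' 2
      (by norm_num)
    have hm0 : m ≠ 0 := by
      rintro rfl
      rw [mul_zero] at hGm
      exact (Nat.card_pos (α := G)).ne' hGm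
    obtain ⟨b, m', hm', hmm'⟩ := Nat.exists_eq_pow_mul_and_not_dvd hm0 3 (by norm_num)
    have hm'1 : m' = 1 := by
      by_contra hne
      obtain ⟨r, hr, hrd⟩ := Nat.exists_prime_and_dvd hne
      have hrG : r ∣ Nat.card G := by
        rw [hGm, hmm']
        exact Dvd.dvd.mul_left (Dvd.dvd.mul_left hrd _) _
      haveI : Fact r.Prime := ⟨hr⟩
      obtain ⟨g, hg⟩ := exists_prime_orderOf_dvd_card' r hrG
      rcases hord g with h1 | h1 | h1
      · rw [h1] at hg; exact hr.one_lt.ne hg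
      · rw [h1] at hg; rw [← hg] at hrd
        exact hm (by rw [hmm']; exact Dvd.dvd.mul_left hrd _)
      · rw [h1] at hg; rw [← hg] at hrd
        exact hm' hrd
    exact ⟨a, b, by rw [hGm, hmm', hm'1, mul_one]⟩
  obtain ⟨a, b, hab⟩ := hcard
  haveI hsolv : Group.IsSolvable G :=
    Cfsg.Agent.Lib_helper3_Burnside2.burnside_paqb 2 3 a b Nat.prime_two Nat.prime_three hab
  haveI hFn : (Cfsg.fittingSubgroup G).Normal :=
    Cfsg.Agent.Lib_helper6_PCore.fittingSubgroup_normal
  haveI hFnil : Group.IsNilpotent (Cfsg.fittingSubgroup G) :=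
    Cfsg.Agent.Lib_helper5_Fitting.fitting_isNilpotent
  have hCF : Subgroup.centralizer (Cfsg.fittingSubgroup G : Set G) ≤ Cfsg.fittingSubgroup G :=
    Cfsg.Agent.Lib_helper1_Fitting.centralizer_fitting_le
  have hmemF : ∀ g : G, (∀ x ∈ Cfsg.fittingSubgroup G, g * x = x * g) →
      g ∈ Cfsg.fittingSubgroup G := by
    intro g hg
    apply hCF
    rw [Subgroup.mem_centralizer_iff]
    intro x hx
    exact (hg x hx).symm
  haveI : Fact (Nat.Prime 2) := ⟨Nat.prime_two⟩
  haveI : Fact (Nat.Prime 3) := ⟨Nat.prime_three⟩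
  -- dichotomy
  have hdich : (∀ x ∈ Cfsg.fittingSubgroup G, x ^ 3 = 1) ∨
      (∀ x ∈ Cfsg.fittingSubgroup G, x ^ 2 = 1) := by
    by_contra hcon
    push Not at hcon
    obtain ⟨⟨u, huF, hu3⟩, ⟨w, hwF, hw2⟩⟩ := hcon
    have hu : orderOf u = 2 := by
      by_contra hne
      exact hu3 (hcube_of u hne)
    have hw : orderOf w = 3 := by
      by_contra hne
      exact hw2 (hsq_of w hne)
    have h1 : Commute (⟨u, huF⟩ : Cfsg.fittingSubgroup G) ⟨w, hwF⟩ :=
      commute_of_nilpotent (p := 2) (q := 3) (by norm_num) _ _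
        ⟨1, by rw [Subgroup.orderOf_mk, hu, pow_one]⟩ ⟨1, by rw [Subgroup.orderOf_mk, hw, pow_one]⟩
    exact hno6 u w hu hw (congrArg Subtype.val h1.eq)
  have ht2 : t * t = 1 := by
    have := pow_orderOf_eq_one t
    rw [ht, pow_two] at this
    exact this
  have hti : t⁻¹ = t := inv_eq_of_mul_eq_one_left ht2
  have ht1 : t ≠ 1 := by
    intro h1
    rw [h1, orderOf_one] at ht
    norm_num at ht
  rcases hdich with hF3 | hF2
  · -- F is a 3-group
    left
    -- involutions act fixed-point-freely on elements of order dividing 3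
    have hfpf : ∀ s : G, orderOf s = 2 → ∀ w : G, w ^ 3 = 1 → s * w * s⁻¹ = w → w = 1 := by
      intro s hs w hw hsw
      by_contra hw1
      exact hno6 s w hs (ho3 w hw hw1) (mul_inv_eq_iff_eq_mul.mp hsw)
    have hinvF : ∀ s : G, orderOf s = 2 → ∀ u ∈ Cfsg.fittingSubgroup G, s * u * s⁻¹ = u⁻¹ := by
      intro s hs
      have hs2 : s * s = 1 := by
        have := pow_orderOf_eq_one s
        rw [hs, pow_two] at this
        exact this
      exact inv_of_fpf _ s hs2 (fun x hx => hFn.conj_mem x hx s)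
        (fun w hw => hfpf s hs w (hF3 w hw))
    have hFcomm := comm_of_inv _ t (hinvF t ht)
    have hprod : ∀ s s' : G, orderOf s = 2 → orderOf s' = 2 → s * s' ∈ Cfsg.fittingSubgroup G := by
      intro s s' hs hs'
      apply hmemF
      intro x hx
      have h1 := hinvF s hs _ (Subgroup.inv_mem _ hx)
      have h2 := hinvF s' hs' x hx
      rw [inv_inv] at h1
      calc s * s' * x = s * (s' * x * s'⁻¹) * s' := by group
        _ = (s * x⁻¹ * s⁻¹) * s * s' := by rw [h2]; group
        _ = x * (s * s') := by rw [h1]; group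
    have hF3g : IsPGroup 3 (Cfsg.fittingSubgroup G) := by
      intro x
      refine ⟨1, ?_⟩
      rw [pow_one]
      apply Subtype.ext
      exact hF3 x x.2
    have hout : ∀ g : G, g ∉ Cfsg.fittingSubgroup G → orderOf g = 2 := by
      intro g hg
      by_contra hne
      have hg1 : g ≠ 1 := fun h1 => hg (h1 ▸ Subgroup.one_mem _)
      have hg3 : orderOf g = 3 := ho3 g (hcube_of g hne) hg1
      have hRp := isPGroup_sup_zpowers (Cfsg.fittingSubgroup G) hF3g g hg3
      have hR3 : ∀ r ∈ Cfsg.fittingSubgroup G ⊔ Subgroup.zpowers g, r ^ 3 = 1 := by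
        intro r hr
        apply hcube_of
        intro h2
        obtain ⟨k, hk⟩ := hRp ⟨r, hr⟩
        have h3 : r ^ 3 ^ k = 1 := congrArg Subtype.val hk
        have h4 := orderOf_dvd_of_pow_eq_one h3
        rw [h2] at h4
        have h5 := (Nat.prime_two.dvd_of_dvd_pow h4)
        norm_num at h5
      have htR : ∀ r ∈ Cfsg.fittingSubgroup G ⊔ Subgroup.zpowers g,
          t * r * t⁻¹ ∈ Cfsg.fittingSubgroup G ⊔ Subgroup.zpowers g := by
        have hle : Cfsg.fittingSubgroup G ⊔ Subgroup.zpowers g ≤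
            (Cfsg.fittingSubgroup G ⊔ Subgroup.zpowers g).comap (MulAut.conj t).toMonoidHom := by
          apply sup_le
          · intro x hx
            exact Subgroup.mem_sup_left (hFn.conj_mem x hx t)
          · rw [Subgroup.zpowers_le]
            rw [Subgroup.mem_comap, MulEquiv.coe_toMonoidHom, MulAut.conj_apply]
            have h1 : t * g * t⁻¹ = (t * (g * t * g⁻¹)) * g := by rw [hti]; group
            rw [h1]
            refine Subgroup.mul_mem _ (Subgroup.mem_sup_left (hprod t _ ht ?_))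
              (Subgroup.mem_sup_right (Subgroup.mem_zpowers g))
            rw [← ht]
            exact orderOf_injective (MulAut.conj g).toMonoidHom (MulAut.conj g).injective t
        intro r hr
        exact hle hr
      have hinvR := inv_of_fpf _ t ht2 htR (fun w hw => hfpf t ht w (hR3 w hw))
      have hRcomm := comm_of_inv _ t hinvR
      apply hg
      apply hmemF
      intro x hx
      exact hRcomm g (Subgroup.mem_sup_right (Subgroup.mem_zpowers g)) x
        (Subgroup.mem_sup_left hx)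
    have htF : t ∉ Cfsg.fittingSubgroup G := by
      intro h1
      have h2 := hF3 t h1
      have h3 := orderOf_dvd_of_pow_eq_one h2
      rw [ht] at h3
      norm_num at h3
    refine ⟨Cfsg.fittingSubgroup G, hFn, ⟨⟨⟨fun u v => Subtype.ext (hFcomm u u.2 v v.2)⟩⟩, hF3⟩, ?_⟩
    rw [Subgroup.index_eq_two_iff]
    refine ⟨t, fun b => ?_⟩
    by_cases hb : b ∈ Cfsg.fittingSubgroup G
    · right
      refine ⟨hb, fun h1 => htF ?_⟩
      have : t = b⁻¹ * (b * t) := by group
      rw [this]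
      exact Subgroup.mul_mem _ (Subgroup.inv_mem _ hb) h1
    · left
      exact ⟨hprod b t (hout b hb) ht, hb⟩
  · -- F is a 2-group
    right
    have hVcomm := comm_of_sq _ hF2
    have hF2g : IsPGroup 2 (Cfsg.fittingSubgroup G) := by
      intro x
      refine ⟨1, ?_⟩
      rw [pow_one]
      apply Subtype.ext
      exact hF2 x x.2
    -- involutions lie in F
    have hinvol : ∀ s : G, orderOf s = 2 → s ∈ Cfsg.fittingSubgroup G := by
      intro s hs
      have hRp := isPGroup_sup_zpowers (Cfsg.fittingSubgroup G) hF2g s hs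
      have hR2 : ∀ r ∈ Cfsg.fittingSubgroup G ⊔ Subgroup.zpowers s, r ^ 2 = 1 := by
        intro r hr
        apply hsq_of
        intro h2
        obtain ⟨k, hk⟩ := hRp ⟨r, hr⟩
        have h3 : r ^ 2 ^ k = 1 := congrArg Subtype.val hk
        have h4 := orderOf_dvd_of_pow_eq_one h3
        rw [h2] at h4
        have h5 := (Nat.prime_three.dvd_of_dvd_pow h4)
        norm_num at h5
      have hRcomm := comm_of_sq _ hR2
      apply hmemF
      intro x hx
      exact hRcomm s (Subgroup.mem_sup_right (Subgroup.mem_zpowers s)) x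
        (Subgroup.mem_sup_left hx)
    have hout : ∀ g : G, g ∉ Cfsg.fittingSubgroup G → orderOf g = 3 := by
      intro g hg
      rcases hord g with h1 | h1 | h1
      · rw [orderOf_eq_one_iff] at h1
        exact absurd (h1 ▸ Subgroup.one_mem _) hg
      · exact absurd (hinvol g h1) hg
      · exact h1
    have hcF : c ∉ Cfsg.fittingSubgroup G := by
      intro h1
      have h2 := hF2 c h1
      have h3 := orderOf_dvd_of_pow_eq_one h2
      rw [hc] at h3
      norm_num at h3
    -- the relation for elements of order 3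
    have hrel : ∀ x : G, orderOf x = 3 → ∀ v ∈ Cfsg.fittingSubgroup G,
        x ^ 2 * v * (x ^ 2)⁻¹ = v * (x * v * x⁻¹) := by
      intro x hx v hv
      have hx3 : x ^ 3 = 1 := by rw [← hx]; exact pow_orderOf_eq_one x
      have hv1 : x * v * x⁻¹ ∈ Cfsg.fittingSubgroup G := hFn.conj_mem v hv x
      have hv2 : x ^ 2 * v * (x ^ 2)⁻¹ ∈ Cfsg.fittingSubgroup G := hFn.conj_mem v hv (x ^ 2)
      have hwF : v * (x * v * x⁻¹) * (x ^ 2 * v * (x ^ 2)⁻¹) ∈ Cfsg.fittingSubgroup G :=
        Subgroup.mul_mem _ (Subgroup.mul_mem _ hv hv1) hv2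
      have hfix : x * (v * (x * v * x⁻¹) * (x ^ 2 * v * (x ^ 2)⁻¹)) * x⁻¹ =
          v * (x * v * x⁻¹) * (x ^ 2 * v * (x ^ 2)⁻¹) := by
        have e1 : x * (v * (x * v * x⁻¹) * (x ^ 2 * v * (x ^ 2)⁻¹)) * x⁻¹ =
            (x * v * x⁻¹) * (x ^ 2 * v * (x ^ 2)⁻¹) * (x ^ 3 * v * (x ^ 3)⁻¹) := by group
        rw [e1, hx3]
        simp only [one_mul, inv_one, mul_one]
        rw [hVcomm _ (Subgroup.mul_mem _ hv1 hv2) v hv]
        exact (mul_assoc v _ _).symm
      have hw1 : v * (x * v * x⁻¹) * (x ^ 2 * v * (x ^ 2)⁻¹) = 1 := by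
        by_contra hne
        have ho := ho2 _ (hF2 _ hwF) hne
        apply hno6 _ x ho hx
        exact (mul_inv_eq_iff_eq_mul.mp hfix).symm
      have h5 : x ^ 2 * v * (x ^ 2)⁻¹ = (v * (x * v * x⁻¹))⁻¹ := by
        rw [eq_inv_iff_mul_eq_one, ← hw1]
        exact (hVcomm _ (Subgroup.mul_mem _ hv hv1) _ hv2).symm
      have h6 : (v * (x * v * x⁻¹))⁻¹ = v * (x * v * x⁻¹) := by
        rw [inv_eq_iff_mul_eq_one, ← pow_two]
        exact hF2 _ (Subgroup.mul_mem _ hv hv1)
      rw [h5, h6]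
    -- the quotient is a 3-group
    have hq3 : IsPGroup 3 (G ⧸ Cfsg.fittingSubgroup G) := by
      intro x
      obtain ⟨g, rfl⟩ := QuotientGroup.mk_surjective x
      refine ⟨1, ?_⟩
      rw [pow_one, ← QuotientGroup.mk_pow, QuotientGroup.eq_one_iff]
      by_cases hg : g ∈ Cfsg.fittingSubgroup G
      · exact Subgroup.pow_mem _ hg 3
      · have := hout g hg
        rw [← this, pow_orderOf_eq_one]
        exact Subgroup.one_mem _
    obtain ⟨k, hk⟩ := IsPGroup.iff_card.mp hq3
    have hidx : (Cfsg.fittingSubgroup G).index = 3 ^ k := by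
      rw [Subgroup.index_eq_card]; exact hk
    have hk0 : k ≠ 0 := by
      rintro rfl
      rw [pow_zero, Subgroup.index_eq_one] at hidx
      exact hcF (hidx ▸ Subgroup.mem_top c)
    have hk1 : k = 1 := by
      by_contra hk1
      have hk2 : 2 ≤ k := by omega
      have h9 : 3 ^ 2 ∣ Nat.card G := by
        rw [← Subgroup.card_mul_index (Cfsg.fittingSubgroup G), hidx]
        exact Dvd.dvd.mul_left (pow_dvd_pow 3 hk2) _
      obtain ⟨Q⟩ : Nonempty (Sylow 3 G) := inferInstance
      have hQ9 := Q.pow_dvd_card_of_pow_dvd_card h9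
      have hQ3 : ∀ x ∈ (Q : Subgroup G), x ^ 3 = 1 := by
        intro x hx
        apply hcube_of
        intro h2
        obtain ⟨j, hj⟩ := Q.2 ⟨x, hx⟩
        have h3 : x ^ 3 ^ j = 1 := congrArg Subtype.val hj
        have h4 := orderOf_dvd_of_pow_eq_one h3
        rw [h2] at h4
        have h5 := (Nat.prime_two.dvd_of_dvd_pow h4)
        norm_num at h5
      haveI : Nontrivial (Q : Subgroup G) := by
        rw [← Finite.one_lt_card_iff_nontrivial]
        have := Nat.le_of_dvd Nat.card_pos hQ9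
        omega
      haveI hcn : Nontrivial (Subgroup.center (Q : Subgroup G)) := IsPGroup.center_nontrivial Q.2
      obtain ⟨⟨z, hzc⟩, hz1⟩ := exists_ne (1 : Subgroup.center (Q : Subgroup G))
      have hz1' : (z : G) ≠ 1 := by
        intro h1
        apply hz1
        apply Subtype.ext
        apply Subtype.ext
        exact h1
      have hzo : orderOf (z : G) = 3 := ho3 _ (hQ3 _ z.2) hz1'
      obtain ⟨y, hyQ, hyz⟩ : ∃ y ∈ (Q : Subgroup G), y ∉ Subgroup.zpowers (z : G) := by
        by_contra hcon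
        push Not at hcon
        have h1 : (Q : Subgroup G) ≤ Subgroup.zpowers (z : G) := hcon
        have h2 := Subgroup.card_le_of_le h1
        rw [Nat.card_zpowers, hzo] at h2
        have := Nat.le_of_dvd Nat.card_pos hQ9
        omega
      have hy1 : y ≠ 1 := fun h1 => hyz (h1 ▸ Subgroup.one_mem _)
      have hyo : orderOf y = 3 := ho3 y (hQ3 y hyQ) hy1
      have hzy : (z : G) * y = y * z := by
        have := Subgroup.mem_center_iff.mp hzc ⟨y, hyQ⟩
        exact (congrArg Subtype.val this).symm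
      have hzy1 : (z : G) * y ≠ 1 := by
        intro h1
        apply hyz
        have : y = (z : G)⁻¹ := by
          rw [eq_inv_iff_mul_eq_one, ← hzy, h1]
        rw [this]
        exact Subgroup.inv_mem _ (Subgroup.mem_zpowers _)
      have hzyo : orderOf ((z : G) * y) = 3 :=
        ho3 _ (hQ3 _ (Subgroup.mul_mem _ z.2 hyQ)) hzy1
      -- conjugation by z and y agree on F
      have hagree : ∀ v ∈ Cfsg.fittingSubgroup G, (z : G) * v * (z : G)⁻¹ = y * v * y⁻¹ := by
        intro v hv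
        have hv1 : y * v * y⁻¹ ∈ Cfsg.fittingSubgroup G := hFn.conj_mem v hv y
        have hv2 : (z : G) * v * (z : G)⁻¹ ∈ Cfsg.fittingSubgroup G := hFn.conj_mem v hv z
        have hv3 : ((z : G) * y) * v * ((z : G) * y)⁻¹ ∈ Cfsg.fittingSubgroup G :=
          hFn.conj_mem v hv _
        have r1 := hrel _ hzyo v hv
        have r2 := hrel y hyo v hv
        have r3 := hrel _ hzo v hv
        have r4 := hrel _ hzo _ hv1
        have e1 : ((z : G) * y) ^ 2 * v * (((z : G) * y) ^ 2)⁻¹ =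
            (z : G) ^ 2 * (y ^ 2 * v * (y ^ 2)⁻¹) * ((z : G) ^ 2)⁻¹ := by
          have : ((z : G) * y) ^ 2 = (z : G) ^ 2 * y ^ 2 :=
            (show Commute (z : G) y from hzy).mul_pow 2
          rw [this]; group
        rw [e1, r2] at r1
        have e2 : (z : G) ^ 2 * (v * (y * v * y⁻¹)) * ((z : G) ^ 2)⁻¹ =
            ((z : G) ^ 2 * v * ((z : G) ^ 2)⁻¹) *
              ((z : G) ^ 2 * (y * v * y⁻¹) * ((z : G) ^ 2)⁻¹) := by group
        rw [e2, r3, r4] at r1
        have e3 : (z : G) * (y * v * y⁻¹) * (z : G)⁻¹ = (z : G) * y * v * ((z : G) * y)⁻¹ := by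
          group
        rw [e3] at r1
        -- r1 : v * (z v z⁻¹) * (y v y⁻¹ * (zy v (zy)⁻¹)) = v * (zy v (zy)⁻¹)
        have h7 : (z : G) * v * (z : G)⁻¹ * (y * v * y⁻¹) = 1 := by
          have h8 : v * ((z : G) * v * (z : G)⁻¹) * (y * v * y⁻¹ *
              ((z : G) * y * v * ((z : G) * y)⁻¹)) =
              v * ((z : G) * v * (z : G)⁻¹ * (y * v * y⁻¹)) *
                ((z : G) * y * v * ((z : G) * y)⁻¹) := by group
          rw [h8, mul_assoc v] at r1
          have h9 := mul_left_cancel r1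
          exact mul_right_cancel (b := (z : G) * y * v * ((z : G) * y)⁻¹)
            (by rw [h9, one_mul])
        have h10 : (y * v * y⁻¹)⁻¹ = y * v * y⁻¹ := by
          rw [inv_eq_iff_mul_eq_one, ← pow_two]
          exact hF2 _ hv1
        rw [← h10]
        exact eq_inv_of_mul_eq_one_left h7
      have hmem : y⁻¹ * (z : G) ∈ Cfsg.fittingSubgroup G := by
        apply hmemF
        intro v hv
        have := hagree v hv
        calc y⁻¹ * (z : G) * v = y⁻¹ * ((z : G) * v * (z : G)⁻¹) * z := by group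
          _ = v * (y⁻¹ * z) := by rw [this]; group
      have h11 : (y⁻¹ * (z : G)) ^ 2 = 1 := hF2 _ hmem
      have h12 : (y⁻¹ * (z : G)) ^ 3 = 1 :=
        hQ3 _ (Subgroup.mul_mem _ (Subgroup.inv_mem _ hyQ) z.2)
      have h13 : y⁻¹ * (z : G) = 1 := by
        have := pow_gcd_eq_one.mpr ⟨h11, h12⟩
        simpa using this
      apply hyz
      have : y = (z : G) := by
        have := eq_of_inv_mul_eq_one h13
        exact this
      rw [this]
      exact Subgroup.mem_zpowers _
    refine ⟨Cfsg.fittingSubgroup G, hFn, ⟨⟨⟨fun u v => Subtype.ext (hVcomm u u.2 v v.2)⟩⟩, hF2⟩, ?_⟩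
    rw [hidx, hk1, pow_one]

end Cfsg.Agent.S4005
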