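import Cfsg.Statements.S4200
import Cfsg.Agent.Lib_helper6_Count

set_option autoImplicit false
open Cfsg

namespace Cfsg.Agent.S4200


theorem cent_bound {X : Type*} [Group X] [Finite X] (Y : Subgroup X) (x : X) :
    Nat.card {b : X // Commute x b} ≤ Y.index * Nat.card {y : Y // Commute x (y : X)} ∧
    (Nat.card {b : X // Commute x b} = Y.index * Nat.card {y : Y // Commute x (y : X)} →
      ∀ g : X, ∃ c : X, Commute x c ∧ c⁻¹ * g ∈ Y) := by
  classical
  let C : Subgroup X := Subgroup.centralizer {x}
  have hmemC : ∀ b : X, b ∈ C ↔ Commute x b := by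
    intro b
    rw [Subgroup.mem_centralizer_iff]
    constructor
    · intro h; exact h x rfl
    · intro h y hy
      rw [Set.mem_singleton_iff] at hy
      rw [hy]; exact h
  let q₀ : X ⧸ Y := QuotientGroup.mk 1
  have hsmul : ∀ c : C, c • q₀ = QuotientGroup.mk (c : X) := by
    intro c
    show (QuotientGroup.mk ((c : X) * 1) : X ⧸ Y) = _
    rw [mul_one]
  have hstab : ∀ c : C, c ∈ MulAction.stabilizer C q₀ ↔ (c : X) ∈ Y := by
    intro c
    rw [MulAction.mem_stabilizer_iff, hsmul]
    show (QuotientGroup.mk (c : X) : X ⧸ Y) = QuotientGroup.mk 1 ↔ _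
    rw [QuotientGroup.eq]
    simp
  have h1 : Nat.card {b : X // Commute x b} = Nat.card C :=
    Nat.card_congr (Equiv.subtypeEquivRight (fun b => (hmemC b).symm))
  have h2 : Nat.card {y : Y // Commute x (y : X)} = Nat.card (MulAction.stabilizer C q₀) :=
    Nat.card_congr
      { toFun := fun y => ⟨⟨y.1.1, (hmemC _).mpr y.2⟩, (hstab _).mpr y.1.2⟩
        invFun := fun c => ⟨⟨c.1.1, (hstab _).mp c.2⟩, (hmemC _).mp c.1.2⟩
        left_inv := fun _ => rfl
        right_inv := fun _ => rfl }
  have h3 : Nat.card (MulAction.stabilizer C q₀) * (MulAction.orbit C q₀).ncard = Nat.card C := by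
    rw [← MulAction.index_stabilizer]
    exact Subgroup.card_mul_index _
  have h4 : (MulAction.orbit C q₀).ncard ≤ Y.index := Set.ncard_le_card _
  refine ⟨?_, ?_⟩
  · rw [h1, h2, ← h3, mul_comm]
    exact Nat.mul_le_mul_right _ h4
  · intro heq g
    rw [h1, h2, ← h3, mul_comm] at heq
    have hpos : 0 < Nat.card (MulAction.stabilizer C q₀) := Nat.card_pos
    have h5 : (MulAction.orbit C q₀).ncard = Nat.card (X ⧸ Y) :=
      Nat.eq_of_mul_eq_mul_right hpos heq
    have h6 : MulAction.orbit C q₀ = Set.univ := (Set.eq_univ_iff_ncard _).mpr h5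
    have h7 : (QuotientGroup.mk g : X ⧸ Y) ∈ MulAction.orbit C q₀ := by rw [h6]; trivial
    obtain ⟨c, hc⟩ := h7
    have hc' : c • q₀ = (QuotientGroup.mk g : X ⧸ Y) := hc
    rw [hsmul] at hc'
    exact ⟨c, (hmemC _).mp c.2, QuotientGroup.eq.mp hc'⟩

/-- Let Y be a subgroup of the finite group X, of index m. Then the numbers of conjugacy classes satisfy k(Y) ≤ m·k(X) and k(X) ≤ m·k(Y), and the second inequality is strict unless Y is normal in X. -/
theorem result {X : Type*} [Group X] [Finite X] (Y : Subgroup X) : Nat.card (ConjClasses Y) ≤ Y.index * Nat.card (ConjClasses X) ∧ Nat.card (ConjClasses X) ≤ Y.index * Nat.card (ConjClasses Y) ∧ (¬ Y.Normal → Nat.card (ConjClasses X) < Y.index * Nat.card (ConjClasses Y)) := by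
  classical
  let _ : Fintype X := Fintype.ofFinite X
  let _ : Fintype Y := Fintype.ofFinite Y
  have hXY : Nat.card X = Nat.card Y * Y.index := (Y.card_mul_index).symm
  have hYpos : 0 < Nat.card Y := Nat.card_pos
  have hXpos : 0 < Nat.card X := Nat.card_pos
  have hmpos : 0 < Y.index := by
    rcases Nat.eq_zero_or_pos Y.index with h | h
    · rw [h, mul_zero] at hXY; omega
    · exact h
  have cX : Nat.card (ConjClasses X) * Nat.card X = ∑ x : X, Nat.card {b : X // Commute x b} := by
    rw [← card_comm_eq_card_conjClasses_mul_card]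
    exact Lib_helper6_Count.card_pairs_fst (fun a b : X => Commute a b)
  have cY : Nat.card (ConjClasses Y) * Nat.card Y =
      ∑ y : Y, Nat.card {b : Y // Commute (y : X) (b : X)} := by
    rw [← card_comm_eq_card_conjClasses_mul_card,
      Lib_helper6_Count.card_pairs_fst (fun a b : Y => Commute a b)]
    apply Finset.sum_congr rfl
    intro y _
    exact Nat.card_congr (Equiv.subtypeEquivRight (fun b =>
      ⟨fun h => Subtype.ext_iff.mp h, fun h => Subtype.ext h⟩))
  have T1 : Nat.card {p : X × Y // Commute p.1 (p.2 : X)} =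
      ∑ x : X, Nat.card {y : Y // Commute x (y : X)} :=
    Lib_helper6_Count.card_pairs_fst (fun (a : X) (b : Y) => Commute a (b : X))
  have T2 : Nat.card {p : X × Y // Commute p.1 (p.2 : X)} =
      ∑ y : Y, Nat.card {b : X // Commute (y : X) b} := by
    rw [Lib_helper6_Count.card_pairs_snd (fun (a : X) (b : Y) => Commute a (b : X))]
    apply Finset.sum_congr rfl
    intro y _
    exact Nat.card_congr (Equiv.subtypeEquivRight (fun b => ⟨Commute.symm, Commute.symm⟩))
  have hb1 := fun x => (cent_bound Y x).1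
  have I1 : Nat.card (ConjClasses X) * Nat.card X ≤
      Y.index * Nat.card {p : X × Y // Commute p.1 (p.2 : X)} := by
    rw [cX, T1, Finset.mul_sum]
    exact Finset.sum_le_sum (fun x _ => hb1 x)
  have I2 : Nat.card {p : X × Y // Commute p.1 (p.2 : X)} ≤
      Y.index * (Nat.card (ConjClasses Y) * Nat.card Y) := by
    rw [T2, cY, Finset.mul_sum]
    exact Finset.sum_le_sum (fun y _ => hb1 (y : X))
  refine ⟨?_, ?_, ?_⟩
  · have h : Nat.card {p : Y × Y // Commute p.1 p.2} ≤ Nat.card {p : X × X // Commute p.1 p.2} := by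
      refine Nat.card_le_card_of_injective
        (fun p => ⟨⟨p.1.1, p.1.2⟩, Subtype.ext_iff.mp p.2⟩) ?_
      exact fun p q h => by simpa only [Subtype.ext_iff, Prod.ext_iff] using h
    rw [card_comm_eq_card_conjClasses_mul_card, card_comm_eq_card_conjClasses_mul_card, hXY] at h
    have h' : Nat.card (ConjClasses Y) * Nat.card Y ≤
        (Y.index * Nat.card (ConjClasses X)) * Nat.card Y := by
      calc Nat.card (ConjClasses Y) * Nat.card Y
          ≤ Nat.card (ConjClasses X) * (Nat.card Y * Y.index) := h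
        _ = (Y.index * Nat.card (ConjClasses X)) * Nat.card Y := by ring
    exact Nat.le_of_mul_le_mul_right h' hYpos
  · have h' : Nat.card (ConjClasses X) * Nat.card X ≤
        (Y.index * Nat.card (ConjClasses Y)) * Nat.card X := by
      calc Nat.card (ConjClasses X) * Nat.card X
          ≤ Y.index * Nat.card {p : X × Y // Commute p.1 (p.2 : X)} := I1
        _ ≤ Y.index * (Y.index * (Nat.card (ConjClasses Y) * Nat.card Y)) :=
            Nat.mul_le_mul_left _ I2
        _ = (Y.index * Nat.card (ConjClasses Y)) * Nat.card X := by rw [hXY]; ring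
    exact Nat.le_of_mul_le_mul_right h' hXpos
  · intro hnn
    have hex : ∃ y ∈ Y, ∃ g : X, g * y * g⁻¹ ∉ Y := by
      by_contra h
      push Not at h
      exact hnn ⟨fun n hn g => h n hn g⟩
    obtain ⟨y, hy, g, hg⟩ := hex
    have hstrict : Nat.card {b : X // Commute y b} <
        Y.index * Nat.card {y' : Y // Commute y (y' : X)} := by
      refine lt_of_le_of_ne (hb1 y) (fun heq => hg ?_)
      obtain ⟨c, hc, hw⟩ := (cent_bound Y y).2 heq g⁻¹
      have hc' : y * c = c * y := hc
      have : g * y * g⁻¹ = (c⁻¹ * g⁻¹)⁻¹ * y * (c⁻¹ * g⁻¹) := by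
        calc g * y * g⁻¹ = g * (y * c) * c⁻¹ * g⁻¹ := by group
          _ = g * (c * y) * c⁻¹ * g⁻¹ := by rw [hc']
          _ = (c⁻¹ * g⁻¹)⁻¹ * y * (c⁻¹ * g⁻¹) := by group
      rw [this]
      exact Y.mul_mem (Y.mul_mem (Y.inv_mem hw) hy) hw
    have I2' : Nat.card {p : X × Y // Commute p.1 (p.2 : X)} <
        Y.index * (Nat.card (ConjClasses Y) * Nat.card Y) := by
      rw [T2, cY, Finset.mul_sum]
      exact Finset.sum_lt_sum (fun y _ => hb1 (y : X)) ⟨⟨y, hy⟩, Finset.mem_univ _, hstrict⟩
    have h' : Nat.card (ConjClasses X) * Nat.card X <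
        (Y.index * Nat.card (ConjClasses Y)) * Nat.card X := by
      calc Nat.card (ConjClasses X) * Nat.card X
          ≤ Y.index * Nat.card {p : X × Y // Commute p.1 (p.2 : X)} := I1
        _ < Y.index * (Y.index * (Nat.card (ConjClasses Y) * Nat.card Y)) :=
            Nat.mul_lt_mul_of_pos_left I2' hmpos
        _ = (Y.index * Nat.card (ConjClasses Y)) * Nat.card X := by rw [hXY]; ring
    exact Nat.lt_of_mul_lt_mul_right h' 

end Cfsg.Agent.S4200
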