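import Cfsg.Statements.S4201
import Cfsg.Agent.Lib_helper6_Count

set_option autoImplicit false
open Cfsg

namespace Cfsg.Agent.S4201


theorem coset_cent {X : Type*} [Group X] [Finite X] (N : Subgroup X) [N.Normal] (P : Prop) (y : X)
    (r : X ⧸ N) :
    Nat.card {b : X // P ∧ (QuotientGroup.mk b : X ⧸ N) = r ∧ Commute y b} ≤
      Nat.card {n : N // P ∧ Commute y (n : X)} := by
  classical
  by_cases hne : Nonempty {b : X // P ∧ (QuotientGroup.mk b : X ⧸ N) = r ∧ Commute y b}
  · obtain ⟨⟨b₀, hP, hb₀, hc₀⟩⟩ := hne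
    refine Nat.card_le_card_of_injective (fun b => ⟨⟨b₀⁻¹ * b.1,
      QuotientGroup.eq.mp (hb₀.trans b.2.2.1.symm)⟩, b.2.1, ?_⟩) ?_
    · exact (hc₀.inv_right).mul_right b.2.2.2
    · intro b b' h
      have : b₀⁻¹ * b.1 = b₀⁻¹ * b'.1 := congrArg (fun z => ((z.1 : N) : X)) h
      exact Subtype.ext (mul_left_cancel this)
  · rw [not_nonempty_iff] at hne
    rw [Nat.card_of_isEmpty]; exact Nat.zero_le _

theorem fiber_le {X : Type*} [Group X] [Finite X] (N : Subgroup X) [N.Normal] (q r : X ⧸ N) :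
    Nat.card {p : X × X // (QuotientGroup.mk p.1 : X ⧸ N) = q ∧
        (QuotientGroup.mk p.2 : X ⧸ N) = r ∧ Commute p.1 p.2} ≤
      Nat.card (ConjClasses N) * Nat.card N := by
  classical
  let _ : Fintype X := Fintype.ofFinite X
  let _ : Fintype N := Fintype.ofFinite N
  calc Nat.card {p : X × X // (QuotientGroup.mk p.1 : X ⧸ N) = q ∧
        (QuotientGroup.mk p.2 : X ⧸ N) = r ∧ Commute p.1 p.2}
      = ∑ x : X, Nat.card {b : X // (QuotientGroup.mk x : X ⧸ N) = q ∧
        (QuotientGroup.mk b : X ⧸ N) = r ∧ Commute x b} :=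
        Lib_helper6_Count.card_pairs_fst (fun x b : X => (QuotientGroup.mk x : X ⧸ N) = q ∧
          (QuotientGroup.mk b : X ⧸ N) = r ∧ Commute x b)
    _ ≤ ∑ x : X, Nat.card {n : N // (QuotientGroup.mk x : X ⧸ N) = q ∧ Commute x (n : X)} :=
        Finset.sum_le_sum (fun x _ => coset_cent N _ x r)
    _ = Nat.card {p : X × N // (QuotientGroup.mk p.1 : X ⧸ N) = q ∧ Commute p.1 (p.2 : X)} :=
        (Lib_helper6_Count.card_pairs_fst (fun (x : X) (n : N) =>
          (QuotientGroup.mk x : X ⧸ N) = q ∧ Commute x (n : X))).symm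
    _ = ∑ n : N, Nat.card {x : X // (QuotientGroup.mk x : X ⧸ N) = q ∧ Commute x (n : X)} :=
        Lib_helper6_Count.card_pairs_snd (fun (x : X) (n : N) =>
          (QuotientGroup.mk x : X ⧸ N) = q ∧ Commute x (n : X))
    _ ≤ ∑ n : N, Nat.card {n' : N // Commute n n'} := by
        apply Finset.sum_le_sum
        intro n _
        have h := coset_cent N True (n : X) q
        have e1 : Nat.card {x : X // (QuotientGroup.mk x : X ⧸ N) = q ∧ Commute x (n : X)} =
            Nat.card {b : X // True ∧ (QuotientGroup.mk b : X ⧸ N) = q ∧ Commute (n : X) b} :=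
          Nat.card_congr (Equiv.subtypeEquivRight (fun b =>
            ⟨fun h => ⟨trivial, h.1, h.2.symm⟩, fun h => ⟨h.2.1, h.2.2.symm⟩⟩))
        have e2 : Nat.card {n' : N // True ∧ Commute (n : X) (n' : X)} =
            Nat.card {n' : N // Commute n n'} :=
          Nat.card_congr (Equiv.subtypeEquivRight (fun n' =>
            ⟨fun h => Subtype.ext h.2, fun h => ⟨trivial, Subtype.ext_iff.mp h⟩⟩))
        rw [e1, ← e2]
        exact h
    _ = Nat.card {p : N × N // Commute p.1 p.2} :=
        (Lib_helper6_Count.card_pairs_fst (fun n n' : N => Commute n n')).symm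
    _ = _ := card_comm_eq_card_conjClasses_mul_card N

/-- If N is a normal subgroup of the finite group X then k(X) ≤ k(N)·k(X ⧸ N), where k denotes the number of conjugacy classes. -/
theorem result {X : Type*} [Group X] [Finite X] (N : Subgroup X) [N.Normal] : Nat.card (ConjClasses X) ≤ Nat.card (ConjClasses N) * Nat.card (ConjClasses (X ⧸ N)) := by
  classical
  let _ : Fintype {p : (X ⧸ N) × (X ⧸ N) // Commute p.1 p.2} := Fintype.ofFinite _
  let f : {p : X × X // Commute p.1 p.2} → {p : (X ⧸ N) × (X ⧸ N) // Commute p.1 p.2} :=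
    fun p => ⟨(QuotientGroup.mk p.1.1, QuotientGroup.mk p.1.2), p.2.map (QuotientGroup.mk' N)⟩
  have h1 := Lib_helper6_Count.card_eq_sum_fiber f
  have h2 : ∀ c, Nat.card {a // f a = c} ≤ Nat.card (ConjClasses N) * Nat.card N := by
    intro c
    refine le_trans (Nat.card_le_card_of_injective
      (fun a => (⟨a.1.1, congrArg (fun z => z.1.1) a.2, congrArg (fun z => z.1.2) a.2, a.1.2⟩ :
        {p : X × X // (QuotientGroup.mk p.1 : X ⧸ N) = c.1.1 ∧
          (QuotientGroup.mk p.2 : X ⧸ N) = c.1.2 ∧ Commute p.1 p.2})) ?_) (fiber_le N c.1.1 c.1.2)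
    intro a a' h
    have h' : a.1.1 = a'.1.1 := by
      have := congrArg (fun z => z.1) h
      exact this
    exact Subtype.ext (Subtype.ext h')
  have h3 : Nat.card (ConjClasses X) * Nat.card X ≤
      (Nat.card (ConjClasses N) * Nat.card (ConjClasses (X ⧸ N))) * Nat.card X := by
    rw [← card_comm_eq_card_conjClasses_mul_card, h1]
    calc ∑ c, Nat.card {a // f a = c}
        ≤ ∑ _c : {p : (X ⧸ N) × (X ⧸ N) // Commute p.1 p.2},
            Nat.card (ConjClasses N) * Nat.card N := Finset.sum_le_sum (fun c _ => h2 c)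
      _ = Nat.card {p : (X ⧸ N) × (X ⧸ N) // Commute p.1 p.2} *
            (Nat.card (ConjClasses N) * Nat.card N) := by
          rw [Finset.sum_const, Finset.card_univ, smul_eq_mul,
            Nat.card_eq_fintype_card (α := {p : (X ⧸ N) × (X ⧸ N) // Commute p.1 p.2})]
      _ = _ := by
          rw [card_comm_eq_card_conjClasses_mul_card,
            Subgroup.card_eq_card_quotient_mul_card_subgroup N]
          ring
  exact Nat.le_of_mul_le_mul_right h3 Nat.card_pos

end Cfsg.Agent.S4201
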