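import Cfsg.Statements.S4203
import Cfsg.Agent.Lib_helper3_Burnside2

set_option autoImplicit false
open Cfsg

namespace Cfsg.Agent.S4203


universe u

theorem main : ∀ (n : ℕ) (G : Type u) [Group G] [Finite G], Nat.card G = n →
    (∀ M : Subgroup G, IsCoatom M → ∃ p : ℕ, p.Prime ∧ (M.index = p ∨ M.index = p ^ 2)) →
    Group.IsSolvable G := by
  intro n
  induction n using Nat.strong_induction_on with
  | _ n ih =>
    intro G _ _ hn h
    classical
    by_cases h1 : Nat.card G = 1
    · have : Subsingleton G := (Nat.card_eq_one_iff_unique.mp h1).1
      exact Group.isSolvable_of_comm (fun a b => Subsingleton.elim _ _)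
    -- the largest prime divisor of the order
    have hne : (Nat.card G).primeFactors.Nonempty := by
      rw [Nat.nonempty_primeFactors]
      have : 0 < Nat.card G := Nat.card_pos
      omega
    obtain ⟨p, hpmem, hpmax⟩ := Finset.exists_max_image (Nat.card G).primeFactors id hne
    have hp : p.Prime := Nat.prime_of_mem_primeFactors hpmem
    have hpdvd : p ∣ Nat.card G := Nat.dvd_of_mem_primeFactors hpmem
    have hmax : ∀ q : ℕ, q.Prime → q ∣ Nat.card G → q ≤ p := by
      intro q hq hqd
      exact hpmax q (Nat.mem_primeFactors.mpr ⟨hq, hqd, Nat.card_pos.ne'⟩)
    have : Fact p.Prime := ⟨hp⟩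
    have P : Sylow p G := default
    by_cases hPn : (P : Subgroup G).Normal
    · -- quotient by the normal Sylow subgroup
      have hPbot : (P : Subgroup G) ≠ ⊥ := P.ne_bot_of_dvd_card hpdvd
      have hlt : Nat.card (G ⧸ (P : Subgroup G)) < n := by
        rw [← hn, Subgroup.card_eq_card_quotient_mul_card_subgroup (P : Subgroup G)]
        have h2 : 1 < Nat.card (P : Subgroup G) := by
          rw [Subgroup.one_lt_card_iff_ne_bot]; exact hPbot
        have h3 : 0 < Nat.card (G ⧸ (P : Subgroup G)) := Nat.card_pos
        nlinarith
      have hq : Group.IsSolvable (G ⧸ (P : Subgroup G)) := by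
        apply ih _ hlt (G ⧸ (P : Subgroup G)) rfl
        intro M hM
        have hM' := Subgroup.isCoatom_comap_of_surjective
          (QuotientGroup.mk'_surjective (P : Subgroup G)) hM
        obtain ⟨q, hq, hidx⟩ := h _ hM'
        rw [Subgroup.index_comap_of_surjective _ (QuotientGroup.mk'_surjective (P : Subgroup G))] at hidx
        exact ⟨q, hq, hidx⟩
      have hPs : Group.IsSolvable (P : Subgroup G) := by
        have := P.2.isNilpotent
        infer_instance
      refine Group.isSolvable_of_ker_le_range (P : Subgroup G).subtype
        (QuotientGroup.mk' (P : Subgroup G)) ?_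
      rw [QuotientGroup.ker_mk', Subgroup.range_subtype]
    · -- a maximal subgroup containing the normalizer
      have hNtop : Subgroup.normalizer ((P : Subgroup G) : Set G) ≠ ⊤ := by
        intro htop
        exact hPn (Subgroup.normalizer_eq_top_iff.mp htop)
      obtain ⟨M, hM, hNM⟩ := (eq_top_or_exists_le_coatom
        (Subgroup.normalizer ((P : Subgroup G) : Set G))).resolve_left hNtop
      have hPM : (P : Subgroup G) ≤ M := Subgroup.le_normalizer.trans hNM
      have hmod : M.index ≡ 1 [MOD p] := by
        have e1 : (Subgroup.normalizer ((P : Subgroup G) : Set G)).index ≡ 1 [MOD p] := by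
          have e0 := card_sylow_modEq_one p G
          rw [Sylow.card_eq_index_normalizer P] at e0
          exact e0
        have e2 : (Subgroup.normalizer ((P : Subgroup G) : Set G)).relIndex M ≡ 1 [MOD p] := by
          have e3 := card_sylow_modEq_one p M
          rw [Sylow.card_eq_index_normalizer (P.subtype hPM)] at e3
          have e3' : ((Subgroup.normalizer ((P : Subgroup G) : Set G)).subgroupOf M).index ≡
              1 [MOD p] := by
            rw [Subgroup.subgroupOf_normalizer_eq hPM]
            exact e3
          exact e3'
        have e5 := Subgroup.relIndex_mul_index hNM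
        have e6 : (Subgroup.normalizer ((P : Subgroup G) : Set G)).relIndex M * M.index ≡
            1 * M.index [MOD p] := e2.mul_right _
        rw [e5, one_mul] at e6
        exact e6.symm.trans e1
      obtain ⟨q, hq, hidx⟩ := h M hM
      have hqdvd : q ∣ Nat.card G := by
        have h2 : q ∣ M.index := by
          rcases hidx with h' | h'
          · rw [h']
          · rw [h']; exact dvd_pow_self q (by norm_num)
        exact h2.trans (Subgroup.index_dvd_card M)
      have hqp : q ≤ p := hmax q hq hqdvd
      have hq2 : 2 ≤ q := hq.two_le
      have hp2 : 2 ≤ p := hp.two_le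
      rcases hidx with h' | h'
      · -- index q: impossible
        exfalso
        rw [h'] at hmod
        have hd : p ∣ q - 1 := (Nat.modEq_iff_dvd' (by omega)).mp hmod.symm
        have := Nat.le_of_dvd (by omega) hd
        omega
      · rw [h'] at hmod
        have hd : p ∣ q ^ 2 - 1 := (Nat.modEq_iff_dvd' (Nat.one_le_pow _ _ (by omega))).mp hmod.symm
        have hfac : q ^ 2 - 1 = (q - 1) * (q + 1) := by
          obtain ⟨k, rfl⟩ : ∃ k, q = k + 1 := ⟨q - 1, by omega⟩
          simp only [Nat.add_sub_cancel]
          ring_nf
          omega
        rw [hfac] at hd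
        rcases (Nat.Prime.dvd_mul hp).mp hd with hd1 | hd1
        · exfalso
          have := Nat.le_of_dvd (by omega) hd1
          omega
        · have hle := Nat.le_of_dvd (by omega) hd1
          have hpq : p = q + 1 := by
            rcases Nat.lt_or_ge q p with hlt | hge
            · omega
            · exfalso
              have hpeq : p = q := by omega
              rw [hpeq] at hd1
              have : q ∣ 1 := (Nat.dvd_add_right (dvd_refl q)).mp hd1
              have := Nat.le_of_dvd (by norm_num) this
              omega
          -- q and q + 1 are both prime, so q = 2 and p = 3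
          have hq2' : q = 2 := by
            rcases Nat.Prime.eq_two_or_odd hq with h2 | hodd
            · exact h2
            · exfalso
              rcases Nat.Prime.eq_two_or_odd hp with h2 | hodd'
              · omega
              · omega
          have hp3 : p = 3 := by omega
          apply Cfsg.Agent.Lib_helper3_Burnside2.solvable_of_prime_factors 2 3 Nat.prime_two
            Nat.prime_three (Nat.card G) G rfl
          intro r hr hrd
          have hr3 : r ≤ 3 := hp3 ▸ hmax r hr hrd
          have hr2 := hr.two_le
          rcases Nat.lt_or_ge r 3 with hlt | hge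
          · left; omega
          · right; omega

/-- A finite group in which every maximal subgroup has index a prime or the square of a prime is solvable. -/
theorem result {G : Type*} [Group G] [Finite G] (h : ∀ M : Subgroup G, IsCoatom M → ∃ p : ℕ, p.Prime ∧ (M.index = p ∨ M.index = p ^ 2)) : Group.IsSolvable G := by
  exact main (Nat.card G) G rfl h

end Cfsg.Agent.S4203
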