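import Cfsg.Statements.S4204
-- import your own Cfsg.Agent.* helpers here

set_option autoImplicit false
open Cfsg
open scoped commutatorElement

namespace Cfsg.Agent.S4204

/-- elements whose commutators with `C` land in the normal subgroup `N` -/
def commCent {G : Type*} [Group G] (N C : Subgroup G) [hN : N.Normal] : Subgroup G where
  carrier := {g | ∀ c ∈ C, ⁅g, c⁆ ∈ N}
  one_mem' := by
    intro c _
    have : ⁅(1 : G), c⁆ = 1 := by simp [commutatorElement_def]
    rw [this]; exact N.one_mem
  mul_mem' := by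
    intro a b ha hb c hc
    have : ⁅a * b, c⁆ = a * ⁅b, c⁆ * a⁻¹ * ⁅a, c⁆ := by
      simp only [commutatorElement_def]; group
    rw [this]
    exact N.mul_mem (hN.conj_mem _ (hb c hc) a) (ha c hc)
  inv_mem' := by
    intro a ha c hc
    have : ⁅a⁻¹, c⁆ = a⁻¹ * ⁅a, c⁆⁻¹ * a⁻¹⁻¹ := by
      simp only [commutatorElement_def]; group
    rw [this]
    exact hN.conj_mem _ (N.inv_mem (ha c hc)) a⁻¹

theorem comm_le_iff {G : Type*} [Group G] (N C A : Subgroup G) [N.Normal] :
    ⁅A, C⁆ ≤ N ↔ A ≤ commCent N C := by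
  rw [Subgroup.commutator_le]
  exact Iff.rfl

theorem comm_iSup_le {G : Type*} [Group G] {ι : Sort*} (N C : Subgroup G) [N.Normal]
    (A : ι → Subgroup G) (h : ∀ i, ⁅A i, C⁆ ≤ N) : ⁅⨆ i, A i, C⁆ ≤ N := by
  rw [comm_le_iff]
  exact iSup_le fun i => (comm_le_iff N C (A i)).mp (h i)

theorem comm_sup_right_le {G : Type*} [Group G] (N A H K : Subgroup G) [N.Normal]
    (h1 : ⁅A, H⁆ ≤ N) (h2 : ⁅A, K⁆ ≤ N) : ⁅A, H ⊔ K⁆ ≤ N := by
  rw [Subgroup.commutator_comm] at h1 h2 ⊢
  rw [comm_le_iff] at h1 h2 ⊢
  exact sup_le h1 h2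

/-- lower central series with an extra top term in front -/
def lcs' {G : Type*} [Group G] (H : Subgroup G) : ℕ → Subgroup G
  | 0 => ⊤
  | (i + 1) => H.lowerCentralSeries i

instance lcs'_normal {G : Type*} [Group G] (H : Subgroup G) [H.Normal] (i : ℕ) :
    (lcs' H i).Normal := by
  cases i with
  | zero => exact Subgroup.normal_top
  | succ i => exact Subgroup.lowerCentralSeries_normal H i

theorem lcs'_comm {G : Type*} [Group G] (H : Subgroup G) [H.Normal] (i : ℕ) :
    ⁅lcs' H i, H⁆ ≤ lcs' H (i + 1) := by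
  cases i with
  | zero => exact Subgroup.commutator_le_right _ _
  | succ i => exact le_rfl

theorem lcs'_eq_bot {G : Type*} [Group G] (H : Subgroup G) {c : ℕ}
    (h : H.lowerCentralSeries c = ⊥) {i : ℕ} (hi : c + 1 ≤ i) : lcs' H i = ⊥ := by
  obtain ⟨j, rfl⟩ : ∃ j, i = j + 1 := ⟨i - 1, by omega⟩
  have : H.lowerCentralSeries j ≤ H.lowerCentralSeries c :=
    Subgroup.lowerCentralSeries_antitone H (by omega)
  rw [h] at this
  exact le_bot_iff.mp this

theorem key {G : Type*} [Group G] (H K : Subgroup G) [H.Normal] [K.Normal] (n : ℕ) :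
    (H ⊔ K).lowerCentralSeries n ≤
      ⨆ (p : ℕ × ℕ) (_ : p.1 + p.2 = n + 1), lcs' H p.1 ⊓ lcs' K p.2 := by
  induction n with
  | zero =>
    rw [Subgroup.lowerCentralSeries_zero]
    apply sup_le
    · exact le_iSup₂_of_le (1, 0) rfl (le_inf le_rfl le_top)
    · exact le_iSup₂_of_le (0, 1) rfl (le_inf le_top le_rfl)
  | succ n ih =>
    rw [Subgroup.lowerCentralSeries_succ]
    refine (Subgroup.commutator_mono ih le_rfl).trans ?_
    apply comm_iSup_le
    intro p
    apply comm_iSup_le
    intro hp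
    apply comm_sup_right_le
    · refine le_iSup₂_of_le (p.1 + 1, p.2) (by simp only; omega) ?_
      exact le_inf ((Subgroup.commutator_mono inf_le_left le_rfl).trans (lcs'_comm H p.1))
        ((Subgroup.commutator_mono inf_le_right le_rfl).trans (Subgroup.commutator_le_left _ _))
    · refine le_iSup₂_of_le (p.1, p.2 + 1) (by simp only; omega) ?_
      exact le_inf ((Subgroup.commutator_mono inf_le_left le_rfl).trans (Subgroup.commutator_le_left _ _))
        ((Subgroup.commutator_mono inf_le_right le_rfl).trans (lcs'_comm K p.2))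

/-- If `H` and `K` are normal subgroups of a finite group with `H` nilpotent of class at most `c` and `K` nilpotent of class at most `d` (the terms with index `c`, respectively `d`, of their lower central series are trivial, indices starting at `0`), then `HK` is nilpotent of class at most `c + d`. -/
theorem result {G : Type*} [Group G] [Finite G] (H K : Subgroup G) [H.Normal] [K.Normal] (c d : ℕ) (hH : H.lowerCentralSeries c = ⊥) (hK : K.lowerCentralSeries d = ⊥) : (H ⊔ K).lowerCentralSeries (c + d) = ⊥ := by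
  have h := key H K (c + d)
  apply le_bot_iff.mp
  refine h.trans ?_
  apply iSup₂_le
  intro p hp
  by_cases h1 : c + 1 ≤ p.1
  · rw [lcs'_eq_bot H hH h1]; exact inf_le_left
  · have h2 : d + 1 ≤ p.2 := by omega
    rw [lcs'_eq_bot K hK h2]; exact inf_le_right

end Cfsg.Agent.S4204
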