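import Cfsg.Statements.S4207
import Cfsg.Agent.Lib_helper6_PGen

set_option autoImplicit false
open Cfsg

namespace Cfsg.Agent.S4207

/-- Let `P` be a group of order `p^n` whose Frattini subgroup has index `p^r`. Then any group of automorphisms of `P` each of which induces the identity on the Frattini quotient has order dividing `p^(r(n-r))`; in particular it is a `p`-group. -/
theorem result {P : Type*} [Group P] [Finite P] {p n r : ℕ} [Fact p.Prime] (hP : Nat.card P = p ^ n) (hr : (frattini P).index = p ^ r) (A : Subgroup (MulAut P)) (hA : ∀ α ∈ A, ∀ x : P, α x * x⁻¹ ∈ frattini P) : Nat.card A ∣ p ^ (r * (n - r)) := by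
  classical
  have hp : p.Prime := Fact.out
  have hfinAut : Finite (MulAut P) :=
    Finite.of_injective (fun e : MulAut P => (e : P → P)) DFunLike.coe_injective
  -- the order of the Frattini subgroup
  have hrn : r ≤ n := by
    have h1 : (frattini P).index ∣ Nat.card P := Subgroup.index_dvd_card _
    rw [hr, hP] at h1
    exact (Nat.pow_dvd_pow_iff_le_right hp.one_lt).mp h1
  have hΦ : Nat.card (frattini P) = p ^ (n - r) := by
    have h1 := (frattini P).card_mul_index
    rw [hr, hP] at h1
    have h2 : p ^ n = p ^ (n - r) * p ^ r := by rw [← pow_add]; congr 1; omega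
    rw [h2] at h1
    exact Nat.eq_of_mul_eq_mul_right (pow_pos hp.pos r) h1
  -- generators of the Frattini quotient
  have hQ : Nat.card (P ⧸ frattini P) = p ^ r := hr
  obtain ⟨xb, hxb⟩ := Cfsg.Agent.Lib_helper6_PGen.exists_gen (Q := P ⧸ frattini P) r hQ
  choose x hx using fun i => QuotientGroup.mk_surjective (xb i)
  -- the set of lifts
  let Ω : Type _ := {f : Fin r → P // ∀ i, f i * (x i)⁻¹ ∈ frattini P}
  have hΩcard : Nat.card Ω = p ^ (r * (n - r)) := by
    have e : Ω ≃ (Fin r → frattini P) :=
      { toFun := fun f i => ⟨f.1 i * (x i)⁻¹, f.2 i⟩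
        invFun := fun u => ⟨fun i => (u i : P) * x i, fun i => by simp⟩
        left_inv := fun f => by
          apply Subtype.ext
          funext i
          simp
        right_inv := fun u => by
          funext i
          apply Subtype.ext
          simp }
    rw [Nat.card_congr e, Nat.card_fun, Nat.card_fin, hΦ, ← pow_mul, mul_comm]
  have hΩfin : Finite Ω := Nat.finite_of_card_ne_zero (by rw [hΩcard]; exact (pow_pos hp.pos _).ne')
  -- every lift generates P
  have hgen : ∀ f : Ω, Subgroup.closure (Set.range f.1) = ⊤ := by
    intro f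
    apply frattini_nongenerating
    have h1 : (Subgroup.closure (Set.range f.1)).map (QuotientGroup.mk' (frattini P)) = ⊤ := by
      rw [MonoidHom.map_closure, ← hxb]
      congr 1
      ext y
      constructor
      · rintro ⟨_, ⟨i, rfl⟩, rfl⟩
        refine ⟨i, ?_⟩
        rw [← hx i]
        symm
        apply QuotientGroup.eq.mpr
        have h0 := (frattini P).inv_mem (f.2 i)
        have h3 : x i * (f.1 i)⁻¹ ∈ frattini P := by simpa using h0
        have hn : (frattini P).Normal := inferInstance
        exact hn.mem_comm h3
      · rintro ⟨i, rfl⟩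
        refine ⟨f.1 i, ⟨i, rfl⟩, ?_⟩
        rw [← hx i]
        apply QuotientGroup.eq.mpr
        have h0 := (frattini P).inv_mem (f.2 i)
        have h3 : x i * (f.1 i)⁻¹ ∈ frattini P := by simpa using h0
        have hn : (frattini P).Normal := inferInstance
        exact hn.mem_comm h3
    have h2 := Subgroup.comap_map_eq (QuotientGroup.mk' (frattini P)) (Subgroup.closure (Set.range f.1))
    rw [h1, Subgroup.comap_top, QuotientGroup.ker_mk'] at h2
    exact h2.symm
  -- the action of A on the lifts
  let act : MulAction A Ω :=
    { smul := fun α f => ⟨fun i => (α : MulAut P) (f.1 i), fun i => by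
        have h1 := hA α.1 α.2 (f.1 i)
        have h2 := f.2 i
        have : (α : MulAut P) (f.1 i) * (x i)⁻¹ =
            ((α : MulAut P) (f.1 i) * (f.1 i)⁻¹) * (f.1 i * (x i)⁻¹) := by group
        rw [this]
        exact (frattini P).mul_mem h1 h2⟩
      one_smul := fun f => rfl
      mul_smul := fun α β f => rfl }
  have hsmul : ∀ (α : A) (f : Ω) (i : Fin r), (α • f).1 i = (α : MulAut P) (f.1 i) :=
    fun α f i => rfl
  have hfree : ∀ (α : A) (f : Ω), α • f = f → α = 1 := by
    intro α f hαf
    apply Subtype.ext
    apply MulEquiv.ext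
    intro y
    have hy : y ∈ Subgroup.closure (Set.range f.1) := by rw [hgen f]; trivial
    have heq : Set.EqOn ((α : MulAut P) : P ≃* P).toMonoidHom (MonoidHom.id P) (Set.range f.1) := by
      rintro _ ⟨i, rfl⟩
      have := congrArg (fun g : Ω => g.1 i) hαf
      exact this
    exact MonoidHom.eqOn_closure heq hy
  have := Cfsg.Agent.Lib_helper6_PGen.card_dvd_of_free hfree
  rw [hΩcard] at this
  exact this

end Cfsg.Agent.S4207
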