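import Cfsg.Statements.S4208
import Cfsg.Agent.S4207
import Cfsg.Agent.Lib_helper6_ElemAb
import Cfsg.Agent.Lib_helper6_PGen
import Cfsg.Agent.Lib_helper1_PGroup

set_option autoImplicit false
open Cfsg

namespace Cfsg.Agent.S4208

/-- Let `P` be a group of order `p^n` whose Frattini subgroup has index `p^r`. Then the order of the automorphism group of `P` divides `p^(r(n-r)) · (p^r - 1)(p^r - p) ⋯ (p^r - p^(r-1))`. -/
theorem result {P : Type*} [Group P] [Finite P] {p n r : ℕ} [Fact p.Prime] (hP : Nat.card P = p ^ n) (hr : (frattini P).index = p ^ r) : Nat.card (MulAut P) ∣ p ^ (r * (n - r)) * ∏ i ∈ Finset.range r, (p ^ r - p ^ i) := by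
  classical
  have hp : p.Prime := Fact.out
  have hfinAut : Finite (MulAut P) :=
    Finite.of_injective (fun e : MulAut P => (e : P → P)) DFunLike.coe_injective
  have hn : (frattini P).Normal := inferInstance
  have hPp : IsPGroup p P := IsPGroup.of_card hP
  have hcomm : ∀ a b : P ⧸ frattini P, a * b = b * a := by
    intro a b
    obtain ⟨x, rfl⟩ := QuotientGroup.mk_surjective a
    obtain ⟨y, rfl⟩ := QuotientGroup.mk_surjective b
    rw [← QuotientGroup.mk_mul, ← QuotientGroup.mk_mul]
    apply QuotientGroup.eq.mpr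
    have h1 : y⁻¹ * x⁻¹ * y⁻¹⁻¹ * x⁻¹⁻¹ ∈ commutator P := by
      rw [commutator_def]
      exact Subgroup.commutator_mem_commutator (Subgroup.mem_top y⁻¹) (Subgroup.mem_top x⁻¹)
    have h2 := Cfsg.Agent.Lib_helper1_PGroup.commutator_le_frattini hPp h1
    have h3 : (x * y)⁻¹ * (y * x) = y⁻¹ * x⁻¹ * y⁻¹⁻¹ * x⁻¹⁻¹ := by group
    rw [h3]; exact h2
  have hexp : ∀ a : P ⧸ frattini P, a ^ p = 1 := by
    intro a
    obtain ⟨x, rfl⟩ := QuotientGroup.mk_surjective a
    rw [← QuotientGroup.mk_pow]
    exact (QuotientGroup.eq_one_iff _).mpr (Cfsg.Agent.Lib_helper1_PGroup.pow_p_mem_frattini hPp x)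
  obtain ⟨Ω, hΩcard, hΩgen, hΩinv⟩ :=
    Cfsg.Agent.Lib_helper6_ElemAb.exists_basis_set (V := P ⧸ frattini P) p r hcomm hexp hr
  have hmap : ∀ α : MulAut P, (frattini P).map (α : P ≃* P).toMonoidHom = frattini P := by
    intro α
    exact (Subgroup.characteristic_iff_map_eq.mp inferInstance) α
  let bar : MulAut P → ((P ⧸ frattini P) ≃* (P ⧸ frattini P)) :=
    fun α => QuotientGroup.congr (frattini P) (frattini P) α (hmap α)
  have hbar : ∀ (α : MulAut P) (x : P),
      bar α (QuotientGroup.mk x) = QuotientGroup.mk (α x) := fun α x => rfl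
  have hbar_one : ∀ v, bar 1 v = v := by
    intro v
    obtain ⟨x, rfl⟩ := QuotientGroup.mk_surjective v
    rw [hbar]; rfl
  have hbar_mul : ∀ α β v, bar (α * β) v = bar α (bar β v) := by
    intro α β v
    obtain ⟨x, rfl⟩ := QuotientGroup.mk_surjective v
    rw [hbar, hbar, hbar]; rfl
  let act : MulAction (MulAut P) Ω :=
    { smul := fun α f => ⟨fun i => bar α (f.1 i), hΩinv (bar α) f.1 f.2⟩
      one_smul := fun f => Subtype.ext (funext fun i => hbar_one _)
      mul_smul := fun α β f => Subtype.ext (funext fun i => hbar_mul _ _ _) }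
  have hsmul : ∀ (α : MulAut P) (f : Ω) (i : Fin r), (α • f).1 i = bar α (f.1 i) :=
    fun _ _ _ => rfl
  have hkey : ∀ (α : MulAut P) (f : Ω), α • f = f → ∀ x : P, α x * x⁻¹ ∈ frattini P := by
    intro α f hαf x
    have heq : Set.EqOn (bar α).toMonoidHom (MonoidHom.id _) (Set.range f.1) := by
      rintro _ ⟨i, rfl⟩
      exact congrArg (fun g : Ω => g.1 i) hαf
    have hx : (QuotientGroup.mk x : P ⧸ frattini P) ∈ Subgroup.closure (Set.range f.1) := by
      rw [hΩgen f.1 f.2]; trivial
    have h1 : bar α (QuotientGroup.mk x) = QuotientGroup.mk x := MonoidHom.eqOn_closure heq hx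
    rw [hbar] at h1
    have h2 := QuotientGroup.eq.mp h1
    have h3 := (frattini P).inv_mem h2
    have h4 : x⁻¹ * α x ∈ frattini P := by simpa using h3
    exact hn.mem_comm h4
  have hkey2 : ∀ (α : MulAut P), (∀ x : P, α x * x⁻¹ ∈ frattini P) → ∀ f : Ω, α • f = f := by
    intro α hα f
    apply Subtype.ext
    funext i
    rw [hsmul]
    obtain ⟨x, hx⟩ := QuotientGroup.mk_surjective (f.1 i)
    rw [← hx, hbar]
    apply QuotientGroup.eq.mpr
    have h3 := (frattini P).inv_mem (hα x)
    have h4 : x * (α x)⁻¹ ∈ frattini P := by simpa using h3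
    exact hn.mem_comm h4
  rcases isEmpty_or_nonempty Ω with hemp | ⟨⟨f0⟩⟩
  · have h0 : Nat.card Ω = 0 := Nat.card_of_isEmpty
    rw [← hΩcard, h0, mul_zero]; exact dvd_zero _
  · let φ : MulAut P →* Equiv.Perm Ω := MulAction.toPermHom (MulAut P) Ω
    have hker : Nat.card φ.ker ∣ p ^ (r * (n - r)) := by
      apply Cfsg.Agent.S4207.result hP hr φ.ker
      intro α hα x
      apply hkey α f0
      have h1 : φ α = 1 := hα
      have h2 := congrArg (fun σ : Equiv.Perm Ω => σ f0) h1
      exact h2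
    have hrange : Nat.card φ.range ∣ Nat.card Ω := by
      apply Cfsg.Agent.Lib_helper6_PGen.card_dvd_of_free
      rintro ⟨σ, α, rfl⟩ f hf
      have h1 : α • f = f := hf
      apply Subtype.ext
      show φ α = 1
      refine Equiv.ext fun g => ?_
      show α • g = g
      exact hkey2 α (hkey α f h1) g
    have hcard : Nat.card (MulAut P) = Nat.card φ.ker * Nat.card φ.range := by
      rw [← Subgroup.index_ker, Subgroup.card_mul_index]
    rw [hcard, ← hΩcard]
    exact mul_dvd_mul hker hrange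

end Cfsg.Agent.S4208
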