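import Cfsg.Statements.S4217
import Cfsg.Agent.Lib_helper1_Gaschutz2

set_option autoImplicit false
open Cfsg

namespace Cfsg.Agent.S4217

/-- Let `A` be an abelian normal subgroup of the finite group `G`. Then `A` has a complement in `G` if and only if, for every prime `p` dividing the index of `A`, there are a Sylow `p`-subgroup `S` of `G/A` and a subgroup `K` of `G` with `K ∩ A = 1` and `KA` equal to the preimage of `S` (that is, `A` has a complement in the preimage of a Sylow `p`-subgroup of `G/A`). -/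
theorem result {G : Type*} [Group G] [Finite G] (A : Subgroup G) [A.Normal] (hA : IsMulCommutative A) : (∃ K : Subgroup G, K.IsComplement' A) ↔ ∀ p : ℕ, p.Prime → p ∣ A.index → ∃ (S : Sylow p (G ⧸ A)) (K : Subgroup G), K ⊓ A = ⊥ ∧ K ⊔ A = (S : Subgroup (G ⧸ A)).comap (QuotientGroup.mk' A) := by
  classical
  haveI := hA
  constructor
  · rintro ⟨K₀, hK₀⟩ p hp _
    haveI : Fact p.Prime := ⟨hp⟩
    have hsurj : Function.Surjective ((QuotientGroup.mk' A).comp K₀.subtype) := by
      intro q
      obtain ⟨g, rfl⟩ := QuotientGroup.mk_surjective q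
      have hg : g ∈ K₀ ⊔ A := by rw [hK₀.sup_eq_top]; trivial
      rw [Subgroup.mem_sup_of_normal_right] at hg
      obtain ⟨k, hk, a, ha, rfl⟩ := hg
      refine ⟨⟨k, hk⟩, ?_⟩
      show ((k : G) : G ⧸ A) = ((k * a : G) : G ⧸ A)
      rw [QuotientGroup.eq, inv_mul_cancel_left]; exact ha
    obtain ⟨P⟩ : Nonempty (Sylow p K₀) := inferInstance
    refine ⟨P.mapSurjective hsurj, (P : Subgroup K₀).map K₀.subtype, ?_, ?_⟩
    · rw [eq_bot_iff]
      have : (P : Subgroup K₀).map K₀.subtype ⊓ A ≤ K₀ ⊓ A :=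
        inf_le_inf_right _ (Subgroup.map_subtype_le _)
      rw [hK₀.disjoint.eq_bot] at this
      exact this
    · rw [Sylow.coe_mapSurjective, ← Subgroup.map_map, Subgroup.comap_map_eq,
        QuotientGroup.ker_mk']
  · intro h
    have hloc : ∀ p ∈ (Nat.card A).primeFactors, ∃ H : Subgroup G,
        (∀ x ∈ H ⊓ A, x ^ (Nat.card A / p ^ (Nat.card A).factorization p) = 1) ∧
        H.index ≤ p ^ (Nat.card A).factorization p := by
      intro p hp
      have hpp : p.Prime := Nat.prime_of_mem_primeFactors hp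
      haveI : Fact p.Prime := ⟨hpp⟩
      by_cases hd : p ∣ A.index
      · obtain ⟨S, K, hKA, hKS⟩ := h p hpp hd
        apply Lib_helper1_Gaschutz2.local_subgroup A p K hKA
        rw [sup_comm, hKS, Subgroup.index_comap_of_surjective _ (QuotientGroup.mk'_surjective A)]
        exact S.not_dvd_index
      · apply Lib_helper1_Gaschutz2.local_subgroup A p ⊥ (bot_inf_eq A)
        rw [sup_bot_eq]; exact hd
    choose! Hf hHf1 hHf2 using hloc
    have hHle : ∀ p ∈ (Nat.card A).primeFactors,
        (⨅ p : (Nat.card A).primeFactors, Hf p) ≤ Hf p :=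
      fun p hp => iInf_le (fun q : (Nat.card A).primeFactors => Hf q) ⟨p, hp⟩
    have hdisj : Disjoint (⨅ p : (Nat.card A).primeFactors, Hf p) A := by
      rw [Subgroup.disjoint_def]
      intro x hxH hxA
      by_contra hx1
      have hord : orderOf x ≠ 1 := fun h1 => hx1 (orderOf_eq_one_iff.mp h1)
      obtain ⟨q, hq, hqx⟩ := Nat.exists_prime_and_dvd hord
      have hxA' : orderOf x ∣ Nat.card A := by
        have := orderOf_dvd_natCard (⟨x, hxA⟩ : A)
        rwa [Subgroup.orderOf_mk] at this
      have hqA : q ∈ (Nat.card A).primeFactors :=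
        Nat.mem_primeFactors.mpr ⟨hq, dvd_trans hqx hxA', Nat.card_pos.ne'⟩
      have h1 := hHf1 q hqA x ⟨hHle q hqA hxH, hxA⟩
      have h2 : q ∣ Nat.card A / q ^ (Nat.card A).factorization q :=
        dvd_trans hqx (orderOf_dvd_of_pow_eq_one h1)
      exact Nat.not_dvd_ordCompl hq Nat.card_pos.ne' h2
    have hidx : (⨅ p : (Nat.card A).primeFactors, Hf p).index ≤ Nat.card A := by
      calc (⨅ p : (Nat.card A).primeFactors, Hf p).index
          ≤ ∏ p : (Nat.card A).primeFactors, (Hf p).index := Subgroup.index_iInf_le _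
        _ ≤ ∏ p : (Nat.card A).primeFactors, (p : ℕ) ^ (Nat.card A).factorization p := by
            apply Finset.prod_le_prod'
            intro p _
            exact hHf2 p p.2
        _ = ∏ p ∈ (Nat.card A).primeFactors, p ^ (Nat.card A).factorization p :=
            Finset.prod_coe_sort _ (fun p => p ^ (Nat.card A).factorization p)
        _ = Nat.card A := by
            rw [← Nat.prod_factorization_eq_prod_primeFactors (fun p k => p ^ k)]
            exact Nat.prod_factorization_pow_eq_self Nat.card_pos.ne'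
    refine ⟨⨅ p : (Nat.card A).primeFactors, Hf p,
      Subgroup.isComplement'_of_card_mul_and_disjoint ?_ hdisj⟩
    apply le_antisymm
    · rw [← Nat.card_prod]
      apply Nat.card_le_card_of_injective
        (fun x : (⨅ p : (Nat.card A).primeFactors, Hf p : Subgroup G) × A => (x.1 : G) * (x.2 : G))
      rintro ⟨h₁, a₁⟩ ⟨h₂, a₂⟩ heq
      have heq' : (h₁ : G) * a₁ = h₂ * a₂ := heq
      have h3 : (h₂ : G)⁻¹ * h₁ = a₂ * (a₁ : G)⁻¹ := by
        rw [inv_mul_eq_iff_eq_mul, ← mul_assoc, ← heq', mul_inv_cancel_right]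
      have h4 : (h₂ : G)⁻¹ * h₁ ∈ (⨅ p : (Nat.card A).primeFactors, Hf p) ⊓ A :=
        ⟨Subgroup.mul_mem _ (Subgroup.inv_mem _ h₂.2) h₁.2,
          by rw [h3]; exact A.mul_mem a₂.2 (A.inv_mem a₁.2)⟩
      rw [hdisj.eq_bot, Subgroup.mem_bot] at h4
      have e1 : (h₁ : G) = h₂ := (inv_mul_eq_one.mp h4).symm
      have e2 : (a₁ : G) = a₂ := by
        rw [e1] at heq'; exact mul_left_cancel heq'
      exact Prod.ext (Subtype.ext e1) (Subtype.ext e2)
    · rw [← Subgroup.card_mul_index (⨅ p : (Nat.card A).primeFactors, Hf p)]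
      exact Nat.mul_le_mul_left _ hidx

end Cfsg.Agent.S4217
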