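import Cfsg.Statements.S4219
import Cfsg.Agent.Lib_helper6_Sylow2

set_option autoImplicit false
open Cfsg

namespace Cfsg.Agent.S4219

theorem aux {G : Type*} [Group G] [Finite G] {α : Type*} [MulAction G α] {t : ℕ}
    [MulAction.IsPretransitive G (Fin t ↪ α)] (x : Fin t ↪ α) {p : ℕ} [Fact p.Prime]
    (S : Subgroup G) (hS : S = MulAction.stabilizer G x) (P : Sylow p S) (P' : Subgroup G)
    (hP' : P' = (P : Subgroup S).map S.subtype)
    (a b : Fin t ↪ α) (ha : ∀ i, a i ∈ MulAction.fixedPoints P' α)
    (hb : ∀ i, b i ∈ MulAction.fixedPoints P' α) :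
    ∃ g ∈ Subgroup.normalizer (P' : Set G), g • a = b := by
  classical
  have hP'p : IsPGroup p P' := by rw [hP']; exact P.2.map S.subtype
  have hcardP' : Nat.card P' = Nat.card P := by
    rw [hP']; exact Subgroup.card_map_of_injective S.subtype_injective
  -- key: for any `c` fixed by `P'` there is `g ∈ N(P')` with `g • x = c`
  have key : ∀ c : Fin t ↪ α, (∀ i, c i ∈ MulAction.fixedPoints P' α) →
      ∃ g ∈ Subgroup.normalizer (P' : Set G), g • x = c := by
    intro c hc
    obtain ⟨gc, hgc⟩ := MulAction.exists_smul_eq G x c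
    have hfix : ∀ h ∈ P', h • c = c := by
      intro h hh
      ext i
      rw [Function.Embedding.smul_apply]
      exact hc i ⟨h, hh⟩
    have hQS : P'.map (MulAut.conj gc⁻¹).toMonoidHom ≤ S := by
      intro y hy
      rw [Cfsg.Agent.Lib_helper6_Conj.mem_conjMap] at hy
      rw [hS, MulAction.mem_stabilizer_iff]
      have h1 := hfix _ hy
      rw [← hgc] at h1
      simp only [inv_inv, mul_smul] at h1
      have h2 := congrArg (fun z => gc⁻¹ • z) h1
      simpa using h2
    obtain ⟨s, hsS, hs⟩ := Cfsg.Agent.Lib_helper6_Sylow2.exists_conj_of_le S P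
      (P'.map (MulAut.conj gc⁻¹).toMonoidHom) hQS (hP'p.map _)
      (by rw [Cfsg.Agent.Lib_helper6_Conj.card_conjMap, hcardP'])
    rw [← hP'] at hs
    refine ⟨gc * s, ?_, ?_⟩
    · rw [Cfsg.Agent.Lib_helper6_Conj.mem_normalizer_iff_conjMap,
        Cfsg.Agent.Lib_helper6_Conj.conjMap_mul, ← hs,
        Cfsg.Agent.Lib_helper6_Conj.conjMap_conjMap_inv]
    · rw [mul_smul]
      have : s • x = x := by
        rw [hS, MulAction.mem_stabilizer_iff] at hsS
        exact hsS
      rw [this, hgc]
  obtain ⟨g1, hg1, hg1a⟩ := key a ha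
  obtain ⟨g2, hg2, hg2b⟩ := key b hb
  refine ⟨g2 * g1⁻¹, Subgroup.mul_mem _ hg2 (Subgroup.inv_mem _ hg1), ?_⟩
  rw [mul_smul, ← hg1a, inv_smul_smul, hg2b]

/-- Let a finite group `G` act `t`-fold transitively on a finite set, let `H` be the stabilizer of `t` distinct points and `P` a Sylow `p`-subgroup of `H`. Then the normalizer of `P` in `G` is `t`-fold transitive on the fixed points of `P`: any `t` distinct fixed points of `P` can be carried to any other `t` distinct fixed points of `P` by an element normalizing `P`. -/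
theorem result {G : Type*} [Group G] [Finite G] {α : Type*} [Fintype α] [MulAction G α] {t : ℕ} (hG : MulAction.IsMultiplyPretransitive G α t) (x : Fin t ↪ α) {p : ℕ} [Fact p.Prime] (P : Sylow p (MulAction.stabilizer G x)) (a b : Fin t ↪ α) (ha : ∀ i, a i ∈ MulAction.fixedPoints ((P : Subgroup (MulAction.stabilizer G x)).map (MulAction.stabilizer G x).subtype) α) (hb : ∀ i, b i ∈ MulAction.fixedPoints ((P : Subgroup (MulAction.stabilizer G x)).map (MulAction.stabilizer G x).subtype) α) : ∃ g ∈ Subgroup.normalizer ((((P : Subgroup (MulAction.stabilizer G x)).map (MulAction.stabilizer G x).subtype) : Subgroup G) : Set G), g • a = b := by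
  haveI : MulAction.IsPretransitive G (Fin t ↪ α) := hG
  exact aux x _ rfl P _ rfl a b ha hb

end Cfsg.Agent.S4219
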