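import Cfsg.Statements.S4275
-- import your own Cfsg.Agent.* helpers here

set_option autoImplicit false
open Cfsg

namespace Cfsg.Agent.S4275

/-- Let G be a transitive group of permutations of a finite set Ω, let o ∈ Ω, and let α be an automorphism of G. Then α is induced by conjugation by a permutation of Ω normalizing G if and only if the image under α of the stabilizer of o fixes some point of Ω. -/
theorem result {Ω : Type*} [Fintype Ω] (G : Subgroup (Equiv.Perm Ω)) (htr : MulAction.IsPretransitive G Ω) (o : Ω) (α : G ≃* G) : (∃ σ : Equiv.Perm Ω, σ ∈ Subgroup.normalizer (G : Set (Equiv.Perm Ω)) ∧ ∀ g : G, ((α g : G) : Equiv.Perm Ω) = σ * (g : Equiv.Perm Ω) * σ⁻¹) ↔ ∃ ω : Ω, ∀ g ∈ (MulAction.stabilizer G o).map α.toMonoidHom, g • ω = ω := by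
  classical
  have := htr
  have hsm : ∀ (g : G) (x : Ω), g • x = (g : Equiv.Perm Ω) x := fun g x => rfl
  constructor
  · rintro ⟨σ, -, hσ⟩
    refine ⟨σ o, ?_⟩
    rintro g ⟨g₀, hg₀, rfl⟩
    have hg₀' : (g₀ : Equiv.Perm Ω) o = o := hg₀
    show ((α g₀ : G) : Equiv.Perm Ω) (σ o) = σ o
    rw [hσ g₀]
    simp [hg₀']
  · rintro ⟨ω, hω⟩
    have hω' : ∀ g : G, g • o = o → α g • ω = ω := by
      intro g hg
      exact hω (α g) ⟨g, hg, rfl⟩
    -- the two stabilizers have the same order
    have hle : (MulAction.stabilizer G o).map α.toMonoidHom ≤ MulAction.stabilizer G ω := by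
      rintro g ⟨g₀, hg₀, rfl⟩
      exact hω' g₀ hg₀
    have hcard : Nat.card (MulAction.stabilizer G ω) ≤
        Nat.card ((MulAction.stabilizer G o).map α.toMonoidHom) := by
      have h1 : Nat.card ((MulAction.stabilizer G o).map α.toMonoidHom) =
          Nat.card (MulAction.stabilizer G o) :=
        Subgroup.card_map_of_injective α.injective
      have h2 := Subgroup.card_mul_index (MulAction.stabilizer G o)
      have h3 := Subgroup.card_mul_index (MulAction.stabilizer G ω)
      rw [MulAction.index_stabilizer_of_transitive] at h2 h3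
      have hpos : 0 < Nat.card Ω := Nat.card_pos_iff.mpr ⟨⟨o⟩, inferInstance⟩
      rw [h1]
      exact le_of_eq (Nat.eq_of_mul_eq_mul_right hpos (h3.trans h2.symm))
    have heq : (MulAction.stabilizer G o).map α.toMonoidHom = MulAction.stabilizer G ω :=
      Subgroup.eq_of_le_of_card_ge hle hcard
    have hiff : ∀ g : G, α g • ω = ω → g • o = o := by
      intro g hg
      have : α g ∈ (MulAction.stabilizer G o).map α.toMonoidHom := by rw [heq]; exact hg
      obtain ⟨g₀, hg₀, hg₀'⟩ := this
      have : g₀ = g := α.injective hg₀'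
      rw [← this]; exact hg₀
    choose r hr using fun x : Ω => MulAction.exists_smul_eq G o x
    let τ : Ω → Ω := fun x => α (r x) • ω
    have hτ : ∀ g : G, τ (g • o) = α g • ω := by
      intro g
      show α (r (g • o)) • ω = α g • ω
      have h1 : (g⁻¹ * r (g • o)) • o = o := by
        rw [mul_smul, hr, inv_smul_smul]
      have h2 := hω' _ h1
      rw [map_mul, mul_smul, map_inv, inv_smul_eq_iff] at h2
      exact h2
    have hτinj : Function.Injective τ := by
      intro x y hxy
      have h1 : α (r x) • ω = α (r y) • ω := hxy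
      have h2 : α ((r y)⁻¹ * r x) • ω = ω := by
        rw [map_mul, mul_smul, map_inv, inv_smul_eq_iff]
        exact h1
      have h3 := hiff _ h2
      rw [mul_smul, inv_smul_eq_iff, hr, hr] at h3
      exact h3
    have hτbij : Function.Bijective τ := Finite.injective_iff_bijective.mp hτinj
    let σ : Equiv.Perm Ω := Equiv.ofBijective τ hτbij
    have hσ : ∀ x, σ x = τ x := fun x => rfl
    have hcomm : ∀ (g : G) (x : Ω), σ ((g : Equiv.Perm Ω) x) = ((α g : G) : Equiv.Perm Ω) (σ x) := by
      intro g x
      obtain ⟨k, rfl⟩ := MulAction.exists_smul_eq G o x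
      rw [hσ, hσ, ← hsm, ← mul_smul, hτ, hτ, map_mul, mul_smul, hsm]
    have hconj : ∀ g : G, ((α g : G) : Equiv.Perm Ω) = σ * (g : Equiv.Perm Ω) * σ⁻¹ := by
      intro g
      ext y
      have := hcomm g (σ⁻¹ y)
      simp only [Equiv.Perm.coe_mul, Function.comp_apply]
      rw [this]
      simp
    refine ⟨σ, ?_, hconj⟩
    rw [Subgroup.mem_normalizer_iff]
    intro h
    constructor
    · intro hh
      have := hconj ⟨h, hh⟩
      rw [← this]
      exact (α ⟨h, hh⟩).2
    · intro hh
      obtain ⟨g, hg⟩ := α.surjective ⟨σ * h * σ⁻¹, hh⟩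
      have h1 : σ * (g : Equiv.Perm Ω) * σ⁻¹ = σ * h * σ⁻¹ := by
        rw [← hconj g, hg]
      have h2 : (g : Equiv.Perm Ω) = h := by
        have := congrArg (fun z => σ⁻¹ * z * σ) h1
        simpa [mul_assoc] using this
      rw [← h2]; exact g.2

end Cfsg.Agent.S4275
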