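import Cfsg.Statements.S4293
import Mathlib
import Cfsg.Agent.Lib_helper4_FrobSemi

set_option autoImplicit false
open Cfsg

namespace Cfsg.Agent.S4293

open Cfsg.Agent.Lib_helper4_FrobSemi
open scoped Pointwise

theorem transport {L L' : Type*} [Group L] [Group L'] (e : L ≃* L') (C : Subgroup L)
    (hC : Cfsg.IsFrobeniusComplement C) : Cfsg.IsFrobeniusComplement (C.map e.toMonoidHom) := by
  obtain ⟨h1, h2, h3⟩ := hC
  refine ⟨?_, ?_, ?_⟩
  · intro hb
    apply h1
    rw [eq_bot_iff] at hb ⊢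
    intro x hx
    have h4 : e x ∈ C.map e.toMonoidHom := ⟨x, hx, rfl⟩
    have h5 := hb h4
    rw [Subgroup.mem_bot] at h5 ⊢
    exact e.injective (h5.trans (map_one e).symm)
  · intro ht
    apply h2
    rw [eq_top_iff] at ht ⊢
    intro x _
    have h4 : e x ∈ C.map e.toMonoidHom := ht (Subgroup.mem_top _)
    obtain ⟨y, hy, hxy⟩ := h4
    have h5 : y = x := e.injective hxy
    rwa [← h5]
  · intro g hg
    have hg' : e.symm g ∉ C := by
      intro hh
      apply hg
      exact ⟨e.symm g, hh, e.apply_symm_apply g⟩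
    have h4 := h3 (e.symm g) hg'
    rw [eq_bot_iff]
    intro x hx
    have hx1 : x ∈ C.map e.toMonoidHom := hx.1
    have hx2 : x ∈ MulAut.conj g • C.map e.toMonoidHom := hx.2
    rw [Subgroup.mem_bot]
    obtain ⟨y, hy, rfl⟩ := hx1
    have hy2 : y ∈ MulAut.conj (e.symm g) • C := by
      rw [Subgroup.mem_pointwise_smul_iff_inv_smul_mem] at hx2 ⊢
      obtain ⟨w, hw, hwe⟩ := hx2
      have h6 : w = (MulAut.conj (e.symm g))⁻¹ • y := by
        apply e.injective
        have h7 : e w = (MulAut.conj g)⁻¹ • (e y) := hwe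
        rw [h7]
        simp [MulAut.smul_def, MulAut.conj_inv_apply]
      rwa [← h6]
    have h8 : y ∈ C ⊓ MulAut.conj (e.symm g) • C := ⟨hy, hy2⟩
    rw [h4, Subgroup.mem_bot] at h8
    rw [h8]
    exact map_one e

section Core

variable {D : Type*} [DivisionRing D] (H : Subgroup Dˣ)

/-- The inclusion of `H` into `D`. -/
def ι : ↥H →* D := (Units.coeHom D).comp H.subtype

theorem ι_inj {h : ↥H} (hh : ι H h = 1) : h = 1 := by
  apply Subtype.ext
  apply Units.ext
  simpa [ι] using hh

variable [Fintype ↥H] (ℓ : ℕ)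

/-- Functions on `H` with values in `ZMod ℓ` respecting all integral linear relations of `H`
inside `D`. -/
def V : AddSubgroup (↥H → ZMod ℓ) where
  carrier := {f | ∀ c : ↥H → ℤ, ∑ k : ↥H, (c k : D) * ι H k = 0 →
    ∑ k : ↥H, (c k : ZMod ℓ) * f k = 0}
  zero_mem' := by
    intro c _
    simp
  add_mem' := by
    intro f g hf hg c hc
    have h1 := hf c hc
    have h2 := hg c hc
    simp only [Pi.add_apply, mul_add, Finset.sum_add_distrib, h1, h2, add_zero]
  neg_mem' := by
    intro f hf c hc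
    have h1 := hf c hc
    simp only [Pi.neg_apply, mul_neg, Finset.sum_neg_distrib, h1, neg_zero]

theorem act_mem (h : ↥H) (f : ↥H → ZMod ℓ) (hf : f ∈ V H ℓ) :
    (fun k => f (h⁻¹ * k)) ∈ V H ℓ := by
  intro c hc
  have h1 : ∑ k : ↥H, ((c (h * k) : ℤ) : D) * ι H k = 0 := by
    have h2 : ∑ k : ↥H, ((c (h * k) : ℤ) : D) * ι H k
        = ι H h⁻¹ * ∑ j : ↥H, (c j : D) * ι H j := by
      rw [Finset.mul_sum]
      rw [← Equiv.sum_comp (Equiv.mulLeft h) (fun j => ι H h⁻¹ * ((c j : D) * ι H j))]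
      apply Finset.sum_congr rfl
      intro k _
      simp only [Equiv.coe_mulLeft]
      rw [(Int.cast_commute (c (h * k)) (ι H h⁻¹)).symm.left_comm, ← map_mul,
        inv_mul_cancel_left]
    rw [h2, hc, mul_zero]
  have h3 := hf (fun k => c (h * k)) h1
  rw [← Equiv.sum_comp (Equiv.mulLeft h) (fun k => (c k : ZMod ℓ) * f (h⁻¹ * k))]
  simpa using h3

/-- The action of `h` on `V`, as an additive automorphism. -/
def actE (h : ↥H) : ↥(V H ℓ) ≃+ ↥(V H ℓ) where
  toFun v := ⟨fun k => v.1 (h⁻¹ * k), act_mem H ℓ h v.1 v.2⟩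
  invFun v := ⟨fun k => v.1 (h * k), by
    have h1 := act_mem H ℓ h⁻¹ v.1 v.2
    simpa using h1⟩
  left_inv v := by
    apply Subtype.ext
    funext k
    show v.1 (h⁻¹ * (h * k)) = v.1 k
    rw [inv_mul_cancel_left]
  right_inv v := by
    apply Subtype.ext
    funext k
    show v.1 (h * (h⁻¹ * k)) = v.1 k
    rw [mul_inv_cancel_left]
  map_add' v w := by
    apply Subtype.ext
    funext k
    rfl

/-- The action as a homomorphism into the automorphism group. -/
def φ : ↥H →* MulAut (Multiplicative ↥(V H ℓ)) where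
  toFun h := AddEquiv.toMultiplicative (actE H ℓ h)
  map_one' := by
    refine MulEquiv.ext (fun v => ?_)
    apply Multiplicative.toAdd.injective
    apply Subtype.ext
    funext k
    show (Multiplicative.toAdd v).1 ((1 : ↥H)⁻¹ * k) = (Multiplicative.toAdd v).1 k
    rw [inv_one, one_mul]
  map_mul' a b := by
    refine MulEquiv.ext (fun v => ?_)
    apply Multiplicative.toAdd.injective
    apply Subtype.ext
    funext k
    show (Multiplicative.toAdd v).1 ((a * b)⁻¹ * k)
      = (Multiplicative.toAdd v).1 (b⁻¹ * (a⁻¹ * k))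
    rw [mul_inv_rev, mul_assoc]

theorem fpf [Fact ℓ.Prime] (hℓ : ∀ h : ↥H, h ≠ 1 → ¬ ℓ ∣ orderOf h) (h : ↥H)
    (v : Multiplicative ↥(V H ℓ)) (hv : φ H ℓ h v = v) : h = 1 ∨ v = 1 := by
  classical
  by_cases h1 : h = 1
  · exact Or.inl h1
  right
  obtain ⟨f, hfdef⟩ : ∃ f : ↥H → ZMod ℓ, f = (Multiplicative.toAdd v).1 := ⟨_, rfl⟩
  have hinv : ∀ k, f (h⁻¹ * k) = f k := by
    intro k
    rw [hfdef]
    exact congrArg (fun w => (Multiplicative.toAdd w).1 k) hv
  have hf2 : f ∈ V H ℓ := by
    rw [hfdef]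
    exact (Multiplicative.toAdd v).2
  have hinv' : ∀ k, f (h * k) = f k := by
    intro k
    have h2 := hinv (h * k)
    rw [inv_mul_cancel_left] at h2
    exact h2.symm
  have hpow : ∀ (i : ℕ) (k : ↥H), f (h ^ i * k) = f k := by
    intro i
    induction i with
    | zero => intro k; simp
    | succ i ih => intro k; rw [pow_succ, mul_assoc, ih, hinv']
  have hgeom : ∑ i ∈ Finset.range (orderOf h), ι H h ^ i = 0 := by
    have h2 := mul_geom_sum (ι H h) (orderOf h)
    rw [← map_pow, pow_orderOf_eq_one, map_one, sub_self] at h2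
    rcases mul_eq_zero.mp h2 with h0 | h0
    · exact absurd (ι_inj H (sub_eq_zero.mp h0)) h1
    · exact h0
  have hzero : ∀ k₀, f k₀ = 0 := by
    intro k₀
    have hc : ∑ k : ↥H, (((∑ i ∈ Finset.range (orderOf h),
        if h ^ i * k₀ = k then (1 : ℤ) else 0 : ℤ)) : D) * ι H k = 0 := by
      push_cast
      simp only [Finset.sum_mul]
      rw [Finset.sum_comm]
      have h2 : ∀ i ∈ Finset.range (orderOf h),
          ∑ k : ↥H, (if h ^ i * k₀ = k then (1 : D) else 0) * ι H k = ι H h ^ i * ι H k₀ := by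
        intro i _
        simp [ite_mul]
      rw [Finset.sum_congr rfl h2, ← Finset.sum_mul, hgeom, zero_mul]
    have h3 := hf2 _ hc
    have h4 : ∑ k : ↥H, (((∑ i ∈ Finset.range (orderOf h),
        if h ^ i * k₀ = k then (1 : ℤ) else 0 : ℤ)) : ZMod ℓ) * f k
        = (orderOf h : ZMod ℓ) * f k₀ := by
      push_cast
      simp only [Finset.sum_mul]
      rw [Finset.sum_comm]
      have h2 : ∀ i ∈ Finset.range (orderOf h),
          ∑ k : ↥H, (if h ^ i * k₀ = k then (1 : ZMod ℓ) else 0) * f k = f k₀ := by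
        intro i _
        simp [ite_mul, hpow]
      rw [Finset.sum_congr rfl h2]
      simp
    rw [h4] at h3
    rcases mul_eq_zero.mp h3 with h5 | h5
    · exact absurd ((CharP.cast_eq_zero_iff (ZMod ℓ) ℓ (orderOf h)).mp h5) (hℓ h h1)
    · exact h5
  apply Multiplicative.toAdd.injective
  apply Subtype.ext
  funext k
  have h9 := hzero k
  rw [hfdef] at h9
  exact h9

theorem exists_fun [Finite ↥H] : ∃ ℓ : ℕ, ℓ.Prime ∧ (∀ h : ↥H, h ≠ 1 → ¬ ℓ ∣ orderOf h) ∧
    ∃ f : ↥H → ZMod ℓ, f 1 ≠ 0 ∧ f ∈ V H ℓ := by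
  obtain ⟨p, hp⟩ := CharP.exists D
  rcases CharP.char_is_prime_or_zero D p with hpp | hp0
  · -- positive characteristic
    haveI : Fact p.Prime := ⟨hpp⟩
    refine ⟨p, hpp, ?_, ?_⟩
    · intro h h1 hdvd
      obtain ⟨m, hm⟩ := hdvd
      have hpos : 0 < orderOf h := orderOf_pos h
      have hmpos : 0 < m := by
        rcases Nat.eq_zero_or_pos m with h0 | h0
        · rw [h0, mul_zero] at hm; omega
        · exact h0
      have h2 : (ι H h ^ m) ^ p = 1 := by
        rw [← pow_mul, mul_comm, ← hm, ← map_pow, pow_orderOf_eq_one, map_one]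
      have h3 : (ι H h ^ m - 1) ^ p = 0 := by
        rw [sub_pow_char_of_commute p (Commute.one_right _), h2, one_pow, sub_self]
      have h4 : ι H (h ^ m) = 1 := by
        rw [map_pow]
        exact sub_eq_zero.mp (pow_eq_zero_iff (hpp.ne_zero) |>.mp h3)
      have h5 : h ^ m = 1 := ι_inj H h4
      have h6 := orderOf_dvd_of_pow_eq_one h5
      rw [hm] at h6
      have h7 := Nat.le_of_dvd hmpos h6
      have h8 := hpp.two_le
      nlinarith
    · letI : Algebra (ZMod p) D := ZMod.algebra D p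
      have hker : LinearMap.ker (LinearMap.toSpanSingleton (ZMod p) D 1) = ⊥ := by
        rw [LinearMap.ker_eq_bot']
        intro c hc
        rw [LinearMap.toSpanSingleton_apply] at hc
        rcases smul_eq_zero.mp hc with h0 | h0
        · exact h0
        · exact absurd h0 one_ne_zero
      obtain ⟨g, hg⟩ := LinearMap.exists_leftInverse_of_injective _ hker
      have hg1 : g 1 = 1 := by
        have h2 := congrArg (fun t => t 1) hg
        simpa [LinearMap.toSpanSingleton_apply] using h2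
      refine ⟨fun k => g (ι H k), ?_, ?_⟩
      · show g (ι H 1) ≠ 0
        rw [map_one, hg1]
        exact one_ne_zero
      · intro c hc
        have h2 := congrArg g hc
        rw [map_sum, map_zero] at h2
        rw [← h2]
        apply Finset.sum_congr rfl
        intro k _
        rw [← zsmul_eq_mul, ← zsmul_eq_mul, map_zsmul]
  · -- characteristic zero
    subst hp0
    have : CharZero D := CharP.charP_to_charZero D
    have hker : LinearMap.ker (LinearMap.toSpanSingleton ℚ D 1) = ⊥ := by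
      rw [LinearMap.ker_eq_bot']
      intro c hc
      rw [LinearMap.toSpanSingleton_apply] at hc
      rcases smul_eq_zero.mp hc with h0 | h0
      · exact h0
      · exact absurd h0 one_ne_zero
    obtain ⟨g, hg⟩ := LinearMap.exists_leftInverse_of_injective _ hker
    have hg1 : g 1 = 1 := by
      have h2 := congrArg (fun t => t 1) hg
      simpa [LinearMap.toSpanSingleton_apply] using h2
    -- clear denominators
    obtain ⟨N, hN0, hNz⟩ : ∃ N : ℕ, 0 < N ∧ ∀ k : ↥H, ∃ z : ℤ, (z : ℚ) = N * g (ι H k) := by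
      refine ⟨∏ k : ↥H, (g (ι H k)).den, ?_, ?_⟩
      · apply Finset.prod_pos
        intro k _
        exact Rat.den_pos _
      · intro k
        obtain ⟨m, hm⟩ := Finset.dvd_prod_of_mem (fun j : ↥H => (g (ι H j)).den) (Finset.mem_univ k)
        refine ⟨(g (ι H k)).num * m, ?_⟩
        rw [hm]
        push_cast
        have h2 := Rat.mul_den_eq_num (g (ι H k))
        rw [← h2]
        ring
    choose z hz using hNz
    obtain ⟨ℓ, hℓ1, hℓp⟩ := Nat.exists_infinite_primes (max N (Nat.card ↥H) + 1)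
    haveI : Fact ℓ.Prime := ⟨hℓp⟩
    have hℓN : N < ℓ := by
      have := le_max_left N (Nat.card ↥H)
      omega
    have hℓH : Nat.card ↥H < ℓ := by
      have := le_max_right N (Nat.card ↥H)
      omega
    refine ⟨ℓ, hℓp, ?_, ?_⟩
    · intro h _ hdvd
      have h2 := Nat.le_of_dvd (orderOf_pos h) hdvd
      have h3 := Nat.le_of_dvd Nat.card_pos (orderOf_dvd_natCard h)
      omega
    · refine ⟨fun k => (z k : ZMod ℓ), ?_, ?_⟩
      · show ((z 1 : ℤ) : ZMod ℓ) ≠ 0
        have h2 : z 1 = (N : ℤ) := by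
          have h3 := hz 1
          rw [map_one, hg1, mul_one] at h3
          exact_mod_cast h3
        rw [h2]
        intro h3
        have h4 : ((N : ℕ) : ZMod ℓ) = 0 := by exact_mod_cast h3
        have h5 := (CharP.cast_eq_zero_iff (ZMod ℓ) ℓ N).mp h4
        have h6 := Nat.le_of_dvd hN0 h5
        omega
      · intro c hc
        have h2 := congrArg g hc
        rw [map_sum, map_zero] at h2
        have h3 : ∑ k : ↥H, (c k : ℚ) * (z k : ℚ) = 0 := by
          have h4 : ∑ k : ↥H, (c k : ℚ) * (z k : ℚ) = N * ∑ k : ↥H, g ((c k : D) * ι H k) := by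
            rw [Finset.mul_sum]
            apply Finset.sum_congr rfl
            intro k _
            rw [hz k, ← zsmul_eq_mul (ι H k), map_zsmul, zsmul_eq_mul]
            ring
          rw [h4, h2, mul_zero]
        have h5 : ∑ k : ↥H, c k * z k = 0 := by exact_mod_cast h3
        have h6 := congrArg (Int.cast : ℤ → ZMod ℓ) h5
        push_cast at h6
        exact h6

end Core


/-- A nontrivial finite subgroup of the multiplicative group of a division ring occurs as a Frobenius complement of some finite Frobenius group. -/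
theorem result {D : Type*} [DivisionRing D] (H : Subgroup Dˣ) [Finite H] (hH : H ≠ ⊥) :
    ∃ (L : Type) (_ : Group L) (_ : Finite L) (C : Subgroup L), Cfsg.IsFrobeniusComplement C ∧ Nonempty (H ≃* C) := by
  classical
  haveI := Fintype.ofFinite ↥H
  obtain ⟨ℓ, hℓp, hP2, f₀, hf1, hfrel⟩ := exists_fun H
  haveI : Fact ℓ.Prime := ⟨hℓp⟩
  haveI : Nontrivial ↥H := (Subgroup.nontrivial_iff_ne_bot H).mpr hH
  haveI : Nontrivial (Multiplicative ↥(V H ℓ)) := by
    refine ⟨⟨Multiplicative.ofAdd ⟨f₀, hfrel⟩, 1, ?_⟩⟩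
    intro h
    apply hf1
    exact congrArg (fun w => (Multiplicative.toAdd w).1 1) h
  have hfrob := frob_of_fpf (φ H ℓ) (fpf H ℓ hP2)
  haveI : Finite (Multiplicative ↥(V H ℓ) ⋊[φ H ℓ] ↥H) :=
    Finite.of_equiv _ SemidirectProduct.equivProd.symm
  refine ⟨Shrink.{0} (Multiplicative ↥(V H ℓ) ⋊[φ H ℓ] ↥H), inferInstance,
    Finite.of_equiv _ (equivShrink _),
    (SemidirectProduct.inr : ↥H →* Multiplicative ↥(V H ℓ) ⋊[φ H ℓ] ↥H).range.map
      (Shrink.mulEquiv).symm.toMonoidHom,
    transport _ _ hfrob, ⟨?_⟩⟩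
  exact (MonoidHom.ofInjective SemidirectProduct.inr_injective).trans
    (MulEquiv.subgroupMap (Shrink.mulEquiv).symm
      (SemidirectProduct.inr : ↥H →* Multiplicative ↥(V H ℓ) ⋊[φ H ℓ] ↥H).range)

end Cfsg.Agent.S4293
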