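import Cfsg.Statements.S4296
import Cfsg.Agent.Lib_helper9_Frob
import Cfsg.Agent.Lib_helper5_FrobKer
import Cfsg.Agent.S0040

set_option autoImplicit false
open Cfsg

namespace Cfsg.Agent.S4296

open scoped Pointwise
universe u

theorem sq_base {V : Type*} [AddCommGroup V] [Finite V] (p : ℕ) [hp : Fact p.Prime] (hp2 : p ≠ 2)
    (hpV : ∀ v : V, p • v = 0) (I J : V →+ V) (hI : ∀ v, I (I v) = -v) (hJ : ∀ v, J (J v) = -v)
    (hJI : ∀ v, J (I v) = -(I (J v))) : ∃ m, Nat.card V = m * m := by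
  obtain ⟨a, b, hab⟩ := ZMod.sq_add_sq p (-1)
  obtain ⟨x, hx⟩ : ∃ x : ℕ, (x : ZMod p) = a := ⟨a.val, ZMod.natCast_zmod_val a⟩
  obtain ⟨y, hy⟩ : ∃ y : ℕ, (y : ZMod p) = b := ⟨b.val, ZMod.natCast_zmod_val b⟩
  have hxy : p ∣ x * x + y * y + 1 := by
    rw [← ZMod.natCast_eq_zero_iff]
    push_cast
    rw [hx, hy, ← pow_two, ← pow_two, hab]
    ring
  obtain ⟨k, hk⟩ := hxy
  obtain ⟨E, hE⟩ : ∃ E : V →+ V, ∀ v, E v = x • I v + y • J v := ⟨x • I + y • J, fun v => rfl⟩
  have hEE : ∀ v, E (E v) = v := by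
    intro v
    have h0 : (x * x + y * y + 1) • v = 0 := by rw [hk, mul_comm, mul_smul, hpV, smul_zero]
    have h1 : E (E v) + (x * x + y * y + 1) • v = v := by
      rw [hE (E v), hE v]
      simp only [map_add, map_nsmul, hI, hJ, hJI, smul_add, smul_neg, smul_smul, add_smul,
        one_smul, mul_comm y x]
      abel
    rw [h0, add_zero] at h1
    exact h1
  have hKK : ∀ v, I (J (I (J v))) = -v := by
    intro v
    rw [hJI (J v), map_neg, hI, neg_neg, hJ]
  have hEK : ∀ v, E (I (J v)) = -(I (J (E v))) := by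
    intro v
    rw [hE, hE]
    simp only [map_add, map_nsmul, map_neg, hI, hJ, hJI, neg_neg, smul_neg]
    abel
  obtain ⟨Tm, hTm⟩ : ∃ Tm : V →+ V, ∀ v, Tm v = E v - v := ⟨E - AddMonoidHom.id V, fun v => rfl⟩
  obtain ⟨Tp, hTp⟩ : ∃ Tp : V →+ V, ∀ v, Tp v = E v + v := ⟨E + AddMonoidHom.id V, fun v => rfl⟩
  have h1 : Nat.card Tm.ker * Nat.card Tm.range = Nat.card V := by
    rw [← AddSubgroup.index_ker]; exact AddSubgroup.card_mul_index Tm.ker
  have hodd : Odd p := hp.out.eq_two_or_odd'.resolve_left hp2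
  obtain ⟨h', hh'⟩ := hodd
  have h2 : Tm.range = Tp.ker := by
    ext w
    rw [AddMonoidHom.mem_range, AddMonoidHom.mem_ker]
    constructor
    · rintro ⟨v, rfl⟩
      rw [hTp, hTm, map_sub, hEE]
      abel
    · intro hw
      rw [hTp] at hw
      have hEw : E w = -w := eq_neg_of_add_eq_zero_left hw
      refine ⟨(h' + 1) • (-w), ?_⟩
      rw [hTm, map_nsmul, map_neg, hEw, neg_neg, smul_neg, sub_neg_eq_add, ← add_smul]
      have h3 : h' + 1 + (h' + 1) = p + 1 := by omega
      rw [h3, add_smul, hpV, zero_add, one_smul]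
  have hKinj : ∀ v w : V, I (J v) = I (J w) → v = w := by
    intro v w h
    have h3 := congrArg (fun u => I (J u)) h
    simp only [hKK] at h3
    exact neg_injective h3
  have h3 : Nat.card Tm.ker = Nat.card Tp.ker := by
    apply le_antisymm
    · apply Nat.card_le_card_of_injective (fun v : Tm.ker => (⟨I (J v), by
        have hv := v.2
        rw [AddMonoidHom.mem_ker, hTm] at hv
        rw [AddMonoidHom.mem_ker, hTp, hEK, sub_eq_zero.mp hv]
        abel⟩ : Tp.ker))
      intro v w h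
      exact Subtype.ext (hKinj _ _ (congrArg Subtype.val h))
    · apply Nat.card_le_card_of_injective (fun v : Tp.ker => (⟨I (J v), by
        have hv := v.2
        rw [AddMonoidHom.mem_ker, hTp] at hv
        rw [AddMonoidHom.mem_ker, hTm, hEK, eq_neg_of_add_eq_zero_left hv, map_neg, map_neg]
        abel⟩ : Tm.ker))
      intro v w h
      exact Subtype.ext (hKinj _ _ (congrArg Subtype.val h))
  exact ⟨Nat.card Tp.ker, by rw [← h1, h2, h3]⟩

theorem sq_aux (n : ℕ) : ∀ (V : Type u) [AddCommGroup V] [Finite V], Nat.card V = n → Odd n →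
    ∀ I J : V →+ V, (∀ v, I (I v) = -v) → (∀ v, J (J v) = -v) → (∀ v, J (I v) = -(I (J v))) →
    ∃ m, n = m * m := by
  induction n using Nat.strong_induction_on with
  | _ n ih =>
  intro V _ _ hn hodd I J hI hJ hJI
  by_cases h1 : n = 1
  · exact ⟨1, by rw [h1]⟩
  obtain ⟨p, hp, hpn⟩ := Nat.exists_prime_and_dvd h1
  haveI : Fact p.Prime := ⟨hp⟩
  have hp2 : p ≠ 2 := by
    rintro rfl
    exact (Nat.not_even_iff_odd.mpr hodd) (even_iff_two_dvd.mpr hpn)
  have key : ∀ S : AddSubgroup V, (∀ v ∈ S, I v ∈ S) → (∀ v ∈ S, J v ∈ S) → Nat.card S < n →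
      ∃ m, Nat.card S = m * m := by
    intro S hSI hSJ hlt
    have hSodd : Odd (Nat.card S) := by
      have hdvd : Nat.card S ∣ n := by rw [← hn]; exact AddSubgroup.card_addSubgroup_dvd_card S
      exact Odd.of_dvd_nat hodd hdvd
    exact ih (Nat.card S) hlt ↥S rfl hSodd
      ((I.comp S.subtype).codRestrict S (fun v => hSI v v.2))
      ((J.comp S.subtype).codRestrict S (fun v => hSJ v v.2))
      (fun v => Subtype.ext (hI v)) (fun v => Subtype.ext (hJ v)) (fun v => Subtype.ext (hJI v))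
  obtain ⟨f, hf⟩ : ∃ f : V →+ V, ∀ v, f v = p • v := ⟨nsmulAddMonoidHom p, fun v => rfl⟩
  have hcard : Nat.card f.ker * Nat.card f.range = Nat.card V := by
    rw [← AddSubgroup.index_ker]; exact AddSubgroup.card_mul_index f.ker
  by_cases hr : ∀ v : V, p • v = 0
  · rw [← hn]; exact sq_base p hp2 hr I J hI hJ hJI
  · have hker1 : Nat.card f.ker ≠ 1 := by
      obtain ⟨v, hv⟩ := exists_prime_addOrderOf_dvd_card' (G := V) p (by rw [hn]; exact hpn)
      intro h
      have hbot : f.ker = ⊥ := AddSubgroup.card_eq_one.mp h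
      have hvk : v ∈ f.ker := by
        rw [AddMonoidHom.mem_ker, hf, ← hv]; exact addOrderOf_nsmul_eq_zero v
      rw [hbot, AddSubgroup.mem_bot] at hvk
      rw [hvk, addOrderOf_zero] at hv
      exact hp.one_lt.ne hv
    have hrange1 : Nat.card f.range ≠ 1 := by
      intro h
      apply hr
      intro v
      have hbot : f.range = ⊥ := AddSubgroup.card_eq_one.mp h
      have h5 : f v ∈ f.range := ⟨v, rfl⟩
      rw [hbot, AddSubgroup.mem_bot, hf] at h5
      exact h5
    have hkpos : 0 < Nat.card f.ker := Nat.card_pos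
    have hrpos : 0 < Nat.card f.range := Nat.card_pos
    have hklt : Nat.card f.ker < n := by
      rw [← hn, ← hcard]
      have h5 : 2 ≤ Nat.card f.range := by omega
      nlinarith
    have hrlt : Nat.card f.range < n := by
      rw [← hn, ← hcard]
      have h5 : 2 ≤ Nat.card f.ker := by omega
      nlinarith
    obtain ⟨m₁, hm₁⟩ := key f.ker (fun v hv => by
        rw [AddMonoidHom.mem_ker, hf] at hv ⊢
        rw [← map_nsmul, hv, map_zero]) (fun v hv => by
        rw [AddMonoidHom.mem_ker, hf] at hv ⊢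
        rw [← map_nsmul, hv, map_zero]) hklt
    obtain ⟨m₂, hm₂⟩ := key f.range (fun v hv => by
        obtain ⟨w, rfl⟩ := hv
        exact ⟨I w, by rw [hf, hf, map_nsmul]⟩) (fun v hv => by
        obtain ⟨w, rfl⟩ := hv
        exact ⟨J w, by rw [hf, hf, map_nsmul]⟩) hrlt
    refine ⟨m₁ * m₂, ?_⟩
    rw [← hn, ← hcard, hm₁, hm₂]
    ring

theorem quat_elts (k : ℕ) (hk : 0 < k) : ∃ i j t : QuaternionGroup (2 * k),
    i * i = t ∧ j * j = t ∧ j * i = t * (i * j) ∧ t ≠ 1 ∧ t * t = 1 := by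
  have h4 : ((2 * (2 * k) : ℕ) : ZMod (2 * (2 * k))) = 0 := ZMod.natCast_self _
  push_cast at h4
  refine ⟨QuaternionGroup.a (k : ZMod (2 * (2 * k))), QuaternionGroup.xa 0,
    QuaternionGroup.a ((k : ZMod (2 * (2 * k))) + k), ?_, ?_, ?_, ?_, ?_⟩
  · rw [QuaternionGroup.a_mul_a]
  · rw [QuaternionGroup.xa_mul_xa]
    congr 1
    push_cast
    ring
  · rw [QuaternionGroup.xa_mul_a, QuaternionGroup.a_mul_xa, QuaternionGroup.a_mul_xa]
    congr 1
    linear_combination h4
  · intro h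
    rw [QuaternionGroup.one_def] at h
    have h5 := QuaternionGroup.a.inj h
    have h6 : ((2 * k : ℕ) : ZMod (2 * (2 * k))) = 0 := by
      push_cast
      rw [← h5]
      ring
    rw [ZMod.natCast_eq_zero_iff] at h6
    have h7 := Nat.le_of_dvd (by omega) h6
    omega
  · rw [QuaternionGroup.a_mul_a, QuaternionGroup.one_def]
    congr 1
    linear_combination h4


/-- Let H be a Frobenius complement in a finite group, and suppose some Sylow subgroup of H is not cyclic. Then the number of elements of the Frobenius kernel (the identity together with the elements lying in no conjugate of H) is an odd perfect square. -/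
theorem result {L : Type*} [Group L] [Finite L] (H : Subgroup L) (hF : Cfsg.IsFrobeniusComplement H)
    (hZ : ∃ (p : ℕ) (_ : Fact p.Prime) (P : Sylow p H), ¬ IsCyclic P) :
    Odd (Nat.card (Cfsg.frobeniusKernel H)) ∧ IsSquare (Nat.card (Cfsg.frobeniusKernel H)) := by
  classical
  obtain ⟨p, hpF, P, hP⟩ := hZ
  obtain ⟨N, hNset, hNn, hNc⟩ := Cfsg.Agent.Lib_helper5_FrobKer.frobenius_kernel H hF
  haveI := hNn
  have hcardN : Nat.card ↥N = H.index := Cfsg.Agent.Lib_helper9_Frob.card_kernel_subgroup hF hNset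
  have hcardK : Nat.card (Cfsg.frobeniusKernel H) = Nat.card ↥N := by
    rw [Cfsg.Agent.Lib_helper9_Frob.card_kernel hF, hcardN]
  rw [hcardK]
  have hN1 : N ≠ ⊥ := by
    intro h
    apply hF.2.1
    have h1 := hNc.sup_eq_top
    rw [h, bot_sup_eq] at h1
    exact h1
  have hmemK : ∀ w : L, w ∈ N ↔ w ∈ Cfsg.frobeniusKernel H := fun w => by rw [← hNset]; rfl
  have hfpf : ∀ h ∈ H, h ≠ 1 → N ⊓ Subgroup.centralizer {h} = ⊥ := by
    intro h hh hh1
    rw [eq_bot_iff]
    intro k hk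
    obtain ⟨hkN, hkc⟩ := Subgroup.mem_inf.mp hk
    rw [Subgroup.mem_centralizer_singleton_iff] at hkc
    rw [Subgroup.mem_bot]
    exact Cfsg.Agent.Lib_helper9_Frob.centralizer_kernel hF hh hh1 ((hmemK k).mp hkN) hkc
  haveI := hpF
  rcases Cfsg.Agent.S0040.result N H hNc hN1 hfpf p P with hcyc | ⟨n, ⟨e⟩⟩
  · exact absurd hcyc hP
  have hn : n ≠ 0 := by
    rintro rfl
    apply hP
    rw [pow_zero] at e
    haveI := QuaternionGroup.quaternionGroup_one_isCyclic
    exact isCyclic_of_surjective e.symm e.symm.surjective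
  obtain ⟨n', rfl⟩ := Nat.exists_eq_succ_of_ne_zero hn
  rw [Nat.succ_eq_add_one, pow_succ'] at e
  obtain ⟨i, j, t, hii, hjj, hji, ht1, htt⟩ := quat_elts (2 ^ n') (by positivity)
  obtain ⟨iL, hiL⟩ : ∃ iL : L, iL = (((e.symm i : ↥(P : Subgroup ↥H)) : ↥H) : L) := ⟨_, rfl⟩
  obtain ⟨jL, hjL⟩ : ∃ jL : L, jL = (((e.symm j : ↥(P : Subgroup ↥H)) : ↥H) : L) := ⟨_, rfl⟩
  obtain ⟨tL, htL⟩ : ∃ tL : L, tL = (((e.symm t : ↥(P : Subgroup ↥H)) : ↥H) : L) := ⟨_, rfl⟩
  have hiiL : iL * iL = tL := by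
    rw [hiL, htL, ← hii, map_mul]
    rfl
  have hjjL : jL * jL = tL := by
    rw [hjL, htL, ← hjj, map_mul]
    rfl
  have hjiL : jL * iL = tL * (iL * jL) := by
    have h1 := congrArg (fun w => (((e.symm w : ↥(P : Subgroup ↥H)) : ↥H) : L)) hji
    simp only [map_mul] at h1
    rw [hiL, hjL, htL]
    exact h1
  have htH : tL ∈ H := by rw [htL]; exact (e.symm t : ↥H).2
  have htL1 : tL ≠ 1 := by
    intro h
    apply ht1
    rw [htL] at h
    have h1 : (e.symm t : ↥(P : Subgroup ↥H)) = 1 := Subtype.ext (Subtype.ext h)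
    exact (EmbeddingLike.map_eq_one_iff (f := e.symm)).mp h1
  have httL : tL * tL = 1 := by
    have h1 := congrArg (fun w => (((e.symm w : ↥(P : Subgroup ↥H)) : ↥H) : L)) htt
    simp only [map_mul, map_one] at h1
    rw [htL]
    exact h1
  have hinv := Cfsg.Agent.Lib_helper9_Frob.involution_inverts_kernel hF htH htL1 httL
  have hcomm := Cfsg.Agent.Lib_helper9_Frob.kernel_comm_of_involution hF htH htL1 httL
  have htinv : tL⁻¹ = tL := inv_eq_of_mul_eq_one_right httL
  have hto : orderOf tL = 2 := by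
    haveI : Fact (Nat.Prime 2) := ⟨Nat.prime_two⟩
    exact orderOf_eq_prime (by rw [pow_two]; exact httL) htL1
  have h2H : 2 ∣ Nat.card ↥H := by rw [← hto]; exact Subgroup.orderOf_dvd_natCard H htH
  have hoddN : Odd (Nat.card ↥N) := by
    rw [hcardN]
    have h1 := Cfsg.Agent.Lib_helper9_Frob.coprime_index_card hF
    exact Nat.Coprime.odd_of_right (Nat.Coprime.coprime_dvd_right h2H h1)
  refine ⟨hoddN, ?_⟩
  have gI : ∀ w ∈ N, iL * (iL * w * iL⁻¹) * iL⁻¹ = w⁻¹ := by
    intro w hw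
    calc iL * (iL * w * iL⁻¹) * iL⁻¹ = (iL * iL) * w * (iL * iL)⁻¹ := by group
      _ = tL * w * tL := by rw [hiiL, htinv]
      _ = w⁻¹ := hinv w ((hmemK w).mp hw)
  have gJ : ∀ w ∈ N, jL * (jL * w * jL⁻¹) * jL⁻¹ = w⁻¹ := by
    intro w hw
    calc jL * (jL * w * jL⁻¹) * jL⁻¹ = (jL * jL) * w * (jL * jL)⁻¹ := by group
      _ = tL * w * tL := by rw [hjjL, htinv]
      _ = w⁻¹ := hinv w ((hmemK w).mp hw)
  have gJI : ∀ w ∈ N, jL * (iL * w * iL⁻¹) * jL⁻¹ = (iL * (jL * w * jL⁻¹) * iL⁻¹)⁻¹ := by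
    intro w hw
    have hu : iL * (jL * w * jL⁻¹) * iL⁻¹ ∈ N := hNn.conj_mem _ (hNn.conj_mem _ hw jL) iL
    calc jL * (iL * w * iL⁻¹) * jL⁻¹ = (jL * iL) * w * (jL * iL)⁻¹ := by group
      _ = tL * (iL * (jL * w * jL⁻¹) * iL⁻¹) * tL⁻¹ := by rw [hjiL]; group
      _ = tL * (iL * (jL * w * jL⁻¹) * iL⁻¹) * tL := by rw [htinv]
      _ = (iL * (jL * w * jL⁻¹) * iL⁻¹)⁻¹ := hinv _ ((hmemK _).mp hu)
  letI : CommGroup ↥N :=
    { (inferInstance : Group ↥N) with
      mul_comm := fun a b => Subtype.ext (hcomm a ((hmemK a).mp a.2) b ((hmemK b).mp b.2)) }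
  obtain ⟨m, hm⟩ := sq_aux (Nat.card ↥N) (Additive ↥N) rfl hoddN
    (MonoidHom.toAdditive (MulAut.conjNormal (H := N) iL).toMonoidHom)
    (MonoidHom.toAdditive (MulAut.conjNormal (H := N) jL).toMonoidHom)
    (fun v => by
      show Additive.ofMul (MulAut.conjNormal iL (MulAut.conjNormal iL (Additive.toMul v))) =
        Additive.ofMul (Additive.toMul v)⁻¹
      congr 1
      apply Subtype.ext
      rw [MulAut.conjNormal_apply, MulAut.conjNormal_apply]
      exact gI _ (Additive.toMul v).2)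
    (fun v => by
      show Additive.ofMul (MulAut.conjNormal jL (MulAut.conjNormal jL (Additive.toMul v))) =
        Additive.ofMul (Additive.toMul v)⁻¹
      congr 1
      apply Subtype.ext
      rw [MulAut.conjNormal_apply, MulAut.conjNormal_apply]
      exact gJ _ (Additive.toMul v).2)
    (fun v => by
      show Additive.ofMul (MulAut.conjNormal jL (MulAut.conjNormal iL (Additive.toMul v))) =
        Additive.ofMul (MulAut.conjNormal iL (MulAut.conjNormal jL (Additive.toMul v)))⁻¹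
      congr 1
      apply Subtype.ext
      rw [MulAut.conjNormal_apply, MulAut.conjNormal_apply, Subgroup.coe_inv,
        MulAut.conjNormal_apply, MulAut.conjNormal_apply]
      exact gJI _ (Additive.toMul v).2)
  exact ⟨m, hm⟩

end Cfsg.Agent.S4296
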