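import Cfsg.Statements.S4295
import Mathlib
import Cfsg.Agent.Lib_helper4_FrobSemi
import Cfsg.Agent.Lib_helper9_Frob
import Cfsg.Agent.S4296

set_option autoImplicit false
open Cfsg

namespace Cfsg.Agent.S4295

open Cfsg.Agent.Lib_helper4_FrobSemi
open Matrix QuaternionGroup

section Rep
variable {p : ℕ} [Fact p.Prime]

/-- the matrix of `i` -/
def II : Matrix (Fin 2) (Fin 2) (ZMod p) := !![0, -1; 1, 0]

/-- the matrix of `j` -/
def JJ (x y : ZMod p) : Matrix (Fin 2) (Fin 2) (ZMod p) := !![x, y; y, -x]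

lemma mat_ext (A B : Matrix (Fin 2) (Fin 2) (ZMod p)) (h00 : A 0 0 = B 0 0) (h01 : A 0 1 = B 0 1)
    (h10 : A 1 0 = B 1 0) (h11 : A 1 1 = B 1 1) : A = B := by
  ext i j
  fin_cases i <;> fin_cases j <;> assumption

lemma II2 : (II : Matrix (Fin 2) (Fin 2) (ZMod p)) ^ 2 = -1 := by
  rw [pow_two]
  unfold II
  apply mat_ext <;> simp [Matrix.mul_apply, Fin.sum_univ_two]

lemma II4 : (II : Matrix (Fin 2) (Fin 2) (ZMod p)) ^ 4 = 1 := by
  rw [show (4 : ℕ) = 2 * 2 from rfl, pow_mul, II2]
  simp

lemma II3 : (II : Matrix (Fin 2) (Fin 2) (ZMod p)) ^ 3 = -II := by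
  rw [show (3 : ℕ) = 2 + 1 from rfl, pow_succ, II2]
  simp

lemma JJ2 (x y : ZMod p) (hxy : x ^ 2 + y ^ 2 = -1) : JJ x y * JJ x y = II ^ 2 := by
  rw [II2]
  unfold JJ
  apply mat_ext <;> simp [Matrix.mul_apply, Fin.sum_univ_two] <;>
    first | ring1 | linear_combination hxy | linear_combination (-1 : ZMod p) * hxy

lemma IJ (x y : ZMod p) : II * JJ x y = JJ x y * II ^ 3 := by
  rw [II3]
  unfold II JJ
  apply mat_ext <;> simp [Matrix.mul_apply, Fin.sum_univ_two]

lemma IkJ (x y : ZMod p) (k : ℕ) : II ^ k * JJ x y = JJ x y * II ^ (3 * k) := by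
  induction k with
  | zero => simp
  | succ k ih =>
    rw [pow_succ, mul_assoc, IJ, ← mul_assoc, ih, mul_assoc, ← pow_add]
    congr 2

lemma Ipow (m n : ℕ) (h : m % 4 = n % 4) :
    (II : Matrix (Fin 2) (Fin 2) (ZMod p)) ^ m = II ^ n := by
  rw [pow_eq_pow_mod m II4, pow_eq_pow_mod n II4, h]

/-- the representation of the quaternion group -/
def rho (x y : ZMod p) : QuaternionGroup 2 → Matrix (Fin 2) (Fin 2) (ZMod p)
  | .a i => II ^ i.val
  | .xa i => JJ x y * II ^ i.val

lemma rho_one (x y : ZMod p) : rho x y 1 = 1 := by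
  rw [QuaternionGroup.one_def]
  show II ^ (0 : ZMod (2 * 2)).val = 1
  rw [ZMod.val_zero, pow_zero]

lemma e1 : ∀ i j : ZMod (2 * 2), (i + j).val % 4 = (i.val + j.val) % 4 := by decide
lemma e2 : ∀ i j : ZMod (2 * 2), (j - i).val % 4 = (3 * i.val + j.val) % 4 := by decide
lemma e4 : ∀ i j : ZMod (2 * 2),
    (((2 : ℕ) : ZMod (2 * 2)) + j - i).val % 4 = (2 + (3 * i.val + j.val)) % 4 := by decide
lemma v4 : ∀ i : ZMod (2 * 2), i.val = 0 ∨ i.val = 1 ∨ i.val = 2 ∨ i.val = 3 := by decide

lemma rho_mul (x y : ZMod p) (hxy : x ^ 2 + y ^ 2 = -1) (g h : QuaternionGroup 2) :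
    rho x y (g * h) = rho x y g * rho x y h := by
  rcases g with i | i <;> rcases h with j | j
  · rw [a_mul_a]
    show II ^ (i + j).val = II ^ i.val * II ^ j.val
    rw [← pow_add]
    exact Ipow _ _ (e1 i j)
  · rw [a_mul_xa]
    show JJ x y * II ^ (j - i).val = II ^ i.val * (JJ x y * II ^ j.val)
    rw [← mul_assoc, IkJ, mul_assoc, ← pow_add]
    congr 1
    exact Ipow _ _ (e2 i j)
  · rw [xa_mul_a]
    show JJ x y * II ^ (i + j).val = JJ x y * II ^ i.val * II ^ j.val
    rw [mul_assoc, ← pow_add]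
    congr 1
    exact Ipow _ _ (e1 i j)
  · rw [xa_mul_xa]
    show II ^ (((2 : ℕ) : ZMod (2 * 2)) + j - i).val
      = JJ x y * II ^ i.val * (JJ x y * II ^ j.val)
    rw [mul_assoc, ← mul_assoc (II ^ i.val), IkJ, mul_assoc, ← mul_assoc (JJ x y), JJ2 x y hxy,
      ← pow_add, ← pow_add]
    exact Ipow _ _ (e4 i j)

lemma det_sub_one (M : Matrix (Fin 2) (Fin 2) (ZMod p)) :
    (M - 1).det = (M 0 0 - 1) * (M 1 1 - 1) - M 0 1 * M 1 0 := by
  rw [Matrix.det_fin_two]
  simp

lemma rho_fpf (x y : ZMod p) (hxy : x ^ 2 + y ^ 2 = -1) (hp2 : p ≠ 2)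
    (g : QuaternionGroup 2) (hg : g ≠ 1) : (rho x y g - 1).det ≠ 0 := by
  have h2 : (2 : ZMod p) ≠ 0 := by
    intro h
    have h3 : ((2 : ℕ) : ZMod p) = 0 := by exact_mod_cast h
    have h4 := (CharP.cast_eq_zero_iff (ZMod p) p 2).mp h3
    have h5 := Nat.le_of_dvd (by norm_num) h4
    have h6 := (Fact.out : p.Prime).two_le
    omega
  have h4 : (4 : ZMod p) ≠ 0 := by
    have h5 : (4 : ZMod p) = 2 * 2 := by norm_num
    rw [h5]
    exact mul_ne_zero h2 h2
  rcases g with i | i
  · have hi : i.val ≠ 0 := by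
      intro h0
      apply hg
      rw [QuaternionGroup.one_def]
      congr 1
      exact (ZMod.val_eq_zero i).mp h0
    have hr : rho x y (a i) = II ^ i.val := rfl
    rw [hr]
    rcases v4 i with h | h | h | h
    · exact absurd h hi
    · have hd : ((II : Matrix (Fin 2) (Fin 2) (ZMod p)) ^ 1 - 1).det = 2 := by
        rw [pow_one, det_sub_one]
        simp [II]
        try ring
      rw [h, hd]
      exact h2
    · have hd : ((II : Matrix (Fin 2) (Fin 2) (ZMod p)) ^ 2 - 1).det = 4 := by
        rw [II2, det_sub_one]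
        simp
        try ring
      rw [h, hd]
      exact h4
    · have hd : ((II : Matrix (Fin 2) (Fin 2) (ZMod p)) ^ 3 - 1).det = 2 := by
        rw [II3, det_sub_one]
        simp [II]
        try ring
      rw [h, hd]
      exact h2
  · have hr : rho x y (xa i) = JJ x y * II ^ i.val := rfl
    rw [hr]
    rcases v4 i with h | h | h | h
    · have hd : (JJ x y * (II : Matrix (Fin 2) (Fin 2) (ZMod p)) ^ 0 - 1).det = 2 := by
        rw [pow_zero, mul_one, det_sub_one]
        simp [JJ]
        linear_combination (-1 : ZMod p) * hxy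
      rw [h, hd]
      exact h2
    · have hd : (JJ x y * (II : Matrix (Fin 2) (Fin 2) (ZMod p)) ^ 1 - 1).det = 2 := by
        rw [pow_one, det_sub_one]
        simp [JJ, II, Matrix.mul_apply, Fin.sum_univ_two]
        linear_combination (-1 : ZMod p) * hxy
      rw [h, hd]
      exact h2
    · have hd : (JJ x y * (II : Matrix (Fin 2) (Fin 2) (ZMod p)) ^ 2 - 1).det = 2 := by
        rw [II2, det_sub_one]
        simp [JJ, Matrix.mul_apply, Fin.sum_univ_two]
        linear_combination (-1 : ZMod p) * hxy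
      rw [h, hd]
      exact h2
    · have hd : (JJ x y * (II : Matrix (Fin 2) (Fin 2) (ZMod p)) ^ 3 - 1).det = 2 := by
        rw [II3, det_sub_one]
        simp [JJ, II, Matrix.mul_apply, Fin.sum_univ_two]
        linear_combination (-1 : ZMod p) * hxy
      rw [h, hd]
      exact h2

end Rep

/-- There is a group of order `r²` on which the quaternion group acts without fixed points. -/
def Good (r : ℕ) : Prop :=
  ∃ (N : Type) (_ : Group N) (_ : Finite N) (φ : QuaternionGroup 2 →* MulAut N),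
    Nat.card N = r * r ∧ ∀ (h : QuaternionGroup 2) (n : N), φ h n = n → h = 1 ∨ n = 1

/-- product action -/
def prodHom {N M : Type} [Group N] [Group M] (φ : QuaternionGroup 2 →* MulAut N)
    (ψ : QuaternionGroup 2 →* MulAut M) : QuaternionGroup 2 →* MulAut (N × M) where
  toFun h := MulEquiv.prodCongr (φ h) (ψ h)
  map_one' := by
    refine MulEquiv.ext (fun z => ?_)
    show ((φ 1) z.1, (ψ 1) z.2) = z
    rw [map_one, map_one]
    rfl
  map_mul' u v := by
    refine MulEquiv.ext (fun z => ?_)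
    show ((φ (u * v)) z.1, (ψ (u * v)) z.2) = ((φ u) ((φ v) z.1), (ψ u) ((ψ v) z.2))
    rw [map_mul, map_mul]
    rfl

theorem good_one : Good 1 :=
  ⟨Unit, inferInstance, inferInstance, 1, by simp, fun _ _ _ => Or.inr (Subsingleton.elim _ _)⟩

theorem good_mul {r s : ℕ} (hr : Good r) (hs : Good s) : Good (r * s) := by
  obtain ⟨N, iN, fN, φ, hc, hf⟩ := hr
  obtain ⟨M, iM, fM, ψ, hc', hf'⟩ := hs
  refine ⟨N × M, inferInstance, inferInstance, prodHom φ ψ, ?_, ?_⟩
  · rw [Nat.card_prod, hc, hc']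
    ring
  · rintro h ⟨n, m⟩ hnm
    have h1 : φ h n = n := congrArg Prod.fst hnm
    have h2 : ψ h m = m := congrArg Prod.snd hnm
    rcases hf h n h1 with h3 | h3
    · exact Or.inl h3
    · rcases hf' h m h2 with h4 | h4
      · exact Or.inl h4
      · right
        rw [h3, h4]
        rfl

theorem good_prime (p : ℕ) (hp : p.Prime) (hp2 : p ≠ 2) : Good p := by
  haveI : Fact p.Prime := ⟨hp⟩
  obtain ⟨x, y, hxy⟩ := ZMod.sq_add_sq p (-1)
  refine ⟨Multiplicative (Fin 2 → ZMod p), inferInstance, inferInstance,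
    repAut (rho x y) (rho_one x y) (rho_mul x y hxy), ?_, ?_⟩
  · have h1 : Nat.card (Multiplicative (Fin 2 → ZMod p)) = Nat.card (Fin 2 → ZMod p) :=
      Nat.card_congr Multiplicative.toAdd
    rw [h1, Nat.card_fun]
    simp [pow_two]
  · intro h n hn
    by_cases hh : h = 1
    · exact Or.inl hh
    · right
      rw [repAut_apply] at hn
      have h2 : Matrix.mulVec (rho x y h) (Multiplicative.toAdd n) = Multiplicative.toAdd n :=
        congrArg Multiplicative.toAdd hn
      have h3 : Matrix.mulVec (rho x y h - 1) (Multiplicative.toAdd n) = 0 := by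
        rw [Matrix.sub_mulVec, Matrix.one_mulVec, h2, sub_self]
      have h4 := Matrix.eq_zero_of_mulVec_eq_zero (rho_fpf x y hxy hp2 h hh) h3
      exact congrArg Multiplicative.ofAdd h4

theorem good_odd (r : ℕ) : Odd r → Good r := by
  refine @Nat.recOnMul (fun r => Odd r → Good r) ?_ ?_ ?_ ?_ r
  · intro h
    exact absurd h (by decide)
  · intro _
    exact good_one
  · intro p hp h
    refine good_prime p hp ?_
    rintro rfl
    exact absurd h (by decide)
  · intro a b ha hb h
    rw [Nat.odd_mul] at h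
    exact good_mul (ha h.1) (hb h.2)


/-- For a natural number m the following are equivalent: (a) some finite group has a Frobenius complement isomorphic to the quaternion group of order 8 whose Frobenius kernel (the identity together with the elements lying in no conjugate of the complement) has exactly m elements; (b) m is an odd perfect square greater than 1. -/
theorem result (m : ℕ) :
    (∃ (L : Type) (_ : Group L) (_ : Finite L) (H : Subgroup L), Cfsg.IsFrobeniusComplement H ∧
        Nonempty (H ≃* QuaternionGroup 2) ∧ Nat.card (Cfsg.frobeniusKernel H) = m) ↔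
    (Odd m ∧ IsSquare m ∧ 1 < m) := by
  constructor
  · rintro ⟨L, iL, fL, H, hF, ⟨e⟩, hm⟩
    have hidx := Cfsg.Agent.Lib_helper9_Frob.card_kernel hF
    have hcardH : Nat.card ↥H = 8 := by
      rw [Nat.card_congr e.toEquiv, Nat.card_eq_fintype_card, QuaternionGroup.card]
    haveI : Fact (Nat.Prime 2) := ⟨Nat.prime_two⟩
    obtain ⟨P⟩ : Nonempty (Sylow 2 ↥H) := inferInstance
    have hP : ¬ IsCyclic ↥(P : Subgroup ↥H) := by
      intro hcyc
      have hcP : Nat.card ↥(P : Subgroup ↥H) = 8 := by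
        rw [Sylow.card_eq_multiplicity, hcardH]
        have h3 : Nat.factorization 8 2 = 3 := by decide +kernel
        rw [h3]
        norm_num
      obtain ⟨g, hg⟩ := IsCyclic.exists_ofOrder_eq_natCard (α := ↥(P : Subgroup ↥H))
      rw [hcP] at hg
      have h4 : ∀ q : QuaternionGroup 2, q ^ 4 = 1 := by decide +kernel
      have h5 : (g : ↥H) ^ 4 = 1 := by
        apply e.injective
        rw [map_pow, map_one]
        exact h4 _
      have h6 : g ^ 4 = 1 := by
        apply Subtype.ext
        rw [Subgroup.coe_pow]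
        exact h5
      have h7 := orderOf_dvd_of_pow_eq_one h6
      rw [hg] at h7
      omega
    have hS := Cfsg.Agent.S4296.result H hF ⟨2, ⟨Nat.prime_two⟩, P, hP⟩
    rw [hm] at hS hidx
    refine ⟨hS.1, hS.2, ?_⟩
    have h1 : H.index ≠ 1 := fun h => hF.2.1 (Subgroup.index_eq_one.mp h)
    have h0 : H.index ≠ 0 := Subgroup.index_ne_zero_of_finite
    omega
  · rintro ⟨hodd, ⟨r, rfl⟩, h1⟩
    have hr : Odd r := (Nat.odd_mul.mp hodd).1
    obtain ⟨N, iN, fN, φ, hc, hf⟩ := good_odd r hr
    haveI : Nontrivial N := by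
      rw [← Finite.one_lt_card_iff_nontrivial, hc]
      exact h1
    haveI : Nontrivial (QuaternionGroup 2) := ⟨⟨QuaternionGroup.a 1, 1, by decide⟩⟩
    have hfrob := frob_of_fpf φ hf
    haveI : Finite (N ⋊[φ] QuaternionGroup 2) :=
      Finite.of_equiv _ SemidirectProduct.equivProd.symm
    refine ⟨N ⋊[φ] QuaternionGroup 2, inferInstance, inferInstance,
      (SemidirectProduct.inr : QuaternionGroup 2 →* N ⋊[φ] QuaternionGroup 2).range, hfrob,
      ⟨(MonoidHom.ofInjective SemidirectProduct.inr_injective).symm⟩, ?_⟩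
    rw [Cfsg.Agent.Lib_helper9_Frob.card_kernel hfrob]
    have h2 := Subgroup.index_mul_card
      (SemidirectProduct.inr : QuaternionGroup 2 →* N ⋊[φ] QuaternionGroup 2).range
    have h3 : Nat.card (N ⋊[φ] QuaternionGroup 2) = Nat.card N * Nat.card (QuaternionGroup 2) := by
      rw [Nat.card_congr SemidirectProduct.equivProd, Nat.card_prod]
    have h4 : Nat.card ↥(SemidirectProduct.inr : QuaternionGroup 2 →* N ⋊[φ] QuaternionGroup 2).range
        = Nat.card (QuaternionGroup 2) :=
      (Nat.card_congr (MonoidHom.ofInjective SemidirectProduct.inr_injective).toEquiv).symm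
    rw [h3, h4, hc] at h2
    have h5 : 0 < Nat.card (QuaternionGroup 2) := Nat.card_pos
    exact Nat.eq_of_mul_eq_mul_right h5 h2

end Cfsg.Agent.S4295
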