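import Cfsg.Statements.S4297
import Mathlib
import Cfsg.Agent.Lib_helper4_FrobSemi

set_option autoImplicit false
open Cfsg

namespace Cfsg.Agent.S4297

open Matrix QuaternionGroup

section
variable {n p : ℕ} [Fact p.Prime]

/-- the character `i ↦ ζ ^ i` -/
def chi (ζ : (ZMod p)ˣ) (i : ZMod (2 * n)) : (ZMod p)ˣ := ζ ^ i.val

lemma chi_add [NeZero n] (ζ : (ZMod p)ˣ) (hζ : orderOf ζ = 2 * n) (i j : ZMod (2 * n)) :
    chi ζ (i + j) = chi ζ i * chi ζ j := by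
  unfold chi
  have h1 := pow_mod_orderOf ζ (i.val + j.val)
  rw [hζ] at h1
  rw [ZMod.val_add, ← pow_add, h1]

lemma chi_zero (ζ : (ZMod p)ˣ) : chi ζ (0 : ZMod (2 * n)) = 1 := by
  unfold chi; rw [ZMod.val_zero, pow_zero]

lemma chi_sub [NeZero n] (ζ : (ZMod p)ˣ) (hζ : orderOf ζ = 2 * n) (i j : ZMod (2 * n)) :
    chi ζ (j - i) = chi ζ j * (chi ζ i)⁻¹ := by
  have h := chi_add ζ hζ (j - i) i
  rw [sub_add_cancel] at h
  rw [h, mul_inv_cancel_right]

lemma chi_n [NeZero n] (ζ : (ZMod p)ˣ) (hζ : orderOf ζ = 2 * n) :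
    chi ζ ((n : ℕ) : ZMod (2 * n)) = -1 := by
  have hn := NeZero.pos n
  unfold chi
  rw [ZMod.val_cast_of_lt (by omega)]
  have h1 : (ζ ^ n) ^ 2 = 1 := by
    rw [← pow_mul, Nat.mul_comm n 2]
    have := pow_orderOf_eq_one ζ
    rwa [hζ] at this
  have h2 : ζ ^ n ≠ 1 := by
    intro h
    have h3 := orderOf_dvd_of_pow_eq_one h
    rw [hζ] at h3
    have := Nat.le_of_dvd hn h3
    omega
  have h3 : ((ζ ^ n : (ZMod p)ˣ) : ZMod p) * ((ζ ^ n : (ZMod p)ˣ) : ZMod p) = 1 := by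
    rw [← Units.val_mul, ← sq, h1, Units.val_one]
  rcases mul_self_eq_one_iff.mp h3 with h | h
  · exact absurd (Units.ext (by rw [h, Units.val_one])) h2
  · exact Units.ext (by rw [h, Units.val_neg, Units.val_one])

/-- the representation -/
def rho (ζ : (ZMod p)ˣ) : QuaternionGroup n → Matrix (Fin 2) (Fin 2) (ZMod p)
  | .a i => !![((chi ζ i : (ZMod p)ˣ) : ZMod p), 0; 0, (((chi ζ i)⁻¹ : (ZMod p)ˣ) : ZMod p)]
  | .xa i => !![0, (((chi ζ i)⁻¹ : (ZMod p)ˣ) : ZMod p); -((chi ζ i : (ZMod p)ˣ) : ZMod p), 0]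

lemma rho_one (ζ : (ZMod p)ˣ) : rho ζ (1 : QuaternionGroup n) = 1 := by
  rw [QuaternionGroup.one_def]
  simp only [rho]
  rw [chi_zero, inv_one, Units.val_one, Matrix.one_fin_two]

lemma mat_ext (A B : Matrix (Fin 2) (Fin 2) (ZMod p)) (h00 : A 0 0 = B 0 0) (h01 : A 0 1 = B 0 1)
    (h10 : A 1 0 = B 1 0) (h11 : A 1 1 = B 1 1) : A = B := by
  ext i j
  fin_cases i <;> fin_cases j <;> assumption

lemma rho_mul [NeZero n] (ζ : (ZMod p)ˣ) (hζ : orderOf ζ = 2 * n)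
    (g h : QuaternionGroup n) : rho ζ (g * h) = rho ζ g * rho ζ h := by
  rcases g with i | i <;> rcases h with j | j
  · rw [a_mul_a]
    simp only [rho, Matrix.mul_fin_two, chi_add ζ hζ, mul_inv, Units.val_mul]
    generalize ((chi ζ i : (ZMod p)ˣ) : ZMod p) = x
    generalize (((chi ζ i)⁻¹ : (ZMod p)ˣ) : ZMod p) = x'
    generalize ((chi ζ j : (ZMod p)ˣ) : ZMod p) = y
    generalize (((chi ζ j)⁻¹ : (ZMod p)ˣ) : ZMod p) = y'
    apply mat_ext <;> simp
  · rw [a_mul_xa]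
    simp only [rho, Matrix.mul_fin_two, chi_sub ζ hζ, mul_inv, inv_inv, Units.val_mul]
    generalize ((chi ζ i : (ZMod p)ˣ) : ZMod p) = x
    generalize (((chi ζ i)⁻¹ : (ZMod p)ˣ) : ZMod p) = x'
    generalize ((chi ζ j : (ZMod p)ˣ) : ZMod p) = y
    generalize (((chi ζ j)⁻¹ : (ZMod p)ˣ) : ZMod p) = y'
    apply mat_ext <;> simp <;> ring
  · rw [xa_mul_a]
    simp only [rho, Matrix.mul_fin_two, chi_add ζ hζ, mul_inv, Units.val_mul]
    generalize ((chi ζ i : (ZMod p)ˣ) : ZMod p) = x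
    generalize (((chi ζ i)⁻¹ : (ZMod p)ˣ) : ZMod p) = x'
    generalize ((chi ζ j : (ZMod p)ˣ) : ZMod p) = y
    generalize (((chi ζ j)⁻¹ : (ZMod p)ˣ) : ZMod p) = y'
    apply mat_ext <;> simp
  · rw [xa_mul_xa]
    simp only [rho, Matrix.mul_fin_two, chi_sub ζ hζ, chi_add ζ hζ, chi_n ζ hζ, mul_inv, inv_inv,
      inv_neg, inv_one, Units.val_mul, Units.val_neg, Units.val_one]
    generalize ((chi ζ i : (ZMod p)ˣ) : ZMod p) = x
    generalize (((chi ζ i)⁻¹ : (ZMod p)ˣ) : ZMod p) = x'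
    generalize ((chi ζ j : (ZMod p)ˣ) : ZMod p) = y
    generalize (((chi ζ j)⁻¹ : (ZMod p)ˣ) : ZMod p) = y'
    apply mat_ext <;> simp <;> ring

lemma rho_fpf [NeZero n] (ζ : (ZMod p)ˣ) (hζ : orderOf ζ = 2 * n) (hp2 : p ≠ 2)
    (g : QuaternionGroup n) (hg : g ≠ 1) : (rho ζ g - 1).det ≠ 0 := by
  rcases g with i | i
  · have hi : i ≠ 0 := by rintro rfl; exact hg a_zero
    have hu : chi ζ i ≠ 1 := by
      intro h
      unfold chi at h
      have h1 := orderOf_dvd_of_pow_eq_one h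
      rw [hζ] at h1
      have h2 : i.val < 2 * n := ZMod.val_lt i
      have h3 : i.val = 0 := Nat.eq_zero_of_dvd_of_lt h1 h2
      exact hi ((ZMod.val_eq_zero i).mp h3)
    have hdet : ∀ x x' : ZMod p,
        (!![x, 0; 0, x'] - (1 : Matrix (Fin 2) (Fin 2) (ZMod p))).det = (x - 1) * (x' - 1) := by
      intro x x'
      rw [Matrix.det_fin_two]
      simp
    have hr : rho ζ (a i) = !![((chi ζ i : (ZMod p)ˣ) : ZMod p), 0;
        0, (((chi ζ i)⁻¹ : (ZMod p)ˣ) : ZMod p)] := rfl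
    rw [hr, hdet]
    refine mul_ne_zero (sub_ne_zero.mpr fun h => hu (Units.ext (by rw [h, Units.val_one])))
      (sub_ne_zero.mpr fun h => hu (inv_eq_one.mp (Units.ext (by rw [h, Units.val_one]))))
  · have hdet : ∀ x x' : ZMod p, x' * x = 1 →
        (!![0, x'; -x, 0] - (1 : Matrix (Fin 2) (Fin 2) (ZMod p))).det = 2 := by
      intro x x' h
      rw [Matrix.det_fin_two]
      simp
      linear_combination h
    have hr : rho ζ (xa i) = !![0, (((chi ζ i)⁻¹ : (ZMod p)ˣ) : ZMod p);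
        -((chi ζ i : (ZMod p)ˣ) : ZMod p), 0] := rfl
    rw [hr, hdet _ _ (Units.inv_mul _)]
    intro h2
    have h3 : p ∣ 2 := (ZMod.natCast_eq_zero_iff 2 p).mp (by exact_mod_cast h2)
    have h4 := Nat.le_of_dvd (by norm_num) h3
    have h5 := (Fact.out : p.Prime).two_le
    omega

end

/-- For every n ≥ 2 the dicyclic group of order 4n (generated by an element a of order 2n and an element x with x² = aⁿ and x a x⁻¹ = a⁻¹) occurs as a Frobenius complement of some finite Frobenius group. -/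
theorem result (n : ℕ) (hn : 2 ≤ n) :
    ∃ (L : Type) (_ : Group L) (_ : Finite L) (H : Subgroup L), Cfsg.IsFrobeniusComplement H ∧ Nonempty (H ≃* QuaternionGroup n) := by
  haveI : NeZero n := ⟨by omega⟩
  obtain ⟨p, hp, hp2, hmod⟩ := Nat.exists_prime_gt_modEq_one (k := 2 * n) 2 (by omega)
  haveI : Fact p.Prime := ⟨hp⟩
  have hdvd : 2 * n ∣ p - 1 := (Nat.modEq_iff_dvd' hp.one_le).mp hmod.symm
  obtain ⟨g, hg⟩ := IsCyclic.exists_ofOrder_eq_natCard (α := (ZMod p)ˣ)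
  have hog : orderOf g = p - 1 := by rw [hg, Nat.card_eq_fintype_card, ZMod.card_units]
  have hp1 : p - 1 ≠ 0 := by omega
  obtain ⟨m, hm⟩ := hdvd
  have hm0 : m ≠ 0 := by rintro rfl; rw [mul_zero] at hm; exact hp1 hm
  have hζ : orderOf (g ^ m) = 2 * n := by
    rw [orderOf_pow_of_dvd hm0 (by rw [hog, hm]; exact Dvd.intro_left _ rfl), hog, hm,
      Nat.mul_div_cancel _ (Nat.pos_of_ne_zero hm0)]
  exact Cfsg.Agent.Lib_helper4_FrobSemi.exists_frob (p := p) (rho (g ^ m)) (rho_one _)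
    (rho_mul _ hζ) (rho_fpf _ hζ (by omega))

end Cfsg.Agent.S4297
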