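import Cfsg.Statements.S4300
-- import your own Cfsg.Agent.* helpers here

set_option autoImplicit false
open Cfsg

namespace Cfsg.Agent.S4300

/-- Let G act faithfully and primitively on a set X, and suppose the stabilizer of some point is a simple group. Then either G is simple, or G has a normal subgroup, neither trivial nor the whole group, that acts regularly on X (transitively with trivial point stabilizers). -/
theorem result {G : Type*} [Group G] {X : Type*} [MulAction G X] [FaithfulSMul G X]
    (hprim : MulAction.IsPreprimitive G X) (x : X) (hsimple : IsSimpleGroup (MulAction.stabilizer G x)) :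
    IsSimpleGroup G ∨ ∃ N : Subgroup G, N.Normal ∧ N ≠ ⊥ ∧ N ≠ ⊤ ∧
      MulAction.IsPretransitive N X ∧ ∀ y : X, MulAction.stabilizer N y = ⊥ := by
  by_cases hall : ∀ N : Subgroup G, N.Normal → N = ⊥ ∨ N = ⊤
  · left
    haveI : Nontrivial G := by
      obtain ⟨a, b, hab⟩ := hsimple.toNontrivial
      exact ⟨⟨a, b, fun h => hab (Subtype.ext h)⟩⟩
    exact ⟨hall⟩
  · right
    push Not at hall
    obtain ⟨N, hN, hNbot, hNtop⟩ := hall
    haveI := hN
    have htrans : MulAction.IsPretransitive N X := by
      apply MulAction.IsQuasiPreprimitive.isPretransitive_of_normal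
      obtain ⟨n, hnN, hn1⟩ := (Subgroup.ne_bot_iff_exists_ne_one).mp hNbot |>.imp
        (fun n h => h) |> fun ⟨n, hn⟩ => (⟨n.1, n.2, fun h => hn (Subtype.ext h)⟩ : ∃ n : G, n ∈ N ∧ n ≠ 1)
      have : ∃ y : X, n • y ≠ y := by
        by_contra hcon
        push Not at hcon
        apply hn1
        apply FaithfulSMul.eq_of_smul_eq_smul (α := X)
        intro y
        rw [hcon y, one_smul]
      obtain ⟨y, hy⟩ := this
      intro hfix
      have hyf : y ∈ MulAction.fixedPoints N X := by rw [hfix]; trivial
      exact hy (hyf ⟨n, hnN⟩)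
    refine ⟨N, hN, hNbot, hNtop, htrans, ?_⟩
    -- N ∩ stabilizer x = ⊥
    have hSx : ∀ n ∈ N, n • x = x → n = 1 := by
      have hnorm : (N.subgroupOf (MulAction.stabilizer G x)).Normal := inferInstance
      rcases hsimple.eq_bot_or_eq_top_of_normal _ hnorm with h | h
      · intro n hnN hnx
        have hmem : (⟨n, hnx⟩ : MulAction.stabilizer G x) ∈ N.subgroupOf (MulAction.stabilizer G x) :=
          Subgroup.mem_subgroupOf.mpr hnN
        rw [h, Subgroup.mem_bot] at hmem
        exact congrArg Subtype.val hmem
      · exfalso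
        apply hNtop
        rw [Subgroup.subgroupOf_eq_top] at h
        apply top_unique
        intro g _
        obtain ⟨n, hn⟩ := MulAction.exists_smul_eq N x (g • x)
        have : (n : G)⁻¹ * g ∈ MulAction.stabilizer G x := by
          rw [MulAction.mem_stabilizer_iff, mul_smul, ← hn]
          exact inv_smul_smul (n : G) x
        have := N.mul_mem n.2 (h this)
        simpa using this
    intro y
    rw [eq_bot_iff]
    intro n hn
    rw [Subgroup.mem_bot]
    obtain ⟨g, rfl⟩ := MulAction.exists_smul_eq G x y
    have hn' : (n : G) • g • x = g • x := hn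
    have h1 : g⁻¹ * (n : G) * g ∈ N := by
      have := hN.conj_mem (n : G) n.2 g⁻¹
      simpa using this
    have h2 : (g⁻¹ * (n : G) * g) • x = x := by
      rw [mul_smul, mul_smul, hn', inv_smul_smul]
    have h3 := hSx _ h1 h2
    apply Subtype.ext
    show (n : G) = 1
    calc (n : G) = g * (g⁻¹ * (n : G) * g) * g⁻¹ := by group
      _ = 1 := by rw [h3]; group

end Cfsg.Agent.S4300
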