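import Cfsg.Statements.S4421
import Cfsg.Agent.Lib_helper6_Conj

set_option autoImplicit false
open Cfsg

namespace Cfsg.Agent.S4421

/-- A factorization of a normalizer from two-step control of fusion. Let `G` be a finite group and `A ≤ S ≤ H` subgroups of `G` such that: (i) `S` controls the `G`-fusion of `A` in the sense that every `G`-conjugate of `A` lying in `S` is an `S`-conjugate of `A`; (ii) `H` controls the `G`-fusion of `S` in the same sense; (iii) every conjugate of `S` by an element of the normalizer of `A` lies in `H`. Then `N_G(A) = N_H(A) · (N_G(S) ∩ N_G(A))`: every element of the normalizer of `A` is a product of an element of `H` normalizing `A` and an element normalizing both `S` and `A`. -/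
theorem result {G : Type*} [Group G] [Finite G] (A S H : Subgroup G)
    (hAS : A ≤ S) (hSH : S ≤ H)
    (h1 : ∀ g : G, A.map (MulAut.conj g).toMonoidHom ≤ S → ∃ s ∈ S, A.map (MulAut.conj g).toMonoidHom = A.map (MulAut.conj s).toMonoidHom)
    (h2 : ∀ g : G, S.map (MulAut.conj g).toMonoidHom ≤ H → ∃ y ∈ H, S.map (MulAut.conj g).toMonoidHom = S.map (MulAut.conj y).toMonoidHom)
    (h3 : ∀ x ∈ Subgroup.normalizer (A : Set G), S.map (MulAut.conj x).toMonoidHom ≤ H) :
    ∀ x ∈ Subgroup.normalizer (A : Set G), ∃ y ∈ H ⊓ Subgroup.normalizer (A : Set G),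
      ∃ z ∈ Subgroup.normalizer (S : Set G) ⊓ Subgroup.normalizer (A : Set G), x = y * z := by
  intro x hx
  have hxA := Lib_helper6_Conj.mem_normalizer_iff_conjMap.mp hx
  obtain ⟨y, hyH, hy⟩ := h2 x (h3 x hx)
  -- A = c(x) A ≤ c(x) S = c(y) S
  have hA1 : A ≤ S.map (MulAut.conj y).toMonoidHom := by
    rw [← hy]
    calc A = A.map (MulAut.conj x).toMonoidHom := hxA.symm
      _ ≤ S.map (MulAut.conj x).toMonoidHom := Subgroup.map_mono hAS
  have hA2 : A.map (MulAut.conj y⁻¹).toMonoidHom ≤ S := by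
    have := Lib_helper6_Conj.conjMap_le_conjMap hA1 y⁻¹
    rwa [Lib_helper6_Conj.conjMap_inv_conjMap] at this
  obtain ⟨s, hsS, hs⟩ := h1 y⁻¹ hA2
  have hysA : A.map (MulAut.conj (y * s)).toMonoidHom = A := by
    rw [Lib_helper6_Conj.conjMap_mul, ← hs, Lib_helper6_Conj.conjMap_conjMap_inv]
  have hysN : y * s ∈ Subgroup.normalizer (A : Set G) :=
    Lib_helper6_Conj.mem_normalizer_iff_conjMap.mpr hysA
  refine ⟨y * s, Subgroup.mem_inf.mpr ⟨H.mul_mem hyH (hSH hsS), hysN⟩, (y * s)⁻¹ * x,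
    Subgroup.mem_inf.mpr ⟨?_, ?_⟩, by group⟩
  · rw [Lib_helper6_Conj.mem_normalizer_iff_conjMap]
    have e : (y * s)⁻¹ * x = s⁻¹ * (y⁻¹ * x) := by group
    rw [e, Lib_helper6_Conj.conjMap_mul, Lib_helper6_Conj.conjMap_mul, hy,
      Lib_helper6_Conj.conjMap_inv_conjMap]
    exact Lib_helper6_Conj.conjMap_of_mem (S.inv_mem hsS)
  · exact Subgroup.mul_mem _ (Subgroup.inv_mem _ hysN) hx

end Cfsg.Agent.S4421
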