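import Cfsg.Statements.S4422
-- import your own Cfsg.Agent.* helpers here

set_option autoImplicit false
open Cfsg

namespace Cfsg.Agent.S4422

/-- Primitive divisors of `q^e - 1` are congruent to 1 modulo `e`. Let `q ≥ 2` and `e ≥ 1` be natural numbers and let `m` be a divisor of `q^e - 1` that is coprime to `q^i - 1` for every `1 ≤ i < e` (so `m` divides the primitive part of `q^e - 1`, the largest such divisor). Then `m ≡ 1 (mod e)`. -/
theorem result (q e m : ℕ) (hq : 2 ≤ q) (he : 1 ≤ e)
    (hm : m ∣ q ^ e - 1) (hcop : ∀ i : ℕ, 1 ≤ i → i < e → Nat.Coprime m (q ^ i - 1)) :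
    m % e = 1 % e := by
  have hqe : 1 ≤ q ^ e := Nat.one_le_pow _ _ (by omega)
  have hm0 : m ≠ 0 := by
    rintro rfl
    have := Nat.eq_zero_of_zero_dvd hm
    have h2 : 2 ≤ q ^ e := by
      calc 2 ≤ q := hq
        _ = q ^ 1 := (pow_one q).symm
        _ ≤ q ^ e := Nat.pow_le_pow_right (by omega) he
    omega
  -- every prime divisor of m is ≡ 1 mod e
  have hprime : ∀ r : ℕ, r.Prime → r ∣ m → r ≡ 1 [MOD e] := by
    intro r hr hrm
    haveI : Fact r.Prime := ⟨hr⟩
    have h1 : ((q : ZMod r)) ^ e = 1 := by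
      have hd : r ∣ q ^ e - 1 := hrm.trans hm
      have := (ZMod.natCast_eq_zero_iff (q ^ e - 1) r).mpr hd
      rw [Nat.cast_sub hqe] at this
      push_cast at this
      exact sub_eq_zero.mp this
    have hq0 : (q : ZMod r) ≠ 0 := by
      intro h0
      rw [h0, zero_pow (by omega)] at h1
      exact zero_ne_one h1
    have ho : orderOf (q : ZMod r) ∣ e := orderOf_dvd_of_pow_eq_one h1
    have hopos : 0 < orderOf (q : ZMod r) := Nat.pos_of_dvd_of_pos ho (by omega)
    have hoe : orderOf (q : ZMod r) = e := by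
      by_contra hne
      have hlt : orderOf (q : ZMod r) < e :=
        lt_of_le_of_ne (Nat.le_of_dvd (by omega) ho) hne
      have hc := hcop _ hopos hlt
      have hqo : 1 ≤ q ^ orderOf (q : ZMod r) := Nat.one_le_pow _ _ (by omega)
      have hd : r ∣ q ^ orderOf (q : ZMod r) - 1 := by
        rw [← ZMod.natCast_eq_zero_iff, Nat.cast_sub hqo]
        push_cast
        rw [pow_orderOf_eq_one, sub_self]
      have := Nat.dvd_gcd hrm hd
      rw [hc] at this
      exact hr.one_lt.ne' (Nat.dvd_one.mp this)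
    have hdvd : e ∣ r - 1 := hoe ▸ ZMod.orderOf_dvd_card_sub_one hq0
    have hr1 : 1 ≤ r := hr.one_lt.le
    exact ((Nat.modEq_iff_dvd' hr1).mpr hdvd).symm
  have key : ∀ d : ℕ, d ∣ m → d ≡ 1 [MOD e] := by
    intro d
    induction d using Nat.recOnMul with
    | zero =>
      intro h
      exact absurd (Nat.eq_zero_of_zero_dvd h) hm0
    | one => intro _; rfl
    | prime r hr => exact fun h => hprime r hr h
    | mul a b iha ihb =>
      intro h
      have ha := iha (Dvd.dvd.trans (Dvd.intro _ rfl) h)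
      have hb := ihb (Dvd.dvd.trans (Dvd.intro_left _ rfl) h)
      simpa using ha.mul hb
  exact key m dvd_rfl

end Cfsg.Agent.S4422
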