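import Cfsg.Statements.S4424
import Cfsg.Agent.Lib_helper3_ThirdMain3
import Cfsg.Agent.Lib_helper3_BlockOrth
import Cfsg.Agent.S0961

set_option autoImplicit false
open Cfsg

namespace Cfsg.Agent.S4424
open Cfsg.Agent.Lib_helper3_CharBasic Cfsg.Agent.Lib_helper3_CharMore
  Cfsg.Agent.Lib_helper3_Local Cfsg.Agent.Lib_helper3_Local2 Cfsg.Agent.Lib_helper3_BlockAlg
  Cfsg.Agent.Lib_helper3_CharInd Cfsg.Agent.Lib_helper3_BlockOrth
open scoped ComplexConjugate


/-- Let χ be an irreducible character of the finite group G lying in the p-block B (relative to a maximal ideal M of the algebraic integers containing p), and let p^a be the p-part of the order of G. Then the class function that equals p^a · χ on the p-regular elements and vanishes on the p-singular elements is an integer combination of the irreducible characters in B: there are integers a_ψ, zero for ψ outside B, with that function equal to Σ a_ψ ψ. -/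
theorem result {G : Type*} [Group G] [Finite G] (p : ℕ) [Fact p.Prime] (M : Ideal Cfsg.AlgInt) (hM : Cfsg.IsPModular p M) (B : Set (Cfsg.IrrCharacter G)) (hB : Cfsg.IsPBlock M B) (χ : Cfsg.IrrCharacter G) (hχ : χ ∈ B) : ∃ a : Cfsg.IrrCharacter G → ℤ, (∀ ψ, ψ ∉ B → a ψ = 0) ∧ (fun x : G => if p ∣ orderOf x then (0 : ℂ) else ((p ^ (Nat.card G).factorization p : ℕ) : ℂ) * (χ : G → ℂ) x) = fun x => ∑ᶠ ψ : Cfsg.IrrCharacter G, (a ψ : ℂ) * (ψ : G → ℂ) x := by
  classical
  let inst : Fintype G := Fintype.ofFinite G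
  have hfin := irr_finite (G := G)
  let inst2 : Fintype (IrrCharacter G) := Fintype.ofFinite _
  have hMp : M.IsPrime := isPrime_of_modular hM
  obtain ⟨F, hF⟩ : ∃ F : G → ℂ, F = fun x : G => if p ∣ orderOf x then (0 : ℂ) else
      ((p ^ (Nat.card G).factorization p : ℕ) : ℂ) * (χ : G → ℂ) x := ⟨_, rfl⟩
  have hgen : IsGeneralizedCharacter G F := by
    rw [hF]
    exact Cfsg.Agent.S0961.result p χ
  obtain ⟨α, β, hα, hβ, hαβ⟩ := hgen
  have hFclass : IsClassFunction G F := by
    rw [hαβ]
    exact isClassFunction_sub (isClassFunction_of_isCharacter hα)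
      (isClassFunction_of_isCharacter hβ)
  have hint : ∀ ψ : IrrCharacter G, ∃ n : ℤ, classInner F (ψ : G → ℂ) = (n : ℂ) := by
    intro ψ
    obtain ⟨n₁, h₁⟩ := classInner_nat hα (isCharacter_of_irr ψ.2)
    obtain ⟨n₂, h₂⟩ := classInner_nat hβ (isCharacter_of_irr ψ.2)
    refine ⟨(n₁ : ℤ) - n₂, ?_⟩
    rw [hαβ, classInner_sub_left, h₁, h₂]
    push_cast
    ring
  choose a ha using hint
  rw [← hF]
  refine ⟨a, ?_, ?_⟩
  · intro ψ hψ
    have h0 : classInner F (ψ : G → ℂ) = 0 := by
      rw [classInner_def, hF]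
      have key := orth_regular hM (A := B) (fun g => osima hB g) hχ hψ
      have h1 : ∑ g : G, (if p ∣ orderOf g then (0 : ℂ) else
          ((p ^ (Nat.card G).factorization p : ℕ) : ℂ) * (χ : G → ℂ) g) * conj ((ψ : G → ℂ) g) =
          ((p ^ (Nat.card G).factorization p : ℕ) : ℂ) *
            ∑ x : G, (if p ∣ orderOf x then 0 else (χ : G → ℂ) x * conj ((ψ : G → ℂ) x)) := by
        rw [Finset.mul_sum]
        apply Finset.sum_congr rfl
        intro g _
        split_ifs <;> ring
      rw [h1, key]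
      simp
    have h2 := ha ψ
    rw [h0] at h2
    exact_mod_cast h2.symm
  · funext x
    rw [finsum_eq_sum_of_fintype, classFunction_eq_sum_apply F hFclass x]
    apply Finset.sum_congr rfl
    intro ψ _
    rw [ha ψ]
end Cfsg.Agent.S4424
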