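import Cfsg.Statements.S4426
import Cfsg.Agent.Lib_helper3_HeightZero

set_option autoImplicit false
open Cfsg

namespace Cfsg.Agent.S4426
open Cfsg.Agent.Lib_helper3_CharBasic Cfsg.Agent.Lib_helper3_CharMore
  Cfsg.Agent.Lib_helper3_Local Cfsg.Agent.Lib_helper3_Local2 Cfsg.Agent.Lib_helper3_BlockAlg
  Cfsg.Agent.Lib_helper3_RegSpan Cfsg.Agent.Lib_helper3_RegSpan2 Cfsg.Agent.Lib_helper3_HeightZero
open scoped ComplexConjugate


/-- Let χ be an irreducible character in the p-block B of the finite group G (relative to a maximal ideal M of the algebraic integers containing p), let p^a be the p-part of the order of G, and let χ̃ be the class function equal to p^a · χ on p-regular elements and zero elsewhere. For ξ ∈ B the inner product [χ̃, ξ] is an integer. The following are equivalent: (a) χ has height zero in B; (b) for some ξ ∈ B the integer [χ̃, ξ] is nonzero and the exact power of p dividing it equals the exact power of p dividing ξ(1); (c) the same holds for every ξ ∈ B. -/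
theorem result {G : Type*} [Group G] [Fintype G] (p : ℕ) [Fact p.Prime] (M : Ideal Cfsg.AlgInt) (hM : Cfsg.IsPModular p M) (B : Set (Cfsg.IrrCharacter G)) (hB : Cfsg.IsPBlock M B) (χ : Cfsg.IrrCharacter G) (hχ : χ ∈ B) : (Cfsg.blockHeight p B (χ : G → ℂ) = 0 ↔ ∃ ξ ∈ B, ∃ n : ℤ, Cfsg.classInner (fun x : G => if p ∣ orderOf x then (0 : ℂ) else ((p ^ (Nat.card G).factorization p : ℕ) : ℂ) * (χ : G → ℂ) x) (ξ : G → ℂ) = (n : ℂ) ∧ n ≠ 0 ∧ padicValInt p n = (Cfsg.charDegree (ξ : G → ℂ)).factorization p) ∧ (Cfsg.blockHeight p B (χ : G → ℂ) = 0 ↔ ∀ ξ ∈ B, ∃ n : ℤ, Cfsg.classInner (fun x : G => if p ∣ orderOf x then (0 : ℂ) else ((p ^ (Nat.card G).factorization p : ℕ) : ℂ) * (χ : G → ℂ) x) (ξ : G → ℂ) = (n : ℂ) ∧ n ≠ 0 ∧ padicValInt p n = (Cfsg.charDegree (ξ : G → ℂ)).factorization p) := by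
  classical
  have heq : (fun x : G => if p ∣ orderOf x then (0 : ℂ) else
      ((p ^ (Nat.card G).factorization p : ℕ) : ℂ) * (χ : G → ℂ) x) =
      fun x => (p : ℂ) ^ (Nat.card G).factorization p * pRegularPart p (χ : G → ℂ) x := by
    funext x
    rw [pRegularPart_apply]
    split_ifs
    · simp
    · push_cast
      rfl
  rw [heq]
  have htw : ∀ ξ : IrrCharacter G, classInner (fun x => (p : ℂ) ^ (Nat.card G).factorization p *
      pRegularPart p (χ : G → ℂ) x) (ξ : G → ℂ) = tw p χ ξ := fun ξ => rfl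
  simp only [htw]
  rw [height_zero_iff hM hB hχ]
  constructor
  · constructor
    · intro hU
      exact ⟨χ, hχ, (val_iff hM hB hχ hχ).mpr hU⟩
    · rintro ⟨ξ, hξ, h⟩
      exact (val_iff hM hB hχ hξ).mp h
  · constructor
    · intro hU ξ hξ
      exact (val_iff hM hB hχ hξ).mpr hU
    · intro h
      exact (val_iff hM hB hχ hχ).mp (h χ hχ)
end Cfsg.Agent.S4426
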