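import Cfsg.Statements.S4483
import Cfsg.Agent.Lib_helper3_RealBlock
import Cfsg.Agent.Lib_helper3_BrauerFeit2

set_option autoImplicit false
open Cfsg

namespace Cfsg.Agent.S4483
open Cfsg.Agent.Lib_helper3_CharBasic Cfsg.Agent.Lib_helper3_CharMore
  Cfsg.Agent.Lib_helper3_Local Cfsg.Agent.Lib_helper3_Local2 Cfsg.Agent.Lib_helper3_BlockAlg
  Cfsg.Agent.Lib_helper3_DefectZero Cfsg.Agent.Lib_helper3_BrauerFeit
  Cfsg.Agent.Lib_helper3_BrauerFeit2 Cfsg.Agent.Lib_helper3_RealBlock
open scoped ComplexConjugate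


/-- Let G be a finite group of order 2^n·g₀ with g₀ odd, and M a maximal ideal of the algebraic integers containing 2. Every real-valued irreducible character of G of odd degree lies in the principal 2-block; consequently G has at most 2^(2n) real-valued irreducible characters of odd degree. -/
theorem result {G : Type*} [Group G] [Finite G] (M : Ideal Cfsg.AlgInt) (hM : Cfsg.IsPModular 2 M) : (∀ χ : Cfsg.IrrCharacter G, (∀ g : G, ((χ : G → ℂ) g).im = 0) → Odd (Cfsg.charDegree (χ : G → ℂ)) → χ ∈ Cfsg.principalBlock M G) ∧ Nat.card {χ : Cfsg.IrrCharacter G // (∀ g : G, ((χ : G → ℂ) g).im = 0) ∧ Odd (Cfsg.charDegree (χ : G → ℂ))} ≤ 2 ^ (2 * (Nat.card G).factorization 2) := by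
  classical
  let inst : Fintype G := Fintype.ofFinite G
  have h2 : Fact (Nat.Prime 2) := ⟨Nat.prime_two⟩
  have hMp : M.IsPrime := isPrime_of_modular hM
  have hfin := irr_finite (G := G)
  have part1 : ∀ χ : Cfsg.IrrCharacter G, (∀ g : G, ((χ : G → ℂ) g).im = 0) →
      Odd (Cfsg.charDegree (χ : G → ℂ)) → χ ∈ Cfsg.principalBlock M G := by
    intro χ hre hodd
    have hχbar : barIrr χ = χ := by
      apply Subtype.ext
      funext g
      rw [barIrr_apply]
      exact Complex.conj_eq_iff_im.mpr (hre g)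
    have hB : IsPBlock M (blockOf M (χ : G → ℂ)) := ⟨χ, rfl⟩
    have hχB : χ ∈ blockOf M (χ : G → ℂ) := mem_blockOf_self hMp.ne_top χ
    have hreal : ∀ ψ ∈ blockOf M (χ : G → ℂ), barIrr ψ ∈ blockOf M (χ : G → ℂ) := by
      intro ψ hψ
      show SameBlock M (χ : G → ℂ) (barIrr ψ : G → ℂ)
      intro g
      have h3 : SameBlock M (χ : G → ℂ) (ψ : G → ℂ) := hψ
      have h4 := h3 g⁻¹
      rw [centralChar_inv, centralChar_inv, hχbar] at h4
      exact h4
    have hodd' : ¬ 2 ∣ charDegree (χ : G → ℂ) := by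
      intro hdvd
      exact (Nat.not_even_iff_odd.mpr hodd) (even_iff_two_dvd.mpr hdvd)
    have h5 := real_block_principal hM hB hreal hχB hodd'
    rw [← h5]
    exact hχB
  refine ⟨part1, ?_⟩
  have hB₀ : IsPBlock M (principalBlock M G) :=
    ⟨⟨_, isIrrCharacter_one⟩, rfl⟩
  have hbf := brauer_feit hM hB₀
  have hdle := blockDefect_le (G := G) 2 (principalBlock M G)
  have hle : Nat.card {χ : Cfsg.IrrCharacter G // (∀ g : G, ((χ : G → ℂ) g).im = 0) ∧
      Odd (Cfsg.charDegree (χ : G → ℂ))} ≤ Nat.card (principalBlock M G) := by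
    have hsub : {χ : Cfsg.IrrCharacter G | (∀ g : G, ((χ : G → ℂ) g).im = 0) ∧
        Odd (Cfsg.charDegree (χ : G → ℂ))} ⊆ principalBlock M G :=
      fun χ hχ => part1 χ hχ.1 hχ.2
    exact Nat.card_mono (Set.toFinite _) hsub
  have hpow : 2 ^ (2 * blockDefect 2 (principalBlock M G)) ≤
      2 ^ (2 * (Nat.card G).factorization 2) :=
    Nat.pow_le_pow_right (by norm_num) (by omega)
  obtain ⟨a, ha⟩ : ∃ a : ℕ, a = (Nat.card G).factorization 2 := ⟨_, rfl⟩
  rw [← ha] at hpow ⊢
  have hX : 2 ^ (2 * a) = 1 ∨ 4 ≤ 2 ^ (2 * a) := by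
    rcases Nat.eq_zero_or_pos a with h0 | h0
    · left
      rw [h0]
      rfl
    · right
      calc 4 = 2 ^ 2 := by norm_num
        _ ≤ 2 ^ (2 * a) := Nat.pow_le_pow_right (by norm_num) (by omega)
  rcases hX with hX | hX
  · omega
  · omega
end Cfsg.Agent.S4483
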