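import Cfsg.Statements.S4490
import Cfsg.Agent.Lib_helper3_RealBlock
import Cfsg.Agent.Lib_helper3_BrauerFeit2

set_option autoImplicit false
open Cfsg

namespace Cfsg.Agent.S4490
open Cfsg.Agent.Lib_helper3_CharBasic Cfsg.Agent.Lib_helper3_CharMore
  Cfsg.Agent.Lib_helper3_Local Cfsg.Agent.Lib_helper3_Local2 Cfsg.Agent.Lib_helper3_BlockAlg
  Cfsg.Agent.Lib_helper3_DefectZero Cfsg.Agent.Lib_helper3_BrauerFeit
  Cfsg.Agent.Lib_helper3_BrauerFeit2 Cfsg.Agent.Lib_helper3_RealBlock
  Cfsg.Agent.Lib_helper3_DefectCard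


/-- Let G be a finite group and M a maximal ideal of the algebraic integers containing 2. Every 2-block B of G whose defect groups are the Sylow 2-subgroups of G (a block of full defect) and which is not the principal block is different from its complex-conjugate block, the block formed by the complex conjugates of the members of B. -/
theorem result {G : Type*} [Group G] [Finite G] (M : Ideal Cfsg.AlgInt) (hM : Cfsg.IsPModular 2 M) (B : Set (Cfsg.IrrCharacter G)) (hB : Cfsg.IsPBlock M B) (P : Sylow 2 G) (hfull : Cfsg.IsDefectGroup 2 M B (P : Subgroup G)) (hnp : B ≠ Cfsg.principalBlock M G) : {ψ : Cfsg.IrrCharacter G | ∃ χ ∈ B, (ψ : G → ℂ) = fun g => (starRingEnd ℂ) ((χ : G → ℂ) g)} ≠ B := by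
  classical
  let inst : Fintype G := Fintype.ofFinite G
  have h2 : Fact (Nat.Prime 2) := ⟨Nat.prime_two⟩
  have hMp : M.IsPrime := isPrime_of_modular hM
  intro heq
  apply hnp
  have hreal : ∀ χ ∈ B, barIrr χ ∈ B := by
    intro χ hχ
    rw [← heq]
    exact ⟨χ, hχ, rfl⟩
  -- the defect equals the full 2-part
  obtain ⟨g, hg, P', hP'⟩ := hfull
  have hcd := card_defect hM hB hg
  have hda : blockDefect 2 B = (Nat.card G).factorization 2 := by
    have h3 : Nat.card (P : Subgroup G) = Nat.card (P' : Subgroup (Subgroup.centralizer ({g} : Set G))) := by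
      rw [hP', Subgroup.card_map_of_injective (Subgroup.subtype_injective _)]
    rw [Sylow.card_eq_multiplicity P, Sylow.card_eq_multiplicity P', hcd] at h3
    exact (Nat.pow_right_injective (le_refl 2) h3).symm
  obtain ⟨χ₁, hχ₁⟩ : ∃ χ₁ : IrrCharacter G, χ₁ ∈ B := by
    obtain ⟨χ₁, rfl⟩ := hB
    exact ⟨χ₁, mem_blockOf_self hMp.ne_top χ₁⟩
  obtain ⟨χ, hχ, hh⟩ := exists_height_zero 2 hχ₁
  have hfac := factorization_degree_eq (p := 2) hχ
  rw [hh, hda] at hfac
  obtain ⟨k, hkpos, hk⟩ := irr_apply_one_pos χ.2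
  have hdeg : charDegree (χ : G → ℂ) = k := charDegree_eq hk
  have hodd : ¬ 2 ∣ charDegree (χ : G → ℂ) := by
    rw [hdeg] at hfac ⊢
    intro hdvd
    have := Nat.Prime.factorization_pos_of_dvd Nat.prime_two hkpos.ne' hdvd
    omega
  exact real_block_principal hM hB hreal hχ hodd
end Cfsg.Agent.S4490
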