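import Cfsg.Statements.S4495
import Cfsg.Agent.Lib_helper1_CentPrime2

set_option autoImplicit false
open Cfsg

namespace Cfsg.Agent.S4495

/-- Let the finite group G contain an element x of prime order p with C_G(x) = ⟨x⟩, and let t be the number of conjugacy classes of elements of order p. If t ≠ p − 1 then the commutator subgroup has index at most (p − 1)/t; if t = p − 1 it has index exactly p. -/
theorem result {G : Type*} [Group G] [Finite G] (p : ℕ) (hp : p.Prime) (x : G) (hx : orderOf x = p) (hC : Subgroup.centralizer ({x} : Set G) = Subgroup.zpowers x) (t : ℕ) (ht : Nat.card {C : ConjClasses G // ∃ g ∈ C.carrier, orderOf g = p} = t) : (t ≠ p - 1 → (commutator G).index * t ≤ p - 1) ∧ (t = p - 1 → (commutator G).index = p) := by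
  classical
  haveI : Fact p.Prime := ⟨hp⟩
  have hcount := H1CP.count p x hx hC t ht
  obtain ⟨N, hN⟩ : ∃ N : Subgroup G,
      N = Subgroup.normalizer ((Subgroup.zpowers x : Subgroup G) : Set G) := ⟨_, rfl⟩
  rw [← hN] at hcount
  have hp2 : 2 ≤ p := hp.two_le
  constructor
  · intro htne
    have he : (Subgroup.zpowers x).relIndex N ≠ 1 := by
      intro h1; rw [h1, mul_one] at hcount; exact htne hcount
    have hNX : ¬ N ≤ Subgroup.zpowers x := fun h => he (Subgroup.relIndex_eq_one.mpr h)
    obtain ⟨n, hnN, hnX⟩ := SetLike.not_le_iff_exists.mp hNX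
    have hxG' : x ∈ commutator G := by
      have hn' : n ∈ Subgroup.normalizer ((Subgroup.zpowers x : Subgroup G) : Set G) := by
        rw [← hN]; exact hnN
      have h1 : n * x * n⁻¹ ∈ Subgroup.zpowers x :=
        (Subgroup.mem_normalizer_iff.mp hn' x).mp (Subgroup.mem_zpowers x)
      have h2 : n * x * n⁻¹ * x⁻¹ ∈ Subgroup.zpowers x :=
        Subgroup.mul_mem _ h1 (Subgroup.inv_mem _ (Subgroup.mem_zpowers x))
      have h3 : n * x * n⁻¹ * x⁻¹ ≠ 1 := by
        intro h
        apply hnX
        rw [← hC, Subgroup.mem_centralizer_iff]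
        intro y hy
        rw [Set.mem_singleton_iff] at hy
        rw [hy]
        have h4 : n * x * n⁻¹ = x := mul_inv_eq_one.mp h
        have h5 : n * x = x * n := mul_inv_eq_iff_eq_mul.mp h4
        exact h5.symm
      have h4 : n * x * n⁻¹ * x⁻¹ ∈ commutator G := by
        show n * x * n⁻¹ * x⁻¹ ∈ ⁅(⊤ : Subgroup G), (⊤ : Subgroup G)⁆
        exact Subgroup.commutator_mem_commutator (Subgroup.mem_top n) (Subgroup.mem_top x)
      have h5 := Lib_helper9_CentPrime.mem_zpowers_of_ne_one p x _ hx h2 h3
      exact (Subgroup.zpowers_le.mpr h4) h5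
    have hfr := H1CP.frattini p x hx hC (commutator G) hxG'
    rw [← hN] at hfr
    have hidx : (commutator G).index ≤ (Subgroup.zpowers x).relIndex N := by
      have h1 : (commutator G).index = (commutator G).relIndex N := by
        rw [← Subgroup.relIndex_top_right, ← hfr, Subgroup.relIndex_sup_left]
      rw [h1, ← Subgroup.inf_relIndex_right]
      apply Subgroup.relIndex_le_of_le_left
      · exact le_inf (Subgroup.zpowers_le.mpr hxG') (by rw [hN]; exact Subgroup.le_normalizer)
      · exact (show ((Subgroup.zpowers x).subgroupOf N).index ≠ 0 from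
          Subgroup.index_ne_zero_of_finite)
    calc (commutator G).index * t ≤ (Subgroup.zpowers x).relIndex N * t :=
          Nat.mul_le_mul_right _ hidx
      _ = p - 1 := by rw [mul_comm]; exact hcount
  · intro hte
    have he : (Subgroup.zpowers x).relIndex N = 1 := by
      rw [hte] at hcount
      have hpos : 0 < p - 1 := by omega
      exact Nat.eq_of_mul_eq_mul_left hpos (by rw [hcount, mul_one])
    have hNX : N ≤ Subgroup.zpowers x := Subgroup.relIndex_eq_one.mp he
    exact H1CP.index_of_self_normalizing p x hx hC (by rw [← hN]; exact hNX)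

end Cfsg.Agent.S4495
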