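import Cfsg.Statements.S4497
import Cfsg.Agent.Lib_helper1_CentPrime3

set_option autoImplicit false
open Cfsg

namespace Cfsg.Agent.S4497

/-- Let the finite group G contain an element x of prime order p with C_G(x) = ⟨x⟩, let t be the number of conjugacy classes of elements of order p, and let S* = O_{p′}(G) be the largest normal subgroup of order prime to p. Then S* ≤ G′; if t ≠ p − 1 the quotient G′/S* is simple (in particular non-trivial); if t = p − 1 then G′ = S*. -/
theorem result {G : Type*} [Group G] [Finite G] (p : ℕ) (hp : p.Prime) (x : G) (hx : orderOf x = p) (hC : Subgroup.centralizer ({x} : Set G) = Subgroup.zpowers x) (t : ℕ) (ht : Nat.card {C : ConjClasses G // ∃ g ∈ C.carrier, orderOf g = p} = t) : Cfsg.pPrimeCore p G ≤ commutator G ∧ (t ≠ p - 1 → ∀ h : ((Cfsg.pPrimeCore p G).subgroupOf (commutator G)).Normal, IsSimpleGroup (↥(commutator G) ⧸ (Cfsg.pPrimeCore p G).subgroupOf (commutator G))) ∧ (t = p - 1 → commutator G = Cfsg.pPrimeCore p G) := by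
  classical
  haveI : Fact p.Prime := ⟨hp⟩
  have hcount := H1CP.count p x hx hC t ht
  have hp2 : 2 ≤ p := hp.two_le
  haveI hOn : (Cfsg.pPrimeCore p G).Normal := Lib_helper6_PCore.pPrimeCore_normal p
  have hOc : (Nat.card (Cfsg.pPrimeCore p G)).Coprime p :=
    Lib_helper7_PPrime.card_pPrimeCore_coprime p
  refine ⟨H1CP.pPrimeCore_le_commutator p x hx hC, ?_, ?_⟩
  · intro htne h
    have hNX : ¬ Subgroup.normalizer ((Subgroup.zpowers x : Subgroup G) : Set G) ≤
        Subgroup.zpowers x := by
      intro hle
      have he := Subgroup.relIndex_eq_one.mpr hle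
      rw [he, mul_one] at hcount
      exact htne hcount
    have hxL := H1CP.mem_commutator_of_not_le p x hx hC hNX
    have hnd : ¬ p ∣ Nat.card (Cfsg.pPrimeCore p G) :=
      (Nat.Prime.coprime_iff_not_dvd hp).mp hOc.symm
    exact H1CP.simple_gen p x hx hC (commutator G) (Cfsg.pPrimeCore p G) hOc hxL
      (fun S hS hpS => by haveI := hS; exact Lib_helper9_CentPrime.part_a p x hx hC S hpS)
      (fun S hS hc => by haveI := hS; exact Lib_helper7_PPrime.le_pPrimeCore p S hc)
      (Lib_helper9_CentPrime.part_b p x hx hC (Cfsg.pPrimeCore p G) hnd).2.2.2 h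
  · intro hte
    have he : (Subgroup.zpowers x).relIndex
        (Subgroup.normalizer ((Subgroup.zpowers x : Subgroup G) : Set G)) = 1 := by
      rw [hte] at hcount
      have hpos : 0 < p - 1 := by omega
      exact Nat.eq_of_mul_eq_mul_left hpos (by rw [hcount, mul_one])
    exact H1CP.commutator_eq_of_self_normalizing p x hx hC (Subgroup.relIndex_eq_one.mp he)

end Cfsg.Agent.S4497
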