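import Cfsg.Statements.S4498
import Cfsg.Agent.Lib_helper3_BlockOrth
import Cfsg.Agent.Lib_helper3_ThirdMain

set_option autoImplicit false
open Cfsg

namespace Cfsg.Agent.S4498
open Cfsg.Agent.Lib_helper3_CharBasic Cfsg.Agent.Lib_helper3_CharMore
  Cfsg.Agent.Lib_helper3_Local Cfsg.Agent.Lib_helper3_Local2 Cfsg.Agent.Lib_helper3_BlockAlg
  Cfsg.Agent.Lib_helper3_BlockOrth
open scoped ComplexConjugate


/-- Let p and q be distinct primes dividing the order of the finite group G, and suppose G has no element of order p·q. Fix maximal ideals M_p over p and M_q over q of the algebraic integers. Then the principal p-block and the principal q-block of G have a non-principal irreducible character in common. -/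
theorem result {G : Type*} [Group G] [Finite G] (p q : ℕ) [Fact p.Prime] [Fact q.Prime] (hpq : p ≠ q) (hp : p ∣ Nat.card G) (hq : q ∣ Nat.card G) (hno : ∀ g : G, orderOf g ≠ p * q) (Mp Mq : Ideal Cfsg.AlgInt) (hMp : Cfsg.IsPModular p Mp) (hMq : Cfsg.IsPModular q Mq) : ∃ χ : Cfsg.IrrCharacter G, (χ : G → ℂ) ≠ (fun _ => 1) ∧ χ ∈ Cfsg.principalBlock Mp G ∧ χ ∈ Cfsg.principalBlock Mq G := by
  classical
  let inst : Fintype G := Fintype.ofFinite G
  have hfin := irr_finite (G := G)
  let inst2 : Fintype (IrrCharacter G) := Fintype.ofFinite _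
  have hpp : p.Prime := Fact.out
  have hqp : q.Prime := Fact.out
  have hMpp : Mp.IsPrime := isPrime_of_modular hMp
  have hMqp : Mq.IsPrime := isPrime_of_modular hMq
  have hG0 := card_ne_zero (G := G)
  by_contra hcon
  push Not at hcon
  obtain ⟨o, ho⟩ : ∃ o : IrrCharacter G, (o : G → ℂ) = fun _ => 1 :=
    ⟨⟨_, isIrrCharacter_one⟩, rfl⟩
  have hBp : IsPBlock Mp (principalBlock Mp G) := ⟨o, by rw [ho]; rfl⟩
  have hBq : IsPBlock Mq (principalBlock Mq G) := ⟨o, by rw [ho]; rfl⟩
  have hop : o ∈ principalBlock Mp G := by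
    have := mem_blockOf_self hMpp.ne_top o
    rw [ho] at this
    exact this
  have hoq : o ∈ principalBlock Mq G := by
    have := mem_blockOf_self hMqp.ne_top o
    rw [ho] at this
    exact this
  have hboth : ∀ χ : IrrCharacter G, χ ∈ principalBlock Mp G → χ ∈ principalBlock Mq G →
      χ = o := by
    intro χ h1 h2
    apply Subtype.ext
    rw [ho]
    by_contra h3
    exact hcon χ h3 h1 h2
  obtain ⟨x, hx⟩ := exists_prime_orderOf_dvd_card' p hp
  obtain ⟨y, hy⟩ := exists_prime_orderOf_dvd_card' q hq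
  obtain ⟨f, hf⟩ : ∃ f : G → ℂ, f = fun g => ∑ φ : IrrCharacter G,
      (principalBlock Mp G).indicator
        (fun φ : IrrCharacter G => (φ : G → ℂ) g * conj ((φ : G → ℂ) x)) φ := ⟨_, rfl⟩
  have hA : ∀ g, ¬ p ∣ orderOf g → f g = 0 := by
    intro g hg
    rw [hf]
    exact weak_orth' hMp (fun g => osima hBp g) g x hg (by rw [hx])
  have hB : ∀ g, q ∣ orderOf g → f g = 0 := by
    intro g hg
    apply hA
    intro hpg
    have hcop : Nat.Coprime p q := (Nat.coprime_primes hpp hqp).mpr hpq
    obtain ⟨m, hm⟩ := Nat.Coprime.mul_dvd_of_dvd_of_dvd hcop hpg hg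
    have hord0 : orderOf g ≠ 0 := (orderOf_pos g).ne'
    have hm0 : m ≠ 0 := by
      rintro rfl
      rw [mul_zero] at hm
      exact hord0 hm
    have h1 := orderOf_pow_of_dvd (x := g) hm0 ⟨p * q, by rw [hm]; ring⟩
    rw [hm, Nat.mul_div_cancel _ (Nat.pos_of_ne_zero hm0)] at h1
    exact hno _ h1
  obtain ⟨T, hT⟩ : ∃ T : G → ℂ, T = fun g => ∑ φ : IrrCharacter G,
      (principalBlock Mq G).indicator
        (fun φ : IrrCharacter G => (φ : G → ℂ) y * conj ((φ : G → ℂ) g)) φ := ⟨_, rfl⟩
  have hT0 : ∀ g, ¬ q ∣ orderOf g → T g = 0 := by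
    intro g hg
    have h1 := weak_orth' hMq (fun g => osima hBq g) g y hg (by rw [hy])
    have h2 : T g = conj (∑ φ : IrrCharacter G, (principalBlock Mq G).indicator
        (fun φ : IrrCharacter G => (φ : G → ℂ) g * conj ((φ : G → ℂ) y)) φ) := by
      rw [hT, map_sum]
      apply Finset.sum_congr rfl
      intro φ _
      by_cases hφ : φ ∈ principalBlock Mq G
      · rw [Set.indicator_of_mem hφ, Set.indicator_of_mem hφ, map_mul, Complex.conj_conj,
          mul_comm]
      · rw [Set.indicator_of_notMem hφ, Set.indicator_of_notMem hφ, map_zero]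
    rw [h2, h1, map_zero]
  have hW0 : ∑ g : G, f g * T g = 0 := by
    apply Finset.sum_eq_zero
    intro g _
    by_cases hg : q ∣ orderOf g
    · rw [hB g hg, zero_mul]
    · rw [hT0 g hg, mul_zero]
  have horth : ∀ φ ψ : IrrCharacter G, ∑ g : G, (φ : G → ℂ) g * conj ((ψ : G → ℂ) g) =
      if φ = ψ then (Nat.card G : ℂ) else 0 := by
    intro φ ψ
    have h1 := irr_orthonormal φ.2 ψ.2
    rw [classInner_def] at h1
    have h2 : ∑ g : G, (φ : G → ℂ) g * conj ((ψ : G → ℂ) g) =
        (Nat.card G : ℂ) * (if (φ : G → ℂ) = (ψ : G → ℂ) then 1 else 0) := by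
      rw [← h1]
      field_simp
    rw [h2]
    by_cases hφψ : φ = ψ
    · rw [if_pos hφψ, if_pos (by rw [hφψ]), mul_one]
    · rw [if_neg hφψ, if_neg (fun h => hφψ (Subtype.ext h)), mul_zero]
  have hW : ∑ g : G, f g * T g = (Nat.card G : ℂ) := by
    have h1 : ∀ g : G, f g * T g = ∑ φ : IrrCharacter G, ∑ ψ : IrrCharacter G,
        (if φ ∈ principalBlock Mp G then conj ((φ : G → ℂ) x) else 0) *
        (if ψ ∈ principalBlock Mq G then (ψ : G → ℂ) y else 0) *
        ((φ : G → ℂ) g * conj ((ψ : G → ℂ) g)) := by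
      intro g
      rw [hf, hT, Finset.sum_mul_sum]
      apply Finset.sum_congr rfl
      intro φ _
      apply Finset.sum_congr rfl
      intro ψ _
      rw [Set.indicator_apply, Set.indicator_apply]
      split_ifs <;> ring
    rw [Finset.sum_congr rfl (fun g _ => h1 g), Finset.sum_comm]
    have h2 : ∀ φ : IrrCharacter G, ∑ g : G, ∑ ψ : IrrCharacter G,
        (if φ ∈ principalBlock Mp G then conj ((φ : G → ℂ) x) else 0) *
        (if ψ ∈ principalBlock Mq G then (ψ : G → ℂ) y else 0) *
        ((φ : G → ℂ) g * conj ((ψ : G → ℂ) g)) = if φ = o then (Nat.card G : ℂ) else 0 := by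
      intro φ
      rw [Finset.sum_comm]
      have h3 : ∀ ψ : IrrCharacter G, ∑ g : G,
          (if φ ∈ principalBlock Mp G then conj ((φ : G → ℂ) x) else 0) *
          (if ψ ∈ principalBlock Mq G then (ψ : G → ℂ) y else 0) *
          ((φ : G → ℂ) g * conj ((ψ : G → ℂ) g)) =
          if φ = ψ then (if φ ∈ principalBlock Mp G then conj ((φ : G → ℂ) x) else 0) *
            (if φ ∈ principalBlock Mq G then (φ : G → ℂ) y else 0) * (Nat.card G : ℂ) else 0 := by
        intro ψ
        rw [← Finset.mul_sum, horth]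
        by_cases hφψ : φ = ψ
        · rw [if_pos hφψ, if_pos hφψ, hφψ]
        · rw [if_neg hφψ, if_neg hφψ, mul_zero]
      rw [Finset.sum_congr rfl (fun ψ _ => h3 ψ), Finset.sum_ite_eq Finset.univ φ,
        if_pos (Finset.mem_univ _)]
      by_cases hφo : φ = o
      · rw [if_pos hφo, hφo, if_pos hop, if_pos hoq, ho]
        simp
      · rw [if_neg hφo]
        by_cases h4 : φ ∈ principalBlock Mp G
        · by_cases h5 : φ ∈ principalBlock Mq G
          · exact absurd (hboth φ h4 h5) hφo
          · rw [if_neg h5, mul_zero, zero_mul]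
        · rw [if_neg h4, zero_mul, zero_mul]
    rw [Finset.sum_congr rfl (fun φ _ => h2 φ), Finset.sum_ite_eq' Finset.univ o,
      if_pos (Finset.mem_univ _)]
  rw [hW] at hW0
  exact hG0 hW0
end Cfsg.Agent.S4498
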