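import Cfsg.Statements.S4499
import Cfsg.Agent.Lib_helper3_BrauerFeit2

set_option autoImplicit false
open Cfsg

namespace Cfsg.Agent.S4499
open Cfsg.Agent.Lib_helper3_CharBasic Cfsg.Agent.Lib_helper3_CharMore
  Cfsg.Agent.Lib_helper3_DefectZero Cfsg.Agent.Lib_helper3_BrauerFeit
  Cfsg.Agent.Lib_helper3_BrauerFeit2


/-- Let G be a finite group whose order has p-part p^a (a ≥ 1), and fix a maximal ideal M of the algebraic integers containing p. If the degree of one irreducible character of a p-block B is divisible by p^(a−1), then the degree of every irreducible character in B is divisible by p^(a−1) (so B has defect at most 1). -/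
theorem result {G : Type*} [Group G] [Finite G] (p : ℕ) [Fact p.Prime] (M : Ideal Cfsg.AlgInt) (hM : Cfsg.IsPModular p M) (hpa : p ∣ Nat.card G) (B : Set (Cfsg.IrrCharacter G)) (hB : Cfsg.IsPBlock M B) (χ : Cfsg.IrrCharacter G) (hχ : χ ∈ B) (hdiv : p ^ ((Nat.card G).factorization p - 1) ∣ Cfsg.charDegree (χ : G → ℂ)) (ψ : Cfsg.IrrCharacter G) (hψ : ψ ∈ B) : p ^ ((Nat.card G).factorization p - 1) ∣ Cfsg.charDegree (ψ : G → ℂ) := by
  classical
  let inst : Fintype G := Fintype.ofFinite G
  have hp : p.Prime := hM.1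
  obtain ⟨a, ha⟩ : ∃ a : ℕ, a = (Nat.card G).factorization p := ⟨_, rfl⟩
  rw [← ha] at hdiv ⊢
  obtain ⟨k, hkpos, hk⟩ := irr_apply_one_pos χ.2
  have hdeg : charDegree (χ : G → ℂ) = k := charDegree_eq hk
  obtain ⟨k₂, hkpos₂, hk₂⟩ := irr_apply_one_pos ψ.2
  have hdeg₂ : charDegree (ψ : G → ℂ) = k₂ := charDegree_eq hk₂
  have hfac := factorization_degree_eq (p := p) hχ
  have hfac₂ := factorization_degree_eq (p := p) hψ
  rw [hdeg] at hdiv hfac
  rw [hdeg₂] at hfac₂ ⊢
  rw [← ha] at hfac hfac₂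
  have hν : a - 1 ≤ k.factorization p :=
    (Nat.Prime.pow_dvd_iff_le_factorization hp hkpos.ne').mp hdiv
  apply (Nat.Prime.pow_dvd_iff_le_factorization hp hkpos₂.ne').mpr
  have hdle := blockDefect_le (G := G) p B
  rw [← ha] at hdle
  by_cases h1 : 1 ≤ blockHeight p B (χ : G → ℂ)
  · have hb := height_bound hM hB hχ h1
    omega
  · have h0 : blockHeight p B (χ : G → ℂ) = 0 := by omega
    rw [h0] at hfac
    omega
end Cfsg.Agent.S4499
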