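import Cfsg.Statements.S4513
import Cfsg.Agent.Lib_helper3_DefectOne2

set_option autoImplicit false
open Cfsg

namespace Cfsg.Agent.S4513
open Cfsg.Agent.Lib_helper3_Local2 Cfsg.Agent.Lib_helper3_BlockAlg
  Cfsg.Agent.Lib_helper3_DefectOne Cfsg.Agent.Lib_helper3_DefectOne2


/-- Blocks of defect one for p = 2. Let M be a maximal ideal of the algebraic integers containing 2, B a 2-block of the finite group G whose defect group is the subgroup generated by an involution x, C = C_G(x), b a block of C inducing B and θ a member of b taking the same value at x as at 1 (there is exactly one). Then B consists of exactly two irreducible characters, which agree on every element of odd order, and they can be labelled χ₁, χ₂ with signs ε₁, ε₂ = ±1, ε₁ε₂ = −1, such that χᵢ(x y) = εᵢ θ(y) for every element y of C of odd order. -/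
theorem result {G : Type*} [Group G] [Finite G] (M : Ideal Cfsg.AlgInt) (hM : Cfsg.IsPModular 2 M) (x : G) (hx : orderOf x = 2)
    (B : Set (Cfsg.IrrCharacter G)) (hB : Cfsg.IsPBlock M B) (hBD : Cfsg.IsDefectGroup 2 M B (Subgroup.zpowers x))
    (b : Set (Cfsg.IrrCharacter ↥(Subgroup.centralizer ({x} : Set G)))) (hb : Cfsg.IsInducedBlock M (Subgroup.centralizer ({x} : Set G)) b B)
    (θ : Cfsg.IrrCharacter ↥(Subgroup.centralizer ({x} : Set G))) (hθ : θ ∈ b)
    (hθx : ∀ z : ↥(Subgroup.centralizer ({x} : Set G)), (z : G) = x → (θ : ↥(Subgroup.centralizer ({x} : Set G)) → ℂ) z = (θ : ↥(Subgroup.centralizer ({x} : Set G)) → ℂ) 1) :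
    Nat.card B = 2 ∧ (∀ χ ∈ B, ∀ ψ ∈ B, ∀ g : G, ¬ 2 ∣ orderOf g → (χ : G → ℂ) g = (ψ : G → ℂ) g) ∧
      ∃ χ₁ ∈ B, ∃ χ₂ ∈ B, χ₁ ≠ χ₂ ∧ ∃ ε₁ ε₂ : ℤ, (ε₁ = 1 ∨ ε₁ = -1) ∧ (ε₂ = 1 ∨ ε₂ = -1) ∧ ε₁ * ε₂ = -1 ∧
        ∀ y : ↥(Subgroup.centralizer ({x} : Set G)), ¬ 2 ∣ orderOf y →
          (χ₁ : G → ℂ) (x * y) = (ε₁ : ℂ) * (θ : ↥(Subgroup.centralizer ({x} : Set G)) → ℂ) y ∧ (χ₂ : G → ℂ) (x * y) = (ε₂ : ℂ) * (θ : ↥(Subgroup.centralizer ({x} : Set G)) → ℂ) y := by
  classical
  let inst : Fintype G := Fintype.ofFinite G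
  have h2 : Fact (Nat.Prime 2) := ⟨Nat.prime_two⟩
  have hMp : M.IsPrime := isPrime_of_modular hM
  have hd : blockDefect 2 B = 1 := by
    have h1 := card_defectGroup hM hB hBD
    rw [Nat.card_zpowers, hx] at h1
    have h3 : 2 ^ 1 = 2 ^ blockDefect 2 B := by simpa using h1
    exact (Nat.pow_right_injective (le_refl 2) h3).symm
  obtain ⟨χ₀, hχ₀⟩ := id hB
  have hχ₀B : χ₀ ∈ B := by
    rw [hχ₀]
    exact mem_blockOf_self hMp.ne_top χ₀
  obtain ⟨χ', hχ'B, hχ'ne, hcov, hreg, hsing, hcc⟩ := defect_one_structure hM hB hd hχ₀B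
  obtain ⟨ε, hε, hval⟩ := defect_one_involution hM x hx B hB hBD b hb θ hθ hθx χ₀ hχ₀B
  refine ⟨?_, ?_, χ₀, hχ₀B, χ', hχ'B, hχ'ne.symm, ε, -ε, hε, ?_, ?_, ?_⟩
  · have hBeq : B = {χ₀, χ'} := by
      ext φ
      constructor
      · intro hφ
        rcases hcov φ hφ with rfl | rfl
        · simp
        · simp
      · rintro (rfl | rfl)
        · exact hχ₀B
        · exact hχ'B
    rw [hBeq, Nat.card_coe_set_eq, Set.ncard_pair hχ'ne.symm]
  · intro χ hχ ψ hψ g hg
    have key : ∀ φ ∈ B, (φ : G → ℂ) g = (χ₀ : G → ℂ) g := by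
      intro φ hφ
      rcases hcov φ hφ with rfl | rfl
      · rfl
      · exact hreg g hg
    rw [key χ hχ, key ψ hψ]
  · rcases hε with h | h
    · right
      omega
    · left
      omega
  · rcases hε with rfl | rfl <;> norm_num
  · intro y hy
    refine ⟨hval y hy, ?_⟩
    have hcomm : Commute x (y : G) := (Subgroup.mem_centralizer_singleton_iff.mp y.2).symm
    have hsingular : 2 ∣ orderOf (x * (y : G)) := by
      have hcop : (orderOf x).Coprime (orderOf (y : G)) := by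
        rw [hx, Subgroup.orderOf_coe]
        exact (Nat.Prime.coprime_iff_not_dvd Nat.prime_two).mpr hy
      rw [Commute.orderOf_mul_eq_mul_orderOf_of_coprime hcomm hcop, hx]
      exact Dvd.intro _ rfl
    rw [hsing (x * (y : G)) hsingular, hval y hy]
    push_cast
    ring
end Cfsg.Agent.S4513
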