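import Cfsg.Statements.S4633
import Cfsg.Agent.Lib_helper3_CycInert

set_option autoImplicit false
open Cfsg

namespace Cfsg.Agent.S4633
open Cfsg.Agent.Lib_helper3_BrauerPair Cfsg.Agent.Lib_helper3_LocNil Cfsg.Agent.Lib_helper3_CycInert


/-- Let B be a block of the finite group G relative to a maximal ideal M of the algebraic integers containing the prime p, with a nontrivial cyclic defect group P. Let c be a block of C_G(P) inducing B and T the stabilizer of c in N_G(P) (the elements of N_G(P) conjugating c to itself); T contains C_G(P). Then T/C_G(P) is cyclic of order dividing p − 1, and it acts freely on the non-identity elements of P: an element of T fixing some non-identity element of P under conjugation lies in C_G(P). -/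
theorem result {G : Type*} [Group G] [Finite G] (p : ℕ) [Fact p.Prime] (M : Ideal Cfsg.AlgInt) (hM : Cfsg.IsPModular p M) (B : Set (Cfsg.IrrCharacter G)) (hB : Cfsg.IsPBlock M B) (P : Subgroup G) (hPD : Cfsg.IsDefectGroup p M B P) (hP1 : P ≠ ⊥) (hcyc : IsCyclic P) (c : Set (Cfsg.IrrCharacter (Subgroup.centralizer (P : Set G)))) (hc : Cfsg.IsInducedBlock M (Subgroup.centralizer (P : Set G)) c B) (T : Subgroup G) (hT : ∀ g : G, g ∈ T ↔ (g ∈ Subgroup.normalizer (P : Set G) ∧ Cfsg.StabilizesBlock (Subgroup.centralizer (P : Set G)) c g)) [hn : ((Subgroup.centralizer (P : Set G)).subgroupOf T).Normal] : IsCyclic (T ⧸ (Subgroup.centralizer (P : Set G)).subgroupOf T) ∧ (Subgroup.centralizer (P : Set G)).relIndex T ∣ p - 1 ∧ ∀ g ∈ T, ∀ x ∈ P, x ≠ 1 → g * x * g⁻¹ = x → g ∈ Subgroup.centralizer (P : Set G) := by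
  classical
  have instG : Fintype G := Fintype.ofFinite G
  have hp : p.Prime := Fact.out
  have hPp : IsPGroup p P := Cfsg.Agent.Lib_helper3_FirstMain2.isPGroup_of_isDefectGroup hPD
  have instC : Fintype (Subgroup.centralizer (P : Set G)) := Fintype.ofFinite _
  have hBc : Cfsg.IsBrauerPairOf p M B P c :=
    (isBrauerPairOf_iff hM P hPp c hc.1 B hB).mpr hc
  have hmax : Cfsg.IsMaximalBrauerPair p M B P c := max_of_defect hM B P c hBc hPD
  have hPC : P ≤ Subgroup.centralizer (P : Set G) := by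
    obtain ⟨g₀, hg₀⟩ := hcyc.exists_generator
    intro y hy
    rw [Subgroup.mem_centralizer_iff]
    intro q hq
    obtain ⟨a, ha⟩ := Subgroup.mem_zpowers_iff.mp (hg₀ ⟨y, hy⟩)
    obtain ⟨b, hb⟩ := Subgroup.mem_zpowers_iff.mp (hg₀ ⟨q, hq⟩)
    have h1 : (⟨q, hq⟩ : P) * ⟨y, hy⟩ = ⟨y, hy⟩ * ⟨q, hq⟩ := by
      rw [← ha, ← hb, ← zpow_add, ← zpow_add, add_comm]
    exact congrArg Subtype.val h1
  obtain ⟨k, hk⟩ := hPp.exists_card_eq
  obtain ⟨n, rfl⟩ : ∃ n, k = n + 1 := by
    rcases Nat.eq_zero_or_pos k with h0 | hpos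
    · exfalso
      rw [h0, pow_zero] at hk
      exact hP1 ((Subgroup.card_eq_one).mp hk)
    · exact ⟨k - 1, by omega⟩
  have hTN : T ≤ Subgroup.normalizer (P : Set G) := fun t ht => ((hT t).mp ht).1
  have hp' : ∀ t ∈ T, t ^ p ∈ Subgroup.centralizer (P : Set G) →
      t ∈ Subgroup.centralizer (P : Set G) := by
    intro t ht htp
    obtain ⟨htN, htst⟩ := (hT t).mp ht
    exact pow_stab_cent hM B P c hmax hPC t htN htst 1 (by rwa [pow_one])
  obtain ⟨h1, h2⟩ := inert_cyclic (p := p) P hcyc n hk T hTN hp'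
  refine ⟨h1, h2, ?_⟩
  intro g hgT x hxP hx1 hgx
  obtain ⟨hgN, hgst⟩ := (hT g).mp hgT
  exact pow_stab_cent hM B P c hmax hPC g hgN hgst n
    (pow_cent_of_fix (p := p) P hcyc n hk g hgN x hxP hx1 hgx)
end Cfsg.Agent.S4633
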