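import Cfsg.Statements.S4636
import Cfsg.Agent.Lib_helper6_Cyclic

set_option autoImplicit false
open scoped Pointwise
open Cfsg

namespace Cfsg.Agent.S4636

/-- Let P be a nontrivial cyclic p-subgroup of the finite group G and Z its subgroup of order p. For every x outside N_G(Z), P meets its conjugate xPx⁻¹ trivially; consequently N_G(Q) ≤ N_G(Z) for every nontrivial subgroup Q of P. -/
theorem result {G : Type*} [Group G] [Finite G] (p : ℕ) [Fact p.Prime] (P : Subgroup G) (hP : IsPGroup p P) (hP1 : P ≠ ⊥) (hcyc : IsCyclic P) (Z : Subgroup G) (hZ : Z ≤ P) (hZcard : Nat.card Z = p) : (∀ x : G, x ∉ Subgroup.normalizer (Z : Set G) → P ⊓ MulAut.conj x • P = ⊥) ∧ ∀ Q : Subgroup G, Q ≤ P → Q ≠ ⊥ → Subgroup.normalizer (Q : Set G) ≤ Subgroup.normalizer (Z : Set G) := by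
  classical
  -- conj g • Z = Z implies g ∈ N(Z)
  have hnorm : ∀ g : G, MulAut.conj g • Z = Z → g ∈ Subgroup.normalizer (Z : Set G) := by
    intro g hg
    rw [Subgroup.mem_normalizer_iff]
    intro h
    constructor
    · intro hh
      rw [← hg, Subgroup.mem_pointwise_smul_iff_inv_smul_mem]
      simp only [MulAut.smul_def, MulAut.conj_inv_apply]
      have : g⁻¹ * (g * h * g⁻¹) * g = h := by group
      rw [this]; exact hh
    · intro hh
      rw [← hg, Subgroup.mem_pointwise_smul_iff_inv_smul_mem] at hh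
      simp only [MulAut.smul_def, MulAut.conj_inv_apply] at hh
      have : g⁻¹ * (g * h * g⁻¹) * g = h := by group
      rw [this] at hh; exact hh
  have hcardsmul : ∀ g : G, Nat.card ↥(MulAut.conj g • Z) = p := by
    intro g
    rw [← hZcard]
    exact (Nat.card_congr (Subgroup.equivSMul (MulAut.conj g) Z).toEquiv).symm
  -- every nontrivial subgroup of P contains Z
  have hZle : ∀ R : Subgroup G, R ≤ P → R ≠ ⊥ → Z ≤ R := by
    intro R hRP hR
    have hRp : IsPGroup p R := hP.to_le hRP
    have hdvd : p ∣ Nat.card R := by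
      rcases hRp.card_eq_or_dvd with h | h
      · exact absurd (Subgroup.eq_bot_of_card_eq R h) hR
      · exact h
    obtain ⟨x, hx⟩ := exists_prime_orderOf_dvd_card' p hdvd
    have h1 : Nat.card (Subgroup.zpowers (x : G)) = p := by
      rw [Nat.card_zpowers, Subgroup.orderOf_coe, hx]
    have h2 : Subgroup.zpowers (x : G) ≤ R := by
      rw [Subgroup.zpowers_le]; exact x.2
    have h3 := Lib_helper6_Cyclic.eq_of_card_eq_of_le P (Subgroup.zpowers (x : G)) Z
      (h2.trans hRP) hZ (by rw [h1, hZcard])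
    rw [← h3]; exact h2
  constructor
  · intro x hx
    by_contra hne
    have h1 : Z ≤ P ⊓ MulAut.conj x • P := hZle _ inf_le_left hne
    have h2 : Z ≤ MulAut.conj x • P := h1.trans inf_le_right
    have h3 : MulAut.conj x • Z ≤ MulAut.conj x • P := by
      intro y hy
      rw [Subgroup.mem_pointwise_smul_iff_inv_smul_mem] at hy ⊢
      exact hZ hy
    haveI : IsCyclic ↥(MulAut.conj x • P) :=
      (MulEquiv.isCyclic (Subgroup.equivSMul (MulAut.conj x) P)).mp hcyc
    have h4 := Lib_helper6_Cyclic.eq_of_card_eq_of_le (MulAut.conj x • P) (MulAut.conj x • Z) Z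
      h3 h2 (by rw [hcardsmul, hZcard])
    exact hx (hnorm x h4)
  · intro Q hQ hQ1 g hg
    have h1 : Z ≤ Q := hZle Q hQ hQ1
    have h2 : MulAut.conj g • Z ≤ P := by
      intro y hy
      rw [Subgroup.mem_pointwise_smul_iff_inv_smul_mem] at hy
      simp only [MulAut.smul_def, MulAut.conj_inv_apply] at hy
      have h3 := (Subgroup.mem_normalizer_iff.mp hg (g⁻¹ * y * g)).mp (h1 hy)
      have : g * (g⁻¹ * y * g) * g⁻¹ = y := by group
      rw [this] at h3
      exact hQ h3
    have h4 := Lib_helper6_Cyclic.eq_of_card_eq_of_le P (MulAut.conj g • Z) Z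
      h2 hZ (by rw [hcardsmul, hZcard])
    exact hnorm g h4

end Cfsg.Agent.S4636
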