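import Cfsg.Statements.S4650
import Cfsg.Agent.Lib_helper3_LocNil

set_option autoImplicit false
open Cfsg

namespace Cfsg.Agent.S4650
open Cfsg.Agent.Lib_helper3_BrauerPair Cfsg.Agent.Lib_helper3_LocNil


/-- Let B be a block of the finite group G relative to a maximal ideal M of the algebraic integers containing the prime p, with a nontrivial commutative defect group P; let c be a block of C_G(P) inducing B and T the stabilizer of c in N_G(P). Then T/C_G(P) acts freely on the non-identity elements of P (an element of T fixing a non-identity element of P under conjugation lies in C_G(P)) if and only if, for every nontrivial subgroup Q of P, the block of C_G(Q) induced by c inside C_G(Q) is a nilpotent block of C_G(Q). -/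
theorem result {G : Type*} [Group G] [Finite G] (p : ℕ) [Fact p.Prime] (M : Ideal Cfsg.AlgInt) (hM : Cfsg.IsPModular p M) (B : Set (Cfsg.IrrCharacter G)) (hB : Cfsg.IsPBlock M B) (P : Subgroup G) (hPD : Cfsg.IsDefectGroup p M B P) (hPab : ∀ x ∈ P, ∀ y ∈ P, x * y = y * x) (hP1 : P ≠ ⊥) (c : Set (Cfsg.IrrCharacter (Subgroup.centralizer (P : Set G)))) (hc : Cfsg.IsInducedBlock M (Subgroup.centralizer (P : Set G)) c B) (T : Subgroup G) (hT : ∀ g : G, g ∈ T ↔ (g ∈ Subgroup.normalizer (P : Set G) ∧ Cfsg.StabilizesBlock (Subgroup.centralizer (P : Set G)) c g)) : (∀ g ∈ T, ∀ x ∈ P, x ≠ 1 → g * x * g⁻¹ = x → g ∈ Subgroup.centralizer (P : Set G)) ↔ ∀ Q : Subgroup G, Q ≤ P → Q ≠ ⊥ → ∀ f : Set (Cfsg.IrrCharacter (Subgroup.centralizer (Q : Set G))), Cfsg.IsInducedBlockIn M (Subgroup.centralizer (Q : Set G)) (Subgroup.centralizer (P : Set G)) c f → Cfsg.IsNilpotentBlock p M f := by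
  classical
  have instG : Fintype G := Fintype.ofFinite G
  have hPp : IsPGroup p P := Cfsg.Agent.Lib_helper3_FirstMain2.isPGroup_of_isDefectGroup hPD
  have instC : Fintype (Subgroup.centralizer (P : Set G)) := Fintype.ofFinite _
  have hBc : Cfsg.IsBrauerPairOf p M B P c :=
    (isBrauerPairOf_iff hM P hPp c hc.1 B hB).mpr hc
  have hmax : Cfsg.IsMaximalBrauerPair p M B P c := max_of_defect hM B P c hBc hPD
  -- common setup for a subgroup `Q ≤ P`
  have setup : ∀ Q : Subgroup G, Q ≤ P →
      ∃ D : Subgroup ↥(Subgroup.centralizer (Q : Set G)),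
        Q ⊔ D.map (Subgroup.centralizer (Q : Set G)).subtype = P ∧
        Q ≤ D.map (Subgroup.centralizer (Q : Set G)).subtype ∧
        (∀ x ∈ D, ∀ y ∈ D, x * y = y * x) ∧ IsPGroup p D ∧
        (∀ y : ↥(Subgroup.centralizer (Q : Set G)),
          y ∈ Subgroup.normalizer (D : Set ↥(Subgroup.centralizer (Q : Set G))) ↔
            (y : G) ∈ Subgroup.normalizer (P : Set G)) ∧
        (∀ y : ↥(Subgroup.centralizer (Q : Set G)),
          y ∈ Subgroup.centralizer (D : Set ↥(Subgroup.centralizer (Q : Set G))) ↔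
            (y : G) ∈ Subgroup.centralizer (P : Set G)) := by
    intro Q hQP
    have hPH : P ≤ Subgroup.centralizer (Q : Set G) := by
      intro x hx
      rw [Subgroup.mem_centralizer_iff]
      intro q hq
      exact hPab q (hQP hq) x hx
    have hmap : (P.subgroupOf (Subgroup.centralizer (Q : Set G))).map
        (Subgroup.centralizer (Q : Set G)).subtype = P :=
      Subgroup.map_subgroupOf_eq_of_le hPH
    refine ⟨P.subgroupOf (Subgroup.centralizer (Q : Set G)), ?_, ?_, ?_, ?_, ?_, ?_⟩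
    · rw [hmap]
      exact sup_eq_right.mpr hQP
    · rw [hmap]
      exact hQP
    · intro x hx y hy
      exact Subtype.ext (hPab _ (Subgroup.mem_subgroupOf.mp hx) _ (Subgroup.mem_subgroupOf.mp hy))
    · intro d
      obtain ⟨k, hk⟩ := hPp ⟨((d : ↥(Subgroup.centralizer (Q : Set G))) : G),
        Subgroup.mem_subgroupOf.mp d.2⟩
      refine ⟨k, Subtype.ext (Subtype.ext ?_)⟩
      have h1 := congrArg Subtype.val hk
      simpa using h1
    · intro y
      rw [← Subgroup.subgroupOf_normalizer_eq hPH, Subgroup.mem_subgroupOf]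
    · intro y
      rw [Subgroup.mem_centralizer_iff, Subgroup.mem_centralizer_iff]
      constructor
      · intro h x hx
        exact congrArg Subtype.val (h ⟨x, hPH hx⟩ (Subgroup.mem_subgroupOf.mpr hx))
      · intro h d hd
        exact Subtype.ext (h _ (Subgroup.mem_subgroupOf.mp hd))
  constructor
  · intro hfree Q hQP hQ1 f hf
    obtain ⟨D, hS, hQD, hab, hDp, hN, hC⟩ := setup Q hQP
    refine (loc_nil_iff hM B Q D P hS hQD c hmax hab (fun y hy => (hN y).mp hy) f hf).mpr ?_
    intro y hyD hst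
    have hyN : (y : G) ∈ Subgroup.normalizer (P : Set G) := (hN y).mp hyD
    have hyT : (y : G) ∈ T := (hT _).mpr ⟨hyN, hst⟩
    obtain ⟨a, ha⟩ := Subgroup.ne_bot_iff_exists_ne_one.mp hQ1
    obtain ⟨x, hxQ, hx1⟩ : ∃ x : G, x ∈ Q ∧ x ≠ 1 :=
      ⟨(a : G), a.2, fun h => ha (Subtype.ext h)⟩
    have hcomm : x * (y : G) = (y : G) * x := Subgroup.mem_centralizer_iff.mp y.2 x hxQ
    have hfix : (y : G) * x * (y : G)⁻¹ = x := by
      rw [← hcomm]
      group
    exact (hC y).mpr (hfree (y : G) hyT x (hQP hxQ) hx1 hfix)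
  · intro hloc g hgT x hxP hx1 hgx
    have hQP : Subgroup.zpowers x ≤ P := (Subgroup.zpowers_le).mpr hxP
    have hQ1 : Subgroup.zpowers x ≠ ⊥ := fun h => hx1 (Subgroup.zpowers_eq_bot.mp h)
    obtain ⟨D, hS, hQD, hab, hDp, hN, hC⟩ := setup (Subgroup.zpowers x) hQP
    have hcomm : Commute g x := by
      show g * x = x * g
      have h1 : g * x * g⁻¹ * g = x * g := by rw [hgx]
      rw [← h1]
      group
    have hgH : g ∈ Subgroup.centralizer ((Subgroup.zpowers x : Subgroup G) : Set G) := by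
      rw [Subgroup.mem_centralizer_iff]
      intro h hh
      obtain ⟨k, rfl⟩ := Subgroup.mem_zpowers_iff.mp hh
      exact ((hcomm.zpow_right k).eq).symm
    obtain ⟨f, hf⟩ := exists_induced_in' hM (Subgroup.zpowers x) D hDp P hS c hc.1
    have hnil := hloc (Subgroup.zpowers x) hQP hQ1 f hf
    obtain ⟨hgN, hgst⟩ := (hT g).mp hgT
    have h2 := (loc_nil_iff hM B (Subgroup.zpowers x) D P hS hQD c hmax hab
      (fun y hy => (hN y).mp hy) f hf).mp hnil ⟨g, hgH⟩ ((hN ⟨g, hgH⟩).mpr hgN) hgst
    exact (hC ⟨g, hgH⟩).mp h2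
end Cfsg.Agent.S4650
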