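import Cfsg.Statements.S4652
import Cfsg.Agent.Lib_helper3_PrinDefect
import Cfsg.Agent.Lib_helper3_DefectLoc2
import Cfsg.Agent.S0906

set_option autoImplicit false
open Cfsg

namespace Cfsg.Agent.S4652
open Cfsg.Agent.Lib_helper3_CharBasic Cfsg.Agent.Lib_helper3_CharMore
  Cfsg.Agent.Lib_helper3_Local Cfsg.Agent.Lib_helper3_Local2 Cfsg.Agent.Lib_helper3_BlockAlg
  Cfsg.Agent.Lib_helper3_PrinDefect Cfsg.Agent.Lib_helper3_DefectLoc2


/-- Fix a prime p and a maximal ideal M of the algebraic integers containing p. The defect groups of the principal p-block of a finite group G are exactly the Sylow p-subgroups of G: a subgroup D is a defect group of the principal block if and only if D is a Sylow p-subgroup. -/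
theorem result {G : Type*} [Group G] [Fintype G] (p : ℕ) [Fact p.Prime] (M : Ideal Cfsg.AlgInt) (hM : Cfsg.IsPModular p M) (D : Subgroup G) : Cfsg.IsDefectGroup p M (Cfsg.principalBlock M G) D ↔ ∃ S : Sylow p G, (S : Subgroup G) = D := by
  classical
  have hMp : M.IsPrime := isPrime_of_modular hM
  obtain ⟨oG, hoG⟩ : ∃ o : IrrCharacter G, (o : G → ℂ) = fun _ => 1 :=
    ⟨⟨_, isIrrCharacter_one⟩, rfl⟩
  have hPG : principalBlock M G = blockOf M (oG : G → ℂ) := by
    rw [hoG]
    rfl
  have hB : IsPBlock M (principalBlock M G) := ⟨oG, hPG⟩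
  have honeB : oG ∈ principalBlock M G := by
    rw [hPG]
    exact mem_blockOf_self hMp.ne_top oG
  have hkey : ∀ g : G, IsDefectClass M (principalBlock M G) g →
      ¬ p ∣ (Subgroup.centralizer ({g} : Set G)).index := by
    intro g hg hdvd
    apply hg.2.2 oG honeB
    have h1 : centralChar (oG : G → ℂ) g = ((Subgroup.centralizer ({g} : Set G)).index : ℂ) := by
      rw [hoG]
      unfold centralChar
      simp
    rw [h1]
    exact memLocalIdeal_natCast hM hdvd
  constructor
  · rintro ⟨g, hg, Q, rfl⟩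
    exact ⟨Sylow.ofCard _ (card_map_sylow_of_not_dvd_index _ (hkey g hg) Q), Sylow.coe_ofCard _ _⟩
  · rintro ⟨S, rfl⟩
    obtain ⟨g₀, hg₀⟩ := Cfsg.Agent.S0906.result p M hM (principalBlock M G) hB
    obtain ⟨x, hx⟩ := exists_conj_le_of_not_dvd_index _ (hkey g₀ hg₀) S
    have hg : IsDefectClass M (principalBlock M G) (x⁻¹ * g₀ * x⁻¹⁻¹) := isDefectClass_conj hg₀ x⁻¹
    rw [inv_inv] at hg
    have hle : (S : Subgroup G) ≤ Subgroup.centralizer ({x⁻¹ * g₀ * x} : Set G) := by
      intro u hu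
      have h4 := hx u hu
      rw [Subgroup.mem_centralizer_singleton_iff] at h4 ⊢
      calc u * (x⁻¹ * g₀ * x) = x⁻¹ * (x * u * x⁻¹ * g₀) * x := by group
        _ = x⁻¹ * (g₀ * (x * u * x⁻¹)) * x := by rw [h4]
        _ = x⁻¹ * g₀ * x * u := by group
    refine ⟨x⁻¹ * g₀ * x, hg, S.subtype hle, ?_⟩
    rw [Sylow.coe_subtype]
    exact (Subgroup.map_subgroupOf_eq_of_le hle).symm
end Cfsg.Agent.S4652
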