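import Cfsg.Statements.S4664
import Cfsg.Agent.Lib_helper3_IdemSupp
import Cfsg.Agent.Lib_helper3_CharDiag

set_option autoImplicit false
open Cfsg

namespace Cfsg.Agent.S4664
open Cfsg.Agent.Lib_helper3_CharBasic Cfsg.Agent.Lib_helper3_CharMore
  Cfsg.Agent.Lib_helper3_Local Cfsg.Agent.Lib_helper3_Local2 Cfsg.Agent.Lib_helper3_BlockAlg
  Cfsg.Agent.Lib_helper3_IdemSupp Cfsg.Agent.Lib_helper3_CharDiag
open scoped ComplexConjugate


/-- Fix a prime p and a maximal ideal M of the algebraic integers containing p, and let B be a p-block of the finite group G. Let m be the p'-part of the order of G and η = exp(2πi/m). Then every coefficient of the idempotent of B lies in the cyclotomic field ℚ(η). -/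
theorem result {G : Type*} [Group G] [Fintype G] (p : ℕ) [Fact p.Prime] (M : Ideal Cfsg.AlgInt) (hM : Cfsg.IsPModular p M) (B : Set (Cfsg.IrrCharacter G)) (hB : Cfsg.IsPBlock M B) (g : G) : Cfsg.blockCoeff B g ∈ IntermediateField.adjoin ℚ ({Complex.exp (2 * Real.pi * Complex.I / ((Nat.card G / p ^ (Nat.card G).factorization p : ℕ) : ℂ))} : Set ℂ) := by
  classical
  have hp : p.Prime := Fact.out
  have hMp : M.IsPrime := isPrime_of_modular hM
  have hfin := irr_finite (G := G)
  let inst2 : Fintype (IrrCharacter G) := Fintype.ofFinite _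
  obtain ⟨m, hm⟩ : ∃ m : ℕ, m = Nat.card G / p ^ (Nat.card G).factorization p := ⟨_, rfl⟩
  rw [← hm]
  obtain ⟨η, hη⟩ : ∃ η : ℂ, η = Complex.exp (2 * Real.pi * Complex.I / (m : ℂ)) := ⟨_, rfl⟩
  rw [← hη]
  have hG0 : Nat.card G ≠ 0 := Nat.card_pos.ne'
  have hm0 : m ≠ 0 := by
    rw [hm]
    exact (Nat.ordCompl_pos p hG0).ne'
  have hprim : IsPrimitiveRoot η m := by
    rw [hη]
    exact Complex.isPrimitiveRoot_exp m hm0
  have hmne : NeZero m := ⟨hm0⟩
  have hηmem : η ∈ IntermediateField.adjoin ℚ ({η} : Set ℂ) :=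
    IntermediateField.mem_adjoin_simple_self ℚ η
  by_cases hg : p ∣ orderOf g
  · rw [blockCoeff_eq_zero_of_singular hM (fun x => osima hB x) g hg]
    exact zero_mem _
  · -- orderOf g divides m
    have hdvd : orderOf g ∣ m := by
      have h1 : orderOf g ∣ p ^ (Nat.card G).factorization p * m := by
        rw [hm, Nat.ordProj_mul_ordCompl_eq_self]
        exact orderOf_dvd_natCard g
      have h2 : Nat.Coprime (orderOf g) (p ^ (Nat.card G).factorization p) :=
        Nat.Coprime.pow_right _ ((Nat.Prime.coprime_iff_not_dvd hp).mpr hg).symm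
      exact h2.dvd_of_dvd_mul_left h1
    -- character values at g⁻¹ lie in the field
    have hval : ∀ ψ : IrrCharacter G, conj ((ψ : G → ℂ) g) ∈
        IntermediateField.adjoin ℚ ({η} : Set ℂ) := by
      intro ψ
      rw [isCharacter_conj_apply (isCharacter_of_irr ψ.2) g]
      obtain ⟨n, ρ, -, hρ⟩ := ψ.2
      obtain ⟨ι, instι, b, ε, -, hε, -, hchar, -⟩ := exists_eigen ρ g⁻¹
      have h1 := hchar 1
      rw [pow_one] at h1
      rw [← hρ, h1]
      apply sum_mem
      intro i _
      rw [pow_one]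
      have h2 : ε i ^ m = 1 := by
        have h3 := hε i
        rw [orderOf_inv] at h3
        obtain ⟨k, hk⟩ := hdvd
        rw [hk, pow_mul, h3, one_pow]
      obtain ⟨j, -, hj⟩ := hprim.eq_pow_of_pow_eq_one h2
      rw [← hj]
      exact pow_mem hηmem j
    rw [blockCoeff_eq_sum]
    apply mul_mem
    · apply inv_mem
      exact natCast_mem _ _
    · apply sum_mem
      intro ψ _
      by_cases hψ : ψ ∈ B
      · rw [Set.indicator_of_mem hψ]
        apply mul_mem _ (hval ψ)
        obtain ⟨d, hd⟩ := isCharacter_apply_one (isCharacter_of_irr ψ.2)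
        rw [hd]
        exact natCast_mem _ _
      · rw [Set.indicator_of_notMem hψ]
        exact zero_mem _
end Cfsg.Agent.S4664
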