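import Cfsg.Statements.S4665
import Cfsg.Agent.Lib_helper3_CharBasic
import Cfsg.Agent.Lib_helper3_CharInd

set_option autoImplicit false
open Cfsg

namespace Cfsg.Agent.S4665

/-- Fix a prime p, a maximal ideal M of the algebraic integers containing p, and a p-block B of the finite group G, and let p^a be the p-part of the order of G. Let χ be an integer combination of the irreducible characters in B. If the function that agrees with χ on p-regular elements and vanishes on p-singular elements is again an integer combination of the irreducible characters in B, then p^a divides χ(1). -/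
theorem result {G : Type*} [Group G] [Fintype G] (p : ℕ) [Fact p.Prime] (M : Ideal Cfsg.AlgInt) (hM : Cfsg.IsPModular p M) (B : Set (Cfsg.IrrCharacter G)) (hB : Cfsg.IsPBlock M B) (χ : G → ℂ) (hχ : (∃ n : Cfsg.IrrCharacter G → ℤ, ∀ g : G, χ g = ∑ᶠ ψ ∈ B, (n ψ : ℂ) * (ψ : G → ℂ) g)) (h0 : (∃ n : Cfsg.IrrCharacter G → ℤ, ∀ g : G, Cfsg.pRegularPart p χ g = ∑ᶠ ψ ∈ B, (n ψ : ℂ) * (ψ : G → ℂ) g)) : ∃ k : ℤ, χ 1 = (p ^ (Nat.card G).factorization p : ℂ) * k := by
  classical
  obtain ⟨n, hn⟩ := h0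
  haveI : Finite (Cfsg.IrrCharacter G) := Cfsg.Agent.Lib_helper3_CharBasic.irr_finite
  haveI : Fintype (Cfsg.IrrCharacter G) := Fintype.ofFinite _
  obtain ⟨P⟩ : Nonempty (Sylow p G) := inferInstance
  haveI : Fintype (P : Subgroup G) := Fintype.ofFinite _
  have hPcard : Nat.card (P : Subgroup G) = p ^ (Nat.card G).factorization p := Sylow.card_eq_multiplicity P
  have hp : p.Prime := Fact.out
  -- values of the p-regular part on P
  have hf : ∀ x : (P : Subgroup G), Cfsg.pRegularPart p χ (x : G) = if x = 1 then χ 1 else 0 := by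
    intro x
    unfold Cfsg.pRegularPart Cfsg.IsPRegular
    by_cases hx : x = 1
    · subst hx
      simp [hp.one_lt.ne']
    · rw [if_neg hx]
      have hx' : (x : G) ≠ 1 := fun h => hx (Subtype.ext h)
      obtain ⟨k, hk⟩ := (IsPGroup.iff_orderOf.mp P.isPGroup') x
      have hk' : orderOf (x : G) = p ^ k := by rw [← hk, Subgroup.orderOf_coe]
      have hk0 : k ≠ 0 := by
        rintro rfl
        rw [pow_zero, orderOf_eq_one_iff] at hk'
        exact hx' hk'
      have : p ∣ orderOf (x : G) := by rw [hk']; exact dvd_pow_self p hk0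
      rw [if_neg (not_not.mpr this)]
  have hsum1 : ∑ x : (P : Subgroup G), Cfsg.pRegularPart p χ (x : G) = χ 1 := by
    simp only [hf]
    simp
  have hfin : ∀ g : G, ∑ᶠ ψ ∈ B, (n ψ : ℂ) * (ψ : G → ℂ) g =
      ∑ ψ ∈ (Set.toFinite B).toFinset, (n ψ : ℂ) * (ψ : G → ℂ) g := fun g =>
    finsum_mem_eq_finite_toFinset_sum _ (Set.toFinite B)
  have hm : ∀ ψ : Cfsg.IrrCharacter G, ∃ m : ℕ, ∑ x : (P : Subgroup G), (ψ : G → ℂ) (x : G) =
      (Nat.card (P : Subgroup G) : ℂ) * m := by
    intro ψ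
    have h1 := Cfsg.Agent.Lib_helper3_CharBasic.isCharacter_restrict (P : Subgroup G)
      (Cfsg.Agent.Lib_helper3_CharBasic.isCharacter_of_irr ψ.2)
    obtain ⟨m, hm⟩ := Cfsg.Agent.Lib_helper3_CharInd.classInner_nat h1
      (Cfsg.Agent.Lib_helper3_CharBasic.isCharacter_one (G := (P : Subgroup G)))
    refine ⟨m, ?_⟩
    rw [← hm, Cfsg.Agent.Lib_helper3_CharBasic.classInner_def]
    have hne : (Nat.card (P : Subgroup G) : ℂ) ≠ 0 := by
      have : 0 < Nat.card (P : Subgroup G) := Nat.card_pos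
      exact_mod_cast this.ne'
    rw [← mul_assoc, mul_inv_cancel₀ hne, one_mul]
    simp
  choose m hm using hm
  refine ⟨∑ ψ ∈ (Set.toFinite B).toFinset, n ψ * (m ψ : ℤ), ?_⟩
  rw [← hsum1]
  simp only [hn, hfin]
  rw [Finset.sum_comm]
  simp only [← Finset.mul_sum, hm, hPcard]
  push_cast
  rw [Finset.mul_sum]
  apply Finset.sum_congr rfl
  intro ψ _
  ring

end Cfsg.Agent.S4665
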