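import Cfsg.Statements.S4666
import Cfsg.Agent.Lib_helper3_RegSpan

set_option autoImplicit false
open Cfsg

namespace Cfsg.Agent.S4666
open Cfsg.Agent.Lib_helper3_CharBasic Cfsg.Agent.Lib_helper3_CharMore
  Cfsg.Agent.Lib_helper3_Local Cfsg.Agent.Lib_helper3_Local2 Cfsg.Agent.Lib_helper3_BlockAlg
  Cfsg.Agent.Lib_helper3_RegSpan
open scoped ComplexConjugate


/-- Fix a prime p and a maximal ideal M of the algebraic integers containing p, and a p-block B of the finite group G of defect d. For every integer combination χ of the irreducible characters in B, p^d times the function that agrees with χ on p-regular elements and vanishes elsewhere is again an integer combination of the irreducible characters in B. -/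
theorem result {G : Type*} [Group G] [Fintype G] (p : ℕ) [Fact p.Prime] (M : Ideal Cfsg.AlgInt) (hM : Cfsg.IsPModular p M) (B : Set (Cfsg.IrrCharacter G)) (hB : Cfsg.IsPBlock M B) (χ : G → ℂ) (hχ : (∃ n : Cfsg.IrrCharacter G → ℤ, ∀ g : G, χ g = ∑ᶠ ψ ∈ B, (n ψ : ℂ) * (ψ : G → ℂ) g)) : (∃ n : Cfsg.IrrCharacter G → ℤ, ∀ g : G, (p ^ Cfsg.blockDefect p B : ℂ) * Cfsg.pRegularPart p χ g = ∑ᶠ ψ ∈ B, (n ψ : ℂ) * (ψ : G → ℂ) g) := by
  classical
  have hfin := irr_finite (G := G)
  let inst2 : Fintype (IrrCharacter G) := Fintype.ofFinite _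
  obtain ⟨n, hn⟩ := hχ
  have key : ∀ ψ : IrrCharacter G, ∃ c : IrrCharacter G → ℤ, ψ ∈ B →
      ((∀ φ, φ ∉ B → c φ = 0) ∧ ∀ x : G,
        (p : ℂ) ^ blockDefect p B * pRegularPart p (ψ : G → ℂ) x =
          ∑ φ : IrrCharacter G, (c φ : ℂ) * (φ : G → ℂ) x) := by
    intro ψ
    by_cases hψ : ψ ∈ B
    · obtain ⟨c, hc1, hc2⟩ := reg_expand hM hB ψ hψ
      exact ⟨c, fun _ => ⟨hc1, hc2⟩⟩
    · exact ⟨fun _ => 0, fun h => absurd h hψ⟩
  choose c hc using key
  refine ⟨fun φ => ∑ ψ : IrrCharacter G, if ψ ∈ B then n ψ * c ψ φ else 0, ?_⟩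
  intro g
  have hχg : pRegularPart p χ g = ∑ ψ : IrrCharacter G,
      if ψ ∈ B then (n ψ : ℂ) * pRegularPart p (ψ : G → ℂ) g else 0 := by
    rw [pRegularPart_apply]
    by_cases hx : p ∣ orderOf g
    · rw [if_pos hx]
      symm
      apply Finset.sum_eq_zero
      intro ψ _
      rw [pRegularPart_apply, if_pos hx]
      simp
    · rw [if_neg hx, hn g, finsum_mem_def, finsum_eq_sum_of_fintype]
      apply Finset.sum_congr rfl
      intro ψ _
      rw [pRegularPart_apply, if_neg hx, Set.indicator_apply]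
  rw [hχg, Finset.mul_sum, finsum_mem_def, finsum_eq_sum_of_fintype]
  have h1 : ∀ ψ : IrrCharacter G, (p : ℂ) ^ blockDefect p B *
      (if ψ ∈ B then (n ψ : ℂ) * pRegularPart p (ψ : G → ℂ) g else 0) =
      ∑ φ : IrrCharacter G, (if ψ ∈ B then (n ψ : ℂ) * (c ψ φ : ℂ) else 0) * (φ : G → ℂ) g := by
    intro ψ
    by_cases hψ : ψ ∈ B
    · simp only [if_pos hψ]
      rw [mul_left_comm, (hc ψ hψ).2 g, Finset.mul_sum]
      apply Finset.sum_congr rfl
      intro φ _
      ring
    · simp only [if_neg hψ]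
      simp
  rw [Finset.sum_congr rfl (fun ψ _ => h1 ψ), Finset.sum_comm]
  apply Finset.sum_congr rfl
  intro φ _
  rw [Set.indicator_apply]
  by_cases hφ : φ ∈ B
  · rw [if_pos hφ, ← Finset.sum_mul]
    congr 1
    push_cast
    apply Finset.sum_congr rfl
    intro ψ _
    split_ifs <;> simp
  · rw [if_neg hφ]
    apply Finset.sum_eq_zero
    intro ψ _
    by_cases hψ : ψ ∈ B
    · rw [if_pos hψ, (hc ψ hψ).1 φ hφ]
      simp
    · rw [if_neg hψ, zero_mul]
end Cfsg.Agent.S4666
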