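import Cfsg.Statements.S4668
import Cfsg.Agent.Lib_helper3_IdemCent2
import Cfsg.Agent.Lib_helper1_Coprime

set_option autoImplicit false
open Cfsg

namespace Cfsg.Agent.S4668
open Cfsg.Agent.Lib_helper3_CharBasic Cfsg.Agent.Lib_helper3_CharMore
  Cfsg.Agent.Lib_helper3_Local Cfsg.Agent.Lib_helper3_Local2 Cfsg.Agent.Lib_helper3_BlockAlg
  Cfsg.Agent.Lib_helper3_IdemCent2
open scoped ComplexConjugate


/-- Fix a prime p and a maximal ideal M of the algebraic integers containing p. Let Q₀ < Q₁ < ⋯ < Q_m be a strictly increasing chain of p-subgroups of the finite group G and N the intersection of their normalizers. Then every block idempotent of N is supported on C_G(Q_m): for every p-block E of N, the idempotent coefficient of E vanishes at every element of N outside C_G(Q_m). -/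
theorem result {G : Type*} [Group G] [Fintype G] (p : ℕ) [Fact p.Prime] (M : Ideal Cfsg.AlgInt) (hM : Cfsg.IsPModular p M) (m : ℕ) (Q : Fin (m + 1) → Subgroup G) (hQ : StrictMono Q) (hQp : ∀ i, IsPGroup p (Q i)) (N : Subgroup G) (hN : ∀ g : G, g ∈ N ↔ ∀ i, g ∈ Subgroup.normalizer (Q i : Set G)) (E : Set (Cfsg.IrrCharacter N)) (hE : Cfsg.IsPBlock M E) (n : N) (hn : (n : G) ∉ Subgroup.centralizer (Q (Fin.last m) : Set G)) : Cfsg.blockCoeff E n = 0 := by
  classical
  have hp : p.Prime := hM.1
  have hMp : M.IsPrime := isPrime_of_modular hM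
  let instN : Fintype N := Fintype.ofFinite _
  by_contra hne
  -- n is p-regular
  have hreg : ¬ p ∣ orderOf (n : G) := by
    intro hsing
    rw [Subgroup.orderOf_coe] at hsing
    exact hne (Cfsg.Agent.Lib_helper3_IdemSupp.blockCoeff_eq_zero_of_singular hM
      (fun g => osima hE g) n hsing)
  -- n centralizes every normal p-subgroup of N
  have hcent : ∀ i (g : G), g ∈ N → g ∈ Q i → g * (n : G) = (n : G) * g := by
    intro i g hgN hgQ
    have hnorm : ((Q i).subgroupOf N).Normal := by
      apply Subgroup.normal_subgroupOf_of_le_normalizer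
      intro g hg
      exact (hN g).mp hg i
    have hpg : IsPGroup p ((Q i).subgroupOf N) := (hQp i).comap_subtype
    have h1 : n ∈ Subgroup.centralizer (((Q i).subgroupOf N : Subgroup N) : Set N) := by
      by_contra h2
      exact hne (blockCoeff_supported hM ((Q i).subgroupOf N) hpg E hE n h2)
    have h3 := (Subgroup.mem_centralizer_iff.mp h1) ⟨g, hgN⟩ (Subgroup.mem_subgroupOf.mpr hgQ)
    have h4 := congrArg (Subtype.val) h3
    simpa using h4
  have hnN : ∀ i, (n : G) ∈ Subgroup.normalizer (Q i : Set G) := (hN _).mp n.2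
  have hmono := hQ.monotone
  have key : ∀ k : ℕ, ∀ h : k < m + 1, (n : G) ∈ Subgroup.centralizer (Q ⟨k, h⟩ : Set G) := by
    intro k
    induction k with
    | zero =>
      intro h
      rw [Subgroup.mem_centralizer_iff]
      intro g hg
      apply hcent ⟨0, h⟩ g _ hg
      rw [hN]
      intro j
      exact Subgroup.le_normalizer (hmono (Fin.mk_le_of_le_val (Nat.zero_le _)) hg)
    | succ k ih =>
      intro h
      have hk : k < m + 1 := by omega
      have hx := ih hk
      have hcop : (Nat.card (Subgroup.zpowers (n : G))).Coprime p := by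
        rw [Nat.card_zpowers]
        exact ((Nat.Prime.coprime_iff_not_dvd hp).mpr hreg).symm
      have hPQ : Q ⟨k, hk⟩ ≤ Subgroup.centralizer (Subgroup.zpowers (n : G) : Set G) := by
        rw [Subgroup.le_centralizer_iff]
        exact Subgroup.zpowers_le.mpr hx
      have hle : Q ⟨k, hk⟩ ≤ Q ⟨k + 1, h⟩ := hmono (by
        show (⟨k, hk⟩ : Fin (m + 1)) ≤ ⟨k + 1, h⟩
        exact Fin.mk_le_mk.mpr (Nat.le_succ k))
      have hPU : Q ⟨k, hk⟩ ≤ Subgroup.normalizer (Q ⟨k + 1, h⟩ : Set G) :=
        hle.trans Subgroup.le_normalizer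
      have hQU : Subgroup.zpowers (n : G) ≤ Subgroup.normalizer (Q ⟨k + 1, h⟩ : Set G) :=
        Subgroup.zpowers_le.mpr (hnN _)
      have hC : Q ⟨k + 1, h⟩ ⊓ Subgroup.centralizer (Q ⟨k, hk⟩ : Set G) ≤
          Subgroup.centralizer (Subgroup.zpowers (n : G) : Set G) := by
        rw [Subgroup.le_centralizer_iff]
        apply Subgroup.zpowers_le.mpr
        rw [Subgroup.mem_centralizer_iff]
        intro g hg
        apply hcent ⟨k + 1, h⟩ g _ hg.1
        rw [hN]
        intro j
        by_cases hj : j.val ≤ k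
        · have h1 : Q j ≤ Q ⟨k, hk⟩ := hmono (Fin.le_def.mpr hj)
          exact Subgroup.centralizer_le_normalizer _ (Subgroup.centralizer_le h1 hg.2)
        · have h1 : Q ⟨k + 1, h⟩ ≤ Q j := hmono (Fin.le_def.mpr (by show k + 1 ≤ j.val; omega))
          exact Subgroup.le_normalizer (h1 hg.1)
      have hfin := Cfsg.Agent.Lib_helper1_Coprime.thompson_pq_aux p (Q ⟨k, hk⟩)
        (Subgroup.zpowers (n : G)) (hQp _) hcop hPQ _ (Q ⟨k + 1, h⟩) rfl (hQp _) hPU hQU hC
      exact hfin (Subgroup.mem_zpowers _)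
  exact hn (key m (Nat.lt_succ_self m))
end Cfsg.Agent.S4668
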