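import Cfsg.Statements.S4682
import Cfsg.Agent.Lib_helper3_AbPair

set_option autoImplicit false
open Cfsg

namespace Cfsg.Agent.S4682

/-- Fix a prime p and a maximal ideal M of the algebraic integers containing p, a p-block B of the finite group G with maximal Brauer pair (P, e), P abelian, and a Brauer pair (Q, f) ≤ (P, e). Let T_Q be the stabilizer of f in N_G(Q) and T_P the stabilizer of e in N_G(P). Then every element of T_Q is a product of an element of T_P and an element of C_G(Q); and the index of C_G(Q) in T_Q equals the index of T_P ∩ C_G(Q) in T_P ∩ N_G(Q). -/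
theorem result {G : Type*} [Group G] [Fintype G] (p : ℕ) [Fact p.Prime] (M : Ideal Cfsg.AlgInt) (hM : Cfsg.IsPModular p M) (B : Set (Cfsg.IrrCharacter G)) (P : Subgroup G) (e : Set (Cfsg.IrrCharacter (Subgroup.centralizer (P : Set G)))) (hmax : Cfsg.IsMaximalBrauerPair p M B P e) (hab : ∀ x ∈ P, ∀ y ∈ P, x * y = y * x) (Q : Subgroup G) (f : Set (Cfsg.IrrCharacter (Subgroup.centralizer (Q : Set G)))) (hQP : Q ≤ P) (hf : Cfsg.IsPBlock M f) (hle : Cfsg.SubpairLE p M Q f P e) (TQ : Subgroup G) (hTQ : ∀ y : G, y ∈ TQ ↔ y ∈ Subgroup.normalizer (Q : Set G) ∧ Cfsg.StabilizesBlock (Subgroup.centralizer (Q : Set G)) f y) (TP : Subgroup G) (hTP : ∀ y : G, y ∈ TP ↔ y ∈ Subgroup.normalizer (P : Set G) ∧ Cfsg.StabilizesBlock (Subgroup.centralizer (P : Set G)) e y) : (∀ x ∈ TQ, ∃ y ∈ TP, ∃ c ∈ Subgroup.centralizer (Q : Set G), x = y * c) ∧ ((Subgroup.centralizer (Q : Set G)).subgroupOf TQ).index = ((TP ⊓ Subgroup.centralizer (Q : Set G)).subgroupOf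 (TP ⊓ Subgroup.normalizer (Q : Set G))).index := by
  classical
  have hPe := hmax.1.1
  have hfac : ∀ x ∈ TQ, ∃ y ∈ TP, ∃ c ∈ Subgroup.centralizer (Q : Set G), x = y * c := by
    intro x hx
    obtain ⟨y, hy, c, hc, hxy⟩ := Cfsg.Agent.Lib_helper3_AbPair.stab_factor hM B P e hmax hab Q f hf hle x
      ((hTQ x).mp hx).1 ((hTQ x).mp hx).2
    exact ⟨y, (hTP y).mpr hy, c, hc, hxy⟩
  refine ⟨hfac, ?_⟩
  exact Cfsg.Agent.Lib_helper3_AbPair.index_eq_of_factor TQ TP (Subgroup.normalizer (Q : Set G))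
    (Subgroup.centralizer (Q : Set G))
    (Cfsg.Agent.Lib_helper3_FirstMain.centralizer_le_normalizer' Q)
    (fun g hg => Cfsg.Agent.Lib_helper3_NilPrincipal.mem_normalizer_centralizer Q hg)
    (fun y hy => (hTQ y).mpr ⟨hy.2, Cfsg.Agent.Lib_helper3_AbPair.stab_of_stab_above hM P e hPe Q f hle y
      ((hTP y).mp hy.1).1 ((hTP y).mp hy.1).2 hy.2⟩)
    (Cfsg.Agent.Lib_helper3_StabPair.stab_facts Q f TQ hTQ).2.1
    (Cfsg.Agent.Lib_helper3_StabPair.stab_facts Q f TQ hTQ).2.2.1 hfac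
end Cfsg.Agent.S4682
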