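import Cfsg.Statements.S4733
import Cfsg.Agent.Lib_helper3_DefectZero
import Cfsg.Agent.Lib_helper3_CharOdd
import Cfsg.Agent.S0907
import Cfsg.Agent.S0914

set_option autoImplicit false
open Cfsg

namespace Cfsg.Agent.S4733
open Cfsg.Agent.Lib_helper3_CharBasic Cfsg.Agent.Lib_helper3_CharMore
  Cfsg.Agent.Lib_helper3_Local Cfsg.Agent.Lib_helper3_Local2 Cfsg.Agent.Lib_helper3_BlockAlg
  Cfsg.Agent.Lib_helper3_DefectZero
open scoped ComplexConjugate


/-- Let p be a prime, M a maximal ideal of the algebraic integers containing p, and B a p-block of the finite group G with k irreducible characters and p-regular rank l (the number of irreducible Brauer characters). Then l ≤ k, and the following are equivalent: B has defect 0; k = l = 1; k = l. -/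
theorem result {G : Type*} [Group G] [Finite G] (p : ℕ) [Fact p.Prime] (M : Ideal Cfsg.AlgInt) (hM : Cfsg.IsPModular p M) (B : Set (Cfsg.IrrCharacter G)) (hB : Cfsg.IsPBlock M B) : Cfsg.blockRank p B ≤ Nat.card B ∧ (Cfsg.blockDefect p B = 0 ↔ (Nat.card B = 1 ∧ Cfsg.blockRank p B = 1)) ∧ (Cfsg.blockDefect p B = 0 ↔ Nat.card B = Cfsg.blockRank p B) := by
  classical
  let inst : Fintype G := Fintype.ofFinite G
  have hfin := irr_finite (G := G)
  let instB : Fintype B := Fintype.ofFinite _
  have hp : p.Prime := Fact.out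
  have hMp : M.IsPrime := isPrime_of_modular hM
  obtain ⟨χ₀, hχ₀⟩ := hB
  have hχ₀B : χ₀ ∈ B := by
    rw [hχ₀]
    exact mem_blockOf_self hMp.ne_top χ₀
  -- degrees
  have hdeg : ∀ χ : IrrCharacter G, charDegree (χ : G → ℂ) ∣ Nat.card G ∧
      0 < charDegree (χ : G → ℂ) := by
    intro χ
    obtain ⟨d, hd⟩ := isCharacter_apply_one (isCharacter_of_irr χ.2)
    have h1 : charDegree (χ : G → ℂ) = d := charDegree_eq hd
    rw [h1]
    refine ⟨Cfsg.Agent.Lib_helper3_CharOdd.irr_degree_dvd_card χ.2 hd, Nat.pos_of_ne_zero ?_⟩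
    intro h0
    rw [h0] at hd
    exact irr_apply_one_ne_zero χ.2 (by simpa using hd)
  -- p-defect zero in terms of valuations
  have hval : ∀ χ : IrrCharacter G, (¬ p ∣ Nat.card G / charDegree (χ : G → ℂ)) ↔
      (Nat.card G).factorization p ≤ (charDegree (χ : G → ℂ)).factorization p := by
    intro χ
    obtain ⟨⟨m, hm⟩, hpos⟩ := hdeg χ
    have hm0 : m ≠ 0 := by
      rintro rfl
      rw [mul_zero] at hm
      exact Nat.card_pos.ne' hm
    rw [hm, Nat.mul_div_cancel_left _ hpos, Nat.factorization_mul hpos.ne' hm0, Finsupp.add_apply]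
    constructor
    · intro h
      rw [Nat.factorization_eq_zero_of_not_dvd h]
      omega
    · intro h hdvd
      have h1 : 0 < m.factorization p := hp.factorization_pos_of_dvd hm0 hdvd
      omega
  obtain ⟨S, hS⟩ : ∃ S : Set ℕ, S =
      (fun χ : IrrCharacter G => (charDegree (χ : G → ℂ)).factorization p) '' B := ⟨_, rfl⟩
  have hSne : S.Nonempty := by
    rw [hS]
    exact ⟨_, χ₀, hχ₀B, rfl⟩
  have hdef : blockDefect p B = (Nat.card G).factorization p - sInf S := by
    rw [hS]
    rfl
  -- defect zero iff all members have defect zero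
  have hdz : blockDefect p B = 0 ↔ ∀ χ ∈ B, ¬ p ∣ Nat.card G / charDegree (χ : G → ℂ) := by
    rw [hdef, Nat.sub_eq_zero_iff_le]
    constructor
    · intro h χ hχ
      rw [hval]
      refine le_trans h (Nat.sInf_le ?_)
      rw [hS]
      exact ⟨χ, hχ, rfl⟩
    · intro h
      apply le_csInf hSne
      intro b hb
      rw [hS] at hb
      obtain ⟨χ, hχ, rfl⟩ := hb
      exact (hval χ).mp (h χ hχ)
  obtain ⟨f, hf⟩ : ∃ f : IrrCharacter G → G → ℂ,
      f = fun χ : IrrCharacter G => pRegularPart p (χ : G → ℂ) := ⟨_, rfl⟩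
  have hrank : blockRank p B = (Set.range (fun χ : B => f (χ : IrrCharacter G))).finrank ℂ := by
    unfold blockRank Set.finrank
    rw [hf, Set.image_eq_range]
  have hcardB : Nat.card B = Fintype.card B := Nat.card_eq_fintype_card
  have h1 : blockRank p B ≤ Nat.card B := by
    rw [hrank, hcardB]
    exact finrank_range_le_card _
  -- defect zero implies singleton
  have hsingle : blockDefect p B = 0 → Nat.card B = 1 ∧ blockRank p B = 1 := by
    intro h0
    have h2 := (hdz.mp h0) χ₀ hχ₀B
    have h3 := (Cfsg.Agent.S0914.result p M hM χ₀).mp h2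
    have hBs : B = {χ₀} := by rw [hχ₀, h3]
    constructor
    · rw [hBs]
      simp
    · unfold blockRank
      rw [hBs, Set.image_singleton]
      apply finrank_span_singleton
      intro hzero
      have h4 := congrFun hzero 1
      unfold pRegularPart at h4
      have h5 : IsPRegular p (1 : G) := by
        unfold IsPRegular
        rw [orderOf_one]
        exact hp.one_lt.ne' ∘ Nat.dvd_one.mp
      rw [if_pos h5] at h4
      exact irr_apply_one_ne_zero χ₀.2 h4
  -- equality implies defect zero
  have hconv : Nat.card B = blockRank p B → blockDefect p B = 0 := by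
    intro heq
    rw [hrank, hcardB] at heq
    have hli : LinearIndependent ℂ (fun χ : B => f (χ : IrrCharacter G)) :=
      linearIndependent_iff_card_eq_finrank_span.mpr heq
    rw [hdz]
    intro χ hχ
    apply not_dvd_of_vanish χ
    intro y hy
    have hsum : ∑ ψ : B, conj (((ψ : IrrCharacter G) : G → ℂ) y) • f (ψ : IrrCharacter G) = 0 := by
      funext x
      rw [Finset.sum_apply]
      simp only [Pi.smul_apply, smul_eq_mul, Pi.zero_apply]
      by_cases hx : p ∣ orderOf x
      · apply Finset.sum_eq_zero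
        intro ψ _
        rw [hf]
        show _ * pRegularPart p ((ψ : IrrCharacter G) : G → ℂ) x = 0
        unfold pRegularPart
        have h6 : ¬ IsPRegular p x := fun h => h hx
        rw [if_neg h6, mul_zero]
      · have h7 := Cfsg.Agent.S0907.result p M hM B ⟨χ₀, hχ₀⟩ x y hx hy
        rw [← finsum_set_coe_eq_finsum_mem, finsum_eq_sum_of_fintype] at h7
        rw [← h7]
        apply Finset.sum_congr rfl
        intro ψ _
        rw [hf]
        show _ * pRegularPart p ((ψ : IrrCharacter G) : G → ℂ) x = _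
        unfold pRegularPart
        have h6 : IsPRegular p x := hx
        rw [if_pos h6, mul_comm]
    have h8 := (Fintype.linearIndependent_iff.mp hli) _ hsum ⟨χ, hχ⟩
    exact (map_eq_zero _).mp h8
  refine ⟨h1, ⟨hsingle, ?_⟩, ⟨?_, hconv⟩⟩
  · rintro ⟨h2, h3⟩
    exact hconv (by rw [h2, h3])
  · intro h0
    obtain ⟨h2, h3⟩ := hsingle h0
    rw [h2, h3]
end Cfsg.Agent.S4733
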