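import Cfsg.Statements.S5014
import Cfsg.Agent.Lib_helper9_RankOne

set_option autoImplicit false
open Cfsg

namespace Cfsg.Agent.S5014

open Cfsg.Agent.Lib_helper9_RankOne

/-- Let X = ⟨A, B⟩ be a rank one group with unipotent subgroups A and B and let Ω be the set of conjugates of A under X. Then Ω has at least three members, X acts doubly transitively on Ω by conjugation (any two ordered pairs of distinct members are carried to one another by a single element of X), and A acts regularly on Ω with A removed: for C, D in Ω different from A there is exactly one element of A conjugating C to D. -/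
theorem result {G : Type*} [Group G] {A B : Subgroup G} (h : Cfsg.IsRankOnePair A B) :
    (∃ C₁ ∈ Cfsg.unipotentSubgroups A B, ∃ C₂ ∈ Cfsg.unipotentSubgroups A B, ∃ C₃ ∈ Cfsg.unipotentSubgroups A B,
      C₁ ≠ C₂ ∧ C₁ ≠ C₃ ∧ C₂ ≠ C₃) ∧
    (∀ C₁ ∈ Cfsg.unipotentSubgroups A B, ∀ C₂ ∈ Cfsg.unipotentSubgroups A B, ∀ D₁ ∈ Cfsg.unipotentSubgroups A B,
      ∀ D₂ ∈ Cfsg.unipotentSubgroups A B, C₁ ≠ C₂ → D₁ ≠ D₂ →
        ∃ x ∈ A ⊔ B, Cfsg.conjBy C₁ x = D₁ ∧ Cfsg.conjBy C₂ x = D₂) ∧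
    (∀ C ∈ Cfsg.unipotentSubgroups A B, ∀ D ∈ Cfsg.unipotentSubgroups A B, C ≠ A → D ≠ A →
      ∃! a : G, a ∈ A ∧ Cfsg.conjBy C a = D) := by
  refine ⟨?_, ?_, ?_⟩
  · obtain ⟨a, haA, ha1⟩ := exists_ne_one_left h
    have hB := right_mem_unipotent h
    refine ⟨A, left_mem_unipotent A B, B, hB, conjBy B a,
      conjBy_mem_unipotent hB (Subgroup.mem_sup_left haA), h.ne, ?_, ?_⟩
    · intro h1
      have h2 := conjBy_eq_iff.mp h1.symm
      rw [conjBy_of_mem (A.inv_mem haA)] at h2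
      exact h.ne h2.symm
    · intro h1
      have h2 : a ∈ A ⊓ Subgroup.normalizer (B : Set G) :=
        ⟨haA, mem_normalizer_iff_conjBy.mpr h1.symm⟩
      rw [inf_normalizer_left h, Subgroup.mem_bot] at h2
      exact ha1 h2
  · intro C₁ hC₁ C₂ hC₂ D₁ hD₁ D₂ hD₂ hC hD
    obtain ⟨x, hx, hx1, hx2⟩ := exists_conj_to_pair h hC₁ hC₂ hC
    obtain ⟨y, hy, hy1, hy2⟩ := exists_conj_to_pair h hD₁ hD₂ hD
    refine ⟨y⁻¹ * x, Subgroup.mul_mem _ (Subgroup.inv_mem _ hy) hx, ?_, ?_⟩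
    · rw [← conjBy_conjBy, hx1]
      exact (conjBy_eq_iff.mp hy1).symm
    · rw [← conjBy_conjBy, hx2]
      exact (conjBy_eq_iff.mp hy2).symm
  · intro C hC D hD hCA hDA
    rcases unipotent_cases h hC with h1 | ⟨a₁, ha₁, rfl⟩
    · exact absurd h1 hCA
    rcases unipotent_cases h hD with h1 | ⟨a₂, ha₂, rfl⟩
    · exact absurd h1 hDA
    refine ⟨a₂ * a₁⁻¹, ⟨A.mul_mem ha₂ (A.inv_mem ha₁), ?_⟩, ?_⟩
    · rw [conjBy_conjBy]; simp
    · rintro a' ⟨ha', h2⟩
      rw [conjBy_conjBy] at h2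
      have h3 : conjBy B (a₂⁻¹ * (a' * a₁)) = B := by
        rw [← conjBy_conjBy, h2, conjBy_conjBy]; simp [conjBy_one]
      have h4 : a₂⁻¹ * (a' * a₁) ∈ A ⊓ Subgroup.normalizer (B : Set G) :=
        ⟨A.mul_mem (A.inv_mem ha₂) (A.mul_mem ha' ha₁), mem_normalizer_iff_conjBy.mpr h3⟩
      rw [inf_normalizer_left h, Subgroup.mem_bot] at h4
      have h5 : a' * a₁ = a₂ := by
        have := congrArg (fun t => a₂ * t) h4
        simpa using this
      rw [← h5]; group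

end Cfsg.Agent.S5014
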