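import Cfsg.Statements.S5017
import Cfsg.Agent.Lib_helper9_RankOne

set_option autoImplicit false
open Cfsg

namespace Cfsg.Agent.S5017

open Cfsg.Agent.Lib_helper9_RankOne

/-- Let X be a rank one group with unipotent subgroups A and B and N a normal subgroup of X. Then either X = N A or N lies in the centre of X. Consequently a perfect rank one group is quasisimple. -/
theorem result {X : Type*} [Group X] {A B : Subgroup X} (h : Cfsg.IsRankOneGroup X A B) :
    (∀ N : Subgroup X, N.Normal → N ⊔ A = ⊤ ∨ N ≤ Subgroup.center X) ∧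
    (Group.IsPerfect X → Cfsg.IsQuasisimple X) := by
  obtain ⟨hAB, hp⟩ := h
  refine ⟨fun N hN => normal_dichotomy hAB hp N hN, ?_⟩
  intro hperf
  refine ⟨hperf, ?_⟩
  have hnt : Nontrivial (X ⧸ Subgroup.center X) := by
    by_contra hcon
    rw [not_nontrivial_iff_subsingleton] at hcon
    exact center_ne_top hp (QuotientGroup.subgroup_eq_top_of_subsingleton _ hcon)
  refine { exists_pair_ne := hnt.exists_pair_ne, eq_bot_or_eq_top_of_normal := ?_ }
  intro M hM
  let N : Subgroup X := M.comap (QuotientGroup.mk' (Subgroup.center X))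
  have hNn : N.Normal := hM.comap _
  have hmap : N.map (QuotientGroup.mk' (Subgroup.center X)) = M :=
    Subgroup.map_comap_eq_self_of_surjective (QuotientGroup.mk'_surjective _) M
  rcases normal_dichotomy hAB hp N hNn with h1 | h1
  · right
    have hq : Subsingleton (X ⧸ N) := by
      by_contra hcon
      rw [not_subsingleton_iff_nontrivial] at hcon
      have hnil : Group.IsNilpotent A := hp.nilpotent_left
      have hsurj : Function.Surjective ((QuotientGroup.mk' N).comp A.subtype) := by
        intro q
        obtain ⟨x, rfl⟩ := QuotientGroup.mk'_surjective N q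
        have hx : x ∈ ((N ⊔ A : Subgroup X) : Set X) := by rw [h1]; trivial
        rw [Subgroup.normal_mul] at hx
        obtain ⟨n, hn, a, ha, rfl⟩ := Set.mem_mul.mp hx
        refine ⟨⟨a, ha⟩, ?_⟩
        show (QuotientGroup.mk' N) a = (QuotientGroup.mk' N) (n * a)
        have hn1 : (QuotientGroup.mk' N) n = 1 := (QuotientGroup.eq_one_iff n).mpr hn
        rw [map_mul, hn1, one_mul]
      have hnilq : Group.IsNilpotent (X ⧸ N) := Group.nilpotent_of_surjective _ hsurj
      exact Group.IsPerfect.not_isNilpotent (X ⧸ N) hnilq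
    have hN : N = ⊤ := QuotientGroup.subgroup_eq_top_of_subsingleton _ hq
    rw [← hmap, hN, ← MonoidHom.range_eq_map, MonoidHom.range_eq_top]
    exact QuotientGroup.mk'_surjective _
  · left
    rw [← hmap, eq_bot_iff]
    rintro _ ⟨x, hx, rfl⟩
    rw [Subgroup.mem_bot]
    exact (QuotientGroup.eq_one_iff x).mpr (h1 hx)

end Cfsg.Agent.S5017
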