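import Cfsg.Statements.S5018
import Cfsg.Agent.Lib_helper9_RankOne

set_option autoImplicit false
open Cfsg

namespace Cfsg.Agent.S5018

open Cfsg.Agent.Lib_helper9_RankOne
open scoped commutatorElement

/-- A rank one group is not nilpotent, and its second centre equals its centre. -/
theorem result {X : Type*} [Group X] {A B : Subgroup X} (h : Cfsg.IsRankOneGroup X A B) :
    Subgroup.upperCentralSeries X 2 = Subgroup.center X ∧ ¬ Group.IsNilpotent X := by
  obtain ⟨hAB, hp⟩ := h
  have hZ2 : Subgroup.upperCentralSeries X 2 = Subgroup.center X := by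
    apply le_antisymm
    · rcases normal_dichotomy hAB hp (Subgroup.upperCentralSeries X 2) inferInstance with h1 | h1
      · exfalso
        -- every conjugate of A lies in Z ⊔ A
        have hconj : ∀ x : X, conjBy A x ≤ Subgroup.center X ⊔ A := by
          intro x
          have hx : x ∈ ((Subgroup.upperCentralSeries X 2 ⊔ A : Subgroup X) : Set X) := by
            rw [h1]; trivial
          rw [Subgroup.normal_mul] at hx
          obtain ⟨z, hz, a, ha, rfl⟩ := Set.mem_mul.mp hx
          rw [SetLike.mem_coe] at hz ha
          intro y hy
          rw [mem_conjBy] at hy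
          -- y = (z a) c (z a)⁻¹ with c ∈ A
          set c := (z * a)⁻¹ * y * (z * a) with hc
          have hy' : y = ⁅z, a * c * a⁻¹⁆ * (a * c * a⁻¹) := by
            rw [hc, commutatorElement_def]; group
          rw [hy']
          have hz' : ⁅z, a * c * a⁻¹⁆ ∈ Subgroup.center X := by
            have := Subgroup.mem_upperCentralSeries_succ_iff.mp hz (a * c * a⁻¹)
            rwa [Subgroup.upperCentralSeries_one] at this
          exact Subgroup.mul_mem _ (Subgroup.mem_sup_left hz')
            (Subgroup.mem_sup_right (A.mul_mem (A.mul_mem ha hy) (A.inv_mem ha)))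
        obtain ⟨x₀, -, hx₀⟩ := right_eq_conjBy hp
        have hB : B ≤ Subgroup.center X ⊔ A := hx₀ ▸ hconj x₀
        have htop : Subgroup.center X ⊔ A = ⊤ := by
          rw [eq_top_iff, ← hAB]
          exact sup_le le_sup_right hB
        -- then every element normalizes A
        apply ne_bot_right hp
        rw [← inf_normalizer_right hp]
        refine (inf_eq_left.mpr ?_).symm
        intro b _
        rw [Subgroup.mem_normalizer_iff]
        have key : ∀ g : X, ∀ c ∈ A, g * c * g⁻¹ ∈ A := by
          intro g c hcA
          have hg : g ∈ ((Subgroup.center X ⊔ A : Subgroup X) : Set X) := by rw [htop]; trivial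
          rw [Subgroup.normal_mul] at hg
          obtain ⟨z, hz, a, ha, rfl⟩ := Set.mem_mul.mp hg
          rw [SetLike.mem_coe, Subgroup.mem_center_iff] at hz
          have : z * a * c * (z * a)⁻¹ = a * c * a⁻¹ := by
            have h2 := hz (a * c * a⁻¹)
            calc z * a * c * (z * a)⁻¹ = z * (a * c * a⁻¹) * z⁻¹ := by group
              _ = (a * c * a⁻¹) * z * z⁻¹ := by rw [h2]
              _ = a * c * a⁻¹ := by group
          rw [this]
          exact A.mul_mem (A.mul_mem ha hcA) (A.inv_mem ha)
        intro c
        refine ⟨fun hcA => key b c hcA, fun hcA => ?_⟩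
        have := key b⁻¹ _ hcA
        have h3 : b⁻¹ * (b * c * b⁻¹) * b⁻¹⁻¹ = c := by group
        rwa [h3] at this
      · exact h1
    · rw [← Subgroup.upperCentralSeries_one]
      exact Subgroup.upperCentralSeries_mono X (by norm_num)
  refine ⟨hZ2, ?_⟩
  intro hnil
  obtain ⟨n, hn⟩ := hnil.nilpotent'
  have hall : ∀ k : ℕ, Subgroup.upperCentralSeries X (k + 1) = Subgroup.center X := by
    intro k
    induction k with
    | zero => exact Subgroup.upperCentralSeries_one (G := X)
    | succ k ih =>
      ext x
      rw [Subgroup.mem_upperCentralSeries_succ_iff, ← hZ2, Subgroup.mem_upperCentralSeries_succ_iff]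
      constructor
      · intro hx y
        have := hx y
        rwa [ih, ← Subgroup.upperCentralSeries_one] at this
      · intro hx y
        have := hx y
        rwa [Subgroup.upperCentralSeries_one, ← ih] at this
  apply center_ne_top hp
  cases n with
  | zero =>
    rw [Subgroup.upperCentralSeries_zero] at hn
    rw [eq_top_iff, ← hn]
    exact bot_le
  | succ n => rw [← hall n, hn]

end Cfsg.Agent.S5018
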