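import Cfsg.Statements.S5025
import Cfsg.Agent.Lib_helper9_RootSub

set_option autoImplicit false
open Cfsg

namespace Cfsg.Agent.S5025

open Cfsg.Agent.Lib_helper9_RankOne Cfsg.Agent.Lib_helper9_RootSub
open scoped commutatorElement

/-- Let S be a set of abstract root subgroups of G, A ∈ S and B a rank one partner of A in S. If z ≠ 1 centralizes ⟨A, B⟩, then no product z a with a a non-identity element of A is a non-identity element of a member of S. -/
theorem result {G : Type*} [Group G] {S : Set (Subgroup G)} (hS : Cfsg.IsRootSubgroupSet S)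
    {A B : Subgroup G} (hA : A ∈ S) (hB : B ∈ Cfsg.rankOnePartners S A) {z : G}
    (hz : z ∈ Subgroup.centralizer ((A ⊔ B : Subgroup G) : Set G)) (hz1 : z ≠ 1) :
    ∀ a ∈ A, a ≠ 1 → z * a ∉ Cfsg.rootElements S := by
  intro a haA ha1 hmem
  obtain ⟨hza1, C, hC, hzaC⟩ := hmem
  obtain ⟨hBS, hp⟩ := hB
  have hzX : ∀ x ∈ A ⊔ B, z * x = x * z := by
    intro x hx
    exact ((Subgroup.mem_centralizer_iff.mp hz) x hx).symm
  have hzA : ∀ x ∈ A, z * x = x * z := fun x hx => hzX x (Subgroup.mem_sup_left hx)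
  have hzB : ∀ x ∈ B, z * x = x * z := fun x hx => hzX x (Subgroup.mem_sup_right hx)
  have hzinvB : z⁻¹ ∈ Subgroup.normalizer (B : Set G) :=
    Subgroup.inv_mem _ (mem_normalizer_of_comm hzB)
  rcases hS.pair C hC B hBS with h1 | h1 | h1
  · have haN : a ∈ A ⊓ Subgroup.normalizer (B : Set G) := by
      refine ⟨haA, mem_normalizer_of_comm (fun b hb => ?_)⟩
      have h2 := comm_of_commutator_eq_bot h1 hzaC hb
      have h3 : z * (a * b) = z * (b * a) := by
        rw [← mul_assoc, h2, ← mul_assoc, ← hzB b hb, mul_assoc]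
      exact mul_left_cancel h3
    rw [inf_normalizer_left hp, Subgroup.mem_bot] at haN
    exact ha1 haN
  · obtain ⟨b', hb', -, e1⟩ := h1.cond_left (z * a) hzaC hza1
    obtain ⟨b, hb, -, e2⟩ := hp.cond_left a haA ha1
    have e3 : conjBy B (z * a)⁻¹ = conjBy B a⁻¹ := by
      rw [mul_inv_rev, ← conjBy_conjBy, mem_normalizer_iff_conjBy.mp hzinvB]
    have e4 : C = conjBy A (b' * b⁻¹) := by
      have := conjBy_eq_iff.mp (e1.trans (e3.trans e2.symm))
      rw [this, conjBy_conjBy, inv_inv]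
    have hβB : b' * b⁻¹ ∈ B := B.mul_mem hb' (B.inv_mem hb)
    have h5 : (b' * b⁻¹)⁻¹ * (z * a) * (b' * b⁻¹) ∈ A := by
      rw [e4] at hzaC; exact mem_conjBy.mp hzaC
    have hzβ := hzB _ hβB
    have h6 : (b' * b⁻¹)⁻¹ * a * (b' * b⁻¹) ∈ Subgroup.normalizer (A : Set G) := by
      apply mem_normalizer_of_comm
      intro x hx
      have h7 : (b' * b⁻¹)⁻¹ * a * (b' * b⁻¹) = z⁻¹ * ((b' * b⁻¹)⁻¹ * (z * a) * (b' * b⁻¹)) := by
        have h8 : (b' * b⁻¹)⁻¹ * (z * a) * (b' * b⁻¹) = z * ((b' * b⁻¹)⁻¹ * a * (b' * b⁻¹)) := by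
          have h9 : (b' * b⁻¹)⁻¹ * z = z * (b' * b⁻¹)⁻¹ := by
            exact (hzB _ (B.inv_mem hβB)).symm
          calc (b' * b⁻¹)⁻¹ * (z * a) * (b' * b⁻¹) = ((b' * b⁻¹)⁻¹ * z) * a * (b' * b⁻¹) := by group
            _ = (z * (b' * b⁻¹)⁻¹) * a * (b' * b⁻¹) := by rw [h9]
            _ = z * ((b' * b⁻¹)⁻¹ * a * (b' * b⁻¹)) := by group
        rw [h8]; group
      have hzx : z⁻¹ * x = x * z⁻¹ := by
        have := congrArg (fun t => z⁻¹ * t * z⁻¹) (hzA x hx)
        simp only [mul_assoc, inv_mul_cancel_left, mul_inv_cancel, mul_one] at this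
        exact this.symm
      rw [h7]
      calc z⁻¹ * ((b' * b⁻¹)⁻¹ * (z * a) * (b' * b⁻¹)) * x
          = z⁻¹ * (x * ((b' * b⁻¹)⁻¹ * (z * a) * (b' * b⁻¹))) := by
            rw [mul_assoc, comm_of_mem (hS.commutative A hA) h5 hx]
        _ = x * z⁻¹ * ((b' * b⁻¹)⁻¹ * (z * a) * (b' * b⁻¹)) := by rw [← mul_assoc, hzx]
        _ = x * (z⁻¹ * ((b' * b⁻¹)⁻¹ * (z * a) * (b' * b⁻¹))) := by rw [mul_assoc]
    by_cases hβ1 : b' * b⁻¹ = 1
    · rw [hβ1] at h5
      have hzA' : z ∈ A := by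
        have h7 := A.mul_mem h5 (A.inv_mem haA)
        have h8 : (1 : G)⁻¹ * (z * a) * 1 * a⁻¹ = z := by group
        rw [h8] at h7; exact h7
      have hzN : z ∈ A ⊓ Subgroup.normalizer (B : Set G) := ⟨hzA', mem_normalizer_of_comm hzB⟩
      rw [inf_normalizer_left hp, Subgroup.mem_bot] at hzN
      exact hz1 hzN
    · have hβinv : (b' * b⁻¹)⁻¹ ∈ B := B.inv_mem hβB
      have hmem : conjBy A (b' * b⁻¹)⁻¹ ∈ unipotentSubgroups A B :=
        ⟨(b' * b⁻¹)⁻¹, Subgroup.mem_sup_right hβinv, rfl⟩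
      have hne : conjBy A (b' * b⁻¹)⁻¹ ≠ A := by
        intro hcon
        have h7 : (b' * b⁻¹)⁻¹ ∈ B ⊓ Subgroup.normalizer (A : Set G) :=
          ⟨hβinv, mem_normalizer_iff_conjBy.mpr hcon⟩
        rw [inf_normalizer_right hp, Subgroup.mem_bot] at h7
        exact hβ1 (inv_eq_one.mp h7)
      rcases unipotent_cases hp hmem with h7 | ⟨a'', ha'', h7⟩
      · exact hne h7
      · have h8 : (b' * b⁻¹)⁻¹ * a * (b' * b⁻¹) ∈ conjBy B a'' := by
          rw [← h7, mem_conjBy]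
          have h0 : (b' * b⁻¹)⁻¹⁻¹ * ((b' * b⁻¹)⁻¹ * a * (b' * b⁻¹)) * (b' * b⁻¹)⁻¹ = a := by group
          rw [h0]; exact haA
        rw [mem_conjBy] at h8
        have ha''N : a'' ∈ Subgroup.normalizer (A : Set G) := Subgroup.le_normalizer ha''
        have h9 := Subgroup.mul_mem _ (Subgroup.mul_mem _ (Subgroup.inv_mem _ ha''N) h6) ha''N
        have h10 : a''⁻¹ * ((b' * b⁻¹)⁻¹ * a * (b' * b⁻¹)) * a'' ∈
            B ⊓ Subgroup.normalizer (A : Set G) := ⟨h8, h9⟩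
        rw [inf_normalizer_right hp, Subgroup.mem_bot] at h10
        apply ha1
        have h11 : a = (b' * b⁻¹) * a'' * (a''⁻¹ * ((b' * b⁻¹)⁻¹ * a * (b' * b⁻¹)) * a'') *
            a''⁻¹ * (b' * b⁻¹)⁻¹ := by group
        rw [h11, h10]; group
  · obtain ⟨-, hcent, -, -⟩ := h1
    have hle : conjBy B a ≤ Subgroup.normalizer (B : Set G) := by
      intro y hy
      rw [mem_conjBy] at hy
      apply mem_normalizer_of_comm
      intro w hw
      have hzy : z * y = y * z := by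
        have h0 : y = a * (a⁻¹ * y * a) * a⁻¹ := by group
        rw [h0]
        exact hzX _ (Subgroup.mul_mem _ (Subgroup.mul_mem _ (Subgroup.mem_sup_left haA)
          (Subgroup.mem_sup_right hy)) (Subgroup.inv_mem _ (Subgroup.mem_sup_left haA)))
      have hy' : y = ⁅z * a, a⁻¹ * y * a⁆ * (a⁻¹ * y * a) := by
        rw [commutatorElement_def]
        calc y = z * y * z⁻¹ := by rw [hzy]; group
          _ = z * a * (a⁻¹ * y * a) * (z * a)⁻¹ * (a⁻¹ * y * a)⁻¹ * (a⁻¹ * y * a) := by group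
      have hcb : ⁅z * a, a⁻¹ * y * a⁆ ∈ ⁅C, B⁆ := Subgroup.commutator_mem_commutator hzaC hy
      have h10 := hcent _ hcb w (Subgroup.mem_sup_right hw)
      rw [hy']
      calc ⁅z * a, a⁻¹ * y * a⁆ * (a⁻¹ * y * a) * w = ⁅z * a, a⁻¹ * y * a⁆ * (w * (a⁻¹ * y * a)) := by
            rw [mul_assoc, comm_of_mem (hS.commutative B hBS) hy hw]
        _ = w * ⁅z * a, a⁻¹ * y * a⁆ * (a⁻¹ * y * a) := by rw [← mul_assoc, h10]
        _ = w * (⁅z * a, a⁻¹ * y * a⁆ * (a⁻¹ * y * a)) := by rw [mul_assoc]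
    exact ha1 (eq_one_of_conjBy_le_normalizer (RankOnePair_symm hp) haA hle)

end Cfsg.Agent.S5025
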