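import Cfsg.Statements.S5027
import Cfsg.Agent.Lib_helper9_RootSub

set_option autoImplicit false
open Cfsg

namespace Cfsg.Agent.S5027

open Cfsg.Agent.Lib_helper9_RankOne Cfsg.Agent.Lib_helper9_RootSub

/-- Let S be a set of abstract root subgroups of G such that every member of S has a rank one partner in S (the graph of rank one pairs on S has no isolated vertex). Then the second centre of G equals its centre. -/
theorem result {G : Type*} [Group G] {S : Set (Subgroup G)} (hS : Cfsg.IsRootSubgroupSet S)
    (hF : ∀ A ∈ S, ¬ Cfsg.IsIsolatedIn (Cfsg.FAdj S) S A) : Subgroup.upperCentralSeries G 2 = Subgroup.center G := by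
  apply le_antisymm
  · intro z hz
    have hcent : ∀ A ∈ S, A ≤ Subgroup.centralizer ({z} : Set G) := by
      intro A hA a ha
      obtain ⟨B, hB, hp⟩ := exists_partner_of_not_isolated hA (hF A hA)
      rw [Subgroup.mem_centralizer_iff]
      intro m hm
      rw [Set.mem_singleton_iff] at hm
      subst hm
      exact second_centre_comm hS hA hB hp hz a ha
    have htop : (⊤ : Subgroup G) ≤ Subgroup.centralizer ({z} : Set G) := by
      rw [← hS.generates]
      exact iSup₂_le hcent
    rw [Subgroup.mem_center_iff]
    intro g
    have hg := htop (Subgroup.mem_top g)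
    rw [Subgroup.mem_centralizer_iff] at hg
    exact (hg z rfl).symm
  · rw [← Subgroup.upperCentralSeries_one]
    exact Subgroup.upperCentralSeries_mono G (by norm_num)

end Cfsg.Agent.S5027
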