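import Cfsg.Statements.S5028
import Cfsg.Agent.Lib_helper9_RootSub

set_option autoImplicit false
open Cfsg

namespace Cfsg.Agent.S5028

open Cfsg.Agent.Lib_helper9_RankOne Cfsg.Agent.Lib_helper9_RootSub
open scoped commutatorElement

/-- Let S be a set of abstract root subgroups of G and A a member of S having a rank one partner in S. Then A meets every other member of S trivially. -/
theorem result {G : Type*} [Group G] {S : Set (Subgroup G)} (hS : Cfsg.IsRootSubgroupSet S)
    {A : Subgroup G} (hA : ¬ Cfsg.IsIsolatedIn (Cfsg.FAdj S) S A) (hAS : A ∈ S) : ∀ B ∈ S, A ⊓ B = ⊥ ∨ A = B := by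
  intro B hB
  by_cases hAB : A = B
  · right; exact hAB
  left
  obtain ⟨B₀, hB₀, hp₀⟩ := exists_partner_of_not_isolated hAS hA
  rw [eq_bot_iff]
  rintro x ⟨hxA, hxB⟩
  rw [Subgroup.mem_bot]
  by_contra hx1
  rcases hS.pair A hAS B hB with h1 | h1 | h1
  · rcases hS.pair B hB B₀ hB₀ with h2 | h2 | h2
    · have hxN : x ∈ A ⊓ Subgroup.normalizer (B₀ : Set G) :=
        ⟨hxA, mem_normalizer_of_comm (fun b hb => comm_of_commutator_eq_bot h2 hxB hb)⟩
      rw [inf_normalizer_left hp₀, Subgroup.mem_bot] at hxN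
      exact hx1 hxN
    · obtain ⟨b₀, hb₀, -, e1⟩ := h2.cond_left x hxB hx1
      obtain ⟨b₀', hb₀', -, e2⟩ := hp₀.cond_left x hxA hx1
      have e3 : B = conjBy A (b₀ * b₀'⁻¹) := by
        have := conjBy_eq_iff.mp (e1.trans e2.symm)
        rw [this, conjBy_conjBy, inv_inv]
      have hle : conjBy A (b₀ * b₀'⁻¹) ≤ Subgroup.normalizer (A : Set G) := by
        rw [← e3]
        intro y hy
        exact mem_normalizer_of_comm (fun a ha => (comm_of_commutator_eq_bot h1 ha hy).symm)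
      have h5 := eq_one_of_conjBy_le_normalizer hp₀ (B₀.mul_mem hb₀ (B₀.inv_mem hb₀')) hle
      rw [h5, conjBy_one] at e3
      exact hAB e3.symm
    · obtain ⟨-, hcent, -, -⟩ := h2
      have hle : conjBy B₀ x ≤ Subgroup.normalizer (B₀ : Set G) := by
        intro y hy
        rw [mem_conjBy] at hy
        apply mem_normalizer_of_comm
        intro w hw
        have hy' : y = ⁅x, x⁻¹ * y * x⁆ * (x⁻¹ * y * x) := by
          rw [commutatorElement_def]; group
        have hcb : ⁅x, x⁻¹ * y * x⁆ ∈ ⁅B, B₀⁆ := Subgroup.commutator_mem_commutator hxB hy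
        have h10 := hcent _ hcb w (Subgroup.mem_sup_right hw)
        rw [hy']
        calc ⁅x, x⁻¹ * y * x⁆ * (x⁻¹ * y * x) * w = ⁅x, x⁻¹ * y * x⁆ * (w * (x⁻¹ * y * x)) := by
              rw [mul_assoc, comm_of_mem (hS.commutative B₀ hB₀) hy hw]
          _ = w * ⁅x, x⁻¹ * y * x⁆ * (x⁻¹ * y * x) := by rw [← mul_assoc, h10]
          _ = w * (⁅x, x⁻¹ * y * x⁆ * (x⁻¹ * y * x)) := by rw [mul_assoc]
      exact hx1 (eq_one_of_conjBy_le_normalizer (RankOnePair_symm hp₀) hxA hle)
  · have hxN : x ∈ A ⊓ Subgroup.normalizer (B : Set G) := ⟨hxA, Subgroup.le_normalizer hxB⟩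
    rw [inf_normalizer_left h1, Subgroup.mem_bot] at hxN
    exact hx1 hxN
  · obtain ⟨hmem, -, hgen, -⟩ := h1
    have h2 := hgen x hxA hx1
    have hbot : Subgroup.closure ((fun b : G => x * b * x⁻¹ * b⁻¹) '' (B : Set G)) = ⊥ := by
      rw [Subgroup.closure_eq_bot_iff]
      rintro _ ⟨b, hb, rfl⟩
      rw [Set.mem_singleton_iff]
      have h3 := comm_of_mem (hS.commutative B hB) hxB hb
      calc x * b * x⁻¹ * b⁻¹ = b * x * x⁻¹ * b⁻¹ := by rw [h3]
        _ = 1 := by group
    rw [hbot] at h2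
    exact hS.ne_bot _ hmem h2.symm

end Cfsg.Agent.S5028
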