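import Cfsg.Statements.S5049
import Cfsg.Agent.Lib_helper9_OddTransp

set_option autoImplicit false
open Cfsg

namespace Cfsg.Agent.S5049

/-- Let G be a finite group generated by a set D of odd transpositions (root involutions with no product of order 4), Q = O₂(G), and for a ∈ D let Q_a be the commutator subgroup of Q with a. Then every member of D commuting with a centralizes Q_a; and for b ∈ D with ab of odd order greater than 1, the centralizer of ab in Q is the intersection of the centralizers of a and b in Q. -/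
theorem result {G : Type*} [Group G] [Finite G] {D : Set G} (hD : Cfsg.IsOddTranspositionSet D) {a : G} (ha : a ∈ D) :
    (∀ e ∈ Cfsg.commutingMembers D a, ∀ q ∈ ⁅Cfsg.pCore 2 G, Subgroup.zpowers a⁆, e * q = q * e) ∧
    (∀ b ∈ Cfsg.oddPartners D a,
      Cfsg.pCore 2 G ⊓ Subgroup.centralizer {a * b} = Cfsg.pCore 2 G ⊓ Subgroup.centralizer {a} ⊓ Subgroup.centralizer {b}) := by
    haveI : Fact (Nat.Prime 2) := ⟨Nat.prime_two⟩
    exact ⟨Cfsg.Agent.Lib_helper9_OddTransp.part_one hD (Cfsg.Agent.Lib_helper7_PCore.pCore_normal 2)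
        (Cfsg.Agent.Lib_helper7_PCore.pCore_isPGroup 2) ha,
      Cfsg.Agent.Lib_helper9_OddTransp.part_two hD (Cfsg.Agent.Lib_helper7_PCore.pCore_normal 2)
        (Cfsg.Agent.Lib_helper7_PCore.pCore_isPGroup 2) ha⟩

end Cfsg.Agent.S5049
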