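import Cfsg.Statements.S5078
import Cfsg.Agent.Lib_helper9_Fusion

set_option autoImplicit false
open Cfsg

namespace Cfsg.Agent.S5078

open Cfsg Cfsg.FusionSystem Cfsg.Agent.Lib_helper9_Fusion

/-- In any fusion system over a finite subgroup S, a receptive subgroup is fully centralized. -/
theorem result {Ω : Type*} [Group Ω] {S : Subgroup Ω} [Finite S] (F : Cfsg.FusionSystem S) (P : Subgroup Ω) (hP : F.IsReceptive P) : F.IsFullyCentralized P := by
  obtain ⟨hPS, hrec⟩ := hP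
  refine ⟨hPS, ?_⟩
  rintro Q ⟨φ₀, hφ₀, rfl⟩
  obtain ⟨ψ₀, hψ₀, hinv, hrange⟩ := exists_inv F hφ₀
  obtain ⟨ψ, hψ, hagree⟩ := hrec _ ψ₀ hψ₀ hrange
  have hQext : φ₀.range ≤ extender S φ₀.range ψ₀ := le_extender F hψ₀
  have hCext : centralizerIn S φ₀.range ≤ extender S φ₀.range ψ₀ := centralizerIn_le_extender _ _ _
  have hinj := F.injective_of_mem hψ
  have hS := (F.le_of_mem hψ).2
  have hmaps : ∀ c : centralizerIn S φ₀.range, ψ ⟨c, hCext c.2⟩ ∈ centralizerIn S P := by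
    intro c
    refine ⟨hS _, Subgroup.mem_centralizer_iff.mpr ?_⟩
    intro x hx
    have hx' : x = ψ ⟨φ₀ ⟨x, hx⟩, hQext ⟨⟨x, hx⟩, rfl⟩⟩ := by
      rw [hagree (φ₀ ⟨x, hx⟩) ⟨⟨x, hx⟩, rfl⟩ (hQext ⟨⟨x, hx⟩, rfl⟩)]
      exact (hinv ⟨x, hx⟩).symm
    rw [hx', ← map_mul, ← map_mul]
    congr 1
    apply Subtype.ext
    exact (Subgroup.mem_centralizer_iff.mp c.2.2) _ ⟨⟨x, hx⟩, rfl⟩
  have : Finite (centralizerIn S P) :=
    Finite.of_injective (Subgroup.inclusion (inf_le_left : centralizerIn S P ≤ S))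
      (Subgroup.inclusion_injective _)
  apply Nat.card_le_card_of_injective
    (fun c : centralizerIn S φ₀.range => (⟨ψ ⟨c, hCext c.2⟩, hmaps c⟩ : centralizerIn S P))
  intro c d hcd
  have h1 := congrArg Subtype.val hcd
  have h2 := hinj h1
  have h3 := congrArg Subtype.val h2
  exact Subtype.ext h3

end Cfsg.Agent.S5078
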