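import Cfsg.Statements.S5085
import Cfsg.Agent.Lib_helper9_Fusion

set_option autoImplicit false
open Cfsg

namespace Cfsg.Agent.S5085

open Cfsg Cfsg.FusionSystem Cfsg.Agent.Lib_helper9_Fusion

/-- In any fusion system, a characteristic subgroup of a subgroup that is normal in the system is itself normal in the system. -/
theorem result {Ω : Type*} [Group Ω] {S : Subgroup Ω} (F : Cfsg.FusionSystem S) (Q U : Subgroup Ω) (hQ : F.IsNormal Q) (hUQ : U ≤ Q) (hU : (U.subgroupOf Q).Characteristic) : F.IsNormal U := by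
  obtain ⟨hQS, hQn⟩ := hQ
  refine ⟨hUQ.trans hQS, ?_⟩
  intro P φ hφ
  obtain ⟨ψ, hψ, hext, hmap⟩ := hQn P φ hφ
  have hinj := F.injective_of_mem hψ
  have hle : P ⊔ U ≤ P ⊔ Q := sup_le_sup_left hUQ P
  have hψQ : ∀ q : Q, ψ ⟨q, (le_sup_right : Q ≤ P ⊔ Q) q.2⟩ ∈ Q := by
    intro q
    have h1 : ψ ⟨q, (le_sup_right : Q ≤ P ⊔ Q) q.2⟩ ∈ (Q.subgroupOf (P ⊔ Q)).map ψ :=
      ⟨⟨q, (le_sup_right : Q ≤ P ⊔ Q) q.2⟩, Subgroup.mem_subgroupOf.mpr q.2, rfl⟩
    rw [hmap] at h1; exact h1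
  let α₀ : Q →* Q :=
    { toFun := fun q => ⟨ψ ⟨q, (le_sup_right : Q ≤ P ⊔ Q) q.2⟩, hψQ q⟩
      map_one' := by
        apply Subtype.ext
        exact map_one ψ
      map_mul' := by
        intro a b
        apply Subtype.ext
        exact map_mul ψ ⟨a, (le_sup_right : Q ≤ P ⊔ Q) a.2⟩ ⟨b, (le_sup_right : Q ≤ P ⊔ Q) b.2⟩ }
  have hα₀ : ∀ q : Q, ((α₀ q : Q) : Ω) = ψ ⟨q, (le_sup_right : Q ≤ P ⊔ Q) q.2⟩ := fun q => rfl
  have hbij : Function.Bijective α₀ := by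
    constructor
    · intro a b hab
      have h1 := congrArg Subtype.val hab
      rw [hα₀, hα₀] at h1
      have h2 := hinj h1
      have h3 := congrArg Subtype.val h2
      exact Subtype.ext h3
    · intro q
      have h1 : (q : Ω) ∈ (Q.subgroupOf (P ⊔ Q)).map ψ := by rw [hmap]; exact q.2
      obtain ⟨y, hy, hyq⟩ := h1
      refine ⟨⟨y, Subgroup.mem_subgroupOf.mp hy⟩, ?_⟩
      apply Subtype.ext
      rw [hα₀]
      exact hyq
  let α : Q ≃* Q := MulEquiv.ofBijective α₀ hbij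
  have hα : ∀ q : Q, ((α q : Q) : Ω) = ψ ⟨q, (le_sup_right : Q ≤ P ⊔ Q) q.2⟩ := fun q => rfl
  have hfix := hU.fixed α
  have hfix' := Subgroup.characteristic_iff_map_eq.mp hU α
  refine ⟨ψ.comp (Subgroup.inclusion hle), restrict_mem F hψ hle, ?_, ?_⟩
  · intro x
    rw [← hext x]
    rfl
  · ext u
    constructor
    · rintro ⟨y, hy, rfl⟩
      have hyU : (y : Ω) ∈ U := Subgroup.mem_subgroupOf.mp hy
      have h1 : (⟨y, hUQ hyU⟩ : Q) ∈ U.subgroupOf Q := Subgroup.mem_subgroupOf.mpr hyU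
      rw [← hfix] at h1
      have h2 : α ⟨y, hUQ hyU⟩ ∈ U.subgroupOf Q := h1
      have h3 := Subgroup.mem_subgroupOf.mp h2
      rw [hα] at h3
      exact h3
    · intro hu
      have h1 : (⟨u, hUQ hu⟩ : Q) ∈ U.subgroupOf Q := Subgroup.mem_subgroupOf.mpr hu
      rw [← hfix'] at h1
      obtain ⟨v, hv, hvu⟩ := h1
      have hvU : (v : Ω) ∈ U := Subgroup.mem_subgroupOf.mp hv
      refine ⟨⟨v, (le_sup_right : U ≤ P ⊔ U) hvU⟩, Subgroup.mem_subgroupOf.mpr hvU, ?_⟩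
      have h2 := congrArg Subtype.val hvu
      have h3 : ((α v : Q) : Ω) = u := h2
      rw [hα] at h3
      exact h3

end Cfsg.Agent.S5085
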