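import Cfsg.Statements.S5102
import Cfsg.Agent.Lib_helper9_GroupFusion
import Cfsg.Agent.Lib_helper9_FusionNC

set_option autoImplicit false
open Cfsg

namespace Cfsg.Agent.S5102

open Cfsg Cfsg.FusionSystem Cfsg.Agent.Lib_helper9_Fusion Cfsg.Agent.Lib_helper9_GroupFusion
open Cfsg.Agent.Lib_helper9_FusionNC

/-- A normal p-subgroup of a finite group G is normal in the fusion system of G on a Sylow p-subgroup. -/
theorem result {G : Type*} [Group G] [Finite G] (p : ℕ) [Fact p.Prime] (S : Sylow p G) (R : Subgroup G) [R.Normal] (hR : IsPGroup p R) : (Cfsg.groupFusionSystem (S : Subgroup G)).IsNormal R := by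
  have hRS : R ≤ (S : Subgroup G) := normal_le_sylow S R hR
  refine ⟨hRS, ?_⟩
  rintro P φ ⟨hP, hφS, g, hg⟩
  have hval : ∀ x : ↥(P ⊔ R), conjHom (P ⊔ R) g x ∈ (S : Subgroup G) := by
    apply map_sup_mem
    · intro x
      have h1 := hφS x
      rw [hg] at h1
      exact h1
    · intro x
      exact hRS (Subgroup.Normal.conj_mem (inferInstance : R.Normal) (x : G) x.2 g)
  refine ⟨conjHom (P ⊔ R) g, ⟨sup_le hP hRS, hval, g, fun x => rfl⟩, ?_, ?_⟩
  · intro x
    rw [hg]; rfl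
  · ext y
    rw [mem_map_subgroupOf]
    constructor
    · rintro ⟨r, hD, hr, rfl⟩
      exact Subgroup.Normal.conj_mem (inferInstance : R.Normal) r hr g
    · intro hy
      have h1 : g⁻¹ * y * g⁻¹⁻¹ ∈ R := Subgroup.Normal.conj_mem (inferInstance : R.Normal) y hy g⁻¹
      refine ⟨g⁻¹ * y * g⁻¹⁻¹, (le_sup_right : R ≤ P ⊔ R) h1, h1, ?_⟩
      show g * (g⁻¹ * y * g⁻¹⁻¹) * g⁻¹ = y
      group

end Cfsg.Agent.S5102
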