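import Cfsg.Statements.S5104
import Cfsg.Agent.Lib_helper9_Fusion

set_option autoImplicit false
open Cfsg

namespace Cfsg.Agent.S5104

open Cfsg Cfsg.FusionSystem Cfsg.Agent.Lib_helper9_Fusion

/-- In a saturated fusion system over a finite p-group S, a fully centralized subgroup U with C_S(U) ≤ U is centric. -/
theorem result {Ω : Type*} [Group Ω] {S : Subgroup Ω} [Finite S] (p : ℕ) [Fact p.Prime] (hS : IsPGroup p S) (F : Cfsg.FusionSystem S) (hF : F.IsSaturated p) (U : Subgroup Ω) (hU : F.IsFullyCentralized U) (hC : Cfsg.FusionSystem.centralizerIn S U ≤ U) : F.IsCentric U := by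
  obtain ⟨hUS, hfc⟩ := hU
  refine ⟨hUS, ?_⟩
  intro Q hQ
  have hcard := hfc Q hQ
  obtain ⟨φ, hφ, rfl⟩ := hQ
  have hinj := F.injective_of_mem hφ
  have hS' := (F.le_of_mem hφ).2
  have : Finite (centralizerIn S φ.range) :=
    Finite.of_injective (Subgroup.inclusion (inf_le_left : centralizerIn S φ.range ≤ S))
      (Subgroup.inclusion_injective _)
  have hmaps : ∀ z : centralizerIn S U, φ ⟨z, hC z.2⟩ ∈ φ.range ⊓ centralizerIn S φ.range := by
    intro z
    refine ⟨⟨_, rfl⟩, hS' _, Subgroup.mem_centralizer_iff.mpr ?_⟩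
    rintro _ ⟨u, rfl⟩
    rw [← map_mul, ← map_mul]
    congr 1
    apply Subtype.ext
    exact (Subgroup.mem_centralizer_iff.mp z.2.2) u u.2
  have h1 : Nat.card (centralizerIn S U) ≤ Nat.card ↥(φ.range ⊓ centralizerIn S φ.range) := by
    have : Finite ↥(φ.range ⊓ centralizerIn S φ.range) :=
      Finite.of_injective (Subgroup.inclusion
        (inf_le_right : φ.range ⊓ centralizerIn S φ.range ≤ centralizerIn S φ.range))
        (Subgroup.inclusion_injective _)
    apply Nat.card_le_card_of_injective (fun z : centralizerIn S U =>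
      (⟨φ ⟨z, hC z.2⟩, hmaps z⟩ : ↥(φ.range ⊓ centralizerIn S φ.range)))
    intro c d hcd
    have h2 := congrArg Subtype.val hcd
    have h3 := hinj h2
    have h4 := congrArg Subtype.val h3
    exact Subtype.ext h4
  have h5 : φ.range ⊓ centralizerIn S φ.range = centralizerIn S φ.range := by
    apply Subgroup.eq_of_le_of_card_ge inf_le_right
    exact hcard.trans h1
  rw [← h5]; exact inf_le_left

end Cfsg.Agent.S5104
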