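import Cfsg.Statements.S5344
import Mathlib
import Cfsg.Agent.Lib_helper8_CoxData

set_option autoImplicit false
open Cfsg

namespace Cfsg.Agent.S5344

/-- The Coxeter matrix of type A₃ (nodes 0 - 1 - 2). -/
abbrev M3 : CoxeterMatrix (Fin 3) := Cfsg.Agent.Lib_helper8_CoxData.D4_M3

theorem M3_val : ∀ i j : Fin 3, M3 i j = Cfsg.Agent.Lib_helper8_CoxData.D4_Mn i j := by
  intro a b; fin_cases a <;> fin_cases b <;> rfl

/-- Adjacent transpositions of `Fin 4`. -/
def sw (i : Fin 3) : Equiv.Perm (Fin 4) := Equiv.swap i.castSucc i.succ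

theorem sw_liftable : M3.IsLiftable sw := by
  intro i j
  rw [M3_val]
  fin_cases i <;> fin_cases j <;> decide

/-- The canonical map from the Coxeter group of type A₃ to `S₄`. -/
noncomputable def piHom : M3.Group →* Equiv.Perm (Fin 4) :=
  M3.toCoxeterSystem.lift ⟨sw, sw_liftable⟩

theorem piHom_simple (i : Fin 3) : piHom (M3.toCoxeterSystem.simple i) = sw i :=
  M3.toCoxeterSystem.lift_apply_simple sw_liftable i

theorem piHom_surj : Function.Surjective piHom := by
  intro σ
  have h : σ ∈ Submonoid.closure (Set.range fun i : Fin 3 => Equiv.swap i.castSucc i.succ) := by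
    rw [Equiv.Perm.mclosure_swap_castSucc_succ]; trivial
  have hle : Submonoid.closure (Set.range fun i : Fin 3 => Equiv.swap i.castSucc i.succ)
      ≤ MonoidHom.mrange piHom := by
    rw [Submonoid.closure_le]
    rintro _ ⟨i, rfl⟩
    exact ⟨_, piHom_simple i⟩
  exact MonoidHom.mem_mrange.mp (hle h)

theorem piHom_bij : Function.Bijective piHom := by
  have : Finite M3.Group := Cfsg.Agent.Lib_helper8_CoxData.D4_up3.1
  apply piHom_surj.bijective_of_nat_card_le
  have h1 : Nat.card M3.Group ≤ 24 := Cfsg.Agent.Lib_helper8_CoxData.D4_up3.2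
  have h2 : Nat.card (Equiv.Perm (Fin 4)) = 24 := by
    rw [Nat.card_eq_fintype_card, Fintype.card_perm, Fintype.card_fin]; rfl
  omega

/-- The Coxeter group of type A₃ is `S₄`. -/
noncomputable def eqv : M3.Group ≃* Equiv.Perm (Fin 4) := MulEquiv.ofBijective piHom piHom_bij

theorem eqv_symm_sw (i : Fin 3) : eqv.symm (sw i) = M3.toCoxeterSystem.simple i := by
  rw [MulEquiv.symm_apply_eq]
  exact (piHom_simple i).symm

theorem key : ∀ σ : Equiv.Perm (Fin 4), σ ≠ 1 → ∃ g h : Equiv.Perm (Fin 4),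
    g * σ * g⁻¹ * (h * σ * h⁻¹) = Equiv.swap 0 1 * Equiv.swap 2 3 := by decide +kernel

theorem liftG {G : Type*} [Group G] (a b c : G) (ha : a * a = 1) (hb : b * b = 1) (hc : c * c = 1)
    (hab : (a * b) ^ 3 = 1) (hba : (b * a) ^ 3 = 1) (hbc : (b * c) ^ 3 = 1) (hcb : (c * b) ^ 3 = 1)
    (hac : (a * c) ^ 2 = 1) (hca : (c * a) ^ 2 = 1) : M3.IsLiftable ![a, b, c] := by
  intro i j
  rw [M3_val]
  fin_cases i <;> fin_cases j
  · show (a * a) ^ 1 = 1
    rw [pow_one]; exact ha
  · show (a * b) ^ 3 = 1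
    exact hab
  · show (a * c) ^ 2 = 1
    exact hac
  · show (b * a) ^ 3 = 1
    exact hba
  · show (b * b) ^ 1 = 1
    rw [pow_one]; exact hb
  · show (b * c) ^ 3 = 1
    exact hbc
  · show (c * a) ^ 2 = 1
    exact hca
  · show (c * b) ^ 3 = 1
    exact hcb
  · show (c * c) ^ 1 = 1
    rw [pow_one]; exact hc

theorem sw0 : sw 0 = Equiv.swap 0 1 := rfl
theorem sw1 : sw 1 = Equiv.swap 1 2 := rfl
theorem sw2 : sw 2 = Equiv.swap 2 3 := rfl

/-- In a set of 3-transpositions, let a, b, c be members with a and c different and commuting, while neither a nor c commutes with b (a 3-string). Then there is an injective homomorphism from the symmetric group of degree 4 into the ambient group sending the transpositions (0 1), (1 2), (2 3) to a, b, c; so a, b, c generate a copy of the symmetric group of degree 4 in which they are transpositions. -/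
theorem result {G : Type*} [Group G] {D : Set G} (hD : Cfsg.IsThreeTranspositionSet D) {a b c : G} (ha : a ∈ D) (hb : b ∈ D) (hc : c ∈ D) (hac : a ≠ c) (hac' : Commute a c) (hab : ¬ Commute a b) (hbc : ¬ Commute b c) : ∃ φ : Equiv.Perm (Fin 4) →* G, Function.Injective φ ∧ φ (Equiv.swap 0 1) = a ∧ φ (Equiv.swap 1 2) = b ∧ φ (Equiv.swap 2 3) = c := by
  obtain ⟨hord, h23⟩ := hD
  have sq : ∀ x ∈ D, x * x = 1 := by
    intro x hx
    have h := hord x hx
    rw [← pow_two, ← h]; exact pow_orderOf_eq_one x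
  have ha2 := sq a ha
  have hb2 := sq b hb
  have hc2 := sq c hc
  have three : ∀ x y : G, x * x = 1 → y * y = 1 → ¬ Commute x y →
      ((x * y) ^ 2 = 1 ∨ (x * y) ^ 3 = 1) → (x * y) ^ 3 = 1 := by
    intro x y hx hy hxy h
    rcases h with h | h
    · exfalso; apply hxy
      have h1 : x * y * (x * y) = 1 := by rw [← pow_two]; exact h
      have h2 : x * y = (x * y)⁻¹ := (inv_eq_of_mul_eq_one_right h1).symm
      rw [mul_inv_rev, inv_eq_of_mul_eq_one_right hx, inv_eq_of_mul_eq_one_right hy] at h2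
      exact h2
    · exact h
  have hab3 := three a b ha2 hb2 hab (h23 a ha b hb)
  have hba3 := three b a hb2 ha2 (fun h => hab h.symm) (h23 b hb a ha)
  have hbc3 := three b c hb2 hc2 hbc (h23 b hb c hc)
  have hcb3 := three c b hc2 hb2 (fun h => hbc h.symm) (h23 c hc b hb)
  have hac2 : (a * c) ^ 2 = 1 := by
    rw [pow_two]
    calc a * c * (a * c) = a * (c * a) * c := by group
      _ = a * (a * c) * c := by rw [← hac'.eq]
      _ = (a * a) * (c * c) := by group
      _ = 1 := by rw [ha2, hc2, one_mul]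
  have hca2 : (c * a) ^ 2 = 1 := by rw [← hac'.eq]; exact hac2
  have hlift := liftG a b c ha2 hb2 hc2 hab3 hba3 hbc3 hcb3 hac2 hca2
  let ψ : M3.Group →* G := M3.toCoxeterSystem.lift ⟨![a, b, c], hlift⟩
  have hψ : ∀ i, ψ (M3.toCoxeterSystem.simple i) = ![a, b, c] i :=
    fun i => M3.toCoxeterSystem.lift_apply_simple hlift i
  let φ : Equiv.Perm (Fin 4) →* G := ψ.comp eqv.symm.toMonoidHom
  have hφ : ∀ i : Fin 3, φ (sw i) = ![a, b, c] i := by
    intro i
    show ψ (eqv.symm (sw i)) = _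
    rw [eqv_symm_sw, hψ]
  have e0 : φ (Equiv.swap 0 1) = a := by rw [← sw0]; exact hφ 0
  have e1 : φ (Equiv.swap 1 2) = b := by rw [← sw1]; exact hφ 1
  have e2 : φ (Equiv.swap 2 3) = c := by rw [← sw2]; exact hφ 2
  refine ⟨φ, ?_, e0, e1, e2⟩
  rw [injective_iff_map_eq_one]
  intro σ hσ
  by_contra hne
  obtain ⟨g, h, hgh⟩ := key σ hne
  have h1 : φ (Equiv.swap 0 1 * Equiv.swap 2 3) = 1 := by
    rw [← hgh]
    simp only [map_mul, map_inv, hσ, mul_one, mul_inv_cancel]
  rw [map_mul, e0, e2] at h1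
  apply hac
  have h3 : a = c⁻¹ := eq_inv_of_mul_eq_one_left h1
  rw [h3, inv_eq_of_mul_eq_one_right hc2]

end Cfsg.Agent.S5344
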