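import Cfsg.Statements.S5347
-- import your own Cfsg.Agent.* helpers here

set_option autoImplicit false
open Cfsg

namespace Cfsg.Agent.S5347

/-- Let D be a conjugation-invariant generating set of 3-transpositions of a finite group G, p a prime bigger than 3, and P a p-subgroup of G. If a member d of D normalizes P then d centralizes P. -/
theorem result {G : Type*} [Group G] [Finite G] {D : Set G} (hD : Cfsg.IsThreeTranspositionGroup D) {p : ℕ} (hp : p.Prime) (hp3 : 3 < p) (P : Subgroup G) (hP : IsPGroup p P) {d : G} (hd : d ∈ D) (hnorm : d ∈ Subgroup.normalizer (P : Set G)) : ∀ x ∈ P, Commute d x := by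
  obtain ⟨⟨hinv, hord⟩, hconj, -⟩ := hD
  intro x hx
  have hdd : d * d = 1 := by
    have h := pow_orderOf_eq_one d
    rw [hinv d hd, pow_two] at h; exact h
  have hdinv : d⁻¹ = d := inv_eq_of_mul_eq_one_right hdd
  have h1 : d * x * d⁻¹ ∈ P := (Subgroup.mem_normalizer_iff.mp hnorm x).mp hx
  have h2 : d * x * d⁻¹ * x⁻¹ ∈ P := P.mul_mem h1 (P.inv_mem hx)
  have h3 : x * d * x⁻¹ ∈ D := hconj x d hd
  have h4 : d * x * d⁻¹ * x⁻¹ = d * (x * d * x⁻¹) := by rw [hdinv]; group
  obtain ⟨k, hk⟩ := hP ⟨_, h2⟩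
  have hk' : (d * x * d⁻¹ * x⁻¹) ^ p ^ k = 1 := by
    have := congrArg Subtype.val hk
    simpa using this
  have key : d * x * d⁻¹ * x⁻¹ = 1 := by
    have hcop2 : Nat.Coprime (p ^ k) 2 := by
      apply Nat.Coprime.pow_left
      rw [Nat.coprime_primes hp Nat.prime_two]; omega
    have hcop3 : Nat.Coprime (p ^ k) 3 := by
      apply Nat.Coprime.pow_left
      rw [Nat.coprime_primes hp Nat.prime_three]; omega
    rcases hord d hd _ h3 with h | h
    · rw [← h4] at h
      have := orderOf_dvd_of_pow_eq_one h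
      have h5 := orderOf_dvd_of_pow_eq_one hk'
      have h6 : orderOf (d * x * d⁻¹ * x⁻¹) ∣ 1 := by
        have := Nat.dvd_gcd h5 this
        rwa [hcop2] at this
      exact orderOf_eq_one_iff.mp (Nat.dvd_one.mp h6)
    · rw [← h4] at h
      have := orderOf_dvd_of_pow_eq_one h
      have h5 := orderOf_dvd_of_pow_eq_one hk'
      have h6 : orderOf (d * x * d⁻¹ * x⁻¹) ∣ 1 := by
        have := Nat.dvd_gcd h5 this
        rwa [hcop3] at this
      exact orderOf_eq_one_iff.mp (Nat.dvd_one.mp h6)
  show d * x = x * d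
  have : d * x * d⁻¹ = x := by
    have := mul_eq_one_iff_eq_inv.mp key
    simpa using this
  calc d * x = d * x * d⁻¹ * d := by group
    _ = x * d := by rw [this]

end Cfsg.Agent.S5347
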