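import Cfsg.Statements.S5355
import Mathlib
import Cfsg.Agent.S5344

set_option autoImplicit false
open Cfsg

namespace Cfsg.Agent.S5355


/-- `x'` is the unique other member of `D` commuting with `x`, and it commutes with the same members. -/
def HasPartner {G : Type*} [Group G] (D : Set G) (x x' : G) : Prop :=
  x' ∈ D ∧ x' ≠ x ∧ Commute x x' ∧ (∀ y ∈ D, Commute x y → y = x ∨ y = x') ∧
    (∀ y ∈ D, Commute x' y ↔ Commute x y)

theorem comm_conj {G : Type*} [Group G] (g a y : G) :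
    Commute (g * a * g⁻¹) y ↔ Commute a (g⁻¹ * y * g) := by
  constructor
  · intro hc
    have h := hc.eq
    show a * (g⁻¹ * y * g) = g⁻¹ * y * g * a
    have e : a * (g⁻¹ * y * g) = g⁻¹ * (g * a * g⁻¹ * y) * g := by group
    rw [e, h]; group
  · intro hc
    have h := hc.eq
    show g * a * g⁻¹ * y = y * (g * a * g⁻¹)
    have e : g * a * g⁻¹ * y = g * (a * (g⁻¹ * y * g)) * g⁻¹ := by group
    rw [e, h]; group

theorem partner_conj {G : Type*} [Group G] {D : Set G}
    (hcl : ∀ x ∈ D, ∀ g : G, g * x * g⁻¹ ∈ D)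
    {x x' : G} (h : HasPartner D x x') (g : G) :
    HasPartner D (g * x * g⁻¹) (g * x' * g⁻¹) := by
  obtain ⟨h1, h2, h3, h4, h5⟩ := h
  have hcl' : ∀ y ∈ D, g⁻¹ * y * g ∈ D := by
    intro y hy
    simpa using hcl y hy g⁻¹
  refine ⟨hcl x' h1 g, ?_, ?_, ?_, ?_⟩
  · intro he
    apply h2
    have e : x' = g⁻¹ * (g * x' * g⁻¹) * g := by group
    rw [e, he]; group
  · rw [comm_conj]
    have e : g⁻¹ * (g * x' * g⁻¹) * g = x' := by group
    rw [e]; exact h3
  · intro y hy hc
    rcases h4 _ (hcl' y hy) ((comm_conj g x y).mp hc) with h | h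
    · left; rw [← h]; group
    · right; rw [← h]; group
  · intro y hy
    rw [comm_conj g x' y, comm_conj g x y]
    exact h5 _ (hcl' y hy)

theorem string_partner {G : Type*} [Group G] {D : Set G} (hTS : Cfsg.IsThreeTranspositionSet D)
    (hcl : ∀ x ∈ D, ∀ g : G, g * x * g⁻¹ ∈ D)
    {f f' t t' : G} (hf : f ∈ D) (ht : t ∈ D) (hff' : HasPartner D f f')
    (htt' : HasPartner D t t') (hft : ¬ Commute f t) :
    (f * f') * t * (f * f')⁻¹ = t' := by
  obtain ⟨hf'D, hf'ne, hcomm, -, hV⟩ := hff'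
  have hf't : ¬ Commute f' t := fun h => hft ((hV t ht).mp h)
  obtain ⟨φ, hinj, h01, h12, h23⟩ := Cfsg.Agent.S5344.result hTS hf ht hf'D (Ne.symm hf'ne) hcomm
    hft (fun h => hf't h.symm)
  have e1 : (f * f') * t * (f * f')⁻¹ = φ (Equiv.swap 0 1 * Equiv.swap 2 3 * Equiv.swap 1 2 *
      (Equiv.swap 0 1 * Equiv.swap 2 3)⁻¹) := by
    simp only [map_mul, map_inv, h01, h12, h23]
  have hmem : (f * f') * t * (f * f')⁻¹ ∈ D := hcl t ht _
  have key : ∀ a b : Equiv.Perm (Fin 4), a * b = b * a → Commute (φ a) (φ b) := by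
    intro a b hab
    show φ a * φ b = φ b * φ a
    rw [← map_mul, ← map_mul, hab]
  have hcm : Commute t ((f * f') * t * (f * f')⁻¹) := by
    rw [e1]
    have h := key (Equiv.swap 1 2) (Equiv.swap 0 1 * Equiv.swap 2 3 * Equiv.swap 1 2 *
      (Equiv.swap 0 1 * Equiv.swap 2 3)⁻¹) (by decide)
    rw [h12] at h
    exact h
  have hne : (f * f') * t * (f * f')⁻¹ ≠ t := by
    rw [e1]
    intro h
    rw [← h12] at h
    exact absurd (hinj h) (by decide)
  rcases htt'.2.2.2.1 _ hmem hcm with h | h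
  · exact absurd h hne
  · exact h

/-- Let D be a conjugacy class of 3-transpositions generating the finite group G, with at least two members, and d a member of D. Suppose that every member of D commuting with d commutes with exactly the same members of D as d does, and that exactly one member of D other than d commutes with d. Then G is isomorphic to the symmetric group of degree 4. -/
theorem result {G : Type*} [Group G] [Finite G] {D : Set G} (hD : Cfsg.IsThreeTranspositionClass D) (hD2 : ∃ a ∈ D, ∃ b ∈ D, a ≠ b) {d : G} (hd : d ∈ D) (hV : {y : G | y ∈ D ∧ Commute d y} = {v : G | v ∈ D ∧ ∀ e ∈ D, Commute v e ↔ Commute d e}) (hm : {y : G | y ∈ D ∧ Commute d y}.ncard = 2) : Nonempty (G ≃* Equiv.Perm (Fin 4)) := by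
  obtain ⟨hTS, hconj, hgen⟩ := hD
  have hcl : ∀ x ∈ D, ∀ g : G, g * x * g⁻¹ ∈ D := by
    obtain ⟨d0, hd0, hDe⟩ := hconj
    intro x hx g
    rw [hDe] at hx ⊢
    have hx' : IsConj d0 x := hx
    exact (hx'.trans (isConj_iff.mpr ⟨g, rfl⟩) : IsConj d0 (g * x * g⁻¹))
  have hall : ∀ x ∈ D, ∀ y ∈ D, ∃ g : G, g * x * g⁻¹ = y := by
    obtain ⟨d0, hd0, hDe⟩ := hconj
    intro x hx y hy
    rw [hDe] at hx hy
    have hx' : IsConj d0 x := hx
    have hy' : IsConj d0 y := hy
    exact isConj_iff.mp (hx'.symm.trans hy')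
  have hPd : ∃ d', HasPartner D d d' := by
    obtain ⟨x, y, hxy, hC⟩ := Set.ncard_eq_two.mp hm
    have hdC : d ∈ {y : G | y ∈ D ∧ Commute d y} := ⟨hd, Commute.refl d⟩
    have key : ∀ d' : G, d' ≠ d → ({y : G | y ∈ D ∧ Commute d y} = {d, d'}) →
        HasPartner D d d' := by
      intro d' hne hCe
      have h1 : d' ∈ {y : G | y ∈ D ∧ Commute d y} := by rw [hCe]; simp
      have h2 : d' ∈ {v : G | v ∈ D ∧ ∀ e ∈ D, Commute v e ↔ Commute d e} := by
        rw [← hV]; exact h1
      refine ⟨h1.1, hne, h1.2, ?_, h2.2⟩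
      intro y hy hcy
      have h3 : y ∈ ({d, d'} : Set G) := by rw [← hCe]; exact ⟨hy, hcy⟩
      simpa using h3
    rw [hC] at hdC
    rcases hdC with h | h
    · subst h
      exact ⟨y, key y hxy.symm hC⟩
    · have h' : d = y := h
      subst h'
      exact ⟨x, key x hxy (by rw [hC, Set.pair_comm])⟩
  have hP : ∀ x ∈ D, ∃ x', HasPartner D x x' := by
    obtain ⟨d', hd'⟩ := hPd
    intro x hx
    obtain ⟨g, rfl⟩ := hall d hd x hx
    exact ⟨g * d' * g⁻¹, partner_conj hcl hd' g⟩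
  obtain ⟨d', hd'⟩ := hPd
  have hd'D := hd'.1
  have hd'ne := hd'.2.1
  have hdd' := hd'.2.2.1
  have hd'u := hd'.2.2.2.1
  have hd'V := hd'.2.2.2.2
  have hex : ∃ e ∈ D, ¬ Commute d e := by
    by_contra hno
    push Not at hno
    have hle : Subgroup.closure D ≤ Subgroup.centralizer ({d} : Set G) := by
      rw [Subgroup.closure_le]
      intro y hy
      rw [SetLike.mem_coe, Subgroup.mem_centralizer_iff]
      intro h hh
      rw [Set.mem_singleton_iff] at hh
      subst hh
      exact (hno y hy).eq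
    obtain ⟨g, hg⟩ := hall d hd d' hd'D
    have hgc : g ∈ Subgroup.centralizer ({d} : Set G) :=
      hle (by rw [hgen]; exact Subgroup.mem_top g)
    rw [Subgroup.mem_centralizer_iff] at hgc
    have h1 := hgc d rfl
    apply hd'ne
    rw [← hg, ← h1]
    group
  obtain ⟨e, heD, hde⟩ := hex
  have hd'e : ¬ Commute d' e := fun h => hde ((hd'V e heD).mp h)
  obtain ⟨φ, hinj, h01, h12, h23⟩ := Cfsg.Agent.S5344.result hTS hd heD hd'D (Ne.symm hd'ne) hdd'
    hde (fun h => hd'e h.symm)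
  obtain ⟨e', he'⟩ := hP e heD
  have hgD : e * d * e⁻¹ ∈ D := hcl d hd e
  obtain ⟨g', hg'⟩ := hP _ hgD
  have hue : (d * d') * e * (d * d')⁻¹ = e' := string_partner hTS hcl hd heD hd' he' hde
  have keyφ : ∀ a b : Equiv.Perm (Fin 4), Commute (φ a) (φ b) → a * b = b * a := by
    intro a b h
    apply hinj
    rw [map_mul, map_mul]
    exact h.eq
  have hdg : ¬ Commute d (e * d * e⁻¹) := by
    intro h
    have e1 : e * d * e⁻¹ = φ (Equiv.swap 1 2 * Equiv.swap 0 1 * (Equiv.swap 1 2)⁻¹) := by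
      simp only [map_mul, map_inv, h01, h12]
    rw [e1] at h
    have h2 : Commute (φ (Equiv.swap 0 1))
        (φ (Equiv.swap 1 2 * Equiv.swap 0 1 * (Equiv.swap 1 2)⁻¹)) := by
      rw [h01]; exact h
    exact absurd (keyφ _ _ h2) (by decide)
  have hug : (d * d') * (e * d * e⁻¹) * (d * d')⁻¹ = g' :=
    string_partner hTS hcl hd hgD hd' hg' hdg
  have hsub : ∀ f ∈ D, f ∈ φ.range := by
    intro f hfD
    by_contra hfr
    have hd_mem : d ∈ φ.range := ⟨_, h01⟩
    have he_mem : e ∈ φ.range := ⟨_, h12⟩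
    have hd'_mem : d' ∈ φ.range := ⟨_, h23⟩
    have hu_mem : d * d' ∈ φ.range := φ.range.mul_mem hd_mem hd'_mem
    have he'_mem : e' ∈ φ.range := by
      rw [← hue]
      exact φ.range.mul_mem (φ.range.mul_mem hu_mem he_mem) (φ.range.inv_mem hu_mem)
    have hgm : e * d * e⁻¹ ∈ φ.range :=
      φ.range.mul_mem (φ.range.mul_mem he_mem hd_mem) (φ.range.inv_mem he_mem)
    have hg'_mem : g' ∈ φ.range := by
      rw [← hug]
      exact φ.range.mul_mem (φ.range.mul_mem hu_mem hgm) (φ.range.inv_mem hu_mem)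
    have hfd : ¬ Commute f d := by
      intro h
      rcases hd'u f hfD h.symm with h1 | h1
      · exact hfr (by rw [h1]; exact hd_mem)
      · exact hfr (by rw [h1]; exact hd'_mem)
    have hfe : ¬ Commute f e := by
      intro h
      rcases he'.2.2.2.1 f hfD h.symm with h1 | h1
      · exact hfr (by rw [h1]; exact he_mem)
      · exact hfr (by rw [h1]; exact he'_mem)
    have hfg : ¬ Commute f (e * d * e⁻¹) := by
      intro h
      rcases hg'.2.2.2.1 f hfD h.symm with h1 | h1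
      · exact hfr (by rw [h1]; exact hgm)
      · exact hfr (by rw [h1]; exact hg'_mem)
    obtain ⟨f', hf'⟩ := hP f hfD
    have c1 : (f * f') * d * (f * f')⁻¹ = d' := string_partner hTS hcl hfD hd hf' hd' hfd
    have c2 : (f * f') * e * (f * f')⁻¹ = e' := string_partner hTS hcl hfD heD hf' he' hfe
    have c3 : (f * f') * (e * d * e⁻¹) * (f * f')⁻¹ = g' :=
      string_partner hTS hcl hfD hgD hf' hg' hfg
    have c4 : (f * f') * (e * d * e⁻¹) * (f * f')⁻¹ = e' * d' * e'⁻¹ := by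
      rw [← c1, ← c2]; group
    have c5 : (d * d') * (e * d * e⁻¹) * (d * d')⁻¹
        = ((d * d') * e * (d * d')⁻¹) * d' * ((d * d') * e * (d * d')⁻¹)⁻¹ := by
      rw [hug, hue, ← c3, c4]
    have c6 : φ (Equiv.swap 0 1 * Equiv.swap 2 3 *
          (Equiv.swap 1 2 * Equiv.swap 0 1 * (Equiv.swap 1 2)⁻¹) *
          (Equiv.swap 0 1 * Equiv.swap 2 3)⁻¹)
        = φ ((Equiv.swap 0 1 * Equiv.swap 2 3 * Equiv.swap 1 2 *
            (Equiv.swap 0 1 * Equiv.swap 2 3)⁻¹) * Equiv.swap 2 3 *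
          (Equiv.swap 0 1 * Equiv.swap 2 3 * Equiv.swap 1 2 *
            (Equiv.swap 0 1 * Equiv.swap 2 3)⁻¹)⁻¹) := by
      simpa only [map_mul, map_inv, h01, h12, h23] using c5
    exact absurd (hinj c6) (by decide)
  have hrange : φ.range = ⊤ := by
    rw [eq_top_iff, ← hgen, Subgroup.closure_le]
    exact fun f hf => hsub f hf
  exact ⟨(MulEquiv.ofBijective φ ⟨hinj, MonoidHom.range_eq_top.mp hrange⟩).symm⟩

end Cfsg.Agent.S5355
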