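import Cfsg.Statements.S5357
import Mathlib
import Cfsg.Agent.Lib_helper4_Quad
import Cfsg.Agent.Lib_helper4_Quad2
import Cfsg.Agent.Lib_helper4_Orth
import Cfsg.Agent.Lib_helper4_CD
import Cfsg.Agent.Lib_helper4_SymBasis

set_option autoImplicit false
open scoped MatrixGroups
open Cfsg

namespace Cfsg.Agent.S5357

open Matrix Cfsg.Agent.Lib_helper4_Quad Cfsg.Agent.Lib_helper4_Quad2 Cfsg.Agent.Lib_helper4_Orth

variable {n : ℕ}

lemma grp_sq {G : Type*} [Group G] (a b : G) (ha : a * a = 1) (hb : b * b = 1)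
    (hab : a * b = b * a) : (a * b) ^ 2 = 1 := by
  rw [pow_two]
  calc a * b * (a * b) = a * (b * a) * b := by simp only [mul_assoc]
    _ = a * (a * b) * b := by rw [hab]
    _ = (a * a) * (b * b) := by simp only [mul_assoc]
    _ = 1 := by rw [ha, hb, one_mul]

lemma grp_cube {G : Type*} [Group G] (a b : G) (ha : a * a = 1) (hb : b * b = 1)
    (h : a * b * a = b * a * b) : (a * b) ^ 3 = 1 := by
  calc (a * b) ^ 3 = (a * b * a) * (b * a * b) := by
        simp only [pow_succ, pow_zero, one_mul, mul_assoc]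
    _ = (a * b * a) * (a * b * a) := by rw [h]
    _ = a * (b * ((a * a) * (b * a))) := by simp only [mul_assoc]
    _ = a * ((b * b) * a) := by rw [ha, one_mul]; simp only [mul_assoc]
    _ = 1 := by rw [hb, one_mul, ha]

lemma grp_conj {G : Type*} [Group G] (a b : G) (ha : a * a = 1) (hb : b * b = 1)
    (h : a * b * a = b * a * b) : (a * b) * a * (a * b)⁻¹ = b := by
  have ha' : a⁻¹ = a := inv_eq_of_mul_eq_one_right ha
  have hb' : b⁻¹ = b := inv_eq_of_mul_eq_one_right hb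
  calc (a * b) * a * (a * b)⁻¹ = (a * b * a) * (b⁻¹ * a⁻¹) := by
        rw [_root_.mul_inv_rev]
    _ = (b * a * b) * (b * a) := by rw [h, ha', hb']
    _ = b * (a * ((b * b) * a)) := by simp only [mul_assoc]
    _ = b := by rw [hb, one_mul, ha, mul_one]

lemma perp_exists (Q : QuadraticForm (ZMod 3) (Fin n → ZMod 3))
    (hQ : (QuadraticMap.polarBilin Q).Nondegenerate) {k : ℕ} (hk : k < n)
    (x : Fin k → (Fin n → ZMod 3)) (hx : ∀ i, Q (x i) ≠ 0)
    (hxx : ∀ i j, i ≠ j → QuadraticMap.polar ⇑Q (x i) (x j) = 0) :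
    ∃ y, Q y ≠ 0 ∧ ∀ i, QuadraticMap.polar ⇑Q (x i) y = 0 := by
  by_contra hcon
  have hW : ∀ y, (∀ i, QuadraticMap.polar ⇑Q (x i) y = 0) → Q y = 0 := by
    intro y hy
    by_contra h
    exact hcon ⟨y, h, hy⟩
  have hW2 : ∀ y z, (∀ i, QuadraticMap.polar ⇑Q (x i) y = 0) →
      (∀ i, QuadraticMap.polar ⇑Q (x i) z = 0) → QuadraticMap.polar ⇑Q y z = 0 := by
    intro y z hy hz
    have h3 : Q (y + z) = 0 := by
      apply hW
      intro i
      rw [QuadraticMap.polar_add_right, hy i, hz i, add_zero]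
    unfold QuadraticMap.polar
    rw [hW y hy, hW z hz, h3]
    simp
  have hsum : ∀ (w : Fin n → ZMod 3) (a : Fin k → ZMod 3),
      QuadraticMap.polar ⇑Q w (∑ j, a j • x j) = ∑ j, a j * QuadraticMap.polar ⇑Q w (x j) := by
    intro w a
    have h3 := map_sum (QuadraticMap.polarBilin Q w) (fun j => a j • x j) Finset.univ
    simp only [map_smul, smul_eq_mul, QuadraticMap.polarBilin_apply_apply] at h3
    exact h3
  have h2 : (2 : ZMod 3) ≠ 0 := by decide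
  have hP : ∀ t i, QuadraticMap.polar ⇑Q (x i)
      (t - ∑ j, ((2 * Q (x j))⁻¹ * QuadraticMap.polar ⇑Q (x j) t) • x j) = 0 := by
    intro t i
    rw [QuadraticMap.polar_sub_right, hsum, Finset.sum_eq_single i]
    · rw [polar_self']
      have h3 : (2 * Q (x i))⁻¹ * QuadraticMap.polar ⇑Q (x i) t * (2 * Q (x i))
          = QuadraticMap.polar ⇑Q (x i) t := by
        rw [mul_comm, ← mul_assoc, mul_inv_cancel₀ (mul_ne_zero h2 (hx i)), one_mul]
      rw [h3, sub_self]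
    · intro j _ hji
      rw [hxx i j (Ne.symm hji), mul_zero]
    · intro h; exact absurd (Finset.mem_univ i) h
  have hrad : ∀ t, t - ∑ j, ((2 * Q (x j))⁻¹ * QuadraticMap.polar ⇑Q (x j) t) • x j = 0 := by
    intro t
    apply hQ.1
    intro s
    rw [QuadraticMap.polarBilin_apply_apply]
    have hs : s = (s - ∑ j, ((2 * Q (x j))⁻¹ * QuadraticMap.polar ⇑Q (x j) s) • x j)
        + ∑ j, ((2 * Q (x j))⁻¹ * QuadraticMap.polar ⇑Q (x j) s) • x j := by abel
    rw [hs, QuadraticMap.polar_add_right, hW2 _ _ (hP t) (hP s), zero_add, hsum]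
    apply Finset.sum_eq_zero
    intro j _
    have h5 := hP t j
    rw [QuadraticMap.polar_comm] at h5
    rw [h5, mul_zero]
  have hspan : Submodule.span (ZMod 3) (Set.range x) = ⊤ := by
    rw [eq_top_iff]
    intro t _
    have ht : t = ∑ j, ((2 * Q (x j))⁻¹ * QuadraticMap.polar ⇑Q (x j) t) • x j :=
      sub_eq_zero.mp (hrad t)
    rw [ht]
    exact Submodule.sum_mem _ (fun i _ => Submodule.smul_mem _ _ (Submodule.subset_span ⟨i, rfl⟩))
  have h1 := finrank_range_le_card (R := ZMod 3) x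
  rw [Set.finrank, hspan, finrank_top, Module.finrank_fin_fun, Fintype.card_fin] at h1
  omega

lemma solve (Q : QuadraticForm (ZMod 3) (Fin n → ZMod 3)) (x y : Fin n → ZMod 3)
    (hx : Q x ≠ 0) (hy : Q y ≠ 0) (hxy : QuadraticMap.polar ⇑Q x y = 0) (d : ZMod 3)
    (hd : d ≠ 0) : ∃ s t : ZMod 3, Q (s • x + t • y) = d := by
  obtain ⟨s, t, hst⟩ := Cfsg.Agent.Lib_helper4_SymBasis.exists_sq_sum
    (by decide : (2 : ZMod 3) ≠ 0) (Q x / d) (Q y / d) (div_ne_zero hx hd) (div_ne_zero hy hd)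
  refine ⟨s, t, ?_⟩
  rw [quad_add_smul, QuadraticMap.map_smul, QuadraticMap.polar_smul_left, hxy]
  field_simp at hst
  simp only [smul_eq_mul]
  linear_combination hst

lemma E1 (Q : QuadraticForm (ZMod 3) (Fin n → ZMod 3))
    (hQ : (QuadraticMap.polarBilin Q).Nondegenerate) (hn : 5 ≤ n) (c : ZMod 3) (hc : c ≠ 0) :
    ∃ v, Q v = c := by
  obtain ⟨x1, hx1, -⟩ := perp_exists Q hQ (k := 0) (by omega) (fun i => i.elim0)
    (fun i => i.elim0) (fun i => i.elim0)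
  obtain ⟨x2, hx2, h12⟩ := perp_exists Q hQ (k := 1) (by omega) (fun _ => x1)
    (fun _ => hx1) (fun i j hij => absurd (Subsingleton.elim i j) hij)
  obtain ⟨s, t, hst⟩ := solve Q x1 x2 hx1 hx2 (h12 0) c hc
  exact ⟨_, hst⟩

lemma E2 (Q : QuadraticForm (ZMod 3) (Fin n → ZMod 3))
    (hQ : (QuadraticMap.polarBilin Q).Nondegenerate) (hn : 5 ≤ n) (c : ZMod 3) (hc : c ≠ 0)
    (u v : Fin n → ZMod 3) (hu : Q u = c) (hv : Q v = c)
    (huv : QuadraticMap.polar ⇑Q u v = 0) :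
    ∃ w, Q w = c ∧ QuadraticMap.polar ⇑Q u w ≠ 0 ∧ QuadraticMap.polar ⇑Q v w ≠ 0 := by
  have hvu : QuadraticMap.polar ⇑Q v u = 0 := by rw [QuadraticMap.polar_comm]; exact huv
  have hu0 : Q u ≠ 0 := by rw [hu]; exact hc
  have hv0 : Q v ≠ 0 := by rw [hv]; exact hc
  obtain ⟨x3, hx3, h3⟩ := perp_exists Q hQ (k := 2) (by omega) ![u, v]
    (by intro i; fin_cases i <;> simp [hu0, hv0])
    (by intro i j hij; fin_cases i <;> fin_cases j <;> simp_all)
  have h3u : QuadraticMap.polar ⇑Q u x3 = 0 := h3 0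
  have h3v : QuadraticMap.polar ⇑Q v x3 = 0 := h3 1
  obtain ⟨x4, hx4, h4⟩ := perp_exists Q hQ (k := 3) (by omega) ![u, v, x3]
    (by intro i; fin_cases i <;> simp [hu0, hv0, hx3])
    (by
      have h3u' : QuadraticMap.polar ⇑Q x3 u = 0 := by rw [QuadraticMap.polar_comm]; exact h3u
      have h3v' : QuadraticMap.polar ⇑Q x3 v = 0 := by rw [QuadraticMap.polar_comm]; exact h3v
      intro i j hij; fin_cases i <;> fin_cases j <;> simp_all)
  have h4u : QuadraticMap.polar ⇑Q u x4 = 0 := h4 0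
  have h4v : QuadraticMap.polar ⇑Q v x4 = 0 := h4 1
  have h43 : QuadraticMap.polar ⇑Q x3 x4 = 0 := h4 2
  obtain ⟨s, t, hst⟩ := solve Q x3 x4 hx3 hx4 h43 (-c) (neg_ne_zero.mpr hc)
  have hc2 : (2 : ZMod 3) * c ≠ 0 := mul_ne_zero (by decide) hc
  have huz : QuadraticMap.polar ⇑Q u (s • x3 + t • x4) = 0 := by
    rw [QuadraticMap.polar_add_right, QuadraticMap.polar_smul_right, QuadraticMap.polar_smul_right,
      h3u, h4u]; simp
  have hvz : QuadraticMap.polar ⇑Q v (s • x3 + t • x4) = 0 := by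
    rw [QuadraticMap.polar_add_right, QuadraticMap.polar_smul_right, QuadraticMap.polar_smul_right,
      h3v, h4v]; simp
  refine ⟨u + v + (s • x3 + t • x4), ?_, ?_, ?_⟩
  · rw [QuadraticMap.map_add (⇑Q) (u + v), QuadraticMap.map_add (⇑Q) u v, hst, hu, hv, huv,
      QuadraticMap.polar_add_left, huz, hvz]
    ring
  · rw [QuadraticMap.polar_add_right, QuadraticMap.polar_add_right, huz, huv, polar_self', hu]
    simpa using hc2
  · rw [QuadraticMap.polar_add_right, QuadraticMap.polar_add_right, hvz, hvu, polar_self', hv]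
    simpa using hc2

noncomputable def rI (Q : QuadraticForm (ZMod 3) (Fin n → ZMod 3)) (v : Fin n → ZMod 3)
    (hv : Q v ≠ 0) : Cfsg.isometryGroup (ZMod 3) ⇑Q := ⟨refl Q v hv, refl_mem Q v hv⟩

lemma rI_mulVec (Q : QuadraticForm (ZMod 3) (Fin n → ZMod 3)) (v : Fin n → ZMod 3)
    (hv : Q v ≠ 0) (x : Fin n → ZMod 3) :
    (((rI Q v hv : Cfsg.isometryGroup (ZMod 3) ⇑Q) : GL (Fin n) (ZMod 3)) :
      Matrix (Fin n) (Fin n) (ZMod 3)) *ᵥ x
      = x - ((Q v)⁻¹ * QuadraticMap.polar ⇑Q v x) • v := reflection_mulVec Q v x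

lemma ext_mulVec (Q : QuadraticForm (ZMod 3) (Fin n → ZMod 3))
    (g h : Cfsg.isometryGroup (ZMod 3) ⇑Q)
    (H : ∀ x, ((g : GL (Fin n) (ZMod 3)) : Matrix (Fin n) (Fin n) (ZMod 3)) *ᵥ x
      = ((h : GL (Fin n) (ZMod 3)) : Matrix (Fin n) (Fin n) (ZMod 3)) *ᵥ x) : g = h := by
  apply Subtype.ext
  apply Units.ext
  ext i j
  have := congrFun (H (Pi.single j 1)) i
  rw [Matrix.mulVec_single_one, Matrix.mulVec_single_one] at this
  simpa using this

lemma rI_sq (Q : QuadraticForm (ZMod 3) (Fin n → ZMod 3)) (v : Fin n → ZMod 3)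
    (hv : Q v ≠ 0) : rI Q v hv * rI Q v hv = 1 :=
  Cfsg.Agent.Lib_helper4_CD.refl_mul_self Q _ ⟨v, hv, rfl⟩

lemma rI_congr (Q : QuadraticForm (ZMod 3) (Fin n → ZMod 3)) (v w : Fin n → ZMod 3)
    (hv : Q v ≠ 0) (hw : Q w ≠ 0) (h : v = w) : rI Q v hv = rI Q w hw := by
  subst h; rfl

lemma rI_conj (Q : QuadraticForm (ZMod 3) (Fin n → ZMod 3))
    (g : Cfsg.isometryGroup (ZMod 3) ⇑Q) (v : Fin n → ZMod 3) (hv : Q v ≠ 0) :
    g * rI Q v hv = rI Q (((g : GL (Fin n) (ZMod 3)) : Matrix (Fin n) (Fin n) (ZMod 3)) *ᵥ v)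
      (by rw [iso_apply (⇑Q)]; exact hv) * g := by
  apply ext_mulVec
  intro x
  rw [coe_mul_mulVec, coe_mul_mulVec, rI_mulVec, rI_mulVec, iso_apply (⇑Q), iso_polar (⇑Q),
    Matrix.mulVec_sub, Matrix.mulVec_smul]

lemma rI_smul (Q : QuadraticForm (ZMod 3) (Fin n → ZMod 3)) (v w : Fin n → ZMod 3)
    (hv : Q v ≠ 0) (hw : Q w ≠ 0) (a : ZMod 3) (ha : a ≠ 0) (h : v = a • w) :
    rI Q v hv = rI Q w hw := by
  subst h
  apply ext_mulVec
  intro x
  rw [rI_mulVec, rI_mulVec, smul_smul]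
  congr 2
  rw [QuadraticMap.map_smul, QuadraticMap.polar_smul_left, smul_eq_mul, smul_eq_mul]
  field_simp

lemma comm_of_orth (Q : QuadraticForm (ZMod 3) (Fin n → ZMod 3)) (u v : Fin n → ZMod 3)
    (hu0 : Q u ≠ 0) (hv0 : Q v ≠ 0) (huv : QuadraticMap.polar ⇑Q u v = 0) :
    rI Q u hu0 * rI Q v hv0 = rI Q v hv0 * rI Q u hu0 := by
  rw [rI_conj]
  congr 1
  apply rI_congr
  rw [rI_mulVec, huv, mul_zero, zero_smul, sub_zero]

lemma braid (Q : QuadraticForm (ZMod 3) (Fin n → ZMod 3)) (c : ZMod 3) (hc : c ≠ 0)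
    (u v : Fin n → ZMod 3) (hu : Q u = c) (hv : Q v = c) (hu0 : Q u ≠ 0) (hv0 : Q v ≠ 0)
    (huv : QuadraticMap.polar ⇑Q u v ≠ 0) :
    rI Q u hu0 * rI Q v hv0 * rI Q u hu0 = rI Q v hv0 * rI Q u hu0 * rI Q v hv0 := by
  have h1 : rI Q u hu0 * rI Q v hv0 * rI Q u hu0
      = rI Q (((rI Q u hu0 : GL (Fin n) (ZMod 3)) : Matrix (Fin n) (Fin n) (ZMod 3)) *ᵥ v)
        (by rw [iso_apply (⇑Q)]; exact hv0) := by
    rw [rI_conj Q (rI Q u hu0) v hv0, mul_assoc, rI_sq, mul_one]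
  have h2 : rI Q v hv0 * rI Q u hu0 * rI Q v hv0
      = rI Q (((rI Q v hv0 : GL (Fin n) (ZMod 3)) : Matrix (Fin n) (Fin n) (ZMod 3)) *ᵥ u)
        (by rw [iso_apply (⇑Q)]; exact hu0) := by
    rw [rI_conj Q (rI Q v hv0) u hu0, mul_assoc, rI_sq, mul_one]
  rw [h1, h2]
  have hε0 : c⁻¹ * QuadraticMap.polar ⇑Q u v ≠ 0 := mul_ne_zero (inv_ne_zero hc) huv
  have hεε : (c⁻¹ * QuadraticMap.polar ⇑Q u v) * (c⁻¹ * QuadraticMap.polar ⇑Q u v) = 1 :=
    (by decide : ∀ e : ZMod 3, e ≠ 0 → e * e = 1) _ hε0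
  have e1 : ((rI Q u hu0 : GL (Fin n) (ZMod 3)) : Matrix (Fin n) (Fin n) (ZMod 3)) *ᵥ v
      = v - (c⁻¹ * QuadraticMap.polar ⇑Q u v) • u := by rw [rI_mulVec, hu]
  have e2 : ((rI Q v hv0 : GL (Fin n) (ZMod 3)) : Matrix (Fin n) (Fin n) (ZMod 3)) *ᵥ u
      = u - (c⁻¹ * QuadraticMap.polar ⇑Q u v) • v := by
    rw [rI_mulVec, hv, QuadraticMap.polar_comm]
  apply rI_smul Q _ _ _ _ (-(c⁻¹ * QuadraticMap.polar ⇑Q u v)) (neg_ne_zero.mpr hε0)
  rw [e1, e2, smul_sub, smul_smul, neg_mul, hεε, neg_smul, neg_smul, one_smul]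
  abel

/-- Let Q be a non-degenerate quadratic form on the n-dimensional coordinate space over the field with three elements, n ≥ 5, and c a non-zero scalar. In the subgroup of the isometry group of Q generated by the reflections in vectors v with Q(v) = c, these reflections form a single conjugacy class of 3-transpositions generating that subgroup. -/
theorem result (n : ℕ) (hn : 5 ≤ n) (Q : QuadraticForm (ZMod 3) (Fin n → ZMod 3)) (hQ : (QuadraticMap.polarBilin Q).Nondegenerate) (c : ZMod 3) (hc : c ≠ 0) : Cfsg.IsThreeTranspositionClass {g : ↥(Cfsg.reflectionSubgroup (⇑Q) c) | (g : ↥(Cfsg.isometryGroup (ZMod 3) (⇑Q))) ∈ Cfsg.reflectionsOfNorm (⇑Q) c} := by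
  classical
  have hne : ∀ v : Fin n → ZMod 3, Q v = c → Q v ≠ 0 := fun v hv => by rw [hv]; exact hc
  have hD : ∀ g : Cfsg.isometryGroup (ZMod 3) ⇑Q, g ∈ Cfsg.reflectionsOfNorm (⇑Q) c ↔
      ∃ v, ∃ hv : Q v = c, g = rI Q v (hne v hv) := by
    intro g
    constructor
    · rintro ⟨v, hv, hg⟩
      exact ⟨v, hv, Subtype.ext (Units.ext hg)⟩
    · rintro ⟨v, hv, rfl⟩
      exact ⟨v, hv, rfl⟩
  have hmemR : ∀ v (hv : Q v = c), rI Q v (hne v hv) ∈ Cfsg.reflectionSubgroup (⇑Q) c :=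
    fun v hv => Subgroup.subset_closure ((hD _).2 ⟨v, hv, rfl⟩)
  have hsq : ∀ v (hv : Q v = c), rI Q v (hne v hv) * rI Q v (hne v hv) = 1 :=
    fun v hv => rI_sq Q v _
  have hne1 : ∀ v (hv : Q v = c), rI Q v (hne v hv) ≠ 1 := by
    intro v hv h1
    have h4 : (((rI Q v (hne v hv) : Cfsg.isometryGroup (ZMod 3) ⇑Q) : GL (Fin n) (ZMod 3)) :
        Matrix (Fin n) (Fin n) (ZMod 3)) *ᵥ v = -v := reflection_self Q v (hne v hv)
    rw [h1] at h4
    have h5 : v = -v := by simpa using h4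
    have h6 : v = 0 := by
      funext i
      have := congrFun h5 i
      exact (by decide : ∀ a : ZMod 3, a = -a → a = 0) (v i) this
    apply hne v hv
    rw [h6, map_zero]
  refine ⟨⟨?_, ?_⟩, ?_, ?_⟩
  · rintro ⟨d, hdR⟩ hd
    obtain ⟨v, hv, rfl⟩ := (hD d).1 hd
    rw [← Subgroup.orderOf_coe]
    show orderOf (rI Q v (hne v hv)) = 2
    apply orderOf_eq_prime
    · rw [pow_two]; exact hsq v hv
    · exact hne1 v hv
  · rintro ⟨d, hdR⟩ hd ⟨e, heR⟩ he
    obtain ⟨u, hu, rfl⟩ := (hD d).1 hd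
    obtain ⟨v, hv, rfl⟩ := (hD e).1 he
    by_cases huv : QuadraticMap.polar ⇑Q u v = 0
    · left
      apply Subtype.ext
      exact grp_sq _ _ (hsq u hu) (hsq v hv) (comm_of_orth Q u v _ _ huv)
    · right
      apply Subtype.ext
      exact grp_cube _ _ (hsq u hu) (hsq v hv) (braid Q c hc u v hu hv _ _ huv)
  · obtain ⟨v0, hv0⟩ := E1 Q hQ hn c hc
    have hconj : ∀ u v (hu : Q u = c) (hv : Q v = c), QuadraticMap.polar ⇑Q u v ≠ 0 →
        IsConj (⟨rI Q u (hne u hu), hmemR u hu⟩ : Cfsg.reflectionSubgroup (⇑Q) c)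
          ⟨rI Q v (hne v hv), hmemR v hv⟩ := by
      intro u v hu hv huv
      rw [isConj_iff]
      refine ⟨⟨rI Q u (hne u hu), hmemR u hu⟩ * ⟨rI Q v (hne v hv), hmemR v hv⟩, ?_⟩
      apply Subtype.ext
      exact grp_conj _ _ (hsq u hu) (hsq v hv) (braid Q c hc u v hu hv _ _ huv)
    have hconj2 : ∀ u v (hu : Q u = c) (hv : Q v = c),
        IsConj (⟨rI Q u (hne u hu), hmemR u hu⟩ : Cfsg.reflectionSubgroup (⇑Q) c)
          ⟨rI Q v (hne v hv), hmemR v hv⟩ := by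
      intro u v hu hv
      by_cases huv : QuadraticMap.polar ⇑Q u v = 0
      · obtain ⟨w, hw, h1, h2⟩ := E2 Q hQ hn c hc u v hu hv huv
        refine (hconj u w hu hw h1).trans (hconj w v hw hv ?_)
        rw [QuadraticMap.polar_comm]; exact h2
      · exact hconj u v hu hv huv
    refine ⟨⟨rI Q v0 (hne v0 hv0), hmemR v0 hv0⟩, (hD _).2 ⟨v0, hv0, rfl⟩, ?_⟩
    ext ⟨g, hgR⟩
    constructor
    · intro hg
      obtain ⟨w, hw, rfl⟩ := (hD g).1 hg
      exact hconj2 v0 w hv0 hw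
    · intro hg
      obtain ⟨k, hk⟩ := isConj_iff.1 hg
      have hk' : (k : Cfsg.isometryGroup (ZMod 3) ⇑Q) * rI Q v0 (hne v0 hv0)
          * (k : Cfsg.isometryGroup (ZMod 3) ⇑Q)⁻¹ = g := congrArg Subtype.val hk
      refine (hD g).2 ⟨(((k : Cfsg.isometryGroup (ZMod 3) ⇑Q) : GL (Fin n) (ZMod 3)) :
        Matrix (Fin n) (Fin n) (ZMod 3)) *ᵥ v0, by rw [iso_apply (⇑Q)]; exact hv0, ?_⟩
      rw [← hk', rI_conj, mul_assoc, mul_inv_cancel, mul_one]
  · exact Subgroup.closure_closure_coe_preimage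

end Cfsg.Agent.S5357
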