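import Cfsg.Statements.S5363
-- import your own Cfsg.Agent.* helpers here

set_option autoImplicit false
open Cfsg

namespace Cfsg.Agent.S5363

theorem odd_sq_inj {G : Type*} [Group G] {x z : G} (hx : Odd (orderOf x)) (hz : Odd (orderOf z))
    (h : x ^ 2 = z ^ 2) : x = z := by
  obtain ⟨k, hk⟩ := hx
  have h1 : x = (x ^ 2) ^ (k + 1) := by
    rw [← pow_mul]
    have : 2 * (k + 1) = orderOf x + 1 := by omega
    rw [this, pow_succ, pow_orderOf_eq_one, one_mul]
  have h2 : z ^ (2 * orderOf x) = 1 := by
    rw [pow_mul, ← h, ← pow_mul, mul_comm, pow_mul, pow_orderOf_eq_one, one_pow]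
  have h3 : orderOf z ∣ 2 * orderOf x := orderOf_dvd_of_pow_eq_one h2
  have h4 : orderOf z ∣ orderOf x := by
    have hc : Nat.Coprime (orderOf z) 2 := Nat.Coprime.symm (Nat.coprime_two_left.mpr hz)
    exact hc.dvd_of_dvd_mul_left h3
  have h5 : z ^ orderOf x = 1 := orderOf_dvd_iff_pow_eq_one.mp h4
  have h6 : z = (z ^ 2) ^ (k + 1) := by
    rw [← pow_mul]
    have : 2 * (k + 1) = orderOf x + 1 := by omega
    rw [this, pow_succ, h5, one_mul]
  rw [h1, h6, h]

/-- Let D be a conjugation-invariant set of involutions of a finite group G. Then every product of two members of D has odd order or order 2 if and only if, for every a in D and every b in D different from a and commuting with a, the members of D commuting with a b are exactly those commuting with both a and b. -/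
theorem result {G : Type*} [Group G] [Finite G] {D : Set G} (hinv : ∀ d ∈ D, orderOf d = 2) (hconj : ∀ g : G, ∀ d ∈ D, g * d * g⁻¹ ∈ D) : (∀ a ∈ D, ∀ b ∈ D, Odd (orderOf (a * b)) ∨ orderOf (a * b) = 2) ↔ ∀ a ∈ D, ∀ b ∈ D, b ≠ a → Commute a b → {y : G | y ∈ D ∧ Commute (a * b) y} = {y : G | y ∈ D ∧ Commute a y} ∩ {y : G | y ∈ D ∧ Commute b y} := by
  have sq : ∀ d ∈ D, d * d = 1 := by
    intro d hd
    have h := pow_orderOf_eq_one d
    rw [hinv d hd, pow_two] at h; exact h
  have inv : ∀ d ∈ D, d⁻¹ = d := fun d hd => inv_eq_of_mul_eq_one_right (sq d hd)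
  constructor
  · intro hodd a ha b hb hba hab
    have haa := sq a ha
    have hbb := sq b hb
    ext y
    constructor
    · rintro ⟨hy, hc⟩
      have hyy := sq y hy
      -- a y a = b y b
      have h1 : a * y * a = b * y * b := by
        have e1 : a * b * y = y * (a * b) := hc.eq
        have e2 : a * b = b * a := hab.eq
        calc a * y * a = a * y * a * (b * b) := by rw [hbb, mul_one]
          _ = a * (y * (a * b)) * b := by group
          _ = a * (a * b * y) * b := by rw [e1]
          _ = (a * a) * b * y * b := by group
          _ = b * y * b := by rw [haa, one_mul]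
      have h2 : (y * a) ^ 2 = (y * b) ^ 2 := by
        rw [pow_two, pow_two]
        calc y * a * (y * a) = y * (a * y * a) := by group
          _ = y * (b * y * b) := by rw [h1]
          _ = y * b * (y * b) := by group
      have comm_of_two : ∀ z ∈ D, orderOf (y * z) = 2 → Commute y z := by
        intro z hz ho
        have h := pow_orderOf_eq_one (y * z)
        rw [ho, pow_two] at h
        have h3 : y * z = (y * z)⁻¹ := eq_inv_of_mul_eq_one_left h
        rw [mul_inv_rev, inv y hy, inv z hz] at h3
        exact h3
      have key : Commute y a := by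
        rcases hodd y hy a ha with hoa | hoa
        · rcases hodd y hy b hb with hob | hob
          · -- both odd: y a = y b, contradiction
            exfalso
            apply hba
            have h3 : y * a = y * b := odd_sq_inj hoa hob h2
            exact (mul_left_cancel h3).symm
          · have hyb := comm_of_two b hb hob
            have : (y * a) ^ 2 = 1 := by
              rw [h2, pow_two]
              calc y * b * (y * b) = y * (b * y) * b := by group
                _ = y * (y * b) * b := by rw [hyb.eq]
                _ = (y * y) * (b * b) := by group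
                _ = 1 := by rw [hyy, hbb, one_mul]
            have h3 : y * a = (y * a)⁻¹ := by
              rw [pow_two] at this
              exact eq_inv_of_mul_eq_one_left this
            rw [mul_inv_rev, inv y hy, inv a ha] at h3
            exact h3
        · exact comm_of_two a ha hoa
      refine ⟨⟨hy, key.symm⟩, hy, ?_⟩
      show b * y = y * b
      have e1 : a * b * y = y * (a * b) := hc.eq
      have e2 : y * a = a * y := key.eq
      apply mul_left_cancel (a := a)
      calc a * (b * y) = a * b * y := by group
        _ = y * (a * b) := e1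
        _ = (y * a) * b := by group
        _ = a * (y * b) := by rw [e2]; group
    · rintro ⟨⟨hy, h1⟩, -, h2⟩
      exact ⟨hy, h1.mul_left h2⟩
  · intro hC a ha b hb
    have haa := sq a ha
    have hbb := sq b hb
    have hainv := inv a ha
    have hbinv := inv b hb
    by_cases hodd : Odd (orderOf (a * b))
    · left; exact hodd
    right
    have hn0 : 0 < orderOf (a * b) := orderOf_pos (a * b)
    obtain ⟨k, hk⟩ := Nat.not_odd_iff_even.mp hodd
    have hk' : orderOf (a * b) = 2 * k := by omega
    by_contra hne
    have hk2 : 2 ≤ k := by omega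
    set u := (a * b) ^ k with hu
    have hu1 : u ≠ 1 := by
      apply pow_ne_one_of_lt_orderOf (by omega)
      omega
    have huu : u * u = 1 := by
      rw [hu, ← pow_add, ← two_mul, ← hk', pow_orderOf_eq_one]
    have huinv : u⁻¹ = u := inv_eq_of_mul_eq_one_right huu
    have hPk : ∀ j : ℕ, a * (a * b) ^ j ∈ D ∧ a * (a * b) ^ (j + 1) ∈ D := by
      intro j
      induction j with
      | zero =>
        refine ⟨by simpa using ha, ?_⟩
        have : a * (a * b) ^ (0 + 1) = b := by
          rw [zero_add, pow_one, ← mul_assoc, haa, one_mul]
        rw [this]; exact hb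
      | succ j ih =>
        refine ⟨ih.2, ?_⟩
        have h1 := hconj (b * a) _ ih.1
        have : b * a * (a * (a * b) ^ j) * (b * a)⁻¹ = a * (a * b) ^ (j + 1 + 1) := by
          rw [mul_inv_rev, hainv, hbinv]
          calc b * a * (a * (a * b) ^ j) * (a * b) = b * (a * a) * ((a * b) ^ j * (a * b)) := by group
            _ = b * (a * b) ^ (j + 1) := by rw [haa, mul_one, ← pow_succ]
            _ = (a * a) * b * (a * b) ^ (j + 1) := by rw [haa, one_mul]
            _ = a * ((a * b) * (a * b) ^ (j + 1)) := by simp only [mul_assoc]
            _ = a * (a * b) ^ (j + 1 + 1) := by rw [← pow_succ']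
        rw [this] at h1; exact h1
    have ha' : a * u ∈ D := (hPk k).1
    have hau : a * u * a⁻¹ = u := by
      rw [hu, ← conj_pow]
      have : a * (a * b) * a⁻¹ = (a * b)⁻¹ := by
        rw [mul_inv_rev, hainv, hbinv, ← mul_assoc, haa, one_mul]
      rw [this, inv_pow, ← hu, huinv]
    have hbu : b * u * b⁻¹ = u := by
      rw [hu, ← conj_pow]
      have : b * (a * b) * b⁻¹ = (a * b)⁻¹ := by
        rw [mul_inv_rev, hainv, hbinv, mul_assoc, mul_assoc, hbb, mul_one]
      rw [this, inv_pow, ← hu, huinv]
    have hcau : a * u = u * a := by
      calc a * u = a * u * a⁻¹ * a := by group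
        _ = u * a := by rw [hau]
    have hcbu : b * u = u * b := by
      calc b * u = b * u * b⁻¹ * b := by group
        _ = u * b := by rw [hbu]
    have hne' : a * u ≠ a := by
      intro h
      apply hu1
      have := mul_left_cancel (h.trans (mul_one a).symm)
      exact this
    have hcomm : Commute a (a * u) := by
      show a * (a * u) = a * u * a
      rw [mul_assoc, hcau]
    have hset := hC a ha (a * u) ha' hne' hcomm
    have hb' : b ∈ {y : G | y ∈ D ∧ Commute (a * (a * u)) y} := by
      refine ⟨hb, ?_⟩
      rw [← mul_assoc, haa, one_mul]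
      exact hcbu.symm
    rw [hset] at hb'
    have hab : Commute a b := hb'.1.2
    have h2 : (a * b) ^ 2 = 1 := by
      rw [pow_two]
      calc a * b * (a * b) = a * (b * a) * b := by group
        _ = a * (a * b) * b := by rw [hab.eq]
        _ = (a * a) * (b * b) := by group
        _ = 1 := by rw [haa, hbb, one_mul]
    have := orderOf_dvd_of_pow_eq_one h2
    rw [hk'] at this
    have := Nat.le_of_dvd (by norm_num) this
    omega

end Cfsg.Agent.S5363
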