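import Cfsg.Statements.S5364
-- import your own Cfsg.Agent.* helpers here

set_option autoImplicit false
open Cfsg

namespace Cfsg.Agent.S5364

/-- Let D be a conjugation-invariant set of involutions of a finite group G and t an involution in the centre of G such that d t does not lie in D for any d in D. If the images of the members of D in G modulo the subgroup generated by t satisfy the 3-transposition order conditions (each has order 2 and any two have product of order at most 3), then so do the members of D. -/
theorem result {G : Type*} [Group G] [Finite G] {D : Set G} (hinv : ∀ d ∈ D, orderOf d = 2) (hconj : ∀ g : G, ∀ d ∈ D, g * d * g⁻¹ ∈ D) (t : G) (ht : orderOf t = 2) (htZ : t ∈ Subgroup.center G) (hDt : ∀ d ∈ D, d * t ∉ D) [(Subgroup.zpowers t).Normal] (himg : Cfsg.IsThreeTranspositionSet ((QuotientGroup.mk : G → G ⧸ Subgroup.zpowers t) '' D)) : Cfsg.IsThreeTranspositionSet D := by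
  have sq : ∀ d ∈ D, d * d = 1 := by
    intro d hd
    have h := pow_orderOf_eq_one d
    rw [hinv d hd, pow_two] at h; exact h
  have inv : ∀ d ∈ D, d⁻¹ = d := fun d hd => inv_eq_of_mul_eq_one_right (sq d hd)
  have htt : t * t = 1 := by
    have h := pow_orderOf_eq_one t
    rw [ht, pow_two] at h; exact h
  have htc : ∀ g : G, t * g = g * t := fun g => (Subgroup.mem_center_iff.mp htZ g).symm
  have hmem : ∀ x : G, x ∈ Subgroup.zpowers t → x = 1 ∨ x = t := by
    intro x hx
    obtain ⟨k, rfl⟩ := Subgroup.mem_zpowers_iff.mp hx
    rcases Int.even_or_odd k with ⟨m, rfl⟩ | ⟨m, rfl⟩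
    · left
      rw [← two_mul, zpow_mul, zpow_ofNat, pow_two, htt, one_zpow]
    · right
      rw [zpow_add, zpow_mul, zpow_ofNat, pow_two, htt, one_zpow, one_mul, zpow_one]
  refine ⟨hinv, ?_⟩
  intro d hd e he
  have hde := himg.2 _ (Set.mem_image_of_mem _ hd) _ (Set.mem_image_of_mem _ he)
  have hx : e * d * e⁻¹ ∈ D := hconj e d hd
  have hy : d * e * d⁻¹ ∈ D := hconj d e he
  rw [inv e he] at hx
  rw [inv d hd] at hy
  rcases hde with h | h
  · left
    have h1 : (d * e) ^ 2 ∈ Subgroup.zpowers t := by
      rw [← QuotientGroup.eq_one_iff]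
      simpa using h
    rcases hmem _ h1 with h2 | h2
    · exact h2
    · exfalso
      apply hDt d hd
      have : d * t = e * d * e := by
        rw [← h2, pow_two]
        calc d * (d * e * (d * e)) = (d * d) * (e * d * e) := by group
          _ = e * d * e := by rw [sq d hd, one_mul]
      rw [this]; exact hx
  · right
    have h1 : (d * e) ^ 3 ∈ Subgroup.zpowers t := by
      rw [← QuotientGroup.eq_one_iff]
      simpa using h
    rcases hmem _ h1 with h2 | h2
    · exact h2
    · exfalso
      apply hDt (e * d * e) hx
      have : e * d * e * t = d * e * d := by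
        have hxx := sq _ hx
        rw [← htc, ← h2]
        calc (d * e) ^ 3 * (e * d * e) = (d * e * d) * ((e * d * e) * (e * d * e)) := by
              rw [pow_succ, pow_two]; group
          _ = d * e * d := by rw [hxx, mul_one]
      rw [this]; exact hy

end Cfsg.Agent.S5364
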