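import Cfsg.Statements.S5394
import Cfsg.Agent.Lib_lead_Cls2
import Cfsg.Agent.Lib_lead_M24Oct

set_option autoImplicit false
open Cfsg

namespace Cfsg.Agent.S5394

/-- The automorphism group of the length-24 code built from the squares modulo 23 has exactly two conjugacy classes of involutions: an involution either fixes exactly the eight points of an octad or has no fixed points, both kinds occur, and any two involutions of the same kind are conjugate in the group. -/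
theorem result : (∀ g ∈ Cfsg.M24, orderOf g = 2 → (Finset.univ.filter fun p => g p = p) ∈ Cfsg.octads ∨ ∀ p, g p ≠ p) ∧ (∃ g ∈ Cfsg.M24, orderOf g = 2 ∧ (Finset.univ.filter fun p => g p = p) ∈ Cfsg.octads) ∧ (∃ g ∈ Cfsg.M24, orderOf g = 2 ∧ ∀ p, g p ≠ p) ∧ ∀ g ∈ Cfsg.M24, ∀ h ∈ Cfsg.M24, orderOf g = 2 → orderOf h = 2 → ((∀ p, g p ≠ p) ↔ (∀ p, h p ≠ p)) → ∃ k ∈ Cfsg.M24, k * g * k⁻¹ = h := by
  open Cfsg.Agent.Lib_lead_Cls Cfsg.Agent.Lib_lead_ClsData Cfsg.Agent.Lib_lead_Cls2 in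
  refine ⟨?_, ?_, ?_, ?_⟩
  · intro g hg ho
    obtain ⟨h2, h1⟩ := of_order ho (by norm_num)
    rcases inv_fix g hg h2 h1 with ⟨σ, hσ, -, hF⟩ | ⟨σ, hσ, -, hF⟩
    · left
      show Fx g ∈ Cfsg.octads
      rw [hF]
      exact Cfsg.Agent.Lib_lead_M24Chain.smul_mem_weight (Cfsg.M24.inv_mem hσ)
        Cfsg.Agent.Lib_lead_M24Oct.root_octad
    · right
      exact (fpf_iff g).mpr hF
  · refine ⟨P zA, P_mem zA_ok, zA_ord, ?_⟩
    show Fx (P zA) ∈ Cfsg.octads
    rw [zA_fix]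
    exact Cfsg.Agent.Lib_lead_M24Oct.root_octad
  · exact ⟨P zB, P_mem zB_ok, zB_ord, zB_fpf⟩
  · intro g hg h hh hog hoh hiff
    obtain ⟨g2, g1⟩ := of_order hog (by norm_num)
    obtain ⟨h2, h1⟩ := of_order hoh (by norm_num)
    rcases inv_fix g hg g2 g1 with ⟨σ, hσ, e1, hF⟩ | ⟨σ, hσ, e1, hF⟩ <;>
    rcases inv_fix h hh h2 h1 with ⟨τ, hτ, e2, hF'⟩ | ⟨τ, hτ, e2, hF'⟩
    · exact conj_same hσ hτ e1 e2
    · exfalso
      have hg0 : Fx g = ∅ := (fpf_iff g).mp (hiff.mpr ((fpf_iff h).mpr hF'))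
      have hc := congrArg Finset.card hg0
      rw [hF, Finset.card_smul_finset, c3277413] at hc
      simp at hc
    · exfalso
      have hg0 : Fx h = ∅ := (fpf_iff h).mp (hiff.mp ((fpf_iff g).mpr hF))
      have hc := congrArg Finset.card hg0
      rw [hF', Finset.card_smul_finset, c3277413] at hc
      simp at hc
    · exact conj_same hσ hτ e1 e2

end Cfsg.Agent.S5394
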