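import Cfsg.Statements.S5459
import Cfsg.Agent.Lib_lead_CommGraphLift

set_option autoImplicit false
open Cfsg

namespace Cfsg.Agent.S5459

/-- Let G be a finite group with a quasisimple normal subgroup L and an involution d such that G is generated by L and d, the centre of L has odd order, and d inverts every element of the centre of L. If the commuting graph on the conjugacy class of the image of d in G modulo the centre of L is connected, then the commuting graph on the conjugacy class of d is connected. -/
theorem result {G : Type*} [Group G] [Finite G] (L : Subgroup G) [L.Normal] (hL : Cfsg.IsQuasisimple ↥L) (d : G) (hd : orderOf d = 2) (hgen : L ⊔ Subgroup.zpowers d = ⊤) (hodd : Odd (Nat.card ↥(Subgroup.center ↥L))) (hinv : ∀ c ∈ (Subgroup.center ↥L).map L.subtype, d * c * d⁻¹ = c⁻¹) [hn : ((Subgroup.center ↥L).map L.subtype).Normal] (hconn : (Cfsg.commutingGraph (conjugatesOf (QuotientGroup.mk d : G ⧸ (Subgroup.center ↥L).map L.subtype))).Connected) : (Cfsg.commutingGraph (conjugatesOf d)).Connected := by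
  have hdd : d * d = 1 := by
    have h0 := pow_orderOf_eq_one d
    rw [hd, pow_two] at h0
    exact h0
  refine Cfsg.Agent.Lib_lead_CommGraphLift.main ((Subgroup.center ↥L).map L.subtype) L d hdd hgen
    (Nat.card ↥(Subgroup.center ↥L)) hodd ?_ hinv ?_ ?_ ?_ hconn
  · rintro _ ⟨c, hc, rfl⟩
    have h1 : (⟨c, hc⟩ : Subgroup.center ↥L) ^ Nat.card ↥(Subgroup.center ↥L) = 1 :=
      pow_card_eq_one'
    have h2 : c ^ Nat.card ↥(Subgroup.center ↥L) = 1 := by
      have h3 := congrArg Subtype.val h1
      simpa only [Subgroup.coe_pow, Subgroup.coe_one] using h3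
    rw [← map_pow, h2, map_one]
  · rintro _ ⟨c, hc, rfl⟩ l hl
    have h4 := (Subgroup.mem_center_iff.mp hc) ⟨l, hl⟩
    have h5 := congrArg Subtype.val h4
    exact h5.symm
  · rintro _ ⟨c, -, rfl⟩
    exact c.2
  · exact (Subgroup.isPerfect_iff.mp hL.1).ge

end Cfsg.Agent.S5459
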