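import Cfsg.Statements.S5541
import Mathlib

set_option autoImplicit false
open Cfsg

namespace Cfsg.Agent.S5541

/-- Let ρ be a representation of a group H on a finite-dimensional real vector space U whose only ρ-invariant subspaces are the zero subspace and U, and suppose U carries a non-zero ρ-invariant symmetric bilinear form. Then the following are equivalent: (1) there is a non-zero ρ-equivariant commutative bilinear product on U of which every ρ-equivariant bilinear product is a scalar multiple; (2) there is a non-zero ρ-invariant trilinear form on U that is symmetric under all permutations of its arguments and of which every ρ-invariant trilinear form is a scalar multiple. -/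
theorem result {H : Type*} [Group H] {U : Type*} [AddCommGroup U] [Module ℝ U] [FiniteDimensional ℝ U] (ρ : Representation ℝ H U) (hirr : ∀ W : Submodule ℝ U, (∀ g : H, W.map (ρ g) ≤ W) → W = ⊥ ∨ W = ⊤) (B : LinearMap.BilinForm ℝ U) (hB0 : B ≠ 0) (hBs : ∀ u v, B u v = B v u) (hBi : ∀ (g : H) (u v : U), B (ρ g u) (ρ g v) = B u v) : (∃ m : U →ₗ[ℝ] U →ₗ[ℝ] U, m ≠ 0 ∧ (∀ u v, m u v = m v u) ∧ (∀ (g : H) (u v : U), m (ρ g u) (ρ g v) = ρ g (m u v)) ∧ ∀ m' : U →ₗ[ℝ] U →ₗ[ℝ] U, (∀ (g : H) (u v : U), m' (ρ g u) (ρ g v) = ρ g (m' u v)) → ∃ c : ℝ, m' = c • m) ↔ (∃ t : U →ₗ[ℝ] U →ₗ[ℝ] U →ₗ[ℝ] ℝ, t ≠ 0 ∧ (∀ u v w, t u v w = t v u w ∧ t u v w = t u w v) ∧ (∀ (g : H) (u v w : U), t (ρ g u) (ρ g v) (ρ g w) = t u v w) ∧ ∀ t' : U →ₗ[ℝ] U →ₗ[ℝ] U →ₗ[ℝ] ℝ, (∀ (g : H) (u v w : U), t' (ρ g u) (ρ g v) (ρ g w) = t' u v w) → ∃ c : ℝ, t' = c • t) := by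
  have hρinv : ∀ (g : H) (u : U), ρ g (ρ g⁻¹ u) = u := by
    intro g u
    have h : ρ g * ρ g⁻¹ = 1 := by rw [← map_mul, mul_inv_cancel, map_one]
    have h2 := congrArg (fun f : U →ₗ[ℝ] U => f u) h
    exact h2
  have hnd0 : ∀ u : U, (∀ v, B u v = 0) → u = 0 := by
    intro u hu
    obtain ⟨R, hRdef⟩ : ∃ R : Submodule ℝ U, R = LinearMap.ker B := ⟨_, rfl⟩
    have hmemR : ∀ x : U, x ∈ R ↔ ∀ v, B x v = 0 := by
      intro x
      rw [hRdef, LinearMap.mem_ker]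
      constructor
      · intro h v; rw [h]; rfl
      · intro h; exact LinearMap.ext h
    have hR : ∀ g : H, R.map (ρ g) ≤ R := by
      intro g x hx
      obtain ⟨y, hy, rfl⟩ := Submodule.mem_map.mp hx
      rw [hmemR] at hy ⊢
      intro v
      have h1 := hBi g y (ρ g⁻¹ v)
      rw [hρinv] at h1
      rw [h1]; exact hy _
    rcases hirr R hR with h | h
    · have h1 : u ∈ R := (hmemR u).mpr hu
      rw [h] at h1
      exact (Submodule.mem_bot ℝ).mp h1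
    · exfalso
      apply hB0
      ext x y
      have h1 : x ∈ R := by rw [h]; exact Submodule.mem_top
      simpa using (hmemR x).mp h1 y
  have hnd : ∀ a b : U, (∀ w, B a w = B b w) → a = b := by
    intro a b h
    have h1 := hnd0 (a - b) (fun v => by rw [map_sub, LinearMap.sub_apply, h v, sub_self])
    exact sub_eq_zero.mp h1
  have hinj : Function.Injective B := by
    intro a b hab
    exact hnd a b (fun w => by rw [hab])
  obtain ⟨e, he⟩ : ∃ e : U ≃ₗ[ℝ] (U →ₗ[ℝ] ℝ), ∀ u, e u = B u :=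
    ⟨LinearMap.linearEquivOfInjective B hinj (Subspace.dual_finrank_eq).symm, fun u => rfl⟩
  have hPsi : ∀ t : U →ₗ[ℝ] U →ₗ[ℝ] U →ₗ[ℝ] ℝ, ∃ m : U →ₗ[ℝ] U →ₗ[ℝ] U,
      ∀ u v w, B (m u v) w = t u v w := by
    intro t
    refine ⟨t.compr₂ (e.symm : (U →ₗ[ℝ] ℝ) →ₗ[ℝ] U), fun u v w => ?_⟩
    rw [LinearMap.compr₂_apply, ← he]
    simp
  have hPhi : ∀ m : U →ₗ[ℝ] U →ₗ[ℝ] U, ∃ t : U →ₗ[ℝ] U →ₗ[ℝ] U →ₗ[ℝ] ℝ,
      ∀ u v w, t u v w = B (m u v) w :=
    fun m => ⟨m.compr₂ B, fun u v w => rfl⟩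
  have heq_of_inv : ∀ (m : U →ₗ[ℝ] U →ₗ[ℝ] U) (t : U →ₗ[ℝ] U →ₗ[ℝ] U →ₗ[ℝ] ℝ),
      (∀ u v w, B (m u v) w = t u v w) →
      (∀ (g : H) (u v w : U), t (ρ g u) (ρ g v) (ρ g w) = t u v w) →
      ∀ (g : H) (u v : U), m (ρ g u) (ρ g v) = ρ g (m u v) := by
    intro m t hmt hinv g u v
    apply hnd
    intro w
    have h1 := hinv g u v (ρ g⁻¹ w)
    rw [hρinv] at h1
    rw [hmt, h1, ← hmt]
    have h2 := hBi g (m u v) (ρ g⁻¹ w)
    rw [hρinv] at h2
    exact h2.symm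
  have hinv_of_eq : ∀ (m : U →ₗ[ℝ] U →ₗ[ℝ] U) (t : U →ₗ[ℝ] U →ₗ[ℝ] U →ₗ[ℝ] ℝ),
      (∀ u v w, B (m u v) w = t u v w) →
      (∀ (g : H) (u v : U), m (ρ g u) (ρ g v) = ρ g (m u v)) →
      ∀ (g : H) (u v w : U), t (ρ g u) (ρ g v) (ρ g w) = t u v w := by
    intro m t hmt heq g u v w
    rw [← hmt, ← hmt, heq, hBi]
  constructor
  · rintro ⟨m, hm0, hmc, hme, hmu⟩
    obtain ⟨t, ht⟩ := hPhi m
    have hmt : ∀ u v w, B (m u v) w = t u v w := fun u v w => (ht u v w).symm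
    have htinv := hinv_of_eq m t hmt hme
    have ht0 : t ≠ 0 := by
      intro h0
      apply hm0
      ext u v
      have h1 : m u v = 0 := hnd0 _ (fun w => by rw [hmt, h0]; rfl)
      simpa using h1
    have htu : ∀ t' : U →ₗ[ℝ] U →ₗ[ℝ] U →ₗ[ℝ] ℝ,
        (∀ (g : H) (u v w : U), t' (ρ g u) (ρ g v) (ρ g w) = t' u v w) →
        ∃ c : ℝ, t' = c • t := by
      intro t' ht'
      obtain ⟨m', hm'⟩ := hPsi t'
      obtain ⟨c, hc⟩ := hmu m' (heq_of_inv m' t' hm' ht')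
      refine ⟨c, ?_⟩
      ext u v w
      rw [← hm', hc]
      simp [hmt]
    have hsym1 : ∀ u v w, t u v w = t v u w := by
      intro u v w
      rw [← hmt, ← hmt, hmc]
    obtain ⟨t'', ht''⟩ : ∃ t'' : U →ₗ[ℝ] U →ₗ[ℝ] U →ₗ[ℝ] ℝ, ∀ u v w, t'' u v w = t u w v :=
      ⟨((LinearMap.lflip : (U →ₗ[ℝ] U →ₗ[ℝ] ℝ) ≃ₗ[ℝ] (U →ₗ[ℝ] U →ₗ[ℝ] ℝ)) :
          (U →ₗ[ℝ] U →ₗ[ℝ] ℝ) →ₗ[ℝ] (U →ₗ[ℝ] U →ₗ[ℝ] ℝ)).comp t,
        fun u v w => rfl⟩
    obtain ⟨c, hc⟩ := htu t'' (fun g u v w => by rw [ht'', ht'', htinv])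
    have hc' : ∀ u v w, t u w v = c * t u v w := by
      intro u v w
      rw [← ht'', hc]
      simp
    obtain ⟨u0, v0, w0, h0⟩ : ∃ u v w, t u v w ≠ 0 := by
      by_contra hno
      push Not at hno
      apply ht0
      ext u v w
      simpa using hno u v w
    have hcc : c * c = 1 := by
      have h1 := hc' u0 v0 w0
      have h2 := hc' u0 w0 v0
      rw [h1] at h2
      have h3 : (c * c - 1) * t u0 v0 w0 = 0 := by linear_combination -h2
      rcases mul_eq_zero.mp h3 with h4 | h4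
      · linarith
      · exact absurd h4 h0
    have hc1 : c = 1 := by
      rcases mul_self_eq_one_iff.mp hcc with h | h
      · exact h
      · exfalso
        have a1 : ∀ u v w, t u w v = - t u v w := by
          intro u v w; rw [hc', h]; ring
        have b1 := a1 u0 w0 v0
        have b2 := hsym1 u0 w0 v0
        have b3 := a1 w0 v0 u0
        have b4 := hsym1 w0 v0 u0
        have b5 := a1 v0 u0 w0
        have b6 := hsym1 v0 u0 w0
        exact h0 (by linarith)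
    refine ⟨t, ht0, fun u v w => ⟨hsym1 u v w, ?_⟩, htinv, htu⟩
    rw [hc' u v w, hc1, one_mul]
  · rintro ⟨t, ht0, hts, htinv, htu⟩
    obtain ⟨m, hmt⟩ := hPsi t
    have hme := heq_of_inv m t hmt htinv
    refine ⟨m, ?_, ?_, hme, ?_⟩
    · intro h0
      apply ht0
      ext u v w
      rw [← hmt, h0]
      simp
    · intro u v
      apply hnd
      intro w
      rw [hmt, hmt]
      exact (hts u v w).1
    · intro m' hm'
      obtain ⟨t', ht'⟩ := hPhi m'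
      have hmt' : ∀ u v w, B (m' u v) w = t' u v w := fun u v w => (ht' u v w).symm
      obtain ⟨c, hc⟩ := htu t' (hinv_of_eq m' t' hmt' hm')
      refine ⟨c, ?_⟩
      ext u v
      have h1 : m' u v = (c • m) u v := by
        apply hnd
        intro w
        rw [hmt', hc]
        simp [hmt]
      exact h1

end Cfsg.Agent.S5541
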