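import Cfsg.Statements.S5543
import Mathlib

set_option autoImplicit false
open Cfsg

namespace Cfsg.Agent.S5543

/-- Let V be a finite-dimensional real vector space with a commutative bilinear product and a positive-definite symmetric bilinear form that associates with the product and satisfies the Norton inequality (the Majorana setting of the definitions). Let X be a group of linear automorphisms of V in which every element squares to the identity, and suppose every non-identity element x of X is a Majorana involution with an axial vector a(x) of squared length 1, such that for any two distinct non-identity x, y the product a(x) ∘ a(y) equals (1/8)(a(x) + a(y) − a(xy)) (the dihedral subalgebra of type 2A whose third axis belongs to the involution xy). Then X has order at most 4. -/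
theorem result {V : Type*} [AddCommGroup V] [Module ℝ V] [FiniteDimensional ℝ V] (mul : V →ₗ[ℝ] V →ₗ[ℝ] V) (B : LinearMap.BilinForm ℝ V) (hV : Cfsg.Axial.IsMajoranaAmbient mul B) (X : Subgroup (V ≃ₗ[ℝ] V)) (hX : ∀ x ∈ X, x * x = 1) (ax : (V ≃ₗ[ℝ] V) → V) (hax : ∀ x ∈ X, x ≠ 1 → Cfsg.Axial.IsMajoranaPair mul B x (ax x)) (h1 : ∀ x ∈ X, x ≠ 1 → B (ax x) (ax x) = 1) (h2A : ∀ x ∈ X, ∀ y ∈ X, x ≠ 1 → y ≠ 1 → x ≠ y → mul (ax x) (ax y) = (1 / 8 : ℝ) • (ax x + ax y - ax (x * y))) : Nat.card ↥X ≤ 4 := by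
  obtain ⟨hcomm, hsym, hpos, hassoc, -⟩ := hV
  by_contra hcard
  have hesc : ∀ S : Set (V ≃ₗ[ℝ] V), S.Finite → S.ncard ≤ 4 → ∃ z ∈ X, z ∉ S := by
    intro S hS hS4
    by_contra hno
    push Not at hno
    apply hcard
    have hsub : (X : Set (V ≃ₗ[ℝ] V)) ⊆ S := fun z hz => hno z hz
    have e0 : Nat.card ↥X = (X : Set (V ≃ₗ[ℝ] V)).ncard :=
      Nat.card_coe_set_eq (X : Set (V ≃ₗ[ℝ] V))
    rw [e0]
    exact (Set.ncard_le_ncard hsub hS).trans hS4
  obtain ⟨x, hxX, hx1⟩ := hesc {1} (Set.finite_singleton _) (by simp)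
  have hx1' : x ≠ 1 := by simpa using hx1
  obtain ⟨y, hyX, hy⟩ := hesc {1, x} (Set.toFinite _) (by
    have h1 := Set.ncard_insert_le (1 : V ≃ₗ[ℝ] V) {x}
    have h0 : ({x} : Set (V ≃ₗ[ℝ] V)).ncard = 1 := Set.ncard_singleton _
    omega)
  have hy' : y ≠ 1 ∧ y ≠ x := by simpa using hy
  obtain ⟨z, hzX, hz⟩ := hesc {1, x, y, x * y} (Set.toFinite _) (by
    have h3 := Set.ncard_insert_le (1 : V ≃ₗ[ℝ] V) {x, y, x * y}
    have h2 := Set.ncard_insert_le x ({y, x * y} : Set (V ≃ₗ[ℝ] V))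
    have h1 := Set.ncard_insert_le y ({x * y} : Set (V ≃ₗ[ℝ] V))
    have h0 : ({x * y} : Set (V ≃ₗ[ℝ] V)).ncard = 1 := Set.ncard_singleton _
    omega)
  have hz' : z ≠ 1 ∧ z ≠ x ∧ z ≠ y ∧ z ≠ x * y := by simpa using hz
  have hxx : x * x = 1 := hX x hxX
  have hyy : y * y = 1 := hX y hyX
  have comm : ∀ g ∈ X, ∀ h ∈ X, g * h = h * g := by
    intro g hg h hh
    have e1 : g⁻¹ = g := inv_eq_of_mul_eq_one_left (hX g hg)
    have e2 : h⁻¹ = h := inv_eq_of_mul_eq_one_left (hX h hh)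
    have e3 : (g * h)⁻¹ = g * h := inv_eq_of_mul_eq_one_left (hX _ (X.mul_mem hg hh))
    calc g * h = (g * h)⁻¹ := e3.symm
      _ = h⁻¹ * g⁻¹ := mul_inv_rev g h
      _ = h * g := by rw [e1, e2]
  have hxy : x * y = y * x := comm x hxX y hyX
  have cancel : ∀ t : V ≃ₗ[ℝ] V, x * (x * t) = t := fun t => by rw [← mul_assoc, hxx, one_mul]
  have cancely : ∀ t : V ≃ₗ[ℝ] V, y * (y * t) = t := fun t => by rw [← mul_assoc, hyy, one_mul]
  have pX : x * y ∈ X := X.mul_mem hxX hyX
  have qX : x * z ∈ X := X.mul_mem hxX hzX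
  have rX : y * z ∈ X := X.mul_mem hyX hzX
  have sX : x * (y * z) ∈ X := X.mul_mem hxX rX
  have hp1 : x * y ≠ 1 := fun h => hy'.2 (by rw [← cancel y, h, mul_one])
  have hxp : x ≠ x * y := fun h => hy'.1 (mul_left_cancel (h.symm.trans (mul_one x).symm))
  have hq1 : x * z ≠ 1 := fun h => hz'.2.1 (by rw [← cancel z, h, mul_one])
  have hxq : x ≠ x * z := fun h => hz'.1 (mul_left_cancel (h.symm.trans (mul_one x).symm))
  have hyq : y ≠ x * z := fun h => hz'.2.2.2 (by rw [← cancel z, ← h])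
  have hpq : x * y ≠ x * z := fun h => hz'.2.2.1 (mul_left_cancel h).symm
  have hr1 : y * z ≠ 1 := fun h => hz'.2.2.1 (by rw [← cancely z, h, mul_one])
  have hxr : x ≠ y * z := fun h => hz'.2.2.2 (by rw [← cancely z, ← h, hxy])
  have hs1 : x * (y * z) ≠ 1 := fun h => hxr (by rw [← cancel (y * z), h, mul_one])
  have hxs : x ≠ x * (y * z) := fun h => hr1 (mul_left_cancel (h.symm.trans (mul_one x).symm))
  have hrs : y * z ≠ x * (y * z) := fun h => hx1' (mul_right_cancel ((one_mul _).trans h)).symm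
  have E1 := h2A x hxX y hyX hx1' hy'.1 (fun h => hy'.2 h.symm)
  have E2 := h2A x hxX (x * y) pX hx1' hp1 hxp
  rw [cancel y] at E2
  have E3 := h2A x hxX z hzX hx1' hz'.1 (fun h => hz'.2.1 h.symm)
  have E4 := h2A x hxX (x * z) qX hx1' hq1 hxq
  rw [cancel z] at E4
  have E5 := h2A y hyX z hzX hy'.1 hz'.1 (fun h => hz'.2.2.1 h.symm)
  have E6 := h2A y hyX (x * z) qX hy'.1 hq1 hyq
  rw [show y * (x * z) = x * (y * z) from by rw [← mul_assoc, ← hxy, mul_assoc]] at E6
  have E7 := h2A (x * y) pX z hzX hp1 hz'.1 (fun h => hz'.2.2.2 h.symm)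
  rw [show x * y * z = x * (y * z) from mul_assoc x y z] at E7
  have E8 := h2A (x * y) pX (x * z) qX hp1 hq1 hpq
  rw [show x * y * (x * z) = y * z from by rw [hxy, mul_assoc, cancel]] at E8
  have E9 := h2A x hxX (y * z) rX hx1' hr1 hxr
  have E10 := h2A x hxX (x * (y * z)) sX hx1' hs1 hxs
  rw [cancel (y * z)] at E10
  have E11 := h2A (y * z) rX (x * (y * z)) sX hr1 hs1 hrs
  rw [show y * z * (x * (y * z)) = x from by
    rw [comm x hxX (y * z) rX, ← mul_assoc, hX _ rX, one_mul]] at E11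
  -- eigenvectors of `ax x`
  have hv1 : ax y - ax (x * y) ∈ Cfsg.Axial.eigen mul (ax x) (1 / 4) := by
    unfold Cfsg.Axial.eigen
    rw [Module.End.mem_eigenspace_iff, map_sub, E1, E2]
    module
  have hv2 : ax z - ax (x * z) ∈ Cfsg.Axial.eigen mul (ax x) (1 / 4) := by
    unfold Cfsg.Axial.eigen
    rw [Module.End.mem_eigenspace_iff, map_sub, E3, E4]
    module
  have hw : mul (ax x) (ax (y * z) - ax (x * (y * z)))
      = (1 / 4 : ℝ) • (ax (y * z) - ax (x * (y * z))) := by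
    rw [map_sub, E9, E10]
    module
  have hprod : mul (ax y - ax (x * y)) (ax z - ax (x * z))
      = (-1 / 4 : ℝ) • (ax (y * z) - ax (x * (y * z))) := by
    simp only [map_sub, LinearMap.sub_apply]
    rw [E5, E6, E7, E8]
    module
  obtain ⟨-, -, ⟨⟨-, -, -, hfus⟩, -⟩, -⟩ := hax x hxX hx1'
  have hS : (1 / 4 : ℝ) ∈ Cfsg.Axial.majoranaSpectrum := by
    unfold Cfsg.Axial.majoranaSpectrum
    simp
  have hlaw : Cfsg.Axial.monsterLaw (1 / 4 : ℝ) (1 / 32) (1 / 4) (1 / 4) = {1, 0} := by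
    unfold Cfsg.Axial.monsterLaw
    norm_num
  have hmem := hfus (1 / 4) hS (1 / 4) hS _ hv1 _ hv2
  rw [hlaw, hprod] at hmem
  unfold Cfsg.Axial.eigenSum at hmem
  rw [iSup_insert, iSup_singleton] at hmem
  obtain ⟨u1, hu1, u0, hu0, hsum⟩ := Submodule.mem_sup.mp hmem
  unfold Cfsg.Axial.eigen at hu1 hu0
  rw [Module.End.mem_eigenspace_iff] at hu1 hu0
  -- orthogonality
  have orth : ∀ (c : ℝ) (u : V), c ≠ 1 / 4 → mul (ax x) u = c • u →
      B (ax (y * z) - ax (x * (y * z))) u = 0 := by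
    intro c u hc hu
    have h1 : B (ax (y * z) - ax (x * (y * z))) (mul (ax x) u)
        = B (mul (ax (y * z) - ax (x * (y * z))) (ax x)) u := hassoc _ _ _
    rw [hcomm (ax (y * z) - ax (x * (y * z))) (ax x), hw, hu] at h1
    simp only [map_smul, LinearMap.smul_apply, smul_eq_mul] at h1
    have h2 : (c - 1 / 4) * B (ax (y * z) - ax (x * (y * z))) u = 0 := by linarith
    rcases mul_eq_zero.mp h2 with h3 | h3
    · exact absurd (sub_eq_zero.mp h3) hc
    · exact h3
  have o1 := orth 1 u1 (by norm_num) hu1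
  have o0 := orth 0 u0 (by norm_num) hu0
  have hww : B (ax (y * z) - ax (x * (y * z))) (ax (y * z) - ax (x * (y * z))) = 0 := by
    have h1 : B (ax (y * z) - ax (x * (y * z)))
        ((-1 / 4 : ℝ) • (ax (y * z) - ax (x * (y * z)))) = 0 := by
      rw [← hsum, map_add, o1, o0, add_zero]
    simp only [map_smul, smul_eq_mul] at h1
    linarith
  have hw0 : ax (y * z) - ax (x * (y * z)) = 0 := by
    by_contra hne
    have := hpos _ hne
    linarith
  have hrs' : ax (x * (y * z)) = ax (y * z) := (sub_eq_zero.mp hw0).symm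
  obtain ⟨-, -, ⟨⟨-, hidem, -, -⟩, -⟩, -⟩ := hax (y * z) rX hr1
  rw [hrs', hidem] at E11
  have h8 : (8 : ℝ) • ax (y * z) = ax (y * z) + ax (y * z) - ax x := by
    conv_lhs => rw [E11]
    rw [smul_smul]
    norm_num
  have hA : ax x = (-6 : ℝ) • ax (y * z) := by
    have h9 : ax x = ax (y * z) + ax (y * z) - (8 : ℝ) • ax (y * z) := by
      rw [h8]; abel
    rw [h9]; module
  have n1 := h1 x hxX hx1'
  have n2 := h1 (y * z) rX hr1
  rw [hA] at n1
  simp only [map_smul, LinearMap.smul_apply, smul_eq_mul] at n1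
  rw [n2] at n1
  norm_num at n1

end Cfsg.Agent.S5543
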