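import Cfsg.Statements.S5601
import Cfsg.Agent.Lib_lead_Cls3

set_option autoImplicit false
open scoped Pointwise
open Cfsg

namespace Cfsg.Agent.S5601

/-- The group of the length-24 code has exactly two conjugacy classes of subgroups of order 3: a subgroup of order 3 fixes either exactly 6 of the 24 points or none of them, both cases occur, and two subgroups of order 3 with the same number of fixed points are conjugate. -/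
theorem result : (∀ X : Subgroup ↥Cfsg.M24, Nat.card X = 3 → {p : Cfsg.GolayPt | ∀ x ∈ X, ((x : ↥Cfsg.M24) : Equiv.Perm Cfsg.GolayPt) p = p}.ncard = 6 ∨ {p : Cfsg.GolayPt | ∀ x ∈ X, ((x : ↥Cfsg.M24) : Equiv.Perm Cfsg.GolayPt) p = p}.ncard = 0) ∧ (∃ X : Subgroup ↥Cfsg.M24, Nat.card X = 3 ∧ {p : Cfsg.GolayPt | ∀ x ∈ X, ((x : ↥Cfsg.M24) : Equiv.Perm Cfsg.GolayPt) p = p}.ncard = 6) ∧ (∃ X : Subgroup ↥Cfsg.M24, Nat.card X = 3 ∧ {p : Cfsg.GolayPt | ∀ x ∈ X, ((x : ↥Cfsg.M24) : Equiv.Perm Cfsg.GolayPt) p = p}.ncard = 0) ∧ ∀ X Y : Subgroup ↥Cfsg.M24, Nat.card X = 3 → Nat.card Y = 3 → {p : Cfsg.GolayPt | ∀ x ∈ X, ((x : ↥Cfsg.M24) : Equiv.Perm Cfsg.GolayPt) p = p}.ncard = {p : Cfsg.GolayPt | ∀ x ∈ Y, ((x : ↥Cfsg.M24) : Equiv.Perm Cfsg.GolayPt) p = p}.ncard → ∃ k : ↥Cfsg.M24, MulAut.conj k • X = Y := by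
  open Cfsg.Agent.Lib_lead_Cls Cfsg.Agent.Lib_lead_ClsData Cfsg.Agent.Lib_lead_Cls2
    Cfsg.Agent.Lib_lead_Cls3 in
  have key : ∀ X : Subgroup ↥Cfsg.M24, Nat.card X = 3 → ∃ x : ↥Cfsg.M24, X = Subgroup.zpowers x ∧
      ((∃ σ ∈ Cfsg.M24, σ * (x : Equiv.Perm Cfsg.GolayPt) * σ⁻¹ = P yA ∧
          {p : Cfsg.GolayPt | ∀ y ∈ X,
            ((y : ↥Cfsg.M24) : Equiv.Perm Cfsg.GolayPt) p = p}.ncard = 6) ∨
       (∃ σ ∈ Cfsg.M24, σ * (x : Equiv.Perm Cfsg.GolayPt) * σ⁻¹ = P yB ∧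
          {p : Cfsg.GolayPt | ∀ y ∈ X,
            ((y : ↥Cfsg.M24) : Equiv.Perm Cfsg.GolayPt) p = p}.ncard = 0)) := by
    intro X hX
    obtain ⟨x, h3, h1, rfl⟩ := sub3 X hX
    refine ⟨x, rfl, ?_⟩
    rw [fix_zpowers, Set.ncard_coe_finset]
    rcases ord_fix x.1 x.2 h3 h1 with ⟨σ, hσ, e, hF⟩ | ⟨σ, hσ, e, hF⟩
    · left
      exact ⟨σ, hσ, e, by rw [hF, Finset.card_smul_finset, c615]⟩
    · right
      exact ⟨σ, hσ, e, by rw [hF, Finset.card_empty]⟩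
  refine ⟨?_, ?_, ?_, ?_⟩
  · intro X hX
    obtain ⟨x, -, ⟨σ, -, -, h⟩ | ⟨σ, -, -, h⟩⟩ := key X hX
    · exact Or.inl h
    · exact Or.inr h
  · refine ⟨Subgroup.zpowers ⟨P yA, P_mem yA_ok⟩, card_zp _ yA_pow yA_ne, ?_⟩
    rw [fix_zpowers, Set.ncard_coe_finset]
    show (Fx (P yA)).card = 6
    rw [yA_fix, c615]
  · refine ⟨Subgroup.zpowers ⟨P yB, P_mem yB_ok⟩, card_zp _ yB_pow yB_ne, ?_⟩
    rw [fix_zpowers, Set.ncard_coe_finset]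
    show (Fx (P yB)).card = 0
    rw [yB_fix, Finset.card_empty]
  · intro X Y hX hY hXY
    obtain ⟨x, rfl, hx⟩ := key X hX
    obtain ⟨y, rfl, hy⟩ := key Y hY
    rcases hx with ⟨σ, hσ, e1, c1⟩ | ⟨σ, hσ, e1, c1⟩ <;>
    rcases hy with ⟨τ, hτ, e2, c2⟩ | ⟨τ, hτ, e2, c2⟩
    · obtain ⟨k, hk, hkc⟩ := conj_same hσ hτ e1 e2
      exact conj_sub hk hkc
    · rw [c1, c2] at hXY
      norm_num at hXY
    · rw [c1, c2] at hXY
      norm_num at hXY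
    · obtain ⟨k, hk, hkc⟩ := conj_same hσ hτ e1 e2
      exact conj_sub hk hkc

end Cfsg.Agent.S5601
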