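import Cfsg.Statements.S5602
import Cfsg.Agent.Lib_lead_ClsCountW
import Cfsg.Agent.Lib_lead_ClsCountS
import Cfsg.Agent.Lib_lead_ClsCountT

set_option autoImplicit false
open scoped Pointwise
open Cfsg

namespace Cfsg.Agent.S5602

/-- An element of order 3 of the group of the length-24 code having exactly 6 fixed points maps to themselves exactly 21 octads, exactly 15 trios, exactly 16 sextets and exactly 20 dodecads. -/
theorem result (g : Equiv.Perm Cfsg.GolayPt) (hg : g ∈ Cfsg.M24) (h₃ : orderOf g = 3) (h₆ : (Finset.univ.filter fun p => g p = p).card = 6) : {o : Finset Cfsg.GolayPt | o ∈ Cfsg.octads ∧ g • o = o}.ncard = 21 ∧ {T : Finset (Finset Cfsg.GolayPt) | T ∈ Cfsg.trios ∧ g • T = T}.ncard = 15 ∧ {S : Finset (Finset Cfsg.GolayPt) | S ∈ Cfsg.sextets ∧ g • S = S}.ncard = 16 ∧ {d : Finset Cfsg.GolayPt | d ∈ Cfsg.dodecads ∧ g • d = d}.ncard = 20 := by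
  open Cfsg.Agent.Lib_lead_Cls Cfsg.Agent.Lib_lead_ClsData Cfsg.Agent.Lib_lead_Cls2
    Cfsg.Agent.Lib_lead_ClsCount Cfsg.Agent.Lib_lead_MixOrb in
  obtain ⟨g3, g1⟩ := of_order h₃ (by norm_num)
  rcases ord_fix g hg g3 g1 with ⟨σ, hσ, e, hF⟩ | ⟨σ, hσ, e, hF⟩
  · refine ⟨?_, ?_, ?_, ?_⟩
    · rw [ncard_fix_conj Cfsg.octads octads_smul hσ e]
      exact Cfsg.Agent.Lib_lead_ClsCountW.n8_yA
    · rw [ncard_fix_conj Cfsg.trios trios_smul hσ e]
      exact Cfsg.Agent.Lib_lead_ClsCountT.n_yA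
    · rw [ncard_fix_conj Cfsg.sextets sextets_smul hσ e]
      exact Cfsg.Agent.Lib_lead_ClsCountS.n_yA
    · rw [ncard_fix_conj Cfsg.dodecads
        (fun _ hh _ ho => Cfsg.Agent.Lib_lead_M24Chain.smul_mem_weight hh ho) hσ e]
      exact Cfsg.Agent.Lib_lead_ClsCountW.n12_yA
  · exfalso
    have h : (Fx g).card = 6 := h₆
    rw [hF] at h
    simp at h

end Cfsg.Agent.S5602
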