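import Cfsg.Statements.S5605
import Cfsg.Agent.Lib_lead_ClsCountW
import Cfsg.Agent.Lib_lead_ClsCountS
import Cfsg.Agent.Lib_lead_ClsCountT

set_option autoImplicit false
open scoped Pointwise
open Cfsg

namespace Cfsg.Agent.S5605

/-- An involution of the group of the length-24 code with exactly 8 fixed points maps to themselves exactly 71 octads, exactly 99 trios and exactly 91 sextets. -/
theorem result (g : Equiv.Perm Cfsg.GolayPt) (hg : g ∈ Cfsg.M24) (h₂ : orderOf g = 2) (h₈ : (Finset.univ.filter fun p => g p = p).card = 8) : {o : Finset Cfsg.GolayPt | o ∈ Cfsg.octads ∧ g • o = o}.ncard = 71 ∧ {T : Finset (Finset Cfsg.GolayPt) | T ∈ Cfsg.trios ∧ g • T = T}.ncard = 99 ∧ {S : Finset (Finset Cfsg.GolayPt) | S ∈ Cfsg.sextets ∧ g • S = S}.ncard = 91 := by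
  open Cfsg.Agent.Lib_lead_Cls Cfsg.Agent.Lib_lead_ClsData Cfsg.Agent.Lib_lead_Cls2
    Cfsg.Agent.Lib_lead_ClsCount Cfsg.Agent.Lib_lead_MixOrb in
  obtain ⟨g2, g1⟩ := of_order h₂ (by norm_num)
  rcases inv_fix g hg g2 g1 with ⟨σ, hσ, e, hF⟩ | ⟨σ, hσ, e, hF⟩
  · refine ⟨?_, ?_, ?_⟩
    · rw [ncard_fix_conj Cfsg.octads octads_smul hσ e]
      exact Cfsg.Agent.Lib_lead_ClsCountW.n8_zA
    · rw [ncard_fix_conj Cfsg.trios trios_smul hσ e]
      exact Cfsg.Agent.Lib_lead_ClsCountT.n_zA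
    · rw [ncard_fix_conj Cfsg.sextets sextets_smul hσ e]
      exact Cfsg.Agent.Lib_lead_ClsCountS.n_zA
  · exfalso
    have h : (Fx g).card = 8 := h₈
    rw [hF] at h
    simp at h

end Cfsg.Agent.S5605
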