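import Cfsg.Statements.S5606
import Cfsg.Agent.Lib_lead_ClsCountW
import Cfsg.Agent.Lib_lead_ClsCountS
import Cfsg.Agent.Lib_lead_ClsCountT

set_option autoImplicit false
open scoped Pointwise
open Cfsg

namespace Cfsg.Agent.S5606

/-- A fixed-point-free involution of the group of the length-24 code maps to themselves exactly 15 octads, exactly 75 trios and exactly 51 sextets. -/
theorem result (g : Equiv.Perm Cfsg.GolayPt) (hg : g ∈ Cfsg.M24) (h₂ : orderOf g = 2) (h₀ : ∀ p, g p ≠ p) : {o : Finset Cfsg.GolayPt | o ∈ Cfsg.octads ∧ g • o = o}.ncard = 15 ∧ {T : Finset (Finset Cfsg.GolayPt) | T ∈ Cfsg.trios ∧ g • T = T}.ncard = 75 ∧ {S : Finset (Finset Cfsg.GolayPt) | S ∈ Cfsg.sextets ∧ g • S = S}.ncard = 51 := by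
  open Cfsg.Agent.Lib_lead_Cls Cfsg.Agent.Lib_lead_ClsData Cfsg.Agent.Lib_lead_Cls2
    Cfsg.Agent.Lib_lead_ClsCount Cfsg.Agent.Lib_lead_MixOrb in
  obtain ⟨g2, g1⟩ := of_order h₂ (by norm_num)
  rcases inv_fix g hg g2 g1 with ⟨σ, hσ, e, hF⟩ | ⟨σ, hσ, e, hF⟩
  · exfalso
    have h := congrArg Finset.card ((fpf_iff g).mp h₀)
    rw [hF, Finset.card_smul_finset, c3277413] at h
    simp at h
  · refine ⟨?_, ?_, ?_⟩
    · rw [ncard_fix_conj Cfsg.octads octads_smul hσ e]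
      exact Cfsg.Agent.Lib_lead_ClsCountW.n8_zB
    · rw [ncard_fix_conj Cfsg.trios trios_smul hσ e]
      exact Cfsg.Agent.Lib_lead_ClsCountT.n_zB
    · rw [ncard_fix_conj Cfsg.sextets sextets_smul hσ e]
      exact Cfsg.Agent.Lib_lead_ClsCountS.n_zB

end Cfsg.Agent.S5606
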