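import Cfsg.Statements.S5608
import Cfsg.Agent.Lib_lead_Cls4

set_option autoImplicit false
open scoped Pointwise
open Cfsg

namespace Cfsg.Agent.S5608

/-- If an element of order 3 and an involution of the group of the length-24 code commute, then either the element of order 3 has exactly 6 fixed points and the involution exactly 8, or both are fixed-point-free. -/
theorem result (x s : Equiv.Perm Cfsg.GolayPt) (hx : x ∈ Cfsg.M24) (hs : s ∈ Cfsg.M24) (h₃ : orderOf x = 3) (h₂ : orderOf s = 2) (hc : Commute x s) : ((Finset.univ.filter fun p => x p = p).card = 6 ∧ (Finset.univ.filter fun p => s p = p).card = 8) ∨ ((Finset.univ.filter fun p => x p = p).card = 0 ∧ (Finset.univ.filter fun p => s p = p).card = 0) := by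
  open Cfsg.Agent.Lib_lead_Cls Cfsg.Agent.Lib_lead_ClsData Cfsg.Agent.Lib_lead_Cls2
    Cfsg.Agent.Lib_lead_Cls3 Cfsg.Agent.Lib_lead_Cls4 in
  obtain ⟨x3, x1⟩ := of_order h₃ (by norm_num)
  obtain ⟨s2, s1⟩ := of_order h₂ (by norm_num)
  show ((Fx x).card = 6 ∧ (Fx s).card = 8) ∨ ((Fx x).card = 0 ∧ (Fx s).card = 0)
  rcases ord_fix x hx x3 x1 with ⟨σ, hσ, e1, hF⟩ | ⟨σ, hσ, e1, hF⟩ <;>
  rcases inv_fix s hs s2 s1 with ⟨τ, hτ, e2, hF'⟩ | ⟨τ, hτ, e2, hF'⟩
  · left
    exact ⟨by rw [hF, Finset.card_smul_finset, c615],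
      by rw [hF', Finset.card_smul_finset, c3277413]⟩
  · exfalso
    exact case62 x s hx hs x3 x1 s2 s1 hc.eq
      (by rw [hF, Finset.card_smul_finset, c615]; norm_num) hF'
  · exfalso
    exact case08 x s hx hs x3 x1 s2 s1 hc.eq
      (by rw [hF', Finset.card_smul_finset, c3277413]; norm_num) hF
  · right
    exact ⟨by rw [hF, Finset.card_empty], by rw [hF', Finset.card_empty]⟩

end Cfsg.Agent.S5608
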