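import Cfsg.Statements.S5609
import Cfsg.Agent.Lib_lead_OctGraph

set_option autoImplicit false
open scoped Pointwise
open Cfsg

namespace Cfsg.Agent.S5609

/-- In the graph on the 759 octads of the length-24 code in which two octads are adjacent when they are disjoint, the graph is connected (of diameter 3) and two distinct octads are at distance 1, 2 or 3 exactly when they meet in 0, 4 or 2 points respectively. -/
theorem result (o o' : Finset Cfsg.GolayPt) (ho : o ∈ Cfsg.octads) (ho' : o' ∈ Cfsg.octads) (hne : o ≠ o') : (Cfsg.blockGraph Cfsg.octads).Connected ∧ ((Cfsg.blockGraph Cfsg.octads).dist ⟨o, ho⟩ ⟨o', ho'⟩ = 1 ↔ (o ∩ o').card = 0) ∧ ((Cfsg.blockGraph Cfsg.octads).dist ⟨o, ho⟩ ⟨o', ho'⟩ = 2 ↔ (o ∩ o').card = 4) ∧ ((Cfsg.blockGraph Cfsg.octads).dist ⟨o, ho⟩ ⟨o', ho'⟩ = 3 ↔ (o ∩ o').card = 2) := by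
  open Cfsg.Agent.Lib_lead_OctGraph in
  exact ⟨connected, dist1 ⟨o, ho⟩ ⟨o', ho'⟩,
    dist2 ⟨o, ho⟩ ⟨o', ho'⟩ (fun h => hne (congrArg Subtype.val h)),
    dist3 ⟨o, ho⟩ ⟨o', ho'⟩ (fun h => hne (congrArg Subtype.val h))⟩

end Cfsg.Agent.S5609
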