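import Cfsg.Statements.S5625
import Cfsg.Agent.S0352

set_option autoImplicit false
open Cfsg

namespace Cfsg.Agent.S5625

/-- In any Steiner system S(5, 8, 24) and for any set Y of three points, the blocks meeting Y in exactly 3, 2, 1 and 0 points number 21, 168, 360 and 210 respectively (so there are 759 blocks in all). -/
theorem result (α : Type*) [Fintype α] [DecidableEq α] (hα : Fintype.card α = 24) (B : Set (Finset α)) (hB : Cfsg.IsSteinerSystem 5 8 B) (Y : Finset α) (hY : Y.card = 3) : {b : Finset α | b ∈ B ∧ (b ∩ Y).card = 3}.ncard = 21 ∧ {b : Finset α | b ∈ B ∧ (b ∩ Y).card = 2}.ncard = 168 ∧ {b : Finset α | b ∈ B ∧ (b ∩ Y).card = 1}.ncard = 360 ∧ {b : Finset α | b ∈ B ∧ (b ∩ Y).card = 0}.ncard = 210 := by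
  obtain ⟨BF, hBF⟩ := Lib_lead_Steiner.exists_finset B
  obtain ⟨m0, m1, m2, m3, -, -⟩ := S0352.moments hα hB BF hBF Y
  rw [hY] at m1 m2 m3
  have d1 : Nat.choose 3 1 = 3 := by decide
  have d2 : Nat.choose 3 2 = 3 := by decide
  have d3 : Nat.choose 3 3 = 1 := by decide
  rw [d1] at m1
  rw [d2] at m2
  rw [d3] at m3
  have hle : ∀ c ∈ BF, (c ∩ Y).card ≤ 3 := by
    intro c _
    rw [← hY]; exact Finset.card_le_card Finset.inter_subset_right
  have e0 : (∑ c ∈ BF, ((c ∩ Y).card.choose 0 : ℤ)) = 759 := by exact_mod_cast m0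
  have e1 : (∑ c ∈ BF, ((c ∩ Y).card.choose 1 : ℤ)) = 759 := by
    have : ∑ c ∈ BF, (c ∩ Y).card.choose 1 = 759 := by omega
    exact_mod_cast this
  have e2 : (∑ c ∈ BF, ((c ∩ Y).card.choose 2 : ℤ)) = 231 := by
    have : ∑ c ∈ BF, (c ∩ Y).card.choose 2 = 231 := by omega
    exact_mod_cast this
  have e3 : (∑ c ∈ BF, ((c ∩ Y).card.choose 3 : ℤ)) = 21 := by
    have : ∑ c ∈ BF, (c ∩ Y).card.choose 3 = 21 := by omega
    exact_mod_cast this
  have hset : ∀ n : ℕ, {b : Finset α | b ∈ B ∧ (b ∩ Y).card = n}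
      = ((BF.filter (fun c => (c ∩ Y).card = n) : Finset (Finset α)) : Set (Finset α)) := by
    intro n
    ext c
    simp only [Set.mem_setOf_eq, Finset.coe_filter, hBF]
  have k3 : ∀ c ∈ BF, ((if (c ∩ Y).card = 3 then 1 else 0 : ℕ) : ℤ) = ((c ∩ Y).card.choose 3 : ℤ) := by
    intro c hc
    have := hle c hc
    generalize (c ∩ Y).card = j at this ⊢
    interval_cases j <;> simp [Nat.choose]
  have k2 : ∀ c ∈ BF, ((if (c ∩ Y).card = 2 then 1 else 0 : ℕ) : ℤ)
      = ((c ∩ Y).card.choose 2 : ℤ) - 3 * (c ∩ Y).card.choose 3 := by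
    intro c hc
    have := hle c hc
    generalize (c ∩ Y).card = j at this ⊢
    interval_cases j <;> simp [Nat.choose]
  have k1 : ∀ c ∈ BF, ((if (c ∩ Y).card = 1 then 1 else 0 : ℕ) : ℤ)
      = ((c ∩ Y).card.choose 1 : ℤ) - 2 * (c ∩ Y).card.choose 2 + 3 * (c ∩ Y).card.choose 3 := by
    intro c hc
    have := hle c hc
    generalize (c ∩ Y).card = j at this ⊢
    interval_cases j <;> simp [Nat.choose]
  have k0 : ∀ c ∈ BF, ((if (c ∩ Y).card = 0 then 1 else 0 : ℕ) : ℤ)
      = ((c ∩ Y).card.choose 0 : ℤ) - (c ∩ Y).card.choose 1 + (c ∩ Y).card.choose 2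
        - (c ∩ Y).card.choose 3 := by
    intro c hc
    have := hle c hc
    generalize (c ∩ Y).card = j at this ⊢
    interval_cases j <;> simp [Nat.choose]
  refine ⟨?_, ?_, ?_, ?_⟩
  · rw [hset, Set.ncard_coe_finset, Finset.card_filter]
    have : ((∑ c ∈ BF, (if (c ∩ Y).card = 3 then 1 else 0 : ℕ) : ℕ) : ℤ) = 21 := by
      rw [Nat.cast_sum, Finset.sum_congr rfl k3, e3]
    exact_mod_cast this
  · rw [hset, Set.ncard_coe_finset, Finset.card_filter]
    have : ((∑ c ∈ BF, (if (c ∩ Y).card = 2 then 1 else 0 : ℕ) : ℕ) : ℤ) = 168 := by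
      rw [Nat.cast_sum, Finset.sum_congr rfl k2]
      simp only [Finset.sum_sub_distrib, Finset.sum_add_distrib, ← Finset.mul_sum, e0, e1, e2, e3]
      norm_num
    exact_mod_cast this
  · rw [hset, Set.ncard_coe_finset, Finset.card_filter]
    have : ((∑ c ∈ BF, (if (c ∩ Y).card = 1 then 1 else 0 : ℕ) : ℕ) : ℤ) = 360 := by
      rw [Nat.cast_sum, Finset.sum_congr rfl k1]
      simp only [Finset.sum_sub_distrib, Finset.sum_add_distrib, ← Finset.mul_sum, e0, e1, e2, e3]
      norm_num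
    exact_mod_cast this
  · rw [hset, Set.ncard_coe_finset, Finset.card_filter]
    have : ((∑ c ∈ BF, (if (c ∩ Y).card = 0 then 1 else 0 : ℕ) : ℕ) : ℤ) = 210 := by
      rw [Nat.cast_sum, Finset.sum_congr rfl k0]
      simp only [Finset.sum_sub_distrib, Finset.sum_add_distrib, ← Finset.mul_sum, e0, e1, e2, e3]
      norm_num
    exact_mod_cast this

end Cfsg.Agent.S5625
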