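import Cfsg.Statements.S5632
import Mathlib
import Cfsg.Agent.Lib_helper4_Transv

set_option autoImplicit false
open Cfsg

namespace Cfsg.Agent.S5632

/-- For a finite field F and subspaces 0 < W < U of F^n with dim W + dim U = n, the elements of SL_n(F) stabilising both W and U form a subgroup that is not maximal in SL_n(F): some subgroup lies strictly between it and SL_n(F). -/
theorem result {F : Type*} [Field F] [Fintype F] (n : ℕ) (W U : Submodule F (Fin n → F)) (hW0 : W ≠ ⊥) (hWU : W < U) (hdim : Module.finrank F W + Module.finrank F U = n) : ∃ K : Subgroup (Matrix.GeneralLinearGroup (Fin n) F), Cfsg.Geo.subspaceStabilizer W ⊓ Cfsg.Geo.subspaceStabilizer U ⊓ Cfsg.Geo.specialLinear (Fin n) F < K ∧ K < Cfsg.Geo.specialLinear (Fin n) F := by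
  have hWtop : W ≠ ⊤ := by rintro rfl; exact not_top_lt hWU
  have hUtop : U ≠ ⊤ := by
    rintro rfl
    rw [finrank_top, Module.finrank_fin_fun] at hdim
    have h0 : Module.finrank F W = 0 := by omega
    exact hW0 (Submodule.finrank_eq_zero.mp h0)
  refine ⟨Cfsg.Geo.subspaceStabilizer W ⊓ Cfsg.Geo.specialLinear (Fin n) F, ?_, ?_⟩
  · refine SetLike.lt_iff_le_and_exists.mpr ⟨inf_le_inf_right _ inf_le_left, ?_⟩
    obtain ⟨x, hx⟩ : ∃ x : Fin n → F, x ∉ U := by
      by_contra hcon
      apply hUtop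
      rw [eq_top_iff]
      intro x _
      by_contra hx
      exact hcon ⟨x, hx⟩
    obtain ⟨u, huU, huW⟩ := SetLike.exists_of_lt hWU
    have hu : u ∉ W ⊔ Submodule.span F {x} := by
      intro hmem
      obtain ⟨w, hw, y, hy, rfl⟩ := Submodule.mem_sup.mp hmem
      obtain ⟨c, rfl⟩ := Submodule.mem_span_singleton.mp hy
      by_cases hc : c = 0
      · subst hc
        rw [zero_smul, add_zero] at huW
        exact huW hw
      · apply hx
        have h1 : c • x ∈ U := (U.add_mem_iff_right (hWU.le hw)).mp huU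
        exact (U.smul_mem_iff hc).mp h1
    obtain ⟨g, hg, hgW, hgu⟩ := Cfsg.Agent.Lib_helper4_Transv.exists_tv W x u hu
    refine ⟨g, ⟨Cfsg.Agent.Lib_helper4_Transv.mem_subspaceStabilizer_of_fix g W hgW, hg⟩, ?_⟩
    rintro ⟨⟨-, hgU⟩, -⟩
    have h2 := ((Cfsg.Agent.Lib_helper4_Transv.mem_subspaceStabilizer_iff g U).mp hgU u).mp huU
    rw [hgu] at h2
    exact hx ((U.add_mem_iff_right huU).mp h2)
  · refine SetLike.lt_iff_le_and_exists.mpr ⟨inf_le_right, ?_⟩
    obtain ⟨g, hg, hgW⟩ := Cfsg.Agent.Lib_helper4_Transv.exists_not_mem_subspaceStabilizer W hW0 hWtop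
    exact ⟨g, hg, fun h => hgW h.1⟩

end Cfsg.Agent.S5632
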