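import Cfsg.Statements.S5633
import Mathlib
import Cfsg.Agent.Lib_helper4_Transv

set_option autoImplicit false
open Cfsg

namespace Cfsg.Agent.S5633

/-- For a finite field F and complementary non-zero subspaces W ⊕ U = F^n with dim W < dim U, the elements of SL_n(F) stabilising both W and U form a subgroup that is not maximal in SL_n(F): some subgroup lies strictly between it and SL_n(F). -/
theorem result {F : Type*} [Field F] [Fintype F] (n : ℕ) (W U : Submodule F (Fin n → F)) (hW0 : W ≠ ⊥) (hWU : W ⊓ U = ⊥) (hWU' : W ⊔ U = ⊤) (hdim : Module.finrank F W < Module.finrank F U) : ∃ K : Subgroup (Matrix.GeneralLinearGroup (Fin n) F), Cfsg.Geo.subspaceStabilizer W ⊓ Cfsg.Geo.subspaceStabilizer U ⊓ Cfsg.Geo.specialLinear (Fin n) F < K ∧ K < Cfsg.Geo.specialLinear (Fin n) F := by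
  have hU0 : U ≠ ⊥ := by
    rintro rfl
    rw [finrank_bot] at hdim
    omega
  have hWtop : W ≠ ⊤ := by
    rintro rfl
    rw [top_inf_eq] at hWU
    exact hU0 hWU
  refine ⟨Cfsg.Geo.subspaceStabilizer W ⊓ Cfsg.Geo.specialLinear (Fin n) F, ?_, ?_⟩
  · refine SetLike.lt_iff_le_and_exists.mpr ⟨inf_le_inf_right _ inf_le_left, ?_⟩
    obtain ⟨x, hxW, hx0⟩ := (Submodule.ne_bot_iff W).mp hW0
    obtain ⟨u, huU, hu0⟩ := (Submodule.ne_bot_iff U).mp hU0
    have hxU : x ∉ U := by
      intro hxU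
      have : x ∈ W ⊓ U := ⟨hxW, hxU⟩
      rw [hWU] at this
      exact hx0 ((Submodule.mem_bot F).mp this)
    have hu : u ∉ W ⊔ Submodule.span F {x} := by
      have hsp : Submodule.span F {x} ≤ W := by
        rw [Submodule.span_singleton_le_iff_mem]
        exact hxW
      rw [sup_eq_left.mpr hsp]
      intro huW
      have : u ∈ W ⊓ U := ⟨huW, huU⟩
      rw [hWU] at this
      exact hu0 ((Submodule.mem_bot F).mp this)
    obtain ⟨g, hg, hgW, hgu⟩ := Cfsg.Agent.Lib_helper4_Transv.exists_tv W x u hu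
    refine ⟨g, ⟨Cfsg.Agent.Lib_helper4_Transv.mem_subspaceStabilizer_of_fix g W hgW, hg⟩, ?_⟩
    rintro ⟨⟨-, hgU⟩, -⟩
    have h2 := ((Cfsg.Agent.Lib_helper4_Transv.mem_subspaceStabilizer_iff g U).mp hgU u).mp huU
    rw [hgu] at h2
    exact hxU ((U.add_mem_iff_right huU).mp h2)
  · refine SetLike.lt_iff_le_and_exists.mpr ⟨inf_le_right, ?_⟩
    obtain ⟨g, hg, hgW⟩ := Cfsg.Agent.Lib_helper4_Transv.exists_not_mem_subspaceStabilizer W hW0 hWtop
    exact ⟨g, hg, fun h => hgW h.1⟩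

end Cfsg.Agent.S5633
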