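import Cfsg.Statements.S5638
import Mathlib

set_option autoImplicit false
open Cfsg

namespace Cfsg.Agent.S5638

open Matrix Kronecker

theorem le_normalizer_zpowers {G : Type*} [Group G] (H : Subgroup G) (z : G)
    (h : ∀ g ∈ H, g * z * g⁻¹ ∈ Subgroup.zpowers z) : H ≤ Subgroup.normalizer (Subgroup.zpowers z : Set G) := by
  have key : ∀ g ∈ H, ∀ x ∈ Subgroup.zpowers z, g * x * g⁻¹ ∈ Subgroup.zpowers z := by
    intro g hg x hx
    obtain ⟨k, rfl⟩ := Subgroup.mem_zpowers_iff.1 hx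
    have : g * z ^ k * g⁻¹ = (g * z * g⁻¹) ^ k := conj_zpow.symm
    rw [this]
    exact Subgroup.zpow_mem _ (h g hg) k
  intro g hg
  rw [Subgroup.mem_normalizer_iff]
  intro x
  constructor
  · exact key g hg x
  · intro hx
    have := key g⁻¹ (H.inv_mem hg) _ hx
    simpa [mul_assoc] using this

section
variable {F : Type*} [Field F]

theorem zero_or_one [Fintype F] (hq : Fintype.card F = 2) (x : F) : x = 0 ∨ x = 1 := by
  have h := FiniteField.pow_card x
  rw [hq] at h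
  have : x * (x - 1) = 0 := by linear_combination h
  rcases mul_eq_zero.1 this with h | h
  · exact Or.inl h
  · exact Or.inr (sub_eq_zero.1 h)

theorem two_eq_zero [Fintype F] (hq : Fintype.card F = 2) : (2 : F) = 0 := by
  have := FiniteField.cast_card_eq_zero F
  rw [hq] at this
  exact_mod_cast this

/-- A generator of the multiplicative group of the field with four elements. -/
def W (F : Type*) [Field F] : Matrix (Fin 2) (Fin 2) F := !![0, 1; 1, 1]

/-- Its inverse (in characteristic 2). -/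
def W' (F : Type*) [Field F] : Matrix (Fin 2) (Fin 2) F := !![1, 1; 1, 0]

theorem W_mul_W' (h2 : (2 : F) = 0) : W F * W' F = 1 := by
  ext i j
  fin_cases i <;> fin_cases j <;> simp [W, W', Matrix.mul_apply, Fin.sum_univ_two] <;> grind

theorem W'_mul_W (h2 : (2 : F) = 0) : W' F * W F = 1 := by
  ext i j
  fin_cases i <;> fin_cases j <;> simp [W, W', Matrix.mul_apply, Fin.sum_univ_two] <;> grind

theorem conj_W [Fintype F] (hq : Fintype.card F = 2) (a : Matrix (Fin 2) (Fin 2) F)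
    (hdet : a.det ≠ 0) : a * W F = W F * a ∨ a * W F = W' F * a := by
  have h2 := two_eq_zero hq
  have h11 : (1 : F) + 1 = 0 := by rw [one_add_one_eq_two]; exact h2
  obtain ⟨p, q, r, s, rfl⟩ : ∃ p q r s, a = !![p, q; r, s] := ⟨_, _, _, _, Matrix.eta_fin_two a⟩
  rw [Matrix.det_fin_two_of] at hdet
  rcases zero_or_one hq p with rfl | rfl <;> rcases zero_or_one hq q with rfl | rfl <;>
  rcases zero_or_one hq r with rfl | rfl <;> rcases zero_or_one hq s with rfl | rfl <;>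
  first
  | (exfalso; apply hdet; simp; done)
  | (left; ext i j; fin_cases i <;> fin_cases j <;>
      simp [W, Matrix.mul_apply, Fin.sum_univ_two, h11]; done)
  | (right; ext i j; fin_cases i <;> fin_cases j <;>
      simp [W, W', Matrix.mul_apply, Fin.sum_univ_two, h11]; done)

variable {m : Type*} [Fintype m] [DecidableEq m]

theorem d_mul (B : Matrix m m F) (hB : B * B = 0) (X Y X' Y' : Matrix (Fin 2) (Fin 2) F) :
    (X ⊗ₖ (1 : Matrix m m F) + Y ⊗ₖ B) * (X' ⊗ₖ (1 : Matrix m m F) + Y' ⊗ₖ B) =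
      (X * X') ⊗ₖ (1 : Matrix m m F) + (X * Y' + Y * X') ⊗ₖ B := by
  rw [add_mul, mul_add, mul_add, ← Matrix.mul_kronecker_mul, ← Matrix.mul_kronecker_mul,
    ← Matrix.mul_kronecker_mul, ← Matrix.mul_kronecker_mul, hB, mul_one, one_mul, mul_one,
    Matrix.kronecker_zero, Matrix.add_kronecker, add_zero, add_assoc]

theorem d_inj {j₀ j₁ : m} (h : j₀ ≠ j₁) (X Y X' Y' : Matrix (Fin 2) (Fin 2) F)
    (hd : X ⊗ₖ (1 : Matrix m m F) + Y ⊗ₖ Matrix.single j₀ j₁ (1 : F) =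
      X' ⊗ₖ (1 : Matrix m m F) + Y' ⊗ₖ Matrix.single j₀ j₁ (1 : F)) : Y = Y' := by
  ext i i'
  have h1 := congrFun (congrFun hd (i, j₀)) (i', j₁)
  simpa [Matrix.add_apply, Matrix.kroneckerMap_apply, Matrix.one_apply, Matrix.single_apply, h]
    using h1

theorem single_sq {j₀ j₁ : m} (h : j₀ ≠ j₁) :
    Matrix.single j₀ j₁ (1 : F) * Matrix.single j₀ j₁ (1 : F) = 0 :=
  Matrix.single_mul_single_of_ne (1 : F) j₀ j₁ j₀ h.symm (1 : F)

/-- The unit `1 ⊗ 1 + Y ⊗ B` for `B² = 0`. -/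
def uni (B : Matrix m m F) (hB : B * B = 0) (Y : Matrix (Fin 2) (Fin 2) F) :
    Matrix.GeneralLinearGroup (Fin 2 × m) F :=
  ⟨(1 : Matrix (Fin 2) (Fin 2) F) ⊗ₖ (1 : Matrix m m F) + Y ⊗ₖ B,
   (1 : Matrix (Fin 2) (Fin 2) F) ⊗ₖ (1 : Matrix m m F) + (-Y) ⊗ₖ B,
   by rw [d_mul B hB]; simp,
   by rw [d_mul B hB]; simp⟩

/-- The element of order 3 generating the scalars of the field with four elements. -/
def z₀ (m : Type*) [Fintype m] [DecidableEq m] (h2 : (2 : F) = 0) :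
    Matrix.GeneralLinearGroup (Fin 2 × m) F :=
  ⟨W F ⊗ₖ (1 : Matrix m m F), W' F ⊗ₖ (1 : Matrix m m F),
   by rw [← Matrix.mul_kronecker_mul, W_mul_W' h2, mul_one, Matrix.one_kronecker_one],
   by rw [← Matrix.mul_kronecker_mul, W'_mul_W h2, mul_one, Matrix.one_kronecker_one]⟩

theorem z₀_val (h2 : (2 : F) = 0) (B : Matrix m m F) :
    (z₀ m h2 : Matrix.GeneralLinearGroup (Fin 2 × m) F).val =
      W F ⊗ₖ (1 : Matrix m m F) + (0 : Matrix (Fin 2) (Fin 2) F) ⊗ₖ B := by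
  simp [z₀]

end

section
variable {F : Type*} [Field F] [Fintype F]

/-- The normaliser of the field with four elements. -/
def K₀ (hq : Fintype.card F = 2) (n₂ : ℕ) :
    Subgroup (Matrix.GeneralLinearGroup (Fin 2 × Fin n₂) F) :=
  Subgroup.normalizer
    (Subgroup.zpowers (z₀ (Fin n₂) (two_eq_zero hq)) :
      Set (Matrix.GeneralLinearGroup (Fin 2 × Fin n₂) F))

theorem kron_le (hq : Fintype.card F = 2) (n₂ : ℕ) :
    Cfsg.Geo.kroneckerSubgroup 2 n₂ F ≤ K₀ hq n₂ := by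
  apply le_normalizer_zpowers
  rintro g ⟨a, b, hg⟩
  have hdet : a.val.det ≠ 0 := ((Matrix.isUnit_iff_isUnit_det _).1 a.isUnit).ne_zero
  rcases conj_W hq a.val hdet with h | h
  · have : g * z₀ (Fin n₂) (two_eq_zero hq) = z₀ (Fin n₂) (two_eq_zero hq) * g := by
      apply Units.ext
      rw [Units.val_mul, Units.val_mul, hg]
      show a.val ⊗ₖ b.val * (W F ⊗ₖ 1) = (W F ⊗ₖ 1) * (a.val ⊗ₖ b.val)
      rw [← Matrix.mul_kronecker_mul, ← Matrix.mul_kronecker_mul, h, mul_one, one_mul]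
    rw [this, mul_inv_cancel_right]
    exact Subgroup.mem_zpowers _
  · have : g * z₀ (Fin n₂) (two_eq_zero hq) = (z₀ (Fin n₂) (two_eq_zero hq))⁻¹ * g := by
      apply Units.ext
      rw [Units.val_mul, Units.val_mul, hg]
      show a.val ⊗ₖ b.val * (W F ⊗ₖ 1) = (W' F ⊗ₖ 1) * (a.val ⊗ₖ b.val)
      rw [← Matrix.mul_kronecker_mul, ← Matrix.mul_kronecker_mul, h, mul_one, one_mul]
    rw [this, mul_inv_cancel_right]
    exact Subgroup.inv_mem _ (Subgroup.mem_zpowers _)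

theorem g1_mem (hq : Fintype.card F = 2) (n₂ : ℕ) (j₀ j₁ : Fin n₂) (h : j₀ ≠ j₁) :
    uni (Matrix.single j₀ j₁ (1 : F)) (single_sq h) (W F) ∈ K₀ hq n₂ := by
  have hc : uni (Matrix.single j₀ j₁ (1 : F)) (single_sq h) (W F) * z₀ (Fin n₂) (two_eq_zero hq) =
      z₀ (Fin n₂) (two_eq_zero hq) * uni (Matrix.single j₀ j₁ (1 : F)) (single_sq h) (W F) := by
    apply Units.ext
    rw [Units.val_mul, Units.val_mul, z₀_val _ (Matrix.single j₀ j₁ (1 : F))]
    show ((1 : Matrix (Fin 2) (Fin 2) F) ⊗ₖ (1 : Matrix (Fin n₂) (Fin n₂) F) + W F ⊗ₖ _) * _ =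
      _ * ((1 : Matrix (Fin 2) (Fin 2) F) ⊗ₖ (1 : Matrix (Fin n₂) (Fin n₂) F) + W F ⊗ₖ _)
    rw [d_mul _ (single_sq h), d_mul _ (single_sq h)]
    simp
  apply le_normalizer_zpowers
    (Subgroup.zpowers (uni (Matrix.single j₀ j₁ (1 : F)) (single_sq h) (W F))) _ _
    (Subgroup.mem_zpowers _)
  intro g hg
  obtain ⟨k, rfl⟩ := Subgroup.mem_zpowers_iff.1 hg
  have hcm : Commute (uni (Matrix.single j₀ j₁ (1 : F)) (single_sq h) (W F))
      (z₀ (Fin n₂) (two_eq_zero hq)) := hc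
  have h2 := (hcm.zpow_left k).eq
  rw [h2, mul_inv_cancel_right]
  exact Subgroup.mem_zpowers _

theorem g1_not_mem (n₂ : ℕ) (j₀ j₁ : Fin n₂) (h : j₀ ≠ j₁) :
    uni (Matrix.single j₀ j₁ (1 : F)) (single_sq h) (W F) ∉ Cfsg.Geo.kroneckerSubgroup 2 n₂ F := by
  rintro ⟨a, b, hg⟩
  have hv : (uni (Matrix.single j₀ j₁ (1 : F)) (single_sq h) (W F)).val =
      (1 : Matrix (Fin 2) (Fin 2) F) ⊗ₖ (1 : Matrix (Fin n₂) (Fin n₂) F) +
        W F ⊗ₖ Matrix.single j₀ j₁ (1 : F) := rfl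
  rw [hv] at hg
  have h1 := congrFun (congrFun hg (0, j₀)) (0, j₀)
  have h2 := congrFun (congrFun hg (0, j₀)) (1, j₀)
  have h3 := congrFun (congrFun hg (0, j₀)) (1, j₁)
  simp [Matrix.add_apply, Matrix.kroneckerMap_apply, Matrix.one_apply, Matrix.single_apply, h,
    W] at h1 h2 h3
  grind

theorem g2_not_mem (hq : Fintype.card F = 2) (n₂ : ℕ) (j₀ j₁ : Fin n₂) (h : j₀ ≠ j₁) :
    uni (Matrix.single j₀ j₁ (1 : F)) (single_sq h) (!![0, 1; 0, 0]) ∉ K₀ hq n₂ := by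
  intro hmem
  have h1 := (Subgroup.mem_normalizer_iff.1 hmem (z₀ (Fin n₂) (two_eq_zero hq))).1
    (Subgroup.mem_zpowers _)
  obtain ⟨k, hk⟩ := Subgroup.mem_zpowers_iff.1 h1
  have h2 : (uni (Matrix.single j₀ j₁ (1 : F)) (single_sq h) (!![0, 1; 0, 0]) *
      z₀ (Fin n₂) (two_eq_zero hq) *
      (uni (Matrix.single j₀ j₁ (1 : F)) (single_sq h) (!![0, 1; 0, 0]))⁻¹) *
        z₀ (Fin n₂) (two_eq_zero hq) =
      z₀ (Fin n₂) (two_eq_zero hq) *
      (uni (Matrix.single j₀ j₁ (1 : F)) (single_sq h) (!![0, 1; 0, 0]) *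
      z₀ (Fin n₂) (two_eq_zero hq) *
      (uni (Matrix.single j₀ j₁ (1 : F)) (single_sq h) (!![0, 1; 0, 0]))⁻¹) := by
    rw [← hk]
    exact ((Commute.refl _).zpow_left k).eq
  have h3 := congrArg Units.val h2
  simp only [Units.val_mul] at h3
  have hgv : (uni (Matrix.single j₀ j₁ (1 : F)) (single_sq h) (!![0, 1; 0, 0])).val =
      (1 : Matrix (Fin 2) (Fin 2) F) ⊗ₖ (1 : Matrix (Fin n₂) (Fin n₂) F) +
        (!![0, 1; 0, 0] : Matrix (Fin 2) (Fin 2) F) ⊗ₖ Matrix.single j₀ j₁ (1 : F) := rfl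
  have hgi : ((uni (Matrix.single j₀ j₁ (1 : F)) (single_sq h) (!![0, 1; 0, 0]))⁻¹).val =
      (1 : Matrix (Fin 2) (Fin 2) F) ⊗ₖ (1 : Matrix (Fin n₂) (Fin n₂) F) +
        (-(!![0, 1; 0, 0] : Matrix (Fin 2) (Fin 2) F)) ⊗ₖ Matrix.single j₀ j₁ (1 : F) := rfl
  rw [hgv, hgi, z₀_val _ (Matrix.single j₀ j₁ (1 : F))] at h3
  simp only [d_mul _ (single_sq h)] at h3
  have h4 := d_inj h _ _ _ _ h3
  have h5 := congrFun (congrFun h4 0) 0
  simp [Matrix.mul_apply, Fin.sum_univ_two, W] at h5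

theorem sl_top (hq : Fintype.card F = 2) (n : ℕ) : Cfsg.Geo.specialLinear (Fin n) F = ⊤ := by
  rw [eq_top_iff]
  intro g _
  show Matrix.GeneralLinearGroup.det g = 1
  apply Units.ext
  rcases zero_or_one hq (Matrix.GeneralLinearGroup.det g).val with h | h
  · exact absurd h (Units.ne_zero _)
  · exact h

end


/-- Over the field with 2 elements, for n = 2 n₂ ≥ 13, the stabiliser in SL_n of a tensor decomposition with factors of dimensions 2 and n₂ (the conjugate by any P of the Kronecker-product subgroup transported along any bijection Fin n ≃ Fin 2 × Fin n₂, intersected with SL_n) is not a maximal subgroup: some subgroup lies strictly between it and SL_n. -/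
theorem result {F : Type*} [Field F] [Fintype F] (n : ℕ) (hn : 13 ≤ n) (hq : Fintype.card F = 2) (n₂ : ℕ) (e : Fin n ≃ Fin 2 × Fin n₂) (P : Matrix.GeneralLinearGroup (Fin n) F) : ∃ K : Subgroup (Matrix.GeneralLinearGroup (Fin n) F), Cfsg.Geo.tensorProductSubgroup 2 n₂ e P ⊓ Cfsg.Geo.specialLinear (Fin n) F < K ∧ K < Cfsg.Geo.specialLinear (Fin n) F := by
  have hcard := Fintype.card_congr e
  rw [Fintype.card_fin, Fintype.card_prod, Fintype.card_fin, Fintype.card_fin] at hcard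
  have hn2 : 2 ≤ n₂ := by omega
  have hj : (⟨0, by omega⟩ : Fin n₂) ≠ ⟨1, by omega⟩ := by simp [Fin.ext_iff]
  rw [sl_top hq, inf_top_eq]
  have hφ₁ : Function.Injective (Cfsg.Geo.glReindex (F := F) e.symm).toMonoidHom :=
    (Cfsg.Geo.glReindex e.symm).injective
  have hφ₁s : Function.Surjective (Cfsg.Geo.glReindex (F := F) e.symm).toMonoidHom :=
    (Cfsg.Geo.glReindex e.symm).surjective
  have hφ₂ : Function.Injective (MulAut.conj P).toMonoidHom := (MulAut.conj P).injective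
  have hφ₂s : Function.Surjective (MulAut.conj P).toMonoidHom := (MulAut.conj P).surjective
  refine ⟨((K₀ hq n₂).map (Cfsg.Geo.glReindex e.symm).toMonoidHom).map (MulAut.conj P).toMonoidHom,
    ?_, ?_⟩
  · show ((Cfsg.Geo.kroneckerSubgroup 2 n₂ F).map (Cfsg.Geo.glReindex e.symm).toMonoidHom).map
      (MulAut.conj P).toMonoidHom < _
    rw [Subgroup.map_lt_map_iff_of_injective hφ₂, Subgroup.map_lt_map_iff_of_injective hφ₁]
    refine lt_of_le_of_ne (kron_le hq n₂) ?_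
    intro heq
    exact g1_not_mem n₂ _ _ hj (by rw [heq]; exact g1_mem hq n₂ _ _ hj)
  · have htop : (⊤ : Subgroup (Matrix.GeneralLinearGroup (Fin n) F)) =
        ((⊤ : Subgroup (Matrix.GeneralLinearGroup (Fin 2 × Fin n₂) F)).map
          (Cfsg.Geo.glReindex e.symm).toMonoidHom).map (MulAut.conj P).toMonoidHom := by
      rw [Subgroup.map_top_of_surjective _ hφ₁s, Subgroup.map_top_of_surjective _ hφ₂s]
    rw [htop, Subgroup.map_lt_map_iff_of_injective hφ₂, Subgroup.map_lt_map_iff_of_injective hφ₁,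
      lt_top_iff_ne_top]
    intro heq
    exact g2_not_mem hq n₂ _ _ hj (by rw [heq]; exact Subgroup.mem_top _)

end Cfsg.Agent.S5638
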