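import Cfsg.Statements.S5635
import Mathlib
import Cfsg.Agent.Lib_helper4_Transv
import Cfsg.Agent.S5638
import Cfsg.Agent.S5656

set_option autoImplicit false
open Cfsg

namespace Cfsg.Agent.S5635

open Matrix

section General
variable {F : Type*} [Field F] {n t : ℕ} (D : Fin t → Submodule F (Fin n → F))

/-- `x` has zero component in `D i`. -/
def Cmem (i : Fin t) (x : Fin n → F) : Prop :=
  ∃ y : Fin t → (Fin n → F), (∀ j, y j ∈ D j) ∧ y i = 0 ∧ ∑ j, y j = x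

theorem exists_fam (hs : iSup D = ⊤) (x : Fin n → F) :
    ∃ y : Fin t → (Fin n → F), (∀ j, y j ∈ D j) ∧ ∑ j, y j = x := by
  have hx : x ∈ ⨆ i ∈ (Finset.univ : Finset (Fin t)), D i := by
    simp only [Finset.mem_univ, iSup_pos]
    rw [hs]
    exact Submodule.mem_top
  obtain ⟨μ, hμ⟩ := (Submodule.mem_iSup_finset_iff_exists_sum D x).1 hx
  exact ⟨fun j => (μ j : Fin n → F), fun j => (μ j).2, hμ⟩

theorem fam_unique (hi : iSupIndep D) (y y' : Fin t → (Fin n → F)) (hy : ∀ j, y j ∈ D j)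
    (hy' : ∀ j, y' j ∈ D j) (h : ∑ j, y j = ∑ j, y' j) : y = y' := by
  classical
  funext i
  have hz : ∑ j, (y j - y' j) = 0 := by
    rw [Finset.sum_sub_distrib, h, sub_self]
  have h1 := Finset.add_sum_erase Finset.univ (fun j => y j - y' j) (Finset.mem_univ i)
  rw [hz] at h1
  have h2 : y i - y' i = -∑ j ∈ Finset.univ.erase i, (y j - y' j) := eq_neg_of_add_eq_zero_left h1
  have h3 : y i - y' i ∈ ⨆ j, ⨆ (_ : j ≠ i), D j := by
    rw [h2]
    refine Submodule.neg_mem _ (Submodule.sum_mem _ (fun j hj => ?_))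
    exact Submodule.mem_iSup_of_mem j (Submodule.mem_iSup_of_mem (Finset.ne_of_mem_erase hj)
      ((D j).sub_mem (hy j) (hy' j)))
  have h4 := Submodule.disjoint_def.1 (iSupIndep_def.1 hi i) _ ((D i).sub_mem (hy i) (hy' i)) h3
  exact sub_eq_zero.1 h4

theorem cmem_iff (hi : iSupIndep D) (y : Fin t → (Fin n → F)) (hy : ∀ j, y j ∈ D j) (i : Fin t) :
    Cmem D i (∑ j, y j) ↔ y i = 0 := by
  constructor
  · rintro ⟨y', hy', h0, hsum⟩
    rw [← fam_unique D hi y' y hy' hy hsum]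
    exact h0
  · intro h0
    exact ⟨y, hy, h0, rfl⟩

open Classical in
/-- Indicator (in `F`) of being non-zero. -/
noncomputable def nz (z : Fin n → F) : F := if z = 0 then 0 else 1

open Classical in
/-- The number of non-zero components, in `F`. -/
noncomputable def wt (x : Fin n → F) : F := ∑ i, if Cmem D i x then 0 else 1

theorem wt_sum (hi : iSupIndep D) (y : Fin t → (Fin n → F)) (hy : ∀ j, y j ∈ D j) :
    wt D (∑ j, y j) = ∑ j, nz (y j) := by
  unfold wt nz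
  refine Finset.sum_congr rfl (fun i _ => ?_)
  by_cases h0 : y i = 0
  · rw [if_pos ((cmem_iff D hi y hy i).2 h0), if_pos h0]
  · rw [if_neg (fun h => h0 ((cmem_iff D hi y hy i).1 h)), if_neg h0]

theorem nz_zero : nz (0 : Fin n → F) = 0 := if_pos rfl

theorem nz_of_ne {z : Fin n → F} (h : z ≠ 0) : nz z = 1 := if_neg h

theorem wt_supp (hi : iSupIndep D) (S : Finset (Fin t)) (z : Fin t → (Fin n → F))
    (hz : ∀ j ∈ S, z j ∈ D j) : wt D (∑ j ∈ S, z j) = ∑ j ∈ S, nz (z j) := by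
  classical
  have h1 : ∑ j ∈ S, z j = ∑ j, (if j ∈ S then z j else 0) := by
    rw [Finset.sum_ite_mem, Finset.univ_inter]
  have hy : ∀ j, (if j ∈ S then z j else 0) ∈ D j := by
    intro j
    by_cases hj : j ∈ S
    · rw [if_pos hj]
      exact hz j hj
    · rw [if_neg hj]
      exact (D j).zero_mem
  rw [h1, wt_sum D hi _ hy]
  have h2 : ∀ j, nz (if j ∈ S then z j else 0) = if j ∈ S then nz (z j) else 0 := by
    intro j
    by_cases hj : j ∈ S
    · rw [if_pos hj, if_pos hj]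
    · rw [if_neg hj, if_neg hj, nz_zero]
  rw [Finset.sum_congr rfl (fun j _ => h2 j), Finset.sum_ite_mem, Finset.univ_inter]

theorem wt_add (hi : iSupIndep D) (y : Fin t → (Fin n → F)) (hy : ∀ j, y j ∈ D j)
    (S : Finset (Fin t)) (u : Fin t → (Fin n → F)) (hu : ∀ j, u j ∈ D j) (c : F) :
    wt D (∑ j, y j + c • ∑ j ∈ S, u j) =
      wt D (∑ j, y j) + ∑ j ∈ S, (nz (y j + c • u j) - nz (y j)) := by
  classical
  have h1 : ∑ j, y j + c • ∑ j ∈ S, u j = ∑ j, (y j + if j ∈ S then c • u j else 0) := by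
    rw [Finset.sum_add_distrib, Finset.sum_ite_mem, Finset.univ_inter, Finset.smul_sum]
  have hy' : ∀ j, (y j + if j ∈ S then c • u j else 0) ∈ D j := by
    intro j
    by_cases hj : j ∈ S
    · rw [if_pos hj]
      exact (D j).add_mem (hy j) ((D j).smul_mem _ (hu j))
    · rw [if_neg hj, add_zero]
      exact hy j
  rw [h1, wt_sum D hi _ hy', wt_sum D hi y hy]
  have h2 : ∀ j, nz (y j + if j ∈ S then c • u j else 0) =
      nz (y j) + if j ∈ S then (nz (y j + c • u j) - nz (y j)) else 0 := by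
    intro j
    by_cases hj : j ∈ S
    · rw [if_pos hj, if_pos hj]
      ring
    · rw [if_neg hj, if_neg hj, add_zero, add_zero]
  rw [Finset.sum_congr rfl (fun j _ => h2 j), Finset.sum_add_distrib, Finset.sum_ite_mem,
    Finset.univ_inter]

/-- The maps preserving the number of non-zero components modulo the characteristic. -/
def K' : Subgroup (Matrix.GeneralLinearGroup (Fin n) F) where
  carrier := {g | ∀ x, wt D (g.val *ᵥ x) = wt D x}
  mul_mem' := by
    intro a b ha hb x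
    rw [Units.val_mul, ← Matrix.mulVec_mulVec, ha, hb]
  one_mem' := fun x => by simp
  inv_mem' := by
    intro a ha x
    have := ha ((a⁻¹).val *ᵥ x)
    rw [Matrix.mulVec_mulVec, ← Units.val_mul, mul_inv_cancel, Units.val_one,
      Matrix.one_mulVec] at this
    exact this.symm

theorem stab_le (hi : iSupIndep D) (hs : iSup D = ⊤) :
    Cfsg.Geo.decompositionStabilizer D ≤ K' D := by
  rintro g ⟨σ, hσ⟩ x
  obtain ⟨y, hy, rfl⟩ := exists_fam D hs x
  have hinj : ∀ z, (g⁻¹).val *ᵥ (g.val *ᵥ z) = z := fun z => by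
    rw [Matrix.mulVec_mulVec, ← Units.val_mul, inv_mul_cancel, Units.val_one, Matrix.one_mulVec]
  have h1 : g.val *ᵥ ∑ j, y j = ∑ k, g.val *ᵥ y (σ.symm k) := by
    rw [Matrix.mulVec_sum]
    exact (Equiv.sum_comp σ.symm (fun j => g.val *ᵥ y j)).symm
  have hy' : ∀ k, g.val *ᵥ y (σ.symm k) ∈ D k := by
    intro k
    have h2 := hσ (σ.symm k)
    rw [Equiv.apply_symm_apply] at h2
    rw [← h2]
    exact ⟨y (σ.symm k), hy _, Matrix.toLin'_apply _ _⟩
  rw [h1, wt_sum D hi _ hy', wt_sum D hi y hy,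
    Equiv.sum_comp σ.symm (fun j => nz (g.val *ᵥ y j))]
  refine Finset.sum_congr rfl (fun j _ => ?_)
  by_cases h0 : y j = 0
  · rw [h0, Matrix.mulVec_zero]
  · have h3 : g.val *ᵥ y j ≠ 0 := by
      intro h
      apply h0
      rw [← hinj (y j), h, Matrix.mulVec_zero]
    rw [nz_of_ne h0, nz_of_ne h3]

end General

section General2
variable {F : Type*} [Field F] {n t : ℕ} (D : Fin t → Submodule F (Fin n → F))

theorem exists_tvf (f : (Fin n → F) →ₗ[F] F) (v : Fin n → F) (hfv : 1 + f v ≠ 0) :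
    ∃ g : Matrix.GeneralLinearGroup (Fin n) F,
      (∀ x, g.val *ᵥ x = x + f x • v) ∧ g.val.det = 1 + f v := by
  let φ : Fin n → F := fun i => f (fun j => if i = j then 1 else 0)
  have hφ : ∀ x, φ ⬝ᵥ x = f x := by
    intro x
    rw [LinearMap.pi_apply_eq_sum_univ f x]
    simp only [dotProduct, φ, smul_eq_mul]
    exact Finset.sum_congr rfl (fun i _ => mul_comm _ _)
  have hdet : (1 + vecMulVec v φ).det = 1 + f v := by
    rw [Cfsg.Agent.Lib_helper4_Transv.det_one_add_vecMulVec, hφ]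
  refine ⟨Matrix.GeneralLinearGroup.mkOfDetNeZero (1 + vecMulVec v φ) (by rw [hdet]; exact hfv),
    ?_, hdet⟩
  intro x
  show (1 + vecMulVec v φ) *ᵥ x = _
  rw [Cfsg.Agent.Lib_helper4_Transv.one_add_vecMulVec_mulVec, hφ]

theorem mem_sl_of_det (g : Matrix.GeneralLinearGroup (Fin n) F) (h : g.val.det = 1) :
    g ∈ Cfsg.Geo.specialLinear (Fin n) F := by
  show Matrix.GeneralLinearGroup.det g = 1
  apply Units.ext
  exact h

theorem exists_coord (hi : iSupIndep D) (i : Fin t) (b : Fin n → F) (hb : b ∈ D i)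
    (hb0 : b ≠ 0) :
    ∃ φ : (Fin n → F) →ₗ[F] F, φ b = 1 ∧ ∀ j, j ≠ i → ∀ d ∈ D j, φ d = 0 := by
  have hnot : b ∉ ⨆ j, ⨆ (_ : j ≠ i), D j := fun h =>
    hb0 (Submodule.disjoint_def.1 (iSupIndep_def.1 hi i) b hb h)
  obtain ⟨f, hfb, hf⟩ := Submodule.exists_dual_map_eq_bot_of_notMem hnot inferInstance
  refine ⟨(f b)⁻¹ • f, ?_, ?_⟩
  · rw [LinearMap.smul_apply, smul_eq_mul, inv_mul_cancel₀ hfb]
  · intro j hj d hd
    have h1 : f d ∈ (⨆ j, ⨆ (_ : j ≠ i), D j).map f :=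
      Submodule.mem_map_of_mem (Submodule.mem_iSup_of_mem j (Submodule.mem_iSup_of_mem hj hd))
    rw [hf] at h1
    rw [LinearMap.smul_apply, (Submodule.mem_bot F).1 h1, smul_zero]

theorem exists_coord2 (hi : iSupIndep D) (i : Fin t) (a b : Fin n → F) (ha : a ∈ D i)
    (hb : b ∈ D i) (hab : b ∉ Submodule.span F {a}) :
    ∃ φ : (Fin n → F) →ₗ[F] F, φ a = 0 ∧ φ b = 1 ∧ ∀ j, j ≠ i → ∀ d ∈ D j, φ d = 0 := by
  have hnot : b ∉ Submodule.span F {a} ⊔ ⨆ j, ⨆ (_ : j ≠ i), D j := by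
    intro h
    obtain ⟨y, hy, z, hz, hyz⟩ := Submodule.mem_sup.1 h
    have hz' : z ∈ D i := by
      have : z = b - y := by rw [← hyz]; abel
      rw [this]
      exact (D i).sub_mem hb ((Submodule.span_singleton_le_iff_mem a (D i)).2 ha hy)
    have hz0 : z = 0 := Submodule.disjoint_def.1 (iSupIndep_def.1 hi i) z hz' hz
    rw [hz0, add_zero] at hyz
    rw [← hyz] at hab
    exact hab hy
  obtain ⟨f, hfb, hf⟩ := Submodule.exists_dual_map_eq_bot_of_notMem hnot inferInstance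
  have hker : ∀ d ∈ Submodule.span F {a} ⊔ ⨆ j, ⨆ (_ : j ≠ i), D j, f d = 0 := by
    intro d hd
    have h1 : f d ∈ (Submodule.span F {a} ⊔ ⨆ j, ⨆ (_ : j ≠ i), D j).map f :=
      Submodule.mem_map_of_mem hd
    rw [hf] at h1
    exact (Submodule.mem_bot F).1 h1
  refine ⟨(f b)⁻¹ • f, ?_, ?_, ?_⟩
  · rw [LinearMap.smul_apply,
      hker a (Submodule.mem_sup_left (Submodule.mem_span_singleton_self a)), smul_zero]
  · rw [LinearMap.smul_apply, smul_eq_mul, inv_mul_cancel₀ hfb]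
  · intro j hj d hd
    rw [LinearMap.smul_apply, hker d (Submodule.mem_sup_right
      (Submodule.mem_iSup_of_mem j (Submodule.mem_iSup_of_mem hj hd))), smul_zero]

theorem dim_count {m : ℕ} (hD : Cfsg.Geo.IsMDecomposition m D) : n = t * m := by
  classical
  have hint := DirectSum.isInternal_submodule_of_iSupIndep_of_iSup_eq_top hD.indep hD.iSup_eq_top
  have h1 := Module.finrank_eq_card_basis
    (hint.collectedBasis (fun i => Module.finBasisOfFinrankEq F (D i) (hD.finrank_eq i)))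
  rw [Module.finrank_fintype_fun_eq_card] at h1
  simpa using h1

theorem exists_ne_zero {m : ℕ} (hD : Cfsg.Geo.IsMDecomposition m D) (i : Fin t) :
    ∃ a ∈ D i, a ≠ 0 := by
  have hne : D i ≠ ⊥ := by
    intro h
    have h1 := hD.finrank_eq i
    rw [h, finrank_bot] at h1
    have h2 := hD.pos
    omega
  exact Submodule.exists_mem_ne_zero_of_ne_bot hne

theorem exists_not_mem {m : ℕ} (hD : Cfsg.Geo.IsMDecomposition m D) :
    ∃ g ∈ Cfsg.Geo.specialLinear (Fin n) F, g ∉ K' D := by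
  classical
  have ht := hD.two_le
  obtain ⟨i₁, i₂, h12⟩ : ∃ i₁ i₂ : Fin t, i₁ ≠ i₂ :=
    ⟨⟨0, by omega⟩, ⟨1, by omega⟩, by simp [Fin.ext_iff]⟩
  obtain ⟨v, hv, hv0⟩ := exists_ne_zero D hD i₁
  obtain ⟨w, hw, hw0⟩ := exists_ne_zero D hD i₂
  obtain ⟨φ, hφw, hφ⟩ := exists_coord D hD.indep i₂ w hw hw0
  have hφv : φ v = 0 := hφ i₁ h12 v hv
  obtain ⟨g, hg, hdet⟩ := exists_tvf φ v (by rw [hφv, add_zero]; exact one_ne_zero)
  refine ⟨g, mem_sl_of_det g (by rw [hdet, hφv, add_zero]), ?_⟩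
  intro hmem
  have h1 := hmem w
  rw [hg, hφw, one_smul] at h1
  have hw1 : wt D w = 1 := by
    have := wt_supp D hD.indep {i₂} (fun _ => w) (fun j hj => by
      rw [Finset.mem_singleton.1 hj]
      exact hw)
    rw [Finset.sum_singleton, Finset.sum_singleton, nz_of_ne hw0] at this
    exact this
  have hw2 : wt D (w + v) = 2 := by
    have := wt_supp D hD.indep {i₂, i₁} (fun j => if j = i₂ then w else v) (fun j hj => by
      rcases Finset.mem_insert.1 hj with h | h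
      · rw [h, if_pos rfl]
        exact hw
      · rw [Finset.mem_singleton.1 h, if_neg h12]
        exact hv)
    rw [Finset.sum_pair (Ne.symm h12), Finset.sum_pair (Ne.symm h12), if_pos rfl, if_neg h12,
      nz_of_ne hw0, nz_of_ne hv0] at this
    rw [this]
    norm_num
  rw [hw1, hw2] at h1
  have : (1 : F) = 0 := by linear_combination h1
  exact one_ne_zero this

end General2

section CaseA
variable {F : Type*} [Field F] [Fintype F] {n t : ℕ} (D : Fin t → Submodule F (Fin n → F))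

theorem nz_smul (b : Fin n → F) (hb : b ≠ 0) (μ : F) :
    nz (μ • b) = μ ^ (Fintype.card F - 1) := by
  by_cases hμ : μ = 0
  · rw [hμ, zero_smul, nz_zero, zero_pow]
    have := Fintype.one_lt_card (α := F)
    omega
  · rw [nz_of_ne (smul_ne_zero hμ hb), FiniteField.pow_card_sub_one_eq_one μ hμ]

omit [Fintype F] in
theorem s_v (b : Fin t → (Fin n → F)) (c : Fin t → ((Fin n → F) →ₗ[F] F))
    (hb : ∀ j, b j ∈ D j) (hc1 : ∀ j, c j (b j) = 1)
    (hc0 : ∀ j k, k ≠ j → ∀ d ∈ D k, c j d = 0) (S : Finset (Fin t)) :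
    (∑ j ∈ S, c j) (∑ k ∈ S, b k) = (S.card : F) := by
  rw [LinearMap.sum_apply]
  have : ∀ j ∈ S, c j (∑ k ∈ S, b k) = 1 := by
    intro j hj
    rw [map_sum, Finset.sum_eq_single j]
    · exact hc1 j
    · intro k _ hkj
      exact hc0 j k hkj (b k) (hb k)
    · intro h
      exact absurd hj h
  rw [Finset.sum_congr rfl this, Finset.sum_const, nsmul_eq_mul, mul_one]

omit [Fintype F] in
theorem c_fam (c : Fin t → ((Fin n → F) →ₗ[F] F))
    (hc0 : ∀ j k, k ≠ j → ∀ d ∈ D k, c j d = 0) (y : Fin t → (Fin n → F))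
    (hy : ∀ j, y j ∈ D j) (j : Fin t) : c j (∑ k, y k) = c j (y j) := by
  rw [map_sum, Finset.sum_eq_single j]
  · intro k _ hkj
    exact hc0 j k hkj (y k) (hy k)
  · intro h
    exact absurd (Finset.mem_univ j) h

theorem refl_mem (hi : iSupIndep D) (hs : iSup D = ⊤) (b : Fin t → (Fin n → F))
    (c : Fin t → ((Fin n → F) →ₗ[F] F)) (hb : ∀ j, b j ∈ D j) (hb0 : ∀ j, b j ≠ 0)
    (hc0 : ∀ j k, k ≠ j → ∀ d ∈ D k, c j d = 0) (hsp : ∀ j, ∀ y ∈ D j, y = c j y • b j)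
    (S : Finset (Fin t))
    (hP : ∀ a : Fin t → F, ∑ j ∈ S, ((a j + ∑ k ∈ S, a k) ^ (Fintype.card F - 1) -
      (a j) ^ (Fintype.card F - 1)) = 0)
    (g : Matrix.GeneralLinearGroup (Fin n) F)
    (hg : ∀ x, g.val *ᵥ x = x + (∑ j ∈ S, c j) x • ∑ j ∈ S, b j) : g ∈ K' D := by
  intro x
  rw [hg]
  obtain ⟨y, hy, rfl⟩ := exists_fam D hs x
  rw [wt_add D hi y hy S b hb]
  have h1 : ∀ j ∈ S, nz (y j + (∑ l ∈ S, c l) (∑ k, y k) • b j) - nz (y j) =
      (c j (∑ k, y k) + ∑ l ∈ S, c l (∑ k, y k)) ^ (Fintype.card F - 1) -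
        (c j (∑ k, y k)) ^ (Fintype.card F - 1) := by
    intro j _
    have hyj : y j = c j (∑ k, y k) • b j := by
      rw [c_fam D c hc0 y hy j]
      exact hsp j (y j) (hy j)
    have e1 : y j + (∑ l ∈ S, c l) (∑ k, y k) • b j =
        (c j (∑ k, y k) + ∑ l ∈ S, c l (∑ k, y k)) • b j := by
      rw [add_smul, ← hyj, LinearMap.sum_apply]
    have e2 : nz (y j) = (c j (∑ k, y k)) ^ (Fintype.card F - 1) := by
      rw [← nz_smul (b j) (hb0 j), ← hyj]
    rw [e1, e2, nz_smul _ (hb0 j)]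
  rw [Finset.sum_congr rfl h1, hP (fun j => c j (∑ k, y k)), add_zero]

omit [Fintype F] in
theorem sum4 {M : Type*} [AddCommMonoid M] (j₁ j₂ j₃ j₄ : Fin t) (h12 : j₁ ≠ j₂) (h13 : j₁ ≠ j₃)
    (h14 : j₁ ≠ j₄) (h23 : j₂ ≠ j₃) (h24 : j₂ ≠ j₄) (h34 : j₃ ≠ j₄) (f : Fin t → M) :
    ∑ j ∈ ({j₁, j₂, j₃, j₄} : Finset (Fin t)), f j = f j₁ + (f j₂ + (f j₃ + f j₄)) := by
  rw [Finset.sum_insert (by simp [h12, h13, h14]), Finset.sum_insert (by simp [h23, h24]),
    Finset.sum_pair h34]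

theorem caseA (hD : Cfsg.Geo.IsMDecomposition 1 D) (hq : Fintype.card F ≤ 4) (ht : 5 ≤ t) :
    ∃ g ∈ K' D ⊓ Cfsg.Geo.specialLinear (Fin n) F, g ∉ Cfsg.Geo.decompositionStabilizer D := by
  classical
  have hi := hD.indep
  have hs := hD.iSup_eq_top
  have hex : ∀ j, ∃ b ∈ D j, b ≠ 0 := exists_ne_zero D hD
  choose b hb hb0 using hex
  have hex2 : ∀ j, ∃ φ : (Fin n → F) →ₗ[F] F, φ (b j) = 1 ∧ ∀ k, k ≠ j → ∀ d ∈ D k, φ d = 0 :=
    fun j => exists_coord D hi j (b j) (hb j) (hb0 j)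
  choose c hc1 hc0 using hex2
  have hsp : ∀ j, ∀ y ∈ D j, y = c j y • b j := by
    intro j y hy
    have h1 := (finrank_eq_one_iff_of_nonzero' (⟨b j, hb j⟩ : D j) (by
      intro h
      exact hb0 j (congrArg Subtype.val h))).1 (hD.finrank_eq j) ⟨y, hy⟩
    obtain ⟨l, hl⟩ := h1
    have hl' : l • b j = y := congrArg Subtype.val hl
    rw [← hl', map_smul, hc1 j, smul_eq_mul, mul_one]
  obtain ⟨j₁, j₂, j₃, j₄, j₅, h12, h13, h14, h23, h24, h34, h15⟩ :
      ∃ j₁ j₂ j₃ j₄ j₅ : Fin t, j₁ ≠ j₂ ∧ j₁ ≠ j₃ ∧ j₁ ≠ j₄ ∧ j₂ ≠ j₃ ∧ j₂ ≠ j₄ ∧ j₃ ≠ j₄ ∧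
        j₁ ≠ j₅ :=
    ⟨⟨0, by omega⟩, ⟨1, by omega⟩, ⟨2, by omega⟩, ⟨3, by omega⟩, ⟨4, by omega⟩,
      by simp [Fin.ext_iff], by simp [Fin.ext_iff], by simp [Fin.ext_iff], by simp [Fin.ext_iff],
      by simp [Fin.ext_iff], by simp [Fin.ext_iff], by simp [Fin.ext_iff]⟩
  obtain ⟨S, hS⟩ : ∃ S : Finset (Fin t), S = {j₁, j₂, j₃, j₄} := ⟨_, rfl⟩
  have hScard : (S.card : F) = 4 := by
    rw [hS, Finset.card_eq_sum_ones, sum4 _ _ _ _ h12 h13 h14 h23 h24 h34]
    norm_num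
  have hsb : (∑ j ∈ S, c j) (b j₁) = 1 := by
    rw [LinearMap.sum_apply, hS, sum4 _ _ _ _ h12 h13 h14 h23 h24 h34, hc1 j₁,
      hc0 j₂ j₁ h12 _ (hb j₁), hc0 j₃ j₁ h13 _ (hb j₁), hc0 j₄ j₁ h14 _ (hb j₁)]
    simp
  have hnot : ∀ g : Matrix.GeneralLinearGroup (Fin n) F,
      g.val *ᵥ b j₁ = b j₁ + ∑ k ∈ S, b k → g ∉ Cfsg.Geo.decompositionStabilizer D := by
    rintro g hg1 ⟨σ, hσ⟩
    have hm : b j₁ + ∑ k ∈ S, b k ∈ D (σ j₁) := by
      rw [← hσ j₁, ← hg1]
      exact ⟨b j₁, hb j₁, Matrix.toLin'_apply _ _⟩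
    have e2 : c j₂ (b j₁ + ∑ k ∈ S, b k) = 1 := by
      rw [map_add, map_sum, hS, sum4 _ _ _ _ h12 h13 h14 h23 h24 h34, hc0 j₂ j₁ h12 _ (hb j₁),
        hc1 j₂, hc0 j₂ j₃ (Ne.symm h23) _ (hb j₃), hc0 j₂ j₄ (Ne.symm h24) _ (hb j₄)]
      simp
    have e3 : c j₃ (b j₁ + ∑ k ∈ S, b k) = 1 := by
      rw [map_add, map_sum, hS, sum4 _ _ _ _ h12 h13 h14 h23 h24 h34, hc0 j₃ j₁ h13 _ (hb j₁),
        hc0 j₃ j₂ h23 _ (hb j₂), hc1 j₃, hc0 j₃ j₄ (Ne.symm h34) _ (hb j₄)]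
      simp
    by_cases hj : σ j₁ = j₂
    · have := hc0 j₃ (σ j₁) (by rw [hj]; exact h23) _ hm
      rw [e3] at this
      exact one_ne_zero this
    · have := hc0 j₂ (σ j₁) hj _ hm
      rw [e2] at this
      exact one_ne_zero this
  have hsv : (∑ j ∈ S, c j) (∑ k ∈ S, b k) = 4 := by
    rw [s_v D b c hb hc1 hc0 S, hScard]
  have hcard : Fintype.card F = 2 ∨ Fintype.card F = 3 ∨ Fintype.card F = 4 := by
    have := Fintype.one_lt_card (α := F)
    omega
  have hc2 : (Fintype.card F = 2 ∨ Fintype.card F = 4) → (2 : F) = 0 := by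
    intro h
    have h0 := FiniteField.cast_card_eq_zero F
    rcases h with h | h
    · rw [h] at h0
      exact_mod_cast h0
    · rw [h] at h0
      have h4 : (2 : F) * 2 = 0 := by
        have : ((4 : ℕ) : F) = 2 * 2 := by norm_num
        rw [← this]
        exact h0
      exact mul_self_eq_zero.1 h4
  rcases hcard with hq2 | hq3 | hq4
  · -- q = 2
    have h2 := hc2 (Or.inl hq2)
    have he : Fintype.card F - 1 = 1 := by rw [hq2]
    obtain ⟨g, hg, hdet⟩ := exists_tvf (∑ j ∈ S, c j) (∑ k ∈ S, b k) (by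
      rw [hsv]
      intro h
      have : (1 : F) = 0 := by linear_combination h - 2 * h2
      exact one_ne_zero this)
    refine ⟨g, Subgroup.mem_inf.2 ⟨?_, ?_⟩, ?_⟩
    · refine refl_mem D hi hs b c hb hb0 hc0 hsp S ?_ g hg
      intro a
      rw [he, hS]
      simp only [sum4 _ _ _ _ h12 h13 h14 h23 h24 h34]
      linear_combination (2 * (a j₁ + (a j₂ + (a j₃ + a j₄)))) * h2
    · apply mem_sl_of_det
      rw [hdet, hsv]
      linear_combination 2 * h2
    · apply hnot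
      rw [hg, hsb, one_smul]
  · -- q = 3
    have h3 : (3 : F) = 0 := by
      have h0 := FiniteField.cast_card_eq_zero F
      rw [hq3] at h0
      exact_mod_cast h0
    have he : Fintype.card F - 1 = 2 := by rw [hq3]
    obtain ⟨g₄, hg₄, hdet₄⟩ := exists_tvf (∑ j ∈ S, c j) (∑ k ∈ S, b k) (by
      rw [hsv]
      intro h
      have : (1 : F) = 0 := by linear_combination 2 * h3 - h
      exact one_ne_zero this)
    have hsv5 : (∑ j ∈ ({j₅} : Finset (Fin t)), c j) (∑ k ∈ ({j₅} : Finset (Fin t)), b k) = 1 := by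
      rw [s_v D b c hb hc1 hc0 {j₅}, Finset.card_singleton, Nat.cast_one]
    obtain ⟨g₅, hg₅, hdet₅⟩ := exists_tvf (∑ j ∈ ({j₅} : Finset (Fin t)), c j)
      (∑ k ∈ ({j₅} : Finset (Fin t)), b k) (by
      rw [hsv5]
      intro h
      have : (1 : F) = 0 := by linear_combination h3 - h
      exact one_ne_zero this)
    refine ⟨g₄ * g₅, Subgroup.mem_inf.2 ⟨?_, ?_⟩, ?_⟩
    · refine (K' D).mul_mem ?_ ?_
      · refine refl_mem D hi hs b c hb hb0 hc0 hsp S ?_ g₄ hg₄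
        intro a
        rw [he, hS]
        simp only [sum4 _ _ _ _ h12 h13 h14 h23 h24 h34]
        linear_combination (2 * (a j₁ + (a j₂ + (a j₃ + a j₄))) ^ 2) * h3
      · refine refl_mem D hi hs b c hb hb0 hc0 hsp {j₅} ?_ g₅ hg₅
        intro a
        rw [he]
        simp only [Finset.sum_singleton]
        linear_combination (a j₅) ^ 2 * h3
    · apply mem_sl_of_det
      rw [Units.val_mul, Matrix.det_mul, hdet₄, hdet₅, hsv, hsv5]
      linear_combination 3 * h3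
    · apply hnot
      rw [Units.val_mul, ← Matrix.mulVec_mulVec, hg₅, Finset.sum_singleton,
        hc0 j₅ j₁ h15 _ (hb j₁), zero_smul, add_zero, hg₄, hsb, one_smul]
  · -- q = 4
    have h2 := hc2 (Or.inr hq4)
    have he : Fintype.card F - 1 = 3 := by rw [hq4]
    obtain ⟨g, hg, hdet⟩ := exists_tvf (∑ j ∈ S, c j) (∑ k ∈ S, b k) (by
      rw [hsv]
      intro h
      have : (1 : F) = 0 := by linear_combination h - 2 * h2
      exact one_ne_zero this)
    refine ⟨g, Subgroup.mem_inf.2 ⟨?_, ?_⟩, ?_⟩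
    · refine refl_mem D hi hs b c hb hb0 hc0 hsp S ?_ g hg
      intro a
      rw [he, hS]
      simp only [sum4 _ _ _ _ h12 h13 h14 h23 h24 h34]
      linear_combination (3 * (a j₁ + a j₂ + a j₃ + a j₄) * (a j₁ ^ 2 + a j₂ ^ 2 + a j₃ ^ 2 +
        a j₄ ^ 2 + a j₁ * a j₂ + a j₁ * a j₃ + a j₁ * a j₄ + a j₂ * a j₃ + a j₂ * a j₄ +
        a j₃ * a j₄) + 2 * (a j₁ + a j₂ + a j₃ + a j₄) ^ 3) * h2
    · apply mem_sl_of_det
      rw [hdet, hsv]
      linear_combination 2 * h2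
    · apply hnot
      rw [hg, hsb, one_smul]

end CaseA

section CaseB
variable {F : Type*} [Field F] [Fintype F] {n t : ℕ} (D : Fin t → Submodule F (Fin n → F))

omit [Fintype F] in
theorem sum3 {M : Type*} [AddCommMonoid M] (j₁ j₂ j₃ : Fin t) (h12 : j₁ ≠ j₂) (h13 : j₁ ≠ j₃)
    (h23 : j₂ ≠ j₃) (f : Fin t → M) :
    ∑ j ∈ ({j₁, j₂, j₃} : Finset (Fin t)), f j = f j₁ + (f j₂ + f j₃) := by
  rw [Finset.sum_insert (by simp [h12, h13]), Finset.sum_pair h23]

theorem caseB (hD : Cfsg.Geo.IsMDecomposition 2 D) (hq : Fintype.card F = 2) (ht : 3 ≤ t) :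
    ∃ g ∈ K' D ⊓ Cfsg.Geo.specialLinear (Fin n) F, g ∉ Cfsg.Geo.decompositionStabilizer D := by
  classical
  have hi := hD.indep
  have hs := hD.iSup_eq_top
  have h2 : (2 : F) = 0 := Cfsg.Agent.S5638.two_eq_zero hq
  have h01 := Cfsg.Agent.S5638.zero_or_one hq
  have hex : ∀ j, ∃ a ∈ D j, a ≠ 0 := exists_ne_zero D hD
  choose a ha ha0 using hex
  have hexb : ∀ j, ∃ b ∈ D j, b ∉ Submodule.span F {a j} := by
    intro j
    have hlt : Submodule.span F {a j} < D j := by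
      refine lt_of_le_of_ne ((Submodule.span_singleton_le_iff_mem _ _).2 (ha j)) ?_
      intro heq
      have h1 := finrank_span_singleton (K := F) (ha0 j)
      rw [heq, hD.finrank_eq j] at h1
      omega
    exact SetLike.exists_of_lt hlt
  choose b hb hbn using hexb
  have hexφ : ∀ j, ∃ φ : (Fin n → F) →ₗ[F] F, φ (a j) = 0 ∧ φ (b j) = 1 ∧
      ∀ k, k ≠ j → ∀ d ∈ D k, φ d = 0 :=
    fun j => exists_coord2 D hi j (a j) (b j) (ha j) (hb j) (hbn j)
  choose φ hφa hφb hφ0 using hexφ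
  have hexψ : ∀ j, ∃ ψ : (Fin n → F) →ₗ[F] F, ψ (a j) = 1 ∧ ∀ k, k ≠ j → ∀ d ∈ D k, ψ d = 0 :=
    fun j => exists_coord D hi j (a j) (ha j) (ha0 j)
  choose ψ hψa hψ0 using hexψ
  have hind : ∀ j, ∀ s u : F, s • a j + u • b j = 0 → s = 0 ∧ u = 0 := by
    intro j s u hsu
    have h1 := congrArg (φ j) hsu
    rw [map_add, map_smul, map_smul, hφa, hφb, map_zero, smul_zero, zero_add, smul_eq_mul,
      mul_one] at h1
    subst h1
    rw [zero_smul, add_zero] at hsu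
    exact ⟨(smul_eq_zero.1 hsu).resolve_right (ha0 j), rfl⟩
  have hsp : ∀ j, ∀ y ∈ D j, ∃ α β : F, y = α • a j + β • b j := fun j y hy =>
    Cfsg.Agent.S5656.span2 (D j) (hD.finrank_eq j) (a j) (b j) (ha j) (hb j) (hind j) y hy
  have hb0 : ∀ j, b j ≠ 0 := by
    intro j h
    have := hind j 0 1 (by rw [zero_smul, one_smul, zero_add]; exact h)
    exact one_ne_zero this.2
  have hab0 : ∀ j, a j + b j ≠ 0 := by
    intro j h
    have := hind j 1 1 (by rw [one_smul, one_smul]; exact h)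
    exact one_ne_zero this.1
  have haa : ∀ j, a j + a j = 0 := fun j => by rw [← two_smul F, h2, zero_smul]
  have hloc : ∀ j, ∀ y ∈ D j, nz (y + (1 : F) • a j) - nz y = 1 + φ j y := by
    intro j y hy
    obtain ⟨α, β, rfl⟩ := hsp j y hy
    have hφy : φ j (α • a j + β • b j) = β := by
      rw [map_add, map_smul, map_smul, hφa, hφb, smul_zero, zero_add, smul_eq_mul, mul_one]
    rw [hφy, one_smul]
    rcases h01 α with rfl | rfl <;> rcases h01 β with rfl | rfl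
    · rw [zero_smul, zero_smul, add_zero, zero_add, nz_of_ne (ha0 j), nz_zero]
      ring
    · rw [zero_smul, zero_add, one_smul, add_comm (b j) (a j), nz_of_ne (hab0 j),
        nz_of_ne (hb0 j)]
      linear_combination -h2
    · rw [one_smul, zero_smul, add_zero, haa j, nz_zero, nz_of_ne (ha0 j)]
      linear_combination -h2
    · have e : a j + b j + a j = b j := by
        rw [add_comm (a j) (b j), add_assoc, haa j, add_zero]
      rw [one_smul, one_smul, e, nz_of_ne (hb0 j), nz_of_ne (hab0 j)]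
      linear_combination -h2
  obtain ⟨i₁, i₂, i₃, h12, h13, h23⟩ : ∃ i₁ i₂ i₃ : Fin t, i₁ ≠ i₂ ∧ i₁ ≠ i₃ ∧ i₂ ≠ i₃ :=
    ⟨⟨0, by omega⟩, ⟨1, by omega⟩, ⟨2, by omega⟩, by simp [Fin.ext_iff], by simp [Fin.ext_iff],
      by simp [Fin.ext_iff]⟩
  obtain ⟨S, hS⟩ : ∃ S : Finset (Fin t), S = {i₁, i₂, i₃} := ⟨_, rfl⟩
  have hScard : (S.card : F) = 3 := by
    rw [hS, Finset.card_eq_sum_ones, sum3 _ _ _ h12 h13 h23]
    norm_num
  have hfv : (∑ j ∈ S, φ j) (∑ k ∈ S, a k) = 0 := by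
    rw [LinearMap.sum_apply]
    apply Finset.sum_eq_zero
    intro j _
    rw [map_sum]
    apply Finset.sum_eq_zero
    intro k _
    by_cases hkj : k = j
    · rw [hkj]
      exact hφa j
    · exact hφ0 j k hkj (a k) (ha k)
  obtain ⟨g, hg, hdet⟩ := exists_tvf (∑ j ∈ S, φ j) (∑ k ∈ S, a k) (by
    rw [hfv, add_zero]
    exact one_ne_zero)
  refine ⟨g, Subgroup.mem_inf.2 ⟨?_, mem_sl_of_det g (by rw [hdet, hfv, add_zero])⟩, ?_⟩
  · intro x
    rw [hg]
    obtain ⟨y, hy, rfl⟩ := exists_fam D hs x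
    rcases h01 ((∑ j ∈ S, φ j) (∑ k, y k)) with h0 | h1
    · rw [h0, zero_smul, add_zero]
    · have h3 : ∑ j ∈ S, φ j (y j) = 1 := by
        rw [← h1, LinearMap.sum_apply]
        exact Finset.sum_congr rfl (fun j _ => (c_fam D φ hφ0 y hy j).symm)
      rw [h1, wt_add D hi y hy S a ha, Finset.sum_congr rfl (fun j _ => hloc j (y j) (hy j)),
        Finset.sum_add_distrib, Finset.sum_const, nsmul_eq_mul, mul_one, hScard, h3]
      linear_combination (2 : F) * h2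
  · rintro ⟨σ, hσ⟩
    have hsb : (∑ j ∈ S, φ j) (b i₁) = 1 := by
      rw [LinearMap.sum_apply, hS, sum3 _ _ _ h12 h13 h23, hφb i₁, hφ0 i₂ i₁ h12 _ (hb i₁),
        hφ0 i₃ i₁ h13 _ (hb i₁)]
      simp
    have hg1 : g.val *ᵥ b i₁ = b i₁ + ∑ k ∈ S, a k := by
      rw [hg, hsb, one_smul]
    have hm : b i₁ + ∑ k ∈ S, a k ∈ D (σ i₁) := by
      rw [← hσ i₁, ← hg1]
      exact ⟨b i₁, hb i₁, Matrix.toLin'_apply _ _⟩
    have e2 : ψ i₂ (b i₁ + ∑ k ∈ S, a k) = 1 := by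
      rw [map_add, map_sum, hS, sum3 _ _ _ h12 h13 h23, hψ0 i₂ i₁ h12 _ (hb i₁),
        hψ0 i₂ i₁ h12 _ (ha i₁), hψa i₂, hψ0 i₂ i₃ (Ne.symm h23) _ (ha i₃)]
      simp
    have e3 : ψ i₃ (b i₁ + ∑ k ∈ S, a k) = 1 := by
      rw [map_add, map_sum, hS, sum3 _ _ _ h12 h13 h23, hψ0 i₃ i₁ h13 _ (hb i₁),
        hψ0 i₃ i₁ h13 _ (ha i₁), hψ0 i₃ i₂ h23 _ (ha i₂), hψa i₃]
      simp
    by_cases hj : σ i₁ = i₂
    · have := hψ0 i₃ (σ i₁) (by rw [hj]; exact h23) _ hm
      rw [e3] at this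
      exact one_ne_zero this
    · have := hψ0 i₂ (σ i₁) hj _ hm
      rw [e2] at this
      exact one_ne_zero this

omit [Fintype F] in
theorem finish {m : ℕ} (hD : Cfsg.Geo.IsMDecomposition m D)
    (h : ∃ g ∈ K' D ⊓ Cfsg.Geo.specialLinear (Fin n) F,
      g ∉ Cfsg.Geo.decompositionStabilizer D) :
    ∃ K : Subgroup (Matrix.GeneralLinearGroup (Fin n) F),
      Cfsg.Geo.decompositionStabilizer D ⊓ Cfsg.Geo.specialLinear (Fin n) F < K ∧
        K < Cfsg.Geo.specialLinear (Fin n) F := by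
  obtain ⟨g₁, hg₁, hg₁n⟩ := h
  obtain ⟨g₂, hg₂, hg₂n⟩ := exists_not_mem D hD
  refine ⟨K' D ⊓ Cfsg.Geo.specialLinear (Fin n) F, ?_, ?_⟩
  · refine lt_of_le_of_ne (inf_le_inf_right _ (stab_le D hD.indep hD.iSup_eq_top)) ?_
    intro heq
    rw [← heq] at hg₁
    exact hg₁n (Subgroup.mem_inf.1 hg₁).1
  · refine lt_of_le_of_ne inf_le_right ?_
    intro heq
    have : g₂ ∈ K' D ⊓ Cfsg.Geo.specialLinear (Fin n) F := by
      rw [heq]
      exact hg₂
    exact hg₂n (Subgroup.mem_inf.1 this).1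

end CaseB


/-- For a finite field F with q elements and n ≥ 13, let D be a decomposition of F^n into t ≥ 2 independent subspaces of equal dimension m spanning F^n, where m = 1 and q ≤ 4, or m = 2 and q = 2. Then the elements of SL_n(F) permuting the members of D form a subgroup that is not maximal: some subgroup lies strictly between it and SL_n(F). -/
theorem result {F : Type*} [Field F] [Fintype F] (n : ℕ) (hn : 13 ≤ n) {t : ℕ} (m : ℕ) (D : Fin t → Submodule F (Fin n → F)) (hD : Cfsg.Geo.IsMDecomposition m D) (h : (m = 1 ∧ Fintype.card F ≤ 4) ∨ (m = 2 ∧ Fintype.card F = 2)) : ∃ K : Subgroup (Matrix.GeneralLinearGroup (Fin n) F), Cfsg.Geo.decompositionStabilizer D ⊓ Cfsg.Geo.specialLinear (Fin n) F < K ∧ K < Cfsg.Geo.specialLinear (Fin n) F := by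
  have hdim := dim_count D hD
  rcases h with ⟨hm, hq⟩ | ⟨hm, hq⟩
  · subst hm
    exact finish D hD (caseA D hD hq (by omega))
  · subst hm
    exact finish D hD (caseB D hD hq (by omega))

end Cfsg.Agent.S5635
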