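import Cfsg.Statements.S5648
import Mathlib
import Cfsg.Agent.Lib_helper4_Sp
import Cfsg.Agent.S5638

set_option autoImplicit false
open Cfsg

namespace Cfsg.Agent.S5648

open Matrix
open Cfsg.Agent.Lib_helper4_Sp

section
variable {F : Type*} [Field F] {m : ℕ}

/-- The symplectic transvection along `v` as an element of the general linear group. -/
def tg (v : Fin m ⊕ Fin m → F) : Matrix.GeneralLinearGroup (Fin m ⊕ Fin m) F :=
  ⟨Cfsg.sympTransvection m v 1, Cfsg.sympTransvection m v (-1),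
    by rw [tv_mul, add_neg_cancel, tv_zero], by rw [tv_mul, neg_add_cancel, tv_zero]⟩

theorem tg_mem (v : Fin m ⊕ Fin m → F) : tg v ∈ Cfsg.spGL m F := by
  intro u w
  exact form_mulVec_of_mem (tv_mem v 1) u w

theorem tg_mulVec (v x : Fin m ⊕ Fin m → F) :
    (tg v).val *ᵥ x = x + Cfsg.sympForm m F x v • v := by
  show Cfsg.sympTransvection m v 1 *ᵥ x = _
  rw [tv_mulVec, one_mul]

theorem form_sum_right {ι : Type*} (S : Finset ι) (a : ι → Fin m ⊕ Fin m → F)
    (x : Fin m ⊕ Fin m → F) :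
    Cfsg.sympForm m F x (∑ j ∈ S, a j) = ∑ j ∈ S, Cfsg.sympForm m F x (a j) := by
  classical
  induction S using Finset.induction_on with
  | empty => simp [form_zero_right]
  | insert j S hj ih => rw [Finset.sum_insert hj, Finset.sum_insert hj, form_add_right, ih]

theorem form_sum_left {ι : Type*} (S : Finset ι) (a : ι → Fin m ⊕ Fin m → F)
    (x : Fin m ⊕ Fin m → F) :
    Cfsg.sympForm m F (∑ j ∈ S, a j) x = ∑ j ∈ S, Cfsg.sympForm m F (a j) x := by
  classical
  induction S using Finset.induction_on with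
  | empty => simp [form_zero_left]
  | insert j S hj ih => rw [Finset.sum_insert hj, Finset.sum_insert hj, form_add_left, ih]

theorem span2 (W : Submodule F (Fin m ⊕ Fin m → F)) (hW : Module.finrank F W = 2)
    (a b : Fin m ⊕ Fin m → F) (ha : a ∈ W) (hb : b ∈ W)
    (hind : ∀ s t : F, s • a + t • b = 0 → s = 0 ∧ t = 0) (d : Fin m ⊕ Fin m → F) (hd : d ∈ W) :
    ∃ α β : F, d = α • a + β • b := by
  have hli : LinearIndependent F ![a, b] := LinearIndependent.pair_iff.2 hind
  have hle : Submodule.span F (Set.range ![a, b]) ≤ W := by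
    rw [Submodule.span_le]
    rintro _ ⟨i, rfl⟩
    fin_cases i
    · exact ha
    · exact hb
  have hfr : Module.finrank F (Submodule.span F (Set.range ![a, b])) = Module.finrank F W := by
    rw [finrank_span_eq_card hli, hW, Fintype.card_fin]
  have heq := Submodule.eq_of_le_of_finrank_eq hle hfr
  rw [← heq] at hd
  obtain ⟨c, hc⟩ := (Submodule.mem_span_range_iff_exists_fun F).1 hd
  refine ⟨c 0, c 1, ?_⟩
  rw [← hc, Fin.sum_univ_two]
  rfl

variable {t : ℕ} (D : Fin t → Submodule F (Fin m ⊕ Fin m → F))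

theorem t_eq (hD : Cfsg.Geo.IsMDecomposition 2 D) : t = m := by
  classical
  have hint := DirectSum.isInternal_submodule_of_iSupIndep_of_iSup_eq_top hD.indep hD.iSup_eq_top
  have h1 := Module.finrank_eq_card_basis
    (hint.collectedBasis (fun i => Module.finBasisOfFinrankEq F (D i) (hD.finrank_eq i)))
  rw [Module.finrank_fintype_fun_eq_card] at h1
  simp at h1
  omega

open Classical in
/-- Indicator (in `F`) that `x` has a non-zero component in `D i`. -/
noncomputable def ind (i : Fin t) (x : Fin m ⊕ Fin m → F) : F :=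
  if ∃ d ∈ D i, Cfsg.sympForm m F x d ≠ 0 then 1 else 0

/-- The number of non-zero components, in `F`. -/
noncomputable def wt (x : Fin m ⊕ Fin m → F) : F := ∑ i, ind D i x

/-- The overgroup: isometries preserving the parity of the number of non-zero components. -/
def KK : Subgroup (Matrix.GeneralLinearGroup (Fin m ⊕ Fin m) F) where
  carrier := {g | g ∈ Cfsg.spGL m F ∧ ∀ x, wt D (g.val *ᵥ x) = wt D x}
  mul_mem' := by
    rintro a b ⟨ha, ha'⟩ ⟨hb, hb'⟩
    refine ⟨mul_mem ha hb, fun x => ?_⟩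
    rw [Units.val_mul, ← Matrix.mulVec_mulVec, ha', hb']
  one_mem' := ⟨one_mem _, fun x => by simp⟩
  inv_mem' := by
    rintro a ⟨ha, ha'⟩
    refine ⟨inv_mem ha, fun x => ?_⟩
    have := ha' ((a⁻¹).val *ᵥ x)
    rw [Matrix.mulVec_mulVec, ← Units.val_mul, mul_inv_cancel, Units.val_one,
      Matrix.one_mulVec] at this
    exact this.symm

theorem ind_map (g : Matrix.GeneralLinearGroup (Fin m ⊕ Fin m) F) (hg : g ∈ Cfsg.spGL m F)
    (i j : Fin t) (h : (D i).map (Matrix.toLin' g.val) = D j) (x : Fin m ⊕ Fin m → F) :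
    ind D j (g.val *ᵥ x) = ind D i x := by
  have hg' : ∀ u w, Cfsg.sympForm m F (g.val *ᵥ u) (g.val *ᵥ w) = Cfsg.sympForm m F u w := hg
  have : (∃ d ∈ D j, Cfsg.sympForm m F (g.val *ᵥ x) d ≠ 0) ↔
      (∃ d ∈ D i, Cfsg.sympForm m F x d ≠ 0) := by
    constructor
    · rintro ⟨d', hd', hne⟩
      rw [← h] at hd'
      obtain ⟨d, hd, rfl⟩ := hd'
      refine ⟨d, hd, ?_⟩
      rw [Matrix.toLin'_apply, hg' x d] at hne
      exact hne
    · rintro ⟨d, hd, hne⟩
      refine ⟨g.val *ᵥ d, ?_, ?_⟩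
      · rw [← h]
        exact ⟨d, hd, Matrix.toLin'_apply _ _⟩
      · rw [hg' x d]
        exact hne
  unfold ind
  by_cases hc : ∃ d ∈ D i, Cfsg.sympForm m F x d ≠ 0
  · rw [if_pos hc, if_pos (this.2 hc)]
  · rw [if_neg hc, if_neg (fun h' => hc (this.1 h'))]

theorem stab_le : Cfsg.Geo.decompositionStabilizer D ⊓ Cfsg.spGL m F ≤ KK D := by
  intro g hg
  obtain ⟨⟨σ, hσ⟩, hg⟩ := Subgroup.mem_inf.1 hg
  refine ⟨hg, fun x => ?_⟩
  unfold wt
  rw [← Equiv.sum_comp σ (fun j => ind D j (g.val *ᵥ x))]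
  exact Finset.sum_congr rfl (fun i _ => ind_map D g hg i (σ i) (hσ i) x)

end

section
variable {F : Type*} [Field F] [Fintype F] {m : ℕ} {t : ℕ}
  (D : Fin t → Submodule F (Fin m ⊕ Fin m → F))

theorem ind_add_of_orth (i : Fin t) (x v : Fin m ⊕ Fin m → F)
    (h : ∀ d ∈ D i, Cfsg.sympForm m F v d = 0) : ind D i (x + v) = ind D i x := by
  have : (∃ d ∈ D i, Cfsg.sympForm m F (x + v) d ≠ 0) ↔
      (∃ d ∈ D i, Cfsg.sympForm m F x d ≠ 0) := by
    constructor
    · rintro ⟨d, hd, hne⟩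
      refine ⟨d, hd, ?_⟩
      rwa [form_add_left, h d hd, add_zero] at hne
    · rintro ⟨d, hd, hne⟩
      refine ⟨d, hd, ?_⟩
      rwa [form_add_left, h d hd, add_zero]
  unfold ind
  by_cases hc : ∃ d ∈ D i, Cfsg.sympForm m F x d ≠ 0
  · rw [if_pos hc, if_pos (this.2 hc)]
  · rw [if_neg hc, if_neg (fun h' => hc (this.1 h'))]

theorem ind_add_of_mem (hq : Fintype.card F = 2)
    (hD : Cfsg.Geo.IsNondegenerateMDecomposition (Cfsg.sympForm m F) 2 D) (i : Fin t)
    (a : Fin m ⊕ Fin m → F) (ha : a ∈ D i) (ha0 : a ≠ 0) (x v : Fin m ⊕ Fin m → F)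
    (h : ∀ d ∈ D i, Cfsg.sympForm m F v d = Cfsg.sympForm m F a d) :
    ind D i (x + v) = ind D i x + 1 + Cfsg.sympForm m F x a := by
  have h2 : (2 : F) = 0 := Cfsg.Agent.S5638.two_eq_zero hq
  have h11 : (1 : F) + 1 = 0 := by rw [one_add_one_eq_two]; exact h2
  obtain ⟨-, d₁, hd₁, hne₁⟩ := hD.nondegenerate i a ha ha0
  rcases Cfsg.Agent.S5638.zero_or_one hq (Cfsg.sympForm m F x a) with hxa | hxa
  · rw [hxa, add_zero]
    by_cases hx : ∃ d ∈ D i, Cfsg.sympForm m F x d ≠ 0
    · have hx1 : ind D i x = 1 := if_pos hx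
      obtain ⟨d₀, hd₀, hne₀⟩ := hx
      have hxd₀ : Cfsg.sympForm m F x d₀ = 1 :=
        (Cfsg.Agent.S5638.zero_or_one hq _).resolve_left hne₀
      have hind : ∀ s t : F, s • a + t • d₀ = 0 → s = 0 ∧ t = 0 := by
        intro s t hst
        have h1 := congrArg (Cfsg.sympForm m F x) hst
        rw [form_add_right, form_smul_right, form_smul_right, hxa, hxd₀, form_zero_right,
          mul_zero, zero_add, mul_one] at h1
        subst h1
        rw [zero_smul, add_zero] at hst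
        exact ⟨(smul_eq_zero.1 hst).resolve_right ha0, rfl⟩
      obtain ⟨α₁, β₁, hd₁e⟩ := span2 (D i) (hD.decomp.finrank_eq i) a d₀ ha hd₀ hind d₁ hd₁
      have had₀ : Cfsg.sympForm m F a d₀ = 1 := by
        refine (Cfsg.Agent.S5638.zero_or_one hq _).resolve_left ?_
        intro h0
        apply hne₁
        rw [hd₁e, form_add_right, form_smul_right, form_smul_right, form_self, h0, mul_zero,
          mul_zero, add_zero]
      have hx2' : ¬ ∃ d ∈ D i, Cfsg.sympForm m F (x + v) d ≠ 0 := by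
        rintro ⟨d, hd, hne⟩
        apply hne
        obtain ⟨α, β, rfl⟩ := span2 (D i) (hD.decomp.finrank_eq i) a d₀ ha hd₀ hind d hd
        rw [form_add_left, h _ hd, form_add_right, form_add_right, form_smul_right,
          form_smul_right, form_smul_right, form_smul_right, hxa, hxd₀, form_self, had₀]
        linear_combination β * h2
      have hx2 : ind D i (x + v) = 0 := if_neg hx2'
      rw [hx1, hx2, h11]
    · have hx1 : ind D i x = 0 := if_neg hx
      have hx2 : ind D i (x + v) = 1 := by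
        refine if_pos ⟨d₁, hd₁, ?_⟩
        push_neg at hx
        rw [form_add_left, h d₁ hd₁, hx d₁ hd₁, zero_add]
        exact hne₁
      rw [hx1, hx2, zero_add]
  · have hx1 : ind D i x = 1 := if_pos ⟨a, ha, by rw [hxa]; exact one_ne_zero⟩
    have hx2 : ind D i (x + v) = 1 :=
      if_pos ⟨a, ha, by rw [form_add_left, h a ha, form_self, add_zero, hxa]; exact one_ne_zero⟩
    rw [hx1, hx2, hxa, h11, zero_add]

theorem form_v_right (hD : Cfsg.Geo.IsNondegenerateMDecomposition (Cfsg.sympForm m F) 2 D)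
    (a : Fin t → Fin m ⊕ Fin m → F) (ha : ∀ i, a i ∈ D i) (S : Finset (Fin t)) (i : Fin t)
    (d : Fin m ⊕ Fin m → F) (hd : d ∈ D i) :
    Cfsg.sympForm m F (∑ j ∈ S, a j) d = if i ∈ S then Cfsg.sympForm m F (a i) d else 0 := by
  rw [form_sum_left]
  by_cases hi : i ∈ S
  · rw [if_pos hi, Finset.sum_eq_single i]
    · intro j _ hji
      exact hD.orthogonal j i hji (a j) (ha j) d hd
    · intro h
      exact absurd hi h
  · rw [if_neg hi]
    apply Finset.sum_eq_zero
    intro j hj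
    exact hD.orthogonal j i (fun h => hi (h ▸ hj)) (a j) (ha j) d hd

theorem form_v_left (hD : Cfsg.Geo.IsNondegenerateMDecomposition (Cfsg.sympForm m F) 2 D)
    (a : Fin t → Fin m ⊕ Fin m → F) (ha : ∀ i, a i ∈ D i) (S : Finset (Fin t)) (i : Fin t)
    (hi : i ∈ S) (d : Fin m ⊕ Fin m → F) (hd : d ∈ D i) :
    Cfsg.sympForm m F d (∑ j ∈ S, a j) = Cfsg.sympForm m F d (a i) := by
  rw [form_sum_right, Finset.sum_eq_single i]
  · intro j _ hji
    exact hD.orthogonal i j (Ne.symm hji) d hd (a j) (ha j)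
  · intro h
    exact absurd hi h

theorem wt_add (hq : Fintype.card F = 2)
    (hD : Cfsg.Geo.IsNondegenerateMDecomposition (Cfsg.sympForm m F) 2 D)
    (a : Fin t → Fin m ⊕ Fin m → F) (ha : ∀ i, a i ∈ D i) (ha0 : ∀ i, a i ≠ 0)
    (S : Finset (Fin t)) (x : Fin m ⊕ Fin m → F) :
    wt D (x + ∑ j ∈ S, a j) =
      wt D x + (S.card : F) + Cfsg.sympForm m F x (∑ j ∈ S, a j) := by
  have key : ∀ i, ind D i (x + ∑ j ∈ S, a j) =
      ind D i x + (if i ∈ S then 1 + Cfsg.sympForm m F x (a i) else 0) := by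
    intro i
    by_cases hi : i ∈ S
    · rw [if_pos hi, ind_add_of_mem D hq hD i (a i) (ha i) (ha0 i) x _
        (fun d hd => by rw [form_v_right D hD a ha S i d hd, if_pos hi]), add_assoc]
    · rw [if_neg hi, add_zero, ind_add_of_orth D i x _
        (fun d hd => by rw [form_v_right D hD a ha S i d hd, if_neg hi])]
  unfold wt
  rw [Finset.sum_congr rfl (fun i _ => key i), Finset.sum_add_distrib, Finset.sum_ite_mem,
    Finset.univ_inter, Finset.sum_add_distrib, Finset.sum_const, nsmul_eq_mul, mul_one,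
    form_sum_right, add_assoc]

end


/-- Over the field with 2 elements and for m ≥ 7, let D be a decomposition of F^(2m) into t pairwise orthogonal non-degenerate 2-dimensional subspaces for the standard alternating form (t = m ≥ 2). Then the elements of Sp_2m(2) permuting the members of D form a subgroup that is not maximal: some subgroup lies strictly between it and Sp_2m(2). -/
theorem result {F : Type*} [Field F] [Fintype F] (m : ℕ) (hm : 7 ≤ m) (hq : Fintype.card F = 2) {t : ℕ} (D : Fin t → Submodule F (Fin m ⊕ Fin m → F)) (hD : Cfsg.Geo.IsNondegenerateMDecomposition (Cfsg.sympForm m F) 2 D) : ∃ K : Subgroup (Matrix.GeneralLinearGroup (Fin m ⊕ Fin m) F), Cfsg.Geo.decompositionStabilizer D ⊓ Cfsg.spGL m F < K ∧ K < Cfsg.spGL m F := by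
  have htm : t = m := t_eq D hD.decomp
  have ht3 : 3 ≤ t := by omega
  have h2 : (2 : F) = 0 := Cfsg.Agent.S5638.two_eq_zero hq
  have hex : ∀ i, ∃ a ∈ D i, a ≠ 0 := by
    intro i
    have hne : D i ≠ ⊥ := by
      intro h
      have := hD.decomp.finrank_eq i
      rw [h, finrank_bot] at this
      omega
    exact Submodule.exists_mem_ne_zero_of_ne_bot hne
  choose a ha ha0 using hex
  obtain ⟨i₀, i₁, i₂, h01, h02, h12⟩ : ∃ i₀ i₁ i₂ : Fin t, i₀ ≠ i₁ ∧ i₀ ≠ i₂ ∧ i₁ ≠ i₂ :=
    ⟨⟨0, by omega⟩, ⟨1, by omega⟩, ⟨2, by omega⟩, by simp [Fin.ext_iff], by simp [Fin.ext_iff],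
      by simp [Fin.ext_iff]⟩
  obtain ⟨S₂, hS₂⟩ : ∃ S : Finset (Fin t), S = {i₀, i₁} := ⟨_, rfl⟩
  obtain ⟨S₃, hS₃⟩ : ∃ S : Finset (Fin t), S = {i₀, i₁, i₂} := ⟨_, rfl⟩
  have hc2 : S₂.card = 2 := by rw [hS₂]; exact Finset.card_pair h01
  have hc3 : S₃.card = 3 := by
    rw [hS₃]
    exact Finset.card_eq_three.2 ⟨i₀, i₁, i₂, h01, h02, h12, rfl⟩
  have hi2 : i₀ ∈ S₂ := by rw [hS₂]; simp
  have hi3 : i₀ ∈ S₃ := by rw [hS₃]; simp
  obtain ⟨-, d, hd, hne⟩ := hD.nondegenerate i₀ (a i₀) (ha i₀) (ha0 i₀)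
  have hda : Cfsg.sympForm m F d (a i₀) = 1 := by
    refine (Cfsg.Agent.S5638.zero_or_one hq _).resolve_left ?_
    rw [form_swap]
    exact neg_ne_zero.2 hne
  refine ⟨KK D, ?_, ?_⟩
  · refine lt_of_le_of_ne (stab_le D) ?_
    intro heq
    have hmem : tg (∑ j ∈ S₃, a j) ∈ KK D := by
      refine ⟨tg_mem _, fun x => ?_⟩
      rw [tg_mulVec]
      rcases Cfsg.Agent.S5638.zero_or_one hq (Cfsg.sympForm m F x (∑ j ∈ S₃, a j)) with h0 | h1
      · rw [h0, zero_smul, add_zero]
      · rw [h1, one_smul, wt_add D hq hD a ha ha0 S₃ x, hc3, h1]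
        push_cast
        linear_combination 2 * h2
    rw [← heq] at hmem
    obtain ⟨⟨σ, hσ⟩, -⟩ := Subgroup.mem_inf.1 hmem
    have hdv : Cfsg.sympForm m F d (∑ j ∈ S₃, a j) = 1 := by
      rw [form_v_left D hD a ha S₃ i₀ hi3 d hd]
      exact hda
    have himg : d + ∑ j ∈ S₃, a j ∈ D (σ i₀) := by
      rw [← hσ i₀]
      refine ⟨d, hd, ?_⟩
      rw [Matrix.toLin'_apply, tg_mulVec, hdv, one_smul]
    obtain ⟨k, hkS, hk⟩ := Finset.exists_mem_notMem_of_card_lt_card (s := {i₀, σ i₀}) (t := S₃)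
      (by rw [hc3]; exact lt_of_le_of_lt Finset.card_le_two (by norm_num))
    have hk0 : k ≠ i₀ := fun h => hk (by rw [h]; simp)
    have hkσ : k ≠ σ i₀ := fun h => hk (by rw [h]; simp)
    obtain ⟨-, d₂, hd₂, hne₂⟩ := hD.nondegenerate k (a k) (ha k) (ha0 k)
    apply hne₂
    have h1 := hD.orthogonal (σ i₀) k (Ne.symm hkσ) _ himg d₂ hd₂
    rw [form_add_left, hD.orthogonal i₀ k (Ne.symm hk0) d hd d₂ hd₂, zero_add,
      form_v_right D hD a ha S₃ k d₂ hd₂, if_pos hkS] at h1
    exact h1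
  · refine lt_of_le_of_ne (fun g hg => hg.1) ?_
    intro heq
    have hmem : tg (∑ j ∈ S₂, a j) ∈ KK D := by
      rw [heq]
      exact tg_mem _
    have hdv : Cfsg.sympForm m F d (∑ j ∈ S₂, a j) = 1 := by
      rw [form_v_left D hD a ha S₂ i₀ hi2 d hd]
      exact hda
    have h1 := hmem.2 d
    rw [tg_mulVec, hdv, one_smul, wt_add D hq hD a ha ha0 S₂ d, hc2, hdv] at h1
    push_cast at h1
    have h3 : (1 : F) = 0 := by linear_combination h1 - h2
    exact one_ne_zero h3

end Cfsg.Agent.S5648
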