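import Cfsg.Statements.S5667
import Mathlib
import Cfsg.Agent.S5678
import Cfsg.Agent.S5648

set_option autoImplicit false
open Cfsg

namespace Cfsg.Agent.S5667

open Matrix
open scoped Kronecker

section Tensor
variable {ι : Type} [Fintype ι] [DecidableEq ι] {F : Type*} [Field F] {n₁ n₂ : ℕ}

/-- The linear identification of the tensor model with `F^ι`. -/
def Phi (e : ι ≃ Fin n₁ × Fin n₂) (P : Matrix.GeneralLinearGroup ι F)
    (x : Fin n₁ × Fin n₂ → F) : ι → F := P.val *ᵥ (x ∘ e)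

theorem Phi_add (e : ι ≃ Fin n₁ × Fin n₂) (P : Matrix.GeneralLinearGroup ι F)
    (x y : Fin n₁ × Fin n₂ → F) : Phi e P (x + y) = Phi e P x + Phi e P y := by
  unfold Phi
  rw [← Matrix.mulVec_add]
  rfl

theorem Phi_smul (e : ι ≃ Fin n₁ × Fin n₂) (P : Matrix.GeneralLinearGroup ι F) (s : F)
    (x : Fin n₁ × Fin n₂ → F) : Phi e P (s • x) = s • Phi e P x := by
  unfold Phi
  rw [← Matrix.mulVec_smul]
  rfl

theorem Phi_inj (e : ι ≃ Fin n₁ × Fin n₂) (P : Matrix.GeneralLinearGroup ι F)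
    (x y : Fin n₁ × Fin n₂ → F) (h : Phi e P x = Phi e P y) : x = y := by
  unfold Phi at h
  have hinj : ∀ z, (P⁻¹).val *ᵥ (P.val *ᵥ z) = z := fun z => by
    rw [Matrix.mulVec_mulVec, ← Units.val_mul, inv_mul_cancel, Units.val_one, Matrix.one_mulVec]
  have h1 : x ∘ e = y ∘ e := by rw [← hinj (x ∘ e), h, hinj]
  funext p
  have h2 := congrFun h1 (e.symm p)
  simpa using h2

/-- Pure tensors. -/
def pt (e : ι ≃ Fin n₁ × Fin n₂) (P : Matrix.GeneralLinearGroup ι F) (a : Fin n₁ → F)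
    (u : Fin n₂ → F) : ι → F := Phi e P (fun p => a p.1 * u p.2)

theorem pt_add_left (e : ι ≃ Fin n₁ × Fin n₂) (P : Matrix.GeneralLinearGroup ι F)
    (a a' : Fin n₁ → F) (u : Fin n₂ → F) : pt e P (a + a') u = pt e P a u + pt e P a' u := by
  unfold pt
  rw [← Phi_add]
  congr 1
  funext p
  simp [add_mul]

theorem pt_smul_left (e : ι ≃ Fin n₁ × Fin n₂) (P : Matrix.GeneralLinearGroup ι F) (s : F)
    (a : Fin n₁ → F) (u : Fin n₂ → F) : pt e P (s • a) u = s • pt e P a u := by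
  unfold pt
  rw [← Phi_smul]
  congr 1
  funext p
  simp [mul_assoc]

theorem pt_smul_right (e : ι ≃ Fin n₁ × Fin n₂) (P : Matrix.GeneralLinearGroup ι F) (s : F)
    (a : Fin n₁ → F) (u : Fin n₂ → F) : pt e P a (s • u) = s • pt e P a u := by
  unfold pt
  rw [← Phi_smul]
  congr 1
  funext p
  simp [mul_left_comm]

theorem pt_add_right (e : ι ≃ Fin n₁ × Fin n₂) (P : Matrix.GeneralLinearGroup ι F)
    (a : Fin n₁ → F) (u u' : Fin n₂ → F) : pt e P a (u + u') = pt e P a u + pt e P a u' := by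
  unfold pt
  rw [← Phi_add]
  congr 1
  funext p
  simp [mul_add]

theorem kron_pt (A : Matrix (Fin n₁) (Fin n₁) F) (B : Matrix (Fin n₂) (Fin n₂) F)
    (a : Fin n₁ → F) (u : Fin n₂ → F) :
    (A ⊗ₖ B) *ᵥ (fun p : Fin n₁ × Fin n₂ => a p.1 * u p.2) =
      fun p => (A *ᵥ a) p.1 * (B *ᵥ u) p.2 := by
  funext p
  simp only [Matrix.mulVec, dotProduct, Matrix.kroneckerMap_apply]
  rw [Fintype.sum_prod_type, Finset.sum_mul_sum]
  apply Finset.sum_congr rfl
  intro i _
  apply Finset.sum_congr rfl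
  intro j _
  ring

theorem mem_tensor (e : ι ≃ Fin n₁ × Fin n₂) (P : Matrix.GeneralLinearGroup ι F)
    (g : Matrix.GeneralLinearGroup ι F) (hg : g ∈ Cfsg.Geo.tensorProductSubgroup n₁ n₂ e P) :
    ∃ (A : Matrix.GeneralLinearGroup (Fin n₁) F) (B : Matrix.GeneralLinearGroup (Fin n₂) F),
      ∀ (a : Fin n₁ → F) (u : Fin n₂ → F),
        g.val *ᵥ pt e P a u = pt e P (A.val *ᵥ a) (B.val *ᵥ u) := by
  obtain ⟨g₁, ⟨k, ⟨A, B, hk⟩, rfl⟩, rfl⟩ := hg
  refine ⟨A, B, fun a u => ?_⟩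
  have h1 : ((Cfsg.Geo.glReindex e.symm k : Matrix.GeneralLinearGroup ι F) : Matrix ι ι F) =
      (k : Matrix _ _ F).submatrix e e := rfl
  have h2 : ((fun p : Fin n₁ × Fin n₂ => a p.1 * u p.2) ∘ e) ∘ e.symm =
      (fun p : Fin n₁ × Fin n₂ => a p.1 * u p.2) := by
    funext p
    simp
  show (P * Cfsg.Geo.glReindex e.symm k * P⁻¹).val *ᵥ (P.val *ᵥ ((fun p => a p.1 * u p.2) ∘ e)) =
    P.val *ᵥ ((fun p => (A.val *ᵥ a) p.1 * (B.val *ᵥ u) p.2) ∘ e)
  rw [Units.val_mul, Units.val_mul, ← Matrix.mulVec_mulVec, ← Matrix.mulVec_mulVec,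
    Matrix.mulVec_mulVec _ (P⁻¹).val, ← Units.val_mul, inv_mul_cancel, Units.val_one,
    Matrix.one_mulVec, h1, Matrix.submatrix_mulVec_equiv, h2, hk, ← kron_pt]

theorem gram_eq {κ : Type} [Fintype κ] [DecidableEq κ] (f : (κ → F) → (κ → F) → F)
    (hf : Cfsg.Geo.IsBilinearForm f) (x y : κ → F) :
    f x y = ∑ a, ∑ b, x a * Cfsg.Geo.gramMatrix f a b * y b := by
  have hx : x = ∑ j, x j • (Pi.single j (1 : F) : κ → F) := by
    funext i
    simp [Finset.sum_apply, Pi.single_apply]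
  have hy : y = ∑ j, y j • (Pi.single j (1 : F) : κ → F) := by
    funext i
    simp [Finset.sum_apply, Pi.single_apply]
  obtain ⟨B, hB⟩ : ∃ B : (κ → F) →ₗ[F] (κ → F) →ₗ[F] F, ∀ x y, B x y = f x y :=
    ⟨LinearMap.mk₂ F f hf.add_left
      (fun c x v => by rw [hf.smul_left, smul_eq_mul]) hf.add_right
      (fun c v x => by rw [hf.smul_right, smul_eq_mul]), fun _ _ => rfl⟩
  have e1 : ∀ Y : κ → F, B (∑ j, x j • (Pi.single j (1 : F) : κ → F)) Y =
      ∑ a, x a * B (Pi.single a (1 : F)) Y := by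
    intro Y
    rw [map_sum, LinearMap.sum_apply]
    apply Finset.sum_congr rfl
    intro a _
    rw [map_smul, LinearMap.smul_apply, smul_eq_mul]
  have e2 : ∀ a : κ, B (Pi.single a (1 : F)) (∑ j, y j • (Pi.single j (1 : F) : κ → F)) =
      ∑ b, y b * B (Pi.single a (1 : F)) (Pi.single b (1 : F)) := by
    intro a
    rw [map_sum]
    apply Finset.sum_congr rfl
    intro b _
    rw [map_smul, smul_eq_mul]
  calc f x y = B (∑ j, x j • (Pi.single j (1 : F) : κ → F))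
        (∑ j, y j • (Pi.single j (1 : F) : κ → F)) := by rw [hB, ← hx, ← hy]
    _ = ∑ a, ∑ b, x a * Cfsg.Geo.gramMatrix f a b * y b := by
      rw [e1]
      apply Finset.sum_congr rfl
      intro a _
      rw [e2, Finset.mul_sum]
      apply Finset.sum_congr rfl
      intro b _
      rw [hB]
      unfold Cfsg.Geo.gramMatrix
      ring

theorem gf_pt (G₁ : Matrix (Fin n₁) (Fin n₁) F) (G₂ : Matrix (Fin n₂) (Fin n₂) F)
    (a a' : Fin n₁ → F) (u u' : Fin n₂ → F) :
    (∑ p : Fin n₁ × Fin n₂, ∑ q : Fin n₁ × Fin n₂,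
      (a p.1 * u p.2) * (G₁ ⊗ₖ G₂) p q * (a' q.1 * u' q.2)) =
      (∑ i, ∑ i', a i * G₁ i i' * a' i') * (∑ j, ∑ j', u j * G₂ j j' * u' j') := by
  simp only [Fintype.sum_prod_type, Matrix.kroneckerMap_apply]
  rw [Finset.sum_mul_sum]
  apply Finset.sum_congr rfl
  intro i _
  apply Finset.sum_congr rfl
  intro j _
  rw [Finset.sum_mul_sum]
  apply Finset.sum_congr rfl
  intro i' _
  apply Finset.sum_congr rfl
  intro j' _
  ring

theorem form_pt (f : (ι → F) → (ι → F) → F) (f₁ : (Fin n₁ → F) → (Fin n₁ → F) → F)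
    (f₂ : (Fin n₂ → F) → (Fin n₂ → F) → F) (hf₁ : Cfsg.Geo.IsBilinearForm f₁)
    (hf₂ : Cfsg.Geo.IsBilinearForm f₂) (e : ι ≃ Fin n₁ × Fin n₂)
    (P : Matrix.GeneralLinearGroup ι F) (c : F)
    (hc : ∀ x y : Fin n₁ × Fin n₂ → F, f (P.val *ᵥ (x ∘ e)) (P.val *ᵥ (y ∘ e)) =
      c * Cfsg.Geo.formOfGram id (Cfsg.Geo.gramMatrix f₁ ⊗ₖ Cfsg.Geo.gramMatrix f₂) x y)
    (a a' : Fin n₁ → F) (u u' : Fin n₂ → F) :
    f (pt e P a u) (pt e P a' u') = c * (f₁ a a' * f₂ u u') := by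
  unfold pt Phi
  rw [hc, gram_eq f₁ hf₁, gram_eq f₂ hf₂, ← gf_pt]
  rfl

end Tensor
section Sym3
variable {F : Type*} [Field F]

/-- The quadratic form `u ↦ f u u` of a bilinear form. -/
noncomputable def qOf {κ : Type} [Fintype κ] [DecidableEq κ] (f : (κ → F) → (κ → F) → F)
    (hf : Cfsg.Geo.IsBilinearForm f) : QuadraticForm F (κ → F) where
  toFun := fun u => f u u
  toFun_smul := fun a x => by rw [hf.smul_left, hf.smul_right, smul_eq_mul, mul_assoc]
  exists_companion' := ⟨LinearMap.mk₂ F (fun u v => f u v + f v u)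
      (fun x y v => by
        show f (x + y) v + f v (x + y) = f x v + f v x + (f y v + f v y)
        rw [hf.add_left, hf.add_right]
        ring)
      (fun c x v => by
        show f (c • x) v + f v (c • x) = c • (f x v + f v x)
        rw [hf.smul_left, hf.smul_right, smul_eq_mul]
        ring)
      (fun v x y => by
        show f v (x + y) + f (x + y) v = f v x + f x v + (f v y + f y v)
        rw [hf.add_right, hf.add_left]
        ring)
      (fun c v x => by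
        show f v (c • x) + f (c • x) v = c • (f v x + f x v)
        rw [hf.smul_right, hf.smul_left, smul_eq_mul]
        ring),
    fun x y => by
      show f (x + y) (x + y) = f x x + f y y + (f x y + f y x)
      rw [hf.add_left, hf.add_right, hf.add_right]
      ring⟩

theorem polar_qOf {κ : Type} [Fintype κ] [DecidableEq κ] (f : (κ → F) → (κ → F) → F)
    (hf : Cfsg.Geo.IsBilinearForm f) (u v : κ → F) :
    QuadraticMap.polar ⇑(qOf f hf) u v = f u v + f v u := by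
  show f (u + v) (u + v) - f u u - f v v = _
  rw [hf.add_left, hf.add_right, hf.add_right]
  ring

theorem form_zero {κ : Type} [Fintype κ] [DecidableEq κ] (f : (κ → F) → (κ → F) → F)
    (hf : Cfsg.Geo.IsBilinearForm f) (v : κ → F) : f 0 v = 0 := by
  have h := hf.smul_left 0 0 v
  rwa [zero_smul, zero_mul] at h

theorem exists_frame_sym (h3 : (3 : F) = 0) (hF : ∀ x : F, x ≠ 0 → x = 1 ∨ x = -1)
    (hF0 : ∀ x : F, x = 0 ∨ x = 1 ∨ x = -1)
    (f₂ : (Fin 3 → F) → (Fin 3 → F) → F) (hf₂ : Cfsg.Geo.IsSymmetricForm f₂) :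
    ∃ c' : F, c' ≠ 0 ∧ ∃ a b d : Fin 3 → F, f₂ a a = c' ∧ f₂ b b = c' ∧ f₂ d d = c' ∧
      f₂ a b = 0 ∧ f₂ a d = 0 ∧ f₂ b d = 0 ∧
      ∀ u, f₂ u u = c' → (u = a ∨ u = -a ∨ u = b ∨ u = -b ∨ u = d ∨ u = -d) := by
  have h2 : (2 : F) ≠ 0 := by
    intro h
    have h1 : (1 : F) = 0 := by linear_combination h3 - h
    exact one_ne_zero h1
  have hpol : ∀ u v, QuadraticMap.polar ⇑(qOf f₂ hf₂.bilinear) u v = 2 * f₂ u v := by
    intro u v
    rw [polar_qOf, hf₂.symm v u]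
    ring
  have hnd : Cfsg.Geo.IsNondegenerateOn (QuadraticMap.polar ⇑(qOf f₂ hf₂.bilinear)) ⊤ := by
    intro w _ hw
    obtain ⟨⟨x, hx⟩, ⟨y, hy⟩⟩ := hf₂.nondegenerate w hw
    exact ⟨⟨x, Submodule.mem_top, by rw [hpol]; exact mul_ne_zero h2 hx⟩,
      ⟨y, Submodule.mem_top, by rw [hpol]; exact mul_ne_zero h2 hy⟩⟩
  have hfr : Module.finrank F (⊤ : Submodule F (Fin 3 → F)) = 3 := by
    rw [finrank_top, Module.finrank_fin_fun]
  obtain ⟨c', hc', a, b, d, -, -, -, hQa, hQb, hQd, hab, had, hbd, hsp⟩ :=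
    Cfsg.Agent.S5678.exists_frame3 (qOf f₂ hf₂.bilinear) h3 hF ⊤ hfr hnd
  have z : ∀ u v, QuadraticMap.polar ⇑(qOf f₂ hf₂.bilinear) u v = 0 → f₂ u v = 0 := by
    intro u v h
    rw [hpol] at h
    exact (mul_eq_zero.1 h).resolve_left h2
  refine ⟨c', hc', a, b, d, hQa, hQb, hQd, z _ _ hab, z _ _ had, z _ _ hbd, ?_⟩
  intro u hu
  obtain ⟨α, β, γ, hx⟩ := hsp u Submodule.mem_top
  exact Cfsg.Agent.S5678.uniq3 (qOf f₂ hf₂.bilinear) h3 hF0 c' hc' a b d hQa hQb hQd hab had hbd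
    u α β γ hx hu

theorem iso_of_sim (hsq : ∀ x : F, x ≠ 0 → x ^ 2 = 1)
    (f₂ : (Fin 3 → F) → (Fin 3 → F) → F) (hf₂ : Cfsg.Geo.IsSymmetricForm f₂)
    (B : Matrix (Fin 3) (Fin 3) F) (μ : F) (hμ : μ ≠ 0)
    (hB : ∀ u v, f₂ (B *ᵥ u) (B *ᵥ v) = μ * f₂ u v) : μ = 1 := by
  have hG : Bᵀ * Cfsg.Geo.gramMatrix f₂ * B = μ • Cfsg.Geo.gramMatrix f₂ := by
    ext j l
    have h := hB (Pi.single j 1) (Pi.single l 1)
    rw [gram_eq f₂ hf₂.bilinear, Matrix.mulVec_single_one, Matrix.mulVec_single_one] at h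
    rw [Matrix.mul_apply, Matrix.smul_apply, smul_eq_mul]
    simp only [Matrix.mul_apply, Matrix.transpose_apply, Finset.sum_mul]
    rw [Finset.sum_comm]
    exact h
  have hdet : B.det * B.det * (Cfsg.Geo.gramMatrix f₂).det =
      μ ^ 3 * (Cfsg.Geo.gramMatrix f₂).det := by
    have h := congrArg Matrix.det hG
    rw [Matrix.det_mul, Matrix.det_mul, Matrix.det_transpose, Matrix.det_smul,
      Fintype.card_fin] at h
    linear_combination h
  have hGdet : (Cfsg.Geo.gramMatrix f₂).det ≠ 0 := by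
    intro h0
    obtain ⟨v, hv, hv0⟩ := Matrix.exists_mulVec_eq_zero_iff.2 h0
    obtain ⟨⟨x, hx⟩, -⟩ := hf₂.nondegenerate v hv
    apply hx
    rw [gram_eq f₂ hf₂.bilinear]
    apply Finset.sum_eq_zero
    intro a _
    have h1 : ∑ b, x a * Cfsg.Geo.gramMatrix f₂ a b * v b =
        x a * (Cfsg.Geo.gramMatrix f₂ *ᵥ v) a := by
      simp only [Matrix.mulVec, dotProduct, Finset.mul_sum, mul_assoc]
    rw [h1, hv0]
    simp
  have h5 : B.det * B.det = μ ^ 3 := mul_right_cancel₀ hGdet hdet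
  have hμ2 := hsq μ hμ
  have hd0 : B.det ≠ 0 := by
    intro h0
    rw [h0, zero_mul] at h5
    exact hμ (pow_eq_zero_iff (by norm_num) |>.1 h5.symm)
  have hd2 := hsq _ hd0
  linear_combination (-μ) * hμ2 - h5 + hd2

end Sym3

section SpT
variable {F : Type*} [Field F] {m : ℕ}

theorem tg_inv_mulVec (v x : Fin m ⊕ Fin m → F) :
    ((Cfsg.Agent.S5648.tg v)⁻¹).val *ᵥ x = x + ((-1 : F) * Cfsg.sympForm m F x v) • v := by
  show Cfsg.sympTransvection m v (-1) *ᵥ x = _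
  rw [Cfsg.Agent.Lib_helper4_Sp.tv_mulVec]

end SpT
section TheSet
variable {ι : Type} [Fintype ι] [DecidableEq ι] {F : Type*} [Field F] {n₁ n₂ : ℕ}

/-- Pure tensors whose second factor has norm `c'`. -/
def SS (e : ι ≃ Fin n₁ × Fin n₂) (P : Matrix.GeneralLinearGroup ι F)
    (f₂ : (Fin n₂ → F) → (Fin n₂ → F) → F) (c' : F) : Set (ι → F) :=
  {w | ∃ (x : Fin n₁ → F) (u : Fin n₂ → F), f₂ u u = c' ∧ w = pt e P x u}

end TheSet

/-- Over the field with 3 elements and for m ≥ 7, suppose the standard alternating form on F^(2m) is similar, through P and e, to the tensor product of a non-degenerate symplectic form f₁ on F^(n₁) and a non-degenerate symmetric bilinear form f₂ on F^3. Then the elements of Sp_2m(3) in the stabiliser of this tensor decomposition form a subgroup that is not maximal: some subgroup lies strictly between it and Sp_2m(3). -/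
theorem result {F : Type*} [Field F] [Fintype F] (m : ℕ) (hm : 7 ≤ m) (hq : Fintype.card F = 3) (n₁ : ℕ) (e : (Fin m ⊕ Fin m) ≃ Fin n₁ × Fin 3) (P : Matrix.GeneralLinearGroup (Fin m ⊕ Fin m) F) (f₁ : (Fin n₁ → F) → (Fin n₁ → F) → F) (f₂ : (Fin 3 → F) → (Fin 3 → F) → F) (hf₁ : Cfsg.Geo.IsSymplecticForm f₁) (hf₂ : Cfsg.Geo.IsSymmetricForm f₂) (hT : Cfsg.Geo.IsTensorFormStructure id (Cfsg.sympForm m F) f₁ f₂ e P) : ∃ K : Subgroup (Matrix.GeneralLinearGroup (Fin m ⊕ Fin m) F), Cfsg.Geo.tensorProductSubgroup n₁ 3 e P ⊓ Cfsg.spGL m F < K ∧ K < Cfsg.spGL m F := by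
  classical
  have h3 : (3 : F) = 0 := by
    have h0 := FiniteField.cast_card_eq_zero F
    rw [hq] at h0
    exact_mod_cast h0
  have hsq : ∀ x : F, x ≠ 0 → x ^ 2 = 1 := by
    intro x hx
    have h := FiniteField.pow_card_sub_one_eq_one x hx
    rwa [hq] at h
  have hF : ∀ x : F, x ≠ 0 → x = 1 ∨ x = -1 := by
    intro x hx
    have h : (x - 1) * (x + 1) = 0 := by linear_combination hsq x hx
    rcases mul_eq_zero.1 h with h | h
    · left
      linear_combination h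
    · right
      linear_combination h
  have hF0 : ∀ x : F, x = 0 ∨ x = 1 ∨ x = -1 := by
    intro x
    by_cases hx : x = 0
    · exact Or.inl hx
    · exact Or.inr (hF x hx)
  obtain ⟨c, hc0, hc⟩ := hT
  obtain ⟨c', hc', a, b, d, haa, hbb, hdd, hab, had, hbd, huniq⟩ :=
    exists_frame_sym h3 hF hF0 f₂ hf₂
  have hba : f₂ b a = 0 := by rw [hf₂.symm, hab]
  have hda : f₂ d a = 0 := by rw [hf₂.symm, had]
  have hneg : ∀ w v, f₂ w v = 0 → f₂ (-w) v = 0 := by
    intro w v hw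
    rw [← neg_one_smul F w, hf₂.bilinear.smul_left, hw, mul_zero]
  have hcase : ∀ u, f₂ u u = c' → (u = a ∨ u = -a) ∨ f₂ u a = 0 := by
    intro u hu
    rcases huniq u hu with h | h | h | h | h | h
    · exact Or.inl (Or.inl h)
    · exact Or.inl (Or.inr h)
    · right; rw [h]; exact hba
    · right; rw [h]; exact hneg b a hba
    · right; rw [h]; exact hda
    · right; rw [h]; exact hneg d a hda
  have hcard : Fintype.card (Fin m ⊕ Fin m) = Fintype.card (Fin n₁ × Fin 3) :=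
    Fintype.card_congr e
  simp only [Fintype.card_sum, Fintype.card_fin, Fintype.card_prod] at hcard
  have hn₁ : 0 < n₁ := by omega
  have hy0 : (Pi.single (⟨0, hn₁⟩ : Fin n₁) (1 : F) : Fin n₁ → F) ≠ 0 := by
    intro h
    have h1 := congrFun h ⟨0, hn₁⟩
    simp at h1
  obtain ⟨y, hy, hy1⟩ : ∃ y : Fin n₁ → F, y ≠ 0 ∧ y ⟨0, hn₁⟩ = 1 :=
    ⟨_, hy0, by simp⟩
  obtain ⟨⟨x₀, hx₀⟩, -⟩ := hf₁.nondegenerate y hy
  have hfp : ∀ (p p' : Fin n₁ → F) (u u' : Fin 3 → F),
      Cfsg.sympForm m F (pt e P p u) (pt e P p' u') = c * (f₁ p p' * f₂ u u') :=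
    fun p p' u u' => form_pt (Cfsg.sympForm m F) f₁ f₂ hf₁.bilinear hf₂.bilinear e P c hc p p' u u'
  have hκ : c * (f₁ x₀ y * c') ≠ 0 := mul_ne_zero hc0 (mul_ne_zero hx₀ hc')
  have hstar : ∀ g ∈ Cfsg.Geo.tensorProductSubgroup n₁ 3 e P ⊓ Cfsg.spGL m F,
      ∀ w ∈ SS e P f₂ c', g.val *ᵥ w ∈ SS e P f₂ c' := by
    intro g hg w hw
    obtain ⟨hgT, hgS⟩ := Subgroup.mem_inf.1 hg
    obtain ⟨A, B, hAB⟩ := mem_tensor e P g hgT
    obtain ⟨x, u, hu, rfl⟩ := hw
    refine ⟨A.val *ᵥ x, B.val *ᵥ u, ?_, hAB x u⟩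
    have key : ∀ (p p' : Fin n₁ → F) (u u' : Fin 3 → F),
        f₁ (A.val *ᵥ p) (A.val *ᵥ p') * f₂ (B.val *ᵥ u) (B.val *ᵥ u') = f₁ p p' * f₂ u u' := by
      intro p p' u u'
      have h1 : Cfsg.sympForm m F (g.val *ᵥ pt e P p u) (g.val *ᵥ pt e P p' u') =
          Cfsg.sympForm m F (pt e P p u) (pt e P p' u') := hgS _ _
      rw [hAB, hAB, hfp, hfp] at h1
      exact mul_left_cancel₀ hc0 h1
    have hlam : f₁ (A.val *ᵥ x₀) (A.val *ᵥ y) ≠ 0 := by
      intro h0
      have h1 := key x₀ y a a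
      rw [h0, zero_mul, haa] at h1
      exact mul_ne_zero hx₀ hc' h1.symm
    have hB : ∀ u u', f₂ (B.val *ᵥ u) (B.val *ᵥ u') =
        (f₁ x₀ y / f₁ (A.val *ᵥ x₀) (A.val *ᵥ y)) * f₂ u u' := by
      intro u u'
      have h1 := key x₀ y u u'
      field_simp
      linear_combination h1
    have hμ := iso_of_sim hsq f₂ hf₂ B.val _ (div_ne_zero hx₀ hlam) hB
    rw [hB, hμ, one_mul, hu]
  have hv₁ : ∀ (κ : F) (w : Fin m ⊕ Fin m → F), w ∈ SS e P f₂ c' →
      w + (κ * Cfsg.sympForm m F w (pt e P y a)) • pt e P y a ∈ SS e P f₂ c' := by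
    intro κ w hw
    obtain ⟨x, u, hu, rfl⟩ := hw
    rw [hfp]
    rcases hcase u hu with (h | h) | h
    · refine ⟨x + (κ * (c * (f₁ x y * f₂ u a))) • y, u, hu, ?_⟩
      rw [pt_add_left, pt_smul_left, h]
    · refine ⟨x + (-(κ * (c * (f₁ x y * f₂ u a)))) • y, u, hu, ?_⟩
      have hng : pt e P y (-a) = -pt e P y a := by
        rw [← neg_one_smul F a, pt_smul_right, neg_one_smul]
      rw [pt_add_left, pt_smul_left, h, hng, smul_neg, neg_smul, neg_neg]
    · rw [h, mul_zero, mul_zero, mul_zero, zero_smul, add_zero]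
      exact ⟨x, u, hu, rfl⟩
  refine ⟨Cfsg.Agent.S5678.setStab (SS e P f₂ c') ⊓ Cfsg.spGL m F, lt_of_le_of_ne ?_ ?_,
    lt_of_le_of_ne inf_le_right ?_⟩
  · intro g hg
    refine Subgroup.mem_inf.2 ⟨?_, (Subgroup.mem_inf.1 hg).2⟩
    rw [Cfsg.Agent.S5678.mem_setStab]
    intro v
    constructor
    · intro hv
      have h1 := hstar g⁻¹ (inv_mem hg) _ hv
      rwa [Matrix.mulVec_mulVec, ← Units.val_mul, inv_mul_cancel, Units.val_one,
        Matrix.one_mulVec] at h1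
    · exact hstar g hg v
  · intro heq
    have hg₁S : Cfsg.Agent.S5648.tg (pt e P y a) ∈ Cfsg.Agent.S5678.setStab (SS e P f₂ c') := by
      rw [Cfsg.Agent.S5678.mem_setStab]
      intro v
      constructor
      · intro hv
        have h1 := hv₁ (-1) _ hv
        rwa [← tg_inv_mulVec, Matrix.mulVec_mulVec, ← Units.val_mul, inv_mul_cancel,
          Units.val_one, Matrix.one_mulVec] at h1
      · intro hv
        rw [Cfsg.Agent.S5648.tg_mulVec]
        have h1 := hv₁ 1 v hv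
        rwa [one_mul] at h1
    have hmem : Cfsg.Agent.S5648.tg (pt e P y a) ∈
        Cfsg.Agent.S5678.setStab (SS e P f₂ c') ⊓ Cfsg.spGL m F :=
      Subgroup.mem_inf.2 ⟨hg₁S, Cfsg.Agent.S5648.tg_mem _⟩
    rw [← heq] at hmem
    obtain ⟨A, B, hAB⟩ := mem_tensor e P _ (Subgroup.mem_inf.1 hmem).1
    have e1 : ∀ x, pt e P (A.val *ᵥ x) (B.val *ᵥ b) = pt e P x b := by
      intro x
      rw [← hAB, Cfsg.Agent.S5648.tg_mulVec, hfp, hba, mul_zero, mul_zero, zero_smul, add_zero]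
    have e1' : ∀ x i j, (A.val *ᵥ x) i * (B.val *ᵥ b) j = x i * b j := by
      intro x i j
      exact congrFun (Phi_inj e P _ _ (e1 x)) (i, j)
    have hf00 : f₂ 0 0 = 0 := form_zero f₂ hf₂.bilinear 0
    obtain ⟨j₀, hj₀⟩ : ∃ j₀, (B.val *ᵥ b) j₀ ≠ 0 := by
      by_contra hcon
      push_neg at hcon
      have hbz : b = 0 := by
        funext j
        have h1 := e1' y ⟨0, hn₁⟩ j
        rw [hcon j, mul_zero, hy1, one_mul] at h1
        exact h1.symm
      rw [hbz, hf00] at hbb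
      exact hc' hbb.symm
    have hA : ∀ x i, (A.val *ᵥ x) i = x i * (b j₀ / (B.val *ᵥ b) j₀) := by
      intro x i
      have h1 := e1' x i j₀
      field_simp
      linear_combination h1
    have e2 := hAB x₀ a
    rw [Cfsg.Agent.S5648.tg_mulVec, hfp, haa, ← pt_smul_left, ← pt_add_left] at e2
    have e2' : ∀ i j, (x₀ + (c * (f₁ x₀ y * c')) • y) i * a j =
        (A.val *ᵥ x₀) i * (B.val *ᵥ a) j := fun i j => congrFun (Phi_inj e P _ _ e2) (i, j)
    obtain ⟨j₁, hj₁⟩ : ∃ j₁, a j₁ ≠ 0 := by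
      by_contra hcon
      push_neg at hcon
      have haz : a = 0 := funext hcon
      rw [haz, hf00] at haa
      exact hc' haa.symm
    have e3 : ∀ i, x₀ i + (c * (f₁ x₀ y * c')) * y i =
        x₀ i * ((b j₀ / (B.val *ᵥ b) j₀) * (B.val *ᵥ a) j₁ / a j₁) := by
      intro i
      have h1 := e2' i j₁
      rw [hA] at h1
      simp only [Pi.add_apply, Pi.smul_apply, smul_eq_mul] at h1
      field_simp
      field_simp at h1
      linear_combination h1
    have e4 : y = ((((b j₀ / (B.val *ᵥ b) j₀) * (B.val *ᵥ a) j₁ / a j₁) - 1) /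
        (c * (f₁ x₀ y * c'))) • x₀ := by
      funext i
      have h1 := e3 i
      simp only [Pi.smul_apply, smul_eq_mul]
      rw [div_mul_eq_mul_div, eq_div_iff hκ]
      linear_combination h1
    apply hx₀
    rw [e4, hf₁.bilinear.smul_right, hf₁.alternating, mul_zero]
  · intro heq
    have hmem : Cfsg.Agent.S5648.tg (pt e P y (a + b)) ∈
        Cfsg.Agent.S5678.setStab (SS e P f₂ c') ⊓ Cfsg.spGL m F := by
      rw [heq]
      exact Cfsg.Agent.S5648.tg_mem _
    have h1 := ((Cfsg.Agent.S5678.mem_setStab _ _).1 (Subgroup.mem_inf.1 hmem).1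
      (pt e P x₀ a)).2 ⟨x₀, a, haa, rfl⟩
    rw [Cfsg.Agent.S5648.tg_mulVec, hfp, hf₂.bilinear.add_right, haa, hab, add_zero] at h1
    obtain ⟨z, u, hu, hzu⟩ := h1
    have h2 : pt e P x₀ a + (c * (f₁ x₀ y * c')) • pt e P y (a + b) =
        Phi e P ((fun p => x₀ p.1 * a p.2) +
          (c * (f₁ x₀ y * c')) • (fun p => y p.1 * (a + b) p.2)) := by
      rw [Phi_add, Phi_smul]
      rfl
    rw [h2] at hzu
    have h4 : ∀ i, (x₀ i + (c * (f₁ x₀ y * c')) * y i) • a + ((c * (f₁ x₀ y * c')) * y i) • b =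
        z i • u := by
      intro i
      funext j
      have h5 := congrFun (Phi_inj e P _ _ hzu) (i, j)
      simp only [Pi.add_apply, Pi.smul_apply, smul_eq_mul] at h5 ⊢
      linear_combination h5
    rcases hcase u hu with h | h
    · have hub : f₂ u b = 0 := by
        rcases h with h | h
        · rw [h, hab]
        · rw [h]
          exact hneg a b hab
      have h6 := congrArg (fun w => f₂ w b) (h4 ⟨0, hn₁⟩)
      simp only [hf₂.bilinear.add_left, hf₂.bilinear.smul_left, hab, hbb, hub, hy1] at h6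
      apply hκ
      have hc'' := hc'
      have h7 : c * (f₁ x₀ y * c') * c' = 0 := by linear_combination h6
      exact (mul_eq_zero.1 h7).resolve_right hc'
    · have h8 : ∀ i, x₀ i + (c * (f₁ x₀ y * c')) * y i = 0 := by
        intro i
        have h6 := congrArg (fun w => f₂ w a) (h4 i)
        simp only [hf₂.bilinear.add_left, hf₂.bilinear.smul_left, haa, hba, h] at h6
        have h7 : (x₀ i + (c * (f₁ x₀ y * c')) * y i) * c' = 0 := by linear_combination h6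
        exact (mul_eq_zero.1 h7).resolve_right hc'
      have h9 : x₀ = (-(c * (f₁ x₀ y * c'))) • y := by
        funext i
        simp only [Pi.smul_apply, smul_eq_mul]
        linear_combination h8 i
      apply hx₀
      rw [h9, hf₁.bilinear.smul_left, hf₁.alternating, mul_zero]

end Cfsg.Agent.S5667
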