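import Cfsg.Statements.S5682
import Mathlib
import Cfsg.Agent.S5667
import Cfsg.Agent.Lib_helper4_OOdd

set_option autoImplicit false
open Cfsg

namespace Cfsg.Agent.S5682

open Matrix
open scoped Kronecker
open Cfsg.Agent.Lib_helper4_Quad Cfsg.Agent.Lib_helper4_Quad2 Cfsg.Agent.Lib_helper4_Orth
open Cfsg.Agent.S5676 Cfsg.Agent.S5690 Cfsg.Agent.S5678 Cfsg.Agent.S5667
open scoped commutatorElement

section Gen
variable {ι : Type} [Fintype ι] [DecidableEq ι] {F : Type*} [Field F]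

/-- The explicit element of Ω moving `u` to `u - y`. -/
theorem omegaE (Q : QuadraticForm F (ι → F)) (h3 : (3 : F) = 0) (u y : ι → F)
    (hu : Q u ≠ 0) (hz : Q (u + y) ≠ 0) (hy : Q y = 0) (huy : QuadraticMap.polar ⇑Q u y = 0) :
    ((⁅rf Q u hu, rf Q (u + y) hz⁆ : Cfsg.isometryGroup F ⇑Q) :
      Matrix.GeneralLinearGroup ι F).val *ᵥ u = u - y ∧
    ∀ x, QuadraticMap.polar ⇑Q u x = 0 → QuadraticMap.polar ⇑Q y x = 0 →
      ((⁅rf Q u hu, rf Q (u + y) hz⁆ : Cfsg.isometryGroup F ⇑Q) :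
        Matrix.GeneralLinearGroup ι F).val *ᵥ x = x := by
  have hzu : Q (u + y) = Q u := by
    rw [QuadraticMap.map_add (⇑Q) u y, hy, huy, add_zero, add_zero]
  have hainv : (rf Q u hu)⁻¹ = rf Q u hu := inv_eq_of_mul_eq_one_right (rf_mul_self Q u hu)
  have hbinv : (rf Q (u + y) hz)⁻¹ = rf Q (u + y) hz :=
    inv_eq_of_mul_eq_one_right (rf_mul_self Q _ hz)
  have hcomm : ⁅rf Q u hu, rf Q (u + y) hz⁆ =
      rf Q u hu * rf Q (u + y) hz * rf Q u hu * rf Q (u + y) hz := by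
    rw [commutatorElement_def, hainv, hbinv]
  have hact : ∀ x, ((⁅rf Q u hu, rf Q (u + y) hz⁆ : Cfsg.isometryGroup F ⇑Q) :
      Matrix.GeneralLinearGroup ι F).val *ᵥ x =
      Cfsg.reflectionMatrix ⇑Q u *ᵥ (Cfsg.reflectionMatrix ⇑Q (u + y) *ᵥ
        (Cfsg.reflectionMatrix ⇑Q u *ᵥ (Cfsg.reflectionMatrix ⇑Q (u + y) *ᵥ x))) := by
    intro x
    rw [hcomm, coe_mul_mulVec, coe_mul_mulVec, coe_mul_mulVec]
    rfl
  have hAu : Cfsg.reflectionMatrix ⇑Q u *ᵥ u = -u := reflection_self Q u hu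
  have hAy : Cfsg.reflectionMatrix ⇑Q u *ᵥ y = y := reflection_fix Q u y huy
  have hBz : Cfsg.reflectionMatrix ⇑Q (u + y) *ᵥ (u + y) = -(u + y) := reflection_self Q _ hz
  have hBu : Cfsg.reflectionMatrix ⇑Q (u + y) *ᵥ u = -u + y := by
    rw [reflection_mulVec, hzu, QuadraticMap.polar_add_left, polar_self',
      QuadraticMap.polar_comm (⇑Q) y u, huy, add_zero]
    have h2 : (Q u)⁻¹ * (2 * Q u) = 2 := by field_simp
    rw [h2]
    calc u - (2 : F) • (u + y) = -u + y - (3 : F) • y := by module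
      _ = -u + y := by rw [h3, zero_smul, sub_zero]
  refine ⟨?_, ?_⟩
  · rw [hact, hBu, Matrix.mulVec_add, Matrix.mulVec_neg, hAu, hAy, neg_neg, hBz,
      Matrix.mulVec_neg, Matrix.mulVec_add, hAu, hAy]
    abel
  · intro x hux hyx
    have hBx : Cfsg.reflectionMatrix ⇑Q (u + y) *ᵥ x = x := by
      apply reflection_fix
      rw [QuadraticMap.polar_add_left, hux, hyx, add_zero]
    have hAx : Cfsg.reflectionMatrix ⇑Q u *ᵥ x = x := reflection_fix Q u x hux
    rw [hact, hBx, hAx, hBx, hAx]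

theorem exists_sing3' (Q : QuadraticForm F (ι → F)) (h3 : (3 : F) = 0)
    (hF : ∀ x : F, x ≠ 0 → x = 1 ∨ x = -1) (hcard : 4 ≤ Fintype.card ι) (e : ι → F) :
    ∃ y : ι → F, y ≠ 0 ∧ Q y = 0 ∧ QuadraticMap.polar ⇑Q e y = 0 := by
  have h2 : (2 : F) ≠ 0 := by
    intro h
    have h1 : (1 : F) = 0 := by linear_combination h3 - h
    exact one_ne_zero h1
  obtain ⟨a, ha0, ha⟩ := exists_perp Q 1 (by omega) ![e]
  have hea : QuadraticMap.polar ⇑Q e a = 0 := ha 0
  by_cases hQa : Q a = 0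
  · exact ⟨a, ha0, hQa, hea⟩
  obtain ⟨b, hb0, hb⟩ := exists_perp Q 2 (by omega) ![e, a]
  have heb : QuadraticMap.polar ⇑Q e b = 0 := hb 0
  have hab : QuadraticMap.polar ⇑Q a b = 0 := hb 1
  by_cases hQb : Q b = 0
  · exact ⟨b, hb0, hQb, heb⟩
  obtain ⟨c, hc0, hc⟩ := exists_perp Q 3 (by omega) ![e, a, b]
  have hec : QuadraticMap.polar ⇑Q e c = 0 := hc 0
  have hac : QuadraticMap.polar ⇑Q a c = 0 := hc 1
  have hbc : QuadraticMap.polar ⇑Q b c = 0 := hc 2
  by_cases hQc : Q c = 0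
  · exact ⟨c, hc0, hQc, hec⟩
  have key : ∀ s t : ι → F, Q s ≠ 0 → QuadraticMap.polar ⇑Q s t = 0 → Q s + Q t = 0 →
      QuadraticMap.polar ⇑Q e s = 0 → QuadraticMap.polar ⇑Q e t = 0 →
      ∃ y : ι → F, y ≠ 0 ∧ Q y = 0 ∧ QuadraticMap.polar ⇑Q e y = 0 := by
    intro s t hs hst hsum hes het
    refine ⟨s + t, ?_, ?_, ?_⟩
    · intro h0
      have h1 : QuadraticMap.polar ⇑Q s (s + t) = 2 * Q s := by
        rw [QuadraticMap.polar_add_right, polar_self', hst, add_zero]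
      rw [h0, QuadraticMap.polar_zero_right] at h1
      exact mul_ne_zero h2 hs h1.symm
    · rw [QuadraticMap.map_add (⇑Q) s t, hst, add_zero, hsum]
    · rw [QuadraticMap.polar_add_right, hes, het, add_zero]
  by_cases hsab : Q a + Q b = 0
  · exact key a b hQa hab hsab hea heb
  by_cases hsac : Q a + Q c = 0
  · exact key a c hQa hac hsac hea hec
  have hQab : Q b = Q a := by
    rcases hF _ hQa with h | h <;> rcases hF _ hQb with h' | h'
    · rw [h, h']
    · exact absurd (by rw [h, h']; ring) hsab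
    · exact absurd (by rw [h, h']; ring) hsab
    · rw [h, h']
  have hQac : Q c = Q a := by
    rcases hF _ hQa with h | h <;> rcases hF _ hQc with h' | h'
    · rw [h, h']
    · exact absurd (by rw [h, h']; ring) hsac
    · exact absurd (by rw [h, h']; ring) hsac
    · rw [h, h']
  refine ⟨a + b + c, ?_, ?_, ?_⟩
  · intro h0
    have h1 : QuadraticMap.polar ⇑Q a (a + b + c) = 2 * Q a := by
      rw [QuadraticMap.polar_add_right, QuadraticMap.polar_add_right, polar_self', hab, hac,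
        add_zero, add_zero]
    rw [h0, QuadraticMap.polar_zero_right] at h1
    exact mul_ne_zero h2 hQa h1.symm
  · rw [QuadraticMap.map_add (⇑Q) (a + b) c, QuadraticMap.map_add (⇑Q) a b,
      QuadraticMap.polar_add_left, hab, hac, hbc, hQab, hQac]
    linear_combination Q a * h3
  · rw [QuadraticMap.polar_add_right, QuadraticMap.polar_add_right, hea, heb, hec, add_zero,
      add_zero]

/-- Pure tensors whose first factor has norm `c'`. -/
def SS1 {n₁ n₂ : ℕ} (e : ι ≃ Fin n₁ × Fin n₂) (P : Matrix.GeneralLinearGroup ι F)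
    (f₁ : (Fin n₁ → F) → (Fin n₁ → F) → F) (c' : F) : Set (ι → F) :=
  {w | ∃ (p : Fin n₁ → F) (u : Fin n₂ → F), f₁ p p = c' ∧ w = pt e P p u}

/-- Vectors needed in the second factor. -/
theorem exists_vecs (h3 : (3 : F) = 0) (hF : ∀ x : F, x ≠ 0 → x = 1 ∨ x = -1) {n₂ : ℕ}
    (hn₂ : 4 ≤ n₂) (f₂ : (Fin n₂ → F) → (Fin n₂ → F) → F)
    (hf₂ : Cfsg.Geo.IsSymmetricForm f₂) :
    ∃ y y₂ y₀ : Fin n₂ → F, f₂ y y ≠ 0 ∧ y₂ ≠ 0 ∧ f₂ y y₂ = 0 ∧ y₀ ≠ 0 ∧ f₂ y₀ y₀ = 0 ∧
      f₂ y y₀ = 0 := by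
  have h2 : (2 : F) ≠ 0 := by
    intro h
    have h1 : (1 : F) = 0 := by linear_combination h3 - h
    exact one_ne_zero h1
  have hpol : ∀ u v, QuadraticMap.polar ⇑(qOf f₂ hf₂.bilinear) u v = 2 * f₂ u v := by
    intro u v
    rw [polar_qOf, hf₂.symm v u]
    ring
  have z : ∀ u v, QuadraticMap.polar ⇑(qOf f₂ hf₂.bilinear) u v = 0 → f₂ u v = 0 := by
    intro u v h
    rw [hpol] at h
    exact (mul_eq_zero.1 h).resolve_left h2
  have hu0 : (Pi.single (⟨0, by omega⟩ : Fin n₂) (1 : F) : Fin n₂ → F) ≠ 0 := by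
    intro h
    have h1 := congrFun h ⟨0, by omega⟩
    simp at h1
  obtain ⟨-, v, hv⟩ := hf₂.nondegenerate _ hu0
  obtain ⟨y, hy⟩ : ∃ y : Fin n₂ → F, f₂ y y ≠ 0 := by
    by_cases h1 : f₂ (Pi.single (⟨0, by omega⟩ : Fin n₂) (1 : F)) (Pi.single ⟨0, by omega⟩ 1) = 0
    · by_cases h4 : f₂ v v = 0
      · refine ⟨Pi.single (⟨0, by omega⟩ : Fin n₂) (1 : F) + v, ?_⟩
        rw [hf₂.bilinear.add_left, hf₂.bilinear.add_right, hf₂.bilinear.add_right, h1, h4,
          hf₂.symm v]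
        intro h5
        apply hv
        have h6 : 2 * f₂ (Pi.single (⟨0, by omega⟩ : Fin n₂) (1 : F)) v = 0 := by
          linear_combination h5
        exact (mul_eq_zero.1 h6).resolve_left h2
      · exact ⟨v, h4⟩
    · exact ⟨_, h1⟩
  have hcard : Fintype.card (Fin n₂) = n₂ := Fintype.card_fin n₂
  obtain ⟨y₂, hy₂0, hy₂⟩ := exists_perp (qOf f₂ hf₂.bilinear) 1 (by omega) ![y]
  obtain ⟨y₀, hy₀0, hy₀Q, hy₀⟩ := exists_sing3' (qOf f₂ hf₂.bilinear) h3 hF (by omega) y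
  exact ⟨y, y₂, y₀, hy, hy₂0, z _ _ (hy₂ 0), hy₀0, hy₀Q, z _ _ hy₀⟩

end Gen
section Main
variable {ι : Type} [Fintype ι] [DecidableEq ι] {F : Type*} [Field F]

theorem tensor_orth_main (Q : QuadraticForm F (ι → F)) (h3 : (3 : F) = 0)
    (hsq : ∀ x : F, x ≠ 0 → x ^ 2 = 1) {n₂ : ℕ} (hn₂ : 4 ≤ n₂)
    (e : ι ≃ Fin 3 × Fin n₂) (P : Matrix.GeneralLinearGroup ι F)
    (f₁ : (Fin 3 → F) → (Fin 3 → F) → F) (f₂ : (Fin n₂ → F) → (Fin n₂ → F) → F)
    (hf₁ : Cfsg.Geo.IsSymmetricForm f₁) (hf₂ : Cfsg.Geo.IsSymmetricForm f₂)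
    (hT : Cfsg.Geo.IsTensorFormStructure id (QuadraticMap.polar ⇑Q) f₁ f₂ e P) :
    ∃ K : Subgroup (Matrix.GeneralLinearGroup ι F),
      Cfsg.Geo.tensorProductSubgroup 3 n₂ e P ⊓ Cfsg.Geo.omegaGL ⇑Q < K ∧
        K < Cfsg.Geo.omegaGL ⇑Q := by
  have h2 : (2 : F) ≠ 0 := by
    intro h
    have h1 : (1 : F) = 0 := by linear_combination h3 - h
    exact one_ne_zero h1
  have hF : ∀ x : F, x ≠ 0 → x = 1 ∨ x = -1 := by
    intro x hx
    have h : (x - 1) * (x + 1) = 0 := by linear_combination hsq x hx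
    rcases mul_eq_zero.1 h with h | h
    · left
      linear_combination h
    · right
      linear_combination h
  have hF0 : ∀ x : F, x = 0 ∨ x = 1 ∨ x = -1 := by
    intro x
    by_cases hx : x = 0
    · exact Or.inl hx
    · exact Or.inr (hF x hx)
  obtain ⟨c, hc0, hc⟩ := hT
  obtain ⟨c', hc', a, b, d, haa, hbb, hdd, hab, had, hbd, huniq⟩ :=
    exists_frame_sym h3 hF hF0 f₁ hf₁
  have hba : f₁ b a = 0 := by rw [hf₁.symm, hab]
  have hda : f₁ d a = 0 := by rw [hf₁.symm, had]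
  have hdb : f₁ d b = 0 := by rw [hf₁.symm, hbd]
  have hnegr : ∀ w v, f₁ v w = 0 → f₁ v (-w) = 0 := by
    intro w v hw
    rw [← neg_one_smul F w, hf₁.bilinear.smul_right, hw, mul_zero]
  have hnegl : ∀ w v, f₁ w v = 0 → f₁ (-w) v = 0 := by
    intro w v hw
    rw [← neg_one_smul F w, hf₁.bilinear.smul_left, hw, mul_zero]
  have hcase : ∀ p, f₁ p p = c' → (p = a ∨ p = -a) ∨ f₁ a p = 0 := by
    intro p hp
    rcases huniq p hp with h | h | h | h | h | h
    · exact Or.inl (Or.inl h)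
    · exact Or.inl (Or.inr h)
    · right; rw [h]; exact hab
    · right; rw [h]; exact hnegr b a hab
    · right; rw [h]; exact had
    · right; rw [h]; exact hnegr d a had
  have hcase2 : ∀ p, f₁ p p = c' → f₁ p b = 0 ∨ f₁ p d = 0 := by
    intro p hp
    rcases huniq p hp with h | h | h | h | h | h
    · left; rw [h]; exact hab
    · left; rw [h]; exact hnegl a b hab
    · right; rw [h]; exact hbd
    · right; rw [h]; exact hnegl b d hbd
    · left; rw [h]; exact hdb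
    · left; rw [h]; exact hnegl d b hdb
  obtain ⟨y, y₂, y₀, hyy, hy₂0, hyy₂, hy₀0, hy₀y₀, hyy₀⟩ := exists_vecs h3 hF hn₂ f₂ hf₂
  have hy0 : y ≠ 0 := by
    rintro rfl
    exact hyy (form_zero f₂ hf₂.bilinear 0)
  have hfp : ∀ (p p' : Fin 3 → F) (u u' : Fin n₂ → F),
      QuadraticMap.polar ⇑Q (pt e P p u) (pt e P p' u') = c * (f₁ p p' * f₂ u u') :=
    fun p p' u u' =>
      form_pt (QuadraticMap.polar ⇑Q) f₁ f₂ hf₁.bilinear hf₂.bilinear e P c hc p p' u u'
  have hQ0 : ∀ v, QuadraticMap.polar ⇑Q v v = 0 → Q v = 0 := by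
    intro v hv
    rw [polar_self'] at hv
    exact (mul_eq_zero.1 hv).resolve_left h2
  have hQne : ∀ v, QuadraticMap.polar ⇑Q v v ≠ 0 → Q v ≠ 0 := by
    intro v hv h0
    apply hv
    rw [polar_self', h0, mul_zero]
  have hstar : ∀ g ∈ Cfsg.Geo.tensorProductSubgroup 3 n₂ e P ⊓ Cfsg.Geo.omegaGL ⇑Q,
      ∀ w ∈ SS1 e P f₁ c', g.val *ᵥ w ∈ SS1 e P f₁ c' := by
    intro g hg w hw
    obtain ⟨hgT, hgΩ⟩ := Subgroup.mem_inf.1 hg
    have hgiso : g ∈ Cfsg.isometryGroup F ⇑Q := by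
      obtain ⟨x, -, rfl⟩ := hgΩ
      exact x.2
    obtain ⟨A, B, hAB⟩ := mem_tensor e P g hgT
    obtain ⟨p, u, hp, rfl⟩ := hw
    refine ⟨A.val *ᵥ p, B.val *ᵥ u, ?_, hAB p u⟩
    have key : ∀ (p p' : Fin 3 → F) (u u' : Fin n₂ → F),
        f₁ (A.val *ᵥ p) (A.val *ᵥ p') * f₂ (B.val *ᵥ u) (B.val *ᵥ u') = f₁ p p' * f₂ u u' := by
      intro p p' u u'
      have h1 := polar_isometry ⇑Q g hgiso (pt e P p u) (pt e P p' u')
      rw [hAB, hAB, hfp, hfp] at h1
      exact mul_left_cancel₀ hc0 h1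
    have hlam : f₂ (B.val *ᵥ y) (B.val *ᵥ y) ≠ 0 := by
      intro h0
      have h1 := key a a y y
      rw [h0, mul_zero, haa] at h1
      exact mul_ne_zero hc' hyy h1.symm
    have hA : ∀ p p', f₁ (A.val *ᵥ p) (A.val *ᵥ p') =
        (f₂ y y / f₂ (B.val *ᵥ y) (B.val *ᵥ y)) * f₁ p p' := by
      intro p p'
      have h1 := key p p' y y
      field_simp
      linear_combination h1
    have hμ := iso_of_sim hsq f₁ hf₁ A.val _ (div_ne_zero hyy hlam) hA
    rw [hA, hμ, one_mul, hp]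
  have hrefl : ∀ (y' : Fin n₂ → F) (w : ι → F), w ∈ SS1 e P f₁ c' →
      Cfsg.reflectionMatrix ⇑Q (pt e P a y') *ᵥ w ∈ SS1 e P f₁ c' := by
    intro y' w hw
    obtain ⟨p, u, hp, rfl⟩ := hw
    rw [reflection_mulVec, hfp]
    rcases hcase p hp with (h | h) | h
    · refine ⟨p, u + (-((Q (pt e P a y'))⁻¹ * (c * (f₁ a p * f₂ y' u)))) • y', hp, ?_⟩
      rw [pt_add_right, pt_smul_right, h, neg_smul, sub_eq_add_neg]
    · refine ⟨p, u + ((Q (pt e P a y'))⁻¹ * (c * (f₁ a p * f₂ y' u))) • y', hp, ?_⟩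
      have hng : pt e P (-a) y' = -pt e P a y' := by
        rw [← neg_one_smul F a, pt_smul_left, neg_one_smul]
      rw [pt_add_right, pt_smul_right, h, hng, smul_neg, sub_eq_add_neg]
    · rw [h, zero_mul, mul_zero, mul_zero, zero_smul, sub_zero]
      exact ⟨p, u, hp, rfl⟩
  have hrfS : ∀ (v : ι → F) (y' : Fin n₂ → F) (hv : v = pt e P a y') (hne : Q v ≠ 0),
      ((rf Q v hne : Cfsg.isometryGroup F ⇑Q) : Matrix.GeneralLinearGroup ι F) ∈
        setStab (SS1 e P f₁ c') := by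
    intro v y' hv hne
    subst hv
    rw [mem_setStab]
    intro v
    constructor
    · intro hv
      have h1 := hrefl y' _ hv
      rwa [rf_apply, rf_rf Q _ hne] at h1
    · intro hv
      exact hrefl y' v hv
  have hQv : Q (pt e P a y) ≠ 0 :=
    hQne _ (by rw [hfp, haa]; exact mul_ne_zero hc0 (mul_ne_zero hc' hyy))
  have hQs : Q (pt e P a y₀) = 0 := hQ0 _ (by rw [hfp, hy₀y₀, mul_zero, mul_zero])
  have hvs : QuadraticMap.polar ⇑Q (pt e P a y) (pt e P a y₀) = 0 := by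
    rw [hfp, hyy₀, mul_zero, mul_zero]
  have hQz : Q (pt e P a y + pt e P a y₀) ≠ 0 := by
    rw [QuadraticMap.map_add (⇑Q), hQs, hvs, add_zero, add_zero]
    exact hQv
  obtain ⟨hω₁u, hω₁fix⟩ := omegaE Q h3 (pt e P a y) (pt e P a y₀) hQv hQz hQs hvs
  refine ⟨setStab (SS1 e P f₁ c') ⊓ Cfsg.Geo.omegaGL ⇑Q, lt_of_le_of_ne ?_ ?_,
    lt_of_le_of_ne inf_le_right ?_⟩
  · intro g hg
    refine Subgroup.mem_inf.2 ⟨?_, (Subgroup.mem_inf.1 hg).2⟩
    rw [mem_setStab]
    intro v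
    constructor
    · intro hv
      have h1 := hstar g⁻¹ (inv_mem hg) _ hv
      rwa [Matrix.mulVec_mulVec, ← Units.val_mul, inv_mul_cancel, Units.val_one,
        Matrix.one_mulVec] at h1
    · exact hstar g hg v
  · intro heq
    have hS : ((⁅rf Q _ hQv, rf Q _ hQz⁆ : Cfsg.isometryGroup F ⇑Q) :
        Matrix.GeneralLinearGroup ι F) ∈ setStab (SS1 e P f₁ c') := by
      have h1 := hrfS _ y rfl hQv
      have h2' := hrfS _ (y + y₀) (pt_add_right e P a y y₀).symm hQz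
      rw [commutatorElement_def, Subgroup.coe_mul, Subgroup.coe_mul, Subgroup.coe_mul,
        Subgroup.coe_inv, Subgroup.coe_inv]
      exact mul_mem (mul_mem (mul_mem h1 h2') (inv_mem h1)) (inv_mem h2')
    have hΩ : ((⁅rf Q _ hQv, rf Q _ hQz⁆ : Cfsg.isometryGroup F ⇑Q) :
        Matrix.GeneralLinearGroup ι F) ∈ Cfsg.Geo.omegaGL ⇑Q := by
      refine ⟨⁅rf Q _ hQv, rf Q _ hQz⁆, ?_, rfl⟩
      show ⁅rf Q _ hQv, rf Q _ hQz⁆ ∈ commutator (Cfsg.isometryGroup F ⇑Q)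
      rw [commutator_def]
      exact Subgroup.commutator_mem_commutator (Subgroup.mem_top _) (Subgroup.mem_top _)
    have hmem := Subgroup.mem_inf.2 ⟨hS, hΩ⟩
    rw [← heq] at hmem
    obtain ⟨A, B, hAB⟩ := mem_tensor e P _ (Subgroup.mem_inf.1 hmem).1
    have e1 : ∀ u, pt e P (A.val *ᵥ b) (B.val *ᵥ u) = pt e P b u := by
      intro u
      rw [← hAB]
      exact hω₁fix _ (by rw [hfp, hab, zero_mul, mul_zero]) (by rw [hfp, hab, zero_mul, mul_zero])
    have e1' : ∀ u i j, (A.val *ᵥ b) i * (B.val *ᵥ u) j = b i * u j :=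
      fun u i j => congrFun (Phi_inj e P _ _ (e1 u)) (i, j)
    obtain ⟨jy, hjy⟩ : ∃ j, y j ≠ 0 := by
      by_contra hcon
      push_neg at hcon
      exact hy0 (funext hcon)
    have hf00 : f₁ 0 0 = 0 := form_zero f₁ hf₁.bilinear 0
    obtain ⟨i₀, hi₀⟩ : ∃ i₀, (A.val *ᵥ b) i₀ ≠ 0 := by
      by_contra hcon
      push_neg at hcon
      have hbz : b = 0 := by
        funext i
        have h1 := e1' y i jy
        rw [hcon i, zero_mul] at h1
        exact (mul_eq_zero.1 h1.symm).resolve_right hjy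
      rw [hbz, hf00] at hbb
      exact hc' hbb.symm
    have hB : ∀ u j, (B.val *ᵥ u) j = u j * (b i₀ / (A.val *ᵥ b) i₀) := by
      intro u j
      have h1 := e1' u i₀ j
      field_simp
      linear_combination h1
    have hsub : pt e P a y - pt e P a y₀ = pt e P a (y - y₀) := by
      rw [sub_eq_add_neg y y₀, pt_add_right, ← neg_one_smul F y₀, pt_smul_right, neg_one_smul,
        sub_eq_add_neg]
    have e2 := hAB a y
    rw [hω₁u, hsub] at e2
    have e2' : ∀ i j, a i * (y - y₀) j = (A.val *ᵥ a) i * (B.val *ᵥ y) j :=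
      fun i j => congrFun (Phi_inj e P _ _ e2) (i, j)
    obtain ⟨i₁, hi₁⟩ : ∃ i₁, a i₁ ≠ 0 := by
      by_contra hcon
      push_neg at hcon
      have haz : a = 0 := funext hcon
      rw [haz, hf00] at haa
      exact hc' haa.symm
    have e3 : ∀ j, y j - y₀ j = y j * ((b i₀ / (A.val *ᵥ b) i₀) * (A.val *ᵥ a) i₁ / a i₁) := by
      intro j
      have h1 := e2' i₁ j
      rw [hB] at h1
      simp only [Pi.sub_apply] at h1
      field_simp
      field_simp at h1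
      linear_combination h1
    have e4 : y₀ = (1 - ((b i₀ / (A.val *ᵥ b) i₀) * (A.val *ᵥ a) i₁ / a i₁)) • y := by
      funext j
      simp only [Pi.smul_apply, smul_eq_mul]
      linear_combination -(e3 j)
    have e5 := hyy₀
    rw [e4, hf₂.bilinear.smul_right] at e5
    have e6 := (mul_eq_zero.1 e5).resolve_right hyy
    apply hy₀0
    rw [e4, e6, zero_smul]
  · intro heq
    have hfs : f₁ (a + b + d) (a + b + d) = 0 := by
      simp only [hf₁.bilinear.add_left, hf₁.bilinear.add_right, haa, hbb, hdd, hab, had, hbd,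
        hba, hda, hdb]
      linear_combination c' * h3
    have hQs2 : Q (pt e P (a + b + d) y₂) = 0 := hQ0 _ (by rw [hfp, hfs, zero_mul, mul_zero])
    have hvs2 : QuadraticMap.polar ⇑Q (pt e P a y) (pt e P (a + b + d) y₂) = 0 := by
      rw [hfp, hyy₂, mul_zero, mul_zero]
    obtain ⟨ω₂, hω₂m, hω₂u, -⟩ :=
      exists_omega Q h3 (pt e P a y) (pt e P (a + b + d) y₂) hQv hQs2 hvs2
    have hmem : ω₂ ∈ setStab (SS1 e P f₁ c') ⊓ Cfsg.Geo.omegaGL ⇑Q := by
      rw [heq]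
      exact hω₂m
    have h1 := ((mem_setStab _ _).1 (Subgroup.mem_inf.1 hmem).1 (pt e P a y)).2 ⟨a, y, haa, rfl⟩
    rw [hω₂u] at h1
    obtain ⟨p, u, hp, hpu⟩ := h1
    have h2' : pt e P a y - pt e P (a + b + d) y₂ = Phi e P ((fun q => a q.1 * y q.2) +
        (-1 : F) • (fun q => (a + b + d) q.1 * y₂ q.2)) := by
      rw [Phi_add, Phi_smul, neg_one_smul, sub_eq_add_neg]
      rfl
    rw [h2'] at hpu
    have h4 : ∀ j, y j • a + (-(y₂ j)) • (a + b + d) = u j • p := by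
      intro j
      funext i
      have h5 := congrFun (Phi_inj e P _ _ hpu) (i, j)
      simp only [Pi.add_apply, Pi.smul_apply, smul_eq_mul] at h5 ⊢
      linear_combination h5
    have hy₂z : ∀ j, y₂ j = 0 := by
      intro j
      rcases hcase2 p hp with h | h
      · have h6 := congrArg (fun w => f₁ w b) (h4 j)
        simp only [hf₁.bilinear.add_left, hf₁.bilinear.smul_left, hab, hbb, hdb, h] at h6
        have h7 : y₂ j * c' = 0 := by linear_combination -h6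
        exact (mul_eq_zero.1 h7).resolve_right hc'
      · have h6 := congrArg (fun w => f₁ w d) (h4 j)
        simp only [hf₁.bilinear.add_left, hf₁.bilinear.smul_left, had, hbd, hdd, h] at h6
        have h7 : y₂ j * c' = 0 := by linear_combination -h6
        exact (mul_eq_zero.1 h7).resolve_right hc'
    exact hy₂0 (funext hy₂z)

end Main

/-- Let F be the field with 3 elements, m ≥ 6, Q the standard quadratic form on F^(2m+1) and Ω the commutator subgroup of its isometry group. Suppose the polar form of Q is similar, through P and e, to the tensor product of non-degenerate symmetric bilinear forms f₁ on F^3 and f₂ on F^(n₂) with 3 < n₂. Then the elements of Ω in the stabiliser of this tensor decomposition form a subgroup that is not maximal: some subgroup lies strictly between it and Ω. -/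
theorem result {F : Type*} [Field F] [Fintype F] (hq : Fintype.card F = 3) (m : ℕ) (hm : 6 ≤ m) (n₂ : ℕ) (h2 : 3 < n₂) (e : (Unit ⊕ (Fin m ⊕ Fin m)) ≃ Fin 3 × Fin n₂) (P : Matrix.GeneralLinearGroup (Unit ⊕ (Fin m ⊕ Fin m)) F) (f₁ : (Fin 3 → F) → (Fin 3 → F) → F) (f₂ : (Fin n₂ → F) → (Fin n₂ → F) → F) (hf₁ : Cfsg.Geo.IsSymmetricForm f₁) (hf₂ : Cfsg.Geo.IsSymmetricForm f₂) (hT : Cfsg.Geo.IsTensorFormStructure id (QuadraticMap.polar (Cfsg.quadFormOdd m F)) f₁ f₂ e P) : ∃ K : Subgroup (Matrix.GeneralLinearGroup (Unit ⊕ (Fin m ⊕ Fin m)) F), Cfsg.Geo.tensorProductSubgroup 3 n₂ e P ⊓ Cfsg.Geo.omegaGL (Cfsg.quadFormOdd m F) < K ∧ K < Cfsg.Geo.omegaGL (Cfsg.quadFormOdd m F) := by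
  classical
  have hco : ⇑(Cfsg.Agent.Lib_helper4_OOdd.QO m F) = Cfsg.quadFormOdd m F :=
    Cfsg.Agent.Lib_helper4_OOdd.coe_QO
  rw [← hco] at hT ⊢
  have h3 : (3 : F) = 0 := by
    have h0 := FiniteField.cast_card_eq_zero F
    rw [hq] at h0
    exact_mod_cast h0
  have hsq : ∀ x : F, x ≠ 0 → x ^ 2 = 1 := by
    intro x hx
    have h := FiniteField.pow_card_sub_one_eq_one x hx
    rwa [hq] at h
  exact tensor_orth_main (Cfsg.Agent.Lib_helper4_OOdd.QO m F) h3 hsq (by omega) e P f₁ f₂ hf₁ hf₂ hT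

end Cfsg.Agent.S5682
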