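import Cfsg.Statements.S5671
import Mathlib
import Cfsg.Agent.S5682
import Cfsg.Agent.S5656

set_option autoImplicit false
open Cfsg

namespace Cfsg.Agent.S5671

open Matrix
open scoped Kronecker
open Cfsg.Agent.Lib_helper4_Herm
open Cfsg.Agent.S5667 Cfsg.Agent.S5678 Cfsg.Agent.S5682

section Uni
variable {F : Type*} [Field F] {κ : Type} [Fintype κ] [DecidableEq κ]

theorem u_add_right (h2 : (2 : F) = 0) (f : (κ → F) → (κ → F) → F)
    (hf : Cfsg.Geo.IsUnitaryFormPow 2 f) (v w w' : κ → F) :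
    f v (w + w') = f v w + f v w' := by
  rw [hf.herm v (w + w'), hf.add_left, hf.herm v w, hf.herm v w']
  linear_combination (f w v * f w' v) * h2

theorem u_smul_right (f : (κ → F) → (κ → F) → F)
    (hf : Cfsg.Geo.IsUnitaryFormPow 2 f) (c : F) (v w : κ → F) :
    f v (c • w) = c ^ 2 * f v w := by
  rw [hf.herm v (c • w), hf.smul_left, hf.herm v w]
  ring

theorem u_self (f : (κ → F) → (κ → F) → F)
    (hf : Cfsg.Geo.IsUnitaryFormPow 2 f) (u : κ → F) : f u u = 0 ∨ f u u = 1 := by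
  have h := hf.herm u u
  have h1 : f u u * (f u u - 1) = 0 := by linear_combination (-1 : F) * h
  rcases mul_eq_zero.1 h1 with h | h
  · exact Or.inl h
  · right
    linear_combination h

theorem u_zero_left (f : (κ → F) → (κ → F) → F)
    (hf : Cfsg.Geo.IsUnitaryFormPow 2 f) (v : κ → F) : f 0 v = 0 := by
  have h := hf.smul_left 0 0 v
  rwa [zero_smul, zero_mul] at h

theorem sq_sum (h2 : (2 : F) = 0) (s : Finset κ) (g : κ → F) :
    (∑ i ∈ s, g i) ^ 2 = ∑ i ∈ s, (g i) ^ 2 := by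
  classical
  induction s using Finset.induction_on with
  | empty => simp
  | insert a s ha ih =>
    rw [Finset.sum_insert ha, Finset.sum_insert ha, ← ih]
    linear_combination (g a * ∑ i ∈ s, g i) * h2

theorem gram_eq_herm (h2 : (2 : F) = 0) (f : (κ → F) → (κ → F) → F)
    (hf : Cfsg.Geo.IsUnitaryFormPow 2 f) (x y : κ → F) :
    f x y = ∑ a, ∑ b, x a * Cfsg.Geo.gramMatrix f a b * (y b) ^ 2 := by
  have hL : ∀ (x w : κ → F), f x w = ∑ a, x a * f (Pi.single a 1) w := by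
    intro x w
    obtain ⟨L, hL⟩ : ∃ L : (κ → F) →ₗ[F] F, ∀ x, L x = f x w :=
      ⟨{ toFun := fun x => f x w
         map_add' := fun x y => hf.add_left x y w
         map_smul' := fun c x => by simp [hf.smul_left] }, fun _ => rfl⟩
    have hx : x = ∑ j, x j • (Pi.single j (1 : F) : κ → F) := by
      funext i
      simp [Finset.sum_apply, Pi.single_apply]
    calc f x w = L (∑ j, x j • (Pi.single j (1 : F) : κ → F)) := by rw [hL, ← hx]
      _ = ∑ a, x a * f (Pi.single a 1) w := by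
        rw [map_sum]
        apply Finset.sum_congr rfl
        intro a _
        rw [map_smul, smul_eq_mul, hL]
  rw [hL x y]
  apply Finset.sum_congr rfl
  intro a _
  rw [hf.herm (Pi.single a 1) y, hL y (Pi.single a 1), sq_sum h2, Finset.mul_sum]
  apply Finset.sum_congr rfl
  intro b _
  unfold Cfsg.Geo.gramMatrix
  rw [hf.herm (Pi.single a 1) (Pi.single b 1)]
  ring

theorem gf_pt_herm {n₁ n₂ : ℕ} (G₁ : Matrix (Fin n₁) (Fin n₁) F)
    (G₂ : Matrix (Fin n₂) (Fin n₂) F) (a a' : Fin n₁ → F) (u u' : Fin n₂ → F) :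
    (∑ p : Fin n₁ × Fin n₂, ∑ q : Fin n₁ × Fin n₂,
      (a p.1 * u p.2) * (G₁ ⊗ₖ G₂) p q * (a' q.1 * u' q.2) ^ 2) =
      (∑ i, ∑ i', a i * G₁ i i' * (a' i') ^ 2) * (∑ j, ∑ j', u j * G₂ j j' * (u' j') ^ 2) := by
  simp only [Fintype.sum_prod_type, Matrix.kroneckerMap_apply]
  rw [Finset.sum_mul_sum]
  apply Finset.sum_congr rfl
  intro i _
  apply Finset.sum_congr rfl
  intro j _
  rw [Finset.sum_mul_sum]
  apply Finset.sum_congr rfl
  intro i' _
  apply Finset.sum_congr rfl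
  intro j' _
  ring

theorem form_pt_herm {ι : Type} [Fintype ι] [DecidableEq ι] {n₁ n₂ : ℕ} (h2 : (2 : F) = 0)
    (f : (ι → F) → (ι → F) → F) (f₁ : (Fin n₁ → F) → (Fin n₁ → F) → F)
    (f₂ : (Fin n₂ → F) → (Fin n₂ → F) → F) (hf₁ : Cfsg.Geo.IsUnitaryFormPow 2 f₁)
    (hf₂ : Cfsg.Geo.IsUnitaryFormPow 2 f₂) (e : ι ≃ Fin n₁ × Fin n₂)
    (P : Matrix.GeneralLinearGroup ι F) (c : F)
    (hc : ∀ x y : Fin n₁ × Fin n₂ → F, f (P.val *ᵥ (x ∘ e)) (P.val *ᵥ (y ∘ e)) =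
      c * Cfsg.Geo.formOfGram (fun x : F => x ^ 2)
        (Cfsg.Geo.gramMatrix f₁ ⊗ₖ Cfsg.Geo.gramMatrix f₂) x y)
    (a a' : Fin n₁ → F) (u u' : Fin n₂ → F) :
    f (pt e P a u) (pt e P a' u') = c * (f₁ a a' * f₂ u u') := by
  unfold pt Phi
  rw [hc, gram_eq_herm h2 f₁ hf₁, gram_eq_herm h2 f₂ hf₂, ← gf_pt_herm]
  rfl

theorem exists_unit_vec [Fintype F] (hF : Fintype.card F = 4) (f : (κ → F) → (κ → F) → F)
    (hf : Cfsg.Geo.IsUnitaryFormPow 2 f) (k₀ : κ) : ∃ y : κ → F, f y y = 1 := by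
  have hu0 : (Pi.single k₀ (1 : F) : κ → F) ≠ 0 := by
    intro h
    have h1 := congrFun h k₀
    simp at h1
  obtain ⟨-, v, hv⟩ := hf.nondegenerate _ hu0
  obtain ⟨μ, hμ⟩ := Cfsg.Agent.S5656.exists_tr hF
  have h2 := Cfsg.Agent.S5656.two_zero hF
  rcases u_self f hf (Pi.single k₀ (1 : F)) with h1 | h1
  · rcases u_self f hf v with h4 | h4
    · have hne : f (Pi.single k₀ (1 : F) + (μ * f (Pi.single k₀ (1 : F)) v) • v)
          (Pi.single k₀ (1 : F) + (μ * f (Pi.single k₀ (1 : F)) v) • v) ≠ 0 := by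
        rw [hf.add_left, u_add_right h2 f hf, u_add_right h2 f hf, hf.smul_left, hf.smul_left,
          u_smul_right f hf, u_smul_right f hf, h1, h4, hf.herm v (Pi.single k₀ (1 : F))]
        have h3 := Cfsg.Agent.S5656.cube_one hF _ hv
        intro h5
        apply hμ
        linear_combination h5 - (μ ^ 2 + μ) * h3
      rcases u_self f hf (Pi.single k₀ (1 : F) + (μ * f (Pi.single k₀ (1 : F)) v) • v) with h5 | h5
      · exact absurd h5 hne
      · exact ⟨_, h5⟩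
    · exact ⟨v, h4⟩
  · exact ⟨_, h1⟩

theorem exists_perp_vec (f : (κ → F) → (κ → F) → F)
    (hf : Cfsg.Geo.IsUnitaryFormPow 2 f) (hκ : 2 ≤ Fintype.card κ) (a : κ → F) :
    ∃ b : κ → F, b ≠ 0 ∧ f b a = 0 := by
  obtain ⟨L, hL⟩ : ∃ L : (κ → F) →ₗ[F] F, ∀ x, L x = f x a :=
    ⟨{ toFun := fun x => f x a
       map_add' := fun x y => hf.add_left x y a
       map_smul' := fun c x => by simp [hf.smul_left] }, fun _ => rfl⟩
  have hker : LinearMap.ker L ≠ ⊥ := by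
    apply LinearMap.ker_ne_bot_of_finrank_lt
    rw [Module.finrank_self, Module.finrank_fintype_fun_eq_card]
    omega
  obtain ⟨x, hx, hx0⟩ := Submodule.exists_mem_ne_zero_of_ne_bot hker
  exact ⟨x, hx0, by rw [← hL]; exact LinearMap.mem_ker.1 hx⟩

theorem exists_iso_vec [Fintype F] (hF : Fintype.card F = 4) (f : (κ → F) → (κ → F) → F)
    (hf : Cfsg.Geo.IsUnitaryFormPow 2 f) (hκ : 2 ≤ Fintype.card κ) (k₀ : κ) :
    ∃ y y₀ : κ → F, f y y = 1 ∧ y₀ ≠ 0 ∧ f y₀ y₀ = 0 := by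
  have h2 := Cfsg.Agent.S5656.two_zero hF
  obtain ⟨y, hy⟩ := exists_unit_vec hF f hf k₀
  obtain ⟨y', hy'0, hy'⟩ := exists_perp_vec f hf hκ y
  rcases u_self f hf y' with h | h
  · exact ⟨y, y', hy, hy'0, h⟩
  · refine ⟨y, y + y', hy, ?_, ?_⟩
    · intro h0
      have h1 : f (y + y') y = 1 := by rw [hf.add_left, hy, hy', add_zero]
      rw [h0, u_zero_left f hf] at h1
      exact zero_ne_one h1
    · rw [hf.add_left, u_add_right h2 f hf, u_add_right h2 f hf, hy, h, hy', hf.herm y y', hy']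
      linear_combination h2

theorem exists_frame_u [Fintype F] (hF : Fintype.card F = 4)
    (f₁ : (Fin 2 → F) → (Fin 2 → F) → F) (hf₁ : Cfsg.Geo.IsUnitaryFormPow 2 f₁) :
    ∃ a b : Fin 2 → F, f₁ a a = 1 ∧ f₁ b b = 1 ∧ f₁ a b = 0 ∧ f₁ b a = 0 ∧
      ∀ p, f₁ p p = 1 → ∃ ζ : F, ζ ≠ 0 ∧ (p = ζ • a ∨ p = ζ • b) := by
  have h2 := Cfsg.Agent.S5656.two_zero hF
  obtain ⟨a, ha⟩ := exists_unit_vec hF f₁ hf₁ 0
  obtain ⟨b, hb0, hba⟩ := exists_perp_vec f₁ hf₁ (by simp) a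
  have hab : f₁ a b = 0 := by rw [hf₁.herm, hba]; ring
  have hind : ∀ s t : F, s • a + t • b = 0 → s = 0 ∧ t = 0 := by
    intro s t hst
    have h1 := congrArg (fun w => f₁ w a) hst
    simp only [hf₁.add_left, hf₁.smul_left, ha, hba, u_zero_left f₁ hf₁] at h1
    have hs : s = 0 := by linear_combination h1
    subst hs
    rw [zero_smul, zero_add] at hst
    exact ⟨rfl, (smul_eq_zero.1 hst).resolve_right hb0⟩
  have hfr : Module.finrank F (⊤ : Submodule F (Fin 2 → F)) = 2 := by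
    rw [finrank_top, Module.finrank_fin_fun]
  have hspan : ∀ p : Fin 2 → F, ∃ α β : F, p = α • a + β • b := fun p =>
    Cfsg.Agent.S5676.span2g ⊤ hfr a b Submodule.mem_top Submodule.mem_top hind p Submodule.mem_top
  have hbb : f₁ b b = 1 := by
    rcases u_self f₁ hf₁ b with h | h
    · exfalso
      obtain ⟨-, x, hx⟩ := hf₁.nondegenerate b hb0
      apply hx
      obtain ⟨α, β, rfl⟩ := hspan x
      rw [u_add_right h2 f₁ hf₁, u_smul_right f₁ hf₁, u_smul_right f₁ hf₁, hba, h]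
      ring
    · exact h
  refine ⟨a, b, ha, hbb, hab, hba, ?_⟩
  intro p hp
  obtain ⟨α, β, rfl⟩ := hspan p
  have h1 : α ^ 3 + β ^ 3 = 1 := by
    simp only [hf₁.add_left, hf₁.smul_left, u_add_right h2 f₁ hf₁, u_smul_right f₁ hf₁, ha, hbb,
      hab, hba] at hp
    linear_combination hp
  by_cases hα : α = 0
  · subst hα
    have hβ : β ≠ 0 := by
      rintro rfl
      norm_num at h1
    exact ⟨β, hβ, Or.inr (by rw [zero_smul, zero_add])⟩
  · by_cases hβ : β = 0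
    · subst hβ
      exact ⟨α, hα, Or.inl (by rw [zero_smul, add_zero])⟩
    · exfalso
      have e1 := Cfsg.Agent.S5656.cube_one hF α hα
      have e2 := Cfsg.Agent.S5656.cube_one hF β hβ
      have : (1 : F) = 0 := by linear_combination h1 - e1 - e2
      exact one_ne_zero this

end Uni


/-- Let F be the field with 4 elements (q = 2) and n = 2 n₂ ≥ 13. Suppose the standard unitary form Σ u_i v_i² on F^n is similar, through P and e, to the tensor product of non-degenerate unitary forms f₁ on F^2 and f₂ on F^(n₂). Then the elements of SU_n(2) in the stabiliser of this tensor decomposition form a subgroup that is not maximal: some subgroup lies strictly between it and SU_n(2). -/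
theorem result {F : Type*} [Field F] [Fintype F] (n : ℕ) (hF : Fintype.card F = 4) (hn : 13 ≤ n) (n₂ : ℕ) (e : Fin n ≃ Fin 2 × Fin n₂) (P : Matrix.GeneralLinearGroup (Fin n) F) (f₁ : (Fin 2 → F) → (Fin 2 → F) → F) (f₂ : (Fin n₂ → F) → (Fin n₂ → F) → F) (hf₁ : Cfsg.Geo.IsUnitaryFormPow 2 f₁) (hf₂ : Cfsg.Geo.IsUnitaryFormPow 2 f₂) (hT : Cfsg.Geo.IsTensorFormStructure (fun x : F => x ^ 2) (Cfsg.hermForm n F 2) f₁ f₂ e P) : ∃ K : Subgroup (Matrix.GeneralLinearGroup (Fin n) F), Cfsg.Geo.tensorProductSubgroup 2 n₂ e P ⊓ (Cfsg.GU n F 2 ⊓ Cfsg.Geo.specialLinear (Fin n) F) < K ∧ K < (Cfsg.GU n F 2 ⊓ Cfsg.Geo.specialLinear (Fin n) F) := by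
  have h2 := Cfsg.Agent.S5656.two_zero hF
  obtain ⟨c, hc0, hc⟩ := hT
  have hcard : n = 2 * n₂ := by
    have h := Fintype.card_congr e
    simpa using h
  have hn₂ : 7 ≤ n₂ := by omega
  obtain ⟨a, b, haa, hbb, hab, hba, huniq⟩ := exists_frame_u hF f₁ hf₁
  obtain ⟨y, y₀, hyy, hy₀0, hy₀y₀⟩ :=
    exists_iso_vec hF f₂ hf₂ (by rw [Fintype.card_fin]; omega) ⟨0, by omega⟩
  obtain ⟨⟨u₁, hu₁⟩, -⟩ := hf₂.nondegenerate y₀ hy₀0
  have hfp : ∀ (p p' : Fin 2 → F) (u u' : Fin n₂ → F),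
      Cfsg.hermForm n F 2 (pt e P p u) (pt e P p' u') = c * (f₁ p p' * f₂ u u') :=
    fun p p' u u' => form_pt_herm h2 (Cfsg.hermForm n F 2) f₁ f₂ hf₁ hf₂ e P c hc p p' u u'
  have hstar : ∀ g ∈ Cfsg.Geo.tensorProductSubgroup 2 n₂ e P ⊓
      (Cfsg.GU n F 2 ⊓ Cfsg.Geo.specialLinear (Fin n) F),
      ∀ w ∈ SS1 e P f₁ 1, g.val *ᵥ w ∈ SS1 e P f₁ 1 := by
    intro g hg w hw
    obtain ⟨hgT, hgI⟩ := Subgroup.mem_inf.1 hg
    have hgu : ∀ u w, Cfsg.hermForm n F 2 (g.val *ᵥ u) (g.val *ᵥ w) = Cfsg.hermForm n F 2 u w :=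
      (Subgroup.mem_inf.1 hgI).1
    obtain ⟨A, B, hAB⟩ := mem_tensor e P g hgT
    obtain ⟨p, u, hp, rfl⟩ := hw
    refine ⟨A.val *ᵥ p, B.val *ᵥ u, ?_, hAB p u⟩
    have h1 := hgu (pt e P p y) (pt e P p y)
    rw [hAB, hfp, hfp, hp, hyy] at h1
    have h3 : f₁ (A.val *ᵥ p) (A.val *ᵥ p) ≠ 0 := by
      intro h0
      rw [h0, zero_mul, mul_zero, mul_one, mul_one] at h1
      exact hc0 h1.symm
    exact (u_self f₁ hf₁ _).resolve_left h3
  have hinv : ∀ (v : Fin n → F), Cfsg.hermForm n F 2 v v = 0 → ∀ x,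
      Cfsg.unitaryTransvection n 2 v 1 *ᵥ (Cfsg.unitaryTransvection n 2 v 1 *ᵥ x) = x := by
    intro v hv x
    rw [Cfsg.Agent.S5656.tu_mulVec, Cfsg.Agent.S5656.tu_mulVec, herm_add_left, herm_smul_left,
      hv, mul_zero, add_zero, add_assoc, ← add_smul]
    have h0 : Cfsg.hermForm n F 2 x v + Cfsg.hermForm n F 2 x v = 0 := by
      linear_combination (Cfsg.hermForm n F 2 x v) * h2
    rw [h0, zero_smul, add_zero]
  have hv₁ : Cfsg.hermForm n F 2 (pt e P a y₀) (pt e P a y₀) = 0 := by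
    rw [hfp, hy₀y₀, mul_zero, mul_zero]
  have hv₂ : Cfsg.hermForm n F 2 (pt e P (a + b) y₀) (pt e P (a + b) y₀) = 0 := by
    rw [hfp, hy₀y₀, mul_zero, mul_zero]
  obtain ⟨g₁, hg₁v, hg₁I⟩ := Cfsg.Agent.S5656.exists_tu hF _ hv₁
  obtain ⟨g₂, hg₂v, hg₂I⟩ := Cfsg.Agent.S5656.exists_tu hF _ hv₂
  have hmap : ∀ w ∈ SS1 e P f₁ 1, g₁.val *ᵥ w ∈ SS1 e P f₁ 1 := by
    intro w hw
    obtain ⟨p, u, hp, rfl⟩ := hw
    rw [hg₁v, Cfsg.Agent.S5656.tu_mulVec, hfp]
    obtain ⟨ζ, hζ, h | h⟩ := huniq p hp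
    · refine ⟨p, u + ((c * (f₁ p a * f₂ u y₀)) * ζ⁻¹) • y₀, hp, ?_⟩
      have hpy : pt e P p y₀ = ζ • pt e P a y₀ := by rw [h, pt_smul_left]
      rw [pt_add_right, pt_smul_right, hpy, smul_smul, inv_mul_cancel_right₀ hζ]
    · have hz : f₁ p a = 0 := by rw [h, hf₁.smul_left, hba, mul_zero]
      rw [hz, zero_mul, mul_zero, zero_smul, add_zero]
      exact ⟨p, u, hp, rfl⟩
  have hg₁S : g₁ ∈ setStab (SS1 e P f₁ 1) := by
    rw [mem_setStab]
    intro v
    constructor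
    · intro hv
      have h1 := hmap _ hv
      rwa [hg₁v, hinv _ hv₁] at h1
    · exact hmap v
  have hκ : c * f₂ u₁ y₀ ≠ 0 := mul_ne_zero hc0 hu₁
  refine ⟨setStab (SS1 e P f₁ 1) ⊓ (Cfsg.GU n F 2 ⊓ Cfsg.Geo.specialLinear (Fin n) F),
    lt_of_le_of_ne ?_ ?_, lt_of_le_of_ne inf_le_right ?_⟩
  · intro g hg
    refine Subgroup.mem_inf.2 ⟨?_, (Subgroup.mem_inf.1 hg).2⟩
    rw [mem_setStab]
    intro v
    constructor
    · intro hv
      have h1 := hstar g⁻¹ (inv_mem hg) _ hv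
      rwa [Matrix.mulVec_mulVec, ← Units.val_mul, inv_mul_cancel, Units.val_one,
        Matrix.one_mulVec] at h1
    · exact hstar g hg v
  · intro heq
    have hmem : g₁ ∈ Cfsg.Geo.tensorProductSubgroup 2 n₂ e P ⊓
        (Cfsg.GU n F 2 ⊓ Cfsg.Geo.specialLinear (Fin n) F) := by
      rw [heq]
      exact Subgroup.mem_inf.2 ⟨hg₁S, hg₁I⟩
    obtain ⟨A, B, hAB⟩ := mem_tensor e P _ (Subgroup.mem_inf.1 hmem).1
    have e1 : ∀ u, pt e P (A.val *ᵥ b) (B.val *ᵥ u) = pt e P b u := by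
      intro u
      rw [← hAB, hg₁v, Cfsg.Agent.S5656.tu_mulVec, hfp, hba, zero_mul, mul_zero, zero_smul,
        add_zero]
    have e1' : ∀ u i j, (A.val *ᵥ b) i * (B.val *ᵥ u) j = b i * u j :=
      fun u i j => congrFun (Phi_inj e P _ _ (e1 u)) (i, j)
    have hy0 : y ≠ 0 := by
      rintro rfl
      rw [u_zero_left f₂ hf₂] at hyy
      exact zero_ne_one hyy
    obtain ⟨jy, hjy⟩ : ∃ j, y j ≠ 0 := by
      by_contra hcon
      push_neg at hcon
      exact hy0 (funext hcon)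
    obtain ⟨i₀, hi₀⟩ : ∃ i₀, (A.val *ᵥ b) i₀ ≠ 0 := by
      by_contra hcon
      push_neg at hcon
      have hbz : b = 0 := by
        funext i
        have h1 := e1' y i jy
        rw [hcon i, zero_mul] at h1
        exact (mul_eq_zero.1 h1.symm).resolve_right hjy
      rw [hbz, u_zero_left f₁ hf₁] at hbb
      exact zero_ne_one hbb
    have hB : ∀ u j, (B.val *ᵥ u) j = u j * (b i₀ / (A.val *ᵥ b) i₀) := by
      intro u j
      have h1 := e1' u i₀ j
      field_simp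
      linear_combination h1
    have e2 := hAB a u₁
    rw [hg₁v, Cfsg.Agent.S5656.tu_mulVec, hfp, haa, one_mul, ← pt_smul_right, ← pt_add_right]
      at e2
    have e2' : ∀ i j, a i * (u₁ + (c * f₂ u₁ y₀) • y₀) j = (A.val *ᵥ a) i * (B.val *ᵥ u₁) j :=
      fun i j => congrFun (Phi_inj e P _ _ e2) (i, j)
    obtain ⟨i₁, hi₁⟩ : ∃ i₁, a i₁ ≠ 0 := by
      by_contra hcon
      push_neg at hcon
      have haz : a = 0 := funext hcon
      rw [haz, u_zero_left f₁ hf₁] at haa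
      exact zero_ne_one haa
    obtain ⟨s, e4⟩ : ∃ s : F, y₀ = s • u₁ := by
      refine ⟨(((b i₀ / (A.val *ᵥ b) i₀) * (A.val *ᵥ a) i₁ / a i₁) - 1) / (c * f₂ u₁ y₀), ?_⟩
      funext j
      have h1 := e2' i₁ j
      rw [hB] at h1
      simp only [Pi.add_apply, Pi.smul_apply, smul_eq_mul] at h1 ⊢
      field_simp
      field_simp at h1
      linear_combination h1
    have hs : s ≠ 0 := by
      rintro rfl
      rw [zero_smul] at e4
      exact hy₀0 e4
    have e5 := hy₀y₀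
    rw [e4, hf₂.smul_left, u_smul_right f₂ hf₂] at e5
    have e6 : f₂ u₁ u₁ = 0 := by
      rcases mul_eq_zero.1 e5 with h | h
      · exact absurd h hs
      · rcases mul_eq_zero.1 h with h | h
        · exact absurd (pow_eq_zero_iff two_ne_zero |>.1 h) hs
        · exact h
    apply hu₁
    rw [e4, u_smul_right f₂ hf₂, e6, mul_zero]
  · intro heq
    have hmem : g₂ ∈ setStab (SS1 e P f₁ 1) ⊓
        (Cfsg.GU n F 2 ⊓ Cfsg.Geo.specialLinear (Fin n) F) := by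
      rw [heq]
      exact hg₂I
    have h1 := ((mem_setStab _ _).1 (Subgroup.mem_inf.1 hmem).1 (pt e P a u₁)).2
      ⟨a, u₁, haa, rfl⟩
    have hab1 : f₁ a (a + b) = 1 := by rw [u_add_right h2 f₁ hf₁, haa, hab, add_zero]
    rw [hg₂v, Cfsg.Agent.S5656.tu_mulVec, hfp, hab1, one_mul] at h1
    obtain ⟨p, u, hp, hpu⟩ := h1
    have h2' : pt e P a u₁ + (c * f₂ u₁ y₀) • pt e P (a + b) y₀ =
        Phi e P ((fun q => a q.1 * u₁ q.2) +
          (c * f₂ u₁ y₀) • (fun q => (a + b) q.1 * y₀ q.2)) := by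
      rw [Phi_add, Phi_smul]
      rfl
    rw [h2'] at hpu
    have h4 : ∀ j, u₁ j • a + (c * f₂ u₁ y₀ * y₀ j) • (a + b) = u j • p := by
      intro j
      funext i
      have h5 := congrFun (Phi_inj e P _ _ hpu) (i, j)
      simp only [Pi.add_apply, Pi.smul_apply, smul_eq_mul] at h5 ⊢
      linear_combination h5
    obtain ⟨ζ, hζ, h | h⟩ := huniq p hp
    · apply hy₀0
      funext j
      have h6 := congrArg (fun w => f₁ w b) (h4 j)
      simp only [hf₁.add_left, hf₁.smul_left, hab, hbb, h] at h6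
      have h7 : c * f₂ u₁ y₀ * y₀ j = 0 := by linear_combination h6
      exact (mul_eq_zero.1 h7).resolve_left hκ
    · apply hu₁
      have h7 : u₁ = (-(c * f₂ u₁ y₀)) • y₀ := by
        funext j
        have h6 := congrArg (fun w => f₁ w a) (h4 j)
        simp only [hf₁.add_left, hf₁.smul_left, haa, hba, h] at h6
        simp only [Pi.smul_apply, smul_eq_mul]
        linear_combination h6
      rw [h7, hf₂.smul_left, hy₀y₀, mul_zero]

end Cfsg.Agent.S5671
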