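import Cfsg.Statements.S5695
import Mathlib
import Cfsg.Agent.S5678

set_option autoImplicit false
open Cfsg

namespace Cfsg.Agent.S5695

open Matrix
open Cfsg.Agent.Lib_helper4_Quad Cfsg.Agent.Lib_helper4_Quad2 Cfsg.Agent.Lib_helper4_Orth
open Cfsg.Agent.S5676 Cfsg.Agent.S5690 Cfsg.Agent.S5678

section Blocks2
variable {ι : Type} [Fintype ι] [DecidableEq ι] {F : Type*} [Field F]

theorem exists_frame2 (Q : QuadraticForm F (ι → F)) (h3 : (3 : F) = 0)
    (hF : ∀ x : F, x ≠ 0 → x = 1 ∨ x = -1) (U : Submodule F (ι → F))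
    (hd : Module.finrank F U = 2)
    (hU : Cfsg.Geo.IsNondegenerateOn (QuadraticMap.polar ⇑Q) U)
    (hminus : ¬ Cfsg.Geo.IsPlusTypeOn ⇑Q U) :
    ∃ c : F, c ≠ 0 ∧ ∃ a b : ι → F, a ∈ U ∧ b ∈ U ∧ Q a = c ∧ Q b = c ∧
      QuadraticMap.polar ⇑Q a b = 0 ∧ ∀ x ∈ U, ∃ α β : F, x = α • a + β • b := by
  have h2 : (2 : F) ≠ 0 := by
    intro h
    have h1 : (1 : F) = 0 := by linear_combination h3 - h
    exact one_ne_zero h1
  obtain ⟨w, hwU, hwo, hwQ, hws⟩ := exists_orth_basis Q h2 U 2 hd hU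
  have hspan : ∀ x ∈ U, ∃ α β : F, x = α • w 0 + β • w 1 := by
    intro x hx
    obtain ⟨α, hα⟩ := hws x hx
    refine ⟨α 0, α 1, ?_⟩
    rw [hα, Fin.sum_univ_two]
  have h01 : QuadraticMap.polar ⇑Q (w 0) (w 1) = 0 := hwo 0 1 (by decide)
  by_cases hab : Q (w 0) = Q (w 1)
  · exact ⟨Q (w 0), hwQ 0, w 0, w 1, hwU 0, hwU 1, rfl, hab.symm, h01, hspan⟩
  · exfalso
    apply hminus
    have hneg : Q (w 1) = -Q (w 0) := by
      rcases hF _ (hwQ 0) with h | h <;> rcases hF _ (hwQ 1) with h' | h'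
      · exact absurd (h.trans h'.symm) hab
      · rw [h, h']
      · rw [h, h', neg_neg]
      · exact absurd (h.trans h'.symm) hab
    have hs : Q (w 0 + w 1) = 0 := by
      rw [QuadraticMap.map_add (⇑Q) (w 0) (w 1), hneg, h01]
      ring
    have hs0 : w 0 + w 1 ≠ 0 := by
      intro h0
      have h1 : QuadraticMap.polar ⇑Q (w 0) (w 0 + w 1) = 2 * Q (w 0) := by
        rw [QuadraticMap.polar_add_right, polar_self', h01, add_zero]
      rw [h0, QuadraticMap.polar_zero_right] at h1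
      exact mul_ne_zero h2 (hwQ 0) h1.symm
    refine ⟨Submodule.span F {w 0 + w 1}, ?_, ?_, ?_⟩
    · rw [Submodule.span_singleton_le_iff_mem]
      exact U.add_mem (hwU 0) (hwU 1)
    · intro x hx
      obtain ⟨r, rfl⟩ := Submodule.mem_span_singleton.1 hx
      rw [QuadraticMap.map_smul, hs, smul_zero]
    · rw [finrank_span_singleton hs0, hd]

theorem uniq2 (Q : QuadraticForm F (ι → F)) (h3 : (3 : F) = 0)
    (hF0 : ∀ x : F, x = 0 ∨ x = 1 ∨ x = -1) (c : F) (hc : c ≠ 0) (a b : ι → F)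
    (hQa : Q a = c) (hQb : Q b = c) (hab : QuadraticMap.polar ⇑Q a b = 0)
    (x : ι → F) (α β : F) (hx : x = α • a + β • b) (hQx : Q x = c) :
    x = a ∨ x = -a ∨ x = b ∨ x = -b := by
  have hsum : α * α + β * β = 1 := by
    rw [hx, QuadraticMap.map_add (⇑Q) (α • a) (β • b), QuadraticMap.map_smul,
      QuadraticMap.map_smul, QuadraticMap.polar_smul_left, QuadraticMap.polar_smul_right, hab,
      hQa, hQb] at hQx
    apply mul_left_cancel₀ hc
    simp only [smul_eq_mul, mul_zero, add_zero] at hQx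
    linear_combination hQx
  rcases hF0 α with rfl | rfl | rfl <;> rcases hF0 β with rfl | rfl | rfl <;>
    first
    | (exfalso; exact one_ne_zero (by linear_combination hsum))
    | (exfalso; exact one_ne_zero (by linear_combination h3 - hsum))
    | (exfalso; exact one_ne_zero (by linear_combination (-1 : F) * hsum))
    | (rw [hx]; simp)

theorem transport2 (Q : QuadraticForm F (ι → F)) (U U' : Submodule F (ι → F))
    (hiso : Cfsg.Geo.AreIsometricFor ⇑Q U U') (c : F) (a b : ι → F)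
    (ha : a ∈ U) (hb : b ∈ U) (hQa : Q a = c) (hQb : Q b = c)
    (hab : QuadraticMap.polar ⇑Q a b = 0)
    (hspan : ∀ x ∈ U, ∃ α β : F, x = α • a + β • b) :
    ∃ a' b' : ι → F, a' ∈ U' ∧ b' ∈ U' ∧ Q a' = c ∧ Q b' = c ∧
      QuadraticMap.polar ⇑Q a' b' = 0 ∧ ∀ x ∈ U', ∃ α β : F, x = α • a' + β • b' := by
  obtain ⟨e, he⟩ := hiso
  have hpol : ∀ x y : U, QuadraticMap.polar ⇑Q ((e x : U') : ι → F) ((e y : U') : ι → F) =
      QuadraticMap.polar ⇑Q (x : ι → F) (y : ι → F) := by
    intro x y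
    unfold QuadraticMap.polar
    rw [← Submodule.coe_add, ← map_add, he, he, he, Submodule.coe_add]
  refine ⟨_, _, (e ⟨a, ha⟩).2, (e ⟨b, hb⟩).2, (he _).trans hQa,
    (he _).trans hQb, (hpol _ _).trans hab, ?_⟩
  intro x hx
  obtain ⟨α, β, h⟩ := hspan _ (e.symm ⟨x, hx⟩).2
  refine ⟨α, β, ?_⟩
  have h1 : e.symm ⟨x, hx⟩ = α • (⟨a, ha⟩ : U) + β • (⟨b, hb⟩ : U) :=
    Subtype.ext h
  have h2 := congrArg e h1
  rw [LinearEquiv.apply_symm_apply, map_add, map_smul, map_smul] at h2
  have h3 := congrArg Subtype.val h2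
  simpa using h3

end Blocks2

/-- Let F be a finite field with q elements, n ≥ 13 even, Q a non-degenerate quadratic form on F^n of minus type (no subspace of dimension n/2 is totally singular), and Ω the commutator subgroup of the isometry group of Q, viewed inside GL_n(F). Suppose q = 3 and let D be a decomposition of F^n into t ≥ 2 pairwise orthogonal, pairwise Q-isometric subspaces of equal dimension k ∈ {2, 3} on which the polar form is non-degenerate (for k = 3 the discriminant of Q is a square; for k = 2, t is odd and no member is of plus type). Then the elements of Ω permuting the members of D form a subgroup that is not maximal: some subgroup lies strictly between it and Ω. -/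
theorem result {F : Type*} [Field F] [Fintype F] {n : ℕ} (hn : 13 ≤ n) (heven : Even n) (Q : (Fin n → F) → F) (hQ : Cfsg.Geo.IsNondegenerateQuadraticForm Q) (hminus : ¬ Cfsg.Geo.IsPlusTypeOn Q ⊤) (hq : Fintype.card F = 3) {t : ℕ} (k : ℕ) (hk : k = 2 ∨ k = 3) (D : Fin t → Submodule F (Fin n → F)) (hD : Cfsg.Geo.IsOrthogonalMDecomposition Q k D) (hko : Odd k → Cfsg.Geo.HasSquareDiscriminant Q) (hke : Even k → (Odd t ∧ ∀ i, ¬ Cfsg.Geo.IsPlusTypeOn Q (D i))) : ∃ K : Subgroup (Matrix.GeneralLinearGroup (Fin n) F), Cfsg.Geo.decompositionStabilizer D ⊓ Cfsg.Geo.omegaGL Q < K ∧ K < Cfsg.Geo.omegaGL Q := by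
  classical
  have h3 : (3 : F) = 0 := by
    have h0 := FiniteField.cast_card_eq_zero F
    rw [hq] at h0
    exact_mod_cast h0
  have hsq : ∀ x : F, x ≠ 0 → x ^ 2 = 1 := by
    intro x hx
    have h := FiniteField.pow_card_sub_one_eq_one x hx
    rwa [hq] at h
  have hF : ∀ x : F, x ≠ 0 → x = 1 ∨ x = -1 := by
    intro x hx
    have h : (x - 1) * (x + 1) = 0 := by linear_combination hsq x hx
    rcases mul_eq_zero.1 h with h | h
    · left
      linear_combination h
    · right
      linear_combination h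
  have hF0 : ∀ x : F, x = 0 ∨ x = 1 ∨ x = -1 := by
    intro x
    by_cases hx : x = 0
    · exact Or.inl hx
    · exact Or.inr (hF x hx)
  have hcard := dim_count' D hD.decomp.decomp
  rw [Fintype.card_fin] at hcard
  have ht : 3 ≤ t := by
    rcases hk with rfl | rfl <;> omega
  have key : ∃ K : Subgroup (Matrix.GeneralLinearGroup (Fin n) F),
      Cfsg.Geo.decompositionStabilizer D ⊓ Cfsg.Geo.omegaGL ⇑(mkQ Q hQ) < K ∧
        K < Cfsg.Geo.omegaGL ⇑(mkQ Q hQ) := by
    rcases hk with rfl | rfl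
    · obtain ⟨-, hminus⟩ := hke (by decide)
      obtain ⟨c, hc, a, b, ha, hb, hQa, hQb, hab, hsp⟩ :=
        exists_frame2 (mkQ Q hQ) h3 hF (D ⟨0, by omega⟩)
          (hD.decomp.decomp.finrank_eq _) (hD.decomp.nondegenerate _) (hminus _)
      have hall : ∀ i, ∃ a' b' : Fin n → F, a' ∈ D i ∧ b' ∈ D i ∧
          mkQ Q hQ a' = c ∧ mkQ Q hQ b' = c ∧
          QuadraticMap.polar ⇑(mkQ Q hQ) a' b' = 0 ∧
          ∀ x ∈ D i, ∃ α β : F, x = α • a' + β • b' :=
        fun i => transport2 (mkQ Q hQ) (D ⟨0, by omega⟩) (D i)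
          (hD.isometric _ i) c a b ha hb hQa hQb hab hsp
      choose fa fb hfa hfb hfQa hfQb hfab hfsp using hall
      refine frame_main (mkQ Q hQ) h3 D hD.decomp.orthogonal c hc
        (fun i => ![fa i, fb i]) ?_ ?_ ?_ ?_ ⟨0, by omega⟩ ⟨1, by omega⟩ ⟨2, by omega⟩
        (by simp [Fin.ext_iff]) (by simp [Fin.ext_iff]) (by simp [Fin.ext_iff]) 0 1 (by decide)
      · intro i j
        fin_cases j
        · exact hfa i
        · exact hfb i
      · intro i j
        fin_cases j
        · exact hfQa i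
        · exact hfQb i
      · intro i j j' hjj
        fin_cases j <;> fin_cases j'
        · exact absurd rfl hjj
        · exact hfab i
        · exact (QuadraticMap.polar_comm _ _ _).trans (hfab i)
        · exact absurd rfl hjj
      · intro i v hv hQv
        obtain ⟨α, β, hx⟩ := hfsp i v hv
        rcases uniq2 (mkQ Q hQ) h3 hF0 c hc (fa i) (fb i) (hfQa i)
          (hfQb i) (hfab i) v α β hx hQv with h | h | h | h
        · exact ⟨0, Or.inl h⟩
        · exact ⟨0, Or.inr h⟩
        · exact ⟨1, Or.inl h⟩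
        · exact ⟨1, Or.inr h⟩
    · obtain ⟨c, hc, a, b, d, ha, hb, hd, hQa, hQb, hQd, hab, had, hbd, hsp⟩ :=
        exists_frame3 (mkQ Q hQ) h3 hF (D ⟨0, by omega⟩)
          (hD.decomp.decomp.finrank_eq _) (hD.decomp.nondegenerate _)
      have hall : ∀ i, ∃ a' b' d' : Fin n → F, a' ∈ D i ∧ b' ∈ D i ∧ d' ∈ D i ∧
          mkQ Q hQ a' = c ∧ mkQ Q hQ b' = c ∧ mkQ Q hQ d' = c ∧
          QuadraticMap.polar ⇑(mkQ Q hQ) a' b' = 0 ∧
          QuadraticMap.polar ⇑(mkQ Q hQ) a' d' = 0 ∧
          QuadraticMap.polar ⇑(mkQ Q hQ) b' d' = 0 ∧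
          ∀ x ∈ D i, ∃ α β γ : F, x = α • a' + β • b' + γ • d' :=
        fun i => transport3 (mkQ Q hQ) (D ⟨0, by omega⟩) (D i)
          (hD.isometric _ i) c a b d ha hb hd hQa hQb hQd hab had hbd hsp
      choose fa fb fd hfa hfb hfd hfQa hfQb hfQd hfab hfad hfbd hfsp using hall
      refine frame_main (mkQ Q hQ) h3 D hD.decomp.orthogonal c hc
        (fun i => ![fa i, fb i, fd i]) ?_ ?_ ?_ ?_ ⟨0, by omega⟩ ⟨1, by omega⟩ ⟨2, by omega⟩
        (by simp [Fin.ext_iff]) (by simp [Fin.ext_iff]) (by simp [Fin.ext_iff]) 0 1 (by decide)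
      · intro i j
        fin_cases j
        · exact hfa i
        · exact hfb i
        · exact hfd i
      · intro i j
        fin_cases j
        · exact hfQa i
        · exact hfQb i
        · exact hfQd i
      · intro i j j' hjj
        fin_cases j <;> fin_cases j'
        · exact absurd rfl hjj
        · exact hfab i
        · exact hfad i
        · exact (QuadraticMap.polar_comm _ _ _).trans (hfab i)
        · exact absurd rfl hjj
        · exact hfbd i
        · exact (QuadraticMap.polar_comm _ _ _).trans (hfad i)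
        · exact (QuadraticMap.polar_comm _ _ _).trans (hfbd i)
        · exact absurd rfl hjj
      · intro i v hv hQv
        obtain ⟨α, β, γ, hx⟩ := hfsp i v hv
        rcases uniq3 (mkQ Q hQ) h3 hF0 c hc (fa i) (fb i) (fd i) (hfQa i)
          (hfQb i) (hfQd i) (hfab i) (hfad i) (hfbd i) v α β γ hx hQv with h | h | h | h | h | h
        · exact ⟨0, Or.inl h⟩
        · exact ⟨0, Or.inr h⟩
        · exact ⟨1, Or.inl h⟩
        · exact ⟨1, Or.inr h⟩
        · exact ⟨2, Or.inl h⟩
        · exact ⟨2, Or.inr h⟩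
  exact key

end Cfsg.Agent.S5695
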