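import Cfsg.Statements.S5705
import Mathlib
import Cfsg.Agent.S5682

set_option autoImplicit false
open Cfsg

namespace Cfsg.Agent.S5705

open Matrix
open scoped Kronecker
open Cfsg.Agent.S5667 Cfsg.Agent.S5676 Cfsg.Agent.S5678 Cfsg.Agent.S5682 Cfsg.Agent.S5690

section Gen
variable {ι : Type} [Fintype ι] [DecidableEq ι] {F : Type*} [Field F] {n₂ : ℕ}

/-- The matrix of multiplication by a primitive cube root of unity on `F₂²`. -/
def w0 : Matrix (Fin 2) (Fin 2) F := !![0, 1; 1, 1]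

/-- First basis vector. -/
def ea : Fin 2 → F := ![1, 0]

/-- Second basis vector. -/
def eb : Fin 2 → F := ![0, 1]

theorem ea0 : (ea : Fin 2 → F) 0 = 1 := rfl
theorem ea1 : (ea : Fin 2 → F) 1 = 0 := rfl
theorem eb0 : (eb : Fin 2 → F) 0 = 0 := rfl
theorem eb1 : (eb : Fin 2 → F) 1 = 1 := rfl

theorem w0_ea : (w0 : Matrix (Fin 2) (Fin 2) F) *ᵥ ea = eb := by
  funext i
  fin_cases i <;> simp [w0, ea, eb, Matrix.mulVec, dotProduct, Fin.sum_univ_two]

theorem w0_eb : (w0 : Matrix (Fin 2) (Fin 2) F) *ᵥ eb = ea + eb := by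
  funext i
  fin_cases i <;> simp [w0, ea, eb, Matrix.mulVec, dotProduct, Fin.sum_univ_two]

theorem w0_sq (p : Fin 2 → F) :
    (w0 : Matrix (Fin 2) (Fin 2) F) *ᵥ (w0 *ᵥ p) = p + w0 *ᵥ p := by
  funext i
  fin_cases i
  · simp [w0, Matrix.mulVec, dotProduct, Fin.sum_univ_two]
  · simp [w0, Matrix.mulVec, dotProduct, Fin.sum_univ_two]

theorem gl2_cases (hc2 : (2 : F) = 0) (hF : ∀ x : F, x = 0 ∨ x = 1)
    (A : Matrix (Fin 2) (Fin 2) F) (hA : A.det ≠ 0) :
    (∀ p, A *ᵥ (w0 *ᵥ p) = w0 *ᵥ (A *ᵥ p)) ∨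
      (∀ p, A *ᵥ (w0 *ᵥ p) = w0 *ᵥ (w0 *ᵥ (A *ᵥ p))) := by
  rw [Matrix.det_fin_two] at hA
  have h11' : (1 : F) + 1 = 0 := by rw [one_add_one_eq_two]; exact hc2
  have key : (A 0 1 = A 1 0 ∧ A 1 1 = A 0 0 + A 1 0) ∨
      (A 1 1 = A 0 0 ∧ A 0 1 = A 0 0 + A 1 0) := by
    rcases hF (A 0 0) with h00 | h00 <;> rcases hF (A 0 1) with h01 | h01 <;>
      rcases hF (A 1 0) with h10 | h10 <;> rcases hF (A 1 1) with h11 | h11 <;>
      simp [h00, h01, h10, h11, h11'] at hA ⊢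
  rcases key with ⟨k1, k2⟩ | ⟨k1, k2⟩
  · left
    intro p
    funext i
    fin_cases i
    · simp [w0, Matrix.mulVec, dotProduct, Fin.sum_univ_two, k1, k2]
      ring
    · simp [w0, Matrix.mulVec, dotProduct, Fin.sum_univ_two, k1, k2]
      ring
  · right
    intro p
    funext i
    fin_cases i
    · simp [w0, Matrix.mulVec, dotProduct, Fin.sum_univ_two, k1, k2]
      ring
    · simp [w0, Matrix.mulVec, dotProduct, Fin.sum_univ_two, k1, k2]
      linear_combination (-(A 1 0 * p 0 + A 0 0 * p 1)) * hc2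

/-- The map of the `F₄`-structure. -/
def Wm (e : ι ≃ Fin 2 × Fin n₂) (P : Matrix.GeneralLinearGroup ι F) : Matrix ι ι F :=
  P.val * ((w0 ⊗ₖ (1 : Matrix (Fin n₂) (Fin n₂) F)).submatrix e e) * (P⁻¹).val

theorem W_pt (e : ι ≃ Fin 2 × Fin n₂) (P : Matrix.GeneralLinearGroup ι F) (p : Fin 2 → F)
    (x : Fin n₂ → F) : Wm e P *ᵥ pt e P p x = pt e P (w0 *ᵥ p) x := by
  have h2 : ((fun q : Fin 2 × Fin n₂ => p q.1 * x q.2) ∘ e) ∘ e.symm =
      (fun q : Fin 2 × Fin n₂ => p q.1 * x q.2) := by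
    funext q
    simp
  have h3 : pt e P (w0 *ᵥ p) x = P.val *ᵥ ((fun q : Fin 2 × Fin n₂ =>
      (w0 *ᵥ p) q.1 * ((1 : Matrix (Fin n₂) (Fin n₂) F) *ᵥ x) q.2) ∘ e) := by
    rw [Matrix.one_mulVec]
    rfl
  rw [h3, ← kron_pt]
  show (P.val * ((w0 ⊗ₖ (1 : Matrix (Fin n₂) (Fin n₂) F)).submatrix e e) * (P⁻¹).val) *ᵥ
      (P.val *ᵥ ((fun q : Fin 2 × Fin n₂ => p q.1 * x q.2) ∘ e)) = _
  rw [← Matrix.mulVec_mulVec, ← Matrix.mulVec_mulVec, Matrix.mulVec_mulVec _ (P⁻¹).val,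
    ← Units.val_mul, inv_mul_cancel, Units.val_one, Matrix.one_mulVec,
    Matrix.submatrix_mulVec_equiv, h2]

theorem decomp (e : ι ≃ Fin 2 × Fin n₂) (P : Matrix.GeneralLinearGroup ι F) (v : ι → F) :
    ∃ x x' : Fin n₂ → F, v = pt e P ea x + pt e P eb x' := by
  refine ⟨fun j => ((P⁻¹).val *ᵥ v) (e.symm (0, j)), fun j => ((P⁻¹).val *ᵥ v) (e.symm (1, j)),
    ?_⟩
  unfold pt
  rw [← Phi_add]
  unfold Phi
  have h1 : ((fun q : Fin 2 × Fin n₂ => ea q.1 * ((P⁻¹).val *ᵥ v) (e.symm (0, q.2))) +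
      (fun q : Fin 2 × Fin n₂ => eb q.1 * ((P⁻¹).val *ᵥ v) (e.symm (1, q.2)))) ∘ e =
      (P⁻¹).val *ᵥ v := by
    funext k
    obtain ⟨q, rfl⟩ := e.symm.surjective k
    obtain ⟨i, j⟩ := q
    fin_cases i <;> simp [ea, eb]
  rw [h1, Matrix.mulVec_mulVec, ← Units.val_mul, mul_inv_cancel, Units.val_one,
    Matrix.one_mulVec]

theorem br_inj (e : ι ≃ Fin 2 × Fin n₂) (P : Matrix.GeneralLinearGroup ι F)
    (x x' y y' : Fin n₂ → F)
    (h : pt e P ea x + pt e P eb x' = pt e P ea y + pt e P eb y') : x = y ∧ x' = y' := by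
  unfold pt at h
  rw [← Phi_add, ← Phi_add] at h
  have h1 := Phi_inj e P _ _ h
  constructor
  · funext j
    have h2 := congrFun h1 (0, j)
    simpa [ea, eb] using h2
  · funext j
    have h2 := congrFun h1 (1, j)
    simpa [ea, eb] using h2

/-- The elements commuting with or inverting the `F₄`-structure, pointwise. -/
def CW (hc2 : (2 : F) = 0) (W : Matrix ι ι F) (hW : ∀ x, W *ᵥ (W *ᵥ x) = x + W *ᵥ x) :
    Subgroup (Matrix.GeneralLinearGroup ι F) where
  carrier := {g | ∀ v, g.val *ᵥ (W *ᵥ v) = W *ᵥ (g.val *ᵥ v) ∨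
    g.val *ᵥ (W *ᵥ v) = W *ᵥ (W *ᵥ (g.val *ᵥ v))}
  mul_mem' := by
    intro g h hg hh v
    have hxx : ∀ x : ι → F, x + x = 0 := fun x => by rw [← two_smul F x, hc2, zero_smul]
    simp only [Units.val_mul, ← Matrix.mulVec_mulVec]
    rcases hh v with h1 | h1
    · rw [h1]
      exact hg _
    · rw [h1, hW, Matrix.mulVec_add]
      rcases hg (h.val *ᵥ v) with h3 | h3
      · right
        rw [h3, hW]
      · left
        rw [h3, hW, ← add_assoc, hxx, zero_add]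
  one_mem' := by
    intro v
    left
    rw [Units.val_one, Matrix.one_mulVec, Matrix.one_mulVec]
  inv_mem' := by
    intro g hg v
    have hxx : ∀ x : ι → F, x + x = 0 := fun x => by rw [← two_smul F x, hc2, zero_smul]
    have hinv : ∀ z, (g⁻¹).val *ᵥ (g.val *ᵥ z) = z := fun z => by
      rw [Matrix.mulVec_mulVec, ← Units.val_mul, inv_mul_cancel, Units.val_one,
        Matrix.one_mulVec]
    obtain ⟨w, hw⟩ : ∃ w, w = (g⁻¹).val *ᵥ v := ⟨_, rfl⟩
    have hgw : g.val *ᵥ w = v := by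
      rw [hw, Matrix.mulVec_mulVec, ← Units.val_mul, mul_inv_cancel, Units.val_one,
        Matrix.one_mulVec]
    rw [← hw]
    rcases hg w with h1 | h1
    · left
      have h3 : g.val *ᵥ (W *ᵥ w) = W *ᵥ v := by rw [h1, hgw]
      rw [← h3, hinv]
    · right
      have h3 : W *ᵥ v = g.val *ᵥ (w + W *ᵥ w) := by
        rw [Matrix.mulVec_add, hgw, h1, hgw, hW, ← add_assoc, hxx, zero_add]
      rw [h3, hinv, hW]

theorem mem_CW (hc2 : (2 : F) = 0) (W : Matrix ι ι F) (hW : ∀ x, W *ᵥ (W *ᵥ x) = x + W *ᵥ x)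
    (g : Matrix.GeneralLinearGroup ι F) :
    g ∈ CW hc2 W hW ↔ ∀ v, g.val *ᵥ (W *ᵥ v) = W *ᵥ (g.val *ᵥ v) ∨
      g.val *ᵥ (W *ᵥ v) = W *ᵥ (W *ᵥ (g.val *ᵥ v)) := Iff.rfl

theorem exists_vecs2 (hF : ∀ x : F, x = 0 ∨ x = 1) (hn₂ : 2 < n₂)
    (f₂ : (Fin n₂ → F) → (Fin n₂ → F) → F) (hf₂ : Cfsg.Geo.IsSymplecticForm f₂) :
    ∃ s t s' : Fin n₂ → F, f₂ s t = 1 ∧ f₂ s s' = 0 ∧ f₂ t s' = 0 ∧ s' ≠ 0 := by
  have hs0 : (Pi.single (⟨0, by omega⟩ : Fin n₂) (1 : F) : Fin n₂ → F) ≠ 0 := by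
    intro h
    have h1 := congrFun h ⟨0, by omega⟩
    simp at h1
  obtain ⟨-, t, ht⟩ := hf₂.nondegenerate _ hs0
  obtain ⟨L, hL⟩ : ∃ L : (Fin n₂ → F) →ₗ[F] (Fin 2 → F), ∀ x, L x =
      ![f₂ (Pi.single ⟨0, by omega⟩ 1) x, f₂ t x] :=
    ⟨{ toFun := fun x => ![f₂ (Pi.single ⟨0, by omega⟩ 1) x, f₂ t x]
       map_add' := fun x y => by
         funext i
         fin_cases i <;> simp [hf₂.bilinear.add_right]
       map_smul' := fun c x => by
         funext i
         fin_cases i <;> simp [hf₂.bilinear.smul_right] }, fun _ => rfl⟩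
  have hker : LinearMap.ker L ≠ ⊥ := by
    apply LinearMap.ker_ne_bot_of_finrank_lt
    rw [Module.finrank_fin_fun, Module.finrank_fin_fun]
    exact hn₂
  obtain ⟨x, hx, hx0⟩ := Submodule.exists_mem_ne_zero_of_ne_bot hker
  have hx' := LinearMap.mem_ker.1 hx
  rw [hL] at hx'
  refine ⟨_, t, x, (hF _).resolve_left ht, ?_, ?_, hx0⟩
  · simpa using congrFun hx' 0
  · simpa using congrFun hx' 1

end Gen

section Main
variable {ι : Type} [Fintype ι] [DecidableEq ι] {F : Type*} [Field F]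

theorem tensor_sp2_main (Q : QuadraticForm F (ι → F)) (hc2 : (2 : F) = 0)
    (hF : ∀ x : F, x = 0 ∨ x = 1) {n₂ : ℕ} (hn₂ : 2 < n₂)
    (e : ι ≃ Fin 2 × Fin n₂) (P : Matrix.GeneralLinearGroup ι F)
    (f₁ : (Fin 2 → F) → (Fin 2 → F) → F) (f₂ : (Fin n₂ → F) → (Fin n₂ → F) → F)
    (hf₁ : Cfsg.Geo.IsSymplecticForm f₁) (hf₂ : Cfsg.Geo.IsSymplecticForm f₂)
    (hT : Cfsg.Geo.IsTensorFormStructure id (QuadraticMap.polar ⇑Q) f₁ f₂ e P)
    (hpure : ∀ (x₁ : Fin 2 → F) (x₂ : Fin n₂ → F), Q (Matrix.mulVec (P : Matrix ι ι F)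
      ((fun a : Fin 2 × Fin n₂ => x₁ a.1 * x₂ a.2) ∘ e)) = 0) :
    ∃ K : Subgroup (Matrix.GeneralLinearGroup ι F),
      Cfsg.Geo.tensorProductSubgroup 2 n₂ e P ⊓ Cfsg.Geo.omegaGL ⇑Q < K ∧
        K < Cfsg.Geo.omegaGL ⇑Q := by
  obtain ⟨c, hc0, hc⟩ := hT
  have hc1 : c = 1 := (hF c).resolve_left hc0
  subst hc1
  have hfp : ∀ (p p' : Fin 2 → F) (x x' : Fin n₂ → F),
      QuadraticMap.polar ⇑Q (pt e P p x) (pt e P p' x') = f₁ p p' * f₂ x x' := by
    intro p p' x x'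
    rw [form_pt (QuadraticMap.polar ⇑Q) f₁ f₂ hf₁.bilinear hf₂.bilinear e P 1 hc, one_mul]
  have hpu : ∀ (p : Fin 2 → F) (x : Fin n₂ → F), Q (pt e P p x) = 0 := fun p x => hpure p x
  have hxx : ∀ x : F, x + x = 0 := fun x => by linear_combination x * hc2
  have hsym₂ : ∀ x y, f₂ x y = f₂ y x := by
    intro x y
    rw [hf₂.skew x y]
    linear_combination (-(f₂ y x)) * hc2
  have hea0 : (ea : Fin 2 → F) ≠ 0 := by
    intro h
    have h1 := congrFun h 0
    rw [ea0] at h1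
    exact one_ne_zero h1
  have hab : f₁ ea eb = 1 := by
    rcases hF (f₁ ea eb) with h | h
    · exfalso
      obtain ⟨-, x, hx⟩ := hf₁.nondegenerate ea hea0
      apply hx
      have hx' : x = x 0 • ea + x 1 • eb := by
        funext i
        fin_cases i <;> simp [ea, eb]
      rw [hx', hf₁.bilinear.add_right, hf₁.bilinear.smul_right, hf₁.bilinear.smul_right,
        hf₁.alternating, h]
      ring
    · exact h
  have hba : f₁ eb ea = 1 := by
    rw [hf₁.skew, hab]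
    linear_combination (-1 : F) * hc2
  have haa : f₁ ea ea = 0 := hf₁.alternating _
  have hbb : f₁ eb eb = 0 := hf₁.alternating _
  have hpol : ∀ x x' y y' : Fin n₂ → F, QuadraticMap.polar ⇑Q (pt e P ea x + pt e P eb x')
      (pt e P ea y + pt e P eb y') = f₂ x y' + f₂ x' y := by
    intro x x' y y'
    rw [QuadraticMap.polar_add_left Q, QuadraticMap.polar_add_right Q,
      QuadraticMap.polar_add_right Q, hfp, hfp, hfp, hfp, haa, hbb, hab, hba]
    ring
  have hpolp : ∀ (x x' : Fin n₂ → F) (p : Fin 2 → F) (y : Fin n₂ → F),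
      QuadraticMap.polar ⇑Q (pt e P ea x + pt e P eb x') (pt e P p y) =
        f₁ ea p * f₂ x y + f₁ eb p * f₂ x' y := by
    intro x x' p y
    rw [QuadraticMap.polar_add_left Q, hfp, hfp]
  have hQb : ∀ x x' : Fin n₂ → F, Q (pt e P ea x + pt e P eb x') = f₂ x x' := by
    intro x x'
    rw [QuadraticMap.map_add (⇑Q), hpu, hpu, hfp, hab]
    ring
  have hWadd : ∀ x y, Wm e P *ᵥ (x + y) = Wm e P *ᵥ x + Wm e P *ᵥ y :=
    fun x y => Matrix.mulVec_add _ _ _
  have hW : ∀ x, Wm e P *ᵥ (Wm e P *ᵥ x) = x + Wm e P *ᵥ x := by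
    intro v
    obtain ⟨x, x', rfl⟩ := decomp e P v
    rw [hWadd, hWadd, W_pt, W_pt, W_pt, W_pt, w0_sq, w0_sq, pt_add_left, pt_add_left]
    abel
  have hWbr : ∀ x x' : Fin n₂ → F, Wm e P *ᵥ (pt e P ea x + pt e P eb x') =
      pt e P ea x' + pt e P eb (x + x') := by
    intro x x'
    rw [hWadd, W_pt, W_pt, w0_ea, w0_eb, pt_add_left, pt_add_right]
    abel
  obtain ⟨s, t, s', hst, hss', hts', hs'0⟩ := exists_vecs2 hF hn₂ f₂ hf₂
  have hQu : Q (pt e P ea s + pt e P eb t) = 1 := by rw [hQb, hst]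
  have hQw : Q (pt e P ea t + pt e P eb (s + t)) = 1 := by
    rw [hQb, hf₂.bilinear.add_right, hf₂.alternating, add_zero, hsym₂, hst]
  have huw : QuadraticMap.polar ⇑Q (pt e P ea s + pt e P eb t)
      (pt e P ea t + pt e P eb (s + t)) = 1 := by
    rw [hpol, hf₂.bilinear.add_right, hf₂.alternating, hf₂.alternating, hst]
    ring
  obtain ⟨ω₁, hω₁Ω, hω₁⟩ := exists_omega2 Q hc2 _ _ hQu hQw huw
  have hω₁C : ω₁ ∈ CW hc2 (Wm e P) hW := by
    rw [mem_CW]
    intro v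
    left
    obtain ⟨x, x', rfl⟩ := decomp e P v
    rw [hω₁, hω₁, hWbr, hpol, hpol, hpol, hpol, hWadd, hWadd, Matrix.mulVec_smul,
      Matrix.mulVec_smul, hWbr, hWbr, hWbr]
    simp only [pt_add_right, hf₂.bilinear.add_right, hf₂.bilinear.add_left]
    funext k
    simp only [Pi.add_apply, Pi.smul_apply, smul_eq_mul]
    linear_combination (-(f₂ t x) * (pt e P ea s k + pt e P eb t k) +
      (f₂ t x' - f₂ t x) * (pt e P ea t k + pt e P eb s k + pt e P eb t k)) * hc2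
  have hω₁as : ω₁.val *ᵥ pt e P ea s = pt e P eb t := by
    rw [hω₁, hpolp, hpolp, haa, hba, hf₂.bilinear.add_left, hf₂.alternating, hsym₂ t s, hst]
    funext k
    simp only [Pi.add_apply, Pi.smul_apply, smul_eq_mul]
    linear_combination (pt e P ea s k + (pt e P ea t k + pt e P eb (s + t) k)) * hc2
  have hω₁as' : ω₁.val *ᵥ pt e P ea s' = pt e P ea s' := by
    rw [hω₁, hpolp, hpolp, haa, hba, hf₂.bilinear.add_left, hss', hts']
    simp
  have ht0 : ∃ j, t j ≠ 0 := by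
    by_contra hcon
    push_neg at hcon
    have h0 : t = 0 := funext hcon
    rw [h0, hsym₂, form_zero f₂ hf₂.bilinear] at hst
    exact zero_ne_one hst
  have hs0 : ∃ j, s' j ≠ 0 := by
    by_contra hcon
    push_neg at hcon
    exact hs'0 (funext hcon)
  refine ⟨CW hc2 (Wm e P) hW ⊓ Cfsg.Geo.omegaGL ⇑Q, lt_of_le_of_ne ?_ ?_,
    lt_of_le_of_ne inf_le_right ?_⟩
  · intro g hg
    refine Subgroup.mem_inf.2 ⟨?_, (Subgroup.mem_inf.1 hg).2⟩
    obtain ⟨A, B, hAB⟩ := mem_tensor e P g (Subgroup.mem_inf.1 hg).1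
    have hdet : A.val.det ≠ 0 := by
      rw [← Matrix.GeneralLinearGroup.val_det_apply]
      exact (Matrix.GeneralLinearGroup.det A).ne_zero
    rw [mem_CW]
    rcases gl2_cases hc2 hF A.val hdet with hcomm | hcomm
    · have hp1 : ∀ (p : Fin 2 → F) (x : Fin n₂ → F), g.val *ᵥ (Wm e P *ᵥ pt e P p x) =
          Wm e P *ᵥ (g.val *ᵥ pt e P p x) := by
        intro p x
        rw [W_pt, hAB, hAB, W_pt, hcomm]
      intro v
      left
      obtain ⟨x, x', rfl⟩ := decomp e P v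
      simp only [Matrix.mulVec_add]
      rw [hp1, hp1]
    · have hp1 : ∀ (p : Fin 2 → F) (x : Fin n₂ → F), g.val *ᵥ (Wm e P *ᵥ pt e P p x) =
          Wm e P *ᵥ (Wm e P *ᵥ (g.val *ᵥ pt e P p x)) := by
        intro p x
        rw [W_pt, hAB, hAB, W_pt, W_pt, hcomm]
      intro v
      right
      obtain ⟨x, x', rfl⟩ := decomp e P v
      simp only [Matrix.mulVec_add]
      rw [hp1, hp1]
  · intro heq
    have hmem : ω₁ ∈ Cfsg.Geo.tensorProductSubgroup 2 n₂ e P ⊓ Cfsg.Geo.omegaGL ⇑Q := by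
      rw [heq]
      exact Subgroup.mem_inf.2 ⟨hω₁C, hω₁Ω⟩
    obtain ⟨A, B, hAB⟩ := mem_tensor e P _ (Subgroup.mem_inf.1 hmem).1
    have e1 := hAB ea s
    rw [hω₁as] at e1
    have e2 := hAB ea s'
    rw [hω₁as'] at e2
    have e1' : ∀ i j, eb i * t j = (A.val *ᵥ ea) i * (B.val *ᵥ s) j :=
      fun i j => congrFun (Phi_inj e P _ _ e1) (i, j)
    have e2' : ∀ i j, ea i * s' j = (A.val *ᵥ ea) i * (B.val *ᵥ s') j :=
      fun i j => congrFun (Phi_inj e P _ _ e2) (i, j)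
    obtain ⟨j₁, hj₁⟩ := hs0
    obtain ⟨j₂, hj₂⟩ := ht0
    have h1 := e2' 0 j₁
    have h3 := e1' 1 j₂
    have h4 := e1' 0 j₂
    rw [ea0, one_mul] at h1
    rw [eb1, one_mul] at h3
    rw [eb0, zero_mul] at h4
    have hA0 : (A.val *ᵥ ea) 0 ≠ 0 := by
      intro h0
      rw [h0, zero_mul] at h1
      exact hj₁ h1
    have hB0 : (B.val *ᵥ s) j₂ ≠ 0 := by
      intro h0
      rw [h0, mul_zero] at h3
      exact hj₂ h3
    exact mul_ne_zero hA0 hB0 h4.symm
  · intro heq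
    have hwτ : QuadraticMap.polar ⇑Q (pt e P ea t + pt e P eb (s + t)) (pt e P ea s') = 0 := by
      rw [hpolp, haa, hba, hf₂.bilinear.add_left, hss', hts']
      ring
    have huτ : QuadraticMap.polar ⇑Q (pt e P ea s + pt e P eb t) (pt e P ea s') = 0 := by
      rw [hpolp, haa, hba, hss', hts']
      ring
    have hQz : Q (pt e P ea t + pt e P eb (s + t) + pt e P ea s') = 1 := by
      rw [QuadraticMap.map_add (⇑Q), hQw, hpu, hwτ]
      ring
    have huz : QuadraticMap.polar ⇑Q (pt e P ea s + pt e P eb t)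
        (pt e P ea t + pt e P eb (s + t) + pt e P ea s') = 1 := by
      rw [QuadraticMap.polar_add_right Q, huw, huτ, add_zero]
    obtain ⟨ω₂, hω₂Ω, hω₂⟩ := exists_omega2 Q hc2 _ _ hQu hQz huz
    have hmem : ω₂ ∈ CW hc2 (Wm e P) hW ⊓ Cfsg.Geo.omegaGL ⇑Q := by
      rw [heq]
      exact hω₂Ω
    have hC := (mem_CW hc2 (Wm e P) hW ω₂).1 (Subgroup.mem_inf.1 hmem).1
      (pt e P ea s + pt e P eb t)
    have huu : QuadraticMap.polar ⇑Q (pt e P ea s + pt e P eb t)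
        (pt e P ea s + pt e P eb t) = 0 := by
      rw [hpol, hsym₂ t s]
      exact hxx _
    have hzu : QuadraticMap.polar ⇑Q (pt e P ea t + pt e P eb (s + t) + pt e P ea s')
        (pt e P ea s + pt e P eb t) = 1 := by
      rw [QuadraticMap.polar_comm]
      exact huz
    have hzw : QuadraticMap.polar ⇑Q (pt e P ea t + pt e P eb (s + t) + pt e P ea s')
        (pt e P ea t + pt e P eb (s + t)) = 0 := by
      rw [QuadraticMap.polar_add_left Q, QuadraticMap.polar_comm (⇑Q) (pt e P ea s') _, hwτ,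
        add_zero, hpol, hsym₂ (s + t) t]
      exact hxx _
    have h1 : ω₂.val *ᵥ (pt e P ea s + pt e P eb t) = (pt e P ea s + pt e P eb t) +
        (pt e P ea t + pt e P eb (s + t) + pt e P ea s') := by
      rw [hω₂, huu, hzu, zero_smul, add_zero, zero_add, one_smul]
    have h2 : ω₂.val *ᵥ (pt e P ea t + pt e P eb (s + t)) = (pt e P ea s + pt e P eb t) +
        pt e P ea s' := by
      rw [hω₂, huw, hzw, add_zero, one_smul, one_smul]
      funext k
      simp only [Pi.add_apply]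
      linear_combination (pt e P ea t k + pt e P eb (s + t) k) * hc2
    have hWuz : Wm e P *ᵥ ((pt e P ea s + pt e P eb t) +
        (pt e P ea t + pt e P eb (s + t) + pt e P ea s')) =
        (pt e P ea s + pt e P eb t) + pt e P eb s' := by
      rw [hWadd (pt e P ea s + pt e P eb t), hWadd (pt e P ea t + pt e P eb (s + t)), hWbr,
        hWbr, W_pt, w0_ea]
      simp only [pt_add_right]
      funext k
      simp only [Pi.add_apply]
      linear_combination (pt e P ea t k + pt e P eb t k + pt e P eb s k) * hc2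
    rw [hWbr, h1, h2, hW, hWuz] at hC
    rcases hC with hC | hC
    · obtain ⟨j₁, hj₁⟩ := hs0
      have h3 := congrFun (Phi_inj e P _ _ (add_left_cancel hC)) (0, j₁)
      simp only [ea0, eb0, one_mul, zero_mul] at h3
      exact hj₁ h3
    · have h3 : pt e P ea s + pt e P eb t = pt e P ea t + pt e P eb (s + t + s') := by
        rw [pt_add_right e P eb (s + t) s']
        funext k
        have h5 := congrFun hC k
        simp only [Pi.add_apply] at h5 ⊢
        linear_combination h5 + (pt e P ea s k + pt e P eb t k) * hc2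
      have h4 := (br_inj e P _ _ _ _ h3).1
      rw [← h4, hf₂.alternating] at hst
      exact zero_ne_one hst

end Main


/-- Let F be the field with 2 elements, n = 2 n₂ ≥ 13 even, Q a non-degenerate quadratic form on F^n of plus type and Ω the commutator subgroup of its isometry group. Suppose that, through P and e, the polar form of Q is similar to the tensor product of non-degenerate symplectic forms f₁ on F^2 and f₂ on F^(n₂), and Q vanishes on the images of all pure tensors. Then the elements of Ω in the stabiliser of this tensor decomposition form a subgroup that is not maximal: some subgroup lies strictly between it and Ω. -/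
theorem result {F : Type*} [Field F] [Fintype F] {n : ℕ} (hn : 13 ≤ n) (heven : Even n) (Q : (Fin n → F) → F) (hQ : Cfsg.Geo.IsNondegenerateQuadraticForm Q) (hplus : Cfsg.Geo.IsPlusTypeOn Q ⊤) (hq : Fintype.card F = 2) (n₂ : ℕ) (h2 : 2 < n₂) (e : (Fin n) ≃ Fin 2 × Fin n₂) (P : Matrix.GeneralLinearGroup (Fin n) F) (f₁ : (Fin 2 → F) → (Fin 2 → F) → F) (f₂ : (Fin n₂ → F) → (Fin n₂ → F) → F) (hf₁ : Cfsg.Geo.IsSymplecticForm f₁) (hf₂ : Cfsg.Geo.IsSymplecticForm f₂) (hT : Cfsg.Geo.IsTensorFormStructure id (QuadraticMap.polar Q) f₁ f₂ e P) (hpure : (∀ (x₁ : Fin 2 → F) (x₂ : Fin n₂ → F), Q (Matrix.mulVec (P : Matrix (Fin n) (Fin n) F) ((fun a : Fin 2 × Fin n₂ => x₁ a.1 * x₂ a.2) ∘ e)) = 0)) : ∃ K : Subgroup (Matrix.GeneralLinearGroup (Fin n) F), Cfsg.Geo.tensorProductSubgroup 2 n₂ e P ⊓ Cfsg.Geo.omegaGL Q < K ∧ K < Cfsg.Geo.omegaGL Q := by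
  have hc2 : (2 : F) = 0 := by
    have h0 := FiniteField.cast_card_eq_zero F
    rw [hq] at h0
    exact_mod_cast h0
  have hF : ∀ x : F, x = 0 ∨ x = 1 := by
    intro x
    by_cases hx : x = 0
    · exact Or.inl hx
    · right
      have h := FiniteField.pow_card_sub_one_eq_one x hx
      rw [hq] at h
      simpa using h
  exact tensor_sp2_main (mkQ Q hQ) hc2 hF h2 e P f₁ f₂ hf₁ hf₂ hT hpure

end Cfsg.Agent.S5705
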