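import Cfsg.Statements.S5944


set_option autoImplicit false
open Cfsg

namespace Cfsg.Agent.S5944

/-- For n ≠ 4, every proper subgroup of the symmetric group S_n other than the alternating group A_n has index at least n. -/
theorem result (n : ℕ) (hn : n ≠ 4) (H : Subgroup (Equiv.Perm (Fin n))) (hH : H ≠ ⊤) (hA : H ≠ alternatingGroup (Fin n)) : n ≤ H.index := by
  by_contra hlt
  rw [not_le] at hlt
  have hidx0 : H.index ≠ 0 := Subgroup.index_ne_zero_of_finite
  have hidx1 : H.index ≠ 1 := fun h => hH (Subgroup.index_eq_one.mp h)
  have key : alternatingGroup (Fin n) ≤ H := by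
    rcases Nat.lt_or_ge n 5 with h5 | h5
    · have hi2 : H.index = 2 := by omega
      rw [← Equiv.Perm.closure_three_cycles_eq_alternating, Subgroup.closure_le]
      intro g hg
      have h3 : g ^ 3 = 1 := hg.orderOf ▸ pow_orderOf_eq_one g
      have h4 : g = (g ^ 2) ^ 2 := by
        rw [← pow_mul]
        calc g = g ^ 3 * g := by rw [h3, one_mul]
          _ = g ^ (2 * 2) := by group
      rw [SetLike.mem_coe, h4]
      exact Subgroup.sq_mem_of_index_two hi2 _
    · have hcore : H.normalCore.index ∣ H.index.factorial := by
        rw [Subgroup.normalCore_eq_ker, Subgroup.index_ker, Subgroup.index_eq_card, ← Nat.card_perm]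
        exact Subgroup.card_subgroup_dvd_card (MulAction.toPermHom _ _).range
      have hnt : Nontrivial H.normalCore := by
        rw [Subgroup.nontrivial_iff_ne_bot]
        intro hbot
        have h1 : H.normalCore.index = n.factorial := by
          rw [hbot, Subgroup.index_bot, Nat.card_perm, Nat.card_fin]
        rw [h1] at hcore
        have h2 := Nat.le_of_dvd (Nat.factorial_pos _) hcore
        have h3 := (Nat.factorial_lt (by omega : 0 < H.index)).mpr hlt
        omega
      have h6 := Equiv.Perm.alternatingGroup_le_of_normal (α := Fin n) (by simpa using h5) hnt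
      exact h6.trans (Subgroup.normalCore_le H)
  have hnontriv : Nontrivial (Fin n) := Fin.nontrivial_iff_two_le.mpr (by omega)
  have h2 := alternatingGroup.index_eq_two (α := Fin n)
  have hdvd : H.index ∣ 2 := h2 ▸ Subgroup.index_dvd_of_le key
  have hi2 : H.index = 2 := by
    have := Nat.le_of_dvd (by norm_num) hdvd
    omega
  apply hA
  symm
  apply Subgroup.eq_of_le_of_card_ge key
  have e1 := Subgroup.card_mul_index H
  have e2 := Subgroup.card_mul_index (alternatingGroup (Fin n))
  rw [hi2] at e1
  rw [h2] at e2
  omega

end Cfsg.Agent.S5944
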