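import Cfsg.Statements.S5952
import Mathlib

set_option autoImplicit false
open Cfsg

namespace Cfsg.Agent.S5952

theorem exists_sub {F V : Type*} [Field F] [AddCommGroup V] [Module F V]
    [FiniteDimensional F V] (X : Submodule F V) : ∀ k, k ≤ Module.finrank F X →
    ∃ Y : Submodule F V, Y ≤ X ∧ Module.finrank F Y = k := by
  intro k
  induction k with
  | zero =>
    intro _
    exact ⟨⊥, bot_le, finrank_bot F V⟩
  | succ k ih =>
    intro hk
    obtain ⟨Y, hYX, hY⟩ := ih (by omega)
    have hlt : Y < X := lt_of_le_of_ne hYX (by rintro rfl; omega)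
    obtain ⟨x, hxX, hxY⟩ := SetLike.exists_of_lt hlt
    refine ⟨Y ⊔ Submodule.span F {x},
      sup_le hYX ((Submodule.span_singleton_le_iff_mem _ _).2 hxX), ?_⟩
    have hdisj : Y ⊓ Submodule.span F {x} = ⊥ := by
      rw [Submodule.eq_bot_iff]
      intro z hz
      obtain ⟨hzY, hzx⟩ := Submodule.mem_inf.1 hz
      obtain ⟨c, rfl⟩ := Submodule.mem_span_singleton.1 hzx
      by_contra hne
      have hc : c ≠ 0 := by
        rintro rfl
        exact hne (zero_smul _ _)
      apply hxY
      have h1 := Y.smul_mem c⁻¹ hzY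
      rwa [smul_smul, inv_mul_cancel₀ hc, one_smul] at h1
    have hx0 : x ≠ 0 := by
      rintro rfl
      exact hxY Y.zero_mem
    have h := Submodule.finrank_sup_add_finrank_inf_eq Y (Submodule.span F {x})
    rw [hdisj, finrank_bot, add_zero, finrank_span_singleton hx0, hY] at h
    exact h

/-- Which dimensions of invariant subspaces a semisimple linear map has. Let `V` be a finite-dimensional vector space over a field `F` and `f` an invertible semisimple linear map of `V`. Suppose `V` is the internal direct sum of the fixed space `C_V(f)` (the eigenspace for 1) and subspaces `U_1, …, U_s`, each `f`-invariant of dimension `a ≥ 1` on which `f` acts irreducibly (no `f`-invariant subspaces other than 0 and `U_j`). Let `0 < m < dim V` and `ℓ = m mod a`. Then `f` leaves some `m`-dimensional subspace invariant if and only if `dim C_V(f) ≥ m`, or `a ≤ m` and `dim C_V(f) ≥ ℓ`. -/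
theorem result {F V : Type*} [Field F] [AddCommGroup V] [Module F V]
    [FiniteDimensional F V] (f : V →ₗ[F] V) (hf : Function.Bijective f) (hss : Module.End.IsSemisimple f)
    {s a : ℕ} (ha : 1 ≤ a) (U : Fin s → Submodule F V)
    (hUinv : ∀ j, (U j).map f ≤ U j) (hUdim : ∀ j, Module.finrank F ↥(U j) = a)
    (hUirr : ∀ j, ∀ W : Submodule F V, W ≤ U j → W.map f ≤ W → W = ⊥ ∨ W = U j)
    (hdec : DirectSum.IsInternal (fun o : Option (Fin s) => o.elim (Module.End.eigenspace f 1) U))
    (m : ℕ) (hm : 0 < m) (hmV : m < Module.finrank F V) :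
    (∃ W : Submodule F V, Module.finrank F ↥W = m ∧ W.map f ≤ W) ↔
    (m ≤ Module.finrank F ↥(Module.End.eigenspace f 1) ∨
      (a ≤ m ∧ m % a ≤ Module.finrank F ↥(Module.End.eigenspace f 1))) := by
  classical
  obtain ⟨hind, htop⟩ := (DirectSum.isInternal_submodule_iff_iSupIndep_and_iSup_eq_top _).1 hdec
  obtain ⟨C, hC⟩ : ∃ C : Submodule F V, C = Module.End.eigenspace f 1 := ⟨_, rfl⟩
  rw [← hC]
  rw [← hC] at hind htop
  have hCinv : ∀ X : Submodule F V, X ≤ C → X.map f ≤ X := by
    intro X hX
    rintro _ ⟨x, hx, rfl⟩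
    have h1 : x ∈ Module.End.eigenspace f 1 := hC ▸ hX hx
    rw [Module.End.mem_eigenspace_iff, one_smul] at h1
    rw [h1]
    exact hx
  obtain ⟨T, hT⟩ : ∃ T : ℕ → Submodule F V,
      ∀ j, T j = ⨆ (i : Fin s) (_ : i.val < j), U i := ⟨_, fun _ => rfl⟩
  have hTinv : ∀ j, (T j).map f ≤ T j := by
    intro j
    rw [hT, Submodule.map_iSup]
    apply iSup_mono
    intro i
    rw [Submodule.map_iSup]
    apply iSup_mono
    intro _
    exact hUinv i
  have hTsucc : ∀ j (hj : j < s), T (j + 1) = T j ⊔ U ⟨j, hj⟩ := by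
    intro j hj
    rw [hT, hT]
    apply le_antisymm
    · apply iSup₂_le
      intro i hi
      by_cases h : i.val < j
      · exact le_sup_of_le_left (le_iSup₂_of_le i h le_rfl)
      · have h1 : i = ⟨j, hj⟩ := Fin.ext (by simp only; omega)
        rw [h1]
        exact le_sup_right
    · apply sup_le
      · apply iSup₂_le
        intro i hi
        exact le_iSup₂_of_le i (by omega) le_rfl
      · exact le_iSup₂_of_le ⟨j, hj⟩ (by simp only; omega) le_rfl
  have hT0 : T 0 = ⊥ := by
    rw [hT]
    simp
  have hdisj : ∀ j (hj : j < s), (C ⊔ T j) ⊓ U ⟨j, hj⟩ = ⊥ := by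
    intro j hj
    have h1 := hind (some ⟨j, hj⟩)
    have h2 : C ⊔ T j ≤ ⨆ (o : Option (Fin s)) (_ : o ≠ some ⟨j, hj⟩), o.elim C U := by
      apply sup_le
      · exact le_iSup₂_of_le none (by simp) (le_of_eq rfl)
      · rw [hT]
        apply iSup₂_le
        intro i hi
        refine le_iSup₂_of_le (some i) ?_ (le_of_eq rfl)
        intro h3
        have h4 := Option.some.inj h3
        rw [h4] at hi
        exact lt_irrefl _ hi
    rw [inf_comm]
    exact (h1.mono_right h2).eq_bot
  have hA : ∀ X : Submodule F V, X ≤ C → ∀ j, j ≤ s →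
      Module.finrank F ↥(X ⊔ T j) = Module.finrank F X + a * j := by
    intro X hX j
    induction j with
    | zero =>
      intro _
      rw [hT0, sup_bot_eq, mul_zero, add_zero]
    | succ j ih =>
      intro hj
      have hj' : j < s := by omega
      have h1 := Submodule.finrank_sup_add_finrank_inf_eq (X ⊔ T j) (U ⟨j, hj'⟩)
      have h2 : (X ⊔ T j) ⊓ U ⟨j, hj'⟩ = ⊥ := by
        apply le_bot_iff.1
        rw [← hdisj j hj']
        exact inf_le_inf_right _ (sup_le_sup_right hX _)
      rw [h2, finrank_bot, add_zero, hUdim, ih (by omega)] at h1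
      rw [hTsucc j hj', ← sup_assoc, h1]
      ring
  have htop' : C ⊔ T s = ⊤ := by
    rw [eq_top_iff, ← htop]
    apply iSup_le
    intro o
    cases o with
    | none => exact le_sup_left
    | some i =>
      refine le_sup_of_le_right ?_
      rw [hT]
      exact le_iSup₂_of_le i i.2 le_rfl
  constructor
  · rintro ⟨W, hWm, hWinv⟩
    have hchain : ∀ j, j ≤ s → ∃ k, Module.finrank F ↥(W ⊔ (C ⊔ T j)) + a * k +
        Module.finrank F ↥(W ⊓ C) = Module.finrank F ↥(C ⊔ T j) + m := by
      intro j
      induction j with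
      | zero =>
        intro _
        refine ⟨0, ?_⟩
        rw [hT0, sup_bot_eq, mul_zero, add_zero, Submodule.finrank_sup_add_finrank_inf_eq, hWm,
          add_comm]
      | succ j ih =>
        intro hj
        have hj' : j < s := by omega
        obtain ⟨k, hk⟩ := ih (by omega)
        have hXinv : (W ⊔ (C ⊔ T j)).map f ≤ W ⊔ (C ⊔ T j) := by
          rw [Submodule.map_sup, Submodule.map_sup]
          exact sup_le_sup hWinv (sup_le_sup (hCinv C le_rfl) (hTinv j))
        have hIinv : ((W ⊔ (C ⊔ T j)) ⊓ U ⟨j, hj'⟩).map f ≤ (W ⊔ (C ⊔ T j)) ⊓ U ⟨j, hj'⟩ :=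
          (Submodule.map_inf_le f).trans (inf_le_inf hXinv (hUinv _))
        have h1 := Submodule.finrank_sup_add_finrank_inf_eq (W ⊔ (C ⊔ T j)) (U ⟨j, hj'⟩)
        have h2 : W ⊔ (C ⊔ T (j + 1)) = (W ⊔ (C ⊔ T j)) ⊔ U ⟨j, hj'⟩ := by
          rw [hTsucc j hj', sup_assoc, sup_assoc]
        have h3 := hA C le_rfl j (by omega)
        have h4 := hA C le_rfl (j + 1) hj
        rw [hUdim] at h1
        rw [h2]
        rcases hUirr ⟨j, hj'⟩ _ inf_le_right hIinv with h5 | h5
        · rw [h5, finrank_bot, add_zero] at h1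
          refine ⟨k, ?_⟩
          rw [h1, h4]
          rw [h3] at hk
          rw [Nat.mul_add, Nat.mul_one]
          omega
        · rw [h5, hUdim] at h1
          refine ⟨k + 1, ?_⟩
          rw [h4]
          rw [h3] at hk
          rw [Nat.mul_add, Nat.mul_one, Nat.mul_add, Nat.mul_one]
          omega
    obtain ⟨k, hk⟩ := hchain s le_rfl
    rw [htop', sup_top_eq] at hk
    have hwc : Module.finrank F ↥(W ⊓ C) ≤ Module.finrank F ↥C :=
      Submodule.finrank_mono inf_le_right
    by_cases hk0 : k = 0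
    · left
      subst hk0
      omega
    · right
      have h6 : m = a * k + Module.finrank F ↥(W ⊓ C) := by omega
      constructor
      · have h7 : a ≤ a * k := Nat.le_mul_of_pos_right a (by omega)
        omega
      · rw [h6, Nat.mul_add_mod]
        exact (Nat.mod_le _ _).trans hwc
  · intro h
    have hV : Module.finrank F V = Module.finrank F C + a * s := by
      have h1 := hA C le_rfl s le_rfl
      rw [htop', finrank_top] at h1
      exact h1
    obtain ⟨c, k, hmck, hc, hk⟩ : ∃ c k, m = c + a * k ∧ c ≤ Module.finrank F C ∧ k ≤ s := by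
      rcases h with h | ⟨h1, h2⟩
      · exact ⟨m, 0, by simp, h, Nat.zero_le _⟩
      · by_cases hq : m / a ≤ s
        · exact ⟨m % a, m / a, (Nat.mod_add_div m a).symm, h2, hq⟩
        · have h3 : a * s ≤ a * (m / a) := Nat.mul_le_mul_left a (by omega)
          have h4 : a * (m / a) ≤ m := Nat.mul_div_le m a
          refine ⟨m - a * s, s, ?_, ?_, le_rfl⟩
          · omega
          · omega
    obtain ⟨X, hXC, hX⟩ := exists_sub C c hc
    refine ⟨X ⊔ T k, ?_, ?_⟩
    · rw [hA X hXC k hk, hX, hmck]
    · rw [Submodule.map_sup]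
      exact sup_le_sup (hCinv X hXC) (hTinv k)

end Cfsg.Agent.S5952
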